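import Cfsg.Statements.S2578
import Cfsg.Agent.Helper43.RegNilp2

set_option autoImplicit false
open Cfsg

namespace Cfsg.Agent.S2578

open Cfsg.Agent.Helper43 Matrix

section

variable {F : Type*} [Field F]

/-- lower shift matrix -/
def shift (n : ℕ) : Matrix (Fin n) (Fin n) F :=
  Matrix.of fun i j => if (j : ℕ) + 1 = (i : ℕ) then 1 else 0

theorem shift_apply (n : ℕ) (i j : Fin n) :
    (shift n : Matrix (Fin n) (Fin n) F) i j = if (j : ℕ) + 1 = (i : ℕ) then 1 else 0 := rfl

theorem shift_pow (n : ℕ) (k : ℕ) (i j : Fin n) :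
    ((shift n : Matrix (Fin n) (Fin n) F) ^ k) i j = if (j : ℕ) + k = (i : ℕ) then 1 else 0 := by
  induction k generalizing i j with
  | zero =>
    rw [pow_zero, Matrix.one_apply]
    simp only [add_zero]
    by_cases h : i = j
    · subst h; simp
    · rw [if_neg h, if_neg]
      intro h'
      exact h (Fin.ext h'.symm)
  | succ k ih =>
    rw [pow_succ', Matrix.mul_apply]
    by_cases h : (j : ℕ) + k < n
    · rw [Finset.sum_eq_single ⟨(j:ℕ) + k, h⟩]
      · rw [ih, if_pos rfl, mul_one, shift_apply]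
        simp only [add_assoc]
      · intro l _ hl
        rw [ih, if_neg, mul_zero]
        intro h'
        exact hl (Fin.ext h'.symm)
      · intro h'; exact absurd (Finset.mem_univ _) h'
    · rw [Finset.sum_eq_zero]
      · rw [if_neg]; have := i.isLt; omega
      · intro l _
        rw [ih, if_neg, mul_zero]
        have := l.isLt; omega

theorem shift_pow_self (n : ℕ) : (shift n : Matrix (Fin n) (Fin n) F) ^ n = 0 := by
  ext i j
  rw [shift_pow, if_neg, Matrix.zero_apply]
  have := i.isLt; omega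

theorem shift_mulVec_succ (n : ℕ) (x : Fin n → F) (j : Fin n) (hj : (j : ℕ) + 1 < n) :
    ((shift n : Matrix (Fin n) (Fin n) F) *ᵥ x) ⟨(j:ℕ) + 1, hj⟩ = x j := by
  rw [Matrix.mulVec, dotProduct, Finset.sum_eq_single j]
  · rw [shift_apply, if_pos rfl, one_mul]
  · intro l _ hl
    rw [shift_apply, if_neg, zero_mul]
    intro h'
    exact hl (Fin.ext (by simpa using h'))
  · intro h'; exact absurd (Finset.mem_univ _) h'

theorem shift_rank (n : ℕ) (hn : 1 ≤ n) : (shift n : Matrix (Fin n) (Fin n) F).rank = n - 1 := by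
  have h1 := LinearMap.finrank_range_add_finrank_ker
    (Matrix.mulVecLin (shift n : Matrix (Fin n) (Fin n) F))
  rw [Module.finrank_fintype_fun_eq_card, Fintype.card_fin] at h1
  have h2 : 1 ≤ Module.finrank F
      (LinearMap.ker (Matrix.mulVecLin (shift n : Matrix (Fin n) (Fin n) F))) := by
    have h := finrank_ker_pow_le (Matrix.mulVecLin (shift n : Matrix (Fin n) (Fin n) F)) n
    rw [← mulVecLin_pow, shift_pow_self] at h
    have h0 : LinearMap.ker (Matrix.mulVecLin (0 : Matrix (Fin n) (Fin n) F)) = ⊤ := by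
      rw [Matrix.mulVecLin_zero]; exact LinearMap.ker_zero
    rw [h0, finrank_top, Module.finrank_fintype_fun_eq_card, Fintype.card_fin] at h
    by_contra hcon
    have h00 : Module.finrank F
      (LinearMap.ker (Matrix.mulVecLin (shift n : Matrix (Fin n) (Fin n) F))) = 0 := by omega
    rw [h00] at h; omega
  have h3 : Module.finrank F
      (LinearMap.ker (Matrix.mulVecLin (shift n : Matrix (Fin n) (Fin n) F))) ≤ 1 := by
    let f : LinearMap.ker (Matrix.mulVecLin (shift n : Matrix (Fin n) (Fin n) F)) →ₗ[F] F :=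
      (LinearMap.proj (⟨n - 1, by omega⟩ : Fin n)).comp (Submodule.subtype _)
    have hf : Function.Injective f := by
      rw [← LinearMap.ker_eq_bot, LinearMap.ker_eq_bot']
      intro x hx
      have hx0 : (shift n : Matrix (Fin n) (Fin n) F) *ᵥ (x : Fin n → F) = 0 := x.2
      apply Subtype.ext
      funext j
      by_cases hj : (j : ℕ) + 1 < n
      · have := congrFun hx0 ⟨(j:ℕ)+1, hj⟩
        rw [shift_mulVec_succ] at this
        simpa using this
      · have hj' : j = ⟨n - 1, by omega⟩ := Fin.ext (by have := j.isLt; simp; omega)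
        rw [hj']; exact hx
    have := LinearMap.finrank_le_finrank_of_injective hf
    rwa [Module.finrank_self] at this
  show Module.finrank F (LinearMap.range _) = n - 1
  omega

theorem commute_shift_entry (n : ℕ) (hn : 0 < n) (g : Matrix (Fin n) (Fin n) F)
    (hg : g * shift n = shift n * g) (i j : Fin n) :
    g i j = if h : (j : ℕ) ≤ (i : ℕ) then
      g ⟨(i : ℕ) - (j : ℕ), by have := i.isLt; omega⟩ ⟨0, hn⟩ else 0 := by
  have hk : g * shift n ^ (j : ℕ) = shift n ^ (j : ℕ) * g :=
    (Commute.pow_right (show Commute g (shift n) from hg) _)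
  have h1 := congrFun (congrFun hk i) ⟨0, hn⟩
  rw [Matrix.mul_apply, Matrix.mul_apply] at h1
  rw [Finset.sum_eq_single j] at h1
  · rw [shift_pow, if_pos (by simp), mul_one] at h1
    rw [h1]
    split_ifs with h
    · rw [Finset.sum_eq_single ⟨(i:ℕ) - (j:ℕ), by have := i.isLt; omega⟩]
      · rw [shift_pow, if_pos (by simp; omega), one_mul]
      · intro l _ hl
        rw [shift_pow, if_neg, zero_mul]
        intro h'
        exact hl (Fin.ext (by simp; omega))
      · intro h'; exact absurd (Finset.mem_univ _) h'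
    · apply Finset.sum_eq_zero
      intro l _
      rw [shift_pow, if_neg, zero_mul]
      omega
  · intro l _ hl
    rw [shift_pow, if_neg, mul_zero]
    intro h'
    exact hl (Fin.ext (by simpa using h'.symm))
  · intro h'; exact absurd (Finset.mem_univ _) h'

theorem det_of_commute_shift (n : ℕ) (hn : 0 < n) (g : Matrix (Fin n) (Fin n) F)
    (hg : g * shift n = shift n * g) : g.det = (g ⟨0, hn⟩ ⟨0, hn⟩) ^ n := by
  rw [Matrix.det_of_isLowerTriangular]
  · have : ∀ i : Fin n, g i i = g ⟨0, hn⟩ ⟨0, hn⟩ := by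
      intro i
      rw [commute_shift_entry n hn g hg i i, dif_pos le_rfl]
      congr 1
      exact Fin.ext (by simp)
    rw [Finset.prod_congr rfl (fun i _ => this i), Finset.prod_const, Finset.card_univ,
      Fintype.card_fin]
  · intro i j hij
    have hij' : i < j := hij
    rw [commute_shift_entry n hn g hg i j, dif_neg]
    exact not_le.mpr hij'

theorem exists_conj_shift (n : ℕ) (hn : 0 < n) (M : Matrix (Fin n) (Fin n) F)
    (hnil : M ^ n = 0) (hrank : M.rank = n - 1) :
    ∃ P : Matrix (Fin n) (Fin n) F, IsUnit P.det ∧ P * shift n = M * P := by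
  have hR : RegNilp (Matrix.mulVecLin M) := by
    refine ⟨⟨n, by rw [← mulVecLin_pow, hnil]; simp⟩, ?_, ?_⟩
    · rw [Module.finrank_fintype_fun_eq_card, Fintype.card_fin]; exact hrank
    · rw [Module.finrank_fintype_fun_eq_card, Fintype.card_fin]; exact hn
  obtain ⟨v, hv⟩ := hR.exists_cyclic
  let P : Matrix (Fin n) (Fin n) F := Matrix.of fun i k => ((M ^ (k : ℕ)) *ᵥ v) i
  have hPM : P * shift n = M * P := by
    ext i j
    rw [Matrix.mul_apply, Matrix.mul_apply]
    have hR : ∑ l, M i l * P l j = ((M ^ ((j:ℕ) + 1)) *ᵥ v) i := by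
      rw [pow_succ', ← Matrix.mulVec_mulVec]
      rfl
    rw [hR]
    by_cases hj : (j : ℕ) + 1 < n
    · rw [Finset.sum_eq_single ⟨(j:ℕ)+1, hj⟩]
      · rw [shift_apply, if_pos rfl, mul_one]; rfl
      · intro l _ hl
        rw [shift_apply, if_neg, mul_zero]
        intro h'
        exact hl (Fin.ext h'.symm)
      · intro h'; exact absurd (Finset.mem_univ _) h'
    · have hj' : (j:ℕ) + 1 = n := by have := j.isLt; omega
      rw [hj', hnil, Matrix.zero_mulVec]
      apply Finset.sum_eq_zero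
      intro l _
      rw [shift_apply, if_neg, mul_zero]
      have := l.isLt; omega
  refine ⟨P, ?_, hPM⟩
  rw [← Matrix.isUnit_iff_isUnit_det, ← Matrix.mulVec_surjective_iff_isUnit]
  have htop : LinearMap.range (Matrix.mulVecLin P) = ⊤ := by
    apply hR.eq_top_of_mem hv
    · rintro _ ⟨x, rfl⟩
      refine ⟨shift n *ᵥ x, ?_⟩
      simp only [Matrix.mulVecLin_apply, Matrix.mulVec_mulVec, hPM]
    · refine ⟨Pi.single ⟨0, hn⟩ 1, ?_⟩
      rw [Matrix.mulVecLin_apply]
      funext i
      rw [Matrix.mulVec_single_one]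
      simp [P]
  intro y
  have : y ∈ LinearMap.range (Matrix.mulVecLin P) := by rw [htop]; trivial
  obtain ⟨x, hx⟩ := this
  exact ⟨x, hx⟩

theorem det_one_add_shift (n : ℕ) : (1 + shift n : Matrix (Fin n) (Fin n) F).det = 1 := by
  rw [Matrix.det_of_isLowerTriangular]
  · apply Finset.prod_eq_one
    intro i _
    rw [Matrix.add_apply, Matrix.one_apply_eq, shift_apply, if_neg (by omega), add_zero]
  · intro i j hij
    have hij' : i < j := hij
    rw [Matrix.add_apply, Matrix.one_apply_ne (ne_of_lt hij'), shift_apply, if_neg, zero_add]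
    have : (i : ℕ) < (j : ℕ) := hij'
    omega

/-- regular unipotent -/
def RU (n : ℕ) (u : Matrix.SpecialLinearGroup (Fin n) F) : Prop :=
  ((u : Matrix (Fin n) (Fin n) F) - 1) ^ n = 0 ∧
    ((u : Matrix (Fin n) (Fin n) F) - 1).rank = n - 1

/-- `P` conjugates the standard regular unipotent to `u` -/
def Good (n : ℕ) (u : Matrix.SpecialLinearGroup (Fin n) F) (P : Matrix (Fin n) (Fin n) F) :
    Prop :=
  IsUnit P.det ∧ P * (1 + shift n) = (u : Matrix (Fin n) (Fin n) F) * P

theorem exists_good (n : ℕ) (hn : 0 < n) (u : Matrix.SpecialLinearGroup (Fin n) F)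
    (h : RU n u) : ∃ P, Good n u P := by
  obtain ⟨P, hP, hPM⟩ := exists_conj_shift n hn _ h.1 h.2
  refine ⟨P, hP, ?_⟩
  rw [mul_add, mul_one, hPM, sub_mul, one_mul]
  abel

theorem good_inv {n : ℕ} {u : Matrix.SpecialLinearGroup (Fin n) F}
    {P : Matrix (Fin n) (Fin n) F} (h : Good n u P) :
    (1 + shift n) * P⁻¹ = P⁻¹ * (u : Matrix (Fin n) (Fin n) F) := by
  have h1 : P⁻¹ * P = 1 := Matrix.nonsing_inv_mul P h.1
  have h2 : P * P⁻¹ = 1 := Matrix.mul_nonsing_inv P h.1
  calc (1 + shift n) * P⁻¹ = P⁻¹ * (P * (1 + shift n)) * P⁻¹ := by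
        rw [← Matrix.mul_assoc, h1, Matrix.one_mul]
    _ = P⁻¹ * (u * P) * P⁻¹ := by rw [h.2]
    _ = P⁻¹ * u := by rw [Matrix.mul_assoc, Matrix.mul_assoc, h2, Matrix.mul_one]

theorem key (n : ℕ) (hn : 0 < n) (u u' : Matrix.SpecialLinearGroup (Fin n) F)
    (P P' : Matrix (Fin n) (Fin n) F) (h : Good n u P) (h' : Good n u' P') :
    IsConj u u' ↔ ∃ a : Fˣ, P'.det = P.det * (a : F) ^ n := by
  have hP0 : P.det ≠ 0 := h.1.ne_zero
  have hP'0 : P'.det ≠ 0 := h'.1.ne_zero
  constructor
  · intro hc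
    obtain ⟨s, hs⟩ := isConj_iff.mp hc
    have hs' : (s : Matrix (Fin n) (Fin n) F) * u = u' * s := by
      have h0 : s * u = u' * s := by rw [← hs]; group
      have := congrArg
        (fun x : Matrix.SpecialLinearGroup (Fin n) F => (x : Matrix (Fin n) (Fin n) F)) h0
      simpa using this
    set c : Matrix (Fin n) (Fin n) F := P'⁻¹ * s * P with hc_def
    have hcomm1 : c * (1 + shift n) = (1 + shift n) * c := by
      rw [hc_def]
      calc P'⁻¹ * (s : Matrix (Fin n) (Fin n) F) * P * (1 + shift n)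
            = P'⁻¹ * (s : Matrix (Fin n) (Fin n) F) * (P * (1 + shift n)) := by
            simp only [Matrix.mul_assoc]
        _ = P'⁻¹ * ((s : Matrix (Fin n) (Fin n) F) * (u : Matrix (Fin n) (Fin n) F)) * P := by
            rw [h.2]; simp only [Matrix.mul_assoc]
        _ = (P'⁻¹ * (u' : Matrix (Fin n) (Fin n) F)) * (s : Matrix (Fin n) (Fin n) F) * P := by
            rw [hs']; simp only [Matrix.mul_assoc]
        _ = (1 + shift n) * (P'⁻¹ * (s : Matrix (Fin n) (Fin n) F) * P) := by
            rw [← good_inv h']; simp only [Matrix.mul_assoc]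
    have hcomm : c * shift n = shift n * c := by
      rw [mul_add, add_mul, mul_one, one_mul] at hcomm1
      exact add_left_cancel hcomm1
    have hdet := det_of_commute_shift n hn c hcomm
    have hdetc : c.det = (P'.det)⁻¹ * P.det := by
      rw [hc_def, Matrix.det_mul, Matrix.det_mul, Matrix.det_nonsing_inv, s.det_coe, mul_one,
        Ring.inverse_eq_inv']
    have hc0 : c ⟨0, hn⟩ ⟨0, hn⟩ ≠ 0 := by
      intro h0
      rw [h0, zero_pow (by omega)] at hdet
      rw [hdet] at hdetc
      have := mul_ne_zero (inv_ne_zero hP'0) hP0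
      exact this hdetc.symm
    refine ⟨(Units.mk0 _ hc0)⁻¹, ?_⟩
    rw [Units.val_inv_eq_inv_val, Units.val_mk0, inv_pow, ← hdet, hdetc]
    field_simp
  · rintro ⟨a, ha⟩
    set s : Matrix (Fin n) (Fin n) F := (a : F)⁻¹ • (P' * P⁻¹) with hs_def
    have hsdet : s.det = 1 := by
      rw [hs_def, Matrix.det_smul, Fintype.card_fin, Matrix.det_mul, Matrix.det_nonsing_inv,
        Ring.inverse_eq_inv', ha]
      have : (a : F) ≠ 0 := a.ne_zero
      rw [inv_pow]
      field_simp
    have hsu : s * u = u' * s := by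
      rw [hs_def, Matrix.smul_mul, Matrix.mul_smul, Matrix.mul_assoc, ← good_inv h,
        ← Matrix.mul_assoc, h'.2, Matrix.mul_assoc]
    apply isConj_iff.mpr
    let c : Matrix.SpecialLinearGroup (Fin n) F := ⟨s, hsdet⟩
    have hc : c * u = u' * c := Subtype.ext hsu
    exact ⟨c, mul_inv_eq_iff_eq_mul.mpr hc⟩

theorem exists_of_det (n : ℕ) (hn : 0 < n) (d : Fˣ) :
    ∃ (u : Matrix.SpecialLinearGroup (Fin n) F) (P : Matrix (Fin n) (Fin n) F),
      RU n u ∧ Good n u P ∧ P.det = d := by
  classical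
  let P : Matrix (Fin n) (Fin n) F :=
    Matrix.diagonal (fun i => if i = ⟨0, hn⟩ then (d : F) else 1)
  have hPdet : P.det = d := by
    rw [Matrix.det_diagonal, Finset.prod_ite_eq']
    simp
  have hPu : IsUnit P.det := by rw [hPdet]; exact d.isUnit
  have h1 : P⁻¹ * P = 1 := Matrix.nonsing_inv_mul P hPu
  have h2 : P * P⁻¹ = 1 := Matrix.mul_nonsing_inv P hPu
  let um : Matrix (Fin n) (Fin n) F := P * (1 + shift n) * P⁻¹
  have hum : um.det = 1 := by
    rw [Matrix.det_mul, Matrix.det_mul, det_one_add_shift, mul_one, Matrix.det_nonsing_inv,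
      Ring.mul_inverse_cancel _ hPu]
  have hsub : um - 1 = P * shift n * P⁻¹ := by
    simp only [um]
    rw [mul_add, mul_one, add_mul, h2]; abel
  refine ⟨⟨um, hum⟩, P, ⟨?_, ?_⟩, ⟨hPu, ?_⟩, hPdet⟩
  · show (um - 1) ^ n = 0
    rw [hsub]
    have : ∀ k : ℕ, (P * shift n * P⁻¹) ^ k = P * shift n ^ k * P⁻¹ := by
      intro k
      induction k with
      | zero => simp [h2]
      | succ k ih =>
        rw [pow_succ, ih, pow_succ]
        calc P * shift n ^ k * P⁻¹ * (P * shift n * P⁻¹)
            = P * shift n ^ k * (P⁻¹ * P) * shift n * P⁻¹ := by simp only [Matrix.mul_assoc]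
          _ = _ := by rw [h1, Matrix.mul_one]; simp only [Matrix.mul_assoc]
    rw [this, shift_pow_self]; simp
  · show (um - 1).rank = n - 1
    rw [hsub, Matrix.rank_mul_eq_left_of_isUnit_det _ _ (Matrix.isUnit_nonsing_inv_det P hPu),
      Matrix.rank_mul_eq_right_of_isUnit_det _ _ hPu, shift_rank n hn]
  · show P * (1 + shift n) = um * P
    simp only [um]
    rw [Matrix.mul_assoc, h1, Matrix.mul_one]

end

/-- Regular unipotent classes of SL_n(q): for n ≥ 2 over the field with q elements, the matrices u of determinant one with (u − 1)^n = 0 and rank(u − 1) = n − 1 form a single GL_n(q)-class which splits into exactly gcd(n, q − 1) conjugacy classes of SL_n(q). -/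
theorem result {F : Type*} [Field F] [Fintype F] {q : ℕ} (hF : Fintype.card F = q) {n : ℕ} (hn : 2 ≤ n) : Nat.card {C : ConjClasses (Matrix.SpecialLinearGroup (Fin n) F) // ∃ u : Matrix.SpecialLinearGroup (Fin n) F, ConjClasses.mk u = C ∧ ((u : Matrix (Fin n) (Fin n) F) - 1) ^ n = 0 ∧ ((u : Matrix (Fin n) (Fin n) F) - 1).rank = n - 1} = Nat.gcd n (q - 1) := by
  have hn0 : 0 < n := by omega
  let H : Subgroup Fˣ := (powMonoidHom n : Fˣ →* Fˣ).range
  have hT : ∀ C : {C : ConjClasses (Matrix.SpecialLinearGroup (Fin n) F) // ∃ u : Matrix.SpecialLinearGroup (Fin n) F, ConjClasses.mk u = C ∧ ((u : Matrix (Fin n) (Fin n) F) - 1) ^ n = 0 ∧ ((u : Matrix (Fin n) (Fin n) F) - 1).rank = n - 1},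
      ∃ (u : Matrix.SpecialLinearGroup (Fin n) F) (P : Matrix (Fin n) (Fin n) F),
        ConjClasses.mk u = C.1 ∧ RU n u ∧ Good n u P := by
    rintro ⟨C, u, hu, h1, h2⟩
    obtain ⟨P, hP⟩ := exists_good n hn0 u ⟨h1, h2⟩
    exact ⟨u, P, hu, ⟨h1, h2⟩, hP⟩
  choose uu PP huu hRU hGood using hT
  let f : {C : ConjClasses (Matrix.SpecialLinearGroup (Fin n) F) // ∃ u : Matrix.SpecialLinearGroup (Fin n) F, ConjClasses.mk u = C ∧ ((u : Matrix (Fin n) (Fin n) F) - 1) ^ n = 0 ∧ ((u : Matrix (Fin n) (Fin n) F) - 1).rank = n - 1} → Fˣ ⧸ H :=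
    fun C => QuotientGroup.mk (Units.mk0 (PP C).det (hGood C).1.ne_zero)
  have hf : Function.Bijective f := by
    constructor
    · intro C C' hCC'
      have h1 : (Units.mk0 (PP C).det (hGood C).1.ne_zero)⁻¹ *
          Units.mk0 (PP C').det (hGood C').1.ne_zero ∈ H := QuotientGroup.eq.mp hCC'
      obtain ⟨a, ha⟩ := h1
      have h2 : IsConj (uu C) (uu C') := by
        rw [key n hn0 _ _ _ _ (hGood C) (hGood C')]
        refine ⟨a, ?_⟩
        have := congrArg (fun x : Fˣ => (x : F)) ha
        simp only [powMonoidHom_apply, Units.val_pow_eq_pow_val, Units.val_mul,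
          Units.val_inv_eq_inv_val, Units.val_mk0] at this
        rw [this]
        have := (hGood C).1.ne_zero
        field_simp
      apply Subtype.ext
      rw [← huu C, ← huu C']
      exact ConjClasses.mk_eq_mk_iff_isConj.mpr h2
    · intro x
      obtain ⟨d, rfl⟩ := QuotientGroup.mk_surjective x
      obtain ⟨u, P, hu, hP, hd⟩ := exists_of_det n hn0 d
      refine ⟨⟨ConjClasses.mk u, u, rfl, hu.1, hu.2⟩, ?_⟩
      have hconj : IsConj (uu ⟨ConjClasses.mk u, u, rfl, hu.1, hu.2⟩) u :=
        ConjClasses.mk_eq_mk_iff_isConj.mp (huu _)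
      obtain ⟨a, ha⟩ := (key n hn0 _ _ _ _ (hGood _) hP).mp hconj
      apply QuotientGroup.eq.mpr
      refine ⟨a, ?_⟩
      apply Units.ext
      simp only [powMonoidHom_apply, Units.val_pow_eq_pow_val, Units.val_mul,
        Units.val_inv_eq_inv_val, Units.val_mk0]
      rw [← hd, ha]
      have := (hGood ⟨ConjClasses.mk u, u, rfl, hu.1, hu.2⟩).1.ne_zero
      field_simp
  rw [Nat.card_congr (Equiv.ofBijective f hf)]
  have hidx : Nat.card (Fˣ ⧸ H) = H.index := rfl
  rw [hidx, IsCyclic.index_powMonoidHom_range, Nat.card_units, Nat.card_eq_fintype_card, hF,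
    Nat.gcd_comm]

end Cfsg.Agent.S2578
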