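import Cfsg.Statements.S2585
-- import your own Cfsg.Agent.* helpers here

set_option autoImplicit false
open Cfsg

namespace Cfsg.Agent.S2585

/-- the standard quadratic form `Σ x_i y_i` -/
noncomputable def Q0 (m : ℕ) (F : Type*) [Field F] : QuadraticForm F (Fin m ⊕ Fin m → F) :=
  ∑ i : Fin m, QuadraticMap.linMulLin (LinearMap.proj (Sum.inl i)) (LinearMap.proj (Sum.inr i))

theorem Q0_apply {F : Type*} [Field F] (m : ℕ) (v : Fin m ⊕ Fin m → F) :
    Q0 m F v = ∑ i : Fin m, v (Sum.inl i) * v (Sum.inr i) := by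
  simp [Q0]

theorem sympForm_eq {F : Type*} [Field F] [CharP F 2] (m : ℕ) (u v : Fin m ⊕ Fin m → F) :
    Cfsg.sympForm m F u v =
      ∑ i : Fin m, (u (Sum.inl i) * v (Sum.inr i) + u (Sum.inr i) * v (Sum.inl i)) := by
  unfold Cfsg.sympForm
  simp only [dotProduct, Fintype.sum_sum_type, Matrix.J, Matrix.mulVec, Matrix.fromBlocks_apply₁₁,
    Matrix.fromBlocks_apply₁₂, Matrix.fromBlocks_apply₂₁, Matrix.fromBlocks_apply₂₂,
    Matrix.zero_apply, zero_mul, Finset.sum_const_zero, zero_add, add_zero, Matrix.neg_apply,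
    Matrix.one_apply, CharTwo.neg_eq, ite_mul, one_mul, Finset.sum_ite_eq, Finset.mem_univ, if_true]
  rw [← Finset.sum_add_distrib]

theorem polar_Q0 {F : Type*} [Field F] [CharP F 2] (m : ℕ) (u v : Fin m ⊕ Fin m → F) :
    QuadraticMap.polar (Q0 m F) u v = Cfsg.sympForm m F u v := by
  rw [sympForm_eq, QuadraticMap.polar, Q0_apply, Q0_apply, Q0_apply, ← Finset.sum_sub_distrib,
    ← Finset.sum_sub_distrib]
  refine Finset.sum_congr rfl fun i _ => ?_
  simp only [Pi.add_apply]
  ring

theorem sympForm_mulVec {F : Type*} [Field F] (m : ℕ) (A : Matrix.symplecticGroup (Fin m) F)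
    (u v : Fin m ⊕ Fin m → F) :
    Cfsg.sympForm m F ((A : Matrix (Fin m ⊕ Fin m) (Fin m ⊕ Fin m) F).mulVec u)
      ((A : Matrix (Fin m ⊕ Fin m) (Fin m ⊕ Fin m) F).mulVec v) = Cfsg.sympForm m F u v := by
  unfold Cfsg.sympForm
  have h : (A : Matrix (Fin m ⊕ Fin m) (Fin m ⊕ Fin m) F).transpose * Matrix.J (Fin m) F *
      (A : Matrix (Fin m ⊕ Fin m) (Fin m ⊕ Fin m) F) = Matrix.J (Fin m) F :=
    SymplecticGroup.mem_iff'.mp A.2
  rw [← Matrix.vecMul_transpose, ← Matrix.dotProduct_mulVec, Matrix.mulVec_mulVec,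
    Matrix.mulVec_mulVec, h]

/-- Over a finite field of characteristic two every element of the symplectic group is orthogonal for a suitable quadratic form: for each A in Sp_2m(F) there is a quadratic form Q on F^(2m) whose polar form is the alternating form defining Sp_2m(F) (so Q is non-degenerate) and which A preserves. Equivalently, for m ≥ 1, Sp_2m(F) is the union of the conjugates of its two orthogonal subgroups O⁺_2m(F) and O⁻_2m(F). -/
theorem result {F : Type*} [Field F] [Fintype F] [CharP F 2] {m : ℕ} (A : Matrix.symplecticGroup (Fin m) F) : ∃ Q : QuadraticForm F (Fin m ⊕ Fin m → F), (∀ u v : Fin m ⊕ Fin m → F, QuadraticMap.polar ⇑Q u v = Cfsg.sympForm m F u v) ∧ ∀ v : Fin m ⊕ Fin m → F, Q ((A : Matrix (Fin m ⊕ Fin m) (Fin m ⊕ Fin m) F).mulVec v) = Q v := by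
  classical
  set M : Matrix (Fin m ⊕ Fin m) (Fin m ⊕ Fin m) F := (A : Matrix (Fin m ⊕ Fin m) (Fin m ⊕ Fin m) F)
    with hM
  let D : (Fin m ⊕ Fin m → F) → F := fun v => Q0 m F (M.mulVec v) - Q0 m F v
  have hDadd : ∀ u v, D (u + v) = D u + D v := by
    intro u v
    have h1 := polar_Q0 (F := F) m (M.mulVec u) (M.mulVec v)
    have h2 := polar_Q0 (F := F) m u v
    rw [hM, sympForm_mulVec] at h1
    simp only [QuadraticMap.polar] at h1 h2
    simp only [D, Matrix.mulVec_add]
    linear_combination h1 - h2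
  have hDsmul : ∀ (c : F) v, D (c • v) = c ^ 2 * D v := by
    intro c v
    simp only [D, Matrix.mulVec_smul, QuadraticMap.map_smul, smul_eq_mul]
    ring
  let h : (Fin m ⊕ Fin m → F) →ₗ[F] F :=
    { toFun := fun v => (frobeniusEquiv F 2).symm (D v)
      map_add' := fun u v => by rw [hDadd, map_add]
      map_smul' := fun c v => by
        apply (frobeniusEquiv F 2).injective
        simp only [RingHom.id_apply, smul_eq_mul, map_mul, RingEquiv.apply_symm_apply]
        rw [hDsmul, frobeniusEquiv_apply, frobenius_def] }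
  have hh : ∀ v, h v ^ 2 = D v := fun v => frobeniusEquiv_symm_pow_p F 2 (D v)
  let g : (Fin m ⊕ Fin m → F) →ₗ[F] (Fin m ⊕ Fin m → F) := Matrix.mulVecLin M - LinearMap.id
  have hmem : h ∈ LinearMap.range g.dualMap := by
    rw [LinearMap.range_dualMap_eq_dualAnnihilator_ker, Submodule.mem_dualAnnihilator]
    intro v hv
    have hv' : M.mulVec v = v := by
      have : g v = 0 := hv
      simpa [g, sub_eq_zero] using this
    have : h v ^ 2 = 0 := by rw [hh]; simp [D, hv']
    exact pow_eq_zero_iff (two_ne_zero) |>.mp this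
  obtain ⟨ψ, hψ⟩ := hmem
  have hψ' : ∀ v, ψ (M.mulVec v) - ψ v = h v := by
    intro v
    have := congrArg (fun f => f v) hψ
    simpa [g] using this
  refine ⟨Q0 m F + QuadraticMap.linMulLin ψ ψ, ?_, ?_⟩
  · intro u v
    rw [← polar_Q0]
    simp only [QuadraticMap.polar, add_apply, QuadraticMap.linMulLin_apply, map_add]
    have h2 : (2 : F) = 0 := CharTwo.two_eq_zero
    linear_combination (ψ u * ψ v) * h2
  · intro v
    have h1 := hh v
    rw [← hψ' v] at h1
    simp only [D] at h1
    simp only [add_apply, QuadraticMap.linMulLin_apply]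
    have h2 : (2 : F) = 0 := CharTwo.two_eq_zero
    linear_combination (-1 : F) * h1 + (ψ (M.mulVec v) * ψ (M.mulVec v) - ψ (M.mulVec v) * ψ v) * h2

end Cfsg.Agent.S2585
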