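import Cfsg.Statements.S2587
import Cfsg.Agent.Helper43.HermAdj

set_option autoImplicit false
open Cfsg

namespace Cfsg.Agent.S2587

open Cfsg.Agent.Helper43 Cfsg.Agent.Helper43.HermAdj Cfsg.Agent.Helper43.NormH90 Matrix

/-- Conjugacy in the finite general unitary group is controlled by the general linear group: two elements of GU_n(q) (the invertible matrices over the field with q² elements preserving the Hermitian form Σ u_i v_i^q) are conjugate in GU_n(q) if and only if they are conjugate in GL_n(q²). -/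
theorem result {K : Type*} [Field K] [Fintype K] {q n : ℕ} (hK : Fintype.card K = q ^ 2) (A B : ↥(Cfsg.GU n K q)) : IsConj A B ↔ IsConj (A : GL (Fin n) K) (B : GL (Fin n) K) := by
  classical
  constructor
  · intro h
    obtain ⟨c, hc⟩ := isConj_iff.1 h
    refine isConj_iff.2 ⟨(c : GL (Fin n) K), ?_⟩
    have := congrArg (Subtype.val) hc
    simpa using this
  · intro h
    obtain ⟨g, hg⟩ := isConj_iff.1 h
    have hA := (mem_GU_iff hK (A : GL (Fin n) K)).1 A.2
    have hB := (mem_GU_iff hK (B : GL (Fin n) K)).1 B.2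
    obtain ⟨a, ha⟩ : ∃ a : GL (Fin n) K, a = (A : GL (Fin n) K) := ⟨_, rfl⟩
    obtain ⟨b, hb⟩ : ∃ b : GL (Fin n) K, b = (B : GL (Fin n) K) := ⟨_, rfl⟩
    rw [← ha] at hA hg
    rw [← hb] at hB hg
    have hA' : (a : Matrix (Fin n) (Fin n) K) * hadj q (a : Matrix (Fin n) (Fin n) K) = 1 :=
      mul_eq_one_comm.1 hA
    -- `g * a = b * g`
    have hga : (g : Matrix (Fin n) (Fin n) K) * (a : Matrix (Fin n) (Fin n) K) =
        (b : Matrix (Fin n) (Fin n) K) * (g : Matrix (Fin n) (Fin n) K) := by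
      have h1 : g * a = b * g := by rw [← hg]; group
      have := congrArg (fun x : GL (Fin n) K => (x : Matrix (Fin n) (Fin n) K)) h1
      simpa using this
    obtain ⟨hh, hhdef⟩ : ∃ hh : Matrix (Fin n) (Fin n) K,
        hh = hadj q (g : Matrix (Fin n) (Fin n) K) * (g : Matrix (Fin n) (Fin n) K) := ⟨_, rfl⟩
    have hhσ : hadj q hh = hh := by
      rw [hhdef, hadj_mul hK, hadj_hadj hK]
    have hhu : IsUnit hh := by
      have hgu : IsUnit (g : Matrix (Fin n) (Fin n) K) := g.isUnit
      have h2 : IsUnit (hadj q (g : Matrix (Fin n) (Fin n) K)) := by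
        rw [Matrix.isUnit_iff_isUnit_det] at hgu ⊢
        obtain ⟨φ, hφ⟩ := exists_frobQ hK
        rw [hadj_eq_map hφ, Matrix.det_transpose]
        have : ((g : Matrix (Fin n) (Fin n) K).map φ).det = φ (g : Matrix (Fin n) (Fin n) K).det := by
          rw [RingHom.map_det, RingHom.mapMatrix_apply]
        rw [this]
        exact hgu.map φ
      rw [hhdef]
      exact h2.mul hgu
    -- `hadj a * hh * a = hh`
    have hinv : hadj q (a : Matrix (Fin n) (Fin n) K) * hh * (a : Matrix (Fin n) (Fin n) K) = hh := by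
      calc hadj q (a : Matrix (Fin n) (Fin n) K) * hh * (a : Matrix (Fin n) (Fin n) K)
          = hadj q ((g : Matrix (Fin n) (Fin n) K) * (a : Matrix (Fin n) (Fin n) K)) *
              ((g : Matrix (Fin n) (Fin n) K) * (a : Matrix (Fin n) (Fin n) K)) := by
            rw [hadj_mul hK, hhdef]; simp only [mul_assoc]
        _ = hadj q (g : Matrix (Fin n) (Fin n) K) *
              (hadj q (b : Matrix (Fin n) (Fin n) K) * (b : Matrix (Fin n) (Fin n) K)) *
              (g : Matrix (Fin n) (Fin n) K) := by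
            rw [hga, hadj_mul hK]; simp only [mul_assoc]
        _ = hh := by rw [hB, mul_one, hhdef]
    have hcomm : Commute (a : Matrix (Fin n) (Fin n) K) hh := by
      have h1 : (a : Matrix (Fin n) (Fin n) K) *
          (hadj q (a : Matrix (Fin n) (Fin n) K) * hh * (a : Matrix (Fin n) (Fin n) K)) =
          hh * (a : Matrix (Fin n) (Fin n) K) := by
        rw [← mul_assoc, ← mul_assoc, hA', one_mul]
      rw [hinv] at h1
      exact h1
    obtain ⟨c, hcu, hc1, hc2, hc3⟩ := exists_norm_R hK (hadj q (n := n) (K := K))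
      (hadj_add hK) (hadj_mul hK) (hadj_algebraMap hK) hh (fun f => hadj_hadj hK _) hhu hhσ
    have hac : Commute (a : Matrix (Fin n) (Fin n) K) c := hc3 _ hcomm
    obtain ⟨cu, hcu'⟩ := hcu
    -- the new conjugating element
    have hd1 : (cu : Matrix (Fin n) (Fin n) K) * ((cu⁻¹ : GL (Fin n) K) : Matrix (Fin n) (Fin n) K) = 1 := by
      rw [← Units.val_mul, mul_inv_cancel, Units.val_one]
    have hmem : g * cu⁻¹ ∈ Cfsg.GU n K q := by
      rw [mem_GU_iff hK, Units.val_mul, hadj_mul hK]
      calc hadj q ((cu⁻¹ : GL (Fin n) K) : Matrix (Fin n) (Fin n) K) *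
            hadj q (g : Matrix (Fin n) (Fin n) K) *
            ((g : Matrix (Fin n) (Fin n) K) * ((cu⁻¹ : GL (Fin n) K) : Matrix (Fin n) (Fin n) K))
          = hadj q ((cu⁻¹ : GL (Fin n) K) : Matrix (Fin n) (Fin n) K) * hh *
              ((cu⁻¹ : GL (Fin n) K) : Matrix (Fin n) (Fin n) K) := by
            rw [hhdef]; simp only [mul_assoc]
        _ = hadj q ((cu⁻¹ : GL (Fin n) K) : Matrix (Fin n) (Fin n) K) * (hadj q c * c) *
              ((cu⁻¹ : GL (Fin n) K) : Matrix (Fin n) (Fin n) K) := by rw [hc2]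
        _ = hadj q (c * ((cu⁻¹ : GL (Fin n) K) : Matrix (Fin n) (Fin n) K)) *
              (c * ((cu⁻¹ : GL (Fin n) K) : Matrix (Fin n) (Fin n) K)) := by
            rw [hadj_mul hK]; simp only [mul_assoc]
        _ = 1 := by rw [← hcu', hd1, hadj_one hK, one_mul]
    have hacu : Commute a cu := by
      apply Units.ext
      rw [Units.val_mul, Units.val_mul, hcu']
      exact hac
    refine isConj_iff.2 ⟨⟨g * cu⁻¹, hmem⟩, ?_⟩
    apply Subtype.ext
    show g * cu⁻¹ * (A : GL (Fin n) K) * (g * cu⁻¹)⁻¹ = (B : GL (Fin n) K)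
    rw [← ha, ← hb, ← hg]
    have h3 : cu⁻¹ * a * cu = a := by
      rw [mul_assoc, hacu.eq, ← mul_assoc, inv_mul_cancel, one_mul]
    calc g * cu⁻¹ * a * (g * cu⁻¹)⁻¹ = g * (cu⁻¹ * a * cu) * g⁻¹ := by group
      _ = g * a * g⁻¹ := by rw [h3]

end Cfsg.Agent.S2587
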