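import Cfsg.Statements.S0610
import Mathlib
import Cfsg.Agent.S0028
import Cfsg.Agent.S1324
import Cfsg.Agent.Helper10.Thompson
import Cfsg.Agent.Helper10.PAction
import Cfsg.Agent.Helper1.PPrimeCore

set_option autoImplicit false
open Cfsg

namespace Cfsg.Agent.S0610

open scoped commutatorElement

/-- Core of the argument: in a faithful group `H` on the elementary abelian `V`, with a normal
`p'`-subgroup `Q` of `H` on which every elementary abelian `p`-subgroup of `H` acts faithfully,
each best offender `A ≤ H` satisfies `|A| * |C_V(A)| = |V|`. -/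
theorem main {G : Type*} [Group G] [Finite G] {p : ℕ} [Fact p.Prime] (V H Q : Subgroup G)
    (hV : Cfsg.IsElementaryAbelian p V) (hHV : H ≤ Subgroup.normalizer (V : Set G))
    (hf : H ⊓ Subgroup.centralizer (V : Set G) = ⊥) (hQH : Q ≤ H)
    (hHQ : H ≤ Subgroup.normalizer (Q : Set G)) (hQp : ¬ p ∣ Nat.card Q)
    (hfaith : ∀ x ∈ H, x ^ p = 1 → x ∈ Subgroup.centralizer (Q : Set G) → x = 1) (n : ℕ) :
    ∀ A : Subgroup G, Nat.card A = n → A ≤ H → Cfsg.IsBestOffenderOn p V A →
      Nat.card A * Nat.card ↥(V ⊓ Subgroup.centralizer (A : Set G)) = Nat.card V := by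
  have hp : p.Prime := Fact.out
  have hVp : IsPGroup p V := Helper10.elemAb_isPGroup hV
  induction n using Nat.strong_induction_on with
  | _ n ih =>
    intro A hn hAH hA
    by_cases hA1 : A = ⊥
    · subst hA1
      have h1 : V ⊓ Subgroup.centralizer (((⊥ : Subgroup G)) : Set G) = V := by
        apply inf_eq_left.mpr
        intro v _
        rw [Subgroup.mem_centralizer_iff]
        intro h hh
        rw [SetLike.mem_coe, Subgroup.mem_bot] at hh
        rw [hh, one_mul, mul_one]
      rw [h1, Subgroup.card_bot, one_mul]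
    -- `A` is elementary abelian
    have hAA : ⁅A, A⁆ = ⊥ := by
      rw [eq_bot_iff, ← hf]
      exact le_inf ((Subgroup.commutator_le_self A).trans hAH) hA.2.1
    have hAcomm : ∀ a ∈ A, ∀ b ∈ A, a * b = b * a := by
      intro a ha b hb
      have h1 := Subgroup.commutator_eq_bot_iff_le_centralizer.mp hAA ha
      exact (Subgroup.mem_centralizer_iff.mp h1 b hb).symm
    have hApow : ∀ a ∈ A, a ^ p = 1 := by
      intro a ha
      have h1 : a ^ p ∈ H ⊓ Subgroup.centralizer (V : Set G) :=
        ⟨hAH (A.pow_mem ha p), hA.2.2 a ha⟩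
      rw [hf] at h1
      exact Subgroup.mem_bot.mp h1
    have hAea : Cfsg.IsElementaryAbelian p A := (Helper10.elemAb_iff p A).mpr ⟨hAcomm, hApow⟩
    have hAp : IsPGroup p A := Helper10.elemAb_isPGroup hAea
    -- `A` does not centralize `Q`
    have hAQ : ¬ A ≤ Subgroup.centralizer (Q : Set G) := by
      intro h
      apply hA1
      rw [eq_bot_iff]
      intro a ha
      exact Subgroup.mem_bot.mpr (hfaith a (hAH ha) (hApow a ha) (h ha))
    -- Step 1: a proper subgroup `B` of index at most `p` with `C_Q(B)` not centralized by `A`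
    have step1 : ∃ B : Subgroup G, B ≤ A ∧ B.relIndex A ≤ p ∧ B ≠ A ∧
        ¬ A ≤ Subgroup.centralizer ((Q ⊓ Subgroup.centralizer (B : Set G) : Subgroup G) : Set G) := by
      by_cases hA2 : p ^ 2 ≤ Nat.card A
      · by_contra hcon
        push Not at hcon
        apply hAQ
        rw [Subgroup.le_centralizer_iff]
        have hgen := S1324.result p A Q hAea hA2 hQp (hAH.trans hHQ)
        rw [hgen]
        refine iSup_le ?_
        rintro ⟨B, hBA, hBp⟩
        by_cases hBeq : B = A
        · subst hBeq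
          exact inf_le_right
        · rw [Subgroup.le_centralizer_iff]
          exact hcon B hBA hBp hBeq
      · refine ⟨⊥, bot_le, ?_, fun h => hA1 h.symm, ?_⟩
        · rw [Subgroup.relIndex_bot_left]
          obtain ⟨k, hk⟩ := IsPGroup.iff_card.mp hAp
          rw [hk] at hA2 ⊢
          have hk2 : k < 2 := by
            by_contra h
            exact hA2 (Nat.pow_le_pow_right hp.pos (not_lt.mp h))
          calc p ^ k ≤ p ^ 1 := Nat.pow_le_pow_right hp.pos (by omega)
            _ = p := pow_one p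
        · intro h
          apply hAQ
          refine h.trans (Subgroup.centralizer_le ?_)
          intro q hq
          refine ⟨hq, ?_⟩
          show q ∈ Subgroup.centralizer (((⊥ : Subgroup G)) : Set G)
          rw [Subgroup.mem_centralizer_iff]
          intro b hb
          rw [SetLike.mem_coe, Subgroup.mem_bot] at hb
          rw [hb, one_mul, mul_one]
    obtain ⟨B, hBA, hBp, hBne, hBQ⟩ := step1
    -- Step 2: `A` does not centralize `C_V(B)`
    have step2 : ¬ V ⊓ Subgroup.centralizer (B : Set G) ≤ Subgroup.centralizer (A : Set G) := by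
      intro hVB
      apply hBQ
      rw [Subgroup.le_centralizer_iff, ← Subgroup.commutator_eq_bot_iff_le_centralizer]
      have hQ'Q : ⁅Q ⊓ Subgroup.centralizer (B : Set G), A⁆ ≤ Q :=
        (Subgroup.commutator_mono inf_le_left le_rfl).trans
          (Helper10.commutator_le_of_le_normalizer Q A (hAH.trans hHQ))
      have hQ'H : ⁅Q ⊓ Subgroup.centralizer (B : Set G), A⁆ ≤ H := hQ'Q.trans hQH
      have hAB : A ≤ Subgroup.centralizer (B : Set G) := by
        intro a ha
        rw [Subgroup.mem_centralizer_iff]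
        intro b hb
        exact hAcomm b (hBA hb) a ha
      have hQ'B : ⁅Q ⊓ Subgroup.centralizer (B : Set G), A⁆ ≤ Subgroup.centralizer (B : Set G) := by
        rw [Subgroup.commutator_le]
        intro q hq a ha
        rw [commutatorElement_def]
        exact Subgroup.mul_mem _ (Subgroup.mul_mem _ (Subgroup.mul_mem _ hq.2 (hAB ha))
          (Subgroup.inv_mem _ hq.2)) (Subgroup.inv_mem _ (hAB ha))
      have hQ'V0 : ⁅Q ⊓ Subgroup.centralizer (B : Set G), A⁆ ≤
          Subgroup.centralizer ((V ⊓ Subgroup.centralizer (B : Set G) : Subgroup G) : Set G) := by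
        rw [Subgroup.commutator_le]
        intro q hq a ha
        rw [Subgroup.mem_centralizer_iff]
        intro v hv
        have e1 : a * v = v * a := Subgroup.mem_centralizer_iff.mp (hVB hv) a ha
        have hv' : q⁻¹ * v * q ∈ V ⊓ Subgroup.centralizer (B : Set G) := by
          constructor
          · have h1 := (Subgroup.mem_normalizer_iff.mp
              (hHV (H.inv_mem (hQH hq.1))) v).mp hv.1
            rwa [inv_inv] at h1
          · exact Subgroup.mul_mem _ (Subgroup.mul_mem _ (Subgroup.inv_mem _ hq.2) hv.2) hq.2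
        have e2 : a * (q⁻¹ * v * q) = (q⁻¹ * v * q) * a :=
          Subgroup.mem_centralizer_iff.mp (hVB hv') a ha
        have e3 : a⁻¹ * v = v * a⁻¹ := by
          calc a⁻¹ * v = a⁻¹ * (v * a) * a⁻¹ := by group
            _ = a⁻¹ * (a * v) * a⁻¹ := by rw [e1]
            _ = v * a⁻¹ := by group
        rw [commutatorElement_def]
        calc v * (q * a * q⁻¹ * a⁻¹) = q * ((q⁻¹ * v * q) * a) * q⁻¹ * a⁻¹ := by group
          _ = q * (a * (q⁻¹ * v * q)) * q⁻¹ * a⁻¹ := by rw [e2]
          _ = q * a * q⁻¹ * (v * a⁻¹) := by group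
          _ = q * a * q⁻¹ * (a⁻¹ * v) := by rw [e3]
          _ = q * a * q⁻¹ * a⁻¹ * v := by group
      have hQ'cop : (Nat.card ↥(⁅Q ⊓ Subgroup.centralizer (B : Set G), A⁆)).Coprime p := by
        rw [Nat.coprime_comm, Nat.Prime.coprime_iff_not_dvd hp]
        intro h
        exact hQp (h.trans (Subgroup.card_dvd_of_le hQ'Q))
      have hPQ := S0028.result p B ⁅Q ⊓ Subgroup.centralizer (B : Set G), A⁆ V
        (hAp.to_le hBA) hQ'cop hVp (Subgroup.le_centralizer_iff.mp hQ'B)
        ((hBA.trans hAH).trans hHV) (hQ'H.trans hHV) (Subgroup.le_centralizer_iff.mp hQ'V0)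
      rw [eq_bot_iff, ← hf]
      exact le_inf hQ'H hPQ
    -- Step 3: counting
    have hcAB : V ⊓ Subgroup.centralizer (A : Set G) ≤ V ⊓ Subgroup.centralizer (B : Set G) :=
      inf_le_inf_left _ (Subgroup.centralizer_le hBA)
    have hcard1 := Helper10.card_eq_card_mul_relIndex hcAB
    have hcard2 := Helper10.card_eq_card_mul_relIndex hBA
    have hrel : p ≤ (V ⊓ Subgroup.centralizer (A : Set G)).relIndex
        (V ⊓ Subgroup.centralizer (B : Set G)) := by
      have hne : (V ⊓ Subgroup.centralizer (A : Set G)).relIndex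
          (V ⊓ Subgroup.centralizer (B : Set G)) ≠ 1 := by
        intro h
        exact step2 ((Subgroup.relIndex_eq_one.mp h).trans inf_le_right)
      obtain ⟨m, hm⟩ := IsPGroup.iff_card.mp (hVp.to_le (inf_le_left :
        V ⊓ Subgroup.centralizer (B : Set G) ≤ V))
      have hdvd : (V ⊓ Subgroup.centralizer (A : Set G)).relIndex
          (V ⊓ Subgroup.centralizer (B : Set G)) ∣ p ^ m := by
        rw [← hm]; exact Subgroup.relIndex_dvd_card _ _
      obtain ⟨j, -, hj⟩ := (Nat.dvd_prime_pow hp).mp hdvd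
      rw [hj] at hne ⊢
      have hj0 : j ≠ 0 := by
        rintro rfl
        exact hne (pow_zero p)
      exact Nat.le_self_pow hj0 p
    have hle := hA.1 B hBA
    have hge : Nat.card A * Nat.card ↥(V ⊓ Subgroup.centralizer (A : Set G)) ≤
        Nat.card B * Nat.card ↥(V ⊓ Subgroup.centralizer (B : Set G)) := by
      rw [hcard1, hcard2]
      calc Nat.card B * B.relIndex A * Nat.card ↥(V ⊓ Subgroup.centralizer (A : Set G))
          ≤ Nat.card B * p * Nat.card ↥(V ⊓ Subgroup.centralizer (A : Set G)) :=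
            Nat.mul_le_mul_right _ (Nat.mul_le_mul_left _ hBp)
        _ = Nat.card B * (Nat.card ↥(V ⊓ Subgroup.centralizer (A : Set G)) * p) := by ring
        _ ≤ Nat.card B * (Nat.card ↥(V ⊓ Subgroup.centralizer (A : Set G)) *
              (V ⊓ Subgroup.centralizer (A : Set G)).relIndex
                (V ⊓ Subgroup.centralizer (B : Set G))) :=
            Nat.mul_le_mul_left _ (Nat.mul_le_mul_left _ hrel)
    have hEq := le_antisymm hle hge
    have hBbo : Cfsg.IsBestOffenderOn p V B :=
      ⟨fun C hCB => (hA.1 C (hCB.trans hBA)).trans (le_of_eq hEq.symm),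
        (Subgroup.commutator_mono hBA hBA).trans hA.2.1, fun b hb => hA.2.2 b (hBA hb)⟩
    have hlt : Nat.card B < n := by
      rw [← hn]
      by_contra h
      exact hBne (Subgroup.eq_of_le_of_card_ge hBA (not_lt.mp h))
    rw [← hEq]
    exact ih _ hlt B rfl (hBA.trans hAH) hBbo


/-- In a faithful group generated by best offenders with a self-centralizing p'-core, every nontrivial best offender A has order exactly |V : C_V(A)|. -/
theorem result {G : Type*} [Group G] [Finite G] {p : ℕ} [Fact p.Prime] (V H : Subgroup G) (hV : Cfsg.IsElementaryAbelian p V) (hHV : H ≤ Subgroup.normalizer (V : Set G)) (hf : H ⊓ Subgroup.centralizer (V : Set G) = ⊥) (hS1 : Subgroup.centralizer (Cfsg.pPrimeCore p ↥H : Set ↥H) ≤ Cfsg.pPrimeCore p ↥H) (hS3 : H = ⨆ A : {A : Subgroup G // A ≤ H ∧ Cfsg.IsBestOffenderOn p V A}, (A : Subgroup G)) (hH1 : H ≠ ⊥) (A : Subgroup G) (hAH : A ≤ H) (hA : Cfsg.IsBestOffenderOn p V A) (hA1 : A ≠ ⊥) : Nat.card A * Nat.card ↥(V ⊓ Subgroup.centralizer (A : Set G)) = Nat.card V := by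
  have hp : p.Prime := Fact.out
  have hHQ : H ≤ Subgroup.normalizer
      (((Cfsg.pPrimeCore p ↥H).map H.subtype : Subgroup G) : Set G) := by
    have h1 := Subgroup.le_normalizer_map (H := Cfsg.pPrimeCore p ↥H) H.subtype
    rw [Subgroup.normalizer_eq_top, ← MonoidHom.range_eq_map, Subgroup.range_subtype] at h1
    exact h1
  have hcop : (Nat.card (Cfsg.pPrimeCore p ↥H)).Coprime p := Helper1.pPrimeCore_coprime p
  have hQp : ¬ p ∣ Nat.card ↥((Cfsg.pPrimeCore p ↥H).map H.subtype) := by
    rw [Subgroup.card_map_of_injective H.subtype_injective]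
    exact (Nat.Prime.coprime_iff_not_dvd hp).mp hcop.symm
  have hfaith : ∀ x ∈ H, x ^ p = 1 →
      x ∈ Subgroup.centralizer (((Cfsg.pPrimeCore p ↥H).map H.subtype : Subgroup G) : Set G) →
      x = 1 := by
    intro x hxH hxp hxc
    have h1 : (⟨x, hxH⟩ : ↥H) ∈ Subgroup.centralizer (Cfsg.pPrimeCore p ↥H : Set ↥H) := by
      rw [Subgroup.mem_centralizer_iff]
      intro q hq
      apply Subtype.ext
      exact Subgroup.mem_centralizer_iff.mp hxc (q : G) (Subgroup.mem_map_of_mem H.subtype hq)
    have h2 := hS1 h1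
    have h3 : orderOf (⟨x, hxH⟩ : ↥H) ∣ p := by
      apply orderOf_dvd_of_pow_eq_one
      exact Subtype.ext hxp
    have h4 : orderOf (⟨x, hxH⟩ : ↥H) ∣ Nat.card (Cfsg.pPrimeCore p ↥H) := by
      have := orderOf_dvd_natCard (⟨⟨x, hxH⟩, h2⟩ : ↥(Cfsg.pPrimeCore p ↥H))
      rwa [Subgroup.orderOf_mk] at this
    have h5 : orderOf (⟨x, hxH⟩ : ↥H) = 1 :=
      Nat.eq_one_of_dvd_coprimes hcop h4 h3
    have h6 := orderOf_eq_one_iff.mp h5
    exact congrArg Subtype.val h6
  exact main V H _ hV hHV hf (Subgroup.map_subtype_le _) hHQ hQp hfaith _ A rfl hAH hA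

end Cfsg.Agent.S0610
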