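import Cfsg.Statements.S0604
import Mathlib
import Cfsg.Agent.Helper10.Thompson

set_option autoImplicit false
open Cfsg

namespace Cfsg.Agent.S0604

open Cfsg.Agent.Helper10
open Pointwise

/-- The Thompson subgroup of G is the join of the Thompson subgroups of its Sylow p-subgroups. -/
theorem result {G : Type*} [Group G] [Finite G] {p : ℕ} [Fact p.Prime] : Cfsg.thompsonSubgroup p G = ⨆ S : Sylow p G, Cfsg.thompsonSubgroupOf p (S : Subgroup G) := by
  apply le_antisymm
  · refine sSup_le ?_
    intro A hA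
    obtain ⟨S, hS⟩ := IsPGroup.exists_le_sylow (elemAb_isPGroup hA.1)
    exact (le_thompsonOf hA hS).trans (le_iSup (fun S : Sylow p G => Cfsg.thompsonSubgroupOf p (S : Subgroup G)) S)
  · refine iSup_le ?_
    intro S
    obtain ⟨A1, hA1⟩ := exists_maxElemAb p G
    obtain ⟨S1, hS1⟩ := IsPGroup.exists_le_sylow (elemAb_isPGroup hA1.1)
    obtain ⟨g, hg⟩ := MulAction.exists_smul_eq G S1 S
    have hg' : MulAut.conj g • (S1 : Subgroup G) = S := by
      rw [← hg, Sylow.coe_subgroup_smul]
    refine thompsonOf_le (maxElemAb_conj hA1 g) ?_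
    rw [← hg']
    exact Subgroup.pointwise_smul_le_pointwise_smul_iff.mpr hS1

end Cfsg.Agent.S0604
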