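import Cfsg.Statements.S2941
import Cfsg.Agent.Helper49.SupCoprime

set_option autoImplicit false
open Cfsg

namespace Cfsg.Agent.S2941

open Cfsg.Agent.Helper49

lemma orderOf_conj_eq {G : Type*} [Group G] (q g : G) : orderOf (q * g * q⁻¹) = orderOf g := by
  rw [← MulAut.conj_apply]
  exact MulEquiv.orderOf_eq _ _

/-- Let G be a finite group of characteristic 2 type in which every 2-local subgroup is solvable and the centralizer of Ω₁(Z(S)) lies in N_G(S) for every Sylow 2-subgroup S, and let T be a nontrivial 2-subgroup and K a J(T)-component (J the Thompson subgroup generated by the elementary abelian 2-subgroups of largest order). If a subgroup Q is normalized by ⟨K, J(T)⟩ and normalizes J(T), then Q normalizes K. -/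
theorem result {G : Type*} [Group G] [Finite G] (hL : Cfsg.IsCharacteristicTwoType G) (hN : ∀ N : Subgroup G, Cfsg.IsTwoLocal N → Group.IsSolvable ↥N)
    (hZ : ∀ S : Sylow 2 G, Subgroup.centralizer (Cfsg.omegaCenterOf (S : Subgroup G) : Set G) ≤ Subgroup.normalizer ((S : Subgroup G) : Set G)) (T : Subgroup G) (hT : IsPGroup 2 ↥T) (hT1 : T ≠ ⊥) (K : Subgroup G) (hK : Cfsg.IsJComponent T K)
    (Q : Subgroup G) (hQ1 : K ⊔ Cfsg.thompsonSubgroupOf 2 T ≤ Subgroup.normalizer (Q : Set G)) (hQ2 : Q ≤ Subgroup.normalizer (Cfsg.thompsonSubgroupOf 2 T : Set G)) :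
    Q ≤ Subgroup.normalizer (K : Set G) := by
  set J : Subgroup G := Cfsg.thompsonSubgroupOf 2 T with hJdef
  have hJT : J ≤ T := by
    rintro _ ⟨x, _, rfl⟩
    exact x.2
  have hJ : IsPGroup 2 J := hT.to_le hJT
  obtain ⟨hK1, hK2, -⟩ := hK
  have hJK : J ≤ Subgroup.normalizer (K : Set G) := by
    have := Subgroup.normalizer_commutator_ge_right K J
    rwa [hK2] at this
  have hKQ : K ≤ Subgroup.normalizer (Q : Set G) := le_sup_left.trans hQ1
  have hJQ : J ≤ Subgroup.normalizer (Q : Set G) := le_sup_right.trans hQ1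
  -- `Q` normalizes `K ⊔ J`
  have hstep : ∀ q ∈ Q, ∀ g ∈ K ⊔ J, q * g * q⁻¹ ∈ K ⊔ J := by
    intro q hq g hg
    have hmap : (K ⊔ J).map (MulAut.conj q).toMonoidHom ≤ K ⊔ J := by
      rw [Subgroup.map_sup]
      apply sup_le
      · have hKeq : K.map (MulAut.conj q).toMonoidHom = (⁅K, J⁆).map (MulAut.conj q).toMonoidHom := by
          rw [hK2]
        rw [hKeq, Subgroup.map_commutator, Subgroup.commutator_le]
        rintro _ ⟨k, hk, rfl⟩ _ ⟨j, hj, rfl⟩
        simp only [MulEquiv.toMonoidHom_eq_coe, MonoidHom.coe_coe, MulAut.conj_apply,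
          commutatorElement_def]
        have hq1 : k⁻¹ * q * k * q⁻¹ ∈ Q := by
          have h1 := (Subgroup.mem_normalizer_iff.mp (Subgroup.inv_mem _ (hKQ hk)) q).mp hq
          rw [inv_inv] at h1
          exact Q.mul_mem h1 (Q.inv_mem hq)
        have hj2 : q * j * q⁻¹ ∈ J := (Subgroup.mem_normalizer_iff.mp (hQ2 hq) j).mp hj
        have hj3 : (k⁻¹ * q * k * q⁻¹) * (q * j * q⁻¹) * (k⁻¹ * q * k * q⁻¹)⁻¹ ∈ J :=
          (Subgroup.mem_normalizer_iff.mp (hQ2 hq1) _).mp hj2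
        have e : (q * k * q⁻¹) * (q * j * q⁻¹) * (q * k * q⁻¹)⁻¹ * (q * j * q⁻¹)⁻¹
            = k * ((k⁻¹ * q * k * q⁻¹) * (q * j * q⁻¹) * (k⁻¹ * q * k * q⁻¹)⁻¹) * k⁻¹
              * (q * j * q⁻¹)⁻¹ := by group
        rw [e]
        have hkS : k ∈ K ⊔ J := (le_sup_left : K ≤ K ⊔ J) hk
        exact (K ⊔ J).mul_mem ((K ⊔ J).mul_mem ((K ⊔ J).mul_mem hkS
          ((le_sup_right : J ≤ K ⊔ J) hj3)) ((K ⊔ J).inv_mem hkS))
          ((K ⊔ J).inv_mem ((le_sup_right : J ≤ K ⊔ J) hj2))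
      · rintro _ ⟨j, hj, rfl⟩
        exact (le_sup_right : J ≤ K ⊔ J) ((Subgroup.mem_normalizer_iff.mp (hQ2 hq) j).mp hj)
    exact hmap ⟨g, hg, rfl⟩
  have hfinal : Q ≤ Subgroup.normalizer
      ((Subgroup.closure {g : G | g ∈ K ∧ Odd (orderOf g)} : Subgroup G) : Set G) := by
    rw [Subgroup.le_normalizer_closure_iff]
    rintro q hq g ⟨hgK, hodd⟩
    apply Subgroup.subset_closure
    have hord : orderOf (q * g * q⁻¹) = orderOf g := orderOf_conj_eq q g
    refine ⟨?_, ?_⟩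
    · apply mem_of_mem_sup_of_coprime hJ hJK (hstep q hq g ((le_sup_left : K ≤ K ⊔ J) hgK))
      rw [hord]
      exact hodd.coprime_two_right
    · rw [hord]; exact hodd
  rwa [hK1] at hfinal

end Cfsg.Agent.S2941
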