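import Cfsg.Statements.S2942
import Mathlib
import Cfsg.Agent.Helper11.JOver
import Cfsg.Agent.Helper11.SubnTools
import Cfsg.Agent.Helper11.ClassTwoCore
import Cfsg.Agent.Helper49.ThompsonEA
import Cfsg.Agent.S2941
import Cfsg.Agent.S0602

set_option autoImplicit false
open Cfsg

namespace Cfsg.Agent.S2942

open scoped commutatorElement

/-- Let G be a finite group of characteristic 2 type in which every 2-local subgroup is solvable and the centralizer of Ω₁(Z(S)) lies in N_G(S) for every Sylow 2-subgroup S, and let T be a nontrivial 2-subgroup (below, J is the Thompson subgroup generated by the elementary abelian 2-subgroups of largest order). If L is a subgroup in which T is a Sylow 2-subgroup, with J(T) not contained in O₂(L) and C_G(O₂(L)) ≤ O₂(L), then every J(T)-component contained in L is subnormal in L. -/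
theorem result {G : Type*} [Group G] [Finite G] (hL : Cfsg.IsCharacteristicTwoType G) (hN : ∀ N : Subgroup G, Cfsg.IsTwoLocal N → Group.IsSolvable ↥N)
    (hZ : ∀ S : Sylow 2 G, Subgroup.centralizer (Cfsg.omegaCenterOf (S : Subgroup G) : Set G) ≤ Subgroup.normalizer ((S : Subgroup G) : Set G)) (T : Subgroup G) (hT : IsPGroup 2 ↥T) (hT1 : T ≠ ⊥) (L : Subgroup G) (hLT : L ∈ Cfsg.jOvergroups T)
    (K : Subgroup G) (hK : Cfsg.IsJComponent T K) (hKL : K ≤ L) : (K.subgroupOf L).IsSubnormal := by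
  classical
  haveI : Fact (Nat.Prime 2) := ⟨Nat.prime_two⟩
  have F := Cfsg.Agent.Helper11.jOver_facts hN hZ T hT hT1 L hLT
  have hJTL : Cfsg.thompsonSubgroupOf 2 T ≤ L := (Helper49.thompsonOf_le_self 2 T).trans F.TL
  haveI hQn : (Cfsg.pCore 2 ↥L).Normal := Helper10.pCore_normal 2 ↥L
  haveI hVn : (Helper11.jV L).Normal := F.Vn
  haveI hCn : (Helper11.jC L).Normal := by
    unfold Helper11.jC
    infer_instance
  haveI hJXn : (Cfsg.thompsonSubgroup 2 ↥L).Normal := by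
    haveI := (Cfsg.Agent.S0602.result (G := ↥L) (p := 2)).1
    infer_instance
  haveI hDn : (⁅Cfsg.thompsonSubgroup 2 ↥L, Cfsg.thompsonSubgroup 2 ↥L⁆).Normal := by
    infer_instance
  -- (i) `[K', J'] = K'`
  have h1 : ⁅K.subgroupOf L, (Cfsg.thompsonSubgroupOf 2 T).subgroupOf L⁆ = K.subgroupOf L := by
    apply Subgroup.map_injective L.subtype_injective
    rw [Subgroup.map_commutator, Subgroup.map_subgroupOf_eq_of_le hKL,
      Subgroup.map_subgroupOf_eq_of_le hJTL]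
    exact hK.2.1
  -- (ii) `K' ≤ ⁅JX, JX⁆`
  have h2 : K.subgroupOf L ≤ Cfsg.thompsonSubgroup 2 ↥L := by
    rw [← h1]
    exact (Subgroup.commutator_mono le_top F.JT_le).trans (Subgroup.commutator_le_right _ _)
  have h3 : K.subgroupOf L ≤ ⁅Cfsg.thompsonSubgroup 2 ↥L, Cfsg.thompsonSubgroup 2 ↥L⁆ := by
    calc K.subgroupOf L = ⁅K.subgroupOf L, (Cfsg.thompsonSubgroupOf 2 T).subgroupOf L⁆ := h1.symm
      _ ≤ _ := Subgroup.commutator_mono h2 F.JT_le
  -- (iv) `[C', K'] ≤ Q'`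
  haveI hSn : (Helper11.stabSec (Helper11.jC L) (Cfsg.pCore 2 ↥L)).Normal :=
    Helper11.stabSec_normal _ _
  have h4 : T.subgroupOf L ≤ Helper11.stabSec (Helper11.jC L) (Cfsg.pCore 2 ↥L) := by
    intro t ht
    rw [Helper11.mem_stabSec]
    intro c hc
    have h := (Cfsg.pCore 2 ↥L).inv_mem (F.comm_T c hc t ht)
    have e : (c * t * c⁻¹ * t⁻¹)⁻¹ = t * c * t⁻¹ * c⁻¹ := by group
    rwa [e] at h
  have hJT' : (Cfsg.thompsonSubgroupOf 2 T).subgroupOf L ≤ T.subgroupOf L := by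
    intro x hx
    rw [Subgroup.mem_subgroupOf] at hx ⊢
    exact Helper49.thompsonOf_le_self 2 T hx
  have h5 : K.subgroupOf L ≤ Helper11.stabSec (Helper11.jC L) (Cfsg.pCore 2 ↥L) := by
    rw [← h1]
    exact (Subgroup.commutator_mono le_top (hJT'.trans h4)).trans
      (Subgroup.commutator_le_right _ _)
  have h6 : ∀ c ∈ Helper11.jC L, ∀ k ∈ K.subgroupOf L, c * k * c⁻¹ * k⁻¹ ∈ Cfsg.pCore 2 ↥L := by
    intro c hc k hk
    have h := (Helper11.mem_stabSec _ _ _).1 (h5 hk) c⁻¹ ((Helper11.jC L).inv_mem hc)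
    have h' := hQn.conj_mem _ h c
    have e : c * (k * c⁻¹ * k⁻¹ * c⁻¹⁻¹) * c⁻¹ = c * k * c⁻¹ * k⁻¹ := by group
    rwa [e] at h'
  -- (v) `Q' ≤ N(K')`
  have hQ1 : K ⊔ Cfsg.thompsonSubgroupOf 2 T ≤
      Subgroup.normalizer (Cfsg.pCoreOf 2 L : Set G) := by
    refine (sup_le hKL hJTL).trans ?_
    intro x hx
    have := Subgroup.le_normalizer_map L.subtype (H := Cfsg.pCore 2 ↥L)
    apply this
    refine ⟨⟨x, hx⟩, ?_, rfl⟩
    rw [Subgroup.normalizer_eq_top]
    exact Subgroup.mem_top _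
  have hQT : Cfsg.pCoreOf 2 L ≤ T := by
    rintro _ ⟨q, hq, rfl⟩
    exact F.Q_le_T hq
  have hQ2 : Cfsg.pCoreOf 2 L ≤ Subgroup.normalizer (Cfsg.thompsonSubgroupOf 2 T : Set G) :=
    hQT.trans (Subgroup.le_normalizer.trans (Helper49.normalizer_le_normalizer_thompsonOf 2 T))
  have h7g := Cfsg.Agent.S2941.result hL hN hZ T hT hT1 K hK (Cfsg.pCoreOf 2 L) hQ1 hQ2
  have h7 : Cfsg.pCore 2 ↥L ≤ Subgroup.normalizer ((K.subgroupOf L : Subgroup ↥L) : Set ↥L) := by
    intro q hq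
    apply Subgroup.mem_normalizer_fintype
    intro k hk
    have hk' : k ∈ K.subgroupOf L := hk
    rw [Subgroup.mem_subgroupOf] at hk'
    have hqg : (q : G) ∈ Subgroup.normalizer (K : Set G) := h7g ⟨q, hq, rfl⟩
    have := (Subgroup.mem_normalizer_iff.1 hqg (k : G)).1 hk'
    show q * k * q⁻¹ ∈ K.subgroupOf L
    rw [Subgroup.mem_subgroupOf]
    simpa using this
  -- the chain
  have hM3 : (⁅Cfsg.thompsonSubgroup 2 ↥L, Cfsg.thompsonSubgroup 2 ↥L⁆ ⊔ Helper11.jC L).IsSubnormal :=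
    (Subgroup.sup_normal _ _).isSubnormal
  have hM2le : K.subgroupOf L ⊔ Helper11.jC L ≤
      ⁅Cfsg.thompsonSubgroup 2 ↥L, Cfsg.thompsonSubgroup 2 ↥L⁆ ⊔ Helper11.jC L :=
    sup_le_sup_right h3 _
  have hM2 : (K.subgroupOf L ⊔ Helper11.jC L).IsSubnormal := by
    refine Subgroup.IsSubnormal.step _ _ hM2le hM3 ?_
    rw [Subgroup.normal_subgroupOf_iff_le_normalizer hM2le]
    refine sup_le ?_ (le_sup_right.trans Subgroup.le_normalizer)
    intro x hx
    apply Helper11.mem_normalizer_sup_of_comm_mem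
    intro k hk
    exact Helper11.comm_comm_mem_of_gens _ _ F.metab x hx k (h3 hk)
  have hM1le : K.subgroupOf L ⊔ Cfsg.pCore 2 ↥L ≤ K.subgroupOf L ⊔ Helper11.jC L :=
    sup_le_sup_left F.Q_le_C _
  have hM1 : (K.subgroupOf L ⊔ Cfsg.pCore 2 ↥L).IsSubnormal := by
    refine Subgroup.IsSubnormal.step _ _ hM1le hM2 ?_
    rw [Subgroup.normal_subgroupOf_iff_le_normalizer hM1le]
    refine sup_le (le_sup_left.trans Subgroup.le_normalizer) ?_
    intro c hc
    apply Helper11.mem_normalizer_sup_of_comm_mem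
    intro k hk
    exact h6 c hc k hk
  have hM0le : K.subgroupOf L ≤ K.subgroupOf L ⊔ Cfsg.pCore 2 ↥L := le_sup_left
  refine Subgroup.IsSubnormal.step _ _ hM0le hM1 ?_
  rw [Subgroup.normal_subgroupOf_iff_le_normalizer hM0le]
  exact sup_le Subgroup.le_normalizer h7

end Cfsg.Agent.S2942
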