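-- Statement S0695: regular normal subgroups of doubly primitive groups.
import Cfsg.Statements.S0695
import Cfsg.Agent.Helper12.RegNormal

set_option autoImplicit false
open Cfsg
open scoped Pointwise

namespace Cfsg.Agent.S0695

open Cfsg.Agent.Helper12 in
/-- A regular normal subgroup of a doubly primitive group of finite degree at least 2 is an elementary abelian 2-group (and the degree is a power of 2), unless the degree is 3. -/
theorem result {G : Type*} [Group G] {X : Type*} [Fintype X] [MulAction G X] (hX : 2 ≤ Fintype.card X) (h2 : MulAction.IsMultiplyPreprimitive G X 2) (N : Subgroup G) [N.Normal] (htrans : MulAction.IsPretransitive N X) (hreg : ∀ x : X, MulAction.stabilizer N x = ⊥) : Fintype.card X = 3 ∨ (IsMulCommutative N ∧ (∀ n ∈ N, n ^ 2 = 1) ∧ ∃ m : ℕ, Fintype.card X = 2 ^ m) := by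
  classical
  have hne : Nonempty X := Fintype.card_pos_iff.mp (by omega)
  obtain ⟨a⟩ := hne
  have hGt : MulAction.IsPretransitive G X := ⟨fun x y => by
    obtain ⟨n, hn⟩ := htrans.exists_smul_eq x y
    exact ⟨n.1, hn⟩⟩
  have hprim : MulAction.IsPreprimitive (MulAction.stabilizer G a)
      (SubMulAction.ofStabilizer G a) := by
    have : MulAction.IsMultiplyPreprimitive G X (Nat.succ 1) := h2
    exact (MulAction.is_one_preprimitive_iff (MulAction.stabilizer G a)
      (SubMulAction.ofStabilizer G a)).mp
      (MulAction.isMultiplyPreprimitive_ofStabilizer G X (n := 1) (a := a))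
  have hfree : ∀ {n m : G}, n ∈ N → m ∈ N → ∀ {x : X}, n • x = m • x → n = m :=
    fun hn hm _ h => free_of_reg N hreg hn hm h
  have key : ∀ n ∈ N, n ^ 2 ≠ 1 → Fintype.card X = 3 := by
    intro n hn hn2
    have hn1 : n ≠ 1 := by rintro rfl; exact hn2 (one_pow 2)
    have hninv : n ≠ n⁻¹ := by
      intro h; apply hn2; rw [pow_two]; nth_rewrite 2 [h]; exact mul_inv_cancel n
    have hna : n • a ≠ a := by
      intro h; apply hn1; exact hfree hn N.one_mem (by rw [one_smul]; exact h)
    have hnia : n⁻¹ • a ≠ a := by
      intro h; apply hn1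
      have := hfree (N.inv_mem hn) N.one_mem (by rw [one_smul]; exact h)
      exact inv_eq_one.mp this
    have hnn : n • a ≠ n⁻¹ • a := fun h => hninv (hfree hn (N.inv_mem hn) h)
    set B : Set (SubMulAction.ofStabilizer G a) :=
      {x | (x : X) = n • a ∨ (x : X) = n⁻¹ • a} with hB
    have hblock : MulAction.IsBlock (MulAction.stabilizer G a) B := by
      rw [MulAction.isBlock_iff_smul_eq_of_mem]
      intro g x hx hgx
      have hc : (g : G) * n * (g : G)⁻¹ = n ∨ (g : G) * n * (g : G)⁻¹ = n⁻¹ := by
        have hcN : (g : G) * n * (g : G)⁻¹ ∈ N := ‹N.Normal›.conj_mem n hn g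
        have hcN' : ((g : G) * n * (g : G)⁻¹)⁻¹ ∈ N := N.inv_mem hcN
        have e1 : (g : G) • (n • a) = ((g : G) * n * (g : G)⁻¹) • a := stab_smul_smul g.2 n
        have e2 : (g : G) • (n⁻¹ • a) = ((g : G) * n * (g : G)⁻¹)⁻¹ • a := by
          rw [stab_smul_smul g.2 n⁻¹]; congr 1; group
        have hgx' : (g : G) • (x : X) = n • a ∨ (g : G) • (x : X) = n⁻¹ • a := hgx
        rcases hx with hx | hx <;> rcases hgx' with h | h
        · rw [hx, e1] at h; exact Or.inl (hfree hcN hn h)
        · rw [hx, e1] at h; exact Or.inr (hfree hcN (N.inv_mem hn) h)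
        · rw [hx, e2] at h; right
          have := hfree hcN' hn h
          exact inv_eq_iff_eq_inv.mp this
        · rw [hx, e2] at h; left
          have := hfree hcN' (N.inv_mem hn) h
          exact inv_injective this
      have hsub : g • B ⊆ B := by
        rintro y ⟨z, hz, rfl⟩
        change (g : G) • (z : X) = n • a ∨ (g : G) • (z : X) = n⁻¹ • a
        rcases hz with hz | hz
        · rw [hz, stab_smul_smul g.2 n]
          rcases hc with hc | hc
          · left; rw [hc]
          · right; rw [hc]
        · rw [hz, stab_smul_smul g.2 n⁻¹]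
          have : (g : G) * n⁻¹ * (g : G)⁻¹ = ((g : G) * n * (g : G)⁻¹)⁻¹ := by group
          rw [this]
          rcases hc with hc | hc
          · right; rw [hc]
          · left; rw [hc, inv_inv]
      exact Set.eq_of_subset_of_ncard_le hsub (by rw [Set.ncard_smul_set]) (Set.toFinite B)
    rcases hprim.isTrivialBlock_of_isBlock hblock with hsub | huniv
    · exfalso
      have h1 : (⟨n • a, hna⟩ : SubMulAction.ofStabilizer G a) ∈ B := Or.inl rfl
      have h2 : (⟨n⁻¹ • a, hnia⟩ : SubMulAction.ofStabilizer G a) ∈ B := Or.inr rfl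
      have := hsub h1 h2
      exact hnn (congrArg Subtype.val this)
    · have hall : ∀ x : X, x = a ∨ x = n • a ∨ x = n⁻¹ • a := by
        intro x
        by_cases hx : x = a
        · exact Or.inl hx
        · right
          have : (⟨x, hx⟩ : SubMulAction.ofStabilizer G a) ∈ B := by
            rw [huniv]; exact Set.mem_univ _
          exact this
      have huniv' : (Finset.univ : Finset X) = {a, n • a, n⁻¹ • a} := by
        ext x
        simp only [Finset.mem_univ, Finset.mem_insert, Finset.mem_singleton, true_iff]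
        exact hall x
      rw [← Finset.card_univ, huniv', Finset.card_eq_three]
      exact ⟨a, n • a, n⁻¹ • a, Ne.symm hna, Ne.symm hnia, hnn, rfl⟩
  by_cases h3 : Fintype.card X = 3
  · exact Or.inl h3
  · right
    have hsq : ∀ n ∈ N, n ^ 2 = 1 := by
      intro n hn; by_contra h; exact h3 (key n hn h)
    have hinv : ∀ n ∈ N, n⁻¹ = n := by
      intro n hn
      rw [inv_eq_iff_eq_inv, eq_inv_iff_mul_eq_one, ← pow_two]
      exact hsq n hn
    refine ⟨?_, hsq, ?_⟩
    · refine ⟨⟨fun x y => ?_⟩⟩
      apply Subtype.ext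
      change x.1 * y.1 = y.1 * x.1
      rw [← hinv (x.1 * y.1) (N.mul_mem x.2 y.2), mul_inv_rev, hinv x.1 x.2, hinv y.1 y.2]
    · have hbij := bijective_smul_of_reg N htrans hreg a
      have : Finite N := Finite.of_injective _ hbij.1
      have hcard : Fintype.card X = Nat.card N := by
        rw [← Nat.card_eq_fintype_card]
        exact (Nat.card_congr (Equiv.ofBijective _ hbij)).symm
      have : Fact (Nat.Prime 2) := ⟨Nat.prime_two⟩
      have hp : IsPGroup 2 N := by
        intro n
        refine ⟨1, ?_⟩
        rw [pow_one]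
        apply Subtype.ext
        exact hsq n.1 n.2
      obtain ⟨m, hm⟩ := IsPGroup.iff_card.mp hp
      exact ⟨m, by rw [hcard, hm]⟩

end Cfsg.Agent.S0695
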