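-- Statement S0696: regular normal subgroups of triply primitive groups.
import Cfsg.Statements.S0696
import Cfsg.Agent.Helper12.RegNormal
import Cfsg.Agent.S0695

set_option autoImplicit false
open Cfsg
open scoped Pointwise

namespace Cfsg.Agent.S0696

open Cfsg.Agent.Helper12 in
/-- A triply primitive group of degree at least 3 having a regular normal subgroup has degree 3 or 4. -/
theorem result {G : Type*} [Group G] {X : Type*} [Fintype X] [MulAction G X] (hX : 3 ≤ Fintype.card X) (h3 : MulAction.IsMultiplyPreprimitive G X 3) (N : Subgroup G) [N.Normal] (htrans : MulAction.IsPretransitive N X) (hreg : ∀ x : X, MulAction.stabilizer N x = ⊥) : Fintype.card X = 3 ∨ Fintype.card X = 4 := by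
  classical
  have hcardE : ((3 : ℕ) : ENat) ≤ ENat.card X := by
    rw [ENat.card_eq_coe_fintype_card]
    exact_mod_cast hX
  have h2 : MulAction.IsMultiplyPreprimitive G X 2 :=
    MulAction.isMultiplyPreprimitive_of_le G X h3 (by norm_num) hcardE
  rcases Cfsg.Agent.S0695.result (by omega) h2 N htrans hreg with h | ⟨hcomm, hsq, -⟩
  · exact Or.inl h
  have hne : Nonempty X := Fintype.card_pos_iff.mp (by omega)
  obtain ⟨a⟩ := hne
  have hGt : MulAction.IsPretransitive G X := ⟨fun x y => by
    obtain ⟨n, hn⟩ := htrans.exists_smul_eq x y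
    exact ⟨n.1, hn⟩⟩
  have hfree : ∀ {n m : G}, n ∈ N → m ∈ N → ∀ {x : X}, n • x = m • x → n = m :=
    fun hn hm _ h => free_of_reg N hreg hn hm h
  have hbij := bijective_smul_of_reg N htrans hreg a
  -- two further points
  have hex1 : ∃ x : X, x ≠ a := by
    by_contra hcon
    push Not at hcon
    have : Fintype.card X ≤ 1 := Fintype.card_le_one_iff.mpr (fun x y => by rw [hcon x, hcon y])
    omega
  obtain ⟨x₁, hx₁⟩ := hex1
  obtain ⟨n', hn'⟩ := hbij.2 x₁
  have hex2 : ∃ x : X, x ≠ a ∧ x ≠ x₁ := by
    by_contra hcon
    push Not at hcon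
    have hsub : (Finset.univ : Finset X) ⊆ {a, x₁} := by
      intro z _
      by_cases h : z = a
      · simp [h]
      · simp [hcon z h]
    have h1 := Finset.card_le_card hsub
    have h2 := Finset.card_le_two (a := a) (b := x₁)
    rw [Finset.card_univ] at h1
    omega
  obtain ⟨x₂, hx₂a, hx₂1⟩ := hex2
  obtain ⟨m', hm'⟩ := hbij.2 x₂
  obtain ⟨n, hn⟩ := n'
  obtain ⟨m, hm⟩ := m'
  change n • a = x₁ at hn'
  change m • a = x₂ at hm'
  subst hn' hm'
  have hn1 : n ≠ 1 := by rintro rfl; exact hx₁ (one_smul _ _)
  have hmn : m ≠ n := by rintro rfl; exact hx₂1 rfl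
  have hnn : n * n = 1 := by rw [← pow_two]; exact hsq n hn
  have hmnN : m * n ∈ N := N.mul_mem hm hn
  have hmna : (m * n) • a ≠ a := by
    intro h
    have := hfree hmnN N.one_mem (by rw [one_smul]; exact h)
    apply hmn
    calc m = m * n * n := by rw [mul_assoc, hnn, mul_one]
      _ = n := by rw [this, one_mul]
  have hmnn : (m * n) • a ≠ n • a := by
    intro h
    have := hfree hmnN hn h
    apply hx₂a
    have hm1 : m = 1 := by
      calc m = m * n * n := by rw [mul_assoc, hnn, mul_one]
        _ = 1 := by rw [this, hnn]
    rw [hm1, one_smul]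
  have hmmn : m • a ≠ (m * n) • a := by
    intro h
    have := hfree hm hmnN h
    apply hn1
    have h1 : m * 1 = m * n := by rw [mul_one]; exact this
    exact (mul_left_cancel h1).symm
  -- primitivity of the two-point stabiliser
  have hGa2 : MulAction.IsMultiplyPreprimitive (MulAction.stabilizer G a)
      (SubMulAction.ofStabilizer G a) 2 :=
    MulAction.isMultiplyPreprimitive_ofStabilizer G X (n := 2) (a := a)
  have hGat : MulAction.IsPretransitive (MulAction.stabilizer G a)
      (SubMulAction.ofStabilizer G a) := MulAction.isPretransitive_of_is_two_pretransitive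
  set b : SubMulAction.ofStabilizer G a := ⟨n • a, hx₁⟩ with hb
  have hprim : MulAction.IsPreprimitive (MulAction.stabilizer (MulAction.stabilizer G a) b)
      (SubMulAction.ofStabilizer (MulAction.stabilizer G a) b) := by
    have : MulAction.IsMultiplyPreprimitive (MulAction.stabilizer G a)
      (SubMulAction.ofStabilizer G a) (Nat.succ 1) := hGa2
    exact (MulAction.is_one_preprimitive_iff (MulAction.stabilizer (MulAction.stabilizer G a) b)
      (SubMulAction.ofStabilizer (MulAction.stabilizer G a) b)).mp
      (MulAction.isMultiplyPreprimitive_ofStabilizer (MulAction.stabilizer G a)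
        (SubMulAction.ofStabilizer G a) (n := 1) (a := b))
  set B : Set (SubMulAction.ofStabilizer (MulAction.stabilizer G a) b) :=
    {x | ((x : SubMulAction.ofStabilizer G a) : X) = m • a ∨
      ((x : SubMulAction.ofStabilizer G a) : X) = (m * n) • a} with hB
  have hblock : MulAction.IsBlock (MulAction.stabilizer (MulAction.stabilizer G a) b) B := by
    rw [MulAction.isBlock_iff_smul_eq_of_mem]
    intro g x hx hgx
    have hga : ((g : MulAction.stabilizer G a) : G) ∈ MulAction.stabilizer G a := g.1.2
    have hgb : ((g : MulAction.stabilizer G a) : G) • (n • a) = n • a := by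
      have := g.2
      rw [MulAction.mem_stabilizer_iff] at this
      exact congrArg Subtype.val this
    have hgn : ((g : MulAction.stabilizer G a) : G) * n * ((g : MulAction.stabilizer G a) : G)⁻¹
        = n := by
      rw [stab_smul_smul hga n] at hgb
      exact hfree (‹N.Normal›.conj_mem n hn _) hn hgb
    have hcN : ((g : MulAction.stabilizer G a) : G) * m * ((g : MulAction.stabilizer G a) : G)⁻¹
        ∈ N := ‹N.Normal›.conj_mem m hm _
    have e1 : ((g : MulAction.stabilizer G a) : G) • (m • a) =
        (((g : MulAction.stabilizer G a) : G) * m * ((g : MulAction.stabilizer G a) : G)⁻¹) • a :=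
      stab_smul_smul hga m
    have e2 : ((g : MulAction.stabilizer G a) : G) • ((m * n) • a) =
        (((g : MulAction.stabilizer G a) : G) * m * ((g : MulAction.stabilizer G a) : G)⁻¹ * n)
          • a := by
      rw [stab_smul_smul hga (m * n)]
      congr 1
      nth_rewrite 2 [← hgn]
      group
    generalize ((g : MulAction.stabilizer G a) : G) * m *
      ((g : MulAction.stabilizer G a) : G)⁻¹ = c at hcN e1 e2
    have hgx' : ((g : MulAction.stabilizer G a) : G) • ((x : SubMulAction.ofStabilizer G a) : X)
        = m • a ∨ ((g : MulAction.stabilizer G a) : G) •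
          ((x : SubMulAction.ofStabilizer G a) : X) = (m * n) • a := hgx
    have hc : c = m ∨ c = m * n := by
      rcases hx with hx | hx <;> rcases hgx' with h | h
      · rw [hx, e1] at h; exact Or.inl (hfree hcN hm h)
      · rw [hx, e1] at h; exact Or.inr (hfree hcN hmnN h)
      · rw [hx, e2] at h; right
        have := hfree (N.mul_mem hcN hn) hm h
        rw [← this, mul_assoc, hnn, mul_one]
      · rw [hx, e2] at h; left
        have := hfree (N.mul_mem hcN hn) hmnN h
        exact mul_right_cancel this
    have hsub : g • B ⊆ B := by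
      rintro y ⟨z, hz, rfl⟩
      change ((g : MulAction.stabilizer G a) : G) • ((z : SubMulAction.ofStabilizer G a) : X)
        = m • a ∨ ((g : MulAction.stabilizer G a) : G) •
          ((z : SubMulAction.ofStabilizer G a) : X) = (m * n) • a
      rcases hz with hz | hz
      · rw [hz, e1]
        rcases hc with hc | hc
        · left; rw [hc]
        · right; rw [hc]
      · rw [hz, e2]
        rcases hc with hc | hc
        · right; rw [hc]
        · left; rw [hc, mul_assoc, hnn, mul_one]
    exact Set.eq_of_subset_of_ncard_le hsub (by rw [Set.ncard_smul_set]) (Set.toFinite B)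
  have hmb : (⟨m • a, hx₂a⟩ : SubMulAction.ofStabilizer G a) ≠ b := by
    intro h; exact hx₂1 (congrArg Subtype.val h)
  have hmnb : (⟨(m * n) • a, hmna⟩ : SubMulAction.ofStabilizer G a) ≠ b := by
    intro h; exact hmnn (congrArg Subtype.val h)
  rcases hprim.isTrivialBlock_of_isBlock hblock with hsub | huniv
  · exfalso
    have h1 : (⟨⟨m • a, hx₂a⟩, hmb⟩ :
        SubMulAction.ofStabilizer (MulAction.stabilizer G a) b) ∈ B := Or.inl rfl
    have h2 : (⟨⟨(m * n) • a, hmna⟩, hmnb⟩ :
        SubMulAction.ofStabilizer (MulAction.stabilizer G a) b) ∈ B := Or.inr rfl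
    have := hsub h1 h2
    exact hmmn (congrArg (fun y : SubMulAction.ofStabilizer (MulAction.stabilizer G a) b =>
      ((y : SubMulAction.ofStabilizer G a) : X)) this)
  · have hall : ∀ x : X, x = a ∨ x = n • a ∨ x = m • a ∨ x = (m * n) • a := by
      intro x
      by_cases hx : x = a
      · exact Or.inl hx
      · right
        by_cases hxn : x = n • a
        · exact Or.inl hxn
        · right
          have hxb : (⟨x, hx⟩ : SubMulAction.ofStabilizer G a) ≠ b := by
            intro h; exact hxn (congrArg Subtype.val h)
          have : (⟨⟨x, hx⟩, hxb⟩ :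
              SubMulAction.ofStabilizer (MulAction.stabilizer G a) b) ∈ B := by
            rw [huniv]; exact Set.mem_univ _
          exact this
    have huniv' : (Finset.univ : Finset X) = {a, n • a, m • a, (m * n) • a} := by
      ext x
      simp only [Finset.mem_univ, Finset.mem_insert, Finset.mem_singleton, true_iff]
      exact hall x
    have hle : Fintype.card X ≤ 4 := by
      rw [← Finset.card_univ, huniv']
      exact Finset.card_le_four
    omega

end Cfsg.Agent.S0696
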