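import Cfsg.Statements.S0250
import Cfsg.Agent.Helper5.SLCard

set_option autoImplicit false
open Cfsg

namespace Cfsg.Agent.S0250

/-- SL_2(2) is isomorphic to S_3. -/
theorem result {F : Type*} [Field F] [Fintype F] (hF : Fintype.card F = 2) : Nonempty (Matrix.SpecialLinearGroup (Fin 2) F ≃* Equiv.Perm (Fin 3)) := by
  classical
  have h2 : (2 : F) = 0 := by
    have := Nat.cast_card_eq_zero F
    rw [hF] at this
    exact_mod_cast this
  let φ := MulAction.toPermHom (Matrix.SpecialLinearGroup (Fin 2) F)
    (Projectivization F (Fin 2 → F))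
  have hker : φ.ker = ⊥ := by
    rw [Projectivization.SL_mulAction_ker]
    exact Helper5.center_SL2_eq_bot h2
  have hinj : Function.Injective φ := (MonoidHom.ker_eq_bot_iff φ).1 hker
  have hcard : Nat.card (Matrix.SpecialLinearGroup (Fin 2) F) = 6 := by
    rw [Helper5.card_SL2, hF]; norm_num
  have hP : Nat.card (Projectivization F (Fin 2 → F)) = 3 := by
    rw [Helper5.card_projLine, hF]
  have : Finite (Projectivization F (Fin 2 → F)) := Nat.finite_of_card_ne_zero (by omega)
  have hbij : Function.Bijective φ :=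
    (Nat.bijective_iff_injective_and_card φ).2 ⟨hinj, by rw [hcard, Nat.card_perm, hP]; rfl⟩
  have e : Projectivization F (Fin 2 → F) ≃ Fin 3 := Finite.equivFinOfCardEq hP
  exact ⟨(MulEquiv.ofBijective φ hbij).trans (Equiv.permCongrHom e)⟩

end Cfsg.Agent.S0250
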