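import Cfsg.Statements.S4456
import Cfsg.Agent.Helper80.LinExt
import Cfsg.Agent.Helper2.Tate
import Cfsg.Agent.Helper2.PResidual
import Cfsg.Agent.Helper2.PGroup

set_option autoImplicit false
open Cfsg

namespace Cfsg.Agent.S4456

/-- Let p be a prime and G a finite group such that p divides the degree of every irreducible character of G of degree greater than one. Then G has a normal p-complement: a normal subgroup of order prime to p whose index is a power of p. -/
theorem result {G : Type*} [Group G] [Finite G] (p : ℕ) (hp : p.Prime) (hdeg : ∀ χ : Cfsg.IrrCharacter G, Cfsg.charDegree (χ : G → ℂ) ≠ 1 → p ∣ Cfsg.charDegree (χ : G → ℂ)) : ∃ N : Subgroup G, N.Normal ∧ (Nat.card N).Coprime p ∧ ∃ k : ℕ, N.index = p ^ k := by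
  have : Fact p.Prime := ⟨hp⟩
  let P : Sylow p G := default
  have hfr : (P : Subgroup G) ⊓ Cfsg.pResidual p G ≤
      (frattini P).map (P : Subgroup G).subtype := by
    intro z hz
    have hzc : z ∈ commutator G := Cfsg.Agent.Helper2.sylow_inf_pResidual_le_commutator P hz
    have hzP : z ∈ (P : Subgroup G) := hz.1
    have hmem : (⟨z, hzP⟩ : (P : Subgroup G)) ∈ commutator (P : Subgroup G) := by
      apply Cfsg.Agent.Helper80.mem_commutator_of_forall_hom
      intro μ
      obtain ⟨f, hf⟩ := Cfsg.Agent.Helper80.exists_linear_extension p hp hdeg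
        (P : Subgroup G) P.not_dvd_index μ
      rw [← hf ⟨z, hzP⟩]
      exact Cfsg.Agent.Helper79.hom_apply_eq_one_of_mem_commutator f hzc
    exact ⟨⟨z, hzP⟩, Cfsg.Agent.Helper2.commutator_le_frattini_of_isPGroup P.2 hmem, rfl⟩
  obtain ⟨Q, N, hN, hc⟩ := Cfsg.Agent.Helper2.hasNormalPComplement_of_inf_pResidual_le_frattini P hfr
  refine ⟨N, hN, ?_, ?_⟩
  · have h1 : (Q : Subgroup G).index = Nat.card N := hc.index_eq_card
    rw [← h1]
    exact (Nat.Prime.coprime_iff_not_dvd hp).mpr Q.not_dvd_index |>.symm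
  · have h1 : N.index = Nat.card (Q : Subgroup G) := hc.symm.index_eq_card
    rw [h1]
    exact (IsPGroup.iff_card).mp Q.2

end Cfsg.Agent.S4456
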