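import Cfsg.Statements.S0175
import Cfsg.Agent.Helper75.CliffordCorr
import Cfsg.Agent.Helper80.CharOrtho

set_option autoImplicit false
open Cfsg

namespace Cfsg.Agent.S0175


/-- The value of a function induced from a linear character at an element all of whose conjugates
lie in the kernel. -/
theorem ind_lin_eq_one {G : Type*} [Group G] [Fintype G] (H : Subgroup G) (lam : H →* ℂˣ) (g : G)
    (hg : ∀ x : G, ∃ hx : x⁻¹ * g * x ∈ H, lam ⟨x⁻¹ * g * x, hx⟩ = 1) :
    Cfsg.indFun H (fun h => (lam h : ℂ)) g = Cfsg.indFun H (fun h => (lam h : ℂ)) 1 := by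
  unfold Cfsg.indFun
  congr 1
  apply Finset.sum_congr rfl
  intro x _
  obtain ⟨hx, hx1⟩ := hg x
  rw [Cfsg.Agent.Helper3.extendByZero_of_mem H _ hx, hx1]
  have h1 : x⁻¹ * 1 * x ∈ H := by simp
  rw [Cfsg.Agent.Helper3.extendByZero_of_mem H _ h1]
  have : (⟨x⁻¹ * 1 * x, h1⟩ : H) = 1 := Subtype.ext (by simp)
  rw [this, map_one]

/-- If the permutation character `Ind 1_H` takes its degree at `g`, every conjugate of `g` lies
in `H`. -/
theorem mem_of_ind_one_eq {G : Type*} [Group G] [Fintype G] (H : Subgroup G) (g : G)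
    (hg : Cfsg.indFun H (fun _ => (1 : ℂ)) g = Cfsg.indFun H (fun _ => (1 : ℂ)) 1) :
    ∀ x : G, x⁻¹ * g * x ∈ H := by
  classical
  unfold Cfsg.indFun at hg
  have hHne : (Nat.card H : ℂ) ≠ 0 := by exact_mod_cast (Nat.card_pos (α := H)).ne'
  have h1 := mul_left_cancel₀ (inv_ne_zero hHne) hg
  have hval : ∀ y : G, Cfsg.extendByZero H (fun _ => (1 : ℂ)) y = if y ∈ H then 1 else 0 := by
    intro y
    by_cases hy : y ∈ H
    · rw [if_pos hy, Cfsg.Agent.Helper3.extendByZero_of_mem H _ hy]
    · rw [if_neg hy, Cfsg.Agent.Helper3.extendByZero_of_not_mem H _ hy]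
  simp only [hval] at h1
  have hR : ∑ x : G, (if x⁻¹ * 1 * x ∈ H then (1 : ℂ) else 0) = (Fintype.card G : ℂ) := by
    simp
  rw [hR, Finset.sum_boole] at h1
  have h3 : (Finset.univ.filter (fun x : G => x⁻¹ * g * x ∈ H)).card = Fintype.card G := by
    exact_mod_cast h1
  have h4 : Finset.univ.filter (fun x : G => x⁻¹ * g * x ∈ H) = Finset.univ :=
    Finset.eq_univ_of_card _ h3
  intro x
  have : x ∈ Finset.univ.filter (fun x : G => x⁻¹ * g * x ∈ H) := by rw [h4]; exact Finset.mem_univ _
  exact (Finset.mem_filter.mp this).2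

open Cfsg.Agent.Helper75 in
/-- Key induction of Taketa's theorem. -/
theorem taketa_aux {G : Type*} [Group G] [Fintype G]
    (hM : ∀ χ : G → ℂ, Cfsg.IsIrrCharacter G χ → ∃ (H : Subgroup G) (lam : H →* ℂˣ),
      χ = Cfsg.indFun H (fun h => (lam h : ℂ))) :
    ∀ (d : ℕ) (χ : G → ℂ), Cfsg.IsIrrCharacter G χ → Cfsg.charDegree χ = d →
      ∃ i : ℕ, ∀ g ∈ derivedSeries G i, χ g = χ 1 := by
  classical
  let _ : Fintype (Cfsg.IrrCharacter G) := Fintype.ofFinite _
  intro d
  induction d using Nat.strong_induction_on with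
  | _ d ih =>
    intro χ hχ hd
    obtain ⟨H, lam, hχeq⟩ := hM χ hχ
    have hHne : (Nat.card H : ℂ) ≠ 0 := by exact_mod_cast (Nat.card_pos (α := H)).ne'
    have hquot : (Nat.card G : ℂ) / (Nat.card H : ℂ) = (H.index : ℂ) := by
      rw [← Subgroup.index_mul_card H]
      push_cast
      field_simp
    have hdidx : d = H.index := by
      rw [← hd]
      apply charDegree_of_one_eq_nat
      rw [hχeq, indFun_one, hquot, map_one]
      simp
    -- Claim A
    have hA : ∃ i : ℕ, ∀ g ∈ derivedSeries G i, ∀ x : G, x⁻¹ * g * x ∈ H := by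
      by_cases hH : H = ⊤
      · exact ⟨0, fun g _ x => by rw [hH]; trivial⟩
      · have hd2 : 2 ≤ d := by
          have h1 : H.index ≠ 1 := fun h => hH (Subgroup.index_eq_one.mp h)
          have h2 : H.index ≠ 0 := Subgroup.index_ne_zero_of_finite
          omega
        have h1c : Cfsg.IsCharacter H (fun _ : H => (1 : ℂ)) :=
          Cfsg.Agent.Helper80.isCharacter_of_irr Cfsg.Agent.Helper80.trivial_isIrrCharacter
        have hΦ : Cfsg.IsCharacter G (Cfsg.indFun H (fun _ => (1 : ℂ))) :=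
          Cfsg.Agent.Helper3.isCharacter_indFun H _ h1c
        obtain ⟨m, hm⟩ := exists_nat_mult hΦ
        have hsum := character_eq_sum_irr hΦ
        have hdeg : d = ∑ ψ : Cfsg.IrrCharacter G, m ψ * Cfsg.charDegree (ψ : G → ℂ) := by
          have h1 := congrFun hsum 1
          rw [Finset.sum_apply, indFun_one, hquot, mul_one] at h1
          have h2 : ((d : ℕ) : ℂ) =
              ((∑ ψ : Cfsg.IrrCharacter G, m ψ * Cfsg.charDegree (ψ : G → ℂ) : ℕ) : ℂ) := by
            rw [hdidx, h1]
            push_cast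
            apply Finset.sum_congr rfl
            intro ψ _
            rw [Pi.smul_apply, smul_eq_mul, hm ψ, Cfsg.Agent.Helper80.irr_one_eq ψ]
          exact_mod_cast h2
        have hm1 : m (Cfsg.Agent.Helper80.trivIrr G) = 1 := by
          have h1 := hm (Cfsg.Agent.Helper80.trivIrr G)
          let _ : Fintype H := Fintype.ofFinite H
          rw [Cfsg.Agent.Helper3.frobenius_reciprocity H _ _
            (isCharacter_isClassFunction' (Cfsg.Agent.Helper80.isCharacter_of_irr
              (Cfsg.Agent.Helper80.trivIrr G).2))] at h1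
          have h2 : Cfsg.classInner (fun _ : H => (1 : ℂ))
              (fun h : H => ((Cfsg.Agent.Helper80.trivIrr G : Cfsg.IrrCharacter G) : G → ℂ) h) = 1 :=
            classInner_irr_self Cfsg.Agent.Helper80.trivial_isIrrCharacter
          rw [h2] at h1
          exact_mod_cast h1.symm
        have hlt : ∀ ψ : Cfsg.IrrCharacter G, m ψ ≠ 0 → Cfsg.charDegree (ψ : G → ℂ) < d := by
          intro ψ hψ
          by_cases hψ1 : ψ = Cfsg.Agent.Helper80.trivIrr G
          · rw [hψ1]
            have : Cfsg.charDegree ((Cfsg.Agent.Helper80.trivIrr G : Cfsg.IrrCharacter G) : G → ℂ) = 1 :=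
              charDegree_of_one_eq_nat (by simp)
            omega
          · have hpair : ∑ φ ∈ ({Cfsg.Agent.Helper80.trivIrr G, ψ} : Finset (Cfsg.IrrCharacter G)),
                m φ * Cfsg.charDegree (φ : G → ℂ) ≤
                ∑ φ : Cfsg.IrrCharacter G, m φ * Cfsg.charDegree (φ : G → ℂ) :=
              Finset.sum_le_sum_of_subset (Finset.subset_univ _)
            rw [Finset.sum_pair (fun h => hψ1 h.symm), hm1, ← hdeg] at hpair
            have h3 : Cfsg.charDegree (ψ : G → ℂ) ≤ m ψ * Cfsg.charDegree (ψ : G → ℂ) :=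
              Nat.le_mul_of_pos_left _ (Nat.pos_of_ne_zero hψ)
            have h4 := Cfsg.Agent.Helper80.irr_degree_pos (Cfsg.Agent.Helper80.trivIrr G)
            nlinarith
        have hex : ∀ ψ : Cfsg.IrrCharacter G, ∃ i : ℕ, m ψ ≠ 0 →
            ∀ g ∈ derivedSeries G i, (ψ : G → ℂ) g = (ψ : G → ℂ) 1 := by
          intro ψ
          by_cases hψ : m ψ = 0
          · exact ⟨0, fun h => absurd hψ h⟩
          · obtain ⟨i, hi⟩ := ih _ (hlt ψ hψ) (ψ : G → ℂ) ψ.2 rfl
            exact ⟨i, fun _ => hi⟩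
        choose idx hidx using hex
        refine ⟨Finset.univ.sup idx, ?_⟩
        intro g hg
        apply mem_of_ind_one_eq
        rw [hsum, Finset.sum_apply, Finset.sum_apply]
        apply Finset.sum_congr rfl
        intro ψ _
        rw [Pi.smul_apply, Pi.smul_apply]
        by_cases hψ : m ψ = 0
        · rw [hm ψ, hψ]; simp
        · congr 1
          apply hidx ψ hψ
          exact derivedSeries_antitone G (Finset.le_sup (Finset.mem_univ ψ)) hg
    obtain ⟨i, hi⟩ := hA
    refine ⟨i + 1, ?_⟩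
    intro g hg
    rw [hχeq]
    apply ind_lin_eq_one
    intro x
    have hn : (derivedSeries G (i + 1)).Normal := derivedSeries_normal G (i + 1)
    have hg' : x⁻¹ * g * x ∈ derivedSeries G (i + 1) := by
      have := hn.conj_mem g hg x⁻¹
      simpa using this
    rw [derivedSeries_succ] at hg'
    have hle : ⁅derivedSeries G i, derivedSeries G i⁆ ≤ (lam.ker).map H.subtype := by
      rw [Subgroup.commutator_le]
      intro a ha b hb
      have haH : a ∈ H := by have := hi a ha 1; simpa using this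
      have hbH : b ∈ H := by have := hi b hb 1; simpa using this
      refine ⟨(⟨a, haH⟩ : H) * ⟨b, hbH⟩ * (⟨a, haH⟩ : H)⁻¹ * (⟨b, hbH⟩ : H)⁻¹, ?_, rfl⟩
      rw [SetLike.mem_coe, MonoidHom.mem_ker, map_mul, map_mul, map_mul, map_inv, map_inv]
      rw [mul_comm (lam ⟨a, haH⟩), mul_assoc, mul_assoc]
      simp
    obtain ⟨y, hy, hyx⟩ := hle hg'
    have hxH : x⁻¹ * g * x ∈ H := by rw [← hyx]; exact y.2
    refine ⟨hxH, ?_⟩
    have : (⟨x⁻¹ * g * x, hxH⟩ : H) = y := Subtype.ext hyx.symm
    rw [this]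
    exact hy

/-- Taketa's Theorem on M-groups: if every irreducible complex character of a finite group is induced from a linear character (a homomorphism to ℂˣ) of some subgroup, the group is solvable. -/
theorem result {G : Type*} [Group G] [Fintype G] (hM : ∀ χ : G → ℂ, Cfsg.IsIrrCharacter G χ → ∃ (H : Subgroup G) (lam : H →* ℂˣ), χ = Cfsg.indFun H (fun h => (lam h : ℂ))) : Group.IsSolvable G := by
  classical
  let _ : Fintype (Cfsg.IrrCharacter G) := Fintype.ofFinite _
  have hex : ∀ χ : Cfsg.IrrCharacter G, ∃ i : ℕ, ∀ g ∈ derivedSeries G i,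
      (χ : G → ℂ) g = (χ : G → ℂ) 1 := fun χ => taketa_aux hM _ (χ : G → ℂ) χ.2 rfl
  choose idx hidx using hex
  rw [Group.isSolvable_def]
  refine ⟨Finset.univ.sup idx, ?_⟩
  rw [eq_bot_iff]
  intro g hg
  rw [Subgroup.mem_bot]
  by_contra hg1
  have h1 := Cfsg.Agent.Helper80.irr_sum_degree_mul_of_ne_one hg1
  have h2 := Cfsg.Agent.Helper80.irr_sum_degree_sq (G := G)
  have h3 : ∑ χ : Cfsg.IrrCharacter G, (χ : G → ℂ) 1 * (χ : G → ℂ) g =
      ∑ χ : Cfsg.IrrCharacter G, (χ : G → ℂ) 1 * (χ : G → ℂ) 1 := by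
    apply Finset.sum_congr rfl
    intro χ _
    rw [hidx χ g (derivedSeries_antitone G (Finset.le_sup (Finset.mem_univ χ)) hg)]
  rw [h1, h2] at h3
  have : (Fintype.card G : ℂ) ≠ 0 := by exact_mod_cast Fintype.card_ne_zero
  exact this h3.symm

end Cfsg.Agent.S0175
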