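import Cfsg.Statements.S4458
import Mathlib
import Cfsg.Agent.Helper4.TwoDegHall
import Cfsg.Agent.Helper4.TwoDegMain
import Cfsg.Agent.Helper4.TwoDegTaketa
import Cfsg.Agent.Helper3.MGroup

set_option autoImplicit false
open Cfsg

namespace Cfsg.Agent.S4458

/-- If a finite group has exactly two irreducible character degrees, 1 and m with m ≠ 1, then its commutator subgroup is abelian. -/
theorem result {G : Type*} [Group G] [Finite G] (m : ℕ) (hcd : ∀ χ : Cfsg.IrrCharacter G, Cfsg.charDegree (χ : G → ℂ) = 1 ∨ Cfsg.charDegree (χ : G → ℂ) = m) (hm : ∃ χ : Cfsg.IrrCharacter G, Cfsg.charDegree (χ : G → ℂ) = m) (hm1 : m ≠ 1) : ∀ a ∈ commutator G, ∀ b ∈ commutator G, a * b = b * a := by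
  classical
  obtain ⟨χm, hχm⟩ := hm
  have hm0 : m ≠ 0 := by
    rw [← hχm]
    exact (Cfsg.Agent.Helper80.irr_degree_pos χm).ne'
  obtain ⟨N, hN, hNab, hcop, hnil⟩ := Cfsg.Agent.Helper4.twoDeg_exists_hall m hm0 hcd
  by_cases hc : N ≤ Subgroup.center G
  · haveI : Group.IsNilpotent G :=
      Subgroup.isNilpotent_of_ker_le_center (QuotientGroup.mk' N)
        (by rw [QuotientGroup.ker_mk']; exact hc)
    let _ : Fintype G := Fintype.ofFinite G
    exact Cfsg.Agent.Helper4.twoDeg_taketa
      (fun χ hχ => Cfsg.Agent.Helper3.nilpotent_mgroup χ hχ) m hcd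
  · obtain ⟨A, hAn, hAab, -, hQ⟩ :=
      Cfsg.Agent.Helper4.twoDeg_nonnilpotent m hcd hm1 N hNab hcop hnil hc
    have hle : commutator G ≤ A := by
      rw [commutator_def, Subgroup.commutator_le]
      intro a _ b _
      rw [commutatorElement_def]
      exact hQ a b
    intro a ha b hb
    exact hAab a (hle ha) b (hle hb)

end Cfsg.Agent.S4458
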