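import Cfsg.Statements.S0319
import Cfsg.Agent.Helper6.BN

set_option autoImplicit false
open Cfsg

namespace Cfsg.Agent.S0319

/-- Simplicity criterion for groups with a (B,N)-pair: if the distinguished generators admit no
splitting into two non-empty mutually commuting parts, `B` is solvable, `G` is perfect and the intersection
of all conjugates of `B` is trivial, then `G` is simple. -/
theorem result {G : Type*} [Group G] [Nontrivial G]
    (P : Cfsg.BNPair G) (hirr : P.Irreducible) (hsolv : Group.IsSolvable P.B) (hperf : commutator G = ⊤)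
    (hcore : P.B.normalCore = ⊥) : IsSimpleGroup G := by
  refine ⟨fun K hK => ?_⟩
  by_contra hcon
  push Not at hcon
  obtain ⟨hKbot, hKtop⟩ := hcon
  have hM : P.B ≤ K ⊔ P.B := le_sup_right
  have hMeq := Cfsg.Agent.Helper6.eq_parabolic_of_le P (K ⊔ P.B) hM
  have hJS : P.S ∩ ((K ⊔ P.B : Subgroup G) : Set G) ⊆ P.S := Set.inter_subset_left
  have hJ : P.S ∩ ((K ⊔ P.B : Subgroup G) : Set G) = P.S := by
    by_contra hne
    have hdiff : (P.S \ (P.S ∩ ((K ⊔ P.B : Subgroup G) : Set G))).Nonempty := by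
      by_contra hemp
      apply hne
      apply Set.Subset.antisymm hJS
      intro s hs
      by_contra hsJ
      exact hemp ⟨s, hs, hsJ⟩
    have hJne : (P.S ∩ ((K ⊔ P.B : Subgroup G) : Set G)).Nonempty := by
      by_contra hemp
      rw [Set.not_nonempty_iff_eq_empty] at hemp
      have h1 : K ⊔ P.B = P.B := by
        rw [hemp] at hMeq
        rw [hMeq]
        show P.B ⊔ Subgroup.closure ∅ = P.B
        simp
      have hKB : K ≤ P.B := by
        rw [← h1]
        exact le_sup_left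
      have h2 : K ≤ P.B.normalCore := Subgroup.normal_le_normalCore.mpr hKB
      rw [hcore] at h2
      exact hKbot (le_bot_iff.1 h2)
    obtain ⟨s, hsJ, s', hs'd, hnc⟩ := hirr _ hJS hJne hdiff
    have hs := hJS hsJ
    have hs' := hs'd.1
    have hs'J : s' ∉ P.S ∩ ((K ⊔ P.B : Subgroup G) : Set G) := hs'd.2
    have hsN := Cfsg.Agent.Helper6.S_mem_N P hs
    have hs'N := Cfsg.Agent.Helper6.S_mem_N P hs'
    have hsM : s ∈ K ⊔ P.B := hsJ.2
    obtain ⟨k, hk, b, hb, hkb⟩ := Subgroup.mem_sup_of_normal_left.1 hsM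
    have hkDC : k ∈ Cfsg.Agent.Helper6.DC P s := by
      have : k = s * b⁻¹ := by
        rw [← hkb]
        group
      rw [this]
      exact Cfsg.Agent.Helper6.mul_right_mem_DC P (P.B.inv_mem hb) (Cfsg.Agent.Helper6.DC_self P s)
    have hne' : Cfsg.Agent.Helper6.proj P s' ≠ Cfsg.Agent.Helper6.proj P s := fun h =>
      hs'J (by rw [Cfsg.Agent.Helper6.proj_inj_S P hs' hs h]; exact hsJ)
    have hPg : Cfsg.Agent.Helper6.Pg P s' s := by
      rw [← Cfsg.Agent.Helper6.mem_PsW_iff P hs' hsN]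
      exact (Cfsg.Agent.Helper6.exchFamily P).mem_Ps_of_ne ⟨s', hs', rfl⟩ ⟨s, hs, rfl⟩ hne'
    have h1 : s' * k ∈ Cfsg.Agent.Helper6.DC P (s' * s) := by
      obtain ⟨b₁, hb₁, b₂, hb₂, rfl⟩ := (Cfsg.Agent.Helper6.mem_DC P).1 hkDC
      have : s' * (b₁ * s * b₂) = s' * b₁ * s * b₂ := by group
      rw [this]
      exact Cfsg.Agent.Helper6.mul_right_mem_DC P hb₂ (hPg b₁ hb₁)
    have h2 := Cfsg.Agent.Helper6.T3_inv_right P hs' (P.N.mul_mem hs'N hsN) h1
    have hk' : s' * k * s'⁻¹ ∈ K := hK.conj_mem k hk s'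
    have hk'M : s' * k * s'⁻¹ ∈ P.parabolic (P.S ∩ ((K ⊔ P.B : Subgroup G) : Set G)) := by
      rw [← hMeq]
      exact (le_sup_left : K ≤ K ⊔ P.B) hk'
    obtain ⟨m, hm, hk'm⟩ := (Cfsg.Agent.Helper6.parabolic_mem_iff P hJS _).1 hk'M
    have hmN := Cfsg.Agent.Helper6.closure_le_N P hJS hm
    have hmW := (Cfsg.Agent.Helper6.proj_mem_closure P (hJS.trans P.subset) hm).2
    have hJW : Cfsg.Agent.Helper6.proj P '' (P.S ∩ ((K ⊔ P.B : Subgroup G) : Set G)) ⊆
        Cfsg.Agent.Helper6.SW P := Set.image_mono hJS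
    have hsW : Cfsg.Agent.Helper6.proj P s ∈ Subgroup.closure
        (Cfsg.Agent.Helper6.proj P '' (P.S ∩ ((K ⊔ P.B : Subgroup G) : Set G))) :=
      Subgroup.subset_closure ⟨s, hsJ, rfl⟩
    have hs'W : Cfsg.Agent.Helper6.proj P s' ∉ Subgroup.closure
        (Cfsg.Agent.Helper6.proj P '' (P.S ∩ ((K ⊔ P.B : Subgroup G) : Set G))) := by
      intro hmem
      obtain ⟨t, ht, het⟩ := (Cfsg.Agent.Helper6.exchFamily P).mem_of_mem_closure hJW
        ⟨s', hs', rfl⟩ (Cfsg.Agent.Helper6.SW_ne_one P ⟨s', hs', rfl⟩) hmem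
      exact hs'J (by rw [← Cfsg.Agent.Helper6.proj_inj_S P (hJS ht) hs' het]; exact ht)
    rcases h2 with h | h
    · have hp := Cfsg.Agent.Helper6.bruhat_unique P (P.N.mul_mem (P.N.mul_mem hs'N hsN) hs'N) hmN
        (Cfsg.Agent.Helper6.DC_eq_of_inter P h hk'm)
      rw [Cfsg.Agent.Helper6.proj_mul P (P.N.mul_mem hs'N hsN) hs'N,
        Cfsg.Agent.Helper6.proj_mul P hs'N hsN] at hp
      rw [← hp] at hmW
      rcases (Cfsg.Agent.Helper6.exchFamily P).aba_mem_closure hJW ⟨s', hs', rfl⟩ ⟨s, hs, rfl⟩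
        hne' hmW with h3 | h3
      · exact hs'W h3
      · apply hnc
        have hN1 : s * s' ∈ P.N := P.N.mul_mem hsN hs'N
        have hN2 : s * s' * s⁻¹ ∈ P.N := P.N.mul_mem hN1 (P.N.inv_mem hsN)
        have hN3 : s * s' * s⁻¹ * s'⁻¹ ∈ P.N := P.N.mul_mem hN2 (P.N.inv_mem hs'N)
        rw [← Cfsg.Agent.Helper6.proj_eq_one_iff P hN3,
          Cfsg.Agent.Helper6.proj_mul P hN2 (P.N.inv_mem hs'N),
          Cfsg.Agent.Helper6.proj_mul P hN1 (P.N.inv_mem hsN),
          Cfsg.Agent.Helper6.proj_mul P hsN hs'N,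
          Cfsg.Agent.Helper6.proj_inv P hsN, Cfsg.Agent.Helper6.proj_inv P hs'N, ← h3]
        group
    · have hp := Cfsg.Agent.Helper6.bruhat_unique P (P.N.mul_mem hs'N hsN) hmN
        (Cfsg.Agent.Helper6.DC_eq_of_inter P h hk'm)
      rw [Cfsg.Agent.Helper6.proj_mul P hs'N hsN] at hp
      rw [← hp] at hmW
      apply hs'W
      have e : Cfsg.Agent.Helper6.proj P s' =
          (Cfsg.Agent.Helper6.proj P s' * Cfsg.Agent.Helper6.proj P s) *
            (Cfsg.Agent.Helper6.proj P s)⁻¹ := by group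
      rw [e]
      exact Subgroup.mul_mem _ hmW (Subgroup.inv_mem _ hsW)
  have htop : K ⊔ P.B = ⊤ := by
    rw [hMeq, hJ]
    exact Cfsg.Agent.Helper6.parabolic_S P
  have hsurj : Function.Surjective ((QuotientGroup.mk' K).comp P.B.subtype) := by
    intro q
    obtain ⟨g, rfl⟩ := QuotientGroup.mk'_surjective K q
    have hg : g ∈ K ⊔ P.B := by
      rw [htop]
      trivial
    obtain ⟨k, hk, b, hb, rfl⟩ := Subgroup.mem_sup_of_normal_left.1 hg
    refine ⟨⟨b, hb⟩, ?_⟩
    show (QuotientGroup.mk' K) b = (QuotientGroup.mk' K) (k * b)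
    rw [QuotientGroup.mk'_apply, QuotientGroup.mk'_apply, QuotientGroup.eq]
    have : b⁻¹ * (k * b) = b⁻¹ * k * b⁻¹⁻¹ := by group
    rw [this]
    exact hK.conj_mem k hk b⁻¹
  have : Group.IsSolvable (G ⧸ K) := Group.isSolvable_of_surjective hsurj
  have hsub : Subsingleton (G ⧸ K) := by
    by_contra hns
    rw [not_subsingleton_iff_nontrivial] at hns
    have hlt := Group.IsSolvable.commutator_lt_top_of_nontrivial (G ⧸ K)
    have hc : commutator (G ⧸ K) = ⊤ := by
      have h1 := Subgroup.map_commutator (⊤ : Subgroup G) ⊤ (QuotientGroup.mk' K)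
      have h2 : Subgroup.map (QuotientGroup.mk' K) ⊤ = ⊤ := by
        rw [← MonoidHom.range_eq_map]
        exact MonoidHom.range_eq_top.2 (QuotientGroup.mk'_surjective K)
      rw [h2] at h1
      have h3 : ⁅(⊤ : Subgroup G), ⊤⁆ = ⊤ := hperf
      rw [h3, h2] at h1
      exact h1.symm
    exact (ne_of_lt hlt) hc
  exact hKtop (QuotientGroup.subgroup_eq_top_of_subsingleton K hsub)

end Cfsg.Agent.S0319
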