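import Cfsg.Statements.S1050
import Cfsg.Agent.Helper18.TriSolv
import Cfsg.Agent.Helper17.ChevH
-- import your own Cfsg.Agent.* helpers here

set_option autoImplicit false
open Cfsg

namespace Cfsg.Agent.S1050

/-- `B = UH` is solvable (U nilpotent, H abelian, U ⊴ B). -/
theorem result {F : Type*} [Field F] (D : Cfsg.Lie.ChevalleyDatum) (hD : D ∈ [Cfsg.Lie.chevG2, Cfsg.Lie.chevB2, Cfsg.Lie.chevD4, Cfsg.Lie.chevF4, Cfsg.Lie.chevE6, Cfsg.Lie.chevE7, Cfsg.Lie.chevE8]) : Group.IsSolvable ↥(D.borelSubgroup F) := by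
  have hle : D.borelSubgroup F ≤
      Cfsg.Agent.Helper17.lowerTri (Cfsg.Agent.Helper17.triRank D) F :=
    Cfsg.Agent.Helper17.borel_le_lowerTri (Cfsg.Agent.Helper17.torusFacts_of_mem hD)
      (Cfsg.Agent.Helper17.hDiag_of_mem hD)
  haveI := Cfsg.Agent.Helper18.lowerTri_isSolvable (Cfsg.Agent.Helper17.triRank D) (D.nroots + 1)
    (fun i => Nat.lt_succ_of_le (Cfsg.Agent.Helper17.triRank_le D i)) F
  exact Group.isSolvable_of_isSolvable_injective (f := Subgroup.inclusion hle)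
    (Subgroup.inclusion_injective hle)

end Cfsg.Agent.S1050
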