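import Cfsg.Statements.S1001
import Mathlib
import Cfsg.Agent.S0904
import Cfsg.Agent.S0144

set_option autoImplicit false
open Cfsg

namespace Cfsg.Agent.S1001

/-- In a finite simple group whose order has the form p * 3^a * 2^b with p prime, the centralizer of any element of order p is the cyclic group it generates. -/
theorem result {G : Type*} [Group G] [Finite G] [IsSimpleGroup G] (p a b : ℕ) (hp : p.Prime) (hG : Nat.card G = p * 3 ^ a * 2 ^ b) (x : G) (hx : orderOf x = p) : Subgroup.centralizer ({x} : Set G) = Subgroup.zpowers x := by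
  classical
  have hx1 : x ≠ 1 := by
    rintro rfl
    rw [orderOf_one] at hx
    exact hp.one_lt.ne hx
  by_cases hcomm : ∀ u v : G, u * v = v * u
  · -- abelian simple group: `⟨x⟩` is normal and nontrivial, hence everything
    have hnorm : (Subgroup.zpowers x).Normal :=
      ⟨fun n hn g => by rw [hcomm g n, mul_inv_cancel_right]; exact hn⟩
    rcases hnorm.eq_bot_or_eq_top with h | h
    · exfalso
      exact hx1 (Subgroup.zpowers_eq_bot.1 h)
    · rw [h]
      ext z
      simp only [Subgroup.mem_centralizer_iff, Set.mem_singleton_iff, Subgroup.mem_top,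
        iff_true]
      rintro w rfl
      exact hcomm w z
  · have hns : ¬ Group.IsSolvable G := fun h => hcomm (IsSimpleGroup.comm_iff_isSolvable.2 h)
    have h2p : (2 : ℕ) ≠ p := by
      rintro rfl
      exact hns (Cfsg.Agent.S0144.result 2 3 (b + 1) a Nat.prime_two Nat.prime_three
        (by rw [hG]; ring))
    have h3p : (3 : ℕ) ≠ p := by
      rintro rfl
      exact hns (Cfsg.Agent.S0144.result 2 3 b (a + 1) Nat.prime_two Nat.prime_three
        (by rw [hG]; ring))
    haveI : Fact p.Prime := ⟨hp⟩
    have hG' : Nat.card G = 2 ^ b * 3 ^ a * p := by rw [hG]; ring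
    have hfac : (Nat.card G).factorization p = 1 := by
      rw [hG']
      exact Cfsg.Agent.S0904.s0904_fac 2 3 p b a Nat.prime_two Nat.prime_three hp h2p h3p
    have hpg : IsPGroup p (Subgroup.zpowers x) :=
      IsPGroup.of_card (n := 1) (by rw [Nat.card_zpowers, hx, pow_one])
    obtain ⟨S, hS⟩ := hpg.exists_le_sylow
    have hSc : Nat.card (S : Subgroup G) = p := by
      rw [Sylow.card_eq_multiplicity, hfac, pow_one]
    have hSx : Subgroup.zpowers x = (S : Subgroup G) :=
      Subgroup.eq_of_le_of_card_ge hS (by rw [hSc, Nat.card_zpowers, hx])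
    have h04 := Cfsg.Agent.S0904.result 2 3 p b a Nat.prime_two Nat.prime_three
      (by norm_num) h2p h3p hG' S
    rw [hSx, ← h04]
    ext z
    simp only [Subgroup.mem_centralizer_iff, Set.mem_singleton_iff]
    constructor
    · intro h w hw
      have hw' : w ∈ Subgroup.zpowers x := by rw [hSx]; exact hw
      obtain ⟨k, rfl⟩ := Subgroup.mem_zpowers_iff.1 hw'
      have hc : Commute x z := h x rfl
      exact (hc.zpow_left k).eq
    · rintro h w rfl
      have hw' : w ∈ (S : Subgroup G) := by rw [← hSx]; exact Subgroup.mem_zpowers w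
      exact h w hw'

end Cfsg.Agent.S1001
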