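import Cfsg.Statements.S0561
import Mathlib
import Cfsg.Agent.Helper1.Hall
import Cfsg.Agent.Helper50.CD
import Cfsg.Agent.Helper10.Conj

set_option autoImplicit false
open Pointwise
open Cfsg

namespace Cfsg.Agent.S0561

/-- The lcm of two unitary divisors is a unitary divisor. -/
theorem lcm_unitary {N a b : ℕ} (ha : a ∣ N) (hb : b ∣ N)
    (hac : a.Coprime (N / a)) (hbc : b.Coprime (N / b)) :
    (Nat.lcm a b).Coprime (N / Nat.lcm a b) := by
  have hl : Nat.lcm a b ∣ N := Nat.lcm_dvd ha hb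
  have h1 : a.Coprime (N / Nat.lcm a b) :=
    Nat.Coprime.coprime_dvd_right (Nat.div_dvd_div_left hl (Nat.dvd_lcm_left a b)) hac
  have h2 : b.Coprime (N / Nat.lcm a b) :=
    Nat.Coprime.coprime_dvd_right (Nat.div_dvd_div_left hl (Nat.dvd_lcm_right a b)) hbc
  exact Nat.Coprime.coprime_dvd_left (Nat.lcm_dvd_mul a b) (Nat.Coprime.mul_left h1 h2)

theorem index_eq_div {G : Type*} [Group G] [Finite G] (A : Subgroup G) :
    Nat.card G / Nat.card A = A.index := by
  have h := Subgroup.card_mul_index A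
  rw [← h]
  exact Nat.mul_div_cancel_left _ Nat.card_pos

/-- The product of the two Hall subgroups is a subgroup. -/
theorem prod_subgroup {G : Type*} [Group G] [Finite G] [Group.IsSolvable G] (H K A B : Subgroup G)
    (hHK : ∀ g : G, ∃ h ∈ H, ∃ k ∈ K, g = h * k) (hA : A ≤ H) (hAn : (A.subgroupOf H).Normal)
    (hB : B ≤ K) (hBn : (B.subgroupOf K).Normal) (hAh : (Nat.card A).Coprime A.index)
    (hBh : (Nat.card B).Coprime B.index) :
    ((A ⊔ B : Subgroup G) : Set G) = (A : Set G) * (B : Set G) := by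
  apply Helper50.coe_sup_eq_mulSet_of_card_le
  have hmN : Nat.lcm (Nat.card A) (Nat.card B) ∣ Nat.card G :=
    Nat.lcm_dvd (Subgroup.card_subgroup_dvd_card A) (Subgroup.card_subgroup_dvd_card B)
  have hG : Nat.card G = Nat.lcm (Nat.card A) (Nat.card B) *
      (Nat.card G / Nat.lcm (Nat.card A) (Nat.card B)) := (Nat.mul_div_cancel' hmN).symm
  have hcop : (Nat.lcm (Nat.card A) (Nat.card B)).Coprime
      (Nat.card G / Nat.lcm (Nat.card A) (Nat.card B)) :=
    lcm_unitary (Subgroup.card_subgroup_dvd_card A) (Subgroup.card_subgroup_dvd_card B)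
      (by rwa [index_eq_div]) (by rwa [index_eq_div])
  have hAc : (Nat.card A).Coprime (Nat.card G / Nat.lcm (Nat.card A) (Nat.card B)) :=
    Nat.Coprime.coprime_dvd_left (Nat.dvd_lcm_left _ _) hcop
  have hBc : (Nat.card B).Coprime (Nat.card G / Nat.lcm (Nat.card A) (Nat.card B)) :=
    Nat.Coprime.coprime_dvd_left (Nat.dvd_lcm_right _ _) hcop
  obtain ⟨E₁, hE₁, hAE₁⟩ := Helper1.hall_le_aux _ G _ _ rfl hG hcop A hAc
  obtain ⟨E₂, hE₂, hBE₂⟩ := Helper1.hall_le_aux _ G _ _ rfl hG hcop B hBc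
  obtain ⟨g, hg⟩ := Helper1.hall_conj_aux _ G _ _ rfl hG hcop E₁ E₂ hE₁ hE₂
  -- g = k * h
  obtain ⟨h, hh, k, hk, hgi⟩ := hHK g⁻¹
  have hgkh : g = k⁻¹ * h⁻¹ := by
    rw [← mul_inv_rev, ← hgi, inv_inv]
  -- E := conj h⁻¹ • E₁
  have hAE : A ≤ MulAut.conj h⁻¹ • E₁ := by
    have hA' : MulAut.conj h⁻¹ • A = A :=
      Helper10.conj_smul_eq_of_normal_subgroupOf hA hAn (H.inv_mem hh)
    rw [← hA']
    exact Subgroup.pointwise_smul_le_pointwise_smul_iff.mpr hAE₁
  have hBE : B ≤ MulAut.conj h⁻¹ • E₁ := by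
    have hB' : MulAut.conj k • B = B :=
      Helper10.conj_smul_eq_of_normal_subgroupOf hB hBn hk
    have hE : MulAut.conj h⁻¹ • E₁ = MulAut.conj k • E₂ := by
      rw [← hg, hgkh, Helper10.conj_smul_smul, ← mul_assoc, mul_inv_cancel, one_mul]
    rw [hE, ← hB']
    exact Subgroup.pointwise_smul_le_pointwise_smul_iff.mpr hBE₂
  have hsup : A ⊔ B ≤ MulAut.conj h⁻¹ • E₁ := sup_le hAE hBE
  have hcardE : Nat.card (MulAut.conj h⁻¹ • E₁ : Subgroup G) = Nat.lcm (Nat.card A) (Nat.card B) := by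
    rw [Helper10.card_conj_smul, hE₁]
  have h1 : Nat.card (A ⊔ B : Subgroup G) ≤ Nat.lcm (Nat.card A) (Nat.card B) := by
    rw [← hcardE]
    exact Subgroup.card_le_of_le hsup
  have h2 : Nat.card (A ⊓ B : Subgroup G) ≤ Nat.gcd (Nat.card A) (Nat.card B) := by
    apply Nat.le_of_dvd (Nat.gcd_pos_of_pos_left _ Nat.card_pos)
    exact Nat.dvd_gcd (Subgroup.card_dvd_of_le inf_le_left) (Subgroup.card_dvd_of_le inf_le_right)
  calc Nat.card (A ⊔ B : Subgroup G) * Nat.card (A ⊓ B : Subgroup G)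
      ≤ Nat.lcm (Nat.card A) (Nat.card B) * Nat.gcd (Nat.card A) (Nat.card B) :=
        Nat.mul_le_mul h1 h2
    _ = Nat.card A * Nat.card B := by
        rw [mul_comm, Nat.gcd_mul_lcm]

/-- Let the finite solvable group G be the product HK of subgroups, and let A be normal in H and B normal in K, where A and B are Hall subgroups of G (order coprime to index). Then for all x, y the product set of xAx⁻¹ and yBy⁻¹ is a subgroup of G. -/
theorem result {G : Type*} [Group G] [Finite G] [Group.IsSolvable G] (H K A B : Subgroup G) (hHK : ∀ g : G, ∃ h ∈ H, ∃ k ∈ K, g = h * k) (hA : A ≤ H) (hAn : (A.subgroupOf H).Normal) (hB : B ≤ K) (hBn : (B.subgroupOf K).Normal) (hAh : (Nat.card A).Coprime A.index) (hBh : (Nat.card B).Coprime B.index) (x y : G) : ∃ S : Subgroup G, (S : Set G) = ((MulAut.conj x • A : Subgroup G) : Set G) * ((MulAut.conj y • B : Subgroup G) : Set G) := by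
  have hAB := prod_subgroup H K A B hHK hA hAn hB hBn hAh hBh
  -- find g with conj g • A = conj x • A and conj g • B = conj y • B
  obtain ⟨h, hh, k, hk, hxy⟩ := hHK (x⁻¹ * y)
  have hA' : MulAut.conj h • A = A := Helper10.conj_smul_eq_of_normal_subgroupOf hA hAn hh
  have hB' : MulAut.conj k⁻¹ • B = B :=
    Helper10.conj_smul_eq_of_normal_subgroupOf hB hBn (K.inv_mem hk)
  have hgx : MulAut.conj (x * h) • A = MulAut.conj x • A := by
    rw [← Helper10.conj_smul_smul, hA']
  have hgy : MulAut.conj (x * h) • B = MulAut.conj y • B := by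
    have e : x * h = y * k⁻¹ := by
      have : y = x * (h * k) := by rw [← hxy]; group
      rw [this]; group
    rw [e, ← Helper10.conj_smul_smul, hB']
  refine ⟨MulAut.conj (x * h) • (A ⊔ B), ?_⟩
  rw [← hgx, ← hgy]
  rw [Subgroup.coe_pointwise_smul, Subgroup.coe_pointwise_smul, Subgroup.coe_pointwise_smul, hAB]
  exact smul_mul' _ _ _

end Cfsg.Agent.S0561
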