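import Cfsg.Statements.S0562
import Mathlib
import Cfsg.Agent.Helper10.Conj

set_option autoImplicit false
open Cfsg

namespace Cfsg.Agent.S0562

open Cfsg.Agent.Helper10
open Pointwise

/-- Let the finite group G be the product HK of subgroups, A normal in H, B normal in K, and L the normalizer of the subgroup generated by A and B. Then every element of L is a product of an element of L ∩ H and an element of L ∩ K. -/
theorem result {G : Type*} [Group G] [Finite G] (H K A B : Subgroup G) (hHK : ∀ g : G, ∃ h ∈ H, ∃ k ∈ K, g = h * k) (hA : A ≤ H) (hAn : (A.subgroupOf H).Normal) (hB : B ≤ K) (hBn : (B.subgroupOf K).Normal) : ∀ g ∈ Subgroup.normalizer ((A ⊔ B : Subgroup G) : Set G), ∃ h ∈ Subgroup.normalizer ((A ⊔ B : Subgroup G) : Set G) ⊓ H, ∃ k ∈ Subgroup.normalizer ((A ⊔ B : Subgroup G) : Set G) ⊓ K, g = h * k := by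
  classical
  intro g hg
  obtain ⟨h, hh, k, hk, rfl⟩ := hHK g
  have hgX : MulAut.conj (h * k) • (A ⊔ B) = A ⊔ B := conj_smul_eq_of_mem_normalizer hg
  -- conj k • X = conj h⁻¹ • X
  have e1 : MulAut.conj k • (A ⊔ B) = MulAut.conj h⁻¹ • (A ⊔ B) := by
    rw [← conj_smul_smul] at hgX
    have : MulAut.conj h⁻¹ • MulAut.conj h • MulAut.conj k • (A ⊔ B) = MulAut.conj h⁻¹ • (A ⊔ B) := by
      rw [hgX]
    rwa [conj_inv_smul_smul] at this
  have hkB : MulAut.conj k • B = B := conj_smul_eq_of_normal_subgroupOf hB hBn hk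
  have hhA : MulAut.conj h⁻¹ • A = A := conj_smul_eq_of_normal_subgroupOf hA hAn (H.inv_mem hh)
  have hle : A ⊔ B ≤ MulAut.conj k • (A ⊔ B) := by
    refine sup_le ?_ ?_
    · rw [e1, Subgroup.smul_sup, hhA]
      exact le_sup_left
    · rw [Subgroup.smul_sup, hkB]
      exact le_sup_right
  have hkX : MulAut.conj k • (A ⊔ B) = A ⊔ B := conj_smul_eq_of_le hle
  have hkN : k ∈ Subgroup.normalizer ((A ⊔ B : Subgroup G) : Set G) := mem_normalizer_of_conj_smul_eq hkX
  have hhN : h ∈ Subgroup.normalizer ((A ⊔ B : Subgroup G) : Set G) := by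
    have : h = (h * k) * k⁻¹ := by group
    rw [this]
    exact Subgroup.mul_mem _ hg (Subgroup.inv_mem _ hkN)
  exact ⟨h, ⟨hhN, hh⟩, k, ⟨hkN, hk⟩, rfl⟩

end Cfsg.Agent.S0562
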