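import Cfsg.Statements.S0566
import Mathlib

set_option autoImplicit false
open Pointwise
open Cfsg

namespace Cfsg.Agent.S0566

open Pointwise

/-- every element of `H ⊔ K` is a product `h * k` -/
def Fac {G : Type*} [Group G] (H K : Subgroup G) : Prop := ∀ x ∈ H ⊔ K, ∃ h ∈ H, ∃ k ∈ K, x = h * k

theorem fac_of_set_eq {G : Type*} [Group G] {H K S : Subgroup G}
    (hS : (S : Set G) = (H : Set G) * (K : Set G)) : S = H ⊔ K ∧ Fac H K := by
  have hH : H ≤ S := fun a ha => by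
    have : a ∈ (S : Set G) := by rw [hS]; exact ⟨a, ha, 1, K.one_mem, mul_one a⟩
    exact this
  have hK : K ≤ S := fun a ha => by
    have : a ∈ (S : Set G) := by rw [hS]; exact ⟨1, H.one_mem, a, ha, one_mul a⟩
    exact this
  have hle : S ≤ H ⊔ K := fun x hx => by
    have : x ∈ (H : Set G) * (K : Set G) := by rw [← hS]; exact hx
    obtain ⟨a, ha, b, hb, rfl⟩ := this
    exact Subgroup.mul_mem_sup ha hb
  have hEq : S = H ⊔ K := le_antisymm hle (sup_le hH hK)
  refine ⟨hEq, ?_⟩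
  intro x hx
  have : x ∈ (H : Set G) * (K : Set G) := by rw [← hS, hEq]; exact hx
  obtain ⟨a, ha, b, hb, rfl⟩ := this
  exact ⟨a, ha, b, hb, rfl⟩

theorem set_eq_of_fac {G : Type*} [Group G] {H K : Subgroup G} (h : Fac H K) :
    ((H ⊔ K : Subgroup G) : Set G) = (H : Set G) * (K : Set G) := by
  ext x
  constructor
  · intro hx
    obtain ⟨a, ha, b, hb, rfl⟩ := h x hx
    exact ⟨a, ha, b, hb, rfl⟩
  · rintro ⟨a, ha, b, hb, rfl⟩
    exact Subgroup.mul_mem_sup ha hb

theorem fac_sup {G : Type*} [Group G] {H1 H2 K : Subgroup G} (h1 : Fac H1 K) (h2 : Fac H2 K) :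
    Fac (H1 ⊔ H2) K := by
  have step : ∀ x : G, (∃ m ∈ H1 ⊔ H2, ∃ k ∈ K, x = m * k) →
      ∀ y : G, y ∈ ((H1 : Set G) ∪ H2) ∪ K → ∃ m ∈ H1 ⊔ H2, ∃ k ∈ K, x * y = m * k := by
    rintro x ⟨m, hm, k, hk, rfl⟩ y ((hy | hy) | hy)
    · obtain ⟨a, ha, c, hc, hac⟩ := h1 (k * y) (Subgroup.mul_mem _ (Subgroup.mem_sup_right hk) (Subgroup.mem_sup_left hy))
      refine ⟨m * a, Subgroup.mul_mem _ hm (Subgroup.mem_sup_left ha), c, hc, ?_⟩
      rw [mul_assoc, hac, mul_assoc]
    · obtain ⟨a, ha, c, hc, hac⟩ := h2 (k * y) (Subgroup.mul_mem _ (Subgroup.mem_sup_right hk) (Subgroup.mem_sup_left hy))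
      refine ⟨m * a, Subgroup.mul_mem _ hm (Subgroup.mem_sup_right ha), c, hc, ?_⟩
      rw [mul_assoc, hac, mul_assoc]
    · exact ⟨m, hm, k * y, K.mul_mem hk hy, by rw [mul_assoc]⟩
  intro x hx
  have hx' : x ∈ Subgroup.closure (((H1 : Set G) ∪ H2) ∪ K) := by
    rw [Subgroup.closure_union, Subgroup.closure_union, Subgroup.closure_eq, Subgroup.closure_eq,
      Subgroup.closure_eq]
    exact hx
  refine Subgroup.closure_induction_right (p := fun x _ => ∃ m ∈ H1 ⊔ H2, ∃ k ∈ K, x = m * k)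
    ⟨1, Subgroup.one_mem _, 1, K.one_mem, by simp⟩ ?_ ?_ hx'
  · intro x _ y hy hx
    exact step x hx y hy
  · intro x _ y hy hx
    refine step x hx y⁻¹ ?_
    rcases hy with (hy | hy) | hy
    · exact Or.inl (Or.inl (H1.inv_mem hy))
    · exact Or.inl (Or.inr (H2.inv_mem hy))
    · exact Or.inr (K.inv_mem hy)

theorem fac_conj {G : Type*} [Group G] {H K : Subgroup G} (b : G) (h : Fac H K) :
    Fac (MulAut.conj b • H) (MulAut.conj b • K) := by
  intro x hx
  rw [← Subgroup.smul_sup, Subgroup.mem_pointwise_smul_iff_inv_smul_mem] at hx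
  obtain ⟨a, ha, c, hc, hxac⟩ := h _ hx
  refine ⟨MulAut.conj b • a, Subgroup.smul_mem_pointwise_smul _ _ _ ha, MulAut.conj b • c,
    Subgroup.smul_mem_pointwise_smul _ _ _ hc, ?_⟩
  rw [← smul_mul', ← hxac, smul_inv_smul]

theorem conj_conj_smul {G : Type*} [Group G] (a b : G) (H : Subgroup G) :
    MulAut.conj a • MulAut.conj b • H = MulAut.conj (a * b) • H := by
  rw [smul_smul, ← map_mul]

theorem aux {G : Type*} [Group G] [Finite G] (B : Subgroup G)
    (hB : Subgroup.normalClosure (B : Set G) = ⊤) (A : Subgroup G) :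
    (∀ x : G, Fac A (MulAut.conj x • B) ∧ A ⊔ MulAut.conj x • B ≠ ⊤) →
    Subgroup.normalClosure (A : Set G) = ⊤ → False := by
  induction A using WellFoundedGT.induction with
  | _ A ih =>
  intro hfac hA
  -- the normalizer of A is proper
  have hAtop : A ≠ ⊤ := by
    intro h
    have := (hfac 1).2
    rw [h] at this
    exact this (top_sup_eq _)
  have hN : Subgroup.normalizer (A : Set G) ≠ ⊤ := by
    intro h
    have : A.Normal := Subgroup.normalizer_eq_top_iff.mp h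
    rw [Subgroup.normalClosure_eq_self] at hA
    exact hAtop hA
  -- some conjugate of B is not in the normalizer of A
  have hex : ∃ g : G, ∃ b ∈ MulAut.conj g • B, b ∉ Subgroup.normalizer (A : Set G) := by
    by_contra hcon
    push Not at hcon
    apply hN
    rw [eq_top_iff, ← hB]
    refine Subgroup.closure_le _ |>.mpr ?_
    intro c hc
    rw [Group.mem_conjugatesOfSet_iff] at hc
    obtain ⟨b, hb, hbc⟩ := hc
    rw [isConj_iff] at hbc
    obtain ⟨g, rfl⟩ := hbc
    refine hcon g _ ?_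
    exact ⟨b, hb, by simp [MulAut.conj_apply]⟩
  obtain ⟨g, b, hb, hbN⟩ := hex
  set B1 := MulAut.conj g • B with hB1
  have hS1 := hfac g
  -- the bigger subgroup
  set A1 := A ⊔ MulAut.conj b • A with hA1
  have hlt : A < A1 := by
    refine lt_of_le_of_ne le_sup_left ?_
    intro h
    apply hbN
    have hle : MulAut.conj b • A ≤ A := le_sup_right.trans (le_of_eq h.symm)
    apply Subgroup.mem_normalizer_fintype
    intro n hn
    apply hle
    exact ⟨n, hn, by simp [MulAut.conj_apply]⟩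
  have hA1S : A1 ≤ A ⊔ B1 := by
    refine sup_le le_sup_left ?_
    rintro _ ⟨a, ha, rfl⟩
    simp only [MulDistribMulAction.toMonoidEnd_apply, MulDistribMulAction.toMonoidHom_apply,
      MulAut.smul_def, MulAut.conj_apply]
    exact Subgroup.mul_mem _ (Subgroup.mul_mem _ (Subgroup.mem_sup_right hb) (Subgroup.mem_sup_left ha))
      (Subgroup.inv_mem _ (Subgroup.mem_sup_right hb))
  have hfac1 : ∀ y : G, Fac A1 (MulAut.conj y • B) := by
    intro y
    refine fac_sup (hfac y).1 ?_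
    have := fac_conj b (hfac (b⁻¹ * y)).1
    rwa [conj_conj_smul, mul_inv_cancel_left] at this
  have hncl : Subgroup.normalClosure (A1 : Set G) = ⊤ := by
    rw [eq_top_iff, ← hA]
    exact Subgroup.normalClosure_mono (fun x hx => hlt.le hx)
  -- by maximality, some A1 * B^y is everything
  have hex2 : ∃ y : G, A1 ⊔ MulAut.conj y • B = ⊤ := by
    by_contra hcon
    push Not at hcon
    exact ih A1 hlt (fun y => ⟨hfac1 y, hcon y⟩) hncl
  obtain ⟨y, hy⟩ := hex2
  set B2 := MulAut.conj y • B with hB2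
  -- every element is a * b1 * b2
  have hall : ∀ x : G, ∃ a ∈ A, ∃ b1 ∈ B1, ∃ b2 ∈ B2, x = a * b1 * b2 := by
    intro x
    obtain ⟨m, hm, k, hk, rfl⟩ := hfac1 y x (hy ▸ Subgroup.mem_top x)
    obtain ⟨a, ha, b1, hb1, rfl⟩ := hS1.1 m (hA1S hm)
    exact ⟨a, ha, b1, hb1, k, hk, rfl⟩
  -- B2 is a conjugate of B1 by an element of A
  have hconj : ∃ a ∈ A, B2 = MulAut.conj a • B1 := by
    obtain ⟨a, ha, b1, hb1, b2, hb2, ht⟩ := hall (y * g⁻¹)⁻¹
    -- y * g⁻¹ = b2⁻¹ * b1⁻¹ * a⁻¹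
    obtain ⟨a', ha', b1', hb1', hab⟩ := hS1.1 (b1⁻¹ * a⁻¹)
      (Subgroup.mul_mem _ (Subgroup.mem_sup_right (B1.inv_mem hb1)) (Subgroup.mem_sup_left (A.inv_mem ha)))
    have ht' : y * g⁻¹ = b2⁻¹ * a' * b1' := by
      have : y * g⁻¹ = b2⁻¹ * (b1⁻¹ * a⁻¹) := by
        rw [← inv_inv (y * g⁻¹), ht]; group
      rw [this, hab, mul_assoc]
    refine ⟨a', ha', ?_⟩
    have e1 : B2 = MulAut.conj (y * g⁻¹) • B1 := by
      rw [hB2, hB1, conj_conj_smul, inv_mul_cancel_right]
    have e2 : MulAut.conj (b2⁻¹ * a' * b1') • B1 = MulAut.conj b2⁻¹ • MulAut.conj a' • B1 := by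
      rw [← conj_conj_smul, ← conj_conj_smul, Subgroup.conj_smul_eq_self_of_mem hb1']
    have e3 : MulAut.conj b2 • B2 = B2 := Subgroup.conj_smul_eq_self_of_mem hb2
    rw [ht', e2] at e1
    have : MulAut.conj b2 • B2 = MulAut.conj b2 • MulAut.conj b2⁻¹ • MulAut.conj a' • B1 := by
      rw [← e1]
    rw [e3, conj_conj_smul, mul_inv_cancel, map_one, one_smul] at this
    exact this
  obtain ⟨a0, ha0, hB21⟩ := hconj
  -- hence G = A * B1
  apply hS1.2
  rw [eq_top_iff]
  intro x _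
  obtain ⟨a, ha, b1, hb1, b2, hb2, rfl⟩ := hall x
  rw [hB21] at hb2
  obtain ⟨c, hc, rfl⟩ := hb2
  simp only [MulDistribMulAction.toMonoidEnd_apply, MulDistribMulAction.toMonoidHom_apply,
    MulAut.smul_def, MulAut.conj_apply]
  have hc' : c ∈ B1 := hc
  have h1 : a ∈ A ⊔ B1 := Subgroup.mem_sup_left ha
  have h2 : b1 ∈ A ⊔ B1 := Subgroup.mem_sup_right hb1
  have h3 : a0 ∈ A ⊔ B1 := Subgroup.mem_sup_left ha0
  have h4 : c ∈ A ⊔ B1 := Subgroup.mem_sup_right hc'
  exact Subgroup.mul_mem _ (Subgroup.mul_mem _ h1 h2)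
    (Subgroup.mul_mem _ (Subgroup.mul_mem _ h3 h4) (Subgroup.inv_mem _ h3))

/-- Let A and B be nontrivial subgroups of a finite group G such that for every x the product set of A and xBx⁻¹ is a proper subgroup of G. Then there is a proper normal subgroup of G containing A or containing B. -/
theorem result {G : Type*} [Group G] [Finite G] (A B : Subgroup G) (hA : A ≠ ⊥) (hB : B ≠ ⊥) (h : ∀ x : G, ∃ S : Subgroup G, S ≠ ⊤ ∧ (S : Set G) = (A : Set G) * ((MulAut.conj x • B : Subgroup G) : Set G)) : ∃ N : Subgroup G, N.Normal ∧ N ≠ ⊤ ∧ (A ≤ N ∨ B ≤ N) := by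
  classical
  by_contra hcon
  push Not at hcon
  have hAcl : Subgroup.normalClosure (A : Set G) = ⊤ := by
    by_contra hne
    exact (hcon _ Subgroup.normalClosure_normal hne).1 Subgroup.le_normalClosure
  have hBcl : Subgroup.normalClosure (B : Set G) = ⊤ := by
    by_contra hne
    exact (hcon _ Subgroup.normalClosure_normal hne).2 Subgroup.le_normalClosure
  refine aux B hBcl A ?_ hAcl
  intro x
  obtain ⟨S, hS, hSeq⟩ := h x
  obtain ⟨hEq, hF⟩ := fac_of_set_eq hSeq
  exact ⟨hF, hEq ▸ hS⟩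

end Cfsg.Agent.S0566
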