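import Cfsg.Statements.S0557
import Mathlib
import Cfsg.Agent.Helper50.CD
import Cfsg.Agent.Helper23.FittingHall

set_option autoImplicit false
open Cfsg

namespace Cfsg.Agent.S0557

universe u

open scoped Pointwise commutatorElement

lemma focal_mono {G : Type*} [Group G] {A B : Subgroup G} (h : A ≤ B) :
    A.focalSubgroup ≤ B.focalSubgroup := by
  rw [Subgroup.focalSubgroup_def, Subgroup.focalSubgroup_def]
  apply Subgroup.closure_mono
  rintro g ⟨hg, x, hx, u, rfl⟩
  exact ⟨h hg, x, h hx, u, rfl⟩

lemma focal_map_subtype {G : Type*} [Group G] (K : Subgroup G) (X : Subgroup K) :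
    (X.focalSubgroup).map K.subtype ≤ (X.map K.subtype).focalSubgroup := by
  rw [Subgroup.focalSubgroup_def, MonoidHom.map_closure, Subgroup.focalSubgroup_def]
  apply Subgroup.closure_mono
  rintro _ ⟨g, ⟨hg, x, hx, u, rfl⟩, rfl⟩
  exact ⟨Subgroup.mem_map_of_mem _ hg, x, Subgroup.mem_map_of_mem _ hx, u, by
    rw [map_commutatorElement]; rfl⟩

lemma focal_iter_map {G : Type*} [Group G] (K : Subgroup G) (n : ℕ) (X : Subgroup K) :
    (((fun Y : Subgroup K => Y.focalSubgroup)^[n]) X).map K.subtype ≤
      ((fun Y : Subgroup G => Y.focalSubgroup)^[n]) (X.map K.subtype) := by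
  induction n with
  | zero => exact le_rfl
  | succ n ih =>
    rw [Function.iterate_succ_apply', Function.iterate_succ_apply']
    exact (focal_map_subtype K _).trans (focal_mono ih)

/-- Hall subgroup whose iterated focal subgroups reach the trivial group has a normal complement
(of order the index of `H`). -/
theorem aux : ∀ (n : ℕ) (G : Type u) [Group G] [Finite G] (H : Subgroup G),
    (Nat.card H).Coprime H.index →
    (fun K : Subgroup G => Subgroup.focalSubgroup K)^[n] H = ⊥ →
    ∃ N : Subgroup G, N.Normal ∧ Subgroup.IsComplement' N H := by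
  intro n
  induction n with
  | zero =>
    intro G _ _ H _ h
    simp only [Function.iterate_zero, id_eq] at h
    subst h
    exact ⟨⊤, inferInstance, Subgroup.isComplement'_top_bot⟩
  | succ n ih =>
    intro G _ _ H hHall hfoc
    rw [Function.iterate_succ_apply] at hfoc
    classical
    have hA : (Nat.card (H ⧸ H.focalSubgroupOf)).Coprime H.index :=
      Nat.Coprime.coprime_dvd_left (Subgroup.card_quotient_dvd_card _) hHall
    have hVH : ∀ x : H, H.transferFocal x = (QuotientGroup.mk x : H ⧸ H.focalSubgroupOf) ^ H.index :=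
      fun x => Subgroup.transferFocal_eq_pow H x
    have hpow1 : ∀ y : H ⧸ H.focalSubgroupOf, y ^ H.index = 1 → y = 1 := by
      intro y hy
      have h1 : orderOf y ∣ H.index := orderOf_dvd_of_pow_eq_one hy
      have h2 : orderOf y ∣ Nat.card (H ⧸ H.focalSubgroupOf) := orderOf_dvd_natCard y
      exact orderOf_eq_one_iff.mp (Nat.eq_one_of_dvd_coprimes hA h2 h1)
    have hKH : H.transferFocal.ker ⊓ H = H.focalSubgroup := by
      ext x
      constructor
      · rintro ⟨hxK, hxH⟩
        have h1 : H.transferFocal x = 1 := hxK
        have h2 := hVH ⟨x, hxH⟩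
        have h3 := hpow1 _ (h2.symm.trans h1)
        have h4 : (⟨x, hxH⟩ : H) ∈ H.focalSubgroupOf := (QuotientGroup.eq_one_iff _).mp h3
        exact Subgroup.mem_subgroupOf.mp h4
      · intro hx
        have hxH := Subgroup.focalSubgroup_le H hx
        refine ⟨?_, hxH⟩
        show H.transferFocal x = 1
        have h2 := hVH ⟨x, hxH⟩
        have h3 : (QuotientGroup.mk (⟨x, hxH⟩ : H) : H ⧸ H.focalSubgroupOf) = 1 :=
          (QuotientGroup.eq_one_iff _).mpr (Subgroup.mem_subgroupOf.mpr hx)
        rw [h3, one_pow] at h2
        exact h2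
    have hmul : ((H.transferFocal.ker : Set G) * (H : Set G)) = Set.univ := by
      ext g
      simp only [Set.mem_univ, iff_true]
      obtain ⟨b, hb⟩ := (powCoprime hA).surjective (H.transferFocal g)
      obtain ⟨y, rfl⟩ := QuotientGroup.mk_surjective b
      refine ⟨g * (y : G)⁻¹, ?_, y, y.2, by group⟩
      show H.transferFocal (g * (y : G)⁻¹) = 1
      have hb' : (QuotientGroup.mk y : H ⧸ H.focalSubgroupOf) ^ H.index = H.transferFocal g := hb
      rw [map_mul, map_inv, hVH y, hb', mul_inv_cancel]
    have E1 : Nat.card H.transferFocal.ker * Nat.card H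
        = Nat.card G * Nat.card ↥(H.transferFocal.ker ⊓ H) := by
      rw [Cfsg.Agent.Helper50.card_mul_card_eq_card_mulSet H.transferFocal.ker H, hmul]
      congr 1
      exact Nat.card_congr (Equiv.Set.univ G)
    have E2 : Nat.card H * H.index = Nat.card G := Subgroup.card_mul_index H
    have hH₁K : H.focalSubgroup ≤ H.transferFocal.ker := hKH ▸ inf_le_left
    have hcard1 : Nat.card (H.focalSubgroup.subgroupOf H.transferFocal.ker)
        = Nat.card ↥(H.transferFocal.ker ⊓ H) := by
      rw [hKH]
      exact Nat.card_congr (Subgroup.subgroupOfEquivOfLe hH₁K).toEquiv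
    have hpos1 : 0 < Nat.card ↥(H.transferFocal.ker ⊓ H) := Nat.card_pos
    have hpos2 : 0 < Nat.card H := Nat.card_pos
    have hidx : (H.focalSubgroup.subgroupOf H.transferFocal.ker).index = H.index := by
      have h1 := Subgroup.card_mul_index (H.focalSubgroup.subgroupOf H.transferFocal.ker)
      rw [hcard1] at h1
      have : Nat.card ↥(H.transferFocal.ker ⊓ H) * Nat.card H *
          (H.focalSubgroup.subgroupOf H.transferFocal.ker).index
          = Nat.card ↥(H.transferFocal.ker ⊓ H) * Nat.card H * H.index := by
        calc _ = (Nat.card ↥(H.transferFocal.ker ⊓ H) *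
              (H.focalSubgroup.subgroupOf H.transferFocal.ker).index) * Nat.card H := by ring
          _ = Nat.card H.transferFocal.ker * Nat.card H := by rw [h1]
          _ = Nat.card G * Nat.card ↥(H.transferFocal.ker ⊓ H) := E1
          _ = (Nat.card H * H.index) * Nat.card ↥(H.transferFocal.ker ⊓ H) := by rw [E2]
          _ = _ := by ring
      exact Nat.eq_of_mul_eq_mul_left (Nat.mul_pos hpos1 hpos2) this
    have hHall' : (Nat.card (H.focalSubgroup.subgroupOf H.transferFocal.ker)).Coprime
        (H.focalSubgroup.subgroupOf H.transferFocal.ker).index := by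
      rw [hidx, hcard1]
      exact Nat.Coprime.coprime_dvd_left (Subgroup.card_dvd_of_le inf_le_right) hHall
    have hfoc' : (fun Y : Subgroup H.transferFocal.ker => Y.focalSubgroup)^[n]
        (H.focalSubgroup.subgroupOf H.transferFocal.ker) = ⊥ := by
      have h1 := focal_iter_map H.transferFocal.ker n (H.focalSubgroup.subgroupOf H.transferFocal.ker)
      rw [Subgroup.subgroupOf_map_subtype, inf_eq_left.mpr hH₁K, hfoc] at h1
      exact (Subgroup.map_eq_bot_iff_of_injective _ (Subgroup.subtype_injective _)).mp (le_bot_iff.mp h1)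
    obtain ⟨N₁, hN₁n, hN₁c⟩ := ih H.transferFocal.ker
      (H.focalSubgroup.subgroupOf H.transferFocal.ker) hHall' hfoc'
    have h2 := Subgroup.card_mul_index (H.focalSubgroup.subgroupOf H.transferFocal.ker)
    rw [hidx] at h2
    have hN₁card : Nat.card N₁ = H.index := by
      have h1 := hN₁c.card_mul_card
      have hpos : 0 < Nat.card (H.focalSubgroup.subgroupOf H.transferFocal.ker) := Nat.card_pos
      apply Nat.eq_of_mul_eq_mul_right hpos
      rw [h1, ← h2, mul_comm]
    have hN₁idx : N₁.index ∣ Nat.card H := by
      have h3 := Subgroup.card_mul_index N₁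
      rw [hN₁card, ← h2, mul_comm] at h3
      have hpos : 0 < H.index := Nat.pos_of_ne_zero Subgroup.index_ne_zero_of_finite
      have h4 : N₁.index = Nat.card (H.focalSubgroup.subgroupOf H.transferFocal.ker) :=
        Nat.eq_of_mul_eq_mul_right hpos h3
      rw [h4, hcard1]
      exact Subgroup.card_dvd_of_le inf_le_right
    have hcardN : Nat.card (N₁.map H.transferFocal.ker.subtype) = H.index := by
      rw [Subgroup.card_map_of_injective (Subgroup.subtype_injective _), hN₁card]
    refine ⟨N₁.map H.transferFocal.ker.subtype, ?_, ?_⟩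
    · constructor
      rintro _ ⟨y, hy, rfl⟩ g
      have hKn : H.transferFocal.ker.Normal := inferInstance
      have hz : g * (y : G) * g⁻¹ ∈ H.transferFocal.ker := hKn.conj_mem _ y.2 g
      refine ⟨⟨_, hz⟩, ?_, rfl⟩
      apply Cfsg.Agent.Helper23.mem_of_coprime_orderOf_index N₁
      have ho : orderOf (⟨g * (y : G) * g⁻¹, hz⟩ : H.transferFocal.ker) = orderOf y := by
        rw [Subgroup.orderOf_mk, ← Subgroup.orderOf_coe]
        exact orderOf_injective (MulAut.conj g).toMonoidHom (MulAut.conj g).injective (y : G)
      have hd : orderOf y ∣ H.index := by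
        rw [← hN₁card]
        have := orderOf_dvd_natCard (⟨y, hy⟩ : N₁)
        rwa [Subgroup.orderOf_mk] at this
      rw [ho]
      exact Nat.Coprime.coprime_dvd_left hd (Nat.Coprime.coprime_dvd_right hN₁idx hHall.symm)
    · apply Subgroup.isComplement'_of_coprime
      · rw [hcardN, mul_comm]; exact E2
      · rw [hcardN]; exact hHall.symm

/-- Let H be a subgroup of a finite group G with order coprime to its index. If iterating the focal-subgroup construction starting from H reaches the trivial subgroup after finitely many steps, then H has a normal complement in G. -/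
theorem result {G : Type*} [Group G] [Finite G] (H : Subgroup G) (hHall : (Nat.card H).Coprime H.index) (n : ℕ) (hfoc : (fun K : Subgroup G => Subgroup.focalSubgroup K)^[n] H = ⊥) : ∃ N : Subgroup G, N.Normal ∧ Subgroup.IsComplement' N H := by
  exact aux n G H hHall hfoc

end Cfsg.Agent.S0557
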