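import Cfsg.Statements.S0558
import Mathlib
import Cfsg.Agent.S0557
import Cfsg.Agent.Helper2.SylowLe
import Cfsg.Agent.Helper53.PGroup
import Cfsg.Agent.Helper10.Thompson

set_option autoImplicit false
open Cfsg

namespace Cfsg.Agent.S0558

open scoped Pointwise commutatorElement

lemma sylow_data {G : Type*} [Group G] [Finite G] (H : Subgroup G) (p : ℕ) [Fact p.Prime]
    (P : Sylow p H)
    (hN : Subgroup.normalizer (((P : Subgroup H).map H.subtype : Subgroup G) : Set G) = H) :
    ∃ R : Sylow p G, (R : Subgroup G) ≤ H ∧ Subgroup.normalizer ((R : Subgroup G) : Set G) = H ∧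
      Nat.card (R : Subgroup G) = p ^ (Nat.card H).factorization p := by
  have hPp : IsPGroup p ((P : Subgroup H).map H.subtype) := P.isPGroup'.map H.subtype
  obtain ⟨R, hR⟩ := hPp.exists_le_sylow
  have hRP : (R : Subgroup G) = (P : Subgroup H).map H.subtype := by
    by_contra hne
    have hlt : (P : Subgroup H).map H.subtype < R := lt_of_le_of_ne hR (Ne.symm hne)
    obtain ⟨x, hxR, hxP, hxN⟩ := Cfsg.Agent.Helper53.exists_mem_normalizer_not_mem R.isPGroup' hlt
    rw [hN] at hxN
    have hQ : IsPGroup p (((R : Subgroup G) ⊓ H).subgroupOf H) :=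
      (R.isPGroup'.to_le inf_le_left).comap_subtype
    have hPQ : (P : Subgroup H) ≤ ((R : Subgroup G) ⊓ H).subgroupOf H := by
      intro y hy
      rw [Subgroup.mem_subgroupOf]
      exact ⟨hR (Subgroup.mem_map_of_mem _ hy), y.2⟩
    have hQP := P.is_maximal' hQ hPQ
    apply hxP
    have : (⟨x, hxN⟩ : H) ∈ ((R : Subgroup G) ⊓ H).subgroupOf H := by
      rw [Subgroup.mem_subgroupOf]; exact ⟨hxR, hxN⟩
    rw [hQP] at this
    exact ⟨⟨x, hxN⟩, this, rfl⟩
  refine ⟨R, hRP ▸ Subgroup.map_subtype_le _, by rw [hRP]; exact hN, ?_⟩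
  rw [hRP, Subgroup.card_map_of_injective H.subtype_injective]
  exact Sylow.card_eq_multiplicity P

/-- Let H be a subgroup of a finite group G that is not a Sylow subgroup of G for any prime, and suppose that for every prime p dividing the order of H and every Sylow p-subgroup P of H the normalizer of P in G is exactly H. Then some normal subgroup of G is a complement to H. -/
theorem result {G : Type*} [Group G] [Finite G] (H : Subgroup G) (hnot : ∀ p : ℕ, p.Prime → ∀ P : Sylow p G, (P : Subgroup G) ≠ H) (hnorm : ∀ p : ℕ, p.Prime → p ∣ Nat.card H → ∀ P : Sylow p H, Subgroup.normalizer (((P : Subgroup H).map H.subtype : Subgroup G) : Set G) = H) : ∃ N : Subgroup G, N.Normal ∧ Subgroup.IsComplement' N H := by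
  classical
  have hdata : ∀ p : ℕ, p.Prime → p ∣ Nat.card H → ∃ R : Sylow p G, (R : Subgroup G) ≤ H ∧
      Subgroup.normalizer ((R : Subgroup G) : Set G) = H ∧
      Nat.card (R : Subgroup G) = p ^ (Nat.card H).factorization p := by
    intro p hp hpd
    have := Fact.mk hp
    obtain ⟨P⟩ : Nonempty (Sylow p H) := inferInstance
    exact sylow_data H p P (hnorm p hp hpd P)
  have hsecond : ∀ p : ℕ, p.Prime → p ∣ Nat.card H → ∃ q : ℕ, q.Prime ∧ q ∣ Nat.card H ∧ q ≠ p := by
    intro p hp hpd
    by_contra hcon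
    push Not at hcon
    obtain ⟨k, hk⟩ : ∃ k, Nat.card H = p ^ k :=
      ⟨_, Nat.eq_prime_pow_of_unique_prime_dvd Nat.card_pos.ne' (fun {d} hd hdd => hcon d hd hdd)⟩
    obtain ⟨R, hRH, hRN, hRc⟩ := hdata p hp hpd
    apply hnot p hp R
    apply Subgroup.eq_of_le_of_card_ge hRH
    rw [hRc, hk, hp.factorization_pow, Finsupp.single_eq_same]
  have hfus : ∀ p : ℕ, p.Prime → p ∣ Nat.card H → ∀ R : Sylow p G, (R : Subgroup G) ≤ H →
      Subgroup.normalizer ((R : Subgroup G) : Set G) = H →
      ∀ x ∈ (R : Subgroup G), ∀ u : G, u * x * u⁻¹ ∈ (R : Subgroup G) →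
      ∃ h ∈ H, h * x * h⁻¹ = u * x * u⁻¹ := by
    intro p hp hpd R hRH hRN x hx u hux
    obtain ⟨q, hq, hqd, hqp⟩ := hsecond p hp hpd
    obtain ⟨Q, hQH, hQN, -⟩ := hdata q hq hqd
    have := Fact.mk hp
    have := Fact.mk hq
    have hcomm : ∀ a ∈ (R : Subgroup G), ∀ b ∈ (Q : Subgroup G), a * b = b * a := by
      intro a ha b hb
      have h1 : ⁅a, b⁆ ∈ (R : Subgroup G) := by
        have hbN : b ∈ Subgroup.normalizer ((R : Subgroup G) : Set G) := hRN ▸ hQH hb
        have := (Subgroup.mem_normalizer_iff.mp hbN a⁻¹).mp (inv_mem ha)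
        rw [commutatorElement_def]
        have e : a * b * a⁻¹ * b⁻¹ = a * (b * a⁻¹ * b⁻¹) := by group
        rw [e]; exact mul_mem ha this
      have h2 : ⁅a, b⁆ ∈ (Q : Subgroup G) := by
        have haN : a ∈ Subgroup.normalizer ((Q : Subgroup G) : Set G) := hQN ▸ hRH ha
        have := (Subgroup.mem_normalizer_iff.mp haN b).mp hb
        rw [commutatorElement_def]
        exact mul_mem this (inv_mem hb)
      have hdis : Disjoint (R : Subgroup G) (Q : Subgroup G) :=
        IsPGroup.disjoint_of_ne p q hqp.symm _ _ R.isPGroup' Q.isPGroup'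
      have h3 : ⁅a, b⁆ = 1 := by
        have := (Subgroup.disjoint_def.mp hdis) h1 h2
        exact this
      exact (commutatorElement_eq_one_iff_mul_comm.mp h3)
    have hQC : (Q : Subgroup G) ≤ Subgroup.centralizer {u * x * u⁻¹} := by
      intro b hb
      rw [Subgroup.mem_centralizer_singleton_iff]
      exact (hcomm _ hux b hb).symm
    have huQC : ((u • Q : Sylow q G) : Subgroup G) ≤ Subgroup.centralizer {u * x * u⁻¹} := by
      intro b hb
      rw [Cfsg.Agent.Helper2.mem_smul_sylow_iff] at hb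
      rw [Subgroup.mem_centralizer_singleton_iff]
      have h4 := hcomm x hx _ hb
      calc b * (u * x * u⁻¹) = u * ((u⁻¹ * b * u) * x) * u⁻¹ := by group
        _ = u * (x * (u⁻¹ * b * u)) * u⁻¹ := by rw [h4]
        _ = u * x * u⁻¹ * b := by group
    obtain ⟨c, hc, hcQ⟩ := Cfsg.Agent.Helper2.exists_mem_smul_eq_of_le Q (u • Q)
      (Subgroup.centralizer {u * x * u⁻¹}) hQC huQC
    rw [smul_smul] at hcQ
    have hcu : c * u ∈ H := by
      rw [← hQN]; exact Sylow.smul_eq_iff_mem_normalizer.mp hcQ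
    refine ⟨c * u, hcu, ?_⟩
    rw [Subgroup.mem_centralizer_singleton_iff] at hc
    calc c * u * x * (c * u)⁻¹ = c * (u * x * u⁻¹) * c⁻¹ := by group
      _ = (u * x * u⁻¹) * c * c⁻¹ := by rw [hc]
      _ = u * x * u⁻¹ := by group
  have hfoc : ∀ p : ℕ, p.Prime → p ∣ Nat.card H → ∀ R : Sylow p G, (R : Subgroup G) ≤ H →
      Subgroup.normalizer ((R : Subgroup G) : Set G) = H →
      ∀ X : Subgroup G, X ≤ R → X.focalSubgroup ≤ ⁅X, H⁆ := by
    intro p hp hpd R hRH hRN X hX
    rw [Subgroup.focalSubgroup_def, Subgroup.closure_le]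
    rintro g ⟨hg, x, hx, u, rfl⟩
    have hux : u * x * u⁻¹ ∈ X := by
      have e : u * x * u⁻¹ = (⁅x, u⁆)⁻¹ * x := by rw [commutatorElement_def]; group
      rw [e]; exact mul_mem (inv_mem hg) hx
    obtain ⟨h, hh, hhx⟩ := hfus p hp hpd R hRH hRN x (hX hx) u (hX hux)
    have e : ⁅x, u⁆ = ⁅x, h⁆ := by
      rw [commutatorElement_def, commutatorElement_def]
      calc x * u * x⁻¹ * u⁻¹ = x * (u * x * u⁻¹)⁻¹ := by group
        _ = x * (h * x * h⁻¹)⁻¹ := by rw [hhx]
        _ = x * h * x⁻¹ * h⁻¹ := by group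
    rw [SetLike.mem_coe, e]
    exact Subgroup.commutator_mem_commutator hx hh
  have hnil : Group.IsNilpotent H := by
    refine ((Group.isNilpotent_of_finite_tfae (G := H)).out 0 3).mpr ?_
    intro p hp P
    by_cases hpd : p ∣ Nat.card H
    · have hN := hnorm p hp.out hpd P
      constructor
      intro y hy h
      have hh : (h : G) ∈ Subgroup.normalizer (((P : Subgroup H).map H.subtype : Subgroup G) : Set G) := by
        rw [hN]; exact h.2
      have := (Subgroup.mem_normalizer_iff.mp hh y).mp ⟨y, hy, rfl⟩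
      obtain ⟨z, hz, hzy⟩ := this
      have : z = h * y * h⁻¹ := Subtype.ext (by simpa using hzy)
      rw [← this]; exact hz
    · have hc : Nat.card (P : Subgroup H) = 1 := by
        rw [Sylow.card_eq_multiplicity, Nat.factorization_eq_zero_of_not_dvd hpd, pow_zero]
      rw [Subgroup.card_eq_one.mp hc]
      infer_instance
  obtain ⟨n, hn⟩ := (Subgroup.isNilpotent_iff_lowerCentralSeries H).mp hnil
  have hK : ∀ p : ℕ, p.Prime → p ∣ Nat.card H → ∃ K : Subgroup G, K.Normal ∧
      K.index = p ^ (Nat.card H).factorization p ∧ ¬ p ∣ Nat.card K := by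
    intro p hp hpd
    obtain ⟨R, hRH, hRN, hRc⟩ := hdata p hp hpd
    have := Fact.mk hp
    have hiter : ∀ i, (fun K : Subgroup G => K.focalSubgroup)^[i] (R : Subgroup G)
        ≤ (R : Subgroup G) ⊓ H.lowerCentralSeries i := by
      intro i
      induction i with
      | zero => exact le_inf le_rfl hRH
      | succ i ih =>
        rw [Function.iterate_succ_apply']
        refine le_inf ((Subgroup.focalSubgroup_le _).trans (ih.trans inf_le_left)) ?_
        refine (hfoc p hp hpd R hRH hRN _ (ih.trans inf_le_left)).trans ?_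
        rw [Subgroup.lowerCentralSeries_succ]
        exact Subgroup.commutator_mono (ih.trans inf_le_right) le_rfl
    have hbot : (fun K : Subgroup G => K.focalSubgroup)^[n] (R : Subgroup G) = ⊥ := by
      rw [eq_bot_iff]; exact (hiter n).trans (inf_le_right.trans hn.le)
    obtain ⟨K, hKn, hKc⟩ := Cfsg.Agent.S0557.aux n G (R : Subgroup G) (Sylow.card_coprime_index R) hbot
    refine ⟨K, hKn, ?_, ?_⟩
    · rw [hKc.symm.index_eq_card, hRc]
    · rw [← hKc.index_eq_card]; exact R.not_dvd_index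
  choose! K hKn hKi hKp using hK
  have hmemπ : ∀ p : (Nat.card H).primeFactors, (p : ℕ).Prime ∧ (p : ℕ) ∣ Nat.card H :=
    fun p => ⟨Nat.prime_of_mem_primeFactors p.2, Nat.dvd_of_mem_primeFactors p.2⟩
  have hNn : (⨅ p : (Nat.card H).primeFactors, K p).Normal :=
    Subgroup.normal_iInf_normal (fun p => hKn p (hmemπ p).1 (hmemπ p).2)
  have hNH : (⨅ p : (Nat.card H).primeFactors, K p) ⊓ H = ⊥ := by
    rw [eq_bot_iff]
    rintro x ⟨hxN, hxH⟩
    rw [Subgroup.mem_bot, ← orderOf_eq_one_iff]
    by_contra hne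
    obtain ⟨p, hp, hpd⟩ := Nat.exists_prime_and_dvd hne
    have hpH : p ∣ Nat.card H := hpd.trans (by
      have := orderOf_dvd_natCard (⟨x, hxH⟩ : H)
      rwa [Subgroup.orderOf_mk] at this)
    have hxK : x ∈ K p :=
      Subgroup.mem_iInf.mp hxN ⟨p, Nat.mem_primeFactors.mpr ⟨hp, hpH, Nat.card_pos.ne'⟩⟩
    apply hKp p hp hpH
    exact hpd.trans (by
      have := orderOf_dvd_natCard (⟨x, hxK⟩ : K p)
      rwa [Subgroup.orderOf_mk] at this)
  have hidx : (⨅ p : (Nat.card H).primeFactors, K p).index ≤ Nat.card H := by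
    calc (⨅ p : (Nat.card H).primeFactors, K p).index
        ≤ ∏ p : (Nat.card H).primeFactors, (K p).index := Subgroup.index_iInf_le _
      _ = ∏ p : (Nat.card H).primeFactors, (p : ℕ) ^ (Nat.card H).factorization p :=
          Finset.prod_congr rfl (fun p _ => hKi p (hmemπ p).1 (hmemπ p).2)
      _ = ∏ p ∈ (Nat.card H).primeFactors, p ^ (Nat.card H).factorization p :=
          Finset.prod_coe_sort (Nat.card H).primeFactors (fun p => p ^ (Nat.card H).factorization p)
      _ = Nat.card H := by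
          rw [← Nat.prod_factorization_eq_prod_primeFactors]
          exact Nat.prod_factorization_pow_eq_self Nat.card_pos.ne'
  refine ⟨_, hNn, ?_⟩
  apply Subgroup.isComplement'_of_card_mul_and_disjoint _ (disjoint_iff.mpr hNH)
  have h1 : Nat.card ↥(⨅ p : (Nat.card H).primeFactors, K p) * Nat.card H ≤ Nat.card G := by
    have := Cfsg.Agent.Helper10.card_mul_card_le (B := ⨅ p : (Nat.card H).primeFactors, K p) (C := H)
      (E := ⊤) le_top le_top
    rw [hNH] at this
    simpa using this
  have h2 := Subgroup.card_mul_index (⨅ p : (Nat.card H).primeFactors, K p)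
  apply le_antisymm h1
  rw [← h2]
  exact Nat.mul_le_mul_left _ hidx

end Cfsg.Agent.S0558
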