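import Cfsg.Statements.S0560
import Mathlib
import Cfsg.Agent.Helper1.Tools
import Cfsg.Agent.Helper50.CD

set_option autoImplicit false
open Pointwise
open Cfsg

namespace Cfsg.Agent.S0560

open scoped Pointwise

/-- Let the finite group G be the product HK of two subgroups and p a prime. Then there are Sylow p-subgroups P of H and Q of K and a Sylow p-subgroup R of G whose underlying set is the product set of P and Q. -/
theorem result {G : Type*} [Group G] [Finite G] (H K : Subgroup G) (hHK : ∀ g : G, ∃ h ∈ H, ∃ k ∈ K, g = h * k) (p : ℕ) [Fact p.Prime] : ∃ (P : Sylow p H) (Q : Sylow p K) (R : Sylow p G), ((R : Subgroup G) : Set G) = (((P : Subgroup H).map H.subtype : Subgroup G) : Set G) * (((Q : Subgroup K).map K.subtype : Subgroup G) : Set G) := by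
  classical
  have hp : p.Prime := Fact.out
  have hcard : Nat.card H * Nat.card K = Nat.card G * Nat.card ↥(H ⊓ K) := by
    rw [Cfsg.Agent.Helper50.card_mul_card_eq_card_mulSet H K]
    congr 1
    have : ((H : Set G) * (K : Set G) : Set G) = Set.univ := by
      ext g
      simp only [Set.mem_univ, iff_true]
      obtain ⟨h, hh, k, hk, rfl⟩ := hHK g
      exact Set.mul_mem_mul hh hk
    rw [this]
    exact Nat.card_congr (Equiv.Set.univ G)
  obtain ⟨P0⟩ : Nonempty (Sylow p H) := inferInstance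
  obtain ⟨Q0⟩ : Nonempty (Sylow p K) := inferInstance
  have hP0p : IsPGroup p ((P0 : Subgroup H).map H.subtype) := P0.isPGroup'.map H.subtype
  have hQ0p : IsPGroup p ((Q0 : Subgroup K).map K.subtype) := Q0.isPGroup'.map K.subtype
  obtain ⟨R0, hR0⟩ := hP0p.exists_le_sylow
  obtain ⟨R', hR'⟩ := hQ0p.exists_le_sylow
  obtain ⟨g, hg⟩ := MulAction.exists_smul_eq G R' R0
  obtain ⟨h, hh, k, hk, rfl⟩ := hHK g
  have h1 : MulAut.conj (h * k) • ((Q0 : Subgroup K).map K.subtype) ≤ (R0 : Subgroup G) := by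
    rw [← hg, Sylow.coe_subgroup_smul]
    exact Subgroup.pointwise_smul_le_pointwise_smul_iff.mpr hR'
  have hP1 : ((((⟨h, hh⟩ : H)⁻¹ • P0 : Sylow p H) : Subgroup H)).map H.subtype
      = MulAut.conj h⁻¹ • ((P0 : Subgroup H).map H.subtype) := by
    rw [Sylow.coe_subgroup_smul, Cfsg.Agent.Helper1.map_conj_smul]; rfl
  have hQ1 : ((((⟨k, hk⟩ : K) • Q0 : Sylow p K) : Subgroup K)).map K.subtype
      = MulAut.conj k • ((Q0 : Subgroup K).map K.subtype) := by
    rw [Sylow.coe_subgroup_smul, Cfsg.Agent.Helper1.map_conj_smul]; rfl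
  have hR1 : ((h⁻¹ • R0 : Sylow p G) : Subgroup G) = MulAut.conj h⁻¹ • (R0 : Subgroup G) :=
    Sylow.coe_subgroup_smul
  have hP1R : ((((⟨h, hh⟩ : H)⁻¹ • P0 : Sylow p H) : Subgroup H)).map H.subtype
      ≤ ((h⁻¹ • R0 : Sylow p G) : Subgroup G) := by
    rw [hP1, hR1]
    exact Subgroup.pointwise_smul_le_pointwise_smul_iff.mpr hR0
  have hQ1R : ((((⟨k, hk⟩ : K) • Q0 : Sylow p K) : Subgroup K)).map K.subtype
      ≤ ((h⁻¹ • R0 : Sylow p G) : Subgroup G) := by
    rw [hQ1, hR1]
    have : MulAut.conj h⁻¹ • (MulAut.conj (h * k) • ((Q0 : Subgroup K).map K.subtype))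
        ≤ MulAut.conj h⁻¹ • (R0 : Subgroup G) :=
      Subgroup.pointwise_smul_le_pointwise_smul_iff.mpr h1
    rwa [smul_smul, ← map_mul, inv_mul_cancel_left] at this
  refine ⟨(⟨h, hh⟩ : H)⁻¹ • P0, (⟨k, hk⟩ : K) • Q0, h⁻¹ • R0, ?_⟩
  generalize ((⟨h, hh⟩ : H)⁻¹ • P0 : Sylow p H) = P1 at hP1R ⊢
  generalize ((⟨k, hk⟩ : K) • Q0 : Sylow p K) = Q1 at hQ1R ⊢
  generalize (h⁻¹ • R0 : Sylow p G) = R1 at hP1R hQ1R ⊢
  have hsub : ((((P1 : Subgroup H).map H.subtype : Subgroup G) : Set G) *
      (((Q1 : Subgroup K).map K.subtype : Subgroup G) : Set G)) ⊆ ((R1 : Subgroup G) : Set G) := by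
    rintro x ⟨a, ha, b, hb, rfl⟩
    exact (R1 : Subgroup G).mul_mem (hP1R ha) (hQ1R hb)
  symm
  apply Set.Finite.eq_of_subset_of_card_le (Set.toFinite _) hsub
  have e := Cfsg.Agent.Helper50.card_mul_card_eq_card_mulSet ((P1 : Subgroup H).map H.subtype)
    ((Q1 : Subgroup K).map K.subtype)
  have cA : Nat.card ((P1 : Subgroup H).map H.subtype) = p ^ (Nat.card H).factorization p := by
    rw [← Sylow.card_eq_multiplicity P1]
    exact Nat.card_congr (Subgroup.equivMapOfInjective _ _ H.subtype_injective).symm.toEquiv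
  have cB : Nat.card ((Q1 : Subgroup K).map K.subtype) = p ^ (Nat.card K).factorization p := by
    rw [← Sylow.card_eq_multiplicity Q1]
    exact Nat.card_congr (Subgroup.equivMapOfInjective _ _ K.subtype_injective).symm.toEquiv
  have cR : Nat.card (R1 : Subgroup G) = p ^ (Nat.card G).factorization p := Sylow.card_eq_multiplicity R1
  have hABp : IsPGroup p ↥((P1 : Subgroup H).map H.subtype ⊓ (Q1 : Subgroup K).map K.subtype) :=
    (P1.isPGroup'.map H.subtype).to_le inf_le_left
  obtain ⟨n, hn⟩ := IsPGroup.iff_card.mp hABp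
  have hle : (P1 : Subgroup H).map H.subtype ⊓ (Q1 : Subgroup K).map K.subtype ≤ H ⊓ K :=
    inf_le_inf (Subgroup.map_subtype_le _) (Subgroup.map_subtype_le _)
  have hdvd : p ^ n ∣ Nat.card ↥(H ⊓ K) := hn ▸ Subgroup.card_dvd_of_le hle
  have hn2 : n ≤ (Nat.card ↥(H ⊓ K)).factorization p :=
    (hp.pow_dvd_iff_le_factorization Nat.card_pos.ne').mp hdvd
  have hfac : (Nat.card H).factorization p + (Nat.card K).factorization p
      = (Nat.card G).factorization p + (Nat.card ↥(H ⊓ K)).factorization p := by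
    have : (Nat.card H * Nat.card K).factorization p
        = (Nat.card G * Nat.card ↥(H ⊓ K)).factorization p := by rw [hcard]
    rwa [Nat.factorization_mul Nat.card_pos.ne' Nat.card_pos.ne',
      Nat.factorization_mul Nat.card_pos.ne' Nat.card_pos.ne', Finsupp.add_apply, Finsupp.add_apply] at this
  rw [cA, cB, hn, ← pow_add, hfac] at e
  have hpos : 0 < p ^ n := pow_pos hp.pos n
  have h3 : Nat.card (R1 : Subgroup G) * p ^ n ≤ Nat.card (↑(((P1 : Subgroup H).map H.subtype : Subgroup G) : Set G) *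
      (((Q1 : Subgroup K).map K.subtype : Subgroup G) : Set G) : Set G) * p ^ n := by
    rw [← e, cR, pow_add]
    exact Nat.mul_le_mul_left _ (Nat.pow_le_pow_right hp.pos hn2)
  exact Nat.le_of_mul_le_mul_right h3 hpos

end Cfsg.Agent.S0560
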