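import Cfsg.Statements.S1254
import Cfsg.Agent.Helper21.Basic
import Cfsg.Agent.Helper21.Dih
import Cfsg.Agent.Helper21.Four
import Cfsg.Agent.Helper21.DihAut
import Cfsg.Agent.Helper33.Frobenius

set_option autoImplicit false
open Cfsg

namespace Cfsg.Agent.S1254

open Cfsg.Agent.Helper21

/-- In a group with a normal `p`-complement, `N(U) = C(U) N_S(U)` for `U ≤ S`. -/
theorem normalizer_eq_of_complement {X : Type*} [Group X] [Finite X] {p : ℕ} [Fact p.Prime]
    (S : Sylow p X) (h : Cfsg.HasNormalPComplement p X) (U : Subgroup X)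
    (hU : U ≤ (S : Subgroup X)) :
    Subgroup.normalizer (U : Set X) = Subgroup.centralizer (U : Set X) ⊔
      ((S : Subgroup X) ⊓ Subgroup.normalizer (U : Set X)) := by
  obtain ⟨K, hKn, hKc, hKm⟩ := Cfsg.Agent.Helper33.hasNormalPComplement_iff_p'.mp h
  have hc := Cfsg.Agent.Helper33.isComplement'_of_normal_p' K hKc hKm S
  apply le_antisymm
  · intro g hg
    obtain ⟨⟨k, s⟩, hks⟩ := hc.2 g
    have hks' : (k : X) * (s : X) = g := hks
    have hdisj : K ⊓ (S : Subgroup X) = ⊥ := hc.disjoint.eq_bot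
    have hgU : ∀ u ∈ U, g * u * g⁻¹ ∈ U := fun u hu =>
      (Subgroup.mem_normalizer_iff.mp hg u).mp hu
    have key : ∀ u ∈ U, g * u * g⁻¹ = (s : X) * u * (s : X)⁻¹ := by
      intro u hu
      have h1 : g * u * g⁻¹ * ((s : X) * u * (s : X)⁻¹)⁻¹ ∈ K := by
        have e1 : g * u * g⁻¹ * ((s : X) * u * (s : X)⁻¹)⁻¹ =
            (k : X) * (((s : X) * u * (s : X)⁻¹) * (k : X)⁻¹ * ((s : X) * u * (s : X)⁻¹)⁻¹) := by
          rw [← hks']; group
        rw [e1]
        exact K.mul_mem k.2 (hKn.conj_mem _ (K.inv_mem k.2) _)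
      have h2 : g * u * g⁻¹ * ((s : X) * u * (s : X)⁻¹)⁻¹ ∈ (S : Subgroup X) := by
        apply Subgroup.mul_mem _ (hU (hgU u hu))
        apply Subgroup.inv_mem
        exact Subgroup.mul_mem _ (Subgroup.mul_mem _ s.2 (hU hu)) (Subgroup.inv_mem _ s.2)
      have h3 : g * u * g⁻¹ * ((s : X) * u * (s : X)⁻¹)⁻¹ ∈ K ⊓ (S : Subgroup X) := ⟨h1, h2⟩
      rw [hdisj, Subgroup.mem_bot] at h3
      exact mul_inv_eq_one.mp h3
    have hsN : (s : X) ∈ Subgroup.normalizer (U : Set X) := by
      apply mem_normalizer_of_conj_mem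
      intro u hu
      rw [← key u hu]
      exact hgU u hu
    have hcC : (s : X)⁻¹ * g ∈ Subgroup.centralizer (U : Set X) := by
      apply DihAut.mem_centralizer_of_conj_eq
      intro u hu
      calc (s : X)⁻¹ * g * u * ((s : X)⁻¹ * g)⁻¹ = (s : X)⁻¹ * (g * u * g⁻¹) * (s : X) := by group
        _ = (s : X)⁻¹ * ((s : X) * u * (s : X)⁻¹) * (s : X) := by rw [key u hu]
        _ = u := by group
    have e2 : g = (s : X) * ((s : X)⁻¹ * g) := by group
    rw [e2, sup_comm]
    exact Subgroup.mul_mem_sup ⟨s.2, hsN⟩ hcC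
  · exact sup_le (Subgroup.centralizer_le_normalizer _) inf_le_right

/-- Let X be a finite group whose Sylow 2-subgroup S is dihedral (of order at least 4). Then X has a normal 2-complement if and only if, for every Klein four-subgroup U ≤ S, the normalizer N_X(U) is generated by C_X(U) and N_S(U). -/
theorem result {X : Type*} [Group X] [Finite X] (S : Sylow 2 X) (m : ℕ) (hm : 2 ≤ m) (eS : (S : Subgroup X) ≃* DihedralGroup m) : Cfsg.HasNormalPComplement 2 X ↔ ∀ U : Subgroup X, U ≤ S → IsKleinFour U → Subgroup.normalizer (U : Set X) = Subgroup.centralizer (U : Set X) ⊔ ((S : Subgroup X) ⊓ Subgroup.normalizer (U : Set X)) := by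
  have hne : NeZero m := ⟨by omega⟩
  constructor
  · intro h U hU _
    exact normalizer_eq_of_complement S h U hU
  · intro h
    have hfour : ∀ U : Subgroup X, U ≤ (S : Subgroup X) → IsKleinFour U →
        ∀ g ∈ Subgroup.normalizer (U : Set X), (orderOf g).Coprime 2 →
          g ∈ Subgroup.centralizer (U : Set X) := by
      intro U hU hU4 g hg hodd
      have hg' := hg
      rw [h U hU hU4] at hg'
      have hnorm : (S : Subgroup X) ⊓ Subgroup.normalizer (U : Set X) ≤
          Subgroup.normalizer ((Subgroup.centralizer (U : Set X) : Subgroup X) : Set X) := by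
        intro n hn
        have hnU := hn.2
        apply mem_normalizer_of_conj_mem
        intro c hc
        apply DihAut.mem_centralizer_of_conj_eq
        intro u hu
        have hu' : n⁻¹ * u * n ∈ U := by
          have := (Subgroup.mem_normalizer_iff.mp (Subgroup.inv_mem _ hnU) u).mp hu
          rwa [inv_inv] at this
        have hcu := DihAut.conj_eq_of_mem_centralizer hc hu'
        calc n * c * n⁻¹ * u * (n * c * n⁻¹)⁻¹ = n * (c * (n⁻¹ * u * n) * c⁻¹) * n⁻¹ := by group
          _ = n * (n⁻¹ * u * n) * n⁻¹ := by rw [hcu]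
          _ = u := by group
      obtain ⟨c, hc, s, hs, rfl⟩ := (Cfsg.Agent.Helper33.mem_sup_of_le_normalizer hnorm).mp hg'
      obtain ⟨b, hb⟩ := (IsPGroup.iff_orderOf.mp S.2) ⟨s, hs.1⟩
      rw [Subgroup.orderOf_mk] at hb
      apply DihAut.mem_centralizer_of_eq_two_elt hg hs.2 hodd hb
      intro x hx
      have hx' : s * x * s⁻¹ ∈ U := (Subgroup.mem_normalizer_iff.mp hs.2 x).mp hx
      have hcx := DihAut.conj_eq_of_mem_centralizer hc hx'
      calc c * s * x * (c * s)⁻¹ = c * (s * x * s⁻¹) * c⁻¹ := by group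
        _ = s * x * s⁻¹ := hcx
    obtain ⟨N, hN, hNc⟩ := Cfsg.Agent.Helper33.frobenius_isComplement' S
      (fun Q hQ g hg hodd => DihAut.odd_centralizes S.2 eS hfour hQ hg hodd)
    exact ⟨S, N, hN, hNc⟩

end Cfsg.Agent.S1254
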