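import Cfsg.Statements.S3958
import Cfsg.Agent.Helper65.Hopf

set_option autoImplicit false
universe u v
open Cfsg

namespace Cfsg.Agent.S3958

open Cfsg.Agent.Helper65
open scoped commutatorElement

/-- Let `σ : Γ →* Q` be a finite stem extension of the finite group `Q` with `Γ` of trivial Schur multiplier. Then `σ` is a Schur covering group of `Q`: for every finite stem extension `τ : Δ →* Q` with `Δ` in the same universe as `Q`, the kernel of `τ` is a homomorphic image of the kernel of `σ`. -/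
theorem result {Q : Type u} [Group Q] [Finite Q] {Γ : Type v} [Group Γ] [Finite Γ] (σ : Γ →* Q) (hσ : Cfsg.IsStemExtension σ) (hΓ : Cfsg.HasCyclicSchurMultiplier Γ 1) (Δ : Type u) [Group Δ] [Finite Δ] (τ : Δ →* Q) (hτ : Cfsg.IsStemExtension τ) : ∃ π : σ.ker →* τ.ker, Function.Surjective π := by
  let φΓ : FreeGroup Γ →* Γ := FreeGroup.lift id
  have hφΓ : Function.Surjective φΓ := fun q => ⟨FreeGroup.of q, by simp [φΓ]⟩
  let φQ : FreeGroup Γ →* Q := σ.comp φΓ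
  have hφQ : Function.Surjective φQ := hσ.1.comp hφΓ
  -- Step 1: the Hopf multiplier of Γ is trivial
  have hMΓ : ∀ m ∈ hopfM φΓ, m = 1 := by
    obtain ⟨S, hSN, hS1, hS2⟩ := exists_hopf_complement φΓ (hopfBar φΓ).ker le_rfl
    have : S.Normal := normal_of_le_center_aux S (hSN.trans (hopfBar_ker_le_center φΓ))
    have h2 : (hopfBar φΓ).ker ≤ S ⊔ hopfM φΓ := hS2.ge
    obtain ⟨hstem, hfin, ⟨eM⟩⟩ := hopf_quotient_stem φΓ hφΓ S hSN hS1 h2
    obtain ⟨f, hf⟩ := hΓ.2 (HopfE φΓ ⧸ S) (QuotientGroup.lift S (hopfBar φΓ) hSN) hstem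
    intro m hm
    obtain ⟨z, hz⟩ := hf (eM ⟨m, hm⟩)
    have hz1 : z = 1 := Subsingleton.elim _ _
    rw [hz1, map_one] at hz
    have h3 : (⟨m, hm⟩ : hopfM φΓ) = 1 := eM.injective (by rw [← hz, map_one])
    exact congrArg Subtype.val h3
  -- Step 2: the map E_Q → Γ induced by φΓ
  have hCQ : hopfC φQ ≤ φΓ.ker := by
    unfold hopfC
    rw [Subgroup.commutator_le]
    intro f _ r hr
    rw [MonoidHom.mem_ker, map_commutatorElement]
    have hr' : φΓ r ∈ Subgroup.center Γ := hσ.2.1 hr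
    rw [commutatorElement_def, (Subgroup.mem_center_iff.mp hr' (φΓ f))]
    group
  let ψΓ : HopfE φQ →* Γ := QuotientGroup.lift (hopfC φQ) φΓ hCQ
  have hψΓ : σ.comp ψΓ = hopfBar φQ := by
    apply MonoidHom.ext
    intro x
    obtain ⟨f, rfl⟩ := hopfMk_surjective φQ x
    rfl
  obtain ⟨-, hψΓM⟩ := hopf_lift_stem φQ hφQ σ hσ ψΓ hψΓ
  have hCle : hopfC φΓ ≤ hopfC φQ := by
    unfold hopfC
    apply Subgroup.commutator_mono le_rfl
    intro r hr
    show σ (φΓ r) = 1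
    have : φΓ r = 1 := hr
    rw [this, map_one]
  have hinj : ∀ m ∈ hopfM φQ, ψΓ m = 1 → m = 1 := by
    intro m hm hm1
    have hmc : m ∈ (commutator (FreeGroup Γ)).map (hopfMk φQ) := by
      rw [map_hopfMk_commutator]; exact hm.2
    obtain ⟨f, hf, rfl⟩ := hmc
    have hfk : φΓ f = 1 := hm1
    have h4 : hopfMk φΓ f ∈ hopfM φΓ := by
      refine ⟨?_, ?_⟩
      · show hopfBar φΓ (hopfMk φΓ f) = 1
        rw [hopfBar_mk]; exact hfk
      · rw [← map_hopfMk_commutator]; exact ⟨f, hf, rfl⟩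
    have h5 : hopfMk φΓ f = 1 := hMΓ _ h4
    have h6 : f ∈ hopfC φΓ := (QuotientGroup.eq_one_iff f).mp h5
    exact (QuotientGroup.eq_one_iff f).mpr (hCle h6)
  let g₁ : hopfM φQ →* σ.ker :=
    { toFun := fun m => ⟨ψΓ m, by rw [← hψΓM]; exact ⟨m, m.2, rfl⟩⟩
      map_one' := Subtype.ext (map_one ψΓ)
      map_mul' := fun a b => Subtype.ext (map_mul ψΓ (a : HopfE φQ) (b : HopfE φQ)) }
  have hg₁ : Function.Bijective g₁ := by
    constructor
    · rw [← MonoidHom.ker_eq_bot_iff, eq_bot_iff]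
      intro m hm
      have : ψΓ (m : HopfE φQ) = 1 := congrArg Subtype.val (MonoidHom.mem_ker.mp hm)
      exact Subtype.ext (hinj m m.2 this)
    · rintro ⟨k, hk⟩
      rw [← hψΓM] at hk
      obtain ⟨m, hm, rfl⟩ := hk
      exact ⟨⟨m, hm⟩, rfl⟩
  -- Step 3: the map to Δ
  obtain ⟨ψΔ, hψΔ⟩ := exists_hopf_lift φQ τ hτ.1 hτ.2.1
  obtain ⟨-, hψΔM⟩ := hopf_lift_stem φQ hφQ τ hτ ψΔ hψΔ
  let g₂ : hopfM φQ →* τ.ker :=
    { toFun := fun m => ⟨ψΔ m, by rw [← hψΔM]; exact ⟨m, m.2, rfl⟩⟩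
      map_one' := Subtype.ext (map_one ψΔ)
      map_mul' := fun a b => Subtype.ext (map_mul ψΔ (a : HopfE φQ) (b : HopfE φQ)) }
  have hg₂ : Function.Surjective g₂ := by
    rintro ⟨k, hk⟩
    rw [← hψΔM] at hk
    obtain ⟨m, hm, rfl⟩ := hk
    exact ⟨⟨m, hm⟩, rfl⟩
  refine ⟨g₂.comp (MulEquiv.ofBijective g₁ hg₁).symm.toMonoidHom, ?_⟩
  exact hg₂.comp (MulEquiv.ofBijective g₁ hg₁).symm.surjective

end Cfsg.Agent.S3958
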