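-- Statement S1462 (row 1462).
import Cfsg.Statements.S1462
import Cfsg.Agent.Helper24.PLen2
import Cfsg.Agent.S1443

set_option autoImplicit false
open Cfsg
open scoped commutatorElement Pointwise

namespace Cfsg.Agent.S1462

open Cfsg.Agent.Helper24

/-- Let p be an odd prime and G a finite solvable group of p-length at most one. If E is a maximal elementary abelian p-subgroup of G and L is a p'-subgroup of G normalized by E, then L ≤ O_{p'}(G). -/
theorem result {G : Type*} [Group G] [Finite G] [Group.IsSolvable G] (p : ℕ) [Fact p.Prime] (hp : p ≠ 2) (hpl : Cfsg.PLengthLE p 1 G) (E L : Subgroup G) (hE : Cfsg.IsElementaryAbelian p E)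
    (hEmax : ∀ B : Subgroup G, Cfsg.IsElementaryAbelian p B → E ≤ B → B = E) (hL : (Nat.card L).Coprime p) (hEL : E ≤ Subgroup.normalizer (L : Set G)) :
    L ≤ Cfsg.pPrimeCore p G := by
  set K := pPrimeCore p G with hK
  have hKcop : (Nat.card K).Coprime p := coprime_card_pPrimeCore p
  set π := QuotientGroup.mk' K with hπdef
  have hπ : Function.Surjective π := QuotientGroup.mk'_surjective K
  obtain ⟨S, hES⟩ := (isPGroup_of_isElementaryAbelian hE).exists_le_sylow
  have hNK : Subgroup.normalizer ((S : Subgroup G) : Set G) ⊔ K = ⊤ :=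
    normalizer_sup_pPrimeCore_eq_top p hpl S
  set Pbar := (S : Subgroup G).map π with hPbar
  have hPn : Pbar.Normal := by
    rw [← Subgroup.normalizer_eq_top_iff, ← top_le_iff]
    calc ⊤ = (Subgroup.normalizer ((S : Subgroup G) : Set G) ⊔ K).map π := by
          rw [hNK, Subgroup.map_top_of_surjective π hπ]
      _ = (Subgroup.normalizer ((S : Subgroup G) : Set G)).map π := by
          rw [Subgroup.map_sup, (Subgroup.map_eq_bot_iff K).mpr (by rw [QuotientGroup.ker_mk']),
            sup_bot_eq]
      _ ≤ Subgroup.normalizer (Pbar : Set (G ⧸ K)) := Subgroup.le_normalizer_map π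
  have hPp : IsPGroup p Pbar := S.isPGroup'.map π
  have hPidx : (Pbar.index).Coprime p := by
    have h1 : Pbar.index ∣ (S : Subgroup G).index := Subgroup.index_map_dvd _ hπ
    have h2 : ¬ p ∣ (S : Subgroup G).index := S.not_dvd_index
    exact Nat.Coprime.coprime_dvd_left h1 ((Nat.Prime.coprime_iff_not_dvd Fact.out).mpr h2).symm
  set Ebar := E.map π with hEbar
  set Lbar := L.map π with hLbar
  have hEP : Ebar ≤ Pbar := Subgroup.map_mono hES
  have hEbel : IsElementaryAbelian p Ebar := by
    constructor
    · constructor; constructor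
      rintro ⟨_, a, ha, rfl⟩ ⟨_, b, hb, rfl⟩
      apply Subtype.ext
      have h1 := hE.1.is_comm.comm (⟨a, ha⟩ : E) ⟨b, hb⟩
      have h2 : a * b = b * a := congrArg Subtype.val h1
      change π a * π b = π b * π a
      rw [← map_mul, ← map_mul, h2]
    · rintro _ ⟨a, ha, rfl⟩
      rw [← map_pow, hE.2 a ha, map_one]
  have hLcop : (Nat.card Lbar).Coprime p :=
    Nat.Coprime.coprime_dvd_left (Subgroup.card_map_dvd L π) hL
  have hLP : Lbar ⊓ Pbar = ⊥ := by
    rw [inf_comm]; exact inf_eq_bot_of_isPGroup_of_coprime hPp hLcop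
  have hELbar : Ebar ≤ Subgroup.normalizer (Lbar : Set (G ⧸ K)) :=
    (Subgroup.map_mono hEL).trans (Subgroup.le_normalizer_map π)
  have hLE : Lbar ≤ Subgroup.centralizer (Ebar : Set (G ⧸ K)) := by
    rw [← Subgroup.commutator_eq_bot_iff_le_centralizer, ← le_bot_iff, ← hLP]
    refine le_inf ?_ ?_
    · exact Subgroup.le_normalizer_iff_commutator_le_left.mp hELbar
    · exact (Subgroup.commutator_mono le_rfl hEP).trans (Subgroup.commutator_le_right Lbar Pbar)
  have hcent : Lbar ≤ Subgroup.centralizer (Pbar : Set (G ⧸ K)) := by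
    apply Cfsg.Agent.S1443.result p hp Pbar Ebar Lbar hPp hEP hEbel ?_ hLcop ?_
    · rw [Subgroup.normalizer_eq_top_iff.mpr hPn]; exact le_top
    · intro x hx hxord
      have hxp : x ^ p = 1 := by
        have h := pow_orderOf_eq_one x
        rwa [hxord] at h
      have hxE : x ∈ Ebar := mem_map_of_maximal_elementaryAbelian K hKcop E hE hEmax x hxp
        (fun e he => (Subgroup.mem_centralizer_iff.mp hx.2 e he).symm)
      intro l hl
      rw [Subgroup.mem_centralizer_iff]
      intro y hy
      rw [Set.mem_singleton_iff] at hy; subst hy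
      exact Subgroup.mem_centralizer_iff.mp (hLE hl) y hxE
  intro l hl
  have hlbar : π l ∈ Lbar := Subgroup.mem_map_of_mem π hl
  have hord : (orderOf (π l)).Coprime p := by
    have h1 : orderOf (π l) ∣ Nat.card Lbar := by
      have h2 := orderOf_dvd_natCard (⟨π l, hlbar⟩ : Lbar)
      rwa [Subgroup.orderOf_mk] at h2
    exact Nat.Coprime.coprime_dvd_left h1 hLcop
  have h1 : π l = 1 := eq_one_of_mem_centralizer_normal_sylow Pbar hPn hPp hPidx
    (fun D hDn hD => eq_bot_of_normal_coprime_quotient_pPrimeCore p D hDn hD) (π l)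
    (hcent hlbar) hord
  have h2 : l ∈ π.ker := h1
  rwa [QuotientGroup.ker_mk'] at h2

end Cfsg.Agent.S1462
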