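import Cfsg.Statements.S1448
import Cfsg.Agent.Helper22.Rank2Cprod
import Cfsg.Agent.Helper22.MetaCoprime
import Cfsg.Agent.Helper22.Transitivity
import Cfsg.Agent.Helper21.PRank
import Cfsg.Agent.Helper23.Rank2
import Cfsg.Agent.Helper23.Rank2GL
import Cfsg.Agent.Helper23.Rank2Fit
import Cfsg.Agent.Helper64.SmallRank
import Cfsg.Agent.S0639

set_option autoImplicit false
open Cfsg

namespace Cfsg.Agent.S1448

open Subgroup Cfsg.Agent.Helper22 Cfsg.Agent.Helper23
open scoped commutatorElement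

/-- An element of odd order prime to `3` normalising a `3`-group of rank at most `2`
centralises it. -/
theorem three_centralizer {G : Type*} [Group G] [Finite G] (R : Subgroup G) (hR : IsPGroup 3 R)
    (hr : Cfsg.PRankLE 3 2 R) (a : G) (ha : a ∈ normalizer (R : Set G)) (hodd : Odd (orderOf a))
    (hcop : (orderOf a).Coprime 3) : a ∈ centralizer (R : Set G) := by
  have h3 : Fact (Nat.Prime 3) := ⟨Nat.prime_three⟩
  have hHD : zpowers a ≤ normalizer (R : Set G) := zpowers_le.mpr ha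
  have hsolA : Group.IsSolvable ↥(zpowers a) := inferInstance
  have hsolR : Group.IsSolvable ↥R := by
    have := hR.isNilpotent
    infer_instance
  have hsol : Group.IsSolvable ↥(zpowers a ⊔ R) := isSolvable_sup_of_le_normalizer hHD hsolA hsolR
  have hRH : R ≤ zpowers a ⊔ R := le_sup_right
  have hYH : zpowers a ≤ zpowers a ⊔ R := le_sup_left
  have hoddR : Odd (Nat.card R) := by
    obtain ⟨n, hn⟩ := IsPGroup.iff_card.mp hR
    rw [hn]
    exact Odd.pow (by decide)
  have hcardA : Nat.card (zpowers a) = orderOf a := Nat.card_zpowers a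
  have hodd' : Odd (Nat.card ↥(zpowers a ⊔ R)) := by
    have h1 := card_sup_dvd_of_le_normalizer hHD
    have h2 : Odd (Nat.card (zpowers a) * Nat.card R) := by rw [hcardA]; exact hodd.mul hoddR
    exact h2.of_dvd_nat h1
  have hR' : IsPGroup 3 (R.subgroupOf (zpowers a ⊔ R)) := hR.comap_subtype
  have hr' : Cfsg.PRankLE 3 2 ↥(R.subgroupOf (zpowers a ⊔ R)) :=
    Cfsg.Agent.Helper21.pRankLE_of_injective (Subgroup.subgroupOfEquivOfLe hRH).toMonoidHom
      (Subgroup.subgroupOfEquivOfLe hRH).injective hr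
  have hYR' : (zpowers a).subgroupOf (zpowers a ⊔ R) ≤
      normalizer ((R.subgroupOf (zpowers a ⊔ R) : Subgroup ↥(zpowers a ⊔ R)) :
        Set ↥(zpowers a ⊔ R)) := by
    intro y hy
    rw [mem_subgroupOf] at hy
    have h1 := hHD hy
    rw [mem_normalizer_iff] at h1 ⊢
    intro h
    rw [mem_subgroupOf, mem_subgroupOf]
    exact h1 (h : G)
  have hY' : ∀ q : ℕ, q.Prime → q ∣ Nat.card ((zpowers a).subgroupOf (zpowers a ⊔ R)) →
      3 < q := by
    intro q hq hqd
    rw [natCard_subgroupOf_eq hYH, hcardA] at hqd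
    have hq2 : q ≠ 2 := by
      rintro rfl
      exact (Nat.not_even_iff_odd.mpr hodd) (even_iff_two_dvd.mpr hqd)
    have hq3 : q ≠ 3 := by
      rintro rfl
      have h4 := Nat.Coprime.eq_one_of_dvd hcop.symm hqd
      omega
    have := hq.two_le
    omega
  have hmain := le_centralizer_of_primes_gt (G := ↥(zpowers a ⊔ R)) hodd' 3 _ _ hR' hr' hYR' hY'
  rw [mem_centralizer_iff]
  intro r hr0
  have h1 : (⟨a, hYH (mem_zpowers a)⟩ : ↥(zpowers a ⊔ R)) ∈
      centralizer ((R.subgroupOf (zpowers a ⊔ R) : Subgroup ↥(zpowers a ⊔ R)) :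
        Set ↥(zpowers a ⊔ R)) := hmain (mem_subgroupOf.mpr (mem_zpowers a))
  have h2 := (mem_centralizer_iff.mp h1) ⟨r, hRH hr0⟩ (mem_subgroupOf.mpr hr0)
  exact congrArg Subtype.val h2

/-- Let G be a finite group, p an odd prime, R a nontrivial p-subgroup with no elementary abelian subgroup of order p ^ 3, and A a subgroup of odd order coprime to p normalizing R with [R, A] = R. Then 3 < p, and either R is abelian or R is generated by two elementwise-commuting subgroups R₁, R₂ with R₁ non-abelian of order p ^ 3 and exponent p, R₂ cyclic, and the elements of R₂ of order dividing p generating exactly [R₁, R₁]. -/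
theorem result {G : Type*} [Group G] [Finite G] (p : ℕ) [Fact p.Prime] (hp : p ≠ 2) (R A : Subgroup G) (hR : IsPGroup p R) (hR1 : R ≠ ⊥) (hr : Cfsg.PRankLE p 2 R)
    (hA : (A ≤ Subgroup.normalizer (R : Set G))) (hcop : (Nat.card A).Coprime p) (hAodd : Odd (Nat.card A)) (hRA : ⁅R, A⁆ = R) :
    3 < p ∧ (IsMulCommutative R ∨ ∃ R₁ R₂ : Subgroup G, R₁ ⊔ R₂ = R ∧ (∀ a ∈ R₁, ∀ b ∈ R₂, a * b = b * a) ∧
        ¬ IsMulCommutative R₁ ∧ Nat.card R₁ = p ^ 3 ∧ Monoid.exponent R₁ = p ∧ IsCyclic R₂ ∧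
        Subgroup.closure {x : G | x ∈ R₂ ∧ x ^ p = 1} = ⁅R₁, R₁⁆) := by
  classical
  have hpp : p.Prime := Fact.out
  have hrk : ∀ B : Subgroup G, B ≤ R → (∀ x ∈ B, ∀ y ∈ B, x * y = y * x) →
      (∀ b ∈ B, b ^ p = 1) → Nat.card B ≤ p ^ 2 :=
    fun B hBR hBc hBp => pRank_internal hr B hBR hBc hBp
  -- Step 1: `3 < p`
  have hp3 : 3 < p := by
    by_contra hle
    have hp3 : p = 3 := by
      have := hpp.two_le
      omega
    subst hp3
    apply hR1
    have hAC : A ≤ centralizer (R : Set G) := by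
      intro a ha
      have hoa : orderOf a ∣ Nat.card A := Subgroup.orderOf_dvd_natCard A ha
      exact three_centralizer R hR hr a (hA ha) (hAodd.of_dvd_nat hoa)
        (Nat.Coprime.coprime_dvd_left hoa hcop)
    rw [← hRA, Subgroup.commutator_comm, Subgroup.commutator_eq_bot_iff_le_centralizer]
    exact hAC
  refine ⟨hp3, ?_⟩
  -- Step 2: `Ω₁(R)`
  have hmulp : ∀ x ∈ R, ∀ y ∈ R, x ^ p = 1 → y ^ p = 1 → (x * y) ^ p = 1 := by
    intro x hx y hy hxp hyp
    have h1 := Cfsg.Agent.Helper64.smallrank_mul_pow_eq_one hp3 (Nat.card R) ↥R rfl hR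
      (fun E hE => hr E hE.1 hE.2) ⟨x, hx⟩ ⟨y, hy⟩ (Subtype.ext (by simpa using hxp))
      (Subtype.ext (by simpa using hyp))
    have h2 := congrArg Subtype.val h1
    simpa using h2
  obtain ⟨E, hEdef⟩ : ∃ E : Subgroup G, E = powKer p R hmulp := ⟨_, rfl⟩
  have hEmem : ∀ g : G, g ∈ E ↔ g ∈ R ∧ g ^ p = 1 := fun g => by
    rw [hEdef]; exact mem_powKer
  have hER : E ≤ R := fun g hg => ((hEmem g).mp hg).1
  have hEp : ∀ e ∈ E, e ^ p = 1 := fun g hg => ((hEmem g).mp hg).2
  have hEcard3 : Nat.card E ≤ p ^ 3 := by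
    apply Cfsg.Agent.Helper64.smallrank_card_le_cube_of_exp (G := ↥E) (p := p)
    · intro g
      exact Subtype.ext (by simpa using hEp g g.2)
    · intro B hB
      have h1 := hrk (B.map E.subtype) (by rintro _ ⟨b, -, rfl⟩; exact hER b.2) (by
          rintro _ ⟨b, hb, rfl⟩ _ ⟨c, hc, rfl⟩
          have h2 := hB.is_comm.comm ⟨b, hb⟩ ⟨c, hc⟩
          exact congrArg (fun z : ↥B => ((z : ↥E) : G)) h2) (by
          rintro _ ⟨b, -, rfl⟩; exact hEp b b.2)
      rwa [Subgroup.card_map_of_injective E.subtype_injective] at h1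
  by_cases hE2 : Nat.card E ≤ p ^ 2
  · left
    have hO : Nat.card ↥(Cfsg.omegaOne p (⊤ : Subgroup ↥R)) ≤ p ^ 2 := by
      have h1 : (Cfsg.omegaOne p (⊤ : Subgroup ↥R)).map R.subtype ≤ E := by
        rw [Subgroup.map_le_iff_le_comap]
        unfold Cfsg.omegaOne
        rw [Subgroup.closure_le]
        rintro x ⟨-, hx⟩
        show (x : G) ∈ E
        rw [hEmem]
        exact ⟨x.2, by have h2 := congrArg Subtype.val hx; simpa using h2⟩
      have h2 := Subgroup.card_le_of_le h1
      rw [Subgroup.card_map_of_injective R.subtype_injective] at h2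
      exact h2.trans hE2
    have hmeta : Cfsg.IsMetacyclic ↥R := Cfsg.Agent.S0639.result hp3 hR hO
    have hab := metaCop_abelian p hp R A hR hmeta hA hcop hRA
    exact ⟨⟨fun x y => Subtype.ext (hab x x.2 y y.2)⟩⟩
  · right
    have hEcard : Nat.card E = p ^ 3 := by
      have hEpg : IsPGroup p E := hR.to_le hER
      obtain ⟨k, hk⟩ := IsPGroup.iff_card.mp hEpg
      rw [hk] at hE2 hEcard3 ⊢
      have h1 : 2 < k := by
        by_contra h
        exact hE2 (Nat.pow_le_pow_right hpp.pos (by omega))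
      have h2 : k ≤ 3 := (Nat.pow_le_pow_iff_right hpp.one_lt).mp hEcard3
      have h3 : k = 3 := by omega
      rw [h3]
    have hEnc : ¬ ∀ a ∈ E, ∀ b ∈ E, a * b = b * a := by
      intro hc
      exact hE2 (hrk E hER hc hEp)
    obtain ⟨φ, hφ⟩ : ∃ φ : ↥A →* MulAut ↥R, φ = conjActHom R A hA := ⟨_, rfl⟩
    have hφapp : ∀ (a : ↥A) (r : ↥R), ((φ a r : ↥R) : G) = (a : G) * r * (a : G)⁻¹ := by
      intro a r
      rw [hφ]
      exact conjActHom_apply R A hA a r
    have hE' : ∀ g : ↥R, g ∈ E.subgroupOf R ↔ g ^ p = 1 := by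
      intro g
      rw [mem_subgroupOf, hEmem]
      constructor
      · rintro ⟨-, h⟩
        exact Subtype.ext (by simpa using h)
      · intro h
        exact ⟨g.2, by have h2 := congrArg Subtype.val h; simpa using h2⟩
    have hE'card : Nat.card (E.subgroupOf R) = p ^ 3 := by
      rw [natCard_subgroupOf_eq hER, hEcard]
    have hE'nc : ¬ ∀ a ∈ E.subgroupOf R, ∀ b ∈ E.subgroupOf R, a * b = b * a := by
      intro hc
      apply hEnc
      intro a ha b hb
      have h1 := hc ⟨a, hER ha⟩ (mem_subgroupOf.mpr ha) ⟨b, hER hb⟩ (mem_subgroupOf.mpr hb)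
      exact congrArg Subtype.val h1
    have hodd' : ∀ α ∈ Set.range φ, ∃ m : ℕ, Odd m ∧ α ^ m = 1 := by
      rintro _ ⟨a, rfl⟩
      refine ⟨orderOf a, hAodd.of_dvd_nat (orderOf_dvd_natCard a), ?_⟩
      rw [← map_pow, pow_orderOf_eq_one, map_one]
    have hgen' : ∀ N : Subgroup ↥R, (∀ α ∈ Set.range φ, ∀ r : ↥R, r⁻¹ * α r ∈ N) → N = ⊤ := by
      intro N hN
      have h1 : ⁅R, A⁆ ≤ N.map R.subtype := by
        rw [Subgroup.commutator_le]
        intro r hr0 a ha
        have h2 := hN (φ ⟨a, ha⟩) ⟨⟨a, ha⟩, rfl⟩ (⟨r, hr0⟩⁻¹)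
        refine ⟨_, h2, ?_⟩
        simp only [Subgroup.coe_subtype, Subgroup.coe_mul, Subgroup.coe_inv, hφapp, inv_inv,
          commutatorElement_def]
        group
      rw [hRA] at h1
      rw [eq_top_iff]
      intro r _
      obtain ⟨n, hn, hnr⟩ := h1 r.2
      have h3 : n = r := Subtype.ext hnr
      rwa [← h3]
    obtain ⟨Z, hZcard, hZE, hZc, hEC, hEE, hsup⟩ :=
      r2c_main hp3 hR (E.subgroupOf R) hE' hE'card hE'nc (Set.range φ) hodd' hgen'
    obtain ⟨Zg, hZg⟩ : ∃ Zg : Subgroup G, Zg = Z.map R.subtype := ⟨_, rfl⟩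
    have hZgcard : Nat.card Zg = p := by
      rw [hZg, Subgroup.card_map_of_injective R.subtype_injective, hZcard]
    have hZgmem : ∀ g : G, g ∈ Zg ↔ ∃ h : g ∈ R, (⟨g, h⟩ : ↥R) ∈ Z := by
      intro g
      rw [hZg]
      constructor
      · rintro ⟨z, hz, rfl⟩
        exact ⟨z.2, hz⟩
      · rintro ⟨h, hz⟩
        exact ⟨⟨g, h⟩, hz, rfl⟩
    have hcent : ∀ g : ↥R, g ∈ centralizer ((E.subgroupOf R : Subgroup ↥R) : Set ↥R) ↔
        (g : G) ∈ centralizer (E : Set G) := by
      intro g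
      rw [mem_centralizer_iff, mem_centralizer_iff]
      constructor
      · intro h e he
        have h1 := h ⟨e, hER he⟩ (mem_subgroupOf.mpr he)
        exact congrArg Subtype.val h1
      · intro h e he
        exact Subtype.ext (h e (mem_subgroupOf.mp he))
    have hset : {x : G | x ∈ R ⊓ centralizer (E : Set G) ∧ x ^ p = 1} = (Zg : Set G) := by
      ext g
      simp only [Set.mem_ofPred_eq, SetLike.mem_coe]
      constructor
      · rintro ⟨hg, hgp⟩
        have hgR := (mem_inf.mp hg).1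
        rw [hZgmem]
        exact ⟨hgR, hEC ⟨g, hgR⟩ ((hE' _).mpr (Subtype.ext (by simpa using hgp)))
          ((hcent _).mpr (mem_inf.mp hg).2)⟩
      · intro hg
        obtain ⟨hgR, hz⟩ := (hZgmem g).mp hg
        have hzE := hZE hz
        refine ⟨mem_inf.mpr ⟨hgR, ?_⟩, hEp g (mem_subgroupOf.mp hzE)⟩
        rw [mem_centralizer_iff]
        intro e he
        have h1 := hZc ⟨g, hgR⟩ hz ⟨e, hER he⟩
        exact congrArg Subtype.val h1
    have hcomm_le : ⁅E, E⁆ ≤ Zg := by
      rw [Subgroup.commutator_le]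
      intro a ha b hb
      have h1 := hEE ⟨a, hER ha⟩ (mem_subgroupOf.mpr ha) ⟨b, hER hb⟩ (mem_subgroupOf.mpr hb)
      rw [hZg]
      exact ⟨_, h1, by simp [commutatorElement_def]⟩
    refine ⟨E, R ⊓ centralizer (E : Set G), ?_, ?_, ?_, hEcard, ?_, ?_, ?_⟩
    · apply le_antisymm (sup_le hER inf_le_left)
      intro r hr0
      have h1 : (⟨r, hr0⟩ : ↥R) ∈
          E.subgroupOf R ⊔ centralizer ((E.subgroupOf R : Subgroup ↥R) : Set ↥R) := by
        rw [hsup]; exact mem_top _
      have hEn : (E.subgroupOf R).Normal := ⟨fun e he g => by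
        rw [hE'] at he ⊢
        rw [conj_pow, he, mul_one, mul_inv_cancel]⟩
      obtain ⟨e, he, c, hc, hec⟩ := Subgroup.mem_sup_of_normal_left.mp h1
      have h2 : r = (e : G) * (c : G) := by
        have h3 := congrArg Subtype.val hec
        simpa using h3.symm
      rw [h2]
      exact mul_mem (mem_sup_left (mem_subgroupOf.mp he))
        (mem_sup_right (mem_inf.mpr ⟨c.2, (hcent c).mp hc⟩))
    · intro a ha b hb
      exact (mem_centralizer_iff.mp (mem_inf.mp hb).2) a ha
    · intro hc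
      apply hEnc
      intro a ha b hb
      exact congrArg Subtype.val (hc.is_comm.comm ⟨a, ha⟩ ⟨b, hb⟩)
    · have h1 : Monoid.exponent ↥E ∣ p :=
        Monoid.exponent_dvd_of_forall_pow_eq_one (fun g => Subtype.ext (by simpa using hEp g g.2))
      rcases (Nat.dvd_prime hpp).mp h1 with h | h
      · exfalso
        have hsub : Subsingleton ↥E := Monoid.exp_eq_one_iff.mp h
        have h2 : Nat.card ↥E = 1 := Nat.card_eq_one_iff_unique.mpr ⟨hsub, ⟨1⟩⟩
        rw [hEcard] at h2
        have h3 : 1 < p ^ 3 := Nat.one_lt_pow (by norm_num) hpp.one_lt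
        omega
      · exact h
    · apply r2c_isCyclic_of_exp_le hp (hR.to_le inf_le_left)
      intro B hB
      rw [← hZgcard]
      have h1 : B.map (R ⊓ centralizer (E : Set G)).subtype ≤ Zg := by
        rintro _ ⟨b, hb, rfl⟩
        have h2 : ((b : ↥(R ⊓ centralizer (E : Set G))) : G) ∈
            {x : G | x ∈ R ⊓ centralizer (E : Set G) ∧ x ^ p = 1} :=
          ⟨b.2, by have h3 := congrArg Subtype.val (hB b hb); simpa using h3⟩
        rw [hset] at h2
        exact h2
      have h2 := Subgroup.card_le_of_le h1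
      rwa [Subgroup.card_map_of_injective (Subgroup.subtype_injective _)] at h2
    · rw [hset, Subgroup.closure_eq]
      symm
      apply Subgroup.eq_of_le_of_card_ge hcomm_le
      rw [hZgcard]
      have hne : ⁅E, E⁆ ≠ ⊥ := by
        intro h
        apply hEnc
        intro a ha b hb
        have h1 : ⁅a, b⁆ ∈ ⁅E, E⁆ := Subgroup.commutator_mem_commutator ha hb
        rw [h, mem_bot] at h1
        exact commutatorElement_eq_one_iff_mul_comm.mp h1
      have hdvd : Nat.card ↥⁅E, E⁆ ∣ p := by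
        rw [← hZgcard]
        exact Subgroup.card_dvd_of_le hcomm_le
      rcases (Nat.dvd_prime hpp).mp hdvd with h | h
      · exact absurd (Subgroup.card_eq_one.mp h) hne
      · exact h.ge

end Cfsg.Agent.S1448
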