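import Cfsg.Statements.S5607
import Cfsg.Agent.Helper93.M24Class
import Cfsg.Agent.Helper93.M24Orbit
import Cfsg.Agent.Helper91.Fast

set_option autoImplicit false
open scoped Pointwise
open Cfsg

namespace Cfsg.Agent.S5607

open Cfsg.Agent.Helper91 Cfsg.Agent.Helper93

/-- A fixed-point-free involution with the cycles (23 0), (1 2). -/
def t0 : List Nat := [23, 2, 1, 5, 16, 3, 7, 6, 12, 10, 9, 18, 8, 22, 17, 20, 4, 14, 11, 21, 15, 19, 13, 0]

/-- Elements of the centraliser of `t0` carrying the point 23 to every point. -/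
def cTabs : List (List Nat) :=
  [[23, 2, 1, 5, 16, 3, 7, 6, 12, 10, 9, 18, 8, 22, 17, 20, 4, 14, 11, 21, 15, 19, 13, 0],
   [2, 23, 0, 14, 22, 17, 19, 21, 18, 15, 20, 12, 11, 16, 3, 9, 13, 5, 8, 6, 10, 7, 4, 1],
   [1, 0, 23, 17, 13, 14, 21, 19, 11, 20, 15, 8, 18, 4, 5, 10, 22, 3, 12, 7, 9, 6, 16, 2],
   [5, 17, 14, 22, 12, 13, 1, 2, 20, 19, 21, 10, 15, 11, 16, 7, 8, 4, 9, 0, 6, 23, 18, 3],
   [16, 13, 22, 5, 11, 3, 7, 6, 9, 2, 1, 15, 10, 12, 14, 23, 18, 17, 20, 19, 0, 21, 8, 4],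
   [3, 17, 14, 8, 10, 12, 13, 22, 0, 19, 21, 1, 23, 15, 18, 6, 9, 11, 2, 16, 7, 4, 20, 5],
   [7, 19, 21, 22, 5, 13, 1, 2, 11, 15, 20, 8, 18, 14, 4, 9, 3, 16, 12, 23, 10, 0, 17, 6],
   [6, 19, 21, 8, 3, 12, 13, 22, 15, 23, 0, 9, 20, 14, 11, 2, 5, 18, 10, 4, 1, 16, 17, 7],
   [12, 18, 11, 17, 10, 14, 21, 19, 23, 16, 4, 2, 0, 15, 5, 13, 9, 3, 1, 7, 22, 6, 20, 8],
   [10, 20, 15, 17, 1, 14, 21, 19, 4, 18, 11, 22, 16, 23, 3, 12, 2, 5, 13, 6, 8, 7, 0, 9],
   [9, 15, 20, 14, 2, 17, 19, 21, 16, 11, 18, 13, 4, 0, 5, 8, 1, 3, 22, 7, 12, 6, 23, 10],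
   [18, 12, 8, 3, 15, 5, 6, 7, 2, 22, 13, 23, 1, 10, 14, 4, 20, 17, 0, 19, 16, 21, 9, 11],
   [8, 11, 18, 14, 9, 17, 19, 21, 0, 4, 16, 1, 23, 20, 3, 22, 10, 5, 2, 6, 13, 7, 15, 12],
   [22, 4, 16, 14, 8, 17, 19, 21, 20, 23, 0, 10, 15, 18, 5, 2, 12, 3, 9, 7, 1, 6, 11, 13],
   [17, 5, 3, 4, 11, 16, 23, 0, 10, 6, 7, 20, 9, 12, 13, 21, 18, 22, 15, 2, 19, 1, 8, 14],
   [20, 10, 9, 5, 23, 3, 7, 6, 22, 8, 12, 4, 13, 1, 14, 11, 0, 17, 16, 19, 18, 21, 2, 15],
   [4, 22, 13, 3, 18, 5, 6, 7, 10, 1, 2, 20, 9, 8, 17, 0, 11, 14, 15, 21, 23, 19, 12, 16],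
   [14, 3, 5, 20, 0, 15, 18, 11, 22, 7, 6, 4, 13, 2, 9, 19, 23, 10, 16, 12, 21, 8, 1, 17],
   [11, 8, 12, 5, 20, 3, 7, 6, 1, 13, 22, 0, 2, 9, 17, 16, 15, 14, 23, 21, 4, 19, 10, 18],
   [21, 6, 7, 22, 14, 13, 1, 2, 12, 10, 9, 18, 8, 5, 4, 20, 17, 16, 11, 23, 15, 0, 3, 19],
   [15, 9, 10, 3, 0, 5, 6, 7, 13, 12, 8, 16, 22, 2, 17, 18, 23, 14, 4, 21, 11, 19, 1, 20],
   [19, 7, 6, 20, 14, 15, 18, 11, 2, 13, 22, 23, 1, 5, 10, 16, 17, 9, 0, 8, 4, 12, 3, 21],
   [13, 16, 4, 17, 12, 14, 21, 19, 15, 0, 23, 9, 20, 11, 3, 1, 8, 5, 10, 6, 2, 7, 18, 22],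
   [0, 1, 2, 3, 4, 5, 6, 7, 8, 9, 10, 11, 12, 13, 14, 15, 16, 17, 18, 19, 20, 21, 22, 23]]

/-- An element of the centraliser of `t0` fixing 23 and carrying 1 to 2. -/
def dTab : List Nat := [0, 2, 1, 21, 5, 19, 12, 8, 13, 9, 10, 16, 22, 17, 6, 20, 3, 7, 4, 18, 15, 11, 14, 23]

/-- Elements of the centraliser of `t0` fixing 23, 0, 1, 2 and carrying 3 to every other point. -/
def eTabs : List (List Nat) :=
  [[0, 1, 2, 3, 4, 5, 6, 7, 8, 9, 10, 11, 12, 13, 14, 15, 16, 17, 18, 19, 20, 21, 22, 23],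
   [0, 1, 2, 4, 17, 16, 19, 21, 20, 18, 11, 9, 15, 3, 22, 8, 14, 13, 10, 6, 12, 7, 5, 23],
   [0, 1, 2, 5, 13, 3, 7, 6, 8, 20, 15, 11, 12, 4, 17, 10, 22, 14, 18, 21, 9, 19, 16, 23],
   [0, 1, 2, 6, 18, 7, 4, 16, 9, 14, 17, 20, 10, 12, 19, 3, 11, 21, 15, 22, 5, 13, 8, 23],
   [0, 1, 2, 7, 18, 6, 13, 22, 20, 17, 14, 9, 15, 12, 21, 5, 11, 19, 10, 16, 3, 4, 8, 23],
   [0, 1, 2, 8, 21, 12, 13, 22, 3, 9, 10, 17, 5, 6, 18, 15, 19, 11, 14, 16, 20, 4, 7, 23],
   [0, 1, 2, 9, 22, 10, 18, 11, 7, 5, 3, 19, 6, 16, 15, 17, 13, 20, 21, 8, 14, 12, 4, 23],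
   [0, 1, 2, 10, 4, 9, 8, 12, 6, 5, 3, 21, 7, 13, 20, 17, 16, 15, 19, 18, 14, 11, 22, 23],
   [0, 1, 2, 11, 21, 18, 16, 4, 14, 20, 15, 5, 17, 6, 12, 10, 19, 8, 3, 13, 9, 22, 7, 23],
   [0, 1, 2, 12, 7, 8, 16, 4, 5, 9, 10, 14, 3, 19, 11, 15, 6, 18, 17, 13, 20, 22, 21, 23],
   [0, 1, 2, 13, 9, 22, 12, 8, 14, 6, 7, 5, 17, 20, 16, 19, 10, 4, 3, 11, 21, 18, 15, 23],
   [0, 1, 2, 14, 13, 17, 21, 19, 18, 9, 10, 12, 11, 4, 3, 15, 22, 5, 8, 7, 20, 6, 16, 23],
   [0, 1, 2, 15, 4, 20, 18, 11, 19, 14, 17, 7, 21, 13, 9, 3, 16, 10, 6, 8, 5, 12, 22, 23],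
   [0, 1, 2, 16, 10, 4, 11, 18, 14, 7, 6, 5, 17, 15, 13, 21, 9, 22, 3, 12, 19, 8, 20, 23],
   [0, 1, 2, 17, 4, 14, 19, 21, 18, 20, 15, 12, 11, 13, 5, 10, 16, 3, 8, 6, 9, 7, 22, 23],
   [0, 1, 2, 18, 7, 11, 13, 22, 17, 20, 15, 3, 14, 19, 8, 10, 6, 12, 5, 16, 9, 4, 21, 23],
   [0, 1, 2, 19, 8, 21, 4, 16, 20, 5, 3, 9, 15, 11, 6, 17, 12, 7, 10, 22, 14, 13, 18, 23],
   [0, 1, 2, 20, 22, 15, 8, 12, 21, 14, 17, 6, 19, 16, 10, 3, 13, 9, 7, 18, 5, 11, 4, 23],
   [0, 1, 2, 21, 18, 19, 22, 13, 15, 5, 3, 10, 20, 12, 7, 17, 11, 6, 9, 4, 14, 16, 8, 23],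
   [0, 1, 2, 22, 10, 13, 12, 8, 3, 19, 21, 17, 5, 15, 4, 6, 9, 16, 14, 11, 7, 18, 20, 23]]

/-- The mask of the tetrad {23, 0, 1, 2}. -/
def x0m : Nat := 8388615

theorem t0_ok : tabOK 0 [] t0 = true ∧ isInvT t0 = true ∧ fixCnt 24 t0 = 0 ∧ pullMask t0 x0m = x0m := by
  decide +kernel

theorem cTabs_ok : cTabs.all (fun C => tabOK 0 [] C && commT C t0) = true ∧
    covers cTabs 23 ALL = true := by decide +kernel

theorem dTab_ok : tabOK 8388609 [] dTab = true ∧ commT dTab t0 = true ∧ dTab.getD 1 0 = 2 := by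
  decide +kernel

theorem eTabs_ok : eTabs.all (fun E => tabOK 8388615 [] E && commT E t0) = true ∧
    covers eTabs 3 8388600 = true := by decide +kernel

theorem h5c_ok : (h5Tabs.filter (fun T => commT T t0)).length = 8 ∧ h5Tabs.Nodup := by
  decide +kernel

theorem oct_x0_ok : Helper26.allL
    (fun o => !(Nat.beq (Nat.land o x0m) x0m) || Nat.beq (pullF t0 o) o) Helper26.octL = true := by
  decide +kernel

theorem uniq_ok : Helper26.allL (fun m => !(Nat.ble 8388608 m) || !(Nat.beq (pullF t0 m) m) ||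
    Nat.beq m x0m || anyL Helper26.octL (fun o => Nat.beq (Nat.land o m) m &&
      !(Nat.beq (pullF t0 (Nat.xor o m)) (Nat.xor o m)))) tetLit = true := by
  decide +kernel

/-- The involution. -/
noncomputable def T0 : Equiv.Perm GolayPt := permT t0 (tabOK_valid t0_ok.1)

theorem T0_mem : T0 ∈ M24 := (tabOK_spec t0_ok.1).1

theorem T0_sq : T0 * T0 = 1 := (isInvT_iff _).1 t0_ok.2.1

theorem T0_fpf : ∀ p, T0 p ≠ p := by
  rw [← fix_card_zero_iff, T0, card_fix, t0_ok.2.2.1]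

theorem T0_23 : T0 (pt 23) = pt 0 := by
  rw [T0, permT_pt _ (by norm_num)]; rfl

theorem T0_1 : T0 (pt 1) = pt 2 := by
  rw [T0, permT_pt _ (by norm_num)]; rfl

/-- The tetrad {23, 0, 1, 2}. -/
noncomputable def x0 : Finset GolayPt := Helper26.dec x0m

theorem enc_x0 : Helper26.enc x0 = x0m := Helper26.enc_dec _ (by decide)

theorem card_x0 : x0.card = 4 := by
  rw [Helper26.card_eq_pc24, enc_x0]; decide

/-- The sextet of the involution. -/
noncomputable def S0 : Finset (Finset GolayPt) := Helper26.sextetOf x0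

theorem S0_mem : S0 ∈ sextets := Helper26.sextetOf_mem_sextets x0 card_x0

theorem T0_x0 : T0 • x0 = x0 := by
  rw [T0, smul_eq_iff_pull, enc_x0]; exact t0_ok.2.2.2

theorem pullF_iff (s : Finset GolayPt) :
    T0 • s = s ↔ pullF t0 (Helper26.enc s) = Helper26.enc s := by
  rw [T0, smul_eq_iff_pull, pullF_eq]

/-- Every tetrad of the sextet is invariant under the involution. -/
theorem S0_inv : ∀ x ∈ S0, T0 • x = x := by
  intro x hx
  rcases Helper26.mem_sextetOf.1 hx with rfl | ⟨o, ⟨ho, hsub⟩, rfl⟩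
  · exact T0_x0
  · have hmem : Helper26.enc o ∈ Helper26.octL := (Helper26.mem_octL_iff o).2 ho
    have h := Helper26.allL_spec _ _ oct_x0_ok _ hmem
    have hsub' : Nat.land (Helper26.enc o) x0m = x0m := by
      have := (Helper26.subset_iff_enc x0 o).1 hsub
      rw [enc_x0] at this
      exact (Nat.land_comm _ _).trans this
    rw [hsub'] at h
    simp only [Nat.beq_refl, Bool.not_true, Bool.false_or, Nat.beq_eq] at h
    have ho' : T0 • o = o := (pullF_iff o).2 h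
    rw [Finset.smul_finset_sdiff, ho', T0_x0]

/-- The sextet is the only one all of whose tetrads are invariant under the involution. -/
theorem S0_unique {S : Finset (Finset GolayPt)} (hS : S ∈ sextets) (hinv : ∀ x ∈ S, T0 • x = x) :
    S = S0 := by
  obtain ⟨x, hx, h23⟩ := sextet_cover hS (pt 23)
  have e := Helper26.eq_sextetOf hS hx
  have hx4 : x.card = 4 := hS.2.1 x hx
  have hmem : Helper26.enc x ∈ tetLit := by
    rw [tetLit_eq, ← mem_tetL_iff, Finset.mem_powersetCard]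
    exact ⟨Finset.subset_univ _, hx4⟩
  have h := Helper26.allL_spec _ _ uniq_ok _ hmem
  have hge : Nat.ble 8388608 (Helper26.enc x) = true := by
    rw [Nat.ble_eq]
    have := (pt_mem_iff_testBit (by norm_num : 23 < 24) x).1 h23
    exact Nat.ge_two_pow_of_testBit this
  have hfix : Nat.beq (pullF t0 (Helper26.enc x)) (Helper26.enc x) = true := by
    rw [Nat.beq_eq]; exact (pullF_iff x).1 (hinv x hx)
  rw [hge, hfix] at h
  simp only [Bool.not_true, Bool.false_or, Bool.or_eq_true, Nat.beq_eq] at h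
  rcases h with h | h
  · have : x = x0 := Helper26.enc_injective (by rw [h, enc_x0])
    rw [e, this]; rfl
  · exfalso
    rw [anyL_eq, List.any_eq_true] at h
    obtain ⟨o, ho, h⟩ := h
    rw [Bool.and_eq_true, Nat.beq_eq] at h
    obtain ⟨hsub, hmove⟩ := h
    have eo : Helper26.enc (Helper26.dec o) = o := Helper26.enc_dec o (Helper26.octL_lt o ho)
    have hoct : Helper26.dec o ∈ octads := by
      rw [← Helper26.mem_octL_iff, eo]; exact ho
    have hsub' : x ⊆ Helper26.dec o := by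
      rw [Helper26.subset_iff_enc, eo]
      exact (Nat.land_comm _ _).trans hsub
    have hy : Helper26.dec o \ x ∈ S := by
      rw [e, Helper26.mem_sextetOf]
      exact Or.inr ⟨_, ⟨hoct, hsub'⟩, rfl⟩
    have hfy := (pullF_iff _).1 (hinv _ hy)
    have ey : Helper26.enc (Helper26.dec o \ x) = Nat.xor o (Helper26.enc x) := by
      rw [Helper26.enc_sdiff, eo]
      have : o &&& Helper26.enc x = Helper26.enc x := hsub
      rw [this]; rfl
    rw [ey] at hfy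
    rw [hfy] at hmove
    simp at hmove

/-- The centraliser of the involution preserves the sextet. -/
theorem cent_S0 {c : Equiv.Perm GolayPt} (hc : c ∈ centM T0) : c • S0 = S0 := by
  rw [mem_centM] at hc
  apply S0_unique (smul_mem_sextets hc.1 S0_mem)
  intro x hx
  obtain ⟨y, hy, rfl⟩ := Finset.mem_smul_finset.1 hx
  rw [← mul_smul, ← hc.2, mul_smul, S0_inv y hy]

theorem T0_S0 : T0 • S0 = S0 :=
  S0_unique (smul_mem_sextets T0_mem S0_mem) (fun x hx => by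
    obtain ⟨y, hy, rfl⟩ := Finset.mem_smul_finset.1 hx
    rw [S0_inv y hy, S0_inv y hy])

theorem pt23_mem : pt 23 ∈ x0 := by
  rw [pt_mem_iff_testBit (by norm_num), enc_x0]; decide

/-- An element of the centraliser fixing the point 23 preserves the tetrad {23, 0, 1, 2}. -/
theorem cent_x0 {c : Equiv.Perm GolayPt} (hc : c ∈ centM T0) (h23 : c (pt 23) = pt 23) :
    c • x0 = x0 := by
  have h1 : c • x0 ∈ S0 := by
    have : c • x0 ∈ c • S0 := Finset.smul_mem_smul_finset (Helper26.mem_sextetOf_self x0)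
    rwa [cent_S0 hc] at this
  have h2 : pt 23 ∈ c • x0 := by
    have : c • pt 23 ∈ c • x0 := Finset.smul_mem_smul_finset pt23_mem
    rwa [Equiv.Perm.smul_def, h23] at this
  exact sextet_tetrad_unique S0_mem h1 (Helper26.mem_sextetOf_self x0) h2 pt23_mem

theorem cent_fix0 {c : Equiv.Perm GolayPt} (hc : c ∈ centM T0) (h23 : c (pt 23) = pt 23) :
    c (pt 0) = pt 0 := by
  rw [mem_centM] at hc
  have := congrArg (fun f : Equiv.Perm GolayPt => f (pt 23)) hc.2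
  simp only [Equiv.Perm.mul_apply] at this
  rw [T0_23, h23, T0_23] at this
  exact this

theorem cent_fix2 {c : Equiv.Perm GolayPt} (hc : c ∈ centM T0) (h1 : c (pt 1) = pt 1) :
    c (pt 2) = pt 2 := by
  rw [mem_centM] at hc
  have := congrArg (fun f : Equiv.Perm GolayPt => f (pt 1)) hc.2
  simp only [Equiv.Perm.mul_apply] at this
  rw [T0_1, h1, T0_1] at this
  exact this

theorem mem_x0 (q : GolayPt) : q ∈ x0 ↔ q = pt 23 ∨ q = pt 0 ∨ q = pt 1 ∨ q = pt 2 := by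
  rw [x0, Helper26.mem_dec, ← idx_eq26]
  revert q; decide

/-- The centraliser is transitive on the points. -/
theorem cent_trans (y : GolayPt) : ∃ g ∈ centM T0, g (pt 23) = y := by
  obtain ⟨T, hT, hTy⟩ := covers_spec cTabs_ok.2 (y := y) (testBit_ALL_idx y)
  have hok := List.all_eq_true.1 cTabs_ok.1 T hT
  rw [Bool.and_eq_true] at hok
  have hv := tabOK_valid hok.1
  refine ⟨permT T hv, mem_centM.2 ⟨(tabOK_spec hok.1).1, ?_⟩, ?_⟩
  · exact (commT_iff hv (tabOK_valid t0_ok.1)).1 hok.2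
  · rw [permT_pt hv (by norm_num), hTy, pt_idx]

theorem card_G3 : Nat.card ↥(centM T0 ⊓ MulAction.stabilizer (Equiv.Perm GolayPt) (pt 23) ⊓
    MulAction.stabilizer (Equiv.Perm GolayPt) (pt 1) ⊓
    MulAction.stabilizer (Equiv.Perm GolayPt) (pt 3)) = 8 := by
  rw [← h5c_ok.1]
  apply card_of_tabs _ _ (h5c_ok.2.filter _)
  · intro T hT
    exact h5Tabs_valid (List.mem_filter.1 hT).1
  · intro T hT
    rw [List.mem_filter] at hT
    have hv := h5Tabs_valid hT.1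
    rw [permT'_eq hv]
    have hm := h5Tabs_mem hT.1
    obtain ⟨f23, -, f1, -, f3⟩ := fixOn_base.1 hm.2.1
    refine ⟨⟨⟨mem_centM.2 ⟨hm.1, (commT_iff hv (tabOK_valid t0_ok.1)).1 hT.2⟩, f23⟩, f1⟩, f3⟩
  · rintro g ⟨⟨⟨hc, h23⟩, h1⟩, h3⟩
    have hc : g ∈ centM T0 := hc
    have h23 : g (pt 23) = pt 23 := h23
    have h1 : g (pt 1) = pt 1 := h1
    have h3 : g (pt 3) = pt 3 := h3
    have hfix : FixOn g 8388623 :=
      fixOn_base.2 ⟨h23, cent_fix0 hc h23, h1, cent_fix2 hc h1, h3⟩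
    obtain ⟨T, hT, e⟩ := h5_mem ⟨(mem_centM.1 hc).1, hfix, fun I hI => absurd hI (List.not_mem_nil)⟩
    have hv := h5Tabs_valid hT
    refine ⟨T, List.mem_filter.2 ⟨hT, ?_⟩, by rw [permT'_eq hv, e]⟩
    rw [commT_iff hv (tabOK_valid t0_ok.1), e]
    exact (mem_centM.1 hc).2

theorem card_G2 : Nat.card ↥(centM T0 ⊓ MulAction.stabilizer (Equiv.Perm GolayPt) (pt 23) ⊓
    MulAction.stabilizer (Equiv.Perm GolayPt) (pt 1)) = 160 := by
  rw [card_orbit_step _ (pt 3) (setM 8388600), card_G3]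
  · have : (setM 8388600).card = 20 := by
      rw [setM, card_support_toWord]; decide
    rw [this]
  · rintro g ⟨⟨hc, h23⟩, h1⟩
    have hc : g ∈ centM T0 := hc
    have h23 : g (pt 23) = pt 23 := h23
    have h1 : g (pt 1) = pt 1 := h1
    have h0 := cent_fix0 hc h23
    have h2 := cent_fix2 hc h1
    have key : ∀ q : GolayPt, q ≠ pt 23 → q ≠ pt 0 → q ≠ pt 1 → q ≠ pt 2 → q ∈ setM 8388600 := by
      intro q
      rw [mem_setM]
      revert q; decide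
    apply key
    · rw [← h23]; exact fun e => absurd (g.injective e) (by decide)
    · rw [← h0]; exact fun e => absurd (g.injective e) (by decide)
    · rw [← h1]; exact fun e => absurd (g.injective e) (by decide)
    · rw [← h2]; exact fun e => absurd (g.injective e) (by decide)
  · intro y hy
    rw [mem_setM] at hy
    obtain ⟨T, hT, hTy⟩ := covers_spec eTabs_ok.2 hy
    have hok := List.all_eq_true.1 eTabs_ok.1 T hT
    rw [Bool.and_eq_true] at hok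
    have hv := tabOK_valid hok.1
    obtain ⟨hM, hfix, -⟩ := tabOK_spec hok.1
    refine ⟨permT T hv, ⟨⟨mem_centM.2 ⟨hM, (commT_iff hv (tabOK_valid t0_ok.1)).1 hok.2⟩, ?_⟩, ?_⟩, ?_⟩
    · exact hfix (pt 23) (by decide)
    · exact hfix (pt 1) (by decide)
    · rw [permT_pt hv (by norm_num), hTy, pt_idx]

theorem card_G1 : Nat.card ↥(centM T0 ⊓ MulAction.stabilizer (Equiv.Perm GolayPt) (pt 23)) = 320 := by
  rw [card_orbit_step _ (pt 1) {pt 1, pt 2}, card_G2, Finset.card_pair (by decide)]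
  · rintro g ⟨hc, h23⟩
    have hc : g ∈ centM T0 := hc
    have h23 : g (pt 23) = pt 23 := h23
    have h0 := cent_fix0 hc h23
    have hmem : g (pt 1) ∈ x0 := by
      have : g • pt 1 ∈ g • x0 := Finset.smul_mem_smul_finset ((mem_x0 _).2 (Or.inr (Or.inr (Or.inl rfl))))
      rwa [cent_x0 hc h23] at this
    rw [mem_x0] at hmem
    rw [Finset.mem_insert, Finset.mem_singleton]
    rcases hmem with h | h | h | h
    · rw [← h23] at h; exact absurd (g.injective h) (by decide)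
    · rw [← h0] at h; exact absurd (g.injective h) (by decide)
    · exact Or.inl h
    · exact Or.inr h
  · intro y hy
    rw [Finset.mem_insert, Finset.mem_singleton] at hy
    rcases hy with rfl | rfl
    · exact ⟨1, one_mem _, rfl⟩
    · obtain ⟨hok, hcomm, h12⟩ := dTab_ok
      have hv := tabOK_valid hok
      obtain ⟨hM, hfix, -⟩ := tabOK_spec hok
      refine ⟨permT dTab hv, ⟨mem_centM.2 ⟨hM, (commT_iff hv (tabOK_valid t0_ok.1)).1 hcomm⟩, ?_⟩, ?_⟩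
      · exact hfix (pt 23) (by decide)
      · rw [permT_pt hv (by norm_num), h12]

theorem card_cent : Nat.card ↥(centM T0) = 7680 := by
  rw [card_orbit_step _ (pt 23) Finset.univ (fun _ _ => Finset.mem_univ _)
    (fun y _ => cent_trans y), card_G1, Finset.card_univ, Helper26.card_golayPt]

/-- For a fixed-point-free involution t of the group of the length-24 code: its centraliser in that group has order 7680, is transitive on the 24 points, and is contained, together with t, in the stabiliser of some sextet. -/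
theorem result (t : Equiv.Perm Cfsg.GolayPt) (ht : t ∈ Cfsg.M24) (h₂ : orderOf t = 2) (h₀ : ∀ p, t p ≠ p) : Nat.card {c : Equiv.Perm Cfsg.GolayPt // c ∈ Cfsg.M24 ∧ c * t = t * c} = 7680 ∧ (∀ p q : Cfsg.GolayPt, ∃ c ∈ Cfsg.M24, c * t = t * c ∧ c p = q) ∧ ∃ S ∈ Cfsg.sextets, t • S = S ∧ ∀ c ∈ Cfsg.M24, c * t = t * c → c • S = S := by
  obtain ⟨u, hu, rfl⟩ := class_2B ht h₂ h₀
  obtain ⟨v, hv, e0⟩ := class_2B T0_mem
    (by
      have : Fact (Nat.Prime 2) := ⟨Nat.prime_two⟩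
      exact orderOf_eq_prime (by rw [sq]; exact T0_sq) (fun h => T0_fpf (pt 0) (by rw [h]; rfl)))
    T0_fpf
  -- `t = w * T0 * w⁻¹`
  have hw : u * v⁻¹ ∈ M24 := mul_mem hu (inv_mem hv)
  have et : u * R2B * u⁻¹ = (u * v⁻¹) * T0 * (u * v⁻¹)⁻¹ := by
    rw [e0]; group
  rw [et]
  generalize u * v⁻¹ = w at hw
  refine ⟨?_, ?_, ?_⟩
  · rw [← card_cent, ← card_centM_conj hw T0]
    exact Nat.card_congr (Equiv.subtypeEquivRight (fun c => mem_centM.symm))
  · intro p q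
    obtain ⟨g1, hg1, e1⟩ := cent_trans (w⁻¹ p)
    obtain ⟨g2, hg2, e2⟩ := cent_trans (w⁻¹ q)
    have hc := conj_mem_centM hw (mul_mem hg2 (inv_mem hg1))
    rw [mem_centM] at hc
    refine ⟨_, hc.1, hc.2, ?_⟩
    simp only [Equiv.Perm.mul_apply]
    rw [← e1, perm_inv_apply, e2, perm_apply_inv]
  · refine ⟨w • S0, smul_mem_sextets hw S0_mem, ?_, ?_⟩
    · rw [conj_smul, T0_S0]
    · intro c hc hcomm
      have hc' : w⁻¹ * c * w ∈ centM T0 := conj_mem_centM' hw (mem_centM.2 ⟨hc, hcomm⟩)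
      have := cent_S0 hc'
      rw [mul_smul, mul_smul, inv_smul_eq_iff] at this
      exact this

end Cfsg.Agent.S5607
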