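import Cfsg.Statements.S1010
import Cfsg.Agent.S4303
import Cfsg.Agent.Helper95.Syl21H

set_option autoImplicit false
open Cfsg

namespace Cfsg.Agent.S1010

universe u

/-- A divisor of `21` that is the number of Sylow `5`-subgroups of a finite simple group or a
prime power congruent to `1` modulo `5` is `1`. -/
theorem factor_eq_one {m : ℕ} (hm : m ∣ 21)
    (h : (IsPrimePow m ∧ m % 5 = 1) ∨
      ∃ (S : Type u) (_ : Group S) (_ : Finite S), IsSimpleGroup S ∧
        m = Nat.card (Sylow 5 S)) : m = 1 := by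
  have : Fact (Nat.Prime 5) := ⟨by norm_num⟩
  have key : ∀ d ∈ Nat.divisors 21, d = 1 ∨ d = 3 ∨ d = 7 ∨ d = 21 := by decide
  have hm4 := key m (Nat.mem_divisors.mpr ⟨hm, by norm_num⟩)
  rcases h with ⟨hpp, hmod⟩ | ⟨S, _, _, hsimple, hmS⟩
  · rcases hm4 with rfl | rfl | rfl | rfl
    · rfl
    · omega
    · omega
    · exfalso
      rw [isPrimePow_iff_unique_prime_dvd] at hpp
      obtain ⟨p, -, hp⟩ := hpp
      have h3 := hp 3 ⟨by norm_num, by norm_num⟩
      have h7 := hp 7 ⟨by norm_num, by norm_num⟩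
      omega
  · rcases hm4 with rfl | rfl | rfl | rfl
    · rfl
    · have hmod := card_sylow_modEq_one 5 S
      rw [← hmS] at hmod
      exact absurd hmod (by decide)
    · have hmod := card_sylow_modEq_one 5 S
      rw [← hmS] at hmod
      exact absurd hmod (by decide)
    · exact absurd hmS.symm (Cfsg.Agent.Helper95.ps21_simple hsimple)

/-- No finite group has exactly twenty-one Sylow 5-subgroups. -/
theorem result {G : Type*} [Group G] [Finite G] : Nat.card (Sylow 5 G) ≠ 21 := by
  intro h21
  have : Fact (Nat.Prime 5) := ⟨by norm_num⟩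
  obtain ⟨l, hprod, hl⟩ := Cfsg.Agent.S4303.result (G := G) 5
  rw [h21] at hprod
  have hall : ∀ m ∈ l, m = 1 := by
    intro m hm
    exact factor_eq_one (hprod ▸ List.dvd_prod hm) (hl m hm)
  have h1 : l.prod = 1 := List.prod_eq_one hall
  omega

end Cfsg.Agent.S1010
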