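import Cfsg.Statements.S0781
import Cfsg.Agent.Helper43.UnitaryHeis

set_option autoImplicit false
open Cfsg

namespace Cfsg.Agent.S0781

open Cfsg.Agent.Helper43 Cfsg.Agent.Helper43.HermAdj Cfsg.Agent.Helper43.NormH90
  Cfsg.Agent.Helper43.HermOrtho Cfsg.Agent.Helper43.UnitaryHeis Matrix

open scoped commutatorElement

/-- projection to the orthogonal complement of a non-degenerate plane `⟨v, w⟩`, `v` isotropic -/
theorem proj_orth {F : Type*} [Field F] [Fintype F] {q n : ℕ}
    (v w : Fin n → F) (hvv : Cfsg.hermForm n F q v v = 0)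
    (hwv : Cfsg.hermForm n F q w v ≠ 0) (hvw : Cfsg.hermForm n F q v w ≠ 0) (y : Fin n → F) :
    ∃ α β : F, Cfsg.hermForm n F q (y - α • v - β • w) v = 0 ∧
      Cfsg.hermForm n F q (y - α • v - β • w) w = 0 := by
  refine ⟨(Cfsg.hermForm n F q y w - Cfsg.hermForm n F q y v / Cfsg.hermForm n F q w v *
      Cfsg.hermForm n F q w w) / Cfsg.hermForm n F q v w,
    Cfsg.hermForm n F q y v / Cfsg.hermForm n F q w v, ?_, ?_⟩
  · rw [herm_sub_left, herm_sub_left, herm_smul_left, herm_smul_left, hvv, mul_zero, sub_zero,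
      div_mul_cancel₀ _ hwv, sub_self]
  · rw [herm_sub_left, herm_sub_left, herm_smul_left, herm_smul_left, div_mul_cancel₀ _ hvw]
    ring

/-- a unit vector orthogonal to a non-zero isotropic vector, in dimension at least 3 -/
theorem exists_unit_orth {F : Type*} [Field F] [Fintype F] {q n : ℕ}
    (hF : Fintype.card F = q ^ 2) (hn : 3 ≤ n) (v : Fin n → F) (hv : v ≠ 0)
    (hvv : Cfsg.hermForm n F q v v = 0) :
    ∃ z : Fin n → F, Cfsg.hermForm n F q v z = 0 ∧ Cfsg.hermForm n F q z z = 1 := by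
  classical
  have hq : q ≠ 0 := by have := two_le_q hF; omega
  obtain ⟨w, hvw⟩ := herm_nondeg hq v hv
  have hwv : Cfsg.hermForm n F q w v ≠ 0 := by
    intro h0
    apply hvw
    rw [herm_symm hF w v, h0, zero_pow hq]
  obtain ⟨ℓv, hℓv⟩ : ∃ ℓ : (Fin n → F) →ₗ[F] F, ∀ x, ℓ x = Cfsg.hermForm n F q x v :=
    ⟨{ toFun := fun x => Cfsg.hermForm n F q x v, map_add' := fun x y => herm_add_left x y v,
       map_smul' := fun a x => by simp [herm_smul_left] }, fun x => rfl⟩
  obtain ⟨ℓw, hℓw⟩ : ∃ ℓ : (Fin n → F) →ₗ[F] F, ∀ x, ℓ x = Cfsg.hermForm n F q x w :=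
    ⟨{ toFun := fun x => Cfsg.hermForm n F q x w, map_add' := fun x y => herm_add_left x y w,
       map_smul' := fun a x => by simp [herm_smul_left] }, fun x => rfl⟩
  obtain ⟨W, hW⟩ : ∃ W : Submodule F (Fin n → F), W = LinearMap.ker ℓv ⊓ LinearMap.ker ℓw :=
    ⟨_, rfl⟩
  have hmem : ∀ x, x ∈ W ↔ Cfsg.hermForm n F q x v = 0 ∧ Cfsg.hermForm n F q x w = 0 := by
    intro x
    rw [hW, Submodule.mem_inf, LinearMap.mem_ker, LinearMap.mem_ker, hℓv, hℓw]
  -- `W` is not zero
  have hWbot : W ≠ ⊥ := by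
    have hspan : Submodule.span F ({v, w} : Set (Fin n → F)) ≠ ⊤ := by
      intro htop
      have h1 : Module.finrank F (Submodule.span F ({v, w} : Set (Fin n → F))) ≤ 2 := by
        have := finrank_span_finset_le_card (R := F) ({v, w} : Finset (Fin n → F))
        have h2 : (({v, w} : Finset (Fin n → F)) : Set (Fin n → F)) = {v, w} := by simp
        rw [h2] at this
        exact this.trans Finset.card_le_two
      rw [htop, finrank_top, Module.finrank_fin_fun] at h1
      omega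
    obtain ⟨y, hy⟩ : ∃ y, y ∉ Submodule.span F ({v, w} : Set (Fin n → F)) := by
      by_contra hcon
      apply hspan
      rw [Submodule.eq_top_iff']
      intro y
      by_contra hy
      exact hcon ⟨y, hy⟩
    obtain ⟨α, β, h1, h2⟩ := proj_orth v w hvv hwv hvw y
    intro hbot
    have h3 : y - α • v - β • w ∈ W := (hmem _).2 ⟨h1, h2⟩
    rw [hbot, Submodule.mem_bot] at h3
    apply hy
    have h4 : y = α • v + β • w := by
      have := sub_eq_zero.1 h3
      rw [sub_eq_iff_eq_add] at this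
      rw [this]; abel
    rw [h4]
    exact Submodule.add_mem _ (Submodule.smul_mem _ _ (Submodule.subset_span (by simp)))
      (Submodule.smul_mem _ _ (Submodule.subset_span (by simp)))
  -- the form is non-degenerate on `W`
  have hnd : ∀ x ∈ W, x ≠ 0 → ∃ y ∈ W, Cfsg.hermForm n F q x y ≠ 0 := by
    intro x hx hx0
    obtain ⟨y, hy⟩ := herm_nondeg hq x hx0
    obtain ⟨α, β, h1, h2⟩ := proj_orth v w hvv hwv hvw y
    refine ⟨y - α • v - β • w, (hmem _).2 ⟨h1, h2⟩, ?_⟩
    have h3 : y = (y - α • v - β • w) + α • v + β • w := by abel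
    have h4 := congrArg (Cfsg.hermForm n F q x) h3
    rw [herm_add_right hF, herm_add_right hF, herm_smul_right hF, herm_smul_right hF,
      ((hmem x).1 hx).1, ((hmem x).1 hx).2, mul_zero, mul_zero, add_zero, add_zero] at h4
    rw [← h4]; exact hy
  obtain ⟨z, hzW, hzz⟩ := exists_unit_vector hF (Cfsg.hermForm n F q) herm_add_left
    herm_smul_left (herm_symm hF) W hWbot hnd
  refine ⟨z, ?_, hzz⟩
  rw [herm_symm hF z v, ((hmem z).1 hzW).1, zero_pow hq]


/-- In SU_n(q) with n ≥ 4, or n = 3 and q > 2, every element whose matrix is a unitary transvection x ↦ x + c h(x, v) v (v isotropic) is a commutator ⁅B, C⁆ of two elements of SU_n(q). -/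
theorem result {F : Type*} [Field F] [Fintype F] {q : ℕ} (hF : Fintype.card F = q ^ 2) (n : ℕ) (hn : 4 ≤ n ∨ (n = 3 ∧ 3 ≤ q)) (A : ↥(Cfsg.SU n F q)) (v : Fin n → F) (c : F) (hv0 : Cfsg.hermForm n F q v v = 0) (hA : ((A : Matrix.SpecialLinearGroup (Fin n) F) : Matrix (Fin n) (Fin n) F) = Cfsg.unitaryTransvection n q v c) : A ∈ commutatorSet ↥(Cfsg.SU n F q) := by
  classical
  have hq : q ≠ 0 := by have := two_le_q hF; omega
  have hn3 : 3 ≤ n := by
    rcases hn with h | ⟨h, _⟩ <;> omega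
  by_cases hv : v = 0
  · have hA1 : A = 1 := by
      apply Subtype.ext
      apply Subtype.ext
      rw [hA, hv, transvection_eq]
      have : rk q (0 : Fin n → F) 0 = 0 := by
        ext i j
        unfold rk
        rw [vecMulVec_apply, Pi.zero_apply, zero_mul, Matrix.zero_apply]
      rw [this, smul_zero, add_zero]
      rfl
    rw [hA1]
    exact ⟨1, 1, by simp⟩
  -- `c + c ^ q = 0`
  have hpres : ∀ x y : Fin n → F,
      Cfsg.hermForm n F q (((A : Matrix.SpecialLinearGroup (Fin n) F) :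
        Matrix (Fin n) (Fin n) F) *ᵥ x)
        (((A : Matrix.SpecialLinearGroup (Fin n) F) : Matrix (Fin n) (Fin n) F) *ᵥ y) =
      Cfsg.hermForm n F q x y := A.2
  obtain ⟨w, hvw⟩ := herm_nondeg hq v hv
  have hc : c ^ q = -c := by
    have h1 := hpres w w
    rw [hA, transvection_eq, add_mulVec, one_mulVec, smul_mulVec, rk_mulVec, smul_smul] at h1
    simp only [herm_add_left, herm_smul_left, herm_add_right hF, herm_smul_right hF, hv0,
      mul_zero, add_zero] at h1
    rw [herm_symm hF v w, mul_pow] at h1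
    have h2 : (c ^ q + c) * (Cfsg.hermForm n F q v w ^ q * Cfsg.hermForm n F q v w) = 0 := by
      have h3 := pow_q_q hF (Cfsg.hermForm n F q v w)
      linear_combination h1 - c ^ q * Cfsg.hermForm n F q v w ^ q * h3
    rcases mul_eq_zero.1 h2 with h3 | h3
    · exact eq_neg_of_add_eq_zero_left h3
    · exact absurd h3 (mul_ne_zero (pow_ne_zero _ hvw) hvw)
  obtain ⟨z, hvz, hzz⟩ := exists_unit_orth hF hn3 v hv hv0
  obtain ⟨lam, hlam⟩ := exists_trace_one hF
  obtain ⟨φ, hφ⟩ := exists_frobQ hF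
  have hnegpow : ∀ x : F, (-x) ^ q = -(x ^ q) := by
    intro x; rw [← hφ, ← hφ, map_neg]
  -- the parameters
  obtain ⟨a, ha⟩ : ∃ a : F, a = -(lam * c) := ⟨_, rfl⟩
  have haq : a ^ q = lam ^ q * c := by
    rw [ha, hnegpow, mul_pow, hc]; ring
  have hac : a ^ q - a = c := by
    rw [haq, ha]; linear_combination c * hlam
  obtain ⟨b, hb⟩ : ∃ b : F, b = -(lam * (a * a ^ q)) := ⟨_, rfl⟩
  have hb0 : b + b ^ q + a * a ^ q = 0 := by
    have h1 : b ^ q = -(lam ^ q * (a ^ q * a)) := by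
      rw [hb, hnegpow, mul_pow, mul_pow, pow_q_q hF]
    rw [h1, hb]; linear_combination (-(a * a ^ q)) * hlam
  have hb'0 : -lam + (-lam) ^ q + 1 * 1 ^ q = 0 := by
    rw [hnegpow, one_pow]; linear_combination -hlam
  -- the two elements
  obtain ⟨B, hB⟩ : ∃ B : ↥(Cfsg.SU n F q),
      ((B : Matrix.SpecialLinearGroup (Fin n) F) : Matrix (Fin n) (Fin n) F) = heis q v z a b :=
    ⟨⟨⟨heis q v z a b, det_heis hF hv0 hvz hzz a b⟩,
      fun x y => herm_preserved_of_hadj hF _ (hadj_heis_mul hF hv0 hvz hzz a b hb0) x y⟩, rfl⟩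
  obtain ⟨C, hC⟩ : ∃ C : ↥(Cfsg.SU n F q),
      ((C : Matrix.SpecialLinearGroup (Fin n) F) : Matrix (Fin n) (Fin n) F) =
        heis q v z 1 (-lam) :=
    ⟨⟨⟨heis q v z 1 (-lam), det_heis hF hv0 hvz hzz 1 (-lam)⟩,
      fun x y => herm_preserved_of_hadj hF _ (hadj_heis_mul hF hv0 hvz hzz 1 (-lam) hb'0) x y⟩,
      rfl⟩
  have hkey : B * C = A * C * B := by
    apply Subtype.ext
    apply Subtype.ext
    show ((B : Matrix.SpecialLinearGroup (Fin n) F) : Matrix (Fin n) (Fin n) F) *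
        ((C : Matrix.SpecialLinearGroup (Fin n) F) : Matrix (Fin n) (Fin n) F) =
      ((A : Matrix.SpecialLinearGroup (Fin n) F) : Matrix (Fin n) (Fin n) F) *
        ((C : Matrix.SpecialLinearGroup (Fin n) F) : Matrix (Fin n) (Fin n) F) *
        ((B : Matrix.SpecialLinearGroup (Fin n) F) : Matrix (Fin n) (Fin n) F)
    rw [hA, hB, hC, ← heis_zero v z hq c, heis_mul hF hv0 hvz hzz, heis_mul hF hv0 hvz hzz,
      heis_mul hF hv0 hvz hzz]
    have e1 : a + 1 = 0 + 1 + a := by ring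
    have e2 : b + -lam - a * 1 ^ q = c + -lam - 0 * 1 ^ q + b - (0 + 1) * a ^ q := by
      rw [one_pow]; linear_combination hac
    rw [e1, e2]
  refine ⟨B, C, ?_⟩
  rw [commutatorElement_def, hkey]
  group

end Cfsg.Agent.S0781
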