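import Cfsg.Statements.S0283
import Cfsg.Agent.Helper13.UnitSimple
import Cfsg.Agent.S0781

set_option autoImplicit false
open Cfsg

namespace Cfsg.Agent.S0283

/-- PSU_n(q) is simple for n at least 3 and (n, q) other than (3, 2). -/
theorem result {F : Type*} [Field F] [Fintype F] {q : ℕ} (hF : Fintype.card F = q ^ 2) (n : ℕ) (hn : 3 ≤ n) (h : ¬ (n = 3 ∧ q = 2)) : IsSimpleGroup (Cfsg.PSU n F q) := by
  have hq2 := Cfsg.Agent.Helper5.herm_two_le hF
  have hn' : 4 ≤ n ∨ (n = 3 ∧ 3 ≤ q) := by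
    by_cases h4 : 4 ≤ n
    · exact Or.inl h4
    · right
      have h3 : n = 3 := by omega
      refine ⟨h3, ?_⟩
      by_contra hq3
      exact h ⟨h3, by omega⟩
  apply Cfsg.Agent.Helper13.psu_simple_of_perfect hF hn h
  rw [eq_top_iff, ← Cfsg.Agent.Helper13.su_eq_utT hF n hn h, commutator_eq_closure]
  unfold Cfsg.Agent.Helper13.utT
  apply Subgroup.closure_mono
  rintro A ⟨v, c, hv, hA⟩
  exact Cfsg.Agent.S0781.result hF n hn' A v c hv hA

end Cfsg.Agent.S0283
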