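import Cfsg.Statements.S0292
import Cfsg.Agent.Helper45.CenterForms
import Cfsg.Agent.S0286

set_option autoImplicit false
open Cfsg

namespace Cfsg.Agent.S0292

/-- 2 |PΩ_{2m+1}(q)| = q^(m^2) prod_{i=1}^{m} (q^(2i) - 1), for q odd and m at least 3 (type B_m). -/
theorem result {F : Type*} [Field F] [Fintype F] {q : ℕ} (hF : Fintype.card F = q) (hodd : Odd q) (m : ℕ) (hm : 3 ≤ m) : 2 * Nat.card (Cfsg.POmega F (Cfsg.quadFormOdd m F)) = q ^ (m ^ 2) * ∏ i ∈ Finset.range m, (q ^ (2 * (i + 1)) - 1) := by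
  subst hF
  have h1 := Helper45.odd_card_pomega (F := F) m hm hodd
  have h2 := S0286.result (F := F) rfl hodd m
  rw [h2] at h1
  generalize Nat.card (Cfsg.POmega F (Cfsg.quadFormOdd m F)) = x at h1 ⊢
  generalize (∏ i ∈ Finset.range m, (Fintype.card F ^ (2 * (i + 1)) - 1)) = P at h1 ⊢
  generalize Fintype.card F ^ (m ^ 2) = A at h1 ⊢
  apply Nat.eq_of_mul_eq_mul_left (show 0 < 2 by norm_num)
  linarith

end Cfsg.Agent.S0292
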