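import Mathlib
import Cfsg.Statements.S0514
import Cfsg.Agent.Helper55.DihedralSylow
import Cfsg.Agent.Helper70.FrobComp2

set_option autoImplicit false
open Cfsg

namespace Cfsg.Agent.S0514

open Cfsg.Agent.Helper55

/-- An element of odd order whose square commutes with `y` commutes with `y`. -/
lemma commute_of_sq_commute {X : Type*} [Group X] (c y : X) (hodd : (orderOf c).Coprime 2)
    (h : (c * c) * y = y * (c * c)) : c * y = y * c := by
  obtain ⟨k, hk⟩ := hodd.odd_of_right
  have h1 : c = (c * c) ^ (k + 1) := by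
    rw [← pow_two, ← pow_mul]
    have : 2 * (k + 1) = orderOf c + 1 := by omega
    rw [this, pow_succ, pow_orderOf_eq_one, one_mul]
  have h2 : Commute (c * c) y := h
  have h3 : Commute ((c * c) ^ (k + 1)) y := h2.pow_left _
  rw [← h1] at h3
  exact h3

/-- In a finite group whose Sylow 2-subgroups are dihedral of order at least 4, the centralizer of any involution has a
normal subgroup of odd order whose index in the centralizer is a power of 2. -/
theorem result {X : Type*} [Group X] [Finite X]
    (S : Sylow 2 X) (n : ℕ) (hn : 2 ≤ n) (hS : Nonempty ((S : Subgroup X) ≃* DihedralGroup n)) (t : X)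
    (ht : orderOf t = 2) :
    ∃ N : Subgroup (Subgroup.centralizer ({t} : Set X)), N.Normal ∧ Odd (Nat.card N) ∧ ∃ k : ℕ, N.index = 2 ^ k := by
  have hfact : Fact (Nat.Prime 2) := ⟨Nat.prime_two⟩
  obtain ⟨e⟩ := hS
  suffices h : Cfsg.Agent.Helper70.HasNPC 2 ↥(Subgroup.centralizer ({t} : Set X)) by
    obtain ⟨K, hKn, hKc, k, hk⟩ := h
    exact ⟨K, hKn, hKc.odd_of_right, k, hk⟩
  set C := Subgroup.centralizer ({t} : Set X) with hC
  have hcomm : ∀ c ∈ C, c * t = t * c := fun c hc =>
    ((Subgroup.mem_centralizer_iff.1 hc) t rfl).symm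
  have htC : t ∈ C := Subgroup.mem_centralizer_iff.2 (fun h hh => by
    rw [Set.mem_singleton_iff] at hh; rw [hh])
  have htt : t * t = 1 := by rw [← pow_two, ← ht]; exact pow_orderOf_eq_one t
  have ht1 : t ≠ 1 := by
    intro h; rw [h, orderOf_one] at ht; omega
  -- a Sylow 2-subgroup `T` of `C` containing `t`
  have hpz : IsPGroup 2 (Subgroup.zpowers (⟨t, htC⟩ : ↥C)) :=
    IsPGroup.of_card (n := 1) (by rw [Nat.card_zpowers, Subgroup.orderOf_mk, ht, pow_one])
  obtain ⟨T, hT⟩ := hpz.exists_le_sylow
  have htT : (⟨t, htC⟩ : ↥C) ∈ (T : Subgroup ↥C) := hT (Subgroup.mem_zpowers _)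
  -- a Sylow 2-subgroup of `X` containing `T`
  obtain ⟨S', hS'⟩ := (T.isPGroup'.map C.subtype).exists_le_sylow
  obtain ⟨g, rfl⟩ := MulAction.exists_smul_eq X S S'
  let e' : ↥((g • S : Sylow 2 X) : Subgroup X) ≃* DihedralGroup n :=
    (Sylow.equivSMul S g).symm.trans e
  have hTS : ∀ y : ↥C, y ∈ (T : Subgroup ↥C) → (y : X) ∈ ((g • S : Sylow 2 X) : Subgroup X) :=
    fun y hy => hS' ⟨y, hy, rfl⟩
  have htS : t ∈ ((g • S : Sylow 2 X) : Subgroup X) := hTS _ htT
  rcases mem_cases e' htS with ⟨j₀, hj₀⟩ | ⟨i₀, hi₀⟩
  · -- `t` is the central involution of the Sylow subgroup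
    have hjj : j₀ + j₀ = 0 := by
      have h1 : dRot e' (j₀ + j₀) = dRot e' 0 := by
        rw [← dRot_mul_dRot, ← hj₀, htt, dRot_zero]
      exact dRot_injective e' h1
    have hcen : ∀ x ∈ ((g • S : Sylow 2 X) : Subgroup X), x * t = t * x := by
      intro x hx
      rcases mem_cases e' hx with ⟨j, rfl⟩ | ⟨i, rfl⟩
      · rw [hj₀, dRot_mul_dRot, dRot_mul_dRot, add_comm]
      · rw [hj₀, dRef_mul_dRot, dRot_mul_dRef]
        congr 1
        linear_combination hjj
    have hS'C : ((g • S : Sylow 2 X) : Subgroup X) ≤ C := by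
      intro x hx
      rw [hC, Subgroup.mem_centralizer_iff]
      intro h hh
      rw [Set.mem_singleton_iff] at hh
      rw [hh]
      exact (hcen x hx).symm
    have hTeq : (T : Subgroup ↥C) = ((g • S : Sylow 2 X) : Subgroup X).subgroupOf C := by
      symm
      apply T.is_maximal' (g • S : Sylow 2 X).isPGroup'.comap_subtype
      intro y hy
      show ((y : ↥C) : X) ∈ ((g • S : Sylow 2 X) : Subgroup X)
      exact hTS y hy
    let eC : ↥(T : Subgroup ↥C) ≃* DihedralGroup n :=
      (MulEquiv.subgroupCongr hTeq).trans ((Subgroup.subgroupOfEquivOfLe hS'C).trans e')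
    have hcoeR : ∀ j, ((dRot eC j : ↥C) : X) = dRot e' j := fun j => rfl
    have hcoeF : ∀ i, ((dRef eC i : ↥C) : X) = dRef e' i := fun i => rfl
    apply Cfsg.Agent.Helper70.hasNormalPComplement_iff_hasNPC.mp
    apply npc_of_no_fusion T eC
    intro i c j h
    have h' : (c : X) * dRef e' i * (c : X)⁻¹ = dRot e' j := by
      have h1 := congrArg (Subtype.val) h
      rw [hcoeR] at h1
      rw [← h1, ← hcoeF]
      rfl
    have ho : orderOf (dRot e' j) = 2 := by
      rw [← h']
      have : orderOf ((c : X) * dRef e' i * (c : X)⁻¹) = orderOf (dRef e' i) :=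
        MulEquiv.orderOf_eq (MulAut.conj (c : X)) _
      rw [this, orderOf_dRef]
    have h2 : dRot e' j = t := by
      rw [hj₀]
      exact dRot_unique_of_orderOf e' ho (by rw [← hj₀]; exact ht)
    rw [h2] at h'
    have h3 : dRef e' i = t := by
      have e1 : dRef e' i = (c : X)⁻¹ * ((c : X) * dRef e' i * (c : X)⁻¹) * (c : X) := by group
      rw [e1, h', mul_assoc, ← hcomm c c.2, ← mul_assoc, inv_mul_cancel, one_mul]
    rw [hj₀] at h3
    exact dRef_ne_dRot e' i j₀ h3
  · -- `t` is a reflection: its centralizer in the Sylow subgroup is a four-group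
    have hstruct : ∀ y ∈ ((g • S : Sylow 2 X) : Subgroup X), y * t = t * y →
        y = 1 ∨ y = t ∨ ∃ d : ZMod n, d ≠ 0 ∧ d + d = 0 ∧ (y = dRot e' d ∨ y = t * dRot e' d) := by
      intro y hy hyt
      rcases mem_cases e' hy with ⟨j, rfl⟩ | ⟨i, rfl⟩
      · rw [hi₀, dRot_mul_dRef, dRef_mul_dRot] at hyt
        have h1 := dRef_injective e' hyt
        have hjj : j + j = 0 := by linear_combination -h1
        by_cases hj : j = 0
        · left; rw [hj, dRot_zero]
        · right; right
          exact ⟨j, hj, hjj, Or.inl rfl⟩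
      · rw [hi₀, dRef_mul_dRef, dRef_mul_dRef] at hyt
        have h1 := dRot_injective e' hyt
        have hdd : (i - i₀) + (i - i₀) = 0 := by linear_combination -h1
        have hy' : dRef e' i = t * dRot e' (i - i₀) := by
          rw [hi₀, dRef_mul_dRot]; congr 1; ring
        by_cases hd : i - i₀ = 0
        · right; left
          rw [hy', hd, dRot_zero, mul_one]
        · right; right
          exact ⟨i - i₀, hd, hdd, Or.inr hy'⟩
    have hzuniq : ∀ d d' : ZMod n, d ≠ 0 → d + d = 0 → d' ≠ 0 → d' + d' = 0 →
        dRot e' d = dRot e' d' := by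
      intro d d' hd hdd hd' hdd'
      have ho : ∀ a : ZMod n, a ≠ 0 → a + a = 0 → orderOf (dRot e' a) = 2 := by
        intro a ha haa
        apply orderOf_eq_prime
        · rw [pow_two, dRot_mul_dRot, haa, dRot_zero]
        · intro h
          rw [← dRot_zero e'] at h
          exact ha (dRot_injective e' h)
      exact dRot_unique_of_orderOf e' (ho d hd hdd) (ho d' hd' hdd')
    have claim : ∀ c : X, c ∈ C → (orderOf c).Coprime 2 →
        ∀ y ∈ ((g • S : Sylow 2 X) : Subgroup X), y * t = t * y →
        c * y * c⁻¹ ∈ ((g • S : Sylow 2 X) : Subgroup X) →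
        (c * y * c⁻¹) * t = t * (c * y * c⁻¹) → c * y = y * c := by
      intro c hc hodd y hy hyt hy' hyt'
      have hct := hcomm c hc
      rcases hstruct y hy hyt with rfl | rfl | ⟨d, hd, hdd, hyd⟩
      · rw [mul_one, one_mul]
      · exact hct
      · have hback : ∀ w : X, c * y * c⁻¹ = w → y = c⁻¹ * w * c := by
          intro w hw; rw [← hw]; group
        rcases hstruct _ hy' hyt' with h1 | h1 | ⟨d', hd', hdd', hyd'⟩
        · have := hback 1 h1
          rw [this]; group
        · have := hback t h1
          have e1 : c⁻¹ * t * c = t := by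
            rw [mul_assoc, ← hct, ← mul_assoc, inv_mul_cancel, one_mul]
          rw [this, e1]
          exact hct
        · have hz : dRot e' d' = dRot e' d := hzuniq d' d hd' hdd' hd hdd
          rw [hz] at hyd'
          set z := dRot e' d with hzdef
          -- `c * z * c⁻¹` is `z` or `t * z`
          have hcz : c * z * c⁻¹ = z ∨ c * z * c⁻¹ = t * z := by
            rcases hyd with hy1 | hy1
            · rw [hy1] at hyd'
              exact hyd'
            · have e1 : c * z * c⁻¹ = t * (c * y * c⁻¹) := by
                rw [hy1]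
                have : c * (t * z) * c⁻¹ = (c * t) * z * c⁻¹ := by group
                rw [this, hct]
                have : t * (t * c * z * c⁻¹) = (t * t) * (c * z * c⁻¹) := by group
                rw [this, htt, one_mul]
              rcases hyd' with h2 | h2
              · right; rw [e1, h2]
              · left; rw [e1, h2, ← mul_assoc, htt, one_mul]
          have hczc : c * z = z * c := by
            rcases hcz with h2 | h2
            · have : c * z = (c * z * c⁻¹) * c := by group
              rw [this, h2]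
            · apply commute_of_sq_commute c z hodd
              have e2 : c * c * z = (c * (c * z * c⁻¹) * c⁻¹) * (c * c) := by group
              rw [e2, h2]
              have e3 : c * (t * z) * c⁻¹ = (c * t) * z * c⁻¹ := by group
              rw [e3, hct]
              have e4 : t * c * z * c⁻¹ = t * (c * z * c⁻¹) := by group
              have e5 : t * (t * z) = z := by rw [← mul_assoc, htt, one_mul]
              rw [e4, h2, e5]
          rcases hyd with hy1 | hy1
          · rw [hy1]; exact hczc
          · rw [hy1, ← mul_assoc, hct, mul_assoc, hczc, mul_assoc]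
    apply Cfsg.Agent.Helper70.hasNPC_iff_frobCond.mpr
    apply Cfsg.Agent.Helper70.frobCond_of_sylow T
    intro Q hQT c hcN hcodd
    rw [Subgroup.mem_centralizer_iff]
    intro x hx
    have hxT := hQT hx
    have hx' : c * x * c⁻¹ ∈ Q := (Subgroup.mem_normalizer_iff.1 hcN x).1 hx
    have hxT' := hQT hx'
    have key := claim (c : X) c.2 (by rw [Subgroup.orderOf_coe]; exact hcodd) (x : X)
      (hTS x hxT) (hcomm x x.2) (hTS _ hxT') (hcomm _ (c * x * c⁻¹).2)
    exact Subtype.ext key.symm

end Cfsg.Agent.S0514
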