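import Cfsg.Statements.S3761
import Cfsg.Agent.Helper29.CycSelfCent
import Cfsg.Agent.Helper53.TwoGroup
import Cfsg.Agent.Helper73.Taussky

set_option autoImplicit false
open Cfsg

namespace Cfsg.Agent.S3761

/-- Let G be a finite non-abelian p-group with a cyclic normal subgroup U of order p^n such that C_G(U) = U. Then either p = 2 and G is dihedral, generalized quaternion or semidihedral of order 2^(n+1); or, writing U₁ for the subgroup generated by the p-th powers of elements of U and M = C_G(U₁), the subgroup U has index p in M and the subgroup Ω₁(M) generated by the elements of M of order dividing p is elementary abelian of order p² and characteristic in G. -/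
theorem result {G : Type*} [Group G] [Finite G] {p : ℕ} [Fact p.Prime] (hG : IsPGroup p G) (hna : ¬ IsMulCommutative G) (U : Subgroup G) [U.Normal] (hU : IsCyclic U) (n : ℕ) (hUn : Nat.card U = p ^ n) (hC : Subgroup.centralizer (U : Set G) = U) : (p = 2 ∧ Nat.card G = 2 ^ (n + 1) ∧ ((∃ m : ℕ, Nonempty (G ≃* DihedralGroup m)) ∨ (∃ m : ℕ, Nonempty (G ≃* QuaternionGroup m)) ∨ Cfsg.IsQuasiDihedral G)) ∨ (U.relIndex (Subgroup.centralizer (Cfsg.powerClosure p 1 U : Set G)) = p ∧ Cfsg.IsElementaryAbelian p (Cfsg.omegaOne p (Subgroup.centralizer (Cfsg.powerClosure p 1 U : Set G))) ∧ Nat.card ↥(Cfsg.omegaOne p (Subgroup.centralizer (Cfsg.powerClosure p 1 U : Set G))) = p ^ 2 ∧ (Cfsg.omegaOne p (Subgroup.centralizer (Cfsg.powerClosure p 1 U : Set G))).Characteristic) := by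
  have hp : p.Prime := Fact.out
  obtain ⟨u, hu⟩ : ∃ u : G, Subgroup.zpowers u = U := by
    obtain ⟨g, hg⟩ := hU.exists_generator
    refine ⟨g, le_antisymm ?_ ?_⟩
    · rw [Subgroup.zpowers_le]; exact g.2
    · intro x hx
      obtain ⟨k, hk⟩ := Subgroup.mem_zpowers_iff.mp (hg ⟨x, hx⟩)
      exact Subgroup.mem_zpowers_iff.mpr ⟨k, by simpa using congrArg Subtype.val hk⟩
  have hna' : ∃ x y : G, x * y ≠ y * x := by
    by_contra hcon
    push Not at hcon
    exact hna ⟨⟨hcon⟩⟩
  have hcent : ∀ g : G, g * u = u * g → g ∈ Subgroup.zpowers u := by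
    intro g hg
    rw [hu, ← hC, Subgroup.mem_centralizer_iff]
    intro x hx
    rw [← hu] at hx
    obtain ⟨k, rfl⟩ := Subgroup.mem_zpowers_iff.mp hx
    have : Commute g u := hg
    exact (this.zpow_right k).eq.symm
  have hn : 1 ≤ n := by
    by_contra hn0
    have hn0' : n = 0 := by omega
    subst hn0'
    rw [pow_zero, ← hu, Nat.card_zpowers, orderOf_eq_one_iff] at hUn
    obtain ⟨x, y, hxy⟩ := hna'
    apply hxy
    have hx := hcent x (by rw [hUn, mul_one, one_mul])
    have hy := hcent y (by rw [hUn, mul_one, one_mul])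
    rw [hUn, Subgroup.zpowers_one_eq_bot, Subgroup.mem_bot] at hx hy
    rw [hx, hy]
  obtain ⟨m, rfl⟩ : ∃ m, n = m + 1 := ⟨n - 1, by omega⟩
  have hcsc : Cfsg.Agent.Helper29.CSC p G u m := by
    refine ⟨hG, ?_, by rw [hu]; infer_instance, hcent⟩
    rw [← Nat.card_zpowers, hu, hUn]
  rcases hcsc.main hna' with ⟨hp2, hcard, a, b, ha, hba, hrel⟩ | halt
  · left
    subst hp2
    refine ⟨rfl, hcard, ?_⟩
    rcases hrel with ⟨h1, h2⟩ | ⟨h1, h2⟩ | ⟨h0, h1, h2⟩
    · left
      have : NeZero (2 ^ (m + 1)) := ⟨by positivity⟩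
      exact ⟨2 ^ (m + 1), Cfsg.Agent.Helper53.nonempty_mulEquiv_dihedralGroup_of (2 ^ (m + 1)) a b
        (by rw [hcard]; ring) ha (by rw [← sq]; exact h1) h2 hba⟩
    · right; left
      have : NeZero (2 ^ m) := ⟨by positivity⟩
      exact ⟨2 ^ m, Cfsg.Agent.Helper73.nonempty_mulEquiv_quaternionGroup (2 ^ m) a b
        (by rw [hcard]; ring) (by rw [ha]; ring) (by rw [← sq]; exact h1) h2 hba⟩
    · right; right
      refine ⟨m + 1, by omega, hcard, a, b, ha, ?_, ?_⟩
      · apply orderOf_eq_prime h1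
        intro hb1
        apply hba
        rw [hb1]
        exact Subgroup.one_mem _
      · rw [h2]; rfl
  · right
    obtain ⟨E, hset, hcard, hcomm, hnc, hchar, hrel⟩ := halt
    rw [hu] at hset hrel
    have hΩ : Cfsg.omegaOne p (Subgroup.centralizer (Cfsg.powerClosure p 1 U : Set G)) = E := by
      unfold Cfsg.omegaOne
      have h1 : {x : G | x ∈ Subgroup.centralizer (Cfsg.powerClosure p 1 U : Set G) ∧ x ^ p = 1} =
          (E : Set G) := hset.symm
      rw [h1]
      exact Subgroup.closure_eq E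
    rw [hΩ]
    refine ⟨hrel, ⟨hcomm, ?_⟩, by rw [hcard]; ring, hchar⟩
    intro a ha
    have h1 : a ∈ (E : Set G) := ha
    rw [hset] at h1
    exact h1.2

end Cfsg.Agent.S3761
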