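import Cfsg.Statements.S1500
import Cfsg.Agent.Helper25.DadeCount

set_option autoImplicit false
set_option linter.style.haveILetI false
set_option linter.unusedVariables false
set_option maxHeartbeats 1000000
open Cfsg
open Cfsg.Agent.Helper25

namespace Cfsg.Agent.S1500

/-- Under the Dade hypothesis for (A, L, H), let α be a class function of L vanishing outside A. Then (i) for every class function β of L vanishing outside A, the inner product over G of the Dade images of α and β equals the inner product of α and β over L; and (ii) for every class function χ of G and every function ψ on L whose value at each a ∈ A is the average of χ over the coset a·H(a), the inner product over G of the Dade image of α with χ equals the inner product over L of α with ψ. -/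
theorem result {G : Type*} [Group G] [Fintype G] (A : Set G) (L : Subgroup G) [Fintype L] (H : G → Subgroup G) (hD : Cfsg.DadeHypothesis A L H) (α : L → ℂ) (hα : Cfsg.IsClassFunction L α) (hαA : ∀ x : L, (x : G) ∉ A → α x = 0) : (∀ β : L → ℂ, Cfsg.IsClassFunction L β → (∀ x : L, (x : G) ∉ A → β x = 0) → Cfsg.classInner (Cfsg.dadeIsometry A L H α) (Cfsg.dadeIsometry A L H β) = Cfsg.classInner α β) ∧ (∀ (χ : G → ℂ) (ψ : L → ℂ), Cfsg.IsClassFunction G χ → (∀ a : L, (a : G) ∈ A → ψ a = (Nat.card (H a) : ℂ)⁻¹ * ∑ᶠ u ∈ (H a : Set G), χ (a * u)) → Cfsg.classInner (Cfsg.dadeIsometry A L H α) χ = Cfsg.classInner α ψ) := by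
  classical
  have hcG : (Nat.card G : ℂ) ≠ 0 := Nat.cast_ne_zero.mpr Nat.card_pos.ne'
  have hcL : (Nat.card L : ℂ) ≠ 0 := Nat.cast_ne_zero.mpr Nat.card_pos.ne'
  have part2 : ∀ (α : L → ℂ), IsClassFunction L α → (∀ x : L, (x : G) ∉ A → α x = 0) →
      ∀ (χ : G → ℂ) (ψ : L → ℂ), Cfsg.IsClassFunction G χ →
      (∀ a : L, (a : G) ∈ A → ψ a = (Nat.card (H a) : ℂ)⁻¹ * ∑ᶠ u ∈ (H a : Set G), χ (a * u)) →
      Cfsg.classInner (Cfsg.dadeIsometry A L H α) χ = Cfsg.classInner α ψ := by
    intro α hα hαA χ ψ hχ hψ
    have hτ := dadeIsometry_isClassFunction hD hα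
    unfold classInner
    set F : G → ℂ := fun g => dadeIsometry A L H α g * (starRingEnd ℂ) (χ g) with hF
    have hFc : ∀ g h : G, F (h * g * h⁻¹) = F g := by
      intro g h
      simp only [hF]
      rw [hτ g h, hχ g h]
    have h1 := dade_sum_supp (K := ℂ) hD F hFc
    have h2 : ∑ g ∈ Finset.univ.filter
        (fun g : G => ∃ a ∈ A, ∃ u ∈ H a, ∃ x : G, x * g * x⁻¹ = a * u), F g = ∑ g : G, F g := by
      rw [Finset.sum_filter]
      refine Finset.sum_congr rfl fun g _ => ?_
      split_ifs with h
      · rfl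
      · have : dadeIsometry A L H α g = 0 := by
          refine dadeIsometry_eq_zero ?_
          rintro ⟨a, ha, x, u, hu, hx⟩
          exact h ⟨a, ha, u, hu, x, hx⟩
        simp [hF, this]
    have h3 : ∑ a ∈ (Finset.univ : Finset L).filter (fun a : L => (a : G) ∈ A),
          (Nat.card (H a) : ℂ)⁻¹ * ∑ u ∈ Finset.univ.filter (fun u : G => u ∈ H a), F (a * u)
        = ∑ a : L, α a * (starRingEnd ℂ) (ψ a) := by
      rw [Finset.sum_filter]
      refine Finset.sum_congr rfl fun a _ => ?_
      split_ifs with ha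
      · have e : ∑ᶠ u ∈ (H a : Set G), χ (a * u)
            = ∑ u ∈ Finset.univ.filter (fun u : G => u ∈ H a), χ (a * u) :=
          finsum_mem_eq_sum_univ_filter _ _
        rw [hψ a ha, e]
        have h4 : ∀ u ∈ Finset.univ.filter (fun u : G => u ∈ H a),
            F (a * u) = α a * (starRingEnd ℂ) (χ (a * u)) := by
          intro u hu
          simp only [Finset.mem_filter, Finset.mem_univ, true_and] at hu
          simp only [hF]
          rw [dadeIsometry_eq hD hα ha hu (x := 1) (by simp)]
        rw [Finset.sum_congr rfl h4, ← Finset.mul_sum, map_mul, map_sum, map_inv₀,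
          Complex.conj_natCast]
        ring
      · rw [hαA a ha, zero_mul]
    rw [h2, h3] at h1
    rw [inv_mul_eq_div, inv_mul_eq_div, div_eq_div_iff hcG hcL]
    linear_combination h1
  refine ⟨?_, part2 α hα hαA⟩
  intro β hβ hβA
  refine part2 α hα hαA (dadeIsometry A L H β) β (dadeIsometry_isClassFunction hD hβ) ?_
  intro a ha
  have e : ∑ᶠ u ∈ (H a : Set G), dadeIsometry A L H β (a * u)
      = ∑ u ∈ Finset.univ.filter (fun u : G => u ∈ H a), dadeIsometry A L H β (a * u) :=
    finsum_mem_eq_sum_univ_filter _ _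
  have h4 : ∀ u ∈ Finset.univ.filter (fun u : G => u ∈ H a),
      dadeIsometry A L H β (a * u) = β a := by
    intro u hu
    simp only [Finset.mem_filter, Finset.mem_univ, true_and] at hu
    rw [dadeIsometry_eq hD hβ ha hu (x := 1) (by simp)]
  have hcH : (Nat.card (H a) : ℂ) ≠ 0 := Nat.cast_ne_zero.mpr Nat.card_pos.ne'
  rw [e, Finset.sum_congr rfl h4, Finset.sum_const, card_filter_mem_subgroup, nsmul_eq_mul]
  field_simp

end Cfsg.Agent.S1500
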