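import Cfsg.Statements.S2411
import Cfsg.Agent.Helper60.RUGen2Main

set_option autoImplicit false
open Cfsg

namespace Cfsg.Agent.S2411

/-- The projective symplectic group `PSp_{2m}(q)` with `m ≥ 2` (and `q > 2` if `m = 2`) is generated by two of its elements. -/
theorem result {F : Type*} [Field F] [Fintype F] (m : ℕ) (hm : 2 ≤ m) (hF : m = 2 → 2 < Fintype.card F) :
    ∃ a b : Cfsg.PSp m F, Subgroup.closure ({a, b} : Set (Cfsg.PSp m F)) = ⊤ := by
  obtain ⟨N, rfl⟩ : ∃ N, m = N + 1 := ⟨m - 1, by omega⟩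
  obtain ⟨x, y, hxy⟩ := Cfsg.Agent.Helper60.RU.sp_two_gen (F := F) N (by omega)
  refine ⟨QuotientGroup.mk x, QuotientGroup.mk y, ?_⟩
  have h1 : Subgroup.map (QuotientGroup.mk' (Subgroup.center (Matrix.symplecticGroup (Fin (N + 1)) F)))
      (Subgroup.closure ({x, y} : Set (Matrix.symplecticGroup (Fin (N + 1)) F))) = ⊤ := by
    rw [hxy]
    exact Subgroup.map_top_of_surjective _ (QuotientGroup.mk'_surjective _)
  rw [MonoidHom.map_closure, Set.image_pair] at h1
  exact h1

end Cfsg.Agent.S2411
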