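-- Statement S0721: a minimal normal subgroup of a finite group is a power of a simple group.
import Cfsg.Statements.S0721
import Mathlib

set_option autoImplicit false
open Cfsg

namespace Cfsg.Agent.S0721

universe u

/-- `(ι → T) × T ≃* (Option ι → T)` -/
def optEquiv (ι : Type) (T : Type u) [Group T] : ((ι → T) × T) ≃* (Option ι → T) where
  toFun p := fun o => o.elim p.2 p.1
  invFun f := (fun i => f (some i), f none)
  left_inv p := rfl
  right_inv f := by funext o; cases o <;> rfl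
  map_mul' p q := by funext o; cases o <;> rfl

section
variable {H : Type u} [Group H]

/-- `M` is contained in `N` and normalised by `N` -/
def NN (N M : Subgroup H) : Prop := M ≤ N ∧ ∀ n ∈ N, ∀ x ∈ M, n * x * n⁻¹ ∈ M

theorem NN_conj (N : Subgroup H) [hNn : N.Normal] {M : Subgroup H} (hM : NN N M) (h : H) :
    NN N (M.map (MulAut.conj h).toMonoidHom) := by
  constructor
  · rintro _ ⟨x, hx, rfl⟩
    exact hNn.conj_mem x (hM.1 hx) h
  · rintro n hn _ ⟨x, hx, rfl⟩
    refine ⟨(h⁻¹ * n * h) * x * (h⁻¹ * n * h)⁻¹, hM.2 _ ?_ x hx, ?_⟩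
    · have := hNn.conj_mem n hn h⁻¹
      simpa using this
    · change h * ((h⁻¹ * n * h) * x * (h⁻¹ * n * h)⁻¹) * h⁻¹ = n * (h * x * h⁻¹) * n⁻¹
      group

theorem NN_inf {N M M' : Subgroup H} (hM : NN N M) (hM' : NN N M') : NN N (M ⊓ M') :=
  ⟨inf_le_left.trans hM.1, fun n hn x hx => ⟨hM.2 n hn x hx.1, hM'.2 n hn x hx.2⟩⟩

theorem NN_sup {N M M' : Subgroup H} (hM : NN N M) (hM' : NN N M') : NN N (M ⊔ M') := by
  refine ⟨sup_le hM.1 hM'.1, fun n hn x hx => ?_⟩
  have h1 : (MulAut.conj n).toMonoidHom x ∈ (M ⊔ M').map (MulAut.conj n).toMonoidHom :=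
    Subgroup.mem_map_of_mem _ hx
  rw [Subgroup.map_sup] at h1
  have h2 : M.map (MulAut.conj n).toMonoidHom ≤ M := by
    rintro _ ⟨y, hy, rfl⟩; exact hM.2 n hn y hy
  have h3 : M'.map (MulAut.conj n).toMonoidHom ≤ M' := by
    rintro _ ⟨y, hy, rfl⟩; exact hM'.2 n hn y hy
  exact (sup_le_sup h2 h3) h1

theorem exists_min (N : Subgroup H) (hN : N ≠ ⊥) :
    ∃ T₀ : Subgroup H, NN N T₀ ∧ T₀ ≠ ⊥ ∧
      ∀ M, NN N M → M ≠ ⊥ → Nat.card T₀ ≤ Nat.card M := by
  classical
  have hex : ∃ k, ∃ M : Subgroup H, NN N M ∧ M ≠ ⊥ ∧ Nat.card M = k :=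
    ⟨Nat.card N, N, ⟨le_rfl, fun n hn x hx => N.mul_mem (N.mul_mem hn hx) (N.inv_mem hn)⟩,
      hN, rfl⟩
  obtain ⟨T₀, h1, h2, h3⟩ := Nat.find_spec hex
  refine ⟨T₀, h1, h2, fun M hM hM0 => ?_⟩
  rw [h3]
  exact Nat.find_min' hex ⟨M, hM, hM0, rfl⟩

theorem inf_eq_bot_of_min [Finite H] {N T₀ : Subgroup H}
    (hmin : ∀ M, NN N M → M ≠ ⊥ → Nat.card T₀ ≤ Nat.card M) {M T' : Subgroup H}
    (hM : NN N M) (hT' : NN N T') (hcard : Nat.card T' = Nat.card T₀) (hnle : ¬ T' ≤ M) :
    M ⊓ T' = ⊥ := by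
  by_contra hne
  have h1 := hmin _ (NN_inf hM hT') hne
  have h2 : M ⊓ T' = T' := by
    apply Subgroup.eq_of_le_of_card_ge inf_le_right
    rw [hcard]; exact h1
  exact hnle (h2 ▸ inf_le_left)

theorem sup_equiv_prod {N M T' : Subgroup H} (hM : NN N M) (hT' : NN N T')
    (hdisj : M ⊓ T' = ⊥) : Nonempty ((M ⊔ T' : Subgroup H) ≃* M × T') := by
  have hcomm : ∀ (x : M) (y : T'), Commute (M.subtype x) (T'.subtype y) := by
    intro x y
    have h1 : (x : H) * y * (x : H)⁻¹ * (y : H)⁻¹ ∈ M ⊓ T' := by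
      constructor
      · have : (y : H) * (x : H)⁻¹ * (y : H)⁻¹ ∈ M := hM.2 y (hT'.1 y.2) _ (M.inv_mem x.2)
        have e : (x : H) * y * (x : H)⁻¹ * (y : H)⁻¹ =
            x * ((y : H) * (x : H)⁻¹ * (y : H)⁻¹) := by group
        rw [e]; exact M.mul_mem x.2 this
      · have : (x : H) * y * (x : H)⁻¹ ∈ T' := hT'.2 x (hM.1 x.2) _ y.2
        exact T'.mul_mem this (T'.inv_mem y.2)
    rw [hdisj, Subgroup.mem_bot] at h1
    change (x : H) * y = y * x
    have h2 := congrArg (fun z => z * (y : H) * (x : H)) h1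
    simp only [one_mul] at h2
    rw [← h2]; group
  have hinj : Function.Injective (MonoidHom.noncommCoprod M.subtype T'.subtype hcomm) := by
    rw [MonoidHom.noncommCoprod_injective]
    refine ⟨M.subtype_injective, T'.subtype_injective, ?_⟩
    rw [Subgroup.range_subtype, Subgroup.range_subtype, disjoint_iff, hdisj]
  have hrange : (MonoidHom.noncommCoprod M.subtype T'.subtype hcomm).range = M ⊔ T' := by
    rw [MonoidHom.noncommCoprod_range, Subgroup.range_subtype, Subgroup.range_subtype]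
  exact ⟨((MonoidHom.ofInjective hinj).trans (MulEquiv.subgroupCongr hrange)).symm⟩

theorem build [Finite H] (N : Subgroup H) [N.Normal]
    (hmin : ∀ M : Subgroup H, M.Normal → M ≤ N → M = ⊥ ∨ M = N) (T₀ : Subgroup H)
    (hT₀ : NN N T₀) (hT₀ne : T₀ ≠ ⊥)
    (hT₀min : ∀ M, NN N M → M ≠ ⊥ → Nat.card T₀ ≤ Nat.card M) :
    ∀ (k : ℕ) (M : Subgroup H), NN N M →
      (∃ (ι : Type) (_ : Fintype ι), Nonempty (M ≃* (ι → T₀))) →
      Nat.card N - Nat.card M = k → ∃ (ι : Type) (_ : Fintype ι), Nonempty (N ≃* (ι → T₀)) := by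
  intro k
  induction k using Nat.strong_induction_on with
  | _ k ih =>
    intro M hM hP hk
    by_cases hall : ∀ h : H, T₀.map (MulAut.conj h).toMonoidHom ≤ M
    · have hNM : N ≤ M := by
        have hnc : Subgroup.normalClosure (T₀ : Set H) ≤ M := by
          rw [Subgroup.normalClosure, Subgroup.closure_le]
          intro a ha
          rw [Group.mem_conjugatesOfSet_iff] at ha
          obtain ⟨b, hb, hconj⟩ := ha
          rw [isConj_iff] at hconj
          obtain ⟨c, rfl⟩ := hconj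
          exact hall c ⟨b, hb, rfl⟩
        have h1 := hmin _ Subgroup.normalClosure_normal (hnc.trans hM.1)
        rcases h1 with h1 | h1
        · exfalso; apply hT₀ne; rw [eq_bot_iff, ← h1]; exact Subgroup.le_normalClosure
        · rw [← h1]; exact hnc
      have hMN : M = N := le_antisymm hM.1 hNM
      subst hMN
      exact hP
    · push Not at hall
      obtain ⟨h, hh⟩ := hall
      have hT'NN : NN N (T₀.map (MulAut.conj h).toMonoidHom) := NN_conj N hT₀ h
      have hT'card : Nat.card (T₀.map (MulAut.conj h).toMonoidHom) = Nat.card T₀ :=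
        Subgroup.card_map_of_injective (MulAut.conj h).injective
      have hdisj := inf_eq_bot_of_min hT₀min hM hT'NN hT'card hh
      obtain ⟨e⟩ := sup_equiv_prod hM hT'NN hdisj
      obtain ⟨ι, hι, ⟨eM⟩⟩ := hP
      have eT : (T₀.map (MulAut.conj h).toMonoidHom) ≃* T₀ :=
        (T₀.equivMapOfInjective _ (MulAut.conj h).injective).symm
      have hlt : Nat.card M < Nat.card (M ⊔ T₀.map (MulAut.conj h).toMonoidHom : Subgroup H) := by
        by_contra hle
        push Not at hle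
        have := Subgroup.eq_of_le_of_card_ge
          (le_sup_left : M ≤ M ⊔ T₀.map (MulAut.conj h).toMonoidHom) hle
        exact hh (this ▸ le_sup_right)
      have hle : Nat.card (M ⊔ T₀.map (MulAut.conj h).toMonoidHom : Subgroup H) ≤ Nat.card N :=
        Subgroup.card_le_of_le (sup_le hM.1 hT'NN.1)
      exact ih (Nat.card N - Nat.card (M ⊔ T₀.map (MulAut.conj h).toMonoidHom : Subgroup H))
        (by omega) (M ⊔ T₀.map (MulAut.conj h).toMonoidHom) (NN_sup hM hT'NN)
        ⟨Option ι, inferInstance,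
          ⟨e.trans ((MulEquiv.prodCongr eM eT).trans (optEquiv ι T₀))⟩⟩ rfl

theorem simple_T₀ [Finite H] (N : Subgroup H) (T₀ : Subgroup H) (hT₀ne : T₀ ≠ ⊥)
    (hT₀min : ∀ M, NN N M → M ≠ ⊥ → Nat.card T₀ ≤ Nat.card M) {ι : Type} [Fintype ι] (i₀ : ι)
    (e : N ≃* (ι → T₀)) : IsSimpleGroup T₀ := by
  classical
  have : Nontrivial T₀ := (Subgroup.nontrivial_iff_ne_bot T₀).mpr hT₀ne
  refine ⟨fun K hK => ?_⟩
  by_cases hK0 : K = ⊥
  · exact Or.inl hK0
  right
  have hK₁n : (K.map (MonoidHom.mulSingle (fun _ : ι => ↥T₀) i₀)).Normal := by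
    constructor
    rintro _ ⟨k, hk, rfl⟩ g
    refine ⟨g i₀ * k * (g i₀)⁻¹, hK.conj_mem k hk (g i₀), ?_⟩
    ext j
    by_cases hj : j = i₀
    · subst hj; simp
    · simp [hj]
  have hK₂n : ((K.map (MonoidHom.mulSingle (fun _ : ι => ↥T₀) i₀)).comap
      e.toMonoidHom).Normal := hK₁n.comap _
  have hK₃NN : NN N (((K.map (MonoidHom.mulSingle (fun _ : ι => ↥T₀) i₀)).comap
      e.toMonoidHom).map N.subtype) := by
    constructor
    · exact Subgroup.map_subtype_le _
    · rintro n hn _ ⟨x, hx, rfl⟩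
      exact ⟨⟨n, hn⟩ * x * ⟨n, hn⟩⁻¹, hK₂n.conj_mem x hx ⟨n, hn⟩, rfl⟩
  have hcard : Nat.card (((K.map (MonoidHom.mulSingle (fun _ : ι => ↥T₀) i₀)).comap
      e.toMonoidHom).map N.subtype) = Nat.card K := by
    have hinj : Function.Injective (MonoidHom.mulSingle (fun _ : ι => ↥T₀) i₀) := by
      intro a b hab
      have := congrFun hab i₀
      simpa using this
    rw [Subgroup.card_map_of_injective N.subtype_injective, Subgroup.comap_equiv_eq_map_symm',
      Subgroup.card_map_of_injective e.symm.injective,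
      Subgroup.card_map_of_injective hinj]
  have hK₃ne : (((K.map (MonoidHom.mulSingle (fun _ : ι => ↥T₀) i₀)).comap
      e.toMonoidHom).map N.subtype) ≠ ⊥ := by
    intro h0
    apply hK0
    rw [h0, Subgroup.card_bot] at hcard
    exact Subgroup.eq_bot_of_card_eq K hcard.symm
  have := hT₀min _ hK₃NN hK₃ne
  rw [hcard] at this
  exact Subgroup.eq_top_of_le_card K this

end

/-- A minimal normal subgroup of a finite group is isomorphic to a direct power `T ^ m` of a simple group `T` (possibly of prime order). -/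
theorem result {H : Type*} [Group H] [Finite H] (N : Subgroup H) [N.Normal] (hN : N ≠ ⊥) (hmin : ∀ M : Subgroup H, M.Normal → M ≤ N → M = ⊥ ∨ M = N) : ∃ (T : Type) (_ : Group T) (m : ℕ), IsSimpleGroup T ∧ 0 < m ∧ Nonempty (N ≃* (Fin m → T)) := by
  classical
  obtain ⟨T₀, hT₀, hT₀ne, hT₀min⟩ := exists_min N hN
  obtain ⟨ι, hι, ⟨e⟩⟩ := build N hmin T₀ hT₀ hT₀ne hT₀min _ ⊥
    ⟨bot_le, fun n hn x hx => by
      rw [Subgroup.mem_bot] at hx ⊢; rw [hx]; simp⟩
    ⟨Empty, inferInstance, ⟨MulEquiv.ofUnique⟩⟩ rfl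
  have hne : Nonempty ι := by
    by_contra hemp
    rw [not_nonempty_iff] at hemp
    apply hN
    have : Subsingleton N := e.toEquiv.subsingleton
    exact Subgroup.eq_bot_of_subsingleton N
  obtain ⟨i₀⟩ := hne
  have hsimple : IsSimpleGroup T₀ := simple_T₀ N T₀ hT₀ne hT₀min i₀ e
  have hi₀ : Nonempty ι := ⟨i₀⟩
  let e₀ : {i : ℕ // i < Nat.card T₀} ≃ T₀ :=
    Fin.equivSubtype.symm.trans (Finite.equivFin T₀).symm
  letI : Group {i : ℕ // i < Nat.card T₀} := e₀.group
  let e₁ : {i : ℕ // i < Nat.card T₀} ≃* T₀ := e₀.mulEquiv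
  refine ⟨{i : ℕ // i < Nat.card T₀}, inferInstance, Fintype.card ι, e₁.isSimpleGroup,
    Fintype.card_pos, ⟨?_⟩⟩
  exact e.trans ((MulEquiv.piCongrRight (fun _ => e₁.symm)).trans
    (MulEquiv.arrowCongr (Fintype.equivFin ι) (MulEquiv.refl _)))

end Cfsg.Agent.S0721
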