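import Cfsg.Statements.S0783
import Cfsg.Agent.Helper5.UnitSU

set_option autoImplicit false
open Cfsg

namespace Cfsg.Agent.S0783

open Matrix Cfsg.Agent.Helper5

/-- scalar element of `GL`. -/
noncomputable def scalarGL {F : Type*} [Field F] (n : ℕ) (c : F) (hc : c ≠ 0) :
    Matrix.GeneralLinearGroup (Fin n) F :=
  Matrix.GeneralLinearGroup.mkOfDetNeZero (Matrix.diagonal (fun _ => c)) (by
    rw [Matrix.det_diagonal, Finset.prod_const]; exact pow_ne_zero _ hc)

theorem scalarGL_coe {F : Type*} [Field F] (n : ℕ) (c : F) (hc : c ≠ 0) :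
    ((scalarGL n c hc : Matrix.GeneralLinearGroup (Fin n) F) : Matrix (Fin n) (Fin n) F)
      = Matrix.diagonal (fun _ => c) := rfl

theorem scalarGL_mem {F : Type*} [Field F] [Fintype F] {q : ℕ} (n : ℕ) (c : F) (hc : c ≠ 0)
    (hq : c ^ (q + 1) = 1) : scalarGL n c hc ∈ Cfsg.GU n F q :=
  diagonal_mem_GU (fun _ => c) (fun _ => hq) _ rfl

theorem scalarGL_comm {F : Type*} [Field F] (n : ℕ) (c : F) (hc : c ≠ 0)
    (h : Matrix.GeneralLinearGroup (Fin n) F) : scalarGL n c hc * h = h * scalarGL n c hc := by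
  apply Units.ext
  rw [Units.val_mul, Units.val_mul, scalarGL_coe]
  ext i j
  rw [Matrix.diagonal_mul, Matrix.mul_diagonal, mul_comm]

theorem center_GU_scalar {F : Type*} [Field F] [Fintype F] {q n : ℕ}
    (hF : Fintype.card F = q ^ 2) (hn : 1 ≤ n)
    (g : Matrix.GeneralLinearGroup (Fin n) F) (hg : g ∈ Cfsg.GU n F q)
    (hcomm : ∀ h ∈ Cfsg.GU n F q, g * h = h * g) :
    ∃ c : F, c ^ (q + 1) = 1 ∧
      (g : Matrix (Fin n) (Fin n) F) = Matrix.diagonal (fun _ => c) := by
  classical
  have hq := herm_two_le hF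
  obtain ⟨a, ha1, ha⟩ : ∃ a : F, a ≠ 1 ∧ a ^ (q + 1) = 1 := by
    have hcard := card_norm_one hF
    have : Nontrivial (powMonoidHom (q + 1) : Fˣ →* Fˣ).ker := by
      rw [← Finite.one_lt_card_iff_nontrivial, hcard]; omega
    obtain ⟨⟨u, hu⟩, hu1⟩ := exists_ne (1 : (powMonoidHom (q + 1) : Fˣ →* Fˣ).ker)
    refine ⟨(u : F), ?_, ?_⟩
    · intro h; apply hu1; apply Subtype.ext; apply Units.ext; exact h
    · rw [MonoidHom.mem_ker, powMonoidHom_apply] at hu
      rw [← Units.val_pow_eq_pow_val, hu, Units.val_one]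
  have ha0 : a ≠ 0 := by
    rintro rfl
    rw [zero_pow (by omega)] at ha
    exact zero_ne_one ha
  have hdiag : ∀ i j, i ≠ j → (g : Matrix (Fin n) (Fin n) F) i j = 0 := by
    intro i j hij
    let d : Fin n → F := Function.update (fun _ => (1 : F)) i a
    have hdet : (Matrix.diagonal d).det ≠ 0 := by
      rw [Matrix.det_diagonal, Finset.prod_update_of_mem (Finset.mem_univ _)]
      simp [ha0]
    let t : Matrix.GeneralLinearGroup (Fin n) F :=
      Matrix.GeneralLinearGroup.mkOfDetNeZero (Matrix.diagonal d) hdet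
    have ht : t ∈ Cfsg.GU n F q := by
      apply diagonal_mem_GU d _ t rfl
      intro k
      by_cases hk : k = i
      · rw [hk]; simp only [d, Function.update_self]; exact ha
      · simp only [d, Function.update_of_ne hk, one_pow]
    have h := congrArg (fun M : Matrix.GeneralLinearGroup (Fin n) F =>
      (M : Matrix (Fin n) (Fin n) F) i j) (hcomm t ht)
    simp only [Units.val_mul] at h
    have ht' : (t : Matrix (Fin n) (Fin n) F) = Matrix.diagonal d := rfl
    rw [ht', Matrix.mul_diagonal, Matrix.diagonal_mul] at h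
    have hdi : d i = a := by simp [d]
    have hdj : d j = 1 := by simp [d, Function.update_of_ne (Ne.symm hij)]
    rw [hdi, hdj, mul_one] at h
    have h2 : (a - 1) * (g : Matrix (Fin n) (Fin n) F) i j = 0 := by linear_combination -h
    rcases mul_eq_zero.mp h2 with h1 | h1
    · exact absurd (sub_eq_zero.mp h1) ha1
    · exact h1
  have hperm : ∀ σ : Equiv.Perm (Fin n), ∃ t : Matrix.GeneralLinearGroup (Fin n) F,
      t ∈ Cfsg.GU n F q ∧ (t : Matrix (Fin n) (Fin n) F) = σ.permMatrix F := by
    intro σ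
    have hdet : (σ.permMatrix F).det ≠ 0 := by
      rw [Matrix.det_permutation]
      rcases Int.units_eq_one_or (Equiv.Perm.sign σ) with h | h <;> simp [h]
    refine ⟨Matrix.GeneralLinearGroup.mkOfDetNeZero _ hdet, ?_, rfl⟩
    rw [mem_GU_iff]
    intro u v
    show Cfsg.hermForm n F q (σ.permMatrix F *ᵥ u) (σ.permMatrix F *ᵥ v) = _
    rw [Matrix.permMatrix_mulVec, Matrix.permMatrix_mulVec]
    unfold Cfsg.hermForm
    exact Equiv.sum_comp σ (fun i => u i * v i ^ q)
  have hgd : (g : Matrix (Fin n) (Fin n) F)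
      = Matrix.diagonal (fun k => (g : Matrix (Fin n) (Fin n) F) k k) := by
    ext i j
    by_cases hij : i = j
    · subst hij; simp
    · rw [hdiag i j hij, Matrix.diagonal_apply_ne _ hij]
  have heq : ∀ i j, (g : Matrix (Fin n) (Fin n) F) i i = (g : Matrix (Fin n) (Fin n) F) j j := by
    intro i j
    obtain ⟨t, ht, htm⟩ := hperm (Equiv.swap i j)
    have h := congrArg (fun M : Matrix.GeneralLinearGroup (Fin n) F =>
      (M : Matrix (Fin n) (Fin n) F) i j) (hcomm t ht)
    simp only [Units.val_mul] at h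
    rw [htm, hgd, Matrix.mul_diagonal, Matrix.diagonal_mul] at h
    have hP : (Equiv.swap i j).permMatrix F i j = 1 := by
      simp [Equiv.Perm.permMatrix, PEquiv.toMatrix_apply]
    rw [hP, mul_one, one_mul] at h
    exact h
  let i0 : Fin n := ⟨0, hn⟩
  refine ⟨(g : Matrix (Fin n) (Fin n) F) i0 i0, ?_, ?_⟩
  · have hq0 : q ≠ 0 := by omega
    have h := (mem_GU_iff g).1 hg (Pi.single i0 1) (Pi.single i0 1)
    rw [hermForm_single_single hq0, Matrix.mulVec_single_one] at h
    rw [pow_succ, mul_comm]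
    unfold Cfsg.hermForm at h
    rw [Finset.sum_eq_single i0] at h
    · exact h
    · intro k _ hk
      have : (g : Matrix (Fin n) (Fin n) F).col i0 k = 0 := hdiag k i0 hk
      rw [this, zero_mul]
    · intro h'; exact absurd (Finset.mem_univ _) h'
  · rw [hgd]
    congr 1
    funext k
    exact heq k i0

/-- PGU_n(q)/PSU_n(q) is cyclic of order (n, q+1): for n ≥ 2 and |F| = q² there is a surjective homomorphism from GU_n(q) onto the cyclic group of order gcd(n, q + 1) whose kernel is generated by the determinant-one elements together with the centre. -/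
theorem result {F : Type*} [Field F] [Fintype F] {q : ℕ} (hF : Fintype.card F = q ^ 2) (n : ℕ) (hn : 2 ≤ n) : ∃ φ : ↥(Cfsg.GU n F q) →* Multiplicative (ZMod (Nat.gcd n (q + 1))), Function.Surjective φ ∧ φ.ker = (Matrix.GeneralLinearGroup.det : Matrix.GeneralLinearGroup (Fin n) F →* Fˣ).ker.subgroupOf (Cfsg.GU n F q) ⊔ Subgroup.center ↥(Cfsg.GU n F q) := by
  classical
  have hq := herm_two_le hF
  have hn1 : 1 ≤ n := by omega
  set d := Nat.gcd n (q + 1) with hd
  have hdpos : 0 < d := Nat.gcd_pos_of_pos_right n (by omega)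
  have : NeZero d := ⟨by omega⟩
  let μ : Subgroup Fˣ := (powMonoidHom (q + 1) : Fˣ →* Fˣ).ker
  have hμcard : Nat.card μ = q + 1 := card_norm_one hF
  obtain ⟨γ, hγ⟩ := IsCyclic.exists_generator (α := μ)
  let E : Multiplicative (ZMod (q + 1)) ≃* μ := zmodMulEquivOfGenerator hγ hμcard
  let c : ZMod (q + 1) →+* ZMod d := ZMod.castHom (Nat.gcd_dvd_right n (q + 1)) (ZMod d)
  let ψ : μ →* Multiplicative (ZMod d) :=
    (AddMonoidHom.toMultiplicative c.toAddMonoidHom).comp E.symm.toMonoidHom
  have hdetmem : ∀ g : ↥(Cfsg.GU n F q), detGU F q n g ∈ μ := by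
    intro g
    show detGU F q n g ∈ (powMonoidHom (q + 1) : Fˣ →* Fˣ).ker
    rw [← range_detGU hF hn1]
    exact ⟨g, rfl⟩
  let detμ : ↥(Cfsg.GU n F q) →* μ := (detGU F q n).codRestrict μ hdetmem
  have hψpow : ∀ u : μ, ψ (u ^ n) = 1 := by
    intro u
    rw [map_pow]
    obtain ⟨t, ht⟩ := Nat.gcd_dvd_left n (q + 1)
    have hcardM : Nat.card (Multiplicative (ZMod d)) = d := by
      rw [Nat.card_eq_fintype_card, Fintype.card_multiplicative, ZMod.card]
    have h1 : (ψ u) ^ d = 1 := by
      have h2 := pow_card_eq_one' (G := Multiplicative (ZMod d)) (x := ψ u)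
      rwa [hcardM] at h2
    rw [ht, pow_mul, h1, one_pow]
  have hψker : ∀ u : μ, ψ u = 1 → ∃ w : μ, u = w ^ n := by
    intro u hu
    have hu' : c (E.symm u).toAdd = 0 := hu
    set a : ZMod (q + 1) := (E.symm u).toAdd with ha
    have h1 : ((a.val : ℕ) : ZMod d) = 0 := by
      rw [← map_natCast c, ZMod.natCast_zmod_val]; exact hu'
    rw [ZMod.natCast_eq_zero_iff] at h1
    obtain ⟨t, ht⟩ := h1
    have hbez := Nat.gcd_eq_gcd_ab n (q + 1)
    have hbez' : ((d : ℕ) : ZMod (q + 1)) = (n : ZMod (q + 1)) * ((Nat.gcdA n (q + 1) : ℤ) : ZMod (q + 1)) := by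
      have := congrArg (fun z : ℤ => (z : ZMod (q + 1))) hbez
      simp only [Int.cast_add, Int.cast_mul, Int.cast_natCast] at this
      rw [hd, this]
      have h0 : ((q + 1 : ℕ) : ZMod (q + 1)) = 0 := ZMod.natCast_self (q + 1)
      rw [h0, zero_mul, add_zero]
    let b : ZMod (q + 1) := ((Nat.gcdA n (q + 1) : ℤ) : ZMod (q + 1)) * (t : ZMod (q + 1))
    have hab : a = n • b := by
      rw [nsmul_eq_mul]
      have : a = ((a.val : ℕ) : ZMod (q + 1)) := (ZMod.natCast_zmod_val a).symm
      rw [this, ht, Nat.cast_mul, hbez']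
      ring
    refine ⟨E (Multiplicative.ofAdd b), ?_⟩
    rw [← map_pow, ← ofAdd_nsmul, ← hab, ha, ofAdd_toAdd, MulEquiv.apply_symm_apply]
  refine ⟨ψ.comp detμ, ?_, ?_⟩
  · -- surjectivity
    intro y
    obtain ⟨x, hx⟩ := ZMod.ringHom_surjective c y.toAdd
    have hmem : ((E (Multiplicative.ofAdd x) : μ) : Fˣ) ∈ (detGU F q n).range := by
      rw [range_detGU hF hn1]
      exact (E (Multiplicative.ofAdd x)).2
    obtain ⟨g, hg⟩ := hmem
    refine ⟨g, ?_⟩
    have hg' : detμ g = E (Multiplicative.ofAdd x) := Subtype.ext hg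
    show ψ (detμ g) = y
    rw [hg']
    show Multiplicative.ofAdd (c (E.symm (E (Multiplicative.ofAdd x))).toAdd) = y
    rw [MulEquiv.symm_apply_apply, toAdd_ofAdd, hx, ofAdd_toAdd]
  · apply le_antisymm
    · intro g hg
      rw [MonoidHom.mem_ker] at hg
      obtain ⟨w, hw⟩ := hψker (detμ g) hg
      have hwq : ((w : Fˣ) : F) ^ (q + 1) = 1 := by
        have := w.2
        rw [MonoidHom.mem_ker, powMonoidHom_apply] at this
        rw [← Units.val_pow_eq_pow_val, this, Units.val_one]
      have hw0 : ((w : Fˣ) : F) ≠ 0 := (w : Fˣ).ne_zero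
      let z : ↥(Cfsg.GU n F q) := ⟨scalarGL n _ hw0, scalarGL_mem n _ hw0 hwq⟩
      have hz : z ∈ Subgroup.center ↥(Cfsg.GU n F q) := by
        rw [Subgroup.mem_center_iff]
        intro h
        apply Subtype.ext
        exact (scalarGL_comm n _ hw0 h.1).symm
      have hdetz : detGU F q n z = (w : Fˣ) ^ n := by
        apply Units.ext
        rw [detGU_coe, Units.val_pow_eq_pow_val]
        show (Matrix.diagonal (fun _ => ((w : Fˣ) : F))).det = _
        rw [Matrix.det_diagonal, Finset.prod_const, Finset.card_univ, Fintype.card_fin]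
      have hdetg : detGU F q n g = (w : Fˣ) ^ n := by
        have := congrArg (fun u : μ => (u : Fˣ)) hw
        exact this
      have hgz : g * z⁻¹ ∈ (Matrix.GeneralLinearGroup.det :
          Matrix.GeneralLinearGroup (Fin n) F →* Fˣ).ker.subgroupOf (Cfsg.GU n F q) := by
        rw [Subgroup.mem_subgroupOf, MonoidHom.mem_ker]
        show detGU F q n (g * z⁻¹) = 1
        rw [map_mul, map_inv, hdetg, hdetz, mul_inv_cancel]
      have : g = (g * z⁻¹) * z := by group
      rw [this]
      exact Subgroup.mul_mem_sup hgz hz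
    · apply sup_le
      · intro g hg
        rw [Subgroup.mem_subgroupOf, MonoidHom.mem_ker] at hg
        rw [MonoidHom.mem_ker]
        have h1 : detμ g = 1 := Subtype.ext hg
        show ψ (detμ g) = 1
        rw [h1, map_one]
      · intro g hg
        rw [Subgroup.mem_center_iff] at hg
        obtain ⟨a, haq, hga⟩ := center_GU_scalar hF hn1 g.1 g.2 (by
          intro h hh
          have := hg ⟨h, hh⟩
          exact (congrArg Subtype.val this).symm)
        have ha0 : a ≠ 0 := by
          rintro rfl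
          rw [zero_pow (by omega)] at haq
          exact zero_ne_one haq
        let w : μ := ⟨Units.mk0 a ha0, by
          rw [MonoidHom.mem_ker, powMonoidHom_apply]
          apply Units.ext
          rw [Units.val_pow_eq_pow_val]
          exact haq⟩
        have hdet : detμ g = w ^ n := by
          apply Subtype.ext
          apply Units.ext
          show ((g : Matrix.GeneralLinearGroup (Fin n) F) : Matrix (Fin n) (Fin n) F).det = _
          rw [hga, Matrix.det_diagonal, Finset.prod_const, Finset.card_univ, Fintype.card_fin]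
          simp [w]
        rw [MonoidHom.mem_ker]
        show ψ (detμ g) = 1
        rw [hdet]
        exact hψpow w

end Cfsg.Agent.S0783
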