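import Cfsg.Statements.S0306
import Cfsg.Agent.Helper5.OrthMinus2
import Cfsg.Agent.Helper73.Taussky

set_option autoImplicit false
set_option linter.unusedSectionVars false
set_option linter.unusedSimpArgs false
open Cfsg

namespace Cfsg.Agent.S0306

open Matrix Cfsg.Agent.Helper5

section
variable {F : Type*} [Field F] (a b : F)

/-- Coordinates on the quadratic algebra. -/
def qaCoord : QuadraticAlgebra F (-b) a ≃ₗ[F] ((Fin 0 ⊕ Fin 0) ⊕ Fin 2 → F) where
  toFun z := Sum.elim (fun _ => 0) (fun i => if i = 0 then z.re else z.im)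
  map_add' z w := by
    funext c
    rcases c with c | c
    · simp
    · simp only [Sum.elim_inr, Pi.add_apply, QuadraticAlgebra.re_add, QuadraticAlgebra.im_add]
      split_ifs <;> rfl
  map_smul' t z := by
    funext c
    rcases c with c | c
    · simp
    · simp only [Sum.elim_inr, Pi.smul_apply, QuadraticAlgebra.re_smul, QuadraticAlgebra.im_smul,
        RingHom.id_apply]
      split_ifs <;> rfl
  invFun v := ⟨v (Sum.inr 0), v (Sum.inr 1)⟩
  left_inv z := by
    ext <;> simp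
  right_inv v := by
    funext c
    rcases c with (c | c) | c
    · exact c.elim0
    · exact c.elim0
    · fin_cases c <;> simp

theorem qaCoord_apply0 (z : QuadraticAlgebra F (-b) a) : qaCoord a b z (Sum.inr 0) = z.re := rfl

theorem qaCoord_apply1 (z : QuadraticAlgebra F (-b) a) : qaCoord a b z (Sum.inr 1) = z.im := rfl

theorem qaCoord_symm_apply (v : (Fin 0 ⊕ Fin 0) ⊕ Fin 2 → F) :
    (qaCoord a b).symm v = ⟨v (Sum.inr 0), v (Sum.inr 1)⟩ := rfl

/-- The matrix of multiplication by an element of the quadratic algebra. -/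
noncomputable def mulMat :
    QuadraticAlgebra F (-b) a →ₐ[F] Matrix ((Fin 0 ⊕ Fin 0) ⊕ Fin 2) ((Fin 0 ⊕ Fin 0) ⊕ Fin 2) F :=
  Algebra.leftMulMatrix (Module.Basis.ofEquivFun (qaCoord a b))

theorem mulMat_mulVec (u : QuadraticAlgebra F (-b) a) (v : (Fin 0 ⊕ Fin 0) ⊕ Fin 2 → F) :
    mulMat a b u *ᵥ v = qaCoord a b (u * (qaCoord a b).symm v) := by
  have := Algebra.leftMulMatrix_mulVec_repr (Module.Basis.ofEquivFun (qaCoord a b)) u
    ((qaCoord a b).symm v)
  have h1 : ∀ y : QuadraticAlgebra F (-b) a,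
      ⇑((Module.Basis.ofEquivFun (qaCoord a b)).repr y) = qaCoord a b y :=
    fun y => funext (fun i => Module.Basis.ofEquivFun_repr_apply _ y i)
  rw [h1, h1, LinearEquiv.apply_symm_apply] at this
  exact this

theorem mulMat_injective : Function.Injective (mulMat a b) :=
  Algebra.leftMulMatrix_injective _

theorem Q_eq_norm (v : (Fin 0 ⊕ Fin 0) ⊕ Fin 2 → F) :
    Cfsg.quadFormMinus 0 F a b v = QuadraticAlgebra.norm ((qaCoord a b).symm v) := by
  rw [qaCoord_symm_apply, QuadraticAlgebra.norm_def]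
  unfold Cfsg.quadFormMinus
  simp
  ring

/-- Multiplication by units as a homomorphism to `GL`. -/
noncomputable def mulGL : (QuadraticAlgebra F (-b) a)ˣ →*
    Matrix.GeneralLinearGroup ((Fin 0 ⊕ Fin 0) ⊕ Fin 2) F :=
  Units.map (MonoidHomClass.toMonoidHom (mulMat a b))

theorem mulGL_mulVec (u : (QuadraticAlgebra F (-b) a)ˣ) (v : (Fin 0 ⊕ Fin 0) ⊕ Fin 2 → F) :
    ((mulGL a b u : Matrix.GeneralLinearGroup ((Fin 0 ⊕ Fin 0) ⊕ Fin 2) F) :
      Matrix ((Fin 0 ⊕ Fin 0) ⊕ Fin 2) ((Fin 0 ⊕ Fin 0) ⊕ Fin 2) F) *ᵥ v =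
      qaCoord a b ((u : QuadraticAlgebra F (-b) a) * (qaCoord a b).symm v) :=
  mulMat_mulVec a b u v

theorem mulGL_injective : Function.Injective (mulGL a b) :=
  Units.map_injective (mulMat_injective a b)

theorem mulGL_mem (u : (QuadraticAlgebra F (-b) a)ˣ)
    (hu : QuadraticAlgebra.norm (u : QuadraticAlgebra F (-b) a) = 1) :
    mulGL a b u ∈ Cfsg.isometryGroup F (Cfsg.quadFormMinus 0 F a b) := by
  rw [mem_isometryGroup_iff]
  intro v
  rw [Q_eq_norm, Q_eq_norm, mulGL_mulVec, LinearEquiv.symm_apply_apply, map_mul, hu, one_mul]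

theorem sigma_coord (z : QuadraticAlgebra F (-b) a) :
    minusSigma 0 a (qaCoord a b z) = qaCoord a b (star z) := by
  funext c
  rcases c with (c | c) | c
  · exact c.elim0
  · exact c.elim0
  · rw [minusSigma_apply]
    fin_cases c
    · simp [qaCoord_apply0, qaCoord_apply1]
    · simp [qaCoord_apply0, qaCoord_apply1]

theorem GL_ext' {ι : Type} [Fintype ι] [DecidableEq ι] (g h : Matrix.GeneralLinearGroup ι F)
    (hgh : ∀ v : ι → F, (g : Matrix ι ι F) *ᵥ v = (h : Matrix ι ι F) *ᵥ v) : g = h := by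
  apply Units.ext
  apply Matrix.ext_of_mulVec_single
  intro c
  exact hgh _

end

/-- GO^-_2(q) is dihedral of order 2(q+1). -/
theorem result {F : Type*} [Field F] [Fintype F] {q : ℕ} (hF : Fintype.card F = q) (a b : F) (hab : ∀ z₁ z₂ : F, z₁ ^ 2 + a * z₁ * z₂ + b * z₂ ^ 2 = 0 → z₁ = 0 ∧ z₂ = 0) : Nonempty (Cfsg.isometryGroup F (Cfsg.quadFormMinus 0 F a b) ≃* DihedralGroup (q + 1)) := by
  classical
  subst hF
  have := fact_of_aniso a b hab
  have : Fintype (QuadraticAlgebra F (-b) a) :=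
    Fintype.ofEquiv _ (QuadraticAlgebra.equivProd (-b) a).symm
  have hq : 2 ≤ Fintype.card F := Fintype.one_lt_card
  -- the order of the group
  have hcard : Nat.card (Cfsg.isometryGroup F (Cfsg.quadFormMinus 0 F a b)) =
      2 * (Fintype.card F + 1) := by
    have h := card_GO_minus a b hab 1 le_rfl
    simpa using h
  -- the norm one group
  set N : (QuadraticAlgebra F (-b) a)ˣ →* Fˣ := Units.map (QuadraticAlgebra.norm) with hN
  have hNmem : ∀ u : (QuadraticAlgebra F (-b) a)ˣ,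
      u ∈ N.ker ↔ QuadraticAlgebra.norm (u : QuadraticAlgebra F (-b) a) = 1 := by
    intro u
    rw [MonoidHom.mem_ker, hN]
    constructor
    · intro h
      have := congrArg Units.val h
      rwa [Units.coe_map, Units.val_one] at this
    · intro h
      apply Units.ext
      rw [Units.coe_map, Units.val_one]
      exact h
  have hNcard : Nat.card N.ker = Fintype.card F + 1 := by
    rw [← card_norm_one_quadAlg a b hab]
    refine Nat.card_congr
      { toFun := fun u => ⟨u.1.1, (hNmem _).1 u.2⟩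
        invFun := fun z => ⟨Units.mk0 z.1 (by
          intro h0
          have := z.2
          rw [h0, QuadraticAlgebra.norm_zero] at this
          exact zero_ne_one this), (hNmem _).2 (by rw [Units.val_mk0]; exact z.2)⟩
        left_inv := fun u => Subtype.ext (Units.ext rfl)
        right_inv := fun z => rfl }
  obtain ⟨u₀, hu₀⟩ := IsCyclic.exists_generator (α := N.ker)
  have hord : orderOf u₀ = Fintype.card F + 1 := by
    rw [orderOf_eq_card_of_forall_mem_zpowers hu₀, hNcard]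
  -- the rotations
  set Φ : N.ker →* Cfsg.isometryGroup F (Cfsg.quadFormMinus 0 F a b) :=
    ((mulGL a b).comp N.ker.subtype).codRestrict _
      (fun u => mulGL_mem a b u.1 ((hNmem _).1 u.2)) with hΦ
  have hΦinj : Function.Injective Φ := by
    intro u u' h
    have := congrArg Subtype.val h
    exact Subtype.ext (mulGL_injective a b this)
  have hΦ_mulVec : ∀ (u : N.ker) (v : (Fin 0 ⊕ Fin 0) ⊕ Fin 2 → F),
      (((Φ u : Cfsg.isometryGroup F (Cfsg.quadFormMinus 0 F a b)) :
        Matrix.GeneralLinearGroup ((Fin 0 ⊕ Fin 0) ⊕ Fin 2) F) :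
        Matrix ((Fin 0 ⊕ Fin 0) ⊕ Fin 2) ((Fin 0 ⊕ Fin 0) ⊕ Fin 2) F) *ᵥ v =
        qaCoord a b (((u : (QuadraticAlgebra F (-b) a)ˣ) : QuadraticAlgebra F (-b) a) *
          (qaCoord a b).symm v) := fun u v => mulGL_mulVec a b u.1 v
  -- the reflection
  have hsmem : minusS 0 a ∈ Cfsg.isometryGroup F (Cfsg.quadFormMinus 0 F a b) :=
    (minusS_mem a b hab).1
  have hxx : (⟨minusS 0 a, hsmem⟩ : Cfsg.isometryGroup F (Cfsg.quadFormMinus 0 F a b)) *
      ⟨minusS 0 a, hsmem⟩ = 1 := by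
    apply Subtype.ext
    apply GL_ext'
    intro v
    rw [Subgroup.coe_mul, Subgroup.coe_one, Units.val_mul, Units.val_one, Matrix.one_mulVec,
      ← Matrix.mulVec_mulVec, minusS_mulVec, minusS_mulVec]
    exact minusSigma_invol a v
  have hxa : (⟨minusS 0 a, hsmem⟩ * Φ u₀) * (⟨minusS 0 a, hsmem⟩ * Φ u₀) =
      (1 : Cfsg.isometryGroup F (Cfsg.quadFormMinus 0 F a b)) := by
    apply Subtype.ext
    apply GL_ext'
    intro v
    have hu1 : ((u₀ : (QuadraticAlgebra F (-b) a)ˣ) : QuadraticAlgebra F (-b) a) *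
        star ((u₀ : (QuadraticAlgebra F (-b) a)ˣ) : QuadraticAlgebra F (-b) a) = 1 := by
      rw [← QuadraticAlgebra.algebraMap_norm_eq_mul_star, (hNmem _).1 u₀.2, map_one]
    simp only [Subgroup.coe_mul, Subgroup.coe_one, Units.val_mul, Units.val_one, Matrix.one_mulVec,
      ← Matrix.mulVec_mulVec]
    have e1 := hΦ_mulVec u₀ v
    have e2 : ((minusS 0 a : Matrix.GeneralLinearGroup ((Fin 0 ⊕ Fin 0) ⊕ Fin 2) F) :
        Matrix ((Fin 0 ⊕ Fin 0) ⊕ Fin 2) ((Fin 0 ⊕ Fin 0) ⊕ Fin 2) F) *ᵥ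
        qaCoord a b (((u₀ : (QuadraticAlgebra F (-b) a)ˣ) : QuadraticAlgebra F (-b) a) *
          (qaCoord a b).symm v) =
        qaCoord a b (star (((u₀ : (QuadraticAlgebra F (-b) a)ˣ) : QuadraticAlgebra F (-b) a) *
          (qaCoord a b).symm v)) := by
      rw [minusS_mulVec, sigma_coord]
    have e3 := hΦ_mulVec u₀ (qaCoord a b (star (((u₀ : (QuadraticAlgebra F (-b) a)ˣ) :
      QuadraticAlgebra F (-b) a) * (qaCoord a b).symm v)))
    rw [LinearEquiv.symm_apply_apply] at e3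
    rw [e1, e2, e3, minusS_mulVec, sigma_coord]
    simp only [star_mul', star_star]
    have : star ((u₀ : (QuadraticAlgebra F (-b) a)ˣ) : QuadraticAlgebra F (-b) a) *
        (((u₀ : (QuadraticAlgebra F (-b) a)ˣ) : QuadraticAlgebra F (-b) a) *
          (qaCoord a b).symm v) = (qaCoord a b).symm v := by
      rw [← mul_assoc, mul_comm (star _), hu1, one_mul]
    rw [this, LinearEquiv.apply_symm_apply]
  have hxinv : (⟨minusS 0 a, hsmem⟩ : Cfsg.isometryGroup F (Cfsg.quadFormMinus 0 F a b))⁻¹ =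
      ⟨minusS 0 a, hsmem⟩ := inv_eq_of_mul_eq_one_left hxx
  have hax : (⟨minusS 0 a, hsmem⟩ : Cfsg.isometryGroup F (Cfsg.quadFormMinus 0 F a b)) * Φ u₀ *
      (⟨minusS 0 a, hsmem⟩ : Cfsg.isometryGroup F (Cfsg.quadFormMinus 0 F a b))⁻¹ = (Φ u₀)⁻¹ := by
    rw [hxinv]
    apply eq_inv_of_mul_eq_one_left
    rw [mul_assoc]
    exact hxa
  refine Helper73.nonempty_mulEquiv_dihedralGroup (Fintype.card F + 1) (Φ u₀)
    ⟨minusS 0 a, hsmem⟩ hcard ?_ hxx hax ?_
  · rw [orderOf_injective Φ hΦinj, hord]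
  · intro hmem
    obtain ⟨k, hk⟩ := hmem
    have hk' : Φ u₀ ^ k = ⟨minusS 0 a, hsmem⟩ := hk
    have hcomm : (⟨minusS 0 a, hsmem⟩ : Cfsg.isometryGroup F (Cfsg.quadFormMinus 0 F a b)) * Φ u₀ =
        Φ u₀ * ⟨minusS 0 a, hsmem⟩ := by
      rw [← hk']
      exact (Commute.zpow_self (Φ u₀) k).eq
    rw [hcomm, mul_inv_cancel_right] at hax
    have h2 : Φ u₀ ^ 2 = 1 := by
      rw [pow_two]
      nth_rewrite 1 [hax]
      exact inv_mul_cancel _
    have := orderOf_dvd_of_pow_eq_one h2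
    rw [orderOf_injective Φ hΦinj, hord] at this
    have := Nat.le_of_dvd (by norm_num) this
    omega

end Cfsg.Agent.S0306
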