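import Cfsg.Statements.S0305
import Cfsg.Agent.Helper73.Taussky

set_option autoImplicit false
set_option linter.unusedSectionVars false
open Cfsg

namespace Cfsg.Agent.S0305

open Matrix

section
variable {F : Type*} [Field F]

/-- A `2 × 2` matrix indexed by `Fin 1 ⊕ Fin 1`. -/
def M (a b c d : F) : Matrix (Fin 1 ⊕ Fin 1) (Fin 1 ⊕ Fin 1) F :=
  Matrix.fromBlocks (Matrix.of fun _ _ => a) (Matrix.of fun _ _ => b)
    (Matrix.of fun _ _ => c) (Matrix.of fun _ _ => d)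

theorem M_mul (a b c d a' b' c' d' : F) :
    M a b c d * M a' b' c' d' = M (a * a' + b * c') (a * b' + b * d') (c * a' + d * c') (c * b' + d * d') := by
  unfold M
  rw [Matrix.fromBlocks_multiply]
  congr 1 <;> ext i j <;> simp [Matrix.mul_apply]

theorem M_one : M (1 : F) 0 0 1 = 1 := by
  unfold M
  rw [← Matrix.fromBlocks_one]
  congr 1 <;> ext i j <;> simp [Matrix.one_apply, Subsingleton.elim i j]

theorem eq_M (A : Matrix (Fin 1 ⊕ Fin 1) (Fin 1 ⊕ Fin 1) F) :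
    A = M (A (Sum.inl 0) (Sum.inl 0)) (A (Sum.inl 0) (Sum.inr 0)) (A (Sum.inr 0) (Sum.inl 0))
      (A (Sum.inr 0) (Sum.inr 0)) := by
  unfold M
  ext (i | i) (j | j) <;> simp [Subsingleton.elim i 0, Subsingleton.elim j 0]

theorem M_inj {a b c d a' b' c' d' : F} (h : M a b c d = M a' b' c' d') :
    a = a' ∧ b = b' ∧ c = c' ∧ d = d' := by
  refine ⟨?_, ?_, ?_, ?_⟩
  · simpa [M] using congrFun (congrFun h (Sum.inl 0)) (Sum.inl 0)
  · simpa [M] using congrFun (congrFun h (Sum.inl 0)) (Sum.inr 0)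
  · simpa [M] using congrFun (congrFun h (Sum.inr 0)) (Sum.inl 0)
  · simpa [M] using congrFun (congrFun h (Sum.inr 0)) (Sum.inr 0)

theorem Q_M (a b c d : F) (v : Fin 1 ⊕ Fin 1 → F) :
    Cfsg.quadFormPlus 1 F (M a b c d *ᵥ v)
      = (a * v (Sum.inl 0) + b * v (Sum.inr 0)) * (c * v (Sum.inl 0) + d * v (Sum.inr 0)) := by
  unfold Cfsg.quadFormPlus M
  simp [Matrix.mulVec, dotProduct, Fintype.sum_sum_type]

theorem Q_apply (v : Fin 1 ⊕ Fin 1 → F) :
    Cfsg.quadFormPlus 1 F v = v (Sum.inl 0) * v (Sum.inr 0) := by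
  unfold Cfsg.quadFormPlus
  simp

theorem mem_iso_iff (g : Matrix.GeneralLinearGroup (Fin 1 ⊕ Fin 1) F) :
    g ∈ Cfsg.isometryGroup F (Cfsg.quadFormPlus 1 F) ↔
      ∀ u : Fin 1 ⊕ Fin 1 → F, Cfsg.quadFormPlus 1 F ((g : Matrix (Fin 1 ⊕ Fin 1) (Fin 1 ⊕ Fin 1) F) *ᵥ u)
        = Cfsg.quadFormPlus 1 F u :=
  ⟨fun h u => h u u, fun h u _ => h u⟩

/-- Diagonal isometries. -/
def gD (u : Fˣ) : Matrix.GeneralLinearGroup (Fin 1 ⊕ Fin 1) F :=
  ⟨M (u : F) 0 0 ((u⁻¹ : Fˣ) : F), M ((u⁻¹ : Fˣ) : F) 0 0 (u : F),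
    by rw [M_mul]; simp [M_one], by rw [M_mul]; simp [M_one]⟩

/-- Anti-diagonal isometries. -/
def gA (u : Fˣ) : Matrix.GeneralLinearGroup (Fin 1 ⊕ Fin 1) F :=
  ⟨M 0 (u : F) ((u⁻¹ : Fˣ) : F) 0, M 0 (u : F) ((u⁻¹ : Fˣ) : F) 0,
    by rw [M_mul]; simp [M_one], by rw [M_mul]; simp [M_one]⟩

theorem gD_coe (u : Fˣ) : ((gD u : Matrix.GeneralLinearGroup (Fin 1 ⊕ Fin 1) F) :
    Matrix (Fin 1 ⊕ Fin 1) (Fin 1 ⊕ Fin 1) F) = M (u : F) 0 0 ((u⁻¹ : Fˣ) : F) := rfl

theorem gA_coe (u : Fˣ) : ((gA u : Matrix.GeneralLinearGroup (Fin 1 ⊕ Fin 1) F) :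
    Matrix (Fin 1 ⊕ Fin 1) (Fin 1 ⊕ Fin 1) F) = M 0 (u : F) ((u⁻¹ : Fˣ) : F) 0 := rfl

theorem gD_mem (u : Fˣ) : gD u ∈ Cfsg.isometryGroup F (Cfsg.quadFormPlus 1 F) := by
  rw [mem_iso_iff]
  intro v
  rw [gD_coe, Q_M, Q_apply]
  have : (u : F) * ((u⁻¹ : Fˣ) : F) = 1 := by simp
  linear_combination (v (Sum.inl 0) * v (Sum.inr 0)) * this

theorem gA_mem (u : Fˣ) : gA u ∈ Cfsg.isometryGroup F (Cfsg.quadFormPlus 1 F) := by
  rw [mem_iso_iff]
  intro v
  rw [gA_coe, Q_M, Q_apply]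
  have : (u : F) * ((u⁻¹ : Fˣ) : F) = 1 := by simp
  linear_combination (v (Sum.inl 0) * v (Sum.inr 0)) * this

theorem gD_mul (u v : Fˣ) : gD (u * v) = gD u * gD v := by
  apply Units.ext
  rw [Units.val_mul, gD_coe, gD_coe, gD_coe, M_mul]
  simp [mul_comm]

theorem gD_mul_gA (u v : Fˣ) : gD u * gA v = gA (u * v) := by
  apply Units.ext
  rw [Units.val_mul, gD_coe, gA_coe, gA_coe, M_mul]
  simp [mul_comm]

theorem gA_mul_gD (u v : Fˣ) : gA u * gD v = gA (u * v⁻¹) := by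
  apply Units.ext
  rw [Units.val_mul, gD_coe, gA_coe, gA_coe, M_mul]
  simp [mul_comm]

theorem gA_mul_gA (u v : Fˣ) : gA u * gA v = gD (u * v⁻¹) := by
  apply Units.ext
  rw [Units.val_mul, gD_coe, gA_coe, gA_coe, M_mul]
  simp [mul_comm]

theorem gD_one : gD (1 : Fˣ) = 1 := by
  apply Units.ext
  rw [gD_coe]
  simp [M_one]

theorem gD_injective : Function.Injective (gD : Fˣ → Matrix.GeneralLinearGroup (Fin 1 ⊕ Fin 1) F) := by
  intro u v h
  have h1 := congrArg (fun g : Matrix.GeneralLinearGroup (Fin 1 ⊕ Fin 1) F =>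
    (g : Matrix (Fin 1 ⊕ Fin 1) (Fin 1 ⊕ Fin 1) F)) h
  simp only [gD_coe] at h1
  exact Units.ext (M_inj h1).1

theorem gA_injective : Function.Injective (gA : Fˣ → Matrix.GeneralLinearGroup (Fin 1 ⊕ Fin 1) F) := by
  intro u v h
  have h1 := congrArg (fun g : Matrix.GeneralLinearGroup (Fin 1 ⊕ Fin 1) F =>
    (g : Matrix (Fin 1 ⊕ Fin 1) (Fin 1 ⊕ Fin 1) F)) h
  simp only [gA_coe] at h1
  exact Units.ext (M_inj h1).2.1

theorem gD_ne_gA (u v : Fˣ) : gD u ≠ gA v := by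
  intro h
  have h1 := congrArg (fun g : Matrix.GeneralLinearGroup (Fin 1 ⊕ Fin 1) F =>
    (g : Matrix (Fin 1 ⊕ Fin 1) (Fin 1 ⊕ Fin 1) F)) h
  simp only [gD_coe, gA_coe] at h1
  exact Units.ne_zero u (M_inj h1).1

/-- Every isometry of the hyperbolic plane is diagonal or anti-diagonal. -/
theorem exists_of_mem (g : Matrix.GeneralLinearGroup (Fin 1 ⊕ Fin 1) F)
    (hg : g ∈ Cfsg.isometryGroup F (Cfsg.quadFormPlus 1 F)) :
    (∃ u : Fˣ, g = gD u) ∨ (∃ u : Fˣ, g = gA u) := by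
  rw [mem_iso_iff] at hg
  set a := (g : Matrix (Fin 1 ⊕ Fin 1) (Fin 1 ⊕ Fin 1) F) (Sum.inl 0) (Sum.inl 0) with ha
  set b := (g : Matrix (Fin 1 ⊕ Fin 1) (Fin 1 ⊕ Fin 1) F) (Sum.inl 0) (Sum.inr 0) with hb
  set c := (g : Matrix (Fin 1 ⊕ Fin 1) (Fin 1 ⊕ Fin 1) F) (Sum.inr 0) (Sum.inl 0) with hc
  set d := (g : Matrix (Fin 1 ⊕ Fin 1) (Fin 1 ⊕ Fin 1) F) (Sum.inr 0) (Sum.inr 0) with hd
  have hgM : (g : Matrix (Fin 1 ⊕ Fin 1) (Fin 1 ⊕ Fin 1) F) = M a b c d := eq_M _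
  have h10 := hg (Sum.elim (fun _ => 1) (fun _ => 0))
  have h01 := hg (Sum.elim (fun _ => 0) (fun _ => 1))
  have h11 := hg (Sum.elim (fun _ => 1) (fun _ => 1))
  rw [hgM, Q_M, Q_apply] at h10 h01 h11
  simp only [Sum.elim_inl, Sum.elim_inr, mul_one, mul_zero, add_zero, zero_add] at h10 h01 h11
  have h3 : a * d + b * c = 1 := by linear_combination h11 - h10 - h01
  by_cases ha0 : a = 0
  · right
    rw [ha0, zero_mul, zero_add] at h3
    have hb0 : b ≠ 0 := by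
      rintro h
      rw [h, zero_mul] at h3
      exact zero_ne_one h3
    have hd0 : d = 0 := by
      rcases mul_eq_zero.1 h01 with h | h
      · exact absurd h hb0
      · exact h
    refine ⟨Units.mk0 b hb0, ?_⟩
    apply Units.ext
    rw [hgM, gA_coe, ha0, hd0]
    congr 1
    simp only [Units.val_inv_eq_inv_val, Units.val_mk0]
    field_simp
    linear_combination h3
  · left
    have hc0 : c = 0 := by
      rcases mul_eq_zero.1 h10 with h | h
      · exact absurd h ha0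
      · exact h
    rw [hc0, mul_zero, add_zero] at h3
    have hd0 : d ≠ 0 := by
      rintro h
      rw [h, mul_zero] at h3
      exact zero_ne_one h3
    have hb0 : b = 0 := by
      rcases mul_eq_zero.1 h01 with h | h
      · exact h
      · exact absurd h hd0
    refine ⟨Units.mk0 a ha0, ?_⟩
    apply Units.ext
    rw [hgM, gD_coe, hb0, hc0]
    congr 1
    simp only [Units.val_inv_eq_inv_val, Units.val_mk0]
    field_simp
    linear_combination h3

/-- The diagonal isometries as a homomorphism. -/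
def gDHom : Fˣ →* Cfsg.isometryGroup F (Cfsg.quadFormPlus 1 F) where
  toFun u := ⟨gD u, gD_mem u⟩
  map_one' := Subtype.ext gD_one
  map_mul' u v := Subtype.ext (gD_mul u v)

theorem gDHom_injective : Function.Injective (gDHom (F := F)) := by
  intro u v h
  exact gD_injective (congrArg Subtype.val h)

/-- The parametrisation of the isometry group. -/
def param : Fˣ ⊕ Fˣ → Cfsg.isometryGroup F (Cfsg.quadFormPlus 1 F)
  | Sum.inl u => ⟨gD u, gD_mem u⟩
  | Sum.inr u => ⟨gA u, gA_mem u⟩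

theorem param_bijective : Function.Bijective (param (F := F)) := by
  constructor
  · rintro (u | u) (v | v) h
    · exact congrArg Sum.inl (gD_injective (congrArg Subtype.val h))
    · exact absurd (congrArg Subtype.val h) (gD_ne_gA u v)
    · exact absurd (congrArg Subtype.val h).symm (gD_ne_gA v u)
    · exact congrArg Sum.inr (gA_injective (congrArg Subtype.val h))
  · rintro ⟨g, hg⟩
    rcases exists_of_mem g hg with ⟨u, rfl⟩ | ⟨u, rfl⟩
    · exact ⟨Sum.inl u, rfl⟩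
    · exact ⟨Sum.inr u, rfl⟩

theorem card_iso [Fintype F] :
    Nat.card (Cfsg.isometryGroup F (Cfsg.quadFormPlus 1 F)) = 2 * (Fintype.card F - 1) := by
  rw [← Nat.card_congr (Equiv.ofBijective _ (param_bijective (F := F))), Nat.card_sum,
    Nat.card_units, Nat.card_eq_fintype_card]
  ring

end

/-- GO^+_2(q) is dihedral of order 2(q-1). -/
theorem result {F : Type*} [Field F] [Fintype F] {q : ℕ} (hF : Fintype.card F = q) : Nonempty (Cfsg.isometryGroup F (Cfsg.quadFormPlus 1 F) ≃* DihedralGroup (q - 1)) := by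
  subst hF
  have hq : 1 < Fintype.card F := Fintype.one_lt_card
  have : NeZero (Fintype.card F - 1) := ⟨by omega⟩
  have hfin : Finite (Cfsg.isometryGroup F (Cfsg.quadFormPlus 1 F)) :=
    Finite.of_surjective _ (param_bijective (F := F)).2
  obtain ⟨ζ, hζ⟩ := IsCyclic.exists_generator (α := Fˣ)
  have hord : orderOf ζ = Fintype.card F - 1 := by
    rw [orderOf_eq_card_of_forall_mem_zpowers hζ, Nat.card_units, Nat.card_eq_fintype_card]
  apply Helper73.nonempty_mulEquiv_dihedralGroup (Fintype.card F - 1) (gDHom ζ)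
    ⟨gA 1, gA_mem 1⟩ card_iso
  · rw [orderOf_injective gDHom gDHom_injective, hord]
  · apply Subtype.ext
    change gA (1 : Fˣ) * gA 1 = 1
    rw [gA_mul_gA, inv_one, mul_one, gD_one]
  · rw [mul_inv_eq_iff_eq_mul, ← map_inv]
    apply Subtype.ext
    change gA (1 : Fˣ) * gD ζ = gD ζ⁻¹ * gA 1
    rw [gA_mul_gD, gD_mul_gA, one_mul, mul_one]
  · intro hmem
    rw [Subgroup.mem_zpowers_iff] at hmem
    obtain ⟨k, hk⟩ := hmem
    rw [← map_zpow] at hk
    exact gD_ne_gA (ζ ^ k) 1 (congrArg Subtype.val hk)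

end Cfsg.Agent.S0305
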