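import Cfsg.Statements.S0188
import Mathlib
import Cfsg.Agent.Helper15.CharInner
import Cfsg.Agent.Helper80.CharOrtho
import Cfsg.Agent.Helper79.Basic

set_option autoImplicit false
open Cfsg

namespace Cfsg.Agent.S0188

open scoped ComplexConjugate

/-- The outer product of two functions. -/
def outer {G H : Type*} (φ : G → ℂ) (ψ : H → ℂ) : G × H → ℂ := fun x => φ x.1 * ψ x.2

theorem classInner_outer {G H : Type*} [Group G] [Group H] [Fintype G] [Fintype H]
    (φ₁ φ₂ : G → ℂ) (ψ₁ ψ₂ : H → ℂ) :
    classInner (outer φ₁ ψ₁) (outer φ₂ ψ₂) = classInner φ₁ φ₂ * classInner ψ₁ ψ₂ := by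
  unfold classInner outer
  rw [Nat.card_prod, Fintype.sum_prod_type]
  have h1 : ∀ (g : G) (h : H), φ₁ g * ψ₁ h * conj (φ₂ g * ψ₂ h)
      = (φ₁ g * conj (φ₂ g)) * (ψ₁ h * conj (ψ₂ h)) := by
    intro g h
    rw [map_mul]; ring
  simp only [h1]
  rw [← Finset.sum_mul_sum]
  push_cast
  rw [mul_inv]
  ring

theorem isIrr_outer {G H : Type*} [Group G] [Group H] [Finite G] [Finite H]
    {φ : G → ℂ} {ψ : H → ℂ} (hφ : IsIrrCharacter G φ) (hψ : IsIrrCharacter H ψ) :
    IsIrrCharacter (G × H) (outer φ ψ) := by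
  classical
  letI := Fintype.ofFinite G
  letI := Fintype.ofFinite H
  apply Agent.Helper15.isIrr_of_inner_one
  · have h1 := Agent.Helper79.isCharacter_comp (Agent.Helper79.isCharacter_of_irr hφ)
      (MonoidHom.fst G H)
    have h2 := Agent.Helper79.isCharacter_comp (Agent.Helper79.isCharacter_of_irr hψ)
      (MonoidHom.snd G H)
    exact Agent.Helper79.isCharacter_mul h1 h2
  · rw [classInner_outer, Agent.Helper15.irr_inner_self hφ, Agent.Helper15.irr_inner_self hψ,
      one_mul]

/-- The irreducible complex characters of G × H are precisely the functions (g, h) ↦ φ g * ψ h with φ, ψ irreducible characters of G and H. -/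
theorem result {G : Type*} [Group G] [Finite G] {H : Type*} [Group H] [Finite H] (θ : G × H → ℂ) : Cfsg.IsIrrCharacter (G × H) θ ↔ ∃ (φ : G → ℂ) (ψ : H → ℂ), Cfsg.IsIrrCharacter G φ ∧ Cfsg.IsIrrCharacter H ψ ∧ θ = fun x => φ x.1 * ψ x.2 := by
  classical
  letI := Fintype.ofFinite G
  letI := Fintype.ofFinite H
  letI := Fintype.ofFinite (IrrCharacter G)
  letI := Fintype.ofFinite (IrrCharacter H)
  constructor
  · intro hθ
    by_contra hcon
    push Not at hcon
    have hzero : ∀ (φ : IrrCharacter G) (ψ : IrrCharacter H),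
        classInner θ (outer (φ : G → ℂ) (ψ : H → ℂ)) = 0 := by
      intro φ ψ
      apply Agent.Helper15.irr_inner_ne hθ (isIrr_outer φ.2 ψ.2)
      exact hcon φ ψ φ.2 ψ.2
    -- the regular character of G × H
    set R : G × H → ℂ := ∑ φ : IrrCharacter G, ∑ ψ : IrrCharacter H,
      ((φ : G → ℂ) 1 * (ψ : H → ℂ) 1) • outer (φ : G → ℂ) (ψ : H → ℂ) with hR
    have h1 : classInner θ R = 0 := by
      rw [hR, Agent.Helper15.classInner_sum_right]
      apply Finset.sum_eq_zero
      intro φ _
      rw [Agent.Helper15.classInner_sum_right]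
      apply Finset.sum_eq_zero
      intro ψ _
      rw [Agent.Helper15.classInner_smul_right, hzero, mul_zero]
    have hRval : ∀ x : G × H, R x = (if x.1 = 1 then (Fintype.card G : ℂ) else 0) *
        (if x.2 = 1 then (Fintype.card H : ℂ) else 0) := by
      intro x
      rw [← Agent.Helper80.irr_sum_degree_mul, ← Agent.Helper80.irr_sum_degree_mul,
        Finset.sum_mul_sum, hR]
      simp only [Finset.sum_apply, Pi.smul_apply, outer, smul_eq_mul]
      apply Finset.sum_congr rfl
      intro φ _
      apply Finset.sum_congr rfl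
      intro ψ _
      ring
    have h2 : classInner θ R = θ 1 := by
      unfold classInner
      rw [Finset.sum_eq_single (1 : G × H)]
      · rw [hRval]
        simp only [Prod.fst_one, Prod.snd_one, if_true]
        rw [Nat.card_prod, Nat.card_eq_fintype_card, Nat.card_eq_fintype_card]
        have hG : (Fintype.card G : ℂ) ≠ 0 := by exact_mod_cast Fintype.card_ne_zero
        have hH : (Fintype.card H : ℂ) ≠ 0 := by exact_mod_cast Fintype.card_ne_zero
        simp only [map_mul, map_natCast]
        push_cast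
        field_simp
      · intro x _ hx
        rw [hRval]
        have : ¬ (x.1 = 1 ∧ x.2 = 1) := fun h => hx (Prod.ext h.1 h.2)
        by_cases hx1 : x.1 = 1
        · have hx2 : x.2 ≠ 1 := fun h => this ⟨hx1, h⟩
          simp [hx2]
        · simp [hx1]
      · intro h; exact absurd (Finset.mem_univ _) h
    rw [h1] at h2
    exact Agent.Helper80.irr_one_ne_zero (⟨θ, hθ⟩ : IrrCharacter (G × H)) h2.symm
  · rintro ⟨φ, ψ, hφ, hψ, rfl⟩
    exact isIrr_outer hφ hψ

end Cfsg.Agent.S0188
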