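import Cfsg.Statements.S0299
import Cfsg.Agent.Helper5.OPlus4b
import Cfsg.Agent.Helper5.OrthForms

set_option autoImplicit false
open Cfsg

namespace Cfsg.Agent.S0299

open Cfsg.Agent.Helper5 Matrix

section
variable {F : Type*} [Field F]

/-- The homomorphism `SL₂ × SL₂ → O⁺₄`. -/
noncomputable def phi (F : Type*) [Field F] :
    Matrix.SpecialLinearGroup (Fin 2) F × Matrix.SpecialLinearGroup (Fin 2) F →*
      Cfsg.isometryGroup F (Cfsg.quadFormPlus 2 F) :=
  MonoidHom.noncommCoprod ((toIso F (Cfsg.quadFormPlus 2 F)).comp (o4L F))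
    ((toIso F (Cfsg.quadFormPlus 2 F)).comp (o4R F))
    (fun a b => by
      change Commute (toIso F (Cfsg.quadFormPlus 2 F) (o4L F a))
        (toIso F (Cfsg.quadFormPlus 2 F) (o4R F b))
      exact (o4_commute a b).map (toIso F (Cfsg.quadFormPlus 2 F)))

theorem phi_apply (a b : Matrix.SpecialLinearGroup (Fin 2) F) :
    phi F (a, b) = toIso F (Cfsg.quadFormPlus 2 F) (o4L F a * o4R F b) := by
  rw [phi, MonoidHom.noncommCoprod_apply, map_mul]
  rfl

theorem phi_ker_key (a b : Matrix.SpecialLinearGroup (Fin 2) F) (h : (a, b) ∈ (phi F).ker)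
    (X : Matrix (Fin 2) (Fin 2) F) :
    (a : Matrix (Fin 2) (Fin 2) F) * X * (b : Matrix (Fin 2) (Fin 2) F)ᵀ = X := by
  rw [MonoidHom.mem_ker, phi_apply] at h
  have h1 : o4L F a * o4R F b = 1 := toIso_injective _ (by rw [h, map_one])
  have h2 : m2L (a : Matrix (Fin 2) (Fin 2) F) * m2R (b : Matrix (Fin 2) (Fin 2) F) = 1 := by
    have := congrArg (fun u : isoU F (Cfsg.quadFormPlus 2 F) =>
      ((u : (Module.End F (Fin 2 ⊕ Fin 2 → F))ˣ) : Module.End F (Fin 2 ⊕ Fin 2 → F))) h1
    exact this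
  have h3 := congrArg (m2C F) (LinearMap.congr_fun h2 (m2K F X))
  rw [Module.End.mul_apply, m2L_apply, m2R_apply, m2C_K, m2C_K, m2C_K] at h3
  rw [mul_assoc]
  exact h3.trans (m2C_K X)

theorem phi_ker_center (a b : Matrix.SpecialLinearGroup (Fin 2) F) (h : (a, b) ∈ (phi F).ker) :
    a ∈ Subgroup.center (Matrix.SpecialLinearGroup (Fin 2) F) := by
  have key := phi_ker_key a b h
  have hAB : (a : Matrix (Fin 2) (Fin 2) F) * (b : Matrix (Fin 2) (Fin 2) F)ᵀ = 1 := by
    have := key 1
    rw [mul_one] at this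
    exact this
  have hBA : (b : Matrix (Fin 2) (Fin 2) F)ᵀ * (a : Matrix (Fin 2) (Fin 2) F) = 1 :=
    mul_eq_one_comm.1 hAB
  rw [Subgroup.mem_center_iff]
  intro g
  apply Subtype.ext
  change (g : Matrix (Fin 2) (Fin 2) F) * (a : Matrix (Fin 2) (Fin 2) F) =
    (a : Matrix (Fin 2) (Fin 2) F) * (g : Matrix (Fin 2) (Fin 2) F)
  calc (g : Matrix (Fin 2) (Fin 2) F) * (a : Matrix (Fin 2) (Fin 2) F)
      = ((a : Matrix (Fin 2) (Fin 2) F) * (g : Matrix (Fin 2) (Fin 2) F) *
          (b : Matrix (Fin 2) (Fin 2) F)ᵀ) * (a : Matrix (Fin 2) (Fin 2) F) := by rw [key]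
    _ = (a : Matrix (Fin 2) (Fin 2) F) * (g : Matrix (Fin 2) (Fin 2) F) := by
        rw [mul_assoc, hBA, mul_one]

theorem card_phi_ker_le [Finite F] : Nat.card (phi F).ker ≤
    Nat.card (Subgroup.center (Matrix.SpecialLinearGroup (Fin 2) F)) := by
  let f : (phi F).ker → Subgroup.center (Matrix.SpecialLinearGroup (Fin 2) F) := fun x =>
    ⟨x.1.1, phi_ker_center x.1.1 x.1.2 x.2⟩
  apply Nat.card_le_card_of_injective f
  intro x y hxy
  have h1 : x.1.1 = y.1.1 := congrArg Subtype.val hxy
  have kx := phi_ker_key x.1.1 x.1.2 x.2 1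
  have ky := phi_ker_key y.1.1 y.1.2 y.2 1
  rw [mul_one] at kx ky
  rw [← h1] at ky
  have kx' := mul_eq_one_comm.1 kx
  have h2 : (x.1.2 : Matrix (Fin 2) (Fin 2) F)ᵀ = (y.1.2 : Matrix (Fin 2) (Fin 2) F)ᵀ := by
    calc (x.1.2 : Matrix (Fin 2) (Fin 2) F)ᵀ
        = (x.1.2 : Matrix (Fin 2) (Fin 2) F)ᵀ * ((x.1.1 : Matrix (Fin 2) (Fin 2) F) *
            (y.1.2 : Matrix (Fin 2) (Fin 2) F)ᵀ) := by rw [ky, mul_one]
      _ = (y.1.2 : Matrix (Fin 2) (Fin 2) F)ᵀ := by rw [← mul_assoc, kx', one_mul]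
  have h3 : x.1.2 = y.1.2 := Subtype.ext (Matrix.transpose_injective h2)
  exact Subtype.ext (Prod.ext h1 h3)

end

/-- PΩ^+_4(q) is isomorphic to PSL_2(q) × PSL_2(q). -/
theorem result {F : Type*} [Field F] [Fintype F] (hF : 3 ≤ Fintype.card F) : Nonempty (Cfsg.POmega F (Cfsg.quadFormPlus 2 F) ≃* Matrix.ProjectiveSpecialLinearGroup (Fin 2) F × Matrix.ProjectiveSpecialLinearGroup (Fin 2) F) := by
  classical
  have hc : ∃ c : F, c ≠ 0 ∧ c ≠ 1 := by
    by_contra hcon
    push Not at hcon
    have : Fintype.card F ≤ 2 := by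
      calc Fintype.card F = (Finset.univ : Finset F).card := rfl
        _ ≤ ({0, 1} : Finset F).card := Finset.card_le_card (fun x _ => by
            by_cases hx : x = 0
            · simp [hx]
            · simp [hcon x hx])
        _ ≤ 2 := Finset.card_le_two
    omega
  have hge : (phi F).range ≤ commutator (Cfsg.isometryGroup F (Cfsg.quadFormPlus 2 F)) := by
    rintro _ ⟨⟨a, b⟩, rfl⟩
    rw [phi_apply]
    exact map_mem_commutator _
      (Subgroup.mul_mem _ (o4L_mem_commutator hc a) (o4R_mem_commutator hc b))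
  have hcard : Nat.card (Cfsg.isometryGroup F (Cfsg.quadFormPlus 2 F)) =
      2 * Nat.card (Matrix.SpecialLinearGroup (Fin 2) F × Matrix.SpecialLinearGroup (Fin 2) F) := by
    rw [card_GO_plus 2 (by norm_num), Nat.card_prod, card_SL2]
    simp
    ring
  have hidx := index_range_eq_mul (phi F) 2 hcard
  have hker := card_phi_ker_le (F := F)
  have hidx4 : (phi F).range.index ≤ 4 := by
    rw [hidx]
    by_cases h2 : (2 : F) = 0
    · rw [center_SL2_eq_bot h2, Subgroup.card_bot] at hker
      omega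
    · rw [card_center_SL2 h2] at hker
      omega
  have hnormal : (phi F).range.Normal := by
    by_cases h2 : (2 : F) = 0
    · rw [center_SL2_eq_bot h2, Subgroup.card_bot] at hker
      have h1 : Nat.card (phi F).ker = 1 := le_antisymm hker Nat.card_pos
      exact Subgroup.normal_of_index_eq_two (by rw [hidx, h1])
    · refine normal_of_index_le_four_of_conj _
        (detHom (Cfsg.isometryGroup F (Cfsg.quadFormPlus 2 F))).ker
        (hge.trans (commutator_le_detHom_ker _)) hidx4
        (toIso F (Cfsg.quadFormPlus 2 F) (o4T F)) ?_ ?_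
      · intro hτ
        rw [MonoidHom.mem_ker] at hτ
        have h3 := congrArg Units.val hτ
        rw [detHom_coe] at h3
        change Matrix.det (LinearMap.toMatrix' (m2T F)) = 1 at h3
        rw [LinearMap.det_toMatrix', det_m2T] at h3
        exact h2 (by linear_combination -h3)
      · rintro _ ⟨⟨a, b⟩, rfl⟩
        refine ⟨(b, a), ?_⟩
        rw [phi_apply, phi_apply, ← map_inv, ← map_mul, ← map_mul]
        congr 1
        rw [o4T_inv, o4L_eq_conj b, o4R_eq_conj a, o4T_inv]
        have hcomm := (o4_commute a b).eq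
        calc o4T F * o4R F b * o4T F * (o4T F * o4L F a * o4T F)
            = o4T F * o4R F b * (o4T F * o4T F) * o4L F a * o4T F := by simp only [mul_assoc]
          _ = o4T F * (o4L F a * o4R F b) * o4T F := by
              rw [o4T_mul_self, mul_one, hcomm]
              simp only [mul_assoc]
  have hle := commutator_le_of_normal_index_le_four (phi F).range hidx4
  have hrange := le_antisymm hge hle
  refine nonempty_commutator_quot_center (phi F) hrange
    (MonoidHom.prodMap (QuotientGroup.mk' (Subgroup.center (Matrix.SpecialLinearGroup (Fin 2) F)))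
      (QuotientGroup.mk' (Subgroup.center (Matrix.SpecialLinearGroup (Fin 2) F)))) ?_ ?_
  · rintro ⟨x, y⟩
    obtain ⟨a, rfl⟩ := QuotientGroup.mk'_surjective _ x
    obtain ⟨b, rfl⟩ := QuotientGroup.mk'_surjective _ y
    exact ⟨(a, b), rfl⟩
  · rintro ⟨a, b⟩
    rw [MonoidHom.prodMap_def, MonoidHom.prod_apply, Prod.mk_eq_one]
    change ((a : Matrix.SpecialLinearGroup (Fin 2) F ⧸ Subgroup.center _) = 1 ∧
      (b : Matrix.SpecialLinearGroup (Fin 2) F ⧸ Subgroup.center _) = 1) ↔ _
    rw [QuotientGroup.eq_one_iff, QuotientGroup.eq_one_iff]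
    constructor
    · rintro ⟨ha, hb⟩ ⟨a', b'⟩
      rw [Prod.mk_mul_mk, Prod.mk_mul_mk, Subgroup.mem_center_iff.1 ha a',
        Subgroup.mem_center_iff.1 hb b']
    · intro h
      constructor
      · rw [Subgroup.mem_center_iff]
        intro a'
        have h1 := h (a', 1)
        rw [Prod.mk_mul_mk, Prod.mk_mul_mk, phi_apply, phi_apply, mul_one, one_mul] at h1
        have h2 := toIso_injective _ h1
        exact (o4L_injective (mul_right_cancel h2)).symm
      · rw [Subgroup.mem_center_iff]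
        intro b'
        have h1 := h (1, b')
        rw [Prod.mk_mul_mk, Prod.mk_mul_mk, phi_apply, phi_apply, mul_one, one_mul] at h1
        have h2 := toIso_injective _ h1
        exact (o4R_injective (mul_left_cancel h2)).symm

end Cfsg.Agent.S0299
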