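import Cfsg.Statements.S0568
import Mathlib
import Cfsg.Agent.Helper9.HallSystem
import Cfsg.Agent.Helper1.MinNormal
import Cfsg.Agent.Helper10.PAction
import Cfsg.Agent.Helper50.CD

set_option autoImplicit false
open Cfsg

namespace Cfsg.Agent.S0568

open scoped commutatorElement

universe u

/-- A system normalizer avoids a non-central minimal normal subgroup. -/
theorem ecc {G : Type u} [Group G] [Finite G] [Group.IsSolvable G] (K : Nat.Primes → Subgroup G)
    (hK : Cfsg.IsComplementSystem K) (B : Subgroup G) [hBn : B.Normal] (hB : B ≠ ⊥)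
    (hmin : ∀ M : Subgroup G, M.Normal → M ≤ B → M = ⊥ ∨ M = B)
    (hnc : ¬ B ≤ Subgroup.center G) : B ⊓ Cfsg.systemNormalizer K = ⊥ := by
  obtain ⟨-, p, hp, hBp⟩ := Helper1.minNormal_elemAbelian B hB hmin
  haveI : Fact p.Prime := ⟨hp⟩
  have hBpg : IsPGroup p B := fun b => ⟨1, by
    rw [pow_one]; exact Subtype.ext (by simpa using hBp b b.2)⟩
  have hCn : (Subgroup.centralizer (B : Set G)).Normal := inferInstance
  have hCtop : Subgroup.centralizer (B : Set G) ≠ ⊤ := by
    intro h
    apply hnc
    intro b hb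
    rw [Subgroup.mem_center_iff]
    intro g
    have hg : g ∈ Subgroup.centralizer (B : Set G) := h ▸ Subgroup.mem_top g
    exact (hg b hb).symm
  have hbot : (⊤ : Subgroup (G ⧸ Subgroup.centralizer (B : Set G))) ≠ ⊥ := by
    intro h
    apply hCtop
    exact QuotientGroup.subgroup_eq_top_of_subsingleton _
      (Subgroup.subsingleton_iff.mp (subsingleton_of_bot_eq_top h.symm))
  obtain ⟨F', hF'n, -, hF'0, hF'min⟩ := Helper1.exists_minNormal
    (⊤ : Subgroup (G ⧸ Subgroup.centralizer (B : Set G))) hbot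
  haveI := hF'n
  obtain ⟨-, q, hq, hF'q⟩ := Helper1.minNormal_elemAbelian F' hF'0 hF'min
  haveI : Fact q.Prime := ⟨hq⟩
  have hFn : (F'.comap (QuotientGroup.mk' (Subgroup.centralizer (B : Set G)))).Normal :=
    hF'n.comap _
  have hFC : ¬ F'.comap (QuotientGroup.mk' (Subgroup.centralizer (B : Set G))) ≤
      Subgroup.centralizer (B : Set G) := by
    intro h
    apply hF'0
    rw [eq_bot_iff]
    intro x hx
    obtain ⟨g, rfl⟩ := QuotientGroup.mk'_surjective (Subgroup.centralizer (B : Set G)) x
    have hg : g ∈ Subgroup.centralizer (B : Set G) := h hx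
    rw [Subgroup.mem_bot]
    exact (QuotientGroup.eq_one_iff g).mpr hg
  have hFpow : ∀ a ∈ F'.comap (QuotientGroup.mk' (Subgroup.centralizer (B : Set G))),
      a ^ q ∈ Subgroup.centralizer (B : Set G) := by
    intro a ha
    have h1 := hF'q _ ha
    rw [← map_pow] at h1
    exact (QuotientGroup.eq_one_iff _).mp h1
  have hqp : q ≠ p := by
    rintro rfl
    have h1 : ⁅B, F'.comap (QuotientGroup.mk' (Subgroup.centralizer (B : Set G)))⁆ ≤ B :=
      Subgroup.commutator_le_left B _
    haveI := hFn
    have h2 : (⁅B, F'.comap (QuotientGroup.mk' (Subgroup.centralizer (B : Set G)))⁆).Normal :=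
      Subgroup.commutator_normal B _
    rcases hmin _ h2 h1 with h | h
    · apply hFC
      exact Subgroup.le_centralizer_iff.mp (Subgroup.commutator_eq_bot_iff_le_centralizer.mp h)
    · apply hB
      exact Helper10.eq_bot_of_le_commutator_of_pow_mem B _ B hBpg
        (by rw [Subgroup.normalizer_eq_top]; exact le_top) hFpow le_rfl h.ge
  have hFK : F'.comap (QuotientGroup.mk' (Subgroup.centralizer (B : Set G))) ≤
      K ⟨p, hp⟩ ⊔ Subgroup.centralizer (B : Set G) := by
    have hK' := Helper9.cs_map hK (Subgroup.centralizer (B : Set G))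
    have h1 : ((K ⟨p, hp⟩).map (QuotientGroup.mk' (Subgroup.centralizer (B : Set G)))).relIndex F' ∣
        ((K ⟨p, hp⟩).map (QuotientGroup.mk' (Subgroup.centralizer (B : Set G)))).index :=
      Helper9.relIndex_dvd_index_of_normal_right _ _
    have h1' := hK' ⟨p, hp⟩
    simp only at h1'
    rw [h1'] at h1
    have h2 : ((K ⟨p, hp⟩).map (QuotientGroup.mk' (Subgroup.centralizer (B : Set G)))).relIndex F' ∣
        Nat.card F' := Subgroup.relIndex_dvd_card _ _
    have hF'pg : IsPGroup q F' := fun b => ⟨1, by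
      rw [pow_one]; exact Subtype.ext (by simpa using hF'q b b.2)⟩
    obtain ⟨f, hf⟩ := (IsPGroup.iff_card (p := q)).mp hF'pg
    rw [hf] at h2
    have hcop : Nat.Coprime (p ^ (Nat.card (G ⧸ Subgroup.centralizer (B : Set G))).factorization p)
        (q ^ f) := Nat.Coprime.pow _ _ ((Nat.coprime_primes hp hq).mpr (Ne.symm hqp))
    have h3 : ((K ⟨p, hp⟩).map (QuotientGroup.mk' (Subgroup.centralizer (B : Set G)))).relIndex F'
        = 1 := Nat.Coprime.eq_one_of_dvd (Nat.Coprime.coprime_dvd_left h1 hcop) h2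
    have h4 : F' ≤ (K ⟨p, hp⟩).map (QuotientGroup.mk' (Subgroup.centralizer (B : Set G))) :=
      Subgroup.relIndex_eq_one.mp h3
    calc F'.comap (QuotientGroup.mk' (Subgroup.centralizer (B : Set G)))
        ≤ ((K ⟨p, hp⟩).map (QuotientGroup.mk' (Subgroup.centralizer (B : Set G)))).comap
            (QuotientGroup.mk' (Subgroup.centralizer (B : Set G))) := Subgroup.comap_mono h4
      _ = K ⟨p, hp⟩ ⊔ Subgroup.centralizer (B : Set G) := Helper1.comap_map_mk' _ _
  have hBK : B ⊓ K ⟨p, hp⟩ = ⊥ := by
    apply Subgroup.inf_eq_bot_of_coprime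
    obtain ⟨k, hk⟩ := (IsPGroup.iff_card (p := p)).mp hBpg
    rw [hk]
    exact Nat.Coprime.pow_left k (Helper9.cs_card_coprime hK ⟨p, hp⟩).symm
  have key : B ⊓ Cfsg.systemNormalizer K ≤
      B ⊓ Subgroup.centralizer
        ((F'.comap (QuotientGroup.mk' (Subgroup.centralizer (B : Set G))) : Subgroup G) : Set G) := by
    rintro x ⟨hxB, hxD⟩
    refine ⟨hxB, ?_⟩
    have hxN := (Helper9.mem_systemNormalizer.mp hxD) ⟨p, hp⟩
    have hxK : x ∈ Subgroup.centralizer ((K ⟨p, hp⟩ : Subgroup G) : Set G) := by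
      intro k hk
      have h1 : ⁅x, k⁆ ∈ K ⟨p, hp⟩ := by
        rw [commutatorElement_def]
        have := (Subgroup.mem_normalizer_iff.mp hxN k).mp hk
        exact Subgroup.mul_mem _ this (Subgroup.inv_mem _ hk)
      have h2 : ⁅x, k⁆ ∈ B := by
        have e : ⁅x, k⁆ = x * (k * x⁻¹ * k⁻¹) := by rw [commutatorElement_def]; group
        rw [e]
        exact B.mul_mem hxB (hBn.conj_mem x⁻¹ (B.inv_mem hxB) k)
      have h3 : ⁅x, k⁆ = 1 := by
        have : ⁅x, k⁆ ∈ B ⊓ K ⟨p, hp⟩ := ⟨h2, h1⟩
        rw [hBK] at this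
        exact Subgroup.mem_bot.mp this
      exact (commutatorElement_eq_one_iff_commute.mp h3).eq.symm
    have hxC : x ∈ Subgroup.centralizer ((Subgroup.centralizer (B : Set G) : Subgroup G) : Set G) := by
      intro c hc
      exact (hc x hxB).symm
    have hx2 : x ∈ Subgroup.centralizer
        ((K ⟨p, hp⟩ ⊔ Subgroup.centralizer (B : Set G) : Subgroup G) : Set G) := by
      rw [Helper50.centralizer_sup]; exact ⟨hxK, hxC⟩
    exact Subgroup.centralizer_le hFK hx2
  haveI := hFn
  have hZn : (B ⊓ Subgroup.centralizer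
      ((F'.comap (QuotientGroup.mk' (Subgroup.centralizer (B : Set G))) : Subgroup G) : Set G)).Normal :=
    inferInstance
  rcases hmin _ hZn inf_le_left with h | h
  · exact le_bot_iff.mp (h ▸ key)
  · exfalso
    apply hFC
    have h1 : B ≤ Subgroup.centralizer
        ((F'.comap (QuotientGroup.mk' (Subgroup.centralizer (B : Set G))) : Subgroup G) : Set G) :=
      inf_eq_left.mp h
    exact Subgroup.le_centralizer_iff.mp h1

/-- Let D be the system normalizer of a Hall complement system of a finite solvable group G, and let A < B be normal subgroups with no normal subgroup of G strictly between them (a chief factor). If G centralizes B modulo A then B ≤ A ⊔ D (D covers the factor); otherwise B ∩ D ≤ A (D avoids it). -/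
theorem result {G : Type*} [Group G] [Finite G] [Group.IsSolvable G] (K : Nat.Primes → Subgroup G) (hK : Cfsg.IsComplementSystem K) (A B : Subgroup G) [A.Normal] [B.Normal] (hAB : A < B) (hchief : ∀ N : Subgroup G, N.Normal → A ≤ N → N ≤ B → N = A ∨ N = B) : (⁅B, (⊤ : Subgroup G)⁆ ≤ A → B ≤ A ⊔ Cfsg.systemNormalizer K) ∧ (¬ ⁅B, (⊤ : Subgroup G)⁆ ≤ A → B ⊓ Cfsg.systemNormalizer K ≤ A) := by
  have hK' := Helper9.cs_map hK A
  have hD' := Helper9.cs_systemNormalizer_map hK A
  constructor
  · intro hcen b hb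
    have h1 : QuotientGroup.mk' A b ∈
        Cfsg.systemNormalizer (fun p => (K p).map (QuotientGroup.mk' A)) := by
      rw [Helper9.mem_systemNormalizer]
      intro q
      apply Subgroup.center_le_normalizer
      rw [Subgroup.mem_center_iff]
      intro x
      obtain ⟨g, rfl⟩ := QuotientGroup.mk'_surjective A x
      rw [← map_mul, ← map_mul]
      apply QuotientGroup.eq.mpr
      have h2 : ⁅b⁻¹, g⁻¹⁆ ∈ A :=
        hcen (Subgroup.commutator_mem_commutator (B.inv_mem hb) (Subgroup.mem_top _))
      have e : (g * b)⁻¹ * (b * g) = ⁅b⁻¹, g⁻¹⁆ := by rw [commutatorElement_def]; group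
      rw [e]; exact h2
    rw [hD'] at h1
    obtain ⟨d, hd, hdb⟩ := h1
    have h2 : d⁻¹ * b ∈ A := QuotientGroup.eq.mp hdb
    have e : b = d * (d⁻¹ * b) := by group
    rw [e]
    exact Subgroup.mul_mem _ (le_sup_right (a := A) hd)
      (le_sup_left (b := Cfsg.systemNormalizer K) h2)
  · intro hnc x hx
    have hBn' : (B.map (QuotientGroup.mk' A)).Normal :=
      Subgroup.Normal.map inferInstance _ (QuotientGroup.mk'_surjective A)
    have hB0 : B.map (QuotientGroup.mk' A) ≠ ⊥ := by
      intro h
      rw [Subgroup.map_eq_bot_iff, QuotientGroup.ker_mk'] at h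
      exact (not_le_of_gt hAB) h
    have hBmin : ∀ M : Subgroup (G ⧸ A), M.Normal → M ≤ B.map (QuotientGroup.mk' A) →
        M = ⊥ ∨ M = B.map (QuotientGroup.mk' A) := by
      intro M hM hMB
      have hN : (M.comap (QuotientGroup.mk' A)).Normal := hM.comap _
      have hAN : A ≤ M.comap (QuotientGroup.mk' A) := by
        intro a ha
        rw [Subgroup.mem_comap]
        have : QuotientGroup.mk' A a = 1 := (QuotientGroup.eq_one_iff a).mpr ha
        rw [this]; exact M.one_mem
      have hNB : M.comap (QuotientGroup.mk' A) ≤ B := by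
        calc M.comap (QuotientGroup.mk' A)
            ≤ (B.map (QuotientGroup.mk' A)).comap (QuotientGroup.mk' A) := Subgroup.comap_mono hMB
          _ = B ⊔ A := Helper1.comap_map_mk' A B
          _ = B := sup_eq_left.mpr hAB.le
      have hM' : M = (M.comap (QuotientGroup.mk' A)).map (QuotientGroup.mk' A) :=
        (Subgroup.map_comap_eq_self_of_surjective (QuotientGroup.mk'_surjective A) M).symm
      rcases hchief _ hN hAN hNB with h | h
      · left
        rw [hM', h, QuotientGroup.map_mk'_self]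
      · right
        rw [hM', h]
    have hBnc : ¬ B.map (QuotientGroup.mk' A) ≤ Subgroup.center (G ⧸ A) := by
      intro h
      apply hnc
      rw [Subgroup.commutator_le]
      intro b hb g _
      have h1 : QuotientGroup.mk' A b ∈ Subgroup.center (G ⧸ A) :=
        h (Subgroup.mem_map_of_mem _ hb)
      have h2 : QuotientGroup.mk' A ⁅b, g⁆ = 1 := by
        rw [map_commutatorElement, commutatorElement_eq_one_iff_commute]
        exact (Subgroup.mem_center_iff.mp h1 (QuotientGroup.mk' A g)).symm
      exact (QuotientGroup.eq_one_iff _).mp h2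
    have hmemB : QuotientGroup.mk' A x ∈ (B.map (QuotientGroup.mk' A)) ⊓
        Cfsg.systemNormalizer (fun p => (K p).map (QuotientGroup.mk' A)) := by
      refine ⟨Subgroup.mem_map_of_mem _ hx.1, ?_⟩
      rw [hD']; exact Subgroup.mem_map_of_mem _ hx.2
    haveI := hBn'
    rw [ecc (fun p => (K p).map (QuotientGroup.mk' A)) hK' (B.map (QuotientGroup.mk' A)) hB0 hBmin
      hBnc, Subgroup.mem_bot] at hmemB
    exact (QuotientGroup.eq_one_iff x).mp hmemB

end Cfsg.Agent.S0568
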