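import Cfsg.Statements.S0570
import Mathlib
import Cfsg.Agent.S0568
import Cfsg.Agent.Helper9.HallSystem
import Cfsg.Agent.Helper1.Carter
import Cfsg.Agent.Helper1.Hall
import Cfsg.Agent.Helper1.SZGen
import Cfsg.Agent.Helper23.FittingHall
import Cfsg.Agent.Helper10.Conj
import Cfsg.Agent.Helper50.CD

set_option autoImplicit false
open Cfsg

namespace Cfsg.Agent.S0570

open scoped commutatorElement
open scoped Pointwise

universe u

/-- In a finite nilpotent group every Hall subgroup is normal. -/
theorem normal_of_hall_of_nilpotent {X : Type*} [Group X] [Finite X] [Group.IsNilpotent X]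
    (H : Subgroup X) (hH : (Nat.card H).Coprime H.index) : H.Normal := by
  have key : Subgroup.normalizer ((Subgroup.normalizer (H : Set X) : Subgroup X) : Set X) =
      Subgroup.normalizer (H : Set X) := by
    apply le_antisymm _ Subgroup.le_normalizer
    intro g hg
    apply Helper10.mem_normalizer_of_conj_smul_eq
    apply Helper10.conj_smul_eq_of_ge
    intro y hy
    have hord : orderOf y ∣ Nat.card H := by
      rw [← Helper10.card_conj_smul g H, ← Subgroup.orderOf_mk y hy]
      exact orderOf_dvd_natCard _
    rw [Helper10.mem_conj_smul_iff] at hy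
    have hyM : y ∈ Subgroup.normalizer (H : Set X) := by
      have := (Subgroup.mem_normalizer_iff.mp hg (g⁻¹ * y * g)).mp (Subgroup.le_normalizer hy)
      have e : g * (g⁻¹ * y * g) * g⁻¹ = y := by group
      rwa [e] at this
    haveI : (H.subgroupOf (Subgroup.normalizer (H : Set X))).Normal :=
      Subgroup.normal_in_normalizer
    have hcop : (orderOf (⟨y, hyM⟩ : ↥(Subgroup.normalizer (H : Set X)))).Coprime
        (H.subgroupOf (Subgroup.normalizer (H : Set X))).index := by
      rw [Subgroup.orderOf_mk]
      exact Nat.Coprime.coprime_dvd_left hord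
        (Nat.Coprime.coprime_dvd_right (Subgroup.relIndex_dvd_index_of_le Subgroup.le_normalizer) hH)
    have := Helper23.mem_of_coprime_orderOf_index _ _ hcop
    exact Subgroup.mem_subgroupOf.mp this
  have htop : Subgroup.normalizer (H : Set X) = ⊤ :=
    normalizerCondition_iff_only_full_group_self_normalizing.mp
      Group.normalizerCondition_of_isNilpotent _ key
  exact Subgroup.normalizer_eq_top_iff.mp htop

/-- In a nilpotent group the system normalizer is everything. -/
theorem systemNormalizer_eq_top_of_nilpotent {X : Type u} [Group X] [Finite X]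
    [Group.IsNilpotent X] (K : Nat.Primes → Subgroup X) (hK : Cfsg.IsComplementSystem K) :
    Cfsg.systemNormalizer K = ⊤ := by
  rw [eq_top_iff]
  intro x _
  rw [Helper9.mem_systemNormalizer]
  intro p
  haveI : (K p).Normal := normal_of_hall_of_nilpotent (K p)
    (by rw [hK p]; exact Nat.Coprime.pow_right _ (Helper9.cs_card_coprime hK p))
  rw [Subgroup.normalizer_eq_top]
  trivial

/-- A minimal normal subgroup inside a nilpotent normal subgroup `F` is centralized by `F`. -/
theorem centralized_of_minNormal {G : Type*} [Group G] (F N : Subgroup G) [F.Normal] [N.Normal]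
    (hF : Group.IsNilpotent F) (hNF : N ≤ F)
    (hmin : ∀ M : Subgroup G, M.Normal → M ≤ N → M = ⊥ ∨ M = N) (hN : N ≠ ⊥) :
    F ≤ Subgroup.centralizer (N : Set G) := by
  have h1 : ⁅N, F⁆ ≤ N := Subgroup.commutator_le_left N F
  rcases hmin ⁅N, F⁆ (Subgroup.commutator_normal N F) h1 with h | h
  · exact Subgroup.le_centralizer_iff.mp (Subgroup.commutator_eq_bot_iff_le_centralizer.mp h)
  · exfalso
    obtain ⟨n, hn⟩ := (Subgroup.isNilpotent_iff_lowerCentralSeries F).mp hF
    have hall : ∀ k, N ≤ F.lowerCentralSeries k := by
      intro k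
      induction k with
      | zero => exact hNF
      | succ k ih =>
        rw [Subgroup.lowerCentralSeries_succ]
        calc N = ⁅N, F⁆ := h.symm
          _ ≤ ⁅F.lowerCentralSeries k, F⁆ := Subgroup.commutator_mono ih le_rfl
    exact hN (le_bot_iff.mp (hn ▸ hall n))

theorem cs_exists (G : Type u) [Group G] [Finite G] [Group.IsSolvable G] :
    ∃ K : Nat.Primes → Subgroup G, Cfsg.IsComplementSystem K := by
  have h : ∀ p : Nat.Primes, ∃ H : Subgroup G,
      H.index = (p : ℕ) ^ (Nat.card G).factorization p := by
    intro p
    have hG : Nat.card G = (Nat.card G / (p : ℕ) ^ (Nat.card G).factorization p) *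
        (p : ℕ) ^ (Nat.card G).factorization p :=
      (Nat.div_mul_cancel (Nat.ordProj_dvd _ _)).symm
    have hcop : (Nat.card G / (p : ℕ) ^ (Nat.card G).factorization p).Coprime
        ((p : ℕ) ^ (Nat.card G).factorization p) :=
      Nat.Coprime.pow_right _ (Nat.coprime_ordCompl p.2 Nat.card_pos.ne').symm
    obtain ⟨H, hH⟩ := Helper1.hall_exists_aux _ G _ _ rfl hG hcop
    exact ⟨H, Helper1.hall_index hG H hH⟩
  exact ⟨fun p => (h p).choose, fun p => (h p).choose_spec⟩

theorem systemNormalizer_conj {G : Type u} [Group G] (K : Nat.Primes → Subgroup G) (g : G) :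
    Cfsg.systemNormalizer (fun p => MulAut.conj g • K p) =
      MulAut.conj g • Cfsg.systemNormalizer K := by
  ext x
  rw [Helper9.mem_systemNormalizer, Helper10.mem_conj_smul_iff, Helper9.mem_systemNormalizer]
  refine forall_congr' (fun p => ?_)
  rw [Helper10.mem_normalizer_iff_conj_smul_eq, Helper10.mem_normalizer_iff_conj_smul_eq,
    Helper10.conj_smul_smul]
  constructor
  · intro h
    have h2 : MulAut.conj g⁻¹ • MulAut.conj (x * g) • K p = MulAut.conj g⁻¹ • MulAut.conj g • K p :=
      congrArg (fun S => MulAut.conj g⁻¹ • S) h
    rw [Helper10.conj_smul_smul, Helper10.conj_inv_smul_smul] at h2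
    rw [← h2]
    congr 2
    group
  · intro h
    have h2 : MulAut.conj g • MulAut.conj (g⁻¹ * x * g) • K p = MulAut.conj g • K p :=
      congrArg (fun S => MulAut.conj g • S) h
    rw [Helper10.conj_smul_smul] at h2
    rw [← h2]
    congr 2
    group

/-- System normalizers are self-normalizing in groups of nilpotent length at most two. -/
theorem selfnorm (n : ℕ) : ∀ (G : Type u) [Group G] [Finite G] [Group.IsSolvable G],
    Nat.card G = n → ∀ (F : Subgroup G) [F.Normal], Group.IsNilpotent F →
    Group.IsNilpotent (G ⧸ F) → ∀ K : Nat.Primes → Subgroup G, Cfsg.IsComplementSystem K →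
      Subgroup.normalizer ((Cfsg.systemNormalizer K : Subgroup G) : Set G) ≤
        Cfsg.systemNormalizer K := by
  induction n using Nat.strong_induction_on with
  | _ n ih =>
    intro G _ _ _ hn F _ hF hGF K hK
    by_cases hF0 : F = ⊥
    · subst hF0
      haveI := hGF
      haveI hGnil : Group.IsNilpotent G := Group.nilpotent_of_mulEquiv QuotientGroup.quotientBot
      rw [systemNormalizer_eq_top_of_nilpotent K hK]
      exact le_top
    · obtain ⟨N, hNn, hNF, hN0, hNmin⟩ := Helper1.exists_minNormal F hF0
      haveI := hNn
      have hFN : F ≤ Subgroup.centralizer (N : Set G) :=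
        centralized_of_minNormal F N hF hNF hNmin hN0
      have hK' := Helper9.cs_map hK N
      have hD' := Helper9.cs_systemNormalizer_map hK N
      have hcard : Nat.card (G ⧸ N) < n := by
        rw [← hn]; exact Helper1.card_quotient_lt N hN0
      haveI hFn' : (F.map (QuotientGroup.mk' N)).Normal :=
        Subgroup.Normal.map inferInstance _ (QuotientGroup.mk'_surjective N)
      have hFnil' : Group.IsNilpotent (F.map (QuotientGroup.mk' N)) := by
        haveI := hF
        exact Group.nilpotent_of_surjective _
          (MonoidHom.subgroupMap_surjective (QuotientGroup.mk' N) F)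
      have hQnil : Group.IsNilpotent ((G ⧸ N) ⧸ F.map (QuotientGroup.mk' N)) := by
        haveI := hGF
        refine Group.nilpotent_of_surjective
          (QuotientGroup.map F (F.map (QuotientGroup.mk' N)) (QuotientGroup.mk' N)
            (Subgroup.le_comap_map _ _)) ?_
        intro y
        obtain ⟨y', rfl⟩ := QuotientGroup.mk'_surjective _ y
        obtain ⟨g, rfl⟩ := QuotientGroup.mk'_surjective N y'
        exact ⟨QuotientGroup.mk' F g, rfl⟩
      have ihq := ih _ hcard (G ⧸ N) rfl (F.map (QuotientGroup.mk' N)) hFnil' hQnil _ hK'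
      rw [hD'] at ihq
      have hND : Subgroup.normalizer ((Cfsg.systemNormalizer K : Subgroup G) : Set G) ≤
          Cfsg.systemNormalizer K ⊔ N := by
        intro x hx
        have h1 : QuotientGroup.mk' N x ∈ Subgroup.normalizer
            (((Cfsg.systemNormalizer K).map (QuotientGroup.mk' N) : Subgroup (G ⧸ N)) :
              Set (G ⧸ N)) :=
          Subgroup.le_normalizer_map _ (Subgroup.mem_map_of_mem _ hx)
        have h2 := ihq h1
        rw [← Helper1.comap_map_mk' N (Cfsg.systemNormalizer K)]
        exact h2
      by_cases hNc : N ≤ Subgroup.center G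
      · have hND' : N ≤ Cfsg.systemNormalizer K := fun x hx =>
          Helper9.mem_systemNormalizer.mpr (fun p => Subgroup.center_le_normalizer _ (hNc hx))
        rw [sup_eq_left.mpr hND'] at hND
        exact hND
      · have hecc := S0568.ecc K hK N hN0 hNmin hNc
        have hDF : Cfsg.systemNormalizer K ⊔ F = ⊤ := by
          have h1 := Helper9.cs_systemNormalizer_map hK F
          haveI := hGF
          rw [systemNormalizer_eq_top_of_nilpotent _ (Helper9.cs_map hK F)] at h1
          have h2 := congrArg (Subgroup.comap (QuotientGroup.mk' F)) h1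
          rw [Helper1.comap_map_mk', Subgroup.comap_top] at h2
          exact h2.symm
        intro x hx
        obtain ⟨d, hd, m, hm, rfl⟩ := Subgroup.mem_sup_of_normal_right.mp (hND hx)
        have hmN : m ∈ Subgroup.normalizer ((Cfsg.systemNormalizer K : Subgroup G) : Set G) := by
          have := Subgroup.mul_mem _ (Subgroup.inv_mem _ (Subgroup.le_normalizer hd)) hx
          simpa using this
        have hmD : m ∈ Subgroup.centralizer ((Cfsg.systemNormalizer K : Subgroup G) : Set G) := by
          intro d' hd'
          have h1 : ⁅m, d'⁆ ∈ Cfsg.systemNormalizer K := by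
            rw [commutatorElement_def]
            exact Subgroup.mul_mem _ ((Subgroup.mem_normalizer_iff.mp hmN d').mp hd')
              (Subgroup.inv_mem _ hd')
          have h2 : ⁅m, d'⁆ ∈ N := by
            have e : ⁅m, d'⁆ = m * (d' * m⁻¹ * d'⁻¹) := by rw [commutatorElement_def]; group
            rw [e]
            exact N.mul_mem hm (hNn.conj_mem _ (N.inv_mem hm) d')
          have h3 : ⁅m, d'⁆ = 1 := by
            have : ⁅m, d'⁆ ∈ N ⊓ Cfsg.systemNormalizer K := ⟨h2, h1⟩
            rw [hecc] at this
            exact Subgroup.mem_bot.mp this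
          exact (commutatorElement_eq_one_iff_commute.mp h3).eq.symm
        have hmF : m ∈ Subgroup.centralizer (F : Set G) := by
          intro f hf
          exact (hFN hf m hm).symm
        have hmZ : m ∈ Subgroup.center G := by
          have h1 : m ∈ Subgroup.centralizer
              ((Cfsg.systemNormalizer K ⊔ F : Subgroup G) : Set G) := by
            rw [Helper50.centralizer_sup]; exact ⟨hmD, hmF⟩
          rw [hDF] at h1
          rw [Subgroup.mem_center_iff]
          intro g
          exact h1 g (Subgroup.mem_top g)
        have hm1 : m = 1 := by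
          have hZn : (N ⊓ Subgroup.center G).Normal := inferInstance
          rcases hNmin _ hZn inf_le_left with h | h
          · have : m ∈ N ⊓ Subgroup.center G := ⟨hm, hmZ⟩
            rw [h] at this
            exact Subgroup.mem_bot.mp this
          · exact absurd (inf_eq_left.mp h) hNc
        rw [hm1, mul_one]
        exact hd

/-- Let G be a finite group with a nilpotent normal subgroup F such that G modulo F is nilpotent (nilpotent length at most two). Then a subgroup of G is a Carter subgroup if and only if it is the system normalizer of some Hall complement system. -/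
theorem result {G : Type*} [Group G] [Finite G] (F : Subgroup G) [F.Normal] (hF : Group.IsNilpotent F) (hGF : Group.IsNilpotent (G ⧸ F)) (C : Subgroup G) : Cfsg.IsCarterSubgroup C ↔ ∃ K : Nat.Primes → Subgroup G, Cfsg.IsComplementSystem K ∧ C = Cfsg.systemNormalizer K := by
  haveI : Group.IsSolvable G := by
    haveI := hF
    haveI := hGF
    exact Group.isSolvable_of_ker_le_range F.subtype (QuotientGroup.mk' F)
      (by rw [QuotientGroup.ker_mk', Subgroup.range_subtype])
  have hcar : ∀ K : Nat.Primes → Subgroup G, Cfsg.IsComplementSystem K →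
      Cfsg.IsCarterSubgroup (Cfsg.systemNormalizer K) := fun K hK =>
    ⟨Helper9.cs_systemNormalizer_nilpotent hK,
      le_antisymm (selfnorm _ G rfl F hF hGF K hK) Subgroup.le_normalizer⟩
  constructor
  · intro hC
    obtain ⟨K₀, hK₀⟩ := cs_exists G
    obtain ⟨g, hg⟩ := (Helper1.carter_aux _ G rfl).2 _ _ (hcar K₀ hK₀) hC
    exact ⟨fun p => MulAut.conj g • K₀ p, Helper9.cs_conj hK₀ g, by
      rw [systemNormalizer_conj, hg]⟩
  · rintro ⟨K, hK, rfl⟩
    exact hcar K hK

end Cfsg.Agent.S0570
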