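import Cfsg.Statements.S0253
import Cfsg.Agent.Helper41.Order60
import Cfsg.Agent.Helper5.SLCard

set_option autoImplicit false
open Cfsg

namespace Cfsg.Agent.S0253

/-- PSL_2(5) is isomorphic to A_5. -/
theorem result {F : Type*} [Field F] [Fintype F] (hF : Fintype.card F = 5) : Nonempty (Matrix.ProjectiveSpecialLinearGroup (Fin 2) F ≃* alternatingGroup (Fin 5)) := by
  classical
  have hsimple : IsSimpleGroup (Matrix.ProjectiveSpecialLinearGroup (Fin 2) F) :=
    Matrix.ProjectiveSpecialLinearGroup.rank_two_simple (by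
      rw [Nat.card_eq_fintype_card, hF]; norm_num)
  have h2 : (2 : F) ≠ 0 := by
    apply Ring.two_ne_zero
    intro h
    have := FiniteField.even_card_of_char_two h
    omega
  have hcard : Nat.card (Matrix.ProjectiveSpecialLinearGroup (Fin 2) F) = 60 := by
    have h1 := Cfsg.Agent.Helper5.card_PSL2_mul (F := F)
    rw [Cfsg.Agent.Helper5.card_center_SL2 h2, hF] at h1
    omega
  exact Cfsg.Agent.Helper41.simple_order_sixty hcard

end Cfsg.Agent.S0253
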