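import Cfsg.Statements.S0996
import Cfsg.Agent.Helper79.BRXCore
import Cfsg.Agent.Helper53.BRXZ0
import Cfsg.Agent.Helper53.BRXOP
import Cfsg.Agent.Helper19.BRXNum

set_option autoImplicit false
open Cfsg

namespace Cfsg.Agent.S0996

/-- Let G be a finite perfect group containing an element z of prime order p whose centralizer is the cyclic group it generates, and suppose the number 1 + n * p of Sylow p-subgroups satisfies n < (p + 3) / 2. Then p > 3 and G is isomorphic to the projective special linear group of dimension 2 over the field with p elements, or p - 1 is a power of 2 and G is isomorphic to that group over the field with p - 1 elements. -/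
theorem result {G : Type*} [Group G] [Finite G] (hperf : commutator G = ⊤) (p : ℕ) [Fact p.Prime] (z : G) (hz : orderOf z = p) (hC : Subgroup.centralizer ({z} : Set G) = Subgroup.zpowers z) (hn : 2 * Nat.card (Sylow p G) < (p + 1) * (p + 2)) : (∃ (F : Type) (_ : Field F) (_ : Fintype F), Fintype.card F = p ∧ 3 < p ∧ Nonempty (G ≃* Matrix.ProjectiveSpecialLinearGroup (Fin 2) F)) ∨ (∃ (m : ℕ) (F : Type) (_ : Field F) (_ : Fintype F), Fintype.card F = 2 ^ m ∧ p = 2 ^ m + 1 ∧ 3 < p ∧ Nonempty (G ≃* Matrix.ProjectiveSpecialLinearGroup (Fin 2) F)) := by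
  classical
  haveI : Fintype G := Fintype.ofFinite G
  have hpp : p.Prime := Fact.out
  obtain ⟨P, hP, hCP⟩ := Cfsg.Agent.Helper53.brn_sylow_of_elt p z hz hC
  obtain ⟨n, hSyl⟩ : ∃ n : ℕ, Nat.card (Sylow p G) = 1 + n * p := by
    have h1 : Nat.card (Sylow p G) ≡ 1 [MOD p] := card_sylow_modEq_one p G
    have h2 : 0 < Nat.card (Sylow p G) := Nat.card_pos
    have h3 := (Nat.modEq_iff_dvd' h2).mp h1.symm
    obtain ⟨c, hc⟩ := h3
    exact ⟨c, by rw [mul_comm c p]; omega⟩
  have hnF := Cfsg.Agent.Helper19.brn_few p n (by rw [← hSyl]; exact hn)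
  have hOp := Cfsg.Agent.Helper53.brn_no_core hperf P hP hCP n hSyl hnF
  exact Cfsg.Agent.Helper79.brn_core hperf p hOp P hP n hSyl hnF

end Cfsg.Agent.S0996
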