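import Cfsg.Statements.S2326
import Cfsg.Agent.S1059
import Cfsg.Agent.S1060
import Cfsg.Agent.S1061
import Cfsg.Agent.S1062
import Cfsg.Agent.S1063
import Cfsg.Agent.S1064
import Cfsg.Agent.S1065
import Cfsg.Agent.S1025
import Cfsg.Agent.Helper17.ChevUniMem
import Cfsg.Agent.Helper36.ChevRelAll

set_option autoImplicit false
open Cfsg

namespace Cfsg.Agent.S2326

/-- A `p`-subgroup whose order is the full `p`-part of the group order is a Sylow `p`-subgroup. -/
theorem sylow_of_card {G : Type*} [Group G] [Finite G] {p : ℕ} [Fact p.Prime] (U : Subgroup G) {n d m : ℕ}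
    (hU : Nat.card U = p ^ n) (hG : d * Nat.card G = p ^ n * m) (hm : Nat.Coprime p m) :
    ∃ P : Sylow p G, (P : Subgroup G) = U := by
  have hUp : IsPGroup p U := IsPGroup.of_card hU
  obtain ⟨P, hP⟩ := hUp.exists_le_sylow
  refine ⟨P, ?_⟩
  obtain ⟨a, ha⟩ := IsPGroup.iff_card.mp P.2
  have h1 : p ^ a ∣ p ^ n * m := by
    rw [← ha, ← hG]
    exact Dvd.dvd.mul_left (Subgroup.card_subgroup_dvd_card _) d
  have h2 : p ^ a ∣ p ^ n := (Nat.Coprime.pow_left a hm).dvd_of_dvd_mul_right h1
  have h3 : Nat.card (P : Subgroup G) ≤ Nat.card U := by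
    rw [ha, hU]
    exact Nat.le_of_dvd (pow_pos (Fact.out : p.Prime).pos n) h2
  exact (Subgroup.eq_of_le_of_card_ge hP h3).symm

theorem coprime_pred_pow {p q : ℕ} (hp : p.Prime) (hq : p ∣ q) (hq0 : 0 < q) (d : ℕ) (hd : 0 < d) :
    Nat.Coprime p (q ^ d - 1) := by
  rw [Nat.Prime.coprime_iff_not_dvd hp]
  intro h
  have h1 : p ∣ q ^ d := dvd_trans hq (dvd_pow_self q (Nat.pos_iff_ne_zero.mp hd))
  have h2 : 0 < q ^ d := pow_pos hq0 d
  have h3 : p ∣ q ^ d - (q ^ d - 1) := Nat.dvd_sub h1 h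
  have h4 : q ^ d - (q ^ d - 1) = 1 := by omega
  rw [h4] at h3
  exact hp.one_lt.ne' (Nat.dvd_one.mp h3)

/-- In a Chevalley group of type G₂, B₂, D₄, F₄, E₆, E₇ or E₈ over a finite field of characteristic p, the subgroup U generated by the positive root elements is a Sylow p-subgroup. -/
theorem result {F : Type*} [Field F] [Fintype F] (p : ℕ) [Fact p.Prime] [CharP F p] (D : Cfsg.Lie.ChevalleyDatum) (hD : D ∈ [Cfsg.Lie.chevG2, Cfsg.Lie.chevB2, Cfsg.Lie.chevD4, Cfsg.Lie.chevF4, Cfsg.Lie.chevE6, Cfsg.Lie.chevE7, Cfsg.Lie.chevE8]) :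
    ∃ P : Sylow p ↥(D.group F), (P : Subgroup ↥(D.group F)) = (D.posUnipotent F).subgroupOf (D.group F) := by
  classical
  obtain ⟨n, -, hn⟩ := FiniteField.card F p
  have hp : p.Prime := Fact.out
  have R := Cfsg.Agent.Helper36.xAdd_of_mem (F := F) hD
  have hUG : D.posUnipotent F ≤ D.group F := Cfsg.Agent.Helper36.posUnipotent_le_group R
  have hU : Nat.card ((D.posUnipotent F).subgroupOf (D.group F)) = p ^ ((n : ℕ) * (D.nroots / 2)) := by
    rw [Nat.card_congr (Subgroup.subgroupOfEquivOfLe hUG).toEquiv,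
      Cfsg.Agent.Helper17.card_posUnipotent_of_mem hD
        (fun r s hr hs hrs hneg t u => Cfsg.Agent.S1025.result D hD r s hr hs hrs hneg t u), hn, pow_mul]
  have hpq : p ∣ Fintype.card F := by
    rw [hn]; exact dvd_pow_self p n.ne_zero
  have hq0 : 0 < Fintype.card F := Fintype.card_pos
  have cop : ∀ d, 0 < d → Nat.Coprime p (Fintype.card F ^ d - 1) :=
    fun d hd => coprime_pred_pow hp hpq hq0 d hd
  have hpow : ∀ N : ℕ, p ^ ((n : ℕ) * N) = Fintype.card F ^ N := by
    intro N; rw [hn, pow_mul]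
  have key : ∃ d m : ℕ, d * Nat.card ↥(D.group F) = p ^ ((n : ℕ) * (D.nroots / 2)) * m ∧ Nat.Coprime p m := by
    have hD' := hD
    simp only [List.mem_cons, List.not_mem_nil, or_false] at hD'
    rcases hD' with rfl | rfl | rfl | rfl | rfl | rfl | rfl
    · refine ⟨1, (Fintype.card F ^ 2 - 1) * (Fintype.card F ^ 6 - 1), ?_, ?_⟩
      · rw [one_mul, Cfsg.Agent.S1059.result (F := F) rfl, hpow,
          show Cfsg.Lie.chevG2.nroots / 2 = 6 from by decide]
        ring
      · exact (cop 2 (by norm_num)).mul_right (cop 6 (by norm_num))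
    · refine ⟨Nat.gcd 2 (Fintype.card F - 1), (Fintype.card F ^ 2 - 1) * (Fintype.card F ^ 4 - 1), ?_, ?_⟩
      · rw [Cfsg.Agent.S1060.result (F := F) rfl, hpow,
          show Cfsg.Lie.chevB2.nroots / 2 = 4 from by decide]
        ring
      · exact (cop 2 (by norm_num)).mul_right (cop 4 (by norm_num))
    · refine ⟨Nat.gcd 2 (Fintype.card F - 1) ^ 2, (Fintype.card F ^ 2 - 1) * (Fintype.card F ^ 4 - 1) *
          (Fintype.card F ^ 4 - 1) * (Fintype.card F ^ 6 - 1), ?_, ?_⟩
      · rw [Cfsg.Agent.S1061.result (F := F) rfl, hpow,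
          show Cfsg.Lie.chevD4.nroots / 2 = 12 from by decide]
        ring
      · exact (((cop 2 (by norm_num)).mul_right (cop 4 (by norm_num))).mul_right
          (cop 4 (by norm_num))).mul_right (cop 6 (by norm_num))
    · refine ⟨1, (Fintype.card F ^ 2 - 1) * (Fintype.card F ^ 6 - 1) * (Fintype.card F ^ 8 - 1) *
          (Fintype.card F ^ 12 - 1), ?_, ?_⟩
      · rw [one_mul, Cfsg.Agent.S1062.result (F := F) rfl, hpow,
          show Cfsg.Lie.chevF4.nroots / 2 = 24 from by decide]
        ring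
      · exact (((cop 2 (by norm_num)).mul_right (cop 6 (by norm_num))).mul_right
          (cop 8 (by norm_num))).mul_right (cop 12 (by norm_num))
    · refine ⟨Nat.gcd 3 (Fintype.card F - 1), (Fintype.card F ^ 2 - 1) * (Fintype.card F ^ 5 - 1) *
          (Fintype.card F ^ 6 - 1) * (Fintype.card F ^ 8 - 1) * (Fintype.card F ^ 9 - 1) *
          (Fintype.card F ^ 12 - 1), ?_, ?_⟩
      · rw [Cfsg.Agent.S1063.result (F := F) rfl, hpow,
          show Cfsg.Lie.chevE6.nroots / 2 = 36 from by decide]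
        ring
      · exact (((((cop 2 (by norm_num)).mul_right (cop 5 (by norm_num))).mul_right
          (cop 6 (by norm_num))).mul_right (cop 8 (by norm_num))).mul_right
          (cop 9 (by norm_num))).mul_right (cop 12 (by norm_num))
    · refine ⟨Nat.gcd 2 (Fintype.card F - 1), (Fintype.card F ^ 2 - 1) * (Fintype.card F ^ 6 - 1) *
          (Fintype.card F ^ 8 - 1) * (Fintype.card F ^ 10 - 1) * (Fintype.card F ^ 12 - 1) *
          (Fintype.card F ^ 14 - 1) * (Fintype.card F ^ 18 - 1), ?_, ?_⟩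
      · rw [Cfsg.Agent.S1064.result (F := F) rfl, hpow,
          show Cfsg.Lie.chevE7.nroots / 2 = 63 from by decide]
        ring
      · exact ((((((cop 2 (by norm_num)).mul_right (cop 6 (by norm_num))).mul_right
          (cop 8 (by norm_num))).mul_right (cop 10 (by norm_num))).mul_right
          (cop 12 (by norm_num))).mul_right (cop 14 (by norm_num))).mul_right (cop 18 (by norm_num))
    · refine ⟨1, (Fintype.card F ^ 2 - 1) * (Fintype.card F ^ 8 - 1) * (Fintype.card F ^ 12 - 1) *
          (Fintype.card F ^ 14 - 1) * (Fintype.card F ^ 18 - 1) * (Fintype.card F ^ 20 - 1) *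
          (Fintype.card F ^ 24 - 1) * (Fintype.card F ^ 30 - 1), ?_, ?_⟩
      · rw [one_mul, Cfsg.Agent.S1065.result (F := F) rfl, hpow,
          show Cfsg.Lie.chevE8.nroots / 2 = 120 from by decide]
        ring
      · exact (((((((cop 2 (by norm_num)).mul_right (cop 8 (by norm_num))).mul_right
          (cop 12 (by norm_num))).mul_right (cop 14 (by norm_num))).mul_right
          (cop 18 (by norm_num))).mul_right (cop 20 (by norm_num))).mul_right
          (cop 24 (by norm_num))).mul_right (cop 30 (by norm_num))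
  obtain ⟨d, m, hG, hm⟩ := key
  exact sylow_of_card _ hU hG hm

end Cfsg.Agent.S2326
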