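import Cfsg.Statements.S2699
import Cfsg.Agent.Helper43.GraphCore
import Cfsg.Agent.Helper43.PrimeOrdO
import Cfsg.Agent.Helper41.GASymQF
import Cfsg.Agent.Helper41.GABilSim
import Cfsg.Agent.Helper51.GAAltOdd
import Cfsg.Agent.Helper61.GBChar2Orth
import Cfsg.Agent.Helper51.GBSimDSp
import Cfsg.Agent.Helper51.GBOddIso

set_option autoImplicit false
open Cfsg

namespace Cfsg.Agent.S2699

open Matrix Module Cfsg.Agent.Helper44.PSLn Cfsg.Agent.Helper43 Cfsg.Agent.Helper43.GraphAut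
  Cfsg.Agent.Helper43.GraphForm Cfsg.Agent.Helper43.OrthEven Cfsg.Agent.Helper43.GraphCore

universe u

/-- odd characteristic: every involutory graph automorphism is conjugate to the standard one -/
theorem conj_odd {F : Type u} [Field F] [Finite F] (h2 : (2 : F) ≠ 0) {n m : ℕ} (hn : 3 ≤ n)
    (hnm : n = 2 * m + 1) (e : Unit ⊕ (Fin m ⊕ Fin m) ≃ Fin n)
    (hO : PolarNondeg (oddQF m F)) (γ : MulAut (PSLn n F))
    (hγ : Cfsg.IsGraphAutClassPSL γ) (hγ2 : orderOf γ = 2) :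
    Cfsg.IsConjUnder (Cfsg.inndiagPSL n F) (grph (gramGL e (oddQF m F) hO)) γ := by
  obtain ⟨M, rfl⟩ := exists_grph γ hγ
  have hsym : (M : Mn n F)ᵀ = (M : Mn n F) := by
    rcases (orderOf_grph hn M).mp hγ2 with hsym | hskew
    · exact hsym
    · exfalso
      apply Matrix.GeneralLinearGroup.det_ne_zero M
      refine Cfsg.Agent.Helper51.alt_odd_det ⟨m, hnm⟩ (M : Mn n F) hskew ?_
      intro i
      have h3 := congrFun (congrFun hskew i) i
      rw [Matrix.transpose_apply, Matrix.neg_apply] at h3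
      have h4 : (2 : F) * (M : Mn n F) i i = 0 := by linear_combination h3
      exact (mul_eq_zero.mp h4).resolve_left h2
  obtain ⟨Q, hQ, hQpol, hQnd⟩ := Cfsg.Agent.Helper41.exists_symQF h2 (M : Mn n F) hsym
  have hQnd' : PolarNondeg Q := hQnd (Matrix.GeneralLinearGroup.det_ne_zero M)
  have hV : finrank F (Fin n → F) = 2 * m + 1 := by
    rw [Module.finrank_fintype_fun_eq_card, Fintype.card_fin, hnm]
  obtain ⟨b, d, hd, hb⟩ := OrthStd.exists_basis_odd hV Q hQnd'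
  exact conj_of_equiv (by omega) e (oddQF m F) hO M Q hQpol b.equivFun.symm d hd (fun z => by
    rw [hb, LinearEquiv.apply_symm_apply]
    rfl)

theorem conj_of_congr_one {F : Type u} [Field F] {n : ℕ} (hn : 2 ≤ n) (M M₀ k k₀ : GL (Fin n) F)
    (hk : (k : Mn n F)ᵀ * (M : Mn n F) * (k : Mn n F) = 1)
    (hk₀ : (k₀ : Mn n F)ᵀ * (M₀ : Mn n F) * (k₀ : Mn n F) = 1) :
    Cfsg.IsConjUnder (Cfsg.inndiagPSL n F) (grph M₀) (grph M) := by
  refine (isConjUnder_grph hn M₀ M).mpr ⟨k₀ * k⁻¹, 1, ?_⟩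
  rw [one_smul, Units.val_mul, Matrix.transpose_mul]
  have e1 : ((k⁻¹ : GL (Fin n) F) : Mn n F)ᵀ * (k : Mn n F)ᵀ = 1 := by
    rw [← Matrix.transpose_mul, lang_mul_inv_coe, Matrix.transpose_one]
  calc (M : Mn n F)
      = (((k⁻¹ : GL (Fin n) F) : Mn n F)ᵀ * (k : Mn n F)ᵀ) * (M : Mn n F)
          * ((k : Mn n F) * ((k⁻¹ : GL (Fin n) F) : Mn n F)) := by
        rw [e1, lang_mul_inv_coe, one_mul, mul_one]
    _ = ((k⁻¹ : GL (Fin n) F) : Mn n F)ᵀ * ((k : Mn n F)ᵀ * (M : Mn n F) * (k : Mn n F))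
          * ((k⁻¹ : GL (Fin n) F) : Mn n F) := by
        simp only [Matrix.mul_assoc]
    _ = ((k⁻¹ : GL (Fin n) F) : Mn n F)ᵀ * ((k₀ : Mn n F)ᵀ * (M₀ : Mn n F) * (k₀ : Mn n F))
          * ((k⁻¹ : GL (Fin n) F) : Mn n F) := by rw [hk, hk₀]
    _ = ((k⁻¹ : GL (Fin n) F) : Mn n F)ᵀ * (k₀ : Mn n F)ᵀ * (M₀ : Mn n F)
          * ((k₀ : Mn n F) * ((k⁻¹ : GL (Fin n) F) : Mn n F)) := by
        simp only [Matrix.mul_assoc]

/-- the matrix `diag(1, J)` -/
def dMat (m : ℕ) (F : Type u) [Field F] :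
    Matrix (Unit ⊕ (Fin m ⊕ Fin m)) (Unit ⊕ (Fin m ⊕ Fin m)) F :=
  Matrix.fromBlocks (1 : Matrix Unit Unit F) 0 0 (Matrix.J (Fin m) F)

theorem dMat_det {F : Type u} [Field F] (m : ℕ) : (dMat m F).det ≠ 0 := by
  unfold dMat
  rw [Matrix.det_fromBlocks_zero₁₂, Matrix.det_one, one_mul]
  intro h
  have := Matrix.J_det_mul_J_det (Fin m) F
  rw [h, zero_mul] at this
  exact zero_ne_one this

theorem dMat_transpose {F : Type u} [Field F] (h2 : (2 : F) = 0) (m : ℕ) :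
    (dMat m F)ᵀ = dMat m F := by
  unfold dMat
  rw [Matrix.fromBlocks_transpose, Matrix.transpose_one, Matrix.transpose_zero,
    Matrix.J_transpose]
  congr 1
  have : (2 : F) • Matrix.J (Fin m) F = 0 := by rw [h2, zero_smul]
  rw [two_smul] at this
  exact neg_eq_of_add_eq_zero_left this

/-- characteristic two: the centraliser and the conjugacy statement -/
theorem char_two {F : Type u} [Field F] [Finite F] (h2 : (2 : F) = 0) {n m : ℕ} (hn : 3 ≤ n)
    (hnm : n = 2 * m + 1) (γ γ' : MulAut (PSLn n F))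
    (hγ : Cfsg.IsGraphAutClassPSL γ) (hγ2 : orderOf γ = 2)
    (hγ' : Cfsg.IsGraphAutClassPSL γ') (hγ'2 : orderOf γ' = 2) :
    Nonempty (↥(Cfsg.inndiagPSL n F ⊓ Subgroup.centralizer {γ}) ≃* Cfsg.PGO F (Cfsg.quadFormOdd m F))
      ∧ Cfsg.IsConjUnder (Cfsg.inndiagPSL n F) γ γ' := by
  have hn2 : 2 ≤ n := by omega
  obtain ⟨e⟩ : Nonempty (Unit ⊕ (Fin m ⊕ Fin m) ≃ Fin n) :=
    ⟨Fintype.equivFinOfCardEq (by
      simp only [Fintype.card_sum, Fintype.card_fin, Fintype.card_unit]; omega)⟩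
  obtain ⟨M₀, hM₀⟩ : ∃ M₀ : GL (Fin n) F, (M₀ : Mn n F) = Matrix.reindex e e (dMat m F) :=
    ⟨Matrix.GeneralLinearGroup.mkOfDetNeZero (Matrix.reindex e e (dMat m F)) (by
      rw [Matrix.det_reindex_self]
      exact dMat_det m), rfl⟩
  have hM₀sym : (M₀ : Mn n F)ᵀ = (M₀ : Mn n F) := by
    rw [hM₀, Matrix.reindex_apply, Matrix.transpose_submatrix, dMat_transpose h2]
  have hM₀d : ∃ i, (M₀ : Mn n F) i i ≠ 0 := by
    refine ⟨e (Sum.inl ()), ?_⟩
    rw [hM₀]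
    simp [dMat]
  obtain ⟨k₀, hk₀⟩ := Cfsg.Agent.Helper61.sym_congr_one_char2 h2 (M₀ : Mn n F) hM₀sym
    (Matrix.GeneralLinearGroup.det_ne_zero M₀) hM₀d
  have hall : ∀ β : MulAut (PSLn n F), Cfsg.IsGraphAutClassPSL β → orderOf β = 2 →
      Cfsg.IsConjUnder (Cfsg.inndiagPSL n F) (grph M₀) β := by
    intro β hβ hβ2
    obtain ⟨M, rfl⟩ := exists_grph β hβ
    have hneg : -(M : Mn n F) = (M : Mn n F) := by
      have : (2 : F) • (M : Mn n F) = 0 := by rw [h2, zero_smul]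
      rw [two_smul] at this
      exact neg_eq_of_add_eq_zero_left this
    have hsym : (M : Mn n F)ᵀ = (M : Mn n F) := by
      rcases (orderOf_grph hn M).mp hβ2 with hsym | hskew
      · exact hsym
      · rw [hskew, hneg]
    have hd : ∃ i, (M : Mn n F) i i ≠ 0 := by
      by_contra hcon
      simp only [not_exists, not_not] at hcon
      apply Matrix.GeneralLinearGroup.det_ne_zero M
      exact Cfsg.Agent.Helper51.alt_odd_det ⟨m, hnm⟩ (M : Mn n F) (by rw [hsym, hneg]) hcon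
    obtain ⟨k, hk⟩ := Cfsg.Agent.Helper61.sym_congr_one_char2 h2 (M : Mn n F) hsym
      (Matrix.GeneralLinearGroup.det_ne_zero M) hd
    exact conj_of_congr_one hn2 M M₀ k k₀ hk hk₀
  refine ⟨?_, isConjUnder_trans (isConjUnder_symm (hall γ hγ hγ2)) (hall γ' hγ' hγ'2)⟩
  obtain ⟨h, hh, rfl⟩ := hall γ hγ hγ2
  obtain ⟨h₁, rfl⟩ := (lang_mem_inndiag h).mp hh
  have : Nonempty (Unit ⊕ (Fin m ⊕ Fin m)) := ⟨Sum.inl ()⟩
  obtain ⟨φ₁⟩ := centralizer_grph_iso hn2 e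
    (Cfsg.Geo.similarityGroup (fun u v : Unit ⊕ (Fin m ⊕ Fin m) → F => u ⬝ᵥ (dMat m F *ᵥ v))) M₀
    (fun g => by
      rw [Cfsg.Agent.Helper41.mem_sim_iff (dMat m F) (dMat_det m) g, hM₀]
      simp only [reindex_sim_iff]) h₁
  obtain ⟨φ₂⟩ := Cfsg.Agent.Helper51.simD_iso_sp (F := F) h2 m
  obtain ⟨φ₃⟩ := Cfsg.Agent.Helper51.pgoOdd_iso_sp (F := F) h2 m
  exact ⟨(φ₁.trans φ₂).trans φ₃.symm⟩

/-- Let T = PSL_n(F) over the field with p^f elements with n ≥ 3 odd, n = 2m + 1, and G = Inndiag(T) the image of PGL_n(F). Every involutory graph automorphism γ of T (an inner-diagonal automorphism followed by inverse-transpose, of order 2) has centralizer C_G(γ) isomorphic to the projective conformal orthogonal group of the form x₀² + Σ xᵢ yᵢ in dimension n (for q even this group is isomorphic to Sp_{n−1}(q)), and any two involutory graph automorphisms are G-conjugate. -/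
theorem result {F : Type*} [Field F] [Fintype F] {p f : ℕ} [Fact p.Prime] (hF : Fintype.card F = p ^ f) (hf : 1 ≤ f) {n : ℕ} (hn : 3 ≤ n) {m : ℕ} (hnm : n = 2 * m + 1) (γ γ' : MulAut (Matrix.ProjectiveSpecialLinearGroup (Fin n) F)) (hγ : Cfsg.IsGraphAutClassPSL γ) (hγ2 : orderOf γ = 2) (hγ' : Cfsg.IsGraphAutClassPSL γ') (hγ'2 : orderOf γ' = 2) :
    Nonempty (↥(Cfsg.inndiagPSL n F ⊓ Subgroup.centralizer {γ}) ≃* Cfsg.PGO F (Cfsg.quadFormOdd m F)) ∧ Cfsg.IsConjUnder (Cfsg.inndiagPSL n F) γ γ' := by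
  by_cases h2 : (2 : F) = 0
  · exact char_two h2 hn hnm γ γ' hγ hγ2 hγ' hγ'2
  · have hO : PolarNondeg (oddQF m F) := polarNondeg_of_nondegenerate _ (PrimeOrdO.oddQF_nondeg h2 m)
    obtain ⟨e⟩ : Nonempty (Unit ⊕ (Fin m ⊕ Fin m) ≃ Fin n) :=
      ⟨Fintype.equivFinOfCardEq (by
        simp only [Fintype.card_sum, Fintype.card_fin, Fintype.card_unit]; omega)⟩
    have h1 := conj_odd h2 hn hnm e hO γ hγ hγ2
    have h1' := conj_odd h2 hn hnm e hO γ' hγ' hγ'2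
    exact ⟨centralizer_gram_iso (by omega) h2 e (oddQF m F) hO γ h1,
      isConjUnder_trans (isConjUnder_symm h1) h1'⟩

end Cfsg.Agent.S2699
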