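import Cfsg.Statements.S2700
import Cfsg.Agent.Helper43.GraphCore
import Cfsg.Agent.Helper41.GASymQF

set_option autoImplicit false
open Cfsg

namespace Cfsg.Agent.S2700

open Matrix Module Cfsg.Agent.Helper44.PSLn Cfsg.Agent.Helper43 Cfsg.Agent.Helper43.GraphAut
  Cfsg.Agent.Helper43.GraphForm Cfsg.Agent.Helper43.OrthEven Cfsg.Agent.Helper43.GraphCore

/-- Let T = PSL_n(F) over a finite field of odd order with n = 2m ≥ 4 even, and G = Inndiag(T) the image of PGL_n(F). The involutory graph automorphisms of T fall into exactly three G-classes, with representatives γ₁, γ₂, γ₃ whose centralizers in G are isomorphic respectively to the projective conformal symplectic group PGSp_n(F), the projective conformal orthogonal group of the plus-type form Σ xᵢ yᵢ, and that of a minus-type form Σ xᵢ yᵢ + z₁² + a z₁ z₂ + b z₂² (anisotropic binary part) in dimension n. -/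
theorem result {F : Type*} [Field F] [Fintype F] (hodd : Odd (Fintype.card F)) {n m : ℕ} (hm : 2 ≤ m) (hnm : n = 2 * m) :
    ∃ (γ₁ γ₂ γ₃ : MulAut (Matrix.ProjectiveSpecialLinearGroup (Fin n) F)) (a b : F), (∀ z₁ z₂ : F, z₁ ^ 2 + a * z₁ * z₂ + b * z₂ ^ 2 = 0 → z₁ = 0 ∧ z₂ = 0) ∧ Cfsg.IsGraphAutClassPSL γ₁ ∧ orderOf γ₁ = 2 ∧ Cfsg.IsGraphAutClassPSL γ₂ ∧ orderOf γ₂ = 2 ∧ Cfsg.IsGraphAutClassPSL γ₃ ∧ orderOf γ₃ = 2 ∧ ¬ Cfsg.IsConjUnder (Cfsg.inndiagPSL n F) γ₁ γ₂ ∧ ¬ Cfsg.IsConjUnder (Cfsg.inndiagPSL n F) γ₁ γ₃ ∧ ¬ Cfsg.IsConjUnder (Cfsg.inndiagPSL n F) γ₂ γ₃ ∧ (∀ γ : MulAut (Matrix.ProjectiveSpecialLinearGroup (Fin n) F), Cfsg.IsGraphAutClassPSL γ → orderOf γ = 2 → Cfsg.IsConjUnder (Cfsg.inndiagPSL n F) γ₁ γ ∨ Cfsg.IsConjUnder (Cfsg.inndiagPSL n F) γ₂ γ ∨ Cfsg.IsConjUnder (Cfsg.inndiagPSL n F) γ₃ γ) ∧ Nonempty (↥(Cfsg.inndiagPSL n F ⊓ Subgroup.centralizer {γ₁}) ≃* Cfsg.PGSp m F) ∧ Nonempty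 (↥(Cfsg.inndiagPSL n F ⊓ Subgroup.centralizer {γ₂}) ≃* Cfsg.PGO F (Cfsg.quadFormPlus m F)) ∧ Nonempty (↥(Cfsg.inndiagPSL n F ⊓ Subgroup.centralizer {γ₃}) ≃* Cfsg.PGO F (Cfsg.quadFormMinus (m - 1) F a b)) := by
  have h2 : (2 : F) ≠ 0 := two_ne_zero_of_odd_card rfl hodd
  have hn : 3 ≤ n := by omega
  have hn2 : 2 ≤ n := by omega
  have hm1 : 1 ≤ m := by omega
  obtain ⟨e₁⟩ : Nonempty (Fin m ⊕ Fin m ≃ Fin n) :=
    ⟨Fintype.equivFinOfCardEq (by simp only [Fintype.card_sum, Fintype.card_fin]; omega)⟩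
  obtain ⟨e₂⟩ : Nonempty ((Fin (m - 1) ⊕ Fin (m - 1)) ⊕ Fin 2 ≃ Fin n) :=
    ⟨Fintype.equivFinOfCardEq (by simp only [Fintype.card_sum, Fintype.card_fin]; omega)⟩
  obtain ⟨a, b, hab⟩ := exists_aniso (F := F) h2
  have hP : PolarNondeg (plusQF m F) := polarNondeg_of_nondegenerate _ (plusQF_nondeg m)
  have hMi : PolarNondeg (minusQF (m - 1) F a b) :=
    polarNondeg_of_nondegenerate _ (minusQF_nondeg (m - 1) a b hab)
  have hpm : ¬ Cfsg.IsConjUnder (Cfsg.inndiagPSL n F) (grph (gramGL e₁ (plusQF m F) hP))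
      (grph (gramGL e₂ (minusQF (m - 1) F a b) hMi)) := by
    intro h
    exact not_hasTS_minus hm1 a b hab (hasTS_of_conj hn2 h2 e₁ e₂ _ _ hP hMi h (hasTS_plus m))
  refine ⟨grph (jGL e₁), grph (gramGL e₁ (plusQF m F) hP),
    grph (gramGL e₂ (minusQF (m - 1) F a b) hMi), a, b, hab, isGraph_grph hn _,
    (orderOf_grph hn _).mpr (Or.inr (jGL_transpose e₁)), isGraph_grph hn _,
    (orderOf_grph hn _).mpr (Or.inl (gramGL_transpose e₁ _ hP)), isGraph_grph hn _,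
    (orderOf_grph hn _).mpr (Or.inl (gramGL_transpose e₂ _ hMi)),
    not_conj_skew_sym hn2 h2 _ _ (jGL_transpose e₁) (gramGL_transpose e₁ _ hP),
    not_conj_skew_sym hn2 h2 _ _ (jGL_transpose e₁) (gramGL_transpose e₂ _ hMi), hpm, ?_,
    centralizer_J_iso hn2 e₁ _ (isConjUnder_refl _ _),
    centralizer_gram_iso hn2 h2 e₁ (plusQF m F) hP _ (isConjUnder_refl _ _),
    centralizer_gram_iso hn2 h2 e₂ (minusQF (m - 1) F a b) hMi _ (isConjUnder_refl _ _)⟩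
  intro γ hγ hγ2
  obtain ⟨M, rfl⟩ := exists_grph γ hγ
  rcases (orderOf_grph hn M).mp hγ2 with hsym | hskew
  · right
    obtain ⟨Q, hQ, hQpol, hQnd⟩ := Cfsg.Agent.Helper41.exists_symQF h2 (M : Mn n F) hsym
    have hQnd' : PolarNondeg Q := hQnd (Matrix.GeneralLinearGroup.det_ne_zero M)
    have hV : finrank F (Fin n → F) = 2 * m := by
      rw [Module.finrank_fintype_fun_eq_card, Fintype.card_fin, hnm]
    by_cases hTS : HasTS Q m
    · left
      obtain ⟨Ψ, hΨ⟩ := exists_plus_of_hasTS hm1 hV Q hQnd' hTS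
      exact conj_of_equiv hn2 e₁ (plusQF m F) hP M Q hQpol Ψ 1 one_ne_zero (fun z => by
        rw [hΨ, one_mul]
        rfl)
    · right
      obtain ⟨Ψ, hΨ⟩ := exists_minus_of_not_hasTS' hm1 hV Q hQnd' hTS a b hab
      exact conj_of_equiv hn2 e₂ (minusQF (m - 1) F a b) hMi M Q hQpol Ψ 1 one_ne_zero (fun z => by
        rw [hΨ, one_mul]
        rfl)
  · left
    refine conj_of_alt hn2 e₁ M hskew ?_
    intro i
    have h3 := congrFun (congrFun hskew i) i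
    rw [Matrix.transpose_apply, Matrix.neg_apply] at h3
    have h4 : (2 : F) * (M : Mn n F) i i = 0 := by linear_combination h3
    exact (mul_eq_zero.mp h4).resolve_left h2

end Cfsg.Agent.S2700
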