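import Cfsg.Statements.S2703
import Cfsg.Agent.Helper43.GraphCore
import Cfsg.Agent.Helper41.GASymQF
import Cfsg.Agent.Helper51.GASumSqPlus
import Cfsg.Agent.Helper30.GASumSqMinus

set_option autoImplicit false
open Cfsg

namespace Cfsg.Agent.S2703

open Matrix Module Cfsg.Agent.Helper44.PSLn Cfsg.Agent.Helper43 Cfsg.Agent.Helper43.GraphAut
  Cfsg.Agent.Helper43.GraphForm Cfsg.Agent.Helper43.OrthEven Cfsg.Agent.Helper43.GraphCore

theorem parity_iff {F : Type*} [Field F] [Fintype F] (hodd : Odd (Fintype.card F)) {n m : ℕ}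
    (hnm : n = 2 * m) :
    Even (n * (Fintype.card F - 1) / 4) ↔ (Even m ∨ IsSquare (-1 : F)) := by
  rw [FiniteField.isSquare_neg_one_iff]
  obtain ⟨t, ht⟩ := hodd
  have e : n * (Fintype.card F - 1) / 4 = m * t := by
    rw [hnm, ht]
    have : 2 * m * (2 * t + 1 - 1) = 4 * (m * t) := by
      rw [Nat.add_sub_cancel]
      ring
    rw [this, Nat.mul_div_cancel_left _ (by norm_num : 0 < 4)]
  rw [e, Nat.even_mul, ht]
  constructor
  · rintro (h | h)
    · exact Or.inl h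
    · right
      obtain ⟨s, hs⟩ := h
      omega
  · rintro (h | h)
    · exact Or.inl h
    · right
      rw [Nat.even_iff]
      omega

/-- Let T = PSL_n(F) over the field with q elements, q odd, n = 2m ≥ 4 even, and ι the inverse-transpose automorphism. Its centralizer in G = Inndiag(T) (the image of PGL_n(F)) is isomorphic to the projective conformal orthogonal group of the plus-type form Σ xᵢ yᵢ in dimension n when n(q − 1)/4 is even, and to that of a minus-type form (Σ xᵢ yᵢ + z₁² + a z₁ z₂ + b z₂² with anisotropic binary part) when n(q − 1)/4 is odd. -/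
theorem result {F : Type*} [Field F] [Fintype F] (hodd : Odd (Fintype.card F)) {n m : ℕ} (hm : 2 ≤ m) (hnm : n = 2 * m) (ι : MulAut (Matrix.ProjectiveSpecialLinearGroup (Fin n) F)) (hι : Cfsg.IsInverseTransposeAutPSL ι) :
    (Even (n * (Fintype.card F - 1) / 4) → Nonempty (↥(Cfsg.inndiagPSL n F ⊓ Subgroup.centralizer {ι}) ≃* Cfsg.PGO F (Cfsg.quadFormPlus m F))) ∧ (¬ Even (n * (Fintype.card F - 1) / 4) → ∃ a b : F, (∀ z₁ z₂ : F, z₁ ^ 2 + a * z₁ * z₂ + b * z₂ ^ 2 = 0 → z₁ = 0 ∧ z₂ = 0) ∧ Nonempty (↥(Cfsg.inndiagPSL n F ⊓ Subgroup.centralizer {ι}) ≃* Cfsg.PGO F (Cfsg.quadFormMinus (m - 1) F a b))) := by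
  have h2 : (2 : F) ≠ 0 := two_ne_zero_of_odd_card rfl hodd
  have hn : 3 ≤ n := by omega
  have hn2 : 2 ≤ n := by omega
  have hm1 : 1 ≤ m := by omega
  obtain ⟨e₁⟩ : Nonempty (Fin m ⊕ Fin m ≃ Fin n) :=
    ⟨Fintype.equivFinOfCardEq (by simp only [Fintype.card_sum, Fintype.card_fin]; omega)⟩
  obtain ⟨e₂⟩ : Nonempty ((Fin (m - 1) ⊕ Fin (m - 1)) ⊕ Fin 2 ≃ Fin n) :=
    ⟨Fintype.equivFinOfCardEq (by simp only [Fintype.card_sum, Fintype.card_fin]; omega)⟩
  have hι1 : ι = grph 1 := by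
    rw [← iAutN_eq_grph_one]
    exact lang_eq_iAutN_of_it ι hι
  subst hι1
  obtain ⟨Q, hQ, hQpol, hQnd⟩ := Cfsg.Agent.Helper41.exists_symQF h2 (1 : Mn n F)
    Matrix.transpose_one
  have hQnd' : PolarNondeg Q := hQnd (by rw [Matrix.det_one]; exact one_ne_zero)
  have hQ' : ∀ v, Q v = 2⁻¹ * ∑ i, v i ^ 2 := by
    intro v
    rw [hQ, Matrix.one_mulVec]
    congr 1
    simp only [dotProduct, pow_two]
  have hQpol' : ∀ u v, QuadraticMap.polar Q u v
      = u ⬝ᵥ ((((1 : GL (Fin n) F) : GL (Fin n) F) : Mn n F) *ᵥ v) := by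
    intro u v
    rw [hQpol]
    rfl
  have hV : finrank F (Fin n → F) = 2 * m := by
    rw [Module.finrank_fintype_fun_eq_card, Fintype.card_fin, hnm]
  have hκ : Fintype.card (Fin n) = 2 * m := by rw [Fintype.card_fin, hnm]
  have hP : PolarNondeg (plusQF m F) := polarNondeg_of_nondegenerate _ (plusQF_nondeg m)
  constructor
  · intro hev
    have hTS : HasTS Q m :=
      Cfsg.Agent.Helper51.hasTS_sumsq h2 hκ Q 2⁻¹ hQ' ((parity_iff hodd hnm).mp hev)
    obtain ⟨Ψ, hΨ⟩ := exists_plus_of_hasTS hm1 hV Q hQnd' hTS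
    exact centralizer_gram_iso hn2 h2 e₁ (plusQF m F) hP _
      (conj_of_equiv hn2 e₁ (plusQF m F) hP 1 Q hQpol' Ψ 1 one_ne_zero (fun z => by
        rw [hΨ, one_mul]
        rfl))
  · intro hev
    obtain ⟨a, b, hab⟩ := exists_aniso (F := F) h2
    have hMi : PolarNondeg (minusQF (m - 1) F a b) :=
      polarNondeg_of_nondegenerate _ (minusQF_nondeg (m - 1) a b hab)
    have hcase : ¬ (Even m ∨ IsSquare (-1 : F)) := fun h => hev ((parity_iff hodd hnm).mpr h)
    rw [not_or] at hcase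
    have hTS : ¬ HasTS Q m :=
      Cfsg.Agent.Helper30.not_hasTS_sumsq h2 hκ Q 2⁻¹ (inv_ne_zero h2) hQ'
        (Nat.not_even_iff_odd.mp hcase.1) hcase.2
    obtain ⟨Ψ, hΨ⟩ := exists_minus_of_not_hasTS' hm1 hV Q hQnd' hTS a b hab
    exact ⟨a, b, hab, centralizer_gram_iso hn2 h2 e₂ (minusQF (m - 1) F a b) hMi _
      (conj_of_equiv hn2 e₂ (minusQF (m - 1) F a b) hMi 1 Q hQpol' Ψ 1 one_ne_zero (fun z => by
        rw [hΨ, one_mul]
        rfl))⟩

end Cfsg.Agent.S2703
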