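import Cfsg.Statements.S2702
import Cfsg.Agent.Helper43.GraphSplit
import Cfsg.Agent.Helper41.GASymQF
import Cfsg.Agent.S0245
import Cfsg.Agent.S0287
import Cfsg.Agent.S0288
import Cfsg.Agent.Helper43.GSpPieces
import Cfsg.Agent.Helper39.GSPlusSim
import Cfsg.Agent.Helper39.GSMinusSim
import Cfsg.Agent.Helper39.GSMinusRefl
import Cfsg.Agent.Helper39.GSCardPGO
import Cfsg.Agent.Helper20.GSOrdArith

set_option autoImplicit false
open Cfsg

namespace Cfsg.Agent.S2702

open Matrix Module Cfsg.Agent.Helper44.PSLn Cfsg.Agent.Helper43 Cfsg.Agent.Helper43.GraphAut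
  Cfsg.Agent.Helper43.GraphForm Cfsg.Agent.Helper43.OrthEven Cfsg.Agent.Helper43.GraphCore
  Cfsg.Agent.Helper43.GraphSplit

universe u

/-- in characteristic two the determinant of a similitude is an `n`-th power -/
theorem root_char_two {F : Type u} [Field F] [Finite F] (h2 : (2 : F) = 0) {n : ℕ}
    (M h : GL (Fin n) F) (c : F)
    (hc : (h : Mn n F)ᵀ * (M : Mn n F) * (h : Mn n F) = c • (M : Mn n F)) :
    ∃ a : F, (h : Mn n F).det = a ^ n := by
  have hsq : Function.Injective (fun x : F => x ^ 2) := by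
    intro x y hxy
    have h3 : (x - y) ^ 2 = 0 := by
      have h4 : (x - y) ^ 2 = x ^ 2 + y ^ 2 - 2 * (x * y) := by ring
      rw [h4, h2, show x ^ 2 = y ^ 2 from hxy]
      have h5 : y ^ 2 + y ^ 2 = 2 * y ^ 2 := by ring
      rw [h5, h2]
      ring
    exact sub_eq_zero.mp (pow_eq_zero_iff (by norm_num) |>.mp h3)
  obtain ⟨a, ha⟩ := (Finite.injective_iff_surjective.mp hsq) c
  refine ⟨a, ?_⟩
  apply hsq
  show (h : Mn n F).det ^ 2 = (a ^ n) ^ 2
  have h3 := congrArg Matrix.det hc
  rw [Matrix.det_mul, Matrix.det_mul, Matrix.det_transpose, Matrix.det_smul,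
    Fintype.card_fin] at h3
  have hM := Matrix.GeneralLinearGroup.det_ne_zero M
  have h5 : (h : Mn n F).det ^ 2 * (M : Mn n F).det = (a ^ n) ^ 2 * (M : Mn n F).det := by
    rw [← pow_mul, mul_comm n 2, pow_mul, show a ^ 2 = c from ha, ← h3]
    ring
  exact mul_right_cancel₀ hM h5

/-- in odd dimension the determinant of a similitude is an `n`-th power -/
theorem root_odd {F : Type u} [Field F] {n m : ℕ} (hnm : n = 2 * m + 1)
    (M h : GL (Fin n) F) (c : F)
    (hc : (h : Mn n F)ᵀ * (M : Mn n F) * (h : Mn n F) = c • (M : Mn n F)) :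
    ∃ a : F, (h : Mn n F).det = a ^ n := by
  have h3 := congrArg Matrix.det hc
  rw [Matrix.det_mul, Matrix.det_mul, Matrix.det_transpose, Matrix.det_smul,
    Fintype.card_fin] at h3
  have hM := Matrix.GeneralLinearGroup.det_ne_zero M
  have hh := Matrix.GeneralLinearGroup.det_ne_zero h
  have h5 : (h : Mn n F).det ^ 2 = c ^ n := by
    have h6 : (h : Mn n F).det ^ 2 * (M : Mn n F).det = c ^ n * (M : Mn n F).det := by
      rw [← h3]
      ring
    exact mul_right_cancel₀ hM h6
  have hc0 : c ≠ 0 := by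
    rintro rfl
    rw [zero_pow (by omega)] at h5
    exact hh (pow_eq_zero_iff (by norm_num) |>.mp h5)
  refine ⟨(h : Mn n F).det / c ^ m, ?_⟩
  have hcm : c ^ m ≠ 0 := pow_ne_zero m hc0
  obtain ⟨d, hd⟩ : ∃ d : F, d = (h : Mn n F).det := ⟨_, rfl⟩
  rw [← hd] at h5 ⊢
  rw [hnm] at h5 ⊢
  have e1 : (d / c ^ m) ^ 2 = c := by
    rw [div_pow, h5, pow_succ, ← pow_mul, mul_comm m 2]
    field_simp
  rw [pow_succ, pow_mul, e1]
  field_simp

/-- the orthogonal similitude groups are not isomorphic to the symplectic one -/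
theorem not_iso {F : Type u} [Field F] [Fintype F] {m : ℕ} (hm : 1 ≤ m)
    {ι : Type} [Fintype ι] [DecidableEq ι] (Q : QuadraticForm F (ι → F)) (hQ : ∃ v, Q v ≠ 0)
    (hlt : Nat.card (Cfsg.isometryGroup F (⇑Q)) < Nat.card (Matrix.symplecticGroup (Fin m) F))
    {C : Type*} [Group C] (φ₁ : C ≃* Cfsg.PGO F (⇑Q)) (φ₂ : C ≃* Cfsg.PGSp m F) : False := by
  have h1 := Nat.card_congr (φ₁.symm.trans φ₂).toEquiv
  have h2 := Cfsg.Agent.Helper39.card_pgo_le Q hQ
  have h3 := Cfsg.Agent.Helper43.GSpPieces.card_pgsp (F := F) m hm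
  omega

/-- Let T = PSL_n(F) over the field with q = p^f elements, n ≥ 3, G = Inndiag(T) the image of PGL_n(F), and γ an involutory graph automorphism of T. The G-class of γ is the union of exactly c T-classes, where: if n is even and q is odd, c = gcd(n/2, q − 1) when C_G(γ) is isomorphic to the projective conformal symplectic group PGSp_n(F) (symplectic type) and c = gcd(n, q − 1)/2 otherwise; and c = gcd(n, q − 1) when n is odd or q is even. -/
theorem result {F : Type*} [Field F] [Fintype F] {p f : ℕ} [Fact p.Prime] (hF : Fintype.card F = p ^ f) (hf : 1 ≤ f) {n : ℕ} (hn : 3 ≤ n) (γ : MulAut (Matrix.ProjectiveSpecialLinearGroup (Fin n) F)) (hγ : Cfsg.IsGraphAutClassPSL γ) (hγ2 : orderOf γ = 2) :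
    ((Even n ∧ Odd p ∧ Nonempty (↥(Cfsg.inndiagPSL n F ⊓ Subgroup.centralizer {γ}) ≃* Cfsg.PGSp (n / 2) F)) → Cfsg.splitClassCount (Cfsg.inndiagPSL n F) (Cfsg.Inn (Matrix.ProjectiveSpecialLinearGroup (Fin n) F)) γ = Nat.gcd (n / 2) (p ^ f - 1)) ∧ ((Even n ∧ Odd p ∧ ¬ Nonempty (↥(Cfsg.inndiagPSL n F ⊓ Subgroup.centralizer {γ}) ≃* Cfsg.PGSp (n / 2) F)) → Cfsg.splitClassCount (Cfsg.inndiagPSL n F) (Cfsg.Inn (Matrix.ProjectiveSpecialLinearGroup (Fin n) F)) γ = Nat.gcd n (p ^ f - 1) / 2) ∧ (¬ (Even n ∧ Odd p) → Cfsg.splitClassCount (Cfsg.inndiagPSL n F) (Cfsg.Inn (Matrix.ProjectiveSpecialLinearGroup (Fin n) F)) γ = Nat.gcd n (p ^ f - 1)) := by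
  have hn2 : 2 ≤ n := by omega
  have hn1 : 1 ≤ n := by omega
  have hp : p.Prime := Fact.out
  obtain ⟨M, rfl⟩ := exists_grph γ hγ
  have hsymskew := (orderOf_grph hn M).mp hγ2
  rw [split_eq hn1 M]
  have key : Even n → Odd p →
      ((Nonempty (↥(Cfsg.inndiagPSL n F ⊓ Subgroup.centralizer {grph M}) ≃* Cfsg.PGSp (n / 2) F))
        → (detGrp M).index = Nat.gcd (n / 2) (p ^ f - 1)) ∧
      ((¬ Nonempty (↥(Cfsg.inndiagPSL n F ⊓ Subgroup.centralizer {grph M}) ≃* Cfsg.PGSp (n / 2) F))
        → (detGrp M).index = Nat.gcd n (p ^ f - 1) / 2) := by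
    intro hev hpodd
    obtain ⟨m, hm⟩ := hev
    have hnm : n = 2 * m := by omega
    have hdiv : n / 2 = m := by omega
    have hm1 : 1 ≤ m := by omega
    have hqodd : Odd (p ^ f) := hpodd.pow
    have h2 : (2 : F) ≠ 0 := two_ne_zero_of_odd_card hF hqodd
    have hq3 : 3 ≤ p ^ f := by
      have : 1 < p ^ f := Nat.one_lt_pow (by omega) hp.one_lt
      obtain ⟨t, ht⟩ := hqodd
      omega
    obtain ⟨e₁⟩ : Nonempty (Fin m ⊕ Fin m ≃ Fin n) :=
      ⟨Fintype.equivFinOfCardEq (by simp only [Fintype.card_sum, Fintype.card_fin]; omega)⟩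
    obtain ⟨e₂⟩ : Nonempty ((Fin (m - 1) ⊕ Fin (m - 1)) ⊕ Fin 2 ≃ Fin n) :=
      ⟨Fintype.equivFinOfCardEq (by simp only [Fintype.card_sum, Fintype.card_fin]; omega)⟩
    rw [hdiv]
    rcases hsymskew with hsym | hskew
    · -- orthogonal type
      obtain ⟨a, b, hab⟩ := exists_aniso (F := F) h2
      have hP : PolarNondeg (plusQF m F) := polarNondeg_of_nondegenerate _ (plusQF_nondeg m)
      have hMi : PolarNondeg (minusQF (m - 1) F a b) :=
        polarNondeg_of_nondegenerate _ (minusQF_nondeg (m - 1) a b hab)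
      obtain ⟨Q, hQ, hQpol, hQnd⟩ := Cfsg.Agent.Helper41.exists_symQF h2 (M : Mn n F) hsym
      have hQnd' : PolarNondeg Q := hQnd (Matrix.GeneralLinearGroup.det_ne_zero M)
      have hV : finrank F (Fin n → F) = 2 * m := by
        rw [Module.finrank_fintype_fun_eq_card, Fintype.card_fin, hnm]
      have hSp := Cfsg.Agent.S0245.result hF m
      by_cases hTS : HasTS Q m
      · obtain ⟨Ψ, hΨ⟩ := exists_plus_of_hasTS hm1 hV Q hQnd' hTS
        have hconj := conj_of_equiv hn2 e₁ (plusQF m F) hP M Q hQpol Ψ 1 one_ne_zero (fun z => by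
          rw [hΨ, one_mul]
          rfl)
        constructor
        · rintro ⟨φ₂⟩
          exfalso
          obtain ⟨φ₁⟩ := centralizer_gram_iso hn2 h2 e₁ (plusQF m F) hP _ hconj
          have hO := Cfsg.Agent.S0287.result hF m hm1
          refine not_iso hm1 (plusQF m F) ?_ ?_ φ₁ φ₂
          · obtain ⟨v, hv⟩ : ∃ v, QuadraticMap.polar (plusQF m F) v ≠ 0 := by
              by_contra hcon
              simp only [not_exists, not_not] at hcon
              have := hP (fun _ => 1) (fun w => by rw [hcon]; rfl)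
              have h5 := congrFun this (Sum.inl ⟨0, hm1⟩)
              simp at h5
            by_contra hcon
            simp only [not_exists, not_not] at hcon
            apply hv
            funext w
            unfold QuadraticMap.polar
            rw [hcon, hcon, hcon]
            simp
          · show Nat.card (Cfsg.isometryGroup F (Cfsg.quadFormPlus m F)) < _
            rw [hO, hSp]
            exact Cfsg.Agent.Helper20.ord_arith_plus (p ^ f) m (by omega) hm1
        · intro _
          rw [detGrp_conj _ _ hconj, detGrp_gram hn2 h2 e₁ (plusQF m F) hP hnm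
            (Cfsg.Agent.Helper39.plus_sim_exists m) (Cfsg.Agent.Helper39.plus_refl_exists m hm1),
            index_neg_pow p f hF h2 hqodd m, hnm]
      · obtain ⟨Ψ, hΨ⟩ := exists_minus_of_not_hasTS' hm1 hV Q hQnd' hTS a b hab
        have hconj := conj_of_equiv hn2 e₂ (minusQF (m - 1) F a b) hMi M Q hQpol Ψ 1 one_ne_zero
          (fun z => by
            rw [hΨ, one_mul]
            rfl)
        constructor
        · rintro ⟨φ₂⟩
          exfalso
          obtain ⟨φ₁⟩ := centralizer_gram_iso hn2 h2 e₂ (minusQF (m - 1) F a b) hMi _ hconj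
          have hO := Cfsg.Agent.S0288.result hF m hm1 a b hab
          refine not_iso hm1 (minusQF (m - 1) F a b) ?_ ?_ φ₁ φ₂
          · obtain ⟨v, hv⟩ : ∃ v, QuadraticMap.polar (minusQF (m - 1) F a b) v ≠ 0 := by
              by_contra hcon
              simp only [not_exists, not_not] at hcon
              have := hMi (fun _ => 1) (fun w => by rw [hcon]; rfl)
              have h5 := congrFun this (Sum.inr 0)
              simp at h5
            by_contra hcon
            simp only [not_exists, not_not] at hcon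
            apply hv
            funext w
            unfold QuadraticMap.polar
            rw [hcon, hcon, hcon]
            simp
          · show Nat.card (Cfsg.isometryGroup F (Cfsg.quadFormMinus (m - 1) F a b)) < _
            rw [hO, hSp]
            exact Cfsg.Agent.Helper20.ord_arith_minus (p ^ f) m hq3 hm1
        · intro _
          have hex : ∀ c : F, c ≠ 0 → ∃ h : GL ((Fin (m - 1) ⊕ Fin (m - 1)) ⊕ Fin 2) F,
              h ∈ Cfsg.Geo.quadSimilarityGroup (⇑(minusQF (m - 1) F a b)) ∧
              (h : Matrix ((Fin (m - 1) ⊕ Fin (m - 1)) ⊕ Fin 2)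
                ((Fin (m - 1) ⊕ Fin (m - 1)) ⊕ Fin 2) F).det = c ^ m := by
            intro c hc
            obtain ⟨h, hh, hd⟩ := Cfsg.Agent.Helper39.minus_sim_exists h2 (m - 1) a b hab c hc
            refine ⟨h, hh, ?_⟩
            rw [hd]
            congr 1
            omega
          rw [detGrp_conj _ _ hconj, detGrp_gram hn2 h2 e₂ (minusQF (m - 1) F a b) hMi hnm
            hex (Cfsg.Agent.Helper39.minus_refl_exists (m - 1) a b),
            index_neg_pow p f hF h2 hqodd m, hnm]
    · -- symplectic type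
      have hdiag : ∀ i, (M : Mn n F) i i = 0 := by
        intro i
        have h3 := congrFun (congrFun hskew i) i
        rw [Matrix.transpose_apply, Matrix.neg_apply] at h3
        have h4 : (2 : F) * (M : Mn n F) i i = 0 := by linear_combination h3
        exact (mul_eq_zero.mp h4).resolve_left h2
      have hconj := conj_of_alt hn2 e₁ M hskew hdiag
      constructor
      · intro _
        rw [detGrp_conj _ _ hconj, detGrp_J hn2 e₁ Cfsg.Agent.Helper43.GSpPieces.gsp_det
          (Cfsg.Agent.Helper43.GSpPieces.gsp_exists m), index_pow p f hF m]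
      · intro hniso
        exact absurd (centralizer_J_iso hn2 e₁ _ hconj) hniso
  refine ⟨fun h => (key h.1 h.2.1).1 h.2.2, fun h => (key h.1 h.2.1).2 h.2.2, ?_⟩
  intro hnot
  have hroot : ∀ (h : GL (Fin n) F) (c : F),
      (h : Mn n F)ᵀ * (M : Mn n F) * (h : Mn n F) = c • (M : Mn n F) →
        ∃ a : F, (h : Mn n F).det = a ^ n := by
    intro h c hc
    by_cases hpodd : Odd p
    · have hnodd : Odd n := by
        rw [← Nat.not_even_iff_odd]
        exact fun hev => hnot ⟨hev, hpodd⟩
      obtain ⟨m, hm⟩ := hnodd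
      exact root_odd hm M h c hc
    · have hp2 : p = 2 := by
        rcases hp.eq_two_or_odd' with h3 | h3
        · exact h3
        · exact absurd h3 hpodd
      have h2 : (2 : F) = 0 := by
        by_contra h2
        have h4 : ringChar F ≠ 2 := by
          intro h5
          apply h2
          have := CharP.cast_eq_zero F (ringChar F)
          rw [h5] at this
          exact_mod_cast this
        have h6 := FiniteField.odd_card_of_char_ne_two h4
        rw [hF, hp2] at h6
        have : 2 ∣ 2 ^ f := dvd_pow_self 2 (by omega)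
        omega
      exact root_char_two h2 M h c hc
  rw [detGrp_eq_pow hn2 M hroot, index_pow p f hF n]

end Cfsg.Agent.S2702
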