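import Cfsg.Statements.S2626

set_option autoImplicit false
open Cfsg

namespace Cfsg.Agent.S2626

open Matrix

/-- block diagonal embedding on matrices -/
def blockMat (k l : ℕ) (F : Type*) [Field F] :
    (Matrix (Fin k) (Fin k) F × Matrix (Fin l) (Fin l) F) →* Matrix (Fin k ⊕ Fin l) (Fin k ⊕ Fin l) F where
  toFun p := Matrix.fromBlocks p.1 0 0 p.2
  map_one' := by simp [Matrix.fromBlocks_one]
  map_mul' p q := by simp [Matrix.fromBlocks_multiply]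

/-- block diagonal embedding on general linear groups -/
def blockGL (k l : ℕ) (F : Type*) [Field F] :
    (GL (Fin k) F × GL (Fin l) F) →* GL (Fin k ⊕ Fin l) F :=
  (Units.map (blockMat k l F)).comp (MulEquiv.prodUnits.symm.toMonoidHom)

theorem blockGL_coe (k l : ℕ) (F : Type*) [Field F] (a : GL (Fin k) F) (b : GL (Fin l) F) :
    ((blockGL k l F (a, b) : GL (Fin k ⊕ Fin l) F) : Matrix (Fin k ⊕ Fin l) (Fin k ⊕ Fin l) F) =
      Matrix.fromBlocks (a : Matrix (Fin k) (Fin k) F) 0 0 (b : Matrix (Fin l) (Fin l) F) := rfl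

theorem mem_isometryGroup {ι : Type} [Fintype ι] [DecidableEq ι] (F : Type*) [Field F]
    (Q : (ι → F) → F) (g : GL ι F) :
    g ∈ Cfsg.isometryGroup F Q ↔ ∀ u : ι → F, Q ((g : Matrix ι ι F) *ᵥ u) = Q u := by
  constructor
  · intro h u
    exact h u u
  · intro h u v
    exact h u

theorem block_mulVec {k l : ℕ} {F : Type*} [Field F] (A : Matrix (Fin k) (Fin k) F)
    (D : Matrix (Fin l) (Fin l) F) (u : Fin k ⊕ Fin l → F) :
    (Matrix.fromBlocks A 0 0 D *ᵥ u) = Sum.elim (A *ᵥ (u ∘ Sum.inl)) (D *ᵥ (u ∘ Sum.inr)) := by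
  conv_lhs => rw [← Sum.elim_comp_inl_inr u]
  rw [Matrix.fromBlocks_mulVec]
  simp

theorem block_mem {F : Type*} [Field F] {k l : ℕ} (Q₁ : (Fin k → F) → F) (Q₂ : (Fin l → F) → F)
    (a : GL (Fin k) F) (b : GL (Fin l) F) (ha : a ∈ Cfsg.isometryGroup F Q₁)
    (hb : b ∈ Cfsg.isometryGroup F Q₂) :
    blockGL k l F (a, b) ∈ Cfsg.isometryGroup F
      (fun v : Fin k ⊕ Fin l → F => Q₁ (v ∘ Sum.inl) + Q₂ (v ∘ Sum.inr)) := by
  rw [mem_isometryGroup] at ha hb ⊢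
  intro u
  rw [blockGL_coe, block_mulVec]
  simp only [Sum.elim_comp_inl, Sum.elim_comp_inr]
  rw [ha, hb]

/-- the block diagonal homomorphism of isometry groups -/
def blockIso {F : Type*} [Field F] {k l : ℕ} (Q₁ : (Fin k → F) → F) (Q₂ : (Fin l → F) → F) :
    (↥(Cfsg.isometryGroup F Q₁) × ↥(Cfsg.isometryGroup F Q₂)) →*
      ↥(Cfsg.isometryGroup F (fun v : Fin k ⊕ Fin l → F => Q₁ (v ∘ Sum.inl) + Q₂ (v ∘ Sum.inr))) where
  toFun p := ⟨blockGL k l F (p.1.1, p.2.1), block_mem Q₁ Q₂ p.1.1 p.2.1 p.1.2 p.2.2⟩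
  map_one' := by
    apply Subtype.ext
    exact map_one (blockGL k l F)
  map_mul' p q := by
    apply Subtype.ext
    exact map_mul (blockGL k l F) (p.1.1, p.2.1) (q.1.1, q.2.1)

theorem map_mem_commutator {G H : Type*} [Group G] [Group H] (f : G →* H) {x : G}
    (hx : x ∈ commutator G) : f x ∈ commutator H := by
  rw [commutator_def] at hx ⊢
  have := Subgroup.mem_map_of_mem f hx
  rw [Subgroup.map_commutator] at this
  exact Subgroup.commutator_mono le_top le_top this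

theorem result {F : Type*} [Field F] [Fintype F] {k l : ℕ} (Q₁ : QuadraticForm F (Fin k → F)) (Q₂ : QuadraticForm F (Fin l → F)) (h₁ : (QuadraticMap.polarBilin Q₁).Nondegenerate) (h₂ : (QuadraticMap.polarBilin Q₂).Nondegenerate) (g₁ : ↥(Cfsg.isometryGroup F ⇑Q₁)) (g₂ : ↥(Cfsg.isometryGroup F ⇑Q₂)) (hg₁ : g₁ ∈ Cfsg.Omega F ⇑Q₁) (hg₂ : g₂ ∈ Cfsg.Omega F ⇑Q₂) : ∃ g : ↥(Cfsg.isometryGroup F (fun v : Fin k ⊕ Fin l → F => Q₁ (v ∘ Sum.inl) + Q₂ (v ∘ Sum.inr))), g ∈ Cfsg.Omega F (fun v : Fin k ⊕ Fin l → F => Q₁ (v ∘ Sum.inl) + Q₂ (v ∘ Sum.inr)) ∧ ((g : Matrix.GeneralLinearGroup (Fin k ⊕ Fin l) F) : Matrix (Fin k ⊕ Fin l) (Fin k ⊕ Fin l) F) = Matrix.fromBlocks ((g₁ : Matrix.GeneralLinearGroup (Fin k) F) : Matrix (Fin k) (Fin k) F) 0 0 ((g₂ : Matrix.GeneralLinearGroup (Fin l) F) : Matrix (Fin l) (Fin l) F) := by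
  refine ⟨blockIso (⇑Q₁) (⇑Q₂) (g₁, g₂), ?_, rfl⟩
  have e : (g₁, g₂) = MonoidHom.inl _ _ g₁ * MonoidHom.inr _ _ g₂ := by
    simp
  rw [e, map_mul]
  apply Subgroup.mul_mem
  · exact map_mem_commutator ((blockIso (⇑Q₁) (⇑Q₂)).comp (MonoidHom.inl _ _)) hg₁
  · exact map_mem_commutator ((blockIso (⇑Q₁) (⇑Q₂)).comp (MonoidHom.inr _ _)) hg₂

end Cfsg.Agent.S2626
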