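import Cfsg.Statements.S0289
import Cfsg.Agent.Helper5.QuadCount

set_option autoImplicit false
open Cfsg

namespace Cfsg.Agent.S0289

/-- The hyperbolic quadratic form on F^(2m), m at least 1, has q^(2m-1) + q^m - q^(m-1) zeros (that is, (q^m - 1)(q^(m-1) + 1) non-zero isotropic vectors). -/
theorem result {F : Type*} [Field F] [Fintype F] {q : ℕ} (hF : Fintype.card F = q) (m : ℕ) (hm : 1 ≤ m) : Nat.card {v : Fin m ⊕ Fin m → F // Cfsg.quadFormPlus m F v = 0} = q ^ (2 * m - 1) + q ^ m - q ^ (m - 1) := by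
  classical
  have e : {v : Fin m ⊕ Fin m → F // Cfsg.quadFormPlus m F v = 0} ≃
      {p : (Fin m → F) × (Fin m → F) // ∑ i, p.1 i * p.2 i = 0} :=
    (Equiv.sumArrowEquivProdArrow (Fin m) (Fin m) F).subtypeEquiv (fun v => by
      simp [Cfsg.quadFormPlus, Equiv.sumArrowEquivProdArrow])
  rw [Nat.card_congr e, Helper5.card_dot_pairs, if_pos rfl, Fintype.card_fin, hF]
  have hq : 1 ≤ q := by rw [← hF]; exact Fintype.card_pos
  have h1 : q ^ (2 * m - 1) = q ^ m * q ^ (m - 1) := by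
    rw [← pow_add]
    congr 1
    omega
  have h2 : 1 ≤ q ^ m := Nat.one_le_pow _ _ hq
  have h3 : q ^ (m - 1) ≤ q ^ m * q ^ (m - 1) := Nat.le_mul_of_pos_left _ h2
  rw [h1, Nat.sub_mul, one_mul]
  omega

end Cfsg.Agent.S0289
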