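import Mathlib
import Cfsg.Statements.S3794
import Cfsg.Agent.Helper63.FpfGroup

set_option maxHeartbeats 1000000

open Cfsg

namespace Cfsg.Agent.S3794

open Cfsg.Agent.Helper63.Fpf4
open scoped commutatorElement

universe u

/-- Gorenstein–Herstein, by induction on the order. -/
theorem main : ∀ n : ℕ, ∀ (G : Type u) [Group G] [Finite G], Nat.card G = n →
    Group.IsSolvable G → ∀ σ : G ≃* G, (∀ g, σ (σ (σ (σ g))) = g) → (∀ g, σ g = g → g = 1) →
    Group.IsNilpotent (commutator G) := by
  intro n
  induction n using Nat.strong_induction_on with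
  | _ n ih =>
  intro G _ _ hn hsol σ h4 hfpf
  by_cases htriv : Subsingleton G
  · infer_instance
  haveI : Nontrivial G := not_subsingleton_iff_nontrivial.mp htriv
  -- a minimal invariant normal subgroup
  obtain ⟨M, ⟨hMn, hMne, hMσ⟩, hmin⟩ := wellFounded_lt.has_min
    {N : Subgroup G | N.Normal ∧ N ≠ ⊥ ∧ ∀ x ∈ N, σ x ∈ N}
    ⟨⊤, inferInstance, top_ne_bot, fun _ _ => Subgroup.mem_top _⟩
  have hMmin : ∀ N : Subgroup G, N.Normal → N ≠ ⊥ → (∀ x ∈ N, σ x ∈ N) → N ≤ M → N = M :=
    fun N h1 h2 h3 h4 => (lt_or_eq_of_le h4).resolve_left (hmin N ⟨h1, h2, h3⟩)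
  haveI := hMn
  -- `M` is abelian
  have hMab : ∀ x ∈ M, ∀ y ∈ M, x * y = y * x := by
    have hcomm_ne : ⁅M, M⁆ ≠ M := by
      intro heq
      haveI : Nontrivial M := (Subgroup.nontrivial_iff_ne_bot M).mpr hMne
      have h1 := Group.IsSolvable.commutator_lt_top_of_nontrivial M
      have h2 : (commutator M).map M.subtype = M := by
        rw [Subgroup.map_subtype_commutator, heq]
      have h3 : commutator M = ⊤ := by
        apply Subgroup.map_injective M.subtype_injective
        rw [h2, ← MonoidHom.range_eq_map, Subgroup.range_subtype]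
      exact h1.ne h3
    have hbot : ⁅M, M⁆ = ⊥ := by
      by_contra hne
      refine hcomm_ne (hMmin ⁅M, M⁆ inferInstance hne ?_ (Subgroup.commutator_le_right M M))
      intro x hx
      have h1 : σ x ∈ (⁅M, M⁆).map σ.toMonoidHom := Subgroup.mem_map_of_mem _ hx
      rw [Subgroup.map_commutator] at h1
      have h2 : M.map σ.toMonoidHom ≤ M := by
        rintro _ ⟨y, hy, rfl⟩
        exact hMσ y hy
      exact Subgroup.commutator_mono h2 h2 h1
    intro x hx y hy
    have : ⁅x, y⁆ ∈ ⁅M, M⁆ := Subgroup.commutator_mem_commutator hx hy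
    rw [hbot, Subgroup.mem_bot, commutatorElement_eq_one_iff_commute] at this
    exact this.eq
  -- `M` has prime exponent
  have hcard1 : Nat.card M ≠ 1 := fun h => hMne (Subgroup.card_eq_one.mp h)
  obtain ⟨p, hp, hpM⟩ : ∃ p, p.Prime ∧ p ∣ Nat.card M :=
    ⟨(Nat.card M).minFac, Nat.minFac_prime hcard1, Nat.minFac_dvd _⟩
  haveI : Fact p.Prime := ⟨hp⟩
  have hMp : ∀ x ∈ M, x ^ p = 1 := by
    let Ω : Subgroup G :=
      { carrier := {x | x ∈ M ∧ x ^ p = 1}
        one_mem' := ⟨M.one_mem, one_pow _⟩
        mul_mem' := by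
          rintro a b ⟨ha, ha'⟩ ⟨hb, hb'⟩
          refine ⟨M.mul_mem ha hb, ?_⟩
          rw [(show Commute a b from hMab a ha b hb).mul_pow, ha', hb', one_mul]
        inv_mem' := by
          rintro a ⟨ha, ha'⟩
          exact ⟨M.inv_mem ha, by rw [inv_pow, ha', inv_one]⟩ }
    have hΩM : Ω ≤ M := fun x hx => hx.1
    have hΩn : Ω.Normal :=
      ⟨fun x hx g => ⟨hMn.conj_mem x hx.1 g, by rw [conj_pow, hx.2, mul_one, mul_inv_cancel]⟩⟩
    have hΩne : Ω ≠ ⊥ := by
      obtain ⟨x, hx⟩ := exists_prime_orderOf_dvd_card' (G := M) p hpM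
      intro hbot
      have hxΩ : (x : G) ∈ Ω := by
        refine ⟨x.2, ?_⟩
        rw [← Subgroup.coe_pow, ← hx, pow_orderOf_eq_one]; rfl
      rw [hbot, Subgroup.mem_bot] at hxΩ
      have hx1 : x = 1 := Subtype.ext hxΩ
      rw [hx1, orderOf_one] at hx
      exact hp.one_lt.ne hx
    have hΩσ : ∀ x ∈ Ω, σ x ∈ Ω := fun x hx =>
      ⟨hMσ x hx.1, by rw [← map_pow, hx.2, map_one]⟩
    have hΩeq := hMmin Ω hΩn hΩne hΩσ hΩM
    intro x hx
    have : x ∈ Ω := by rw [hΩeq]; exact hx
    exact this.2
  -- `p` is odd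
  have hoddG : Odd (Nat.card G) := fpf_odd_card σ hfpf h4
  have hp2 : p ≠ 2 := by
    rintro rfl
    have : 2 ∣ Nat.card G := hpM.trans (Subgroup.card_subgroup_dvd_card M)
    exact (Nat.not_even_iff_odd.mpr hoddG) (even_iff_two_dvd.mpr this)
  -- the centralizer of `M`
  have hCn : (Subgroup.centralizer (M : Set G)).Normal := inferInstance
  have hMC : M ≤ Subgroup.centralizer (M : Set G) := fun x hx =>
    Subgroup.mem_centralizer_iff.mpr (fun y hy => hMab y hy x hx)
  have hCσ : ∀ x ∈ Subgroup.centralizer (M : Set G), σ x ∈ Subgroup.centralizer (M : Set G) := by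
    intro c hc
    rw [Subgroup.mem_centralizer_iff] at hc ⊢
    intro m hm
    have hm' : σ (σ (σ m)) ∈ M := hMσ _ (hMσ _ (hMσ _ hm))
    have := congrArg σ (hc _ hm')
    rwa [map_mul, map_mul, h4 m] at this
  have hCmap := map_eq_of_inv σ _ hCσ h4
  have hMmap := map_eq_of_inv σ M hMσ h4
  have hCne : Subgroup.centralizer (M : Set G) ≠ ⊥ := ne_bot_of_le_ne_bot hMne hMC
  -- induction hypothesis for `G ⧸ M` and `G ⧸ C`
  have hnilM : Group.IsNilpotent (commutator (G ⧸ M)) :=
    ih (Nat.card (G ⧸ M)) (hn ▸ card_quot_lt M hMne) (G ⧸ M) rfl inferInstance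
      (QuotientGroup.congr M M σ hMmap) (congr_h4 σ M hMmap h4) (congr_fpf σ hfpf M hMσ hMmap)
  have hnilH : Group.IsNilpotent (commutator (G ⧸ Subgroup.centralizer (M : Set G))) :=
    ih (Nat.card (G ⧸ Subgroup.centralizer (M : Set G))) (hn ▸ card_quot_lt _ hCne) _ rfl
      inferInstance (QuotientGroup.congr _ _ σ hCmap) (congr_h4 σ _ hCmap h4)
      (congr_fpf σ hfpf _ hCσ hCmap)
  -- the representation on `M`
  letI : CommGroup M :=
    { (inferInstance : Group M) with mul_comm := fun a b => Subtype.ext (hMab a a.2 b b.2) }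
  let cG : G →* AddMonoid.End (Additive M) :=
    { toFun := fun g => MonoidHom.toAdditive ((MulAut.conjNormal g : M ≃* M).toMonoidHom)
      map_one' := by
        apply AddMonoidHom.ext
        intro v
        show Additive.ofMul ((MulAut.conjNormal (1 : G) : M ≃* M) (Additive.toMul v)) = v
        rw [map_one]; rfl
      map_mul' := by
        intro g h
        apply AddMonoidHom.ext
        intro v
        show Additive.ofMul ((MulAut.conjNormal (g * h) : M ≃* M) (Additive.toMul v)) =
          Additive.ofMul ((MulAut.conjNormal g : M ≃* M)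
            ((MulAut.conjNormal h : M ≃* M) (Additive.toMul v)))
        rw [map_mul]; rfl }
  have hcG : ∀ (g : G) (v : Additive M),
      cG g v = Additive.ofMul ((MulAut.conjNormal g : M ≃* M) (Additive.toMul v)) :=
    fun g v => rfl
  let sM : M →* M := (σ.toMonoidHom.comp M.subtype).codRestrict M (fun m => hMσ m m.2)
  have hsM : ∀ m : M, (sM m : G) = σ m := fun m => rfl
  let sR : AddMonoid.End (Additive M) := MonoidHom.toAdditive sM
  have hsR : ∀ v : Additive M, sR v = Additive.ofMul (sM (Additive.toMul v)) := fun v => rfl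
  have hN : 1 + sR + sR ^ 2 + sR ^ 3 = 0 := by
    have key : ∀ m ∈ M, m * σ m * σ (σ m) * σ (σ (σ m)) = 1 := by
      intro m hm
      apply hfpf
      rw [map_mul, map_mul, map_mul, h4 m]
      have h1 := hMσ m hm
      have h2 := hMσ _ h1
      have h3 := hMσ _ h2
      have c : (σ m * σ (σ m) * σ (σ (σ m))) * m = m * (σ m * σ (σ m) * σ (σ (σ m))) :=
        hMab _ (M.mul_mem (M.mul_mem h1 h2) h3) m hm
      rw [c]; simp only [mul_assoc]
    refine DFunLike.ext _ _ (fun v => ?_)
    have hv := key (Additive.toMul v : M) (Additive.toMul v).2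
    have e : (1 + sR + sR ^ 2 + sR ^ 3 : AddMonoid.End (Additive M)) v
        = v + sR v + sR (sR v) + sR (sR (sR v)) := by
      simp only [pow_succ, pow_zero, one_mul]
      rfl
    rw [e]
    show v + sR v + sR (sR v) + sR (sR (sR v)) = 0
    apply Additive.toMul.injective
    apply Subtype.ext
    exact hv
  have hsρG : ∀ g : G, sR * cG g = cG (σ g) * sR := by
    intro g
    refine DFunLike.ext _ _ (fun v => ?_)
    show sR (cG g v) = cG (σ g) (sR v)
    rw [hcG, hcG, hsR, hsR]
    apply congrArg Additive.ofMul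
    apply Subtype.ext
    simp only [toMul_ofMul, hsM, MulAut.conjNormal_apply, map_mul, map_inv]
  have hker : ∀ g : G, cG g = 1 ↔ g ∈ Subgroup.centralizer (M : Set G) := by
    intro g
    constructor
    · intro h
      rw [Subgroup.mem_centralizer_iff]
      intro m hm
      have h1 := DFunLike.congr_fun h (Additive.ofMul (⟨m, hm⟩ : M))
      rw [hcG] at h1
      have h2 := congrArg (fun t : Additive M => ((Additive.toMul t : M) : G)) h1
      simp only [toMul_ofMul, MulAut.conjNormal_apply] at h2
      have h3 : g * m * g⁻¹ = m := h2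
      exact (mul_inv_eq_iff_eq_mul.mp h3).symm
    · intro hg
      refine DFunLike.ext _ _ (fun v => ?_)
      show Additive.ofMul ((MulAut.conjNormal g : M ≃* M) (Additive.toMul v)) = v
      apply Additive.toMul.injective
      apply Subtype.ext
      simp only [toMul_ofMul, MulAut.conjNormal_apply]
      have := Subgroup.mem_centralizer_iff.mp hg _ (Additive.toMul v).2
      rw [← this]; simp
  let ρ : (G ⧸ Subgroup.centralizer (M : Set G)) →* AddMonoid.End (Additive M) :=
    QuotientGroup.lift _ cG (fun g hg => MonoidHom.mem_ker.mpr ((hker g).mpr hg))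
  have hρmk : ∀ g : G, ρ (g : G ⧸ Subgroup.centralizer (M : Set G)) = cG g := fun g => rfl
  have hρ : ∀ q, ρ q = 1 → q = 1 := by
    intro q
    induction q using QuotientGroup.induction_on with
    | _ g =>
      intro h
      rw [hρmk] at h
      exact (QuotientGroup.eq_one_iff g).mpr ((hker g).mp h)
  have hsρ : ∀ q, sR * ρ q = ρ (QuotientGroup.congr _ _ σ hCmap q) * sR := by
    intro q
    induction q using QuotientGroup.induction_on with
    | _ g =>
      rw [congr_mk', hρmk, hρmk]
      exact hsρG g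
  have hexp : ∀ v : Additive M, p • v = 0 := by
    intro v
    apply Additive.toMul.injective
    apply Subtype.ext
    have := hMp (Additive.toMul v : M) (Additive.toMul v).2
    simpa using this
  have htn : ∀ n : ℕ, n.Coprime p → ∀ x : AddMonoid.End (Additive M), n • x = 0 → x = 0 := by
    intro n hcop x hx
    refine DFunLike.ext _ _ (fun v => ?_)
    have h1 : n • (x v) = 0 := by
      have := DFunLike.congr_fun hx v
      simpa using this
    have h2 : p • (x v) = 0 := hexp _
    have hd : addOrderOf (x v) ∣ 1 := by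
      have := Nat.dvd_gcd (addOrderOf_dvd_of_nsmul_eq_zero h1) (addOrderOf_dvd_of_nsmul_eq_zero h2)
      rwa [Nat.Coprime.gcd_eq_one hcop] at this
    exact AddMonoid.addOrderOf_eq_one_iff.mp (Nat.dvd_one.mp hd)
  have ht2 := htn 2 ((Nat.coprime_primes Nat.prime_two hp).mpr (Ne.symm hp2))
  -- no normal invariant `p`-subgroup in `G ⧸ C`
  have hOp : ∀ P : Subgroup (G ⧸ Subgroup.centralizer (M : Set G)), P.Normal → IsPGroup p P →
      (∀ x ∈ P, QuotientGroup.congr _ _ σ hCmap x ∈ P) → P = ⊥ := by
    intro P hPn hPp hPφ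
    let D : Subgroup G :=
      { carrier := {m | m ∈ M ∧ ∀ g : G, (g : G ⧸ Subgroup.centralizer (M : Set G)) ∈ P →
          g * m * g⁻¹ = m}
        one_mem' := ⟨M.one_mem, fun g _ => by group⟩
        mul_mem' := by
          rintro a b ⟨ha, ha'⟩ ⟨hb, hb'⟩
          refine ⟨M.mul_mem ha hb, fun g hg => ?_⟩
          calc g * (a * b) * g⁻¹ = (g * a * g⁻¹) * (g * b * g⁻¹) := by group
            _ = a * b := by rw [ha' g hg, hb' g hg]
        inv_mem' := by
          rintro a ⟨ha, ha'⟩
          refine ⟨M.inv_mem ha, fun g hg => ?_⟩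
          calc g * a⁻¹ * g⁻¹ = (g * a * g⁻¹)⁻¹ := by group
            _ = a⁻¹ := by rw [ha' g hg] }
    have hDM : D ≤ M := fun x hx => hx.1
    have hDn : D.Normal := by
      constructor
      intro m hm x
      refine ⟨hMn.conj_mem m hm.1 x, fun g hg => ?_⟩
      have hg' : ((x⁻¹ * g * x : G) : G ⧸ Subgroup.centralizer (M : Set G)) ∈ P := by
        have := hPn.conj_mem _ hg ((x⁻¹ : G) : G ⧸ Subgroup.centralizer (M : Set G))
        simpa using this
      have := hm.2 _ hg'
      calc g * (x * m * x⁻¹) * g⁻¹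
          = x * ((x⁻¹ * g * x) * m * (x⁻¹ * g * x)⁻¹) * x⁻¹ := by group
        _ = x * m * x⁻¹ := by rw [this]
    have hDσ : ∀ m ∈ D, σ m ∈ D := by
      intro m hm
      refine ⟨hMσ m hm.1, fun g hg => ?_⟩
      have hg' : ((σ (σ (σ g)) : G) : G ⧸ Subgroup.centralizer (M : Set G)) ∈ P := by
        have := hPφ _ (hPφ _ (hPφ _ hg))
        rwa [congr_mk', congr_mk', congr_mk'] at this
      have := congrArg σ (hm.2 _ hg')
      rwa [map_mul, map_mul, map_inv, h4 g] at this
    have hDne : D ≠ ⊥ := by
      let ρM : (G ⧸ Subgroup.centralizer (M : Set G)) →* MulAut M :=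
        QuotientGroup.lift _ (MulAut.conjNormal (H := M)) (by
          intro g hg
          rw [MonoidHom.mem_ker]
          ext m
          rw [MulAut.conjNormal_apply]
          have := Subgroup.mem_centralizer_iff.mp hg m m.2
          rw [← this]; simp)
      letI : MulAction P M := MulAction.compHom M (ρM.comp P.subtype)
      have hfix1 : (1 : M) ∈ MulAction.fixedPoints P M := by
        intro x
        show (ρM.comp P.subtype) x • (1 : M) = 1
        rw [MulAut.smul_def, map_one]
      obtain ⟨b, hb, hb1⟩ :=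
        hPp.exists_fixed_point_of_prime_dvd_card_of_fixed_point (α := M) hpM hfix1
      intro hbot
      have hbD : (b : G) ∈ D := by
        refine ⟨b.2, fun g hg => ?_⟩
        have h1 : (⟨(g : G ⧸ Subgroup.centralizer (M : Set G)), hg⟩ : P) • b = b := hb ⟨_, hg⟩
        have h2 : ((ρM (g : G ⧸ Subgroup.centralizer (M : Set G))) b : G) = g * b * g⁻¹ := by
          rw [show ρM (g : G ⧸ Subgroup.centralizer (M : Set G)) = MulAut.conjNormal g from rfl,
            MulAut.conjNormal_apply]
        rw [← h2]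
        exact congrArg Subtype.val h1
      rw [hbot, Subgroup.mem_bot] at hbD
      exact hb1 (Subtype.ext hbD.symm)
    have hDeq : D = M := hMmin D hDn hDne hDσ hDM
    rw [Subgroup.eq_bot_iff_forall]
    intro q hq
    induction q using QuotientGroup.induction_on with
    | _ g =>
      rw [QuotientGroup.eq_one_iff, Subgroup.mem_centralizer_iff]
      intro m hm
      have hmD : m ∈ D := hDeq ▸ hm
      have := hmD.2 g hq
      exact (mul_inv_eq_iff_eq_mul.mp this).symm
  -- `G ⧸ C` is abelian
  have hab := abelian_of_rep p ρ hρ (QuotientGroup.congr _ _ σ hCmap) sR hN hsρ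
    (congr_fpf σ hfpf _ hCσ hCmap) (congr_h4 σ _ hCmap h4) htn ht2 hOp hnilH
  have hGC : commutator G ≤ Subgroup.centralizer (M : Set G) := by
    rw [commutator_def, Subgroup.commutator_le]
    intro x _ y _
    rw [← QuotientGroup.eq_one_iff, commutatorElement_def]
    simp only [QuotientGroup.mk_mul, QuotientGroup.mk_inv]
    rw [hab (x : G ⧸ Subgroup.centralizer (M : Set G)) y]
    group
  -- conclusion
  let f : commutator G →* commutator (G ⧸ M) :=
    ((QuotientGroup.mk' M).comp (commutator G).subtype).codRestrict (commutator (G ⧸ M)) (by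
      intro x
      have hle : (commutator G).map (QuotientGroup.mk' M) ≤ commutator (G ⧸ M) := by
        rw [commutator_def, Subgroup.map_commutator, commutator_def]
        exact Subgroup.commutator_mono le_top le_top
      exact hle (Subgroup.mem_map_of_mem _ x.2))
  haveI := hnilM
  apply Subgroup.isNilpotent_of_ker_le_center f
  intro x hx
  rw [MonoidHom.mem_ker] at hx
  have hxM : (x : G) ∈ M := by
    have := congrArg Subtype.val hx
    exact (QuotientGroup.eq_one_iff _).mp this
  rw [Subgroup.mem_center_iff]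
  intro y
  have hyC : (y : G) ∈ Subgroup.centralizer (M : Set G) := hGC y.2
  have := Subgroup.mem_centralizer_iff.mp hyC _ hxM
  exact Subtype.ext this.symm

theorem result {G : Type*} [Group G] [Finite G] (hG : Group.IsSolvable G) (σ : MulAut G) (hσ : σ ^ 4 = 1) (hfpf : ∀ g : G, σ g = g → g = 1) : Group.IsNilpotent (commutator G) := by
  have h4 : ∀ g, σ (σ (σ (σ g))) = g := by
    intro g
    have := congrArg (fun τ : MulAut G => τ g) hσ
    simpa [pow_succ, MulAut.mul_apply] using this
  exact main _ G rfl hG σ h4 hfpf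

end Cfsg.Agent.S3794
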