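import Cfsg.Statements.S0744
import Cfsg.Agent.Helper13.MultTrans

set_option autoImplicit false
open Cfsg

namespace Cfsg.Agent.S0744

open Cfsg.Agent.Helper13 in
theorem core {α : Type*} [Fintype α] [DecidableEq α] (G : Subgroup (Equiv.Perm α))
    (S : Finset α) (l m : ℕ) (hl : 1 < l)
    (hL : ∀ a ∉ S, Nat.card (fixingSubgroup G ((insert a S : Finset α) : Set α)) = l)
    (hM : ∀ a ∉ S, ∀ x ∉ S, x ≠ a →
      Nat.card (fixingSubgroup G ((insert x (insert a S) : Finset α) : Set α)) = m) :
    ∀ a ∉ S, ∀ b ∉ S, ∃ g ∈ fixingSubgroup G (S : Set α), g • a = b := by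
  classical
  intro a ha b hb
  by_contra hcon
  set K : Subgroup G := fixingSubgroup G (S : Set α) with hK
  let O : Set α := {x | ∃ g ∈ K, g • a = x}
  have hKcompl : ∀ g ∈ K, ∀ x ∉ S, g • x ∉ S := by
    intro g hg x hx hx'
    rw [hK, mem_fixingSubgroup_iff] at hg
    have h1 := hg (g • x) hx'
    have h2 : g • x = x := by
      have := congrArg (fun y => g⁻¹ • y) h1
      simpa using this
    rw [h2] at hx'
    exact hx hx'
  have hOS : ∀ x ∈ O, x ∉ S := by
    rintro x ⟨g, hg, rfl⟩
    exact hKcompl g hg a ha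
  have haO : a ∈ O := ⟨1, K.one_mem, one_smul _ _⟩
  have hbO : b ∉ O := fun hbO => hcon hbO
  have hOinv : ∀ g ∈ K, ∀ x ∈ O, g • x ∈ O := by
    rintro g hg x ⟨h, hh, rfl⟩
    exact ⟨g * h, K.mul_mem hg hh, mul_smul _ _ _⟩
  have hins : ∀ c : α, ∀ g : G, g ∈ fixingSubgroup G ((insert c S : Finset α) : Set α) ↔
      g ∈ K ∧ g • c = c := by
    intro c g
    rw [hK, mem_fixingSubgroup_iff, mem_fixingSubgroup_iff]
    simp only [Finset.coe_insert, Set.mem_insert_iff, Finset.mem_coe]
    constructor
    · intro h
      exact ⟨fun y hy => h y (Or.inr hy), h c (Or.inl rfl)⟩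
    · rintro ⟨h1, h2⟩ y (rfl | hy)
      · exact h2
      · exact h1 y hy
  have hins2 : ∀ c x : α, (fixingSubgroup G ((insert c S : Finset α) : Set α)) ⊓
      MulAction.stabilizer G x =
        fixingSubgroup G ((insert x (insert c S) : Finset α) : Set α) := by
    intro c x
    ext g
    rw [Subgroup.mem_inf, MulAction.mem_stabilizer_iff, mem_fixingSubgroup_iff,
      mem_fixingSubgroup_iff]
    simp only [Finset.coe_insert, Set.mem_insert_iff, Finset.mem_coe]
    constructor
    · rintro ⟨h1, h2⟩ y (rfl | hy)
      · exact h2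
      · exact h1 y hy
    · intro h
      exact ⟨fun y hy => h y (Or.inr hy), h x (Or.inl rfl)⟩
  -- the two divisibilities
  have hd1 : l ∣ Nat.card (O \ {a} : Set α) * m := by
    rw [← hL a ha]
    apply card_dvd_card_mul G _ (O \ {a})
    · intro g hg x hx
      rw [hins] at hg
      refine ⟨hOinv g hg.1 x hx.1, ?_⟩
      intro h
      have h' : g • x = a := h
      apply hx.2
      have h3 : g • x = g • a := by rw [h', hg.2]
      have := congrArg (fun y => g⁻¹ • y) h3
      simpa using this
    · intro x hx
      rw [hins2]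
      exact hM a ha x (hOS x hx.1) hx.2
  have hd2 : l ∣ Nat.card O * m := by
    rw [← hL b hb]
    apply card_dvd_card_mul G _ O
    · intro g hg x hx
      rw [hins] at hg
      exact hOinv g hg.1 x hx
    · intro x hx
      rw [hins2]
      exact hM b hb x (hOS x hx) (fun h => hbO (h ▸ hx))
  have hcard : Nat.card (O \ {a} : Set α) + 1 = Nat.card O := by
    rw [Nat.card_coe_set_eq, Nat.card_coe_set_eq]
    exact Set.ncard_sdiff_singleton_add_one haO (Set.toFinite O)
  have hlm : l ∣ m := by
    rw [← hcard, add_mul, one_mul] at hd2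
    exact (Nat.dvd_add_right hd1).mp hd2
  -- a nontrivial element of the stabiliser of `insert a S`
  set Ka : Subgroup G := fixingSubgroup G ((insert a S : Finset α) : Set α) with hKa
  have hKal : Nat.card Ka = l := hL a ha
  have hnt : Nontrivial Ka := by
    rw [← Finite.one_lt_card_iff_nontrivial, hKal]
    exact hl
  obtain ⟨⟨g, hgKa⟩, hg1⟩ := exists_ne (1 : Ka)
  have hg1' : g ≠ 1 := fun h => hg1 (Subtype.ext h)
  obtain ⟨x, hx⟩ : ∃ x : α, g • x ≠ x := by
    by_contra hall
    push Not at hall
    apply hg1'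
    apply Subtype.ext
    ext y
    exact hall y
  have hgK := (hins a g).mp hgKa
  have hxS : x ∉ S := by
    intro hxS
    apply hx
    have := hgK.1
    rw [hK, mem_fixingSubgroup_iff] at this
    exact this x hxS
  have hxa : x ≠ a := by
    rintro rfl
    exact hx hgK.2
  have hm := hM a ha x hxS hxa
  have hle : fixingSubgroup G ((insert x (insert a S) : Finset α) : Set α) ≤ Ka := by
    rw [← hins2]
    exact inf_le_left
  have hmpos : 0 < m := by
    rw [← hm]
    exact Nat.card_pos
  have heq : fixingSubgroup G ((insert x (insert a S) : Finset α) : Set α) = Ka := by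
    apply Subgroup.eq_of_le_of_card_ge hle
    rw [hm, hKal]
    exact Nat.le_of_dvd hmpos hlm
  have hgx : g ∈ fixingSubgroup G ((insert x (insert a S) : Finset α) : Set α) := by
    rw [heq]; exact hgKa
  rw [mem_fixingSubgroup_iff] at hgx
  exact hx (hgx x (by simp))

/-- If for some `k > 1` the pointwise stabilisers of all `(k-1)`-subsets have the same order `> 1` and those of all `k`-subsets have the same order, then the group is `(k-1)`-transitive. -/
theorem result {α : Type*} [Fintype α] [DecidableEq α] (G : Subgroup (Equiv.Perm α)) {k : ℕ} (hk : 1 < k) (hkn : k ≤ Fintype.card α) (l m : ℕ) (hl : 1 < l) (hkm1 : ∀ s : Finset α, s.card = k - 1 → Nat.card (fixingSubgroup G (s : Set α)) = l) (hkm : ∀ s : Finset α, s.card = k → Nat.card (fixingSubgroup G (s : Set α)) = m) : MulAction.IsMultiplyPretransitive G α (k - 1) := by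
  classical
  have hcore : ∀ S : Finset α, S.card = k - 2 → ∀ a ∉ S, ∀ b ∉ S,
      ∃ g ∈ fixingSubgroup G (S : Set α), g • a = b := by
    intro S hS
    apply core G S l m hl
    · intro a ha
      exact hkm1 _ (by rw [Finset.card_insert_of_notMem ha, hS]; omega)
    · intro a ha x hx hxa
      apply hkm
      rw [Finset.card_insert_of_notMem (by simp [hx, hxa]), Finset.card_insert_of_notMem ha, hS]
      omega
  have h3 := Cfsg.Agent.Helper13.fixing_trans_downward G (k - 2) (by omega) hcore
  apply Cfsg.Agent.Helper13.multTrans_of_fixing G (k - 1)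
  intro S' hS'
  exact h3 S' (by omega)

end Cfsg.Agent.S0744
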