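import Cfsg.Statements.S0680
import Cfsg.Agent.Helper12.MinNormal
import Cfsg.Agent.Helper12.Sharp2

set_option autoImplicit false
open Cfsg

namespace Cfsg.Agent.S0680

open Cfsg.Agent.Helper12 MulAction

/-- A finite sharply doubly transitive permutation group has degree a prime power `p ^ j`; a Sylow `p`-subgroup is normal, elementary abelian and regular, and consists of the identity together with the elements without fixed points. (Frobenius' Theorem is not needed.) -/
theorem result {α : Type*} [Fintype α] [DecidableEq α] (G : Subgroup (Equiv.Perm α)) [MulAction.IsMultiplyPretransitive G α 2] (hsharp : ∀ x : Fin 2 ↪ α, MulAction.stabilizer G x = ⊥) (h2 : 2 ≤ Fintype.card α) : ∃ p j : ℕ, p.Prime ∧ 1 ≤ j ∧ Fintype.card α = p ^ j ∧ ∀ (hp : Fact p.Prime) (P : Sylow p G), (P : Subgroup G).Normal ∧ IsMulCommutative (P : Subgroup G) ∧ (∀ x ∈ (P : Subgroup G), x ^ p = 1) ∧ MulAction.IsPretransitive (P : Subgroup G) α ∧ (∀ a : α, MulAction.stabilizer (P : Subgroup G) a = ⊥) ∧ ∀ g : G, g ∈ (P : Subgroup G) ↔ g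 = 1 ∨ ∀ a : α, g • a ≠ a := by
  have htr : IsPretransitive G α := isPretransitive_of_is_two_pretransitive
  have hsharp' : ∀ (g : G) (a b : α), a ≠ b → g • a = a → g • b = b → g = 1 := by
    intro g a b hab ha hb
    have hmem : g ∈ stabilizer G (Function.Embedding.embFinTwo hab) := by
      rw [mem_stabilizer_iff]
      ext i
      change g • (Function.Embedding.embFinTwo hab i) = Function.Embedding.embFinTwo hab i
      fin_cases i
      · exact ha
      · exact hb
    rw [hsharp] at hmem
    exact Subgroup.mem_bot.mp hmem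
  have hcard : Nat.card G = Fintype.card α * (Fintype.card α - 1) := by
    obtain ⟨x0⟩ : Nonempty (Fin 2 ↪ α) :=
      Function.Embedding.nonempty_of_card_le (by rw [Fintype.card_fin]; exact h2)
    have h2t : IsPretransitive G (Fin 2 ↪ α) := inferInstance
    have hbij := bijective_smul_of_regular (K := G) (α := Fin 2 ↪ α) h2t hsharp x0
    rw [Nat.card_congr (Equiv.ofBijective _ hbij), Nat.card_eq_fintype_card,
      Fintype.card_embedding_eq, Fintype.card_fin]
    simp [Nat.descFactorial]
    ring
  obtain ⟨p, j, N, hp, hj, hn, hnormal, hcomm, hexp, htrN, hsemi, hmem, hQ, hNp⟩ :=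
    sharp2_main htr hsharp' h2 hcard
  refine ⟨p, j, hp, hj, hn, fun hp' P => ?_⟩
  have hPN : (P : Subgroup G) = N := (P.is_maximal' hNp (hQ _ P.isPGroup')).symm
  rw [hPN]
  refine ⟨hnormal, isMulCommutative_iff.mpr (fun a b => Subtype.ext (hcomm a a.2 b b.2)), hexp,
    ⟨fun a b => ?_⟩, fun a => ?_, fun g => hmem g⟩
  · obtain ⟨g, hg, h⟩ := htrN a b
    exact ⟨⟨g, hg⟩, h⟩
  · rw [eq_bot_iff]
    intro g hg
    rw [mem_stabilizer_iff] at hg
    rw [Subgroup.mem_bot]
    exact Subtype.ext (hsemi g.1 g.2 a hg)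

end Cfsg.Agent.S0680
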