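import Cfsg.Statements.S0263
import Mathlib

set_option autoImplicit false
open Cfsg

namespace Cfsg.Agent.S0263

/-- A Sylow p-subgroup of GL_n(q), p the characteristic, has order q^(n(n-1)/2). -/
theorem result {F : Type*} [Field F] [Fintype F] {q : ℕ} (hF : Fintype.card F = q) (p : ℕ) [Fact p.Prime] [CharP F p] (n : ℕ) (P : Sylow p (Matrix.GeneralLinearGroup (Fin n) F)) : Nat.card P = q ^ (n * (n - 1) / 2) := by
  classical
  obtain ⟨f, hp, hq⟩ := FiniteField.card F p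
  rw [hF] at hq
  have hq1 : 1 ≤ q := by rw [hq]; exact Nat.one_le_pow _ _ hp.pos
  have hcard : Nat.card (Matrix.GeneralLinearGroup (Fin n) F) =
      q ^ (n * (n - 1) / 2) * ∏ i : Fin n, (q ^ (n - (i : ℕ)) - 1) := by
    rw [Matrix.card_GL_field, hF]
    have h1 : ∀ i : Fin n, q ^ n - q ^ (i : ℕ) = q ^ (i : ℕ) * (q ^ (n - (i : ℕ)) - 1) := by
      intro i
      rw [Nat.mul_sub, mul_one, ← pow_add, Nat.add_sub_cancel' i.2.le]
    simp_rw [h1]
    rw [Finset.prod_mul_distrib, Finset.prod_pow_eq_pow_sum,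
      Fin.sum_univ_eq_sum_range (fun i => i) n, Finset.sum_range_id]
  have hm : ¬ p ∣ ∏ i : Fin n, (q ^ (n - (i : ℕ)) - 1) := by
    intro hdvd
    rw [hp.prime.dvd_finsetProd_iff] at hdvd
    obtain ⟨i, _, hi⟩ := hdvd
    have hpos : 1 ≤ n - (i : ℕ) := by have := i.2; omega
    have h2 : p ∣ q ^ (n - (i : ℕ)) := by
      rw [hq, ← pow_mul]
      exact dvd_pow_self p (by
        have : 0 < (f : ℕ) := f.pos
        have := Nat.mul_pos this hpos
        omega)
    have h3 : 1 ≤ q ^ (n - (i : ℕ)) := Nat.one_le_pow _ _ hq1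
    have h4 : p ∣ q ^ (n - (i : ℕ)) - (q ^ (n - (i : ℕ)) - 1) := Nat.dvd_sub h2 hi
    have h5 : q ^ (n - (i : ℕ)) - (q ^ (n - (i : ℕ)) - 1) = 1 := by omega
    rw [h5] at h4
    exact hp.one_lt.ne' (Nat.dvd_one.1 h4)
  have hm0 : ∏ i : Fin n, (q ^ (n - (i : ℕ)) - 1) ≠ 0 := by
    intro h0
    apply hm
    rw [h0]
    exact dvd_zero p
  have hqpow0 : q ^ (n * (n - 1) / 2) ≠ 0 := by
    have := Nat.one_le_pow (n * (n - 1) / 2) q hq1
    omega
  rw [Sylow.card_eq_multiplicity, hcard, Nat.factorization_mul hqpow0 hm0]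
  simp only [Finsupp.coe_add, Pi.add_apply]
  rw [Nat.factorization_eq_zero_of_not_dvd hm, add_zero, Nat.factorization_pow]
  simp only [Finsupp.coe_smul, Pi.smul_apply, smul_eq_mul]
  rw [hq, Nat.factorization_pow]
  simp only [Finsupp.coe_smul, Pi.smul_apply, smul_eq_mul]
  rw [hp.factorization_self, mul_one, ← pow_mul, mul_comm]

end Cfsg.Agent.S0263
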