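import Cfsg.Statements.S5061
import Cfsg.Agent.Helper95.UnipBS

set_option autoImplicit false
open Cfsg

namespace Cfsg.Agent.S5061

/-- Let M be a finite-dimensional vector space over a field k, G ≤ GL(M), and 𝒲 a set of subgroups of G, invariant under conjugation by G, such that any two members of 𝒲 generate a subgroup acting unipotently on M (for some n all products of n endomorphisms g − 1 from it vanish). Then the subgroup generated by all members of 𝒲 acts unipotently on M and is normal in G. -/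
theorem result {k : Type*} [Field k] {M : Type*} [AddCommGroup M] [Module k M] [FiniteDimensional k M]
    {G : Subgroup (LinearMap.GeneralLinearGroup k M)} {W : Set (Subgroup (LinearMap.GeneralLinearGroup k M))} (hWG : ∀ A ∈ W, A ≤ G)
    (hWW : ∀ A ∈ W, ∀ B ∈ W, Cfsg.IsUnipotentOn (A ⊔ B)) (hWconj : ∀ A ∈ W, ∀ g ∈ G, Cfsg.conjBy A g ∈ W) :
    Cfsg.IsUnipotentOn (⨆ A ∈ W, A) ∧ ∀ g ∈ G, Cfsg.conjBy (⨆ A ∈ W, A) g = ⨆ A ∈ W, A := by
  have hF : Helper95.Fam (⊥ : Submodule k M) W := by
    refine ⟨?_, ?_, ?_⟩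
    · intro A _ a _ c hc
      rw [Submodule.mem_bot] at hc ⊢
      subst hc
      simp
    · intro A hA B hB b hb
      exact hWconj A hA b (hWG B hB hb)
    · intro A hA B hB
      exact (Helper95.isUnipotentOn_iff _).1 (hWW A hA B hB)
  refine ⟨(Helper95.isUnipotentOn_iff _).2 (Helper95.unip_family _ ⊥ rfl W hF), ?_⟩
  intro g hg
  apply le_antisymm
  · show Subgroup.map _ _ ≤ _
    simp only [Subgroup.map_iSup]
    exact iSup₂_le fun A hA => le_iSup₂_of_le (Cfsg.conjBy A g) (hWconj A hA g hg) le_rfl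
  · refine iSup₂_le fun A hA => ?_
    have h1 : Cfsg.conjBy A g⁻¹ ∈ W := hWconj A hA g⁻¹ (inv_mem hg)
    have h2 : A = Cfsg.conjBy (Cfsg.conjBy A g⁻¹) g := by
      ext x
      simp only [Cfsg.conjBy, Subgroup.mem_map, MulEquiv.coe_toMonoidHom, MulAut.conj_apply]
      constructor
      · intro hx
        exact ⟨g⁻¹ * x * g, ⟨x, hx, by simp⟩, by group⟩
      · rintro ⟨y, ⟨z, hz, rfl⟩, rfl⟩
        have : g * (g⁻¹ * z * g⁻¹⁻¹) * g⁻¹ = z := by group
        rw [this]
        exact hz
    rw [h2]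
    exact Subgroup.map_mono (le_iSup₂_of_le (Cfsg.conjBy A g⁻¹) h1 le_rfl)

end Cfsg.Agent.S5061
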