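-- Statement S3799: extraspecial groups of exponent p exist inside GL(n+2, p).
import Mathlib
import Cfsg.Statements.S3799

set_option autoImplicit false
open Cfsg

namespace Cfsg.Agent.S3799

open scoped commutatorElement

/-- Transfer of extraspeciality along a group isomorphism. -/
theorem isExtraspecial_of_mulEquiv {H K : Type*} [Group H] [Group K] {p : ℕ} (e : H ≃* K)
    (h : Cfsg.IsExtraspecial p H) : Cfsg.IsExtraspecial p K := by
  obtain ⟨⟨hp, hf, hc⟩, hz⟩ := h
  have hfr : frattini K = (frattini H).map e.toMonoidHom := (e.mapSubgroup.map_radical).symm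
  have hce : Subgroup.center K = (Subgroup.center H).map e.toMonoidHom := by
    ext x
    constructor
    · intro hx
      refine ⟨e.symm x, ?_, by simp⟩
      show e.symm x ∈ Subgroup.center H
      rw [Subgroup.mem_center_iff]
      intro g
      apply e.injective
      rw [map_mul, map_mul, e.apply_symm_apply]
      exact Subgroup.mem_center_iff.mp hx (e g)
    · rintro ⟨y, hy, rfl⟩
      have hy' : y ∈ Subgroup.center H := hy
      rw [Subgroup.mem_center_iff]
      intro k
      have h1 := Subgroup.mem_center_iff.mp hy' (e.symm k)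
      have h2 := congrArg e h1
      rw [map_mul, map_mul, e.apply_symm_apply] at h2
      exact h2
  have hco : commutator K = (commutator H).map e.toMonoidHom := by
    rw [commutator_def, commutator_def, Subgroup.map_commutator,
      Subgroup.map_top_of_surjective e.toMonoidHom e.surjective]
  refine ⟨⟨hp.of_equiv e, ?_, ?_⟩, ?_⟩
  · rw [hfr, hce, hf]
  · rw [hco, hce, hc]
  · rw [hce, Subgroup.card_map_of_injective e.injective]; exact hz

/-- The kernel of a surjection onto a group of prime order is a maximal subgroup. -/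
theorem isCoatom_ker {G K : Type*} [Group G] [Group K] {p : ℕ} [Fact p.Prime] (f : G →* K)
    (hf : Function.Surjective f) (hK : Nat.card K = p) : IsCoatom f.ker := by
  have hp : p.Prime := Fact.out
  haveI : Finite K := Nat.finite_of_card_ne_zero (by rw [hK]; exact hp.ne_zero)
  constructor
  · intro htop
    have hall : ∀ k : K, k = 1 := by
      intro k
      obtain ⟨g, rfl⟩ := hf k
      have : g ∈ f.ker := by rw [htop]; trivial
      exact this
    haveI : Subsingleton K := ⟨fun a b => by rw [hall a, hall b]⟩
    have hK1 : Nat.card K = 1 := Nat.card_of_subsingleton 1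
    rw [hK] at hK1; exact hp.one_lt.ne' hK1
  · intro L hL
    have hdvd : Nat.card (L.map f) ∣ p := by rw [← hK]; exact Subgroup.card_subgroup_dvd_card _
    rcases (Nat.dvd_prime hp).mp hdvd with h1 | h1
    · exfalso
      have hbot := Subgroup.eq_bot_of_card_eq _ h1
      have hle : L ≤ f.ker := by
        intro x hx
        have : f x ∈ L.map f := Subgroup.mem_map_of_mem f hx
        rw [hbot, Subgroup.mem_bot] at this
        exact this
      exact lt_irrefl _ (lt_of_lt_of_le hL hle)
    · have htop : L.map f = ⊤ := Subgroup.eq_top_of_card_eq _ (by rw [h1, hK])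
      have := Subgroup.comap_map_eq f L
      rw [htop, Subgroup.comap_top, sup_eq_left.mpr hL.le] at this
      exact this.symm

/-- In a finite `p`-group the commutator subgroup lies in the Frattini subgroup. -/
theorem commutator_le_frattini {G : Type*} [Group G] [Finite G] {p : ℕ} [Fact p.Prime]
    (hG : IsPGroup p G) : commutator G ≤ frattini G := by
  haveI : Group.IsNilpotent G := hG.isNilpotent
  unfold frattini Order.radical
  rw [le_iInf₂_iff]
  intro M hM
  have hM' : IsCoatom M := hM
  haveI hMn : M.Normal :=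
    Subgroup.NormalizerCondition.normal_of_coatom M Group.normalizerCondition_of_isNilpotent hM'
  by_contra hnot
  have hlt : M < M ⊔ commutator G :=
    lt_of_le_of_ne le_sup_left (fun h => hnot (by rw [h]; exact le_sup_right))
  have hsup : M ⊔ commutator G = ⊤ := hM'.2 _ hlt
  haveI : Nontrivial (G ⧸ M) := by
    rw [← Finite.one_lt_card_iff_nontrivial]
    have h1 : M.index ≠ 1 := fun h => hM'.1 (Subgroup.index_eq_one.mp h)
    have h2 : M.index ≠ 0 := Subgroup.index_ne_zero_of_finite
    show 1 < M.index
    omega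
  have h1 := Group.IsSolvable.commutator_lt_top_of_nontrivial (G ⧸ M)
  have h2 : (commutator G).map (QuotientGroup.mk' M) = commutator (G ⧸ M) := by
    rw [commutator_def, commutator_def, Subgroup.map_commutator,
      Subgroup.map_top_of_surjective _ (QuotientGroup.mk'_surjective M)]
  have h3 : (commutator G).map (QuotientGroup.mk' M) = ⊤ := by
    have := congrArg (Subgroup.map (QuotientGroup.mk' M)) hsup
    rw [Subgroup.map_sup, Subgroup.map_top_of_surjective _ (QuotientGroup.mk'_surjective M),
      QuotientGroup.map_mk'_self, bot_sup_eq] at this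
    exact this
  rw [← h2, h3] at h1
  exact lt_irrefl _ h1

/-- Heisenberg group over `ZMod p` of order `p ^ (2n+1)`. -/
@[ext] structure Heis (n p : ℕ) where
  a : Fin n → ZMod p
  b : Fin n → ZMod p
  c : ZMod p

namespace Heis

variable {n p : ℕ}

instance : Mul (Heis n p) := ⟨fun x y => ⟨x.a + y.a, x.b + y.b, x.c + y.c + x.a ⬝ᵥ y.b⟩⟩
instance : One (Heis n p) := ⟨⟨0, 0, 0⟩⟩
instance : Inv (Heis n p) := ⟨fun x => ⟨-x.a, -x.b, -x.c + x.a ⬝ᵥ x.b⟩⟩

@[simp] theorem mul_a (x y : Heis n p) : (x * y).a = x.a + y.a := rfl
@[simp] theorem mul_b (x y : Heis n p) : (x * y).b = x.b + y.b := rfl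
@[simp] theorem mul_c (x y : Heis n p) : (x * y).c = x.c + y.c + x.a ⬝ᵥ y.b := rfl
@[simp] theorem one_a : (1 : Heis n p).a = 0 := rfl
@[simp] theorem one_b : (1 : Heis n p).b = 0 := rfl
@[simp] theorem one_c : (1 : Heis n p).c = 0 := rfl
@[simp] theorem inv_a (x : Heis n p) : (x⁻¹).a = -x.a := rfl
@[simp] theorem inv_b (x : Heis n p) : (x⁻¹).b = -x.b := rfl
@[simp] theorem inv_c (x : Heis n p) : (x⁻¹).c = -x.c + x.a ⬝ᵥ x.b := rfl

instance : Group (Heis n p) where
  mul_assoc x y z := by
    apply Heis.ext
    · simp [add_assoc]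
    · simp [add_assoc]
    · simp only [mul_a, mul_b, mul_c, add_dotProduct, dotProduct_add]; ring
  one_mul x := by
    apply Heis.ext <;> simp
  mul_one x := by
    apply Heis.ext <;> simp
  inv_mul_cancel x := by
    apply Heis.ext <;> simp

def equivProd : Heis n p ≃ (Fin n → ZMod p) × (Fin n → ZMod p) × ZMod p where
  toFun x := (x.a, x.b, x.c)
  invFun t := ⟨t.1, t.2.1, t.2.2⟩
  left_inv _ := rfl
  right_inv _ := rfl

instance [NeZero p] : Finite (Heis n p) := Finite.of_equiv _ equivProd.symm

theorem card_eq : Nat.card (Heis n p) = p ^ (1 + 2 * n) := by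
  rw [Nat.card_congr equivProd, Nat.card_prod, Nat.card_prod, Nat.card_fun, Nat.card_zmod,
    Nat.card_fin]
  ring

theorem pow_a (x : Heis n p) (k : ℕ) : (x ^ k).a = k • x.a := by
  induction k with
  | zero => simp
  | succ k ih => rw [pow_succ, mul_a, ih, succ_nsmul]

theorem pow_b (x : Heis n p) (k : ℕ) : (x ^ k).b = k • x.b := by
  induction k with
  | zero => simp
  | succ k ih => rw [pow_succ, mul_b, ih, succ_nsmul]

theorem pow_c (x : Heis n p) (k : ℕ) :
    (x ^ k).c = k • x.c + (k.choose 2) • (x.a ⬝ᵥ x.b) := by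
  induction k with
  | zero => simp
  | succ k ih =>
    have hch : (k + 1).choose 2 = k + k.choose 2 := by
      rw [Nat.choose_succ_succ' k 1, Nat.choose_one_right]
    rw [pow_succ, mul_c, ih, pow_a, smul_dotProduct, hch]
    simp only [nsmul_eq_mul]
    push_cast
    ring

theorem pow_prime [Fact p.Prime] (hp2 : p ≠ 2) (x : Heis n p) : x ^ p = 1 := by
  have hp : p.Prime := Fact.out
  have hp3 : 2 < p := lt_of_le_of_ne hp.two_le (Ne.symm hp2)
  apply Heis.ext
  · rw [pow_a]; ext i; simp
  · rw [pow_b]; ext i; simp
  · rw [pow_c]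
    have h1 : ((p.choose 2 : ℕ) : ZMod p) = 0 :=
      (ZMod.natCast_eq_zero_iff _ _).mpr (hp.dvd_choose_self (by norm_num) hp3)
    simp [h1]

theorem mem_center_iff' (x : Heis n p) :
    x ∈ Subgroup.center (Heis n p) ↔ x.a = 0 ∧ x.b = 0 := by
  constructor
  · intro hx
    rw [Subgroup.mem_center_iff] at hx
    constructor
    · ext i
      have := congrArg Heis.c (hx ⟨0, Pi.single i 1, 0⟩)
      simpa using this.symm
    · ext i
      have := congrArg Heis.c (hx ⟨Pi.single i 1, 0, 0⟩)
      simpa using this
  · rintro ⟨ha, hb⟩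
    rw [Subgroup.mem_center_iff]
    intro g
    apply Heis.ext
    · simp [ha]
    · simp [hb]
    · simp [ha, hb, add_comm]

theorem card_center : Nat.card (Subgroup.center (Heis n p)) = p := by
  have e : Subgroup.center (Heis n p) ≃ ZMod p :=
    { toFun := fun x => x.1.c
      invFun := fun c => ⟨⟨0, 0, c⟩, (mem_center_iff' _).mpr ⟨rfl, rfl⟩⟩
      left_inv := by
        intro x
        have hx := (mem_center_iff' _).mp x.2
        apply Subtype.ext
        apply Heis.ext
        · exact hx.1.symm
        · exact hx.2.symm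
        · rfl
      right_inv := fun _ => rfl }
  rw [Nat.card_congr e, Nat.card_zmod]

theorem commutator_eq_center (hn : 1 ≤ n) :
    commutator (Heis n p) = Subgroup.center (Heis n p) := by
  apply le_antisymm
  · rw [commutator_def, Subgroup.commutator_le]
    intro g1 _ g2 _
    rw [mem_center_iff', commutatorElement_def]
    constructor
    · simp only [mul_a, inv_a]; abel
    · simp only [mul_b, inv_b]; abel
  · intro x hx
    rw [mem_center_iff'] at hx
    have hxe : x = ⁅(⟨Pi.single ⟨0, hn⟩ x.c, 0, 0⟩ : Heis n p),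
        (⟨0, Pi.single ⟨0, hn⟩ 1, 0⟩ : Heis n p)⁆ := by
      rw [commutatorElement_def, eq_mul_inv_iff_mul_eq, eq_mul_inv_iff_mul_eq]
      apply Heis.ext
      · simp [hx.1]
      · simp [hx.2]
      · simp [hx.1, hx.2]
    rw [hxe, commutator_def]
    exact Subgroup.commutator_mem_commutator (Subgroup.mem_top _) (Subgroup.mem_top _)

def coordA (i : Fin n) : Heis n p →* Multiplicative (ZMod p) where
  toFun x := Multiplicative.ofAdd (x.a i)
  map_one' := rfl
  map_mul' _ _ := rfl

def coordB (i : Fin n) : Heis n p →* Multiplicative (ZMod p) where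
  toFun x := Multiplicative.ofAdd (x.b i)
  map_one' := rfl
  map_mul' _ _ := rfl

theorem frattini_eq_center [Fact p.Prime] (hn : 1 ≤ n) :
    frattini (Heis n p) = Subgroup.center (Heis n p) := by
  have hp : p.Prime := Fact.out
  haveI : NeZero p := ⟨hp.ne_zero⟩
  have hcardM : Nat.card (Multiplicative (ZMod p)) = p := by
    rw [Nat.card_congr Multiplicative.toAdd, Nat.card_zmod]
  apply le_antisymm
  · intro x hx
    rw [mem_center_iff']
    constructor
    · ext i
      have hsurj : Function.Surjective (coordA (n := n) (p := p) i) := by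
        intro m
        refine ⟨⟨Pi.single i (Multiplicative.toAdd m), 0, 0⟩, ?_⟩
        show Multiplicative.ofAdd ((Pi.single i (Multiplicative.toAdd m) : Fin n → ZMod p) i) = m
        simp
      have h1 := frattini_le_coatom (isCoatom_ker (coordA i) hsurj hcardM) hx
      have h2 : Multiplicative.ofAdd (x.a i) = 1 := h1
      simpa using h2
    · ext i
      have hsurj : Function.Surjective (coordB (n := n) (p := p) i) := by
        intro m
        refine ⟨⟨0, Pi.single i (Multiplicative.toAdd m), 0⟩, ?_⟩
        show Multiplicative.ofAdd ((Pi.single i (Multiplicative.toAdd m) : Fin n → ZMod p) i) = m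
        simp
      have h1 := frattini_le_coatom (isCoatom_ker (coordB i) hsurj hcardM) hx
      have h2 : Multiplicative.ofAdd (x.b i) = 1 := h1
      simpa using h2
  · rw [← commutator_eq_center hn]
    exact commutator_le_frattini (p := p) (IsPGroup.of_card card_eq)

theorem isExtraspecial [Fact p.Prime] (hn : 1 ≤ n) : Cfsg.IsExtraspecial p (Heis n p) :=
  ⟨⟨IsPGroup.of_card card_eq, frattini_eq_center hn, commutator_eq_center hn⟩, card_center⟩

/-- The linear action on `F × F^n × F`. -/
def act (h : Heis n p) : Module.End (ZMod p) (ZMod p × (Fin n → ZMod p) × ZMod p) where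
  toFun v := (v.1 + h.a ⬝ᵥ v.2.1 + h.c * v.2.2, v.2.1 + v.2.2 • h.b, v.2.2)
  map_add' v w := by
    refine Prod.ext ?_ (Prod.ext ?_ ?_)
    · simp only [Prod.fst_add, Prod.snd_add, dotProduct_add, mul_add]; ring
    · simp only [Prod.fst_add, Prod.snd_add, add_smul]; abel
    · rfl
  map_smul' r v := by
    refine Prod.ext ?_ (Prod.ext ?_ ?_)
    · simp only [Prod.smul_fst, Prod.smul_snd, dotProduct_smul, smul_eq_mul, RingHom.id_apply]
      ring
    · simp only [Prod.smul_fst, Prod.smul_snd, smul_eq_mul, RingHom.id_apply, smul_add,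
        mul_smul]
    · rfl

theorem act_apply (h : Heis n p) (v : ZMod p × (Fin n → ZMod p) × ZMod p) :
    act h v = (v.1 + h.a ⬝ᵥ v.2.1 + h.c * v.2.2, v.2.1 + v.2.2 • h.b, v.2.2) := rfl

def actHom : Heis n p →* Module.End (ZMod p) (ZMod p × (Fin n → ZMod p) × ZMod p) where
  toFun := act
  map_one' := by
    apply LinearMap.ext
    intro v
    rw [act_apply]
    refine Prod.ext ?_ (Prod.ext ?_ ?_)
    · simp
    · simp
    · rfl
  map_mul' x y := by
    apply LinearMap.ext
    intro v
    rw [Module.End.mul_apply, act_apply, act_apply, act_apply]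
    refine Prod.ext ?_ (Prod.ext ?_ ?_)
    · simp only [mul_a, mul_b, mul_c, add_dotProduct, dotProduct_add, dotProduct_smul,
        smul_eq_mul]
      ring
    · simp only [mul_b, smul_add]; abel
    · rfl

theorem actHom_injective : Function.Injective (actHom (n := n) (p := p)) := by
  intro x y hxy
  have h1 : ∀ v, act x v = act y v := fun v => by
    have : actHom x v = actHom y v := by rw [hxy]
    exact this
  apply Heis.ext
  · ext i
    have := congrArg Prod.fst (h1 (0, Pi.single i 1, 0))
    simpa [act_apply] using this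
  · have := congrArg (fun t => t.2.1) (h1 (0, 0, 1))
    simpa [act_apply] using this
  · have := congrArg Prod.fst (h1 (0, 0, 1))
    simpa [act_apply] using this

end Heis

/-- For every odd prime p and every n ≥ 1 there is an extraspecial p-group of order p^(1+2n) and exponent p; concretely, the general linear group of degree n + 2 over the field with p elements contains such a subgroup. -/
theorem result (p : ℕ) [Fact p.Prime] (hp : p ≠ 2) (n : ℕ) (hn : 1 ≤ n) : ∃ E : Subgroup (Matrix.GeneralLinearGroup (Fin (n + 2)) (ZMod p)), Cfsg.IsExtraspecial p ↥E ∧ Nat.card E = p ^ (1 + 2 * n) ∧ ∀ x ∈ E, x ^ p = 1 := by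
  have hrank : Module.finrank (ZMod p) (ZMod p × (Fin n → ZMod p) × ZMod p) = n + 2 := by
    simp [Module.finrank_prod, Module.finrank_fin_fun]
    ring
  let bas := Module.finBasisOfFinrankEq (ZMod p) (ZMod p × (Fin n → ZMod p) × ZMod p) hrank
  let ρ : Heis n p →* Matrix.GeneralLinearGroup (Fin (n + 2)) (ZMod p) :=
    (Units.map ((LinearMap.toMatrixAlgEquiv bas : Module.End (ZMod p)
      (ZMod p × (Fin n → ZMod p) × ZMod p) →* Matrix (Fin (n + 2)) (Fin (n + 2)) (ZMod p)))).comp
      (Heis.actHom.toHomUnits)
  have hρ : Function.Injective ρ := by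
    intro x y hxy
    have h1 := congrArg Units.val hxy
    have h2 : LinearMap.toMatrixAlgEquiv bas (Heis.actHom x) =
        LinearMap.toMatrixAlgEquiv bas (Heis.actHom y) := h1
    exact Heis.actHom_injective ((LinearMap.toMatrixAlgEquiv bas).injective h2)
  refine ⟨ρ.range, ?_, ?_, ?_⟩
  · exact isExtraspecial_of_mulEquiv (MonoidHom.ofInjective hρ) (Heis.isExtraspecial hn)
  · rw [← Nat.card_congr (MonoidHom.ofInjective hρ).toEquiv, Heis.card_eq]
  · rintro _ ⟨h, rfl⟩
    rw [← map_pow, Heis.pow_prime hp, map_one]

end Cfsg.Agent.S3799
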