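import Cfsg.Statements.S1057
import Cfsg.Agent.Helper57.G2Data
import Cfsg.Agent.Helper57.ChevMap
import Cfsg.Agent.Helper57.OrbitIso2
import Cfsg.Agent.Helper57.SUCongr

set_option autoImplicit false
open Cfsg

namespace Cfsg.Agent.S1057

open Cfsg.Agent.Helper57 Cfsg.Lie Matrix
open scoped commutatorElement

/-- `GL(14, 2)` on the coordinates of the Lie algebra of type `G₂` -/
abbrev M2 : Type := GL chevG2.Idx (ZMod 2)
/-- the vectors -/
abbrev V2 : Type := chevG2.Idx → ZMod 2
/-- the special unitary group over the concrete field with nine elements -/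
abbrev A9 : Type := ↥(Cfsg.SU 3 K9 3)
/-- the vectors of the Hermitian space -/
abbrev S9 : Type := Fin 3 → K9

/-- the action on vectors -/
def rho (m : M2) (w : V2) : V2 := (m : Matrix chevG2.Idx chevG2.Idx (ZMod 2)).mulVec w

/-- the action of the unitary group -/
def tau (a : A9) (s : S9) : S9 :=
  ((a : SpecialLinearGroup (Fin 3) K9) : Matrix (Fin 3) (Fin 3) K9).mulVec s

/-- the family of vectors -/
def fam (s : S9) : V2 := g2Tbl (g2Idx s)

theorem rho_one (w : V2) : rho 1 w = w := by simp [rho]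

theorem rho_mul (m m' : M2) (w : V2) : rho (m * m') w = rho m (rho m' w) := by
  simp [rho, Matrix.mulVec_mulVec]

theorem tau_one (s : S9) : tau 1 s = s := by simp [tau]

theorem tau_mul (a a' : A9) (s : S9) : tau (a * a') s = tau a (tau a' s) := by
  simp [tau, Matrix.mulVec_mulVec]

theorem faithful (m : M2) (h : ∀ p, rho m (g2Tbl p) = g2Tbl p) : m = 1 := by
  have hsum : ∀ L : List (Fin 64),
      (m : Matrix chevG2.Idx chevG2.Idx (ZMod 2)).mulVec ((L.map g2Tbl).sum) = (L.map g2Tbl).sum := by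
    intro L
    induction L with
    | nil => simp
    | cons s L ih =>
      have hs : (m : Matrix chevG2.Idx chevG2.Idx (ZMod 2)).mulVec (g2Tbl s) = g2Tbl s := h s
      simp only [List.map_cons, List.sum_cons, Matrix.mulVec_add, ih, hs]
  apply Units.ext
  ext i k
  have hk : (m : Matrix chevG2.Idx chevG2.Idx (ZMod 2)).mulVec (Pi.single k 1) = Pi.single k 1 := by
    rw [← g2_comb k]
    exact hsum _
  have h2 := congrFun hk i
  rw [Matrix.mulVec_single_one] at h2
  show (m : Matrix chevG2.Idx chevG2.Idx (ZMod 2)) i k = (1 : Matrix chevG2.Idx chevG2.Idx (ZMod 2)) i k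
  rw [Matrix.one_apply]
  simpa [Pi.single_apply] using h2

theorem eq_of_act (m m' : M2) (h : ∀ p, rho m (g2Tbl p) = rho m' (g2Tbl p)) : m = m' := by
  have h1 : m'⁻¹ * m = 1 := by
    apply faithful
    intro p
    rw [rho_mul, h p, ← rho_mul, inv_mul_cancel, rho_one]
  have h2 := congrArg (fun x => m' * x) h1
  simpa using h2

theorem hM (m : M2) (h : ∀ s, rho m (fam s) = fam s) : m = 1 := by
  apply faithful
  intro p
  have h1 := h (g2Rep p)
  rwa [fam, g2_rep] at h1

/-- the root element `x_r(1)` as a unit -/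
def xU (r : Fin 12) : M2 :=
  ⟨chevG2.xMat (ZMod 2) r 1, chevG2.xMat (ZMod 2) r 1, g2_sq r, g2_sq r⟩

theorem xU_inv (r : Fin 12) : (xU r)⁻¹ = xU r := rfl

theorem xU_sq (r : Fin 12) : xU r * xU r = 1 := Units.ext (g2_sq r)

theorem xU_act (r : Fin 12) (p : Fin 64) : rho (xU r) (g2Tbl p) = g2Tbl (g2Pi r p) := g2_act r p

/-- the commutator of `x_0(1)` and `x_8(1)` -/
def c1 : M2 := ⁅xU 0, xU 8⁆
/-- the commutator of `x_4(1)` and `x_7(1)` -/
def c2 : M2 := ⁅xU 4, xU 7⁆

theorem c1_act (p : Fin 64) : rho c1 (g2Tbl p) = g2Tbl (g2C1 p) := by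
  have h : c1 = xU 0 * xU 8 * xU 0 * xU 8 := by
    rw [c1, commutatorElement_def, xU_inv, xU_inv]
  rw [h, rho_mul, rho_mul, rho_mul, xU_act, xU_act, xU_act, xU_act, (g2C_eq p).1]

theorem c2_act (p : Fin 64) : rho c2 (g2Tbl p) = g2Tbl (g2C2 p) := by
  have h : c2 = xU 4 * xU 7 * xU 4 * xU 7 := by
    rw [c2, commutatorElement_def, xU_inv, xU_inv]
  rw [h, rho_mul, rho_mul, rho_mul, xU_act, xU_act, xU_act, xU_act, (g2C_eq p).2]

/-- the product of a word in the two commutators -/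
def wM (w : List Bool) : M2 := (w.map (fun b => if b then c1 else c2)).prod

theorem wM_act (w : List Bool) (p : Fin 64) : rho (wM w) (g2Tbl p) = g2Tbl (g2Wp w p) := by
  induction w with
  | nil => simp [wM, g2Wp, rho_one]
  | cons b w ih =>
    have h1 : wM (b :: w) = (if b then c1 else c2) * wM w := by simp [wM]
    have h2 : g2Wp (b :: w) p = if b then g2C1 (g2Wp w p) else g2C2 (g2Wp w p) := by simp [g2Wp]
    rw [h1, rho_mul, ih, h2]
    cases b
    · simpa using c2_act _
    · simpa using c1_act _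

theorem wM_mem (w : List Bool) : wM w ∈ Subgroup.closure ({c1, c2} : Set M2) := by
  apply Subgroup.list_prod_mem
  intro x hx
  obtain ⟨b, _, rfl⟩ := List.mem_map.1 hx
  cases b
  · exact Subgroup.subset_closure (by simp)
  · exact Subgroup.subset_closure (by simp)

instance charP_K9 : CharP K9 3 :=
  charP_of_card_eq_prime_pow (p := 3) (f := 2) (by rw [card_K9]; norm_num)

theorem mem_su (A : Matrix (Fin 3) (Fin 3) K9) (hdet : A.det = 1)
    (hU : Aᵀ * A.map (fun x => x * x * x) = 1) :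
    (⟨A, hdet⟩ : SpecialLinearGroup (Fin 3) K9) ∈ Cfsg.SU 3 K9 3 := by
  have hU' : Aᵀ * A.map (· ^ 3) = 1 := by
    have h1 : A.map (· ^ 3) = A.map (fun x => x * x * x) := by
      apply Matrix.ext
      intro i j
      simp [pow_succ]
    rw [h1, hU]
  intro u v
  exact hermForm_mulVec_of_unitary 3 A hU' u v

/-- the unitary matrix of the first commutator -/
def a1 : A9 := ⟨⟨g2A1, g2A_unitary.1.1⟩, mem_su g2A1 g2A_unitary.1.1 g2A_unitary.1.2⟩
/-- the unitary matrix of the second commutator -/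
def a2 : A9 := ⟨⟨g2A2, g2A_unitary.2.1⟩, mem_su g2A2 g2A_unitary.2.1 g2A_unitary.2.2⟩

theorem tau_a1 (s : S9) : tau a1 s = g2Mv g2A1 s := (g2Mv_eq g2A1 s)

theorem tau_a2 (s : S9) : tau a2 s = g2Mv g2A2 s := (g2Mv_eq g2A2 s)

theorem idx_a1 (s : S9) : g2Idx (g2Mv g2A1 s) = g2C1 (g2Idx s) := by
  have h := g2_actA1 (s 0).re (s 0).im (s 1).re (s 1).im (s 2).re (s 2).im
  rwa [← g2S_eta s] at h

theorem idx_a2 (s : S9) : g2Idx (g2Mv g2A2 s) = g2C2 (g2Idx s) := by
  have h := g2_actA2 (s 0).re (s 0).im (s 1).re (s 1).im (s 2).re (s 2).im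
  rwa [← g2S_eta s] at h

theorem c1_fam (s : S9) : rho c1 (fam s) = fam (tau a1 s) := by
  rw [fam, c1_act, fam, tau_a1, idx_a1]

theorem c2_fam (s : S9) : rho c2 (fam s) = fam (tau a2 s) := by
  rw [fam, c2_act, fam, tau_a2, idx_a2]

theorem k9_ext (x : K9) (h1 : x.re = 0) (h2 : x.im = 0) : x = 0 :=
  QuadraticAlgebra.ext h1 h2

theorem hA (a : A9) (h : ∀ s, fam (tau a s) = fam s) : a = 1 := by
  have hidx : ∀ s, g2Idx (tau a s) = g2Idx s := fun s => g2Tbl_inj _ _ (h s)
  set A : Matrix (Fin 3) (Fin 3) K9 := ((a : SpecialLinearGroup (Fin 3) K9) :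
    Matrix (Fin 3) (Fin 3) K9) with hAdef
  have htau : ∀ s, tau a s = g2Mv A s := fun s => g2Mv_eq A s
  have one9 : (⟨1, 0⟩ : K9) = 1 := rfl
  have zero9 : (⟨0, 0⟩ : K9) = 0 := rfl
  -- the images of some vectors
  have e1 : g2Mv A (g2S 1 0 0 0 0 0) = fun i => A i 0 := by
    funext i
    simp [g2Mv, g2S, one9, zero9]
  have e2 : g2Mv A (g2S 0 0 1 0 0 0) = fun i => A i 1 := by
    funext i
    simp [g2Mv, g2S, one9, zero9]
  have e3 : g2Mv A (g2S 0 0 0 0 1 0) = fun i => A i 2 := by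
    funext i
    simp [g2Mv, g2S, one9, zero9]
  have e12 : g2Mv A (g2S 1 0 1 0 0 0) = fun i => A i 0 + A i 1 := by
    funext i
    simp [g2Mv, g2S, one9, zero9]
  have e23 : g2Mv A (g2S 0 0 1 0 1 0) = fun i => A i 1 + A i 2 := by
    funext i
    simp [g2Mv, g2S, one9, zero9]
  have key : ∀ (u : S9) (s0 : S9), g2Idx u = g2Idx s0 →
      g2Idx (g2S (u 0).re (u 0).im (u 1).re (u 1).im (u 2).re (u 2).im) = g2Idx s0 := by
    intro u s0 hu
    rw [← g2S_eta u]
    exact hu
  have h1 := (g2_fix (A 0 0).re (A 0 0).im (A 1 0).re (A 1 0).im (A 2 0).re (A 2 0).im).1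
    (key (fun i => A i 0) (g2S 1 0 0 0 0 0) (by rw [← e1, ← htau]; exact hidx _))
  have h2 := (g2_fix (A 0 1).re (A 0 1).im (A 1 1).re (A 1 1).im (A 2 1).re (A 2 1).im).2.1
    (key (fun i => A i 1) (g2S 0 0 1 0 0 0) (by rw [← e2, ← htau]; exact hidx _))
  have h3 := (g2_fix (A 0 2).re (A 0 2).im (A 1 2).re (A 1 2).im (A 2 2).re (A 2 2).im).2.2.1
    (key (fun i => A i 2) (g2S 0 0 0 0 1 0) (by rw [← e3, ← htau]; exact hidx _))
  have h12 := (g2_fix (A 0 0 + A 0 1).re (A 0 0 + A 0 1).im (A 1 0 + A 1 1).re (A 1 0 + A 1 1).im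
    (A 2 0 + A 2 1).re (A 2 0 + A 2 1).im).2.2.2.1
    (key (fun i => A i 0 + A i 1) (g2S 1 0 1 0 0 0) (by rw [← e12, ← htau]; exact hidx _))
  have h23 := (g2_fix (A 0 1 + A 0 2).re (A 0 1 + A 0 2).im (A 1 1 + A 1 2).re (A 1 1 + A 1 2).im
    (A 2 1 + A 2 2).re (A 2 1 + A 2 2).im).2.2.2.2
    (key (fun i => A i 1 + A i 2) (g2S 0 0 1 0 1 0) (by rw [← e23, ← htau]; exact hidx _))
  have A10 : A 1 0 = 0 := k9_ext _ h1.1 h1.2.1
  have A20 : A 2 0 = 0 := k9_ext _ h1.2.2.1 h1.2.2.2
  have A01 : A 0 1 = 0 := k9_ext _ h2.1 h2.2.1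
  have A21 : A 2 1 = 0 := k9_ext _ h2.2.2.1 h2.2.2.2
  have A02 : A 0 2 = 0 := k9_ext _ h3.1 h3.2.1
  have A12 : A 1 2 = 0 := k9_ext _ h3.2.2.1 h3.2.2.2
  have A0011 : A 0 0 = A 1 1 := by
    have h12' := h12
    rw [A01, A10] at h12'
    simp only [add_zero, zero_add] at h12'
    exact QuadraticAlgebra.ext h12'.1 h12'.2
  have A1122 : A 1 1 = A 2 2 := by
    have h23' := h23
    rw [A12, A21] at h23'
    simp only [add_zero, zero_add] at h23'
    exact QuadraticAlgebra.ext h23'.1 h23'.2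
  have hdet : A.det = 1 := (a : SpecialLinearGroup (Fin 3) K9).2
  rw [Matrix.det_fin_three, A10, A20, A01, A21, A02, A12, ← A1122, ← A0011] at hdet
  simp only [mul_zero, zero_mul, sub_zero, add_zero] at hdet
  have hx := g2_cube (A 0 0).re (A 0 0).im hdet
  have A00 : A 0 0 = 1 := QuadraticAlgebra.ext hx.1 hx.2
  have A11 : A 1 1 = 1 := by rw [← A0011, A00]
  have A22 : A 2 2 = 1 := by rw [← A1122, A11]
  have hA1 : A = 1 := by
    apply Matrix.ext
    intro i j
    fin_cases i <;> fin_cases j <;>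
      simp [A10, A20, A01, A21, A02, A12, A00, A11, A22]
  apply Subtype.ext
  apply Subtype.ext
  exact hA1

/-- the product of a word in the two unitary matrices, in the subgroup which they generate -/
def wA (w : List Bool) : ↥(Subgroup.closure ({a1, a2} : Set A9)) :=
  (w.map (fun b => if b then (⟨a1, Subgroup.subset_closure (by simp)⟩ :
    ↥(Subgroup.closure ({a1, a2} : Set A9))) else ⟨a2, Subgroup.subset_closure (by simp)⟩)).prod

theorem wA_act (w : List Bool) (s : S9) : tau (wA w).1 s = g2Wv w s := by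
  induction w with
  | nil => simp [wA, g2Wv, tau_one]
  | cons b w ih =>
    have h1 : wA (b :: w) = (if b then (⟨a1, Subgroup.subset_closure (by simp)⟩ :
        ↥(Subgroup.closure ({a1, a2} : Set A9))) else ⟨a2, Subgroup.subset_closure (by simp)⟩) *
        wA w := by simp [wA]
    have h2 : g2Wv (b :: w) s = g2Mv (if b then g2A1 else g2A2) (g2Wv w s) := by simp [g2Wv]
    rw [h1, Subgroup.coe_mul, tau_mul, ih, h2]
    cases b
    · simpa using tau_a2 _
    · simpa using tau_a1 _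

theorem closure_a_eq_top : Subgroup.closure ({a1, a2} : Set A9) = ⊤ := by
  apply Subgroup.eq_top_of_le_card
  rw [card_su33 card_K9]
  have h := card_ge_of_lists (H := ↥(Subgroup.closure ({a1, a2} : Set A9)))
    (fun x => g2Code (tau x.1 (g2S 1 0 0 0 0 0))) (fun x => g2Code (tau x.1 (g2S 0 0 1 0 0 0)))
    (g2WordsO.map wA) (g2WordsS.map wA)
    (by
      intro x _ y hy
      obtain ⟨w, hw, rfl⟩ := List.mem_map.1 hy
      show g2Code (tau (x * wA w).1 (g2S 1 0 0 0 0 0)) = g2Code (tau x.1 (g2S 1 0 0 0 0 0))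
      rw [Subgroup.coe_mul, tau_mul, wA_act, g2_stab w hw])
    (by
      rw [List.map_map]
      have hf : ((fun x : ↥(Subgroup.closure ({a1, a2} : Set A9)) =>
          g2Code (tau x.1 (g2S 1 0 0 0 0 0))) ∘ wA) =
          fun w => g2Code (g2Wv w (g2S 1 0 0 0 0 0)) := by
        funext w
        simp only [Function.comp_apply, wA_act]
      rw [hf]
      exact g2_orbit)
    (by
      rw [List.map_map]
      have hf : ((fun x : ↥(Subgroup.closure ({a1, a2} : Set A9)) =>
          g2Code (tau x.1 (g2S 0 0 1 0 0 0))) ∘ wA) =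
          fun w => g2Code (g2Wv w (g2S 0 0 1 0 0 0)) := by
        funext w
        simp only [Function.comp_apply, wA_act]
      rw [hf]
      exact g2_stab_nodup)
  rw [List.length_map, List.length_map, g2WordsO_length, g2WordsS_length] at h
  exact h

theorem iso_N : Nonempty (↥(Subgroup.closure ({c1, c2} : Set M2)) ≃* A9) := by
  have hgen : ∀ m ∈ ({c1, c2} : Set M2), ∃ a : A9, ∀ s, rho m (fam s) = fam (tau a s) := by
    intro m hm
    rcases hm with rfl | rfl
    · exact ⟨a1, c1_fam⟩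
    · exact ⟨a2, c2_fam⟩
  have hsurj : Subgroup.closure {a : A9 | ∃ m ∈ ({c1, c2} : Set M2),
      ∀ s, rho m (fam s) = fam (tau a s)} = ⊤ := by
    rw [eq_top_iff, ← closure_a_eq_top]
    apply Subgroup.closure_mono
    intro a ha
    rcases ha with rfl | rfl
    · exact ⟨c1, by simp, c1_fam⟩
    · exact ⟨c2, by simp, c2_fam⟩
  exact iso_of_equivariant_family rho rho_one rho_mul tau tau_one tau_mul fam hM hA _ hgen hsurj

theorem xU_mem (r : Fin 12) : xU r ∈ chevG2.group (ZMod 2) :=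
  Subgroup.subset_closure ⟨r, 1, rfl⟩

theorem conj_mem (h : M2) (hh : h ∈ Subgroup.closure ({c1, c2} : Set M2)) :
    xU 2 * h * (xU 2)⁻¹ ∈ Subgroup.closure ({c1, c2} : Set M2) := by
  induction hh using Subgroup.closure_induction with
  | mem x hx =>
    rcases hx with rfl | rfl
    · have h1 : xU 2 * c1 * (xU 2)⁻¹ = wM (g2WordT 0) := by
        apply eq_of_act
        intro p
        rw [xU_inv, rho_mul, rho_mul, xU_act, c1_act, xU_act, wM_act, (g2_wordT p).1]
      rw [h1]
      exact wM_mem _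
    · have h1 : xU 2 * c2 * (xU 2)⁻¹ = wM (g2WordT 1) := by
        apply eq_of_act
        intro p
        rw [xU_inv, rho_mul, rho_mul, xU_act, c2_act, xU_act, wM_act, (g2_wordT p).2]
      rw [h1]
      exact wM_mem _
  | one => simp
  | mul x y _ _ hx hy =>
    have h1 : xU 2 * (x * y) * (xU 2)⁻¹ = (xU 2 * x * (xU 2)⁻¹) * (xU 2 * y * (xU 2)⁻¹) := by group
    rw [h1]
    exact Subgroup.mul_mem _ hx hy
  | inv x _ hx =>
    have h1 : xU 2 * x⁻¹ * (xU 2)⁻¹ = (xU 2 * x * (xU 2)⁻¹)⁻¹ := by group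
    rw [h1]
    exact Subgroup.inv_mem _ hx

theorem comm_eq : ⁅chevG2.group (ZMod 2), chevG2.group (ZMod 2)⁆ =
    Subgroup.closure ({c1, c2} : Set M2) := by
  apply le_antisymm
  · have ht : xU 2 ∈ Subgroup.normalizer
        ((Subgroup.closure ({c1, c2} : Set M2) : Subgroup M2) : Set M2) := by
      rw [Subgroup.mem_normalizer_iff]
      intro h
      constructor
      · exact conj_mem h
      · intro hh
        have h1 := conj_mem _ hh
        have h2 : xU 2 * (xU 2 * h * (xU 2)⁻¹) * (xU 2)⁻¹ = h := by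
          rw [xU_inv]
          calc xU 2 * (xU 2 * h * xU 2) * xU 2 = (xU 2 * xU 2) * h * (xU 2 * xU 2) := by group
            _ = h := by rw [xU_sq]; simp
        rw [h2] at h1
        exact h1
    have ht0 : ∀ t : ZMod 2, t = 0 ∨ t = 1 := by decide
    refine commutator_closure_le _ (xU 2) ht _ ?_
    intro x hx0
    obtain ⟨r, t, hx⟩ : ∃ (r : Fin 12) (t : ZMod 2),
      (x : Matrix chevG2.Idx chevG2.Idx (ZMod 2)) = chevG2.xMat (ZMod 2) r t := hx0
    rcases ht0 t with rfl | rfl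
    · left
      have h1 : x = 1 := by
        apply Units.ext
        rw [hx, g2_zero r]
        rfl
      rw [h1]
      exact Subgroup.one_mem _
    · have h1 : x = xU r := Units.ext hx
      rw [h1]
      rcases hsh : g2Sh r with _ | _
      · left
        have h2 : xU r = wM (g2WordR r) := by
          apply eq_of_act
          intro p
          rw [xU_act, wM_act, g2_wordR r p, hsh]
          rfl
        rw [h2]
        exact wM_mem _
      · right
        have h2 : xU 2 * xU r = wM (g2WordR r) := by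
          apply eq_of_act
          intro p
          rw [rho_mul, xU_act, xU_act, wM_act, g2_wordR r p, hsh]
          rfl
        rw [h2]
        exact wM_mem _
  · rw [Subgroup.closure_le]
    intro x hx
    rcases hx with rfl | rfl
    · exact Subgroup.commutator_mem_commutator (xU_mem 0) (xU_mem 8)
    · exact Subgroup.commutator_mem_commutator (xU_mem 4) (xU_mem 7)

theorem g2_iso2 : Nonempty (↥(commutator ↥(chevG2.group (ZMod 2))) ≃* A9) := by
  obtain ⟨e1⟩ := commutator_subgroup_equiv (chevG2.group (ZMod 2))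
  obtain ⟨e2⟩ := iso_N
  exact ⟨(e1.trans (MulEquiv.subgroupCongr comm_eq)).trans e2⟩

/-- G₂(2)′ ≅ PSU₃(3). -/
theorem result {F K : Type*} [Field F] [Fintype F] [Field K] [Fintype K] (hF : Fintype.card F = 2) (hK : Fintype.card K = 9) :
    Nonempty (↥(commutator ↥(Cfsg.Lie.chevG2.group F)) ≃* Cfsg.PSU 3 K 3) := by
  have : Fact (Nat.Prime 2) := ⟨Nat.prime_two⟩
  have e2 : ZMod 2 ≃+* F := ZMod.ringEquivOfPrime F Nat.prime_two hF
  obtain ⟨e3⟩ := commutator_congr (chevGroupCongr chevG2 e2)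
  obtain ⟨e4⟩ := g2_iso2
  have φ : K9 ≃+* K := FiniteField.ringEquivOfCardEq (by rw [card_K9, hK])
  obtain ⟨e5⟩ := psu33_equiv_su33 hK
  exact ⟨((e3.symm.trans e4).trans (suCongr 3 φ 3)).trans e5.symm⟩

end Cfsg.Agent.S1057
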