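import Cfsg.Statements.S0670
import Cfsg.Agent.Helper58.PGroupFix

set_option autoImplicit false
open Cfsg

namespace Cfsg.Agent.S0670

/-- In characteristic `p`, the permutation module of a transitive action of degree `p ^ f` has the line of constant functions as its only irreducible submodule: every non-zero subrepresentation contains it. -/
theorem result {G : Type*} [Group G] [Finite G] {K : Type*} [Field K] {p f : ℕ} [Fact p.Prime] [CharP K p] {Ω : Type*} [Fintype Ω] [MulAction G Ω] [MulAction.IsPretransitive G Ω] (hf : 1 ≤ f) (hcard : Fintype.card Ω = p ^ f) (W : Subrepresentation (Cfsg.permRep K G Ω)) (hW : W.toSubmodule ≠ ⊥) : (Cfsg.permConstants K G Ω).toSubmodule ≤ W.toSubmodule := by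
  classical
  obtain ⟨P⟩ : Nonempty (Sylow p G) := inferInstance
  have hcard' : Nat.card Ω = p ^ f := by rw [Nat.card_eq_fintype_card, hcard]
  have htrans := Cfsg.Agent.Helper58.sylow_transitive_of_card_pow (G := G) hcard' P
  obtain ⟨v, hvW, hv0, hfix⟩ := Cfsg.Agent.Helper58.exists_fixed_vector_of_pgroup
    (Cfsg.permRep K G Ω) (P : Subgroup G) P.isPGroup' W.toSubmodule
    (fun g _ v hv => W.apply_mem_toSubmodule g hv) hW
  have hne : ∃ a, v a ≠ 0 := by
    by_contra hcon
    push Not at hcon
    exact hv0 (funext hcon)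
  obtain ⟨a, ha⟩ := hne
  have hconst : ∀ x, v x = v a := by
    intro x
    obtain ⟨g, hg, hgx⟩ := htrans x a
    have h1 := congrFun (hfix g⁻¹ ((P : Subgroup G).inv_mem hg)) x
    have h2 : (Cfsg.permRep K G Ω g⁻¹ v) x = v (g • x) := by
      change v (g⁻¹⁻¹ • x) = v (g • x)
      rw [inv_inv]
    rw [h2, hgx] at h1
    exact h1.symm
  have hone : (fun _ : Ω => (1 : K)) = (v a)⁻¹ • v := by
    funext x
    simp [hconst x, ha]
  change Submodule.span K {fun _ => 1} ≤ W.toSubmodule
  rw [Submodule.span_le, Set.singleton_subset_iff, hone]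
  exact W.toSubmodule.smul_mem _ hvW

end Cfsg.Agent.S0670
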