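import Cfsg.Statements.S4221
import Cfsg.Agent.Lead.H581Main

set_option autoImplicit false
open Cfsg

namespace Cfsg.Agent.S4221

/-- Let `G` be a `4`-fold transitive permutation group on a finite set of `n` points in which the pointwise stabilizer of some four distinct points has odd order. Then `n = 4` or `n = 5` with `G` the full symmetric group, or `n = 6` or `n = 7` with `G` the alternating group, or `n = 11` and `G` has order `7920`. -/
theorem result {α : Type*} [Fintype α] [DecidableEq α] (G : Subgroup (Equiv.Perm α)) (hG : MulAction.IsMultiplyPretransitive G α 4) (x : Fin 4 ↪ α) (hodd : Odd (Nat.card (MulAction.stabilizer G x))) : ((Fintype.card α = 4 ∨ Fintype.card α = 5) ∧ G = ⊤) ∨ ((Fintype.card α = 6 ∨ Fintype.card α = 7) ∧ G = alternatingGroup α) ∨ (Fintype.card α = 11 ∧ Nat.card G = 7920) :=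
  Cfsg.Agent.Lead.H581.main_h581 G hG x hodd

end Cfsg.Agent.S4221
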