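-- Statement S3745: coprime action on a solvable group, A-invariant Hall subgroups.
import Cfsg.Statements.S3745
import Cfsg.Agent.Helper35.HallCoprime

set_option autoImplicit false
open Cfsg

namespace Cfsg.Agent.S3745

open scoped Pointwise
open Cfsg.Agent.Helper35

/-- If A acts coprimely on the solvable group G, then A-invariant Hall π-subgroups exist, any two are conjugate under C_G(A), and every A-invariant π-subgroup lies in one of them. -/
theorem result {X : Type*} [Group X] [Finite X] (A G : Subgroup X) (hAG : A ≤ Subgroup.normalizer (G : Set X)) (hcop : (Nat.card A).Coprime (Nat.card G)) (hsolv : Group.IsSolvable G) (π : Set ℕ) : (∃ H : Subgroup X, Cfsg.IsPiHallOf π H G ∧ A ≤ Subgroup.normalizer (H : Set X)) ∧ (∀ H₁ H₂ : Subgroup X, Cfsg.IsPiHallOf π H₁ G → A ≤ Subgroup.normalizer (H₁ : Set X) → Cfsg.IsPiHallOf π H₂ G → A ≤ Subgroup.normalizer (H₂ : Set X) → ∃ c ∈ G ⊓ Subgroup.centralizer (A : Set X), H₂ = H₁.map (MulAut.conj c).toMonoidHom)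 ∧ (∀ U : Subgroup X, U ≤ G → A ≤ Subgroup.normalizer (U : Set X) → (∀ p : ℕ, p.Prime → p ∣ Nat.card U → p ∈ π) → ∃ H : Subgroup X, Cfsg.IsPiHallOf π H G ∧ A ≤ Subgroup.normalizer (H : Set X) ∧ U ≤ H) := by
  obtain ⟨m, n, hG, hmn, hm, hn⟩ := exists_pi_factorization π (Nat.card G) Nat.card_pos.ne'
  have hiff := fun H : Subgroup X => isPiHallOf_iff_card hG hm hn H
  have := hsolv
  -- the set of Hall `π`-subgroups
  have hS : {H : Subgroup X | H ≤ G ∧ Nat.card H = m}.Nonempty := by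
    obtain ⟨H', hH'⟩ := Cfsg.Agent.Helper1.hall_exists_aux (Nat.card G) G m n rfl hG hmn
    exact ⟨H'.map G.subtype, Subgroup.map_subtype_le _, by
      rw [Subgroup.card_map_of_injective G.subtype_injective, hH']⟩
  have hstab : ∀ g ∈ Subgroup.normalizer (G : Set X),
      ∀ P ∈ {H : Subgroup X | H ≤ G ∧ Nat.card H = m},
      MulAut.conj g • P ∈ {H : Subgroup X | H ≤ G ∧ Nat.card H = m} := by
    intro g hg P hP
    refine ⟨?_, by rw [card_conj_smul, hP.2]⟩
    have := conj_smul_le_conj_smul (g := g) hP.1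
    rwa [conj_smul_eq_self_of_mem_normalizer hg] at this
  have htrans : ∀ P ∈ {H : Subgroup X | H ≤ G ∧ Nat.card H = m},
      ∀ Q ∈ {H : Subgroup X | H ≤ G ∧ Nat.card H = m}, ∃ k ∈ G, MulAut.conj k • P = Q := by
    intro P hP Q hQ
    obtain ⟨g, hg⟩ := Cfsg.Agent.Helper1.hall_conj_aux (Nat.card G) G m n rfl hG hmn
      (P.subgroupOf G) (Q.subgroupOf G) (by rw [card_subgroupOf_of_le hP.1, hP.2])
      (by rw [card_subgroupOf_of_le hQ.1, hQ.2])
    exact ⟨g, g.2, conj_smul_eq_of_subgroupOf hP.1 hQ.1 g hg⟩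
  obtain ⟨H, hH, hAH⟩ := glauberman_subgroup hAG hcop (Or.inr hsolv) hS
    (fun a ha P hP => hstab a (hAG ha) P hP)
    (fun k hk P hP => hstab k (Subgroup.le_normalizer hk) P hP) htrans
  refine ⟨⟨H, (hiff H).mpr hH, hAH⟩, ?_, ?_⟩
  · intro H₁ H₂ h1 hA1 h2 hA2
    obtain ⟨k, hk, hkPQ⟩ := htrans H₁ ((hiff H₁).mp h1) H₂ ((hiff H₂).mp h2)
    obtain ⟨c, hc, hcPQ⟩ := glauberman_conj_subgroup hAG hcop (Or.inr hsolv) hA1 hA2 hk hkPQ
    exact ⟨c, hc, hcPQ.symm⟩
  · intro U hUG hAU hUπ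
    have hUcop : (Nat.card U).Coprime n := by
      apply Nat.coprime_of_dvd
      intro p hp hpU hpn
      exact hn p hp (hUπ p hp hpU) hpn
    have hUdvd : Nat.card U ∣ Nat.card H := by
      rw [hH.2]
      apply hUcop.dvd_of_dvd_mul_right
      rw [← hG]; exact Subgroup.card_dvd_of_le hUG
    have hrel : H.relIndex G = n := by
      have h1 := card_mul_relIndex_of_le hH.1
      rw [hH.2, hG] at h1
      have hmpos : 0 < m := by rw [← hH.2]; exact Nat.card_pos
      exact Nat.eq_of_mul_eq_mul_left hmpos h1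
    obtain ⟨g, hg, hUg, hAg⟩ := exists_conj_invariant_hall_ge hAG hcop hsolv hH.1
      (by rw [hH.2, hrel]; exact hmn) hAH hUG hAU hUdvd
    exact ⟨MulAut.conj g • H, (hiff _).mpr (hstab g (Subgroup.le_normalizer hg) H hH), hAg, hUg⟩

end Cfsg.Agent.S3745
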