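import Cfsg.Statements.S1446
import Cfsg.Agent.Helper70.FrobAct

set_option autoImplicit false
open Cfsg

namespace Cfsg.Agent.S1446

/-- Let X be a finite group with subgroups K, R, M such that: K and R are nontrivial, K ∩ R = 1, R normalizes K, no non-identity element of R centralizes a non-identity element of K, K ⊔ R is solvable of odd order; M is nilpotent and nontrivial, normalized by K and by R, with order coprime to that of K ⊔ R, M ∩ C(K) = 1, and M ∩ C(x) = M ∩ C(R) for all non-identity x ∈ R. Then R has prime order p, #M = #(M ∩ C(R)) ^ p, and if M ∩ C(R) is cyclic then [K, K] centralizes M. -/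
theorem result {X : Type*} [Group X] [Finite X] (K R M : Subgroup X) (hK1 : K ≠ ⊥) (hR1 : R ≠ ⊥) (hKR : K ⊓ R = ⊥)
    (hRK : R ≤ Subgroup.normalizer (K : Set X)) (hfrob : ∀ r ∈ R, r ≠ 1 → K ⊓ Subgroup.centralizer ({r} : Set X) = ⊥)
    (hsolv : Group.IsSolvable ↥(K ⊔ R)) (hodd : Odd (Nat.card ↥(K ⊔ R)))
    (hM1 : M ≠ ⊥) (hMn : Group.IsNilpotent M) (hKM : K ≤ Subgroup.normalizer (M : Set X)) (hRM : R ≤ Subgroup.normalizer (M : Set X))
    (hcop : (Nat.card ↥(K ⊔ R)).Coprime (Nat.card M)) (hCK : M ⊓ Subgroup.centralizer (K : Set X) = ⊥)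
    (hpr : ∀ x ∈ R, x ≠ 1 → M ⊓ Subgroup.centralizer ({x} : Set X) = M ⊓ Subgroup.centralizer (R : Set X)) :
    (Nat.card R).Prime ∧ Nat.card M = Nat.card ↥(M ⊓ Subgroup.centralizer (R : Set X)) ^ Nat.card R ∧
      (IsCyclic ↥(M ⊓ Subgroup.centralizer (R : Set X)) → ⁅K, K⁆ ≤ Subgroup.centralizer (M : Set X)) := by
  have hUn : ∀ e ∈ R, ∀ u ∈ K, e * u * e⁻¹ ∈ K :=
    fun e he u hu => (Subgroup.mem_normalizer_iff.mp (hRK he) u).mp hu
  have hfpf : ∀ e ∈ R, e ≠ 1 → ∀ u ∈ K, e * u = u * e → u = 1 := by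
    intro e he hne u hu hcomm
    have h1 : u ∈ K ⊓ Subgroup.centralizer ({e} : Set X) :=
      ⟨hu, Subgroup.mem_centralizer_iff.mpr (fun h hh => by
        rw [Set.mem_singleton_iff.mp hh]
        exact hcomm)⟩
    rw [hfrob e he hne] at h1
    exact Subgroup.mem_bot.mp h1
  have hHn : ∀ x ∈ K ⊔ R, ∀ h ∈ M, x * h * x⁻¹ ∈ M :=
    fun x hx h hh => (Subgroup.mem_normalizer_iff.mp ((sup_le hKM hRM) hx) h).mp hh
  have hMsolv : Group.IsSolvable ↥M := inferInstance
  obtain ⟨hF, hC⟩ := Cfsg.Agent.Helper70.frob_group_main K R M hR1 hUn hfpf hHn hMsolv hcop.symm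
  have hbot : ∀ B : Subgroup X, K ≤ B →
      M ⊓ Subgroup.centralizer ((B : Subgroup X) : Set X) = ⊥ := by
    intro B hB
    rw [eq_bot_iff, ← hCK]
    exact inf_le_inf_left _ (Subgroup.centralizer_le (SetLike.coe_subset_coe.mpr hB))
  rw [hbot (K ⊔ R) le_sup_left, hCK, Subgroup.card_bot, one_pow, one_mul, mul_one] at hF
  -- an element of prime order in `R`
  obtain ⟨x, hxR, hx1⟩ : ∃ x ∈ R, x ≠ 1 := by
    by_contra hcon
    push Not at hcon
    exact hR1 ((Subgroup.eq_bot_iff_forall R).mpr hcon)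
  have ho : orderOf x ≠ 1 := by rwa [Ne, orderOf_eq_one_iff]
  set p := (orderOf x).minFac with hpdef
  have hp : p.Prime := Nat.minFac_prime ho
  have hpf := Fact.mk hp
  have hpd : p ∣ orderOf x := Nat.minFac_dvd _
  set y := x ^ (orderOf x / p) with hydef
  have hyp : y ^ p = 1 := by rw [hydef, ← pow_mul, Nat.div_mul_cancel hpd, pow_orderOf_eq_one]
  have hpos : 0 < orderOf x := orderOf_pos x
  have hy1 : y ≠ 1 := by
    intro h1
    have h2 := orderOf_dvd_of_pow_eq_one h1
    have h3 : orderOf x ≤ orderOf x / p :=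
      Nat.le_of_dvd (Nat.div_pos (Nat.le_of_dvd hpos hpd) hp.pos) h2
    have h4 : orderOf x / p < orderOf x := Nat.div_lt_self hpos hp.one_lt
    omega
  have hyR : y ∈ R := R.pow_mem hxR _
  have hoy : orderOf y = p := orderOf_eq_prime hyp hy1
  have hE₀R : Subgroup.zpowers y ≤ R := (Subgroup.zpowers_le).mpr hyR
  have hE₀1 : Subgroup.zpowers y ≠ ⊥ := by
    intro h
    exact hy1 (Subgroup.zpowers_eq_bot.mp h)
  have hle : K ⊔ Subgroup.zpowers y ≤ K ⊔ R := sup_le_sup_left hE₀R K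
  obtain ⟨hF', -⟩ := Cfsg.Agent.Helper70.frob_group_main K (Subgroup.zpowers y) M hE₀1
    (fun e he u hu => hUn e (hE₀R he) u hu) (fun e he hne u hu => hfpf e (hE₀R he) hne u hu)
    (fun x hx h hh => hHn x (hle hx) h hh) hMsolv
    (Nat.Coprime.coprime_dvd_right (Subgroup.card_dvd_of_le hle) hcop.symm)
  have hcz : Subgroup.centralizer ((Subgroup.zpowers y : Subgroup X) : Set X) =
      Subgroup.centralizer ({y} : Set X) := by
    apply le_antisymm
    · exact Subgroup.centralizer_le (by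
        intro z hz
        rw [Set.mem_singleton_iff.mp hz]
        exact Subgroup.mem_zpowers y)
    · intro z hz
      rw [Subgroup.mem_centralizer_iff] at hz ⊢
      intro h hh
      obtain ⟨k, rfl⟩ := Subgroup.mem_zpowers_iff.mp hh
      have hc : Commute y z := hz y rfl
      exact (hc.zpow_left k).eq
  rw [hbot (K ⊔ Subgroup.zpowers y) le_sup_left, hCK, Subgroup.card_bot, one_pow, one_mul, mul_one,
    hcz, hpr y hyR hy1, Nat.card_zpowers, hoy] at hF'
  have hc2 : 2 ≤ Nat.card ↥(M ⊓ Subgroup.centralizer (R : Set X)) := by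
    by_contra hlt
    have hc1 : Nat.card ↥(M ⊓ Subgroup.centralizer (R : Set X)) = 1 := by
      have := Nat.card_pos (α := ↥(M ⊓ Subgroup.centralizer (R : Set X)))
      omega
    rw [hc1, one_pow] at hF
    exact hM1 (Subgroup.card_eq_one.mp hF)
  have hRp : Nat.card R = p := by
    apply Nat.pow_right_injective hc2
    show Nat.card ↥(M ⊓ Subgroup.centralizer (R : Set X)) ^ Nat.card R =
      Nat.card ↥(M ⊓ Subgroup.centralizer (R : Set X)) ^ p
    rw [← hF, ← hF']
  refine ⟨by rw [hRp]; exact hp, hF, ?_⟩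
  intro hcyc
  have main' := hC hcyc
  rw [Subgroup.commutator_le]
  intro g₁ h₁ g₂ h₂
  rw [Subgroup.mem_centralizer_iff]
  intro h hh
  rw [commutatorElement_def]
  exact (main' g₁ h₁ g₂ h₂ h hh).symm

end Cfsg.Agent.S1446
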