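import Cfsg.Statements.S3951
import Cfsg.Agent.Helper65.BiExt

set_option autoImplicit false
open Cfsg

namespace Cfsg.Agent.S3951

open Cfsg.Agent.Helper65
open scoped commutatorElement

/-- In a stem extension of an abelian group generated by `x` and `y` with `y ^ n = 1`, the kernel
lies in a cyclic subgroup generated by an element of order dividing `n`. -/
theorem exists_zpowers_of_stem_two_gen {Γ G : Type*} [Group Γ] [CommGroup G] (σ : Γ →* G)
    (hσ : Cfsg.IsStemExtension σ) (x y : G) (hgen : Subgroup.closure ({x, y} : Set G) = ⊤)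
    (n : ℕ) (hy : y ^ n = 1) : ∃ z : Γ, z ^ n = 1 ∧ σ.ker ≤ Subgroup.zpowers z := by
  obtain ⟨hσs, hσc, hσd⟩ := hσ
  have hcen : ∀ a b : Γ, ⁅a, b⁆ ∈ Subgroup.center Γ := by
    intro a b
    apply hσc
    rw [MonoidHom.mem_ker, map_commutatorElement, commutatorElement_def, mul_comm (σ a) (σ b),
      mul_inv_cancel_right, mul_inv_cancel]
  -- the commutator with a fixed element is a homomorphism
  let κ : Γ → Γ →* Γ := fun a =>
    { toFun := fun c => ⁅a, c⁆
      map_one' := by simp [commutatorElement_def]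
      map_mul' := fun c d => by
        have h1 := Subgroup.mem_center_iff.mp (hcen a d) c
        have h2 : ⁅a, c * d⁆ = ⁅a, c⁆ * (c * ⁅a, d⁆ * c⁻¹) := by
          simp only [commutatorElement_def]; group
        rw [h2, h1, mul_inv_cancel_right] }
  have hκ : ∀ a c, κ a c = ⁅a, c⁆ := fun a c => rfl
  obtain ⟨xt, hxt⟩ := hσs x
  obtain ⟨yt, hyt⟩ := hσs y
  have hker : ∀ a k : Γ, k ∈ σ.ker → ⁅a, k⁆ = 1 := by
    intro a k hk
    have := Subgroup.mem_center_iff.mp (hσc hk) a
    rw [commutatorElement_def, this, mul_inv_cancel_right, mul_inv_cancel]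
  have hsup : ∀ T : Subgroup Γ, xt ∈ T → yt ∈ T → σ.ker ≤ T → T = ⊤ := by
    intro T hx' hy' hk'
    rw [eq_top_iff]
    intro c _
    have hc : σ c ∈ Subgroup.closure ({x, y} : Set G) := by rw [hgen]; trivial
    have himg : Subgroup.closure ({x, y} : Set G) =
        (Subgroup.closure ({xt, yt} : Set Γ)).map σ := by
      rw [MonoidHom.map_closure, Set.image_pair, hxt, hyt]
    rw [himg] at hc
    obtain ⟨w, hw, hwc⟩ := hc
    have hwT : w ∈ T := by
      have hle : Subgroup.closure ({xt, yt} : Set Γ) ≤ T := by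
        rw [Subgroup.closure_le]
        intro t ht
        rcases ht with rfl | rfl
        · exact hx'
        · exact hy'
      exact hle hw
    have hk : w⁻¹ * c ∈ σ.ker := by
      rw [MonoidHom.mem_ker, map_mul, map_inv, hwc, inv_mul_cancel]
    have : c = w * (w⁻¹ * c) := by group
    rw [this]
    exact T.mul_mem hwT (hk' hk)
  let Z : Subgroup Γ := Subgroup.zpowers ⁅xt, yt⁆
  have hz : ⁅xt, yt⁆ ∈ Z := Subgroup.mem_zpowers _
  have h1mem : ∀ a k : Γ, k ∈ σ.ker → k ∈ Z.comap (κ a) := by
    intro a k hk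
    rw [Subgroup.mem_comap, hκ, hker a k hk]
    exact Z.one_mem
  have hTx : Z.comap (κ xt) = ⊤ := by
    apply hsup
    · rw [Subgroup.mem_comap, hκ, commutatorElement_self]; exact Z.one_mem
    · rw [Subgroup.mem_comap, hκ]; exact hz
    · exact fun k hk => h1mem xt k hk
  have hTy : Z.comap (κ yt) = ⊤ := by
    apply hsup
    · rw [Subgroup.mem_comap, hκ, ← commutatorElement_inv]; exact Z.inv_mem hz
    · rw [Subgroup.mem_comap, hκ, commutatorElement_self]; exact Z.one_mem
    · exact fun k hk => h1mem yt k hk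
  have hTc : ∀ c : Γ, Z.comap (κ c) = ⊤ := by
    intro c
    apply hsup
    · rw [Subgroup.mem_comap, hκ, ← commutatorElement_inv]
      have : c ∈ Z.comap (κ xt) := by rw [hTx]; trivial
      exact Z.inv_mem this
    · rw [Subgroup.mem_comap, hκ, ← commutatorElement_inv]
      have : c ∈ Z.comap (κ yt) := by rw [hTy]; trivial
      exact Z.inv_mem this
    · exact fun k hk => h1mem c k hk
  have hcomm : commutator Γ ≤ Z := by
    rw [commutator_eq_closure, Subgroup.closure_le]
    rintro _ ⟨a, b, rfl⟩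
    have : b ∈ Z.comap (κ a) := by rw [hTc a]; trivial
    exact this
  refine ⟨⁅xt, yt⁆, ?_, hσd.trans hcomm⟩
  have h3 : (κ xt) (yt ^ n) = ⁅xt, yt⁆ ^ n := by rw [map_pow]; rfl
  rw [← h3, hκ]
  apply hker
  rw [MonoidHom.mem_ker, map_pow, hyt, hy]

/-- A subgroup of a cyclic group generated by an element of order dividing `n` is a quotient of
`ZMod n`. -/
theorem exists_surjective_of_le_zpowers {Γ : Type*} [Group Γ] (K : Subgroup Γ) (z : Γ) (n : ℕ)
    (hz : z ^ n = 1) (hK : K ≤ Subgroup.zpowers z) :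
    ∃ π : Multiplicative (ZMod n) →* K, Function.Surjective π := by
  have hcyc : IsCyclic K := by
    have h1 : IsCyclic (K.subgroupOf (Subgroup.zpowers z)) := inferInstance
    exact isCyclic_of_surjective (Subgroup.subgroupOfEquivOfLe hK).toMonoidHom
      (Subgroup.subgroupOfEquivOfLe hK).surjective
  obtain ⟨k₀, hk₀⟩ := hcyc.exists_generator
  have hk₀n : k₀ ^ n = 1 := by
    apply Subtype.ext
    obtain ⟨j, hj⟩ := Subgroup.mem_zpowers_iff.mp (hK k₀.2)
    show (k₀ : Γ) ^ n = 1
    rw [← hj, ← zpow_natCast, ← zpow_mul, mul_comm, zpow_mul, zpow_natCast, hz, one_zpow]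
  let f₀ : ℤ →+ Additive K := zmultiplesHom (Additive K) (Additive.ofMul k₀)
  have hf₀ : ∀ j : ℤ, f₀ j = Additive.ofMul (k₀ ^ j) := by
    intro j
    show j • Additive.ofMul k₀ = _
    rfl
  have hf₀n : f₀ n = 0 := by
    rw [hf₀, zpow_natCast, hk₀n]; rfl
  let f₁ : ZMod n →+ Additive K := ZMod.lift n ⟨f₀, hf₀n⟩
  refine ⟨AddMonoidHom.toMultiplicativeLeft f₁, ?_⟩
  intro k
  obtain ⟨j, hj⟩ := Subgroup.mem_zpowers_iff.mp (hk₀ k)
  refine ⟨Multiplicative.ofAdd (j : ZMod n), ?_⟩
  show Additive.toMul (f₁ (j : ZMod n)) = k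
  have : f₁ (j : ZMod n) = f₀ j := ZMod.lift_coe n ⟨f₀, hf₀n⟩ j
  rw [this, hf₀, ← hj]
  rfl

/-- For positive integers `m` and `n` with `n` dividing `m`, the Schur multiplier of the abelian group `ZMod m × ZMod n` (written multiplicatively) is cyclic of order `n`. In particular the elementary abelian group of order `p ^ 2` has multiplier of order `p`. -/
theorem result (m n : ℕ) [NeZero m] [NeZero n] (hnm : n ∣ m) : Cfsg.HasCyclicSchurMultiplier (Multiplicative (ZMod m × ZMod n)) n := by
  let c : ZMod m →+* ZMod n := ZMod.castHom hnm (ZMod n)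
  let f : BiMul (Multiplicative (ZMod m × ZMod n)) (ZMod n) :=
    { toFun := fun g h => c (Multiplicative.toAdd g).1 * (Multiplicative.toAdd h).2
      map_mul_left := fun g h k => by
        rw [toAdd_mul, Prod.fst_add, map_add]; ring
      map_mul_right := fun g h k => by
        rw [toAdd_mul, Prod.snd_add]; ring }
  refine ⟨⟨BiExt f, inferInstance, inferInstance, BiExt.proj f, ?_, ⟨BiExt.kerEquiv f⟩⟩, ?_⟩
  · apply BiExt.isStemExtension_proj f (fun x y => mul_comm x y)
    rw [eq_top_iff]
    intro a _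
    have hmem : (1 : ZMod n) ∈ AddSubgroup.closure (Set.range
        (fun q : Multiplicative (ZMod m × ZMod n) × Multiplicative (ZMod m × ZMod n) =>
          f.toFun q.1 q.2 - f.toFun q.2 q.1)) := by
      apply AddSubgroup.subset_closure
      refine ⟨(Multiplicative.ofAdd (1, 0), Multiplicative.ofAdd (0, 1)), ?_⟩
      show c (1 : ZMod m) * (1 : ZMod n) - c (0 : ZMod m) * (0 : ZMod n) = 1
      rw [map_one, map_zero]; ring
    have ha : a = a.val • (1 : ZMod n) := by
      rw [nsmul_eq_mul, mul_one, ZMod.natCast_val, ZMod.cast_id', id]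
    rw [ha]
    exact AddSubgroup.nsmul_mem _ hmem _
  · intro Γ _ _ σ hσ
    let gx : Multiplicative (ZMod m × ZMod n) := Multiplicative.ofAdd ((1 : ZMod m), (0 : ZMod n))
    let gy : Multiplicative (ZMod m × ZMod n) := Multiplicative.ofAdd ((0 : ZMod m), (1 : ZMod n))
    have hpow : ∀ (v : ZMod m × ZMod n) (k : ℕ),
        (Multiplicative.ofAdd v : Multiplicative (ZMod m × ZMod n)) ^ k =
          Multiplicative.ofAdd (k • v) := fun v k => (ofAdd_nsmul k v).symm
    have hgen : Subgroup.closure ({gx, gy} : Set (Multiplicative (ZMod m × ZMod n))) = ⊤ := by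
      rw [eq_top_iff]
      intro g _
      have h0 : Multiplicative.toAdd g = (Multiplicative.toAdd g).1.val • ((1 : ZMod m), (0 : ZMod n)) +
          (Multiplicative.toAdd g).2.val • ((0 : ZMod m), (1 : ZMod n)) := by
        ext
        · show (Multiplicative.toAdd g).1 = (Multiplicative.toAdd g).1.val • (1 : ZMod m) +
            (Multiplicative.toAdd g).2.val • (0 : ZMod m)
          simp only [nsmul_eq_mul, mul_one, mul_zero, add_zero, ZMod.natCast_val, ZMod.cast_id', id]
        · show (Multiplicative.toAdd g).2 = (Multiplicative.toAdd g).1.val • (0 : ZMod n) +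
            (Multiplicative.toAdd g).2.val • (1 : ZMod n)
          simp only [nsmul_eq_mul, mul_one, mul_zero, zero_add, ZMod.natCast_val, ZMod.cast_id', id]
      have hg : g = gx ^ (Multiplicative.toAdd g).1.val * gy ^ (Multiplicative.toAdd g).2.val := by
        rw [hpow, hpow, ← ofAdd_add, ← h0]
        rfl
      have hgx : gx ∈ Subgroup.closure ({gx, gy} : Set (Multiplicative (ZMod m × ZMod n))) :=
        Subgroup.subset_closure (Set.mem_insert _ _)
      have hgy : gy ∈ Subgroup.closure ({gx, gy} : Set (Multiplicative (ZMod m × ZMod n))) :=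
        Subgroup.subset_closure (Set.mem_insert_of_mem _ (Set.mem_singleton _))
      rw [hg]
      exact Subgroup.mul_mem _ (Subgroup.pow_mem _ hgx _) (Subgroup.pow_mem _ hgy _)
    have hy : gy ^ n = 1 := by
      apply Multiplicative.toAdd.injective
      rw [toAdd_pow, toAdd_one]
      show n • ((0 : ZMod m), (1 : ZMod n)) = 0
      rw [Prod.smul_mk, smul_zero, nsmul_eq_mul, mul_one, ZMod.natCast_self, Prod.mk_zero_zero]
    obtain ⟨z, hz, hle⟩ := exists_zpowers_of_stem_two_gen σ hσ gx gy hgen n hy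
    exact exists_surjective_of_le_zpowers σ.ker z n hz hle

end Cfsg.Agent.S3951
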