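import Cfsg.Statements.S0242
import Mathlib

set_option autoImplicit false
open Cfsg

namespace Cfsg.Agent.S0242

open Matrix in
theorem card_SL_mul {F : Type*} [Field F] [Fintype F] (n : ℕ) (hn : 1 ≤ n) :
    Nat.card (Matrix.SpecialLinearGroup (Fin n) F) * (Fintype.card F - 1)
      = Nat.card (GL (Fin n) F) := by
  have : Nonempty (Fin n) := ⟨⟨0, hn⟩⟩
  have hsurj : Function.Surjective
      (Matrix.GeneralLinearGroup.det : GL (Fin n) F →* Fˣ) :=
    Matrix.GeneralLinearGroup.det_surjective
  have h1 := Subgroup.card_mul_index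
    (Matrix.GeneralLinearGroup.det : GL (Fin n) F →* Fˣ).ker
  rw [Subgroup.index_ker, MonoidHom.range_eq_top.mpr hsurj, Subgroup.card_top] at h1
  have h2 : Nat.card Fˣ = Fintype.card F - 1 := by
    classical
    rw [Nat.card_eq_fintype_card, Fintype.card_units]
  rw [h2] at h1
  rw [← h1]
  congr 1
  apply Nat.card_congr
  refine ⟨fun A => ⟨Matrix.SpecialLinearGroup.toGL A, ?_⟩, fun g => ⟨g.1.1, ?_⟩, ?_, ?_⟩
  · rw [MonoidHom.mem_ker]
    exact Matrix.SpecialLinearGroup.coeToGL_det A
  · have := g.2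
    rw [MonoidHom.mem_ker] at this
    have h := congrArg Units.val this
    simpa using h
  · intro A
    apply Subtype.ext
    rfl
  · intro g
    apply Subtype.ext
    apply Units.ext
    rfl

/-- Order of the special linear group: (q - 1) |SL_n(q)| = prod_{i<n} (q^n - q^i) = |GL_n(q)|, for n at least 1. -/
theorem result {F : Type*} [Field F] [Fintype F] {q : ℕ} (hF : Fintype.card F = q) (n : ℕ) (hn : 1 ≤ n) : (q - 1) * Nat.card (Matrix.SpecialLinearGroup (Fin n) F) = ∏ i : Fin n, (q ^ n - q ^ (i : ℕ)) := by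
  subst hF
  rw [mul_comm, card_SL_mul n hn]
  exact Matrix.card_GL_field n

end Cfsg.Agent.S0242
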