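import Cfsg.Statements.S5545
-- import your own Cfsg.Agent.* helpers here

set_option autoImplicit false
open Cfsg

namespace Cfsg.Agent.S5545

open Cfsg.Axial

/-- eigenspaces are transported by an algebra automorphism -/
theorem eigen_map {V : Type*} [AddCommGroup V] [Module ℝ V] (mul : V →ₗ[ℝ] V →ₗ[ℝ] V)
    (σ : V ≃ₗ[ℝ] V) (hσ : ∀ u v : V, σ (mul u v) = mul (σ u) (σ v)) (a : V) (c : ℝ) :
    eigen mul (σ a) c = (eigen mul a c).map (σ : V →ₗ[ℝ] V) := by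
  ext v
  simp only [eigen, Module.End.mem_eigenspace_iff, Submodule.mem_map, LinearEquiv.coe_coe]
  constructor
  · intro hv
    refine ⟨σ.symm v, ?_, σ.apply_symm_apply v⟩
    apply σ.injective
    rw [hσ, σ.apply_symm_apply, hv, map_smul, σ.apply_symm_apply]
  · rintro ⟨v', hv', rfl⟩
    rw [← hσ, hv', map_smul]

theorem eigenSum_map {V : Type*} [AddCommGroup V] [Module ℝ V] (mul : V →ₗ[ℝ] V →ₗ[ℝ] V)
    (σ : V ≃ₗ[ℝ] V) (hσ : ∀ u v : V, σ (mul u v) = mul (σ u) (σ v)) (a : V) (S : Set ℝ) :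
    eigenSum mul (σ a) S = (eigenSum mul a S).map (σ : V →ₗ[ℝ] V) := by
  simp only [eigenSum, eigen_map mul σ hσ, Submodule.map_iSup]

/-- a Majorana pair `(μ, a)` and an algebra automorphism `σ` commuting with `μ` give the
Majorana pair `(μ, σ a)` -/
theorem pair_of_commute {V : Type*} [AddCommGroup V] [Module ℝ V] (mul : V →ₗ[ℝ] V →ₗ[ℝ] V)
    (B : LinearMap.BilinForm ℝ V) (μ : V ≃ₗ[ℝ] V) (a : V) (h : IsMajoranaPair mul B μ a)
    (σ : V ≃ₗ[ℝ] V) (hσ : ∀ u v : V, σ (mul u v) = mul (σ u) (σ v))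
    (hc : ∀ v : V, σ (μ v) = μ (σ v)) : IsMajoranaPair mul B μ (σ a) := by
  obtain ⟨h1, h2, ⟨⟨ha0, haa, htop, hfus⟩, hprim⟩, hM1, hM2⟩ := h
  refine ⟨h1, h2, ⟨⟨?_, ?_, ?_, ?_⟩, ?_⟩, ?_, ?_⟩
  · intro h0
    apply ha0
    apply σ.injective
    rw [h0, map_zero]
  · rw [← hσ, haa]
  · rw [eigenSum_map mul σ hσ, htop, Submodule.map_top, LinearEquiv.range]
  · intro c hcS d hdS u hu v hv
    rw [eigen_map mul σ hσ] at hu hv
    rw [eigenSum_map mul σ hσ]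
    obtain ⟨u', hu', rfl⟩ := hu
    obtain ⟨v', hv', rfl⟩ := hv
    exact ⟨mul u' v', hfus c hcS d hdS u' hu' v' hv', hσ u' v'⟩
  · rw [eigen_map mul σ hσ, hprim, Submodule.map_span, Set.image_singleton]
    rfl
  · intro v hv
    rw [eigenSum_map mul σ hσ] at hv
    obtain ⟨v', hv', rfl⟩ := hv
    have := hM1 v' hv'
    simp only [LinearEquiv.coe_coe] at this ⊢
    rw [← hc, this]
  · intro v hv
    rw [eigen_map mul σ hσ] at hv
    obtain ⟨v', hv', rfl⟩ := hv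
    have := hM2 v' hv'
    simp only [LinearEquiv.coe_coe] at this ⊢
    rw [← hc, this, map_neg]

/-- decomposition of a vector fixed by the Majorana involution -/
theorem decomp {V : Type*} [AddCommGroup V] [Module ℝ V] (mul : V →ₗ[ℝ] V →ₗ[ℝ] V)
    (B : LinearMap.BilinForm ℝ V) (μ : V ≃ₗ[ℝ] V) (a : V) (h : IsMajoranaPair mul B μ a)
    (v : V) (hv : μ v = v) :
    ∃ (l : ℝ) (β γ : V), v = l • a + β + γ ∧ mul a β = 0 ∧ mul a γ = (1 / 4 : ℝ) • γ := by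
  obtain ⟨-, -, ⟨⟨-, -, htop, -⟩, hprim⟩, hM1, hM2⟩ := h
  have hv' : v ∈ eigenSum mul a majoranaSpectrum := by rw [htop]; trivial
  rw [eigenSum, majoranaSpectrum, iSup_insert, iSup_insert, iSup_insert, iSup_singleton,
    Submodule.mem_sup] at hv'
  obtain ⟨p, hp, w1, hw1, rfl⟩ := hv'
  rw [Submodule.mem_sup] at hw1
  obtain ⟨q, hq, w2, hw2, rfl⟩ := hw1
  rw [Submodule.mem_sup] at hw2
  obtain ⟨r, hr, s, hs, rfl⟩ := hw2
  have hp' : (μ : V →ₗ[ℝ] V) p = p :=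
    hM1 p (le_iSup₂ (f := fun c (_ : c ∈ ({1, 0, 1 / 4} : Set ℝ)) => eigen mul a c) 1 (by simp) hp)
  have hq' : (μ : V →ₗ[ℝ] V) q = q :=
    hM1 q (le_iSup₂ (f := fun c (_ : c ∈ ({1, 0, 1 / 4} : Set ℝ)) => eigen mul a c) 0 (by simp) hq)
  have hr' : (μ : V →ₗ[ℝ] V) r = r :=
    hM1 r (le_iSup₂ (f := fun c (_ : c ∈ ({1, 0, 1 / 4} : Set ℝ)) => eigen mul a c) (1 / 4)
      (by simp) hr)
  have hs' : (μ : V →ₗ[ℝ] V) s = -s := hM2 s hs
  simp only [LinearEquiv.coe_coe] at hp' hq' hr' hs'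
  rw [map_add, map_add, map_add, hp', hq', hr', hs'] at hv
  have hs0 : s = 0 := by
    have : -s = s := by
      have h1 := add_left_cancel hv
      have h2 := add_left_cancel h1
      exact add_left_cancel h2
    have h2 : (2 : ℝ) • s = 0 := by
      rw [two_smul]
      nth_rewrite 1 [← this]
      exact neg_add_cancel s
    rcases smul_eq_zero.mp h2 with h | h
    · norm_num at h
    · exact h
  rw [hprim, Submodule.mem_span_singleton] at hp
  obtain ⟨l, rfl⟩ := hp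
  rw [eigen, Module.End.mem_eigenspace_iff] at hq hr
  refine ⟨l, q, r, ?_, ?_, hr⟩
  · rw [hs0, add_zero, add_assoc]
  · rw [hq, zero_smul]

/-- the fusion rules `0 ⋆ 0 = {0}`, `0 ⋆ 1/4 = {1/4}`, `1/4 ⋆ 1/4 = {1, 0}` -/
theorem fusion_rules {V : Type*} [AddCommGroup V] [Module ℝ V] (mul : V →ₗ[ℝ] V →ₗ[ℝ] V)
    (B : LinearMap.BilinForm ℝ V) (μ : V ≃ₗ[ℝ] V) (a : V) (h : IsMajoranaPair mul B μ a) :
    (∀ u v : V, mul a u = 0 → mul a v = 0 → mul a (mul u v) = 0) ∧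
    (∀ u v : V, mul a u = 0 → mul a v = (1 / 4 : ℝ) • v →
      mul a (mul u v) = (1 / 4 : ℝ) • mul u v) ∧
    (∀ u v : V, mul a u = (1 / 4 : ℝ) • u → mul a v = (1 / 4 : ℝ) • v →
      ∃ p q : V, mul a p = p ∧ mul a q = 0 ∧ mul u v = p + q) := by
  have hfus := h.2.2.1.1.2.2.2
  have m0 : (0 : ℝ) ∈ majoranaSpectrum := by simp [majoranaSpectrum]
  have mq : (1 / 4 : ℝ) ∈ majoranaSpectrum := by simp [majoranaSpectrum]
  refine ⟨?_, ?_, ?_⟩
  · intro u v hu hv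
    have hf := hfus 0 m0 0 m0 u (by rw [eigen, Module.End.mem_eigenspace_iff, hu, zero_smul])
      v (by rw [eigen, Module.End.mem_eigenspace_iff, hv, zero_smul])
    have hlaw : monsterLaw (1 / 4 : ℝ) (1 / 32) 0 0 = {0} := by
      rw [monsterLaw, if_neg (by norm_num), if_neg (by norm_num), if_neg (by norm_num),
        if_neg (by norm_num), if_pos rfl]
    rw [hlaw, eigenSum, iSup_singleton, eigen, Module.End.mem_eigenspace_iff, zero_smul] at hf
    exact hf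
  · intro u v hu hv
    have hf := hfus 0 m0 (1 / 4) mq u (by rw [eigen, Module.End.mem_eigenspace_iff, hu, zero_smul])
      v (by rw [eigen, Module.End.mem_eigenspace_iff]; exact hv)
    have hlaw : monsterLaw (1 / 4 : ℝ) (1 / 32) 0 (1 / 4) = {1 / 4} := by
      rw [monsterLaw, if_neg (by norm_num), if_neg (by norm_num), if_neg (by norm_num),
        if_pos (by norm_num)]
    rw [hlaw, eigenSum, iSup_singleton, eigen, Module.End.mem_eigenspace_iff] at hf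
    exact hf
  · intro u v hu hv
    have hf := hfus (1 / 4) mq (1 / 4) mq u (by rw [eigen, Module.End.mem_eigenspace_iff]; exact hu)
      v (by rw [eigen, Module.End.mem_eigenspace_iff]; exact hv)
    have hlaw : monsterLaw (1 / 4 : ℝ) (1 / 32) (1 / 4) (1 / 4) = {1, 0} := by
      rw [monsterLaw, if_neg (by norm_num), if_neg (by norm_num), if_pos (by norm_num)]
    rw [hlaw, eigenSum, iSup_insert, iSup_singleton, Submodule.mem_sup] at hf
    obtain ⟨p, hp, q, hq, hpq⟩ := hf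
    rw [eigen, Module.End.mem_eigenspace_iff] at hp hq
    refine ⟨p, q, ?_, ?_, hpq.symm⟩
    · rw [hp, one_smul]
    · rw [hq, zero_smul]

/-- coefficient of the axis: `B b a = l` -/
theorem coeff_eq {V : Type*} [AddCommGroup V] [Module ℝ V] (mul : V →ₗ[ℝ] V →ₗ[ℝ] V)
    (B : LinearMap.BilinForm ℝ V) (hcomm : IsCommMul mul)
    (hassoc : ∀ u v w : V, B u (mul v w) = B (mul u v) w)
    (a b β γ : V) (l : ℝ) (haa : mul a a = a) (hBa : B a a = 1) (hb : b = l • a + β + γ)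
    (haβ : mul a β = 0) (haγ : mul a γ = (1 / 4 : ℝ) • γ) : B b a = l := by
  have h1 : B β a = 0 := by
    have := hassoc β a a
    rw [haa, hcomm β a, haβ, map_zero, LinearMap.zero_apply] at this
    exact this
  have h2 : B γ a = 0 := by
    have := hassoc γ a a
    rw [haa, hcomm γ a, haγ, map_smul, LinearMap.smul_apply, smul_eq_mul] at this
    linarith
  rw [hb, map_add, map_add, map_smul, LinearMap.add_apply, LinearMap.add_apply,
    LinearMap.smul_apply, hBa, h1, h2]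
  simp

theorem side1 {V : Type*} [AddCommGroup V] [Module ℝ V] (mul : V →ₗ[ℝ] V →ₗ[ℝ] V)
    (a b β γ : V) (l : ℝ) (haa : mul a a = a) (hb : b = l • a + β + γ)
    (haβ : mul a β = 0) (haγ : mul a γ = (1 / 4 : ℝ) • γ) :
    mul a b = l • a + (1 / 4 : ℝ) • γ ∧
      mul a (mul a b) = (3 * l / 4) • a + (1 / 4 : ℝ) • mul a b := by
  have h1 : mul a b = l • a + (1 / 4 : ℝ) • γ := by
    rw [hb, map_add, map_add, map_smul, haa, haβ, haγ, add_zero]
  refine ⟨h1, ?_⟩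
  rw [h1, map_add, map_smul, map_smul, haa, haγ]
  module

theorem quarter {V : Type*} [AddCommGroup V] [Module ℝ V] (mul : V →ₗ[ℝ] V →ₗ[ℝ] V)
    (hcomm : IsCommMul mul) (a b β γ : V) (l : ℝ) (haa : mul a a = a) (hbb : mul b b = b)
    (hb : b = l • a + β + γ) (haβ : mul a β = 0) (haγ : mul a γ = (1 / 4 : ℝ) • γ)
    (f00 : ∀ u v : V, mul a u = 0 → mul a v = 0 → mul a (mul u v) = 0)
    (f0q : ∀ u v : V, mul a u = 0 → mul a v = (1 / 4 : ℝ) • v →
      mul a (mul u v) = (1 / 4 : ℝ) • mul u v)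
    (fqq : ∀ u v : V, mul a u = (1 / 4 : ℝ) • u → mul a v = (1 / 4 : ℝ) • v →
      ∃ p q : V, mul a p = p ∧ mul a q = 0 ∧ mul u v = p + q) :
    (2 : ℝ) • mul β γ = (1 - l / 2) • γ := by
  obtain ⟨p, q, hp, hq, hpq⟩ := fqq γ γ haγ haγ
  have hββ := f00 β β haβ haβ
  have hβγ := f0q β γ haβ haγ
  have hexp : mul b b =
      (l * l) • a + mul β β + (p + q) + (l / 2) • γ + (2 : ℝ) • mul β γ := by
    rw [hb]
    simp only [map_add, map_smul, LinearMap.add_apply, LinearMap.smul_apply, haa, haβ, haγ,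
      hcomm β a, hcomm γ a, hcomm γ β, hpq]
    module
  rw [hbb] at hexp
  have h' : l • a + β + γ =
      (l * l) • a + mul β β + (p + q) + (l / 2) • γ + (2 : ℝ) • mul β γ := by
    rw [← hb]; exact hexp
  obtain ⟨x, hx⟩ : ∃ x : V, x = γ - (l / 2) • γ - (2 : ℝ) • mul β γ := ⟨_, rfl⟩
  have hxP : x = ((l * l - l) • a + p) + (mul β β - β + q) := by
    have e : x - (((l * l - l) • a + p) + (mul β β - β + q)) =
        (l • a + β + γ) -
          ((l * l) • a + mul β β + (p + q) + (l / 2) • γ + (2 : ℝ) • mul β γ) := by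
      rw [hx]; module
    rw [h', sub_self] at e
    exact sub_eq_zero.mp e
  have hax : mul a x = (1 / 4 : ℝ) • x := by
    rw [hx]
    simp only [map_sub, map_smul, haγ, hβγ]
    module
  have haP : mul a ((l * l - l) • a + p) = (l * l - l) • a + p := by
    rw [map_add, map_smul, haa, hp]
  have haQ : mul a (mul β β - β + q) = 0 := by
    rw [map_add, map_sub, hββ, haβ, hq]; simp
  have h1 : (1 / 4 : ℝ) • x = (l * l - l) • a + p := by
    have := congrArg (mul a) hxP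
    rw [hax, map_add, haP, haQ, add_zero] at this
    exact this
  have h2 : (1 / 4 : ℝ) • (1 / 4 : ℝ) • x = (1 / 4 : ℝ) • x := by
    have := congrArg (mul a) h1
    rw [map_smul, hax, haP, ← h1] at this
    exact this
  have hx0 : x = 0 := by
    have h3 : (3 / 16 : ℝ) • x = 0 := by
      have : (3 / 16 : ℝ) • x = (1 / 4 : ℝ) • x - (1 / 4 : ℝ) • (1 / 4 : ℝ) • x := by module
      rw [this, h2, sub_self]
    rcases smul_eq_zero.mp h3 with h | h
    · norm_num at h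
    · exact h
  have : (2 : ℝ) • mul β γ - (1 - l / 2) • γ = -x := by rw [hx]; module
  rw [hx0, neg_zero] at this
  exact sub_eq_zero.mp this

theorem side2 {V : Type*} [AddCommGroup V] [Module ℝ V] (mul : V →ₗ[ℝ] V →ₗ[ℝ] V)
    (hcomm : IsCommMul mul) (a b β γ σ : V) (l : ℝ) (haa : mul a a = a)
    (hb : b = l • a + β + γ) (hσ : mul a b = σ) (hσ1 : mul a b = l • a + (1 / 4 : ℝ) • γ)
    (haσ : mul a σ = (3 * l / 4) • a + (1 / 4 : ℝ) • σ)
    (hbσ : mul b σ = (3 * l / 4) • b + (1 / 4 : ℝ) • σ)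
    (hq : (2 : ℝ) • mul β γ = (1 - l / 2) • γ) :
    (16 : ℝ) • mul σ σ = (3 * l) • b + (8 * l ^ 2 + 2 * l) • a + (4 * l - 1) • σ := by
  have hγ : γ = (4 : ℝ) • (σ - l • a) := by rw [← hσ, hσ1]; module
  have hβ : β = b + (3 * l) • a - (4 : ℝ) • σ := by
    have h1 : β = b - l • a - γ := by
      have : b - l • a - γ = (l • a + β + γ) - l • a - γ := by rw [← hb]
      rw [this]; module
    rw [h1, hγ]; module
  have hba : mul b a = σ := by rw [hcomm b a, hσ]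
  have hσa : mul σ a = (3 * l / 4) • a + (1 / 4 : ℝ) • σ := by rw [hcomm σ a, haσ]
  have hβγ : mul β γ =
      (3 * l) • b + (9 * l ^ 2) • a + (1 + 3 * l) • σ - (16 : ℝ) • mul σ σ := by
    rw [hβ, hγ]
    simp only [map_add, map_sub, map_smul, LinearMap.add_apply, LinearMap.sub_apply,
      LinearMap.smul_apply, hbσ, hba, haσ, haa, hσa]
    module
  rw [hβγ, hγ] at hq
  have : (16 : ℝ) • mul σ σ - ((3 * l) • b + (8 * l ^ 2 + 2 * l) • a + (4 * l - 1) • σ) =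
      (-(1 / 2) : ℝ) • ((2 : ℝ) • ((3 * l) • b + (9 * l ^ 2) • a + (1 + 3 * l) • σ
        - (16 : ℝ) • mul σ σ) - (1 - l / 2) • (4 : ℝ) • (σ - l • a)) := by module
  rw [hq, sub_self, smul_zero] at this
  exact sub_eq_zero.mp this


/-- Let V be a finite-dimensional real vector space with a commutative bilinear product and a positive-definite symmetric bilinear form that associates with the product and satisfies the Norton inequality (the Majorana setting of the definitions). Let μ₀, μ₁ be commuting Majorana involutions with distinct axial vectors a₀ ≠ a₁ of squared length 1, each involution having no other axial vector. Then either a₀ and a₁ are orthogonal with a₀ ∘ a₁ = 0 (type 2B), or their inner product is 1/8 and, with a₂ = a₀ + a₁ − 8 a₀ ∘ a₁, the vector a₂ is an idempotent and a₀ ∘ a₂ = (1/8)(a₀ + a₂ − a₁), a₁ ∘ a₂ = (1/8)(a₁ + a₂ − a₀) (type 2A: the three idempotents span a subalgebra with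 aᵢ ∘ aⱼ = (1/8)(aᵢ + aⱼ − aₖ)). -/
theorem result {V : Type*} [AddCommGroup V] [Module ℝ V] [FiniteDimensional ℝ V] (mul : V →ₗ[ℝ] V →ₗ[ℝ] V) (B : LinearMap.BilinForm ℝ V) (hV : Cfsg.Axial.IsMajoranaAmbient mul B) (μ₀ μ₁ : V ≃ₗ[ℝ] V) (a₀ a₁ : V) (h₀ : Cfsg.Axial.IsMajoranaPair mul B μ₀ a₀) (h₁ : Cfsg.Axial.IsMajoranaPair mul B μ₁ a₁) (hu₀ : ∀ a : V, Cfsg.Axial.IsMajoranaPair mul B μ₀ a → a = a₀) (hu₁ : ∀ a : V, Cfsg.Axial.IsMajoranaPair mul B μ₁ a → a = a₁) (hn₀ : B a₀ a₀ = 1) (hn₁ : B a₁ a₁ = 1) (hc : μ₀ * μ₁ = μ₁ * μ₀) (hne : a₀ ≠ a₁) : (B a₀ a₁ = 0 ∧ mul a₀ a₁ = 0) ∨ (B a₀ a₁ = 1 / 8 ∧ mul (a₀ + a₁ - (8 : ℝ) • mul a₀ a₁) (a₀ + a₁ - (8 : ℝ) • mul a₀ a₁) = a₀ + a₁ - (8 : ℝ) • mul a₀ a₁ ∧ mul a₀ (a₀ + a₁ - (8 : ℝ) • mul a₀ a₁) = (1 / 8 : ℝ) • (a₀ + (a₀ + a₁ - (8 : ℝ) • mul a₀ a₁) - a₁) ∧ mul a₁ (a₀ + a₁ - (8 : ℝ) • mul a₀ a₁) = (1 / 8 : ℝ) • (a₁ + (a₀ + a₁ - (8 : ℝ) • mul a₀ a₁) - a₀)) := by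
  obtain ⟨hcomm, hsymm, hpos, hassoc, -⟩ := hV
  have hcv : ∀ v : V, μ₀ (μ₁ v) = μ₁ (μ₀ v) := fun v => congrArg (fun f : V ≃ₗ[ℝ] V => f v) hc
  have hμ1a0 : μ₁ a₀ = a₀ :=
    hu₀ _ (pair_of_commute mul B μ₀ a₀ h₀ μ₁ h₁.1 (fun v => (hcv v).symm))
  have hμ0a1 : μ₀ a₁ = a₁ :=
    hu₁ _ (pair_of_commute mul B μ₁ a₁ h₁ μ₀ h₀.1 (fun v => hcv v))
  obtain ⟨l, β, γ, hb, haβ, haγ⟩ := decomp mul B μ₁ a₁ h₁ a₀ hμ1a0
  obtain ⟨l', β', γ', hb', haβ', haγ'⟩ := decomp mul B μ₀ a₀ h₀ a₁ hμ0a1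
  have haa0 : mul a₀ a₀ = a₀ := h₀.2.2.1.1.2.1
  have haa1 : mul a₁ a₁ = a₁ := h₁.2.2.1.1.2.1
  have hl : B a₀ a₁ = l := coeff_eq mul B hcomm hassoc a₁ a₀ β γ l haa1 hn₁ hb haβ haγ
  have hl' : B a₁ a₀ = l' := coeff_eq mul B hcomm hassoc a₀ a₁ β' γ' l' haa0 hn₀ hb' haβ' haγ'
  have hll : l' = l := by rw [← hl, ← hl', hsymm]
  subst hll
  obtain ⟨σ, hσ⟩ : ∃ σ : V, mul a₀ a₁ = σ := ⟨_, rfl⟩
  have hσ' : mul a₁ a₀ = σ := by rw [hcomm a₁ a₀, hσ]
  obtain ⟨s1a, s1b⟩ := side1 mul a₁ a₀ β γ l' haa1 hb haβ haγ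
  obtain ⟨s1a', s1b'⟩ := side1 mul a₀ a₁ β' γ' l' haa0 hb' haβ' haγ'
  rw [hσ'] at s1b
  rw [hσ] at s1b'
  obtain ⟨f00, f0q, fqq⟩ := fusion_rules mul B μ₁ a₁ h₁
  obtain ⟨f00', f0q', fqq'⟩ := fusion_rules mul B μ₀ a₀ h₀
  have q1 := quarter mul hcomm a₁ a₀ β γ l' haa1 haa0 hb haβ haγ f00 f0q fqq
  have q2 := quarter mul hcomm a₀ a₁ β' γ' l' haa0 haa1 hb' haβ' haγ' f00' f0q' fqq'
  have t1 := side2 mul hcomm a₁ a₀ β γ σ l' haa1 hb hσ' s1a s1b s1b' q1
  have t2 := side2 mul hcomm a₀ a₁ β' γ' σ l' haa0 hb' hσ s1a' s1b' s1b q2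
  have hl01 : l' = 0 ∨ l' = 1 / 8 := by
    have h : (l' * (1 - 8 * l')) • (a₀ - a₁) = 0 := by
      have e : (l' * (1 - 8 * l')) • (a₀ - a₁) =
          ((3 * l') • a₀ + (8 * l' ^ 2 + 2 * l') • a₁ + (4 * l' - 1) • σ) -
            ((3 * l') • a₁ + (8 * l' ^ 2 + 2 * l') • a₀ + (4 * l' - 1) • σ) := by module
      rw [e, ← t1, ← t2, sub_self]
    rcases smul_eq_zero.mp h with h | h
    · rcases mul_eq_zero.mp h with h | h
      · left; exact h
      · right; linarith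
    · exact absurd (sub_eq_zero.mp h) hne
  rw [hσ]
  rcases hl01 with h0 | h8
  · left
    refine ⟨by rw [hl, h0], ?_⟩
    by_contra hσ0
    have hpos' := hpos σ hσ0
    have e1 : B a₀ (mul a₁ σ) = B σ σ := by
      have := hassoc a₀ a₁ σ
      rw [hσ] at this
      exact this
    have e2 : B a₀ σ = l' := by
      have := hassoc a₀ a₀ a₁
      rw [hσ, haa0, hl] at this
      exact this
    rw [s1b, map_add, map_smul, map_smul, hl, e2, h0] at e1
    simp at e1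
    rw [← e1] at hpos'
    exact lt_irrefl _ hpos'
  · right
    have hσσ : mul σ σ = (1 / 16 : ℝ) •
        ((3 * l') • a₀ + (8 * l' ^ 2 + 2 * l') • a₁ + (4 * l' - 1) • σ) := by
      rw [← t1]; module
    have hσa0 : mul σ a₀ = (3 * l' / 4) • a₀ + (1 / 4 : ℝ) • σ := by rw [hcomm σ a₀, s1b']
    have hσa1 : mul σ a₁ = (3 * l' / 4) • a₁ + (1 / 4 : ℝ) • σ := by rw [hcomm σ a₁, s1b]
    subst h8
    refine ⟨hl, ?_, ?_, ?_⟩
    · simp only [map_add, map_sub, map_smul, LinearMap.add_apply, LinearMap.sub_apply,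
        LinearMap.smul_apply, haa0, haa1, hσ, hσ', s1b, s1b', hσa0, hσa1, hσσ]
      module
    · simp only [map_add, map_sub, map_smul, haa0, hσ, s1b']
      module
    · simp only [map_add, map_sub, map_smul, haa1, hσ', s1b]
      module

end Cfsg.Agent.S5545
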