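-- Statement S0732: transitive groups of degree `p + 1` and order `(p + 1) p d`, `d < p`.
import Cfsg.Statements.S0732
import Cfsg.Agent.S0741
import Cfsg.Agent.S0885
import Cfsg.Agent.Helper12.Sharp2
import Cfsg.Agent.Helper57.ListSub
import Cfsg.Agent.Helper59.DegP1
import Cfsg.Agent.Helper59.DegP1PGL
import Cfsg.Agent.Helper59.DegP1Aff
import Cfsg.Agent.Helper66.ZassPSL
import Cfsg.Agent.Helper71.ZassOdd

set_option autoImplicit false
open Cfsg

namespace Cfsg.Agent.S0732

open MulAction Cfsg.Agent.Helper59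

universe u v

/-- Two distinct orbits of the (semiregular) two-point stabiliser on the remaining points. -/
theorem two_mul_card_le {G : Type u} [Group G] {α : Type v} [MulAction G α] [Finite G]
    [Fintype α] {a b c c' : α}
    (s3 : ∀ (g : G) (x y z : α), x ≠ y → x ≠ z → y ≠ z → g • x = x → g • y = y → g • z = z →
      g = 1)
    (hab : a ≠ b) (hca : c ≠ a) (hcb : c ≠ b) (hca' : c' ≠ a) (hcb' : c' ≠ b)
    (hcc' : ∀ h : G, h • a = a → h • b = b → h • c ≠ c') :
    2 * Nat.card ↥(stabilizer G a ⊓ stabilizer G b) + 2 ≤ Fintype.card α := by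
  classical
  have hmemH : ∀ h : G, h ∈ stabilizer G a ⊓ stabilizer G b ↔ h • a = a ∧ h • b = b := by
    intro h
    rw [Subgroup.mem_inf, mem_stabilizer_iff, mem_stabilizer_iff]
  have hHa : ∀ h : ↥(stabilizer G a ⊓ stabilizer G b), (h : G) • a = a :=
    fun h => ((hmemH h).mp h.2).1
  have hHb : ∀ h : ↥(stabilizer G a ⊓ stabilizer G b), (h : G) • b = b :=
    fun h => ((hmemH h).mp h.2).2
  let pt : Bool → α := fun β => if β then c' else c
  have hpta : ∀ β, pt β ≠ a := by
    intro β; cases β <;> simp [pt, hca, hca']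
  have hptb : ∀ β, pt β ≠ b := by
    intro β; cases β <;> simp [pt, hcb, hcb']
  let f : Option (Option (Bool × ↥(stabilizer G a ⊓ stabilizer G b))) → α := fun o =>
    o.elim a (fun o' => o'.elim b (fun x => (x.2 : G) • pt x.1))
  have hfa : ∀ x : Bool × ↥(stabilizer G a ⊓ stabilizer G b), (x.2 : G) • pt x.1 ≠ a := by
    intro x h
    exact hpta x.1 (smul_left_cancel (x.2 : G) (h.trans (hHa x.2).symm))
  have hfb : ∀ x : Bool × ↥(stabilizer G a ⊓ stabilizer G b), (x.2 : G) • pt x.1 ≠ b := by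
    intro x h
    exact hptb x.1 (smul_left_cancel (x.2 : G) (h.trans (hHb x.2).symm))
  have hfx : ∀ x y : Bool × ↥(stabilizer G a ⊓ stabilizer G b),
      (x.2 : G) • pt x.1 = (y.2 : G) • pt y.1 → x = y := by
    rintro ⟨β, h⟩ ⟨β', h'⟩ hxy
    simp only at hxy
    have hu : ((h' : G)⁻¹ * h) • pt β = pt β' := by
      rw [mul_smul, hxy, inv_smul_smul]
    have hua : ((h' : G)⁻¹ * h) • a = a := by
      rw [mul_smul, hHa, inv_smul_eq_iff, hHa]
    have hub : ((h' : G)⁻¹ * h) • b = b := by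
      rw [mul_smul, hHb, inv_smul_eq_iff, hHb]
    have hββ : β = β' := by
      cases β <;> cases β'
      · rfl
      · exact absurd (by simpa [pt] using hu) (hcc' _ hua hub)
      · exfalso
        have hu' : ((h' : G)⁻¹ * h)⁻¹ • c = c' := by
          rw [inv_smul_eq_iff]
          simpa [pt] using hu.symm
        refine hcc' _ ?_ ?_ hu'
        · rw [inv_smul_eq_iff, hua]
        · rw [inv_smul_eq_iff, hub]
      · rfl
    subst hββ
    have h1 := s3 _ a b (pt β) hab (hpta β).symm (hptb β).symm hua hub hu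
    have h2 : h = h' := Subtype.ext (inv_mul_eq_one.mp h1).symm
    rw [h2]
  have hf : Function.Injective f := by
    intro o o' h
    rcases o with _ | _ | x <;> rcases o' with _ | _ | y
    · rfl
    · exact absurd h hab
    · exact absurd h.symm (hfa y)
    · exact absurd h.symm hab
    · rfl
    · exact absurd h.symm (hfb y)
    · exact absurd h (hfa x)
    · exact absurd h (hfb x)
    · rw [hfx x y h]
  have h1 := Nat.card_le_card_of_injective f hf
  rw [Finite.card_option, Finite.card_option, Nat.card_prod, Nat.card_eq_fintype_card (α := Bool),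
    Fintype.card_bool, Nat.card_eq_fintype_card (α := α)] at h1
  exact h1

/-- A transitive permutation group on `p + 1` points (`p` prime) of order `(p+1) p d` with `d < p` is isomorphic to `PGL(2,p)` with `d = p - 1`, or to `PSL(2,p)` with `2d = p - 1`, or else `p + 1 = 2^q` for a prime `q`, `d = 1` or `d = q`, and the group is permutation-isomorphic to a group of semi-affine maps `x ↦ a φ(x) + b` of the field with `2^q` elements. -/
theorem result {α : Type*} [Fintype α] [DecidableEq α] {p d : ℕ} (hp : p.Prime) (hα : Fintype.card α = p + 1) (G : Subgroup (Equiv.Perm α)) [MulAction.IsPretransitive G α] (hG : Nat.card G = (p + 1) * p * d) (hd : d < p) : (d = p - 1 ∧ Nonempty (G ≃* Matrix.ProjGenLinGroup (Fin 2) (ZMod p))) ∨ (2 * d = p - 1 ∧ Nonempty (G ≃* Matrix.ProjectiveSpecialLinearGroup (Fin 2) (ZMod p))) ∨ (∃ q : ℕ, q.Prime ∧ p + 1 = 2 ^ q ∧ (d = 1 ∨ d = q) ∧ ∃ e : α ≃ GaloisField 2 q, ∀ g : G, (e.symm.trans (((g : Equiv.Perm α)).trans e)) ∈ Cfsg.semiaffineGroup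 (GaloisField 2 q)) := by
  classical
  have hp2le := hp.two_le
  obtain ⟨a, b, c, hab, hac, hbc⟩ := Fintype.two_lt_card_iff.mp (show 2 < Fintype.card α by omega)
  have hca := hac.symm
  have hcb := hbc.symm
  obtain ⟨K, hKcard, C0, hHd⟩ := DegP1.exists_ctx0 hp hα hG hd hab
  have hmemH : ∀ h : G, h ∈ stabilizer G a ⊓ stabilizer G b ↔ h • a = a ∧ h • b = b := by
    intro h
    rw [Subgroup.mem_inf, mem_stabilizer_iff, mem_stabilizer_iff]
  by_cases htr : ∀ y : α, y ≠ a → y ≠ b → ∃ h : G, h • a = a ∧ h • b = b ∧ h • c = y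
  · -- sharply 3-transitive: `PGL₂(p)`
    obtain ⟨hH, E⟩ := DegP1.pgl_of_sharp3 C0 hp hα hKcard hca hcb (by rw [hHd]; exact hG) htr
    exact Or.inl ⟨by rw [← hHd, hH], E⟩
  right
  push_neg at htr
  obtain ⟨c', hca', hcb', hcc'⟩ := htr
  have h2d := two_mul_card_le C0.s3 hab hca hcb hca' hcb' hcc'
  rw [hHd, hα] at h2d
  have hd0 : 0 < d := by
    rcases Nat.eq_zero_or_pos d with h | h
    · rw [h, mul_zero] at hG
      exact absurd hG Nat.card_pos.ne'
    · exact h
  have hp2 : p ≠ 2 := by omega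
  -- the regular normal subgroup case
  have hreg : ∀ N : Subgroup G, N.Normal → (∀ x y : α, ∃ g ∈ N, g • x = y) →
      (∀ g ∈ N, ∀ x : α, g • x = x → g = 1) →
      (∃ q : ℕ, q.Prime ∧ p + 1 = 2 ^ q ∧ (d = 1 ∨ d = q) ∧ ∃ e : α ≃ GaloisField 2 q,
        ∀ g : G, (e.symm.trans (((g : Equiv.Perm α)).trans e)) ∈
          Cfsg.semiaffineGroup (GaloisField 2 q)) := by
    intro N hNn hNt hNs
    obtain ⟨q, hq, hpq, hdq, e, haff⟩ :=
      DegP1.affine_of_regular C0 hp hp2 hα hKcard N hNn hNt hNs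
    rw [hHd] at hdq
    refine ⟨q, hq, hpq, (Nat.dvd_prime hq).mp hdq, e, fun g => ?_⟩
    obtain ⟨u, v, φ, hg⟩ := haff g
    refine ⟨u, v, φ, fun x => ?_⟩
    have := hg (e.symm x)
    rw [Equiv.apply_symm_apply] at this
    rw [← this]
    rfl
  by_cases hN : ∃ N : Subgroup G, N.Normal ∧ (∀ x y : α, ∃ g ∈ N, g • x = y) ∧
      (∀ g ∈ N, ∀ x : α, g • x = x → g = 1)
  · obtain ⟨N, hNn, hNt, hNs⟩ := hN
    exact Or.inr (hreg N hNn hNt hNs)
  by_cases hd1 : d = 1
  · -- sharply 2-transitive: there is a regular normal subgroup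
    exfalso
    apply hN
    have hsharp : ∀ (g : G) (x y : α), x ≠ y → g • x = x → g • y = y → g = 1 := by
      intro g x y hxy hgx hgy
      obtain ⟨g₀, hg₀a, hg₀b⟩ := C0.t2 a b x y hab hxy
      have h1 : (g₀⁻¹ * g * g₀) ∈ stabilizer G a ⊓ stabilizer G b := by
        rw [hmemH]
        constructor
        · rw [mul_smul, mul_smul, hg₀a, hgx, inv_smul_eq_iff, hg₀a]
        · rw [mul_smul, mul_smul, hg₀b, hgy, inv_smul_eq_iff, hg₀b]
      haveI : Subsingleton ↥(stabilizer G a ⊓ stabilizer G b) := by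
        rw [← Finite.card_le_one_iff_subsingleton, hHd, hd1]
      have h2 : (⟨g₀⁻¹ * g * g₀, h1⟩ : ↥(stabilizer G a ⊓ stabilizer G b)) = 1 :=
        Subsingleton.elim _ _
      have h3 : g₀⁻¹ * g * g₀ = 1 := congrArg Subtype.val h2
      calc g = g₀ * (g₀⁻¹ * g * g₀) * g₀⁻¹ := by group
        _ = 1 := by rw [h3]; group
    obtain ⟨p', j, N, -, -, -, hNn, -, -, hNt, hNs, -⟩ :=
      Cfsg.Agent.Helper12.sharp2_main (G := G) (α := α) inferInstance hsharp (by omega)
        (by rw [hG, hα, hd1]; simp)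
    exact ⟨N, hNn, hNt, hNs⟩
  -- Zassenhaus group
  left
  have hZ : Cfsg.IsZassenhausGroup G α := by
    refine ⟨inferInstance, ?_, ?_, ?_, ?_⟩
    · rw [MulAction.is_two_pretransitive_iff]
      intro x y x' y' hxy hxy'
      exact C0.t2 x y x' y' hxy hxy'
    · intro g x y z hxy hyz hxz hx hy hz
      exact C0.s3 g x y z hxy hxz hyz hx hy hz
    · haveI : Nontrivial ↥(stabilizer G a ⊓ stabilizer G b) := by
        rw [← Finite.one_lt_card_iff_nontrivial, hHd]
        omega
      obtain ⟨h, hh⟩ := exists_ne (1 : ↥(stabilizer G a ⊓ stabilizer G b))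
      exact ⟨h, fun h1 => hh (Subtype.ext h1), a, b, hab, ((hmemH h).mp h.2).1,
        ((hmemH h).mp h.2).2⟩
    · intro N hNn hNt
      by_contra hcon
      push_neg at hcon
      apply hN
      refine ⟨N, hNn, ?_, ?_⟩
      · intro x y
        obtain ⟨n, hn⟩ := exists_smul_eq N x y
        exact ⟨n, n.2, hn⟩
      · intro g hg x hx
        have h1 : (⟨g, hg⟩ : N) ∈ stabilizer N x := by
          rw [mem_stabilizer_iff]
          exact hx
        rw [hcon x, Subgroup.mem_bot] at h1
        exact congrArg Subtype.val h1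
  have hle : p - 1 ≤ 2 * d := by
    rcases Nat.even_or_odd d with heven | hodd
    · have := Cfsg.Agent.S0741.result hZ hab (by rw [hHd]; exact heven)
      rw [hα, hHd] at this
      omega
    · have hKle : K ≤ stabilizer G a := fun k hk => mem_stabilizer_iff.mpr (C0.Ka k hk)
      have hKfix : ∀ u ∈ K, u ≠ 1 → ∀ c : α, u • c = c → c = a := by
        intro u hu hu1 x hx
        by_contra hxa
        exact hu1 (C0.Ks u hu x hxa hx)
      rcases Cfsg.Agent.S0885.result hZ hab p d hα hHd hodd K hKle (by rw [hKcard, hα])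
        hKfix with h | ⟨hK2, -, -⟩
      · exact h
      · exfalso
        rcases hK2.card_eq_or_dvd with h | h
        · rw [hKcard] at h
          omega
        · rw [hKcard] at h
          exact hp2 ((Nat.prime_dvd_prime_iff_eq Nat.prime_two hp).mp h).symm
  have h2d' : 2 * d = p - 1 := by omega
  refine ⟨h2d', ?_⟩
  have hdeg : 2 * Nat.card ↥(stabilizer G a ⊓ stabilizer G b) + 2 = Fintype.card α := by
    rw [hHd, hα]; omega
  have hpsl : ∃ (p' f : ℕ) (K' : Type) (_ : Field K') (_ : Fintype K'), p'.Prime ∧ p' ≠ 2 ∧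
      Fintype.card K' = p' ^ f ∧ Fintype.card α = p' ^ f + 1 ∧
      Nonempty (G ≃* Matrix.ProjectiveSpecialLinearGroup (Fin 2) K') := by
    rcases Nat.even_or_odd d with heven | hodd
    · exact Cfsg.Agent.Helper66.zass_psl hZ hab (by rw [hHd]; exact heven) hdeg
    · exact Cfsg.Agent.Helper71.ZassOdd.zass_psl_odd hZ hab (by rw [hHd]; exact hodd) hdeg
  obtain ⟨p', f, K', iK', iFK', -, -, hK'card, hαK', ⟨E⟩⟩ := hpsl
  have hK'p : Fintype.card K' = p := by
    rw [hK'card]; omega
  exact ⟨E.trans (Cfsg.Agent.Helper57.pslCongr (ZMod.ringEquivOfPrime K' hp hK'p).symm)⟩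

end Cfsg.Agent.S0732
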