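import Cfsg.Statements.S4687
import Cfsg.Agent.Helper77.AbelianPair

set_option autoImplicit false
open Cfsg

namespace Cfsg.Agent.S4687

/-- Fix a prime p and a maximal ideal M of the algebraic integers containing p, and a p-block B of the finite group G with maximal Brauer pair (P, e), P abelian. Then B is nilpotent if and only if its inertial quotient is trivial: every element of N_G(P) stabilizing e centralizes P. -/
theorem result {G : Type*} [Group G] [Fintype G] (p : ℕ) [Fact p.Prime] (M : Ideal Cfsg.AlgInt) (hM : Cfsg.IsPModular p M) (B : Set (Cfsg.IrrCharacter G)) (P : Subgroup G) (e : Set (Cfsg.IrrCharacter (Subgroup.centralizer (P : Set G)))) (hmax : Cfsg.IsMaximalBrauerPair p M B P e) (hab : ∀ x ∈ P, ∀ y ∈ P, x * y = y * x) : Cfsg.IsNilpotentBlock p M B ↔ ∀ x : G, x ∈ Subgroup.normalizer (P : Set G) → Cfsg.StabilizesBlock (Subgroup.centralizer (P : Set G)) e x → x ∈ Subgroup.centralizer (P : Set G) := by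
  classical
  constructor
  · intro hnil x hxN hxst
    have hT : ∀ y : G, y ∈ Subgroup.normalizer (P : Set G)
        ⊓ Cfsg.Agent.Helper77.stabSubgroup (Subgroup.centralizer (P : Set G)) e ↔
        y ∈ Subgroup.normalizer (P : Set G) ∧
          Cfsg.StabilizesBlock (Subgroup.centralizer (P : Set G)) e y := fun y => Iff.rfl
    obtain ⟨F, hF, hFc⟩ := Cfsg.Agent.Helper77.exists_block_of_isStabilizer hM hmax.1.1 _ hT
    have hD := Cfsg.Agent.Helper77.isDefectGroup_stabilizer_of_isMaximalBrauerPair hM hmax _ hT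
      hF hFc
    have hnil' : ∀ x ∈ Subgroup.normalizer (P : Set G)
        ⊓ Cfsg.Agent.Helper77.stabSubgroup (Subgroup.centralizer (P : Set G)) e,
        Cfsg.IsPRegular p x → x ∈ Subgroup.centralizer (P : Set G) := fun x hx hreg =>
      hnil.2 P e hmax.1 x ((hT x).1 hx).1 ((hT x).1 hx).2 hreg
    obtain ⟨c, hc, d, hd, hxcd⟩ := Cfsg.Agent.Helper77.stabilizer_eq_centralizer_mul_defect hM
      hmax.1.1.2 _ hT hnil' hF hFc hD ⟨x, (hT x).2 ⟨hxN, hxst⟩⟩
    have hdP : (d : G) ∈ P := Subgroup.mem_subgroupOf.mp hd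
    have hdC : (d : G) ∈ Subgroup.centralizer (P : Set G) :=
      Subgroup.mem_centralizer_iff.mpr (fun u hu => hab u hu d hdP)
    have e1 : x = (c : G) * (d : G) := congrArg Subtype.val hxcd
    rw [e1]
    exact (Subgroup.centralizer (P : Set G)).mul_mem hc hdC
  · intro h
    refine ⟨hmax.1.2.1, fun Q₀ f₀ hQf x₀ hx₀N hx₀st _ => ?_⟩
    obtain ⟨g, hg⟩ := Cfsg.Agent.Helper77.exists_subpairLE_conj_of_isMaximalBrauerPair hM B P Q₀
      e f₀ hmax hQf
    have e0 : g⁻¹ * (g * x₀ * g⁻¹) * g = x₀ := by group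
    have hxN : g * x₀ * g⁻¹ ∈ Subgroup.normalizer
        ((Q₀.map (MulAut.conj g).toMonoidHom : Subgroup G) : Set G) :=
      (Cfsg.Agent.Helper77.mem_normalizer_map_conj_iff Q₀ g _).2 (by rwa [e0])
    have hxst : Cfsg.StabilizesBlock (Subgroup.centralizer
        ((Q₀.map (MulAut.conj g).toMonoidHom : Subgroup G) : Set G)) (Cfsg.conjBlock Q₀ g f₀)
        (g * x₀ * g⁻¹) :=
      (Cfsg.Agent.Helper77.stabilizesBlock_conjBlock_iff Q₀ g f₀ _ hxN).2 (by rwa [e0])
    obtain ⟨y, ⟨hyN, hyst⟩, c, hc, hxyc⟩ :=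
      Cfsg.Agent.Helper77.exists_stabilizer_mul_centralizer hM hmax hab hg hxN hxst
    have hQP : Q₀.map (MulAut.conj g).toMonoidHom ≤ P :=
      Cfsg.Agent.Helper75.subpairLE_fst_le (a := ⟨_, _⟩) (b := ⟨P, e⟩) hg
    have hyC : y ∈ Subgroup.centralizer
        ((Q₀.map (MulAut.conj g).toMonoidHom : Subgroup G) : Set G) :=
      Subgroup.centralizer_le (by exact_mod_cast hQP) (h y hyN hyst)
    have hx : g * x₀ * g⁻¹ ∈ Subgroup.centralizer
        ((Q₀.map (MulAut.conj g).toMonoidHom : Subgroup G) : Set G) := by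
      rw [hxyc]
      exact Subgroup.mul_mem _ hyC hc
    exact (Cfsg.Agent.Helper77.conj_mem_centralizer_map_iff Q₀ g x₀).1 hx

end Cfsg.Agent.S4687
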