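import Cfsg.Statements.S0950
import Mathlib
import Cfsg.Agent.Helper61.Q8Rank
import Cfsg.Agent.Helper33.Frobenius

set_option autoImplicit false
open Cfsg

namespace Cfsg.Agent.S0950

open Subgroup
open Cfsg.Agent.Helper61

/-- The three classes `{±i}`, `{±j}`, `{±k}` of elements of order 4 of `Q8` (junk on `±1`). -/
def q8cls : QuaternionGroup 2 → ℕ
  | .a _ => 0
  | .xa i => 1 + i.val % 2

theorem q8cls_le (q : QuaternionGroup 2) : q8cls q ≤ 2 := by
  rcases q with i | i
  · simp [q8cls]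
  · simp only [q8cls]
    omega

theorem q8cls_eq_iff {q q' : QuaternionGroup 2} (hq0 : q ≠ .a 0) (hq2 : q ≠ .a 2)
    (hq0' : q' ≠ .a 0) (hq2' : q' ≠ .a 2) : q8cls q = q8cls q' ↔ (q' = q ∨ q' = q⁻¹) := by
  revert hq0 hq2 hq0' hq2'
  rcases q8_cases q with rfl | rfl | rfl | rfl | rfl | rfl | rfl | rfl <;>
    rcases q8_cases q' with rfl | rfl | rfl | rfl | rfl | rfl | rfl | rfl <;> decide

theorem q8_ne_of_orderOf_four {q : QuaternionGroup 2} (h : orderOf q = 4) :
    q ≠ .a 0 ∧ q ≠ .a 2 := by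
  constructor
  · rintro rfl
    have : orderOf (QuaternionGroup.a 0 : QuaternionGroup 2) = 1 := by
      rw [← QuaternionGroup.one_def]
      exact orderOf_one
    omega
  · rintro rfl
    rw [q8_orderOf_a_two] at h
    omega

section

variable {G : Type*} [Group G]

/-- The class of an element of `S` (junk outside `S`). -/
noncomputable def cS (S : Sylow 2 G) (e : (S : Subgroup G) ≃* QuaternionGroup 2) (x : G) : ℕ :=
  open Classical in if hx : x ∈ (S : Subgroup G) then q8cls (e ⟨x, hx⟩) else 0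

theorem cS_le (S : Sylow 2 G) (e : (S : Subgroup G) ≃* QuaternionGroup 2) (x : G) :
    cS S e x ≤ 2 := by
  unfold cS
  split_ifs
  · exact q8cls_le _
  · omega

theorem cS_eq_iff (S : Sylow 2 G) (e : (S : Subgroup G) ≃* QuaternionGroup 2) {x y : G}
    (hx : x ∈ (S : Subgroup G)) (hy : y ∈ (S : Subgroup G)) (hx4 : orderOf x = 4)
    (hy4 : orderOf y = 4) : cS S e x = cS S e y ↔ (y = x ∨ y = x⁻¹) := by
  have h1 : orderOf (e ⟨x, hx⟩) = 4 := by rw [MulEquiv.orderOf_eq, Subgroup.orderOf_mk]; exact hx4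
  have h2 : orderOf (e ⟨y, hy⟩) = 4 := by rw [MulEquiv.orderOf_eq, Subgroup.orderOf_mk]; exact hy4
  obtain ⟨hq0, hq2⟩ := q8_ne_of_orderOf_four h1
  obtain ⟨hq0', hq2'⟩ := q8_ne_of_orderOf_four h2
  unfold cS
  rw [dif_pos hx, dif_pos hy, q8cls_eq_iff hq0 hq2 hq0' hq2']
  constructor
  · rintro (h | h)
    · left
      exact congrArg Subtype.val (e.injective h)
    · right
      have : (⟨y, hy⟩ : (S : Subgroup G)) = (⟨x, hx⟩ : (S : Subgroup G))⁻¹ :=
        e.injective (by rw [h, map_inv])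
      exact congrArg Subtype.val this
  · rintro (h | h)
    · left
      subst h
      rfl
    · right
      subst h
      rw [← map_inv]
      rfl

/-- An element of odd order commutes with `x` as soon as its square does. -/
theorem commute_of_sq_of_odd {g x : G} (hodd : Odd (orderOf g)) (h : g ^ 2 * x = x * g ^ 2) :
    g * x = x * g := by
  have h1 : g ^ 2 ∈ centralizer ({x} : Set G) := by
    rw [mem_centralizer_iff]
    intro y hy
    rw [Set.mem_singleton_iff] at hy
    subst hy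
    exact h.symm
  have h2 := mem_of_sq_mem_of_odd hodd h1
  rw [mem_centralizer_iff] at h2
  exact (h2 x rfl).symm

/-- A subgroup of order 4 of `S ≅ Q8` is generated by an element of order 4. -/
theorem exists_gen [Finite G] (S : Sylow 2 G) (e : (S : Subgroup G) ≃* QuaternionGroup 2)
    (A : Subgroup G) (hA : A ≤ S) (hA4 : Nat.card A = 4) :
    ∃ a ∈ (S : Subgroup G), orderOf a = 4 ∧ A = zpowers a := by
  have hS := sylow_q8_unique_invol S e
  have hcyc : IsCyclic A := by
    apply isCyclic_of_card_dvd_four (by rw [hA4])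
    intro x y hx hy
    have := hS (x : G) (y : G) (hA x.2) (hA y.2) (by rw [Subgroup.orderOf_coe]; exact hx)
      (by rw [Subgroup.orderOf_coe]; exact hy)
    exact Subtype.ext this
  obtain ⟨g, hg⟩ := hcyc.exists_generator
  have hg4 : orderOf g = 4 := by rw [orderOf_eq_card_of_forall_mem_zpowers hg, hA4]
  refine ⟨g, hA g.2, by rw [Subgroup.orderOf_coe]; exact hg4, ?_⟩
  apply le_antisymm
  · intro y hy
    obtain ⟨k, hk⟩ := mem_zpowers_iff.mp (hg ⟨y, hy⟩)
    rw [mem_zpowers_iff]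
    refine ⟨k, ?_⟩
    have := congrArg Subtype.val hk
    simpa using this
  · rw [zpowers_le]
    exact g.2

/-- Orders of the elements of `S ≅ Q8`. -/
theorem orderOf_cases (S : Sylow 2 G) (e : (S : Subgroup G) ≃* QuaternionGroup 2) {x : G}
    (hx : x ∈ (S : Subgroup G)) : x = 1 ∨ orderOf x = 2 ∨ orderOf x = 4 := by
  by_cases h0 : e ⟨x, hx⟩ = .a 0
  · left
    have : (⟨x, hx⟩ : (S : Subgroup G)) = 1 := e.injective (by rw [h0, map_one]; rfl)
    exact congrArg Subtype.val this
  · by_cases h2 : e ⟨x, hx⟩ = .a 2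
    · right; left
      rw [← Subgroup.orderOf_mk x hx, ← MulEquiv.orderOf_eq e, h2]
      exact q8_orderOf_a_two
    · right; right
      rw [← Subgroup.orderOf_mk x hx, ← MulEquiv.orderOf_eq e]
      exact q8_orderOf_eq_four h0 h2

/-- An element of odd order that preserves the class of `x` centralizes `x`. -/
theorem commute_of_cls (S : Sylow 2 G) (e : (S : Subgroup G) ≃* QuaternionGroup 2) {g x : G}
    (hodd : Odd (orderOf g)) (hx : x ∈ (S : Subgroup G)) (hgx : g * x * g⁻¹ ∈ (S : Subgroup G))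
    (hx4 : orderOf x = 4) (hc : cS S e (g * x * g⁻¹) = cS S e x) : g * x = x * g := by
  have hgx4 : orderOf (g * x * g⁻¹) = 4 := by rw [Helper49.orderOf_conj_eq']; exact hx4
  rcases (cS_eq_iff S e hx hgx hx4 hgx4).mp hc.symm with h | h
  · exact mul_inv_eq_iff_eq_mul.mp h
  · apply commute_of_sq_of_odd hodd
    have h2 : g ^ 2 * x * (g ^ 2)⁻¹ = x := by
      calc g ^ 2 * x * (g ^ 2)⁻¹ = g * (g * x * g⁻¹) * g⁻¹ := by rw [pow_two]; group
        _ = g * x⁻¹ * g⁻¹ := by rw [h]
        _ = (g * x * g⁻¹)⁻¹ := by group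
        _ = x := by rw [h, inv_inv]
    exact mul_inv_eq_iff_eq_mul.mp h2

/-- If an element `g` of odd order moves the class of `x`, then the three classes of elements of
order 4 of `S` are those of `x`, `g x g⁻¹`, `g² x g⁻²`. -/
theorem three_classes (S : Sylow 2 G) (e : (S : Subgroup G) ≃* QuaternionGroup 2) {g x : G}
    (hodd : Odd (orderOf g)) (hx : x ∈ (S : Subgroup G)) (hx4 : orderOf x = 4)
    (hx' : g * x * g⁻¹ ∈ (S : Subgroup G)) (hx'' : g * (g * x * g⁻¹) * g⁻¹ ∈ (S : Subgroup G))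
    (hne : cS S e (g * x * g⁻¹) ≠ cS S e x) {y : G} (hy : y ∈ (S : Subgroup G))
    (hy4 : orderOf y = 4) :
    ∃ i : ℕ, y = g ^ i * x * (g ^ i)⁻¹ ∨ y = (g ^ i * x * (g ^ i)⁻¹)⁻¹ := by
  have hx'4 : orderOf (g * x * g⁻¹) = 4 := by rw [Helper49.orderOf_conj_eq']; exact hx4
  have hx''4 : orderOf (g * (g * x * g⁻¹) * g⁻¹) = 4 := by
    rw [Helper49.orderOf_conj_eq']; exact hx'4
  have h1 : cS S e (g * (g * x * g⁻¹) * g⁻¹) ≠ cS S e (g * x * g⁻¹) := by
    intro h
    rcases (cS_eq_iff S e hx' hx'' hx'4 hx''4).mp h.symm with h | h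
    · have h3 : g * x * g⁻¹ = x := by
        have := congrArg (fun t => g⁻¹ * t * g) h
        beta_reduce at this
        have e1 : g⁻¹ * (g * (g * x * g⁻¹) * g⁻¹) * g = g * x * g⁻¹ := by group
        have e2 : g⁻¹ * (g * x * g⁻¹) * g = x := by group
        rw [e1, e2] at this
        exact this
      exact hne (by rw [h3])
    · have h3 : g * x * g⁻¹ = x⁻¹ := by
        have := congrArg (fun t => g⁻¹ * t * g) h
        beta_reduce at this
        have e1 : g⁻¹ * (g * (g * x * g⁻¹) * g⁻¹) * g = g * x * g⁻¹ := by group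
        have e2 : g⁻¹ * (g * x * g⁻¹)⁻¹ * g = x⁻¹ := by group
        rw [e1, e2] at this
        exact this
      exact hne ((cS_eq_iff S e hx hx' hx4 hx'4).mpr (Or.inr h3)).symm
  have h2 : cS S e (g * (g * x * g⁻¹) * g⁻¹) ≠ cS S e x := by
    intro h
    have hodd2 : Odd (orderOf (g ^ 2)) := Odd.of_dvd_nat hodd (orderOf_pow_dvd 2)
    have e1 : g ^ 2 * x * (g ^ 2)⁻¹ = g * (g * x * g⁻¹) * g⁻¹ := by rw [pow_two]; group
    have h3 : g ^ 2 * x = x * g ^ 2 :=
      commute_of_cls S e hodd2 hx (by rw [e1]; exact hx'') hx4 (by rw [e1]; exact h)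
    have h4 : g * x = x * g := commute_of_sq_of_odd hodd h3
    apply hne
    rw [h4, mul_inv_cancel_right]
  have b0 := cS_le S e y
  have b1 := cS_le S e x
  have b2 := cS_le S e (g * x * g⁻¹)
  have b3 := cS_le S e (g * (g * x * g⁻¹) * g⁻¹)
  have hcases : cS S e x = cS S e y ∨ cS S e (g * x * g⁻¹) = cS S e y ∨
      cS S e (g * (g * x * g⁻¹) * g⁻¹) = cS S e y := by omega
  rcases hcases with h | h | h
  · refine ⟨0, ?_⟩
    simpa using (cS_eq_iff S e hx hy hx4 hy4).mp h
  · refine ⟨1, ?_⟩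
    simpa using (cS_eq_iff S e hx' hy hx'4 hy4).mp h
  · refine ⟨2, ?_⟩
    have e1 : g ^ 2 * x * (g ^ 2)⁻¹ = g * (g * x * g⁻¹) * g⁻¹ := by rw [pow_two]; group
    rw [e1]
    exact (cS_eq_iff S e hx'' hy hx''4 hy4).mp h

end

/-- Let S be a Sylow 2-subgroup of the finite group G that is isomorphic to the quaternion group of order 8, and suppose S has no normal complement in G. Then any two subgroups of order 4 of S are conjugate by an element of the normalizer of S. -/
theorem result {G : Type*} [Group G] [Finite G] (S : Sylow 2 G) (e : (S : Subgroup G) ≃* QuaternionGroup 2) (hnc : ∀ N : Subgroup G, N.Normal → ¬ Subgroup.IsComplement' N (S : Subgroup G)) (A B : Subgroup G) (hA : A ≤ S) (hB : B ≤ S) (hA4 : Nat.card A = 4) (hB4 : Nat.card B = 4) : ∃ n ∈ Subgroup.normalizer ((S : Subgroup G) : Set G), B = A.map (MulAut.conj n).toMonoidHom := by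
  classical
  haveI : Fact (Nat.Prime 2) := ⟨Nat.prime_two⟩
  have hS := sylow_q8_unique_invol S e
  obtain ⟨a, haS, ha4, rfl⟩ := exists_gen S e A hA hA4
  obtain ⟨b, hbS, hb4, rfl⟩ := exists_gen S e B hB hB4
  by_contra hcon
  have hconjS : ∀ g ∈ normalizer ((S : Subgroup G) : Set G), ∀ x ∈ (S : Subgroup G),
      g * x * g⁻¹ ∈ (S : Subgroup G) := fun g hg x hx => (mem_normalizer_iff.mp hg x).mp hx
  have hK : ∀ g ∈ normalizer ((S : Subgroup G) : Set G), Odd (orderOf g) →
      ∀ x ∈ (S : Subgroup G), orderOf x = 4 → cS S e (g * x * g⁻¹) = cS S e x := by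
    intro g hg hodd x hx hx4
    by_contra hne
    have hx' := hconjS g hg x hx
    have hx'' := hconjS g hg _ hx'
    obtain ⟨i, hi⟩ := three_classes S e hodd hx hx4 hx' hx'' hne haS ha4
    obtain ⟨j, hj⟩ := three_classes S e hodd hx hx4 hx' hx'' hne hbS hb4
    apply hcon
    refine ⟨g ^ j * (g ^ i)⁻¹, mul_mem (pow_mem hg j) (inv_mem (pow_mem hg i)), ?_⟩
    rw [MonoidHom.map_zpowers]
    have hn : ∀ t : G, (MulAut.conj (g ^ j * (g ^ i)⁻¹)).toMonoidHom t =
        g ^ j * (g ^ i)⁻¹ * t * (g ^ j * (g ^ i)⁻¹)⁻¹ := fun t => rfl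
    rw [hn]
    have key : g ^ j * (g ^ i)⁻¹ * (g ^ i * x * (g ^ i)⁻¹) * (g ^ j * (g ^ i)⁻¹)⁻¹ =
        g ^ j * x * (g ^ j)⁻¹ := by group
    have key' : g ^ j * (g ^ i)⁻¹ * (g ^ i * x * (g ^ i)⁻¹)⁻¹ * (g ^ j * (g ^ i)⁻¹)⁻¹ =
        (g ^ j * x * (g ^ j)⁻¹)⁻¹ := by group
    rcases hi with rfl | rfl <;> rcases hj with rfl | rfl
    · rw [key]
    · rw [key, zpowers_inv]
    · rw [key', zpowers_inv]
    · rw [key']
  have hfrob : ∀ Q : Subgroup G, Q ≤ (S : Subgroup G) → ∀ g ∈ normalizer (Q : Set G),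
      (orderOf g).Coprime 2 → g ∈ centralizer (Q : Set G) := by
    intro Q hQ g hg hcop
    have hodd : Odd (orderOf g) := Nat.coprime_two_right.mp hcop
    have hconjQ : ∀ x ∈ Q, g * x * g⁻¹ ∈ Q := fun x hx => (mem_normalizer_iff.mp hg x).mp hx
    rw [mem_centralizer_iff]
    intro x hxQ
    have hxS := hQ hxQ
    have hgxQ := hconjQ x hxQ
    rcases orderOf_cases S e hxS with h1 | h2 | h4
    · subst h1
      simp
    · have h := hS (g * x * g⁻¹) x (hQ hgxQ) hxS
        (by rw [Helper49.orderOf_conj_eq']; exact h2) h2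
      exact (mul_inv_eq_iff_eq_mul.mp h).symm
    · by_cases hc : cS S e (g * x * g⁻¹) = cS S e x
      · exact (commute_of_cls S e hodd hxS (hQ hgxQ) h4 hc).symm
      · exfalso
        have hx'' := hconjQ _ hgxQ
        have hSQ : (S : Subgroup G) ≤ Q := by
          intro y hy
          rcases orderOf_cases S e hy with h1 | h2 | h4'
          · subst h1
            exact one_mem _
          · have hxx : orderOf (x * x) = 2 := by
              rw [← sq, orderOf_pow_of_dvd (by norm_num) (by rw [h4]; norm_num), h4]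
            rw [hS y (x * x) hy (mul_mem hxS hxS) h2 hxx]
            exact mul_mem hxQ hxQ
          · obtain ⟨i, hi⟩ := three_classes S e hodd hxS h4 (hQ hgxQ) (hQ hx'') hc hy h4'
            have hgi : g ^ i * x * (g ^ i)⁻¹ ∈ Q := by
              have hgin : g ^ i ∈ normalizer (Q : Set G) := pow_mem hg i
              exact (mem_normalizer_iff.mp hgin x).mp hxQ
            rcases hi with rfl | rfl
            · exact hgi
            · exact inv_mem hgi
        have hQS : Q = S := le_antisymm hQ hSQ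
        subst hQS
        exact hc (hK g hg hodd x hxS h4)
  obtain ⟨N, hN, hcomp⟩ := Helper33.frobenius_isComplement' S hfrob
  exact hnc N hN hcomp

end Cfsg.Agent.S0950
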