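import Cfsg.Statements.S5387
import Cfsg.Agent.Helper89.L34Cover
import Cfsg.Agent.Helper89.L34Mat
import Cfsg.Agent.Helper5.SLCard

set_option autoImplicit false
open Cfsg

namespace Cfsg.Agent.S5387

section card

variable {K : Type*} [Field K] [Fintype K]

/-- The centre of `SL(3, 4)` has order 3. (As in `S2550`, copied to keep this file independent.) -/
theorem card_center3 (hK : Fintype.card K = 4) :
    Nat.card (Subgroup.center (Matrix.SpecialLinearGroup (Fin 3) K)) = 3 := by
  have e := Matrix.SpecialLinearGroup.center_equiv_rootsOfUnity' (R := K) (0 : Fin 3)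
  rw [Nat.card_congr e.toEquiv]
  have key : ∀ k, k = 3 → Nat.card (rootsOfUnity k K) = 3 := by
    rintro k rfl
    have hcard : Nat.card Kˣ = 3 := by rw [Nat.card_units, Nat.card_eq_fintype_card, hK]
    have htop : rootsOfUnity 3 K = ⊤ := by
      rw [eq_top_iff]
      intro u _
      rw [mem_rootsOfUnity]
      have := pow_card_eq_one' (x := u)
      rwa [hcard] at this
    rw [htop, Subgroup.card_top, hcard]
  exact key _ (Fintype.card_fin 3)

/-- `PSL(3, 4)` has order 20160. -/
theorem card_psl3 (hK : Fintype.card K = 4) :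
    Nat.card (Matrix.ProjectiveSpecialLinearGroup (Fin 3) K) = 20160 := by
  have h0 := Subgroup.card_eq_card_quotient_mul_card_subgroup
    (Subgroup.center (Matrix.SpecialLinearGroup (Fin 3) K))
  rw [card_center3 hK] at h0
  have h2 := Cfsg.Agent.Helper5.card_SL_mul (F := K) (Fin 3)
  have h3 := Matrix.card_GL_field (𝔽 := K) 3
  rw [h3, hK, h0] at h2
  simp [Fin.prod_univ_three] at h2
  show Nat.card (Matrix.SpecialLinearGroup (Fin 3) K ⧸
    Subgroup.center (Matrix.SpecialLinearGroup (Fin 3) K)) = 20160
  omega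

end card

/-- Up to isomorphism there is at most one quasisimple group whose centre is elementary abelian of order 4 and whose central quotient is isomorphic to the projective special linear group of dimension 3 over the field with four elements: any two such groups are isomorphic. -/
theorem result {L₁ L₂ : Type*} [Group L₁] [Finite L₁] [Group L₂] [Finite L₂] (F : Type) [Field F] [Fintype F] (hF : Fintype.card F = 4) (h₁ : Cfsg.IsQuasisimple L₁) (h₂ : Cfsg.IsQuasisimple L₂) (hc₁ : Nat.card (Subgroup.center L₁) = 4) (hc₂ : Nat.card (Subgroup.center L₂) = 4) (he₁ : ∀ x ∈ Subgroup.center L₁, x * x = 1) (he₂ : ∀ x ∈ Subgroup.center L₂, x * x = 1) (e₁ : L₁ ⧸ Subgroup.center L₁ ≃* Matrix.ProjectiveSpecialLinearGroup (Fin 3) F) (e₂ : L₂ ⧸ Subgroup.center L₂ ≃* Matrix.ProjectiveSpecialLinearGroup (Fin 3) F) : Nonempty (L₁ ≃* L₂) := by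
  obtain ⟨x, y, u, hgen, hrel⟩ := Cfsg.Agent.Helper89.L34.exists_gens F hF
  exact Cfsg.Agent.Helper89.L34.cover_unique x y u hgen (card_psl3 hF) hrel
    h₁.1.commutator_eq_top h₂.1.commutator_eq_top hc₁ hc₂ he₁ he₂ e₁ e₂

end Cfsg.Agent.S5387
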