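import Cfsg.Statements.S5434
import Cfsg.Agent.Helper35.CoprimeAbelian
import Cfsg.Agent.Helper48.Extraspecial2
import Cfsg.Agent.Helper47.Coprime
import Cfsg.Agent.Helper2.PGroup

set_option autoImplicit false
open Cfsg

namespace Cfsg.Agent.S5434

open Subgroup Cfsg.Agent.Helper35
open scoped commutatorElement

theorem isExtraspecial_of {G : Type*} [Group G] [Finite G] (D : Subgroup G)
    (hD2 : IsPGroup 2 D) (z : G) (hzD : z ∈ D) (hz1 : z ≠ 1)
    (ha : ∀ x ∈ D, ∀ y ∈ D, x * y * x⁻¹ * y⁻¹ = 1 ∨ x * y * x⁻¹ * y⁻¹ = z)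
    (hb : ∀ x ∈ D, x ^ 2 = 1 ∨ x ^ 2 = z)
    (hc : ∀ c ∈ D, (∀ y ∈ D, c * y = y * c) → c = 1 ∨ c = z)
    (hd : ∀ y ∈ D, z * y = y * z)
    (he : ∃ x ∈ D, ∃ y ∈ D, x * y ≠ y * x) : Cfsg.IsExtraspecial 2 ↥D := by
  have : Fact (Nat.Prime 2) := ⟨Nat.prime_two⟩
  set z' : ↥D := ⟨z, hzD⟩ with hz'
  have hz'1 : z' ≠ 1 := fun h => hz1 (congrArg Subtype.val h)
  have hz'c : z' ∈ Subgroup.center ↥D := by
    rw [Subgroup.mem_center_iff]
    intro g
    exact Subtype.ext (hd g g.2).symm
  have hcen : ∀ c : ↥D, c ∈ Subgroup.center ↥D → c = 1 ∨ c = z' := by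
    intro c hc'
    rw [Subgroup.mem_center_iff] at hc'
    rcases hc c c.2 (fun y hy => (congrArg Subtype.val (hc' ⟨y, hy⟩)).symm) with h | h
    · left; exact Subtype.ext h
    · right; exact Subtype.ext h
  have hcomm' : ∀ x y : ↥D, ⁅x, y⁆ = 1 ∨ ⁅x, y⁆ = z' := by
    intro x y
    rcases ha x x.2 y y.2 with h | h
    · left; apply Subtype.ext; rw [commutatorElement_def]; exact h
    · right; apply Subtype.ext; rw [commutatorElement_def]; exact h
  have hcomm_eq : commutator ↥D = Subgroup.center ↥D := by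
    apply le_antisymm
    · rw [commutator_def, Subgroup.commutator_le]
      intro x _ y _
      rcases hcomm' x y with h | h
      · rw [h]; exact Subgroup.one_mem _
      · rw [h]; exact hz'c
    · intro c hc'
      rcases hcen c hc' with h | h
      · rw [h]; exact Subgroup.one_mem _
      · rw [h]
        obtain ⟨x, hx, y, hy, hxy⟩ := he
        have hne : ⁅(⟨x, hx⟩ : ↥D), (⟨y, hy⟩ : ↥D)⁆ ≠ 1 := by
          intro h1
          rw [commutatorElement_eq_one_iff_commute] at h1
          exact hxy (congrArg Subtype.val h1.eq)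
        rcases hcomm' ⟨x, hx⟩ ⟨y, hy⟩ with h1 | h1
        · exact absurd h1 hne
        · rw [← h1, commutator_def]
          exact Subgroup.commutator_mem_commutator (Subgroup.mem_top _) (Subgroup.mem_top _)
  have hfr : frattini ↥D = Subgroup.center ↥D := by
    apply le_antisymm
    · rw [← hcomm_eq]
      have h1 := Cfsg.Agent.Helper47.frattini_le_ker (P := ↥D) 2 (Abelianization.of) (by
        intro x
        rw [← map_pow]
        have hx2 : x ^ 2 ∈ commutator ↥D := by
          rw [hcomm_eq]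
          rcases hb x x.2 with h | h
          · have : x ^ 2 = 1 := Subtype.ext (by simpa using h)
            rw [this]; exact Subgroup.one_mem _
          · have : x ^ 2 = z' := Subtype.ext (by simpa using h)
            rw [this]; exact hz'c
        exact MonoidHom.mem_ker.mp (by rw [Abelianization.ker_of]; exact hx2))
      rw [Abelianization.ker_of] at h1
      exact h1
    · rw [← hcomm_eq]
      exact Cfsg.Agent.Helper2.commutator_le_frattini_of_isPGroup hD2
  refine ⟨⟨hD2, hfr, hcomm_eq⟩, ?_⟩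
  have hzz : z' ^ 2 = 1 := by
    rcases hb z hzD with h | h
    · exact Subtype.ext (by simpa using h)
    · exfalso; apply hz1
      have : z * z = z * 1 := by rw [mul_one, ← pow_two]; exact h
      exact mul_left_cancel this
  have hcz : Subgroup.center ↥D = Subgroup.zpowers z' := by
    apply le_antisymm
    · intro c hc'
      rcases hcen c hc' with h | h
      · rw [h]; exact Subgroup.one_mem _
      · rw [h]; exact Subgroup.mem_zpowers _
    · rw [Subgroup.zpowers_le]; exact hz'c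
  rw [hcz, Nat.card_zpowers]
  exact orderOf_eq_prime hzz hz'1

theorem main {G : Type*} [Group G] [Finite G] (Q : Subgroup G)
    (hQ : Cfsg.IsLargeExtraspecial Q) (A : Subgroup G)
    (hA : A ≤ Subgroup.normalizer (Q : Set G)) (hAodd : Odd (Nat.card ↥A)) (hA1 : A ≠ ⊥) :
    (Q ⊓ Subgroup.centralizer (A : Set G)) ⊔ ⁅Q, A⁆ = Q ∧
    (∀ x ∈ Q ⊓ Subgroup.centralizer (A : Set G), ∀ y ∈ ⁅Q, A⁆, x * y = y * x) ∧
    Cfsg.IsExtraspecial 2 ↥⁅Q, A⁆ ∧
    (Q ⊓ Subgroup.centralizer (A : Set G) = ((Subgroup.center ↥Q).map Q.subtype) ∨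
      Cfsg.IsExtraspecial 2 ↥(Q ⊓ Subgroup.centralizer (A : Set G))) := by
  have : Fact (Nat.Prime 2) := ⟨Nat.prime_two⟩
  obtain ⟨hES, hCQ, -, -⟩ := hQ
  have hcc := Cfsg.Agent.Helper48.comm_mem_center_of_isExtraspecial hES
  obtain ⟨⟨hQ2, -, -⟩, hcard⟩ := hES
  have hnt : Nontrivial (Subgroup.center ↥Q) := by
    rw [← Finite.one_lt_card_iff_nontrivial, hcard]; norm_num
  obtain ⟨z', hz'1⟩ := exists_ne (1 : Subgroup.center ↥Q)
  have hall : ∀ c : Subgroup.center ↥Q, c = 1 ∨ c = z' :=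
    fun c => Cfsg.Agent.Helper48.center_cases hcard hz'1 c
  set z : G := ((z' : ↥Q) : G) with hzdef
  have hzQ : z ∈ Q := (z' : ↥Q).2
  have hz1 : z ≠ 1 := by
    intro h
    apply hz'1
    apply Subtype.ext; apply Subtype.ext; exact h
  have hzc : ∀ y ∈ Q, z * y = y * z := by
    intro y hy
    have := (Subgroup.mem_center_iff.mp z'.2) ⟨y, hy⟩
    exact (congrArg Subtype.val this).symm
  have hcen : ∀ c ∈ Q, (∀ y ∈ Q, c * y = y * c) → c = 1 ∨ c = z := by
    intro c hc hcy
    have hcc' : (⟨c, hc⟩ : ↥Q) ∈ Subgroup.center ↥Q := by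
      rw [Subgroup.mem_center_iff]
      intro g
      exact Subtype.ext (hcy g g.2).symm
    rcases hall ⟨⟨c, hc⟩, hcc'⟩ with h | h
    · left; exact congrArg (fun t : Subgroup.center ↥Q => ((t : ↥Q) : G)) h
    · right; exact congrArg (fun t : Subgroup.center ↥Q => ((t : ↥Q) : G)) h
  have hcomm : ∀ x ∈ Q, ∀ y ∈ Q, x * y * x⁻¹ * y⁻¹ = 1 ∨ x * y * x⁻¹ * y⁻¹ = z := by
    intro x hx y hy
    have h1 := hcc ⟨x, hx⟩ ⟨y, hy⟩
    rcases hall ⟨_, h1⟩ with h | h
    · left; exact congrArg (fun t : Subgroup.center ↥Q => ((t : ↥Q) : G)) h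
    · right; exact congrArg (fun t : Subgroup.center ↥Q => ((t : ↥Q) : G)) h
  have hsq : ∀ x ∈ Q, x ^ 2 = 1 ∨ x ^ 2 = z := by
    intro x hx
    have h1 := Cfsg.Agent.Helper48.sq_mem_center hcc hcard ⟨x, hx⟩
    rcases hall ⟨_, h1⟩ with h | h
    · left; exact congrArg (fun t : Subgroup.center ↥Q => ((t : ↥Q) : G)) h
    · right; exact congrArg (fun t : Subgroup.center ↥Q => ((t : ↥Q) : G)) h
  have hAz : ∀ a ∈ A, a * z = z * a := by
    intro a ha
    have haN := hA ha
    have h1 : a * z * a⁻¹ ∈ Q := (Subgroup.mem_normalizer_iff.mp haN z).mp hzQ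
    have h2 : ∀ y ∈ Q, (a * z * a⁻¹) * y = y * (a * z * a⁻¹) := by
      intro y hy
      have hy' : a⁻¹ * y * a ∈ Q := by
        have := (Subgroup.mem_normalizer_iff.mp (Subgroup.inv_mem _ haN) y).mp hy
        simpa using this
      have h3 := hzc _ hy'
      calc a * z * a⁻¹ * y = a * (z * (a⁻¹ * y * a)) * a⁻¹ := by group
        _ = a * ((a⁻¹ * y * a) * z) * a⁻¹ := by rw [h3]
        _ = y * (a * z * a⁻¹) := by group
    rcases hcen _ h1 h2 with h | h
    · exfalso; apply hz1
      have : z = a⁻¹ * (a * z * a⁻¹) * a := by group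
      rw [this, h]; group
    · have : a * z = (a * z * a⁻¹) * a := by group
      rw [this, h]
  have hzCA : z ∈ centralizer (A : Set G) := by
    rw [Subgroup.mem_centralizer_iff]; intro a ha; exact hAz a ha
  obtain ⟨n, hn⟩ := hQ2.exists_card_eq
  have hcop : (Nat.card A).Coprime (Nat.card Q) := by
    rw [hn]; exact Nat.Coprime.pow_right n (Nat.coprime_two_right.mpr hAodd)
  have hsolvQ : Group.IsSolvable Q := by
    have := hQ2.isNilpotent
    infer_instance
  set C : Subgroup G := Q ⊓ centralizer (A : Set G) with hCdef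
  set D : Subgroup G := ⁅Q, A⁆ with hDdef
  have hDQ : D ≤ Q := commutator_le_of_le_normalizer hA
  have hCQ' : C ≤ Q := inf_le_left
  have hdecomp : ∀ q ∈ Q, ∃ d ∈ D, ∃ c ∈ C, q = d * c := fun q hq =>
    exists_commutator_mul_fixed hA hcop (Or.inr hsolvQ) hq
  have h1 : C ⊔ D = Q := by
    apply le_antisymm (sup_le hCQ' hDQ)
    intro q hq
    obtain ⟨d, hd, c, hc, rfl⟩ := hdecomp q hq
    exact Subgroup.mul_mem _ (Subgroup.mem_sup_right hd) (Subgroup.mem_sup_left hc)
  have hDC : ⁅⁅Q, A⁆, C⁆ = ⊥ := by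
    apply Subgroup.commutator_commutator_eq_bot_of_rotate
    · have : ⁅A, C⁆ = ⊥ := by
        rw [Subgroup.commutator_comm, Subgroup.commutator_eq_bot_iff_le_centralizer]
        exact inf_le_right
      rw [this, Subgroup.commutator_bot_left]
    · rw [Subgroup.commutator_eq_bot_iff_le_centralizer, Subgroup.commutator_le]
      intro c hc q hq
      rcases hcomm c (hCQ' hc) q hq with h | h
      · rw [commutatorElement_def, h]; exact Subgroup.one_mem _
      · rw [commutatorElement_def, h]; exact hzCA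
  have h2 : ∀ x ∈ C, ∀ y ∈ D, x * y = y * x := by
    intro x hx y hy
    have := (Subgroup.commutator_eq_bot_iff_le_centralizer.mp hDC) hy
    exact (Subgroup.mem_centralizer_iff.mp this) x hx
  have hcentral : ∀ c ∈ Q, (∀ y ∈ C, c * y = y * c) → (∀ y ∈ D, c * y = y * c) →
      c = 1 ∨ c = z := by
    intro c hc hcC hcD
    apply hcen c hc
    intro q hq
    obtain ⟨d, hd, c', hc', rfl⟩ := hdecomp q hq
    rw [← mul_assoc, hcD d hd, mul_assoc, hcC c' hc', ← mul_assoc]
  have hDna : ∃ x ∈ D, ∃ y ∈ D, x * y ≠ y * x := by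
    by_contra hab
    have hab' : ∀ x ∈ D, ∀ y ∈ D, x * y = y * x := by
      intro x hx y hy
      by_contra hne
      exact hab ⟨x, hx, y, hy, hne⟩
    have hDle : D ≤ centralizer (A : Set G) := by
      intro d hd
      rcases hcentral d (hDQ hd) (fun y hy => (h2 y hy d hd).symm) (hab' d hd) with h | h
      · rw [h]; exact Subgroup.one_mem _
      · rw [h]; exact hzCA
    have hDA : ⁅D, A⁆ = ⊥ := Subgroup.commutator_eq_bot_iff_le_centralizer.mpr hDle
    have hDbot : D = ⊥ := by
      have hDD : ⁅D, A⁆ = D := commutator_commutator_eq_of_coprime hA hcop (Or.inr hsolvQ)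
      rw [← hDD]; exact hDA
    have hQA : Q ≤ centralizer (A : Set G) :=
      Subgroup.commutator_eq_bot_iff_le_centralizer.mp hDbot
    have hAQ : A ≤ Q := by
      have h3 : A ≤ centralizer (Q : Set G) := Subgroup.le_centralizer_iff.mp hQA
      rw [hCQ] at h3
      exact h3.trans (Subgroup.map_subtype_le _)
    apply hA1
    exact Subgroup.card_eq_one.mp
      (Nat.Coprime.eq_one_of_dvd hcop (Subgroup.card_dvd_of_le hAQ))
  have hzD : z ∈ D := by
    obtain ⟨x, hx, y, hy, hxy⟩ := hDna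
    rcases hcomm x (hDQ hx) y (hDQ hy) with h | h
    · exfalso; apply hxy
      have : x * y = (x * y * x⁻¹ * y⁻¹) * y * x := by group
      rw [this, h, one_mul]
    · rw [← h]
      exact D.mul_mem (D.mul_mem (D.mul_mem hx hy) (D.inv_mem hx)) (D.inv_mem hy)
  have hzC : z ∈ C := ⟨hzQ, hzCA⟩
  have hD2 : IsPGroup 2 D := hQ2.to_le hDQ
  have hC2 : IsPGroup 2 C := hQ2.to_le hCQ'
  have hDES : Cfsg.IsExtraspecial 2 ↥D := isExtraspecial_of D hD2 z hzD hz1
    (fun x hx y hy => hcomm x (hDQ hx) y (hDQ hy)) (fun x hx => hsq x (hDQ hx))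
    (fun c hc hcy => hcentral c (hDQ hc) (fun y hy => (h2 y hy c hc).symm) hcy)
    (fun y hy => hzc y (hDQ hy)) hDna
  refine ⟨h1, h2, hDES, ?_⟩
  by_cases hCab : ∀ x ∈ C, ∀ y ∈ C, x * y = y * x
  · left
    apply le_antisymm
    · intro c hc
      have : c = 1 ∨ c = z := hcentral c (hCQ' hc) (hCab c hc) (fun y hy => h2 c hc y hy)
      rcases this with h | h
      · rw [h]; exact Subgroup.one_mem _
      · rw [h]; exact ⟨(z' : ↥Q), z'.2, rfl⟩
    · rintro _ ⟨c, hc, rfl⟩
      rcases hall ⟨c, hc⟩ with h | h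
      · have : c = 1 := congrArg Subtype.val h
        rw [this, map_one]; exact Subgroup.one_mem _
      · have : c = (z' : ↥Q) := congrArg Subtype.val h
        rw [this]; exact hzC
  · right
    have hCna : ∃ x ∈ C, ∃ y ∈ C, x * y ≠ y * x := by
      by_contra hcon
      apply hCab
      intro x hx y hy
      by_contra hne
      exact hcon ⟨x, hx, y, hy, hne⟩
    exact isExtraspecial_of C hC2 z hzC hz1
      (fun x hx y hy => hcomm x (hCQ' hx) y (hCQ' hy)) (fun x hx => hsq x (hCQ' hx))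
      (fun c hc hcy => hcentral c (hCQ' hc) hcy (fun y hy => h2 c hc y hy))
      (fun y hy => hzc y (hCQ' hy)) hCna

/-- Let Q be a large extraspecial 2-subgroup of the finite group G (extraspecial; centralizer equal to its centre; normal in the centralizer of its centre; normalizing no non-trivial subgroup of odd order), and A a non-trivial subgroup of odd order of the normalizer of Q. Then Q is the central product of the centralizer of A in Q and the commutator subgroup [Q, A] (they generate Q and commute elementwise), [Q, A] is extraspecial, and the centralizer of A in Q is either the centre of Q or extraspecial. -/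
theorem result {G : Type*} [Group G] [Finite G] (Q : Subgroup G) (hQ : Cfsg.IsLargeExtraspecial Q) (A : Subgroup G) (hA : A ≤ Subgroup.normalizer (Q : Set G)) (hAodd : Odd (Nat.card ↥A)) (hA1 : A ≠ ⊥) : (Q ⊓ Subgroup.centralizer (A : Set G)) ⊔ ⁅Q, A⁆ = Q ∧ (∀ x ∈ Q ⊓ Subgroup.centralizer (A : Set G), ∀ y ∈ ⁅Q, A⁆, x * y = y * x) ∧ Cfsg.IsExtraspecial 2 ↥⁅Q, A⁆ ∧ (Q ⊓ Subgroup.centralizer (A : Set G) = ((Subgroup.center ↥Q).map Q.subtype) ∨ Cfsg.IsExtraspecial 2 ↥(Q ⊓ Subgroup.centralizer (A : Set G))) := by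
  exact main Q hQ A hA hAodd hA1

end Cfsg.Agent.S5434
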