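import Cfsg.Statements.S0824
import Cfsg.Agent.Helper5.OrthMinus2

set_option autoImplicit false
set_option linter.unusedSectionVars false
open Cfsg

namespace Cfsg.Agent.S0824

open Matrix Cfsg.Agent.Helper5

section
variable {F : Type*} [Field F] [Fintype F]

theorem sq_eq_self (hF : Fintype.card F = 2) (x : F) : x ^ 2 = x := by
  have := FiniteField.pow_card x
  rwa [hF] at this

theorem two_eq_zero (hF : Fintype.card F = 2) : (2 : F) = 0 := by
  have h := sq_eq_self hF (2 : F)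
  have : (2 : F) * 1 = 0 := by linear_combination h
  simpa using this

theorem zero_or_one (hF : Fintype.card F = 2) (x : F) : x = 0 ∨ x = 1 := by
  have : x * (x - 1) = 0 := by linear_combination sq_eq_self hF x
  rcases mul_eq_zero.1 this with h | h
  · exact Or.inl h
  · exact Or.inr (sub_eq_zero.1 h)

theorem hab11 (hF : Fintype.card F = 2) :
    ∀ z₁ z₂ : F, z₁ ^ 2 + 1 * z₁ * z₂ + 1 * z₂ ^ 2 = 0 → z₁ = 0 ∧ z₂ = 0 := by
  intro z₁ z₂ h
  have h20 := two_eq_zero hF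
  rcases zero_or_one hF z₁ with rfl | rfl <;> rcases zero_or_one hF z₂ with rfl | rfl
  · exact ⟨rfl, rfl⟩
  · exfalso
    simp at h
  · exfalso
    simp at h
  · exfalso
    have : (1 : F) = 0 := by linear_combination h - h20
    exact one_ne_zero this

theorem card_G (hF : Fintype.card F = 2) :
    Nat.card (Cfsg.isometryGroup F (Cfsg.quadFormMinus 1 F 1 1)) = 120 := by
  have h := card_GO_minus (1 : F) 1 (hab11 hF) 2 (by norm_num)
  rw [hF] at h
  norm_num [Finset.prod_range_succ] at h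
  exact h

/-- The action on the non-zero singular vectors. -/
def singAct (F : Type*) [Field F] :
    SubMulAction (Cfsg.isometryGroup F (Cfsg.quadFormMinus 1 F 1 1))
      ((Fin 1 ⊕ Fin 1) ⊕ Fin 2 → F) where
  carrier := {v | v ≠ 0 ∧ Cfsg.quadFormMinus 1 F 1 1 v = 0}
  smul_mem' := by
    intro g v hv
    refine ⟨fun h => hv.1 (GL_mulVec_eq_zero g.1 v h), ?_⟩
    have : g • v = ((g : Matrix.GeneralLinearGroup ((Fin 1 ⊕ Fin 1) ⊕ Fin 2) F) :
        Matrix ((Fin 1 ⊕ Fin 1) ⊕ Fin 2) ((Fin 1 ⊕ Fin 1) ⊕ Fin 2) F) *ᵥ v := rfl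
    rw [this, (mem_isometryGroup_iff _ _).1 g.2]
    exact hv.2

theorem card_singAct (hF : Fintype.card F = 2) : Nat.card (singAct F) = 5 := by
  have h := minus_card_singular (1 : F) 1 (hab11 hF) 0
  rw [hF] at h
  norm_num at h
  exact h

theorem mem_singAct (v : (Fin 1 ⊕ Fin 1) ⊕ Fin 2 → F) :
    v ∈ singAct F ↔ v ≠ 0 ∧ Cfsg.quadFormMinus 1 F 1 1 v = 0 := Iff.rfl

theorem smul_eq (g : Cfsg.isometryGroup F (Cfsg.quadFormMinus 1 F 1 1))
    (v : (Fin 1 ⊕ Fin 1) ⊕ Fin 2 → F) :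
    g • v = ((g : Matrix.GeneralLinearGroup ((Fin 1 ⊕ Fin 1) ⊕ Fin 2) F) :
        Matrix ((Fin 1 ⊕ Fin 1) ⊕ Fin 2) ((Fin 1 ⊕ Fin 1) ⊕ Fin 2) F) *ᵥ v := rfl

theorem single_ne_zero' (c : (Fin 1 ⊕ Fin 1) ⊕ Fin 2) :
    (Pi.single c 1 : (Fin 1 ⊕ Fin 1) ⊕ Fin 2 → F) ≠ 0 := by
  intro h
  have := congrFun h c
  simp at this

theorem toPerm_injective (hF : Fintype.card F = 2) :
    Function.Injective (MulAction.toPermHom (Cfsg.isometryGroup F (Cfsg.quadFormMinus 1 F 1 1))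
      (singAct F)) := by
  rw [injective_iff_map_eq_one]
  intro g hg
  have h20 := two_eq_zero hF
  have key : ∀ v : (Fin 1 ⊕ Fin 1) ⊕ Fin 2 → F, v ∈ singAct F →
      ((g : Matrix.GeneralLinearGroup ((Fin 1 ⊕ Fin 1) ⊕ Fin 2) F) :
        Matrix ((Fin 1 ⊕ Fin 1) ⊕ Fin 2) ((Fin 1 ⊕ Fin 1) ⊕ Fin 2) F) *ᵥ v = v := by
    intro v hv
    have h1 := congrArg (fun σ : Equiv.Perm (singAct F) => ((σ ⟨v, hv⟩ : singAct F) :
      (Fin 1 ⊕ Fin 1) ⊕ Fin 2 → F)) hg
    exact h1
  have hx : (Pi.single (Sum.inl (Sum.inl 0)) 1 : (Fin 1 ⊕ Fin 1) ⊕ Fin 2 → F) ∈ singAct F := by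
    refine ⟨single_ne_zero' _, ?_⟩
    unfold Cfsg.quadFormMinus
    simp
  have hy : (Pi.single (Sum.inl (Sum.inr 0)) 1 : (Fin 1 ⊕ Fin 1) ⊕ Fin 2 → F) ∈ singAct F := by
    refine ⟨single_ne_zero' _, ?_⟩
    unfold Cfsg.quadFormMinus
    simp
  have hu : ∀ c : Fin 2, (Pi.single (Sum.inl (Sum.inl 0)) 1 + Pi.single (Sum.inl (Sum.inr 0)) 1 +
      Pi.single (Sum.inr c) 1 : (Fin 1 ⊕ Fin 1) ⊕ Fin 2 → F) ∈ singAct F := by
    intro c
    refine ⟨?_, ?_⟩
    · intro h
      have := congrFun h (Sum.inl (Sum.inl 0))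
      simp at this
    · unfold Cfsg.quadFormMinus
      fin_cases c
      · simp
        linear_combination h20
      · simp
        linear_combination h20
  have hz : ∀ c : Fin 2, ((g : Matrix.GeneralLinearGroup ((Fin 1 ⊕ Fin 1) ⊕ Fin 2) F) :
        Matrix ((Fin 1 ⊕ Fin 1) ⊕ Fin 2) ((Fin 1 ⊕ Fin 1) ⊕ Fin 2) F) *ᵥ Pi.single (Sum.inr c) 1
          = Pi.single (Sum.inr c) 1 := by
    intro c
    have h1 := key _ (hu c)
    rw [Matrix.mulVec_add, Matrix.mulVec_add, key _ hx, key _ hy] at h1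
    exact add_left_cancel h1
  apply Subtype.ext
  apply Units.ext
  apply Matrix.ext_of_mulVec_single
  intro c
  rw [Subgroup.coe_one, Units.val_one, Matrix.one_mulVec]
  rcases c with (c | c) | c
  · obtain rfl : c = 0 := Subsingleton.elim _ _
    exact key _ hx
  · obtain rfl : c = 0 := Subsingleton.elim _ _
    exact key _ hy
  · exact hz c

end

/-- O⁻_4(2) ≅ S_5: the isometry group of the form x y + z_1² + z_1 z_2 + z_2² over the field with 2 elements is isomorphic to the symmetric group on 5 letters. -/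
theorem result {F : Type*} [Field F] [Fintype F] (hF : Fintype.card F = 2) : Nonempty (↥(Cfsg.isometryGroup F (Cfsg.quadFormMinus 1 F 1 1)) ≃* Equiv.Perm (Fin 5)) := by
  have hbij : Function.Bijective (MulAction.toPermHom
      (Cfsg.isometryGroup F (Cfsg.quadFormMinus 1 F 1 1)) (singAct F)) := by
    apply (toPerm_injective hF).bijective_of_nat_card_le
    rw [Nat.card_perm, card_singAct hF, card_G hF]
    decide
  have e : singAct F ≃ Fin 5 := by
    have : Finite (singAct F) := Nat.finite_of_card_ne_zero (by rw [card_singAct hF]; norm_num)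
    exact Finite.equivFinOfCardEq (card_singAct hF)
  exact ⟨(MulEquiv.ofBijective _ hbij).trans e.permCongrHom⟩

end Cfsg.Agent.S0824
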