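import Cfsg.Statements.S0371
import Cfsg.Agent.Helper7.Golay

set_option autoImplicit false
open scoped Pointwise
open Cfsg

namespace Cfsg.Agent.S0371

/-- Multiplication by a nonzero square residue modulo 23, fixing the extra point, lies in the group of the length-24 code. -/
theorem result (u : (ZMod 23)ˣ) (hu : IsSquare u) : Equiv.optionCongr (Units.mulLeft u) ∈ Cfsg.M24 := by
  obtain ⟨s, rfl⟩ := hu
  apply Cfsg.Agent.Helper7.mem_M24_of_gens
  intro t
  have key : (fun p => qrWord t ((Equiv.optionCongr (Units.mulLeft (s * s))).symm p))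
      = qrWord (((s * s : (ZMod 23)ˣ) : ZMod 23) * t) := by
    funext p
    cases p with
    | none => rfl
    | some x =>
      have h1 : (Equiv.optionCongr (Units.mulLeft (s * s))).symm (some x)
          = some (((s * s)⁻¹ : (ZMod 23)ˣ) * x) := rfl
      rw [h1]
      simp only [qrWord]
      congr 1
      apply propext
      constructor
      · rintro ⟨r, hr⟩
        refine ⟨s * r, ?_⟩
        have : x = ((s * s : (ZMod 23)ˣ) : ZMod 23) * (r ^ 2 + t) := by
          rw [← hr, ← mul_assoc, ← Units.val_mul, mul_inv_cancel, Units.val_one, one_mul]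
        rw [this, Units.val_mul]; ring
      · rintro ⟨r, hr⟩
        refine ⟨((s⁻¹ : (ZMod 23)ˣ) : ZMod 23) * r, ?_⟩
        rw [hr, mul_inv_rev, Units.val_mul, Units.val_mul]
        have h2 : ((s⁻¹ : (ZMod 23)ˣ) : ZMod 23) * (s : ZMod 23) = 1 := by
          rw [← Units.val_mul, inv_mul_cancel, Units.val_one]
        linear_combination (t * (((s⁻¹ : (ZMod 23)ˣ) : ZMod 23) * (s : ZMod 23) + 1)) * h2
  rw [key]
  exact Submodule.subset_span (Or.inl ⟨_, rfl⟩)

end Cfsg.Agent.S0371
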