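import Cfsg.Statements.S0376
import Cfsg.Agent.Helper7.M24Trans

set_option autoImplicit false
open scoped Pointwise
open Cfsg

namespace Cfsg.Agent.S0376

/-- A point stabiliser in the group of the length-24 code has order 10200960 = 2^7·3^2·5·7·11·23. -/
theorem result (p : Cfsg.GolayPt) : Nat.card (MulAction.stabilizer Cfsg.M24 p) = 10200960 := by
  have h := Cfsg.Agent.Helper7.card_orbit_mul_card_stabilizer p
  have horb : MulAction.orbit (↥M24) p = Set.univ := by
    ext q
    simp only [Set.mem_univ, iff_true]
    obtain ⟨g, hg, rfl⟩ := Cfsg.Agent.Helper7.m24_trans1 p q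
    exact ⟨⟨g, hg⟩, rfl⟩
  have hc : Nat.card (MulAction.orbit (↥M24) p) = 24 := by
    rw [horb, Nat.card_congr (Equiv.Set.univ _), Nat.card_eq_fintype_card]
    decide
  rw [hc] at h
  omega

end Cfsg.Agent.S0376
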