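import Cfsg.Statements.S0298
import Cfsg.Agent.Helper5.O3
import Cfsg.Agent.Helper5.OrthOdd

set_option autoImplicit false
open Cfsg

namespace Cfsg.Agent.S0298

open Cfsg.Agent.Helper5 Matrix

/-- PΩ_3(q) is isomorphic to PSL_2(q) for q odd. -/
theorem result {F : Type*} [Field F] [Fintype F] (hodd : Odd (Fintype.card F)) : Nonempty (Cfsg.POmega F (Cfsg.quadFormOdd 1 F) ≃* Matrix.ProjectiveSpecialLinearGroup (Fin 2) F) := by
  classical
  have h2 : (2 : F) ≠ 0 := two_ne_zero_of_odd hodd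
  have hc : ∃ c : F, c ≠ 0 ∧ c ≠ 1 := ⟨-1, by simp, fun h => h2 (by linear_combination -h)⟩
  set φ : Matrix.SpecialLinearGroup (Fin 2) F →* Cfsg.isometryGroup F (Cfsg.quadFormOdd 1 F) :=
    (toIso F (Cfsg.quadFormOdd 1 F)).comp (o3Ad F) with hφ
  have hge : φ.range ≤ commutator (Cfsg.isometryGroup F (Cfsg.quadFormOdd 1 F)) := by
    rintro _ ⟨a, rfl⟩
    exact map_mem_commutator (toIso F (Cfsg.quadFormOdd 1 F)) (o3Ad_mem_commutator hc a)
  have hcard : Nat.card (Cfsg.isometryGroup F (Cfsg.quadFormOdd 1 F)) =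
      2 * Nat.card (Matrix.SpecialLinearGroup (Fin 2) F) := by
    rw [card_GO_odd hodd 1, card_SL2]
    simp
    ring
  have hidx := index_range_eq_mul φ 2 hcard
  have hkerφ : φ.ker = (o3Ad F).ker := by
    ext a
    rw [MonoidHom.mem_ker, MonoidHom.mem_ker]
    change toIso F (Cfsg.quadFormOdd 1 F) (o3Ad F a) = 1 ↔ _
    constructor
    · intro h
      exact toIso_injective _ (by rw [h, map_one])
    · intro h
      rw [h, map_one]
  have hker : Nat.card φ.ker ≤ 2 := by
    rw [hkerφ]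
    exact (Subgroup.card_le_of_le o3Ad_ker_le).trans (card_center_SL2 h2).le
  have hidx4 : φ.range.index ≤ 4 := by
    rw [hidx]
    omega
  have hnormal : φ.range.Normal := by
    refine normal_of_index_le_four_of_conj _
      (detHom (Cfsg.isometryGroup F (Cfsg.quadFormOdd 1 F))).ker
      (hge.trans (commutator_le_detHom_ker _)) hidx4
      (toIso F (Cfsg.quadFormOdd 1 F) (o3Neg F)) ?_ ?_
    · intro hτ
      rw [MonoidHom.mem_ker] at hτ
      have h3 := congrArg Units.val hτ
      rw [detHom_coe] at h3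
      change Matrix.det (LinearMap.toMatrix'
        (-1 : Module.End F (Unit ⊕ (Fin 1 ⊕ Fin 1) → F))) = 1 at h3
      rw [det_o3Neg] at h3
      exact h2 (by linear_combination -h3)
    · rintro _ ⟨a, rfl⟩
      refine ⟨a, ?_⟩
      change toIso F (Cfsg.quadFormOdd 1 F) (o3Ad F a) =
        (toIso F (Cfsg.quadFormOdd 1 F) (o3Neg F))⁻¹ * toIso F (Cfsg.quadFormOdd 1 F) (o3Ad F a) *
          toIso F (Cfsg.quadFormOdd 1 F) (o3Neg F)
      rw [← map_inv, ← map_mul, ← map_mul, mul_assoc, ← o3Neg_comm, ← mul_assoc, inv_mul_cancel,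
        one_mul]
  have hle := commutator_le_of_normal_index_le_four φ.range hidx4
  have hrange := le_antisymm hge hle
  refine nonempty_commutator_quot_center φ hrange
    (QuotientGroup.mk' (Subgroup.center (Matrix.SpecialLinearGroup (Fin 2) F)))
    (QuotientGroup.mk'_surjective _) ?_
  intro s
  rw [QuotientGroup.mk'_apply, QuotientGroup.eq_one_iff]
  constructor
  · intro hs t
    rw [Subgroup.mem_center_iff.1 hs t]
  · intro hs
    apply sl2_mem_center_of_scalar_comm
    intro t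
    have h1 : (s * t) * (t * s)⁻¹ ∈ φ.ker := by
      rw [MonoidHom.mem_ker, map_mul, map_inv, hs t, mul_inv_cancel]
    rw [hkerφ] at h1
    have h3 := o3Ad_ker_le h1
    rw [Matrix.SpecialLinearGroup.mem_center_iff] at h3
    obtain ⟨r, -, hr⟩ := h3
    refine ⟨r, ?_⟩
    calc (s : Matrix (Fin 2) (Fin 2) F) * (t : Matrix (Fin 2) (Fin 2) F)
        = ((s * t : Matrix.SpecialLinearGroup (Fin 2) F) : Matrix (Fin 2) (Fin 2) F) :=
          (Matrix.SpecialLinearGroup.coe_mul s t).symm
      _ = (((s * t) * (t * s)⁻¹ * (t * s) : Matrix.SpecialLinearGroup (Fin 2) F) :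
            Matrix (Fin 2) (Fin 2) F) := by rw [inv_mul_cancel_right]
      _ = Matrix.scalar (Fin 2) r *
            ((t : Matrix (Fin 2) (Fin 2) F) * (s : Matrix (Fin 2) (Fin 2) F)) := by
          rw [Matrix.SpecialLinearGroup.coe_mul, ← hr, Matrix.SpecialLinearGroup.coe_mul t s]
      _ = r • ((t : Matrix (Fin 2) (Fin 2) F) * (s : Matrix (Fin 2) (Fin 2) F)) := by
          rw [Matrix.scalar_apply, ← Matrix.smul_eq_diagonal_mul]

end Cfsg.Agent.S0298
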