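import Cfsg.Statements.S2402
import Mathlib
import Cfsg.Agent.Helper13.SLCyc

set_option autoImplicit false
open Cfsg

namespace Cfsg.Agent.S2402

open Matrix Cfsg.Agent.Helper13
open Fin.NatCast

/-- every element of a finite field is a sum of two squares. -/
theorem sum_two_sq {K : Type*} [Field K] [Fintype K] (t : K) : ∃ a b : K, t = a ^ 2 + b ^ 2 := by
  classical
  by_cases hodd : Fintype.card K % 2 = 1
  · obtain ⟨a, b, hab⟩ := FiniteField.exists_root_sum_quadratic (R := K)
      (f := Polynomial.X ^ 2) (g := Polynomial.X ^ 2 - Polynomial.C t)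
      (Polynomial.degree_X_pow 2) (Polynomial.degree_X_pow_sub_C (by norm_num) t) hodd
    refine ⟨a, b, ?_⟩
    simp only [Polynomial.eval_pow, Polynomial.eval_X, Polynomial.eval_sub, Polynomial.eval_C]
      at hab
    linear_combination -hab
  · have hchar : ringChar K = 2 := (FiniteField.even_card_iff_char_two).2 (by omega)
    obtain ⟨a, ha⟩ := FiniteField.isSquare_of_char_two (F := K) hchar t
    exact ⟨a, 0, by rw [ha]; ring⟩

theorem cyc_mul_diag {K : Type*} [Field K] {n : ℕ} (δ : Fin (n + 1) → K) :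
    cycW n K * Matrix.diagonal δ = Matrix.diagonal (fun i => δ (i + 1)) * cycW n K := by
  ext i j
  rw [Matrix.mul_diagonal, Matrix.diagonal_mul, cycW_apply]
  by_cases hj : j = i + 1
  · subst hj
    rw [if_pos rfl]; ring
  · rw [if_neg hj]; ring

theorem diag_mul_tv {K : Type*} [Field K] {n : ℕ} (ε : Fin (n + 1) → K) (i j : Fin (n + 1))
    (s t : K) (hst : ε i * t = s * ε j) :
    Matrix.diagonal ε * Matrix.transvection i j t = Matrix.transvection i j s * Matrix.diagonal ε := by
  unfold Matrix.transvection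
  rw [mul_add, mul_one, add_mul, one_mul]
  congr 1
  ext a b
  rw [Matrix.diagonal_mul, Matrix.mul_diagonal, Matrix.single_apply, Matrix.single_apply]
  by_cases hab : i = a ∧ j = b
  · obtain ⟨rfl, rfl⟩ := hab
    simp [hst]
  · rw [if_neg hab, if_neg hab]; ring

/-- Explicit two-element generation of `PSL_{n+1}(K)` for a finite field `K` with more than three elements: let `k` generate the multiplicative group of `K`, `h = diag(k, k⁻¹, 1, …, 1)`, `x = 1 + E₁₂` (the elementary transvection) and `w` the monomial matrix with entries `1` in positions `(i, i+1)` and `(−1)^n` in position `(n+1, 1)`. Then `h` and `x·w` generate `SL_{n+1}(K)` modulo its centre: the subgroup they generate together with the centre is everything. -/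
theorem result {K : Type*} [Field K] [Fintype K] (hK : 3 < Fintype.card K) (n : ℕ) (hn : 1 ≤ n)
    (k : Kˣ) (hk : ∀ u : Kˣ, u ∈ Subgroup.zpowers k)
    (h x w : Matrix.SpecialLinearGroup (Fin (n + 1)) K)
    (hh : (h : Matrix (Fin (n + 1)) (Fin (n + 1)) K) =
      Matrix.diagonal (fun i => if i.val = 0 then (k : K) else if i.val = 1 then ((k⁻¹ : Kˣ) : K) else 1))
    (hx : (x : Matrix (Fin (n + 1)) (Fin (n + 1)) K) = Matrix.transvection (0 : Fin (n + 1)) (1 : Fin (n + 1)) 1)
    (hw : (w : Matrix (Fin (n + 1)) (Fin (n + 1)) K) =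
      Matrix.of (fun i j => if j.val = i.val + 1 then 1 else if i.val = n ∧ j.val = 0 then (-1) ^ n else 0)) :
    Subgroup.closure ({h, x * w} : Set (Matrix.SpecialLinearGroup (Fin (n + 1)) K)) ⊔
      Subgroup.center (Matrix.SpecialLinearGroup (Fin (n + 1)) K) = ⊤ := by
  classical
  have h01 : (0 : Fin (n + 1)) ≠ 1 := by
    intro h
    have := congrArg Fin.val h
    rw [Fin.val_one', Fin.val_zero, Nat.mod_eq_of_lt (by omega)] at this
    exact zero_ne_one this
  have hv1 : ((1 : Fin (n + 1))).val = 1 := by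
    rw [Fin.val_one', Nat.mod_eq_of_lt (by omega)]
  -- the root elements
  let T : K → Matrix.SpecialLinearGroup (Fin (n + 1)) K := fun t =>
    ⟨Matrix.transvection 0 1 t, Matrix.det_transvection_of_ne _ _ h01 t⟩
  have hT : ∀ t, (T t).1 = Matrix.transvection 0 1 t := fun t => rfl
  have hTadd : ∀ a b, T (a + b) = T a * T b := by
    intro a b
    apply Subtype.ext
    rw [Matrix.SpecialLinearGroup.coe_mul, hT, hT, hT,
      Matrix.transvection_mul_transvection_same _ _ h01]
  have hT0 : T 0 = 1 := by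
    apply Subtype.ext
    rw [hT, Matrix.transvection_zero]; rfl
  have hTneg : ∀ a, T (-a) = (T a)⁻¹ := by
    intro a
    rw [eq_inv_iff_mul_eq_one, ← hTadd, neg_add_cancel, hT0]
  have hxT : x = T 1 := Subtype.ext hx
  -- the diagonal data
  obtain ⟨δ, hδ⟩ : ∃ δ : Fin (n + 1) → K, δ = (fun i : Fin (n + 1) => if i.val = 0 then (k : K) else
      if i.val = 1 then ((k⁻¹ : Kˣ) : K) else 1) := ⟨_, rfl⟩
  rw [← hδ] at hh
  have hδ0 : δ 0 = (k : K) := by rw [hδ]; simp
  have hδ1 : δ 1 = ((k⁻¹ : Kˣ) : K) := by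
    rw [hδ]
    simp only [hv1]
    simp
  have hkne : (k : K) ≠ 0 := k.ne_zero
  -- conjugation by a diagonal element
  have hconj : ∀ (g : Matrix.SpecialLinearGroup (Fin (n + 1)) K) (ε : Fin (n + 1) → K),
      g.1 = Matrix.diagonal ε → ∀ s t : K, ε 0 * t = s * ε 1 → g * T t = T s * g := by
    intro g ε hg s t hst
    apply Subtype.ext
    rw [Matrix.SpecialLinearGroup.coe_mul, Matrix.SpecialLinearGroup.coe_mul, hT, hT, hg,
      diag_mul_tv ε 0 1 s t hst]
  have hhT : ∀ t : K, h * T t = T (t * (k : K) ^ 2) * h := by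
    intro t
    apply hconj h δ hh
    rw [hδ0, hδ1, Units.val_inv_eq_inv_val]
    field_simp
  -- the conjugate diagonal element
  obtain ⟨D, hD⟩ : ∃ D, D = w * h * w⁻¹ := ⟨_, rfl⟩
  have hDw : D * w = w * h := by rw [hD]; group
  have hD1 : D.1 = Matrix.diagonal (fun i => δ (i + 1)) := by
    have e : w.1 = cycW n K := hw
    rw [hD, Matrix.SpecialLinearGroup.coe_mul, Matrix.SpecialLinearGroup.coe_mul, hh, e,
      cyc_mul_diag, ← e, mul_assoc, sl_coe_mul_inv, mul_one]
  have hDh : D * h = h * D := by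
    apply Subtype.ext
    rw [Matrix.SpecialLinearGroup.coe_mul, Matrix.SpecialLinearGroup.coe_mul, hD1, hh,
      Matrix.diagonal_mul_diagonal, Matrix.diagonal_mul_diagonal]
    congr 1
    funext i
    ring
  obtain ⟨ρ, hρ⟩ : ∃ ρ : K, ρ = δ (1 + 1) := ⟨_, rfl⟩
  have hρcases : ρ = (k : K) ∨ ρ = 1 := by
    rw [hρ, hδ]
    by_cases h1 : n = 1
    · subst h1
      left
      have : ((1 : Fin (1 + 1)) + 1).val = 0 := by decide
      simp only [this]
      simp
    · right
      have : ((1 : Fin (n + 1)) + 1).val = 2 := by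
        rw [Fin.val_add, hv1, Nat.mod_eq_of_lt (by omega)]
      simp only [this]
      simp
  have hDT : D * T (ρ * (k : K)) = T 1 * D := by
    apply hconj D _ hD1
    rw [zero_add, hδ1, ← hρ, Units.val_inv_eq_inv_val]
    field_simp
  -- the order of `k`
  have hord : orderOf k = Fintype.card Kˣ := by
    rw [← Nat.card_eq_fintype_card]
    exact orderOf_eq_card_of_forall_mem_zpowers hk
  have hcard : Fintype.card Kˣ = Fintype.card K - 1 := Fintype.card_units K
  have hk1 : (k : K) ≠ 1 := by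
    intro h1
    have : k = 1 := Units.ext h1
    rw [this, orderOf_one] at hord
    omega
  have hk2 : (k : K) ^ 2 ≠ 1 := by
    intro h1
    have : k ^ 2 = 1 := Units.ext (by rw [Units.val_pow_eq_pow_val, h1]; rfl)
    have := orderOf_le_of_pow_eq_one (by norm_num) this
    omega
  -- membership
  obtain ⟨H, hH⟩ : ∃ H, H = Subgroup.closure
      ({h, x * w} : Set (Matrix.SpecialLinearGroup (Fin (n + 1)) K)) := ⟨_, rfl⟩
  rw [← hH]
  have hhH : h ∈ H := by rw [hH]; exact Subgroup.subset_closure (by simp)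
  have hxwH : x * w ∈ H := by rw [hH]; exact Subgroup.subset_closure (by simp)
  obtain ⟨s, hs⟩ : ∃ s : K, s = ρ * (k : K) - 1 := ⟨_, rfl⟩
  have hy : (x * w) * h * (x * w)⁻¹ = D * T s := by
    have e1 : (x * w) * h * (x * w)⁻¹ = x * D * x⁻¹ := by rw [hD]; group
    have e2 : T s = T (ρ * (k : K)) * (T 1)⁻¹ := by
      rw [hs, sub_eq_add_neg, hTadd, hTneg]
    rw [e1, hxT, e2, ← mul_assoc, hDT]
  have hyH : D * T s ∈ H := by
    rw [← hy]
    exact mul_mem (mul_mem hxwH hhH) (inv_mem hxwH)
  have ht0 : T (s * ((k : K) ^ 2 - 1)) ∈ H := by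
    have e : T (s * ((k : K) ^ 2 - 1)) = (D * T s)⁻¹ * (h * (D * T s) * h⁻¹) := by
      have e3 : h * (D * T s) * h⁻¹ = D * T (s * (k : K) ^ 2) := by
        rw [← mul_assoc, ← hDh, mul_assoc D, hhT]
        group
      rw [e3, show s * ((k : K) ^ 2 - 1) = -s + s * (k : K) ^ 2 by ring, hTadd, hTneg]
      group
    rw [e]
    exact mul_mem (inv_mem hyH) (mul_mem (mul_mem hhH hyH) (inv_mem hhH))
  have hsne : s ≠ 0 := by
    rw [hs]
    rcases hρcases with h1 | h1
    · rw [h1, ← pow_two]
      exact sub_ne_zero.2 hk2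
    · rw [h1, one_mul]
      exact sub_ne_zero.2 hk1
  obtain ⟨t₀, ht₀⟩ : ∃ t₀ : K, t₀ = s * ((k : K) ^ 2 - 1) := ⟨_, rfl⟩
  rw [← ht₀] at ht0
  have ht₀ne : t₀ ≠ 0 := by
    rw [ht₀]
    exact mul_ne_zero hsne (sub_ne_zero.2 hk2)
  have hstep : ∀ t : K, T t ∈ H → T (t * (k : K) ^ 2) ∈ H := by
    intro t ht
    have : T (t * (k : K) ^ 2) = h * T t * h⁻¹ := by
      rw [hhT]; group
    rw [this]
    exact mul_mem (mul_mem hhH ht) (inv_mem hhH)
  have hpow : ∀ m : ℕ, T (t₀ * ((k : K) ^ m) ^ 2) ∈ H := by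
    intro m
    induction m with
    | zero => simpa using ht0
    | succ m ih =>
      have := hstep _ ih
      have e : t₀ * ((k : K) ^ (m + 1)) ^ 2 = t₀ * ((k : K) ^ m) ^ 2 * (k : K) ^ 2 := by ring
      rw [e]
      exact this
  have hsq : ∀ a : K, T (t₀ * a ^ 2) ∈ H := by
    intro a
    by_cases ha : a = 0
    · rw [ha]
      have : t₀ * (0 : K) ^ 2 = 0 := by ring
      rw [this, hT0]
      exact one_mem H
    · obtain ⟨u, hu⟩ : ∃ u : Kˣ, (u : K) = a := ⟨Units.mk0 a ha, rfl⟩
      have hmem := hk u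
      rw [← mem_powers_iff_mem_zpowers] at hmem
      obtain ⟨m, hm⟩ := hmem
      have : a = (k : K) ^ m := by
        rw [← hu, ← hm]
        simp
      rw [this]
      exact hpow m
  have hall : ∀ t : K, T t ∈ H := by
    intro t
    obtain ⟨a, b, hab⟩ := sum_two_sq (t / t₀)
    have e : t = t₀ * a ^ 2 + t₀ * b ^ 2 := by
      rw [← mul_add, ← hab]
      field_simp
    rw [e, hTadd]
    exact mul_mem (hsq a) (hsq b)
  have hxH : x ∈ H := by rw [hxT]; exact hall 1
  have hwH : w ∈ H := by
    have : w = x⁻¹ * (x * w) := by group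
    rw [this]
    exact mul_mem (inv_mem hxH) hxwH
  have htop : H = ⊤ := by
    apply sl_cyc_top hn w hw hwH
    intro t g hg
    have : g = T t := Subtype.ext hg
    rw [this]
    exact hall t
  rw [htop, top_sup_eq]

end Cfsg.Agent.S2402
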