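import Cfsg.Statements.S2403
import Mathlib
import Cfsg.Agent.Helper13.SLCyc

set_option autoImplicit false
open Cfsg

namespace Cfsg.Agent.S2403

open Matrix Cfsg.Agent.Helper13

theorem tv_pow {K : Type*} [Field K] {ι : Type*} [DecidableEq ι] [Fintype ι] (i j : ι)
    (hij : i ≠ j) (m : ℕ) :
    Matrix.transvection i j (1 : K) ^ m = Matrix.transvection i j (m : K) := by
  induction m with
  | zero => rw [pow_zero, Nat.cast_zero, Matrix.transvection_zero]
  | succ m ih =>
    rw [pow_succ, ih, Matrix.transvection_mul_transvection_same _ _ hij, Nat.cast_succ]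

theorem exists_natCast_eq {K : Type*} [Field K] [Fintype K] (hK : Fintype.card K ≤ 3) (t : K) :
    ∃ m : ℕ, (m : K) = t := by
  obtain ⟨p, hp⟩ := CharP.exists K
  have hprime : Fact p.Prime := ⟨CharP.char_is_prime K p⟩
  obtain ⟨e, hp', he⟩ := FiniteField.card K p
  have he1 : (e : ℕ) = 1 := by
    by_contra hne
    have h2 : 2 ≤ (e : ℕ) := by
      have := e.pos
      omega
    have h3 : p ^ 2 ≤ p ^ (e : ℕ) := Nat.pow_le_pow_right hp'.pos h2
    have h4 : 2 ≤ p := hp'.two_le
    have h5 : 2 * 2 ≤ p * p := Nat.mul_le_mul h4 h4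
    rw [pow_two] at h3
    omega
  rw [he1, pow_one] at he
  have hinj : Function.Injective (ZMod.castHom (dvd_refl p) K) := RingHom.injective _
  have hbij : Function.Bijective (ZMod.castHom (dvd_refl p) K) := by
    rw [Fintype.bijective_iff_injective_and_card]
    exact ⟨hinj, by rw [ZMod.card, he]⟩
  obtain ⟨z, hz⟩ := hbij.2 t
  refine ⟨z.val, ?_⟩
  rw [← hz, ZMod.castHom_apply, ZMod.natCast_val]

/-- Explicit two-element generation of `PSL_{n+1}(K)` over the fields with two or three elements: with `x = 1 + E₁₂` and `w` the monomial matrix with entries `1` in positions `(i, i+1)` and `(−1)^n` in position `(n+1, 1)`, the elements `x` and `w` generate `SL_{n+1}(K)` modulo its centre. -/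
theorem result {K : Type*} [Field K] [Fintype K] (hK : Fintype.card K ≤ 3) (n : ℕ) (hn : 1 ≤ n)
    (x w : Matrix.SpecialLinearGroup (Fin (n + 1)) K)
    (hx : (x : Matrix (Fin (n + 1)) (Fin (n + 1)) K) = Matrix.transvection (0 : Fin (n + 1)) (1 : Fin (n + 1)) 1)
    (hw : (w : Matrix (Fin (n + 1)) (Fin (n + 1)) K) =
      Matrix.of (fun i j => if j.val = i.val + 1 then 1 else if i.val = n ∧ j.val = 0 then (-1) ^ n else 0)) :
    Subgroup.closure ({x, w} : Set (Matrix.SpecialLinearGroup (Fin (n + 1)) K)) ⊔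
      Subgroup.center (Matrix.SpecialLinearGroup (Fin (n + 1)) K) = ⊤ := by
  have h01 : (0 : Fin (n + 1)) ≠ 1 := by
    intro h
    have := congrArg Fin.val h
    rw [Fin.val_one', Fin.val_zero, Nat.mod_eq_of_lt (by omega)] at this
    exact zero_ne_one this
  have hH : Subgroup.closure ({x, w} : Set (Matrix.SpecialLinearGroup (Fin (n + 1)) K)) = ⊤ := by
    apply sl_cyc_top hn w hw (Subgroup.subset_closure (by simp))
    intro t g hg
    obtain ⟨m, rfl⟩ := exists_natCast_eq hK t
    have : g = x ^ m := by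
      apply Subtype.ext
      rw [hg, Matrix.SpecialLinearGroup.coe_pow, hx, tv_pow _ _ h01]
    rw [this]
    exact pow_mem (Subgroup.subset_closure (by simp)) m
  rw [hH, top_sup_eq]

end Cfsg.Agent.S2403
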