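-- Statement S0711: k-transitive groups with an element of small support contain the alternating group.
import Cfsg.Statements.S0711
import Mathlib

set_option autoImplicit false
open Cfsg

namespace Cfsg.Agent.S0711

open Equiv

section
variable {α : Type*} [Fintype α] [DecidableEq α]

/-- prescribing a group element on a finset -/
theorem exists_mem_of_injOn (G : Subgroup (Perm α)) {k : ℕ} (hkn : k ≤ Fintype.card α)
    (hG : MulAction.IsMultiplyPretransitive G α k) (s : Finset α) (hs : s.card ≤ k)
    (f : α → α) (hf : Set.InjOn f (s : Set α)) : ∃ h ∈ G, ∀ y ∈ s, h y = f y := by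
  have hj : MulAction.IsMultiplyPretransitive G α s.card :=
    MulAction.isMultiplyPretransitive_of_le (n := k) hs (by rwa [Nat.card_eq_fintype_card])
  let e : Fin s.card ↪ α := (s.equivFinOfCardEq rfl).symm.toEmbedding.trans
    (Function.Embedding.subtype _)
  have he : ∀ i, e i ∈ s := fun i => ((s.equivFinOfCardEq rfl).symm i).2
  let e' : Fin s.card ↪ α := ⟨fun i => f (e i), fun i j hij =>
    e.injective (hf (Finset.mem_coe.mpr (he i)) (Finset.mem_coe.mpr (he j)) hij)⟩
  obtain ⟨x, hx⟩ := hj.exists_smul_eq e e'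
  refine ⟨x.1, x.2, fun y hy => ?_⟩
  have := congrArg (fun t : Fin s.card ↪ α => t (s.equivFinOfCardEq rfl ⟨y, hy⟩)) hx
  have h' : x • y = f y := by simpa [e, e'] using this
  exact h'

theorem injOn_upd (s : Finset α) (x z : α) (hz : ∀ t ∈ s, t ≠ x → t ≠ z) :
    Set.InjOn (fun t => if t = x then z else t) (s : Set α) := by
  intro a ha b hb hab
  simp only at hab
  by_cases h1 : a = x <;> by_cases h2 : b = x
  · rw [h1, h2]
  · rw [if_pos h1, if_neg h2] at hab; exact absurd hab.symm (hz b hb h2)
  · rw [if_neg h1, if_pos h2] at hab; exact absurd hab (hz a ha h1)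
  · rw [if_neg h1, if_neg h2] at hab; exact hab

theorem exists_good (g : Perm α) : ∀ j : ℕ, j ≤ g.support.card →
    ∃ D : Finset α, D ⊆ g.support ∧ D.card = j ∧
      (D.filter (fun y => g.symm y ∉ D)).card ≤ 1 := by
  intro j
  induction j with
  | zero => intro _; exact ⟨∅, Finset.empty_subset _, rfl, by simp⟩
  | succ j ih =>
    intro hj
    obtain ⟨D, hDs, hDc, hDst⟩ := ih (by omega)
    by_cases hinv : ∀ y ∈ D, g y ∈ D
    · have himg : D.image g = D := Finset.eq_of_subset_of_card_le (by
          intro y hy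
          obtain ⟨y', hy', rfl⟩ := Finset.mem_image.mp hy
          exact hinv y' hy') (by rw [Finset.card_image_of_injective _ g.injective])
      have hinv' : ∀ y ∈ D, g.symm y ∈ D := by
        intro y hy
        rw [← himg] at hy
        obtain ⟨y', hy', rfl⟩ := Finset.mem_image.mp hy
        rw [Equiv.symm_apply_apply]; exact hy'
      obtain ⟨x, hxs, hxD⟩ : ∃ x ∈ g.support, x ∉ D := by
        by_contra hcon; push Not at hcon
        have := Finset.card_le_card (fun x hx => hcon x hx : g.support ⊆ D)
        omega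
      refine ⟨insert x D, Finset.insert_subset hxs hDs,
        by rw [Finset.card_insert_of_notMem hxD, hDc], ?_⟩
      have hsub : (insert x D).filter (fun y => g.symm y ∉ insert x D) ⊆ {x} := by
        intro y hy
        rw [Finset.mem_filter, Finset.mem_insert] at hy
        rw [Finset.mem_singleton]
        rcases hy.1 with h | h
        · exact h
        · exact absurd (Finset.mem_insert_of_mem (hinv' y h)) hy.2
      exact le_trans (Finset.card_le_card hsub) (by simp)
    · push Not at hinv
      obtain ⟨e, heD, hge⟩ := hinv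
      have hges : g e ∈ g.support := by
        rw [Equiv.Perm.apply_mem_support]; exact hDs heD
      refine ⟨insert (g e) D, Finset.insert_subset hges hDs,
        by rw [Finset.card_insert_of_notMem hge, hDc], ?_⟩
      have hsub : (insert (g e) D).filter (fun y => g.symm y ∉ insert (g e) D) ⊆
          D.filter (fun y => g.symm y ∉ D) := by
        intro y hy
        rw [Finset.mem_filter, Finset.mem_insert] at hy
        rw [Finset.mem_filter]
        rcases hy.1 with h | h
        · exfalso; apply hy.2; rw [h, Equiv.symm_apply_apply]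
          exact Finset.mem_insert_of_mem heD
        · exact ⟨h, fun h' => hy.2 (Finset.mem_insert_of_mem h')⟩
      exact le_trans (Finset.card_le_card hsub) hDst

theorem supp_sub (g h : Perm α) (D : Finset α) (hfix : ∀ y ∈ g.support \ D, h y = y) :
    (g⁻¹ * (h * g * h⁻¹)).support ⊆
      D ∪ D.image h ∪ (g.support \ D).filter (fun y => g y ∈ D) := by
  intro y hy
  rw [Perm.mem_support] at hy
  by_contra hcon
  simp only [Finset.mem_union, Finset.mem_image, Finset.mem_filter, Finset.mem_sdiff,
    not_or] at hcon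
  obtain ⟨⟨hyD, hyhD⟩, hyB⟩ := hcon
  apply hy
  simp only [Perm.mul_apply]
  by_cases hyΓ : y ∈ g.support
  · have hyS : y ∈ g.support \ D := Finset.mem_sdiff.mpr ⟨hyΓ, hyD⟩
    have h1 : h⁻¹ y = y := by rw [Perm.inv_eq_iff_eq, hfix y hyS]
    have hgy : g y ∈ g.support := Perm.apply_mem_support.mpr hyΓ
    have hgyD : g y ∉ D := fun hh => hyB ⟨⟨hyΓ, hyD⟩, hh⟩
    have h2 : h (g y) = g y := hfix _ (Finset.mem_sdiff.mpr ⟨hgy, hgyD⟩)
    rw [h1, h2, Perm.inv_eq_iff_eq]
  · have hgy : g y = y := Perm.notMem_support.mp hyΓ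
    have h3 : h⁻¹ y ∉ g.support := by
      intro hh
      by_cases hD' : h⁻¹ y ∈ D
      · exact hyhD ⟨h⁻¹ y, hD', by rw [Perm.inv_def, Equiv.apply_symm_apply]⟩
      · have := hfix _ (Finset.mem_sdiff.mpr ⟨hh, hD'⟩)
        rw [Perm.inv_def, Equiv.apply_symm_apply] at this
        rw [Perm.inv_def, ← this] at hh
        exact hyΓ hh
    have h4 : g (h⁻¹ y) = h⁻¹ y := Perm.notMem_support.mp h3
    have h5 : h (h⁻¹ y) = y := by rw [Perm.inv_def, Equiv.apply_symm_apply]
    rw [h4, h5, Perm.inv_eq_iff_eq, hgy]

theorem reduce (G : Subgroup (Perm α)) {k : ℕ} (hkn : k ≤ Fintype.card α)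
    (hG : MulAction.IsMultiplyPretransitive G α k) (g : Perm α) (hg : g ∈ G)
    (hm4 : 4 ≤ g.support.card) (hm : g.support.card + 3 ≤ 2 * k) :
    ∃ c ∈ G, c ≠ 1 ∧ c.support.card < g.support.card := by
  classical
  have hk4 : 4 ≤ k := by omega
  have hmn : g.support.card ≤ Fintype.card α := Finset.card_le_univ _
  have hcG : ∀ h : Perm α, h ∈ G → g⁻¹ * (h * g * h⁻¹) ∈ G := fun h hhG =>
    G.mul_mem (G.inv_mem hg) (G.mul_mem (G.mul_mem hhG hg) (G.inv_mem hhG))
  by_cases hkn' : Fintype.card α ≤ k
  · obtain ⟨a, b, hab⟩ : ∃ a b : α, a ≠ b :=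
      Fintype.exists_pair_of_one_lt_card (by omega)
    obtain ⟨h, hhG, hh⟩ := exists_mem_of_injOn G hkn hG Finset.univ
      (by rw [Finset.card_univ]; exact hkn') (Equiv.swap a b) (Equiv.injective _).injOn
    have : h = Equiv.swap a b := Equiv.ext (fun y => hh y (Finset.mem_univ y))
    subst this
    refine ⟨_, hhG, ?_, ?_⟩
    · intro h1; exact hab (Equiv.swap_eq_one_iff.mp h1)
    · rw [Equiv.Perm.card_support_swap hab]; omega
  push Not at hkn'
  by_cases hF : ∃ z₀, g z₀ = z₀
  swap
  · push Not at hF
    obtain ⟨y⟩ : Nonempty α := Fintype.card_pos_iff.mp (by omega)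
    obtain ⟨w, -, hw⟩ := Finset.exists_mem_notMem_of_card_lt_card
      (s := ({y, g y, g.symm y} : Finset α)) (t := Finset.univ)
      (by rw [Finset.card_univ]; exact lt_of_le_of_lt Finset.card_le_three (by omega))
    simp only [Finset.mem_insert, Finset.mem_singleton, not_or] at hw
    obtain ⟨hwy, hwgy, hwgsy⟩ := hw
    obtain ⟨u', -, hu'⟩ := Finset.exists_mem_notMem_of_card_lt_card
      (s := ({y, g y, w, g w} : Finset α)) (t := Finset.univ)
      (by rw [Finset.card_univ]; exact lt_of_le_of_lt Finset.card_le_four (by omega))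
    simp only [Finset.mem_insert, Finset.mem_singleton, not_or] at hu'
    obtain ⟨hu'y, hu'gy, hu'w, hu'gw⟩ := hu'
    have hgwy : g w ≠ y := fun h => hwgsy (by rw [← h, Equiv.symm_apply_apply])
    have hgwgy : g w ≠ g y := fun h => hwy (g.injective h)
    have hgww : g w ≠ w := hF w
    obtain ⟨h, hhG, hh⟩ := exists_mem_of_injOn G hkn hG {y, g y, w, g w}
      (le_trans Finset.card_le_four hk4) (fun t => if t = g w then u' else t)
      (injOn_upd _ (g w) u' (by
        intro t ht htgw hz
        simp only [Finset.mem_insert, Finset.mem_singleton] at ht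
        rcases ht with h1 | h1 | h1 | h1
        · exact hu'y (hz ▸ h1)
        · exact hu'gy (hz ▸ h1)
        · exact hu'w (hz ▸ h1)
        · exact htgw h1))
    have hy' : h y = y := by
      have := hh y (by simp)
      rwa [if_neg (Ne.symm hgwy)] at this
    have hgy' : h (g y) = g y := by
      have := hh (g y) (by simp)
      rwa [if_neg (Ne.symm hgwgy)] at this
    have hw' : h w = w := by
      have := hh w (by simp)
      rwa [if_neg (Ne.symm hgww)] at this
    have hgw' : h (g w) = u' := by
      have := hh (g w) (by simp)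
      rwa [if_pos rfl] at this
    refine ⟨g⁻¹ * (h * g * h⁻¹), hcG h hhG, ?_, ?_⟩
    · intro h1
      have := congrArg (fun σ : Perm α => σ w) h1
      simp only [Perm.mul_apply, Perm.one_apply] at this
      have hinvw : h⁻¹ w = w := by rw [Perm.inv_eq_iff_eq, hw']
      rw [hinvw, hgw', Perm.inv_eq_iff_eq] at this
      exact hu'gw this
    · have hfixy : (g⁻¹ * (h * g * h⁻¹)) y = y := by
        simp only [Perm.mul_apply]
        have hinvy : h⁻¹ y = y := by rw [Perm.inv_eq_iff_eq, hy']
        rw [hinvy, hgy', Perm.inv_eq_iff_eq]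
      have hsupp : g.support = Finset.univ := by
        ext t; simp [hF t]
      rw [hsupp]
      apply Finset.card_lt_card
      rw [Finset.ssubset_univ_iff]
      intro h1
      have : y ∈ (g⁻¹ * (h * g * h⁻¹)).support := by rw [h1]; exact Finset.mem_univ y
      exact (Perm.mem_support.mp this) hfixy
  obtain ⟨z₀, hz₀⟩ := hF
  obtain ⟨d, hd1, hdm, h2d, hSk⟩ : ∃ d : ℕ, 1 ≤ d ∧ d ≤ g.support.card ∧
      2 * d + 1 ≤ g.support.card ∧ g.support.card - d + 1 ≤ k := by
    by_cases hmk : g.support.card ≤ k
    · exact ⟨1, le_rfl, by omega, by omega, by omega⟩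
    · exact ⟨g.support.card - k + 1, by omega, by omega, by omega, by omega⟩
  obtain ⟨D, hDs, hDc, hDst⟩ := exists_good g d hdm
  have hScard : (g.support \ D).card = g.support.card - d := by
    rw [Finset.card_sdiff_of_subset hDs, hDc]
  have hB : ((g.support \ D).filter (fun y => g y ∈ D)).card ≤
      (D.filter (fun y => g.symm y ∉ D)).card := by
    apply Finset.card_le_card_of_injOn (fun y => g y)
    · intro y hy
      rw [Finset.mem_coe, Finset.mem_filter, Finset.mem_sdiff] at hy
      rw [Finset.mem_coe, Finset.mem_filter]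
      exact ⟨hy.2, by rw [Equiv.symm_apply_apply]; exact hy.1.2⟩
    · exact g.injective.injOn
  have hcardbound : ∀ h : Perm α, (∀ y ∈ g.support \ D, h y = y) →
      (g⁻¹ * (h * g * h⁻¹)).support.card ≤
        (D ∪ D.image h).card + (D.filter (fun y => g.symm y ∉ D)).card := by
    intro h hfix
    refine le_trans (Finset.card_le_card (supp_sub g h D hfix)) ?_
    refine le_trans (Finset.card_union_le _ _) ?_
    exact Nat.add_le_add_left hB _
  by_cases hcase : (D.filter (fun y => g.symm y ∉ D)).Nonempty ∧ 2 ≤ d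
  · obtain ⟨⟨y₀, hy₀⟩, hd2⟩ := hcase
    rw [Finset.mem_filter] at hy₀
    obtain ⟨z, hzD, hzy₀⟩ := Finset.exists_mem_ne (by rw [hDc]; omega : 1 < D.card) y₀
    obtain ⟨h, hhG, hh⟩ := exists_mem_of_injOn G hkn hG (insert y₀ (g.support \ D)) (by
        rw [Finset.card_insert_of_notMem (by simp [hy₀.1]), hScard]; exact hSk)
      (fun t => if t = y₀ then z else t) (injOn_upd _ y₀ z (by
        intro t ht hty hz
        rw [Finset.mem_insert] at ht
        rcases ht with h1 | h1
        · exact hty h1
        · rw [hz] at h1; exact (Finset.mem_sdiff.mp h1).2 hzD))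
    have hfix : ∀ y ∈ g.support \ D, h y = y := by
      intro y hy
      have := hh y (Finset.mem_insert_of_mem hy)
      rw [if_neg (by rintro rfl; exact (Finset.mem_sdiff.mp hy).2 hy₀.1)] at this
      exact this
    have hhy₀ : h y₀ = z := by
      have := hh y₀ (Finset.mem_insert_self _ _)
      rwa [if_pos rfl] at this
    refine ⟨g⁻¹ * (h * g * h⁻¹), hcG h hhG, ?_, ?_⟩
    · intro h1
      have he'Γ : g.symm y₀ ∈ g.support := by
        rw [← Perm.apply_mem_support, Equiv.apply_symm_apply]; exact hDs hy₀.1
      have he'S : g.symm y₀ ∈ g.support \ D := Finset.mem_sdiff.mpr ⟨he'Γ, hy₀.2⟩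
      have := congrArg (fun σ : Perm α => σ (g.symm y₀)) h1
      simp only [Perm.mul_apply, Perm.one_apply] at this
      have hinv : h⁻¹ (g.symm y₀) = g.symm y₀ := by rw [Perm.inv_eq_iff_eq, hfix _ he'S]
      rw [hinv, Equiv.apply_symm_apply, hhy₀, Perm.inv_eq_iff_eq, Equiv.apply_symm_apply] at this
      exact hzy₀ this
    · have h1 := hcardbound h hfix
      have h2 : (D ∪ D.image h).card + 1 ≤ 2 * d := by
        have h3 := Finset.card_union_add_card_inter D (D.image h)
        have h4 : 1 ≤ (D ∩ D.image h).card := Finset.card_pos.mpr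
          ⟨z, Finset.mem_inter.mpr ⟨hzD, Finset.mem_image.mpr ⟨y₀, hy₀.1, hhy₀⟩⟩⟩
        rw [Finset.card_image_of_injective _ h.injective, hDc] at h3
        omega
      omega
  · obtain ⟨x, hxD⟩ : D.Nonempty := Finset.card_pos.mp (by rw [hDc]; omega)
    have hz₀Γ : z₀ ∉ g.support := Perm.notMem_support.mpr hz₀
    obtain ⟨h, hhG, hh⟩ := exists_mem_of_injOn G hkn hG (insert x (g.support \ D)) (by
        rw [Finset.card_insert_of_notMem (by simp [hxD]), hScard]; exact hSk)
      (fun t => if t = x then z₀ else t) (injOn_upd _ x z₀ (by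
        intro t ht htx hz
        rw [Finset.mem_insert] at ht
        rcases ht with h1 | h1
        · exact htx h1
        · rw [hz] at h1; exact hz₀Γ (Finset.mem_sdiff.mp h1).1))
    have hfix : ∀ y ∈ g.support \ D, h y = y := by
      intro y hy
      have := hh y (Finset.mem_insert_of_mem hy)
      rw [if_neg (by rintro rfl; exact (Finset.mem_sdiff.mp hy).2 hxD)] at this
      exact this
    have hhx : h x = z₀ := by
      have := hh x (Finset.mem_insert_self _ _)
      rwa [if_pos rfl] at this
    refine ⟨g⁻¹ * (h * g * h⁻¹), hcG h hhG, ?_, ?_⟩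
    · intro h1
      have := congrArg (fun σ : Perm α => σ z₀) h1
      simp only [Perm.mul_apply, Perm.one_apply] at this
      have hinv : h⁻¹ z₀ = x := by rw [Perm.inv_eq_iff_eq, hhx]
      rw [hinv, Perm.inv_eq_iff_eq, hz₀] at this
      rw [← hhx] at this
      have := h.injective this
      exact (Perm.mem_support.mp (hDs hxD)) this
    · have h1 := hcardbound h hfix
      have h2 : (D ∪ D.image h).card ≤ 2 * d := by
        refine le_trans (Finset.card_union_le _ _) ?_
        rw [Finset.card_image_of_injective _ h.injective, hDc]; omega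
      by_cases hSt : (D.filter (fun y => g.symm y ∉ D)).Nonempty
      · have hd' : d = 1 := by
          by_contra hne; exact hcase ⟨hSt, by omega⟩
        omega
      · rw [Finset.not_nonempty_iff_eq_empty] at hSt
        rw [hSt, Finset.card_empty] at h1
        omega

end

/-- A `k`-transitive permutation group (`k ≥ 3`) with a non-identity element of support smaller than `2k - 2` contains a non-identity element of support at most 3, and therefore contains the alternating group. -/
theorem result {α : Type*} [Fintype α] [DecidableEq α] (G : Subgroup (Equiv.Perm α)) {k : ℕ} (hk : 3 ≤ k) (hkn : k ≤ Fintype.card α) (hG : MulAction.IsMultiplyPretransitive G α k) (g : Equiv.Perm α) (hg : g ∈ G) (hg1 : g ≠ 1) (hsupp : g.support.card < 2 * k - 2) : (∃ h : Equiv.Perm α, h ∈ G ∧ h ≠ 1 ∧ h.support.card ≤ 3) ∧ alternatingGroup α ≤ G := by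
  classical
  have hex : ∃ j, ∃ x ∈ G, x ≠ 1 ∧ x.support.card = j := ⟨_, g, hg, hg1, rfl⟩
  obtain ⟨x, hxG, hx1, hxc⟩ := Nat.find_spec hex
  have hmin : ∀ y ∈ G, y ≠ 1 → Nat.find hex ≤ y.support.card :=
    fun y hy hy1 => Nat.find_min' hex ⟨y, hy, hy1, rfl⟩
  have hle : x.support.card ≤ g.support.card := by rw [hxc]; exact hmin g hg hg1
  have hx3 : x.support.card ≤ 3 := by
    by_contra hcon
    push Not at hcon
    obtain ⟨c, hcG, hc1, hclt⟩ := reduce G hkn hG x hxG hcon (by omega)
    have := hmin c hcG hc1
    omega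
  have hprim : MulAction.IsPreprimitive G α := by
    have h2 : MulAction.IsMultiplyPretransitive G α 2 :=
      MulAction.isMultiplyPretransitive_of_le (n := k) (by omega)
        (by rwa [Nat.card_eq_fintype_card])
    exact MulAction.isPreprimitive_of_is_two_pretransitive h2
  refine ⟨⟨x, hxG, hx1, hx3⟩, ?_⟩
  have h2 : 2 ≤ x.support.card := Equiv.Perm.two_le_card_support_of_ne_one hx1
  rcases (by omega : x.support.card = 2 ∨ x.support.card = 3) with h | h
  · have hsw : x.IsSwap := Equiv.Perm.card_support_eq_two.mp h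
    have := Equiv.Perm.subgroup_eq_top_of_isPreprimitive_of_isSwap_mem hprim x hsw hxG
    rw [this]; exact le_top
  · have h3 : x.IsThreeCycle := card_support_eq_three_iff.mp h
    exact Equiv.Perm.alternatingGroup_le_of_isPreprimitive_of_isThreeCycle_mem hprim h3 hxG

end Cfsg.Agent.S0711
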