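import Cfsg.Statements.S0006
import Cfsg.Agent.Helper1.HallConv

set_option autoImplicit false
open Cfsg

namespace Cfsg.Agent.S0006

/-- Converse of Hall's Theorem: if for every prime p a finite group has a subgroup of index equal to the p-part of the group order (a Hall p-complement), then the group is solvable. -/
theorem result {G : Type*} [Group G] [Finite G]
    (h : ∀ p : ℕ, p.Prime → ∃ H : Subgroup G, H.index = p ^ (Nat.card G).factorization p) :
    Group.IsSolvable G := by
  exact Cfsg.Agent.Helper1.hall_converse_aux (Nat.card G) G rfl h

end Cfsg.Agent.S0006
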