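import Cfsg.Statements.S0007

set_option autoImplicit false
open Pointwise
open Cfsg

namespace Cfsg.Agent.S0007

/-- Subgroups of coprime index: the intersection has index equal to the product of the indices, and every element is a product of an element of the first subgroup and an element of the second. -/
theorem result {G : Type*} [Group G] [Finite G] (H K : Subgroup G)
    (h : H.index.Coprime K.index) :
    (H ⊓ K).index = H.index * K.index ∧ ∀ g : G, ∃ x ∈ H, ∃ y ∈ K, g = x * y := by
  have hH : H.index ≠ 0 := Subgroup.index_ne_zero_of_finite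
  have hK : K.index ≠ 0 := Subgroup.index_ne_zero_of_finite
  have hHK : (H ⊓ K).index ≠ 0 := Subgroup.index_ne_zero_of_finite
  have h1 : (H ⊓ K).index = H.index * K.index := by
    apply le_antisymm (Subgroup.index_inf_le)
    apply Nat.le_of_dvd (Nat.pos_of_ne_zero hHK)
    exact Nat.Coprime.mul_dvd_of_dvd_of_dvd h (Subgroup.index_dvd_of_le inf_le_left)
      (Subgroup.index_dvd_of_le inf_le_right)
  refine ⟨h1, ?_⟩
  have h2 : K.relIndex H = K.index := by
    have := Subgroup.relIndex_mul_index (inf_le_left : H ⊓ K ≤ H)
    rw [Subgroup.inf_relIndex_left, h1, mul_comm] at this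
    exact Nat.eq_of_mul_eq_mul_left (Nat.pos_of_ne_zero hH) this
  let f : H ⧸ K.subgroupOf H → G ⧸ K := Quotient.map' (fun x => (x : G)) (by
    intro a b hab
    rw [QuotientGroup.leftRel_apply] at hab ⊢
    exact hab)
  have hf : Function.Injective f := by
    intro a b
    induction a using Quotient.inductionOn' with | h a => ?_
    induction b using Quotient.inductionOn' with | h b => ?_
    intro hab
    have hab' : ((a : G) : G ⧸ K) = ((b : G) : G ⧸ K) := hab
    rw [QuotientGroup.eq] at hab'
    exact Quotient.sound' (by rw [QuotientGroup.leftRel_apply]; exact hab')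
  have hbij : Function.Bijective f :=
    (Nat.bijective_iff_injective_and_card f).mpr ⟨hf, by
      have e1 : Nat.card (H ⧸ K.subgroupOf H) = K.relIndex H := rfl
      have e2 : Nat.card (G ⧸ K) = K.index := rfl
      rw [e1, e2, h2]⟩
  intro g
  obtain ⟨q, hq⟩ := hbij.2 (g : G ⧸ K)
  induction q using Quotient.inductionOn' with | h x => ?_
  have hq' : ((x : G) : G ⧸ K) = (g : G ⧸ K) := hq
  exact ⟨x, x.2, (x : G)⁻¹ * g, QuotientGroup.eq.mp hq', (mul_inv_cancel_left _ _).symm⟩

end Cfsg.Agent.S0007
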