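import Cfsg.Statements.S0011
import Cfsg.Agent.Helper2.Gaschutz

set_option autoImplicit false
open Cfsg

namespace Cfsg.Agent.S0011

/-- If the Frattini quotient of a finite group is nilpotent then the group is nilpotent. -/
theorem result {G : Type*} [Group G] [Finite G]
    (h : Group.IsNilpotent (G ⧸ frattini G)) : Group.IsNilpotent G := by
  have h1 : Group.IsNilpotent ((⊤ : Subgroup G).map (QuotientGroup.mk' (frattini G))) := by
    rw [← MonoidHom.range_eq_map, MonoidHom.range_eq_top.mpr (QuotientGroup.mk'_surjective _)]
    exact Group.nilpotent_of_mulEquiv Subgroup.topEquiv.symm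
  have h2 : Group.IsNilpotent (⊤ : Subgroup G) :=
    Cfsg.Agent.Helper2.isNilpotent_of_isNilpotent_map_frattini ⊤ h1
  exact Group.nilpotent_of_mulEquiv Subgroup.topEquiv

end Cfsg.Agent.S0011
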