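import Cfsg.Statements.S0013
import Cfsg.Agent.Helper47.Coprime

set_option autoImplicit false
open Cfsg

namespace Cfsg.Agent.S0013

/-- In a finite p-group the Frattini subgroup is the smallest normal subgroup with elementary abelian quotient: it lies below any normal subgroup containing all commutators and all p-th powers. -/
theorem result {G : Type*} [Group G] [Finite G] (p : ℕ) [Fact p.Prime]
    (hG : IsPGroup p G) (N : Subgroup G) [N.Normal] (hcomm : commutator G ≤ N) (hpow : ∀ x : G, x ^ p ∈ N) :
    frattini G ≤ N := by
  have hc : IsMulCommutative (G ⧸ N) :=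
    Subgroup.Normal.quotient_commutative_iff_commutator_le.mpr hcomm
  let _inst : CommGroup (G ⧸ N) :=
    { (inferInstance : Group (G ⧸ N)) with mul_comm := fun a b => mul_comm' a b }
  have h := Cfsg.Agent.Helper47.frattini_le_ker p (QuotientGroup.mk' N) (fun x => by
    rw [← map_pow]; exact (QuotientGroup.eq_one_iff _).mpr (hpow x))
  rwa [QuotientGroup.ker_mk'] at h

end Cfsg.Agent.S0013
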