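import Cfsg.Statements.S0015
import Mathlib.GroupTheory.Nilpotent
import Mathlib.Tactic.Group

set_option autoImplicit false
open Cfsg

namespace Cfsg.Agent.S0015

open scoped commutatorElement in
/-- A nontrivial normal subgroup of a nilpotent group meets the centre nontrivially
(proof as in S0065 of helper2). -/
theorem inf_center_ne_bot {G : Type*} [Group G] [Group.IsNilpotent G]
    (N : Subgroup G) [hNn : N.Normal] (hN : N ≠ ⊥) : N ⊓ Subgroup.center G ≠ ⊥ := by
  classical
  obtain ⟨n, hn⟩ := Group.IsNilpotent.nilpotent G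
  have hex : ∃ i, N ⊓ Subgroup.upperCentralSeries G i ≠ ⊥ := ⟨n, by rw [hn, inf_top_eq]; exact hN⟩
  have hi := Nat.find_spec hex
  have hmin := fun j => Nat.find_min hex (m := j)
  set i := Nat.find hex with hi_def
  have hi0 : i ≠ 0 := by
    intro h0
    rw [h0, Subgroup.upperCentralSeries_zero, inf_bot_eq] at hi
    exact hi rfl
  obtain ⟨j, hj⟩ := Nat.exists_eq_succ_of_ne_zero hi0
  have hjbot : N ⊓ Subgroup.upperCentralSeries G j = ⊥ := by
    by_contra hcon
    exact hmin j (by omega) hcon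
  obtain ⟨x, hx, hx1⟩ : ∃ x : G, x ∈ N ⊓ Subgroup.upperCentralSeries G i ∧ x ≠ 1 := by
    by_contra hcon
    apply hi
    rw [eq_bot_iff]
    intro x hx
    rw [Subgroup.mem_bot]
    by_contra hx1
    exact hcon ⟨x, hx, hx1⟩
  intro hbot
  apply hx1
  have hxc : x ∈ N ⊓ Subgroup.center G := by
    refine Subgroup.mem_inf.mpr ⟨hx.1, ?_⟩
    rw [Subgroup.mem_center_iff]
    intro y
    have hxi : x ∈ Subgroup.upperCentralSeries G (j + 1) := by
      rw [← Nat.succ_eq_add_one, ← hj]; exact hx.2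
    rw [Subgroup.mem_upperCentralSeries_succ_iff] at hxi
    have h1 : ⁅x, y⁆ ∈ N ⊓ Subgroup.upperCentralSeries G j := by
      refine Subgroup.mem_inf.mpr ⟨?_, hxi y⟩
      have : y * x⁻¹ * y⁻¹ ∈ N := hNn.conj_mem _ (N.inv_mem hx.1) y
      have h2 := N.mul_mem hx.1 this
      rw [commutatorElement_def]
      simpa [mul_assoc] using h2
    rw [hjbot, Subgroup.mem_bot, commutatorElement_eq_one_iff_mul_comm] at h1
    exact h1.symm
  rw [hbot, Subgroup.mem_bot] at hxc
  exact hxc

/-- In a finite nilpotent group, an abelian normal subgroup that is maximal among abelian normal subgroups equals its own centralizer. -/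
theorem result {G : Type*} [Group G] [Finite G] [Group.IsNilpotent G]
    (N : Subgroup G) [N.Normal] [IsMulCommutative N]
    (hmax : ∀ M : Subgroup G, M.Normal → IsMulCommutative M → N ≤ M → M = N) :
    Subgroup.centralizer (N : Set G) = N := by
  have hNC : N ≤ Subgroup.centralizer (N : Set G) := by
    intro a ha
    rw [Subgroup.mem_centralizer_iff]
    intro b hb
    exact congrArg Subtype.val (mul_comm' (⟨b, hb⟩ : N) ⟨a, ha⟩)
  by_contra hne
  have hCN : ¬ Subgroup.centralizer (N : Set G) ≤ N := fun h => hne (le_antisymm h hNC)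
  have hQnil : Group.IsNilpotent (G ⧸ N) :=
    Group.nilpotent_of_surjective (QuotientGroup.mk' N) (QuotientGroup.mk'_surjective N)
  have hCn : (Subgroup.centralizer (N : Set G)).Normal := inferInstance
  have hCbn : ((Subgroup.centralizer (N : Set G)).map (QuotientGroup.mk' N)).Normal :=
    Subgroup.Normal.map hCn _ (QuotientGroup.mk'_surjective N)
  have hCb0 : (Subgroup.centralizer (N : Set G)).map (QuotientGroup.mk' N) ≠ ⊥ := by
    intro h0
    apply hCN
    intro c hc
    have : (QuotientGroup.mk' N) c ∈ (Subgroup.centralizer (N : Set G)).map (QuotientGroup.mk' N) :=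
      Subgroup.mem_map_of_mem _ hc
    rw [h0, Subgroup.mem_bot] at this
    exact (QuotientGroup.eq_one_iff c).mp this
  have hz := inf_center_ne_bot _ hCb0
  obtain ⟨z, hz, hz1⟩ : ∃ z : G ⧸ N, z ∈ (Subgroup.centralizer (N : Set G)).map (QuotientGroup.mk' N) ⊓
      Subgroup.center (G ⧸ N) ∧ z ≠ 1 := by
    by_contra hcon
    apply hz
    rw [eq_bot_iff]
    intro y hy
    rw [Subgroup.mem_bot]
    by_contra hy1
    exact hcon ⟨y, hy, hy1⟩
  obtain ⟨x, hxC, rfl⟩ := Subgroup.mem_map.mp hz.1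
  have hzc : (QuotientGroup.mk' N) x ∈ Subgroup.center (G ⧸ N) := hz.2
  have hxN : x ∉ N := fun h => hz1 ((QuotientGroup.eq_one_iff x).mpr h)
  have hZn : (Subgroup.zpowers ((QuotientGroup.mk' N) x)).Normal := by
    refine ⟨fun y hy g => ?_⟩
    have hyc : y ∈ Subgroup.center (G ⧸ N) := by
      obtain ⟨k, rfl⟩ := Subgroup.mem_zpowers_iff.mp hy
      exact Subgroup.zpow_mem _ hzc k
    rw [Subgroup.mem_center_iff] at hyc
    rw [hyc g, mul_inv_cancel_right]
    exact hy
  set M : Subgroup G := (Subgroup.zpowers ((QuotientGroup.mk' N) x)).comap (QuotientGroup.mk' N) with hM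
  have hMn : M.Normal := Subgroup.Normal.comap hZn _
  have hNM : N ≤ M := by
    intro a ha
    have h1 : (QuotientGroup.mk' N) a = 1 := (QuotientGroup.eq_one_iff a).mpr ha
    rw [hM, Subgroup.mem_comap, h1]
    exact Subgroup.one_mem _
  have hxM : x ∈ M := by
    rw [hM, Subgroup.mem_comap]; exact Subgroup.mem_zpowers _
  have hdec : ∀ a ∈ M, ∃ k : ℤ, ∃ n ∈ N, a = x ^ k * n := by
    intro a ha
    rw [hM, Subgroup.mem_comap] at ha
    obtain ⟨k, hk⟩ := Subgroup.mem_zpowers_iff.mp ha
    refine ⟨k, (x ^ k)⁻¹ * a, ?_, by group⟩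
    rw [← map_zpow] at hk
    exact QuotientGroup.eq.mp hk
  have hxk : ∀ k : ℤ, ∀ n ∈ N, n * x ^ k = x ^ k * n := by
    intro k n hn
    have : x ^ k ∈ Subgroup.centralizer (N : Set G) := Subgroup.zpow_mem _ hxC k
    exact (Subgroup.mem_centralizer_iff.mp this) n hn
  have hMc : IsMulCommutative M := by
    refine ⟨⟨fun a b => ?_⟩⟩
    obtain ⟨k, n, hn, ha⟩ := hdec a a.2
    obtain ⟨l, m, hm, hb⟩ := hdec b b.2
    apply Subtype.ext
    show (a : G) * (b : G) = (b : G) * (a : G)
    have hnm : n * m = m * n := congrArg Subtype.val (mul_comm' (⟨n, hn⟩ : N) ⟨m, hm⟩)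
    have hkl : x ^ k * x ^ l = x ^ l * x ^ k := by rw [← zpow_add, ← zpow_add, add_comm]
    rw [ha, hb]
    calc x ^ k * n * (x ^ l * m) = x ^ k * (n * x ^ l) * m := by group
      _ = x ^ k * (x ^ l * n) * m := by rw [hxk l n hn]
      _ = (x ^ k * x ^ l) * (n * m) := by group
      _ = (x ^ l * x ^ k) * (m * n) := by rw [hkl, hnm]
      _ = x ^ l * (x ^ k * m) * n := by group
      _ = x ^ l * (m * x ^ k) * n := by rw [hxk k m hm]
      _ = x ^ l * m * (x ^ k * n) := by group
  exact hxN ((hmax M hMn hMc hNM) ▸ hxM)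

end Cfsg.Agent.S0015
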