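import Cfsg.Statements.S0017
import Cfsg.Agent.Helper1.Basic
import Cfsg.Agent.Helper1.Tools2

set_option autoImplicit false
open Cfsg

namespace Cfsg.Agent.S0017

open Pointwise in
theorem aux {G : Type*} [Group G] [Finite G] [Group.IsSolvable G] (p : ℕ) [Fact p.Prime]
    (h : Cfsg.pPrimeCore p G = ⊥) :
    Subgroup.centralizer (Cfsg.pCore p G : Set G) ≤ Cfsg.pCore p G := by
  have hp : p.Prime := Fact.out
  have hPn : (Cfsg.pCore p G).Normal := Cfsg.Agent.Helper1.pCore_normal p
  have hPp : IsPGroup p (Cfsg.pCore p G) := Cfsg.Agent.Helper1.pCore_isPGroup p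
  by_contra hcon
  -- `Z = C ⊓ P`
  have hZn : (Subgroup.centralizer (Cfsg.pCore p G : Set G) ⊓ Cfsg.pCore p G).Normal :=
    inferInstance
  have hZp : IsPGroup p (Subgroup.centralizer (Cfsg.pCore p G : Set G) ⊓ Cfsg.pCore p G :
      Subgroup G) := hPp.to_le inf_le_right
  obtain ⟨j, hj⟩ := hZp.exists_card_eq
  have hZc : IsMulCommutative (Subgroup.centralizer (Cfsg.pCore p G : Set G) ⊓ Cfsg.pCore p G :
      Subgroup G) :=
    ⟨⟨fun a b => Subtype.ext ((Subgroup.mem_centralizer_iff.mp b.2.1 a.1 a.2.2))⟩⟩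
  have hsurj := QuotientGroup.mk'_surjective
    (Subgroup.centralizer (Cfsg.pCore p G : Set G) ⊓ Cfsg.pCore p G)
  have hCq0 : (Subgroup.centralizer (Cfsg.pCore p G : Set G)).map (QuotientGroup.mk'
      (Subgroup.centralizer (Cfsg.pCore p G : Set G) ⊓ Cfsg.pCore p G)) ≠ ⊥ := by
    intro h0
    apply hcon
    have h1 := (Subgroup.map_eq_bot_iff _).mp h0
    rw [QuotientGroup.ker_mk'] at h1
    exact h1.trans inf_le_right
  have hCqn : ((Subgroup.centralizer (Cfsg.pCore p G : Set G)).map (QuotientGroup.mk'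
      (Subgroup.centralizer (Cfsg.pCore p G : Set G) ⊓ Cfsg.pCore p G))).Normal :=
    Subgroup.Normal.map inferInstance _ hsurj
  obtain ⟨Mq, hMqn, hMqC, hMq0, hMqmin⟩ := Cfsg.Agent.Helper1.exists_minNormal _ hCq0
  obtain ⟨-, r, hr, hMqr⟩ := Cfsg.Agent.Helper1.minNormal_elemAbelian Mq hMq0 hMqmin
  have : Fact r.Prime := ⟨hr⟩
  have hMqpg : IsPGroup r Mq := fun x => ⟨1, by
    rw [pow_one]; exact Subtype.ext (by simpa using hMqr x x.2)⟩
  obtain ⟨k, hk⟩ := hMqpg.exists_card_eq
  have hk1 : 1 < r ^ k := hk ▸ (Subgroup.one_lt_card_iff_ne_bot Mq).mpr hMq0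
  -- `M`
  have hMn : (Mq.comap (QuotientGroup.mk'
      (Subgroup.centralizer (Cfsg.pCore p G : Set G) ⊓ Cfsg.pCore p G))).Normal := hMqn.comap _
  have hZM : Subgroup.centralizer (Cfsg.pCore p G : Set G) ⊓ Cfsg.pCore p G ≤
      Mq.comap (QuotientGroup.mk'
        (Subgroup.centralizer (Cfsg.pCore p G : Set G) ⊓ Cfsg.pCore p G)) := by
    have := MonoidHom.ker_le_comap (QuotientGroup.mk'
      (Subgroup.centralizer (Cfsg.pCore p G : Set G) ⊓ Cfsg.pCore p G)) Mq
    rwa [QuotientGroup.ker_mk'] at this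
  have hMC : Mq.comap (QuotientGroup.mk'
      (Subgroup.centralizer (Cfsg.pCore p G : Set G) ⊓ Cfsg.pCore p G)) ≤
      Subgroup.centralizer (Cfsg.pCore p G : Set G) := by
    have h1 := Subgroup.comap_mono (f := QuotientGroup.mk'
      (Subgroup.centralizer (Cfsg.pCore p G : Set G) ⊓ Cfsg.pCore p G)) hMqC
    rw [Cfsg.Agent.Helper1.comap_map_mk', sup_of_le_left inf_le_left] at h1
    exact h1
  have hMcard : Nat.card (Mq.comap (QuotientGroup.mk'
      (Subgroup.centralizer (Cfsg.pCore p G : Set G) ⊓ Cfsg.pCore p G))) = r ^ k * p ^ j := by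
    rw [Cfsg.Agent.Helper1.card_comap_mk', hk, hj]
  by_cases hrp : r = p
  · subst hrp
    have hMp : IsPGroup r (Mq.comap (QuotientGroup.mk'
        (Subgroup.centralizer (Cfsg.pCore r G : Set G) ⊓ Cfsg.pCore r G))) :=
      IsPGroup.of_card (n := k + j) (by rw [hMcard, pow_add])
    have hMP := Cfsg.Agent.Helper1.le_pCore hMn hMp
    have hMZ := Subgroup.card_le_of_le (le_inf hMC hMP)
    rw [hMcard, hj] at hMZ
    have : 0 < r ^ j := pow_pos hr.pos j
    nlinarith
  · have hcop : (p ^ j).Coprime (r ^ k) :=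
      Nat.Coprime.pow _ _ ((Nat.coprime_primes hp hr).mpr (Ne.symm hrp))
    have hrel : (Subgroup.centralizer (Cfsg.pCore p G : Set G) ⊓ Cfsg.pCore p G).relIndex
        (Mq.comap (QuotientGroup.mk'
        (Subgroup.centralizer (Cfsg.pCore p G : Set G) ⊓ Cfsg.pCore p G))) = r ^ k := by
      have h2 := Subgroup.card_mul_index ((Subgroup.centralizer (Cfsg.pCore p G : Set G) ⊓
        Cfsg.pCore p G).subgroupOf (Mq.comap (QuotientGroup.mk'
        (Subgroup.centralizer (Cfsg.pCore p G : Set G) ⊓ Cfsg.pCore p G))))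
      rw [Cfsg.Agent.Helper1.card_subgroupOf_of_le hZM, hMcard, hj] at h2
      apply Nat.eq_of_mul_eq_mul_left (pow_pos hp.pos j)
      rw [Subgroup.relIndex, h2, mul_comm]
    obtain ⟨R, hRM, -, hsupR, hRcard⟩ := Cfsg.Agent.Helper1.exists_rel_complement _ _ hZM
      (by rw [hj, hrel]; exact hcop)
    rw [hrel] at hRcard
    have hRn : R.Normal := by
      apply Subgroup.Normal.of_conjugate_fixed
      intro g
      have hsup2 : (Subgroup.centralizer (Cfsg.pCore p G : Set G) ⊓ Cfsg.pCore p G) ⊔ R =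
          (Subgroup.centralizer (Cfsg.pCore p G : Set G) ⊓ Cfsg.pCore p G) ⊔ MulAut.conj g • R := by
        have h3 : MulAut.conj g • ((Subgroup.centralizer (Cfsg.pCore p G : Set G) ⊓
            Cfsg.pCore p G) ⊔ R) = MulAut.conj g • (Mq.comap (QuotientGroup.mk'
            (Subgroup.centralizer (Cfsg.pCore p G : Set G) ⊓ Cfsg.pCore p G))) := by rw [hsupR]
        rw [Subgroup.smul_sup, Subgroup.Normal.conj_smul_eq_self g
            (Subgroup.centralizer (Cfsg.pCore p G : Set G) ⊓ Cfsg.pCore p G),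
          Subgroup.Normal.conj_smul_eq_self g (Mq.comap (QuotientGroup.mk'
            (Subgroup.centralizer (Cfsg.pCore p G : Set G) ⊓ Cfsg.pCore p G)))] at h3
        rw [h3, hsupR]
      obtain ⟨a, ha, hconj⟩ := Cfsg.Agent.Helper1.conj_of_sup_eq_abelian _ R (MulAut.conj g • R)
        (by rw [hj, hRcard]; exact hcop)
        (by rw [hj, Cfsg.Agent.Helper1.card_conj_smul, hRcard]; exact hcop) hsup2
      rw [← hconj]
      have hle : MulAut.conj a • R ≤ R := by
        intro x hx
        rw [Subgroup.mem_smul_pointwise_iff_exists] at hx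
        obtain ⟨y, hy, rfl⟩ := hx
        have h5 := Subgroup.mem_centralizer_iff.mp (hMC (hRM hy)) a ha.2
        have h6 : MulAut.conj a • y = y := by
          simp only [MulAut.smul_def, MulAut.conj_apply]
          rw [h5]; group
        rw [h6]; exact hy
      exact Subgroup.eq_of_le_of_card_ge hle (by rw [Cfsg.Agent.Helper1.card_conj_smul])
    have hRcop : (Nat.card R).Coprime p := by
      rw [hRcard]
      exact Nat.Coprime.pow_left k ((Nat.coprime_primes hr hp).mpr hrp)
    have hRle : R ≤ Cfsg.pPrimeCore p G := le_sSup ⟨hRn, hRcop⟩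
    rw [h, le_bot_iff] at hRle
    rw [hRle, Subgroup.card_bot] at hRcard
    rw [← hRcard] at hk1
    exact lt_irrefl 1 hk1

/-- In a finite solvable group whose largest normal subgroup of order prime to p is trivial, the centralizer of the p-core is contained in the p-core. -/
theorem result {G : Type*} [Group G] [Finite G] [Group.IsSolvable G] (p : ℕ) [Fact p.Prime]
    (h : Cfsg.pPrimeCore p G = ⊥) :
    Subgroup.centralizer (Cfsg.pCore p G : Set G) ≤ Cfsg.pCore p G := by
  exact aux p h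

end Cfsg.Agent.S0017
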