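import Cfsg.Statements.S0018
import Cfsg.Agent.Helper1.PPrimeCore
import Cfsg.Agent.S0017

set_option autoImplicit false
open Cfsg

namespace Cfsg.Agent.S0018

open Pointwise in
theorem aux {G : Type*} [Group G] [Finite G] [Group.IsSolvable G]
    (p : ℕ) [Fact p.Prime] (P : Sylow p G) (hP : IsMulCommutative P) :
    ((P : Subgroup G) ⊔ Cfsg.pPrimeCore p G).Normal := by
  have hKn : (Cfsg.pPrimeCore p G).Normal := Cfsg.Agent.Helper1.pPrimeCore_normal p
  have hsurj := QuotientGroup.mk'_surjective (Cfsg.pPrimeCore p G)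
  have hbot := Cfsg.Agent.Helper1.pPrimeCore_quotient_eq_bot (G := G) p
  have hcent := Cfsg.Agent.S0017.aux (G := G ⧸ Cfsg.pPrimeCore p G) p hbot
  have hPq : (Sylow.mapSurjective hsurj P : Subgroup _) =
      (P : Subgroup G).map (QuotientGroup.mk' (Cfsg.pPrimeCore p G)) :=
    Sylow.coe_mapSurjective hsurj P
  have hcomm : ∀ a ∈ (P : Subgroup G), ∀ b ∈ (P : Subgroup G), a * b = b * a :=
    fun a ha b hb => congrArg Subtype.val (mul_comm' (⟨a, ha⟩ : P) ⟨b, hb⟩)
  have h1 : Cfsg.pCore p (G ⧸ Cfsg.pPrimeCore p G) ≤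
      (P : Subgroup G).map (QuotientGroup.mk' (Cfsg.pPrimeCore p G)) := by
    rw [Cfsg.Agent.Helper1.pCore_eq_iInf_sylow, ← hPq]
    exact iInf_le _ (Sylow.mapSurjective hsurj P)
  have h2 : (P : Subgroup G).map (QuotientGroup.mk' (Cfsg.pPrimeCore p G)) ≤
      Subgroup.centralizer (Cfsg.pCore p (G ⧸ Cfsg.pPrimeCore p G) : Set _) := by
    rintro x ⟨a, ha, rfl⟩
    rw [Subgroup.mem_centralizer_iff]
    intro y hy
    obtain ⟨b, hb, rfl⟩ := h1 hy
    rw [← map_mul, ← map_mul, hcomm b hb a ha]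
  have h3 : (P : Subgroup G).map (QuotientGroup.mk' (Cfsg.pPrimeCore p G)) =
      Cfsg.pCore p (G ⧸ Cfsg.pPrimeCore p G) := le_antisymm (h2.trans hcent) h1
  have h4 : ((P : Subgroup G).map (QuotientGroup.mk' (Cfsg.pPrimeCore p G))).Normal :=
    h3 ▸ Cfsg.Agent.Helper1.pCore_normal p
  rw [← Cfsg.Agent.Helper1.comap_map_mk']
  exact h4.comap _

/-- A finite solvable group whose Sylow p-subgroups are abelian has p-length one: a Sylow p-subgroup together with the largest normal subgroup of order prime to p generates a normal subgroup. -/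
theorem result {G : Type*} [Group G] [Finite G] [Group.IsSolvable G]
    (p : ℕ) [Fact p.Prime] (P : Sylow p G) (hP : IsMulCommutative P) :
    ((P : Subgroup G) ⊔ Cfsg.pPrimeCore p G).Normal := by
  exact aux p P hP

end Cfsg.Agent.S0018
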