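import Cfsg.Statements.S0019
import Cfsg.Agent.Helper1.SZGen

set_option autoImplicit false
open Cfsg

namespace Cfsg.Agent.S0019

universe u

open Pointwise in
theorem lemX {G : Type*} [Group G] [Finite G] (p : ℕ) [Fact p.Prime] (H₁ H₂ R : Subgroup G)
    (h12 : ∀ g : G, ∃ x ∈ H₁, ∃ y ∈ H₂, g = x * y) (hR : IsPGroup p R)
    (hRH : ∀ h ∈ H₁, ∀ r ∈ R, h * r * h⁻¹ ∈ R) (hp : ¬ p ∣ H₂.index) :
    R ≤ H₂.normalCore := by
  obtain ⟨P₂⟩ := (inferInstance : Nonempty (Sylow p H₂))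
  have hP : IsPGroup p ((P₂ : Subgroup H₂).map H₂.subtype) := P₂.isPGroup'.map H₂.subtype
  have hidx : ¬ p ∣ ((P₂ : Subgroup H₂).map H₂.subtype).index := by
    rw [Subgroup.index_map_subtype]
    intro h
    rcases (Nat.Prime.dvd_mul Fact.out).mp h with h | h
    · exact P₂.not_dvd_index h
    · exact hp h
  obtain ⟨Q, hQ⟩ := hR.exists_le_sylow
  obtain ⟨g, hg⟩ := MulAction.exists_smul_eq G (hP.toSylow hidx) Q
  have hRg : R ≤ MulAut.conj g • H₂ := by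
    have h1 : (Q : Subgroup G) = MulAut.conj g • ((P₂ : Subgroup H₂).map H₂.subtype) := by
      rw [← hg]; rfl
    refine hQ.trans ?_
    rw [h1]
    exact Subgroup.pointwise_smul_le_pointwise_smul_iff.mpr (Subgroup.map_subtype_le _)
  obtain ⟨x, hx, y, hy, rfl⟩ := h12 g
  rw [map_mul, mul_smul, Subgroup.conj_smul_eq_self_of_mem hy] at hRg
  have hRH₂ : R ≤ H₂ := by
    intro r hr
    have h1 := hRg (hRH x hx r hr)
    rw [Subgroup.mem_pointwise_smul_iff_inv_smul_mem] at h1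
    simpa [MulAut.smul_def, mul_assoc] using h1
  intro r hr b
  obtain ⟨x₀, hx₀, y₀, hy₀, hb⟩ := h12 b⁻¹
  have hb' : b = y₀⁻¹ * x₀⁻¹ := by rw [← mul_inv_rev, ← hb, inv_inv]
  have h2 : x₀⁻¹ * r * x₀⁻¹⁻¹ ∈ H₂ := hRH₂ (hRH x₀⁻¹ (H₁.inv_mem hx₀) r hr)
  have h3 : b * r * b⁻¹ = y₀⁻¹ * (x₀⁻¹ * r * x₀⁻¹⁻¹) * y₀ := by rw [hb']; group
  rw [h3]
  exact H₂.mul_mem (H₂.mul_mem (H₂.inv_mem hy₀) h2) hy₀

theorem aux (k : ℕ) : ∀ (G : Type u) [Group G] [Finite G] (H₁ H₂ H₃ : Subgroup G),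
    Nat.card G = k → Group.IsSolvable H₁ → Group.IsSolvable H₂ → Group.IsSolvable H₃ →
    (∀ g : G, ∃ x ∈ H₁, ∃ y ∈ H₂, g = x * y) → (∀ g : G, ∃ x ∈ H₁, ∃ y ∈ H₃, g = x * y) →
    H₂.index.Coprime H₃.index → Group.IsSolvable G := by
  induction k using Nat.strong_induction_on with
  | _ k ih =>
    intro G _ _ H₁ H₂ H₃ hk h₁ h₂ h₃ h12 h13 hcop
    by_cases hH1 : H₁ = ⊥
    · have hs : Function.Surjective H₂.subtype := by
        intro g
        obtain ⟨x, hx, y, hy, rfl⟩ := h12 g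
        rw [hH1, Subgroup.mem_bot] at hx
        exact ⟨⟨y, hy⟩, by simp [hx]⟩
      exact Group.isSolvable_of_surjective hs
    · have hnt : Nontrivial H₁ := (Subgroup.nontrivial_iff_ne_bot H₁).mpr hH1
      obtain ⟨R₀, hR₀n, -, hR₀0, hR₀min⟩ :=
        Cfsg.Agent.Helper1.exists_minNormal (⊤ : Subgroup H₁) top_ne_bot
      obtain ⟨-, p, hp, hR₀p⟩ := Cfsg.Agent.Helper1.minNormal_elemAbelian R₀ hR₀0 hR₀min
      have : Fact p.Prime := ⟨hp⟩
      have hR₀pg : IsPGroup p R₀ := fun x => ⟨1, by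
        rw [pow_one]; exact Subtype.ext (by simpa using hR₀p x x.2)⟩
      have hRp : IsPGroup p (R₀.map H₁.subtype) := hR₀pg.map H₁.subtype
      have hRH : ∀ h ∈ H₁, ∀ r ∈ R₀.map H₁.subtype, h * r * h⁻¹ ∈ R₀.map H₁.subtype := by
        rintro h hh r ⟨r₀, hr₀, rfl⟩
        exact ⟨⟨h, hh⟩ * r₀ * ⟨h, hh⟩⁻¹, hR₀n.conj_mem r₀ hr₀ ⟨h, hh⟩, rfl⟩
      have hR0 : R₀.map H₁.subtype ≠ ⊥ :=
        (Subgroup.map_eq_bot_iff_of_injective _ H₁.subtype_injective).not.mpr hR₀0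
      have key : ∃ N : Subgroup G, N.Normal ∧ N ≠ ⊥ ∧ Group.IsSolvable N := by
        by_cases hp2 : p ∣ H₂.index
        · have hp3 : ¬ p ∣ H₃.index :=
            fun h => hp.one_lt.ne' (Nat.eq_one_of_dvd_coprimes hcop hp2 h)
          have hle := lemX p H₁ H₃ _ h13 hRp hRH hp3
          exact ⟨H₃.normalCore, inferInstance, fun h => hR0 (le_bot_iff.mp (h ▸ hle)),
            Cfsg.Agent.Helper1.isSolvable_of_le (Subgroup.normalCore_le H₃)⟩
        · have hle := lemX p H₁ H₂ _ h12 hRp hRH hp2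
          exact ⟨H₂.normalCore, inferInstance, fun h => hR0 (le_bot_iff.mp (h ▸ hle)),
            Cfsg.Agent.Helper1.isSolvable_of_le (Subgroup.normalCore_le H₂)⟩
      obtain ⟨N, hNn, hN0, hNs⟩ := key
      have hsurj := QuotientGroup.mk'_surjective N
      have hprod : ∀ J : Subgroup G, (∀ g : G, ∃ x ∈ H₁, ∃ y ∈ J, g = x * y) →
          ∀ q : G ⧸ N, ∃ x ∈ H₁.map (QuotientGroup.mk' N), ∃ y ∈ J.map (QuotientGroup.mk' N),
            q = x * y := by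
        intro J hJ q
        obtain ⟨g, rfl⟩ := hsurj q
        obtain ⟨x, hx, y, hy, rfl⟩ := hJ g
        exact ⟨_, Subgroup.mem_map_of_mem _ hx, _, Subgroup.mem_map_of_mem _ hy, map_mul _ _ _⟩
      have hq : Group.IsSolvable (G ⧸ N) :=
        ih (Nat.card (G ⧸ N)) (hk ▸ Cfsg.Agent.Helper1.card_quotient_lt N hN0) (G ⧸ N)
          (H₁.map (QuotientGroup.mk' N)) (H₂.map (QuotientGroup.mk' N))
          (H₃.map (QuotientGroup.mk' N)) rfl
          (Cfsg.Agent.Helper1.isSolvable_map _ H₁) (Cfsg.Agent.Helper1.isSolvable_map _ H₂)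
          (Cfsg.Agent.Helper1.isSolvable_map _ H₃) (hprod H₂ h12) (hprod H₃ h13)
          (Nat.Coprime.coprime_dvd_left (Subgroup.index_map_dvd H₂ hsurj)
            (Nat.Coprime.coprime_dvd_right (Subgroup.index_map_dvd H₃ hsurj) hcop))
      exact (Group.isSolvable_iff_subgroup_quotient N).mpr ⟨hNs, hq⟩

/-- A finite group that factorises as H₁H₂ and as H₁H₃ with all three subgroups solvable and the indices of H₂ and H₃ coprime is solvable. -/
theorem result {G : Type*} [Group G] [Finite G] (H₁ H₂ H₃ : Subgroup G)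
    (h₁ : Group.IsSolvable H₁) (h₂ : Group.IsSolvable H₂) (h₃ : Group.IsSolvable H₃)
    (h12 : ∀ g : G, ∃ x ∈ H₁, ∃ y ∈ H₂, g = x * y) (h13 : ∀ g : G, ∃ x ∈ H₁, ∃ y ∈ H₃, g = x * y)
    (hcop : H₂.index.Coprime H₃.index) : Group.IsSolvable G := by
  exact aux (Nat.card G) G H₁ H₂ H₃ rfl h₁ h₂ h₃ h12 h13 hcop

end Cfsg.Agent.S0019
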