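-- Statement S0022: under coprime action, fixed points pass to quotients.
import Cfsg.Statements.S0022
import Cfsg.Agent.Helper35.Coprime

set_option autoImplicit false
open Pointwise
open Cfsg

namespace Cfsg.Agent.S0022

/-- Under coprime action fixed points pass to quotients: with A normalising K, coprime orders, A or K solvable, and N an A-invariant normal subgroup of K, every coset of N in K fixed by conjugation by A contains an element centralised by A. -/
theorem result {G : Type*} [Group G] [Finite G] (A K : Subgroup G) (hAK : A ≤ Subgroup.normalizer (K : Set G))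
    (hcop : (Nat.card A).Coprime (Nat.card K)) (hsolv : Group.IsSolvable A ∨ Group.IsSolvable K)
    (N : Subgroup G) (hNK : N ≤ K) (hNnormal : K ≤ Subgroup.normalizer (N : Set G)) (hNA : A ≤ Subgroup.normalizer (N : Set G))
    (k : G) (hk : k ∈ K) (hfix : ∀ a ∈ A, a * k * a⁻¹ * k⁻¹ ∈ N) :
    ∃ c ∈ K ⊓ Subgroup.centralizer (A : Set G), k⁻¹ * c ∈ N := by
  have hcop' : (Nat.card A).Coprime (Nat.card N) :=
    Nat.Coprime.coprime_dvd_right (Subgroup.card_dvd_of_le hNK) hcop
  have hsolv' : Group.IsSolvable A ∨ Group.IsSolvable N :=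
    hsolv.imp id (Cfsg.Agent.Helper35.isSolvable_of_le hNK)
  obtain ⟨c, hc, hcn⟩ := Cfsg.Agent.Helper35.exists_fixed_in_coset hNA hcop' hsolv' k
    (fun a ha => by
      have h1 := (Subgroup.mem_normalizer_iff.mp (hNnormal (K.inv_mem hk)) _).mp (hfix a ha)
      have h2 : k⁻¹ * (a * k * a⁻¹ * k⁻¹) * k⁻¹⁻¹ = k⁻¹ * a * k * a⁻¹ := by group
      rwa [h2] at h1)
  refine ⟨c, Subgroup.mem_inf.mpr ⟨?_, hc⟩, hcn⟩
  have := K.mul_mem hk (hNK hcn)
  simpa using this

end Cfsg.Agent.S0022
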