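-- Statement S0027: under coprime action [K, A, A] = [K, A].
import Cfsg.Statements.S0027
import Cfsg.Agent.Helper35.Coprime

set_option autoImplicit false
open Pointwise
open Cfsg

namespace Cfsg.Agent.S0027

open scoped commutatorElement

/-- Under coprime action the commutator subgroup with A is stable: taking the commutator with A twice gives the same subgroup as once. -/
theorem result {G : Type*} [Group G] [Finite G] (A K : Subgroup G) (hAK : A ≤ Subgroup.normalizer (K : Set G))
    (hcop : (Nat.card A).Coprime (Nat.card K)) (hsolv : Group.IsSolvable A ∨ Group.IsSolvable K) :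
    ⁅⁅K, A⁆, A⁆ = ⁅K, A⁆ := by
  apply le_antisymm
  · exact Subgroup.commutator_mono (Cfsg.Agent.Helper35.commutator_le_of_le_normalizer hAK) le_rfl
  · rw [Subgroup.commutator_le]
    intro k hk a ha
    obtain ⟨n, hn, c, hc, rfl⟩ := Cfsg.Agent.Helper35.exists_commutator_mul_fixed hAK hcop hsolv hk
    have hca : a * c = c * a := (Subgroup.mem_centralizer_iff.mp (Subgroup.mem_inf.mp hc).2) a ha
    have h1 : ⁅n * c, a⁆ = ⁅n, a⁆ := by
      rw [commutatorElement_def, commutatorElement_def]
      have : n * c * a * (n * c)⁻¹ * a⁻¹ = n * (c * a) * c⁻¹ * n⁻¹ * a⁻¹ := by group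
      rw [this, ← hca]; group
    rw [h1]
    exact Subgroup.commutator_mem_commutator hn ha

end Cfsg.Agent.S0027
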