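import Cfsg.Statements.S0029
import Mathlib.Tactic.Group
import Mathlib.GroupTheory.Sylow
import Mathlib.GroupTheory.Frattini

set_option autoImplicit false
open Cfsg

namespace Cfsg.Agent.S0029

/-- A `q`-group `Q` acting by conjugation on `K`, trivially modulo the `K`-normal subgroup `Φ`
whose order is prime to `q`, fixes a point in every coset `k Φ`. -/
theorem fixed_in_coset {G : Type*} [Group G] [Finite G] (q : ℕ) [Fact q.Prime] (Q K Φ : Subgroup G)
    (hQ : IsPGroup q Q) (hΦK : Φ ≤ K) (hΦn : ∀ k ∈ K, ∀ f ∈ Φ, k * f * k⁻¹ ∈ Φ)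
    (hQK : Q ≤ Subgroup.normalizer (K : Set G))
    (hq : ¬ q ∣ Nat.card Φ)
    (htriv : ∀ a ∈ Q, ∀ k ∈ K, a * k * a⁻¹ * k⁻¹ ∈ Φ) (k : G) (hk : k ∈ K) :
    ∃ x ∈ K, k⁻¹ * x ∈ Φ ∧ ∀ a ∈ Q, a * x * a⁻¹ = x := by
  classical
  let S := {x : G // x ∈ K ∧ k⁻¹ * x ∈ Φ}
  have hmem : ∀ (a : Q) (x : S), (a : G) * x.1 * (a : G)⁻¹ ∈ K ∧ k⁻¹ * ((a : G) * x.1 * (a : G)⁻¹) ∈ Φ := by
    intro a x
    have h1 : (a : G) * x.1 * (a : G)⁻¹ ∈ K :=
      (Subgroup.mem_set_normalizer_iff.mp (hQK a.2) x.1).mp x.2.1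
    refine ⟨h1, ?_⟩
    have h2 := htriv a a.2 x.1 x.2.1
    have h3 := hΦn k⁻¹ (K.inv_mem hk) _ h2
    have h4 := Φ.mul_mem h3 x.2.2
    have h5 : k⁻¹ * ((a : G) * x.1 * (a : G)⁻¹) =
        k⁻¹ * ((a : G) * x.1 * (a : G)⁻¹ * x.1⁻¹) * k⁻¹⁻¹ * (k⁻¹ * x.1) := by group
    rw [h5]; exact h4
  let act : MulAction Q S :=
    { smul := fun a x => ⟨(a : G) * x.1 * (a : G)⁻¹, hmem a x⟩
      one_smul := fun x => by
        apply Subtype.ext
        show ((1 : Q) : G) * x.1 * ((1 : Q) : G)⁻¹ = x.1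
        simp
      mul_smul := fun a b x => by
        apply Subtype.ext
        show ((a * b : Q) : G) * x.1 * ((a * b : Q) : G)⁻¹ = (a : G) * ((b : G) * x.1 * (b : G)⁻¹) * (a : G)⁻¹
        simp only [Subgroup.coe_mul, mul_inv_rev]
        group }
  let e : S ≃ Φ :=
    { toFun := fun x => ⟨k⁻¹ * x.1, x.2.2⟩
      invFun := fun f => ⟨k * f.1, ⟨K.mul_mem hk (hΦK f.2), by simp⟩⟩
      left_inv := fun x => by apply Subtype.ext; simp
      right_inv := fun f => by apply Subtype.ext; simp }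
  have hcard : ¬ q ∣ Nat.card S := by rwa [Nat.card_congr e]
  obtain ⟨x, hx⟩ := hQ.nonempty_fixed_point_of_prime_not_dvd_card S hcard
  refine ⟨x.1, x.2.1, x.2.2, ?_⟩
  intro a ha
  have h1 := hx ⟨a, ha⟩
  exact congrArg Subtype.val h1

/-- A `q`-subgroup `Q` normalizing `K`, acting trivially on `K / Φ(K)`, with `q ∤ |Φ(K)|`,
centralizes `K`. -/
theorem pgroup_le_centralizer {G : Type*} [Group G] [Finite G] (q : ℕ) [Fact q.Prime] (Q K : Subgroup G)
    (hQ : IsPGroup q Q)
    (hQK : Q ≤ Subgroup.normalizer (K : Set G))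
    (hq : ¬ q ∣ Nat.card (frattini K))
    (htriv : ∀ a ∈ Q, ∀ k ∈ K, a * k * a⁻¹ * k⁻¹ ∈ (frattini K).map K.subtype) :
    Q ≤ Subgroup.centralizer (K : Set G) := by
  set Φ : Subgroup G := (frattini K).map K.subtype with hΦ
  have hΦK : Φ ≤ K := by
    intro x hx
    obtain ⟨y, -, rfl⟩ := Subgroup.mem_map.mp hx
    exact y.2
  have hΦn : ∀ k ∈ K, ∀ f ∈ Φ, k * f * k⁻¹ ∈ Φ := by
    intro k hk f hf
    obtain ⟨y, hy, rfl⟩ := Subgroup.mem_map.mp hf
    have hn : (frattini K).Normal := inferInstance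
    have := hn.conj_mem y hy ⟨k, hk⟩
    exact Subgroup.mem_map.mpr ⟨_, this, by simp⟩
  have hcard : Nat.card Φ = Nat.card (frattini K) :=
    Subgroup.card_map_of_injective K.subtype_injective
  have hq' : ¬ q ∣ Nat.card Φ := by rwa [hcard]
  have key : ((K ⊓ Subgroup.centralizer (Q : Set G)).subgroupOf K) ⊔ frattini K = ⊤ := by
    rw [eq_top_iff]
    intro y _
    obtain ⟨x, hxK, hxΦ, hfix⟩ := fixed_in_coset q Q K Φ hQ hΦK hΦn hQK hq' htriv y.1 y.2
    obtain ⟨f, hf, hfe⟩ := Subgroup.mem_map.mp hxΦ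
    have hy : y = ⟨x, hxK⟩ * f⁻¹ := by
      apply Subtype.ext
      have : (f : G) = (y : G)⁻¹ * x := hfe
      simp [this]
    rw [hy]
    refine Subgroup.mul_mem_sup ?_ (Subgroup.inv_mem _ hf)
    rw [Subgroup.mem_subgroupOf]
    refine ⟨hxK, ?_⟩
    show x ∈ Subgroup.centralizer (Q : Set G)
    rw [Subgroup.mem_centralizer_iff]
    intro a ha
    have := hfix a ha
    calc a * x = a * x * a⁻¹ * a := by group
      _ = x * a := by rw [this]
  have h2 := frattini_nongenerating key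
  rw [Subgroup.subgroupOf_eq_top] at h2
  have h3 : K ≤ Subgroup.centralizer (Q : Set G) := fun x hx => (h2 hx).2
  exact Subgroup.le_centralizer_iff.mp h3

/-- An action that is trivial on the Frattini quotient and coprime on the Frattini subgroup is trivial: if A normalises K, the orders of A and of the Frattini subgroup of K are coprime, and every commutator of an element of A with an element of K lies in the Frattini subgroup of K, then A centralises K. -/
theorem result {G : Type*} [Group G] [Finite G] (A K : Subgroup G)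
    (hAK : A ≤ Subgroup.normalizer (K : Set G))
    (hcop : (Nat.card A).Coprime (Nat.card (frattini K)))
    (htriv : ∀ a ∈ A, ∀ k ∈ K, a * k * a⁻¹ * k⁻¹ ∈ (frattini K).map K.subtype) :
    A ≤ Subgroup.centralizer (K : Set G) := by
  classical
  have hdvd : Nat.card A ∣ Nat.card (A ⊓ Subgroup.centralizer (K : Set G) : Subgroup G) := by
    rw [← Nat.factorization_prime_le_iff_dvd Nat.card_pos.ne' Nat.card_pos.ne']
    intro q hqp
    have : Fact q.Prime := ⟨hqp⟩
    rw [← Nat.Prime.pow_dvd_iff_le_factorization hqp Nat.card_pos.ne']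
    obtain ⟨Q⟩ : Nonempty (Sylow q A) := inferInstance
    have hQcard := Q.card_eq_multiplicity
    set Q' : Subgroup G := (Q : Subgroup A).map A.subtype with hQ'
    have hQ'card : Nat.card Q' = q ^ (Nat.card A).factorization q := by
      rw [← hQcard]; exact Subgroup.card_map_of_injective A.subtype_injective
    have hQ'A : Q' ≤ A := by
      intro x hx
      obtain ⟨y, -, rfl⟩ := Subgroup.mem_map.mp hx
      exact y.2
    have hQ'p : IsPGroup q Q' := IsPGroup.of_card hQ'card
    have hle : Q' ≤ A ⊓ Subgroup.centralizer (K : Set G) := by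
      refine le_inf hQ'A ?_
      by_cases h0 : (Nat.card A).factorization q = 0
      · have : Q' = ⊥ := by
          rw [← Subgroup.card_eq_one, hQ'card, h0, pow_zero]
        rw [this]; exact bot_le
      · have hqA : q ∣ Nat.card A := Nat.dvd_of_factorization_pos h0
        have hq : ¬ q ∣ Nat.card (frattini K) := by
          intro hqΦ
          have := Nat.dvd_gcd hqA hqΦ
          rw [hcop] at this
          exact hqp.one_lt.ne' (Nat.dvd_one.mp this)
        exact pgroup_le_centralizer q Q' K hQ'p (hQ'A.trans hAK) hq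
          (fun a ha k hk => htriv a (hQ'A ha) k hk)
    rw [← hQ'card]
    exact Subgroup.card_dvd_of_le hle
  have heq : A ⊓ Subgroup.centralizer (K : Set G) = A :=
    Subgroup.eq_of_le_of_card_ge inf_le_left (Nat.le_of_dvd Nat.card_pos hdvd)
  rw [← heq]; exact inf_le_right

end Cfsg.Agent.S0029
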