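-- Statement S0030: under coprime action, fixed points of a product of two invariant subgroups factor.
import Cfsg.Statements.S0030
import Cfsg.Agent.Helper35.Coprime

set_option autoImplicit false
open Pointwise
open Cfsg

namespace Cfsg.Agent.S0030

/-- Under coprime action fixed points of a product of two invariant subgroups factor: if K = X Y with X and Y normalised by A then every A-fixed element of K is a product of an A-fixed element of X and an A-fixed element of Y. -/
theorem result {G : Type*} [Group G] [Finite G] (A K : Subgroup G) (hAK : A ≤ Subgroup.normalizer (K : Set G))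
    (hcop : (Nat.card A).Coprime (Nat.card K)) (hsolv : Group.IsSolvable A ∨ Group.IsSolvable K)
    (X Y : Subgroup G) (hX : X ≤ K) (hY : Y ≤ K) (hXA : A ≤ Subgroup.normalizer (X : Set G)) (hYA : A ≤ Subgroup.normalizer (Y : Set G))
    (hXY : ∀ k ∈ K, ∃ x ∈ X, ∃ y ∈ Y, k = x * y) (k : G) (hk : k ∈ K ⊓ Subgroup.centralizer (A : Set G)) :
    ∃ x ∈ X ⊓ Subgroup.centralizer (A : Set G), ∃ y ∈ Y ⊓ Subgroup.centralizer (A : Set G), k = x * y := by
  obtain ⟨hkK, hkC⟩ := Subgroup.mem_inf.mp hk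
  obtain ⟨x, hx, y, hy, rfl⟩ := hXY k hkK
  have hD : X ⊓ Y ≤ K := inf_le_left.trans hX
  have hcop' : (Nat.card A).Coprime (Nat.card (X ⊓ Y : Subgroup G)) :=
    Nat.Coprime.coprime_dvd_right (Subgroup.card_dvd_of_le hD) hcop
  have hsolv' : Group.IsSolvable A ∨ Group.IsSolvable (X ⊓ Y : Subgroup G) :=
    hsolv.imp id (Cfsg.Agent.Helper35.isSolvable_of_le hD)
  have hnorm : A ≤ Subgroup.normalizer ((X ⊓ Y : Subgroup G) : Set G) := by
    intro a ha
    rw [Subgroup.mem_normalizer_iff]
    intro g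
    have h1 := Subgroup.mem_normalizer_iff.mp (hXA ha) g
    have h2 := Subgroup.mem_normalizer_iff.mp (hYA ha) g
    simp only [Subgroup.mem_inf, h1, h2]
  obtain ⟨c, hc, hcd⟩ := Cfsg.Agent.Helper35.exists_fixed_in_coset hnorm hcop' hsolv' x
    (fun a ha => by
      have hcomm : a * (x * y) = (x * y) * a := (Subgroup.mem_centralizer_iff.mp hkC) a ha
      have hxa : a * x * a⁻¹ ∈ X := (Subgroup.mem_normalizer_iff.mp (hXA ha) x).mp hx
      have hya : a * y⁻¹ * a⁻¹ ∈ Y :=
        (Subgroup.mem_normalizer_iff.mp (hYA ha) y⁻¹).mp (Y.inv_mem hy)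
      refine Subgroup.mem_inf.mpr ⟨?_, ?_⟩
      · have := X.mul_mem (X.inv_mem hx) hxa
        simpa [mul_assoc] using this
      · have e : x⁻¹ * a * x * a⁻¹ = y * (a * y⁻¹ * a⁻¹) := by
          have h3 : a * x = x * y * a * y⁻¹ := by
            have : a * x = a * (x * y) * y⁻¹ := by group
            rw [this, hcomm]
          have : x⁻¹ * a * x * a⁻¹ = x⁻¹ * (a * x) * a⁻¹ := by group
          rw [this, h3]; group
        rw [e]
        exact Y.mul_mem hy hya)
  obtain ⟨hd1, hd2⟩ := Subgroup.mem_inf.mp hcd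
  have hcX : c ∈ X := by
    have := X.mul_mem hx hd1
    simpa using this
  have hyY : c⁻¹ * (x * y) ∈ Y := by
    have := Y.mul_mem (Y.inv_mem hd2) hy
    have e : (x⁻¹ * c)⁻¹ * y = c⁻¹ * (x * y) := by group
    rwa [e] at this
  refine ⟨c, Subgroup.mem_inf.mpr ⟨hcX, hc⟩, c⁻¹ * (x * y),
    Subgroup.mem_inf.mpr ⟨hyY, Subgroup.mul_mem _ (Subgroup.inv_mem _ hc) hkC⟩, by group⟩

end Cfsg.Agent.S0030
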