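import Cfsg.Statements.S0031

set_option autoImplicit false
open Pointwise
open Cfsg

namespace Cfsg.Agent.S0031

/-- A fixed-point-free automorphism of a finite group maps some Sylow p-subgroup to itself. -/
theorem result {G : Type*} [Group G] [Finite G] (φ : G ≃* G)
    (hφ : MonoidHom.FixedPointFree (φ : G →* G)) (p : ℕ) [Fact p.Prime] :
    ∃ P : Sylow p G, (P : Subgroup G).map (φ : G →* G) = P := by
  obtain ⟨P⟩ := (Sylow.nonempty : Nonempty (Sylow p G))
  let φ' : MulAut G := φ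
  obtain ⟨g, hg⟩ := MulAction.exists_smul_eq G P (φ' • P)
  obtain ⟨x, hx⟩ := hφ.commutatorMap_surjective g⁻¹
  rw [MonoidHom.commutatorMap_apply] at hx
  have hx' : x / φ x = g⁻¹ := hx
  have h1 : φ x⁻¹ * g = x⁻¹ := by
    have : g = φ x * x⁻¹ := by
      rw [← inv_inv g, ← hx']
      simp [div_eq_mul_inv]
    rw [this, map_inv]
    simp
  have h2 : φ' * MulAut.conj x⁻¹ = MulAut.conj (φ x⁻¹) * φ' := by
    ext z
    simp [φ']
  have h3 : φ' • (x⁻¹ • P) = x⁻¹ • P := by
    rw [Sylow.smul_def, ← mul_smul, h2, mul_smul, ← hg, Sylow.smul_def (g := g), ← mul_smul,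
      ← map_mul, h1]
  refine ⟨x⁻¹ • P, ?_⟩
  have := congrArg (fun Q : Sylow p G => (Q : Subgroup G)) h3
  exact this

end Cfsg.Agent.S0031
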