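import Cfsg.Statements.S0034
import Cfsg.Agent.Helper71.Frobenius
import Cfsg.Agent.Helper71.FrobCount

set_option autoImplicit false
open Cfsg

namespace Cfsg.Agent.S0034

/-- For a Frobenius complement H, the set of elements lying in no conjugate of H, together with 1, has exactly as many elements as the index of H, and that index is congruent to 1 modulo the order of H. -/
theorem result {G : Type*} [Group G] [Finite G] (H : Subgroup G) (hH : Cfsg.IsFrobeniusComplement H) :
    Nat.card (Cfsg.frobeniusKernel H) = H.index ∧ H.index % Nat.card H = 1 % Nat.card H := by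
  obtain ⟨h1, h2, h3⟩ := (Cfsg.Agent.Helper71.isFrobeniusComplement_iff H).mp hH
  have hF : ∀ g : G, g ∉ H → ∀ x ∈ H, g⁻¹ * x * g ∈ H → x ∈ (⊥ : Subgroup G) :=
    fun g hg x hx hgx => Subgroup.mem_bot.mpr (h3 g hg x hx hgx)
  constructor
  · have hc := Cfsg.Agent.Helper71.card_kernel_set (⊥ : Subgroup G) H bot_le hF
    rw [Subgroup.card_bot, one_mul] at hc
    rw [← hc]
    apply Nat.card_congr
    refine Equiv.subtypeEquivRight (fun x => ?_)
    open Pointwise in show (x = 1 ∨ ∀ g : G, x ∉ MulAut.conj g • H) ↔ (x ∈ (⊥ : Subgroup G) ∨ ∀ g : G, g⁻¹ * x * g ∉ H)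
    rw [Subgroup.mem_bot]
    refine or_congr Iff.rfl (forall_congr' fun g => ?_)
    rw [Cfsg.Agent.Helper71.mem_conj_smul]
  · obtain ⟨q, hq⟩ := Cfsg.Agent.Helper71.exists_index_add_relIndex (⊥ : Subgroup G) H bot_le hF
    rw [Subgroup.relIndex_bot_left] at hq
    have h4 := congrArg (· % Nat.card H) hq
    simp only [Nat.add_mod_right, Nat.mul_add_mod_self_right] at h4
    exact h4

end Cfsg.Agent.S0034
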