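import Mathlib
import Cfsg.Statements.S3383

set_option autoImplicit false
open Cfsg

namespace Cfsg.Agent.S3383

open scoped Pointwise

theorem mem_conj_smul {L : Type*} [Group L] (H : Subgroup L) (g x : L) :
    x ∈ MulAut.conj g • H ↔ g⁻¹ * x * g ∈ H := by
  rw [Subgroup.mem_pointwise_smul_iff_inv_smul_mem]
  simp [MulAut.smul_def, MulAut.conj_inv_apply]

/-- Let H be a Frobenius complement in a finite group L and K the Frobenius kernel (as a subgroup). Then K is characteristic in L, and every normal subgroup of L either contains K or is contained in K. -/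
theorem result {L : Type*} [Group L] [Finite L]
    (H : Subgroup L) (hH : Cfsg.IsFrobeniusComplement H)
    (K : Subgroup L) (hK : (K : Set L) = Cfsg.frobeniusKernel H) :
    K.Characteristic ∧ ∀ N : Subgroup L, N.Normal → K ≤ N ∨ N ≤ K := by
  classical
  obtain ⟨hHbot, hHtop, hHfrob⟩ := hH
  have hKmem : ∀ x : L, x ∈ K ↔ (x = 1 ∨ ∀ g : L, g⁻¹ * x * g ∉ H) := by
    intro x
    have h1 : x ∈ K ↔ x ∈ (K : Set L) := Iff.rfl
    rw [h1, hK]
    unfold Cfsg.frobeniusKernel
    simp only [Set.mem_setOf_eq, mem_conj_smul]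
  have hfrob : ∀ g : L, g ∉ H → ∀ x : L, x ∈ H → g⁻¹ * x * g ∈ H → x = 1 := by
    intro g hg x hx hxg
    have h1 : x ∈ H ⊓ (MulAut.conj g • H) := ⟨hx, (mem_conj_smul H g x).mpr hxg⟩
    rw [hHfrob g hg] at h1
    exact Subgroup.mem_bot.mp h1
  have hKn : K.Normal := by
    constructor
    intro x hx y
    rw [hKmem] at hx ⊢
    rcases hx with rfl | hx
    · left; simp
    · right
      intro g
      have h1 := hx (y⁻¹ * g)
      have h2 : (y⁻¹ * g)⁻¹ * x * (y⁻¹ * g) = g⁻¹ * (y * x * y⁻¹) * g := by group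
      rw [h2] at h1
      exact h1
  have hKH : ∀ x : L, x ∈ K → x ∈ H → x = 1 := by
    intro x hx hxH
    rcases (hKmem x).mp hx with h | h
    · exact h
    · exfalso
      apply h 1
      simpa using hxH
  have hcomp : ∀ N : Subgroup L, N.Normal → K ≤ N ∨ N ≤ K := by
    intro N hN
    by_cases hNK : N ≤ K
    · exact Or.inr hNK
    · left
      obtain ⟨x, hxN, hxK⟩ := SetLike.not_le_iff_exists.mp hNK
      rw [hKmem] at hxK
      push Not at hxK
      obtain ⟨hx1, g, hg⟩ := hxK
      set h := g⁻¹ * x * g with hh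
      have hhN : h ∈ N := by
        have := hN.conj_mem x hxN g⁻¹
        simpa [hh] using this
      have hh1 : h ≠ 1 := by
        intro h1
        apply hx1
        have h2 : g * h * g⁻¹ = x := by rw [hh]; group
        rw [← h2, h1]; group
      let f : K → K := fun k => ⟨(k : L)⁻¹ * (h * k * h⁻¹), K.mul_mem (K.inv_mem k.2) (hKn.conj_mem k k.2 h)⟩
      have hf : Function.Injective f := by
        intro k k' hkk
        have h1 : (k : L)⁻¹ * (h * k * h⁻¹) = (k' : L)⁻¹ * (h * k' * h⁻¹) := congrArg Subtype.val hkk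
        set u : L := (k : L) * (k' : L)⁻¹ with hu
        have huK : u ∈ K := K.mul_mem k.2 (K.inv_mem k'.2)
        have h2 : u⁻¹ * h * u = h := by
          have h3 : (k : L)⁻¹ * h * k = (k' : L)⁻¹ * h * k' := by
            have h4 : (k : L)⁻¹ * (h * k * h⁻¹) * h = (k' : L)⁻¹ * (h * k' * h⁻¹) * h := by rw [h1]
            simpa [mul_assoc] using h4
          have h5 : u⁻¹ * h * u = (k' : L) * ((k : L)⁻¹ * h * k) * (k' : L)⁻¹ := by rw [hu]; group
          rw [h5, h3]; group
        have huH : u ∈ H := by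
          by_contra huH
          exact hh1 (hfrob u huH h hg (by rw [h2]; exact hg))
        have hu1 : u = 1 := hKH u huK huH
        apply Subtype.ext
        rw [hu, mul_inv_eq_one] at hu1
        exact hu1
      have hsurj := Finite.surjective_of_injective hf
      intro y hy
      obtain ⟨k, hk⟩ := hsurj ⟨y, hy⟩
      have h1 : (k : L)⁻¹ * (h * k * h⁻¹) = y := congrArg Subtype.val hk
      rw [← h1]
      have h2 : (k : L)⁻¹ * (h * k * h⁻¹) = ((k : L)⁻¹ * h * (k : L)⁻¹⁻¹) * h⁻¹ := by group
      rw [h2]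
      exact N.mul_mem (hN.conj_mem h hhN _) (N.inv_mem hhN)
  refine ⟨?_, hcomp⟩
  rw [Subgroup.characteristic_iff_map_le]
  intro ϕ
  have hn : (K.map ϕ.toMonoidHom).Normal := hKn.map _ ϕ.surjective
  rcases hcomp _ hn with h | h
  · have hcard : Nat.card (K.map ϕ.toMonoidHom) = Nat.card K :=
      Subgroup.card_map_of_injective ϕ.injective
    have := Subgroup.eq_of_le_of_card_ge h (le_of_eq hcard)
    rw [← this]
  · exact h

end Cfsg.Agent.S3383
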