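import Cfsg.Statements.S0038
import Cfsg.Agent.Helper29.FrobConj
import Cfsg.Agent.S3383

set_option autoImplicit false
open Pointwise
open Cfsg

namespace Cfsg.Agent.S0038

/-- All Frobenius complements of a finite group are conjugate to one another. -/
theorem result {G : Type*} [Group G] [Finite G] (H H₀ : Subgroup G)
    (hH : Cfsg.IsFrobeniusComplement H) (hH₀ : Cfsg.IsFrobeniusComplement H₀) :
    ∃ g : G, MulAut.conj g • H₀ = H := by
  obtain ⟨N, hN, hp⟩ := Cfsg.Agent.Helper29.exists_frobPair H hH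
  obtain ⟨N₀, hN₀, hp₀⟩ := Cfsg.Agent.Helper29.exists_frobPair H₀ hH₀
  have hor : N ≤ N₀ ∨ N₀ ≤ N := (Cfsg.Agent.S3383.result H hH N hN).2 N₀ hp₀.normal
  have heq : N = N₀ := hp.kernel_unique hp₀ hor
  subst heq
  have hcard : Nat.card H₀ = Nat.card H := by
    have h1 := hp.card_mul_card
    have h2 := hp₀.card_mul_card
    have h3 : Nat.card N * Nat.card H₀ = Nat.card N * Nat.card H := by rw [h1, h2]
    exact Nat.eq_of_mul_eq_mul_left Nat.card_pos h3
  obtain ⟨a, ha⟩ := hp.eq_conj H₀ (fun x hx hxN => hp₀.disjoint hxN hx) hcard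
  refine ⟨a⁻¹, ?_⟩
  rw [ha, smul_smul, ← map_mul, inv_mul_cancel, map_one, one_smul]

end Cfsg.Agent.S0038
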