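import Cfsg.Statements.S0042
import Cfsg.Agent.Helper11.FrobThm
import Cfsg.Agent.Helper19.ThompsonThesis

set_option autoImplicit false
open Cfsg

namespace Cfsg.Agent.S0042

open Cfsg.Agent.Helper19
open scoped Pointwise

/-- The Frobenius kernel of a finite Frobenius group is nilpotent (Thompson). -/
theorem result {G : Type*} [Group G] [Finite G] (H : Subgroup G) (hH : Cfsg.IsFrobeniusComplement H) :
    ∃ N : Subgroup G, (N : Set G) = Cfsg.frobeniusKernel H ∧ N.Normal ∧ Group.IsNilpotent N := by
  obtain ⟨N, hNset, hNn, hNc⟩ := Cfsg.Agent.Helper11.frobenius_kernel_subgroup H hH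
  refine ⟨N, hNset, hNn, ?_⟩
  obtain ⟨hHbot, hHtop, hfrob⟩ := hH
  have hcard : Nat.card H ≠ 1 := fun h => hHbot (Subgroup.card_eq_one.mp h)
  obtain ⟨p, hp, hpd⟩ := Nat.exists_prime_and_dvd hcard
  haveI : Fact p.Prime := ⟨hp⟩
  obtain ⟨x, hx⟩ := exists_prime_orderOf_dvd_card' p hpd
  set h : G := (x : G) with hh
  have hhH : h ∈ H := x.2
  have hhp : h ^ p = 1 := by
    have h1 : x ^ p = 1 := by rw [← hx]; exact pow_orderOf_eq_one x
    simpa using congrArg Subtype.val h1
  have hh1 : h ≠ 1 := by
    intro h1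
    have h2 : x = 1 := Subtype.ext h1
    rw [h2, orderOf_one] at hx
    exact hp.one_lt.ne hx
  let φ : N →* N := (MulAut.conjNormal h : MulAut N).toMonoidHom
  have hφ : ∀ n : N, ((φ n : N) : G) = h * n * h⁻¹ := fun n => MulAut.conjNormal_apply h n
  have hiter : ∀ (k : ℕ) (n : N), (((⇑φ)^[k] n : N) : G) = h ^ k * n * (h ^ k)⁻¹ := by
    intro k
    induction k with
    | zero => intro n; simp
    | succ k ih =>
      intro n
      rw [Function.iterate_succ_apply', hφ, ih, pow_succ']
      group
  apply thompson_thesis hp φ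
  constructor
  · intro n hn
    by_contra hn1
    have hnG : (n : G) ≠ 1 := fun e => hn1 (Subtype.ext e)
    have hcomm : h * (n : G) * h⁻¹ = n := by rw [← hφ, hn]
    have hnH : (n : G) ∉ H := by
      intro hmem
      exact hnG (Subgroup.disjoint_def.mp hNc.disjoint n.2 hmem)
    have h1 := hfrob n hnH
    have h2 : h ∈ H ⊓ (MulAut.conj (n : G) • H) := by
      refine ⟨hhH, ?_⟩
      show h ∈ MulAut.conj (n : G) • H
      rw [Subgroup.mem_pointwise_smul_iff_inv_smul_mem]
      have h3 : (MulAut.conj (n : G))⁻¹ • h = h := by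
        rw [MulAut.smul_def, ← map_inv, MulAut.conj_apply]
        have hc : h * (n : G) = (n : G) * h := by
          calc h * (n : G) = (h * (n : G) * h⁻¹) * h := by group
            _ = (n : G) * h := by rw [hcomm]
        calc (n : G)⁻¹ * h * (n : G)⁻¹⁻¹ = (n : G)⁻¹ * (h * (n : G)) := by group
          _ = (n : G)⁻¹ * ((n : G) * h) := by rw [hc]
          _ = h := by group
      rw [h3]; exact hhH
    rw [h1, Subgroup.mem_bot] at h2
    exact hh1 h2
  · intro n
    apply Subtype.ext
    rw [hiter, hhp]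
    simp

end Cfsg.Agent.S0042
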