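-- Statement S0046: Schmidt's theorem (all maximal subgroups nilpotent implies solvable).
import Cfsg.Statements.S0046
import Cfsg.Agent.Helper70.Schmidt

set_option autoImplicit false
open Cfsg

namespace Cfsg.Agent.S0046

open Subgroup Cfsg.Agent.Helper70

/-- Schmidt's Theorem on minimal non-nilpotent groups: a finite group in which every maximal subgroup is nilpotent is solvable. -/
theorem result {G : Type*} [Group G] [Finite G]
    (h : ∀ M : Subgroup G, IsCoatom M → Group.IsNilpotent M) : Group.IsSolvable G := by
  by_cases hnil : Group.IsNilpotent G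
  · infer_instance
  · have hsub : ∀ H : Subgroup G, H ≠ ⊤ → Group.IsNilpotent H := by
      intro H hH
      rcases eq_top_or_exists_le_coatom H with h1 | ⟨M, hM, hHM⟩
      · exact absurd h1 hH
      · have hMn : Group.IsNilpotent M := h M hM
        have : Group.IsNilpotent (H.subgroupOf M) := inferInstance
        exact Group.nilpotent_of_mulEquiv (Subgroup.subgroupOfEquivOfLe hHM)
    obtain ⟨p, q, hp, hq, hpq, g, Q₀, k, hg, hQ₀, hQ₀n, htop, hgC⟩ :=
      exists_schmidt_datum hnil hsub
    have : Fact q.Prime := ⟨hq⟩
    have hcomm : commutator G ≤ Q₀ := commutator_le_of_sup_zpowers_eq_top Q₀ g htop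
    have hQnil : Group.IsNilpotent Q₀ := hQ₀.isNilpotent
    have hQsol : Group.IsSolvable Q₀ := inferInstance
    refine Group.isSolvable_of_ker_le_range Q₀.subtype (Abelianization.of (G := G)) ?_
    rw [Abelianization.ker_of, Subgroup.range_subtype]
    exact hcomm

end Cfsg.Agent.S0046
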