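import Cfsg.Statements.S0047
import Mathlib.Tactic.Group

set_option autoImplicit false
open Cfsg

namespace Cfsg.Agent.S0047

theorem conjB {G : Type*} [Group G] (a a' b b' b₁ : G) (h : b₁ * a * b₁⁻¹ = a' * b')
    (h1 : b₁ * b = b * b₁) (h2 : b' * b = b * b') :
    b₁ * (a * b * a⁻¹ * b⁻¹) * b₁⁻¹ = a' * b * a'⁻¹ * b⁻¹ := by
  have e1 : b₁ * b * b₁⁻¹ = b := by rw [h1]; group
  have e2 : b' * b * b'⁻¹ = b := by rw [h2]; group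
  calc b₁ * (a * b * a⁻¹ * b⁻¹) * b₁⁻¹
      = (b₁ * a * b₁⁻¹) * (b₁ * b * b₁⁻¹) * (b₁ * a * b₁⁻¹)⁻¹ * (b₁ * b * b₁⁻¹)⁻¹ := by group
    _ = (a' * b') * b * (a' * b')⁻¹ * b⁻¹ := by rw [h, e1]
    _ = a' * (b' * b * b'⁻¹) * a'⁻¹ * b⁻¹ := by group
    _ = a' * b * a'⁻¹ * b⁻¹ := by rw [e2]

theorem conjA {G : Type*} [Group G] (a a'' b b'' a₁ : G) (h : a₁ * b * a₁⁻¹ = b'' * a'')
    (h1 : a₁ * a = a * a₁) (h2 : a'' * a = a * a'') :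
    a₁ * (a * b * a⁻¹ * b⁻¹) * a₁⁻¹ = a * b'' * a⁻¹ * b''⁻¹ := by
  have e1 : a₁ * a * a₁⁻¹ = a := by rw [h1]; group
  have e2 : a'' * a⁻¹ * a''⁻¹ = a⁻¹ := by
    have : a'' * a⁻¹ = a⁻¹ * a'' := by
      have h3 : a⁻¹ * (a'' * a) * a⁻¹ = a⁻¹ * (a * a'') * a⁻¹ := by rw [h2]
      simpa [mul_assoc] using h3.symm
    rw [this]; group
  calc a₁ * (a * b * a⁻¹ * b⁻¹) * a₁⁻¹
      = (a₁ * a * a₁⁻¹) * (a₁ * b * a₁⁻¹) * (a₁ * a * a₁⁻¹)⁻¹ * (a₁ * b * a₁⁻¹)⁻¹ := by group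
    _ = a * (b'' * a'') * a⁻¹ * (b'' * a'')⁻¹ := by rw [h, e1]
    _ = a * b'' * (a'' * a⁻¹ * a''⁻¹) * b''⁻¹ := by group
    _ = a * b'' * a⁻¹ * b''⁻¹ := by rw [e2]

theorem aux {G : Type*} [Group G] (A B : Subgroup G)
    [IsMulCommutative A] [IsMulCommutative B] (hAB : ∀ g : G, ∃ a ∈ A, ∃ b ∈ B, g = a * b) :
    Group.IsSolvable G := by
  have hA : ∀ x ∈ A, ∀ y ∈ A, x * y = y * x :=
    fun x hx y hy => congrArg Subtype.val (mul_comm' (⟨x, hx⟩ : A) ⟨y, hy⟩)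
  have hB : ∀ x ∈ B, ∀ y ∈ B, x * y = y * x :=
    fun x hx y hy => congrArg Subtype.val (mul_comm' (⟨x, hx⟩ : B) ⟨y, hy⟩)
  have hBA : ∀ g : G, ∃ b ∈ B, ∃ a ∈ A, g = b * a := by
    intro g
    obtain ⟨a, ha, b, hb, h⟩ := hAB g⁻¹
    refine ⟨b⁻¹, B.inv_mem hb, a⁻¹, A.inv_mem ha, ?_⟩
    rw [← mul_inv_rev, ← h, inv_inv]
  -- the set of commutators
  let S : Set G := {x | ∃ a ∈ A, ∃ b ∈ B, a * b * a⁻¹ * b⁻¹ = x}
  -- conjugation by `B` and `A` preserves `S`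
  have hSB : ∀ b₁ ∈ B, ∀ x ∈ S, b₁ * x * b₁⁻¹ ∈ S := by
    rintro b₁ hb₁ x ⟨a, ha, b, hb, rfl⟩
    obtain ⟨a', ha', b', hb', h⟩ := hAB (b₁ * a * b₁⁻¹)
    exact ⟨a', ha', b, hb, (conjB a a' b b' b₁ h (hB _ hb₁ _ hb) (hB _ hb' _ hb)).symm⟩
  have hSA : ∀ a₁ ∈ A, ∀ x ∈ S, a₁ * x * a₁⁻¹ ∈ S := by
    rintro a₁ ha₁ x ⟨a, ha, b, hb, rfl⟩
    obtain ⟨b'', hb'', a'', ha'', h⟩ := hBA (a₁ * b * a₁⁻¹)
    exact ⟨a, ha, b'', hb'', (conjA a a'' b b'' a₁ h (hA _ ha₁ _ ha) (hA _ ha'' _ ha)).symm⟩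
  -- elements of `S` commute
  have hScomm : ∀ x ∈ S, ∀ y ∈ S, x * y = y * x := by
    rintro x ⟨a, ha, b, hb, rfl⟩ y ⟨a₂, ha₂, b₂, hb₂, rfl⟩
    obtain ⟨a', ha', b', hb', h⟩ := hAB (b₂⁻¹ * a * b₂⁻¹⁻¹)
    obtain ⟨b'', hb'', a'', ha'', h'⟩ := hBA (a₂⁻¹ * b * a₂⁻¹⁻¹)
    have hb₂i := B.inv_mem hb₂
    have ha₂i := A.inv_mem ha₂
    have e1 := conjB a a' b b' b₂⁻¹ h (hB _ hb₂i _ hb) (hB _ hb' _ hb)
    have e2 := conjA a' a'' b b'' a₂⁻¹ h' (hA _ ha₂i _ ha') (hA _ ha'' _ ha')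
    have e3 := conjA a a'' b b'' a₂⁻¹ h' (hA _ ha₂i _ ha) (hA _ ha'' _ ha)
    have e4 := conjB a a' b'' b' b₂⁻¹ h (hB _ hb₂i _ hb'') (hB _ hb' _ hb'')
    have e5 : a₂⁻¹ * (b₂⁻¹ * (a * b * a⁻¹ * b⁻¹) * b₂⁻¹⁻¹) * a₂⁻¹⁻¹ =
        b₂⁻¹ * (a₂⁻¹ * (a * b * a⁻¹ * b⁻¹) * a₂⁻¹⁻¹) * b₂⁻¹⁻¹ := by
      rw [e1, e2, e3, e4]
    have e6 : (a₂ * b₂ * a₂⁻¹ * b₂⁻¹) * (a * b * a⁻¹ * b⁻¹) =
        (a * b * a⁻¹ * b⁻¹) * (a₂ * b₂ * a₂⁻¹ * b₂⁻¹) := by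
      have : (a₂ * b₂ * a₂⁻¹ * b₂⁻¹) * (a * b * a⁻¹ * b⁻¹) =
          a₂ * b₂ * (a₂⁻¹ * (b₂⁻¹ * (a * b * a⁻¹ * b⁻¹) * b₂⁻¹⁻¹) * a₂⁻¹⁻¹) * a₂⁻¹ * b₂⁻¹ := by
        group
      rw [this, e5]
      group
    exact e6.symm
  have hK1 : Subgroup.closure S ≤ Subgroup.centralizer S :=
    (Subgroup.closure_le _).mpr
      (fun x hx => Subgroup.mem_centralizer_iff.mpr (fun y hy => hScomm y hy x hx))
  have hK2 : Subgroup.closure S ≤ Subgroup.centralizer (Subgroup.closure S : Set G) :=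
    (Subgroup.closure_le _).mpr
      (fun x hx => Subgroup.mem_centralizer_iff.mpr
        (fun y hy => (Subgroup.mem_centralizer_iff.mp (hK1 hy) x hx).symm))
  have hKcomm : ∀ x ∈ Subgroup.closure S, ∀ y ∈ Subgroup.closure S, x * y = y * x :=
    fun x hx y hy => Subgroup.mem_centralizer_iff.mp (hK2 hy) x hx
  -- normality
  have hconj : ∀ c : G, (∀ x ∈ S, c * x * c⁻¹ ∈ S) →
      ∀ x ∈ Subgroup.closure S, c * x * c⁻¹ ∈ Subgroup.closure S := by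
    intro c hc
    have : Subgroup.closure S ≤ (Subgroup.closure S).comap (MulAut.conj c).toMonoidHom :=
      (Subgroup.closure_le _).mpr (fun x hx => Subgroup.subset_closure (hc x hx))
    intro x hx
    exact this hx
  have hKn : (Subgroup.closure S).Normal := by
    refine ⟨fun x hx g => ?_⟩
    obtain ⟨a, ha, b, hb, rfl⟩ := hAB g
    have h1 := hconj b (hSB b hb) x hx
    have h2 := hconj a (hSA a ha) _ h1
    have : a * b * x * (a * b)⁻¹ = a * (b * x * b⁻¹) * a⁻¹ := by group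
    rw [this]; exact h2
  have hKs : Group.IsSolvable (Subgroup.closure S) :=
    Group.isSolvable_of_comm (fun x y => Subtype.ext (hKcomm x.1 x.2 y.1 y.2))
  -- the quotient is commutative
  have hqAB : ∀ a ∈ A, ∀ b ∈ B,
      ((a : G) : G ⧸ Subgroup.closure S) * (b : G) = (b : G) * (a : G) := by
    intro a ha b hb
    rw [← QuotientGroup.mk_mul, ← QuotientGroup.mk_mul, QuotientGroup.eq]
    have : (a * b)⁻¹ * (b * a) = b⁻¹ * a⁻¹ * b⁻¹⁻¹ * a⁻¹⁻¹ := by group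
    rw [this]
    have h1 : a⁻¹ * b⁻¹ * a⁻¹⁻¹ * b⁻¹⁻¹ ∈ Subgroup.closure S :=
      Subgroup.subset_closure ⟨a⁻¹, A.inv_mem ha, b⁻¹, B.inv_mem hb, rfl⟩
    have h2 := Subgroup.inv_mem _ h1
    have : (a⁻¹ * b⁻¹ * a⁻¹⁻¹ * b⁻¹⁻¹)⁻¹ = b⁻¹ * a⁻¹ * b⁻¹⁻¹ * a⁻¹⁻¹ := by group
    rw [this] at h2
    exact h2
  have hQs : Group.IsSolvable (G ⧸ Subgroup.closure S) := by
    apply Group.isSolvable_of_comm
    intro x y
    induction x using QuotientGroup.induction_on with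
    | H x =>
      induction y using QuotientGroup.induction_on with
      | H y =>
        obtain ⟨a₁, ha₁, b₁, hb₁, rfl⟩ := hAB x
        obtain ⟨a₂, ha₂, b₂, hb₂, rfl⟩ := hAB y
        have c1 := hqAB a₂ ha₂ b₁ hb₁
        have c2 := hqAB a₁ ha₁ b₂ hb₂
        have c3 : ((a₁ : G) : G ⧸ Subgroup.closure S) * (a₂ : G) = (a₂ : G) * (a₁ : G) := by
          rw [← QuotientGroup.mk_mul, ← QuotientGroup.mk_mul, hA a₁ ha₁ a₂ ha₂]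
        have c4 : ((b₁ : G) : G ⧸ Subgroup.closure S) * (b₂ : G) = (b₂ : G) * (b₁ : G) := by
          rw [← QuotientGroup.mk_mul, ← QuotientGroup.mk_mul, hB b₁ hb₁ b₂ hb₂]
        simp only [QuotientGroup.mk_mul]
        calc ((a₁ : G) : G ⧸ Subgroup.closure S) * (b₁ : G) * ((a₂ : G) * (b₂ : G))
            = (a₁ : G) * ((b₁ : G) * (a₂ : G)) * (b₂ : G) := by simp only [mul_assoc]
          _ = (a₁ : G) * ((a₂ : G) * (b₁ : G)) * (b₂ : G) := by rw [c1]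
          _ = ((a₁ : G) * (a₂ : G)) * ((b₁ : G) * (b₂ : G)) := by simp only [mul_assoc]
          _ = ((a₂ : G) * (a₁ : G)) * ((b₂ : G) * (b₁ : G)) := by rw [c3, c4]
          _ = (a₂ : G) * ((a₁ : G) * (b₂ : G)) * (b₁ : G) := by simp only [mul_assoc]
          _ = (a₂ : G) * ((b₂ : G) * (a₁ : G)) * (b₁ : G) := by rw [c2]
          _ = (a₂ : G) * (b₂ : G) * ((a₁ : G) * (b₁ : G)) := by simp only [mul_assoc]
  exact (Group.isSolvable_iff_subgroup_quotient (Subgroup.closure S)).mpr ⟨hKs, hQs⟩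

/-- A finite group which is the product AB of two abelian subgroups A and B is solvable. -/
theorem result {G : Type*} [Group G] [Finite G] (A B : Subgroup G)
    [IsMulCommutative A] [IsMulCommutative B] (hAB : ∀ g : G, ∃ a ∈ A, ∃ b ∈ B, g = a * b) :
    Group.IsSolvable G := by
  exact aux A B hAB

end Cfsg.Agent.S0047
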