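import Cfsg.Statements.S0048
import Cfsg.Agent.Helper1.SZGen
import Cfsg.Agent.Helper1.MinNormal
import Cfsg.Agent.Helper1.PPrimeCore

set_option autoImplicit false
open Cfsg

namespace Cfsg.Agent.S0048

universe u

open Cfsg.Agent.Helper1 in
theorem aux (n : ℕ) : ∀ (G : Type u) [Group G] [Finite G] [Group.IsSolvable G], Nat.card G = n →
    ∀ M : Subgroup G, IsCoatom M → IsPrimePow M.index := by
  induction n using Nat.strong_induction_on with
  | _ n ih =>
    intro G _ _ _ hn M hM
    have htop : (⊤ : Subgroup G) ≠ ⊥ := by
      intro h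
      apply hM.1
      rw [eq_top_iff, h]; exact bot_le
    obtain ⟨N, hNn, -, hN0, hNmin⟩ := exists_minNormal (⊤ : Subgroup G) htop
    have hNs : Group.IsSolvable N := isSolvable_of_le (le_top : N ≤ ⊤)
    obtain ⟨-, p, hp, hpow⟩ := minNormal_elemAbelian N hN0 hNmin
    have : Fact p.Prime := ⟨hp⟩
    have hNp : IsPGroup p N := by
      intro g
      refine ⟨1, ?_⟩
      apply Subtype.ext
      rw [pow_one]
      exact hpow g g.2
    obtain ⟨k, hk⟩ := IsPGroup.iff_card.mp hNp
    by_cases hNM : N ≤ M
    · have hsurj := QuotientGroup.mk'_surjective N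
      have hcm : (M.map (QuotientGroup.mk' N)).comap (QuotientGroup.mk' N) = M := by
        rw [Subgroup.comap_map_eq, QuotientGroup.ker_mk', sup_of_le_left hNM]
      have hco : IsCoatom (M.map (QuotientGroup.mk' N)) := by
        refine ⟨fun h => hM.1 ?_, fun L hL => ?_⟩
        · rw [← hcm, h, Subgroup.comap_top]
        · have h1 : M ≤ L.comap (QuotientGroup.mk' N) := by
            rw [← hcm]; exact Subgroup.comap_mono hL.le
          have h2 : M ≠ L.comap (QuotientGroup.mk' N) := by
            intro h
            apply hL.ne
            rw [h, Subgroup.map_comap_eq_self_of_surjective hsurj]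
          have h3 := hM.2 _ (lt_of_le_of_ne h1 h2)
          rw [← Subgroup.map_comap_eq_self_of_surjective hsurj L, h3, ← MonoidHom.range_eq_map,
            MonoidHom.range_eq_top.mpr hsurj]
      have hidx : (M.map (QuotientGroup.mk' N)).index = M.index := by
        rw [Subgroup.index_map, MonoidHom.range_eq_top.mpr hsurj, Subgroup.index_top, mul_one,
          QuotientGroup.ker_mk', sup_of_le_left hNM]
      rw [← hidx]
      exact ih _ (hn ▸ card_quotient_lt N hN0) (G ⧸ N) rfl _ hco
    · have hsup : N ⊔ M = ⊤ := by
        apply hM.2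
        refine lt_of_le_of_ne le_sup_right ?_
        intro h
        apply hNM
        rw [h]; exact le_sup_left
      have h1 := card_sup_eq_mul_relIndex N M
      rw [hsup, Subgroup.card_top] at h1
      have h2 := M.card_mul_index
      obtain ⟨c, hc⟩ := Subgroup.relIndex_dvd_card N M
      have h3 : Nat.card N = c * M.index := by
        have h4 : N.relIndex M * Nat.card N = N.relIndex M * (c * M.index) := by
          rw [mul_comm, ← h1, ← h2, hc]; ring
        have hpos : 0 < N.relIndex M := by
          rcases Nat.eq_zero_or_pos (N.relIndex M) with h0 | h0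
          · rw [h0, zero_mul] at hc
            exact absurd hc Nat.card_pos.ne'
          · exact h0
        exact Nat.eq_of_mul_eq_mul_left hpos h4
      have h5 : M.index ∣ p ^ k := by rw [← hk, h3]; exact Dvd.intro_left c rfl
      obtain ⟨j, -, hj⟩ := (Nat.dvd_prime_pow hp).mp h5
      have hj0 : j ≠ 0 := by
        rintro rfl
        rw [pow_zero] at hj
        exact hM.1 (Subgroup.index_eq_one.mp hj)
      rw [hj, isPrimePow_nat_iff]
      exact ⟨p, j, hp, Nat.pos_of_ne_zero hj0, rfl⟩

/-- In a finite solvable group every maximal subgroup has index a prime power. -/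
theorem result {G : Type*} [Group G] [Finite G] [Group.IsSolvable G]
    (M : Subgroup G) (hM : IsCoatom M) : IsPrimePow M.index := by
  exact aux (Nat.card G) G rfl M hM

end Cfsg.Agent.S0048
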