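import Cfsg.Statements.S0049
import Mathlib.GroupTheory.SchurZassenhaus
import Mathlib.GroupTheory.Frattini
import Mathlib.GroupTheory.Sylow

set_option autoImplicit false
open Cfsg

namespace Cfsg.Agent.S0049

/-- A prime divisor of the order of a finite group also divides the index of the Frattini subgroup. -/
theorem result {G : Type*} [Group G] [Finite G] (p : ℕ) (hp : p.Prime) (hdvd : p ∣ Nat.card G) :
    p ∣ (frattini G).index := by
  by_contra hnd
  have : Fact p.Prime := ⟨hp⟩
  obtain ⟨P⟩ : Nonempty (Sylow p (frattini G)) := inferInstance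
  set P' : Subgroup G := (P : Subgroup (frattini G)).map (frattini G).subtype with hP'
  have hP'Φ : P' ≤ frattini G := Subgroup.map_subtype_le _
  have hcard : Nat.card P' = p ^ (Nat.card G).factorization p := by
    rw [hP', Subgroup.card_map_of_injective (Subgroup.subtype_injective _), P.card_eq_multiplicity]
    congr 1
    have h1 := (frattini G).card_mul_index
    rw [← h1, Nat.factorization_mul Nat.card_pos.ne' Subgroup.index_ne_zero_of_finite,
      Finsupp.add_apply, Nat.factorization_eq_zero_of_not_dvd hnd, add_zero]
  have hN := Sylow.normalizer_sup_eq_top P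
  have hnorm : Subgroup.normalizer (P' : Set G) = ⊤ := frattini_nongenerating hN
  have hP'n : P'.Normal := Subgroup.normalizer_eq_top_iff.mp hnorm
  have hcop : (Nat.card P').Coprime P'.index := by
    have h2 := (Sylow.ofCard P' hcard).card_coprime_index
    rwa [Sylow.coe_ofCard] at h2
  obtain ⟨H, hH⟩ := Subgroup.exists_right_complement'_of_coprime hcop
  have hsup : H ⊔ frattini G = ⊤ := by
    rw [eq_top_iff, ← hH.sup_eq_top]
    exact sup_le (hP'Φ.trans le_sup_right) le_sup_left
  have hHtop : H = ⊤ := frattini_nongenerating hsup
  have hbot : P' = ⊥ := by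
    have := disjoint_iff.mp hH.disjoint
    rwa [hHtop, inf_top_eq] at this
  rw [hbot, Subgroup.card_bot] at hcard
  have hv : (Nat.card G).factorization p = 0 := by
    by_contra hv
    have : 1 < p ^ (Nat.card G).factorization p := Nat.one_lt_pow hv hp.one_lt
    omega
  have := hp.factorization_pos_of_dvd Nat.card_pos.ne' hdvd
  omega

end Cfsg.Agent.S0049
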