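import Cfsg.Statements.S0050
import Cfsg.Agent.Helper1.Tools2

set_option autoImplicit false
open Cfsg

namespace Cfsg.Agent.S0050

open Pointwise in
theorem aux {G : Type*} [Group G] [Finite G] (L : Subgroup G) [L.Normal] (hL : Group.IsSolvable L)
    (H : Subgroup G) (hHL : H ≤ L) (hHall : (Nat.card H).Coprime (H.relIndex L)) :
    L ⊔ Subgroup.normalizer (H : Set G) = ⊤ := by
  rw [eq_top_iff]
  intro g _
  have hgH : MulAut.conj g • H ≤ L := Cfsg.Agent.Helper1.conj_smul_le_of_normal L hHL g
  have hcardL : Nat.card L = Nat.card H * H.relIndex L := by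
    have := Subgroup.card_mul_index (H.subgroupOf L)
    rw [Cfsg.Agent.Helper1.card_subgroupOf_of_le hHL] at this
    exact this.symm
  obtain ⟨l, hl⟩ := Cfsg.Agent.Helper1.hall_conj_aux (Nat.card L) L (Nat.card H) (H.relIndex L)
    rfl hcardL hHall (H.subgroupOf L) ((MulAut.conj g • H).subgroupOf L)
    (Cfsg.Agent.Helper1.card_subgroupOf_of_le hHL)
    (by rw [Cfsg.Agent.Helper1.card_subgroupOf_of_le hgH, Cfsg.Agent.Helper1.card_conj_smul])
  have hl' := Cfsg.Agent.Helper1.conj_of_subgroupOf_conj hHL hgH l hl
  have hn : (l : G)⁻¹ * g ∈ Subgroup.normalizer (H : Set G) := by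
    rw [Cfsg.Agent.Helper1.mem_normalizer_iff_conj_smul_eq, map_mul, mul_smul, ← hl', ← mul_smul,
      ← map_mul, inv_mul_cancel, map_one, one_smul]
  have : g = (l : G) * ((l : G)⁻¹ * g) := by group
  rw [this]
  exact Subgroup.mul_mem_sup l.2 hn

/-- Frattini argument for Hall subgroups: if L is a solvable normal subgroup and H a subgroup of L of order coprime to its index in L, then L together with the normaliser of H generates the whole group. -/
theorem result {G : Type*} [Group G] [Finite G] (L : Subgroup G) [L.Normal] (hL : Group.IsSolvable L)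
    (H : Subgroup G) (hHL : H ≤ L) (hHall : (Nat.card H).Coprime (H.relIndex L)) :
    L ⊔ Subgroup.normalizer (H : Set G) = ⊤ := by
  exact aux L hL H hHL hHall

end Cfsg.Agent.S0050
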