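import Cfsg.Statements.S0053

set_option autoImplicit false
open Pointwise
open Cfsg

namespace Cfsg.Agent.S0053

/-- An abelian minimal normal subgroup N of a finite group is complemented exactly when N is not inside the Frattini subgroup. -/
theorem result {G : Type*} [Group G] [Finite G]
    (N : Subgroup G) [N.Normal] [IsMulCommutative N] (hN : N ≠ ⊥)
    (hmin : ∀ M : Subgroup G, M.Normal → M ≤ N → M = ⊥ ∨ M = N) :
    (∃ H : Subgroup G, Subgroup.IsComplement' N H) ↔ ¬ N ≤ frattini G := by
  constructor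
  · rintro ⟨H, hH⟩ hle
    have hHtop : H ≠ ⊤ := by
      rintro rfl
      exact hN (Subgroup.isComplement'_top_right.mp hH)
    obtain ⟨M, hM, hHM⟩ := (eq_top_or_exists_le_coatom H).resolve_left hHtop
    have h1 : N ⊔ H ≤ M := sup_le (hle.trans (frattini_le_coatom hM)) hHM
    rw [hH.sup_eq_top] at h1
    exact hM.1 (top_le_iff.mp h1)
  · intro hle
    have : ∃ M : Subgroup G, IsCoatom M ∧ ¬ N ≤ M := by
      by_contra hcon
      push Not at hcon
      apply hle
      unfold frattini Order.radical
      exact le_iInf₂ fun M hM => hcon M hM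
    obtain ⟨M, hM, hNM⟩ := this
    have hsup : N ⊔ M = ⊤ := by
      apply hM.2
      exact lt_of_le_of_ne le_sup_right (fun h => hNM (h ▸ le_sup_left))
    have hmul : (N : Set G) * (M : Set G) = Set.univ := by
      rw [← Subgroup.normal_mul, hsup, Subgroup.coe_top]
    have hnorm : (N ⊓ M).Normal := by
      refine ⟨fun x hx g => ?_⟩
      have hg : g ∈ (N : Set G) * (M : Set G) := by rw [hmul]; exact Set.mem_univ g
      obtain ⟨n, hn, m, hm, rfl⟩ := hg
      have h1 : m * x * m⁻¹ ∈ N ⊓ M :=
        ⟨Subgroup.Normal.conj_mem inferInstance x hx.1 m, M.mul_mem (M.mul_mem hm hx.2) (M.inv_mem hm)⟩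
      have h2 : n * (m * x * m⁻¹) = (m * x * m⁻¹) * n := by
        have := mul_comm' (⟨n, hn⟩ : N) ⟨m * x * m⁻¹, h1.1⟩
        exact congrArg Subtype.val this
      have h3 : n * m * x * (n * m)⁻¹ = m * x * m⁻¹ := by
        calc n * m * x * (n * m)⁻¹ = n * (m * x * m⁻¹) * n⁻¹ := by group
          _ = (m * x * m⁻¹) * n * n⁻¹ := by rw [h2]
          _ = m * x * m⁻¹ := by group
      rw [h3]
      exact h1
    have hinf : N ⊓ M = ⊥ := by
      rcases hmin (N ⊓ M) hnorm inf_le_left with h | h
      · exact h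
      · exact absurd (h ▸ inf_le_right : N ≤ M) hNM
    exact ⟨M, Subgroup.isComplement'_of_disjoint_and_mul_eq_univ (disjoint_iff.mpr hinf) hmul⟩

end Cfsg.Agent.S0053
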