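import Cfsg.Statements.S0054
import Cfsg.Agent.Helper12.RegNormal

set_option autoImplicit false
open Cfsg

namespace Cfsg.Agent.S0054

/-- A regular normal subgroup of a finite 2-transitive group is elementary abelian: it is commutative and all its elements have order dividing one prime. -/
theorem result {G : Type*} [Group G] [Finite G]
    {X : Type*} [Nonempty X] [MulAction G X] (h2 : MulAction.IsMultiplyPretransitive G X 2)
    (N : Subgroup G) [N.Normal] (htrans : MulAction.IsPretransitive N X) (hreg : ∀ x : X, MulAction.stabilizer N x = ⊥) :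
    IsMulCommutative N ∧ ∃ p : ℕ, p.Prime ∧ ∀ n ∈ N, n ^ p = 1 := by
  classical
  rw [MulAction.is_two_pretransitive_iff] at h2
  obtain ⟨a⟩ := ‹Nonempty X›
  have hfree : ∀ {n m : G}, n ∈ N → m ∈ N → n • a = m • a → n = m :=
    fun hn hm h => Cfsg.Agent.Helper12.free_of_reg N hreg hn hm h
  have hconj : ∀ n ∈ N, n ≠ 1 → ∀ m ∈ N, m ≠ 1 → ∃ g : G, g * n * g⁻¹ = m := by
    intro n hn hn1 m hm hm1
    have hna : a ≠ n • a := by
      intro h; apply hn1; exact hfree hn N.one_mem (by rw [one_smul]; exact h.symm)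
    have hma : a ≠ m • a := by
      intro h; apply hm1; exact hfree hm N.one_mem (by rw [one_smul]; exact h.symm)
    obtain ⟨g, hg1, hg2⟩ := h2 hna hma
    refine ⟨g, ?_⟩
    apply hfree (‹N.Normal›.conj_mem n hn g) hm
    have hga : g⁻¹ • a = a := by rw [inv_smul_eq_iff, hg1]
    rw [← hg2, mul_smul, mul_smul, hga]
  by_cases hN : ∀ n ∈ N, n = 1
  · refine ⟨⟨⟨fun x y => ?_⟩⟩, 2, Nat.prime_two, fun n hn => by rw [hN n hn, one_pow]⟩
    apply Subtype.ext
    show (x : G) * (y : G) = (y : G) * (x : G)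
    rw [hN x.1 x.2, hN y.1 y.2]
  · push Not at hN
    obtain ⟨n₀, hn₀, hn₀1⟩ := hN
    have hcard : Nat.card N ≠ 1 := by
      intro h
      have := (Nat.card_eq_one_iff_unique.mp h).1
      exact hn₀1 (congrArg Subtype.val (Subsingleton.elim (⟨n₀, hn₀⟩ : N) 1))
    have hp : (Nat.card N).minFac.Prime := Nat.minFac_prime hcard
    set p := (Nat.card N).minFac with hpdef
    have : Fact p.Prime := ⟨hp⟩
    obtain ⟨x, hx⟩ := exists_prime_orderOf_dvd_card' p (Nat.minFac_dvd (Nat.card N))
    have hx1 : (x : G) ≠ 1 := by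
      intro h
      have : x = 1 := Subtype.ext h
      rw [this, orderOf_one] at hx
      exact hp.one_lt.ne hx
    have hxp : (x : G) ^ p = 1 := by
      have : x ^ p = 1 := by rw [← hx]; exact pow_orderOf_eq_one x
      exact congrArg Subtype.val this
    have hpow : ∀ n ∈ N, n ^ p = 1 := by
      intro n hn
      by_cases hn1 : n = 1
      · rw [hn1, one_pow]
      · obtain ⟨g, hg⟩ := hconj x x.2 hx1 n hn hn1
        rw [← hg, conj_pow, hxp]; simp
    have hNp : IsPGroup p N := by
      intro n; exact ⟨1, by rw [pow_one]; exact Subtype.ext (hpow n n.2)⟩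
    have hNnt : Nontrivial N := ⟨⟨⟨n₀, hn₀⟩, 1, fun h => hn₀1 (congrArg Subtype.val h)⟩⟩
    have hZ := hNp.center_nontrivial
    obtain ⟨z, hz⟩ := exists_ne (1 : Subgroup.center N)
    have hz1 : ((z : N) : G) ≠ 1 := fun h => hz (Subtype.ext (Subtype.ext h))
    have hzc : ∀ m ∈ N, m * ((z : N) : G) = ((z : N) : G) * m := by
      intro m hm
      have h1 := (Subgroup.mem_center_iff.mp z.2) ⟨m, hm⟩
      exact congrArg Subtype.val h1
    refine ⟨⟨⟨fun u v => ?_⟩⟩, p, hp, hpow⟩
    apply Subtype.ext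
    show (u : G) * (v : G) = (v : G) * (u : G)
    by_cases hu1 : (u : G) = 1
    · rw [hu1, one_mul, mul_one]
    · obtain ⟨g, hg⟩ := hconj _ (z : N).2 hz1 u u.2 hu1
      have hv' : g⁻¹ * (v : G) * g ∈ N := by
        have := ‹N.Normal›.conj_mem v v.2 g⁻¹
        simpa using this
      have h3 := hzc _ hv'
      rw [← hg]
      calc g * ((z : N) : G) * g⁻¹ * (v : G)
          = g * (((z : N) : G) * (g⁻¹ * (v : G) * g)) * g⁻¹ := by group
        _ = g * ((g⁻¹ * (v : G) * g) * ((z : N) : G)) * g⁻¹ := by rw [h3]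
        _ = (v : G) * (g * ((z : N) : G) * g⁻¹) := by group

end Cfsg.Agent.S0054
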