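import Cfsg.Statements.S0055
import Cfsg.Agent.Helper35.CoprimeAbelian

set_option autoImplicit false
open Cfsg

namespace Cfsg.Agent.S0055

/-- If A normalises an abelian subgroup V of coprime order, then V is the internal direct product of its A-fixed points and its commutator with A: the two meet trivially and generate V. -/
theorem result {G : Type*} [Group G] [Finite G] (A V : Subgroup G) [IsMulCommutative V]
    (hAV : A ≤ Subgroup.normalizer (V : Set G)) (hcop : (Nat.card A).Coprime (Nat.card V)) :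
    (V ⊓ Subgroup.centralizer (A : Set G)) ⊓ ⁅V, A⁆ = ⊥ ∧ (V ⊓ Subgroup.centralizer (A : Set G)) ⊔ ⁅V, A⁆ = V := by
  have hcomm : ∀ x ∈ V, ∀ y ∈ V, x * y = y * x := fun x hx y hy =>
    congrArg Subtype.val (mul_comm' (⟨x, hx⟩ : V) ⟨y, hy⟩)
  have hsolvV : Group.IsSolvable V := Group.isSolvable_of_comm (fun u v => mul_comm' u v)
  have h1 := Cfsg.Agent.Helper35.commutator_inf_centralizer_eq_bot_of_comm hAV hcop hcomm
  have hle : ⁅V, A⁆ ≤ V := Cfsg.Agent.Helper35.commutator_le_of_le_normalizer hAV
  constructor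
  · rw [eq_bot_iff, ← h1]
    intro x hx
    exact ⟨hx.2, hx.1.2⟩
  · apply le_antisymm (sup_le inf_le_left hle)
    intro v hv
    obtain ⟨n, hn, c, hc, rfl⟩ :=
      Cfsg.Agent.Helper35.exists_commutator_mul_fixed hAV hcop (Or.inr hsolvV) hv
    exact Subgroup.mul_mem _ (Subgroup.mem_sup_right hn) (Subgroup.mem_sup_left hc)

end Cfsg.Agent.S0055
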