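import Cfsg.Statements.S0056
import Cfsg.Agent.Helper35.CoprimeAbelian

set_option autoImplicit false
open Cfsg

namespace Cfsg.Agent.S0056

/-- A coprime action on an abelian group that fixes all elements of prime order is trivial. -/
theorem result {G : Type*} [Group G] [Finite G] (A V : Subgroup G) [IsMulCommutative V]
    (hAV : A ≤ Subgroup.normalizer (V : Set G)) (hcop : (Nat.card A).Coprime (Nat.card V))
    (hΩ : ∀ v ∈ V, (orderOf v).Prime → ∀ a ∈ A, a * v = v * a) : A ≤ Subgroup.centralizer (V : Set G) := by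
  have hcomm : ∀ x ∈ V, ∀ y ∈ V, x * y = y * x := fun x hx y hy =>
    congrArg Subtype.val (mul_comm' (⟨x, hx⟩ : V) ⟨y, hy⟩)
  have h1 := Cfsg.Agent.Helper35.commutator_inf_centralizer_eq_bot_of_comm hAV hcop hcomm
  have hle : ⁅V, A⁆ ≤ V := Cfsg.Agent.Helper35.commutator_le_of_le_normalizer hAV
  have hbot : ⁅V, A⁆ = ⊥ := by
    by_contra hne
    have hcard : Nat.card (⁅V, A⁆ : Subgroup G) ≠ 1 := fun h => hne (Subgroup.card_eq_one.mp h)
    have hp : (Nat.card (⁅V, A⁆ : Subgroup G)).minFac.Prime := Nat.minFac_prime hcard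
    have : Fact (Nat.card (⁅V, A⁆ : Subgroup G)).minFac.Prime := ⟨hp⟩
    obtain ⟨v, hv⟩ := exists_prime_orderOf_dvd_card' (G := (⁅V, A⁆ : Subgroup G)) _
      (Nat.minFac_dvd _)
    have hvo : (orderOf (v : G)).Prime := by rw [Subgroup.orderOf_coe, hv]; exact hp
    have hvC : (v : G) ∈ Subgroup.centralizer (A : Set G) := by
      rw [Subgroup.mem_centralizer_iff]
      intro a ha
      exact hΩ (v : G) (hle v.2) hvo a ha
    have hv1 : (v : G) ∈ (⁅V, A⁆ : Subgroup G) ⊓ Subgroup.centralizer (A : Set G) := ⟨v.2, hvC⟩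
    rw [h1, Subgroup.mem_bot] at hv1
    rw [hv1, orderOf_one] at hvo
    exact Nat.not_prime_one hvo
  exact Subgroup.le_centralizer_iff.mp (Subgroup.commutator_eq_bot_iff_le_centralizer.mp hbot)

end Cfsg.Agent.S0056
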