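-- Statement S0057: coprime action, centraliser of prime index p gives |[K, A]| = p.
import Cfsg.Statements.S0057
import Cfsg.Agent.Helper35.CoprimeAbelian

set_option autoImplicit false
open Cfsg

namespace Cfsg.Agent.S0057

open scoped commutatorElement Pointwise
open Cfsg.Agent.Helper35

/-- Under coprime action, if the centraliser of A in K has prime index p in K then the commutator subgroup [K, A] has order exactly p. -/
theorem result {G : Type*} [Group G] [Finite G] (A K : Subgroup G) (hAK : A ≤ Subgroup.normalizer (K : Set G))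
    (hcop : (Nat.card A).Coprime (Nat.card K)) (hsolv : Group.IsSolvable A ∨ Group.IsSolvable K)
    (p : ℕ) (hp : p.Prime) (hidx : (K ⊓ Subgroup.centralizer (A : Set G)).relIndex K = p) :
    Nat.card (⁅K, A⁆ : Subgroup G) = p := by
  have : Fact p.Prime := ⟨hp⟩
  set Z := Subgroup.centralizer (A : Set G) with hZ
  set C := K ⊓ Z with hC
  have hCK : C ≤ K := inf_le_left
  -- an `A`-invariant Sylow `p`-subgroup `P` of `K`
  obtain ⟨P, hP, hAP⟩ := exists_invariant_sylow hAK hcop hsolv p
  have hPK : P ≤ K := hP.1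
  have hPp : IsPGroup p P := isPGroup_of_mem_sylowSet hP
  have hcopP : (Nat.card A).Coprime (Nat.card P) :=
    Nat.Coprime.coprime_dvd_right (Subgroup.card_dvd_of_le hPK) hcop
  have hsolvP : Group.IsSolvable A ∨ Group.IsSolvable P := hsolv.imp id (isSolvable_of_le hPK)
  -- `|C| * p = |K|`
  have hcardC : Nat.card C * p = Nat.card K := by
    have := Subgroup.relIndex_mul_relIndex ⊥ C K bot_le hCK
    rwa [Subgroup.relIndex_bot_left, Subgroup.relIndex_bot_left, hidx] at this
  -- the index of `C ⊓ P` in `P` is `p`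
  have hrelP : C.relIndex P = p := by
    have h1 : C.relIndex P ≤ p := by
      rw [← hidx]
      exact Subgroup.relIndex_le_of_le_right hPK (by rw [hidx]; exact hp.ne_zero)
    obtain ⟨j, hj⟩ := hPp.index (C.subgroupOf P)
    have hj' : C.relIndex P = p ^ j := hj
    rcases Nat.eq_zero_or_pos j with h0 | hpos
    · exfalso
      rw [h0, pow_zero, Subgroup.relIndex_eq_one] at hj'
      have h2 : Nat.card P ∣ Nat.card C := Subgroup.card_dvd_of_le hj'
      rw [hP.2] at h2
      have h3 : p ^ ((Nat.card K).factorization p + 1) ∣ Nat.card K := by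
        have h4 := Nat.mul_dvd_mul_right h2 p
        rwa [hcardC, ← pow_succ] at h4
      exact Nat.pow_succ_factorization_not_dvd Nat.card_pos.ne' hp h3
    · have h2 : p ≤ p ^ j := Nat.le_self_pow hpos.ne' p
      omega
  -- `K = P C`
  have hKPC : ∀ k ∈ K, ∃ x ∈ P, ∃ c ∈ Z, k = x * c := by
    intro k hk
    obtain ⟨x, hx, c, hc, rfl⟩ := exists_mul_of_relIndex_eq hPK (hrelP.trans hidx.symm) hk
    exact ⟨x, hx, c, hc.2, rfl⟩
  rw [commutator_eq_of_exists_mul hPK hKPC]
  -- now work inside `P`
  set E := P ⊓ Z with hE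
  have hEP : E ≤ P := inf_le_left
  have hEZ : E ≤ Z := inf_le_right
  have hErel : E.relIndex P = p := by
    have h1 : C ⊓ P = E := by
      rw [hC, hE, inf_comm, ← inf_assoc, inf_eq_left.mpr hPK]
    rw [← h1, Subgroup.inf_relIndex_right, hrelP]
  have hcardP : p ∣ Nat.card P := by
    rw [← hErel]; exact Subgroup.relIndex_dvd_card E P
  -- `E` is normal in `P`
  have hEnorm : P ≤ Subgroup.normalizer (E : Set G) := by
    rw [← Subgroup.normal_subgroupOf_iff_le_normalizer hEP]
    apply Subgroup.normal_of_index_eq_minFac_card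
    have h1 : (E.subgroupOf P).index = p := hErel
    rw [h1, hP.2]
    have h2 : (Nat.card K).factorization p ≠ 0 := by
      intro h0
      rw [hP.2, h0, pow_zero] at hcardP
      exact hp.one_lt.ne' (Nat.dvd_one.mp hcardP)
    exact (hp.pow_minFac h2).symm
  set N : Subgroup G := ⁅P, A⁆ with hN
  have hNP : N ≤ P := commutator_le_of_le_normalizer hAP
  have hAN : A ≤ Subgroup.normalizer (N : Set G) := le_normalizer_commutator hAP
  have hcopN : (Nat.card A).Coprime (Nat.card N) :=
    Nat.Coprime.coprime_dvd_right (Subgroup.card_dvd_of_le hNP) hcopP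
  have hEA : (⁅E, A⁆ : Subgroup G) = ⊥ := Subgroup.commutator_eq_bot_iff_le_centralizer.mpr hEZ
  -- three subgroups lemma: `N` centralises `E`
  have hNE : N ≤ Subgroup.centralizer (E : Set G) := by
    rw [← Subgroup.commutator_eq_bot_iff_le_centralizer]
    apply Subgroup.commutator_commutator_eq_bot_of_rotate
    · rw [Subgroup.commutator_comm A E, hEA, Subgroup.commutator_bot_left]
    · rw [eq_bot_iff, ← hEA]
      exact Subgroup.commutator_mono (commutator_le_of_le_normalizer hEnorm) le_rfl
  have hNN : (⁅N, A⁆ : Subgroup G) = N := commutator_commutator_eq_of_coprime hAP hcopP hsolvP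
  -- `N` is not contained in `E`
  have hNnotE : ¬ N ≤ E := by
    intro hle
    have h1 : N = ⊥ := by
      rw [eq_bot_iff, ← hEA, ← hNN]
      exact Subgroup.commutator_mono hle le_rfl
    have h2 : P ≤ Z := by
      rw [hZ, ← Subgroup.commutator_eq_bot_iff_le_centralizer]
      exact h1
    have h3 : E.relIndex P = 1 := Subgroup.relIndex_eq_one.mpr (le_inf le_rfl h2)
    rw [hErel] at h3
    exact hp.one_lt.ne' h3
  obtain ⟨g, hgN, hgE⟩ := SetLike.not_le_iff_exists.mp hNnotE
  have hgP : g ∈ P := hNP hgN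
  -- `P = E ⟨g⟩`
  have hPEg : P ≤ E ⊔ Subgroup.zpowers g := by
    have hle1 : E ≤ E ⊔ Subgroup.zpowers g := le_sup_left
    have hle2 : E ⊔ Subgroup.zpowers g ≤ P := sup_le hEP ((Subgroup.zpowers_le).mpr hgP)
    have h1 := Subgroup.relIndex_mul_relIndex E (E ⊔ Subgroup.zpowers g) P hle1 hle2
    rw [hErel] at h1
    rcases (Nat.dvd_prime hp).mp (Dvd.intro_left _ h1) with h2 | h2
    · exact Subgroup.relIndex_eq_one.mp h2
    · exfalso
      rw [h2] at h1
      have h3 : E.relIndex (E ⊔ Subgroup.zpowers g) = 1 := by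
        have := hp.pos
        nlinarith
      have h4 := Subgroup.relIndex_eq_one.mp h3
      exact hgE (h4 (Subgroup.mem_sup_right (Subgroup.mem_zpowers g)))
  have hgnorm : Subgroup.zpowers g ≤ Subgroup.normalizer (E : Set G) :=
    (Subgroup.zpowers_le).mpr (hEnorm hgP)
  -- `N` is abelian
  have hcomm : ∀ x ∈ N, ∀ y ∈ N, x * y = y * x := by
    have hdec : ∀ x ∈ N, ∃ e ∈ E, ∃ z ∈ Subgroup.zpowers g, e ∈ N ∧ x = e * z := by
      intro x hx
      obtain ⟨e, he, z, hz, rfl⟩ := exists_mul_of_mem_sup_of_le_normalizer hgnorm (hPEg (hNP hx))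
      have hzN : z ∈ N := ((Subgroup.zpowers_le).mpr hgN) hz
      refine ⟨e, he, z, hz, ?_, rfl⟩
      have := N.mul_mem hx (N.inv_mem hzN)
      simpa using this
    have hcen : ∀ e ∈ E, ∀ n ∈ N, e * n = n * e := fun e he n hn =>
      (Subgroup.mem_centralizer_iff.mp (hNE hn)) e he
    intro x hx y hy
    obtain ⟨e, he, z, hz, heN, rfl⟩ := hdec x hx
    obtain ⟨e', he', z', hz', heN', rfl⟩ := hdec y hy
    have hzN : z ∈ N := ((Subgroup.zpowers_le).mpr hgN) hz
    have hzN' : z' ∈ N := ((Subgroup.zpowers_le).mpr hgN) hz'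
    have hzz : z * z' = z' * z := by
      obtain ⟨i, rfl⟩ := Subgroup.mem_zpowers_iff.mp hz
      obtain ⟨j, rfl⟩ := Subgroup.mem_zpowers_iff.mp hz'
      exact zpow_mul_comm g i j
    have e1 := hcen e' he' z hzN
    have e2 := hcen e he e' heN'
    have e3 := hcen e he z' hzN'
    calc e * z * (e' * z') = e * (z * e') * z' := by group
      _ = e * (e' * z) * z' := by rw [e1]
      _ = (e * e') * (z * z') := by group
      _ = (e' * e) * (z' * z) := by rw [e2, hzz]
      _ = e' * (e * z') * z := by group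
      _ = e' * (z' * e) * z := by rw [e3]
      _ = e' * z' * (e * z) := by group
  -- hence `N ⊓ C(A) = ⊥`
  have hNZ : N ⊓ Z = ⊥ := by
    have := commutator_inf_centralizer_eq_bot_of_comm hAN hcopN hcomm
    rwa [hNN] at this
  have hle : Nat.card N ≤ p := by
    have h1 : E.relIndex N ≤ E.relIndex P :=
      Subgroup.relIndex_le_of_le_right hNP (by rw [hErel]; exact hp.ne_zero)
    have h2 : E ⊓ N = ⊥ := by
      rw [eq_bot_iff, ← hNZ]
      exact le_inf inf_le_right (inf_le_left.trans hEZ)
    rw [← Subgroup.inf_relIndex_right, h2, Subgroup.relIndex_bot_left, hErel] at h1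
    exact h1
  have hge : p ≤ Nat.card N := by
    have h1 : Nat.card N ∣ Nat.card P := Subgroup.card_dvd_of_le hNP
    rw [hP.2] at h1
    obtain ⟨j, -, hj⟩ := (Nat.dvd_prime_pow hp).mp h1
    rcases Nat.eq_zero_or_pos j with h0 | hpos
    · exfalso
      rw [h0, pow_zero] at hj
      apply hNnotE
      rw [Subgroup.card_eq_one.mp hj]
      exact bot_le
    · rw [hj]; exact Nat.le_self_pow hpos.ne' p
  exact le_antisymm hle hge

end Cfsg.Agent.S0057
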