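-- Statement S0059: Glauberman's lemma.
import Cfsg.Statements.S0059
import Cfsg.Agent.Helper35.Glauberman

set_option autoImplicit false
open Pointwise
open Cfsg

namespace Cfsg.Agent.S0059

/-- Let a finite group act on a set on which a normal subgroup K of coprime order and index is transitive, with K or the quotient solvable. Then any complement H of K has a fixed point, and any two H-fixed points are interchanged by an element of K centralising H. -/
theorem result {G : Type*} [Group G] [Finite G] {X : Type*} [Nonempty X] [MulAction G X]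
    (K H : Subgroup G) [K.Normal] (hc : Subgroup.IsComplement' K H) (hcop : (Nat.card K).Coprime K.index)
    (hsolv : Group.IsSolvable K ∨ Group.IsSolvable (G ⧸ K)) (htrans : MulAction.IsPretransitive K X) :
    (∃ x : X, ∀ h ∈ H, h • x = x) ∧
    ∀ x y : X, (∀ h ∈ H, h • x = x) → (∀ h ∈ H, h • y = y) → ∃ k ∈ K ⊓ Subgroup.centralizer (H : Set G), k • x = y := by
  have hsolv' : Group.IsSolvable K ∨ Group.IsSolvable H :=
    hsolv.imp id (Cfsg.Agent.Helper35.isSolvable_of_isComplement'_of_quotient hc)
  have htr : ∀ s t : X, ∃ k ∈ K, k • s = t := by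
    intro s t
    obtain ⟨k, hk⟩ := MulAction.exists_smul_eq K s t
    exact ⟨k, k.2, hk⟩
  have hidx : K.index = Nat.card H := Cfsg.Agent.Helper35.index_eq_card_of_isComplement' hc
  constructor
  · obtain ⟨s, -, hs⟩ := Cfsg.Agent.Helper35.glauberman_ext K H hc hcop hsolv'
      (S := Set.univ) Set.univ_nonempty (fun _ _ _ => Set.mem_univ _)
      (fun s _ t _ => htr s t)
    exact ⟨s, hs⟩
  · intro x y hx hy
    obtain ⟨k, hk, hkxy⟩ := htr x y
    exact Cfsg.Agent.Helper35.glauberman_conj
      (Subgroup.le_normalizer_of_normal) (by rw [← hidx]; exact hcop.symm) hsolv'.symm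
      hx hy hk hkxy

end Cfsg.Agent.S0059
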