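import Cfsg.Statements.S0060
import Mathlib.Data.Fintype.Lattice
import Cfsg.Agent.Helper1.Basic
import Cfsg.Agent.Helper1.Tools2

set_option autoImplicit false
open Pointwise
open Cfsg

namespace Cfsg.Agent.S0060

theorem le_normalizer_of_comm {G : Type*} [Group G] {A D : Subgroup G}
    (hA : ∀ a ∈ A, ∀ b ∈ A, a * b = b * a) (hDA : D ≤ A) :
    A ≤ Subgroup.normalizer (D : Set G) := by
  intro s hs
  rw [Subgroup.mem_set_normalizer_iff]
  intro h
  constructor
  · intro hh
    have : s * h * s⁻¹ = h := by rw [hA s hs h (hDA hh)]; group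
    rw [this]; exact hh
  · intro hh
    have h1 : h ∈ A := by
      have := A.mul_mem (A.mul_mem (A.inv_mem hs) (hDA hh)) hs
      simpa [mul_assoc] using this
    have : s * h * s⁻¹ = h := by rw [hA s hs h h1]; group
    rw [this] at hh; exact hh

open Pointwise in
theorem key {G : Type*} [Group G] [Finite G] (p : ℕ) [Fact p.Prime]
    (S : Sylow p G) (g : G) (D N : Subgroup G)
    (hD : (S : Subgroup G) ⊓ MulAut.conj g • (S : Subgroup G) = D)
    (hN : Subgroup.normalizer (D : Set G) = N)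
    (hSN : (S : Subgroup G) ≤ N) (hTN : MulAut.conj g • (S : Subgroup G) ≤ N)
    (hg : ∀ x : G, Nat.card D ≤
      Nat.card ((S : Subgroup G) ⊓ MulAut.conj x • (S : Subgroup G) : Subgroup G))
    (R : Sylow p G) : D ≤ R := by
  have hpg : IsPGroup p (((R : Subgroup G) ⊓ N).subgroupOf N) :=
    (R.isPGroup'.to_le inf_le_left).comap_subtype
  obtain ⟨Q, hQ⟩ := hpg.exists_le_sylow
  obtain ⟨n, hn⟩ := MulAction.exists_smul_eq N (S.subtype hSN) Q
  have hQ' : (Q : Subgroup N) = (MulAut.conj (n : G) • (S : Subgroup G)).subgroupOf N := by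
    rw [← hn, Sylow.coe_subgroup_smul, Sylow.coe_subtype, Subgroup.conj_smul_subgroupOf hSN n]
  have h1 : (R : Subgroup G) ⊓ N ≤ MulAut.conj (n : G) • (S : Subgroup G) := by
    intro x hx
    have h2 : (⟨x, hx.2⟩ : N) ∈ (Q : Subgroup N) := hQ (Subgroup.mem_subgroupOf.mpr hx)
    rw [hQ', Subgroup.mem_subgroupOf] at h2
    exact h2
  have hT'N : MulAut.conj (n : G) • (MulAut.conj g • (S : Subgroup G)) ≤ N :=
    Subgroup.conj_smul_le_of_le hTN n
  have hnD : MulAut.conj (n : G) • D = D :=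
    Cfsg.Agent.Helper1.mem_normalizer_iff_conj_smul_eq.mp (hN ▸ n.2)
  have h2 : (R : Subgroup G) ⊓ MulAut.conj (n : G) • (MulAut.conj g • (S : Subgroup G)) ≤ D := by
    rw [← hnD, ← hD, Subgroup.smul_inf]
    exact le_inf ((le_inf inf_le_left (inf_le_right.trans hT'N)).trans h1) inf_le_right
  obtain ⟨r, hr⟩ := MulAction.exists_smul_eq G S R
  have hr' : (R : Subgroup G) = MulAut.conj r • (S : Subgroup G) := by
    rw [← hr]; rfl
  have h3 : (R : Subgroup G) ⊓ MulAut.conj (n : G) • (MulAut.conj g • (S : Subgroup G)) =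
      MulAut.conj r • ((S : Subgroup G) ⊓ MulAut.conj (r⁻¹ * (n * g)) • (S : Subgroup G)) := by
    have e1 : MulAut.conj r • MulAut.conj (r⁻¹ * (↑n * g)) • (S : Subgroup G) =
        MulAut.conj (n : G) • (MulAut.conj g • (S : Subgroup G)) := by
      rw [← mul_smul, ← map_mul, mul_inv_cancel_left, map_mul, mul_smul]
    rw [Subgroup.smul_inf, e1, hr']
  have h4 : Nat.card D ≤
      Nat.card ((R : Subgroup G) ⊓ MulAut.conj (n : G) • (MulAut.conj g • (S : Subgroup G)) :
        Subgroup G) := by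
    rw [h3, Cfsg.Agent.Helper1.card_conj_smul]
    exact hg (r⁻¹ * (n * g))
  have h5 := Subgroup.eq_of_le_of_card_ge h2 h4
  rw [← h5]
  exact inf_le_left

open Pointwise in
theorem aux {G : Type*} [Group G] [Finite G] (p : ℕ) [Fact p.Prime]
    (S : Sylow p G) (hS : IsMulCommutative S) (hOp : Cfsg.pCore p G = ⊥) :
    ∃ g : G, (S : Subgroup G) ⊓ MulAut.conj g • (S : Subgroup G) = ⊥ := by
  have hcomm : ∀ a ∈ (S : Subgroup G), ∀ b ∈ (S : Subgroup G), a * b = b * a :=
    fun a ha b hb => congrArg Subtype.val (mul_comm' (⟨a, ha⟩ : S) ⟨b, hb⟩)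
  obtain ⟨g, hg⟩ := Finite.exists_min
    (fun g : G => Nat.card ((S : Subgroup G) ⊓ MulAut.conj g • (S : Subgroup G) : Subgroup G))
  refine ⟨g, ?_⟩
  have hcommT : ∀ a ∈ MulAut.conj g • (S : Subgroup G), ∀ b ∈ MulAut.conj g • (S : Subgroup G),
      a * b = b * a := by
    intro a ha b hb
    rw [Subgroup.mem_pointwise_smul_iff_inv_smul_mem] at ha hb
    have h1 := hcomm _ ha _ hb
    simp only [MulAut.smul_def, MulAut.conj_inv_apply] at h1
    have h2 : g * (g⁻¹ * a * g * (g⁻¹ * b * g)) * g⁻¹ = g * (g⁻¹ * b * g * (g⁻¹ * a * g)) * g⁻¹ := by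
      rw [h1]
    simpa [mul_assoc] using h2
  have hSN := le_normalizer_of_comm hcomm
    (inf_le_left : (S : Subgroup G) ⊓ MulAut.conj g • (S : Subgroup G) ≤ S)
  have hTN := le_normalizer_of_comm hcommT
    (inf_le_right : (S : Subgroup G) ⊓ MulAut.conj g • (S : Subgroup G) ≤ _)
  rw [eq_bot_iff, ← hOp, Cfsg.Agent.Helper1.pCore_eq_iInf_sylow]
  exact le_iInf (key p S g _ _ rfl rfl hSN hTN hg)

/-- Brodkey's Theorem: in a finite group with abelian Sylow p-subgroups and no nontrivial normal p-subgroup, some conjugate of a Sylow p-subgroup meets it trivially. -/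
theorem result {G : Type*} [Group G] [Finite G] (p : ℕ) [Fact p.Prime]
    (S : Sylow p G) (hS : IsMulCommutative S) (hOp : Cfsg.pCore p G = ⊥) :
    ∃ g : G, (S : Subgroup G) ⊓ MulAut.conj g • (S : Subgroup G) = ⊥ := by
  exact aux p S hS hOp

end Cfsg.Agent.S0060
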