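import Cfsg.Statements.S0061
import Mathlib.Data.Fintype.Lattice
import Mathlib.GroupTheory.Nilpotent
import Cfsg.Agent.Helper1.SZGen

set_option autoImplicit false
open Cfsg

namespace Cfsg.Agent.S0061

universe u

theorem isSolvable_of_card_pow {G : Type*} [Group G] [Finite G] {p k : ℕ} (hp : p.Prime)
    (h : Nat.card G = p ^ k) : Group.IsSolvable G := by
  have : Fact p.Prime := ⟨hp⟩
  have := (IsPGroup.of_card h).isNilpotent
  infer_instance

theorem exists_normalizer_mem {G : Type*} [Group G] [Finite G] {p : ℕ} [Fact p.Prime]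
    (P D : Subgroup G) (hP : IsPGroup p P) (hDP : D < P) :
    ∃ y ∈ P, y ∉ D ∧ y ∈ Subgroup.normalizer (D : Set G) := by
  have : Group.IsNilpotent P := hP.isNilpotent
  have hlt : D.subgroupOf P < ⊤ := by
    rw [lt_top_iff_ne_top, Ne, Subgroup.subgroupOf_eq_top]
    exact not_le_of_gt hDP
  have h2 := Group.normalizerCondition_of_isNilpotent (G := P) _ hlt
  obtain ⟨y, hy1, hy2⟩ := SetLike.exists_of_lt h2
  refine ⟨y, y.2, fun h => hy2 (Subgroup.mem_subgroupOf.mpr h), ?_⟩
  rw [Subgroup.mem_set_normalizer_iff]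
  intro d
  rw [Subgroup.mem_normalizer_iff] at hy1
  constructor
  · intro hd
    exact Subgroup.mem_subgroupOf.mp ((hy1 ⟨d, hDP.le hd⟩).mp (Subgroup.mem_subgroupOf.mpr hd))
  · intro hd
    have hdP : d ∈ P := by
      have h3 : (y : G)⁻¹ * ((y : G) * d * (y : G)⁻¹) * (y : G) ∈ P :=
        P.mul_mem (P.mul_mem (P.inv_mem y.2) (hDP.le hd)) y.2
      simpa [mul_assoc] using h3
    exact Subgroup.mem_subgroupOf.mp ((hy1 ⟨d, hdP⟩).mpr (Subgroup.mem_subgroupOf.mpr hd))

open Pointwise in
theorem normal_of_TI {G : Type*} [Group G] [Finite G] {p q m : ℕ} [Fact p.Prime] (hpq : p ≠ q)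
    (hq : q.Prime) (hG : Nat.card G = p ^ m * q) (hn : Nat.card (Sylow p G) = q)
    (hP : ∀ P : Sylow p G, Nat.card (P : Subgroup G) = p ^ m)
    (hTI : ∀ P P' : Sylow p G, P ≠ P' → (P : Subgroup G) ⊓ (P' : Subgroup G) = ⊥)
    (Q : Subgroup G) (hQ : Nat.card Q = q) : Q.Normal := by
  classical
  have hp : p.Prime := Fact.out
  have hcop : (p ^ m).Coprime q :=
    Nat.Coprime.pow_left m ((Nat.coprime_primes hp hq).mpr hpq)
  have hPQ : ∀ P : Sylow p G, ∀ x : G, x ∈ (P : Subgroup G) → x ∈ Q → x = 1 := by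
    intro P x hx1 hx2
    have hd : Disjoint (P : Subgroup G) Q :=
      Subgroup.disjoint_of_coprime_natCard (by rw [hP P, hQ]; exact hcop)
    exact Subgroup.disjoint_def.mp hd hx1 hx2
  obtain ⟨e⟩ := Finite.card_eq.mp (hn.trans hQ.symm)
  let ψ : (Σ P : Sylow p G, (P : Subgroup G)) → G :=
    fun s => if (s.2 : G) = 1 then (e s.1 : G) else s.2
  have hinj : Function.Injective ψ := by
    rintro ⟨P, x⟩ ⟨P', x'⟩ h
    simp only [ψ] at h
    split_ifs at h with h1 h2 h2
    · have hPP : P = P' := e.injective (Subtype.ext h)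
      subst hPP
      have : x = x' := Subtype.ext (h1.trans h2.symm)
      rw [this]
    · exact absurd (hPQ P' x' x'.2 (h ▸ (e P).2)) h2
    · exact absurd (hPQ P x x.2 (h ▸ (e P').2)) h1
    · have hPP : P = P' := by
        by_contra hne
        have h3 : (x : G) ∈ (P : Subgroup G) ⊓ (P' : Subgroup G) := ⟨x.2, h ▸ x'.2⟩
        rw [hTI P P' hne, Subgroup.mem_bot] at h3
        exact h1 h3
      subst hPP
      have : x = x' := Subtype.ext h
      rw [this]
  have hcard : Nat.card G ≤ Nat.card (Σ P : Sylow p G, (P : Subgroup G)) := by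
    have : Fintype (Sylow p G) := Fintype.ofFinite _
    rw [Nat.card_sigma, Finset.sum_congr rfl (fun P _ => hP P), Finset.sum_const,
      Finset.card_univ, ← Nat.card_eq_fintype_card, hn, hG, smul_eq_mul, mul_comm]
  have hbij := hinj.bijective_of_nat_card_le hcard
  have hmem : ∀ g : G, g ∉ Q → ∃ P : Sylow p G, g ∈ (P : Subgroup G) := by
    intro g hg
    obtain ⟨⟨P, x⟩, hx⟩ := hbij.2 g
    simp only [ψ] at hx
    split_ifs at hx with h1
    · exact absurd (hx ▸ (e P).2) hg
    · exact ⟨P, hx ▸ x.2⟩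
  refine ⟨fun n hn g => ?_⟩
  by_contra hcon
  obtain ⟨P, hP'⟩ := hmem _ hcon
  have h1 : n ∈ ((g⁻¹ • P : Sylow p G) : Subgroup G) := by
    rw [Sylow.coe_subgroup_smul, Subgroup.mem_pointwise_smul_iff_inv_smul_mem]
    simpa [MulAut.smul_def] using hP'
  have h2 := hPQ _ n h1 hn
  rw [h2] at hcon
  simp at hcon

theorem main (p q : ℕ) (hp : p.Prime) (hq : q.Prime) (k : ℕ) :
    ∀ (G : Type u) [Group G] [Finite G] (m : ℕ), Nat.card G = k → Nat.card G = p ^ m * q →
    Group.IsSolvable G := by
  induction k using Nat.strong_induction_on with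
  | _ k ih =>
    intro G _ _ m hk hG
    have : Fact p.Prime := ⟨hp⟩
    by_cases hpq : p = q
    · subst hpq
      exact isSolvable_of_card_pow hp (k := m + 1) (by rw [hG, pow_succ])
    obtain ⟨P⟩ := (inferInstance : Nonempty (Sylow p G))
    have hpq' : ¬ p ∣ q := fun h => hpq ((Nat.prime_dvd_prime_iff_eq hp hq).mp h)
    have hfac : (Nat.card G).factorization p = m := by
      rw [hG, Nat.factorization_mul (pow_ne_zero _ hp.ne_zero) hq.ne_zero, hp.factorization_pow]
      simp [Nat.factorization_eq_zero_of_not_dvd hpq']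
    have hPcard : ∀ P : Sylow p G, Nat.card (P : Subgroup G) = p ^ m :=
      fun P => by rw [P.card_eq_multiplicity, hfac]
    have hPidx : ∀ P : Sylow p G, (P : Subgroup G).index = q := fun P => by
      have := Subgroup.card_mul_index (P : Subgroup G)
      rw [hPcard P, hG] at this
      exact Nat.eq_of_mul_eq_mul_left (pow_pos hp.pos m) this
    have hnp : Nat.card (Sylow p G) = 1 ∨ Nat.card (Sylow p G) = q :=
      hq.eq_one_or_self_of_dvd _ (hPidx P ▸ P.card_dvd_index)
    rcases hnp with hnp | hnp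
    · have : Subsingleton (Sylow p G) := (Nat.card_eq_one_iff_unique.mp hnp).1
      have hPn : (P : Subgroup G).Normal := P.normal_of_subsingleton
      have h1 : Group.IsSolvable (P : Subgroup G) := isSolvable_of_card_pow hp (hPcard P)
      have h2 : Group.IsSolvable (G ⧸ (P : Subgroup G)) :=
        isSolvable_of_card_pow hq (k := 1) (by
          rw [pow_one, ← Subgroup.index_eq_card]; exact hPidx P)
      exact (Group.isSolvable_iff_subgroup_quotient _).mpr ⟨h1, h2⟩
    · have hnt : Nontrivial (Sylow p G) :=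
        (Finite.one_lt_card_iff_nontrivial).mp (hnp ▸ hq.one_lt)
      have : Nonempty {pr : Sylow p G × Sylow p G // pr.1 ≠ pr.2} := by
        obtain ⟨a, b, hab⟩ := exists_pair_ne (Sylow p G)
        exact ⟨⟨(a, b), hab⟩⟩
      obtain ⟨⟨⟨P₁, P₂⟩, hne⟩, hmax⟩ := Finite.exists_max
        (fun pr : {pr : Sylow p G × Sylow p G // pr.1 ≠ pr.2} =>
          Nat.card ((pr.1.1 : Subgroup G) ⊓ (pr.1.2 : Subgroup G) : Subgroup G))
      have hne' : P₁ ≠ P₂ := hne
      have hmax' : ∀ P P' : Sylow p G, P ≠ P' →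
          Nat.card ((P : Subgroup G) ⊓ (P' : Subgroup G) : Subgroup G) ≤
          Nat.card ((P₁ : Subgroup G) ⊓ (P₂ : Subgroup G) : Subgroup G) :=
        fun P P' h => hmax ⟨(P, P'), h⟩
      by_cases hD : (P₁ : Subgroup G) ⊓ (P₂ : Subgroup G) = ⊥
      · have hTI : ∀ P P' : Sylow p G, P ≠ P' → (P : Subgroup G) ⊓ (P' : Subgroup G) = ⊥ := by
          intro P P' h
          have h1 := hmax' P P' h
          rw [hD, Subgroup.card_bot] at h1
          exact Subgroup.eq_bot_of_card_le _ h1
        have : Fact q.Prime := ⟨hq⟩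
        obtain ⟨Q⟩ := (inferInstance : Nonempty (Sylow q G))
        have hqp' : ¬ q ∣ p ^ m := fun h =>
          hpq ((Nat.prime_dvd_prime_iff_eq hq hp).mp (hq.dvd_of_dvd_pow h)).symm
        have hQcard : Nat.card (Q : Subgroup G) = q := by
          rw [Q.card_eq_multiplicity, hG,
            Nat.factorization_mul (pow_ne_zero _ hp.ne_zero) hq.ne_zero, Finsupp.add_apply,
            Nat.factorization_eq_zero_of_not_dvd hqp', hq.factorization_self, zero_add, pow_one]
        have hQn : (Q : Subgroup G).Normal := normal_of_TI hpq hq hG hnp hPcard hTI Q hQcard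
        have h1 : Group.IsSolvable (Q : Subgroup G) :=
          isSolvable_of_card_pow hq (k := 1) (by rw [pow_one]; exact hQcard)
        have h2 : Group.IsSolvable (G ⧸ (Q : Subgroup G)) :=
          isSolvable_of_card_pow hp (k := m) (by
            have h3 := Cfsg.Agent.Helper1.card_quotient_mul_card (Q : Subgroup G)
            rw [hQcard, hG] at h3
            exact Nat.eq_of_mul_eq_mul_right hq.pos h3)
        exact (Group.isSolvable_iff_subgroup_quotient _).mpr ⟨h1, h2⟩
      · have hDlt : ∀ P P' : Sylow p G, P ≠ P' →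
            (P : Subgroup G) ⊓ (P' : Subgroup G) < (P : Subgroup G) := by
          intro P P' h
          refine lt_of_le_of_ne inf_le_left (fun heq => h ?_)
          have hle : (P : Subgroup G) ≤ P' := heq ▸ inf_le_right
          exact Sylow.ext (Subgroup.eq_of_le_of_card_ge hle (by rw [hPcard, hPcard]))
        obtain ⟨y₁, hy₁P, hy₁D, hy₁N⟩ :=
          exists_normalizer_mem (P₁ : Subgroup G) _ P₁.isPGroup' (hDlt P₁ P₂ hne')
        obtain ⟨y₂, hy₂P, hy₂D, hy₂N⟩ :=
          exists_normalizer_mem (P₂ : Subgroup G) _ P₂.isPGroup'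
            (inf_comm (P₂ : Subgroup G) (P₁ : Subgroup G) ▸ hDlt P₂ P₁ hne'.symm)
        have hNnp : ¬ IsPGroup p (Subgroup.normalizer
            (((P₁ : Subgroup G) ⊓ (P₂ : Subgroup G) : Subgroup G) : Set G)) := by
          intro hN
          obtain ⟨P₃, hP₃⟩ := hN.exists_le_sylow
          have key : ∀ (P : Sylow p G) (y : G), y ∈ (P : Subgroup G) →
              y ∉ (P₁ : Subgroup G) ⊓ (P₂ : Subgroup G) →
              y ∈ Subgroup.normalizer
                (((P₁ : Subgroup G) ⊓ (P₂ : Subgroup G) : Subgroup G) : Set G) →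
              (P₁ : Subgroup G) ⊓ (P₂ : Subgroup G) ≤ P → P₃ = P := by
            intro P y hyP hyD hyN hDP
            by_contra hne3
            have h1 := hmax' P₃ P hne3
            have h2 : (P₁ : Subgroup G) ⊓ (P₂ : Subgroup G) ≤ (P₃ : Subgroup G) ⊓ P :=
              le_inf (Subgroup.le_normalizer.trans hP₃) hDP
            have h3 := Subgroup.eq_of_le_of_card_ge h2 h1
            exact hyD (h3 ▸ ⟨hP₃ hyN, hyP⟩)
          have e1 := key P₁ y₁ hy₁P hy₁D hy₁N inf_le_left
          have e2 := key P₂ y₂ hy₂P hy₂D hy₂N inf_le_right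
          exact hne' (e1.symm.trans e2)
        have hqN : q ∣ Nat.card (Subgroup.normalizer
            (((P₁ : Subgroup G) ⊓ (P₂ : Subgroup G) : Subgroup G) : Set G)) := by
          by_contra hqN
          have h1 : Nat.card (Subgroup.normalizer
              (((P₁ : Subgroup G) ⊓ (P₂ : Subgroup G) : Subgroup G) : Set G)) ∣ p ^ m * q :=
            hG ▸ Subgroup.card_subgroup_dvd_card _
          have h2 := (Nat.Coprime.symm ((Nat.Prime.coprime_iff_not_dvd hq).mpr hqN)).dvd_of_dvd_mul_right h1
          obtain ⟨j, -, hj⟩ := (Nat.dvd_prime_pow hp).mp h2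
          exact hNnp (IsPGroup.of_card hj)
        have : Fact q.Prime := ⟨hq⟩
        obtain ⟨v, hv⟩ := exists_prime_orderOf_dvd_card' q hqN
        have hv' : orderOf (v : G) = q := by rw [Subgroup.orderOf_coe, hv]
        have hQ₀card : Nat.card (Subgroup.zpowers (v : G)) = q := by rw [Nat.card_zpowers, hv']
        have hQ₀N : Subgroup.zpowers (v : G) ≤ Subgroup.normalizer
            (((P₁ : Subgroup G) ⊓ (P₂ : Subgroup G) : Subgroup G) : Set G) :=
          Subgroup.zpowers_le.mpr v.2
        have hcop : (p ^ m).Coprime q :=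
          Nat.Coprime.pow_left m ((Nat.coprime_primes hp hq).mpr hpq)
        have hc : Subgroup.IsComplement' (P₁ : Subgroup G) (Subgroup.zpowers (v : G)) :=
          Subgroup.isComplement'_of_coprime (by rw [hPcard, hQ₀card, hG])
            (by rw [hPcard, hQ₀card]; exact hcop)
        have hDC : (P₁ : Subgroup G) ⊓ (P₂ : Subgroup G) ≤ (P₁ : Subgroup G).normalCore := by
          intro d hd g
          obtain ⟨⟨u, w⟩, rfl⟩ := hc.2 g
          have h1 : (w : G) * d * (w : G)⁻¹ ∈ (P₁ : Subgroup G) ⊓ (P₂ : Subgroup G) :=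
            (Subgroup.mem_set_normalizer_iff.mp (hQ₀N w.2) d).mp hd
          have h2 : (u : G) * (w : G) * d * ((u : G) * (w : G))⁻¹ =
              (u : G) * ((w : G) * d * (w : G)⁻¹) * (u : G)⁻¹ := by group
          change (u : G) * (w : G) * d * ((u : G) * (w : G))⁻¹ ∈ (P₁ : Subgroup G)
          rw [h2]
          exact Subgroup.mul_mem _ (Subgroup.mul_mem _ u.2 h1.1) (Subgroup.inv_mem _ u.2)
        have hC0 : (P₁ : Subgroup G).normalCore ≠ ⊥ := fun h => hD (le_bot_iff.mp (h ▸ hDC))
        have hCdvd : Nat.card (P₁ : Subgroup G).normalCore ∣ p ^ m :=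
          hPcard P₁ ▸ Subgroup.card_dvd_of_le (Subgroup.normalCore_le _)
        obtain ⟨c, hcm, hc'⟩ := (Nat.dvd_prime_pow hp).mp hCdvd
        have hCs : Group.IsSolvable (P₁ : Subgroup G).normalCore := isSolvable_of_card_pow hp hc'
        have hQcard : Nat.card (G ⧸ (P₁ : Subgroup G).normalCore) = p ^ (m - c) * q := by
          have h3 := Cfsg.Agent.Helper1.card_quotient_mul_card (P₁ : Subgroup G).normalCore
          rw [hc', hG, ← Nat.pow_sub_mul_pow p hcm] at h3
          apply Nat.eq_of_mul_eq_mul_right (pow_pos hp.pos c)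
          rw [h3]; ring
        have hQs : Group.IsSolvable (G ⧸ (P₁ : Subgroup G).normalCore) :=
          ih _ (hk ▸ Cfsg.Agent.Helper1.card_quotient_lt _ hC0) _ (m - c) rfl hQcard
        exact (Group.isSolvable_iff_subgroup_quotient _).mpr ⟨hCs, hQs⟩

/-- A finite group whose order is a prime power times a prime is solvable. -/
theorem result {G : Type*} [Group G] [Finite G] (p q m : ℕ) (hp : p.Prime) (hq : q.Prime)
    (hG : Nat.card G = p ^ m * q) : Group.IsSolvable G := by
  exact main p q hp hq (Nat.card G) G m rfl hG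

end Cfsg.Agent.S0061
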