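import Cfsg.Statements.S0062
import Cfsg.Agent.Helper2.SolvableSmall

set_option autoImplicit false
open Cfsg
open Cfsg.Agent.Helper2

namespace Cfsg.Agent.S0062

theorem aux {G : Type*} [Group G] [Finite G] (p q : ℕ) (hp : p.Prime) (hq : q.Prime)
    (hqp : q < p) (hG : Nat.card G = p ^ 2 * q ^ 2) : Group.IsSolvable G := by
  haveI : Fact p.Prime := ⟨hp⟩
  haveI : Fact q.Prime := ⟨hq⟩
  let P : Sylow p G := default
  have hpq : ¬ p ∣ q ^ 2 := by
    intro h
    have := (Nat.prime_dvd_prime_iff_eq hp hq).mp (hp.dvd_of_dvd_pow h)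
    omega
  have hidx : (P : Subgroup G).index = q ^ 2 := sylow_index_eq P 2 (q ^ 2) hG hpq
  have hdvd : Nat.card (Sylow p G) ∣ q ^ 2 := hidx ▸ P.card_dvd_index
  have hmod : Nat.card (Sylow p G) ≡ 1 [MOD p] := card_sylow_modEq_one p G
  obtain ⟨m, hm, hnm⟩ := (Nat.dvd_prime_pow hq).mp hdvd
  have hq2 : 2 ≤ q := hq.two_le
  interval_cases m
  · have hN : (P : Subgroup G).Normal := by
      have h1 : (Subgroup.normalizer (P : Set G)).index = 1 := by
        rw [← P.card_eq_index_normalizer, hnm, pow_zero]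
      exact Subgroup.normalizer_eq_top_iff.mp (Subgroup.index_eq_one.mp h1)
    haveI := hN
    haveI : Group.IsNilpotent (P : Subgroup G) := P.2.isNilpotent
    haveI : Group.IsSolvable (G ⧸ (P : Subgroup G)) := isSolvable_of_card_prime_pow q 2 hidx
    exact (Group.isSolvable_iff_subgroup_quotient (P : Subgroup G)).mpr
      ⟨inferInstance, inferInstance⟩
  · exfalso
    rw [hnm, pow_one] at hmod
    have h1 : p ∣ q - 1 := (Nat.modEq_iff_dvd' (by omega)).mp hmod.symm
    have h2 : p ≤ q - 1 := Nat.le_of_dvd (by omega) h1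
    omega
  · rw [hnm] at hmod
    have h1 : p ∣ q ^ 2 - 1 := (Nat.modEq_iff_dvd' (Nat.one_le_pow _ _ hq.pos)).mp hmod.symm
    have h2 : q ^ 2 - 1 = (q - 1) * (q + 1) := by
      obtain ⟨r, rfl⟩ : ∃ r, q = r + 1 := ⟨q - 1, by omega⟩
      have e : (r + 1) ^ 2 = r * (r + 1 + 1) + 1 := by ring
      rw [e]
      simp
    rw [h2] at h1
    rcases (Nat.Prime.dvd_mul hp).mp h1 with h3 | h3
    · exfalso
      have := Nat.le_of_dvd (by omega) h3
      omega
    · have h4 : p ≤ q + 1 := Nat.le_of_dvd (by omega) h3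
      have h5 : p = q + 1 := by omega
      have hq2' : q = 2 := by
        rcases hq.eq_two_or_odd with h | h
        · exact h
        · exfalso
          rcases hp.eq_two_or_odd with h' | h'
          · omega
          · omega
      subst hq2'
      have hp3 : p = 3 := h5
      subst hp3
      exact isSolvable_of_card_eq_thirtysix (by rw [hG]; norm_num)


/-- A finite group of order p^2 * q^2 with p and q prime is solvable. -/
theorem result {G : Type*} [Group G] [Finite G] (p q : ℕ) (hp : p.Prime) (hq : q.Prime)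
    (hG : Nat.card G = p ^ 2 * q ^ 2) : Group.IsSolvable G := by
  rcases lt_trichotomy p q with h | h | h
  · exact aux q p hq hp h (by rw [hG, mul_comm])
  · subst h
    haveI : Fact p.Prime := ⟨hp⟩
    exact isSolvable_of_card_prime_pow p 4 (by rw [hG]; ring)
  · exact aux p q hp hq h hG

end Cfsg.Agent.S0062
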