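import Cfsg.Statements.S0064
-- import your own Cfsg.Agent.* helpers here

set_option autoImplicit false
open Cfsg

namespace Cfsg.Agent.S0064

/-- A finite group is nilpotent exactly when each of its subgroups is subnormal. -/
theorem result {G : Type*} [Group G] [Finite G] :
    Group.IsNilpotent G ↔ ∀ H : Subgroup G, H.IsSubnormal := by
  constructor
  · intro hnil H
    have hNC : NormalizerCondition G := Group.normalizerCondition_of_isNilpotent
    induction H using WellFoundedGT.induction with
    | _ H ih =>
      by_cases hH : H = ⊤
      · rw [hH]; exact Subgroup.IsSubnormal.top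
      · have hlt : H < Subgroup.normalizer (H : Set G) := hNC H (lt_top_iff_ne_top.mpr hH)
        exact Subgroup.IsSubnormal.step H _ hlt.le (ih _ hlt) Subgroup.normal_in_normalizer
  · intro h
    have hmax : ∀ H : Subgroup G, IsCoatom H → H.Normal := by
      intro H hH
      rcases (h H).lt_normal with htop | ⟨K, hKn, hHK, hKtop⟩
      · exact absurd htop hH.1
      · have : K = H := by
          by_contra hne
          exact hKtop.ne (hH.2 K (lt_of_le_of_ne hHK (Ne.symm hne)))
        exact this ▸ hKn
    exact (Group.isNilpotent_of_finite_tfae (G := G)).out 2 0 |>.mp hmax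

end Cfsg.Agent.S0064
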