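import Cfsg.Statements.S0066
import Cfsg.Agent.Helper72.Subnormal

set_option autoImplicit false
open Pointwise
open Cfsg

namespace Cfsg.Agent.S0066

theorem main {G : Type*} [Group G] [Finite G] (A : Subgroup G)
    (h : ∀ g : G, (A.subgroupOf (A ⊔ MulAut.conj g • A)).IsSubnormal) : A.IsSubnormal := by
  have h1 : Cfsg.Agent.Helper72.SubnIn ⊤ A := by
    refine Cfsg.Agent.Helper72.subnIn_of_forall_conj A (Nat.card (⊤ : Subgroup G)) ⊤ le_rfl
      le_top ?_
    intro a _ g _
    exact Cfsg.Agent.Helper72.subnIn_of_isSubnormal_subgroupOf le_sup_left (h (g⁻¹ * a * g))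
  exact h1.isSubnormal_of Subgroup.IsSubnormal.top

/-- Wielandt's subnormality criterion: a subgroup that is subnormal in its join with each of its conjugates is subnormal in the whole finite group. -/
theorem result {G : Type*} [Group G] [Finite G] (A : Subgroup G)
    (h : ∀ g : G, (A.subgroupOf (A ⊔ MulAut.conj g • A)).IsSubnormal) : A.IsSubnormal := by
  exact main A h

end Cfsg.Agent.S0066
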