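import Cfsg.Statements.S0067
import Cfsg.Agent.Helper72.Subnormal
import Cfsg.Agent.Helper62.Subnormal
import Cfsg.Agent.Helper22.Fitting

set_option autoImplicit false
open Pointwise
open Cfsg

namespace Cfsg.Agent.S0067

theorem main {G : Type*} [Group G] [Finite G] (A : Subgroup G)
    (h : ∀ g : G, Group.IsNilpotent (A ⊔ MulAut.conj g • A : Subgroup G)) :
    A.IsSubnormal ∧ A ≤ Cfsg.fittingSubgroup G := by
  have hsub : A.IsSubnormal := by
    have h1 : Cfsg.Agent.Helper72.SubnIn ⊤ A := by
      refine Cfsg.Agent.Helper72.subnIn_of_forall_conj A (Nat.card (⊤ : Subgroup G)) ⊤ le_rfl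
        le_top ?_
      intro a _ g _
      have : Group.IsNilpotent ↥(A ⊔ A.map (MulAut.conj (g⁻¹ * a * g)).toMonoidHom) :=
        h (g⁻¹ * a * g)
      exact Cfsg.Agent.Helper72.subnIn_of_isSubnormal_subgroupOf le_sup_left
        (Cfsg.Agent.Helper62.isSubnormal_of_isNilpotent _)
    exact h1.isSubnormal_of Subgroup.IsSubnormal.top
  refine ⟨hsub, Cfsg.Agent.Helper22.le_fittingSubgroup_of_isSubnormal hsub ?_⟩
  have h1 := h 1
  have e : A ⊔ MulAut.conj (1 : G) • A = A := by rw [map_one, one_smul, sup_idem]
  have key : ∀ B : Subgroup G, B = A → Group.IsNilpotent B → Group.IsNilpotent A := by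
    rintro B rfl hB; exact hB
  exact key _ e h1

/-- If the join of a subgroup A with each of its conjugates is nilpotent, then A is subnormal in the finite group and contained in the Fitting subgroup. -/
theorem result {G : Type*} [Group G] [Finite G] (A : Subgroup G)
    (h : ∀ g : G, Group.IsNilpotent (A ⊔ MulAut.conj g • A : Subgroup G)) : A.IsSubnormal ∧ A ≤ Cfsg.fittingSubgroup G := by
  exact main A h

end Cfsg.Agent.S0067
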