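import Cfsg.Statements.S0070
import Cfsg.Agent.Helper2.Gaschutz

set_option autoImplicit false
open Cfsg

namespace Cfsg.Agent.S0070

/-- The Fitting subgroup commutes with passing to the Frattini quotient: the Fitting subgroup of G modulo its Frattini subgroup is the image of the Fitting subgroup of G. -/
theorem result {G : Type*} [Group G] [Finite G] :
    Cfsg.fittingSubgroup (G ⧸ frattini G) = (Cfsg.fittingSubgroup G).map (QuotientGroup.mk' (frattini G)) := by
  have hsurj : Function.Surjective (QuotientGroup.mk' (frattini G)) :=
    QuotientGroup.mk'_surjective _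
  apply le_antisymm
  · apply sSup_le
    rintro M ⟨hMn, hMnil⟩
    haveI := hMn
    have hmap : (M.comap (QuotientGroup.mk' (frattini G))).map (QuotientGroup.mk' (frattini G)) = M :=
      Subgroup.map_comap_eq_self_of_surjective hsurj M
    have hKnil : Group.IsNilpotent (M.comap (QuotientGroup.mk' (frattini G))) := by
      apply Cfsg.Agent.Helper2.isNilpotent_of_isNilpotent_map_frattini
      rw [hmap]
      exact hMnil
    rw [← hmap]
    apply Subgroup.map_mono
    exact le_sSup ⟨inferInstance, hKnil⟩
  · rw [Subgroup.map_le_iff_le_comap]
    apply sSup_le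
    rintro N ⟨hNn, hNnil⟩
    rw [← Subgroup.map_le_iff_le_comap]
    haveI := hNnil
    apply le_sSup
    refine ⟨hNn.map _ hsurj, ?_⟩
    exact nilpotent_of_surjective ((QuotientGroup.mk' (frattini G)).subgroupMap N)
      ((QuotientGroup.mk' (frattini G)).subgroupMap_surjective N)

end Cfsg.Agent.S0070
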