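import Cfsg.Statements.S0073
import Cfsg.Agent.Helper2.PComplement2

set_option autoImplicit false
open Cfsg
open Cfsg.Agent.Helper2

namespace Cfsg.Agent.S0073

/-- For a finite non-abelian simple group, either the cube of the least prime divisor of the order divides the order, or 12 does. -/
theorem result {G : Type*} [Group G] [Finite G] [IsSimpleGroup G] (hG : ∃ x y : G, x * y ≠ y * x) : (Nat.card G).minFac ^ 3 ∣ Nat.card G ∨ 12 ∣ Nat.card G := by
  by_cases h12 : 12 ∣ Nat.card G
  · exact Or.inr h12
  left
  have hcard : Nat.card G ≠ 1 := by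
    intro h
    obtain ⟨x, y, hxy⟩ := hG
    haveI : Subsingleton G := (Nat.card_eq_one_iff_unique.mp h).1
    exact hxy (Subsingleton.elim _ _)
  have hpp : (Nat.card G).minFac.Prime := Nat.minFac_prime hcard
  haveI : Fact (Nat.card G).minFac.Prime := ⟨hpp⟩
  let P : Sylow (Nat.card G).minFac G := default
  obtain ⟨k, hk⟩ := P.2.exists_card_eq
  have hPdvd : Nat.card (P : Subgroup G) ∣ Nat.card G := Subgroup.card_subgroup_dvd_card _
  by_cases hk3 : 3 ≤ k
  · exact (pow_dvd_pow _ hk3).trans (hk ▸ hPdvd)
  exfalso
  have hk1 : 1 ≤ k := by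
    have h1 := Sylow.card_eq_multiplicity P
    rw [hk] at h1
    have h2 : k = (Nat.card G).factorization (Nat.card G).minFac :=
      Nat.pow_right_injective hpp.two_le h1
    rw [h2]
    exact Nat.Prime.factorization_pos_of_dvd hpp Nat.card_pos.ne' (Nat.minFac_dvd _)
  haveI hcomm : IsMulCommutative (P : Subgroup G) := by
    have hk' : k = 1 ∨ k = 2 := by omega
    rcases hk' with rfl | rfl
    · haveI : IsCyclic (P : Subgroup G) := isCyclic_of_prime_card (by rw [hk, pow_one])
      exact IsCyclic.isMulCommutative
    · exact IsPGroup.isMulCommutative_of_card_eq_prime_sq hk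
  have hNC : Subgroup.normalizer ((P : Subgroup G) : Set G) ≤
      Subgroup.centralizer ((P : Subgroup G) : Set G) := by
    apply normalizer_le_centralizer_of_no_aut P
    intro r hr hrd α hα
    haveI : Fact r.Prime := ⟨hr⟩
    have hrG : r ∣ Nat.card G := hrd.trans (Subgroup.index_dvd_card _)
    have hpr : (Nat.card G).minFac ≤ r := Nat.minFac_le_of_dvd hr.two_le hrG
    have hrp : r ≠ (Nat.card G).minFac := fun h => P.not_dvd_index (h ▸ hrd)
    obtain ⟨d, hd, hdlt, hrdvd⟩ := exists_dvd_lt_of_aut r α hα
    rw [hk] at hd hdlt hrdvd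
    obtain ⟨j, hj, rfl⟩ := (Nat.dvd_prime_pow hpp).mp hd
    have hjk : j < k := (Nat.pow_lt_pow_iff_right hpp.one_lt).mp hdlt
    have h2le := hpp.two_le
    generalize (Nat.card G).minFac = p at *
    have hk' : k = 1 ∨ k = 2 := by omega
    rcases hk' with rfl | rfl
    · have hj0 : j = 0 := by omega
      subst hj0
      rw [pow_one, pow_zero] at hrdvd
      have h3 := Nat.le_of_dvd (by omega) hrdvd
      omega
    · have hj' : j = 0 ∨ j = 1 := by omega
      rcases hj' with rfl | rfl
      · have e : p ^ 2 - p ^ 0 = (p - 1) * (p + 1) := by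
          obtain ⟨q, rfl⟩ : ∃ q, p = q + 1 := ⟨p - 1, by omega⟩
          have e' : (q + 1) ^ 2 = q * (q + 1 + 1) + 1 := by ring
          rw [e', pow_zero]
          simp
        rw [e] at hrdvd
        rcases (Nat.Prime.dvd_mul hr).mp hrdvd with h | h
        · have h3 := Nat.le_of_dvd (by omega) h
          omega
        · have h3 := Nat.le_of_dvd (by omega) h
          have h4 : r = p + 1 := by omega
          have hp2 : p = 2 := by
            rcases hpp.eq_two_or_odd with h5 | h5
            · exact h5
            · exfalso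
              rcases hr.eq_two_or_odd with h6 | h6
              · omega
              · omega
          subst hp2
          have hr3 : r = 3 := h4
          subst hr3
          apply h12
          have h5 : 4 ∣ Nat.card G := by
            have h6 := hPdvd
            rw [hk] at h6
            exact h6
          exact Nat.Coprime.mul_dvd_of_dvd_of_dvd (by norm_num : Nat.Coprime 4 3) h5 hrG
      · have e : p ^ 2 - p ^ 1 = p * (p - 1) := by
          obtain ⟨q, rfl⟩ : ∃ q, p = q + 1 := ⟨p - 1, by omega⟩
          have e' : (q + 1) ^ 2 = (q + 1) * q + (q + 1) ^ 1 := by ring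
          rw [e']
          simp
        rw [e] at hrdvd
        rcases (Nat.Prime.dvd_mul hr).mp hrdvd with h | h
        · exact hrp ((Nat.prime_dvd_prime_iff_eq hr hpp).mp h)
        · have h3 := Nat.le_of_dvd (by omega) h
          omega
  have hc := MonoidHom.ker_transferSylow_isComplement' P hNC
  have hmul := hc.card_mul_card
  rcases (MonoidHom.normal_ker (MonoidHom.transferSylow P hNC)).eq_bot_or_eq_top with hbot | htop
  · rw [hbot, Subgroup.card_bot, one_mul] at hmul
    have hPtop : (P : Subgroup G) = ⊤ := Subgroup.eq_top_of_card_eq _ hmul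
    obtain ⟨x, y, hxy⟩ := hG
    have hx : x ∈ (P : Subgroup G) := hPtop ▸ Subgroup.mem_top x
    have hy : y ∈ (P : Subgroup G) := hPtop ▸ Subgroup.mem_top y
    have h1 := mul_comm' (⟨x, hx⟩ : (P : Subgroup G)) ⟨y, hy⟩
    exact hxy (congrArg Subtype.val h1)
  · rw [htop, Subgroup.card_top] at hmul
    have h1 : Nat.card (P : Subgroup G) = 1 := by
      have h2 : Nat.card G * Nat.card (P : Subgroup G) = Nat.card G * 1 := by rw [hmul, mul_one]
      exact Nat.eq_of_mul_eq_mul_left Nat.card_pos h2
    rw [hk] at h1
    have h3 : 1 < (Nat.card G).minFac ^ k := Nat.one_lt_pow (by omega) hpp.one_lt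
    omega

end Cfsg.Agent.S0073
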