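import Cfsg.Statements.S0076
import Cfsg.Agent.Helper2.Fusion

set_option autoImplicit false
open Cfsg

namespace Cfsg.Agent.S0076

/-- Two P-invariant subsets of a Sylow p-subgroup P that are conjugate in G are conjugate under the normalizer of P. -/
theorem result {G : Type*} [Group G] [Finite G] {p : ℕ} [Fact p.Prime] (P : Sylow p G) (X Y : Set G) (hXP : X ⊆ P) (hYP : Y ⊆ P) (hX : ∀ x ∈ P, (fun y => x * y * x⁻¹) '' X = X) (hY : ∀ x ∈ P, (fun y => x * y * x⁻¹) '' Y = Y) (g : G) (hg : (fun y => g * y * g⁻¹) '' X = Y) : ∃ n ∈ Subgroup.normalizer (P : Set G), (fun y => n * y * n⁻¹) '' X = Y := by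
  have hfun : ∀ x : G, (fun y => x * y * x⁻¹) = ⇑(MulAut.conj x) := fun x => by
    funext y; simp [MulAut.conj_apply]
  simp only [hfun] at hX hY hg ⊢
  have h1 : (P : Subgroup G) ≤ Subgroup.normalizer X := by
    intro x hx
    rw [Subgroup.mem_normalizer_iff_conj_image_eq]
    exact hX x hx
  have h2 : (P : Subgroup G) ≤ Subgroup.normalizer (MulAut.conj g '' X) := by
    intro x hx
    rw [Subgroup.mem_normalizer_iff_conj_image_eq, hg]
    exact hY x hx
  obtain ⟨n, hn, hne⟩ := Cfsg.Agent.Helper2.exists_mem_normalizer_conj_image_eq P X h1 g h2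
  exact ⟨n, hn, hne.trans hg⟩

end Cfsg.Agent.S0076
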