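import Cfsg.Statements.S0077
import Cfsg.Agent.Helper2.Grun

set_option autoImplicit false
open Cfsg
open Cfsg.Agent.Helper2
open scoped commutatorElement

namespace Cfsg.Agent.S0077

/-- If a subgroup Z of the centre of a Sylow p-subgroup P is weakly closed in P, then P meets the derived subgroup of G exactly where it meets the derived subgroup of the normalizer of Z. -/
theorem result {G : Type*} [Group G] [Finite G] {p : ℕ} [Fact p.Prime] (P : Sylow p G) (Z : Subgroup G) (hZ : Z ≤ Subgroup.centralizer (P : Set G)) (hW : Cfsg.IsWeaklyClosed Z P) : commutator G ⊓ (P : Subgroup G) = ⁅Subgroup.normalizer (Z : Set G), Subgroup.normalizer (Z : Set G)⁆ ⊓ (P : Subgroup G) := by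
  have hPN : (P : Subgroup G) ≤ Subgroup.normalizer (Z : Set G) :=
    (Subgroup.le_centralizer_iff.mp hZ).trans (Subgroup.centralizer_le_normalizer _)
  apply le_antisymm
  · refine le_inf ?_ inf_le_right
    rw [Subgroup.commutator_inf_eq_focalSubgroup, Subgroup.focalSubgroup_def, Subgroup.closure_le]
    rintro g ⟨hgP, x, hx, u, rfl⟩
    have hconj : u * x⁻¹ * u⁻¹ ∈ (P : Subgroup G) := by
      have h1 := (P : Subgroup G).mul_mem ((P : Subgroup G).inv_mem hx) hgP
      rw [commutatorElement_def] at h1
      simpa [mul_assoc] using h1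
    obtain ⟨n, hn, hne⟩ := exists_mem_normalizer_conj_eq_of_weaklyClosed P Z hZ hW x⁻¹ u
      ((P : Subgroup G).inv_mem hx) hconj
    have hg : ⁅x, u⁆ = ⁅x, n⁆ := by
      rw [commutatorElement_def, commutatorElement_def]
      calc x * u * x⁻¹ * u⁻¹ = x * (u * x⁻¹ * u⁻¹) := by group
        _ = x * (n * x⁻¹ * n⁻¹) := by rw [hne]
        _ = x * n * x⁻¹ * n⁻¹ := by group
    change ⁅x, u⁆ ∈ ⁅Subgroup.normalizer (Z : Set G), Subgroup.normalizer (Z : Set G)⁆
    rw [hg]
    exact Subgroup.commutator_mem_commutator (hPN hx) hn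
  · refine le_inf (inf_le_left.trans ?_) inf_le_right
    rw [commutator_def]
    exact Subgroup.commutator_mono le_top le_top

end Cfsg.Agent.S0077
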