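import Cfsg.Statements.S0078
import Cfsg.Agent.Helper2.TateGeneral
import Cfsg.Agent.Helper2.SylowLe
import Cfsg.Agent.S0077
import Mathlib.Tactic.Group

set_option autoImplicit false
open Cfsg
open Cfsg.Agent.Helper2

namespace Cfsg.Agent.S0078

/-- The centre of a conjugate Sylow subgroup is the conjugate of the centre. -/
theorem mem_center_smul_iff {G : Type*} [Group G] {p : ℕ} (P : Sylow p G) (g x : G) :
    x ∈ ((g • P : Sylow p G) : Subgroup G) ⊓
        Subgroup.centralizer ((g • P : Sylow p G) : Set G) ↔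
    g⁻¹ * x * g ∈ (P : Subgroup G) ⊓ Subgroup.centralizer (P : Set G) := by
  rw [Subgroup.mem_inf, Subgroup.mem_inf, mem_smul_sylow_iff, Subgroup.mem_centralizer_iff,
    Subgroup.mem_centralizer_iff]
  apply and_congr Iff.rfl
  constructor
  · intro h u hu
    have hq : g * u * g⁻¹ ∈ ((g • P : Sylow p G) : Subgroup G) := by
      rw [mem_smul_sylow_iff]
      have e : g⁻¹ * (g * u * g⁻¹) * g = u := by group
      rw [e]; exact hu
    have h1 := h _ hq
    calc u * (g⁻¹ * x * g) = g⁻¹ * ((g * u * g⁻¹) * x) * g := by group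
      _ = g⁻¹ * (x * (g * u * g⁻¹)) * g := by rw [h1]
      _ = g⁻¹ * x * g * u := by group
  · intro h q hq
    have hq' : g⁻¹ * q * g ∈ (P : Subgroup G) := (mem_smul_sylow_iff P g q).mp hq
    have h1 := h _ hq'
    calc q * x = g * ((g⁻¹ * q * g) * (g⁻¹ * x * g)) * g⁻¹ := by group
      _ = g * ((g⁻¹ * x * g) * (g⁻¹ * q * g)) * g⁻¹ := by rw [h1]
      _ = x * q := by group

/-- In a p-normal group, a Sylow p-subgroup P meets O^p(G) exactly where it meets O^p(V), for any subgroup V containing the normalizer of the centre of P. -/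
theorem result {G : Type*} [Group G] [Finite G] {p : ℕ} [Fact p.Prime] (P : Sylow p G) (hn : ∀ Q : Sylow p G, (P : Subgroup G) ⊓ Subgroup.centralizer (P : Set G) ≤ (Q : Subgroup G) → (Q : Subgroup G) ⊓ Subgroup.centralizer (Q : Set G) = (P : Subgroup G) ⊓ Subgroup.centralizer (P : Set G)) (V : Subgroup G) (hV : Subgroup.normalizer (((P : Subgroup G) ⊓ Subgroup.centralizer (P : Set G) : Subgroup G) : Set G) ≤ V) : (P : Subgroup G) ⊓ Cfsg.pResidual p G = (P : Subgroup G) ⊓ (Cfsg.pResidual p V).map V.subtype := by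
  have hZc : (P : Subgroup G) ⊓ Subgroup.centralizer (P : Set G) ≤
      Subgroup.centralizer (P : Set G) := inf_le_right
  have hW : Cfsg.IsWeaklyClosed ((P : Subgroup G) ⊓ Subgroup.centralizer (P : Set G)) P := by
    refine ⟨inf_le_left, fun g hg => ?_⟩
    have hZQ : (P : Subgroup G) ⊓ Subgroup.centralizer (P : Set G) ≤
        ((g⁻¹ • P : Sylow p G) : Subgroup G) := by
      intro x hx
      rw [mem_smul_sylow_iff]
      have h1 : (MulAut.conj g).toMonoidHom x ∈
          ((P : Subgroup G) ⊓ Subgroup.centralizer (P : Set G)).map (MulAut.conj g).toMonoidHom :=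
        ⟨x, hx, rfl⟩
      have h2 := hg h1
      simpa [MulAut.conj_apply] using h2
    have h3 := hn (g⁻¹ • P) hZQ
    ext x
    rw [mem_map_conj_iff, ← h3, mem_center_smul_iff]
    have e : g⁻¹⁻¹ * (g⁻¹ * x * g) * g⁻¹ = x := by group
    rw [e, h3]
  have hfoc := Cfsg.Agent.S0077.result P _ hZc hW
  have hPV : (P : Subgroup G) ≤ V :=
    ((Subgroup.le_centralizer_iff.mp hZc).trans (Subgroup.centralizer_le_normalizer _)).trans hV
  have hfoc' : (P : Subgroup G) ⊓ commutator G ≤ ⁅V, V⁆ := by
    rw [inf_comm, hfoc]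
    exact inf_le_left.trans (Subgroup.commutator_mono hV hV)
  apply le_antisymm
  · refine le_inf inf_le_left ?_
    intro x hx
    exact inf_pResidual_le_map_pResidual_of_commutator_inf_le P V hPV hfoc' ⟨hPV hx.1, hx.2⟩
  · exact le_inf inf_le_left (inf_le_right.trans (map_pResidual_le V.subtype p))

end Cfsg.Agent.S0078
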