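import Cfsg.Statements.S0079
import Cfsg.Agent.Helper2.NilpotentHall
import Mathlib.Tactic.Group

set_option autoImplicit false
open Cfsg
open Cfsg.Agent.Helper2

namespace Cfsg.Agent.S0079

/-- A nilpotent Hall subgroup has a normal complement exactly when elements of it that are conjugate in the whole group are already conjugate inside it. -/
theorem result {G : Type*} [Group G] [Finite G] (H : Subgroup G) (hH : Group.IsNilpotent H) (hHall : Nat.Coprime (Nat.card H) H.index) : (∃ N : Subgroup G, N.Normal ∧ N.IsComplement' H) ↔ ∀ x ∈ H, ∀ y ∈ H, (∃ g : G, g * x * g⁻¹ = y) → ∃ h ∈ H, h * x * h⁻¹ = y := by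
  constructor
  · rintro ⟨N, hN, hc⟩ x hx y hy ⟨g, rfl⟩
    obtain ⟨⟨⟨n, hn⟩, ⟨h, hh⟩⟩, hnh⟩ := hc.2 g
    have hnh' : n * h = g := hnh
    refine ⟨h, hh, ?_⟩
    have hx' : h * x * h⁻¹ ∈ H := H.mul_mem (H.mul_mem hh hx) (H.inv_mem hh)
    have h1 : g * x * g⁻¹ * (h * x * h⁻¹)⁻¹ ∈ N := by
      have e : g * x * g⁻¹ * (h * x * h⁻¹)⁻¹ = n * ((h * x * h⁻¹) * n⁻¹ * (h * x * h⁻¹)⁻¹) := by
        rw [← hnh']; group
      rw [e]
      exact N.mul_mem hn (hN.conj_mem n⁻¹ (N.inv_mem hn) _)
    have h2 : g * x * g⁻¹ * (h * x * h⁻¹)⁻¹ ∈ H := H.mul_mem hy (H.inv_mem hx')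
    have h3 := Subgroup.disjoint_def.mp hc.disjoint h1 h2
    exact (mul_inv_eq_one.mp h3).symm
  · intro hfus
    haveI := hH
    have key : ∀ p ∈ (Nat.card H).primeFactors,
        (Cfsg.pResidual p G).index = p ^ (Nat.card H).factorization p ∧
        ¬ p ∣ Nat.card (Cfsg.pResidual p G) := by
      intro p hp
      haveI : Fact p.Prime := ⟨Nat.prime_of_mem_primeFactors hp⟩
      have hpd : p ∣ Nat.card H := Nat.dvd_of_mem_primeFactors hp
      obtain ⟨P, hPH⟩ := exists_sylow_le_of_hall H hHall p hpd
      have hbot := sylow_inf_pResidual_eq_bot_of_nilpotent_fusion H hfus P hPH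
      have hcompl := isComplement'_pResidual_of_inf_eq_bot P hbot
      constructor
      · rw [hcompl.symm.index_eq_card, Sylow.card_eq_multiplicity]
        congr 1
        have h1 := Subgroup.card_mul_index H
        have h2 : (H.index).factorization p = 0 :=
          Nat.factorization_eq_zero_of_not_dvd (fun hd =>
            (Nat.Prime.coprime_iff_not_dvd (Nat.prime_of_mem_primeFactors hp)).mp
              (Nat.Coprime.coprime_dvd_left hpd hHall) hd)
        rw [← h1, Nat.factorization_mul Nat.card_pos.ne' Subgroup.index_ne_zero_of_finite]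
        simp [h2]
      · rw [← hcompl.index_eq_card]; exact P.not_dvd_index
    haveI hNn : (⨅ i : (Nat.card H).primeFactors, Cfsg.pResidual i.1 G).Normal :=
      Subgroup.normal_iInf_normal (fun i => pResidual_normal i.1 G)
    have hcop : Nat.Coprime (Nat.card (⨅ i : (Nat.card H).primeFactors, Cfsg.pResidual i.1 G :
        Subgroup G)) (Nat.card H) := by
      by_contra hnc
      obtain ⟨q, hq, hqN, hqH⟩ := Nat.Prime.not_coprime_iff_dvd.mp hnc
      have hqπ : q ∈ (Nat.card H).primeFactors :=
        Nat.mem_primeFactors.mpr ⟨hq, hqH, Nat.card_pos.ne'⟩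
      have hle : (⨅ i : (Nat.card H).primeFactors, Cfsg.pResidual i.1 G) ≤ Cfsg.pResidual q G :=
        iInf_le (fun i : (Nat.card H).primeFactors => Cfsg.pResidual i.1 G) ⟨q, hqπ⟩
      exact (key q hqπ).2 (hqN.trans (Subgroup.card_dvd_of_le hle))
    have hidx : (⨅ i : (Nat.card H).primeFactors, Cfsg.pResidual i.1 G).index ≤ Nat.card H := by
      calc (⨅ i : (Nat.card H).primeFactors, Cfsg.pResidual i.1 G).index
          ≤ ∏ i : (Nat.card H).primeFactors, (Cfsg.pResidual i.1 G).index :=
            Subgroup.index_iInf_le _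
        _ = ∏ i : (Nat.card H).primeFactors, i.1 ^ (Nat.card H).factorization i.1 :=
            Finset.prod_congr rfl (fun i _ => (key i.1 i.2).1)
        _ = ∏ p ∈ (Nat.card H).primeFactors, p ^ (Nat.card H).factorization p :=
            Finset.prod_coe_sort (Nat.card H).primeFactors
              (fun p => p ^ (Nat.card H).factorization p)
        _ = Nat.card H := by
            have h3 := Nat.prod_factorization_pow_eq_self (Nat.card_pos (α := H)).ne'
            rw [Finsupp.prod, Nat.support_factorization] at h3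
            exact h3
    have hmul : Nat.card (⨅ i : (Nat.card H).primeFactors, Cfsg.pResidual i.1 G : Subgroup G) *
        Nat.card H = Nat.card G := by
      apply Nat.le_antisymm
      · exact Nat.le_of_dvd Nat.card_pos (Nat.Coprime.mul_dvd_of_dvd_of_dvd hcop
          (Subgroup.card_subgroup_dvd_card _) (Subgroup.card_subgroup_dvd_card H))
      · rw [← Subgroup.card_mul_index (⨅ i : (Nat.card H).primeFactors, Cfsg.pResidual i.1 G)]
        exact Nat.mul_le_mul_left _ hidx
    exact ⟨_, hNn, Subgroup.isComplement'_of_coprime hmul hcop⟩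

end Cfsg.Agent.S0079
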