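import Cfsg.Statements.S0080
import Mathlib.Tactic.Group

set_option autoImplicit false
open Cfsg

namespace Cfsg.Agent.S0080

open scoped IsMulCommutative in
theorem aux {G : Type*} [Group G] [Finite G] (H : Subgroup G) (h : Nat.Coprime H.index (⁅H, H⁆.relIndex H)) : Subgroup.focalSubgroup H = commutator G ⊓ H ∧ ∃ N : Subgroup G, N.Normal ∧ N ⊓ H = commutator G ⊓ H ∧ N ⊔ H = ⊤ := by
  classical
  have hcard : Nat.Coprime (Nat.card (H ⧸ H.focalSubgroupOf)) H.index := by
    have h1 : (H.focalSubgroupOf).index ∣ (commutator H).index :=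
      Subgroup.index_dvd_of_le H.commutator_le_focalSubgroupOf
    have h2 : (commutator H).index = ⁅H, H⁆.relIndex H := by
      rw [Subgroup.relIndex, ← Subgroup.map_subtype_commutator,
        Subgroup.subgroupOf, Subgroup.comap_map_eq_self_of_injective H.subtype_injective]
    rw [h2] at h1
    exact (Nat.Coprime.coprime_dvd_right h1 h).symm
  have hpow : ∀ x : H, H.transferFocal x = (x : H ⧸ H.focalSubgroupOf) ^ H.index :=
    fun x => H.transferFocal_eq_pow x
  have hinj : Function.Injective (fun y : H ⧸ H.focalSubgroupOf => y ^ H.index) :=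
    (powCoprime hcard).injective
  have hsurj : Function.Surjective (fun y : H ⧸ H.focalSubgroupOf => y ^ H.index) :=
    (powCoprime hcard).surjective
  have hker : H.transferFocal.ker ⊓ H = H.focalSubgroup := by
    ext g
    constructor
    · rintro ⟨hg1, hg2⟩
      have h1 : H.transferFocal ((⟨g, hg2⟩ : H) : G) = 1 := hg1
      rw [hpow ⟨g, hg2⟩] at h1
      have h2 : ((⟨g, hg2⟩ : H) : H ⧸ H.focalSubgroupOf) = 1 := by
        apply hinj
        simpa using h1
      rw [QuotientGroup.eq_one_iff, Subgroup.focalSubgroupOf_def, Subgroup.mem_subgroupOf] at h2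
      exact h2
    · intro hg
      have hgH : g ∈ H := H.focalSubgroup_le hg
      refine ⟨?_, hgH⟩
      change H.transferFocal ((⟨g, hgH⟩ : H) : G) = 1
      rw [hpow ⟨g, hgH⟩]
      have h2 : ((⟨g, hgH⟩ : H) : H ⧸ H.focalSubgroupOf) = 1 := by
        rw [QuotientGroup.eq_one_iff, Subgroup.focalSubgroupOf_def, Subgroup.mem_subgroupOf]
        exact hg
      rw [h2, one_pow]
  have hfoc : Subgroup.focalSubgroup H = commutator G ⊓ H := by
    apply le_antisymm
    · exact le_inf H.focalSubgroup_le_commutator H.focalSubgroup_le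
    · rw [← hker]
      exact inf_le_inf_right _ (Abelianization.commutator_subset_ker H.transferFocal)
  refine ⟨hfoc, H.transferFocal.ker, MonoidHom.normal_ker _, by rw [hker, hfoc], ?_⟩
  rw [eq_top_iff]
  intro g _
  obtain ⟨y, hy⟩ := hsurj (H.transferFocal g)
  obtain ⟨x, rfl⟩ := QuotientGroup.mk_surjective y
  have hx : H.transferFocal (x : G) = H.transferFocal g := by
    rw [hpow x]; exact hy
  have hgx : g * (x : G)⁻¹ ∈ H.transferFocal.ker := by
    rw [MonoidHom.mem_ker, map_mul, map_inv, hx, mul_inv_cancel]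
  have e : g = g * (x : G)⁻¹ * (x : G) := by group
  rw [e]
  exact Subgroup.mul_mem _ (Subgroup.mem_sup_left hgx) (Subgroup.mem_sup_right x.2)


/-- When the index of H is prime to the order of H/H', the focal subgroup of H is G' ∩ H, and H/(G' ∩ H) has a normal complement. -/
theorem result {G : Type*} [Group G] [Finite G] (H : Subgroup G) (h : Nat.Coprime H.index (⁅H, H⁆.relIndex H)) : Subgroup.focalSubgroup H = commutator G ⊓ H ∧ ∃ N : Subgroup G, N.Normal ∧ N ⊓ H = commutator G ⊓ H ∧ N ⊔ H = ⊤ := by
  exact aux H h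

end Cfsg.Agent.S0080
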