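import Cfsg.Statements.S0081
import Cfsg.Agent.Helper2.TateNormal

set_option autoImplicit false
open Cfsg

namespace Cfsg.Agent.S0081

/-- If a normal subgroup meets a Sylow p-subgroup P inside the Frattini subgroup of P, then it has a normal p-complement. -/
theorem result {G : Type*} [Group G] [Finite G] {p : ℕ} [Fact p.Prime] (P : Sylow p G) (N : Subgroup G) [N.Normal] (h : N ⊓ (P : Subgroup G) ≤ (frattini P).map (P : Subgroup G).subtype) : Cfsg.HasNormalPComplement p N := by
  exact Cfsg.Agent.Helper2.hasNormalPComplement_of_normal_inf_sylow_le_frattini P N h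

end Cfsg.Agent.S0081
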