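import Cfsg.Statements.S0082
import Cfsg.Agent.Helper2.AbelianSylow
import Cfsg.Agent.Helper2.PResidual
import Cfsg.Agent.Helper2.PComplement2

set_option autoImplicit false
open Cfsg
open Cfsg.Agent.Helper2
open scoped commutatorElement

namespace Cfsg.Agent.S0082

/-- With a cyclic Sylow p-subgroup, either there is a normal p-complement or the elements of order prime to p generate the whole group. -/
theorem result {G : Type*} [Group G] [Finite G] {p : ℕ} [Fact p.Prime] (P : Sylow p G) (hP : IsCyclic P) : Cfsg.HasNormalPComplement p G ∨ Cfsg.pResidual p G = ⊤ := by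
  haveI := hP
  haveI : IsMulCommutative (P : Subgroup G) := IsCyclic.isMulCommutative
  have hdisj := sylow_centralizer_inf_commutator_eq_bot P
  rcases eq_bot_or_eq_bot_of_isCyclic (P : Subgroup G) P.2 _ _ inf_le_left
    (commutator_normalizer_le _) hdisj with h | h
  · right
    have hPle : (P : Subgroup G) ≤ Cfsg.pResidual p G := by
      intro a ha
      obtain ⟨z, hz, c, hc, rfl⟩ := sylow_exists_centralizer_mul_commutator P a ha
      rw [h, Subgroup.mem_bot] at hz
      rw [hz, one_mul]
      have hc' : c ∈ (P : Subgroup G) ⊓ Cfsg.pResidual p G := by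
        rw [sylow_inf_pResidual_eq P]; exact hc
      exact hc'.2
    rw [← sylow_sup_pResidual P]
    exact (sup_eq_right.mpr hPle).symm
  · left
    apply hasNormalPComplement_of_normalizer_le_centralizer P
    rw [Subgroup.commutator_eq_bot_iff_le_centralizer] at h
    exact Subgroup.le_centralizer_iff.mp h

end Cfsg.Agent.S0082
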