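import Cfsg.Statements.S0083
import Cfsg.Agent.Helper2.PComplement2

set_option autoImplicit false
open Cfsg
open Cfsg.Agent.Helper2

namespace Cfsg.Agent.S0083

/-- For an abelian Sylow p-subgroup P, a normal p-complement exists exactly when the normalizer of P is an internal direct product of P with some subgroup. -/
theorem result {G : Type*} [Group G] [Finite G] {p : ℕ} [Fact p.Prime] (P : Sylow p G) (hP : IsMulCommutative P) : Cfsg.HasNormalPComplement p G ↔ ∃ Q : Subgroup G, Q ≤ Subgroup.centralizer (P : Set G) ∧ Q ⊓ (P : Subgroup G) = ⊥ ∧ Q ⊔ (P : Subgroup G) = Subgroup.normalizer (P : Set G) := by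
  haveI := hP
  have hcomm : (P : Subgroup G) ≤ Subgroup.centralizer (P : Set G) :=
    Subgroup.le_centralizer_iff_isMulCommutative.mpr inferInstance
  constructor
  · intro h
    obtain ⟨N, hNn, hNc⟩ := exists_normal_complement_of_hasNormalPComplement h P
    have hdisj : N ⊓ (P : Subgroup G) = ⊥ := hNc.disjoint.eq_bot
    refine ⟨N ⊓ Subgroup.normalizer (P : Set G), ?_, ?_, ?_⟩
    · intro q hq
      rw [Subgroup.mem_centralizer_iff]
      intro x hx
      have h1 : q * x * q⁻¹ * x⁻¹ ∈ N ⊓ (P : Subgroup G) := by
        refine Subgroup.mem_inf.mpr ⟨?_, ?_⟩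
        · have : x * q⁻¹ * x⁻¹ ∈ N := hNn.conj_mem _ (N.inv_mem hq.1) x
          have h2 := N.mul_mem hq.1 this
          simpa [mul_assoc] using h2
        · have : q * x * q⁻¹ ∈ (P : Subgroup G) := (hq.2 x).mp hx
          exact (P : Subgroup G).mul_mem this ((P : Subgroup G).inv_mem hx)
      rw [hdisj, Subgroup.mem_bot] at h1
      have h3 : q * x = x * q := by
        have := congrArg (fun t => t * x * q) h1
        simpa [mul_assoc] using this
      exact h3.symm
    · rw [eq_bot_iff, ← hdisj]
      exact inf_le_inf_right _ inf_le_left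
    · apply le_antisymm
      · exact sup_le inf_le_right Subgroup.le_normalizer
      · intro g hg
        obtain ⟨⟨n, x⟩, hnx⟩ := hNc.2 g
        have hnx' : (n : G) * (x : G) = g := hnx
        have hn : (n : G) ∈ Subgroup.normalizer (P : Set G) := by
          have e : (n : G) = g * (x : G)⁻¹ := by rw [← hnx']; group
          rw [e]
          exact mul_mem hg (inv_mem (Subgroup.le_normalizer x.2))
        rw [← hnx']
        exact Subgroup.mul_mem _ (Subgroup.mem_sup_left (Subgroup.mem_inf.mpr ⟨n.2, hn⟩))
          (Subgroup.mem_sup_right x.2)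
  · rintro ⟨Q, hQC, -, hQP⟩
    apply hasNormalPComplement_of_normalizer_le_centralizer P
    rw [← hQP]
    exact sup_le hQC hcomm

end Cfsg.Agent.S0083
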