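import Cfsg.Statements.S0084
import Cfsg.Agent.Helper2.PComplement2

set_option autoImplicit false
open Cfsg
open Cfsg.Agent.Helper2

namespace Cfsg.Agent.S0084

/-- A group whose Sylow 2-subgroups are Klein four-groups and whose order is prime to 3 has a normal 2-complement. -/
theorem result {G : Type*} [Group G] [Finite G] (T : Sylow 2 G) (hT : IsKleinFour T) (h3 : ¬ 3 ∣ Nat.card G) : Cfsg.HasNormalPComplement 2 G := by
  haveI := hT
  haveI : IsMulCommutative (T : Subgroup G) := IsKleinFour.isMulCommutative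
  apply hasNormalPComplement_of_normalizer_le_centralizer T
  apply normalizer_le_centralizer_of_no_aut
  intro r hr hrd α hα
  haveI : Fact r.Prime := ⟨hr⟩
  obtain ⟨d, hd1, hd2, hd3⟩ := exists_dvd_lt_of_aut r α hα
  have hcard : Nat.card (T : Subgroup G) = 4 := IsKleinFour.card_four
  rw [hcard] at hd1 hd2 hd3
  have hr2 : r ≠ 2 := by
    rintro rfl
    exact T.not_dvd_index hrd
  have hr3 : r ≠ 3 := by
    rintro rfl
    exact h3 (hrd.trans (Subgroup.index_dvd_card _))
  have hd0 : 0 < d := Nat.pos_of_dvd_of_pos hd1 (by norm_num)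
  interval_cases d
  · exact hr3 ((Nat.prime_dvd_prime_iff_eq hr Nat.prime_three).mp hd3)
  · exact hr2 ((Nat.prime_dvd_prime_iff_eq hr Nat.prime_two).mp hd3)
  · omega

end Cfsg.Agent.S0084
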