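import Cfsg.Statements.S0085
import Cfsg.Agent.Helper2.PComplement2

set_option autoImplicit false
open Cfsg
open Cfsg.Agent.Helper2

namespace Cfsg.Agent.S0085

/-- A group whose Sylow 2-subgroups are elementary abelian of order 8 and whose order is prime to 3 and to 7 has a normal 2-complement. -/
theorem result {G : Type*} [Group G] [Finite G] (T : Sylow 2 G) (h8 : Nat.card T = 8) (he : ∀ x : T, x * x = 1) (h3 : ¬ 3 ∣ Nat.card G) (h7 : ¬ 7 ∣ Nat.card G) : Cfsg.HasNormalPComplement 2 G := by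
  haveI : IsMulCommutative (T : Subgroup G) := ⟨⟨fun a b => by
    have h1 := he (a * b)
    have h2 := he a
    have h3 := he b
    calc a * b = a * ((a * b) * (a * b)) * b := by rw [h1, mul_one]
      _ = (a * a) * (b * a) * (b * b) := by group
      _ = b * a := by rw [h2, h3, one_mul, mul_one]⟩⟩
  apply hasNormalPComplement_of_normalizer_le_centralizer T
  apply normalizer_le_centralizer_of_no_aut
  intro r hr hrd α hα
  haveI : Fact r.Prime := ⟨hr⟩
  obtain ⟨d, hd1, hd2, hd3⟩ := exists_dvd_lt_of_aut r α hα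
  rw [h8] at hd1 hd2 hd3
  have hr2 : r ≠ 2 := by
    rintro rfl
    exact T.not_dvd_index hrd
  have hr3 : r ≠ 3 := by
    rintro rfl
    exact h3 (hrd.trans (Subgroup.index_dvd_card _))
  have hr7 : r ≠ 7 := by
    rintro rfl
    exact h7 (hrd.trans (Subgroup.index_dvd_card _))
  have hd0 : 0 < d := Nat.pos_of_dvd_of_pos hd1 (by norm_num)
  interval_cases d
  · exact hr7 ((Nat.prime_dvd_prime_iff_eq hr (by decide)).mp hd3)
  · have h6 : r ∣ 2 * 3 := hd3
    rcases (Nat.Prime.dvd_mul hr).mp h6 with h | h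
    · exact hr2 ((Nat.prime_dvd_prime_iff_eq hr Nat.prime_two).mp h)
    · exact hr3 ((Nat.prime_dvd_prime_iff_eq hr Nat.prime_three).mp h)
  · omega
  · have h4 : r ∣ 2 * 2 := hd3
    rcases (Nat.Prime.dvd_mul hr).mp h4 with h | h
    · exact hr2 ((Nat.prime_dvd_prime_iff_eq hr Nat.prime_two).mp h)
    · exact hr2 ((Nat.prime_dvd_prime_iff_eq hr Nat.prime_two).mp h)
  · omega
  · omega
  · omega

end Cfsg.Agent.S0085
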