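import Cfsg.Statements.S0089
import Cfsg.Agent.Helper2.Transfer

set_option autoImplicit false
open Cfsg

namespace Cfsg.Agent.S0089

/-- When all Sylow subgroups are abelian, the derived subgroup meets the centre trivially. -/
theorem result {G : Type*} [Group G] [Finite G] (h : ∀ p : ℕ, p.Prime → ∀ P : Sylow p G, IsMulCommutative P) : commutator G ⊓ Subgroup.center G = ⊥ := by
  rw [eq_bot_iff]
  rintro z ⟨hzc, hzZ⟩
  rw [Subgroup.mem_bot]
  by_contra hz1
  have hord : orderOf z ≠ 1 := fun h1 => hz1 (orderOf_eq_one_iff.mp h1)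
  obtain ⟨q, hq, hqz⟩ := Nat.exists_prime_and_dvd hord
  haveI : Fact q.Prime := ⟨hq⟩
  let Q : Sylow q G := default
  haveI : IsMulCommutative Q := h q hq Q
  have h1 : z ^ (Q : Subgroup G).index = 1 :=
    Cfsg.Agent.Helper2.pow_index_eq_one_of_mem_center_of_mem_commutator (Q : Subgroup G) z hzZ hzc
  exact Q.not_dvd_index (hqz.trans (orderOf_dvd_of_pow_eq_one h1))

end Cfsg.Agent.S0089
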