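import Cfsg.Statements.S0090
import Cfsg.Agent.Helper2.AbelianHall

set_option autoImplicit false
open Cfsg
open Cfsg.Agent.Helper2
open scoped commutatorElement

namespace Cfsg.Agent.S0090

/-- An abelian normal Hall subgroup A splits as the internal direct product of G' ∩ A and Z(G) ∩ A, and [A, G] = G' ∩ A. -/
theorem result {G : Type*} [Group G] [Finite G] (A : Subgroup G) [A.Normal] (hc : IsMulCommutative A) (hHall : Nat.Coprime (Nat.card A) A.index) : ⁅A, (⊤ : Subgroup G)⁆ = commutator G ⊓ A ∧ (commutator G ⊓ A) ⊓ (Subgroup.center G ⊓ A) = ⊥ ∧ (commutator G ⊓ A) ⊔ (Subgroup.center G ⊓ A) = A := by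
  haveI := hc
  have hle : ⁅A, (⊤ : Subgroup G)⁆ ≤ commutator G ⊓ A := by
    refine le_inf ?_ (Subgroup.commutator_le_left A ⊤)
    rw [commutator_def]
    exact Subgroup.commutator_mono le_top le_rfl
  have htriv : ∀ x : G, x ∈ A → x ∈ Subgroup.center G → x ∈ commutator G → x = 1 :=
    fun x hxA hxZ hxC =>
      eq_one_of_mem_hall_of_mem_center_of_mem_commutator A hHall x hxA hxZ hxC
  refine ⟨le_antisymm hle ?_, ?_, ?_⟩
  · rintro x ⟨hxC, hxA⟩
    obtain ⟨z, hz, c, hcm, rfl⟩ := exists_center_mul_commutator A hHall x hxA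
    have hcC : c ∈ commutator G := (hle hcm).1
    have hz1 : z = 1 := by
      apply htriv z hz.1 hz.2
      have e : z = z * c * c⁻¹ := by group
      rw [e]
      exact mul_mem hxC (inv_mem hcC)
    rw [hz1, one_mul]
    exact hcm
  · rw [eq_bot_iff]
    rintro x ⟨⟨hxC, hxA⟩, ⟨hxZ, -⟩⟩
    rw [Subgroup.mem_bot]
    exact htriv x hxA hxZ hxC
  · apply le_antisymm (sup_le inf_le_right inf_le_right)
    intro a ha
    obtain ⟨z, hz, c, hcm, rfl⟩ := exists_center_mul_commutator A hHall a ha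
    exact mul_mem (Subgroup.mem_sup_right (Subgroup.mem_inf.mpr ⟨hz.2, hz.1⟩))
      (Subgroup.mem_sup_left (hle hcm))

end Cfsg.Agent.S0090
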