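import Cfsg.Statements.S0091
-- import your own Cfsg.Agent.* helpers here

set_option autoImplicit false
open Cfsg
open scoped commutatorElement

namespace Cfsg.Agent.S0091

/-- If a nontrivial Sylow p-subgroup controls its own fusion then it is not contained in the derived subgroup. -/
theorem result {G : Type*} [Group G] [Finite G] {p : ℕ} [Fact p.Prime] (P : Sylow p G) (hp : p ∣ Nat.card G) (h : ∀ x ∈ P, ∀ y ∈ P, (∃ g : G, g * x * g⁻¹ = y) → ∃ z ∈ P, z * x * z⁻¹ = y) : ¬ (P : Subgroup G) ≤ commutator G := by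
  intro hle
  have hfoc : (P : Subgroup G).focalSubgroup ≤ ⁅(P : Subgroup G), (P : Subgroup G)⁆ := by
    rw [Subgroup.focalSubgroup_def, Subgroup.closure_le]
    rintro g ⟨hgP, x, hx, u, rfl⟩
    have hconj : u * x⁻¹ * u⁻¹ ∈ (P : Subgroup G) := by
      have h1 := (P : Subgroup G).mul_mem ((P : Subgroup G).inv_mem hx) hgP
      rw [commutatorElement_def] at h1
      simpa [mul_assoc] using h1
    obtain ⟨z, hz, hze⟩ := h x⁻¹ ((P : Subgroup G).inv_mem hx) (u * x⁻¹ * u⁻¹) hconj ⟨u, rfl⟩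
    have hg : ⁅x, u⁆ = ⁅x, z⁆ := by
      rw [commutatorElement_def, commutatorElement_def]
      calc x * u * x⁻¹ * u⁻¹ = x * (u * x⁻¹ * u⁻¹) := by group
        _ = x * (z * x⁻¹ * z⁻¹) := by rw [hze]
        _ = x * z * x⁻¹ * z⁻¹ := by group
    change ⁅x, u⁆ ∈ ⁅(P : Subgroup G), (P : Subgroup G)⁆
    rw [hg]
    exact Subgroup.commutator_mem_commutator hx hz
  have hPle : (P : Subgroup G) ≤ ⁅(P : Subgroup G), (P : Subgroup G)⁆ := by
    refine le_trans ?_ hfoc
    rw [← Subgroup.commutator_inf_eq_focalSubgroup]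
    exact le_inf hle le_rfl
  have hne : (P : Subgroup G) ≠ ⊥ := P.ne_bot_of_dvd_card hp
  haveI : Group.IsNilpotent (P : Subgroup G) := P.2.isNilpotent
  haveI : Nontrivial (P : Subgroup G) := (Subgroup.nontrivial_iff_ne_bot _).mpr hne
  have hlt : ⁅(P : Subgroup G), (P : Subgroup G)⁆ < (P : Subgroup G) := by
    have h1 := Group.IsSolvable.commutator_lt_top_of_nontrivial (P : Subgroup G)
    have h2 := (Subgroup.map_subtype_lt_map_subtype (G' := (P : Subgroup G))).mpr h1
    rwa [Subgroup.map_subtype_commutator, ← MonoidHom.range_eq_map, Subgroup.range_subtype] at h2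
  exact lt_irrefl _ (lt_of_le_of_lt hPle hlt)

end Cfsg.Agent.S0091
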