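import Cfsg.Statements.S0092
import Cfsg.Agent.Helper35.CoprimeAbelian
import Cfsg.Agent.Helper2.PResidual

set_option autoImplicit false
open Cfsg

namespace Cfsg.Agent.S0092

universe u

open Subgroup Cfsg.Agent.Helper35
open scoped Pointwise commutatorElement

theorem pResidual_pResidual {G : Type u} [Group G] (p : ℕ) :
    Cfsg.pResidual p ↥(Cfsg.pResidual p G) = ⊤ := by
  rw [eq_top_iff]
  have key : Cfsg.pResidual p G ≤
      (Cfsg.pResidual p ↥(Cfsg.pResidual p G)).map (Cfsg.pResidual p G).subtype := by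
    conv_lhs => rw [Cfsg.pResidual]
    rw [closure_le]
    intro g hg
    have hgN : g ∈ Cfsg.pResidual p G := Subgroup.subset_closure hg
    refine ⟨⟨g, hgN⟩, ?_, rfl⟩
    apply Subgroup.subset_closure
    show Nat.Coprime (orderOf (⟨g, hgN⟩ : ↥(Cfsg.pResidual p G))) p
    rw [← Subgroup.orderOf_coe]
    exact hg
  intro x _
  obtain ⟨y, hy, hxy⟩ := key x.2
  have : y = x := Subtype.ext hxy
  rw [← this]; exact hy

theorem main {G : Type u} [Group G] [Finite G] {p : ℕ} [Fact p.Prime]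
    (h : ∀ Q : Sylow p (Cfsg.pResidual p G), IsMulCommutative Q) :
    ∃ K : Subgroup G, K.IsComplement' (Cfsg.pResidual p G) := by
  have hp : p.Prime := Fact.out
  set N : Subgroup G := Cfsg.pResidual p G with hNdef
  have hNn : N.Normal := Cfsg.Agent.Helper2.pResidual_normal p G
  obtain ⟨Q₀⟩ : Nonempty (Sylow p ↥N) := inferInstance
  have hQ₀c : IsMulCommutative Q₀ := h Q₀
  have hres : Cfsg.pResidual p ↥N = ⊤ := pResidual_pResidual p
  have h1 : (Q₀ : Subgroup ↥N) =
      ⁅(Q₀ : Subgroup ↥N), normalizer ((Q₀ : Subgroup ↥N) : Set ↥N)⁆ := by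
    have := Cfsg.Agent.Helper2.sylow_inf_pResidual_eq Q₀
    rw [hres, inf_top_eq] at this
    exact this
  set Q : Subgroup G := (Q₀ : Subgroup ↥N).map N.subtype with hQdef
  have hQN : Q ≤ N := map_subtype_le _
  have hQp : IsPGroup p Q := Q₀.isPGroup'.map N.subtype
  have hQcomm : ∀ x ∈ Q, ∀ y ∈ Q, x * y = y * x := by
    rintro x ⟨x', hx', rfl⟩ y ⟨y', hy', rfl⟩
    have e := hQ₀c.is_comm.comm (⟨x', hx'⟩ : ↥(Q₀ : Subgroup ↥N)) ⟨y', hy'⟩
    have e2 : x' * y' = y' * x' := congrArg Subtype.val e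
    have e3 : (x' : G) * (y' : G) = (y' : G) * (x' : G) := congrArg Subtype.val e2
    exact e3
  set M : Subgroup G := N ⊓ normalizer (Q : Set G) with hMdef
  have hQM : Q ≤ M := le_inf hQN le_normalizer
  have hQcM : Q ≤ ⁅Q, M⁆ := by
    have e := congrArg (Subgroup.map N.subtype) h1
    rw [Subgroup.map_commutator] at e
    have hle : (normalizer ((Q₀ : Subgroup ↥N) : Set ↥N)).map N.subtype ≤ M :=
      le_inf (map_subtype_le _) (Subgroup.le_normalizer_map N.subtype)
    exact e.le.trans (Subgroup.commutator_mono le_rfl hle)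
  have hidxN : ¬ p ∣ Q.relIndex N := by
    have : Q.relIndex N = (Q₀ : Subgroup ↥N).index := by
      rw [Subgroup.relIndex, hQdef, Subgroup.subgroupOf,
        Subgroup.comap_map_eq_self_of_injective N.subtype_injective]
    rw [this]; exact Q₀.not_dvd_index
  have hidx : ¬ p ∣ Q.relIndex M := fun hd => hidxN (by
    rw [← Subgroup.relIndex_mul_relIndex Q M N hQM inf_le_left]; exact Dvd.dvd.mul_right hd _)
  obtain ⟨a, ha⟩ := hQp.exists_card_eq
  have hQ'n : (Q.subgroupOf M).Normal :=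
    Subgroup.normal_subgroupOf_of_le_normalizer inf_le_right
  have hcop' : (Nat.card (Q.subgroupOf M)).Coprime (Q.subgroupOf M).index := by
    rw [card_subgroupOf_of_le hQM, ha]
    exact Nat.Coprime.pow_left a ((Nat.Prime.coprime_iff_not_dvd hp).mpr hidx)
  obtain ⟨H, hH⟩ := Subgroup.exists_right_complement'_of_coprime hcop'
  set L : Subgroup G := H.map M.subtype with hLdef
  have hLM : L ≤ M := map_subtype_le _
  have hLcard : Nat.card L = Q.relIndex M := by
    rw [hLdef, Subgroup.card_map_of_injective M.subtype_injective,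
      ← index_eq_card_of_isComplement' hH]
    rfl
  have hLcop : (Nat.card L).Coprime p := by
    rw [hLcard]; exact ((Nat.Prime.coprime_iff_not_dvd hp).mpr hidx).symm
  have hLcopQ : (Nat.card L).Coprime (Nat.card Q) := by
    rw [ha]; exact Nat.Coprime.pow_right a hLcop
  have hLnQ : L ≤ normalizer (Q : Set G) := hLM.trans inf_le_right
  have hMQL : M ≤ Q ⊔ L := by
    intro m hm
    obtain ⟨q', hq', h', hh', e⟩ := exists_mul_of_isComplement' hH ⟨m, hm⟩
    have e' : m = (q' : G) * (h' : G) := congrArg Subtype.val e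
    rw [e']
    exact mul_mem (mem_sup_left hq') (mem_sup_right (Subgroup.mem_map_of_mem M.subtype hh'))
  have hQL : L ⊓ Q = ⊥ := disjoint_iff.mp (Subgroup.disjoint_of_coprime_natCard hLcopQ)
  have hcomm_le : ⁅Q, M⁆ ≤ ⁅Q, L⁆ := by
    rw [Subgroup.commutator_le]
    intro q hq m hm
    obtain ⟨q', hq', l, hl, rfl⟩ := exists_mul_of_mem_sup_of_le_normalizer hLnQ (hMQL hm)
    have hc : ⁅q, l⁆ ∈ Q := by
      rw [commutatorElement_def]
      have := (Subgroup.mem_normalizer_iff.mp (hLnQ hl) q⁻¹).mp (Q.inv_mem hq)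
      have e : q * l * q⁻¹ * l⁻¹ = q * (l * q⁻¹ * l⁻¹) := by group
      rw [e]; exact Q.mul_mem hq this
    have e1 : q * q' = q' * q := hQcomm q hq q' hq'
    have e2 : ⁅q, l⁆ * q' = q' * ⁅q, l⁆ := hQcomm _ hc q' hq'
    have e3 : ⁅q, q' * l⁆ = ⁅q, l⁆ := by
      have s1 : ⁅q, q' * l⁆ = (q * q') * l * q⁻¹ * l⁻¹ * q'⁻¹ := by
        rw [commutatorElement_def]; group
      have s2 : (q' * q) * l * q⁻¹ * l⁻¹ * q'⁻¹ = q' * ⁅q, l⁆ * q'⁻¹ := by
        rw [commutatorElement_def]; group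
      rw [s1, e1, s2, ← e2]; group
    rw [e3]
    exact Subgroup.commutator_mem_commutator hq hl
  have hCQL : Q ⊓ centralizer (L : Set G) = ⊥ := by
    have := commutator_inf_centralizer_eq_bot_of_comm hLnQ hLcopQ hQcomm
    rw [eq_bot_iff] at this ⊢
    exact (inf_le_inf_right _ (hQcM.trans hcomm_le)).trans this
  obtain ⟨P, hQP⟩ := hQp.exists_le_sylow
  have hPN : (P : Subgroup G) ⊓ N ≤ Q := by
    intro x hx
    have hpg : IsPGroup p (((P : Subgroup G) ⊓ N).subgroupOf N) :=
      (P.isPGroup'.to_le inf_le_left).comap_subtype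
    have hle : (Q₀ : Subgroup ↥N) ≤ ((P : Subgroup G) ⊓ N).subgroupOf N := by
      intro y hy
      exact ⟨hQP (Subgroup.mem_map_of_mem N.subtype hy), y.2⟩
    have hmax := Q₀.is_maximal' hpg hle
    have hx' : (⟨x, hx.2⟩ : ↥N) ∈ ((P : Subgroup G) ⊓ N).subgroupOf N := hx
    rw [hmax] at hx'
    exact ⟨⟨x, hx.2⟩, hx', rfl⟩
  have hsolvQ : Group.IsSolvable Q := by
    have := hQp.isNilpotent
    infer_instance
  set K : Subgroup G := (P : Subgroup G) ⊓ normalizer (L : Set G) with hKdef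
  have hKN : K ⊓ N = ⊥ := by
    rw [eq_bot_iff]
    intro x hx
    have hxQ : x ∈ Q := hPN ⟨hx.1.1, hx.2⟩
    have hxc : x ∈ centralizer (L : Set G) :=
      mem_centralizer_of_mem_normalizer hLnQ hQL hxQ hx.1.2
    have : x ∈ Q ⊓ centralizer (L : Set G) := ⟨hxQ, hxc⟩
    rw [hCQL] at this
    exact this
  have hPQK : (P : Subgroup G) ≤ Q ⊔ K := by
    intro x hx
    have hPnQ : (P : Subgroup G) ≤ normalizer (Q : Set G) := by
      have hQe : Q = (P : Subgroup G) ⊓ N := le_antisymm (le_inf hQP hQN) hPN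
      rw [hQe]; exact le_normalizer_inf_normal
    have hconjM : MulAut.conj x • L ≤ M := by
      intro y hy
      rw [mem_conj_smul] at hy
      have hy1 := hLM hy
      have e : y = x * (x⁻¹ * y * x) * x⁻¹ := by group
      rw [e]
      refine ⟨hNn.conj_mem _ hy1.1 x, ?_⟩
      exact Subgroup.mul_mem _ (Subgroup.mul_mem _ (hPnQ hx) hy1.2) (Subgroup.inv_mem _ (hPnQ hx))
    obtain ⟨n, hn, hconj⟩ := isz hLnQ hLcopQ (Or.inr hsolvQ) (hconjM.trans hMQL)
      (card_conj_smul x L)
    have hnx : n⁻¹ * x ∈ K := by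
      refine ⟨Subgroup.mul_mem _ (Subgroup.inv_mem _ (hQP hn)) hx, ?_⟩
      show n⁻¹ * x ∈ normalizer (L : Set G)
      rw [mem_normalizer_iff_conj_smul_eq, ← conj_smul_conj_smul, ← hconj,
        conj_smul_conj_smul, inv_mul_cancel, map_one, one_smul]
    have e : x = n * (n⁻¹ * x) := by group
    rw [e]
    exact mul_mem (mem_sup_left hn) (mem_sup_right hnx)
  have htop : K ⊔ N = ⊤ := by
    rw [eq_top_iff, ← Cfsg.Agent.Helper2.sylow_sup_pResidual P]
    exact sup_le (hPQK.trans (sup_le (hQN.trans le_sup_right) le_sup_left)) le_sup_right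
  exact ⟨K, (isComplement'_of_normal (by rw [inf_comm]; exact hKN)
    (by rw [sup_comm]; exact htop)).symm⟩

/-- If the Sylow p-subgroups of O^p(G) are abelian then G splits over O^p(G). -/
theorem result {G : Type*} [Group G] [Finite G] {p : ℕ} [Fact p.Prime] (h : ∀ Q : Sylow p (Cfsg.pResidual p G), IsMulCommutative Q) : ∃ K : Subgroup G, K.IsComplement' (Cfsg.pResidual p G) := by
  exact main h

end Cfsg.Agent.S0092
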