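import Cfsg.Statements.S0094
import Cfsg.Agent.Helper2.Class2

set_option autoImplicit false
open Cfsg
open Cfsg.Agent.Helper2
open scoped commutatorElement

namespace Cfsg.Agent.S0094

/-- In a special p-group every central element has order dividing p. -/
theorem result {P : Type*} [Group P] [Finite P] {p : ℕ} [Fact p.Prime] (h : Cfsg.IsSpecial p P) (z : P) (hz : z ∈ Subgroup.center P) : z ^ p = 1 := by
  obtain ⟨hPG, hfr, hcm⟩ := h
  have hcl : commutator P ≤ Subgroup.center P := hcm.le
  have hz' : z ∈ commutator P := hcm ▸ hz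
  rw [commutator_eq_closure] at hz'
  clear hz
  have key : z ∈ Subgroup.center P ∧ z ^ p = 1 := by
    induction hz' using Subgroup.closure_induction with
    | mem x hx =>
      obtain ⟨a, b, rfl⟩ := hx
      refine ⟨commutatorElement_mem_center hcl a b, ?_⟩
      rw [← commutatorElement_pow_left_of_class_two hcl, commutatorElement_eq_one_iff_commute]
      have hap : a ^ p ∈ Subgroup.center P := hfr ▸ pow_mem_frattini_of_isPGroup hPG a
      exact (Subgroup.mem_center_iff.mp hap b).symm
    | one => exact ⟨one_mem _, one_pow p⟩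
    | mul x y _ _ hx hy =>
      refine ⟨mul_mem hx.1 hy.1, ?_⟩
      have hcomm : Commute x y := Subgroup.mem_center_iff.mp hy.1 x
      rw [hcomm.mul_pow, hx.2, hy.2, mul_one]
    | inv x _ hx => exact ⟨inv_mem hx.1, by rw [inv_pow, hx.2, inv_one]⟩
  exact key.2

end Cfsg.Agent.S0094
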