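import Cfsg.Statements.S0099
import Cfsg.Agent.Helper48.ES2Iso2
import Cfsg.Agent.Helper63.Extraspecial

set_option autoImplicit false
open Cfsg

namespace Cfsg.Agent.S0099

/-- Among three extraspecial 2-groups of equal order, some two are isomorphic. -/
theorem result {E₁ : Type*} {E₂ : Type*} {E₃ : Type*} [Group E₁] [Group E₂] [Group E₃] [Finite E₁] [Finite E₂] [Finite E₃] (h₁ : Cfsg.IsExtraspecial 2 E₁) (h₂ : Cfsg.IsExtraspecial 2 E₂) (h₃ : Cfsg.IsExtraspecial 2 E₃) (h12 : Nat.card E₁ = Nat.card E₂) (h23 : Nat.card E₂ = Nat.card E₃) : Nonempty (E₁ ≃* E₂) ∨ Nonempty (E₂ ≃* E₃) ∨ Nonempty (E₁ ≃* E₃) := by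
  haveI : Fact (Nat.Prime 2) := ⟨Nat.prime_two⟩
  have hc₁ := Cfsg.Agent.Helper48.comm_mem_center_of_isExtraspecial h₁
  have hc₂ := Cfsg.Agent.Helper48.comm_mem_center_of_isExtraspecial h₂
  have hc₃ := Cfsg.Agent.Helper48.comm_mem_center_of_isExtraspecial h₃
  have hz₁ : Nat.card (Subgroup.center E₁) = 2 := h₁.2
  have hz₂ : Nat.card (Subgroup.center E₂) = 2 := h₂.2
  have hz₃ : Nat.card (Subgroup.center E₃) = 2 := h₃.2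
  obtain ⟨m, -, hm⟩ := Cfsg.Agent.Helper63.extraspecial_card_odd h₁
  have hcard₁ : Nat.card E₁ = 2 ^ (2 * m + 1) := by rw [hm]; congr 1; omega
  have hcard₂ : Nat.card E₂ = 2 ^ (2 * m + 1) := h12 ▸ hcard₁
  have hcard₃ : Nat.card E₃ = 2 ^ (2 * m + 1) := h23 ▸ hcard₂
  by_cases p₁ : Cfsg.Agent.Helper48.ES2Plus E₁ m <;>
  by_cases p₂ : Cfsg.Agent.Helper48.ES2Plus E₂ m <;>
  by_cases p₃ : Cfsg.Agent.Helper48.ES2Plus E₃ m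
  · exact Or.inl (Cfsg.Agent.Helper48.es2_iso m E₁ E₂ hc₁ hz₁ hc₂ hz₂ hcard₁ hcard₂ (by tauto))
  · exact Or.inl (Cfsg.Agent.Helper48.es2_iso m E₁ E₂ hc₁ hz₁ hc₂ hz₂ hcard₁ hcard₂ (by tauto))
  · exact Or.inr (Or.inr (Cfsg.Agent.Helper48.es2_iso m E₁ E₃ hc₁ hz₁ hc₃ hz₃ hcard₁ hcard₃ (by tauto)))
  · exact Or.inr (Or.inl (Cfsg.Agent.Helper48.es2_iso m E₂ E₃ hc₂ hz₂ hc₃ hz₃ hcard₂ hcard₃ (by tauto)))
  · exact Or.inr (Or.inl (Cfsg.Agent.Helper48.es2_iso m E₂ E₃ hc₂ hz₂ hc₃ hz₃ hcard₂ hcard₃ (by tauto)))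
  · exact Or.inr (Or.inr (Cfsg.Agent.Helper48.es2_iso m E₁ E₃ hc₁ hz₁ hc₃ hz₃ hcard₁ hcard₃ (by tauto)))
  · exact Or.inl (Cfsg.Agent.Helper48.es2_iso m E₁ E₂ hc₁ hz₁ hc₂ hz₂ hcard₁ hcard₂ (by tauto))
  · exact Or.inl (Cfsg.Agent.Helper48.es2_iso m E₁ E₂ hc₁ hz₁ hc₂ hz₂ hcard₁ hcard₂ (by tauto))

end Cfsg.Agent.S0099
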