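import Cfsg.Statements.S0101
import Cfsg.Agent.Helper2.PGroup

set_option autoImplicit false
open Cfsg

namespace Cfsg.Agent.S0101

/-- A central element of `G' ∩ P` lies in the derived subgroup of the Sylow subgroup `P`. -/
theorem mem_commutator_sylow {G : Type*} [Group G] [Finite G] {p : ℕ} [Fact p.Prime]
    (P : Sylow p G) (z : G) (hzP : z ∈ (P : Subgroup G)) (hz : z ∈ Subgroup.center G)
    (hz' : z ∈ commutator G) : (⟨z, hzP⟩ : (P : Subgroup G)) ∈ commutator (P : Subgroup G) := by
  have key : ∀ (k : ℕ) (g₀ : G), g₀⁻¹ * z ^ k * g₀ ∈ (P : Subgroup G) →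
      g₀⁻¹ * z ^ k * g₀ = z ^ k := by
    intro k g₀ _
    have hzk : z ^ k ∈ Subgroup.center G := Subgroup.pow_mem _ hz k
    rw [Subgroup.mem_center_iff] at hzk
    rw [mul_assoc, ← hzk g₀, ← mul_assoc, inv_mul_cancel, one_mul]
  have h1 := MonoidHom.transfer_eq_pow (Abelianization.of (G := (P : Subgroup G))) z key
  have h2 : MonoidHom.transfer (Abelianization.of (G := (P : Subgroup G))) z = 1 :=
    Abelianization.commutator_subset_ker _ hz'
  rw [h2] at h1
  have h3 : (⟨z, hzP⟩ : (P : Subgroup G)) ^ (P : Subgroup G).index ∈ commutator (P : Subgroup G) := by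
    rw [← Abelianization.ker_of, MonoidHom.mem_ker]
    exact h1.symm
  have hQ : IsPGroup p ((P : Subgroup G) ⧸ commutator (P : Subgroup G)) :=
    P.2.to_quotient _
  have h4 : (QuotientGroup.mk' (commutator (P : Subgroup G)) ⟨z, hzP⟩) ^ (P : Subgroup G).index = 1 := by
    rw [← map_pow]
    exact (QuotientGroup.eq_one_iff _).mpr h3
  have h5 : QuotientGroup.mk' (commutator (P : Subgroup G)) ⟨z, hzP⟩ = 1 := by
    apply (hQ.powEquiv' P.not_dvd_index).injective
    simpa using h4
  exact (QuotientGroup.eq_one_iff _).mp h5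


/-- In a perfect central extension, the kernel meets each Sylow p-subgroup P inside the Frattini subgroup of P. -/
theorem result {H : Type*} {G : Type*} [Group H] [Group G] [Finite H] (σ : H →* G) (hσ : Function.Surjective σ) (hc : σ.ker ≤ Subgroup.center H) (hH : commutator H = ⊤) {p : ℕ} [Fact p.Prime] (P : Sylow p H) : σ.ker ⊓ (P : Subgroup H) ≤ (frattini P).map (P : Subgroup H).subtype := by
  rintro z ⟨hzk, hzP⟩
  have h1 : (⟨z, hzP⟩ : (P : Subgroup H)) ∈ commutator (P : Subgroup H) :=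
    mem_commutator_sylow P z hzP (hc hzk) (by rw [hH]; exact Subgroup.mem_top z)
  have h2 : (⟨z, hzP⟩ : (P : Subgroup H)) ∈ frattini (P : Subgroup H) :=
    Cfsg.Agent.Helper2.commutator_le_frattini_of_isPGroup P.2 h1
  exact ⟨⟨z, hzP⟩, h2, rfl⟩

end Cfsg.Agent.S0101
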