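import Cfsg.Statements.S0102
import Cfsg.Agent.Helper2.Transfer

set_option autoImplicit false
open Cfsg

namespace Cfsg.Agent.S0102

/-- A finite perfect group with cyclic Sylow p-subgroups has no perfect central extension whose kernel has order divisible by p. -/
theorem result {G : Type*} {H : Type*} [Group G] [Group H] [Finite G] [Finite H] (hG : commutator G = ⊤) {p : ℕ} [Fact p.Prime] (hcyc : ∀ P : Sylow p G, IsCyclic P) (σ : H →* G) (hσ : Function.Surjective σ) (hz : σ.ker ≤ Subgroup.center H) (hH : commutator H = ⊤) : ¬ p ∣ Nat.card σ.ker := by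
  intro hdvd
  obtain ⟨z, hz0⟩ := exists_prime_orderOf_dvd_card' (G := σ.ker) p hdvd
  -- `z : σ.ker` of order `p`
  have hzne : (z : H) ≠ 1 := by
    intro h1
    have : z = 1 := Subtype.ext h1
    rw [this, orderOf_one] at hz0
    exact (Fact.out : p.Prime).one_lt.ne hz0
  have hzp : IsPGroup p (Subgroup.zpowers (z : H)) := by
    apply IsPGroup.of_card (n := 1)
    rw [Nat.card_zpowers, Subgroup.orderOf_coe, hz0, pow_one]
  obtain ⟨P, hP⟩ := hzp.exists_le_sylow
  have hzP : (z : H) ∈ (P : Subgroup H) := hP (Subgroup.mem_zpowers _)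
  -- the image of `P` lies in a Sylow subgroup `Q` of `G`
  have himg : IsPGroup p ((P : Subgroup H).map σ) := P.2.map σ
  obtain ⟨Q, hQ⟩ := himg.exists_le_sylow
  haveI : IsCyclic Q := hcyc Q
  let f : (P : Subgroup H) →* (Q : Subgroup G) :=
    (σ.comp (P : Subgroup H).subtype).codRestrict (Q : Subgroup G)
      (fun x => hQ ⟨x, x.2, rfl⟩)
  have hf : f.ker ≤ Subgroup.center (P : Subgroup H) := by
    intro x hx
    rw [MonoidHom.mem_ker] at hx
    have hx' : σ (x : H) = 1 := by
      have := congrArg Subtype.val hx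
      simpa [f] using this
    have hxc : (x : H) ∈ Subgroup.center H := hz (σ.mem_ker.mpr hx')
    rw [Subgroup.mem_center_iff]
    intro y
    apply Subtype.ext
    simpa using (Subgroup.mem_center_iff.mp hxc) (y : H)
  haveI : IsMulCommutative (P : Subgroup H) := f.isMulCommutative_of_isCyclic_of_ker_le_center hf
  apply hzne
  exact Cfsg.Agent.Helper2.eq_one_of_mem_hall_of_mem_center_of_mem_commutator (P : Subgroup H)
    P.card_coprime_index (z : H) hzP (hz z.2) (by rw [hH]; exact Subgroup.mem_top _)

end Cfsg.Agent.S0102
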