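import Cfsg.Statements.S0103
-- import your own Cfsg.Agent.* helpers here

set_option autoImplicit false
open Cfsg

namespace Cfsg.Agent.S0103

/-- If a Sylow p-subgroup P intersects every distinct conjugate trivially, then its normalizer controls fusion in P. -/
theorem result {G : Type*} [Group G] [Finite G] {p : ℕ} [Fact p.Prime] (P : Sylow p G) (hTI : ∀ g : G, (P : Subgroup G).map (MulAut.conj g).toMonoidHom ≠ (P : Subgroup G) → (P : Subgroup G) ⊓ (P : Subgroup G).map (MulAut.conj g).toMonoidHom = ⊥) (x y : G) (hx : x ∈ P) (hy : y ∈ P) (hc : ∃ g : G, g * x * g⁻¹ = y) : ∃ n ∈ Subgroup.normalizer (P : Set G), n * x * n⁻¹ = y := by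
  obtain ⟨g, hg⟩ := hc
  by_cases hP : (P : Subgroup G).map (MulAut.conj g).toMonoidHom = (P : Subgroup G)
  · refine ⟨g, ?_, hg⟩
    have hmem : ∀ h : G, h ∈ (P : Subgroup G) ↔ g * h * g⁻¹ ∈ (P : Subgroup G) := by
      intro h
      constructor
      · intro hh
        rw [← hP]
        exact ⟨h, hh, by simp [MulAut.conj_apply]⟩
      · intro hh
        rw [← hP] at hh
        obtain ⟨h', hh', e⟩ := hh
        have : h' = h := by
          have e' : g * h' * g⁻¹ = g * h * g⁻¹ := by simpa [MulAut.conj_apply] using e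
          simpa using e'
        exact this ▸ hh'
    rw [Subgroup.mem_set_normalizer_iff]
    intro h
    exact hmem h
  · have hbot := hTI g hP
    have hy' : y ∈ (P : Subgroup G) ⊓ (P : Subgroup G).map (MulAut.conj g).toMonoidHom := by
      refine ⟨hy, x, hx, ?_⟩
      simpa [MulAut.conj_apply] using hg
    rw [hbot, Subgroup.mem_bot] at hy'
    subst hy'
    have hx1 : x = 1 := by
      have : g * x * g⁻¹ = g * 1 * g⁻¹ := by rw [hg]; simp
      simpa using this
    exact ⟨1, Subgroup.one_mem _, by simp [hx1]⟩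

end Cfsg.Agent.S0103
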