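import Cfsg.Statements.S0104
import Cfsg.Agent.Helper2.SylowLe

set_option autoImplicit false
open Cfsg
open Cfsg.Agent.Helper2

namespace Cfsg.Agent.S0104

/-- A subgroup Z of a Sylow p-subgroup P that is normalized by N_G(P) is weakly closed in P exactly when it is normal in every Sylow p-subgroup containing it. -/
theorem result {G : Type*} [Group G] [Finite G] {p : ℕ} [Fact p.Prime] (P : Sylow p G) (Z : Subgroup G) (hZP : Z ≤ (P : Subgroup G)) (hZN : Subgroup.normalizer (P : Set G) ≤ Subgroup.normalizer (Z : Set G)) : Cfsg.IsWeaklyClosed Z P ↔ ∀ R : Sylow p G, Z ≤ (R : Subgroup G) → (R : Subgroup G) ≤ Subgroup.normalizer (Z : Set G) := by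
  constructor
  · rintro ⟨_, hW⟩ R hZR
    obtain ⟨g, rfl⟩ := MulAction.exists_smul_eq G P R
    have h1 : Z.map (MulAut.conj g⁻¹).toMonoidHom ≤ (P : Subgroup G) := by
      intro x hx
      rw [mem_map_conj_iff] at hx
      have h := hZR hx
      rw [mem_smul_sylow_iff] at h
      simpa [mul_assoc] using h
    have h2 := hW g⁻¹ h1
    have hg : g⁻¹ ∈ Subgroup.normalizer (Z : Set G) :=
      (mem_normalizer_iff_map_conj_toMonoidHom_eq Z g⁻¹).mpr h2
    have hg' : g ∈ Subgroup.normalizer (Z : Set G) := by simpa using Subgroup.inv_mem _ hg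
    intro x hx
    rw [mem_smul_sylow_iff] at hx
    have h3 : g⁻¹ * x * g ∈ Subgroup.normalizer (Z : Set G) := hZN (Subgroup.le_normalizer hx)
    have e : x = g * (g⁻¹ * x * g) * g⁻¹ := by group
    rw [e]
    exact mul_mem (mul_mem hg' h3) hg
  · intro hR
    refine ⟨hZP, fun g hg => ?_⟩
    have h1 : Z ≤ ((g⁻¹ • P : Sylow p G) : Subgroup G) := by
      intro z hz
      rw [mem_smul_sylow_iff]
      apply hg
      rw [mem_map_conj_iff]
      simpa [mul_assoc] using hz
    have h2 := hR _ h1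
    have h3 : (P : Subgroup G) ≤ Subgroup.normalizer (Z : Set G) :=
      (Subgroup.le_normalizer).trans hZN
    obtain ⟨c, hc, hce⟩ := exists_mem_smul_eq_of_le P (g⁻¹ • P) _ h3 h2
    rw [smul_smul] at hce
    have h4 : c * g⁻¹ ∈ Subgroup.normalizer (P : Set G) := Sylow.smul_eq_iff_mem_normalizer.mp hce
    have h5 : c * g⁻¹ ∈ Subgroup.normalizer (Z : Set G) := hZN h4
    have h6 : g ∈ Subgroup.normalizer (Z : Set G) := by
      have e : g = (c * g⁻¹)⁻¹ * c := by group
      rw [e]; exact mul_mem (inv_mem h5) hc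
    exact (mem_normalizer_iff_map_conj_toMonoidHom_eq Z g).mp h6

end Cfsg.Agent.S0104
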