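import Cfsg.Statements.S0105
import Cfsg.Agent.Helper2.AbelianSylow

set_option autoImplicit false
open Cfsg
open Cfsg.Agent.Helper2
open scoped commutatorElement

namespace Cfsg.Agent.S0105

/-- With an abelian Sylow p-subgroup P, some quotient of G is isomorphic to the part of P central in N_G(P). -/
theorem result {G : Type*} [Group G] [Finite G] {p : ℕ} [Fact p.Prime] (P : Sylow p G) (hP : IsMulCommutative P) : ∃ (N : Subgroup G) (hN : N.Normal), Nonempty (G ⧸ N ≃* ((P : Subgroup G) ⊓ Subgroup.centralizer (Subgroup.normalizer (P : Set G) : Set G) : Subgroup G)) := by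
  haveI := hP
  refine ⟨(P : Subgroup G).transferFocal.ker, MonoidHom.normal_ker _, ⟨?_⟩⟩
  have hfoc : (P : Subgroup G).focalSubgroup =
      ⁅(P : Subgroup G), Subgroup.normalizer (P : Set G)⁆ := by
    rw [← Subgroup.commutator_inf_eq_focalSubgroup, commutator_inf_sylow_eq]
  let ψ : ((P : Subgroup G) ⊓ Subgroup.centralizer (Subgroup.normalizer (P : Set G) : Set G) :
      Subgroup G) →* (P : Subgroup G) ⧸ (P : Subgroup G).focalSubgroupOf :=
    (QuotientGroup.mk' _).comp (Subgroup.inclusion inf_le_left)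
  have hinj : Function.Injective ψ := by
    rw [injective_iff_map_eq_one]
    intro z hz
    have h1 : (Subgroup.inclusion inf_le_left z : (P : Subgroup G)) ∈
        (P : Subgroup G).focalSubgroupOf := (QuotientGroup.eq_one_iff _).mp hz
    rw [Subgroup.focalSubgroupOf_def, Subgroup.mem_subgroupOf, hfoc] at h1
    have h2 : (z : G) ∈ ((P : Subgroup G) ⊓
        Subgroup.centralizer (Subgroup.normalizer (P : Set G) : Set G)) ⊓
        ⁅(P : Subgroup G), Subgroup.normalizer (P : Set G)⁆ := Subgroup.mem_inf.mpr ⟨z.2, h1⟩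
    rw [sylow_centralizer_inf_commutator_eq_bot P, Subgroup.mem_bot] at h2
    exact Subtype.ext h2
  have hsurj : Function.Surjective ψ := by
    intro y
    obtain ⟨a, rfl⟩ := QuotientGroup.mk'_surjective _ y
    obtain ⟨z, hz, c, hc, hzc⟩ := sylow_exists_centralizer_mul_commutator P (a : G) a.2
    refine ⟨⟨z, hz⟩, ?_⟩
    change QuotientGroup.mk' _ (Subgroup.inclusion inf_le_left ⟨z, hz⟩) = QuotientGroup.mk' _ a
    rw [QuotientGroup.mk'_apply, QuotientGroup.mk'_apply, QuotientGroup.eq,
      Subgroup.focalSubgroupOf_def, Subgroup.mem_subgroupOf, hfoc]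
    have e : ((Subgroup.inclusion inf_le_left ⟨z, hz⟩ : (P : Subgroup G))⁻¹ * a : (P : Subgroup G)).1 = c := by
      rw [Subgroup.coe_mul, Subgroup.coe_inv, hzc]
      simp
    rw [e]
    exact hc
  exact ((Subgroup.transferFocal.quotientKerMulEquivQuotientFocalSubroupOf P).trans
    (MulEquiv.ofBijective ψ ⟨hinj, hsurj⟩).symm)

end Cfsg.Agent.S0105
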