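import Cfsg.Statements.S0106
import Cfsg.Agent.Helper29.SL23Section
import Cfsg.Agent.S0071

set_option autoImplicit false
open Cfsg

namespace Cfsg.Agent.S0106

/-- A finite group with generalized quaternion Sylow 2-subgroups either has a normal 2-complement or has a section isomorphic to SL(2,3). -/
theorem result {G : Type*} [Group G] [Finite G] (T : Sylow 2 G) (n : ℕ) (hn : 1 ≤ n) (hT : Nonempty ((T : Subgroup G) ≃* QuaternionGroup (2 ^ n))) : Cfsg.HasNormalPComplement 2 G ∨ ∃ (H K : Subgroup G) (hK : (K.subgroupOf H).Normal), Nonempty ((H ⧸ K.subgroupOf H) ≃* Matrix.SpecialLinearGroup (Fin 2) (ZMod 3)) := by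
  haveI : Fact (Nat.Prime 2) := ⟨Nat.prime_two⟩
  by_cases hF : ∀ Q : Subgroup G, Q ≤ (T : Subgroup G) → ∀ g ∈ Subgroup.normalizer (Q : Set G),
      Nat.Coprime (orderOf g) 2 → g ∈ Subgroup.centralizer (Q : Set G)
  · left
    obtain ⟨N, hN, hc⟩ := (S0071.result T).mpr hF
    exact ⟨T, N, hN, hc⟩
  · right
    push Not at hF
    obtain ⟨Q, hQT, g, hgN, hcop, hgC⟩ := hF
    obtain ⟨e⟩ := hT
    haveI : NeZero (2 ^ n) := ⟨by positivity⟩
    obtain ⟨a, z, hQL⟩ := Helper29.exists_quatLike_of_mulEquiv (T : Subgroup G) (2 ^ n) e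
    have hT2 : ∀ t ∈ (T : Subgroup G), ∃ k : ℕ, t ^ (2 ^ k) = 1 := by
      intro t ht
      obtain ⟨k, hk⟩ := T.isPGroup' ⟨t, ht⟩
      exact ⟨k, by simpa [Subtype.ext_iff] using hk⟩
    exact Helper29.section_sl23_of_quatLike hQL hT2 Q hQT g hgN hcop hgC

end Cfsg.Agent.S0106
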