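import Mathlib
import Cfsg.Statements.S0110
import Cfsg.Agent.S0126

set_option autoImplicit false
open Cfsg

namespace Cfsg.Agent.S0110

open Cfsg.Agent.S0126
open scoped commutatorElement

/-- In a p-group G, an extraspecial subgroup E with [G, E] ≤ Z(E) satisfies G = E C_G(E). -/
theorem result {G : Type*} [Group G] [Finite G] {p : ℕ} [Fact p.Prime] (hG : IsPGroup p G) (E : Subgroup G) (hE : Cfsg.IsExtraspecial p E) (h : ⁅(⊤ : Subgroup G), E⁆ ≤ E ⊓ Subgroup.centralizer (E : Set G)) : E ⊔ Subgroup.centralizer (E : Set G) = ⊤ := by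
  have hpp : p.Prime := Fact.out
  obtain ⟨Z, hZdef⟩ : ∃ Z : Subgroup G, Z = E ⊓ Subgroup.centralizer (E : Set G) := ⟨_, rfl⟩
  rw [← hZdef] at h
  have hZE : Z ≤ E := by rw [hZdef]; exact inf_le_left
  have hZC : Z ≤ Subgroup.centralizer (E : Set G) := by rw [hZdef]; exact inf_le_right
  have hcomm : ∀ (g : G), ∀ e ∈ E, g * e * g⁻¹ * e⁻¹ ∈ Z := by
    intro g e he
    have := Subgroup.commutator_mem_commutator (Subgroup.mem_top g) he
    rw [commutatorElement_def] at this
    exact h this
  have hnormE : ∀ (g : G), ∀ e ∈ E, g * e * g⁻¹ ∈ E := by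
    intro g e he
    have h1 := E.mul_mem (hZE (hcomm g e he)) he
    simpa using h1
  -- card Z = p
  have hZcard : Nat.card Z = p := by
    rw [← hE.2]
    have hmap : Z = (Subgroup.center E).map E.subtype := by
      ext x
      rw [hZdef, Subgroup.mem_inf, Subgroup.mem_map]
      constructor
      · rintro ⟨hxE, hxC⟩
        refine ⟨⟨x, hxE⟩, ?_, rfl⟩
        rw [Subgroup.mem_center_iff]
        intro y
        apply Subtype.ext
        simp only [Subgroup.coe_mul]
        exact Subgroup.mem_centralizer_iff.mp hxC y.1 y.2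
      · rintro ⟨y, hy, rfl⟩
        refine ⟨y.2, ?_⟩
        rw [Subgroup.mem_centralizer_iff]
        intro e he
        have := Subgroup.mem_center_iff.mp hy ⟨e, he⟩
        exact congrArg Subtype.val this
    rw [hmap, Subgroup.card_map_of_injective E.subtype_injective]
  have hZn : Z.Normal := by
    constructor
    intro x hx g
    rw [hZdef, Subgroup.mem_inf]
    refine ⟨hnormE g x (hZE hx), ?_⟩
    rw [Subgroup.mem_centralizer_iff]
    intro e he
    have he' : g⁻¹ * e * g ∈ E := by
      have := hnormE g⁻¹ e he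
      simpa using this
    have hc := Subgroup.mem_centralizer_iff.mp (hZC hx) _ he'
    calc e * (g * x * g⁻¹) = g * ((g⁻¹ * e * g) * x) * g⁻¹ := by group
      _ = g * (x * (g⁻¹ * e * g)) * g⁻¹ := by rw [hc]
      _ = g * x * g⁻¹ * e := by group
  have hZne : Z ≠ ⊥ := by
    intro hb
    rw [hb, Subgroup.card_bot] at hZcard
    exact hpp.one_lt.ne hZcard
  have hZc : Z ≤ Subgroup.center G := by
    obtain ⟨c, hcZ, hcc, hco⟩ := exists_central_order_p hG Z hZne
    have : Subgroup.zpowers c = Z := by
      apply Subgroup.eq_of_le_of_card_ge (Subgroup.zpowers_le.mpr hcZ)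
      rw [hZcard, Nat.card_zpowers, hco]
    rw [← this]
    exact Subgroup.zpowers_le.mpr hcc
  -- centralizer of single element has index ≤ p
  have hidx : ∀ e ∈ E, (Subgroup.centralizer ({e} : Set G)).index ≤ p := by
    intro e he
    let φ : G →* Z := MonoidHom.mk' (fun g => ⟨g * e * g⁻¹ * e⁻¹, hcomm g e he⟩) (by
      intro g k
      apply Subtype.ext
      simp only [Subgroup.coe_mul]
      have hc := Subgroup.mem_center_iff.mp (hZc (hcomm k e he))
      calc g * k * e * (g * k)⁻¹ * e⁻¹ = g * (k * e * k⁻¹ * e⁻¹) * e * g⁻¹ * e⁻¹ := by group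
        _ = (k * e * k⁻¹ * e⁻¹) * g * e * g⁻¹ * e⁻¹ := by rw [hc g]
        _ = (k * e * k⁻¹ * e⁻¹) * (g * e * g⁻¹ * e⁻¹) := by group
        _ = (g * e * g⁻¹ * e⁻¹) * (k * e * k⁻¹ * e⁻¹) := (hc _).symm)
    have hφ : ∀ g : G, ((φ g : Z) : G) = g * e * g⁻¹ * e⁻¹ := fun g => rfl
    have hker : φ.ker ≤ Subgroup.centralizer ({e} : Set G) := by
      intro g hg
      rw [MonoidHom.mem_ker] at hg
      have h1 := hφ g
      rw [hg] at h1
      rw [Subgroup.mem_centralizer_iff]
      intro y hy
      rw [Set.mem_singleton_iff] at hy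
      rw [hy]
      calc e * g = (g * e * g⁻¹ * e⁻¹)⁻¹ * (g * e) := by group
        _ = g * e := by rw [← h1]; simp
    have h2 : φ.ker.index ≤ p := by
      rw [Subgroup.index_ker]
      have hd : Nat.card φ.range ∣ p := hZcard ▸ Subgroup.card_subgroup_dvd_card φ.range
      exact Nat.le_of_dvd hpp.pos hd
    have h3 := Subgroup.index_dvd_of_le hker
    exact le_trans (Nat.le_of_dvd (Nat.pos_of_ne_zero Subgroup.index_ne_zero_of_finite) h3) h2
  -- chain argument
  have chain : ∀ (m : ℕ) (F : Subgroup G), F ≤ E → Nat.card E - Nat.card F = m →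
      (Subgroup.centralizer (F : Set G)).index * p ≤ Nat.card F →
      (Subgroup.centralizer (E : Set G)).index * p ≤ Nat.card E := by
    intro m
    induction m using Nat.strong_induction_on with
    | _ m ih =>
    intro F hFE hm hF
    by_cases hFeq : F = E
    · rw [hFeq] at hF; exact hF
    · obtain ⟨e, heE, heF⟩ : ∃ e ∈ E, e ∉ F := by
        by_contra hcon
        push Not at hcon
        exact hFeq (le_antisymm hFE hcon)
      have hF1 : F ⊔ Subgroup.zpowers e ≤ E := sup_le hFE (Subgroup.zpowers_le.mpr heE)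
      have hlt : Nat.card F < Nat.card ↥(F ⊔ Subgroup.zpowers e) := by
        by_contra hle
        push Not at hle
        have : F = F ⊔ Subgroup.zpowers e := Subgroup.eq_of_le_of_card_ge le_sup_left hle
        apply heF
        rw [this]
        exact Subgroup.mem_sup_right (Subgroup.mem_zpowers e)
      have hcardge : p * Nat.card F ≤ Nat.card ↥(F ⊔ Subgroup.zpowers e) := by
        obtain ⟨a, ha⟩ := IsPGroup.iff_card.mp (hG.to_subgroup F)
        obtain ⟨b, hb⟩ := IsPGroup.iff_card.mp (hG.to_subgroup (F ⊔ Subgroup.zpowers e))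
        rw [ha, hb] at hlt ⊢
        have hab : a < b := (Nat.pow_lt_pow_iff_right hpp.one_lt).mp hlt
        calc p * p ^ a = p ^ (a + 1) := by ring
          _ ≤ p ^ b := Nat.pow_le_pow_right hpp.pos hab
      have hcent : Subgroup.centralizer (F : Set G) ⊓ Subgroup.centralizer ({e} : Set G)
          ≤ Subgroup.centralizer ((F ⊔ Subgroup.zpowers e : Subgroup G) : Set G) := by
        rw [Subgroup.le_centralizer_iff]
        apply sup_le
        · intro f hf
          rw [Subgroup.mem_centralizer_iff]
          intro g hg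
          exact (Subgroup.mem_centralizer_iff.mp (Subgroup.mem_inf.mp hg).1 f hf).symm
        · rw [Subgroup.zpowers_le, Subgroup.mem_centralizer_iff]
          intro g hg
          exact (Subgroup.mem_centralizer_iff.mp (Subgroup.mem_inf.mp hg).2 e rfl).symm
      have hidx2 : (Subgroup.centralizer ((F ⊔ Subgroup.zpowers e : Subgroup G) : Set G)).index
          ≤ (Subgroup.centralizer (F : Set G)).index * p := by
        have h1 := Subgroup.index_dvd_of_le hcent
        have h2 := Nat.le_of_dvd (Nat.pos_of_ne_zero Subgroup.index_ne_zero_of_finite) h1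
        have h3 := Subgroup.index_inf_le (H := Subgroup.centralizer (F : Set G))
          (K := Subgroup.centralizer ({e} : Set G))
        exact le_trans h2 (le_trans h3 (Nat.mul_le_mul_left _ (hidx e heE)))
      have hcardE : Nat.card ↥(F ⊔ Subgroup.zpowers e) ≤ Nat.card E := Subgroup.card_le_of_le hF1
      refine ih (Nat.card E - Nat.card ↥(F ⊔ Subgroup.zpowers e)) (by omega) _ hF1 rfl ?_
      calc (Subgroup.centralizer ((F ⊔ Subgroup.zpowers e : Subgroup G) : Set G)).index * p
          ≤ (Subgroup.centralizer (F : Set G)).index * p * p := Nat.mul_le_mul_right _ hidx2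
        _ = p * ((Subgroup.centralizer (F : Set G)).index * p) := by ring
        _ ≤ p * Nat.card F := Nat.mul_le_mul_left _ hF
        _ ≤ Nat.card ↥(F ⊔ Subgroup.zpowers e) := hcardge
  have hmain : (Subgroup.centralizer (E : Set G)).index * p ≤ Nat.card E := by
    apply chain _ Z hZE rfl
    have : Subgroup.centralizer (Z : Set G) = ⊤ := by
      rw [Subgroup.centralizer_eq_top_iff_subset]
      exact hZc
    rw [this, Subgroup.index_top, one_mul, hZcard]
  -- final counting
  obtain ⟨C, hCdef⟩ : ∃ C : Subgroup G, C = Subgroup.centralizer (E : Set G) := ⟨_, rfl⟩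
  rw [← hCdef] at hmain ⊢
  have hCn : C.Normal := by
    constructor
    intro c hc g
    rw [hCdef, Subgroup.mem_centralizer_iff]
    intro e he
    have he' : g⁻¹ * e * g ∈ E := by
      have := hnormE g⁻¹ e he
      simpa using this
    rw [hCdef] at hc
    have hcc := Subgroup.mem_centralizer_iff.mp hc _ he'
    calc e * (g * c * g⁻¹) = g * ((g⁻¹ * e * g) * c) * g⁻¹ := by group
      _ = g * (c * (g⁻¹ * e * g)) * g⁻¹ := by rw [hcc]
      _ = g * c * g⁻¹ * e := by group
  have h1 : C.relIndex (E ⊔ C) = Z.relIndex E := by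
    rw [Subgroup.relIndex_sup_right, hZdef, ← hCdef, Subgroup.inf_relIndex_left]
  have h2 : Nat.card ↥(E ⊔ C) = Nat.card C * C.relIndex (E ⊔ C) := by
    rw [← Subgroup.relIndex_bot_left, ← Subgroup.relIndex_bot_left,
      Subgroup.relIndex_mul_relIndex _ _ _ bot_le le_sup_right]
  have h3 : Nat.card E = p * Z.relIndex E := by
    rw [← hZcard, ← Subgroup.relIndex_bot_left, ← Subgroup.relIndex_bot_left,
      Subgroup.relIndex_mul_relIndex _ _ _ bot_le hZE]
  have h4 : C.index ≤ Z.relIndex E := by
    rw [h3, mul_comm] at hmain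
    exact Nat.le_of_mul_le_mul_left hmain hpp.pos
  have h5 := Subgroup.card_mul_index C
  rw [← Subgroup.card_eq_iff_eq_top]
  apply le_antisymm (Subgroup.card_le_card_group _)
  rw [h2, h1, ← h5]
  exact Nat.mul_le_mul_left _ h4

end Cfsg.Agent.S0110
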