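import Cfsg.Statements.S0113
import Cfsg.Agent.Helper29.MaxClass2

set_option autoImplicit false
open Cfsg

namespace Cfsg.Agent.S0113

/-- A 2-group of maximal class contains a cyclic subgroup of index 2. -/
theorem result {X : Type*} [Group X] [Finite X] (n : ℕ) (hn : 3 ≤ n) (hX : Nat.card X = 2 ^ n) (hc : Group.nilpotencyClass X = n - 1) : ∃ C : Subgroup X, IsCyclic C ∧ C.index = 2 := by
  obtain ⟨hidx, hsq⟩ := Cfsg.Agent.Helper29.maxclass_commutator n hn hX hc
  obtain ⟨m, rfl⟩ : ∃ m, n = m + 3 := ⟨n - 3, by omega⟩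
  obtain ⟨a, ha⟩ := Cfsg.Agent.Helper73.exists_cyclic_index_two m X hX hidx hsq
  refine ⟨Subgroup.zpowers a, inferInstance, ?_⟩
  have h1 := (Subgroup.zpowers a).card_mul_index
  rw [Nat.card_zpowers, ha, hX, pow_succ] at h1
  exact (Nat.eq_of_mul_eq_mul_left (by positivity) h1)

end Cfsg.Agent.S0113
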