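import Cfsg.Statements.S0115
import Cfsg.Agent.Helper29.MaxClass2b

set_option autoImplicit false
open Cfsg

namespace Cfsg.Agent.S0115

/-- A 2-group of order 2^n, n ≥ 3, is of maximal class exactly when its commutator quotient is a Klein four-group. -/
theorem result {X : Type*} [Group X] [Finite X] (n : ℕ) (hn : 3 ≤ n) (hX : Nat.card X = 2 ^ n) : Group.nilpotencyClass X = n - 1 ↔ IsKleinFour (X ⧸ commutator X) := by
  constructor
  · intro hc
    obtain ⟨hidx, hsq⟩ := Cfsg.Agent.Helper29.maxclass_commutator n hn hX hc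
    have hcard : Nat.card (X ⧸ commutator X) = 4 := hidx
    refine ⟨hcard, ?_⟩
    have h1 : Monoid.exponent (X ⧸ commutator X) ∣ 2 := by
      apply Monoid.exponent_dvd_of_forall_pow_eq_one
      intro g
      obtain ⟨g, rfl⟩ := QuotientGroup.mk_surjective g
      rw [← QuotientGroup.mk_pow]
      exact (QuotientGroup.eq_one_iff _).mpr (hsq g)
    rcases (Nat.dvd_prime Nat.prime_two).mp h1 with h2 | h2
    · exfalso
      have h3 := Monoid.exp_eq_one_iff.mp h2
      have h4 := Finite.card_le_one_iff_subsingleton.mpr h3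
      omega
    · exact h2
  · intro hK
    obtain ⟨m, rfl⟩ : ∃ m, n = m + 3 := ⟨n - 3, by omega⟩
    have hidx : (commutator X).index = 4 := hK.card_four
    have hsq : ∀ g : X, g ^ 2 ∈ commutator X := by
      intro g
      rw [← QuotientGroup.eq_one_iff, QuotientGroup.mk_pow, ← hK.exponent_two]
      exact Monoid.pow_exponent_eq_one _
    rw [Cfsg.Agent.Helper29.nilpotencyClass_of_taussky m hX hidx hsq]
    omega

end Cfsg.Agent.S0115
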