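import Cfsg.Statements.S0116
import Cfsg.Agent.Helper2.SylowLe
import Cfsg.Agent.Helper2.Frobenius
import Mathlib.Tactic.Group

set_option autoImplicit false
open Cfsg

namespace Cfsg.Agent.S0116

open Subgroup

section

variable {G : Type*} [Group G] {p : ℕ}

/-- Right conjugate `x⁻¹ B x` of a set. -/
def cj (x : G) (B : Set G) : Set G := (fun a => x⁻¹ * a * x) '' B

theorem mem_cj {x : G} {B : Set G} {b : G} : b ∈ cj x B ↔ x * b * x⁻¹ ∈ B := by
  constructor
  · rintro ⟨a, ha, rfl⟩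
    have e : x * (x⁻¹ * a * x) * x⁻¹ = a := by group
    rw [e]; exact ha
  · intro h
    exact ⟨x * b * x⁻¹, h, by group⟩

theorem cj_one (B : Set G) : cj 1 B = B := by
  ext b
  rw [mem_cj, one_mul, inv_one, mul_one]

theorem cj_mul (x y : G) (B : Set G) : cj (x * y) B = cj y (cj x B) := by
  ext b
  rw [mem_cj, mem_cj, mem_cj]
  have e : x * y * b * (x * y)⁻¹ = x * (y * b * y⁻¹) * x⁻¹ := by group
  rw [e]

theorem cj_mono {x : G} {B C : Set G} (h : B ⊆ C) : cj x B ⊆ cj x C := Set.image_mono h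

/-- `P ∩ Q` is a tame intersection. -/
def Tame (P Q : Sylow p G) : Prop :=
  ¬ p ∣ ((P : Subgroup G) ⊓ Subgroup.normalizer ((((P : Subgroup G) ⊓ (Q : Subgroup G)) : Subgroup G) : Set G)).relIndex (Subgroup.normalizer ((((P : Subgroup G) ⊓ (Q : Subgroup G)) : Subgroup G) : Set G)) ∧ ¬ p ∣ ((Q : Subgroup G) ⊓ Subgroup.normalizer ((((P : Subgroup G) ⊓ (Q : Subgroup G)) : Subgroup G) : Set G)).relIndex (Subgroup.normalizer ((((P : Subgroup G) ⊓ (Q : Subgroup G)) : Subgroup G) : Set G))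

/-- A chain of tame intersections carrying the set `B` along. -/
def Chain (P : Sylow p G) : Set G → List (Sylow p G × G) → Prop
  | _, [] => True
  | B, qx :: l =>
      B ⊆ ((((P : Subgroup G) ⊓ (qx.1 : Subgroup G)) : Subgroup G) : Set G) ∧
      qx.2 ∈ Subgroup.normalizer ((((P : Subgroup G) ⊓ (qx.1 : Subgroup G)) : Subgroup G) : Set G) ∧
      Tame P qx.1 ∧ Chain P (cj qx.2 B) l

theorem chain_cons (P : Sylow p G) (B : Set G) (qx : Sylow p G × G) (l : List (Sylow p G × G)) :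
    Chain P B (qx :: l) ↔
      (B ⊆ ((((P : Subgroup G) ⊓ (qx.1 : Subgroup G)) : Subgroup G) : Set G) ∧
      qx.2 ∈ Subgroup.normalizer ((((P : Subgroup G) ⊓ (qx.1 : Subgroup G)) : Subgroup G) : Set G) ∧
      Tame P qx.1 ∧ Chain P (cj qx.2 B) l) := Iff.rfl

theorem Chain.mono {P : Sylow p G} : ∀ (l : List (Sylow p G × G)) {B C : Set G}, C ⊆ B →
    Chain P B l → Chain P C l
  | [], _, _, _, _ => trivial
  | qx :: l, B, C, h, hc => by
      rw [chain_cons] at hc ⊢
      exact ⟨h.trans hc.1, hc.2.1, hc.2.2.1, Chain.mono l (cj_mono h) hc.2.2.2⟩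

theorem Chain.append {P : Sylow p G} : ∀ (l₁ l₂ : List (Sylow p G × G)) {B : Set G},
    Chain P B l₁ → Chain P (cj (l₁.map Prod.snd).prod B) l₂ → Chain P B (l₁ ++ l₂)
  | [], l₂, B, _, h2 => by
      rw [List.map_nil, List.prod_nil, cj_one] at h2
      exact h2
  | qx :: l, l₂, B, h1, h2 => by
      rw [List.cons_append, chain_cons]
      rw [chain_cons] at h1
      refine ⟨h1.1, h1.2.1, h1.2.2.1, Chain.append l l₂ h1.2.2.2 ?_⟩
      rw [List.map_cons, List.prod_cons, cj_mul] at h2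
      exact h2

theorem cj_subset_of_mem_normalizer {D : Subgroup G} {x : G} {B : Set G}
    (hx : x ∈ Subgroup.normalizer (D : Set G)) (hB : B ⊆ (D : Set G)) : cj x B ⊆ (D : Set G) := by
  intro b hb
  rw [mem_cj] at hb
  exact (Subgroup.mem_set_normalizer_iff.mp hx b).mpr (hB hb)

theorem Chain.end_subset {P : Sylow p G} : ∀ (l : List (Sylow p G × G)) {B : Set G},
    B ⊆ ((P : Subgroup G) : Set G) → Chain P B l →
    cj (l.map Prod.snd).prod B ⊆ ((P : Subgroup G) : Set G)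
  | [], B, hB, _ => by
      rw [List.map_nil, List.prod_nil, cj_one]
      exact hB
  | qx :: l, B, _, hc => by
      rw [chain_cons] at hc
      rw [List.map_cons, List.prod_cons, cj_mul]
      apply Chain.end_subset l _ hc.2.2.2
      have h1 := cj_subset_of_mem_normalizer hc.2.1 hc.1
      exact h1.trans (fun b hb => hb.1)

/-- `Q` is linked to `P` by a chain of tame intersections. -/
def Rel (P Q : Sylow p G) : Prop :=
  ∃ l : List (Sylow p G × G),
    Chain P ((((P : Subgroup G) ⊓ (Q : Subgroup G)) : Subgroup G) : Set G) l ∧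
      (l.map Prod.snd).prod⁻¹ • Q = P

theorem Rel.comp {P Q : Sylow p G} (l₁ : List (Sylow p G × G))
    (h1 : Chain P ((((P : Subgroup G) ⊓ (Q : Subgroup G)) : Subgroup G) : Set G) l₁)
    (h2 : Rel P ((l₁.map Prod.snd).prod⁻¹ • Q)) : Rel P Q := by
  obtain ⟨l₂, hc2, he⟩ := h2
  refine ⟨l₁ ++ l₂, Chain.append l₁ l₂ h1 (Chain.mono l₂ ?_ hc2), ?_⟩
  · intro b hb
    have hbP : b ∈ ((P : Subgroup G) : Set G) :=
      Chain.end_subset l₁ (fun a ha => ha.1) h1 hb
    rw [mem_cj] at hb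
    refine ⟨hbP, ?_⟩
    show b ∈ (((l₁.map Prod.snd).prod⁻¹ • Q : Sylow p G) : Subgroup G)
    rw [Cfsg.Agent.Helper2.mem_smul_sylow_iff, inv_inv]
    exact hb.2
  · rw [List.map_append, List.prod_append, mul_inv_rev, mul_smul, he]

theorem chain_conv {P : Sylow p G} : ∀ (l : List (Sylow p G × G)) (B : Set G), Chain P B l →
    ∀ (i : ℕ) (h : i < l.length),
      cj ((l.map Prod.snd).take i).prod B ⊆
        ((((P : Subgroup G) ⊓ ((l[i]'h).1 : Subgroup G)) : Subgroup G) : Set G) ∧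
      ((l[i]'h).2 ∈ Subgroup.normalizer
        ((((P : Subgroup G) ⊓ ((l[i]'h).1 : Subgroup G)) : Subgroup G) : Set G) ∧
        Tame P (l[i]'h).1)
  | [], _, _, i, h => absurd h (Nat.not_lt_zero _)
  | qx :: l, B, hc, 0, _ => by
      rw [chain_cons] at hc
      refine ⟨?_, hc.2.1, hc.2.2.1⟩
      rw [List.take_zero, List.prod_nil, cj_one]
      exact hc.1
  | qx :: l, B, hc, i + 1, h => by
      rw [chain_cons] at hc
      have ih := chain_conv l (cj qx.2 B) hc.2.2.2 i (Nat.lt_of_succ_lt_succ h)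
      refine ⟨?_, ih.2⟩
      have e : cj (((qx :: l).map Prod.snd).take (i + 1)).prod B =
          cj ((l.map Prod.snd).take i).prod (cj qx.2 B) := by
        rw [List.map_cons, List.take_succ_cons, List.prod_cons, cj_mul]
      rw [e]
      exact ih.1

theorem card_le_of_conj_le [Finite G] (U W : Subgroup G) (x : G)
    (h : ∀ u ∈ U, x⁻¹ * u * x ∈ W) : Nat.card U ≤ Nat.card W := by
  have hle : U.map (MulAut.conj x⁻¹).toMonoidHom ≤ W := by
    rintro _ ⟨u, hu, rfl⟩
    have := h u hu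
    simpa [MulAut.conj_apply] using this
  have h1 := Subgroup.card_le_of_le hle
  rwa [Subgroup.card_map_of_injective (MulAut.conj x⁻¹).injective] at h1

theorem conj_back [Finite G] (U W : Subgroup G) (x : G)
    (h : ∀ u ∈ U, x⁻¹ * u * x ∈ W) (hc : Nat.card W ≤ Nat.card U) :
    ∀ w ∈ W, x * w * x⁻¹ ∈ U := by
  have hle : U.map (MulAut.conj x⁻¹).toMonoidHom ≤ W := by
    rintro _ ⟨u, hu, rfl⟩
    have := h u hu
    simpa [MulAut.conj_apply] using this
  have heq : U.map (MulAut.conj x⁻¹).toMonoidHom = W :=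
    Subgroup.eq_of_le_of_card_ge hle
      (by rw [Subgroup.card_map_of_injective (MulAut.conj x⁻¹).injective]; exact hc)
  intro w hw
  rw [← heq, Cfsg.Agent.Helper2.mem_map_conj_iff, inv_inv] at hw
  exact hw

/-- A `p`-subgroup of `N` lies in a Sylow subgroup of `G` meeting `N` in a Sylow subgroup. -/
theorem exists_sylow_tame [Finite G] [Fact p.Prime] (N U : Subgroup G) (hU : IsPGroup p U)
    (hUN : U ≤ N) : ∃ S : Sylow p G, U ≤ (S : Subgroup G) ∧
      ¬ p ∣ ((S : Subgroup G) ⊓ N).relIndex N := by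
  obtain ⟨SN, hSN⟩ := (hU.comap_subtype (K := N)).exists_le_sylow
  obtain ⟨S, hS⟩ := (SN.isPGroup'.map N.subtype).exists_le_sylow
  refine ⟨S, ?_, ?_⟩
  · intro u hu
    have h1 : (⟨u, hUN hu⟩ : N) ∈ U.subgroupOf N := Subgroup.mem_subgroupOf.mpr hu
    exact hS ⟨⟨u, hUN hu⟩, hSN h1, rfl⟩
  · have h1 : (SN : Subgroup N) ≤ ((S : Subgroup G) ⊓ N).subgroupOf N := by
      intro n hn
      rw [Subgroup.mem_subgroupOf]
      exact ⟨hS ⟨n, hn, rfl⟩, n.2⟩
    have h2 : IsPGroup p (((S : Subgroup G) ⊓ N).subgroupOf N) :=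
      (S.isPGroup'.to_le inf_le_left).comap_subtype
    have h3 : ((S : Subgroup G) ⊓ N).subgroupOf N = SN := SN.is_maximal' h2 h1
    have h4 : ((S : Subgroup G) ⊓ N).relIndex N = (SN : Subgroup N).index := by
      rw [← h3]; rfl
    rw [h4]
    exact SN.not_dvd_index

/-- Sylow's theorem inside `N`: a `p`-subgroup of `N` can be conjugated in `N` into a given
`p`-subgroup of `p'`-index. -/
theorem exists_conj_into [Finite G] [Fact p.Prime] (N U W : Subgroup G) (hU : IsPGroup p U)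
    (hUN : U ≤ N) (hW : IsPGroup p W) (hi : ¬ p ∣ W.relIndex N) :
    ∃ y ∈ N, ∀ u ∈ U, y⁻¹ * u * y ∈ W := by
  let SW : Sylow p N := (hW.comap_subtype (K := N)).toSylow hi
  obtain ⟨S', hS'⟩ := (hU.comap_subtype (K := N)).exists_le_sylow
  obtain ⟨n, hn⟩ := MulAction.exists_smul_eq N S' SW
  refine ⟨(n : G)⁻¹, N.inv_mem n.2, ?_⟩
  intro u hu
  have h1 : (⟨u, hUN hu⟩ : N) ∈ (S' : Subgroup N) := hS' (Subgroup.mem_subgroupOf.mpr hu)
  have h2 : n * (⟨u, hUN hu⟩ : N) * n⁻¹ ∈ ((n • S' : Sylow p N) : Subgroup N) := by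
    rw [Cfsg.Agent.Helper2.mem_smul_sylow_iff]
    have e : n⁻¹ * (n * (⟨u, hUN hu⟩ : N) * n⁻¹) * n = ⟨u, hUN hu⟩ := by group
    rw [e]; exact h1
  rw [hn] at h2
  have h3 : ((n * (⟨u, hUN hu⟩ : N) * n⁻¹ : N) : G) ∈ W := Subgroup.mem_subgroupOf.mp h2
  rw [inv_inv]
  exact h3

theorem tame_self [Finite G] [Fact p.Prime] (P : Sylow p G) : Tame P P := by
  have h : ¬ p ∣ ((P : Subgroup G) ⊓ Subgroup.normalizer ((((P : Subgroup G) ⊓ (P : Subgroup G)) : Subgroup G) : Set G)).relIndex (Subgroup.normalizer ((((P : Subgroup G) ⊓ (P : Subgroup G)) : Subgroup G) : Set G)) := by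
    rw [inf_idem, inf_eq_left.mpr Subgroup.le_normalizer]
    intro hdvd
    exact P.not_dvd_index (hdvd.trans (Subgroup.relIndex_dvd_index_of_le Subgroup.le_normalizer))
  exact ⟨h, h⟩

theorem stepB [Finite G] [Fact p.Prime] (P : Sylow p G) (m : ℕ)
    (hIH : ∀ Q₂ : Sylow p G,
      m < Nat.card ((P : Subgroup G) ⊓ (Q₂ : Subgroup G) : Subgroup G) → Rel P Q₂)
    (Q : Sylow p G) (hm : Nat.card ((P : Subgroup G) ⊓ (Q : Subgroup G) : Subgroup G) = m)
    (hne : P ≠ Q)
    (ht : ¬ p ∣ ((P : Subgroup G) ⊓ Subgroup.normalizer ((((P : Subgroup G) ⊓ (Q : Subgroup G)) : Subgroup G) : Set G)).relIndex (Subgroup.normalizer ((((P : Subgroup G) ⊓ (Q : Subgroup G)) : Subgroup G) : Set G))) :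
    Rel P Q := by
  have hDQ : (P : Subgroup G) ⊓ (Q : Subgroup G) < (Q : Subgroup G) := by
    refine lt_of_le_of_ne inf_le_right (fun h => hne ?_)
    exact (Cfsg.Agent.Helper2.sylow_eq_of_le Q P (inf_eq_right.mp h)).symm
  obtain ⟨s, hsQ, hsN, hsD⟩ := Cfsg.Agent.Helper2.exists_mem_normalizer_notMem_of_lt
    (Q : Subgroup G) ((P : Subgroup G) ⊓ (Q : Subgroup G)) Q.isPGroup' hDQ
  have hDN : (P : Subgroup G) ⊓ (Q : Subgroup G) ≤
      Subgroup.normalizer ((((P : Subgroup G) ⊓ (Q : Subgroup G)) : Subgroup G) : Set G) :=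
    Subgroup.le_normalizer
  have hlt : m < Nat.card ((Q : Subgroup G) ⊓
      Subgroup.normalizer ((((P : Subgroup G) ⊓ (Q : Subgroup G)) : Subgroup G) : Set G) :
        Subgroup G) := by
    rw [← hm]
    exact Cfsg.Agent.Helper2.card_lt_card_of_le_of_mem_of_notMem (le_inf inf_le_right hDN) s
      ⟨hsQ, hsN⟩ hsD
  obtain ⟨T, hQT, hTt⟩ := exists_sylow_tame
    (Subgroup.normalizer ((((P : Subgroup G) ⊓ (Q : Subgroup G)) : Subgroup G) : Set G))
    ((Q : Subgroup G) ⊓
      Subgroup.normalizer ((((P : Subgroup G) ⊓ (Q : Subgroup G)) : Subgroup G) : Set G))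
    (Q.isPGroup'.to_le inf_le_left) inf_le_right
  have hDT : (P : Subgroup G) ⊓ (Q : Subgroup G) ≤ (T : Subgroup G) :=
    fun d hd => hQT ⟨hd.2, hDN hd⟩
  by_cases hPT : Nat.card ((P : Subgroup G) ⊓ (T : Subgroup G) : Subgroup G) = m
  · have hPTD : (P : Subgroup G) ⊓ (T : Subgroup G) = (P : Subgroup G) ⊓ (Q : Subgroup G) :=
      (Subgroup.eq_of_le_of_card_ge (le_inf inf_le_left hDT) (by rw [hPT, hm])).symm
    obtain ⟨y, hyN, hy⟩ := exists_conj_into
      (Subgroup.normalizer ((((P : Subgroup G) ⊓ (Q : Subgroup G)) : Subgroup G) : Set G))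
      ((Q : Subgroup G) ⊓
        Subgroup.normalizer ((((P : Subgroup G) ⊓ (Q : Subgroup G)) : Subgroup G) : Set G))
      ((P : Subgroup G) ⊓
        Subgroup.normalizer ((((P : Subgroup G) ⊓ (Q : Subgroup G)) : Subgroup G) : Set G))
      (Q.isPGroup'.to_le inf_le_left) inf_le_right (P.isPGroup'.to_le inf_le_left) ht
    have hc : Chain P ((((P : Subgroup G) ⊓ (Q : Subgroup G)) : Subgroup G) : Set G)
        [(T, y)] := by
      rw [chain_cons]
      refine ⟨?_, ?_, ⟨?_, ?_⟩, trivial⟩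
      · show ((((P : Subgroup G) ⊓ (Q : Subgroup G)) : Subgroup G) : Set G) ⊆
          ((((P : Subgroup G) ⊓ (T : Subgroup G)) : Subgroup G) : Set G)
        rw [hPTD]
      · show y ∈ Subgroup.normalizer
          ((((P : Subgroup G) ⊓ (T : Subgroup G)) : Subgroup G) : Set G)
        rw [hPTD]; exact hyN
      · show ¬ p ∣ ((P : Subgroup G) ⊓ Subgroup.normalizer ((((P : Subgroup G) ⊓ (T : Subgroup G)) : Subgroup G) : Set G)).relIndex (Subgroup.normalizer ((((P : Subgroup G) ⊓ (T : Subgroup G)) : Subgroup G) : Set G))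
        rw [hPTD]; exact ht
      · show ¬ p ∣ ((T : Subgroup G) ⊓ Subgroup.normalizer ((((P : Subgroup G) ⊓ (T : Subgroup G)) : Subgroup G) : Set G)).relIndex (Subgroup.normalizer ((((P : Subgroup G) ⊓ (T : Subgroup G)) : Subgroup G) : Set G))
        rw [hPTD]; exact hTt
    apply Rel.comp [(T, y)] hc
    have hprod : (([(T, y)] : List (Sylow p G × G)).map Prod.snd).prod = y := by simp
    rw [hprod]
    apply hIH
    refine lt_of_lt_of_le hlt ?_
    apply card_le_of_conj_le _ _ y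
    intro u hu
    refine ⟨(hy u hu).1, ?_⟩
    show y⁻¹ * u * y ∈ ((y⁻¹ • Q : Sylow p G) : Subgroup G)
    rw [Cfsg.Agent.Helper2.mem_smul_sylow_iff, inv_inv]
    have e : y * (y⁻¹ * u * y) * y⁻¹ = u := by group
    rw [e]; exact hu.1
  · have hPTlt : m < Nat.card ((P : Subgroup G) ⊓ (T : Subgroup G) : Subgroup G) := by
      have h1 : Nat.card ((P : Subgroup G) ⊓ (Q : Subgroup G) : Subgroup G) ≤
          Nat.card ((P : Subgroup G) ⊓ (T : Subgroup G) : Subgroup G) :=
        Subgroup.card_le_of_le (le_inf inf_le_left hDT)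
      omega
    obtain ⟨l₁, hc1, he1⟩ := hIH T hPTlt
    have hsub : ((((P : Subgroup G) ⊓ (Q : Subgroup G)) : Subgroup G) : Set G) ⊆
        ((((P : Subgroup G) ⊓ (T : Subgroup G)) : Subgroup G) : Set G) :=
      fun d hd => Subgroup.mem_inf.mpr ⟨hd.1, hDT hd⟩
    have hc : Chain P ((((P : Subgroup G) ⊓ (Q : Subgroup G)) : Subgroup G) : Set G) l₁ :=
      Chain.mono l₁ hsub hc1
    apply Rel.comp l₁ hc
    apply hIH
    refine lt_of_lt_of_le hlt ?_
    apply card_le_of_conj_le _ _ (l₁.map Prod.snd).prod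
    intro u hu
    constructor
    · have h1 : (l₁.map Prod.snd).prod⁻¹ * u * (l₁.map Prod.snd).prod ∈
          (((l₁.map Prod.snd).prod⁻¹ • T : Sylow p G) : Subgroup G) := by
        rw [Cfsg.Agent.Helper2.mem_smul_sylow_iff, inv_inv]
        have e : (l₁.map Prod.snd).prod * ((l₁.map Prod.snd).prod⁻¹ * u * (l₁.map Prod.snd).prod) *
            (l₁.map Prod.snd).prod⁻¹ = u := by group
        rw [e]; exact hQT hu
      rw [he1] at h1
      exact h1
    · show (l₁.map Prod.snd).prod⁻¹ * u * (l₁.map Prod.snd).prod ∈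
          (((l₁.map Prod.snd).prod⁻¹ • Q : Sylow p G) : Subgroup G)
      rw [Cfsg.Agent.Helper2.mem_smul_sylow_iff, inv_inv]
      have e : (l₁.map Prod.snd).prod * ((l₁.map Prod.snd).prod⁻¹ * u * (l₁.map Prod.snd).prod) *
          (l₁.map Prod.snd).prod⁻¹ = u := by group
      rw [e]; exact hu.1

theorem stepA [Finite G] [Fact p.Prime] (P : Sylow p G) (m : ℕ)
    (hIH : ∀ Q₂ : Sylow p G,
      m < Nat.card ((P : Subgroup G) ⊓ (Q₂ : Subgroup G) : Subgroup G) → Rel P Q₂)
    (Q : Sylow p G) (hm : Nat.card ((P : Subgroup G) ⊓ (Q : Subgroup G) : Subgroup G) = m)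
    (hne : P ≠ Q) : Rel P Q := by
  have hDP : (P : Subgroup G) ⊓ (Q : Subgroup G) < (P : Subgroup G) := by
    refine lt_of_le_of_ne inf_le_left (fun h => hne ?_)
    exact Cfsg.Agent.Helper2.sylow_eq_of_le P Q (inf_eq_left.mp h)
  obtain ⟨s, hsP, hsN, hsD⟩ := Cfsg.Agent.Helper2.exists_mem_normalizer_notMem_of_lt
    (P : Subgroup G) ((P : Subgroup G) ⊓ (Q : Subgroup G)) P.isPGroup' hDP
  have hDN : (P : Subgroup G) ⊓ (Q : Subgroup G) ≤
      Subgroup.normalizer ((((P : Subgroup G) ⊓ (Q : Subgroup G)) : Subgroup G) : Set G) :=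
    Subgroup.le_normalizer
  have hlt : m < Nat.card ((P : Subgroup G) ⊓
      Subgroup.normalizer ((((P : Subgroup G) ⊓ (Q : Subgroup G)) : Subgroup G) : Set G) :
        Subgroup G) := by
    rw [← hm]
    exact Cfsg.Agent.Helper2.card_lt_card_of_le_of_mem_of_notMem (le_inf inf_le_left hDN) s
      ⟨hsP, hsN⟩ hsD
  obtain ⟨S, hPS, hSt⟩ := exists_sylow_tame
    (Subgroup.normalizer ((((P : Subgroup G) ⊓ (Q : Subgroup G)) : Subgroup G) : Set G))
    ((P : Subgroup G) ⊓
      Subgroup.normalizer ((((P : Subgroup G) ⊓ (Q : Subgroup G)) : Subgroup G) : Set G))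
    (P.isPGroup'.to_le inf_le_left) inf_le_right
  have hDS : (P : Subgroup G) ⊓ (Q : Subgroup G) ≤ (S : Subgroup G) :=
    fun d hd => hPS ⟨hd.1, hDN hd⟩
  have hPSlt : m < Nat.card ((P : Subgroup G) ⊓ (S : Subgroup G) : Subgroup G) :=
    lt_of_lt_of_le hlt (Subgroup.card_le_of_le (le_inf inf_le_left hPS))
  obtain ⟨l₁, hc1, he1⟩ := hIH S hPSlt
  have hsub : ((((P : Subgroup G) ⊓ (Q : Subgroup G)) : Subgroup G) : Set G) ⊆
      ((((P : Subgroup G) ⊓ (S : Subgroup G)) : Subgroup G) : Set G) :=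
    fun d hd => Subgroup.mem_inf.mpr ⟨hd.1, hDS hd⟩
  have hc : Chain P ((((P : Subgroup G) ⊓ (Q : Subgroup G)) : Subgroup G) : Set G) l₁ :=
    Chain.mono l₁ hsub hc1
  apply Rel.comp l₁ hc
  generalize hx : (l₁.map Prod.snd).prod = x at he1 hc ⊢
  have hDx : ∀ d ∈ (P : Subgroup G) ⊓ (Q : Subgroup G),
      x⁻¹ * d * x ∈ (P : Subgroup G) ⊓ ((x⁻¹ • Q : Sylow p G) : Subgroup G) := by
    intro d hd
    have e : x * (x⁻¹ * d * x) * x⁻¹ = d := by group
    refine ⟨?_, ?_⟩
    · have h1 := Chain.end_subset l₁ (fun a ha => ha.1) hc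
      rw [hx] at h1
      exact h1 (mem_cj.mpr (by rw [e]; exact hd))
    · show x⁻¹ * d * x ∈ ((x⁻¹ • Q : Sylow p G) : Subgroup G)
      rw [Cfsg.Agent.Helper2.mem_smul_sylow_iff, inv_inv, e]
      exact hd.2
  by_cases hcard : m < Nat.card ((P : Subgroup G) ⊓ ((x⁻¹ • Q : Sylow p G) : Subgroup G) :
      Subgroup G)
  · exact hIH _ hcard
  · have hge : m ≤ Nat.card ((P : Subgroup G) ⊓ ((x⁻¹ • Q : Sylow p G) : Subgroup G) :
        Subgroup G) := by
      rw [← hm]
      exact card_le_of_conj_le _ _ x hDx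
    have hcardeq : Nat.card ((P : Subgroup G) ⊓ ((x⁻¹ • Q : Sylow p G) : Subgroup G) :
        Subgroup G) = m := le_antisymm (not_lt.mp hcard) hge
    have hback := conj_back _ _ x hDx (by rw [hcardeq, hm])
    have e1 : (P : Subgroup G) ⊓ ((x⁻¹ • Q : Sylow p G) : Subgroup G) =
        ((P : Subgroup G) ⊓ (Q : Subgroup G)).map (MulAut.conj x⁻¹).toMonoidHom := by
      ext w
      rw [Cfsg.Agent.Helper2.mem_map_conj_iff, inv_inv]
      constructor
      · intro hw; exact hback w hw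
      · intro hw
        have h1 := hDx _ hw
        have e : x⁻¹ * (x * w * x⁻¹) * x = w := by group
        rwa [e] at h1
    have e2 : (P : Subgroup G) = (S : Subgroup G).map (MulAut.conj x⁻¹).toMonoidHom := by
      rw [← he1]
      ext w
      rw [Cfsg.Agent.Helper2.mem_smul_sylow_iff, Cfsg.Agent.Helper2.mem_map_conj_iff]
    have key : Subgroup.normalizer ((((P : Subgroup G) ⊓ ((x⁻¹ • Q : Sylow p G) : Subgroup G)) : Subgroup G) : Set G) =
        (Subgroup.normalizer ((((P : Subgroup G) ⊓ (Q : Subgroup G)) : Subgroup G) : Set G)).map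
          (MulAut.conj x⁻¹).toMonoidHom := by
      rw [e1, Subgroup.map_equiv_normalizer_eq]
    have key2 : (P : Subgroup G) ⊓
        (Subgroup.normalizer ((((P : Subgroup G) ⊓ (Q : Subgroup G)) : Subgroup G) : Set G)).map
          (MulAut.conj x⁻¹).toMonoidHom =
        ((S : Subgroup G) ⊓
          Subgroup.normalizer ((((P : Subgroup G) ⊓ (Q : Subgroup G)) : Subgroup G) : Set G)).map
            (MulAut.conj x⁻¹).toMonoidHom := by
      rw [Subgroup.map_inf _ _ _ (MulAut.conj x⁻¹).injective, ← e2]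
    apply stepB P m hIH _ hcardeq
    · intro h
      have h1 : (P : Subgroup G) ⊓ ((x⁻¹ • Q : Sylow p G) : Subgroup G) = (P : Subgroup G) := by
        rw [← h, inf_idem]
      rw [h1] at hcardeq
      have h2 : Nat.card ((P : Subgroup G) ⊓
          Subgroup.normalizer ((((P : Subgroup G) ⊓ (Q : Subgroup G)) : Subgroup G) : Set G) :
            Subgroup G) ≤ Nat.card (P : Subgroup G) := Subgroup.card_le_of_le inf_le_left
      omega
    · rw [key, key2, Subgroup.relIndex_map_map_of_injective _ _ (MulAut.conj x⁻¹).injective]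
      exact hSt

theorem rel_all [Finite G] [Fact p.Prime] (P : Sylow p G) : ∀ (k : ℕ) (Q : Sylow p G),
    Nat.card (P : Subgroup G) - Nat.card ((P : Subgroup G) ⊓ (Q : Subgroup G) : Subgroup G) = k →
    Rel P Q := by
  intro k
  induction k using Nat.strong_induction_on with
  | _ k ih =>
    intro Q hk
    by_cases hPQ : P = Q
    · subst hPQ
      exact ⟨[], trivial, by simp⟩
    · apply stepA P (Nat.card ((P : Subgroup G) ⊓ (Q : Subgroup G) : Subgroup G)) ?_ Q rfl hPQ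
      intro Q₂ hlt
      have h1 : Nat.card ((P : Subgroup G) ⊓ (Q₂ : Subgroup G) : Subgroup G) ≤
          Nat.card (P : Subgroup G) := Subgroup.card_le_of_le inf_le_left
      exact ih (Nat.card (P : Subgroup G) -
        Nat.card ((P : Subgroup G) ⊓ (Q₂ : Subgroup G) : Subgroup G)) (by omega) Q₂ rfl

end

/-- The Alperin fusion Theorem states that conjugation between subsets of a Sylow p-subgroup P factors through normalizers of tame intersections P ∩ Q_i with other Sylow p-subgroups, carrying the subset along step by step. -/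
theorem result {G : Type*} [Group G] [Finite G] {p : ℕ} [Fact p.Prime] (P : Sylow p G) (A : Set G) (g : G) (hA : A ⊆ (P : Set G)) (hAg : (fun a => g⁻¹ * a * g) '' A ⊆ (P : Set G)) : ∃ (n : ℕ) (Q : Fin n → Sylow p G) (x : Fin n → G), (List.ofFn x).prod = g ∧ (∀ i : Fin n, x i ∈ Subgroup.normalizer ((((P : Subgroup G) ⊓ (Q i : Subgroup G)) : Subgroup G) : Set G) ∧ ¬ p ∣ ((P : Subgroup G) ⊓ Subgroup.normalizer ((((P : Subgroup G) ⊓ (Q i : Subgroup G)) : Subgroup G) : Set G)).relIndex (Subgroup.normalizer ((((P : Subgroup G) ⊓ (Q i : Subgroup G)) : Subgroup G) : Set G)) ∧ ¬ p ∣ ((Q i : Subgroup G) ⊓ Subgroup.normalizer ((((P : Subgroup G) ⊓ (Q i : Subgroup G)) : Subgroup G) : Set G)).relIndex (Subgroup.normalizer ((((P : Subgroup G) ⊓ (Q i : Subgroup G)) : Subgroup G) : Set G))) ∧ (∀ h : 0 < n, A ⊆ (((P : Subgroup G) ⊓ (Q ⟨0, h⟩ : Subgroup G) : Subgroup G) : Set G)) ∧ ∀ i : Fin n, ∀ h : i.val + 1 < n, (fun a => (((List.ofFn x).take (i.val + 1)).prod)⁻¹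 * a * ((List.ofFn x).take (i.val + 1)).prod) '' A ⊆ (((P : Subgroup G) ⊓ (Q ⟨i.val + 1, h⟩ : Subgroup G) : Subgroup G) : Set G) := by
  classical
  have hAQ : A ⊆ ((((P : Subgroup G) ⊓ ((g • P : Sylow p G) : Subgroup G)) : Subgroup G) : Set G) := by
    intro a ha
    refine ⟨hA ha, ?_⟩
    show a ∈ ((g • P : Sylow p G) : Subgroup G)
    rw [Cfsg.Agent.Helper2.mem_smul_sylow_iff]
    exact hAg ⟨a, ha, rfl⟩
  obtain ⟨l, hc, he⟩ := rel_all P _ (g • P) rfl
  have hy : (l.map Prod.snd).prod⁻¹ * g ∈ Subgroup.normalizer ((P : Subgroup G) : Set G) :=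
    Sylow.smul_eq_iff_mem_normalizer.mp (by rw [mul_smul]; exact he)
  have hcA : Chain P A (l ++ [(P, (l.map Prod.snd).prod⁻¹ * g)]) := by
    apply Chain.append l _ (Chain.mono l hAQ hc)
    rw [chain_cons]
    refine ⟨?_, ?_, tame_self P, trivial⟩
    · show cj (l.map Prod.snd).prod A ⊆
        ((((P : Subgroup G) ⊓ (P : Subgroup G)) : Subgroup G) : Set G)
      rw [inf_idem]
      exact (cj_mono hAQ).trans (Chain.end_subset l (fun a ha => ha.1) hc)
    · show (l.map Prod.snd).prod⁻¹ * g ∈ Subgroup.normalizer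
        ((((P : Subgroup G) ⊓ (P : Subgroup G)) : Subgroup G) : Set G)
      rw [inf_idem]
      exact hy
  have hprod : ((l ++ [(P, (l.map Prod.snd).prod⁻¹ * g)]).map Prod.snd).prod = g := by
    rw [List.map_append, List.prod_append]
    simp
  generalize l ++ [(P, (l.map Prod.snd).prod⁻¹ * g)] = L at hcA hprod
  have hofn : List.ofFn (fun i : Fin L.length => (L[(i : ℕ)]).2) = L.map Prod.snd :=
    List.ofFn_getElem_eq_map L Prod.snd
  have conv := chain_conv L A hcA
  refine ⟨L.length, fun i => (L[(i : ℕ)]).1, fun i => (L[(i : ℕ)]).2, ?_, ?_, ?_, ?_⟩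
  · rw [hofn, hprod]
  · intro i
    exact (conv i.val i.isLt).2
  · intro h
    have h1 := (conv 0 h).1
    rw [List.take_zero, List.prod_nil, cj_one] at h1
    exact h1
  · intro i h
    rw [hofn]
    exact (conv (i.val + 1) h).1

end Cfsg.Agent.S0116
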