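import Cfsg.Statements.S0122
import Cfsg.Agent.Helper22.NormalElemAb
import Cfsg.Agent.Helper22.Transitivity
import Cfsg.Agent.Helper50.CD

set_option autoImplicit false
open Cfsg

namespace Cfsg.Agent.S0122

open Subgroup Cfsg.Agent.Helper22 Cfsg.Agent.Helper35
open scoped Pointwise

/-- If `x` centralises `B'` and an element `a ∈ B ∖ B'`, where `|B : B'| = p`, then `x`
centralises `B`. -/
theorem cent_of_index_p {G : Type*} [Group G] [Finite G] {p : ℕ} [hp : Fact p.Prime] (x : G)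
    (B B' : Subgroup G) (hB'B : B' ≤ B) (hcard : Nat.card B = Nat.card B' * p)
    (hx : ∀ h ∈ B', x * h = h * x) {a : G} (haB : a ∈ B) (haB' : a ∉ B') (hxa : x * a = a * x) :
    ∀ b ∈ B, x * b = b * x := by
  have hB'D : B' ≤ B ⊓ centralizer {x} := fun h hh =>
    Subgroup.mem_inf.mpr ⟨hB'B hh, Subgroup.mem_centralizer_singleton_iff.mpr (hx h hh).symm⟩
  have haD : a ∈ B ⊓ centralizer {x} :=
    Subgroup.mem_inf.mpr ⟨haB, Subgroup.mem_centralizer_singleton_iff.mpr hxa.symm⟩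
  have hlt : Nat.card B' < Nat.card (B ⊓ centralizer {x} : Subgroup G) :=
    Cfsg.Agent.Helper2.card_lt_card_of_le_of_mem_of_notMem hB'D a haD haB'
  have hDB : B ⊓ centralizer {x} ≤ B := inf_le_left
  have hd1 : Nat.card B' ∣ Nat.card (B ⊓ centralizer {x} : Subgroup G) :=
    Subgroup.card_dvd_of_le hB'D
  have hd2 : Nat.card (B ⊓ centralizer {x} : Subgroup G) ∣ Nat.card B :=
    Subgroup.card_dvd_of_le hDB
  obtain ⟨m, hm⟩ := hd1
  rw [hm, hcard] at hd2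
  have hm' : m ∣ p := (Nat.mul_dvd_mul_iff_left Nat.card_pos).mp hd2
  have hm1 : m ≠ 1 := by
    rintro rfl
    rw [hm, mul_one] at hlt
    exact lt_irrefl _ hlt
  have hmp : m = p := ((Nat.dvd_prime hp.out).mp hm').resolve_left hm1
  have hDeq : B ⊓ centralizer {x} = B :=
    Subgroup.eq_of_le_of_card_ge hDB (by rw [hm, hmp, hcard])
  intro b hb
  have hbD : b ∈ B ⊓ centralizer {x} := by rw [hDeq]; exact hb
  exact (Subgroup.mem_centralizer_singleton_iff.mp (Subgroup.mem_inf.mp hbD).2).symm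

/-- A proper subgroup of a group of order `p ^ (n + 1)` has order at most `p ^ n`. -/
theorem card_le_of_ne {G : Type*} [Group G] [Finite G] {p : ℕ} [hp : Fact p.Prime]
    (hG : IsPGroup p G) {B D : Subgroup G} (hDB : D ≤ B) (hne : D ≠ B) (n : ℕ)
    (hB : Nat.card B = p ^ (n + 1)) : Nat.card D ≤ p ^ n := by
  obtain ⟨j, hj⟩ := IsPGroup.iff_card.mp (hG.to_subgroup D)
  have hdvd : Nat.card D ∣ Nat.card B := Subgroup.card_dvd_of_le hDB
  rw [hj, hB] at hdvd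
  have hj3 : j ≤ n + 1 := (Nat.pow_dvd_pow_iff_le_right hp.out.one_lt).mp hdvd
  rcases Nat.lt_or_ge j (n + 1) with hlt | hge
  · rw [hj]; exact Nat.pow_le_pow_right hp.out.pos (by omega)
  · exfalso
    have hj' : j = n + 1 := by omega
    exact hne (Subgroup.eq_of_le_of_card_ge hDB (by rw [hj, hj', hB]))

/-- The core of the argument: a normal elementary abelian subgroup `A` of largest order cannot
have order `p ^ 3` if there is an elementary abelian subgroup of order `p ^ 4`. -/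
theorem no_max_cube {G : Type*} [Group G] [Finite G] {p : ℕ} [hp : Fact p.Prime] (hp2 : p ≠ 2)
    (hG : IsPGroup p G) (E : Subgroup G) (hE : Cfsg.IsElementaryAbelian p E)
    (hE4 : Nat.card E = p ^ 4) (A : Subgroup G) [hAn : A.Normal]
    (hA : Cfsg.IsElementaryAbelian p A) (ha3 : Nat.card A = p ^ 3)
    (hmax : ∀ B : Subgroup G, B.Normal → Cfsg.IsElementaryAbelian p B →
      Nat.card B ≤ Nat.card A) : False := by
  have hpp : p.Prime := hp.out
  have hp1 : 1 < p := hpp.one_lt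
  have hb : ∀ x : G, x ^ p = 1 → (∀ a ∈ A, x * a = a * x) → x ∈ A := fun x hx hxc =>
    mem_of_centralizes_of_max hp2 hG A hA hmax hx hxc
  have hAc : ∀ x ∈ A, ∀ y ∈ A, x * y = y * x := fun x hx y hy =>
    Cfsg.Agent.Helper22.IsElementaryAbelian.comm' hA hx hy
  obtain ⟨H, hHn, hHA, hHc⟩ := exists_normal_le_card hG A 3 ha3 2 (by norm_num)
  have := hHn
  obtain ⟨A₁, hA₁n, hA₁H, hA₁c⟩ := exists_normal_le_card hG H 2 hHc 1 (by norm_num)
  have := hA₁n
  rw [pow_one] at hA₁c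
  have hHA₁ : Nat.card H = Nat.card A₁ * p := by rw [hHc, hA₁c]; ring
  have hAH : Nat.card A = Nat.card H * p := by rw [ha3, hHc]; ring
  have htop : ∀ (N : Subgroup G) [N.Normal] (g : G), g ∈ normalizer (N : Set G) := by
    intro N _ g
    rw [Subgroup.normalizer_eq_top]
    exact Subgroup.mem_top g
  have hd1 : ∀ (g x : G), x ∈ A₁ → g * x = x * g := by
    intro g x hx
    obtain ⟨k, hk⟩ := hG g
    have h := Cfsg.Agent.S0100.mem_centralizer_of_mem_normalizer_of_card_prime A₁ hA₁c g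
      (htop A₁ g) k hk
    exact (Subgroup.mem_centralizer_iff.mp h x hx).symm
  have hd2 : ∀ (g h : G), h ∈ H → g * h * g⁻¹ * h⁻¹ ∈ A₁ := fun g h hh =>
    Cfsg.Agent.S0100.comm_mem_of_index_prime hG A₁ H hA₁H hHA₁ g (htop H g) h hh
  have hd3 : ∀ (g a : G), a ∈ A → g * a * g⁻¹ * a⁻¹ ∈ H := fun g a ha =>
    Cfsg.Agent.S0100.comm_mem_of_index_prime hG H A hHA hAH g (htop A g) a ha
  obtain ⟨a₀, ha₀A, ha₀H⟩ : ∃ a₀ ∈ A, a₀ ∉ H := by
    by_contra hcon
    push Not at hcon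
    have h1 : Nat.card A ≤ Nat.card H := Subgroup.card_le_of_le hcon
    rw [ha3, hHc] at h1
    exact absurd h1 (not_le.mpr (Nat.pow_lt_pow_right hp1 (by norm_num)))
  -- the property of every elementary abelian subgroup of order `p ^ 4`
  have hprop : ∀ F : Subgroup G, Cfsg.IsElementaryAbelian p F → Nat.card F = p ^ 4 →
      (F ⊓ A = H ∧ ∀ f ∈ F, ∀ h ∈ H, f * h = h * f) := by
    intro F hF hF4
    have hFc : ∀ x ∈ F, ∀ y ∈ F, x * y = y * x := fun x hx y hy =>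
      Cfsg.Agent.Helper22.IsElementaryAbelian.comm' hF hx hy
    have h1 : ∀ f ∈ F, (∀ a ∈ A, f * a = a * f) → f ∈ F ⊓ A := fun f hf hfa =>
      Subgroup.mem_inf.mpr ⟨hf, hb f (hF.2 f hf) hfa⟩
    have h2 : Nat.card (F ⊓ A : Subgroup G) ≤ p ^ 2 := by
      apply card_le_of_ne hG (inf_le_right : F ⊓ A ≤ A) _ 2 ha3
      intro hH'A
      have hAF : A ≤ F := by rw [← hH'A]; exact inf_le_left
      have hFA : F ≤ A := fun f hf => hb f (hF.2 f hf) (fun a ha => hFc f hf a (hAF ha))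
      have := Subgroup.card_le_of_le hFA
      rw [hF4, ha3] at this
      exact absurd this (not_le.mpr (Nat.pow_lt_pow_right hp1 (by norm_num)))
    -- `F` centralises `H`
    have h3 : ∀ f ∈ F, ∀ h ∈ H, f * h = h * f := by
      by_contra hcon
      push Not at hcon
      obtain ⟨e₁, he₁, h₀, hh₀, hne⟩ := hcon
      have hh₀A₁ : h₀ ∉ A₁ := fun h => hne (hd1 e₁ h₀ h)
      have hK3 : p ^ 3 ≤ Nat.card (F ⊓ centralizer {h₀} : Subgroup G) := by
        have := card_le_card_mul_card_inf_centralizer F A₁ h₀ (fun s _ => hd2 s h₀ hh₀)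
        rw [hF4, hA₁c] at this
        have e : p ^ 4 = p * p ^ 3 := by ring
        rw [e] at this
        exact Nat.le_of_mul_le_mul_left this hpp.pos
      have hKH : ∀ k ∈ F ⊓ centralizer {h₀}, ∀ h ∈ H, k * h = h * k := by
        intro k hk
        exact cent_of_index_p k H A₁ hA₁H hHA₁ (fun x hx => hd1 k x hx) hh₀ hh₀A₁
          (Subgroup.mem_centralizer_singleton_iff.mp (Subgroup.mem_inf.mp hk).2)
      have hH₁c : Nat.card (H ⊓ centralizer {e₁} : Subgroup G) ≤ p := by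
        have := card_le_of_ne hG (inf_le_left : H ⊓ centralizer {e₁} ≤ H) (by
          intro heq
          have : h₀ ∈ H ⊓ centralizer {e₁} := by rw [heq]; exact hh₀
          exact hne (Subgroup.mem_centralizer_singleton_iff.mp (Subgroup.mem_inf.mp this).2).symm)
          1 hHc
        rwa [pow_one] at this
      have hconj : ∀ a ∈ A, ∀ k ∈ F ⊓ centralizer {h₀},
          k * a * k⁻¹ * a⁻¹ ∈ H ⊓ centralizer {e₁} := by
        intro a haA k hk
        refine Subgroup.mem_inf.mpr ⟨hd3 k a haA, ?_⟩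
        rw [Subgroup.mem_centralizer_singleton_iff]
        have hke : k * e₁ = e₁ * k := hFc k (Subgroup.mem_inf.mp hk).1 e₁ he₁
        have hd : e₁ * a * e₁⁻¹ * a⁻¹ ∈ H := hd3 e₁ a haA
        have hc : k * a * k⁻¹ * a⁻¹ ∈ H := hd3 k a haA
        have hkd : k * (e₁ * a * e₁⁻¹ * a⁻¹) = (e₁ * a * e₁⁻¹ * a⁻¹) * k := hKH k hk _ hd
        have hcd : (k * a * k⁻¹ * a⁻¹) * (e₁ * a * e₁⁻¹ * a⁻¹) =
            (e₁ * a * e₁⁻¹ * a⁻¹) * (k * a * k⁻¹ * a⁻¹) := hAc _ (hHA hc) _ (hHA hd)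
        have key : e₁ * (k * a * k⁻¹ * a⁻¹) * e₁⁻¹ * (e₁ * a * e₁⁻¹ * a⁻¹) =
            (e₁ * a * e₁⁻¹ * a⁻¹) * (k * a * k⁻¹ * a⁻¹) := by
          calc e₁ * (k * a * k⁻¹ * a⁻¹) * e₁⁻¹ * (e₁ * a * e₁⁻¹ * a⁻¹)
              = (e₁ * k) * a * (e₁ * k)⁻¹ * a⁻¹ := by group
            _ = (k * e₁) * a * (k * e₁)⁻¹ * a⁻¹ := by rw [hke]
            _ = (k * (e₁ * a * e₁⁻¹ * a⁻¹)) * k⁻¹ * (k * a * k⁻¹ * a⁻¹) := by group
            _ = ((e₁ * a * e₁⁻¹ * a⁻¹) * k) * k⁻¹ * (k * a * k⁻¹ * a⁻¹) := by rw [hkd]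
            _ = (e₁ * a * e₁⁻¹ * a⁻¹) * (k * a * k⁻¹ * a⁻¹) := by group
        rw [← hcd] at key
        have key2 := mul_right_cancel key
        calc k * a * k⁻¹ * a⁻¹ * e₁ = (e₁ * (k * a * k⁻¹ * a⁻¹) * e₁⁻¹) * e₁ := by rw [key2]
          _ = e₁ * (k * a * k⁻¹ * a⁻¹) := by group
      have hK' := card_le_card_mul_card_inf_centralizer (F ⊓ centralizer {h₀})
        (H ⊓ centralizer {e₁}) a₀ (fun k hk => hconj a₀ ha₀A k hk)
      have hKa : (F ⊓ centralizer {h₀}) ⊓ centralizer {a₀} ≤ F ⊓ A := by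
        intro k hk
        have hk1 := (Subgroup.mem_inf.mp hk).1
        exact h1 k (Subgroup.mem_inf.mp hk1).1 (cent_of_index_p k A H hHA hAH (hKH k hk1) ha₀A
          ha₀H (Subgroup.mem_centralizer_singleton_iff.mp (Subgroup.mem_inf.mp hk).2))
      have hH'2 : p ^ 2 ≤ Nat.card (F ⊓ A : Subgroup G) := by
        have h5 := hK3.trans (hK'.trans (Nat.mul_le_mul hH₁c (Subgroup.card_le_of_le hKa)))
        have e : p ^ 3 = p * p ^ 2 := by ring
        rw [e] at h5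
        exact Nat.le_of_mul_le_mul_left h5 hpp.pos
      have hH'eq : Nat.card (F ⊓ A : Subgroup G) = p ^ 2 := le_antisymm h2 hH'2
      have hH'H : F ⊓ A = H := by
        by_contra hneq
        obtain ⟨a, haH, haH'⟩ : ∃ a ∈ H, a ∉ F ⊓ A := by
          by_contra hcon2
          push Not at hcon2
          exact hneq (Subgroup.eq_of_le_of_card_ge hcon2 (by rw [hH'eq, hHc])).symm
        have hFa := card_le_card_mul_card_inf_centralizer F A₁ a (fun s _ => hd2 s a haH)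
        have hFaH' : F ⊓ centralizer {a} ≤ F ⊓ A := by
          intro f hf
          have hf1 := (Subgroup.mem_inf.mp hf).1
          exact h1 f hf1 (cent_of_index_p f A (F ⊓ A) inf_le_right (by rw [ha3, hH'eq]; ring)
            (fun h hh => hFc f hf1 h (Subgroup.mem_inf.mp hh).1) (hHA haH) haH'
            (Subgroup.mem_centralizer_singleton_iff.mp (Subgroup.mem_inf.mp hf).2))
        have h6 := hFa.trans (Nat.mul_le_mul_left _ (Subgroup.card_le_of_le hFaH'))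
        rw [hF4, hA₁c, hH'eq] at h6
        have e : p * p ^ 2 = p ^ 3 := by ring
        rw [e] at h6
        exact absurd h6 (not_le.mpr (Nat.pow_lt_pow_right hp1 (by norm_num)))
      have hh₀F : h₀ ∈ F ⊓ A := by rw [hH'H]; exact hh₀
      exact hne (hFc e₁ he₁ h₀ (Subgroup.mem_inf.mp hh₀F).1)
    have hF' := card_le_card_mul_card_inf_centralizer F H a₀ (fun s _ => hd3 s a₀ ha₀A)
    have hFa₀ : F ⊓ centralizer {a₀} ≤ F ⊓ A := by
      intro f hf
      have hf1 := (Subgroup.mem_inf.mp hf).1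
      exact h1 f hf1 (cent_of_index_p f A H hHA hAH (h3 f hf1) ha₀A ha₀H
        (Subgroup.mem_centralizer_singleton_iff.mp (Subgroup.mem_inf.mp hf).2))
    have hH'2 : p ^ 2 ≤ Nat.card (F ⊓ A : Subgroup G) := by
      have h5 := hF'.trans (Nat.mul_le_mul_left _ (Subgroup.card_le_of_le hFa₀))
      rw [hF4, hHc] at h5
      have e : p ^ 4 = p ^ 2 * p ^ 2 := by ring
      rw [e] at h5
      exact Nat.le_of_mul_le_mul_left h5 (pow_pos hpp.pos 2)
    have hH'eq : Nat.card (F ⊓ A : Subgroup G) = p ^ 2 := le_antisymm h2 hH'2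
    refine ⟨?_, h3⟩
    by_contra hneq
    obtain ⟨a, haH, haH'⟩ : ∃ a ∈ H, a ∉ F ⊓ A := by
      by_contra hcon2
      push Not at hcon2
      exact hneq (Subgroup.eq_of_le_of_card_ge hcon2 (by rw [hH'eq, hHc])).symm
    have hFA : F ≤ A := fun f hf => hb f (hF.2 f hf)
      (cent_of_index_p f A (F ⊓ A) inf_le_right (by rw [ha3, hH'eq]; ring)
        (fun h hh => hFc f hf h (Subgroup.mem_inf.mp hh).1) (hHA haH) haH' (h3 f hf a haH))
    have := Subgroup.card_le_of_le hFA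
    rw [hF4, ha3] at this
    exact absurd this (not_le.mpr (Nat.pow_lt_pow_right hp1 (by norm_num)))
  -- choose `E₀` with the largest normaliser
  obtain ⟨E₀, ⟨hE₀, hE₀4⟩, hmaxN⟩ := Set.exists_max_image
    {F : Subgroup G | Cfsg.IsElementaryAbelian p F ∧ Nat.card F = p ^ 4}
    (fun F => Nat.card (normalizer (F : Set G))) (Set.toFinite _) ⟨E, hE, hE4⟩
  by_cases hEn : E₀.Normal
  · have := hmax E₀ hEn hE₀
    rw [hE₀4, ha3] at this
    exact absurd this (not_le.mpr (Nat.pow_lt_pow_right hp1 (by norm_num)))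
  have hN : normalizer (E₀ : Set G) ≠ ⊤ := fun h => hEn (Subgroup.normalizer_eq_top_iff.mp h)
  obtain ⟨g, -, hgN, hgE⟩ := Cfsg.Agent.Helper2.exists_mem_normalizer_notMem_of_lt
    (⊤ : Subgroup G) (normalizer (E₀ : Set G)) (hG.to_subgroup ⊤) (lt_top_iff_ne_top.mpr hN)
  have hE₀c : ∀ x ∈ E₀, ∀ y ∈ E₀, x * y = y * x := fun x hx y hy =>
    Cfsg.Agent.Helper22.IsElementaryAbelian.comm' hE₀ hx hy
  -- the conjugate `E' = g E₀ g⁻¹`
  have hE'mem : ∀ u : G, u ∈ MulAut.conj g • E₀ ↔ g⁻¹ * u * g ∈ E₀ := fun u => mem_conj_smul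
  have hE'c : ∀ x ∈ MulAut.conj g • E₀, ∀ y ∈ MulAut.conj g • E₀, x * y = y * x := by
    intro x hx y hy
    have h := hE₀c _ ((hE'mem x).mp hx) _ ((hE'mem y).mp hy)
    have e1 : x * y = g * ((g⁻¹ * x * g) * (g⁻¹ * y * g)) * g⁻¹ := by group
    have e2 : y * x = g * ((g⁻¹ * y * g) * (g⁻¹ * x * g)) * g⁻¹ := by group
    rw [e1, e2, h]
  have hE' : Cfsg.IsElementaryAbelian p (MulAut.conj g • E₀ : Subgroup G) := by
    refine ⟨⟨⟨fun x y => Subtype.ext (hE'c x.1 x.2 y.1 y.2)⟩⟩, ?_⟩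
    intro x hx
    have h := hE₀.2 _ ((hE'mem x).mp hx)
    have e : g⁻¹ * x * g = g⁻¹ * x * g⁻¹⁻¹ := by rw [inv_inv]
    rw [e, conj_pow] at h
    have h2 : x ^ p = g * (g⁻¹ * x ^ p * g⁻¹⁻¹) * g⁻¹ := by group
    rw [h2, h]; group
  have hE'4 : Nat.card (MulAut.conj g • E₀ : Subgroup G) = p ^ 4 := by
    rw [card_conj_smul, hE₀4]
  have hE'ne : MulAut.conj g • E₀ ≠ E₀ := fun h =>
    hgE (mem_normalizer_iff_conj_smul_eq.mpr h)
  have hE'N : MulAut.conj g • E₀ ≤ normalizer (E₀ : Set G) := by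
    intro u hu
    have h1 : g⁻¹ * u * g ∈ normalizer (E₀ : Set G) := Subgroup.le_normalizer ((hE'mem u).mp hu)
    have h2 := (Subgroup.mem_normalizer_iff.mp hgN _).mp h1
    have e : g * (g⁻¹ * u * g) * g⁻¹ = u := by group
    rwa [e] at h2
  have hE₀N' : E₀ ≤ normalizer ((MulAut.conj g • E₀ : Subgroup G) : Set G) := by
    apply le_normalizer_of_conj_mem
    intro x hx u hu
    rw [hE'mem] at hu ⊢
    have hg' : g⁻¹ ∈ normalizer ((normalizer (E₀ : Set G) : Subgroup G) : Set G) := inv_mem hgN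
    have h1 : g⁻¹ * x * g⁻¹⁻¹ ∈ normalizer (E₀ : Set G) :=
      (Subgroup.mem_normalizer_iff.mp hg' x).mp (Subgroup.le_normalizer hx)
    rw [inv_inv] at h1
    have h2 := (Subgroup.mem_normalizer_iff.mp h1 _).mp hu
    have e : g⁻¹ * (x * u * x⁻¹) * g = (g⁻¹ * x * g) * (g⁻¹ * u * g) * (g⁻¹ * x * g)⁻¹ := by
      group
    rw [e]; exact h2
  obtain ⟨hP₀, hP₀c⟩ := hprop E₀ hE₀ hE₀4
  obtain ⟨hP', hP'c⟩ := hprop _ hE' hE'4
  -- elements of `T = E₀ E'`
  have hTmem : ∀ t ∈ E₀ ⊔ MulAut.conj g • E₀, ∃ e ∈ E₀, ∃ e' ∈ MulAut.conj g • E₀, t = e * e' :=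
    fun t ht => exists_mul_of_mem_sup' hE₀N' ht
  have hTexp : ∀ t ∈ E₀ ⊔ MulAut.conj g • E₀, t ^ p = 1 := by
    intro t ht
    obtain ⟨e, he, e', he', rfl⟩ := hTmem t ht
    have hc1 : e' * e * e'⁻¹ * e⁻¹ ∈ E₀ :=
      E₀.mul_mem ((Subgroup.mem_normalizer_iff.mp (hE'N he') e).mp he) (E₀.inv_mem he)
    have hc2 : e' * e * e'⁻¹ * e⁻¹ ∈ MulAut.conj g • E₀ := by
      have h1 : e * e'⁻¹ * e⁻¹ ∈ MulAut.conj g • E₀ :=
        (Subgroup.mem_normalizer_iff.mp (hE₀N' he) e'⁻¹).mp (Subgroup.inv_mem _ he')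
      have e2 : e' * e * e'⁻¹ * e⁻¹ = e' * (e * e'⁻¹ * e⁻¹) := by group
      rw [e2]
      exact Subgroup.mul_mem _ he' h1
    have h := Cfsg.Agent.S0126.mul_pow_class_two e e' (e' * e * e'⁻¹ * e⁻¹)
      (hE₀c _ hc1 e he) (hE'c _ hc2 e' he') (by group) p
    obtain ⟨m, hm⟩ := Cfsg.Agent.S0126.p_dvd_sum_range (p := p) hp2
    rw [h, hE₀.2 e he, hE'.2 e' he', hm, pow_mul, hE₀.2 _ hc1, one_pow, one_mul, one_mul]
  have hTH : ∀ t ∈ E₀ ⊔ MulAut.conj g • E₀, ∀ h ∈ H, t * h = h * t := by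
    intro t ht h hh
    obtain ⟨e, he, e', he', rfl⟩ := hTmem t ht
    rw [mul_assoc, hP'c e' he' h hh, ← mul_assoc, hP₀c e he h hh, mul_assoc]
  have hTa : (E₀ ⊔ MulAut.conj g • E₀) ⊓ centralizer {a₀} ≤ (E₀ ⊔ MulAut.conj g • E₀) ⊓ A := by
    intro t ht
    have ht1 := (Subgroup.mem_inf.mp ht).1
    exact Subgroup.mem_inf.mpr ⟨ht1, hb t (hTexp t ht1) (cent_of_index_p t A H hHA hAH
      (hTH t ht1) ha₀A ha₀H
      (Subgroup.mem_centralizer_singleton_iff.mp (Subgroup.mem_inf.mp ht).2))⟩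
  have hT1 := (card_le_card_mul_card_inf_centralizer (E₀ ⊔ MulAut.conj g • E₀) H a₀
    (fun s _ => hd3 s a₀ ha₀A)).trans (Nat.mul_le_mul_left _ (Subgroup.card_le_of_le hTa))
  rw [hHc] at hT1
  have hprod := Cfsg.Agent.Helper50.card_mul_card_eq_card_mulSet E₀ (MulAut.conj g • E₀)
  have hcoe : ((E₀ ⊔ MulAut.conj g • E₀ : Subgroup G) : Set G) =
      (E₀ : Set G) * ((MulAut.conj g • E₀ : Subgroup G) : Set G) :=
    Subgroup.coe_mul_of_right_le_normalizer_left E₀ _ hE'N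
  rw [← hcoe, hE₀4, hE'4] at hprod
  have hprod' : p ^ 4 * p ^ 4 = Nat.card (E₀ ⊔ MulAut.conj g • E₀ : Subgroup G) *
      Nat.card (E₀ ⊓ MulAut.conj g • E₀ : Subgroup G) := hprod
  have hI3 : Nat.card (E₀ ⊓ MulAut.conj g • E₀ : Subgroup G) ≤ p ^ 3 := by
    apply card_le_of_ne hG (inf_le_left : E₀ ⊓ MulAut.conj g • E₀ ≤ E₀) _ 3 hE₀4
    intro heq
    have hle : E₀ ≤ MulAut.conj g • E₀ := by
      intro x hx
      have hx' : x ∈ E₀ ⊓ MulAut.conj g • E₀ := by rw [heq]; exact hx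
      exact (Subgroup.mem_inf.mp hx').2
    exact hE'ne (Subgroup.eq_of_le_of_card_ge hle (by rw [hE'4, hE₀4])).symm
  have hTA3 : Nat.card ((E₀ ⊔ MulAut.conj g • E₀) ⊓ A : Subgroup G) ≤ p ^ 3 := by
    rw [← ha3]; exact Subgroup.card_le_of_le inf_le_right
  -- `A ≤ T`
  have hAT : A ≤ E₀ ⊔ MulAut.conj g • E₀ := by
    have h1 : p ^ 3 ≤ Nat.card ((E₀ ⊔ MulAut.conj g • E₀) ⊓ A : Subgroup G) := by
      have h2 : p ^ 4 * p ^ 4 ≤ p ^ 2 *
          Nat.card ((E₀ ⊔ MulAut.conj g • E₀) ⊓ A : Subgroup G) * p ^ 3 := by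
        rw [hprod']
        exact Nat.mul_le_mul hT1 hI3
      have e : p ^ 4 * p ^ 4 = p ^ 2 * p ^ 3 * p ^ 3 := by ring
      rw [e] at h2
      have h3 := Nat.le_of_mul_le_mul_right h2 (pow_pos hpp.pos 3)
      exact Nat.le_of_mul_le_mul_left h3 (pow_pos hpp.pos 2)
    have h4 : (E₀ ⊔ MulAut.conj g • E₀) ⊓ A = A :=
      Subgroup.eq_of_le_of_card_ge inf_le_right (by rw [ha3]; exact h1)
    rw [← h4]; exact inf_le_left
  -- an element `e₁` of `E₀ ∩ E'` outside `H`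
  obtain ⟨e₁, he₁, he₁H⟩ : ∃ e₁ ∈ E₀ ⊓ MulAut.conj g • E₀, e₁ ∉ H := by
    by_contra hcon
    push Not at hcon
    have h1 : Nat.card (E₀ ⊓ MulAut.conj g • E₀ : Subgroup G) ≤ p ^ 2 := by
      rw [← hHc]; exact Subgroup.card_le_of_le hcon
    have h2 : p ^ 4 * p ^ 4 ≤ p ^ 2 * p ^ 3 * p ^ 2 := by
      rw [hprod']
      exact Nat.mul_le_mul (hT1.trans (Nat.mul_le_mul_left _ hTA3)) h1
    have e : p ^ 4 * p ^ 4 = p ^ 2 * p ^ 3 * p ^ 2 * p := by ring
    rw [e] at h2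
    have h3 : p ^ 2 * p ^ 3 * p ^ 2 * 1 < p ^ 2 * p ^ 3 * p ^ 2 * p :=
      Nat.mul_lt_mul_of_pos_left hp1 (by positivity)
    omega
  obtain ⟨e, he, e', he', ha₀e⟩ := hTmem a₀ (hAT ha₀A)
  have he₁0 := (Subgroup.mem_inf.mp he₁).1
  have he₁' := (Subgroup.mem_inf.mp he₁).2
  have hcomm : e₁ * a₀ = a₀ * e₁ := by
    rw [ha₀e, ← mul_assoc, hE₀c e₁ he₁0 e he, mul_assoc, hE'c e₁ he₁' e' he', ← mul_assoc]
  have he₁A : e₁ ∈ A := hb e₁ (hE₀.2 e₁ he₁0)
    (cent_of_index_p e₁ A H hHA hAH (hP₀c e₁ he₁0) ha₀A ha₀H hcomm)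
  have hfin : e₁ ∈ E₀ ⊓ A := Subgroup.mem_inf.mpr ⟨he₁0, he₁A⟩
  rw [hP₀] at hfin
  exact he₁H hfin

/-- For odd p, a p-group containing an elementary abelian subgroup of order p^4 has a normal elementary abelian subgroup of order p^4. -/
theorem result {G : Type*} [Group G] [Finite G] {p : ℕ} [Fact p.Prime] (hp : p ≠ 2) (hG : IsPGroup p G) (E : Subgroup G) (hE : Cfsg.IsElementaryAbelian p E) (hE4 : Nat.card E = p ^ 4) : ∃ A : Subgroup G, A.Normal ∧ Cfsg.IsElementaryAbelian p A ∧ Nat.card A = p ^ 4 := by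
  have hpp : p.Prime := Fact.out
  have hp1 : 1 < p := hpp.one_lt
  obtain ⟨A, ⟨hAn, hA⟩, hmax⟩ := Set.exists_max_image
    {A : Subgroup G | A.Normal ∧ Cfsg.IsElementaryAbelian p A}
    (fun A => Nat.card A) (Set.toFinite _)
    ⟨⊥, inferInstance, Cfsg.Agent.Helper22.isElementaryAbelian_of_le hE bot_le⟩
  have := hAn
  have hmax' : ∀ B : Subgroup G, B.Normal → Cfsg.IsElementaryAbelian p B →
      Nat.card B ≤ Nat.card A := fun B hBn hB => hmax B ⟨hBn, hB⟩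
  obtain ⟨a, ha⟩ := IsPGroup.iff_card.mp (hG.to_subgroup A)
  have ha3 : 3 ≤ a := by
    by_contra hlt
    push Not at hlt
    have h := Cfsg.Agent.S0100.result hp hG (fun B hBn hBc hBe hB3 => by
      have := hmax' B hBn ⟨hBc, hBe⟩
      rw [hB3, ha] at this
      have h2 : p ^ a < p ^ 3 := Nat.pow_lt_pow_right hp1 hlt
      omega) E hE.1 hE.2
    rw [hE4] at h
    exact absurd h (not_le.mpr (Nat.pow_lt_pow_right hp1 (by norm_num)))
  rcases Nat.lt_or_ge a 4 with h4 | h4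
  · exfalso
    have ha' : a = 3 := by omega
    rw [ha'] at ha
    exact no_max_cube hp hG E hE hE4 A hA ha hmax'
  · obtain ⟨K, hKn, hKA, hKc⟩ := exists_normal_le_card hG A a ha 4 h4
    exact ⟨K, hKn, Cfsg.Agent.Helper22.isElementaryAbelian_of_le hA hKA, hKc⟩

end Cfsg.Agent.S0122
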