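import Cfsg.Statements.S0124
import Cfsg.Agent.Helper64.RegularClass

set_option autoImplicit false
open Cfsg

namespace Cfsg.Agent.S0124
open Cfsg.Agent.Helper64

/-- For p > 3, in a p-group of class at most three the elements of order dividing p generate a subgroup of exponent dividing p. -/
theorem result {R : Type*} [Group R] [Finite R] {p : ℕ} [Fact p.Prime] (hp : 3 < p) (hR : IsPGroup p R) (hcl : ⁅⁅commutator R, (⊤ : Subgroup R)⁆, (⊤ : Subgroup R)⁆ = ⊥) (g : R) (hg : g ∈ Subgroup.closure {x : R | x ^ p = 1}) : g ^ p = 1 := by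
  have hp := (Fact.out : p.Prime)
  have hcl' : (⊤ : Subgroup R).lowerCentralSeries (p - 1) = ⊥ := by
    rw [eq_bot_iff]
    have h3 : (⊤ : Subgroup R).lowerCentralSeries 3 = ⊥ := hcl
    rw [← h3]
    exact (⊤ : Subgroup R).lowerCentralSeries_antitone (by omega)
  induction hg using Subgroup.closure_induction with
  | mem x hx => exact hx
  | one => exact one_pow p
  | mul x y _ _ hx hy =>
    have h := mul_pow_eq_one_of_lcs_eq_bot hR hcl' 1 x y (by simpa using hx) (by simpa using hy)
    simpa using h
  | inv x _ hx => rw [inv_pow, hx, inv_one]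

end Cfsg.Agent.S0124
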