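import Mathlib
import Cfsg.Statements.S0130

set_option autoImplicit false
open Cfsg

namespace Cfsg.Agent.S0130

open scoped commutatorElement

/-- If `c = ⁅b, a⁆` commutes with `a` and `b` then `b ^ k * a = a * b ^ k * c ^ k`. -/
theorem pow_mul_class_two {G : Type*} [Group G] (a b : G) (hca : Commute ⁅b, a⁆ a)
    (hcb : Commute ⁅b, a⁆ b) (k : ℕ) : b ^ k * a = a * b ^ k * ⁅b, a⁆ ^ k := by
  induction k with
  | zero => simp
  | succ k ih =>
    have hba : b * a = a * b * ⁅b, a⁆ := by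
      have h0 : b * a = ⁅b, a⁆ * a * b := by rw [commutatorElement_def]; group
      rw [h0, hca.eq, mul_assoc, hcb.eq, mul_assoc]
    have hck : ⁅b, a⁆ * b ^ k = b ^ k * ⁅b, a⁆ := (hcb.pow_right k).eq
    calc b ^ (k + 1) * a = b * (b ^ k * a) := by rw [pow_succ']; simp only [mul_assoc]
      _ = b * (a * b ^ k * ⁅b, a⁆ ^ k) := by rw [ih]
      _ = (b * a) * b ^ k * ⁅b, a⁆ ^ k := by simp only [mul_assoc]
      _ = (a * b * ⁅b, a⁆) * b ^ k * ⁅b, a⁆ ^ k := by rw [hba]
      _ = a * b * (⁅b, a⁆ * b ^ k) * ⁅b, a⁆ ^ k := by simp only [mul_assoc]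
      _ = a * b * (b ^ k * ⁅b, a⁆) * ⁅b, a⁆ ^ k := by rw [hck]
      _ = a * (b * b ^ k) * (⁅b, a⁆ * ⁅b, a⁆ ^ k) := by simp only [mul_assoc]
      _ = a * b ^ (k + 1) * ⁅b, a⁆ ^ (k + 1) := by rw [← pow_succ', ← pow_succ']

/-- The power formula in class two. -/
theorem mul_pow_class_two {G : Type*} [Group G] (a b : G) (hca : Commute ⁅b, a⁆ a)
    (hcb : Commute ⁅b, a⁆ b) (n : ℕ) :
    (a * b) ^ n = a ^ n * b ^ n * ⁅b, a⁆ ^ (n.choose 2) := by
  induction n with
  | zero => simp
  | succ n ih =>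
    have h1 := pow_mul_class_two a b hca hcb n
    have hc1 : ⁅b, a⁆ ^ (n.choose 2) * a = a * ⁅b, a⁆ ^ (n.choose 2) := (hca.pow_left _).eq
    have hc2 : ⁅b, a⁆ ^ (n.choose 2) * b = b * ⁅b, a⁆ ^ (n.choose 2) := (hcb.pow_left _).eq
    have hc3 : ⁅b, a⁆ ^ n * b = b * ⁅b, a⁆ ^ n := (hcb.pow_left _).eq
    have hch : (n + 1).choose 2 = n + n.choose 2 := by
      rw [Nat.choose_succ_succ, Nat.choose_one_right]
    calc (a * b) ^ (n + 1) = (a * b) ^ n * (a * b) := pow_succ _ _
      _ = a ^ n * b ^ n * ⁅b, a⁆ ^ (n.choose 2) * (a * b) := by rw [ih]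
      _ = a ^ n * b ^ n * (⁅b, a⁆ ^ (n.choose 2) * a) * b := by simp only [mul_assoc]
      _ = a ^ n * b ^ n * (a * ⁅b, a⁆ ^ (n.choose 2)) * b := by rw [hc1]
      _ = a ^ n * (b ^ n * a) * (⁅b, a⁆ ^ (n.choose 2) * b) := by simp only [mul_assoc]
      _ = a ^ n * (a * b ^ n * ⁅b, a⁆ ^ n) * (b * ⁅b, a⁆ ^ (n.choose 2)) := by rw [h1, hc2]
      _ = a ^ n * a * b ^ n * (⁅b, a⁆ ^ n * b) * ⁅b, a⁆ ^ (n.choose 2) := by simp only [mul_assoc]
      _ = a ^ n * a * b ^ n * (b * ⁅b, a⁆ ^ n) * ⁅b, a⁆ ^ (n.choose 2) := by rw [hc3]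
      _ = (a ^ n * a) * (b ^ n * b) * (⁅b, a⁆ ^ n * ⁅b, a⁆ ^ (n.choose 2)) := by simp only [mul_assoc]
      _ = a ^ (n + 1) * b ^ (n + 1) * ⁅b, a⁆ ^ ((n + 1).choose 2) := by
          rw [← pow_succ, ← pow_succ, ← pow_add, hch]

/-- The key computation: `u = y * v` with `u ^ q = v ^ q = 1` and `⁅y, v⁆ ∈ A` central. -/
theorem key_lemma {G : Type*} [Group G] (A : Subgroup G) (q : ℕ)
    (hq : q ∣ q.choose 2 ∨ ∃ m, q = 4 * m ∧ q.choose 2 = 2 * m + q * (2 * m - 1))
    (hAe : ∀ a ∈ A, a ^ q = 1)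
    (u v : G) (hu : u ^ q = 1) (hv : v ^ q = 1)
    (hcA : ⁅u * v⁻¹, v⁆ ∈ A)
    (hAy : ∀ a ∈ A, Commute a (u * v⁻¹)) (hAv : ∀ a ∈ A, Commute a v)
    (h2 : (u ^ 2 * (v ^ 2)⁻¹) ^ q = 1 → u ^ 2 * (v ^ 2)⁻¹ ∈ A) :
    (u * v⁻¹) ^ q = 1 := by
  obtain ⟨y, hy⟩ : ∃ y, y = u * v⁻¹ := ⟨_, rfl⟩
  rw [← hy] at hcA hAy ⊢
  have huy : u = y * v := by rw [hy]; group
  obtain ⟨c, hc⟩ : ∃ c, c = ⁅y, v⁆ := ⟨_, rfl⟩
  rw [← hc] at hcA
  have hcy : Commute c y := hAy c hcA
  have hcv : Commute c v := hAv c hcA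
  have hc' : ⁅v, y⁆ = c⁻¹ := by rw [hc, commutatorElement_inv]
  have hform : ∀ n : ℕ, (y * v) ^ n = y ^ n * v ^ n * (c⁻¹) ^ (n.choose 2) := by
    intro n
    have := mul_pow_class_two y v (by rw [hc']; exact hcy.inv_left) (by rw [hc']; exact hcv.inv_left) n
    rw [hc'] at this
    exact this
  have hyq : y ^ q = c ^ (q.choose 2) := by
    have h1 := hform q
    rw [← huy, hu, hv, mul_one, inv_pow] at h1
    exact (eq_mul_inv_iff_mul_eq.mp h1).symm ▸ (by simp)
  have hcq : c ^ q = 1 := hAe c hcA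
  rcases hq with hq | ⟨m, hqm, hch⟩
  · obtain ⟨k, hk⟩ := hq
    rw [hyq, hk, pow_mul, hcq, one_pow]
  · have hyq' : y ^ q = c ^ (2 * m) := by
      have h0 : c ^ (q * (2 * m - 1)) = 1 := by rw [pow_mul, hcq, one_pow]
      rw [hyq, hch, pow_add, h0, mul_one]
    have hu2 : u ^ 2 * (v ^ 2)⁻¹ = y ^ 2 * c⁻¹ := by
      have h1 := hform 2
      rw [← huy] at h1
      rw [h1]
      simp only [Nat.choose_self, pow_one]
      have : c⁻¹ * (v ^ 2)⁻¹ = (v ^ 2)⁻¹ * c⁻¹ := ((hcv.pow_right 2).inv_left.inv_right).eq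
      rw [mul_assoc, this]; group
    have hyc : Commute (y ^ 2) c⁻¹ := ((hcy.pow_right 2).inv_left).symm
    have hy2q : (u ^ 2 * (v ^ 2)⁻¹) ^ q = 1 := by
      have e : 2 * m * 2 = q := by omega
      rw [hu2, hyc.mul_pow, inv_pow, hcq, inv_one, mul_one, ← pow_mul, mul_comm, pow_mul, hyq',
        ← pow_mul, e, hcq]
    have hy2A : y ^ 2 * c⁻¹ ∈ A := by rw [← hu2]; exact h2 hy2q
    have hy2A' : y ^ 2 ∈ A := by
      have := A.mul_mem hy2A hcA
      simpa using this
    have hc2 : c ^ 2 = 1 := by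
      have h3 : y ^ 2 * v = v * y ^ 2 := (hAv _ hy2A').eq
      have hyv : y * v = c * v * y := by rw [hc, commutatorElement_def]; group
      have h4 : y ^ 2 * v = c ^ 2 * (v * y ^ 2) := by
        calc y ^ 2 * v = y * (y * v) := by rw [pow_two, mul_assoc]
          _ = y * (c * v * y) := by rw [hyv]
          _ = y * c * (v * y) := by simp only [mul_assoc]
          _ = c * y * (v * y) := by rw [hcy.eq]
          _ = c * (y * v) * y := by simp only [mul_assoc]
          _ = c * (c * v * y) * y := by rw [hyv]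
          _ = c ^ 2 * (v * y ^ 2) := by rw [pow_two, pow_two]; simp only [mul_assoc]
      rw [h3] at h4
      exact (mul_eq_right.mp h4.symm)
    rw [hyq', pow_mul, hc2, one_pow]

/-- Alperin: a maximal normal abelian subgroup of exponent dividing `p ^ n ≠ 2` of a finite `p`-group
contains every element of order dividing `p ^ n` of its centralizer. -/
theorem result {G : Type*} [Group G] [Finite G] {p : ℕ} [Fact p.Prime] (hG : IsPGroup p G) (n : ℕ) (hn : p ^ n ≠ 2) (A : Subgroup G) [A.Normal] (hA : IsMulCommutative A) (hAe : ∀ a ∈ A, a ^ p ^ n = 1) (hmax : ∀ B : Subgroup G, B.Normal → IsMulCommutative B → (∀ b ∈ B, b ^ p ^ n = 1) → A ≤ B → B = A) (x : G) (hx : x ∈ Subgroup.centralizer (A : Set G)) (hxn : x ^ p ^ n = 1) : x ∈ A := by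
  classical
  have hp : p.Prime := Fact.out
  have hAn : A.Normal := inferInstance
  rcases Nat.eq_zero_or_pos n with hn0 | hnpos
  · subst hn0
    simp at hxn
    rw [hxn]; exact A.one_mem
  have harith : (p ^ n) ∣ (p ^ n).choose 2 ∨
      ∃ m, p ^ n = 4 * m ∧ (p ^ n).choose 2 = 2 * m + p ^ n * (2 * m - 1) := by
    by_cases hp2 : p = 2
    · right
      subst hp2
      have hn2 : 2 ≤ n := by
        by_contra h
        have h1 : n = 1 := by omega
        subst h1
        exact hn (by norm_num)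
      obtain ⟨j, rfl⟩ : ∃ j, n = j + 2 := ⟨n - 2, by omega⟩
      refine ⟨2 ^ j, by rw [pow_add]; ring, ?_⟩
      rw [Nat.choose_two_right]
      have h4 : 2 ^ (j + 2) = 4 * 2 ^ j := by rw [pow_add]; ring
      obtain ⟨t, ht⟩ : ∃ t, 2 ^ j = t + 1 := ⟨2 ^ j - 1, by have := Nat.one_le_two_pow (n := j); omega⟩
      rw [h4, ht]
      have e1 : 4 * (t + 1) - 1 = 4 * t + 3 := by omega
      have e2 : 2 * (t + 1) - 1 = 2 * t + 1 := by omega
      rw [e1, e2]
      apply Nat.div_eq_of_eq_mul_right (by norm_num)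
      ring
    · left
      have hodd : Odd (p ^ n) := (hp.odd_of_ne_two hp2).pow
      obtain ⟨k, hk⟩ := hodd
      rw [Nat.choose_two_right, hk]
      refine ⟨k, ?_⟩
      apply Nat.div_eq_of_eq_mul_right (by norm_num)
      have : 2 * k + 1 - 1 = 2 * k := by omega
      rw [this]; ring
  obtain ⟨q, hq⟩ : ∃ q, q = p ^ n := ⟨_, rfl⟩
  rw [← hq] at hAe hmax hxn harith
  -- the centralizer is normalized by G
  have hCn : ∀ z ∈ Subgroup.centralizer (A : Set G), ∀ g : G,
      g * z * g⁻¹ ∈ Subgroup.centralizer (A : Set G) := by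
    intro z hz g
    rw [Subgroup.mem_centralizer_iff] at hz ⊢
    intro a ha
    have h1 := hz (g⁻¹ * a * g) (by
      have := hAn.conj_mem a ha g⁻¹
      simpa using this)
    have h2 : a * (g * z * g⁻¹) = g * (g⁻¹ * a * g * z) * g⁻¹ := by group
    rw [h2, h1]; group
  have hAC : ∀ z ∈ Subgroup.centralizer (A : Set G), ∀ a ∈ A, Commute a z := by
    intro z hz a ha
    exact (Subgroup.mem_centralizer_iff.mp hz a ha)
  have hnil : Group.IsNilpotent G := hG.isNilpotent
  obtain ⟨m, hm⟩ := Subgroup.nilpotent_iff_lowerCentralSeries.mp hnil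
  -- the two statements, by downward induction
  have hstep : ∀ k : ℕ,
      ((∀ z ∈ Subgroup.centralizer (A : Set G), z ^ q = 1 →
          ∀ g ∈ (⊤ : Subgroup G).lowerCentralSeries (k + 1), ⁅g, z⁆ ∈ A) ∧
        (∀ z ∈ Subgroup.centralizer (A : Set G), z ^ q = 1 →
          z ∈ (⊤ : Subgroup G).lowerCentralSeries (k + 1) → z ∈ A)) →
      ((∀ z ∈ Subgroup.centralizer (A : Set G), z ^ q = 1 →
          ∀ g ∈ (⊤ : Subgroup G).lowerCentralSeries k, ⁅g, z⁆ ∈ A) ∧
        (∀ z ∈ Subgroup.centralizer (A : Set G), z ^ q = 1 →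
          z ∈ (⊤ : Subgroup G).lowerCentralSeries k → z ∈ A)) := by
    rintro k ⟨hS, hT⟩
    have hcomm_mem : ∀ g ∈ (⊤ : Subgroup G).lowerCentralSeries k, ∀ z : G,
        ⁅g, z⁆ ∈ (⊤ : Subgroup G).lowerCentralSeries (k + 1) := by
      intro g hg z
      exact Subgroup.commutator_mem_commutator hg (Subgroup.mem_top z)
    -- general consequence of the key lemma
    have hkey : ∀ u v : G, u ∈ Subgroup.centralizer (A : Set G) →
        v ∈ Subgroup.centralizer (A : Set G) → u ^ q = 1 → v ^ q = 1 →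
        u * v⁻¹ ∈ (⊤ : Subgroup G).lowerCentralSeries (k + 1) →
        u ^ 2 * (v ^ 2)⁻¹ ∈ (⊤ : Subgroup G).lowerCentralSeries (k + 1) →
        u * v⁻¹ ∈ A := by
      intro u v huC hvC hu hv hy hy2
      have hyC : u * v⁻¹ ∈ Subgroup.centralizer (A : Set G) :=
        Subgroup.mul_mem _ huC (Subgroup.inv_mem _ hvC)
      have hy2C : u ^ 2 * (v ^ 2)⁻¹ ∈ Subgroup.centralizer (A : Set G) :=
        Subgroup.mul_mem _ (Subgroup.pow_mem _ huC 2) (Subgroup.inv_mem _ (Subgroup.pow_mem _ hvC 2))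
      have h1 : (u * v⁻¹) ^ q = 1 :=
        key_lemma A q harith hAe u v hu hv (hS v hvC hv _ hy) (hAC _ hyC) (hAC _ hvC)
          (fun h => hT _ hy2C h hy2)
      exact hT _ hyC h1 hy
    constructor
    · intro z hz hzq g hg
      have h1 : ⁅g, z⁆ = (g * z * g⁻¹) * z⁻¹ := by rw [commutatorElement_def]
      rw [h1]
      apply hkey _ _ (hCn z hz g) hz (by rw [conj_pow, hzq]; group) hzq
      · rw [← h1]; exact hcomm_mem g hg z
      · have h2 : (g * z * g⁻¹) ^ 2 * (z ^ 2)⁻¹ = ⁅g, z ^ 2⁆ := by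
          rw [conj_pow, commutatorElement_def]
        rw [h2]; exact hcomm_mem g hg _
    · intro z hz hzq hzk
      have hall : ∀ g : G, ⁅z, g⁆ ∈ A := by
        intro g
        have h1 : ⁅z, g⁆ = z * (g * z * g⁻¹)⁻¹ := by rw [commutatorElement_def]; group
        rw [h1]
        apply hkey _ _ hz (hCn z hz g) hzq (by rw [conj_pow, hzq]; group)
        · rw [← h1]; exact hcomm_mem z hzk g
        · have h2 : z ^ 2 * ((g * z * g⁻¹) ^ 2)⁻¹ = ⁅z ^ 2, g⁆ := by
            rw [conj_pow, commutatorElement_def]; group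
          rw [h2]
          exact hcomm_mem _ (Subgroup.pow_mem _ hzk 2) g
      -- B = A ⊔ ⟨z⟩
      have hzB : z ∈ A ⊔ Subgroup.zpowers z := Subgroup.mem_sup_right (Subgroup.mem_zpowers z)
      have h1 : A ⊔ Subgroup.zpowers z ≤ Subgroup.centralizer (A : Set G) := by
        refine sup_le ?_ ?_
        · intro a ha
          rw [Subgroup.mem_centralizer_iff]
          intro a' ha'
          have := mul_comm' (⟨a', ha'⟩ : ↥A) ⟨a, ha⟩
          exact congrArg Subtype.val this
        · rw [Subgroup.zpowers_le]; exact hz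
      have h2 : A ⊔ Subgroup.zpowers z ≤ Subgroup.centralizer ({z} : Set G) := by
        refine sup_le ?_ ?_
        · intro a ha
          rw [Subgroup.mem_centralizer_iff]
          intro w hw
          rw [Set.mem_singleton_iff] at hw
          subst hw
          exact ((hAC w hz a ha).eq).symm
        · rw [Subgroup.zpowers_le, Subgroup.mem_centralizer_iff]
          intro w hw
          rw [Set.mem_singleton_iff] at hw
          subst hw; rfl
      have hBcomm : ∀ b ∈ A ⊔ Subgroup.zpowers z, ∀ b' ∈ A ⊔ Subgroup.zpowers z,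
          b * b' = b' * b := by
        intro b hb b' hb'
        have h3 : A ⊔ Subgroup.zpowers z ≤ Subgroup.centralizer ({b} : Set G) := by
          refine sup_le ?_ ?_
          · intro a ha
            rw [Subgroup.mem_centralizer_iff]
            intro w hw
            rw [Set.mem_singleton_iff] at hw
            subst hw
            exact ((Subgroup.mem_centralizer_iff.mp (h1 hb) a ha)).symm
          · rw [Subgroup.zpowers_le, Subgroup.mem_centralizer_iff]
            intro w hw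
            rw [Set.mem_singleton_iff] at hw
            subst hw
            exact ((Subgroup.mem_centralizer_iff.mp (h2 hb) z rfl)).symm
        exact Subgroup.mem_centralizer_iff.mp (h3 hb') b rfl
      have hBA : A ⊔ Subgroup.zpowers z = A := by
        apply hmax
        · refine ⟨fun b hb g => ?_⟩
          have hle : A ⊔ Subgroup.zpowers z ≤
              (A ⊔ Subgroup.zpowers z).comap (MulAut.conj g).toMonoidHom := by
            refine sup_le ?_ ?_
            · intro a ha
              exact Subgroup.mem_sup_left (hAn.conj_mem a ha g)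
            · rw [Subgroup.zpowers_le]
              show g * z * g⁻¹ ∈ A ⊔ Subgroup.zpowers z
              have h1 : g * z * g⁻¹ = (⁅z, g⁆)⁻¹ * z := by rw [commutatorElement_def]; group
              rw [h1]
              exact Subgroup.mul_mem _ (Subgroup.mem_sup_left (A.inv_mem (hall g))) hzB
          exact hle hb
        · refine ⟨⟨fun b b' => ?_⟩⟩
          apply Subtype.ext
          exact hBcomm b b.2 b' b'.2
        · -- exponent
          let E : Subgroup G :=
            { carrier := {b | b ∈ A ⊔ Subgroup.zpowers z ∧ b ^ q = 1}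
              mul_mem' := by
                rintro b b' ⟨hb, hbq⟩ ⟨hb', hbq'⟩
                refine ⟨Subgroup.mul_mem _ hb hb', ?_⟩
                have hc : Commute b b' := hBcomm b hb b' hb'
                rw [hc.mul_pow, hbq, hbq', one_mul]
              one_mem' := ⟨Subgroup.one_mem _, one_pow _⟩
              inv_mem' := by
                rintro b ⟨hb, hbq⟩
                exact ⟨Subgroup.inv_mem _ hb, by rw [inv_pow, hbq, inv_one]⟩ }
          have hE : A ⊔ Subgroup.zpowers z ≤ E := by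
            refine sup_le ?_ ?_
            · intro a ha
              exact ⟨Subgroup.mem_sup_left ha, hAe a ha⟩
            · rw [Subgroup.zpowers_le]
              exact ⟨hzB, hzq⟩
          intro b hb
          exact (hE hb).2
        · exact le_sup_left
      rw [← hBA]; exact hzB
  have hall : ∀ j : ℕ, j ≤ m →
      ((∀ z ∈ Subgroup.centralizer (A : Set G), z ^ q = 1 →
          ∀ g ∈ (⊤ : Subgroup G).lowerCentralSeries (m - j), ⁅g, z⁆ ∈ A) ∧
        (∀ z ∈ Subgroup.centralizer (A : Set G), z ^ q = 1 →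
          z ∈ (⊤ : Subgroup G).lowerCentralSeries (m - j) → z ∈ A)) := by
    intro j
    induction j with
    | zero =>
      intro _
      rw [Nat.sub_zero, hm]
      constructor
      · intro z hz hzq g hg
        rw [Subgroup.mem_bot] at hg
        subst hg
        rw [commutatorElement_def]; simp
      · intro z hz hzq hzb
        rw [Subgroup.mem_bot] at hzb
        subst hzb; exact A.one_mem
    | succ j ih =>
      intro hj
      have h1 : m - j = (m - (j + 1)) + 1 := by omega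
      have h2 := ih (by omega)
      rw [h1] at h2
      exact hstep _ h2
  have hfin := (hall m le_rfl).2 x hx hxn
  rw [Nat.sub_self] at hfin
  exact hfin (Subgroup.mem_top x)

end Cfsg.Agent.S0130
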