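import Mathlib
import Cfsg.Statements.S0131

set_option autoImplicit false
open Cfsg

namespace Cfsg.Agent.S0131

open scoped commutatorElement

theorem forward {G : Type*} [Group G] (P N : Subgroup G) [hN : N.Normal]
    (h1 : N ⊓ P = ⁅P, P⁆) (h2 : N ⊔ P = ⊤) : commutator G ⊓ P = ⁅P, P⁆ := by
  have hle : commutator G ≤ N := by
    rw [commutator_def, Subgroup.commutator_le]
    intro x _ y _
    obtain ⟨n1, hn1, p1, hp1, rfl⟩ := Subgroup.mem_sup_of_normal_left.mp (h2 ▸ Subgroup.mem_top x)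
    obtain ⟨n2, hn2, p2, hp2, rfl⟩ := Subgroup.mem_sup_of_normal_left.mp (h2 ▸ Subgroup.mem_top y)
    have hmk : ∀ g : G, QuotientGroup.mk' N g = 1 ↔ g ∈ N := fun g => by
      rw [QuotientGroup.mk'_apply, QuotientGroup.eq_one_iff]
    rw [← hmk, map_commutatorElement, map_mul, map_mul, (hmk n1).mpr hn1, (hmk n2).mpr hn2,
      one_mul, one_mul, ← map_commutatorElement, hmk]
    have : ⁅p1, p2⁆ ∈ N ⊓ P := by rw [h1]; exact Subgroup.commutator_mem_commutator hp1 hp2
    exact this.1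
  apply le_antisymm
  · rw [← h1]; exact inf_le_inf_right _ hle
  · apply le_inf
    · rw [commutator_def]; exact Subgroup.commutator_mono le_top le_top
    · rw [← h1]; exact inf_le_right

theorem backward {G : Type*} [Group G] [Finite G] {p : ℕ} [Fact p.Prime] (P : Sylow p G)
    (h : commutator G ⊓ (P : Subgroup G) = ⁅(P : Subgroup G), (P : Subgroup G)⁆) :
    ∃ N : Subgroup G, N.Normal ∧ N ⊓ (P : Subgroup G) = ⁅(P : Subgroup G), (P : Subgroup G)⁆ ∧
      N ⊔ (P : Subgroup G) = ⊤ := by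
  have hpp : p.Prime := Fact.out
  obtain ⟨π, hπ⟩ : ∃ π : G →* Abelianization G, π = Abelianization.of := ⟨_, rfl⟩
  have hπs : Function.Surjective π := by rw [hπ]; exact QuotientGroup.mk_surjective
  have hker : π.ker = commutator G := by rw [hπ]; exact Abelianization.ker_of G
  obtain ⟨Pb, hPb⟩ : ∃ Pb : Subgroup (Abelianization G), Pb = (P : Subgroup G).map π := ⟨_, rfl⟩
  obtain ⟨m, hm⟩ : ∃ m : ℕ, m = Pb.index := ⟨_, rfl⟩
  obtain ⟨q, hq⟩ : ∃ q : ℕ, q = Nat.card Pb := ⟨_, rfl⟩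
  have hPbp : IsPGroup p Pb := by rw [hPb]; exact P.isPGroup'.map π
  have hmp : ¬ p ∣ m := by
    intro hd
    apply P.not_dvd_index
    rw [hm, hPb] at hd
    exact dvd_trans hd (Subgroup.index_map_dvd _ hπs)
  have hcop : Nat.Coprime m q := by
    obtain ⟨k, hk⟩ := hPbp.exists_card_eq
    rw [hq, hk]
    exact Nat.Coprime.pow_right k ((Nat.Prime.coprime_iff_not_dvd hpp).mpr hmp).symm
  have hpowm : ∀ x : Abelianization G, x ^ m ∈ Pb := by
    intro x; rw [hm]; exact Subgroup.pow_index_mem Pb x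
  have hpowq : ∀ x ∈ Pb, x ^ q = 1 := by
    intro x hx
    have : (⟨x, hx⟩ : Pb) ^ Nat.card Pb = 1 := pow_card_eq_one'
    rw [hq]
    exact congrArg Subtype.val this
  obtain ⟨N, hN⟩ : ∃ N : Subgroup G, N = ((powMonoidHom m : Abelianization G →* Abelianization G).comp π).ker :=
    ⟨_, rfl⟩
  have hNmem : ∀ g : G, g ∈ N ↔ (π g) ^ m = 1 := by
    intro g; rw [hN, MonoidHom.mem_ker]; rfl
  refine ⟨N, by rw [hN]; infer_instance, ?_, ?_⟩
  · apply le_antisymm
    · intro x hx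
      obtain ⟨hxN, hxP⟩ := Subgroup.mem_inf.mp hx
      rw [← h]
      have h1 : (π x) ^ m = 1 := (hNmem x).mp hxN
      have h2 : (π x) ^ q = 1 := hpowq _ (by rw [hPb]; exact Subgroup.mem_map_of_mem π hxP)
      have h3 : orderOf (π x) ∣ Nat.gcd m q :=
        Nat.dvd_gcd (orderOf_dvd_of_pow_eq_one h1) (orderOf_dvd_of_pow_eq_one h2)
      rw [hcop.gcd_eq_one, Nat.dvd_one, orderOf_eq_one_iff] at h3
      have h4 : x ∈ π.ker := MonoidHom.mem_ker.mpr h3
      rw [hker] at h4
      exact Subgroup.mem_inf.mpr ⟨h4, hxP⟩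
    · apply le_inf
      · intro x hx
        rw [← h] at hx
        have : π x = 1 := by rw [← MonoidHom.mem_ker, hker]; exact hx.1
        rw [hNmem, this, one_pow]
      · rw [← h]; exact inf_le_right
  · rw [eq_top_iff]
    intro g _
    obtain ⟨a, b, hab⟩ := (Nat.isCoprime_iff_coprime.mpr hcop)
    have hgm : (π g) ^ m ∈ Pb := hpowm _
    have hgma : ((π g) ^ m) ^ a ∈ Pb := Pb.zpow_mem hgm a
    rw [hPb] at hgma
    obtain ⟨x, hxP, hx⟩ := hgma
    have hgN : g * x⁻¹ ∈ N := by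
      rw [hNmem, map_mul, map_inv, hx]
      have h1 : π g * (((π g) ^ m) ^ a)⁻¹ = (π g) ^ (b * (q : ℤ)) := by
        have e : b * (q : ℤ) = 1 - (m : ℤ) * a := by linarith
        rw [e, zpow_sub, zpow_one, zpow_mul, zpow_natCast]
      have e2 : b * (q : ℤ) * (m : ℤ) = (m : ℤ) * (q : ℤ) * b := by ring
      rw [h1, ← zpow_natCast, ← zpow_mul, e2, zpow_mul, zpow_mul, zpow_natCast, zpow_natCast,
        hpowq _ hgm, one_zpow]
    have : g = (g * x⁻¹) * x := by group
    rw [this]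
    exact Subgroup.mul_mem_sup hgN hxP

/-- P/P' has a normal complement in G exactly when the focal subgroup G' ∩ P is as small as possible, namely P'. -/
theorem result {G : Type*} [Group G] [Finite G] {p : ℕ} [Fact p.Prime] (P : Sylow p G) : (∃ N : Subgroup G, N.Normal ∧ N ⊓ (P : Subgroup G) = ⁅(P : Subgroup G), (P : Subgroup G)⁆ ∧ N ⊔ (P : Subgroup G) = ⊤) ↔ commutator G ⊓ (P : Subgroup G) = ⁅(P : Subgroup G), (P : Subgroup G)⁆ := by
  constructor
  · rintro ⟨N, hN, h1, h2⟩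
    exact forward (P : Subgroup G) N h1 h2
  · exact backward P

end Cfsg.Agent.S0131
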