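import Cfsg.Statements.S0132
import Cfsg.Agent.Helper70.FrobComp2
import Cfsg.Agent.Helper70.Ito

set_option autoImplicit false
open Cfsg

namespace Cfsg.Agent.S0132

open Cfsg.Agent.Helper70

/-- A minimal non-p-nilpotent finite group is a minimal non-nilpotent group with a normal Sylow p-subgroup. -/
theorem result {G : Type*} [Group G] [Finite G] {p : ℕ} [Fact p.Prime] (h1 : ¬ Cfsg.HasNormalPComplement p G) (h2 : ∀ H : Subgroup G, H ≠ ⊤ → Cfsg.HasNormalPComplement p H) : (∀ H : Subgroup G, H ≠ ⊤ → Group.IsNilpotent H) ∧ ¬ Group.IsNilpotent G ∧ ∀ P : Sylow p G, (P : Subgroup G).Normal := by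
  have h2' : ∀ H : Subgroup G, H ≠ ⊤ → HasNPC p H :=
    fun H hH => hasNormalPComplement_iff_hasNPC.mp (h2 H hH)
  rw [hasNormalPComplement_iff_frobCond] at h1
  unfold FrobCond at h1
  push Not at h1
  obtain ⟨Q, hQ, g, hg, hcop, hgC⟩ := h1
  have htop := sup_zpowers_eq_top_of_not_mem_centralizer h2' Q hQ g hg hcop hgC
  have hQn : Q.Normal := normal_of_sup_zpowers_eq_top Q g hg htop
  have hcomm := commutator_le_of_sup_zpowers_eq_top Q g htop
  have hidx : Q.index.Coprime p :=
    Nat.Coprime.coprime_dvd_left (index_dvd_orderOf_of_sup_zpowers_eq_top Q g htop) hcop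
  refine ⟨fun H hH => isNilpotent_of_hasNPC_of_commutator_le Q hQ hcomm H (h2' H hH), ?_, ?_⟩
  · intro hnil
    exact hgC ((frobCond_of_isNilpotent p) Q hQ g hg hcop)
  · intro P
    rw [sylow_eq_of_normal_of_coprime_index Q hQ hidx P]
    exact hQn

end Cfsg.Agent.S0132
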