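import Cfsg.Statements.S0136
import Cfsg.Agent.Helper80.CharOrtho

set_option autoImplicit false
open Cfsg

namespace Cfsg.Agent.S0136

/-- Two elements of a finite group are conjugate if and only if no irreducible complex character separates them. -/
theorem result {G : Type*} [Group G] [Finite G] (g h : G) : IsConj g h ↔ ∀ χ : Cfsg.IrrCharacter G, (χ : G → ℂ) g = (χ : G → ℂ) h := by
  constructor
  · intro hc χ
    obtain ⟨n, ρ, hρ, hχ⟩ := χ.2
    obtain ⟨x, hx⟩ := isConj_iff.mp hc
    rw [← hχ, ← hx]
    exact (Representation.char_conj ρ g x).symm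
  · intro hall
    by_contra hc
    have h1 := Cfsg.Agent.Helper80.irr_finsum_column_orthogonality_of_not_isConj hc
    have h2 := Cfsg.Agent.Helper80.irr_finsum_column_orthogonality_of_isConj (IsConj.refl g)
    have h3 : (∑ᶠ χ : Cfsg.IrrCharacter G, (χ : G → ℂ) g * (starRingEnd ℂ) ((χ : G → ℂ) h))
        = ∑ᶠ χ : Cfsg.IrrCharacter G, (χ : G → ℂ) g * (starRingEnd ℂ) ((χ : G → ℂ) g) := by
      apply finsum_congr
      intro χ
      rw [hall χ]
    rw [h3, h2] at h1
    have : (Nat.card (Subgroup.centralizer ({g} : Set G)) : ℂ) ≠ 0 := by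
      exact_mod_cast Nat.card_pos.ne'
    exact this h1

end Cfsg.Agent.S0136
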