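import Cfsg.Statements.S0137
import Cfsg.Agent.Helper3.Eigen

set_option autoImplicit false
open Cfsg

namespace Cfsg.Agent.S0137

/-- A character value of a finite group has absolute value at most the degree of the representation. -/
theorem result {G : Type*} [Group G] [Finite G] {V : Type*} [AddCommGroup V] [Module ℂ V] [FiniteDimensional ℂ V] (ρ : Representation ℂ G V) (g : G) : ‖ρ.character g‖ ≤ (Module.finrank ℂ V : ℝ) := by
  obtain ⟨b, ζ, h1, h2, h3⟩ := Cfsg.Agent.Helper3.rep_exists_eigenbasis ρ g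
  rw [h3]
  calc ‖∑ i, ζ i‖ ≤ ∑ i, ‖ζ i‖ := norm_sum_le _ _
    _ = ∑ i : Fin (Module.finrank ℂ V), (1 : ℝ) := by
        refine Finset.sum_congr rfl (fun i _ => ?_)
        exact Complex.norm_eq_one_of_pow_eq_one (h1 i) (orderOf_pos g).ne'
    _ = (Module.finrank ℂ V : ℝ) := by simp

end Cfsg.Agent.S0137
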