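import Cfsg.Statements.S0138
import Cfsg.Agent.Helper3.Eigen

set_option autoImplicit false
open Cfsg

namespace Cfsg.Agent.S0138

/-- A character value has absolute value equal to the degree exactly when the group element acts by a scalar. -/
theorem result {G : Type*} [Group G] [Finite G] {V : Type*} [AddCommGroup V] [Module ℂ V] [FiniteDimensional ℂ V] (ρ : Representation ℂ G V) (g : G) : ‖ρ.character g‖ = (Module.finrank ℂ V : ℝ) ↔ ∃ ω : ℂ, ρ g = ω • (LinearMap.id : V →ₗ[ℂ] V) := by
  obtain ⟨b, ζ, h1, h2, h3⟩ := Cfsg.Agent.Helper3.rep_exists_eigenbasis ρ g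
  have hζ : ∀ i, ‖ζ i‖ = 1 := fun i =>
    Complex.norm_eq_one_of_pow_eq_one (h1 i) (orderOf_pos g).ne'
  constructor
  · intro h
    have hsum : ‖∑ i, ζ i‖ = (Fintype.card (Fin (Module.finrank ℂ V)) : ℝ) := by
      rw [← h3, h]; simp
    obtain ⟨ω, hω⟩ := Cfsg.Agent.Helper3.exists_eq_of_norm_sum_eq_card ζ hζ hsum
    exact ⟨ω, Cfsg.Agent.Helper3.eq_smul_id_of_eigenbasis (ρ g) b ζ ω h2 hω⟩
  · rintro ⟨ω, hω⟩
    have hall : ∀ i, ζ i = ω := by
      intro i
      have e1 := h2 i
      rw [hω] at e1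
      simp only [LinearMap.smul_apply, LinearMap.id_coe, id_eq] at e1
      have e2 : (ω - ζ i) • b i = 0 := by rw [sub_smul, e1, sub_self]
      rcases smul_eq_zero.mp e2 with h | h
      · exact (sub_eq_zero.mp h).symm
      · exact absurd h (b.ne_zero i)
    rw [h3]
    rcases Nat.eq_zero_or_pos (Module.finrank ℂ V) with h0 | hpos
    · have : IsEmpty (Fin (Module.finrank ℂ V)) := by rw [h0]; infer_instance
      simp [h0]
    · have hω1 : ‖ω‖ = 1 := by rw [← hall ⟨0, hpos⟩]; exact hζ _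
      simp only [hall, Finset.sum_const, Finset.card_univ, Fintype.card_fin, nsmul_eq_mul,
        norm_mul, hω1, mul_one]
      simp

end Cfsg.Agent.S0138
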