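import Cfsg.Statements.S0139
import Cfsg.Agent.Helper3.Eigen

set_option autoImplicit false
open Cfsg

namespace Cfsg.Agent.S0139

/-- The kernel of a complex representation of a finite group is the set of elements where the character equals the degree. -/
theorem result {G : Type*} [Group G] [Finite G] {V : Type*} [AddCommGroup V] [Module ℂ V] [FiniteDimensional ℂ V] (ρ : Representation ℂ G V) (g : G) : ρ.character g = (Module.finrank ℂ V : ℂ) ↔ ρ g = LinearMap.id := by
  constructor
  · intro h
    obtain ⟨b, ζ, h1, h2, h3⟩ := Cfsg.Agent.Helper3.rep_exists_eigenbasis ρ g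
    have hζ : ∀ i, ‖ζ i‖ = 1 := fun i =>
      Complex.norm_eq_one_of_pow_eq_one (h1 i) (orderOf_pos g).ne'
    have hsum : ∑ i, ζ i = (Fintype.card (Fin (Module.finrank ℂ V)) : ℂ) := by
      rw [← h3, h]; simp
    have hall := Cfsg.Agent.Helper3.eq_one_of_sum_eq_card ζ hζ hsum
    have := Cfsg.Agent.Helper3.eq_smul_id_of_eigenbasis (ρ g) b ζ 1 h2 hall
    rw [this, one_smul]
  · intro h
    rw [Representation.character, h]
    exact LinearMap.trace_id ℂ V

end Cfsg.Agent.S0139
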