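import Cfsg.Statements.S0152
import Cfsg.Agent.Helper80.CharOrtho

set_option autoImplicit false
open Cfsg

namespace Cfsg.Agent.S0152

/-- A class function on a finite group is the sum over the irreducible characters χ of its inner product with χ times χ. -/
theorem result {G : Type*} [Group G] [Fintype G] (ψ : G → ℂ) (hψ : Cfsg.IsClassFunction G ψ) : ψ = ∑ᶠ χ : Cfsg.IrrCharacter G, Cfsg.classInner ψ χ • (χ : G → ℂ) := by
  classical
  have : Fintype (Cfsg.IrrCharacter G) := Fintype.ofFinite _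
  have hG : (Nat.card G : ℂ) ≠ 0 := by exact_mod_cast Nat.card_pos.ne'
  funext h
  rw [finsum_eq_sum_of_fintype, Finset.sum_apply]
  simp only [Pi.smul_apply, smul_eq_mul, Cfsg.classInner]
  have key : ∀ g : G, ∑ χ : Cfsg.IrrCharacter G, (χ : G → ℂ) h * (starRingEnd ℂ) ((χ : G → ℂ) g)
      = ((Finset.univ.filter (fun x : G => x * h * x⁻¹ = g)).card : ℂ) :=
    fun g => Cfsg.Agent.Helper80.irr_sum_mul_conj h g
  have e1 : ∑ χ : Cfsg.IrrCharacter G,
      ((Nat.card G : ℂ)⁻¹ * ∑ g : G, ψ g * (starRingEnd ℂ) ((χ : G → ℂ) g)) * (χ : G → ℂ) h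
      = (Nat.card G : ℂ)⁻¹ * ∑ g : G, ψ g *
          ∑ χ : Cfsg.IrrCharacter G, (χ : G → ℂ) h * (starRingEnd ℂ) ((χ : G → ℂ) g) := by
    simp only [Finset.mul_sum, Finset.sum_mul]
    rw [Finset.sum_comm]
    refine Finset.sum_congr rfl ?_
    intro g _
    refine Finset.sum_congr rfl ?_
    intro χ _
    ring
  rw [e1]
  simp only [key]
  have e2 : ∑ g : G, ψ g * ((Finset.univ.filter (fun x : G => x * h * x⁻¹ = g)).card : ℂ)
      = ∑ x : G, ψ (x * h * x⁻¹) := by
    have : ∀ g : G, ψ g * ((Finset.univ.filter (fun x : G => x * h * x⁻¹ = g)).card : ℂ)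
        = ∑ x : G, if x * h * x⁻¹ = g then ψ g else 0 := by
      intro g
      rw [← Finset.sum_filter, Finset.sum_const, nsmul_eq_mul, mul_comm]
    simp only [this]
    rw [Finset.sum_comm]
    refine Finset.sum_congr rfl ?_
    intro x _
    rw [Finset.sum_ite_eq]
    simp
  rw [e2]
  have e3 : ∑ x : G, ψ (x * h * x⁻¹) = (Nat.card G : ℂ) * ψ h := by
    simp only [hψ h]
    rw [Finset.sum_const, Finset.card_univ, nsmul_eq_mul, Nat.card_eq_fintype_card]
  rw [e3]
  field_simp

end Cfsg.Agent.S0152
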