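import Cfsg.Statements.S0154
import Cfsg.Agent.Helper79.Basic

set_option autoImplicit false
open Cfsg

namespace Cfsg.Agent.S0154

/-- A finite group has exactly as many irreducible complex characters of degree 1 as the index of its commutator subgroup. -/
theorem result {G : Type*} [Group G] [Finite G] : Nat.card {χ : Cfsg.IrrCharacter G // (χ : G → ℂ) 1 = 1} = (commutator G).index := by
  classical
  have e1 : Nat.card {χ : Cfsg.IrrCharacter G // (χ : G → ℂ) 1 = 1} = Nat.card (G →* ℂˣ) := by
    symm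
    refine Nat.card_congr (Equiv.ofBijective
      (fun f : G →* ℂˣ => (⟨⟨fun g => ((f g : ℂˣ) : ℂ), Cfsg.Agent.Helper79.isIrrCharacter_of_hom f⟩, by simp⟩ :
        {χ : Cfsg.IrrCharacter G // (χ : G → ℂ) 1 = 1})) ⟨?_, ?_⟩)
    · intro f f' hff
      have h1 := congrArg (fun x : {χ : Cfsg.IrrCharacter G // (χ : G → ℂ) 1 = 1} => ((x : Cfsg.IrrCharacter G) : G → ℂ)) hff
      ext g
      exact congrFun h1 g
    · rintro ⟨⟨χ, hχ⟩, h1⟩
      obtain ⟨f, hf⟩ := Cfsg.Agent.Helper79.isCharacter_linear (Cfsg.Agent.Helper79.isCharacter_of_irr hχ) h1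
      refine ⟨f, ?_⟩
      apply Subtype.ext
      apply Subtype.ext
      funext g
      exact (hf g).symm
  have e2 : Nat.card (G →* ℂˣ) = Nat.card (Abelianization G →* ℂˣ) :=
    Nat.card_congr Abelianization.lift
  have hne : NeZero (Monoid.exponent (Abelianization G)) := ⟨Monoid.exponent_ne_zero_of_finite⟩
  have e3 : Nat.card (Abelianization G →* ℂˣ) = Nat.card (Abelianization G) :=
    CommGroup.card_monoidHom_of_hasEnoughRootsOfUnity (Abelianization G) ℂ
  rw [e1, e2, e3]
  rfl

end Cfsg.Agent.S0154
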