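import Cfsg.Statements.S0155

set_option autoImplicit false
open Cfsg

namespace Cfsg.Agent.S0155

/-- The character of the left regular representation of a finite group takes the value |G| at the identity and 0 at every other element. -/
theorem result {G : Type*} [Group G] [Fintype G] [DecidableEq G] (g : G) : (Representation.leftRegular ℂ G).character g = if g = 1 then (Nat.card G : ℂ) else 0 := by
  rw [Representation.character, LinearMap.trace_eq_matrix_trace ℂ (MonoidAlgebra.basis G ℂ),
    Matrix.trace]
  simp only [Matrix.diag_apply, LinearMap.toMatrix_apply, MonoidAlgebra.basis_apply,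
    Representation.ofMulAction_single, smul_eq_mul]
  have key : ∀ x : G, ((MonoidAlgebra.basis G ℂ).repr (MonoidAlgebra.single (g * x) (1 : ℂ))) x
      = if g = 1 then 1 else 0 := by
    intro x
    have h1 : (MonoidAlgebra.basis G ℂ).repr (MonoidAlgebra.single (g * x) (1 : ℂ))
        = Finsupp.single (g * x) (1 : ℂ) := by
      rw [← MonoidAlgebra.basis_apply, Module.Basis.repr_self]
    rw [h1, Finsupp.single_apply]
    by_cases hg : g = 1
    · simp [hg]
    · have : g * x ≠ x := by
        intro h; apply hg
        simpa using h
      simp [hg, this]
  simp only [key]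
  by_cases hg : g = 1
  · simp [hg, Nat.card_eq_fintype_card]
  · simp [hg]

end Cfsg.Agent.S0155
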