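import Cfsg.Statements.S0159
import Cfsg.Agent.Helper80.CharOrtho

set_option autoImplicit false
open Cfsg

namespace Cfsg.Agent.S0159

/-- The number of solutions of s * s = 1 in a finite group equals the sum, over the irreducible characters χ, of (the average over s of χ (s * s)) times χ 1. -/
theorem result {G : Type*} [Group G] [Fintype G] : (Nat.card {s : G // s * s = 1} : ℂ) = ∑ᶠ χ : Cfsg.IrrCharacter G, ((Nat.card G : ℂ)⁻¹ * ∑ s : G, (χ : G → ℂ) (s * s)) * (χ : G → ℂ) 1 := by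
  classical
  have : Fintype (Cfsg.IrrCharacter G) := Fintype.ofFinite _
  have hG : (Nat.card G : ℂ) ≠ 0 := by exact_mod_cast Nat.card_pos.ne'
  rw [finsum_eq_sum_of_fintype]
  have h1 : ∑ χ : Cfsg.IrrCharacter G, ((Nat.card G : ℂ)⁻¹ * ∑ s : G, (χ : G → ℂ) (s * s)) * (χ : G → ℂ) 1
      = (Nat.card G : ℂ)⁻¹ * ∑ s : G, ∑ χ : Cfsg.IrrCharacter G, (χ : G → ℂ) 1 * (χ : G → ℂ) (s * s) := by
    simp only [Finset.mul_sum, Finset.sum_mul]
    rw [Finset.sum_comm]
    refine Finset.sum_congr rfl ?_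
    intro s _
    refine Finset.sum_congr rfl ?_
    intro χ _
    ring
  rw [h1]
  have h2 : ∀ s : G, ∑ χ : Cfsg.IrrCharacter G, (χ : G → ℂ) 1 * (χ : G → ℂ) (s * s)
      = if s * s = 1 then (Nat.card G : ℂ) else 0 := by
    intro s
    rw [← finsum_eq_sum_of_fintype, Cfsg.Agent.Helper80.irr_finsum_degree_mul (s * s)]
  simp only [h2]
  rw [← Finset.sum_filter, Finset.sum_const, nsmul_eq_mul]
  have h3 : (Nat.card {s : G // s * s = 1}) = (Finset.univ.filter (fun s : G => s * s = 1)).card := by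
    rw [Nat.card_eq_fintype_card, Fintype.card_subtype]
  rw [h3]
  field_simp

end Cfsg.Agent.S0159
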