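import Cfsg.Statements.S0166
import Cfsg.Agent.Helper3.FForm3
import Cfsg.Agent.Helper3.BrauerQE
import Cfsg.Agent.Helper3.RepEquiv
import Cfsg.Agent.Helper81.CharBasic

set_option autoImplicit false
open Cfsg

namespace Cfsg.Agent.S0166

/-- Brauer's splitting field Theorem: a complex representation of a finite group of exponent m is equivalent to a representation by matrices with entries in ℚ adjoined exp(2πi/m). -/
theorem result {G : Type*} [Group G] [Finite G] (n : ℕ) (ρ : Representation ℂ G (Fin n → ℂ)) : ∃ σ : Representation ℂ G (Fin n → ℂ), Nonempty (ρ.Equiv σ) ∧ ∀ g : G, ∀ i j : Fin n, LinearMap.toMatrix' (σ g) i j ∈ Algebra.adjoin ℚ ({Complex.exp (2 * Real.pi * Complex.I / (Monoid.exponent G : ℂ))} : Set ℂ) := by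
  classical
  have : Fintype G := Fintype.ofFinite G
  have hm0 : Monoid.exponent G ≠ 0 := Monoid.exponent_ne_zero_of_finite
  have : NeZero (Monoid.exponent G) := ⟨hm0⟩
  have hprim : IsPrimitiveRoot
      (Complex.exp (2 * Real.pi * Complex.I / (Monoid.exponent G : ℂ))) (Monoid.exponent G) :=
    Complex.isPrimitiveRoot_exp _ hm0
  generalize Complex.exp (2 * Real.pi * Complex.I / (Monoid.exponent G : ℂ)) = ζ at hprim ⊢
  let F := IntermediateField.adjoin ℚ ({ζ} : Set ℂ)
  have hroot : ∀ z : ℂ, z ^ Monoid.exponent G = 1 → z ∈ F := by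
    intro z hz
    obtain ⟨i, -, rfl⟩ := hprim.eq_pow_of_pow_eq_one hz
    exact pow_mem (IntermediateField.mem_adjoin_simple_self ℚ ζ) i
  have hirr : ∀ χ : G → ℂ, IsIrrCharacter G χ → Helper3.IsFChar F G χ := by
    intro χ hχ
    apply Helper3.IsFIrrChar.isFChar
    apply Helper3.isFIrrChar_of_mem_span hχ
    obtain ⟨l, -, hl⟩ := Helper3.brauer_induction χ (Helper79.isCharacter_of_irr hχ)
    rw [hl]
    apply list_sum_mem
    intro f hf
    obtain ⟨t, -, rfl⟩ := List.mem_map.mp hf
    rw [Int.cast_smul_eq_zsmul]
    apply Submodule.smul_mem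
    apply Helper3.IsFChar.mem_span
    have hval : ∀ e : t.1, ((t.2.1 e : ℂˣ) : ℂ) ∈ F := by
      intro e
      apply hroot
      rw [← Units.val_pow_eq_pow_val, ← map_pow]
      have : e ^ Monoid.exponent G = 1 := by
        apply Subtype.ext
        rw [Subgroup.coe_pow, Subgroup.coe_one]
        exact Monoid.pow_exponent_eq_one _
      rw [this, map_one, Units.val_one]
    let μ : t.1 →* F :=
      { toFun := fun e => ⟨_, hval e⟩
        map_one' := by apply Subtype.ext; simp
        map_mul' := fun a b => by apply Subtype.ext; simp }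
    exact Helper3.isFChar_indFun_linear t.1 μ
  have hall : Helper3.IsFChar F G ρ.character := by
    have h := Helper81.character_mem_natSpanIrr ρ
    unfold Helper81.natSpanIrr at h
    refine AddSubmonoid.closure_induction (motive := fun x _ => Helper3.IsFChar F G x)
      ?_ ?_ ?_ h
    · rintro x ⟨χ, rfl⟩
      exact hirr _ χ.2
    · exact Helper3.isFChar_zero
    · intro x y _ _ hx hy
      exact Helper3.isFChar_add hx hy
  obtain ⟨V, i1, i2, i3, ρF, hρF⟩ := hall
  have hdim : Module.finrank F V = n := by
    have h1 := hρF 1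
    rw [Representation.char_one, Representation.char_one, map_natCast] at h1
    simp only [Module.finrank_fin_fun] at h1
    exact_mod_cast h1.symm
  let b : Module.Basis (Fin n) F V := Module.finBasisOfFinrankEq F V hdim
  refine ⟨Helper3.complexify ρF b, ?_, ?_⟩
  · apply Helper3.equiv_of_character_eq
    funext g
    rw [Helper3.complexify_character, hρF]
  · intro g i j
    rw [Helper3.complexify_toMatrix']
    have hmem : (algebraMap F ℂ) (LinearMap.toMatrix b b (ρF g) i j) ∈ F :=
      (LinearMap.toMatrix b b (ρF g) i j).2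
    have hint : IsIntegral ℚ ζ := by
      apply IsIntegral.of_pow (Nat.pos_of_ne_zero hm0)
      rw [hprim.pow_eq_one]
      exact isIntegral_one
    have heq : F.toSubalgebra = Algebra.adjoin ℚ {ζ} :=
      IntermediateField.adjoin_simple_toSubalgebra_of_isAlgebraic hint.isAlgebraic
    rw [← heq]
    exact hmem

end Cfsg.Agent.S0166
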