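import Cfsg.Statements.S0167
import Cfsg.Agent.Helper3.Commutator

set_option autoImplicit false
open Cfsg

namespace Cfsg.Agent.S0167

/-- An element g of a finite group is a commutator if and only if the sum over the irreducible characters χ of χ g / χ 1 is nonzero. -/
theorem result {G : Type*} [Group G] [Finite G] (g : G) : (∃ a b : G, g = a * b * a⁻¹ * b⁻¹) ↔ ∑ᶠ χ : Cfsg.IrrCharacter G, (χ : G → ℂ) g / (χ : G → ℂ) 1 ≠ 0 := by
  exact Cfsg.Agent.Helper3.isCommutator_iff g

end Cfsg.Agent.S0167
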