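import Cfsg.Statements.S0168
import Cfsg.Agent.Helper3.CharBasic

set_option autoImplicit false
open Cfsg

namespace Cfsg.Agent.S0168

/-- The Burnside–Brauer Theorem. Let χ be the character of a faithful complex representation of a finite group, taking m distinct values. Then every irreducible character has nonzero inner product with χ ^ i for some i < m. -/
theorem result {G : Type*} [Group G] [Fintype G] {V : Type*} [AddCommGroup V] [Module ℂ V] [FiniteDimensional ℂ V] (ρ : Representation ℂ G V) (hfaithful : Function.Injective ρ) (ψ : G → ℂ) (hψ : Cfsg.IsIrrCharacter G ψ) : ∃ i : ℕ, i < Nat.card (Set.range ρ.character) ∧ Cfsg.classInner (fun g => ρ.character g ^ i) ψ ≠ 0 := by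
  classical
  by_contra hcon
  push Not at hcon
  have hG : (Nat.card G : ℂ) ≠ 0 := by exact_mod_cast Nat.card_pos.ne'
  have hsum0 : ∀ i : ℕ, i < Nat.card (Set.range ρ.character) →
      ∑ g : G, ρ.character g ^ i * (starRingEnd ℂ) (ψ g) = 0 := by
    intro i hi
    have := hcon i hi
    unfold Cfsg.classInner at this
    rcases mul_eq_zero.mp this with h | h
    · exact absurd (inv_eq_zero.mp h) hG
    · exact h
  have hfin : Finite (Set.range ρ.character) := Set.finite_range _
  set m := Nat.card (Set.range ρ.character) with hm
  let e : Set.range ρ.character ≃ Fin m := Finite.equivFin _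
  let v : Fin m → ℂ := fun k => ((e.symm k : Set.range ρ.character) : ℂ)
  have hv : Function.Injective v := fun a b h => e.symm.injective (Subtype.ext h)
  let c : Fin m → ℂ := fun k => ∑ g : G, if ρ.character g = v k then (starRingEnd ℂ) (ψ g) else 0
  have hc : Matrix.vecMul c (Matrix.vandermonde v) = 0 := by
    funext j
    simp only [Matrix.vecMul, dotProduct, Matrix.vandermonde_apply, Pi.zero_apply]
    rw [← hsum0 j j.2]
    simp only [c, Finset.sum_mul]
    rw [Finset.sum_comm]
    refine Finset.sum_congr rfl ?_
    intro g _
    rw [Finset.sum_eq_single (e ⟨ρ.character g, ⟨g, rfl⟩⟩)]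
    · simp [v, mul_comm]
    · intro k _ hk
      have : ρ.character g ≠ v k := by
        intro h
        apply hk
        apply e.symm.injective
        apply Subtype.ext
        simp [v] at h
        simp [h]
      simp [this]
    · intro h; exact absurd (Finset.mem_univ _) h
  have hdet : (Matrix.vandermonde v).det ≠ 0 := Matrix.det_vandermonde_ne_zero_iff.mpr hv
  have hc0 : c = 0 := Matrix.eq_zero_of_vecMul_eq_zero hdet hc
  have hk0 := congrFun hc0 (e ⟨ρ.character 1, ⟨1, rfl⟩⟩)
  simp only [c, v, Equiv.symm_apply_apply, Pi.zero_apply] at hk0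
  rw [Finset.sum_eq_single (1 : G)] at hk0
  · simp only [if_true] at hk0
    have h1 : ψ 1 = 0 := by
      have := congrArg (starRingEnd ℂ) hk0
      simpa using this
    exact Cfsg.Agent.Helper3.irr_apply_one_ne_zero hψ h1
  · intro g _ hg
    have : ρ.character g ≠ ρ.character 1 := by
      intro h
      apply hg
      rw [Representation.char_one] at h
      have h2 := (Cfsg.Agent.Helper3.character_eq_finrank_iff ρ g).1 h
      apply hfaithful
      rw [h2, map_one]; rfl
    rw [if_neg this]
  · intro h; exact absurd (Finset.mem_univ _) h

end Cfsg.Agent.S0168
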