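import Cfsg.Statements.S0174
import Cfsg.Agent.Helper3.Induced
import Cfsg.Agent.Helper75.Clifford
import Cfsg.Agent.Helper79.Quotient

set_option autoImplicit false
open Cfsg

namespace Cfsg.Agent.S0174

/-- The Clifford Theorem for characters: if θ is an irreducible character of a finite group G, N is a normal subgroup and χ is an irreducible character of N occurring in the restriction of θ, then θ restricted to N equals e times the sum of the distinct G-conjugates of χ, where e is the inner product of the restriction with χ. -/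
theorem result {G : Type*} [Group G] [Fintype G] (N : Subgroup G) [Fintype N] (hN : N.Normal) (θ : G → ℂ) (hθ : Cfsg.IsIrrCharacter G θ) (χ : N → ℂ) (hχ : Cfsg.IsIrrCharacter N χ) (hconst : Cfsg.classInner (fun n : N => θ n) χ ≠ 0) : (fun n : N => θ n) = Cfsg.classInner (fun n : N => θ n) χ • ∑ᶠ ψ ∈ {ψ : N → ℂ | ∃ g : G, ψ = fun n : N => χ ⟨g * n * g⁻¹, hN.conj_mem n n.2 g⟩}, ψ := by
  classical
  have hNn : N.Normal := hN
  have : Fintype (Cfsg.IrrCharacter N) := Fintype.ofFinite _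
  have hθc : Cfsg.IsCharacter G θ := Cfsg.Agent.Helper79.isCharacter_of_irr hθ
  have hθcl : Cfsg.IsClassFunction G θ := Cfsg.Agent.Helper79.isCharacter_isClassFunction hθc
  have hres : Cfsg.IsClassFunction N (fun n : N => θ n) := by
    intro n h
    exact hθcl (n : G) (h : G)
  have hdecomp := Cfsg.Agent.Helper3.classFunction_eq_sum (fun n : N => θ n) hres
  have hconjeq : ∀ (g : G) (n : N), (⟨g * n * g⁻¹, hN.conj_mem n n.2 g⟩ : N) = MulAut.conjNormal g n := by
    intro g n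
    apply Subtype.ext
    simp
  have hcoef : ∀ g : G, Cfsg.classInner (fun n : N => θ n)
      (fun n : N => χ ⟨g * n * g⁻¹, hN.conj_mem n n.2 g⟩) = Cfsg.classInner (fun n : N => θ n) χ := by
    intro g
    unfold Cfsg.classInner
    congr 1
    rw [← Equiv.sum_comp (MulAut.conjNormal g : N ≃* N).toEquiv
      (fun m : N => θ m * (starRingEnd ℂ) (χ m))]
    apply Finset.sum_congr rfl
    intro n _
    have h1 : θ ((MulAut.conjNormal g n : N) : G) = θ n := by
      rw [MulAut.conjNormal_apply]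
      exact hθcl (n : G) g
    simp only [MulEquiv.toEquiv_eq_coe, EquivLike.coe_coe]
    rw [h1, hconjeq]
  obtain ⟨S, hS⟩ : ∃ S : Set (N → ℂ), S = {ψ : N → ℂ | ∃ g : G, ψ = fun n : N => χ ⟨g * n * g⁻¹, hN.conj_mem n n.2 g⟩} := ⟨_, rfl⟩
  have hmem : ∀ ψ : N → ℂ, ψ ∈ S ↔ ∃ g : G, ψ = fun n : N => χ ⟨g * n * g⁻¹, hN.conj_mem n n.2 g⟩ := by
    intro ψ
    rw [hS]
    rfl
  rw [← hS]
  have hzero : ∀ ψ : Cfsg.IrrCharacter N, (ψ : N → ℂ) ∉ S →
      Cfsg.classInner (fun n : N => θ n) (ψ : N → ℂ) = 0 := by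
    intro ψ hψ
    by_contra hne
    apply hψ
    obtain ⟨g, hg⟩ := Cfsg.Agent.Helper75.clifford_irrCharacter N θ hθ (ψ : N → ℂ) χ ψ.2 hχ hne hconst
    rw [hmem]
    refine ⟨g, ?_⟩
    funext n
    rw [hg n, hconjeq]
  obtain ⟨T, hT⟩ : ∃ T : Set (Cfsg.IrrCharacter N), T = {ψ : Cfsg.IrrCharacter N | ψ.1 ∈ S} := ⟨_, rfl⟩
  have hTmem : ∀ ψ : Cfsg.IrrCharacter N, ψ ∈ T ↔ (ψ : N → ℂ) ∈ S := by
    intro ψ
    rw [hT]
    rfl
  have himg : S = Subtype.val '' T := by
    ext ψ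
    constructor
    · intro hψ
      obtain ⟨g, rfl⟩ := (hmem ψ).mp hψ
      have hirr : Cfsg.IsIrrCharacter N (fun n : N => χ ⟨g * n * g⁻¹, hN.conj_mem n n.2 g⟩) := by
        have := (Cfsg.Agent.Helper79.isIrrCharacter_mulEquiv (MulAut.conjNormal g : N ≃* N) (χ := χ)).mpr hχ
        convert this using 2
        rename_i n
        rw [hconjeq]
      exact ⟨⟨_, hirr⟩, (hTmem _).mpr hψ, rfl⟩
    · rintro ⟨ψ', hψ', rfl⟩
      exact (hTmem _).mp hψ'
  have hfin : (∑ᶠ ψ ∈ Subtype.val '' T, ψ) = ∑ ψ : Cfsg.IrrCharacter N, if ψ ∈ T then (ψ : N → ℂ) else 0 := by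
    rw [finsum_mem_image (Subtype.val_injective.injOn), finsum_mem_def, finsum_eq_sum_of_fintype]
    apply Finset.sum_congr rfl
    intro ψ _
    rw [Set.indicator_apply]
  rw [himg, hfin, Finset.smul_sum]
  conv_lhs => rw [hdecomp]
  apply Finset.sum_congr rfl
  intro ψ _
  by_cases hψ : ψ ∈ T
  · rw [if_pos hψ]
    obtain ⟨g, hg⟩ := (hmem _).mp ((hTmem ψ).mp hψ)
    have := hcoef g
    rw [← hg] at this
    rw [this]
  · rw [if_neg hψ, hzero ψ (fun h => hψ ((hTmem ψ).mpr h))]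
    simp

end Cfsg.Agent.S0174
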