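import Cfsg.Statements.S0180
import Cfsg.Agent.Helper75.RationalChar
import Cfsg.Agent.Helper79.Sep

set_option autoImplicit false
open Cfsg

namespace Cfsg.Agent.S0180

/-- Every irreducible complex character of a finite group takes only rational values if and only if g is conjugate to g ^ m for every element g and every m coprime to the group order. -/
theorem result {G : Type*} [Group G] [Finite G] : (∀ χ : Cfsg.IrrCharacter G, ∀ g : G, ∃ q : ℚ, (χ : G → ℂ) g = (q : ℂ)) ↔ ∀ m : ℕ, m.Coprime (Nat.card G) → ∀ g : G, IsConj g (g ^ m) := by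
  have hm0 : Nat.card G ≠ 0 := Nat.card_pos.ne'
  constructor
  · intro hrat m hm g
    apply Cfsg.Agent.Helper79.isConj_of_forall_irr_eq
    intro χ
    obtain ⟨σ, hσ⟩ := Cfsg.Agent.Helper75.exists_ringEquiv_pow (Nat.card G) hm0 m hm
    obtain ⟨q, hq⟩ := hrat χ g
    obtain ⟨χ, n, ρ, hρ, rfl⟩ := χ
    simp only at hq ⊢
    rw [Cfsg.Agent.Helper75.character_pow_eq ρ σ m hσ g, hq]
    simp
  · intro hconj χ g
    obtain ⟨χ, n, ρ, hρ, rfl⟩ := χ
    simp only
    apply Cfsg.Agent.Helper75.rat_of_fixed (Nat.card G) hm0 _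
      (Cfsg.Agent.Helper75.character_mem_cycField ρ g)
    intro σ
    obtain ⟨k, hk, hσ⟩ := Cfsg.Agent.Helper75.exists_pow_of_ringEquiv σ (Nat.card G) hm0
    rw [← Cfsg.Agent.Helper75.character_pow_eq ρ σ k hσ g]
    obtain ⟨c, hc⟩ := isConj_iff.mp (hconj k hk g)
    rw [← hc, Representation.char_conj]

end Cfsg.Agent.S0180
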