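import Cfsg.Statements.S0181

set_option autoImplicit false
open Cfsg

namespace Cfsg.Agent.S0181

/-- Let H be a normal subgroup of a finite group G and ρ an irreducible complex representation whose kernel does not contain H. If g commutes with no non-identity element of H, then the character of ρ vanishes at g. -/
theorem result {G : Type*} [Group G] [Finite G] {V : Type*} [AddCommGroup V] [Module ℂ V] [FiniteDimensional ℂ V] (ρ : Representation ℂ G V) [ρ.IsIrreducible] (H : Subgroup G) [H.Normal] (hker : ∃ h ∈ H, ρ h ≠ LinearMap.id) (g : G) (hg : ∀ h ∈ H, h * g = g * h → h = 1) : ρ.character g = 0 := by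
  classical
  have : Fintype H := Fintype.ofFinite H
  -- the space of `H`-fixed vectors is a subrepresentation
  let W : Subrepresentation ρ :=
    { toSubmodule :=
        { carrier := {v | ∀ h ∈ H, ρ h v = v}
          add_mem' := by
            intro a b ha hb h hh
            have ha : ∀ h ∈ H, ρ h a = a := ha
            have hb : ∀ h ∈ H, ρ h b = b := hb
            simp [ha h hh, hb h hh]
          zero_mem' := by intro h hh; simp
          smul_mem' := by
            intro c v hv h hh
            have hv : ∀ h ∈ H, ρ h v = v := hv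
            simp [hv h hh] }
      apply_mem_toSubmodule := by
        intro x v hv h hh
        have h1 : x⁻¹ * h * x ∈ H := by
          have := (inferInstance : H.Normal).conj_mem h hh x⁻¹
          simpa using this
        have h2 : ρ (x⁻¹ * h * x) v = v := hv _ h1
        have h3 : h * x = x * (x⁻¹ * h * x) := by group
        calc ρ h (ρ x v) = ρ (h * x) v := by rw [map_mul]; rfl
          _ = ρ (x * (x⁻¹ * h * x)) v := by rw [h3]
          _ = ρ x (ρ (x⁻¹ * h * x) v) := by rw [map_mul]; rfl
          _ = ρ x v := by rw [h2] }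
  have hWmem : ∀ v : V, v ∈ W ↔ ∀ h ∈ H, ρ h v = v := fun v => Iff.rfl
  -- the sum over `H`
  set S : V →ₗ[ℂ] V := ∑ h : H, ρ (h : G) with hS
  have hSW : ∀ v : V, S v ∈ W := by
    intro v
    rw [hWmem]
    intro k hk
    rw [hS, LinearMap.sum_apply, map_sum]
    refine Fintype.sum_bijective (fun h : H => (⟨k, hk⟩ : H) * h)
      (Group.mulLeft_bijective _) _ _ ?_
    intro h
    show ρ k (ρ (h : G) v) = ρ (((⟨k, hk⟩ : H) * h : H) : G) v
    rw [Subgroup.coe_mul, map_mul]; rfl
  have hW : W = ⊥ := by
    rcases eq_bot_or_eq_top W with h | h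
    · exact h
    · exfalso
      obtain ⟨h0, hh0, hne⟩ := hker
      apply hne
      ext v
      have : v ∈ W := by rw [h]; trivial
      simpa using (hWmem v).1 this h0 hh0
  have hS0 : S = 0 := by
    ext v
    have : S v ∈ W := hSW v
    rw [hW] at this
    exact (Submodule.mem_bot ℂ).1 this
  -- the trace computation
  have hsum0 : ∑ h : H, ρ.character (g * (h : G)) = 0 := by
    have : ∑ h : H, ρ.character (g * (h : G)) = LinearMap.trace ℂ V (ρ g * S) := by
      rw [hS, Finset.mul_sum, map_sum]
      refine Finset.sum_congr rfl ?_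
      intro h _
      simp [Representation.character, map_mul]
    rw [this, hS0]
    simp
  -- conjugation bijection
  have hφmem : ∀ h : H, g⁻¹ * (h : G)⁻¹ * g * (h : G) ∈ H := by
    intro h
    have h1 : g⁻¹ * (h : G)⁻¹ * g ∈ H := by
      have := (inferInstance : H.Normal).conj_mem (h : G)⁻¹ (H.inv_mem h.2) g⁻¹
      simpa using this
    exact H.mul_mem h1 h.2
  let φ : H → H := fun h => ⟨g⁻¹ * (h : G)⁻¹ * g * (h : G), hφmem h⟩
  have hφinj : Function.Injective φ := by
    intro h k hhk
    have h1 : g⁻¹ * (h : G)⁻¹ * g * (h : G) = g⁻¹ * (k : G)⁻¹ * g * (k : G) := by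
      simpa [φ] using congrArg Subtype.val hhk
    have h2 : ((k : G) * (h : G)⁻¹) * g = g * ((k : G) * (h : G)⁻¹) := by
      have h3 : (h : G)⁻¹ * g * (h : G) = (k : G)⁻¹ * g * (k : G) := by
        have := congrArg (fun t => g * t) h1
        simpa [mul_assoc] using this
      calc ((k : G) * (h : G)⁻¹) * g = (k : G) * ((h : G)⁻¹ * g * (h : G)) * (h : G)⁻¹ := by group
        _ = (k : G) * ((k : G)⁻¹ * g * (k : G)) * (h : G)⁻¹ := by rw [h3]
        _ = g * ((k : G) * (h : G)⁻¹) := by group
    have h4 := hg _ (H.mul_mem k.2 (H.inv_mem h.2)) h2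
    have h5 : (k : G) = (h : G) := by
      have := congrArg (fun t => t * (h : G)) h4
      simpa using this
    exact Subtype.ext h5.symm
  have hφbij : Function.Bijective φ := Finite.injective_iff_bijective.mp hφinj
  have hsum1 : ∑ h : H, ρ.character (g * (h : G)) = ∑ h : H, ρ.character g := by
    rw [← Fintype.sum_bijective φ hφbij (fun h => ρ.character g)
      (fun h => ρ.character (g * (h : G)))]
    intro h
    have h1 : g * ((φ h : H) : G) = (h : G)⁻¹ * g * ((h : G)⁻¹)⁻¹ := by
      simp [φ]; group
    rw [h1, Representation.char_conj]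
  rw [hsum1] at hsum0
  simp only [Finset.sum_const, Finset.card_univ, nsmul_eq_mul] at hsum0
  rcases mul_eq_zero.mp hsum0 with h | h
  · exfalso
    have : Fintype.card H ≠ 0 := Fintype.card_ne_zero
    exact this (by exact_mod_cast h)
  · exact h

end Cfsg.Agent.S0181
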