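import Cfsg.Statements.S0182
import Cfsg.Agent.Helper3.CAGroup
import Cfsg.Agent.Helper11.FrobThm
import Cfsg.Agent.S1526
import Cfsg.Agent.S1527

set_option autoImplicit false
set_option linter.style.haveILetI false
open Cfsg

namespace Cfsg.Agent.S0182

open Cfsg.Agent.Helper3

universe u

theorem ca_solvable_aux : ∀ (n : ℕ) (G : Type u) [Group G] [Finite G], Nat.card G = n →
    Odd (Nat.card G) → IsCA G → Group.IsSolvable G := by
  intro n
  induction n using Nat.strong_induction_on with
  | _ n ih =>
  intro G _ _ hn hodd hCA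
  classical
  have ihK : ∀ K : Subgroup G, Nat.card K < Nat.card G → Group.IsSolvable K := by
    intro K hK
    exact ih (Nat.card K) (hn ▸ hK) K rfl
      (hodd.of_dvd_nat (Subgroup.card_subgroup_dvd_card K)) (hCA.subgroup K)
  by_cases htriv : ∀ x : G, x = 1
  · apply Group.isSolvable_of_comm
    intro a b
    rw [htriv a, htriv b]
  by_cases hb : ∃ x : G, x ≠ 1 ∧
      Subgroup.normalizer ((Subgroup.centralizer ({x} : Set G) : Subgroup G) : Set G)
        = Subgroup.centralizer ({x} : Set G)
  · -- a self-normalizing centralizer is a Frobenius complement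
    obtain ⟨x, hx, hNx⟩ := hb
    set A := Subgroup.centralizer ({x} : Set G) with hA
    by_cases hAtop : A = ⊤
    · apply Group.isSolvable_of_comm
      intro a b
      exact hCA x hx a (by rw [← hA, hAtop]; trivial) b (by rw [← hA, hAtop]; trivial)
    · have hAbot : A ≠ ⊥ := cent_ne_bot hx
      have hFC : Cfsg.IsFrobeniusComplement A := by
        rw [Cfsg.Agent.Helper71.isFrobeniusComplement_iff]
        refine ⟨hAbot, hAtop, ?_⟩
        intro g hg y hy hgy
        have hgN : g⁻¹ ∉ Subgroup.normalizer (A : Set G) := by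
          rw [hNx]
          intro h'
          exact hg (by simpa using A.inv_mem h')
        exact hCA.isTI hx g⁻¹ hgN y hy (by simpa using hgy)
      obtain ⟨N, -, hNn, hcompl⟩ := Cfsg.Agent.Helper11.frobenius_kernel_subgroup A hFC
      have hcard := hcompl.card_mul_card
      have hA1 : 1 < Nat.card A := (Subgroup.one_lt_card_iff_ne_bot A).mpr hAbot
      have hNlt : Nat.card N < Nat.card G := by
        have hNpos : 0 < Nat.card N := Nat.card_pos
        nlinarith
      haveI := ihK N hNlt
      haveI := hNn
      have hquot : ∀ a b : G ⧸ N, a * b = b * a := by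
        intro a b
        obtain ⟨g₁, rfl⟩ := QuotientGroup.mk_surjective a
        obtain ⟨g₂, rfl⟩ := QuotientGroup.mk_surjective b
        obtain ⟨⟨n₁, a₁⟩, h₁, -⟩ := hcompl.existsUnique g₁
        obtain ⟨⟨n₂, a₂⟩, h₂, -⟩ := hcompl.existsUnique g₂
        have e₁ : (QuotientGroup.mk g₁ : G ⧸ N) = QuotientGroup.mk (a₁ : G) := by
          rw [← h₁, QuotientGroup.mk_mul, (QuotientGroup.eq_one_iff (n₁ : G)).mpr n₁.2, one_mul]
        have e₂ : (QuotientGroup.mk g₂ : G ⧸ N) = QuotientGroup.mk (a₂ : G) := by
          rw [← h₂, QuotientGroup.mk_mul, (QuotientGroup.eq_one_iff (n₂ : G)).mpr n₂.2, one_mul]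
        rw [e₁, e₂, ← QuotientGroup.mk_mul, ← QuotientGroup.mk_mul,
          hCA x hx (a₁ : G) a₁.2 (a₂ : G) a₂.2]
      haveI : Group.IsSolvable (G ⧸ N) := Group.isSolvable_of_comm hquot
      exact Group.isSolvable_of_ker_le_range N.subtype (QuotientGroup.mk' N) (by simp)
  · -- every centralizer is properly contained in its normalizer: contradiction
    push Not at hb
    exfalso
    haveI : Fintype G := Fintype.ofFinite G
    have hlt : ∀ x : G, x ≠ 1 → Subgroup.centralizer ({x} : Set G)
        < Subgroup.normalizer ((Subgroup.centralizer ({x} : Set G) : Subgroup G) : Set G) :=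
      fun x hx => lt_of_le_of_ne Subgroup.le_normalizer (Ne.symm (hb x hx))
    set S : Finset ℕ := (Finset.univ.filter (fun x : G => x ≠ 1)).image
      (fun x => Nat.card (Subgroup.centralizer ({x} : Set G))) with hSdef
    have hS : ∀ n ∈ S, ∃ x : G, x ≠ 1 ∧ Nat.card (Subgroup.centralizer ({x} : Set G)) = n := by
      intro n hn
      rw [hSdef, Finset.mem_image] at hn
      obtain ⟨x, hx, hxn⟩ := hn
      exact ⟨x, (Finset.mem_filter.mp hx).2, hxn⟩
    choose! rep hrep1 hrepc using hS
    have hmemS : ∀ g : G, g ≠ 1 → Nat.card (Subgroup.centralizer ({g} : Set G)) ∈ S := by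
      intro g hg
      rw [hSdef, Finset.mem_image]
      exact ⟨g, Finset.mem_filter.mpr ⟨Finset.mem_univ _, hg⟩, rfl⟩
    have hconj : ∀ x y : G, x ≠ 1 → y ≠ 1 →
        ¬ Nat.Coprime (Nat.card (Subgroup.centralizer ({x} : Set G)))
          (Nat.card (Subgroup.centralizer ({y} : Set G))) →
        ∃ u : G, u * x * u⁻¹ ∈ Subgroup.centralizer ({y} : Set G) := by
      intro x y hx hy hnc
      obtain ⟨p, hp, hpx, hpy⟩ := Nat.Prime.not_coprime_iff_dvd.mp hnc
      exact hCA.exists_conj_mem hx hy hp hpx hpy
    have hcardeq : ∀ x y u : G, x ≠ 1 → y ≠ 1 →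
        u * x * u⁻¹ ∈ Subgroup.centralizer ({y} : Set G) →
        Nat.card (Subgroup.centralizer ({x} : Set G))
          = Nat.card (Subgroup.centralizer ({y} : Set G)) := by
      intro x y u hx hy hu
      rw [← card_cent_conj x u, hCA.cent_eq hy (conj_ne_one_of_ne_one hx) hu]
    have hgt1 : ∀ g : G, g ≠ 1 → 1 < Nat.card (Subgroup.centralizer ({g} : Set G)) :=
      fun g hg => (Subgroup.one_lt_card_iff_ne_bot _).mpr (cent_ne_bot hg)
    have hcoverrep : ∀ g : G, g ≠ 1 → ∃ u : G, u * g * u⁻¹ ∈ Subgroup.centralizer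
        ({rep (Nat.card (Subgroup.centralizer ({g} : Set G)))} : Set G) := by
      intro g hg
      have hgS := hmemS g hg
      apply hconj g _ hg (hrep1 _ hgS)
      rw [hrepc _ hgS]
      intro hcop
      rw [Nat.coprime_self] at hcop
      have := hgt1 g hg
      omega
    by_cases hι : 2 ≤ Fintype.card {n // n ∈ S}
    · refine Cfsg.Agent.S1526.result hodd hι
        (fun n => Subgroup.normalizer
          ((Subgroup.centralizer ({rep n.1} : Set G) : Subgroup G) : Set G))
        (fun n => Subgroup.centralizer ({rep n.1} : Set G)) ?_ ?_ ?_ ?_ ?_ ?_ ?_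
      · intro n
        exact hlt _ (hrep1 n.1 n.2)
      · intro n
        exact cent_ne_bot (hrep1 n.1 n.2)
      · intro n x hx h hh
        exact (Subgroup.mem_normalizer_iff.mp hx h).mp hh
      · intro n h hh hh1
        rw [hCA.cent_eq (hrep1 n.1 n.2) hh1 hh]
        exact inf_le_right
      · intro n n' hnn'
        by_contra hnc
        obtain ⟨u, hu⟩ := hconj _ _ (hrep1 n.1 n.2) (hrep1 n'.1 n'.2) hnc
        have h3 := hcardeq _ _ u (hrep1 n.1 n.2) (hrep1 n'.1 n'.2) hu
        rw [hrepc n.1 n.2, hrepc n'.1 n'.2] at h3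
        exact hnn' (Subtype.ext h3)
      · intro n
        exact ⟨hCA.isTI (hrep1 n.1 n.2), rfl⟩
      · intro g hg
        obtain ⟨u, hu⟩ := hcoverrep g hg
        exact ⟨⟨_, hmemS g hg⟩, u, hu⟩
    · -- a single conjugacy class of centralizers: counting
      obtain ⟨x₀, hx₀⟩ := not_forall.mp htriv
      have hsub : Subsingleton {n // n ∈ S} := by
        rw [← Fintype.card_le_one_iff_subsingleton]
        omega
      have hall : ∀ g : G, g ≠ 1 → Nat.card (Subgroup.centralizer ({g} : Set G))
          = Nat.card (Subgroup.centralizer ({x₀} : Set G)) := by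
        intro g hg
        have := hsub.elim ⟨_, hmemS g hg⟩ ⟨_, hmemS x₀ hx₀⟩
        exact congrArg Subtype.val this
      set y₀ := rep (Nat.card (Subgroup.centralizer ({x₀} : Set G))) with hy₀
      have hy₀1 : y₀ ≠ 1 := hrep1 _ (hmemS x₀ hx₀)
      have hcount := Cfsg.Agent.S1527.result (ι := Unit)
        (fun _ => Subgroup.centralizer ({y₀} : Set G))
        (fun i j hij => absurd (Subsingleton.elim i j) hij)
        (fun _ => hCA.isTI hy₀1)
        (fun g hg => by
          obtain ⟨u, hu⟩ := hcoverrep g hg
          rw [hall g hg] at hu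
          exact ⟨(), u, hu⟩)
      simp only [Finset.univ_unique, Finset.sum_singleton] at hcount
      have hidx := Subgroup.index_mul_card (Subgroup.normalizer
        ((Subgroup.centralizer ({y₀} : Set G) : Subgroup G) : Set G))
      have hltc : Nat.card (Subgroup.centralizer ({y₀} : Set G))
          < Nat.card (Subgroup.normalizer
            ((Subgroup.centralizer ({y₀} : Set G) : Subgroup G) : Set G)) := by
        by_contra hcon
        push Not at hcon
        exact (hlt y₀ hy₀1).ne (Subgroup.eq_of_le_of_card_ge (hlt y₀ hy₀1).le hcon)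
      have ha1 := hgt1 y₀ hy₀1
      have hGpos : 0 < Nat.card G := Nat.card_pos
      set I := (Subgroup.normalizer
        ((Subgroup.centralizer ({y₀} : Set G) : Subgroup G) : Set G)).index with hI
      set nn := Nat.card (Subgroup.normalizer
        ((Subgroup.centralizer ({y₀} : Set G) : Subgroup G) : Set G)) with hnn
      set aa := Nat.card (Subgroup.centralizer ({y₀} : Set G)) with haa
      have hIpos : 0 < I := by
        rcases Nat.eq_zero_or_pos I with h0 | h0
        · rw [h0, zero_mul] at hidx
          omega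
        · exact h0
      obtain ⟨a', ha'⟩ : ∃ a', aa = a' + 1 := ⟨aa - 1, by omega⟩
      obtain ⟨d, hd⟩ : ∃ d, nn = a' + 1 + d + 1 := ⟨nn - (a' + 1) - 1, by omega⟩
      rw [hd] at hidx
      have h5 : Nat.card G = I * a' + I * d + 2 * I := by rw [← hidx]; ring
      have h6 : Nat.card G - 1 = I * a' := by rw [hcount, ha']; simp
      generalize I * a' = P at h5 h6
      generalize I * d = Q at h5
      omega

/-- The CA-Theorem for odd order: a finite group of odd order in which every non-identity element has an abelian centralizer is solvable. -/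
theorem result {G : Type*} [Group G] [Finite G] (hodd : Odd (Nat.card G)) (hCA : ∀ x : G, x ≠ 1 → ∀ a ∈ Subgroup.centralizer ({x} : Set G), ∀ b ∈ Subgroup.centralizer ({x} : Set G), a * b = b * a) : Group.IsSolvable G :=
  ca_solvable_aux (Nat.card G) G rfl hodd hCA

end Cfsg.Agent.S0182
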