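import Cfsg.Statements.S0184
import Mathlib
import Cfsg.Agent.Helper80.CharOrtho
import Cfsg.Agent.Helper80.CharSchur
import Cfsg.Agent.Helper79.Basic
import Cfsg.Agent.Helper48.PGroupLemmas

set_option autoImplicit false
open Cfsg

namespace Cfsg.Agent.S0184

/-- A monoid hom from a group to a monoid with trivial "kernel" is injective. -/
theorem inj_of_ker {G M : Type*} [Group G] [Monoid M] (f : G →* M)
    (h : ∀ g : G, f g = 1 → g = 1) : Function.Injective f := by
  intro x y hxy
  have h1 : f (x * y⁻¹) = 1 := by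
    rw [map_mul, hxy, ← map_mul, mul_inv_cancel, map_one]
  exact mul_inv_eq_one.mp (h _ h1)

open scoped IsMulCommutative in
/-- In a finite `p`-group with cyclic centre there is a nontrivial element lying in every
nontrivial normal subgroup. -/
theorem exists_socle_elt {G : Type*} [Group G] [Finite G] [Nontrivial G] (p : ℕ) [Fact p.Prime]
    (hG : IsPGroup p G) (hc : IsCyclic (Subgroup.center G)) :
    ∃ z₀ : G, z₀ ≠ 1 ∧ ∀ N : Subgroup G, N.Normal → N ≠ ⊥ → z₀ ∈ N := by
  classical
  have hpp : p.Prime := Fact.out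
  have hZnt : Nontrivial (Subgroup.center G) := hG.center_nontrivial
  obtain ⟨k, hk0, hk⟩ := (hG.to_subgroup (Subgroup.center G)).nontrivial_iff_card.mp hZnt
  set K : Subgroup (Subgroup.center G) := (powMonoidHom p : (Subgroup.center G) →* (Subgroup.center G)).ker with hK
  have hKcard : Nat.card K = p := by
    rw [hK, IsCyclic.card_powMonoidHom_ker, hk]
    exact Nat.gcd_eq_right (dvd_pow_self p (ne_of_gt hk0))
  have hKne : K ≠ ⊥ := by
    intro h
    rw [h, Subgroup.card_bot] at hKcard
    exact hpp.one_lt.ne hKcard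
  obtain ⟨⟨⟨z₀, hz₀⟩, hz₀K⟩, hz₀1⟩ := (Subgroup.ne_bot_iff_exists_ne_one).mp hKne
  have hz₀K' : (⟨z₀, hz₀⟩ : (Subgroup.center G)) ∈ K := hz₀K
  refine ⟨z₀, fun h => hz₀1 (Subtype.ext (Subtype.ext h)), ?_⟩
  intro N hN hNbot
  obtain ⟨z, hzN, hz1, hzc⟩ := Agent.Helper48.exists_ne_one_mem_center_of_normal hG N hNbot
  -- the subgroup N ⊓ (Subgroup.center G) is a nontrivial p-group
  set M : Subgroup G := N ⊓ (Subgroup.center G) with hM
  have hMnt : Nontrivial M := ⟨⟨⟨z, Subgroup.mem_inf.mpr ⟨hzN, hzc⟩⟩, 1, fun h => hz1 (congrArg Subtype.val h)⟩⟩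
  obtain ⟨j, hj0, hj⟩ := (hG.to_subgroup M).nontrivial_iff_card.mp hMnt
  have hpM : p ∣ Nat.card M := by rw [hj]; exact dvd_pow_self p (ne_of_gt hj0)
  obtain ⟨w, hw⟩ := exists_prime_orderOf_dvd_card' p hpM
  obtain ⟨w, hwM⟩ := w
  have hwo : orderOf w = p := by
    rw [← hw]
    exact (Subgroup.orderOf_mk w hwM).symm
  have hwN : w ∈ N := (Subgroup.mem_inf.mp hwM).1
  have hwZ : w ∈ (Subgroup.center G) := (Subgroup.mem_inf.mp hwM).2
  set w' : (Subgroup.center G) := ⟨w, hwZ⟩ with hw'
  have hw'o : orderOf w' = p := by rw [hw', Subgroup.orderOf_mk, hwo]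
  have hw'K : w' ∈ K := by
    rw [hK, MonoidHom.mem_ker, powMonoidHom_apply, ← hw'o, pow_orderOf_eq_one]
  have hle : Subgroup.zpowers w' ≤ K := (Subgroup.zpowers_le).mpr hw'K
  have heq : Subgroup.zpowers w' = K := by
    apply Subgroup.eq_of_le_of_card_ge hle
    rw [hKcard, Nat.card_zpowers, hw'o]
  have hz₀w : (⟨z₀, hz₀⟩ : (Subgroup.center G)) ∈ Subgroup.zpowers w' := by rw [heq]; exact hz₀K'
  obtain ⟨i, hi⟩ := Subgroup.mem_zpowers_iff.mp hz₀w
  have hi' : w ^ i = z₀ := by
    have := congrArg Subtype.val hi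
    simpa using this
  rw [← hi']
  exact N.zpow_mem hwN i

/-- A finite p-group admits a faithful irreducible complex representation if and only if its centre is cyclic. -/
theorem result {G : Type*} [Group G] [Finite G] (p : ℕ) [Fact p.Prime] (hG : IsPGroup p G) : (∃ (n : ℕ) (ρ : Representation ℂ G (Fin n → ℂ)), ρ.IsIrreducible ∧ Function.Injective ρ) ↔ IsCyclic (Subgroup.center G) := by
  classical
  letI := Fintype.ofFinite G
  letI := Fintype.ofFinite (IrrCharacter G)
  constructor
  · rintro ⟨n, ρ, hirr, hinj⟩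
    haveI := hirr
    have hn : 0 < n := by
      have := Agent.Helper80.rep_finrank_pos ρ
      rwa [Module.finrank_fin_fun] at this
    have hnC : (n : ℂ) ≠ 0 := by exact_mod_cast hn.ne'
    have hsc : ∀ z : Subgroup.center G, ∃ c : ℂ, ρ (z : G) = c • (1 : Module.End ℂ (Fin n → ℂ)) := by
      intro z
      apply Agent.Helper80.schur_scalar ρ
      intro g
      rw [← map_mul, ← map_mul, Subgroup.mem_center_iff.mp z.2 g]
    choose c hc using hsc
    have hcancel : ∀ a b : ℂ, a • (1 : Module.End ℂ (Fin n → ℂ)) = b • 1 → a = b := by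
      intro a b hab
      have h1 := congrArg (LinearMap.trace ℂ (Fin n → ℂ)) hab
      rw [map_smul, map_smul, LinearMap.trace_one, Module.finrank_fin_fun, smul_eq_mul,
        smul_eq_mul] at h1
      exact mul_right_cancel₀ hnC h1
    let f : Subgroup.center G →* ℂ :=
      { toFun := c
        map_one' := by
          apply hcancel
          rw [← hc, one_smul]
          simp
        map_mul' := by
          intro x y
          apply hcancel
          rw [← hc, Subgroup.coe_mul, map_mul, hc x, hc y]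
          rw [smul_mul_smul_comm, mul_one] }
    apply isCyclic_of_injective_ringHom f
    intro x y hxy
    have hxy' : c x = c y := hxy
    apply Subtype.ext
    apply hinj
    rw [hc x, hc y, hxy']
  · intro hcyc
    -- find an irreducible rep with trivial kernel
    suffices h : ∃ (n : ℕ) (ρ : Representation ℂ G (Fin n → ℂ)), ρ.IsIrreducible ∧
        ∀ g : G, ρ g = 1 → g = 1 by
      obtain ⟨n, ρ, hirr, hker⟩ := h
      exact ⟨n, ρ, hirr, inj_of_ker ρ hker⟩
    by_cases hsub : Subsingleton G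
    · obtain ⟨n, ρ, hirr, -⟩ := (Agent.Helper79.trivIrr G).2
      exact ⟨n, ρ, hirr, fun g _ => Subsingleton.elim _ _⟩
    · rw [not_subsingleton_iff_nontrivial] at hsub
      obtain ⟨z₀, hz₀, hmin⟩ := exists_socle_elt p hG hcyc
      have h0 := Agent.Helper80.irr_sum_degree_mul (G := G) z₀
      rw [if_neg hz₀] at h0
      have h1 := Agent.Helper80.irr_sum_degree_mul (G := G) 1
      rw [if_pos rfl] at h1
      have hex : ∃ χ : IrrCharacter G, (χ : G → ℂ) z₀ ≠ (χ : G → ℂ) 1 := by
        by_contra hcon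
        push Not at hcon
        have : ∑ χ : IrrCharacter G, (χ : G → ℂ) 1 * (χ : G → ℂ) z₀
            = ∑ χ : IrrCharacter G, (χ : G → ℂ) 1 * (χ : G → ℂ) 1 :=
          Finset.sum_congr rfl (fun χ _ => by rw [hcon χ])
        rw [h0, h1] at this
        have hcard : (Fintype.card G : ℂ) ≠ 0 := by exact_mod_cast Fintype.card_ne_zero
        exact hcard this.symm
      obtain ⟨χ, hχ⟩ := hex
      obtain ⟨n, ρ, hirr, hρχ⟩ := χ.2
      refine ⟨n, ρ, hirr, ?_⟩
      intro g hg
      by_contra hg1
      have hker : ρ.ker ≠ ⊥ := by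
        intro h
        have : g ∈ ρ.ker := MonoidHom.mem_ker.mpr hg
        rw [h, Subgroup.mem_bot] at this
        exact hg1 this
      have hz := hmin ρ.ker (MonoidHom.normal_ker ρ) hker
      have hz' : ρ z₀ = ρ 1 := by rw [MonoidHom.mem_ker.mp hz, map_one]
      apply hχ
      rw [← hρχ]
      show LinearMap.trace ℂ _ (ρ z₀) = LinearMap.trace ℂ _ (ρ 1)
      rw [hz']

end Cfsg.Agent.S0184
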