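import Cfsg.Statements.S0185
import Mathlib
import Cfsg.Agent.Helper80.CharOrtho
import Cfsg.Agent.Helper81.CharBasic
import Cfsg.Agent.Helper79.Codegree

set_option autoImplicit false
open Cfsg

namespace Cfsg.Agent.S0185

/-- If a finite group has a faithful complex representation of degree less than the smallest prime dividing its order, the group is abelian. -/
theorem result {G : Type*} [Group G] [Finite G] {V : Type*} [AddCommGroup V] [Module ℂ V] [FiniteDimensional ℂ V] (ρ : Representation ℂ G V) (hfaithful : Function.Injective ρ) (hdeg : ∀ p : ℕ, p.Prime → p ∣ Nat.card G → Module.finrank ℂ V < p) (a b : G) : a * b = b * a := by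
  classical
  letI := Fintype.ofFinite G
  letI := Fintype.ofFinite (IrrCharacter G)
  obtain ⟨m, hm⟩ := Agent.Helper81.exists_mult_of_mem_natSpanIrr
    (Agent.Helper81.character_mem_natSpanIrr ρ)
  have hval : ∀ g : G, ρ.character g = ∑ χ : IrrCharacter G, (m χ : ℂ) * (χ : G → ℂ) g := by
    intro g
    rw [hm]
    simp [Finset.sum_apply]
  -- degree equation
  have hdegree : Module.finrank ℂ V = ∑ χ : IrrCharacter G, m χ * charDegree (χ : G → ℂ) := by
    have h1 := hval 1
    rw [Representation.char_one] at h1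
    have h2 : (∑ χ : IrrCharacter G, (m χ : ℂ) * (χ : G → ℂ) 1)
        = ((∑ χ : IrrCharacter G, m χ * charDegree (χ : G → ℂ) : ℕ) : ℂ) := by
      push_cast
      apply Finset.sum_congr rfl
      intro χ _
      rw [Agent.Helper80.irr_one_eq]
    rw [h2] at h1
    exact_mod_cast h1
  have hlin : ∀ χ : IrrCharacter G, m χ ≠ 0 → charDegree (χ : G → ℂ) = 1 := by
    intro χ hχ
    have hle : charDegree (χ : G → ℂ) ≤ Module.finrank ℂ V := by
      rw [hdegree]
      calc charDegree (χ : G → ℂ) ≤ m χ * charDegree (χ : G → ℂ) :=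
            Nat.le_mul_of_pos_left _ (Nat.pos_of_ne_zero hχ)
        _ ≤ _ := Finset.single_le_sum (f := fun χ : IrrCharacter G => m χ * charDegree (χ : G → ℂ))
            (fun _ _ => Nat.zero_le _) (Finset.mem_univ χ)
    have hdvd := Agent.Helper79.isIrrCharacter_charDegree_dvd_card χ.2
    by_contra hne
    obtain ⟨p, hp, hpd⟩ := Nat.exists_prime_and_dvd hne
    have h1 := hdeg p hp (hpd.trans hdvd)
    have h2 : p ≤ charDegree (χ : G → ℂ) := Nat.le_of_dvd (Agent.Helper81.charDegree_pos χ) hpd
    omega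
  have hcomm : ρ.character (a * b * a⁻¹ * b⁻¹) = ρ.character 1 := by
    rw [hval, hval]
    apply Finset.sum_congr rfl
    intro χ _
    by_cases hχ : m χ = 0
    · simp [hχ]
    · have h1 := hlin χ hχ
      have h2 : (χ : G → ℂ) 1 = 1 := by
        rw [Agent.Helper80.irr_one_eq, h1]; simp
      obtain ⟨n, σ, hσ, hσχ⟩ := χ.2
      obtain ⟨f, hf⟩ := Agent.Helper79.isCharacter_linear (G := G) (χ := (χ : G → ℂ)) ⟨n, σ, hσχ⟩ h2
      congr 1
      rw [hf, hf]
      have : f (a * b * a⁻¹ * b⁻¹) = f 1 := by
        rw [map_mul, map_mul, map_mul, map_inv, map_inv, map_one]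
        rw [mul_comm (f a) (f b)]
        simp
      rw [this]
  have h1 := Agent.Helper79.rep_eq_one_of_char_eq ρ _ hcomm
  have h2 : a * b * a⁻¹ * b⁻¹ = 1 := hfaithful (by rw [h1, map_one])
  calc a * b = (a * b * a⁻¹ * b⁻¹) * (b * a) := by group
    _ = b * a := by rw [h2, one_mul]

end Cfsg.Agent.S0185
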