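import Cfsg.Statements.S0186
import Mathlib
import Cfsg.Agent.Helper80.CharOrtho
import Cfsg.Agent.Helper79.Codegree
import Cfsg.Agent.S0185

set_option autoImplicit false
open Cfsg

namespace Cfsg.Agent.S0186

/-- Let G be a finite simple group of order n and p a prime dividing n. If G has more than n / p^2 conjugacy classes, then every Sylow p-subgroup of G is abelian. -/
theorem result {G : Type*} [Group G] [Finite G] [IsSimpleGroup G] (p : ℕ) [Fact p.Prime] (hp : p ∣ Nat.card G) (hmany : Nat.card G < p ^ 2 * Nat.card (ConjClasses G)) (P : Sylow p G) (a b : G) (ha : a ∈ P) (hb : b ∈ P) : a * b = b * a := by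
  classical
  by_contra hab
  letI := Fintype.ofFinite G
  letI := Fintype.ofFinite (IrrCharacter G)
  have hpp : p.Prime := Fact.out
  -- p^2 ∣ |G|
  have hp2 : p ^ 2 ∣ Nat.card G := by
    obtain ⟨n, hn⟩ := IsPGroup.iff_card.mp P.isPGroup'
    have hPG : Nat.card (P : Subgroup G) ∣ Nat.card G := Subgroup.card_subgroup_dvd_card _
    have hn2 : 2 ≤ n := by
      by_contra hlt
      have hn01 : n = 0 ∨ n = 1 := by omega
      rcases hn01 with h0 | h1
      · rw [h0, pow_zero] at hn
        have hss : Subsingleton (P : Subgroup G) := (Nat.card_eq_one_iff_unique.mp hn).1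
        have := Subsingleton.elim (⟨a, ha⟩ : (P : Subgroup G)) ⟨b, hb⟩
        have hab' : a = b := congrArg Subtype.val this
        exact hab (by rw [hab'])
      · rw [h1, pow_one] at hn
        haveI := isCyclic_of_prime_card hn
        have h3 := (IsCyclic.commGroup (α := (P : Subgroup G))).mul_comm ⟨a, ha⟩ ⟨b, hb⟩
        exact hab (congrArg Subtype.val h3)
    have : p ^ 2 ∣ p ^ n := pow_dvd_pow p hn2
    exact (this.trans (hn ▸ dvd_rfl)).trans hPG
  -- every nontrivial irreducible character has degree ≥ p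
  have hdeg : ∀ χ : IrrCharacter G, χ ≠ Agent.Helper79.trivIrr G → p ≤ charDegree (χ : G → ℂ) := by
    intro χ hχ
    by_contra hlt
    have hker := Agent.Helper79.irr_card_ker_of_isSimpleGroup χ hχ
    obtain ⟨n, σ, hσ, hσχ⟩ := χ.2
    have hn : charDegree (χ : G → ℂ) = n := by
      have h1 := Agent.Helper80.irr_one_eq χ
      have h2 : (χ : G → ℂ) 1 = n := by rw [← hσχ, Representation.char_one]; simp
      rw [h2] at h1
      exact_mod_cast h1.symm
    have hinj1 : ∀ g : G, σ g = 1 → g = 1 := by
      intro g hg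
      have h1 : (χ : G → ℂ) g = (χ : G → ℂ) 1 := by
        have h0 : σ g = σ 1 := by rw [hg, map_one]
        rw [← hσχ]
        show LinearMap.trace ℂ _ (σ g) = LinearMap.trace ℂ _ (σ 1)
        rw [h0]
      have hss : Subsingleton {g : G // (χ : G → ℂ) g = (χ : G → ℂ) 1} :=
        (Nat.card_eq_one_iff_unique.mp hker).1
      have := Subsingleton.elim (⟨g, h1⟩ : {g : G // (χ : G → ℂ) g = (χ : G → ℂ) 1}) ⟨1, rfl⟩
      exact congrArg Subtype.val this
    let τ : Representation ℂ (P : Subgroup G) (Fin n → ℂ) := σ.comp (P : Subgroup G).subtype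
    have hτ : Function.Injective τ := by
      intro x y hxy
      have h1 : σ ((x : G) * (y : G)⁻¹) = 1 := by
        have h2 : σ (x : G) = σ (y : G) := hxy
        rw [map_mul, h2, ← map_mul, mul_inv_cancel, map_one]
      have h3 := hinj1 _ h1
      exact Subtype.ext (mul_inv_eq_one.mp h3)
    have hab2 := Agent.S0185.result τ hτ (by
      intro q hq hqd
      obtain ⟨k, hk⟩ := IsPGroup.iff_card.mp P.isPGroup'
      rw [hk] at hqd
      have hqp : q = p := (Nat.prime_dvd_prime_iff_eq hq hpp).mp (hq.dvd_of_dvd_pow hqd)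
      rw [Module.finrank_fin_fun, hqp, ← hn]
      omega) (⟨a, ha⟩ : (P : Subgroup G)) ⟨b, hb⟩
    exact hab (congrArg Subtype.val hab2)
  have hsum := Agent.Helper80.irr_sum_charDegree_sq (G := G)
  have hk := Agent.Helper80.card_irr_eq_card_conjClasses (G := G)
  rw [← hk] at hmany
  rw [Nat.card_eq_fintype_card] at hmany hp2
  rw [← hsum] at hmany hp2
  have hlow : 1 + (Fintype.card (IrrCharacter G) - 1) * p ^ 2
      ≤ ∑ χ : IrrCharacter G, charDegree (χ : G → ℂ) ^ 2 := by
    rw [← Finset.add_sum_erase Finset.univ _ (Finset.mem_univ (Agent.Helper79.trivIrr G))]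
    have h1 : 1 ≤ charDegree ((Agent.Helper79.trivIrr G : IrrCharacter G) : G → ℂ) ^ 2 :=
      Nat.one_le_pow _ _ (Agent.Helper81.charDegree_pos _)
    have h2 : (Fintype.card (IrrCharacter G) - 1) * p ^ 2
        ≤ ∑ χ ∈ Finset.univ.erase (Agent.Helper79.trivIrr G), charDegree (χ : G → ℂ) ^ 2 := by
      have h3 : (Finset.univ.erase (Agent.Helper79.trivIrr G)).card
          = Fintype.card (IrrCharacter G) - 1 := by
        rw [Finset.card_erase_of_mem (Finset.mem_univ _), Finset.card_univ]
      rw [← h3, ← smul_eq_mul]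
      apply Finset.card_nsmul_le_sum
      intro χ hχ
      exact Nat.pow_le_pow_left (hdeg χ (Finset.ne_of_mem_erase hχ)) 2
    omega
  obtain ⟨t, ht⟩ := hp2
  rw [ht] at hmany hlow
  have hpos : 0 < p ^ 2 := pow_pos hpp.pos 2
  have htk : t < Fintype.card (IrrCharacter G) := lt_of_mul_lt_mul_left hmany (Nat.zero_le _)
  have : p ^ 2 * t ≤ p ^ 2 * (Fintype.card (IrrCharacter G) - 1) :=
    Nat.mul_le_mul_left _ (by omega)
  nlinarith

end Cfsg.Agent.S0186
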