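import Cfsg.Statements.S0187
import Mathlib
import Cfsg.Agent.Helper80.CharOrtho

set_option autoImplicit false
open Cfsg

namespace Cfsg.Agent.S0187

/-- A finite group is commutative if and only if every irreducible complex character has degree 1. -/
theorem result {G : Type*} [Group G] [Finite G] : (∀ a b : G, a * b = b * a) ↔ ∀ χ : Cfsg.IrrCharacter G, (χ : G → ℂ) 1 = 1 := by
  constructor
  · intro hcomm χ
    obtain ⟨n, ρ, hirr, hχ⟩ := χ.2
    have hcm : IsMulCommutative G := ⟨⟨hcomm⟩⟩
    have h1 := Representation.IsIrreducible.finrank_eq_one_of_isMulCommutative ρ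
    rw [← hχ, Representation.char_one, h1]; simp
  · intro hdeg a b
    classical
    letI := Fintype.ofFinite G
    letI := Fintype.ofFinite (IrrCharacter G)
    have h1 := Agent.Helper80.irr_sum_charDegree_sq (G := G)
    have h2 : ∀ χ : IrrCharacter G, charDegree (χ : G → ℂ) = 1 := by
      intro χ
      have := Agent.Helper80.irr_one_eq χ
      rw [hdeg χ] at this
      exact_mod_cast this.symm
    simp only [h2, one_pow, Finset.sum_const, Finset.card_univ, smul_eq_mul, mul_one] at h1
    have h3 := Agent.Helper80.card_irr_eq_card_conjClasses (G := G)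
    have h4 : Nat.card G ≤ Nat.card (ConjClasses G) := by
      rw [← h3, h1, Nat.card_eq_fintype_card]
    have hbij := (ConjClasses.mk_surjective (α := G)).bijective_of_nat_card_le h4
    have h5 : ConjClasses.mk (b * a * b⁻¹) = ConjClasses.mk a :=
      ConjClasses.mk_eq_mk_iff_isConj.mpr (isConj_iff.mpr ⟨b⁻¹, by group⟩)
    have h6 := hbij.1 h5
    calc a * b = (b * a * b⁻¹) * b := by rw [h6]
      _ = b * a := by group

end Cfsg.Agent.S0187
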