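import Cfsg.Statements.S0189
import Mathlib

set_option autoImplicit false
open Cfsg

namespace Cfsg.Agent.S0189

/-- If a complex character of a finite group vanishes at every non-identity element of a Sylow p-subgroup P, then |P| divides its degree. -/
theorem result {G : Type*} [Group G] [Finite G] (p : ℕ) [Fact p.Prime] (P : Sylow p G) (χ : G → ℂ) (hχ : Cfsg.IsCharacter G χ) (hvan : ∀ g : G, g ∈ P → g ≠ 1 → χ g = 0) : ∃ k : ℕ, χ 1 = (Nat.card P : ℂ) * k := by
  classical
  obtain ⟨n, ρ, rfl⟩ := hχ
  have := Fintype.ofFinite ↥P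
  have hne : (Nat.card ↥P : ℂ) ≠ 0 := by exact_mod_cast Nat.card_pos.ne'
  have hinv : Invertible (Nat.card ↥P : ℂ) := invertibleOfNonzero hne
  let ρP : Representation ℂ ↥P (Fin n → ℂ) := ρ.comp (P : Subgroup G).subtype
  have h := Representation.card_inv_mul_sum_char_eq_finrank ρP
  refine ⟨Module.finrank ℂ (Representation.invariants ρP), ?_⟩
  rw [← h]
  have hsum : ∑ g : ↥P, ρP.character g = ρ.character 1 := by
    rw [Finset.sum_eq_single (1 : ↥P)]
    · rfl
    · intro g _ hg
      exact hvan g.1 g.2 (fun h => hg (Subtype.ext h))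
    · intro h; exact absurd (Finset.mem_univ _) h
  rw [hsum]
  field_simp
  rfl

end Cfsg.Agent.S0189
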