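import Cfsg.Statements.S0190
import Mathlib
import Cfsg.Agent.Helper3.IndFun

set_option autoImplicit false
open Cfsg

namespace Cfsg.Agent.S0190

/-- For a transitive action of a finite group on X, the permutation character g ↦ (number of fixed points of g) is the function induced from the principal character of the stabilizer of any point. -/
theorem result {G : Type*} [Group G] [Fintype G] (X : Type*) [MulAction G X] [Finite X] [MulAction.IsPretransitive G X] (x : X) : (fun g : G => (Nat.card (MulAction.fixedBy X g) : ℂ)) = Cfsg.indFun (MulAction.stabilizer G x) (fun _ => 1) := by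
  classical
  have := Fintype.ofFinite X
  funext g
  unfold Cfsg.indFun
  have hext : ∀ z : G, Cfsg.extendByZero (MulAction.stabilizer G x) (fun _ => (1 : ℂ)) z
      = if z ∈ MulAction.stabilizer G x then 1 else 0 := by
    intro z
    by_cases hz : z ∈ MulAction.stabilizer G x
    · rw [if_pos hz, Helper3.extendByZero_of_mem _ _ hz]
    · rw [if_neg hz, Helper3.extendByZero_of_not_mem _ _ hz]
  simp only [hext]
  rw [Finset.sum_boole]
  have key : (Finset.univ.filter (fun y : G => y⁻¹ * g * y ∈ MulAction.stabilizer G x)).card
      = Nat.card (MulAction.fixedBy X g) * Nat.card (MulAction.stabilizer G x) := by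
    have hmaps : ∀ y ∈ Finset.univ.filter (fun y : G => y⁻¹ * g * y ∈ MulAction.stabilizer G x),
        y • x ∈ Finset.univ.filter (fun z : X => g • z = z) := by
      intro y hy
      rw [Finset.mem_filter] at hy ⊢
      refine ⟨Finset.mem_univ _, ?_⟩
      have h1 : (y⁻¹ * g * y) • x = x := MulAction.mem_stabilizer_iff.mp hy.2
      calc g • y • x = y • ((y⁻¹ * g * y) • x) := by
            rw [smul_smul, smul_smul]; congr 1; group
        _ = y • x := by rw [h1]
    rw [Finset.card_eq_sum_card_fiberwise hmaps]
    have hfib : ∀ z ∈ Finset.univ.filter (fun z : X => g • z = z),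
        ((Finset.univ.filter (fun y : G => y⁻¹ * g * y ∈ MulAction.stabilizer G x)).filter
          (fun y => y • x = z)).card = Nat.card (MulAction.stabilizer G x) := by
      intro z hz
      rw [Finset.mem_filter] at hz
      obtain ⟨y0, hy0⟩ := MulAction.exists_smul_eq G x z
      have e : Nat.card (MulAction.stabilizer G x) = Nat.card {y : G // y • x = z} :=
        Nat.card_congr
          ⟨fun h => ⟨y0 * h.1, by rw [mul_smul, MulAction.mem_stabilizer_iff.mp h.2, hy0]⟩,
           fun y => ⟨y0⁻¹ * y.1, by
             rw [MulAction.mem_stabilizer_iff, mul_smul, y.2, ← hy0, inv_smul_smul]⟩,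
           fun h => by apply Subtype.ext; simp,
           fun y => by apply Subtype.ext; simp⟩
      rw [e, Finset.filter_filter, Nat.card_eq_fintype_card, Fintype.card_subtype]
      congr 1
      apply Finset.filter_congr
      intro y _
      constructor
      · intro h; exact h.2
      · intro h
        refine ⟨?_, h⟩
        rw [MulAction.mem_stabilizer_iff, mul_smul, mul_smul, h, hz.2, ← h, inv_smul_smul]
    rw [Finset.sum_congr rfl hfib, Finset.sum_const, smul_eq_mul]
    congr 1
    rw [Nat.card_eq_fintype_card, ← Fintype.card_subtype]
    rfl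
  rw [key]
  have hne : (Nat.card (MulAction.stabilizer G x) : ℂ) ≠ 0 := by
    exact_mod_cast Nat.card_pos.ne'
  push_cast
  field_simp

end Cfsg.Agent.S0190
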