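import Cfsg.Statements.S0191
import Cfsg.Agent.Helper75.Zeros

set_option autoImplicit false
open Cfsg

namespace Cfsg.Agent.S0191

/-- An irreducible complex representation of a finite group of degree greater than 1 has a character that vanishes somewhere. -/
theorem result {G : Type*} [Group G] [Finite G] {V : Type*} [AddCommGroup V] [Module ℂ V] [FiniteDimensional ℂ V] (ρ : Representation ℂ G V) [ρ.IsIrreducible] (hdeg : 1 < Module.finrank ℂ V) : ∃ g : G, ρ.character g = 0 := by
  classical
  by_contra hcon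
  push Not at hcon
  have : Fintype G := Fintype.ofFinite G
  have hm : Nat.card G ≠ 0 := Nat.card_pos.ne'
  have hne : (Nat.card G : ℂ) ≠ 0 := by exact_mod_cast hm
  have : Invertible (Nat.card G : ℂ) := invertibleOfNonzero hne
  -- first orthogonality: the sum of |χ g|² is |G|
  have horth := Representation.char_orthonormal ρ ρ
  rw [if_pos ⟨Representation.Equiv.refl ρ⟩] at horth
  have hsumC : ∑ g : G, ρ.character g * ρ.character g⁻¹ = (Nat.card G : ℂ) := by
    have h1 := congrArg (fun z => (Nat.card G : ℂ) * z) horth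
    simp only [← mul_assoc, mul_inv_cancel₀ hne, one_mul, mul_one] at h1
    simpa using h1
  have hsumR : ∑ g : G, ‖ρ.character g‖ ^ 2 = (Nat.card G : ℝ) := by
    have h2 : ((∑ g : G, ‖ρ.character g‖ ^ 2 : ℝ) : ℂ) = (Nat.card G : ℂ) := by
      rw [← hsumC]
      push_cast
      apply Finset.sum_congr rfl
      intro g _
      rw [Cfsg.Agent.Helper75.character_inv_eq_conj, Complex.mul_conj, Complex.normSq_eq_norm_sq]
      push_cast
      rfl
    exact_mod_cast h2
  -- Burnside's argument on G minus the identity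
  have hS : ∀ g ∈ (Finset.univ.erase (1 : G)), ∀ u : (ZMod (Nat.card G))ˣ,
      Cfsg.Agent.Helper75.upow g u ∈ (Finset.univ.erase (1 : G)) := by
    intro g hg u
    rw [Finset.mem_erase] at hg ⊢
    refine ⟨fun h => hg.1 ?_, Finset.mem_univ _⟩
    have h1 : Cfsg.Agent.Helper75.upowEquiv u g = Cfsg.Agent.Helper75.upowEquiv u 1 := by
      show Cfsg.Agent.Helper75.upow g u = Cfsg.Agent.Helper75.upow 1 u
      rw [h]; unfold Cfsg.Agent.Helper75.upow; simp
    exact (Cfsg.Agent.Helper75.upowEquiv u).injective h1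
  have hB := Cfsg.Agent.Helper75.card_filter_le_sum_normSq ρ (Finset.univ.erase (1 : G)) hS
  have hfilter : (Finset.univ.erase (1 : G)).filter (fun g => ρ.character g ≠ 0) =
      Finset.univ.erase (1 : G) := Finset.filter_true_of_mem (fun g _ => hcon g)
  rw [hfilter, Finset.card_erase_of_mem (Finset.mem_univ _), Finset.card_univ] at hB
  have hsplit : ∑ g ∈ Finset.univ.erase (1 : G), ‖ρ.character g‖ ^ 2 =
      (Nat.card G : ℝ) - ‖ρ.character 1‖ ^ 2 := by
    rw [← hsumR, ← Finset.add_sum_erase Finset.univ _ (Finset.mem_univ (1 : G))]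
    ring
  rw [hsplit, Representation.char_one, Nat.card_eq_fintype_card] at hB
  have hd : (2 : ℝ) ≤ (Module.finrank ℂ V : ℝ) := by exact_mod_cast hdeg
  have hcard1 : (1 : ℝ) ≤ (Fintype.card G : ℝ) := by
    exact_mod_cast Fintype.card_pos
  rw [Nat.cast_sub Fintype.card_pos] at hB
  have hnorm : ‖((Module.finrank ℂ V : ℕ) : ℂ)‖ = (Module.finrank ℂ V : ℝ) := by
    rw [Complex.norm_natCast]
  rw [hnorm] at hB
  push_cast at hB
  nlinarith

end Cfsg.Agent.S0191
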