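import Cfsg.Statements.S0192
import Mathlib
import Cfsg.Agent.Helper79.Codegree

set_option autoImplicit false
open Cfsg

namespace Cfsg.Agent.S0192

theorem classInner_restrict_one {G : Type*} [Group G] {n : ℕ}
    (ρ : Representation ℂ G (Fin n → ℂ)) (H : Subgroup G) [Fintype H] :
    Cfsg.classInner (fun x : H => ρ.character x) (fun _ => 1)
      = (Module.finrank ℂ (Representation.invariants
          (ρ.comp H.subtype : Representation ℂ H (Fin n → ℂ))) : ℂ) := by
  have hne : (Nat.card H : ℂ) ≠ 0 := by exact_mod_cast Nat.card_pos.ne'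
  have hinv : Invertible (Nat.card H : ℂ) := invertibleOfNonzero hne
  rw [← Representation.card_inv_mul_sum_char_eq_finrank]
  unfold Cfsg.classInner
  simp only [map_one, mul_one]
  rfl

/-- Brauer's generation criterion. Let G be a finite simple group, H₁ and H₂ subgroups, and χ a non-principal irreducible character. If the multiplicity of the principal character in χ restricted to H₁ ⊓ H₂ is less than the sum of the corresponding multiplicities for H₁ and H₂, then H₁ and H₂ do not generate G. -/
theorem result {G : Type*} [Group G] [Fintype G] [IsSimpleGroup G] (H₁ H₂ : Subgroup G) [Fintype H₁] [Fintype H₂] [Fintype ↥(H₁ ⊓ H₂)] (χ : G → ℂ) (hχ : Cfsg.IsIrrCharacter G χ) (hχ1 : χ ≠ fun _ => 1) (hlt : (Cfsg.classInner (fun x : ↥(H₁ ⊓ H₂) => χ x) (fun _ => 1)).re < (Cfsg.classInner (fun x : H₁ => χ x) (fun _ => 1)).re + (Cfsg.classInner (fun x : H₂ => χ x) (fun _ => 1)).re) : H₁ ⊔ H₂ ≠ ⊤ := by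
  obtain ⟨n, ρ, hirr, rfl⟩ := hχ
  intro htop
  rw [classInner_restrict_one, classInner_restrict_one, classInner_restrict_one] at hlt
  simp only [Complex.natCast_re] at hlt
  have hlt' : Module.finrank ℂ (Representation.invariants
        (ρ.comp (H₁ ⊓ H₂).subtype : Representation ℂ ↥(H₁ ⊓ H₂) (Fin n → ℂ)))
      < Module.finrank ℂ (Representation.invariants
        (ρ.comp H₁.subtype : Representation ℂ H₁ (Fin n → ℂ)))
      + Module.finrank ℂ (Representation.invariants
        (ρ.comp H₂.subtype : Representation ℂ H₂ (Fin n → ℂ))) := by exact_mod_cast hlt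
  have hle1 : Representation.invariants (ρ.comp H₁.subtype : Representation ℂ H₁ (Fin n → ℂ))
      ≤ Representation.invariants
        (ρ.comp (H₁ ⊓ H₂).subtype : Representation ℂ ↥(H₁ ⊓ H₂) (Fin n → ℂ)) := by
    intro v hv h
    exact hv ⟨h.1, (Subgroup.mem_inf.mp h.2).1⟩
  have hle2 : Representation.invariants (ρ.comp H₂.subtype : Representation ℂ H₂ (Fin n → ℂ))
      ≤ Representation.invariants
        (ρ.comp (H₁ ⊓ H₂).subtype : Representation ℂ ↥(H₁ ⊓ H₂) (Fin n → ℂ)) := by
    intro v hv h
    exact hv ⟨h.1, (Subgroup.mem_inf.mp h.2).2⟩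
  have hinf : Representation.invariants (ρ.comp H₁.subtype : Representation ℂ H₁ (Fin n → ℂ))
      ⊓ Representation.invariants (ρ.comp H₂.subtype : Representation ℂ H₂ (Fin n → ℂ)) = ⊥ := by
    rw [eq_bot_iff]
    intro v hv
    obtain ⟨hv1, hv2⟩ := Submodule.mem_inf.mp hv
    let K : Subgroup G :=
      { carrier := {g | ρ g v = v}
        mul_mem' := fun {a b} ha hb => by
          show ρ (a * b) v = v
          have ha' : ρ a v = v := ha
          have hb' : ρ b v = v := hb
          rw [map_mul, Module.End.mul_apply, hb', ha']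
        one_mem' := by show ρ 1 v = v; rw [map_one]; rfl
        inv_mem' := fun {a} ha => by
          show ρ a⁻¹ v = v
          have ha' : ρ a v = v := ha
          have : ρ a⁻¹ (ρ a v) = v := by
            rw [← Module.End.mul_apply, ← map_mul, inv_mul_cancel, map_one]; rfl
          rwa [ha'] at this }
    have hK1 : H₁ ≤ K := fun g hg => hv1 ⟨g, hg⟩
    have hK2 : H₂ ≤ K := fun g hg => hv2 ⟨g, hg⟩
    have hKtop : K = ⊤ := top_le_iff.mp (htop ▸ sup_le hK1 hK2)
    have hGv : ∀ g : G, ρ g v = v := fun g => by
      have : g ∈ K := hKtop ▸ Subgroup.mem_top g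
      exact this
    obtain ⟨_, hS⟩ := (Helper79.isIrreducible_iff ρ).mp hirr
    rcases hS (Representation.invariants ρ) (fun g w hw => by rw [hw g]; exact hw) with h0 | h1
    · have : v ∈ Representation.invariants ρ := hGv
      rw [h0] at this; exact this
    · exfalso
      apply hχ1
      have hall : ∀ g : G, ρ.character g = ρ.character 1 := by
        intro g
        have hg : ρ g = 1 := by
          apply LinearMap.ext
          intro w
          have hw : w ∈ Representation.invariants ρ := h1 ▸ Submodule.mem_top
          exact hw g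
        unfold Representation.character; rw [hg, map_one ρ]
      have := Helper79.irr_eq_trivIrr_of_ker ⟨ρ.character, n, ρ, hirr, rfl⟩ hall
      exact congrArg Subtype.val this
  have hdim := Submodule.finrank_sup_add_finrank_inf_eq
    (Representation.invariants (ρ.comp H₁.subtype : Representation ℂ H₁ (Fin n → ℂ)))
    (Representation.invariants (ρ.comp H₂.subtype : Representation ℂ H₂ (Fin n → ℂ)))
  rw [hinf, finrank_bot, add_zero] at hdim
  have hsup := Submodule.finrank_mono (sup_le hle1 hle2)
  omega

end Cfsg.Agent.S0192
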