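import Cfsg.Statements.S0193
import Mathlib
import Cfsg.Agent.Helper4.IndNormal

set_option autoImplicit false
open Cfsg

namespace Cfsg.Agent.S0193

/-- Let H be a normal subgroup of a finite group G and θ an irreducible character of H. Then |H| times the inner product of the induced function of θ with itself equals the number of g in G with θ(g h g⁻¹) = θ(h) for all h in H; in particular the induced character is irreducible when only elements of H stabilise θ. -/
theorem result {G : Type*} [Group G] [Fintype G] (H : Subgroup G) [hN : H.Normal] (θ : H → ℂ) (hθ : Cfsg.IsIrrCharacter H θ) : (Nat.card H : ℂ) * Cfsg.classInner (Cfsg.indFun H θ) (Cfsg.indFun H θ) = (Nat.card {g : G // ∀ h : H, θ ⟨g * h * g⁻¹, hN.conj_mem h h.2 g⟩ = θ h} : ℂ) := by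
  classical
  letI : Fintype H := Fintype.ofFinite H
  rw [Agent.Helper4.classInner_indFun_normal H θ θ]
  have hcard : (Nat.card H : ℂ) ≠ 0 := by exact_mod_cast Nat.card_pos.ne'
  rw [← mul_assoc, mul_inv_cancel₀ hcard, one_mul]
  have h1 : ∀ x : G, classInner θ (Agent.Helper4.conjFun H x θ)
      = if θ = Agent.Helper4.conjFun H x θ then 1 else 0 :=
    fun x => Agent.Helper4.classInner_irr hθ (Agent.Helper4.isIrrCharacter_conjFun H x hθ)
  rw [Finset.sum_congr rfl (fun x _ => h1 x), Finset.sum_boole]
  congr 1
  rw [Nat.card_eq_fintype_card, Fintype.card_subtype]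
  symm
  apply Finset.card_bij (fun g _ => g⁻¹)
  · intro g hg
    rw [Finset.mem_filter] at hg ⊢
    refine ⟨Finset.mem_univ _, ?_⟩
    funext h
    rw [Agent.Helper4.conjFun_apply]
    rw [← hg.2 h]
    congr 1
    apply Subtype.ext
    simp
  · intro a _ b _ hab
    exact inv_injective hab
  · intro x hx
    rw [Finset.mem_filter] at hx
    refine ⟨x⁻¹, ?_, inv_inv x⟩
    rw [Finset.mem_filter]
    refine ⟨Finset.mem_univ _, ?_⟩
    intro h
    have h2 := congrFun hx.2 h
    rw [Agent.Helper4.conjFun_apply] at h2
    rw [h2]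
    congr 1
    apply Subtype.ext
    simp

end Cfsg.Agent.S0193
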