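import Cfsg.Statements.S0194
import Mathlib
import Cfsg.Agent.Helper4.IndNormal

set_option autoImplicit false
open scoped ComplexConjugate
open Cfsg

namespace Cfsg.Agent.S0194

/-- Let G have odd order, H be a normal subgroup and θ a non-principal irreducible character of H. Then the function induced from θ is orthogonal to its complex conjugate. -/
theorem result {G : Type*} [Group G] [Fintype G] (hodd : Odd (Nat.card G)) (H : Subgroup G) [H.Normal] (θ : H → ℂ) (hθ : Cfsg.IsIrrCharacter H θ) (hθ1 : θ ≠ fun _ => 1) : Cfsg.classInner (fun g => conj (Cfsg.indFun H θ g)) (Cfsg.indFun H θ) = 0 := by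
  classical
  letI : Fintype H := Fintype.ofFinite H
  have hconj : (fun g => conj (Cfsg.indFun H θ g)) = Cfsg.indFun H (fun h => conj (θ h)) :=
    funext (fun g => Agent.Helper4.conj_indFun H θ g)
  rw [hconj, Agent.Helper4.classInner_indFun_normal H _ θ]
  have hθc : IsIrrCharacter H (fun h => conj (θ h)) := Agent.Helper79.isIrrCharacter_conj hθ
  have hoddH : Odd (Nat.card H) := by
    have hdvd : Nat.card H ∣ Nat.card G := Subgroup.card_subgroup_dvd_card H
    exact hodd.of_dvd_nat hdvd
  have h1 : ∀ x : G, classInner (fun h => conj (θ h)) (Agent.Helper4.conjFun H x θ) = 0 := by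
    intro x
    rw [Agent.Helper4.classInner_irr hθc (Agent.Helper4.isIrrCharacter_conjFun H x hθ)]
    apply if_neg
    intro heq
    -- T θ = conj θ, T (conj θ) = θ
    have hT1 : Agent.Helper4.conjFun H x θ = fun h => conj (θ h) := heq.symm
    have hT2 : Agent.Helper4.conjFun H x (fun h => conj (θ h)) = θ := by
      rw [Agent.Helper4.conjFun_conj, hT1]
      funext h
      simp
    have hiter : ∀ k : ℕ, (Agent.Helper4.conjFun H x)^[2 * k] θ = θ ∧
        (Agent.Helper4.conjFun H x)^[2 * k + 1] θ = fun h => conj (θ h) := by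
      intro k
      induction k with
      | zero => exact ⟨rfl, by simpa using hT1⟩
      | succ k ih =>
        have h2 : (Agent.Helper4.conjFun H x)^[2 * (k + 1)] θ = θ := by
          rw [show 2 * (k + 1) = (2 * k + 1) + 1 by ring, Function.iterate_succ_apply', ih.2, hT2]
        refine ⟨h2, ?_⟩
        rw [Function.iterate_succ_apply', h2, hT1]
    have hoddx : Odd (orderOf x) := hodd.of_dvd_nat (orderOf_dvd_natCard x)
    obtain ⟨m, hm⟩ := hoddx
    have h3 := Agent.Helper4.conjFun_pow H x (orderOf x) θ
    rw [pow_orderOf_eq_one, Agent.Helper4.conjFun_one, hm, (hiter m).2] at h3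
    -- θ is real
    have hreal : ∀ h : H, conj (θ h) = θ h := fun h => (congrFun h3 h).symm
    exact hθ1 (Agent.Helper4.irr_eq_one_of_real_of_odd hoddH hθ hreal)
  rw [Finset.sum_congr rfl (fun x _ => h1 x)]
  simp

end Cfsg.Agent.S0194
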