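import Cfsg.Statements.S0196
import Mathlib

set_option autoImplicit false
open Cfsg

namespace Cfsg.Agent.S0196

theorem dvd_card_of_index_stabilizer {K X : Type*} [Group K] [Finite K] [MulAction K X] [Finite X]
    (d : ℕ) (h : ∀ x : X, (MulAction.stabilizer K x).index = d) : d ∣ Nat.card X := by
  classical
  haveI := Fintype.ofFinite (Quotient (MulAction.orbitRel K X))
  have e := MulAction.selfEquivSigmaOrbitsQuotientStabilizer K X
  rw [Nat.card_congr e, Nat.card_sigma]
  apply Finset.dvd_sum
  intro ω _
  rw [← h (Quotient.out ω)]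
  rfl

/-- conjugation action of the normalizer of `A` on the non-identity elements of `A` -/
def conjAct {G : Type*} [Group G] (A : Subgroup G) :
    MulAction (Subgroup.normalizer (A : Set G)) {a : G // a ∈ A ∧ a ≠ 1} where
  smul n a := ⟨n.1 * a.1 * n.1⁻¹, (Subgroup.mem_normalizer_iff.mp n.2 a.1).mp a.2.1, fun h =>
    a.2.2 (by
      have : a.1 = n.1⁻¹ * (n.1 * a.1 * n.1⁻¹) * n.1 := by group
      rw [this, h]; group)⟩
  one_smul a := by
    apply Subtype.ext
    show (1 : G) * a.1 * (1 : G)⁻¹ = a.1
    group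
  mul_smul m n a := by
    apply Subtype.ext
    show (m.1 * n.1) * a.1 * (m.1 * n.1)⁻¹ = m.1 * (n.1 * a.1 * n.1⁻¹) * m.1⁻¹
    group

/-- Let A be a subgroup of a finite group G that equals the centralizer of each of its non-identity elements, and let N be its normalizer. Then the index of A in N divides |A| − 1 (N/A permutes the non-identity elements of A in orbits of full length). -/
theorem result {G : Type*} [Group G] [Finite G] (A : Subgroup G) (hA : ∀ x ∈ A, x ≠ 1 → Subgroup.centralizer ({x} : Set G) = A) : (A.subgroupOf (Subgroup.normalizer (A : Set G))).index ∣ Nat.card A - 1 := by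
  letI := conjAct A
  have hstab : ∀ a : {a : G // a ∈ A ∧ a ≠ 1},
      (MulAction.stabilizer (Subgroup.normalizer (A : Set G)) a).index
        = (A.subgroupOf (Subgroup.normalizer (A : Set G))).index := by
    intro a
    congr 1
    ext n
    rw [MulAction.mem_stabilizer_iff, Subgroup.mem_subgroupOf]
    have hC := hA a.1 a.2.1 a.2.2
    have key : n.1 ∈ A ↔ n.1 * a.1 = a.1 * n.1 := by
      rw [← Subgroup.mem_centralizer_singleton_iff, hC]
    rw [key]
    constructor
    · intro h
      have h' : n.1 * a.1 * n.1⁻¹ = a.1 := congrArg Subtype.val h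
      calc n.1 * a.1 = (n.1 * a.1 * n.1⁻¹) * n.1 := by group
        _ = a.1 * n.1 := by rw [h']
    · intro h
      apply Subtype.ext
      show n.1 * a.1 * n.1⁻¹ = a.1
      rw [h]; group
  have hd := dvd_card_of_index_stabilizer _ hstab
  have hX : Nat.card {a : G // a ∈ A ∧ a ≠ 1} = Nat.card A - 1 := by
    have h1 : {a : G | a ∈ A ∧ a ≠ 1} = (A : Set G) \ {1} := by ext; simp
    have h2 : Nat.card {a : G // a ∈ A ∧ a ≠ 1} = ({a : G | a ∈ A ∧ a ≠ 1}).ncard :=
      Nat.card_coe_set_eq _
    rw [h2, h1, Set.ncard_sdiff_singleton_of_mem (one_mem A), ← Nat.card_coe_set_eq]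
    rfl
  rw [← hX]; exact hd

end Cfsg.Agent.S0196
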