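import Cfsg.Statements.S0198
import Mathlib
import Cfsg.Agent.Helper4.GenChar
import Cfsg.Agent.Helper79.Basic

set_option autoImplicit false
open Cfsg

namespace Cfsg.Agent.S0198

/-- The isometry lemma behind exceptional characters. Let τ be a family of generalized characters of a finite group G indexed by Fin n, with τ i₀ = 0, every τ i vanishing at the identity, and inner products ⟨τ i, τ j⟩ = 2 if i = j and 1 otherwise for i, j ≠ i₀. Then there are a sign ε and pairwise distinct irreducible characters μ i with τ i = ε (μ i − μ i₀) for all i. -/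
theorem result {G : Type*} [Group G] [Fintype G] (n : ℕ) (i₀ : Fin n) (τ : Fin n → (G → ℂ)) (h0 : τ i₀ = 0) (hgen : ∀ i, Cfsg.IsGeneralizedCharacter G (τ i)) (hone : ∀ i, τ i 1 = 0) (hgram : ∀ i j, i ≠ i₀ → j ≠ i₀ → Cfsg.classInner (τ i) (τ j) = if i = j then 2 else 1) : ∃ ε : ℂ, (ε = 1 ∨ ε = -1) ∧ ∃ μ : Fin n → (G → ℂ), (∀ i, Cfsg.IsIrrCharacter G (μ i)) ∧ Function.Injective μ ∧ ∀ i, τ i = ε • (μ i - μ i₀) := by
  classical
  letI : Fintype (IrrCharacter G) := Fintype.ofFinite _
  haveI : Nonempty (IrrCharacter G) := ⟨Agent.Helper79.trivIrr G⟩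
  have key : ∀ i, i ≠ i₀ → ∃ α β : IrrCharacter G, α ≠ β ∧ τ i = (α : G → ℂ) - (β : G → ℂ) := by
    intro i hi
    have h2 := hgram i i hi hi
    rw [if_pos rfl] at h2
    exact Agent.Helper4.genChar_norm_two (hgen i) h2 (hone i)
  choose! α β hαβ hτ using key
  -- pairwise relation
  have hpair : ∀ i j, i ≠ i₀ → j ≠ i₀ → i ≠ j →
      (α i = α j ∧ β i ≠ β j) ∨ (α i ≠ α j ∧ β i = β j) := by
    intro i j hi hj hij
    have h1 := hgram i j hi hj
    rw [if_neg hij, hτ i hi, hτ j hj, Agent.Helper4.classInner_irr_sub_sub] at h1
    have hi' := hαβ i hi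
    have hj' := hαβ j hj
    by_cases p : α i = α j
    · by_cases s : β i = β j
      · have q : α i ≠ β j := fun q => hi' (q.trans s.symm)
        have r : β i ≠ α j := fun r => hi' (p.trans r.symm)
        rw [if_pos p, if_neg q, if_neg r, if_pos s] at h1
        norm_num at h1
      · exact Or.inl ⟨p, s⟩
    · by_cases s : β i = β j
      · exact Or.inr ⟨p, s⟩
      · by_cases q : α i = β j <;> by_cases r : β i = α j
        · rw [if_neg p, if_pos q, if_pos r, if_neg s] at h1; norm_num at h1
        · rw [if_neg p, if_pos q, if_neg r, if_neg s] at h1; norm_num at h1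
        · rw [if_neg p, if_neg q, if_pos r, if_neg s] at h1; norm_num at h1
        · rw [if_neg p, if_neg q, if_neg r, if_neg s] at h1; norm_num at h1
  by_cases hA : ∃ i j, i ≠ i₀ ∧ j ≠ i₀ ∧ i ≠ j ∧ α i = α j
  · obtain ⟨i, j, hi, hj, hij, hαij⟩ := hA
    have hβij : β i ≠ β j := by
      rcases hpair i j hi hj hij with h | h
      · exact h.2
      · exact absurd hαij h.1
    have hall : ∀ k, k ≠ i₀ → α k = α i := by
      intro k hk
      by_cases hki : k = i
      · rw [hki]
      by_cases hkj : k = j
      · rw [hkj, hαij]
      by_contra hne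
      have h1 : β k = β i := by
        rcases hpair k i hk hi hki with h | h
        · exact absurd h.1 hne
        · exact h.2
      have h2 : β k = β j := by
        rcases hpair k j hk hj hkj with h | h
        · exact absurd (h.1.trans hαij.symm) hne
        · exact h.2
      exact hβij (h1.symm.trans h2)
    refine ⟨-1, Or.inr rfl, fun k => if k = i₀ then (α i : G → ℂ) else (β k : G → ℂ), ?_, ?_, ?_⟩
    · intro k
      by_cases hk : k = i₀
      · simp only [hk, if_true]; exact (α i).2
      · simp only [hk, if_false]; exact (β k).2
    · intro k l hkl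
      by_contra hne
      by_cases hk : k = i₀ <;> by_cases hl : l = i₀
      · exact hne (hk.trans hl.symm)
      · simp only [hk, hl, if_true, if_false] at hkl
        have h1 : α i = β l := Subtype.ext hkl
        rw [← hall l hl] at h1
        exact hαβ l hl h1
      · simp only [hk, hl, if_true, if_false] at hkl
        have h1 : β k = α i := Subtype.ext hkl
        rw [← hall k hk] at h1
        exact hαβ k hk h1.symm
      · simp only [hk, hl, if_false] at hkl
        have h1 : β k = β l := Subtype.ext hkl
        rcases hpair k l hk hl hne with h | h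
        · exact h.2 h1
        · exact h.1 ((hall k hk).trans (hall l hl).symm)
    · intro k
      by_cases hk : k = i₀
      · simp only [hk, if_true, sub_self, smul_zero]
        exact h0
      · simp only [hk, if_true, if_false]
        rw [hτ k hk, hall k hk, neg_one_smul, neg_sub]
  · push Not at hA
    by_cases hex : ∃ i₁, i₁ ≠ i₀
    · obtain ⟨i₁, hi₁⟩ := hex
      have hall : ∀ k, k ≠ i₀ → β k = β i₁ := by
        intro k hk
        by_cases hk1 : k = i₁
        · rw [hk1]
        rcases hpair k i₁ hk hi₁ hk1 with h | h
        · exact absurd h.1 (hA k i₁ hk hi₁ hk1)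
        · exact h.2
      refine ⟨1, Or.inl rfl, fun k => if k = i₀ then (β i₁ : G → ℂ) else (α k : G → ℂ), ?_, ?_, ?_⟩
      · intro k
        by_cases hk : k = i₀
        · simp only [hk, if_true]; exact (β i₁).2
        · simp only [hk, if_false]; exact (α k).2
      · intro k l hkl
        by_contra hne
        by_cases hk : k = i₀ <;> by_cases hl : l = i₀
        · exact hne (hk.trans hl.symm)
        · simp only [hk, hl, if_true, if_false] at hkl
          have h1 : β i₁ = α l := Subtype.ext hkl
          rw [← hall l hl] at h1
          exact hαβ l hl h1.symm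
        · simp only [hk, hl, if_true, if_false] at hkl
          have h1 : α k = β i₁ := Subtype.ext hkl
          rw [← hall k hk] at h1
          exact hαβ k hk h1
        · simp only [hk, hl, if_false] at hkl
          have h1 : α k = α l := Subtype.ext hkl
          exact hA k l hk hl hne h1
      · intro k
        by_cases hk : k = i₀
        · simp only [hk, if_true, sub_self, smul_zero]
          exact h0
        · simp only [hk, if_true, if_false]
          rw [hτ k hk, hall k hk, one_smul]
    · push Not at hex
      refine ⟨1, Or.inl rfl, fun _ => (Agent.Helper79.trivIrr G : G → ℂ), ?_, ?_, ?_⟩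
      · intro k; exact (Agent.Helper79.trivIrr G).2
      · intro k l _
        rw [hex k, hex l]
      · intro k
        rw [hex k, h0]
        simp

end Cfsg.Agent.S0198
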