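import Cfsg.Statements.S0199
import Cfsg.Agent.Helper41.BaerSuzuki

set_option autoImplicit false
open Cfsg

namespace Cfsg.Agent.S0199

/-- Baer–Suzuki Theorem: a p-subgroup X of a finite group such that X and any of its conjugates generate a p-group is contained in a normal p-subgroup. -/
theorem result {G : Type*} [Group G] [Finite G] {p : ℕ} [Fact p.Prime] (X : Subgroup G) (hX : IsPGroup p X) (h : ∀ g : G, IsPGroup p ↥(X ⊔ X.map (MulAut.conj g).toMonoidHom)) : ∃ N : Subgroup G, N.Normal ∧ IsPGroup p N ∧ X ≤ N := by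
  classical
  refine ⟨Cfsg.Agent.Helper41.sylowCore p G, Cfsg.Agent.Helper41.sylowCore_normal p G,
    Cfsg.Agent.Helper41.sylowCore_isPGroup p G, ?_⟩
  let K : Set G := {y | ∃ x ∈ X, ∃ g : G, y = g * x * g⁻¹}
  have hK : ∀ x ∈ K, ∀ g : G, g * x * g⁻¹ ∈ K := by
    rintro _ ⟨x, hx, a, rfl⟩ g
    exact ⟨x, hx, g * a, by group⟩
  have hpair : ∀ x ∈ K, ∀ y ∈ K, IsPGroup p (Subgroup.closure ({x, y} : Set G)) := by
    rintro _ ⟨x₁, hx₁, g₁, rfl⟩ _ ⟨x₂, hx₂, g₂, rfl⟩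
    have h1 := (h (g₁⁻¹ * g₂)).map (MulAut.conj g₁).toMonoidHom
    refine h1.to_le ?_
    rw [Subgroup.closure_le]
    intro z hz
    rcases hz with rfl | hz
    · exact ⟨x₁, Subgroup.mem_sup_left hx₁, by simp⟩
    · rw [Set.mem_singleton_iff] at hz
      subst hz
      refine ⟨(g₁⁻¹ * g₂) * x₂ * (g₁⁻¹ * g₂)⁻¹, Subgroup.mem_sup_right ⟨x₂, hx₂, by
        simp only [MulEquiv.toMonoidHom_eq_coe, MonoidHom.coe_coe, MulAut.conj_apply]⟩, ?_⟩
      simp only [MulEquiv.toMonoidHom_eq_coe, MonoidHom.coe_coe, MulAut.conj_apply]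
      group
  intro x hx
  rw [Cfsg.Agent.Helper41.mem_sylowCore]
  intro P
  exact Cfsg.Agent.Helper41.baer_suzuki_mem K hK hpair x ⟨x, hx, 1, by group⟩ P

end Cfsg.Agent.S0199
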