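import Cfsg.Statements.S0200
import Cfsg.Agent.Helper41.BaerSuzuki

set_option autoImplicit false
open Cfsg

namespace Cfsg.Agent.S0200

/-- Two involutions whose product has `2`-power order generate a `2`-group. -/
theorem isPGroup_closure_pair {G : Type*} [Group G] (t s : G) (ht : orderOf t = 2)
    (ht2 : t * t = 1) (hs2 : s * s = 1) (j : ℕ) (hj : orderOf (t * s) = 2 ^ j) :
    IsPGroup 2 (Subgroup.closure ({t, s} : Set G)) := by
  have : Fact (Nat.Prime 2) := ⟨Nat.prime_two⟩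
  have htinv : t⁻¹ = t := inv_eq_of_mul_eq_one_right ht2
  have hsinv : s⁻¹ = s := inv_eq_of_mul_eq_one_right hs2
  have hconj : t * (t * s) * t⁻¹ = (t * s)⁻¹ := by
    rw [mul_inv_rev, hsinv, htinv, ← mul_assoc, ht2, one_mul]
  have hZ : IsPGroup 2 (Subgroup.zpowers (t * s)) :=
    IsPGroup.of_card (n := j) (by rw [Nat.card_zpowers, hj])
  have hT : IsPGroup 2 (Subgroup.zpowers t) :=
    IsPGroup.of_card (n := 1) (by rw [Nat.card_zpowers, ht, pow_one])
  have hfwd : ∀ z ∈ Subgroup.zpowers (t * s), t * z * t⁻¹ ∈ Subgroup.zpowers (t * s) := by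
    intro z hz
    obtain ⟨i, rfl⟩ := Subgroup.mem_zpowers_iff.mp hz
    rw [← conj_zpow, hconj]
    exact Subgroup.zpow_mem _ (Subgroup.inv_mem _ (Subgroup.mem_zpowers (t * s))) i
  have hTN : Subgroup.zpowers t ≤
      Subgroup.normalizer ((Subgroup.zpowers (t * s) : Subgroup G) : Set G) := by
    rw [Subgroup.zpowers_le, Subgroup.mem_normalizer_iff]
    intro z
    constructor
    · exact hfwd z
    · intro hz
      have h1 := hfwd _ hz
      have e : t * (t * z * t⁻¹) * t⁻¹ = z := by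
        rw [htinv]
        calc t * (t * z * t) * t = (t * t) * z * (t * t) := by group
          _ = z := by rw [ht2, one_mul, mul_one]
      rwa [e] at h1
  have hsup := IsPGroup.to_sup_of_normal_left' hZ hT hTN
  refine hsup.to_le ?_
  rw [Subgroup.closure_le]
  intro z hz
  rcases hz with rfl | hz
  · exact Subgroup.mem_sup_right (Subgroup.mem_zpowers _)
  · rw [Set.mem_singleton_iff] at hz
    subst hz
    have hmem : t * (t * z) ∈ Subgroup.zpowers (t * z) ⊔ Subgroup.zpowers t :=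
      Subgroup.mul_mem _ (Subgroup.mem_sup_right (Subgroup.mem_zpowers _))
        (Subgroup.mem_sup_left (Subgroup.mem_zpowers _))
    rwa [← mul_assoc, ht2, one_mul] at hmem

/-- An involution lying in no normal 2-subgroup of a finite group inverts a nontrivial element of odd order (a consequence of the Baer–Suzuki Theorem). -/
theorem result {G : Type*} [Group G] [Finite G] (t : G) (ht : orderOf t = 2) (hO : ∀ N : Subgroup G, N.Normal → IsPGroup 2 N → t ∉ N) : ∃ h : G, h ≠ 1 ∧ Odd (orderOf h) ∧ t * h * t⁻¹ = h⁻¹ := by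
  classical
  have hF : Fact (Nat.Prime 2) := ⟨Nat.prime_two⟩
  have ht2 : t * t = 1 := by
    have := pow_orderOf_eq_one t
    rwa [ht, pow_two] at this
  have htinv : t⁻¹ = t := inv_eq_of_mul_eq_one_right ht2
  let K : Set G := {y | ∃ g : G, y = g * t * g⁻¹}
  have hK : ∀ x ∈ K, ∀ g : G, g * x * g⁻¹ ∈ K := by
    rintro _ ⟨a, rfl⟩ g
    exact ⟨g * a, by group⟩
  have hnot : ¬ ∀ x ∈ K, ∀ y ∈ K, IsPGroup 2 (Subgroup.closure ({x, y} : Set G)) := by
    intro hall
    apply hO (Cfsg.Agent.Helper41.sylowCore 2 G) (Cfsg.Agent.Helper41.sylowCore_normal 2 G)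
      (Cfsg.Agent.Helper41.sylowCore_isPGroup 2 G)
    rw [Cfsg.Agent.Helper41.mem_sylowCore]
    intro P
    exact Cfsg.Agent.Helper41.baer_suzuki_mem K hK hall t ⟨1, by group⟩ P
  push Not at hnot
  obtain ⟨_, ⟨g₁, rfl⟩, _, ⟨g₂, rfl⟩, hnp⟩ := hnot
  obtain ⟨s, hs⟩ : ∃ s : G, s = (g₁⁻¹ * g₂) * t * (g₁⁻¹ * g₂)⁻¹ := ⟨_, rfl⟩
  have hs2 : s * s = 1 := by
    rw [hs]
    have e : g₁⁻¹ * g₂ * t * (g₁⁻¹ * g₂)⁻¹ * (g₁⁻¹ * g₂ * t * (g₁⁻¹ * g₂)⁻¹) =
        g₁⁻¹ * g₂ * (t * t) * (g₁⁻¹ * g₂)⁻¹ := by group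
    rw [e, ht2]
    group
  have hsinv : s⁻¹ = s := inv_eq_of_mul_eq_one_right hs2
  have hnp' : ¬ IsPGroup 2 (Subgroup.closure ({t, s} : Set G)) := by
    intro hp
    apply hnp
    refine (hp.map (MulAut.conj g₁).toMonoidHom).to_le ?_
    rw [Subgroup.closure_le]
    intro z hz
    rcases hz with rfl | hz
    · exact ⟨t, Subgroup.subset_closure (by simp), by simp⟩
    · rw [Set.mem_singleton_iff] at hz
      subst hz
      refine ⟨s, Subgroup.subset_closure (by simp), ?_⟩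
      simp only [MulEquiv.toMonoidHom_eq_coe, MonoidHom.coe_coe, MulAut.conj_apply]
      rw [hs]
      group
  have hconj : t * (t * s) * t⁻¹ = (t * s)⁻¹ := by
    rw [mul_inv_rev, hsinv, htinv, ← mul_assoc, ht2, one_mul]
  have hconjpow : ∀ j : ℕ, t * (t * s) ^ j * t⁻¹ = ((t * s) ^ j)⁻¹ := by
    intro j
    rw [← conj_pow, hconj, inv_pow]
  have hm0 : orderOf (t * s) ≠ 0 := (orderOf_pos (t * s)).ne'
  obtain ⟨k, m, hmodd, hkm⟩ := Nat.exists_eq_two_pow_mul_odd hm0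
  refine ⟨(t * s) ^ (2 ^ k), ?_, ?_, hconjpow _⟩
  · intro h1
    have hdvd : orderOf (t * s) ∣ 2 ^ k := orderOf_dvd_of_pow_eq_one h1
    obtain ⟨j, -, hj⟩ := (Nat.dvd_prime_pow Nat.prime_two).mp hdvd
    exact hnp' (isPGroup_closure_pair t s ht ht2 hs2 j hj)
  · rw [orderOf_pow, hkm]
    have hg : Nat.gcd (2 ^ k * m) (2 ^ k) = 2 ^ k := Nat.gcd_eq_right (dvd_mul_right _ _)
    rw [hg, Nat.mul_div_cancel_left _ (by positivity)]
    exact hmodd

end Cfsg.Agent.S0200
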