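import Cfsg.Statements.S0206
import Mathlib
import Cfsg.Agent.Helper4.Dihedral

set_option autoImplicit false
open Cfsg

namespace Cfsg.Agent.S0206

theorem pow_val_add {G : Type*} [Group G] (a : G) (h : 0 < orderOf a) (i j : ZMod (orderOf a)) :
    a ^ (i + j).val = a ^ i.val * a ^ j.val := by
  have : NeZero (orderOf a) := ⟨h.ne'⟩
  rw [ZMod.val_add, ← pow_add, pow_mod_orderOf]

theorem pow_val_sub {G : Type*} [Group G] (a : G) (h : 0 < orderOf a) (i j : ZMod (orderOf a)) :
    a ^ (j - i).val = (a ^ i.val)⁻¹ * a ^ j.val := by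
  have := pow_val_add a h i (j - i)
  rw [add_sub_cancel] at this
  rw [this]; group

/-- the candidate isomorphism -/
noncomputable def toFun {G : Type*} [Group G] (x y : G) : DihedralGroup (orderOf (x * y)) → G
  | DihedralGroup.r i => (x * y) ^ i.val
  | DihedralGroup.sr i => x * (x * y) ^ i.val

theorem toFun_mul {G : Type*} [Group G] {x y : G} (hx : x * x = 1) (hy : y * y = 1)
    (h : 0 < orderOf (x * y)) (g g' : DihedralGroup (orderOf (x * y))) :
    toFun x y (g * g') = toFun x y g * toFun x y g' := by
  have hc : ∀ k : ℕ, (x * y) ^ k * x = x * ((x * y) ^ k)⁻¹ := by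
    intro k
    have := Helper4.zpow_mul_of_mul_self hx hy (k : ℤ)
    rwa [zpow_neg, zpow_natCast] at this
  cases g with
  | r i =>
    cases g' with
    | r j =>
      rw [DihedralGroup.r_mul_r]
      exact pow_val_add _ h i j
    | sr j =>
      rw [DihedralGroup.r_mul_sr]
      show x * (x * y) ^ (j - i).val = (x * y) ^ i.val * (x * (x * y) ^ j.val)
      rw [pow_val_sub _ h, ← mul_assoc, ← mul_assoc, hc]
  | sr i =>
    cases g' with
    | r j =>
      rw [DihedralGroup.sr_mul_r]
      show x * (x * y) ^ (i + j).val = x * (x * y) ^ i.val * (x * y) ^ j.val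
      rw [pow_val_add _ h, mul_assoc]
    | sr j =>
      rw [DihedralGroup.sr_mul_sr]
      show (x * y) ^ (j - i).val = x * (x * y) ^ i.val * (x * (x * y) ^ j.val)
      rw [pow_val_sub _ h]
      calc ((x * y) ^ i.val)⁻¹ * (x * y) ^ j.val
          = (x * x) * ((x * y) ^ i.val)⁻¹ * (x * y) ^ j.val := by rw [hx, one_mul]
        _ = x * (x * ((x * y) ^ i.val)⁻¹) * (x * y) ^ j.val := by group
        _ = x * ((x * y) ^ i.val * x) * (x * y) ^ j.val := by rw [hc]
        _ = x * (x * y) ^ i.val * (x * (x * y) ^ j.val) := by group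

theorem not_mem_zpowers {G : Type*} [Group G] {x y : G} (hx : orderOf x = 2) (hy : orderOf y = 2)
    : x ∉ Subgroup.zpowers (x * y) := by
  have hx2 := Helper4.mul_self_of_orderOf_two hx
  have hy2 := Helper4.mul_self_of_orderOf_two hy
  rintro ⟨k, hk⟩
  have hk' : (x * y) ^ k = x := hk
  have hcomm : Commute x (x * y) := by
    have : Commute ((x * y) ^ k) (x * y) := (Commute.refl (x * y)).zpow_left k
    rwa [hk'] at this
  have hinv : (x * y)⁻¹ = x * y := by
    have h1 := Helper4.conj_mul_of_mul_self hx2 hy2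
    rw [← h1, hcomm.eq]; group
  have hsq : (x * y) * (x * y) = 1 := by
    nth_rewrite 1 [← hinv]; exact inv_mul_cancel _
  obtain ⟨m, rfl | rfl⟩ := Int.even_or_odd' k
  · have : (x * y) ^ (2 * m) = 1 := by
      rw [zpow_mul, zpow_ofNat, pow_two, hsq, one_zpow]
    rw [this] at hk'
    exact Helper4.ne_one_of_orderOf_two hx hk'.symm
  · have : (x * y) ^ (2 * m + 1) = x * y := by
      rw [zpow_add, zpow_mul, zpow_ofNat, pow_two, hsq, one_zpow, one_mul, zpow_one]
    rw [this] at hk'
    apply Helper4.ne_one_of_orderOf_two hy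
    have : x * y = x * 1 := by rw [hk', mul_one]
    exact mul_left_cancel this

/-- Two distinct involutions x, y of a finite group generate a subgroup isomorphic to the dihedral group of order 2·|xy|. -/
theorem result {G : Type*} [Group G] [Finite G] (x y : G) (hx : orderOf x = 2) (hy : orderOf y = 2) (hxy : x ≠ y) : Nonempty (↥(Subgroup.closure ({x, y} : Set G)) ≃* DihedralGroup (orderOf (x * y))) := by
  have hx2 := Helper4.mul_self_of_orderOf_two hx
  have hy2 := Helper4.mul_self_of_orderOf_two hy
  have hpos : 0 < orderOf (x * y) := orderOf_pos _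
  have : NeZero (orderOf (x * y)) := ⟨hpos.ne'⟩
  let F : DihedralGroup (orderOf (x * y)) →* G := MonoidHom.mk' (toFun x y) (toFun_mul hx2 hy2 hpos)
  have hinj : Function.Injective F := by
    rw [injective_iff_map_eq_one]
    intro g hg
    cases g with
    | r i =>
      have h1 : (x * y) ^ i.val = 1 := hg
      have h2 : orderOf (x * y) ∣ i.val := orderOf_dvd_of_pow_eq_one h1
      have h3 : i.val = 0 := Nat.eq_zero_of_dvd_of_lt h2 (ZMod.val_lt i)
      rw [(ZMod.val_eq_zero i).mp h3]
      rfl
    | sr i =>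
      exfalso
      have h1 : x * (x * y) ^ i.val = 1 := hg
      apply not_mem_zpowers hx hy
      have h2 : x = ((x * y) ^ i.val)⁻¹ := eq_inv_of_mul_eq_one_left h1
      have h3 : ((x * y) ^ i.val)⁻¹ ∈ Subgroup.zpowers (x * y) :=
        Subgroup.inv_mem _ (Subgroup.pow_mem _ (Subgroup.mem_zpowers _) _)
      rwa [← h2] at h3
  have hrange : F.range = Subgroup.closure ({x, y} : Set G) := by
    apply le_antisymm
    · rintro _ ⟨g, rfl⟩
      cases g with
      | r i =>
        show (x * y) ^ i.val ∈ _
        rw [← zpow_natCast]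
        exact Helper4.zpow_mem_closure_pair x y _
      | sr i =>
        show x * (x * y) ^ i.val ∈ _
        rw [← zpow_natCast]
        exact Helper4.mul_zpow_mem_closure_pair x y _
    · rw [Subgroup.closure_le]
      rintro z (rfl | hz)
      · refine ⟨DihedralGroup.sr 0, ?_⟩
        show z * (z * y) ^ (0 : ZMod (orderOf (z * y))).val = z
        rw [ZMod.val_zero, pow_zero, mul_one]
      · have hz' : z = y := hz
        subst hz'
        refine ⟨DihedralGroup.sr 1, ?_⟩
        show x * (x * z) ^ (1 : ZMod (orderOf (x * z))).val = z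
        rw [ZMod.val_one_eq_one_mod, pow_mod_orderOf, pow_one, ← mul_assoc, hx2, one_mul]
  exact ⟨((MonoidHom.ofInjective hinj).trans (MulEquiv.subgroupCongr hrange)).symm⟩

end Cfsg.Agent.S0206
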