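import Cfsg.Statements.S0208
import Mathlib
import Cfsg.Agent.Helper4.Dihedral

set_option autoImplicit false
open Cfsg

namespace Cfsg.Agent.S0208

/-- If x, y are involutions and xy has odd order, then some element of the subgroup generated by x and y conjugates x to y. -/
theorem result {G : Type*} [Group G] [Finite G] (x y : G) (hx : orderOf x = 2) (hy : orderOf y = 2) (hodd : Odd (orderOf (x * y))) : ∃ d ∈ Subgroup.closure ({x, y} : Set G), d * x * d⁻¹ = y := by
  have hx2 := Helper4.mul_self_of_orderOf_two hx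
  have hy2 := Helper4.mul_self_of_orderOf_two hy
  obtain ⟨k, hk⟩ := hodd
  refine ⟨(x * y) ^ (k : ℤ), Helper4.zpow_mem_closure_pair x y k, ?_⟩
  rw [Helper4.zpow_conj_of_mul_self hx2 hy2]
  have h1 : (x * y) ^ ((2 * k + 1 : ℕ) : ℤ) = 1 := by
    rw [zpow_natCast, ← hk, pow_orderOf_eq_one]
  have h2 : (x * y) ^ (-(2 * (k : ℤ))) = (x * y) ^ (1 : ℤ) := by
    have : (-(2 * (k : ℤ))) = 1 - ((2 * k + 1 : ℕ) : ℤ) := by push_cast; ring
    rw [this, zpow_sub, h1]; simp
  rw [h2, zpow_one, ← mul_assoc, hx2, one_mul]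

end Cfsg.Agent.S0208
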