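import Cfsg.Statements.S0209
import Mathlib
import Cfsg.Agent.Helper4.Dihedral

set_option autoImplicit false
open Cfsg

namespace Cfsg.Agent.S0209

/-- If x, y are involutions whose product has even order n, the element (xy)^(n/2) is an involution that commutes with x and with y. -/
theorem result {G : Type*} [Group G] [Finite G] (x y : G) (hx : orderOf x = 2) (hy : orderOf y = 2) (heven : Even (orderOf (x * y))) : orderOf ((x * y) ^ (orderOf (x * y) / 2)) = 2 ∧ Commute ((x * y) ^ (orderOf (x * y) / 2)) x ∧ Commute ((x * y) ^ (orderOf (x * y) / 2)) y := by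
  have hx2 := Helper4.mul_self_of_orderOf_two hx
  have hy2 := Helper4.mul_self_of_orderOf_two hy
  have hpos : 0 < orderOf (x * y) := orderOf_pos _
  obtain ⟨m, hm⟩ := heven
  have hm0 : 0 < m := by omega
  have hdiv : orderOf (x * y) / 2 = m := by omega
  rw [hdiv]
  have hz2 : (x * y) ^ m * (x * y) ^ m = 1 := by rw [← pow_add, ← hm, pow_orderOf_eq_one]
  have hz1 : (x * y) ^ m ≠ 1 := pow_ne_one_of_lt_orderOf hm0.ne' (by omega)
  have hcx : Commute ((x * y) ^ m) x := by
    have h := Helper4.mul_zpow_mul_of_mul_self hx2 hy2 (m : ℤ)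
    rw [zpow_neg, zpow_natCast] at h
    have hzinv : ((x * y) ^ m)⁻¹ = (x * y) ^ m := Helper4.inv_eq_self_of_mul_self hz2
    rw [hzinv] at h
    show (x * y) ^ m * x = x * (x * y) ^ m
    calc (x * y) ^ m * x = x * (x * (x * y) ^ m * x) := by
          rw [← mul_assoc, ← mul_assoc, hx2, one_mul]
      _ = x * (x * y) ^ m := by rw [h]
  refine ⟨Helper4.orderOf_two_iff.mpr ⟨hz1, hz2⟩, hcx, ?_⟩
  have hcxy : Commute ((x * y) ^ m) (x * y) := (Commute.refl (x * y)).pow_left m
  have key : Commute ((x * y) ^ m) (x⁻¹ * (x * y)) := (hcx.inv_right).mul_right hcxy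
  rwa [inv_mul_cancel_left] at key

end Cfsg.Agent.S0209
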