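import Cfsg.Statements.S0210
import Mathlib
import Cfsg.Agent.Helper4.Dihedral

set_option autoImplicit false
open Cfsg

namespace Cfsg.Agent.S0210

/-- If x, y are involutions whose product has even order, no element of the subgroup generated by x and y conjugates x to y. -/
theorem result {G : Type*} [Group G] [Finite G] (x y : G) (hx : orderOf x = 2) (hy : orderOf y = 2) (heven : Even (orderOf (x * y))) (d : G) (hd : d ∈ Subgroup.closure ({x, y} : Set G)) : d * x * d⁻¹ ≠ y := by
  have hx2 := Helper4.mul_self_of_orderOf_two hx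
  have hy2 := Helper4.mul_self_of_orderOf_two hy
  intro h
  obtain ⟨k, hk⟩ := Helper4.conj_mem_closure_pair hx2 hy2 hd
  rw [h] at hk
  have h1 : (x * y) ^ (2 * k - 1) = 1 := by
    rw [zpow_sub, zpow_one]
    have : (x * y) ^ (2 * k) = x * y := by
      calc (x * y) ^ (2 * k) = x * (x * (x * y) ^ (2 * k)) := by rw [← mul_assoc, hx2, one_mul]
        _ = x * y := by rw [← hk]
    rw [this]; simp
  rw [← orderOf_dvd_iff_zpow_eq_one] at h1
  obtain ⟨m, hm⟩ := heven
  rw [hm] at h1
  have h2 : (2 : ℤ) ∣ 2 * k - 1 := Dvd.dvd.trans ⟨m, by push_cast; ring⟩ h1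
  omega

end Cfsg.Agent.S0210
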