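import Cfsg.Statements.S0211
import Mathlib
import Cfsg.Agent.Helper4.Dihedral

set_option autoImplicit false
open Cfsg

namespace Cfsg.Agent.S0211

/-- Let x, y be involutions with xy of even order n and z = (xy)^(n/2). Then xz is conjugate to x by an element of the subgroup generated by x, y if and only if 4 divides n. -/
theorem result {G : Type*} [Group G] [Finite G] (x y : G) (hx : orderOf x = 2) (hy : orderOf y = 2) (heven : Even (orderOf (x * y))) : (∃ d ∈ Subgroup.closure ({x, y} : Set G), d * x * d⁻¹ = x * (x * y) ^ (orderOf (x * y) / 2)) ↔ 4 ∣ orderOf (x * y) := by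
  have hx2 := Helper4.mul_self_of_orderOf_two hx
  have hy2 := Helper4.mul_self_of_orderOf_two hy
  have hpos : 0 < orderOf (x * y) := orderOf_pos _
  obtain ⟨m, hm⟩ := heven
  have hdiv : orderOf (x * y) / 2 = m := by omega
  rw [hdiv]
  constructor
  · rintro ⟨d, hd, h⟩
    obtain ⟨k, hk⟩ := Helper4.conj_mem_closure_pair hx2 hy2 hd
    rw [h] at hk
    have h0 : (x * y) ^ (2 * k) = (x * y) ^ (m : ℤ) := by
      rw [zpow_natCast]
      exact (mul_left_cancel hk).symm
    have h1 : (x * y) ^ (2 * k - (m : ℤ)) = 1 := by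
      rw [zpow_sub, h0]; simp
    rw [← orderOf_dvd_iff_zpow_eq_one] at h1
    rw [hm] at h1
    have h2 : (2 : ℤ) ∣ 2 * k - (m : ℤ) := Dvd.dvd.trans ⟨m, by push_cast; ring⟩ h1
    rw [hm]
    omega
  · intro h4
    obtain ⟨j, hj⟩ := h4
    have hmj : m = 2 * j := by omega
    refine ⟨(x * y) ^ (-(j : ℤ)), Helper4.zpow_mem_closure_pair x y _, ?_⟩
    rw [Helper4.zpow_conj_of_mul_self hx2 hy2]
    congr 1
    rw [hmj, ← zpow_natCast]
    congr 1
    push_cast; ring

end Cfsg.Agent.S0211
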