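import Cfsg.Statements.S0212
import Cfsg.Agent.Helper41.Order60

set_option autoImplicit false
open Cfsg

namespace Cfsg.Agent.S0212

/-- The extended centralizer of `g`: elements conjugating `g` to `g` or `g⁻¹`. -/
def cstar {G : Type*} [Group G] (g : G) : Subgroup G where
  carrier := {h | h * g * h⁻¹ = g ∨ h * g * h⁻¹ = g⁻¹}
  one_mem' := by simp
  mul_mem' := by
    intro a b ha hb
    simp only [Set.mem_ofPred_eq] at ha hb ⊢
    have e : a * b * g * (a * b)⁻¹ = a * (b * g * b⁻¹) * a⁻¹ := by group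
    rw [e]
    rcases hb with hb | hb
    · rw [hb]; exact ha
    · rw [hb]
      have e2 : a * g⁻¹ * a⁻¹ = (a * g * a⁻¹)⁻¹ := by group
      rw [e2]
      rcases ha with ha | ha
      · right; rw [ha]
      · left; rw [ha, inv_inv]
  inv_mem' := by
    intro a ha
    simp only [Set.mem_ofPred_eq] at ha ⊢
    rcases ha with ha | ha
    · left
      have : a⁻¹ * (a * g * a⁻¹) * a⁻¹⁻¹ = g := by group
      rw [ha] at this
      exact this
    · right
      have h1 : a⁻¹ * (a * g * a⁻¹) * a⁻¹⁻¹ = g := by group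
      rw [ha] at h1
      have h2 : a⁻¹ * g * a⁻¹⁻¹ = (a⁻¹ * g⁻¹ * a⁻¹⁻¹)⁻¹ := by group
      rw [h2, h1]

theorem mem_cstar {G : Type*} [Group G] (g h : G) :
    h ∈ cstar g ↔ h * g * h⁻¹ = g ∨ h * g * h⁻¹ = g⁻¹ := Iff.rfl

/-- In a simple group with a non-central element `t`, no extended centralizer of a non-identity
element is the whole group. -/
theorem cstar_ne_top {G : Type*} [Group G] [IsSimpleGroup G] (t : G)
    (hC : Subgroup.centralizer ({t} : Set G) ≠ ⊤) (g : G) (hg : g ≠ 1) : cstar g ≠ ⊤ := by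
  intro htop
  have hnorm : (Subgroup.zpowers g).Normal := by
    constructor
    intro x hx h
    obtain ⟨i, rfl⟩ := Subgroup.mem_zpowers_iff.mp hx
    have hh : h ∈ cstar g := htop ▸ Subgroup.mem_top h
    rw [← conj_zpow]
    rcases (mem_cstar g h).mp hh with e | e
    · rw [e]; exact Subgroup.zpow_mem_zpowers g i
    · rw [e]; exact Subgroup.zpow_mem _ (Subgroup.inv_mem _ (Subgroup.mem_zpowers g)) i
  rcases hnorm.eq_bot_or_eq_top with hb | ht
  · exact hg (Subgroup.zpowers_eq_bot.mp hb)
  · apply hC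
    rw [eq_top_iff]
    intro x _
    rw [Subgroup.mem_centralizer_iff]
    intro y hy
    rw [Set.mem_singleton_iff] at hy
    subst hy
    have hx : x ∈ Subgroup.zpowers g := ht ▸ Subgroup.mem_top x
    have hy : y ∈ Subgroup.zpowers g := ht ▸ Subgroup.mem_top y
    obtain ⟨i, rfl⟩ := Subgroup.mem_zpowers_iff.mp hx
    obtain ⟨j, rfl⟩ := Subgroup.mem_zpowers_iff.mp hy
    rw [← zpow_add, ← zpow_add, add_comm]

/-- The Brauer–Fowler bound: if G is a finite simple group and t an involution of G whose centralizer has order n, then |G| ≤ (2n^2)!. -/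
theorem result {G : Type*} [Group G] [Finite G] [IsSimpleGroup G] (t : G) (ht : orderOf t = 2) : Nat.card G ≤ Nat.factorial (2 * (Nat.card (Subgroup.centralizer ({t} : Set G))) ^ 2) := by
  classical
  have : Fintype G := Fintype.ofFinite G
  obtain ⟨n, hn⟩ : ∃ n, n = Nat.card (Subgroup.centralizer ({t} : Set G)) := ⟨_, rfl⟩
  obtain ⟨N, hN⟩ : ∃ N, N = Nat.card G := ⟨_, rfl⟩
  rw [← hn, ← hN]
  have hnpos : 0 < n := hn ▸ Nat.card_pos
  have hNpos : 0 < N := hN ▸ Nat.card_pos
  by_contra hcon
  push Not at hcon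
  have hfac : 2 * n ^ 2 ≤ (2 * n ^ 2).factorial := Nat.self_le_factorial _
  have hnn : n ≤ n ^ 2 := by nlinarith
  -- every proper subgroup is small
  have hprop : ∀ H : Subgroup G, H ≠ ⊤ → Nat.card H * (2 * n ^ 2) < N := by
    intro H hH
    have hdvd := Cfsg.Agent.Helper41.card_dvd_factorial_index_of_simple H hH
    have hidx : 2 * n ^ 2 < H.index := by
      by_contra hle
      push Not at hle
      have h1 := Nat.le_of_dvd (Nat.factorial_pos _) hdvd
      have h2 := Nat.factorial_le hle
      omega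
    have h3 := H.card_mul_index
    have h4 : 0 < Nat.card H := Nat.card_pos
    calc Nat.card H * (2 * n ^ 2) < Nat.card H * H.index := Nat.mul_lt_mul_of_pos_left hidx h4
      _ = N := by rw [h3, hN]
  have hCtop : Subgroup.centralizer ({t} : Set G) ≠ ⊤ := by
    intro h
    have h1 : n = N := by rw [hn, hN, h, Subgroup.card_top]
    omega
  have ht2 : t * t = 1 := by
    have := pow_orderOf_eq_one t
    rw [ht, pow_two] at this
    exact this
  -- the conjugacy class of `t`
  set K : Finset G := Finset.univ.image (fun g : G => g * t * g⁻¹) with hK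
  have hKinv : ∀ x ∈ K, x * x = 1 := by
    intro x hx
    obtain ⟨g, -, rfl⟩ := Finset.mem_image.mp hx
    have : g * t * g⁻¹ * (g * t * g⁻¹) = g * (t * t) * g⁻¹ := by group
    rw [this, ht2]; group
  have hKcard : K.card * n = N := by
    have h1 : (Finset.univ : Finset G).card =
        ∑ x ∈ K, (Finset.univ.filter (fun g : G => g * t * g⁻¹ = x)).card :=
      Finset.card_eq_sum_card_image _ _
    have h2 : ∀ x ∈ K, (Finset.univ.filter (fun g : G => g * t * g⁻¹ = x)).card = n := by
      intro x hx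
      obtain ⟨g₀, -, rfl⟩ := Finset.mem_image.mp hx
      have h3 : Finset.univ.filter (fun g : G => g * t * g⁻¹ = g₀ * t * g₀⁻¹) =
          (Finset.univ.filter (fun c : G => c ∈ Subgroup.centralizer ({t} : Set G))).map
            (mulLeftEmbedding g₀) := by
        ext g
        simp only [Finset.mem_filter, Finset.mem_univ, true_and, Finset.mem_map,
          mulLeftEmbedding_apply]
        constructor
        · intro hg
          refine ⟨g₀⁻¹ * g, ?_, by group⟩
          rw [Subgroup.mem_centralizer_iff]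
          intro y hy
          rw [Set.mem_singleton_iff] at hy
          subst hy
          have e1 : y * (g₀⁻¹ * g) = g₀⁻¹ * (g₀ * y * g₀⁻¹) * g := by group
          have e2 : g₀⁻¹ * g * y = g₀⁻¹ * (g * y * g⁻¹) * g := by group
          rw [e1, e2, hg]
        · rintro ⟨c, hc, rfl⟩
          rw [Subgroup.mem_centralizer_iff] at hc
          have := hc t (Set.mem_singleton t)
          have e1 : g₀ * c * t * (g₀ * c)⁻¹ = g₀ * (c * t) * c⁻¹ * g₀⁻¹ := by group
          rw [e1, ← this]; group
      rw [h3, Finset.card_map, hn, Nat.card_eq_fintype_card, Fintype.card_subtype]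
    rw [Finset.sum_congr rfl h2, Finset.sum_const, smul_eq_mul, Finset.card_univ] at h1
    rw [← h1, hN, Nat.card_eq_fintype_card]
  -- double counting of pairs
  set a : G → ℕ := fun g => ((K ×ˢ K).filter (fun p : G × G => p.1 * p.2 = g)).card with ha
  have hsum : (K ×ˢ K).card = ∑ g ∈ (Finset.univ : Finset G), a g :=
    Finset.card_eq_sum_card_fiberwise (fun _ _ => Finset.mem_univ _)
  have hTcard : (K ×ˢ K).card = K.card * K.card := Finset.card_product K K
  have ha1 : a 1 ≤ K.card := by
    apply Finset.card_le_card_of_injOn (fun p : G × G => p.1)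
    · intro p hp
      simp only [Finset.coe_filter, Set.mem_ofPred_eq, Finset.mem_product] at hp
      exact hp.1.1
    · intro p hp p' hp' hpp
      simp only [Finset.coe_filter, Set.mem_ofPred_eq, Finset.mem_product] at hp hp'
      simp only at hpp
      have h2 : p.2 = p'.2 := by
        have e1 : p.2 = p.1⁻¹ := eq_inv_of_mul_eq_one_right hp.2
        have e2 : p'.2 = p'.1⁻¹ := eq_inv_of_mul_eq_one_right hp'.2
        rw [e1, e2, hpp]
      exact Prod.ext hpp h2
  have hag : ∀ g : G, a g ≤ Nat.card (cstar g) := by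
    intro g
    rw [Nat.card_eq_fintype_card, Fintype.card_subtype]
    apply Finset.card_le_card_of_injOn (fun p : G × G => p.1)
    · intro p hp
      simp only [Finset.coe_filter, Set.mem_ofPred_eq, Finset.mem_product] at hp
      simp only [Finset.coe_filter, Set.mem_ofPred_eq, Finset.mem_univ, true_and]
      rw [mem_cstar]
      right
      obtain ⟨⟨hx, hy⟩, hxy⟩ := hp
      have hx2 := hKinv _ hx
      have hy2 := hKinv _ hy
      rw [← hxy]
      have e1 : p.1 * (p.1 * p.2) * p.1⁻¹ = (p.1 * p.1) * p.2 * p.1⁻¹ := by group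
      have e2 : p.2⁻¹ = p.2 := inv_eq_of_mul_eq_one_right hy2
      rw [e1, hx2, one_mul, mul_inv_rev, e2]
    · intro p hp p' hp' hpp
      simp only [Finset.coe_filter, Set.mem_ofPred_eq, Finset.mem_product] at hp hp'
      simp only at hpp
      have h2 : p.2 = p'.2 := by
        have e1 : p.2 = p.1⁻¹ * g := by rw [← hp.2]; group
        have e2 : p'.2 = p'.1⁻¹ * g := by rw [← hp'.2]; group
        rw [e1, e2, hpp]
      exact Prod.ext hpp h2
  obtain ⟨M, hM⟩ : ∃ M, N = M + 1 := ⟨N - 1, by omega⟩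
  have hag2 : ∀ g ∈ (Finset.univ : Finset G).erase 1, a g * (2 * n ^ 2) ≤ M := by
    intro g hg
    have hg1 : g ≠ 1 := Finset.ne_of_mem_erase hg
    have h1 := hprop (cstar g) (cstar_ne_top t hCtop g hg1)
    have h2 := Nat.mul_le_mul_right (2 * n ^ 2) (hag g)
    omega
  have hsplit : ∑ g ∈ (Finset.univ : Finset G), a g =
      a 1 + ∑ g ∈ (Finset.univ : Finset G).erase 1, a g :=
    (Finset.add_sum_erase _ _ (Finset.mem_univ 1)).symm
  have hS : (∑ g ∈ (Finset.univ : Finset G).erase 1, a g) * (2 * n ^ 2) ≤ M * M := by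
    rw [Finset.sum_mul]
    have h1 := Finset.sum_le_sum hag2
    rw [Finset.sum_const, smul_eq_mul, Finset.card_erase_of_mem (Finset.mem_univ 1),
      Finset.card_univ] at h1
    have h2 : Fintype.card G - 1 = M := by
      rw [← Nat.card_eq_fintype_card, ← hN, hM]; rfl
    rw [h2] at h1
    exact h1
  obtain ⟨k, hk⟩ : ∃ k, k = K.card := ⟨_, rfl⟩
  obtain ⟨S, hSdef⟩ : ∃ S, S = ∑ g ∈ (Finset.univ : Finset G).erase 1, a g := ⟨_, rfl⟩
  rw [← hSdef] at hS hsplit
  rw [hsplit, hTcard, ← hk] at hsum
  rw [← hk] at hKcard ha1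
  -- arithmetic
  have h2n : 2 * n ≤ M := by omega
  have e1 : k * k * (2 * n ^ 2) = 2 * ((M + 1) * (M + 1)) := by
    have : k * k * (2 * n ^ 2) = 2 * ((k * n) * (k * n)) := by ring
    rw [this, hKcard, hM]
  have e2 : k * (2 * n ^ 2) = 2 * n * (M + 1) := by
    have : k * (2 * n ^ 2) = 2 * n * (k * n) := by ring
    rw [this, hKcard, hM]
  have e3 : k * k * (2 * n ^ 2) = a 1 * (2 * n ^ 2) + S * (2 * n ^ 2) := by
    rw [hsum]; ring
  have e4 : a 1 * (2 * n ^ 2) ≤ k * (2 * n ^ 2) := Nat.mul_le_mul_right _ ha1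
  have e5 : 2 * n * (M + 1) ≤ M * (M + 1) := Nat.mul_le_mul_right _ h2n
  nlinarith

end Cfsg.Agent.S0212
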