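import Cfsg.Statements.S0216
import Mathlib
import Cfsg.Agent.Helper4.SylowTwo

set_option autoImplicit false
open Cfsg

namespace Cfsg.Agent.S0216

/-- For an involution u in a Sylow 2-subgroup P of a finite group G, the following are equivalent: no G-conjugate of u other than u lies in P; every commutator of u with an element of G has odd order. -/
theorem result {G : Type*} [Group G] [Finite G] (P : Sylow 2 G) (u : G) (hu : orderOf u = 2) (huP : u ∈ P) : (∀ g : G, g * u * g⁻¹ ∈ P → g * u * g⁻¹ = u) ↔ (∀ g : G, Odd (orderOf (u * g * u⁻¹ * g⁻¹))) := by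
  have hu2 := Helper4.mul_self_of_orderOf_two hu
  have hui := Helper4.inv_eq_self_of_mul_self hu2
  constructor
  · intro hiso g
    have hcomm : u * g * u⁻¹ * g⁻¹ = u * (g * u * g⁻¹) := by rw [hui]; group
    rw [hcomm]
    have hv2 : (g * u * g⁻¹) * (g * u * g⁻¹) = 1 := by
      calc (g * u * g⁻¹) * (g * u * g⁻¹) = g * (u * u) * g⁻¹ := by group
        _ = 1 := by rw [hu2]; group
    by_contra hodd
    rw [Nat.not_odd_iff_even] at hodd
    have hpos : 0 < orderOf (u * (g * u * g⁻¹)) := orderOf_pos _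
    obtain ⟨m, hm⟩ := hodd
    have hz2 : (u * (g * u * g⁻¹)) ^ m * (u * (g * u * g⁻¹)) ^ m = 1 := by
      rw [← pow_add, ← hm, pow_orderOf_eq_one]
    have hz1 : (u * (g * u * g⁻¹)) ^ m ≠ 1 :=
      pow_ne_one_of_lt_orderOf (by omega) (by omega)
    have hcz : Commute u ((u * (g * u * g⁻¹)) ^ m) := by
      have h := Helper4.mul_zpow_mul_of_mul_self hu2 hv2 (m : ℤ)
      rw [zpow_neg, zpow_natCast] at h
      have hzinv : ((u * (g * u * g⁻¹)) ^ m)⁻¹ = (u * (g * u * g⁻¹)) ^ m :=
        Helper4.inv_eq_self_of_mul_self hz2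
      rw [hzinv] at h
      show u * (u * (g * u * g⁻¹)) ^ m = (u * (g * u * g⁻¹)) ^ m * u
      calc u * (u * (g * u * g⁻¹)) ^ m = (u * (u * (g * u * g⁻¹)) ^ m * u) * u := by
            rw [mul_assoc, mul_assoc, hu2, mul_one]
        _ = (u * (g * u * g⁻¹)) ^ m * u := by rw [h]
    have hconj : IsConj u (u * (u * (g * u * g⁻¹)) ^ m) := by
      rcases Nat.even_or_odd' m with ⟨q, rfl | rfl⟩
      · exact (Helper4.isConj_mul_pow_even hu2 hv2 q).1
      · have h1 := (Helper4.isConj_mul_pow_odd hu2 hv2 q).1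
        have h2 : IsConj u (g * u * g⁻¹) := isConj_iff.mpr ⟨g, rfl⟩
        exact h2.trans h1
    have hQ := Helper4.isPGroup_two_closure_pair_of_commute hu2 hz2 hcz
    have key := Helper4.eq_of_isConj_of_mem_pgroup P hiso hQ
      (a := u) (b := u * (u * (g * u * g⁻¹)) ^ m)
      (Subgroup.subset_closure (by simp))
      (Subgroup.mul_mem _ (Subgroup.subset_closure (by simp)) (Subgroup.subset_closure (by simp)))
      (IsConj.refl u) hconj
    apply hz1
    have : u * (u * (g * u * g⁻¹)) ^ m = u * 1 := by rw [mul_one]; exact key.symm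
    exact mul_left_cancel this
  · intro hodd g hgP
    have h1 := hodd g
    have hmem : u * g * u⁻¹ * g⁻¹ ∈ P := by
      have : u * g * u⁻¹ * g⁻¹ = u * (g * u * g⁻¹)⁻¹ := by group
      rw [this]; exact mul_mem huP (inv_mem hgP)
    obtain ⟨k, hk⟩ := P.isPGroup' ⟨_, hmem⟩
    have hk' : (u * g * u⁻¹ * g⁻¹) ^ 2 ^ k = 1 := congrArg Subtype.val hk
    have hdvd : orderOf (u * g * u⁻¹ * g⁻¹) ∣ 2 ^ k := orderOf_dvd_of_pow_eq_one hk'
    have hone : orderOf (u * g * u⁻¹ * g⁻¹) = 1 := by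
      have hcop : Nat.Coprime (orderOf (u * g * u⁻¹ * g⁻¹)) (2 ^ k) :=
        Nat.Coprime.pow_right k (Nat.coprime_two_right.mpr h1)
      exact Nat.Coprime.eq_one_of_dvd hcop hdvd
    rw [orderOf_eq_one_iff] at hone
    have : g * u * g⁻¹ = (u * g * u⁻¹ * g⁻¹)⁻¹ * u := by group
    rw [this, hone]; simp

end Cfsg.Agent.S0216
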