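import Cfsg.Statements.S0218
import Mathlib
import Cfsg.Agent.Helper4.Dihedral

set_option autoImplicit false
open Cfsg

namespace Cfsg.Agent.S0218

theorem unique_invol (m : ℕ) [NeZero m] (x : QuaternionGroup m) :
    orderOf x = 2 ↔ x = QuaternionGroup.a (m : ZMod (2 * m)) := by
  have hm : 0 < m := Nat.pos_of_ne_zero (NeZero.ne m)
  have : NeZero (2 * m) := ⟨by omega⟩
  rw [Helper4.orderOf_two_iff]
  have hmne : (m : ZMod (2 * m)) ≠ 0 := by
    intro h
    rw [ZMod.natCast_eq_zero_iff] at h
    have := Nat.le_of_dvd hm h
    omega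
  cases x with
  | a i =>
    rw [QuaternionGroup.a_mul_a, QuaternionGroup.one_def]
    simp only [ne_eq, QuaternionGroup.a.injEq]
    constructor
    · rintro ⟨h0, h2⟩
      have hv : (i.val + i.val) % (2 * m) = 0 := by
        have := congrArg ZMod.val h2
        rwa [ZMod.val_add, ZMod.val_zero] at this
      have hlt : i.val < 2 * m := ZMod.val_lt i
      have hpos : 0 < i.val := by
        rcases Nat.eq_zero_or_pos i.val with h | h
        · exact absurd ((ZMod.val_eq_zero i).mp h) h0
        · exact h
      have hdvd : 2 * m ∣ i.val + i.val := Nat.dvd_of_mod_eq_zero hv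
      obtain ⟨c, hc⟩ := hdvd
      have hc1 : c = 1 := by
        rcases c with _ | _ | c
        · omega
        · rfl
        · exfalso; nlinarith
      subst hc1
      have : i.val = m := by omega
      have h3 : ((i.val : ℕ) : ZMod (2 * m)) = i := ZMod.natCast_zmod_val i
      rw [← h3]
      exact congrArg _ this
    · intro h
      subst h
      refine ⟨hmne, ?_⟩
      have : ((m : ZMod (2 * m)) + m) = ((2 * m : ℕ) : ZMod (2 * m)) := by push_cast; ring
      rw [this, ZMod.natCast_self]
  | xa i =>
    rw [QuaternionGroup.xa_mul_xa, QuaternionGroup.one_def]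
    constructor
    · rintro ⟨-, h⟩
      exfalso
      rw [QuaternionGroup.a.injEq] at h
      apply hmne
      simpa using h
    · intro h
      cases h

/-- The generalized quaternion group of order 2^(n+3) contains exactly one element of order 2. -/
theorem result (n : ℕ) : Nat.card {x : QuaternionGroup (2 ^ (n + 1)) // orderOf x = 2} = 1 := by
  rw [Nat.card_eq_one_iff_unique]
  constructor
  · constructor
    rintro ⟨x, hx⟩ ⟨y, hy⟩
    apply Subtype.ext
    simp only
    rw [(unique_invol _ x).mp hx, (unique_invol _ y).mp hy]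
  · exact ⟨⟨_, (unique_invol (2 ^ (n + 1)) _).mpr rfl⟩⟩

end Cfsg.Agent.S0218
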