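import Cfsg.Statements.S0219
import Mathlib

set_option autoImplicit false
open Cfsg

namespace Cfsg.Agent.S0219

theorem exists_index_two_of_isCyclic {C : Type*} [Group C] [Finite C] [IsCyclic C]
    (h : Even (Nat.card C)) : ∃ H : Subgroup C, H.index = 2 := by
  obtain ⟨g, hg⟩ := IsCyclic.exists_generator (α := C)
  have hord : orderOf g = Nat.card C := orderOf_eq_card_of_forall_mem_zpowers hg
  refine ⟨Subgroup.zpowers (g ^ 2), ?_⟩
  have hcard : Nat.card (Subgroup.zpowers (g ^ 2)) = Nat.card C / 2 := by
    rw [Nat.card_zpowers, orderOf_pow' g (by norm_num : (2 : ℕ) ≠ 0), hord]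
    congr 1
    exact Nat.gcd_eq_right (even_iff_two_dvd.mp h)
  have hmul := Subgroup.card_mul_index (Subgroup.zpowers (g ^ 2))
  rw [hcard] at hmul
  obtain ⟨m, hm⟩ := h
  have hpos : 0 < Nat.card C := Nat.card_pos
  have hdiv : Nat.card C / 2 = m := by omega
  rw [hdiv, hm] at hmul
  have hm0 : 0 < m := by omega
  have : m * (Subgroup.zpowers (g ^ 2)).index = m * 2 := by rw [hmul]; ring
  exact Nat.eq_of_mul_eq_mul_left hm0 this

/-- If a finite group has even order and a cyclic Sylow 2-subgroup, then it has a subgroup of index 2 (consider the parity of permutations in the regular representation). -/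
theorem result {G : Type*} [Group G] [Finite G] (heven : Even (Nat.card G)) (T : Sylow 2 G) (hT : IsCyclic (T : Subgroup G)) : ∃ H : Subgroup G, H.index = 2 := by
  have hp : (Nat.card G).minFac = 2 := (Nat.minFac_eq_two_iff _).mpr (even_iff_two_dvd.mp heven)
  have hcomp := IsCyclic.isComplement' hp (P := T) hT
  have hidx : (MonoidHom.transferSylow T (hT.normalizer_le_centralizer hp)).ker.index
      = Nat.card T := hcomp.symm.index_eq_card
  have hsurj : Function.Surjective (MonoidHom.transferSylow T (hT.normalizer_le_centralizer hp)) := by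
    rw [← MonoidHom.range_eq_top]
    apply Subgroup.eq_top_of_card_eq
    rw [← Subgroup.index_ker, hidx]
  have hTeven : Even (Nat.card T) :=
    even_iff_two_dvd.mpr (T.dvd_card_of_dvd_card (even_iff_two_dvd.mp heven))
  have : IsCyclic ↥T := hT
  obtain ⟨H, hH⟩ := exists_index_two_of_isCyclic (C := ↥T) hTeven
  exact ⟨H.comap (MonoidHom.transferSylow T (hT.normalizer_le_centralizer hp)),
    by rw [Subgroup.index_comap_of_surjective _ hsurj]; exact hH⟩

end Cfsg.Agent.S0219
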