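import Cfsg.Statements.S0220
import Mathlib
import Cfsg.Agent.Helper4.InvolTwo
import Cfsg.Agent.S0219

set_option autoImplicit false
open Cfsg

namespace Cfsg.Agent.S0220

theorem eq_of_orderOf_two_of_isCyclic {K : Type*} [Group K] [Finite K] [IsCyclic K] {a b : K}
    (ha : orderOf a = 2) (hb : orderOf b = 2) : a = b := by
  classical
  have := Fintype.ofFinite K
  have hd : 2 ∣ Fintype.card K := by
    rw [← Nat.card_eq_fintype_card, ← ha]; exact orderOf_dvd_natCard a
  have h := IsCyclic.card_orderOf_eq_totient hd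
  rw [Nat.totient_two] at h
  obtain ⟨c, hc⟩ := Finset.card_eq_one.mp h
  have ha' : a ∈ ({c} : Finset K) := by rw [← hc]; simp [ha]
  have hb' : b ∈ ({c} : Finset K) := by rw [← hc]; simp [hb]
  rw [Finset.mem_singleton] at ha' hb'
  rw [ha', hb']

/-- If x is an involution of a finite group G and a Sylow 2-subgroup of the centralizer of x is cyclic, then G has a subgroup of index 2; in particular G is not simple unless it has order 2. -/
theorem result {G : Type*} [Group G] [Finite G] (x : G) (hx : orderOf x = 2) (S : Sylow 2 ↥(Subgroup.centralizer ({x} : Set G))) (hS : IsCyclic (S : Subgroup ↥(Subgroup.centralizer ({x} : Set G)))) : ∃ H : Subgroup G, H.index = 2 := by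
  have hx2 := Helper4.mul_self_of_orderOf_two hx
  have hx1 := Helper4.ne_one_of_orderOf_two hx
  have hxC : x ∈ Subgroup.centralizer ({x} : Set G) :=
    Subgroup.mem_centralizer_singleton_iff.mpr rfl
  -- (1) x lies in S
  have hxS : (⟨x, hxC⟩ : Subgroup.centralizer ({x} : Set G)) ∈ S := by
    have hxx : (⟨x, hxC⟩ : Subgroup.centralizer ({x} : Set G)) * ⟨x, hxC⟩ = 1 := Subtype.ext hx2
    obtain ⟨g, hg⟩ := Helper4.exists_conj_mem_sylow_of_invol S hxx
    have e : g * ⟨x, hxC⟩ * g⁻¹ = (⟨x, hxC⟩ : Subgroup.centralizer ({x} : Set G)) := by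
      apply Subtype.ext
      show g.1 * x * g.1⁻¹ = x
      have := Subgroup.mem_centralizer_singleton_iff.mp g.2
      rw [this]; group
    rwa [e] at hg
  -- (2) a Sylow 2-subgroup of G containing S
  have hS'p : IsPGroup 2 ((S : Subgroup (Subgroup.centralizer ({x} : Set G))).map
      (Subgroup.centralizer ({x} : Set G)).subtype) := S.isPGroup'.map _
  obtain ⟨T, hT⟩ := hS'p.exists_le_sylow
  have hxT : x ∈ T := hT ⟨⟨x, hxC⟩, hxS, rfl⟩
  -- (3) T ∩ C = S
  have h3 : ∀ d : G, d ∈ T → ∀ hd : d ∈ Subgroup.centralizer ({x} : Set G),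
      (⟨d, hd⟩ : Subgroup.centralizer ({x} : Set G)) ∈ S := by
    intro d hdT hdC
    have hD : IsPGroup 2 ((T : Subgroup G).subgroupOf (Subgroup.centralizer ({x} : Set G))) :=
      T.isPGroup'.comap_subtype
    have hle : (S : Subgroup (Subgroup.centralizer ({x} : Set G)))
        ≤ (T : Subgroup G).subgroupOf (Subgroup.centralizer ({x} : Set G)) := by
      intro s hs
      rw [Subgroup.mem_subgroupOf]
      exact hT ⟨s, hs, rfl⟩
    have heq := S.is_maximal' hD hle
    have hmem : (⟨d, hdC⟩ : Subgroup.centralizer ({x} : Set G))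
        ∈ (T : Subgroup G).subgroupOf (Subgroup.centralizer ({x} : Set G)) := by
      rw [Subgroup.mem_subgroupOf]; exact hdT
    rw [heq] at hmem; exact hmem
  -- (4) a central involution of T
  have hTnt : Nontrivial ↥T := ⟨⟨⟨x, hxT⟩, 1, fun h => hx1 (congrArg Subtype.val h)⟩⟩
  have hZnt : Nontrivial (Subgroup.center ↥T) := T.isPGroup'.center_nontrivial
  have hZp : IsPGroup 2 (Subgroup.center ↥T) := T.isPGroup'.to_subgroup _
  have hZeven : Even (Nat.card (Subgroup.center ↥T)) := by
    rcases hZp.card_eq_or_dvd with h | h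
    · exfalso
      have := (Nat.card_eq_one_iff_unique.mp h).1
      exact not_subsingleton _ this
    · exact even_iff_two_dvd.mpr h
  obtain ⟨z, hzZ, hz⟩ := (Helper4.even_card_iff_exists_involution _).mp hZeven
  have hzc : ∀ a : G, a ∈ T → a * z.1 = z.1 * a := by
    intro a ha
    have := Subgroup.mem_center_iff.mp hzZ ⟨a, ha⟩
    exact congrArg Subtype.val this
  have hz2 : orderOf z.1 = 2 := by rw [Subgroup.orderOf_coe]; exact hz
  -- (5) z = x
  have hzC : z.1 ∈ Subgroup.centralizer ({x} : Set G) := by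
    rw [Subgroup.mem_centralizer_singleton_iff]
    exact (hzc x hxT).symm
  have hzS := h3 z.1 z.2 hzC
  have hzx : z.1 = x := by
    have : IsCyclic ↥S := hS
    have e := eq_of_orderOf_two_of_isCyclic (K := ↥S)
      (a := ⟨⟨z.1, hzC⟩, hzS⟩) (b := ⟨⟨x, hxC⟩, hxS⟩)
      (by rw [Subgroup.orderOf_mk, Subgroup.orderOf_mk]; exact hz2)
      (by rw [Subgroup.orderOf_mk, Subgroup.orderOf_mk]; exact hx)
    exact congrArg (fun s : ↥S => (s.1.1 : G)) e
  -- (6) T ≤ C
  have hTC : ∀ a : G, a ∈ T → a ∈ Subgroup.centralizer ({x} : Set G) := by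
    intro a ha
    rw [Subgroup.mem_centralizer_singleton_iff, ← hzx]
    exact hzc a ha
  -- (7) T is cyclic
  have hTcyc : IsCyclic (T : Subgroup G) := by
    have : IsCyclic ↥S := hS
    let φ : ↥S →* ↥T :=
      { toFun := fun s => ⟨s.1.1, hT ⟨s.1, s.2, rfl⟩⟩
        map_one' := rfl
        map_mul' := fun _ _ => rfl }
    have hsurj : Function.Surjective φ := by
      intro a
      exact ⟨⟨⟨a.1, hTC a.1 a.2⟩, h3 a.1 a.2 (hTC a.1 a.2)⟩, rfl⟩
    exact isCyclic_of_surjective φ hsurj
  have heven : Even (Nat.card G) := Helper4.even_card_iff_exists_involution'.mpr ⟨x, hx⟩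
  exact Cfsg.Agent.S0219.result heven T hTcyc

end Cfsg.Agent.S0220
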