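import Cfsg.Statements.S0221
import Mathlib
import Cfsg.Agent.Helper4.NormalFour
import Cfsg.Agent.Helper4.InvolTwo
import Cfsg.Agent.Helper4.Count
import Cfsg.Agent.Helper2.ThompsonTransfer

set_option autoImplicit false
open Cfsg

namespace Cfsg.Agent.S0221

/-- The goal is invariant under conjugating the involution. -/
theorem conj_goal {G : Type*} [Group G] [Finite G] (x g : G)
    (h : ∃ E : Subgroup G, E ≤ Subgroup.centralizer ({g * x * g⁻¹} : Set G) ∧ Nat.card E = 8 ∧
      ∀ e ∈ E, e ^ 2 = 1) :
    ∃ E : Subgroup G, E ≤ Subgroup.centralizer ({x} : Set G) ∧ Nat.card E = 8 ∧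
      ∀ e ∈ E, e ^ 2 = 1 := by
  obtain ⟨E, hE, hcard, hexp⟩ := h
  refine ⟨E.map (MulAut.conj g⁻¹).toMonoidHom, ?_, ?_, ?_⟩
  · rintro _ ⟨b, hb, rfl⟩
    have h1 := Subgroup.mem_centralizer_singleton_iff.mp (hE hb)
    rw [Subgroup.mem_centralizer_singleton_iff]
    show (MulAut.conj g⁻¹) b * x = x * (MulAut.conj g⁻¹) b
    rw [MulAut.conj_apply, inv_inv]
    calc g⁻¹ * b * g * x = g⁻¹ * (b * (g * x * g⁻¹)) * g := by group
      _ = g⁻¹ * ((g * x * g⁻¹) * b) * g := by rw [h1]
      _ = x * (g⁻¹ * b * g) := by group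
  · rw [Subgroup.card_map_of_injective (MulAut.conj g⁻¹).injective, hcard]
  · rintro _ ⟨b, hb, rfl⟩
    show ((MulAut.conj g⁻¹) b) ^ 2 = 1
    rw [← map_pow, hexp b hb, map_one]

open Agent.Helper4 in
/-- The core of the argument, inside a Sylow `2`-subgroup `S` with a normal four-group
`{1, z, e, z e}`: an involution `x ∈ S` commuting with `e` centralizes an `E₈`. -/
theorem core {G : Type*} [Group G] [Finite G] (S : Subgroup G) (E₀ : Subgroup G) (hE₀S : E₀ ≤ S)
    (hE₀card : Nat.card E₀ = 8) (hE₀exp : ∀ a ∈ E₀, a * a = 1) (z e : G)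
    (hzS : ∀ s ∈ S, s * z = z * s) (heS : e ∈ S) (hzz : z * z = 1) (hz1 : z ≠ 1)
    (hee : e * e = 1) (he1 : e ≠ 1) (hez : e ≠ z)
    (hconj : ∀ s ∈ S, s * e * s⁻¹ = e ∨ s * e * s⁻¹ = z * e)
    (x : G) (hxS : x ∈ S) (hxx : x * x = 1) (hx1 : x ≠ 1) (hxe : x * e = e * x) :
    ∃ E : Subgroup G, E ≤ Subgroup.centralizer ({x} : Set G) ∧ Nat.card E = 8 ∧
      ∀ b ∈ E, b ^ 2 = 1 := by
  have hxz : x * z = z * x := hzS x hxS
  have hez' : e * z = z * e := hzS e heS
  have hZ : ∀ a ∈ Subgroup.zpowers z, a = 1 ∨ a = z := fun a ha => mem_zpowers_of_sq hzz ha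
  have hZe : ∀ a ∈ Subgroup.zpowers z, e * a = a * e := by
    intro a ha
    rcases hZ a ha with rfl | rfl
    · simp
    · exact hez'
  have hZsq : ∀ a ∈ Subgroup.zpowers z, a * a = 1 := by
    intro a ha
    rcases hZ a ha with rfl | rfl
    · simp
    · exact hzz
  have hZx : ∀ a ∈ Subgroup.zpowers z, x * a = a * x := by
    intro a ha
    rcases hZ a ha with rfl | rfl
    · simp
    · exact hxz
  have heZ : e ∉ Subgroup.zpowers z := fun h => by
    rcases hZ e h with h1 | h1
    · exact he1 h1
    · exact hez h1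
  -- the four-group U
  have hUcard : Nat.card (adjoinInv (Subgroup.zpowers z) e hee hZe) = 4 := by
    rw [card_adjoinInv heZ, Nat.card_zpowers, orderOf_two_iff.mpr ⟨hz1, hzz⟩]
  have hUsq : ∀ b ∈ adjoinInv (Subgroup.zpowers z) e hee hZe, b * b = 1 := sq_adjoinInv hZsq
  have hUx : ∀ b ∈ adjoinInv (Subgroup.zpowers z) e hee hZe, x * b = b * x :=
    comm_adjoinInv x hZx hxe
  by_cases hxU : x ∈ adjoinInv (Subgroup.zpowers z) e hee hZe
  · -- x ∈ {z, e, z e}: elements of S commuting with e commute with x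
    have hkey : ∀ b ∈ S, b * e = e * b → b * x = x * b := by
      intro b hb hbe
      have hbz := hzS b hb
      rcases hxU with h | h
      · rcases hZ x h with h1 | h1
        · exact absurd h1 hx1
        · rw [h1]; exact hbz
      · rcases hZ _ h with h1 | h1
        · have h2 : x = e := by
            have h3 := eq_inv_of_mul_eq_one_right h1
            rw [h3]; exact inv_eq_of_mul_eq_one_left hee
          rw [h2]; exact hbe
        · have h2 : x = e * z := by
            calc x = (e * e) * x := by rw [hee, one_mul]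
              _ = e * (e * x) := by rw [mul_assoc]
              _ = e * z := by rw [h1]
          rw [h2]
          calc b * (e * z) = (b * e) * z := by rw [mul_assoc]
            _ = e * (b * z) := by rw [hbe, mul_assoc]
            _ = e * z * b := by rw [hbz, mul_assoc]
    by_cases hall : ∀ a ∈ E₀, a * e = e * a
    · refine ⟨E₀, ?_, hE₀card, fun b hb => by rw [pow_two]; exact hE₀exp b hb⟩
      intro a ha
      rw [Subgroup.mem_centralizer_singleton_iff]
      exact hkey a (hE₀S ha) (hall a ha)
    · push Not at hall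
      obtain ⟨a₀, ha₀, ha₀e⟩ := hall
      have hE₀comm : ∀ a ∈ E₀, ∀ b ∈ E₀, a * b = b * a := fun a ha b hb =>
        comm_of_sq (hE₀exp a ha) (hE₀exp b hb) (hE₀exp _ (E₀.mul_mem ha hb))
      have hE₁mem : ∀ b, b ∈ E₀ ⊓ Subgroup.centralizer ({e} : Set G) ↔ b ∈ E₀ ∧ b * e = e * b := by
        intro b
        rw [Subgroup.mem_inf, Subgroup.mem_centralizer_singleton_iff]
      have ha₀E₁ : a₀ ∉ E₀ ⊓ Subgroup.centralizer ({e} : Set G) :=
        fun h => ha₀e ((hE₁mem a₀).mp h).2
      have heE₁ : e ∉ E₀ ⊓ Subgroup.centralizer ({e} : Set G) := by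
        intro h
        exact ha₀e (hE₀comm a₀ ha₀ e ((hE₁mem e).mp h).1)
      have hcomm₁ : ∀ b ∈ E₀ ⊓ Subgroup.centralizer ({e} : Set G), a₀ * b = b * a₀ :=
        fun b hb => hE₀comm a₀ ha₀ b ((hE₁mem b).mp hb).1
      -- E₀ = E₁ ∪ a₀ E₁
      have hE₀eq : E₀ = adjoinInv (E₀ ⊓ Subgroup.centralizer ({e} : Set G)) a₀
          (hE₀exp a₀ ha₀) hcomm₁ := by
        ext b
        rw [mem_adjoinInv]
        constructor
        · intro hb
          by_cases hbe : b * e = e * b
          · exact Or.inl ((hE₁mem b).mpr ⟨hb, hbe⟩)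
          · right
            rw [hE₁mem]
            refine ⟨E₀.mul_mem ha₀ hb, ?_⟩
            have h1 : b * e * b⁻¹ = z * e := by
              rcases hconj b (hE₀S hb) with h | h
              · exfalso; apply hbe
                calc b * e = (b * e * b⁻¹) * b := by group
                  _ = e * b := by rw [h]
              · exact h
            have h2 : a₀ * e * a₀⁻¹ = z * e := by
              rcases hconj a₀ (hE₀S ha₀) with h | h
              · exfalso; apply ha₀e
                calc a₀ * e = (a₀ * e * a₀⁻¹) * a₀ := by group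
                  _ = e * a₀ := by rw [h]
              · exact h
            have h3 : a₀ * z = z * a₀ := hzS a₀ (hE₀S ha₀)
            calc a₀ * b * e = a₀ * (b * e * b⁻¹) * b := by group
              _ = a₀ * (z * e) * b := by rw [h1]
              _ = (a₀ * z) * e * b := by group
              _ = z * (a₀ * e * a₀⁻¹) * a₀ * b := by rw [h3]; group
              _ = z * (z * e) * a₀ * b := by rw [h2]
              _ = (z * z) * e * (a₀ * b) := by group
              _ = e * (a₀ * b) := by rw [hzz, one_mul]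
        · rintro (hb | hb)
          · exact ((hE₁mem b).mp hb).1
          · have h1 := ((hE₁mem _).mp hb).1
            have h2 : b = a₀ * (a₀ * b) := by rw [← mul_assoc, hE₀exp a₀ ha₀, one_mul]
            rw [h2]
            exact E₀.mul_mem ha₀ h1
      have hE₁card : Nat.card (E₀ ⊓ Subgroup.centralizer ({e} : Set G) : Subgroup G) = 4 := by
        have h1 : Nat.card E₀ = 2 * Nat.card (E₀ ⊓ Subgroup.centralizer ({e} : Set G) : Subgroup G) := by
          conv_lhs => rw [hE₀eq]
          exact card_adjoinInv ha₀E₁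
        omega
      have hcomm₂ : ∀ b ∈ E₀ ⊓ Subgroup.centralizer ({e} : Set G), e * b = b * e :=
        fun b hb => ((hE₁mem b).mp hb).2.symm
      refine ⟨adjoinInv (E₀ ⊓ Subgroup.centralizer ({e} : Set G)) e hee hcomm₂, ?_, ?_, ?_⟩
      · intro b hb
        rw [Subgroup.mem_centralizer_singleton_iff]
        refine (comm_adjoinInv x ?_ hxe b hb).symm
        intro c hc
        exact (hkey c (hE₀S ((hE₁mem c).mp hc).1) ((hE₁mem c).mp hc).2).symm
      · rw [card_adjoinInv heE₁, hE₁card]
      · intro b hb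
        rw [pow_two]
        exact sq_adjoinInv (fun c hc => hE₀exp c ((hE₁mem c).mp hc).1) b hb
  · refine ⟨adjoinInv (adjoinInv (Subgroup.zpowers z) e hee hZe) x hxx hUx, ?_, ?_, ?_⟩
    · intro b hb
      rw [Subgroup.mem_centralizer_singleton_iff]
      exact (comm_adjoinInv x hUx rfl b hb).symm
    · rw [card_adjoinInv hxU, hUcard]
    · intro b hb
      rw [pow_two]
      exact sq_adjoinInv hUsq b hb

/-- Let G be a finite group with no subgroup of index 2 whose 2-rank is at least 3 (it contains an elementary abelian subgroup of order 8). Then the centralizer of every involution of G also contains an elementary abelian subgroup of order 8. -/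
theorem result {G : Type*} [Group G] [Finite G] (hno : ∀ H : Subgroup G, H.index ≠ 2) (hrank : ∃ E : Subgroup G, Nat.card E = 8 ∧ ∀ e ∈ E, e ^ 2 = 1) (x : G) (hx : orderOf x = 2) : ∃ E : Subgroup G, E ≤ Subgroup.centralizer ({x} : Set G) ∧ Nat.card E = 8 ∧ ∀ e ∈ E, e ^ 2 = 1 := by
  classical
  haveI : Fact (Nat.Prime 2) := ⟨Nat.prime_two⟩
  obtain ⟨E₀, hE₀card, hE₀exp⟩ := hrank
  have hE₀sq : ∀ a ∈ E₀, a * a = 1 := fun a ha => by rw [← pow_two]; exact hE₀exp a ha
  have hE₀p : IsPGroup 2 E₀ := IsPGroup.of_card (n := 3) (by rw [hE₀card]; norm_num)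
  obtain ⟨S, hE₀S⟩ := hE₀p.exists_le_sylow
  -- normal four-group in S
  have hVcard : Nat.card (E₀.subgroupOf (S : Subgroup G)) = 8 := by
    rw [Nat.card_congr (Subgroup.subgroupOfEquivOfLe hE₀S).toEquiv, hE₀card]
  have hVexp : ∀ v ∈ E₀.subgroupOf (S : Subgroup G), v * v = 1 := by
    intro v hv
    apply Subtype.ext
    exact hE₀sq _ (Subgroup.mem_subgroupOf.mp hv)
  obtain ⟨z, e, hzc, hzo, heo, hez, hconj⟩ :=
    Agent.Helper4.exists_normal_four S.isPGroup' (E₀.subgroupOf (S : Subgroup G)) hVcard hVexp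
  -- translate to G
  have hzS : ∀ s ∈ (S : Subgroup G), s * (z : G) = (z : G) * s := by
    intro s hs
    have h1 := Subgroup.mem_center_iff.mp hzc ⟨s, hs⟩
    exact congrArg Subtype.val h1
  have hzo' : orderOf (z : G) = 2 := by rw [Subgroup.orderOf_coe]; exact hzo
  have heo' : orderOf (e : G) = 2 := by rw [Subgroup.orderOf_coe]; exact heo
  obtain ⟨hz1, hzz⟩ := Agent.Helper4.orderOf_two_iff.mp hzo'
  obtain ⟨he1, hee⟩ := Agent.Helper4.orderOf_two_iff.mp heo'
  have hez' : (e : G) ≠ (z : G) := fun h => hez (Subtype.ext h)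
  have hconj' : ∀ s ∈ (S : Subgroup G), s * (e : G) * s⁻¹ = (e : G) ∨
      s * (e : G) * s⁻¹ = (z : G) * (e : G) := by
    intro s hs
    rcases hconj ⟨s, hs⟩ with h | h
    · left; exact congrArg Subtype.val h
    · right; exact congrArg Subtype.val h
  obtain ⟨hx1, hxx⟩ := Agent.Helper4.orderOf_two_iff.mp hx
  have hstep : ∃ g : G, g * x * g⁻¹ ∈ (S : Subgroup G) ∧
      (g * x * g⁻¹) * (e : G) = (e : G) * (g * x * g⁻¹) := by
    by_cases hQS : ∀ s ∈ (S : Subgroup G), s * (e : G) = (e : G) * s
    · obtain ⟨g, hg⟩ := Agent.Helper4.exists_conj_mem_sylow_of_invol S hxx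
      exact ⟨g, hg, hQS _ hg⟩
    · push Not at hQS
      obtain ⟨s₀, hs₀S, hs₀⟩ := hQS
      have hsub : ((S : Subgroup G) ⊓ Subgroup.centralizer ({(e : G)} : Set G)).subgroupOf
          (S : Subgroup G) = Subgroup.centralizer ({e} : Set (S : Subgroup G)) := by
        ext s
        rw [Subgroup.mem_subgroupOf, Subgroup.mem_inf, Subgroup.mem_centralizer_singleton_iff,
          Subgroup.mem_centralizer_singleton_iff]
        constructor
        · rintro ⟨-, h⟩
          exact Subtype.ext h
        · intro h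
          exact ⟨s.2, congrArg Subtype.val h⟩
      have hclass : Nat.card {w : (S : Subgroup G) // IsConj e w} = 2 := by
        rw [Nat.card_eq_two_iff]
        have hs₀' : (⟨s₀, hs₀S⟩ : (S : Subgroup G)) * e * (⟨s₀, hs₀S⟩ : (S : Subgroup G))⁻¹ = z * e := by
          rcases hconj ⟨s₀, hs₀S⟩ with h | h
          · exfalso
            apply hs₀
            have h1 : s₀ * (e : G) * s₀⁻¹ = (e : G) := congrArg Subtype.val h
            calc s₀ * (e : G) = (s₀ * (e : G) * s₀⁻¹) * s₀ := by group
              _ = (e : G) * s₀ := by rw [h1]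
          · exact h
        refine ⟨⟨e, IsConj.refl e⟩, ⟨z * e, isConj_iff.mpr ⟨_, hs₀'⟩⟩, ?_, ?_⟩
        · intro h
          have h1 : e = z * e := congrArg Subtype.val h
          have h2 : z = 1 := by
            have := mul_eq_right.mp h1.symm
            exact this
          exact hz1 (by rw [h2]; rfl)
        · ext ⟨w, hw⟩
          simp only [Set.mem_insert_iff, Set.mem_singleton_iff, Set.mem_univ, iff_true,
            Subtype.mk.injEq]
          obtain ⟨c, hc⟩ := isConj_iff.mp hw
          rw [← hc]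
          exact hconj c
      have hrel : ((S : Subgroup G) ⊓ Subgroup.centralizer ({(e : G)} : Set G)).relIndex
          (S : Subgroup G) = 2 := by
        show (((S : Subgroup G) ⊓ Subgroup.centralizer ({(e : G)} : Set G)).subgroupOf
          (S : Subgroup G)).index = 2
        rw [hsub]
        have h1 := Agent.Helper4.card_isConj_mul_card_centralizer (G := (S : Subgroup G)) e
        have h2 := Subgroup.card_mul_index (Subgroup.centralizer ({e} : Set (S : Subgroup G)))
        rw [hclass] at h1
        have hpos : 0 < Nat.card (Subgroup.centralizer ({e} : Set (S : Subgroup G))) := Nat.card_pos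
        have h3 : Nat.card (Subgroup.centralizer ({e} : Set (S : Subgroup G))) *
            (Subgroup.centralizer ({e} : Set (S : Subgroup G))).index
            = Nat.card (Subgroup.centralizer ({e} : Set (S : Subgroup G))) * 2 := by
          rw [h2, ← h1, mul_comm]
        exact Nat.eq_of_mul_eq_mul_left hpos h3
      by_contra hcon
      push Not at hcon
      have hno' : ∀ g : G, g * x * g⁻¹ ∉
          (S : Subgroup G) ⊓ Subgroup.centralizer ({(e : G)} : Set G) := by
        intro g hg
        rw [Subgroup.mem_inf, Subgroup.mem_centralizer_singleton_iff] at hg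
        exact hcon g hg.1 hg.2
      obtain ⟨M, -, hM, -⟩ := Agent.Helper2.thompson_transfer (S : Subgroup G) S.not_dvd_index
        _ hrel x hx hno'
      exact hno M hM
  obtain ⟨g, hgS, hge⟩ := hstep
  apply conj_goal x g
  exact core (S : Subgroup G) E₀ hE₀S hE₀card hE₀sq (z : G) (e : G) hzS e.2 hzz hz1 hee he1
    hez' hconj' (g * x * g⁻¹) hgS (Agent.Helper4.conj_mul_self hxx g)
    (Agent.Helper4.conj_ne_one hx1 g) hge

end Cfsg.Agent.S0221
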