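import Cfsg.Statements.S0226
import Mathlib
import Cfsg.Agent.Helper4.Dihedral

set_option autoImplicit false
open Cfsg

namespace Cfsg.Agent.S0226

/-- A finite group of even order has an odd number of involutions. -/
theorem result {G : Type*} [Group G] [Finite G] (heven : Even (Nat.card G)) : Odd (Nat.card {t : G // orderOf t = 2}) := by
  classical
  haveI := Fintype.ofFinite G
  have hf : (id (fun g : G => g⁻¹) : Function.End G) ^ 2 ^ 1 = 1 := by
    rw [pow_one, pow_two]
    funext g
    exact inv_inv g
  have h := @Equiv.Perm.card_fixedPoints_modEq G _ _ (fun g : G => g⁻¹) 2 1 ⟨Nat.prime_two⟩ hf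
  have hS : Function.fixedPoints (fun g : G => g⁻¹) = insert 1 {t : G | orderOf t = 2} := by
    ext g
    simp only [Function.mem_fixedPoints, Function.IsFixedPt, Set.mem_insert_iff, Set.mem_ofPred_eq]
    rw [Helper4.orderOf_two_iff]
    constructor
    · intro hg
      by_cases h1 : g = 1
      · left; exact h1
      · right
        refine ⟨h1, ?_⟩
        nth_rewrite 1 [← hg]; exact inv_mul_cancel g
    · rintro (rfl | ⟨_, h2⟩)
      · simp
      · exact Helper4.inv_eq_self_of_mul_self h2
  have hnot : (1 : G) ∉ {t : G | orderOf t = 2} := by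
    simp
  have key := Set.ncard_insert_of_notMem hnot (Set.toFinite _)
  rw [← hS] at key
  rw [← Nat.card_eq_fintype_card, ← Nat.card_eq_fintype_card, Nat.card_coe_set_eq, key] at h
  rw [← Nat.card_coe_set_eq] at h
  have h2 : Nat.card G % 2 = 0 := Nat.even_iff.mp heven
  have h3 : (Nat.card {t : G | orderOf t = 2} + 1) % 2 = 0 := by
    rw [← h2]; exact h.symm
  rw [Nat.odd_iff]
  have h4 : Nat.card {t : G // orderOf t = 2} = Nat.card {t : G | orderOf t = 2} := rfl
  omega

end Cfsg.Agent.S0226
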