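import Cfsg.Statements.S0229
import Mathlib
import Cfsg.Agent.Helper4.SylowTwo

set_option autoImplicit false
open Cfsg

namespace Cfsg.Agent.S0229

/-- Let t be an involution of a Sylow 2-subgroup S of a finite group G, conjugate in G to no other element of S, and let s be an involution of G not conjugate to t. Then the order of st is twice an odd number. -/
theorem result {G : Type*} [Group G] [Finite G] (S : Sylow 2 G) (t : G) (ht : orderOf t = 2) (htS : t ∈ S) (hiso : ∀ g : G, g * t * g⁻¹ ∈ S → g * t * g⁻¹ = t) (s : G) (hs : orderOf s = 2) (hns : ¬ IsConj s t) : orderOf (s * t) % 4 = 2 := by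
  have hs2 := Helper4.mul_self_of_orderOf_two hs
  have ht2 := Helper4.mul_self_of_orderOf_two ht
  have hpos : 0 < orderOf (s * t) := orderOf_pos _
  -- the order is even
  have heven : Even (orderOf (s * t)) := by
    by_contra hodd
    rw [Nat.not_even_iff_odd] at hodd
    obtain ⟨k, hk⟩ := hodd
    apply hns
    rw [isConj_iff]
    refine ⟨(s * t) ^ (k : ℤ), ?_⟩
    rw [Helper4.zpow_conj_of_mul_self hs2 ht2]
    have h1 : (s * t) ^ ((2 * k + 1 : ℕ) : ℤ) = 1 := by
      rw [zpow_natCast, ← hk, pow_orderOf_eq_one]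
    have h2 : (s * t) ^ (-(2 * (k : ℤ))) = (s * t) ^ (1 : ℤ) := by
      have : (-(2 * (k : ℤ))) = 1 - ((2 * k + 1 : ℕ) : ℤ) := by push_cast; ring
      rw [this, zpow_sub, h1]; simp
    rw [h2, zpow_one, ← mul_assoc, hs2, one_mul]
  obtain ⟨m, hm⟩ := heven
  -- m is odd
  have hmodd : Odd m := by
    by_contra hmeven
    rw [Nat.not_odd_iff_even] at hmeven
    obtain ⟨q, hq⟩ := hmeven
    have hq' : m = 2 * q := by omega
    have hz2 : (s * t) ^ m * (s * t) ^ m = 1 := by
      rw [← pow_add, ← hm, pow_orderOf_eq_one]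
    have hz1 : (s * t) ^ m ≠ 1 :=
      pow_ne_one_of_lt_orderOf (by omega) (by omega)
    have hzinv : ((s * t) ^ m)⁻¹ = (s * t) ^ m := Helper4.inv_eq_self_of_mul_self hz2
    have hcs : Commute s ((s * t) ^ m) := by
      have h := Helper4.mul_zpow_mul_of_mul_self hs2 ht2 (m : ℤ)
      rw [zpow_neg, zpow_natCast, hzinv] at h
      show s * (s * t) ^ m = (s * t) ^ m * s
      calc s * (s * t) ^ m = (s * (s * t) ^ m * s) * s := by
            rw [mul_assoc, mul_assoc, hs2, mul_one]
        _ = (s * t) ^ m * s := by rw [h]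
    have hct : Commute t ((s * t) ^ m) := by
      have hcst : Commute (s * t) ((s * t) ^ m) := (Commute.refl (s * t)).pow_right m
      have key : Commute (s⁻¹ * (s * t)) ((s * t) ^ m) := (hcs.inv_left).mul_left hcst
      rwa [inv_mul_cancel_left] at key
    have hconj : IsConj t (t * (s * t) ^ m) := by
      rw [hq']
      exact (Helper4.isConj_mul_pow_even hs2 ht2 q).2
    have hQ := Helper4.isPGroup_two_closure_pair_of_commute ht2 hz2 hct
    have key := Helper4.eq_of_isConj_of_mem_pgroup S hiso hQ
      (a := t) (b := t * (s * t) ^ m)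
      (Subgroup.subset_closure (by simp))
      (Subgroup.mul_mem _ (Subgroup.subset_closure (by simp)) (Subgroup.subset_closure (by simp)))
      (IsConj.refl t) hconj
    apply hz1
    have : t * (s * t) ^ m = t * 1 := by rw [mul_one]; exact key.symm
    exact mul_left_cancel this
  obtain ⟨j, hj⟩ := hmodd
  omega

end Cfsg.Agent.S0229
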