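import Cfsg.Statements.S0230
import Mathlib
import Cfsg.Agent.Helper4.Count

set_option autoImplicit false
open Cfsg

namespace Cfsg.Agent.S0230

/-- Let G be a finite group with two non-conjugate involutions, and let t be an involution whose centralizer has maximal order among centralizers of involutions. Then |G| < |C_G(t)|^3. -/
theorem result {G : Type*} [Group G] [Finite G] (s t : G) (hs : orderOf s = 2) (ht : orderOf t = 2) (hnc : ¬ IsConj s t) (hmax : ∀ u : G, orderOf u = 2 → Nat.card (Subgroup.centralizer ({u} : Set G)) ≤ Nat.card (Subgroup.centralizer ({t} : Set G))) : Nat.card G < Nat.card (Subgroup.centralizer ({t} : Set G)) ^ 3 := by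
  classical
  have := Fintype.ofFinite G
  have hs2 := Helper4.mul_self_of_orderOf_two hs
  have ht2 := Helper4.mul_self_of_orderOf_two ht
  let K : Finset G := Finset.univ.filter (fun w => IsConj t w)
  let f : G → G := fun w => (s * w) ^ (orderOf (s * w) / 2)
  let A : Finset G := Finset.univ.filter
    (fun z => orderOf z = 2 ∧ z ∈ Subgroup.centralizer ({s} : Set G))
  have hKcard : K.card = Nat.card {w : G // IsConj t w} := by
    rw [Nat.card_eq_fintype_card, Fintype.card_subtype]
  have hspec : ∀ w ∈ K, f w ≠ 1 ∧ f w * f w = 1 ∧ Commute s (f w) ∧ Commute w (f w) := by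
    intro w hw
    have hw' : IsConj t w := (Finset.mem_filter.mp hw).2
    obtain ⟨c, hc⟩ := isConj_iff.mp hw'
    have hw2 : w * w = 1 := by rw [← hc]; exact Helper4.conj_mul_self ht2 c
    have hnc' : ¬ IsConj s w := fun h => hnc (h.trans hw'.symm)
    have heven := Helper4.even_orderOf_mul_of_not_isConj hs2 hw2 hnc'
    exact Helper4.central_invol_spec hs2 hw2 (orderOf_pos _) heven
  have himg : K.image f ⊆ A := by
    intro a ha
    obtain ⟨w, hw, rfl⟩ := Finset.mem_image.mp ha
    obtain ⟨h1, h2, h3, h4⟩ := hspec w hw
    refine Finset.mem_filter.mpr ⟨Finset.mem_univ _, Helper4.orderOf_two_iff.mpr ⟨h1, h2⟩, ?_⟩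
    rw [Subgroup.mem_centralizer_singleton_iff]
    exact h3.eq.symm
  have hfib : ∀ a ∈ K.image f, (K.filter (fun w => f w = a)).card
      ≤ Nat.card (Subgroup.centralizer ({t} : Set G)) := by
    intro a ha
    have haA := himg ha
    have ha2 : orderOf a = 2 := (Finset.mem_filter.mp haA).2.1
    have hsub : ((K.filter (fun w => f w = a) : Finset G) : Set G)
        ⊆ (Subgroup.centralizer ({a} : Set G) : Set G) := by
      intro w hw
      rw [Finset.mem_coe, Finset.mem_filter] at hw
      obtain ⟨hwK, rfl⟩ := hw
      rw [SetLike.mem_coe, Subgroup.mem_centralizer_singleton_iff]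
      exact (hspec w hwK).2.2.2.eq
    have h1 := Set.ncard_le_ncard hsub (Set.toFinite _)
    rw [Set.ncard_coe_finset, ← Nat.card_coe_set_eq] at h1
    exact h1.trans (hmax a ha2)
  have hA : A.card + 1 ≤ Nat.card (Subgroup.centralizer ({t} : Set G)) := by
    have hsub : insert (1 : G) (A : Set G) ⊆ (Subgroup.centralizer ({s} : Set G) : Set G) := by
      intro z hz
      rcases hz with rfl | hz
      · exact one_mem _
      · exact (Finset.mem_filter.mp hz).2.2
    have h1 : (1 : G) ∉ (A : Set G) := by
      intro h
      have := (Finset.mem_filter.mp h).2.1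
      simp at this
    have h2 := Set.ncard_le_ncard hsub (Set.toFinite _)
    rw [Set.ncard_insert_of_notMem h1 (Set.toFinite _), Set.ncard_coe_finset,
      ← Nat.card_coe_set_eq] at h2
    exact h2.trans (hmax s hs)
  have hK := Finset.card_le_mul_card_image K _ hfib
  have hI : (K.image f).card ≤ A.card := Finset.card_le_card himg
  have hcls := Helper4.card_isConj_mul_card_centralizer t
  rw [← hKcard] at hcls
  generalize Nat.card (Subgroup.centralizer ({t} : Set G)) = m at *
  have hm1 : 1 ≤ m := by omega
  have hK' : K.card ≤ m * A.card := hK.trans (Nat.mul_le_mul_left m hI)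
  calc Nat.card G = K.card * m := hcls.symm
    _ ≤ (m * A.card) * m := Nat.mul_le_mul_right m hK'
    _ < (m * m) * m := by
        apply Nat.mul_lt_mul_of_pos_right _ (by omega)
        exact Nat.mul_lt_mul_of_pos_left (by omega) (by omega)
    _ = m ^ 3 := by ring

end Cfsg.Agent.S0230
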