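import Cfsg.Statements.S0231
import Mathlib
import Cfsg.Agent.Helper4.InvolTwo

set_option autoImplicit false
open scoped Pointwise
open Cfsg

namespace Cfsg.Agent.S0231

/-- Let T be a Sylow 2-subgroup of the finite group G which is not normal and which intersects every other Sylow 2-subgroup trivially. Then G has a single conjugacy class of involutions. -/
theorem result {G : Type*} [Group G] [Finite G] (T : Sylow 2 G) (hnn : ¬ (T : Subgroup G).Normal) (hTI : ∀ g : G, MulAut.conj g • (T : Subgroup G) ≠ T → MulAut.conj g • (T : Subgroup G) ⊓ T = ⊥) (s t : G) (hs : orderOf s = 2) (ht : orderOf t = 2) : IsConj s t := by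
  have hs2 := Helper4.mul_self_of_orderOf_two hs
  have ht2 := Helper4.mul_self_of_orderOf_two ht
  -- the key TI consequence
  have hkey : ∀ a : G, a ∈ T → a ≠ 1 → ∀ g : G, g * a * g⁻¹ ∈ T →
      MulAut.conj g • (T : Subgroup G) = T := by
    intro a haT ha1 g hg
    by_contra hne
    have hbot := hTI g hne
    have hmem : g * a * g⁻¹ ∈ MulAut.conj g • (T : Subgroup G) ⊓ T := by
      refine Subgroup.mem_inf.mpr ⟨?_, hg⟩
      rw [Helper4.mem_conj_smul_iff]
      have : g⁻¹ * (g * a * g⁻¹) * g = a := by group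
      rw [this]; exact haT
    rw [hbot, Subgroup.mem_bot] at hmem
    exact Helper4.conj_ne_one ha1 g hmem
  -- normalizing elements preserve membership
  have hN1 : ∀ g : G, MulAut.conj g • (T : Subgroup G) = T → ∀ b : G, g * b * g⁻¹ ∈ T → b ∈ T := by
    intro g hg b hb
    have h1 : g * b * g⁻¹ ∈ MulAut.conj g • (T : Subgroup G) := by rw [hg]; exact hb
    rw [Helper4.mem_conj_smul_iff] at h1
    have : g⁻¹ * (g * b * g⁻¹) * g = b := by group
    rwa [this] at h1
  by_contra hnc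
  obtain ⟨a, ha⟩ := Helper4.exists_conj_mem_sylow_of_invol T hs2
  obtain ⟨b, hb⟩ := Helper4.exists_conj_mem_sylow_of_invol T ht2
  -- some conjugate of T differs from T
  have hex : ∃ g : G, MulAut.conj g • (T : Subgroup G) ≠ T := by
    by_contra hall
    push Not at hall
    apply hnn
    refine ⟨fun n hn g => ?_⟩
    have h1 : g * n * g⁻¹ ∈ MulAut.conj g • (T : Subgroup G) := by
      rw [Helper4.mem_conj_smul_iff]
      have : g⁻¹ * (g * n * g⁻¹) * g = n := by group
      rw [this]; exact hn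
    rwa [hall g] at h1
  obtain ⟨g, hg⟩ := hex
  -- s'' = g (a s a⁻¹) g⁻¹, t' = b t b⁻¹
  have hs'2 : (a * s * a⁻¹) * (a * s * a⁻¹) = 1 := Helper4.conj_mul_self hs2 a
  have hs'1 : a * s * a⁻¹ ≠ 1 := Helper4.conj_ne_one (Helper4.ne_one_of_orderOf_two hs) a
  have ht'2 : (b * t * b⁻¹) * (b * t * b⁻¹) = 1 := Helper4.conj_mul_self ht2 b
  have ht'1 : b * t * b⁻¹ ≠ 1 := Helper4.conj_ne_one (Helper4.ne_one_of_orderOf_two ht) b
  have hs''2 : (g * (a * s * a⁻¹) * g⁻¹) * (g * (a * s * a⁻¹) * g⁻¹) = 1 :=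
    Helper4.conj_mul_self hs'2 g
  have hnc' : ¬ IsConj (g * (a * s * a⁻¹) * g⁻¹) (b * t * b⁻¹) := by
    intro h
    apply hnc
    have h1 : IsConj s (g * (a * s * a⁻¹) * g⁻¹) := isConj_iff.mpr ⟨g * a, by group⟩
    have h2 : IsConj (b * t * b⁻¹) t := isConj_iff.mpr ⟨b⁻¹, by group⟩
    exact (h1.trans h).trans h2
  have heven := Helper4.even_orderOf_mul_of_not_isConj hs''2 ht'2 hnc'
  obtain ⟨hz1, hz2, hcs, hct⟩ :=
    Helper4.central_invol_spec hs''2 ht'2 (orderOf_pos _) heven
  obtain ⟨h, hh1, hh2⟩ := Helper4.exists_conj_mem_sylow_of_commute T hs''2 hz2 hcs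
  obtain ⟨k, hk1, hk2⟩ := Helper4.exists_conj_mem_sylow_of_commute T ht'2 hz2 hct
  have hNk := hkey _ hb ht'1 k hk1
  have hzT := hN1 k hNk _ hk2
  have hNh := hkey _ hzT hz1 h hh2
  have hNhg : MulAut.conj (h * g) • (T : Subgroup G) = T := by
    apply hkey _ ha hs'1 (h * g)
    have : h * g * (a * s * a⁻¹) * (h * g)⁻¹ = h * (g * (a * s * a⁻¹) * g⁻¹) * h⁻¹ := by group
    rw [this]; exact hh1
  apply hg
  rw [map_mul, mul_smul] at hNhg
  have e : MulAut.conj h • (MulAut.conj g • (T : Subgroup G))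
      = MulAut.conj h • (T : Subgroup G) := by
    rw [hNh]; exact hNhg
  exact smul_left_cancel _ e

end Cfsg.Agent.S0231
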