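import Cfsg.Statements.S0233
import Mathlib
-- import your own Cfsg.Agent.* helpers here

set_option autoImplicit false
open Cfsg


namespace Cfsg.Agent.S0233

section core

open Classical

variable {G : Type*} [Group G] [Fintype G]

/-- The number of ways to write `g` as a product of two involutions. -/
noncomputable def B (g : G) : ℕ :=
  (((Finset.univ.filter (fun t : G => orderOf t = 2)) ×ˢ
    (Finset.univ.filter (fun t : G => orderOf t = 2))).filter (fun p => p.1 * p.2 = g)).card

omit [Fintype G] in
lemma invol_iff (t : G) : orderOf t = 2 ↔ t ≠ 1 ∧ t * t = 1 := by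
  constructor
  · intro h
    refine ⟨?_, ?_⟩
    · rintro rfl
      rw [orderOf_one] at h
      omega
    · rw [← pow_two, ← h, pow_orderOf_eq_one]
  · rintro ⟨h1, h2⟩
    have : Fact (Nat.Prime 2) := ⟨Nat.prime_two⟩
    exact orderOf_eq_prime (by rw [pow_two]; exact h2) h1

lemma sum_B : ∑ g : G, B g = (Finset.univ.filter (fun t : G => orderOf t = 2)).card ^ 2 := by
  unfold B
  rw [← Finset.card_eq_sum_card_fiberwise (f := fun p : G × G => p.1 * p.2)
    (fun _ _ => Finset.mem_coe.mpr (Finset.mem_univ _)), Finset.card_product, pow_two]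

lemma B_le (g : G) (T : Finset G) (f : G → G) (hf : Function.Injective f)
    (hT : ∀ u v : G, orderOf u = 2 → orderOf v = 2 → u * v = g → f u ∈ T) : B g ≤ T.card := by
  unfold B
  apply Finset.card_le_card_of_injOn (fun p => f p.1)
  · intro p hp
    rw [Finset.mem_coe, Finset.mem_filter, Finset.mem_product, Finset.mem_filter,
      Finset.mem_filter] at hp
    exact hT p.1 p.2 hp.1.1.2 hp.1.2.2 hp.2
  · intro p hp q hq hpq
    rw [Finset.mem_coe, Finset.mem_filter] at hp hq
    have h1 : p.1 = q.1 := hf hpq
    have h2 : p.2 = q.2 := by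
      have e1 := hp.2
      rw [h1, ← hq.2] at e1
      exact mul_left_cancel e1
    exact Prod.ext h1 h2

omit [Fintype G] in
lemma conj_inv_of_prod {u v g : G} (hu : u * u = 1) (hv : v * v = 1) (h : u * v = g) :
    u * g * u⁻¹ = g⁻¹ := by
  have hu' : u⁻¹ = u := inv_eq_of_mul_eq_one_right hu
  have hv' : v⁻¹ = v := inv_eq_of_mul_eq_one_right hv
  rw [← h, mul_inv_rev, hu', hv']
  calc u * (u * v) * u = (u * u) * v * u := by group
    _ = v * u := by rw [hu, one_mul]

/-- The extended centraliser of `g`. -/
def Cstar (g : G) : Subgroup G where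
  carrier := {x | x * g * x⁻¹ = g ∨ x * g * x⁻¹ = g⁻¹}
  mul_mem' := by
    intro a b ha hb
    have e : a * b * g * (a * b)⁻¹ = a * (b * g * b⁻¹) * a⁻¹ := by group
    have e' : a * g⁻¹ * a⁻¹ = (a * g * a⁻¹)⁻¹ := by group
    rcases hb with hb | hb <;> rcases ha with ha | ha
    · left
      show a * b * g * (a * b)⁻¹ = g
      rw [e, hb, ha]
    · right
      show a * b * g * (a * b)⁻¹ = g⁻¹
      rw [e, hb, ha]
    · right
      show a * b * g * (a * b)⁻¹ = g⁻¹
      rw [e, hb, e', ha]
    · left
      show a * b * g * (a * b)⁻¹ = g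
      rw [e, hb, e', ha, inv_inv]
  one_mem' := by
    left
    show 1 * g * 1⁻¹ = g
    group
  inv_mem' := by
    intro a ha
    rcases ha with ha | ha
    · left
      show a⁻¹ * g * a⁻¹⁻¹ = g
      calc a⁻¹ * g * a⁻¹⁻¹ = a⁻¹ * (a * g * a⁻¹) * a := by rw [ha, inv_inv]
        _ = g := by group
    · right
      show a⁻¹ * g * a⁻¹⁻¹ = g⁻¹
      have h' : a * g⁻¹ * a⁻¹ = g := by
        rw [show a * g⁻¹ * a⁻¹ = (a * g * a⁻¹)⁻¹ by group, ha, inv_inv]
      calc a⁻¹ * g * a⁻¹⁻¹ = a⁻¹ * (a * g⁻¹ * a⁻¹) * a := by rw [h', inv_inv]
        _ = g⁻¹ := by group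

omit [Fintype G] in
lemma mem_Cstar {g x : G} : x ∈ Cstar g ↔ x * g * x⁻¹ = g ∨ x * g * x⁻¹ = g⁻¹ := Iff.rfl

omit [Fintype G] in
lemma mem_cent_iff (g x : G) : x ∈ Subgroup.centralizer ({g} : Set G) ↔ x * g * x⁻¹ = g := by
  rw [Subgroup.mem_centralizer_iff, mul_inv_eq_iff_eq_mul]
  constructor
  · intro h
    exact (h g (Set.mem_singleton g)).symm
  · intro h y hy
    rw [Set.mem_singleton_iff] at hy
    rw [hy, h]

lemma card_sub (H : Subgroup G) : Nat.card H = (Finset.univ.filter (fun x : G => x ∈ H)).card := by
  rw [← Nat.card_eq_finsetCard]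
  exact Nat.card_congr (Equiv.subtypeEquivRight (fun x => by simp))

lemma core (hZ : ∀ t : G, orderOf t = 2 → t ∉ Subgroup.center G)
    (hm : 0 < (Finset.univ.filter (fun t : G => orderOf t = 2)).card)
    (hneg : ∀ H : Subgroup G, H ≠ ⊤ → H.index ≠ 2 ∧
      Nat.card G * (Nat.card G + (Finset.univ.filter (fun t : G => orderOf t = 2)).card)
        ≤ 2 * H.index * (Finset.univ.filter (fun t : G => orderOf t = 2)).card ^ 2) : False := by
  have hsum := sum_B (G := G)
  have hXpos : 0 < Nat.card G := Nat.card_pos
  -- bound for proper subgroups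
  have hP : ∀ H : Subgroup G, H ≠ ⊤ →
      (Finset.univ.filter (fun x : G => x ∈ H)).card
        * (Nat.card G + (Finset.univ.filter (fun t : G => orderOf t = 2)).card)
      ≤ 2 * (Finset.univ.filter (fun t : G => orderOf t = 2)).card ^ 2 := by
    intro H hH
    have h1 := (hneg H hH).2
    have h2 := H.card_mul_index
    rw [card_sub] at h2
    have h3 : Nat.card G * ((Finset.univ.filter (fun x : G => x ∈ H)).card
          * (Nat.card G + (Finset.univ.filter (fun t : G => orderOf t = 2)).card))
        ≤ Nat.card G * (2 * (Finset.univ.filter (fun t : G => orderOf t = 2)).card ^ 2) := by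
      calc Nat.card G * ((Finset.univ.filter (fun x : G => x ∈ H)).card
            * (Nat.card G + (Finset.univ.filter (fun t : G => orderOf t = 2)).card))
          = (Finset.univ.filter (fun x : G => x ∈ H)).card * (Nat.card G
            * (Nat.card G + (Finset.univ.filter (fun t : G => orderOf t = 2)).card)) := by ring
        _ ≤ (Finset.univ.filter (fun x : G => x ∈ H)).card
            * (2 * H.index * (Finset.univ.filter (fun t : G => orderOf t = 2)).card ^ 2) :=
            Nat.mul_le_mul_left _ h1
        _ = ((Finset.univ.filter (fun x : G => x ∈ H)).card * H.index)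
            * (2 * (Finset.univ.filter (fun t : G => orderOf t = 2)).card ^ 2) := by ring
        _ = Nat.card G * (2 * (Finset.univ.filter (fun t : G => orderOf t = 2)).card ^ 2) := by
            rw [h2]
    exact Nat.le_of_mul_le_mul_left h3 hXpos
  -- involutions
  have hI : ∀ g : G, orderOf g = 2 →
      (B g + 2) * (Nat.card G + (Finset.univ.filter (fun t : G => orderOf t = 2)).card)
      ≤ 2 * (Finset.univ.filter (fun t : G => orderOf t = 2)).card ^ 2 := by
    intro g hg
    have hg' := (invol_iff g).mp hg
    have hCne : Subgroup.centralizer ({g} : Set G) ≠ ⊤ := by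
      intro h
      rw [Subgroup.centralizer_eq_top_iff_subset, Set.singleton_subset_iff] at h
      exact hZ g hg h
    have h1 := hP _ hCne
    have h2 : B g + 2 ≤ (Finset.univ.filter
        (fun x : G => x ∈ Subgroup.centralizer ({g} : Set G))).card := by
      have h3 : B g ≤ (((Finset.univ.filter
          (fun x : G => x ∈ Subgroup.centralizer ({g} : Set G))).erase 1).erase g).card := by
        apply B_le g _ id Function.injective_id
        intro u v hu hv huv
        have hu' := (invol_iff u).mp hu
        have hv' := (invol_iff v).mp hv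
        rw [id, Finset.mem_erase, Finset.mem_erase, Finset.mem_filter]
        refine ⟨?_, hu'.1, Finset.mem_univ _, ?_⟩
        · intro hug
          rw [hug] at huv
          exact hv'.1 (mul_left_cancel (huv.trans (mul_one g).symm))
        · rw [Subgroup.mem_centralizer_iff]
          intro h hh
          rw [Set.mem_singleton_iff] at hh
          rw [hh]
          have hc := conj_inv_of_prod hu'.2 hv'.2 huv
          have hginv : g⁻¹ = g := inv_eq_of_mul_eq_one_right hg'.2
          rw [hginv] at hc
          calc g * u = (u * g * u⁻¹) * u := by rw [hc]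
            _ = u * g := by group
      have h4 : (1 : G) ∈ (Finset.univ.filter
          (fun x : G => x ∈ Subgroup.centralizer ({g} : Set G))) := by
        rw [Finset.mem_filter]
        exact ⟨Finset.mem_univ _, Subgroup.one_mem _⟩
      have h5 : g ∈ (Finset.univ.filter
          (fun x : G => x ∈ Subgroup.centralizer ({g} : Set G))).erase 1 := by
        rw [Finset.mem_erase, Finset.mem_filter]
        refine ⟨hg'.1, Finset.mem_univ _, ?_⟩
        rw [Subgroup.mem_centralizer_iff]
        intro h hh
        rw [Set.mem_singleton_iff] at hh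
        rw [hh]
      rw [Finset.card_erase_of_mem h5, Finset.card_erase_of_mem h4] at h3
      have h6 := Finset.card_pos.mpr ⟨g, h5⟩
      rw [Finset.card_erase_of_mem h4] at h6
      omega
    exact (Nat.mul_le_mul_right _ h2).trans h1
  -- non-involutions
  have hN : ∀ g : G, orderOf g ≠ 2 → g ≠ 1 →
      B g * (Nat.card G + (Finset.univ.filter (fun t : G => orderOf t = 2)).card)
      ≤ (Finset.univ.filter (fun t : G => orderOf t = 2)).card ^ 2 := by
    intro g hg hg1
    by_cases hB : B g = 0
    · rw [hB, zero_mul]
      exact Nat.zero_le _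
    · have hBpos : 0 < B g := Nat.pos_of_ne_zero hB
      unfold B at hBpos
      rw [Finset.card_pos] at hBpos
      obtain ⟨⟨u₀, v₀⟩, hp⟩ := hBpos
      rw [Finset.mem_filter, Finset.mem_product, Finset.mem_filter, Finset.mem_filter] at hp
      have hu₀ := (invol_iff u₀).mp hp.1.1.2
      have hv₀ := (invol_iff v₀).mp hp.1.2.2
      have hc₀ : u₀ * g * u₀⁻¹ = g⁻¹ := conj_inv_of_prod hu₀.2 hv₀.2 hp.2
      have hgne : g⁻¹ ≠ g := by
        intro h
        apply hg
        rw [invol_iff]
        refine ⟨hg1, ?_⟩
        calc g * g = g⁻¹ * g := by rw [h]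
          _ = 1 := inv_mul_cancel g
      -- B g ≤ |C(g)|
      have h2 : B g ≤ (Finset.univ.filter (fun x : G => x * g * x⁻¹ = g)).card := by
        apply B_le g _ (fun u => u₀⁻¹ * u) (mul_right_injective _)
        intro u v hu hv huv
        have hu' := (invol_iff u).mp hu
        have hv' := (invol_iff v).mp hv
        have hc := conj_inv_of_prod hu'.2 hv'.2 huv
        rw [Finset.mem_filter]
        refine ⟨Finset.mem_univ _, ?_⟩
        calc u₀⁻¹ * u * g * (u₀⁻¹ * u)⁻¹ = u₀⁻¹ * (u * g * u⁻¹) * u₀ := by group
          _ = u₀⁻¹ * (u₀ * g * u₀⁻¹)  * u₀ := by rw [hc, hc₀]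
          _ = g := by group
      -- 2 |C(g)| ≤ |C*(g)|
      have h3 : 2 * (Finset.univ.filter (fun x : G => x * g * x⁻¹ = g)).card
          ≤ (Finset.univ.filter (fun x : G => x ∈ Cstar g)).card := by
        have hdisj : Disjoint (Finset.univ.filter (fun x : G => x * g * x⁻¹ = g))
            ((Finset.univ.filter (fun x : G => x * g * x⁻¹ = g)).image (fun x => u₀ * x)) := by
          rw [Finset.disjoint_left]
          intro x hx hx'
          rw [Finset.mem_filter] at hx
          rw [Finset.mem_image] at hx'
          obtain ⟨y, hy, rfl⟩ := hx'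
          rw [Finset.mem_filter] at hy
          have e : u₀ * y * g * (u₀ * y)⁻¹ = u₀ * (y * g * y⁻¹) * u₀⁻¹ := by group
          have hx2 := hx.2
          rw [e, hy.2, hc₀] at hx2
          exact hgne hx2
        have hsub : (Finset.univ.filter (fun x : G => x * g * x⁻¹ = g)) ∪
            ((Finset.univ.filter (fun x : G => x * g * x⁻¹ = g)).image (fun x => u₀ * x))
            ⊆ Finset.univ.filter (fun x : G => x ∈ Cstar g) := by
          intro x hx
          rw [Finset.mem_union] at hx
          rw [Finset.mem_filter, mem_Cstar]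
          refine ⟨Finset.mem_univ _, ?_⟩
          rcases hx with hx | hx
          · rw [Finset.mem_filter] at hx
            exact Or.inl hx.2
          · rw [Finset.mem_image] at hx
            obtain ⟨y, hy, rfl⟩ := hx
            rw [Finset.mem_filter] at hy
            right
            have e : u₀ * y * g * (u₀ * y)⁻¹ = u₀ * (y * g * y⁻¹) * u₀⁻¹ := by group
            rw [e, hy.2, hc₀]
        have hcard := Finset.card_le_card hsub
        rw [Finset.card_union_of_disjoint hdisj,
          Finset.card_image_of_injective _ (mul_right_injective u₀)] at hcard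
        omega
      have hCs : Cstar g ≠ ⊤ := by
        intro htop
        have hidx : (Subgroup.centralizer ({g} : Set G)).index = 2 := by
          rw [Subgroup.index_eq_two_iff]
          refine ⟨u₀, fun b => ?_⟩
          have hb : b ∈ Cstar g := htop ▸ Subgroup.mem_top b
          rw [mem_Cstar] at hb
          rw [mem_cent_iff, mem_cent_iff]
          have e : b * u₀ * g * (b * u₀)⁻¹ = b * (u₀ * g * u₀⁻¹) * b⁻¹ := by group
          have e' : b * g⁻¹ * b⁻¹ = (b * g * b⁻¹)⁻¹ := by group
          rcases hb with hb | hb
          · right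
            refine ⟨hb, ?_⟩
            rw [e, hc₀, e', hb]
            exact hgne
          · left
            refine ⟨?_, ?_⟩
            · rw [e, hc₀, e', hb, inv_inv]
            · rw [hb]
              exact hgne
        have hne : Subgroup.centralizer ({g} : Set G) ≠ ⊤ := by
          intro h
          rw [h, Subgroup.index_top] at hidx
          omega
        exact (hneg _ hne).1 hidx
      have h1 := hP _ hCs
      have h4 : 2 * (B g * (Nat.card G + (Finset.univ.filter (fun t : G => orderOf t = 2)).card))
          ≤ 2 * (Finset.univ.filter (fun t : G => orderOf t = 2)).card ^ 2 := by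
        calc 2 * (B g * (Nat.card G + (Finset.univ.filter (fun t : G => orderOf t = 2)).card))
            ≤ 2 * ((Finset.univ.filter (fun x : G => x * g * x⁻¹ = g)).card
              * (Nat.card G + (Finset.univ.filter (fun t : G => orderOf t = 2)).card)) :=
              Nat.mul_le_mul_left 2 (Nat.mul_le_mul_right _ h2)
          _ = (2 * (Finset.univ.filter (fun x : G => x * g * x⁻¹ = g)).card)
              * (Nat.card G + (Finset.univ.filter (fun t : G => orderOf t = 2)).card) := by ring
          _ ≤ (Finset.univ.filter (fun x : G => x ∈ Cstar g)).card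
              * (Nat.card G + (Finset.univ.filter (fun t : G => orderOf t = 2)).card) :=
              Nat.mul_le_mul_right _ h3
          _ ≤ _ := h1
      exact Nat.le_of_mul_le_mul_left h4 (by norm_num)
  -- the identity
  have hB1 : B (1 : G) ≤ (Finset.univ.filter (fun t : G => orderOf t = 2)).card := by
    apply B_le 1 _ id Function.injective_id
    intro u v hu _ _
    rw [id, Finset.mem_filter]
    exact ⟨Finset.mem_univ _, hu⟩
  -- splitting the sum
  have hsplit := Finset.sum_filter_add_sum_filter_not (Finset.univ : Finset G)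
    (fun t : G => orderOf t = 2) B
  have h1mem : (1 : G) ∈ Finset.univ.filter (fun t : G => ¬ orderOf t = 2) := by
    rw [Finset.mem_filter]
    refine ⟨Finset.mem_univ _, ?_⟩
    rw [orderOf_one]
    omega
  have hsplit2 := Finset.add_sum_erase (Finset.univ.filter (fun t : G => ¬ orderOf t = 2)) B h1mem
  have hcardsplit := Finset.card_filter_add_card_filter_not (s := (Finset.univ : Finset G))
    (fun t : G => orderOf t = 2)
  rw [Finset.card_univ, ← Nat.card_eq_fintype_card] at hcardsplit
  have hcardR := Finset.card_erase_of_mem h1mem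
  have hRpos := Finset.card_pos.mpr ⟨1, h1mem⟩
  -- bounds on the three parts
  have hSI : (∑ g ∈ Finset.univ.filter (fun t : G => orderOf t = 2), B g
        + 2 * (Finset.univ.filter (fun t : G => orderOf t = 2)).card)
        * (Nat.card G + (Finset.univ.filter (fun t : G => orderOf t = 2)).card)
      ≤ (Finset.univ.filter (fun t : G => orderOf t = 2)).card
        * (2 * (Finset.univ.filter (fun t : G => orderOf t = 2)).card ^ 2) := by
    have h := Finset.sum_le_sum (s := Finset.univ.filter (fun t : G => orderOf t = 2))
      (fun g hg => hI g (Finset.mem_filter.mp hg).2)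
    rw [Finset.sum_const, smul_eq_mul, ← Finset.sum_mul, Finset.sum_add_distrib, Finset.sum_const,
      smul_eq_mul] at h
    rw [mul_comm 2 (Finset.univ.filter (fun t : G => orderOf t = 2)).card]
    exact h
  have hSR : (∑ g ∈ (Finset.univ.filter (fun t : G => ¬ orderOf t = 2)).erase 1, B g)
        * (Nat.card G + (Finset.univ.filter (fun t : G => orderOf t = 2)).card)
      ≤ ((Finset.univ.filter (fun t : G => ¬ orderOf t = 2)).erase 1).card
        * (Finset.univ.filter (fun t : G => orderOf t = 2)).card ^ 2 := by
    have h := Finset.sum_le_sum (s := (Finset.univ.filter (fun t : G => ¬ orderOf t = 2)).erase 1)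
      (fun g hg => hN g (Finset.mem_filter.mp (Finset.mem_of_mem_erase hg)).2
        (Finset.ne_of_mem_erase hg))
    rw [Finset.sum_const, smul_eq_mul, ← Finset.sum_mul] at h
    exact h
  rw [← hsplit, ← hsplit2] at hsum
  generalize (∑ g ∈ Finset.univ.filter (fun t : G => orderOf t = 2), B g) = a at *
  generalize (∑ g ∈ (Finset.univ.filter (fun t : G => ¬ orderOf t = 2)).erase 1, B g) = c at *
  generalize B (1 : G) = b at *
  generalize ((Finset.univ.filter (fun t : G => ¬ orderOf t = 2)).erase 1).card = r at *
  generalize (Finset.univ.filter (fun t : G => ¬ orderOf t = 2)).card = r' at *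
  generalize (Finset.univ.filter (fun t : G => orderOf t = 2)).card = m at *
  generalize Nat.card G = X at *
  have hX : X = m + r + 1 := by omega
  subst hX
  have hb2 : b * (m + r + 1 + m) ≤ m * (m + r + 1 + m) := Nat.mul_le_mul_right _ hB1
  have habc : (a + (b + c)) * (m + r + 1 + m) = m ^ 2 * (m + r + 1 + m) := by rw [hsum]
  nlinarith

end core

/-- Let G be a finite group of even order with exactly n involutions whose centre has odd order, and put a = |G|/n. Then G has a proper subgroup H with |G : H| = 2 or |G : H| < a(a+1)/2; over ℕ the latter reads 2·|G:H|·n² < |G|·(|G| + n). -/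
theorem result {G : Type*} [Group G] [Finite G] (heven : Even (Nat.card G)) (hZ : Odd (Nat.card (Subgroup.center G))) : ∃ H : Subgroup G, H ≠ ⊤ ∧ (H.index = 2 ∨ 2 * H.index * (Nat.card {t : G // orderOf t = 2}) ^ 2 < Nat.card G * (Nat.card G + Nat.card {t : G // orderOf t = 2})) := by
  classical
  cases nonempty_fintype G
  by_contra hcon
  push Not at hcon
  have hcard : Nat.card {t : G // orderOf t = 2}
      = (Finset.univ.filter (fun t : G => orderOf t = 2)).card := by
    rw [← Nat.card_eq_finsetCard]
    exact Nat.card_congr (Equiv.subtypeEquivRight (fun t => by simp))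
  rw [hcard] at hcon
  have : Fact (Nat.Prime 2) := ⟨Nat.prime_two⟩
  refine core (G := G) ?_ ?_ hcon
  · intro t ht htc
    have h1 : orderOf (⟨t, htc⟩ : Subgroup.center G) = 2 := by
      rw [← ht]
      exact Subgroup.orderOf_mk t htc
    have h2 : 2 ∣ Nat.card (Subgroup.center G) := by
      rw [← h1]
      exact orderOf_dvd_natCard _
    exact (Nat.not_even_iff_odd.mpr hZ) (even_iff_two_dvd.mpr h2)
  · obtain ⟨t, ht⟩ := exists_prime_orderOf_dvd_card' (G := G) 2 (even_iff_two_dvd.mp heven)
    exact Finset.card_pos.mpr ⟨t, Finset.mem_filter.mpr ⟨Finset.mem_univ _, ht⟩⟩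

end Cfsg.Agent.S0233
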