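import Cfsg.Statements.S0232
import Mathlib
import Cfsg.Agent.S0233

set_option autoImplicit false
open Cfsg

namespace Cfsg.Agent.S0232

section aux

open Classical

lemma card_le_cent_mul_invol {G : Type*} [Group G] [Fintype G] (t : G) (ht : orderOf t = 2) :
    Nat.card G ≤ Nat.card (Subgroup.centralizer ({t} : Set G))
      * Nat.card {s : G // orderOf s = 2} := by
  have h1 := Finset.card_le_mul_card_image (f := fun x : G => x * t * x⁻¹) (Finset.univ : Finset G)
    (Nat.card (Subgroup.centralizer ({t} : Set G))) (by
      intro b hb
      obtain ⟨x₀, _, rfl⟩ := Finset.mem_image.mp hb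
      rw [Cfsg.Agent.S0233.card_sub]
      apply Finset.card_le_card_of_injOn (fun x => x₀⁻¹ * x)
      · intro x hx
        rw [Finset.mem_coe, Finset.mem_filter] at hx ⊢
        refine ⟨Finset.mem_univ _, ?_⟩
        rw [Cfsg.Agent.S0233.mem_cent_iff]
        calc x₀⁻¹ * x * t * (x₀⁻¹ * x)⁻¹ = x₀⁻¹ * (x * t * x⁻¹) * x₀ := by group
          _ = x₀⁻¹ * (x₀ * t * x₀⁻¹) * x₀ := by rw [hx.2]
          _ = t := by group
      · intro x _ y _ h
        exact mul_left_cancel h)
  have h2 : (Finset.univ.image (fun x : G => x * t * x⁻¹)).card
      ≤ Nat.card {s : G // orderOf s = 2} := by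
    have hcard : Nat.card {s : G // orderOf s = 2}
        = (Finset.univ.filter (fun s : G => orderOf s = 2)).card := by
      rw [← Nat.card_eq_finsetCard]
      exact Nat.card_congr (Equiv.subtypeEquivRight (fun s => by simp))
    rw [hcard]
    apply Finset.card_le_card
    intro s hs
    obtain ⟨x, _, rfl⟩ := Finset.mem_image.mp hs
    rw [Finset.mem_filter]
    refine ⟨Finset.mem_univ _, ?_⟩
    have ht' := (Cfsg.Agent.S0233.invol_iff t).mp ht
    rw [Cfsg.Agent.S0233.invol_iff]
    constructor
    · intro h
      apply ht'.1
      calc t = x⁻¹ * (x * t * x⁻¹) * x := by group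
        _ = 1 := by rw [h]; group
    · calc x * t * x⁻¹ * (x * t * x⁻¹) = x * (t * t) * x⁻¹ := by group
        _ = 1 := by rw [ht'.2]; group
  rw [Finset.card_univ, ← Nat.card_eq_fintype_card] at h1
  exact h1.trans (Nat.mul_le_mul_left _ h2)

end aux

theorem main : ∀ (n : ℕ) (G : Type*) [Group G] [Finite G], Nat.card G = n → Even n → 2 < n →
    ∃ H : Subgroup G, H ≠ ⊤ ∧ Nat.card G < Nat.card H ^ 3 := by
  intro n
  induction n using Nat.strong_induction_on with
  | _ n ih =>
    intro G _ _ hcard heven hgt
    have : Fact (Nat.Prime 2) := ⟨Nat.prime_two⟩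
    have hevenG : Even (Nat.card G) := hcard ▸ heven
    by_cases hZ : Odd (Nat.card (Subgroup.center G))
    · obtain ⟨H, hH, hcase⟩ := Cfsg.Agent.S0233.result (G := G) hevenG hZ
      have hidx := H.card_mul_index
      rcases hcase with h2 | hlt
      · refine ⟨H, hH, ?_⟩
        rw [h2] at hidx
        have hh : 2 ≤ Nat.card H := by omega
        rw [← hidx]
        have h3 : Nat.card H * 2 ≤ Nat.card H * Nat.card H := Nat.mul_le_mul_left _ hh
        have h4 : Nat.card H * Nat.card H < Nat.card H * Nat.card H * Nat.card H := by
          have h5 : 0 < Nat.card H * Nat.card H := by positivity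
          nlinarith
        calc Nat.card H * 2 ≤ Nat.card H * Nat.card H := h3
          _ < Nat.card H * Nat.card H * Nat.card H := h4
          _ = Nat.card H ^ 3 := by ring
      · obtain ⟨t, ht⟩ := exists_prime_orderOf_dvd_card' (G := G) 2 (even_iff_two_dvd.mp hevenG)
        cases nonempty_fintype G
        have hc := card_le_cent_mul_invol t ht
        have hCne : Subgroup.centralizer ({t} : Set G) ≠ ⊤ := by
          intro h
          rw [Subgroup.centralizer_eq_top_iff_subset, Set.singleton_subset_iff] at h
          have h1 : orderOf (⟨t, h⟩ : Subgroup.center G) = 2 := by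
            rw [← ht]
            exact Subgroup.orderOf_mk t h
          have h2 : 2 ∣ Nat.card (Subgroup.center G) := by
            rw [← h1]
            exact orderOf_dvd_natCard _
          exact (Nat.not_even_iff_odd.mpr hZ) (even_iff_two_dvd.mpr h2)
        by_cases hbig : Nat.card G < Nat.card (Subgroup.centralizer ({t} : Set G)) ^ 3
        · exact ⟨_, hCne, hbig⟩
        · push Not at hbig
          refine ⟨H, hH, ?_⟩
          have hXpos : 0 < Nat.card G := Nat.card_pos
          generalize Nat.card (Subgroup.centralizer ({t} : Set G)) = c at *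
          generalize Nat.card {s : G // orderOf s = 2} = m at *
          generalize Nat.card H = h at *
          generalize H.index = i at *
          generalize Nat.card G = X at *
          have hmpos : 0 < m := by
            rcases Nat.eq_zero_or_pos m with h0 | h0
            · rw [h0, mul_zero] at hc
              omega
            · exact h0
          have hcpos : 0 < c := by
            rcases Nat.eq_zero_or_pos c with h0 | h0
            · rw [h0, zero_mul] at hc
              omega
            · exact h0
          have s1 : X * (X + m) ≤ (c * m) * (c * m + m) :=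
            Nat.mul_le_mul hc (Nat.add_le_add_right hc m)
          have s2 : (2 * i) * m ^ 2 < (c * (c + 1)) * m ^ 2 := by
            calc (2 * i) * m ^ 2 = 2 * i * m ^ 2 := by ring
              _ < X * (X + m) := hlt
              _ ≤ (c * m) * (c * m + m) := s1
              _ = (c * (c + 1)) * m ^ 2 := by ring
          have s3 : 2 * i < c * (c + 1) := Nat.lt_of_mul_lt_mul_right s2
          have s4 : i < c * c := by nlinarith
          have s5 : i ^ 3 < (c * c) ^ 3 := Nat.pow_lt_pow_left s4 (by norm_num)
          have s6 : (c * c) ^ 3 ≤ X ^ 2 := by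
            calc (c * c) ^ 3 = (c ^ 3) ^ 2 := by ring
              _ ≤ X ^ 2 := Nat.pow_le_pow_left hbig 2
          by_contra hcon
          push Not at hcon
          have s7 : X ^ 3 = h ^ 3 * i ^ 3 := by rw [← hidx]; ring
          have s8 : h ^ 3 * i ^ 3 ≤ X * i ^ 3 := Nat.mul_le_mul_right _ hcon
          have s9 : X * i ^ 3 < X * X ^ 2 := Nat.mul_lt_mul_of_pos_left (lt_of_lt_of_le s5 s6) hXpos
          have s10 : X * X ^ 2 = X ^ 3 := by ring
          omega
    · have hZe : Even (Nat.card (Subgroup.center G)) := Nat.not_odd_iff_even.mp hZ
      obtain ⟨z, hz⟩ := exists_prime_orderOf_dvd_card' (G := Subgroup.center G) 2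
        (even_iff_two_dvd.mp hZe)
      have hzt : orderOf (z : G) = 2 := by rw [Subgroup.orderOf_coe]; exact hz
      have hNle : Subgroup.zpowers (z : G) ≤ Subgroup.center G := by
        rw [Subgroup.zpowers_le]
        exact z.2
      have hNn : (Subgroup.zpowers (z : G)).Normal := ⟨fun x hx g => by
        have h1 := Subgroup.mem_center_iff.mp (hNle hx) g
        rw [h1, mul_inv_cancel_right]
        exact hx⟩
      have hNcard : Nat.card (Subgroup.zpowers (z : G)) = 2 := by rw [Nat.card_zpowers, hzt]
      have hNidx := (Subgroup.zpowers (z : G)).card_mul_index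
      rw [hNcard, hcard] at hNidx
      by_cases hk_even : Even (Subgroup.zpowers (z : G)).index
      · by_cases hk2 : (Subgroup.zpowers (z : G)).index = 2
        · refine ⟨Subgroup.zpowers (z : G), ?_, ?_⟩
          · intro h
            rw [h, Subgroup.index_top] at hk2
            omega
          · rw [hNcard, hcard]
            omega
        · have hk_gt : 2 < (Subgroup.zpowers (z : G)).index := by
            obtain ⟨j, hj⟩ := hk_even
            omega
          obtain ⟨Hbar, hHbar, hlt⟩ := ih (Subgroup.zpowers (z : G)).index (by omega)
            (G ⧸ Subgroup.zpowers (z : G)) rfl hk_even hk_gt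
          have hi := Subgroup.index_comap_of_surjective Hbar
            (QuotientGroup.mk'_surjective (Subgroup.zpowers (z : G)))
          refine ⟨Hbar.comap (QuotientGroup.mk' (Subgroup.zpowers (z : G))), ?_, ?_⟩
          · intro h
            rw [h, Subgroup.index_top] at hi
            exact hHbar (Subgroup.index_eq_one.mp hi.symm)
          · have h1 := (Hbar.comap (QuotientGroup.mk' (Subgroup.zpowers (z : G)))).card_mul_index
            have h2 := Hbar.card_mul_index
            rw [hi, hcard] at h1
            have h3 : Nat.card (G ⧸ Subgroup.zpowers (z : G)) = (Subgroup.zpowers (z : G)).index := rfl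
            rw [h3] at h2 hlt
            rw [hcard]
            have hipos : 0 < Hbar.index := by
              rcases Nat.eq_zero_or_pos Hbar.index with h0 | h0
              · rw [h0, mul_zero] at h2
                omega
              · exact h0
            have h4 : Nat.card (Hbar.comap (QuotientGroup.mk' (Subgroup.zpowers (z : G))))
                = 2 * Nat.card Hbar := by
              apply Nat.eq_of_mul_eq_mul_right hipos
              rw [h1, mul_assoc, h2, hNidx]
            rw [h4]
            calc n = 2 * (Subgroup.zpowers (z : G)).index := hNidx.symm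
              _ < 2 * Nat.card Hbar ^ 3 := by omega
              _ ≤ (2 * Nat.card Hbar) ^ 3 := by
                  rw [mul_pow]
                  exact Nat.mul_le_mul_right _ (by norm_num)
      · have hodd : Odd (Subgroup.zpowers (z : G)).index := Nat.not_even_iff_odd.mp hk_even
        obtain ⟨K, hK⟩ := Subgroup.exists_right_complement'_of_coprime
          (N := Subgroup.zpowers (z : G))
          (by rw [hNcard]; exact Nat.coprime_two_left.mpr hodd)
        have hKcard := hK.card_mul_card
        rw [hNcard, hcard] at hKcard
        have hK3 : 3 ≤ Nat.card K := by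
          obtain ⟨j, hj⟩ := hodd
          omega
        refine ⟨K, ?_, ?_⟩
        · intro h
          rw [h, Subgroup.card_top, hcard] at hKcard
          omega
        · rw [hcard, ← hKcard]
          have h1 : 2 * Nat.card K < Nat.card K * Nat.card K := by nlinarith
          have h2 : Nat.card K * Nat.card K ≤ Nat.card K * Nat.card K * Nat.card K := by
            have h5 : 0 < Nat.card K * Nat.card K := by positivity
            nlinarith
          calc 2 * Nat.card K < Nat.card K * Nat.card K := h1
            _ ≤ Nat.card K * Nat.card K * Nat.card K := h2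
            _ = Nat.card K ^ 3 := by ring

/-- A finite group G of even order greater than 2 has a proper subgroup H with |G| < |H|^3. -/
theorem result {G : Type*} [Group G] [Finite G] (heven : Even (Nat.card G)) (hgt : 2 < Nat.card G) : ∃ H : Subgroup G, H ≠ ⊤ ∧ Nat.card G < (Nat.card H) ^ 3 :=
  main (Nat.card G) G rfl heven hgt

end Cfsg.Agent.S0232
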