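import Cfsg.Statements.S0234
import Mathlib
import Cfsg.Agent.S0233
import Cfsg.Agent.S0493
import Cfsg.Agent.Helper41.Order60

set_option autoImplicit false
open Cfsg


namespace Cfsg.Agent.S0234

/-- The alternating group of degree five has exactly fifteen involutions. -/
theorem card_invol_A5 : Nat.card {t : alternatingGroup (Fin 5) // orderOf t = 2} = 15 := by
  have h : ∀ t : alternatingGroup (Fin 5), orderOf t = 2 ↔ (t ^ 2 = 1 ∧ t ≠ 1) := by
    intro t
    have : Fact (Nat.Prime 2) := ⟨Nat.prime_two⟩
    exact orderOf_eq_prime_iff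
  rw [Nat.card_congr (Equiv.subtypeEquivRight h), Nat.card_eq_fintype_card]
  decide +kernel

/-- In a finite simple group of order greater than two, a proper subgroup of index at most five
forces the order to be at most sixty. -/
theorem card_le_sixty {G : Type*} [Group G] [Finite G] [IsSimpleGroup G] (hgt : 2 < Nat.card G)
    (H : Subgroup G) (hH : H ≠ ⊤) (hm : H.index ≤ 5) : Nat.card G ≤ 60 := by
  classical
  have : Fintype (G ⧸ H) := Fintype.ofFinite _
  have hinj := Cfsg.Agent.Helper41.toPermHom_injective_of_simple H hH
  let f := MulAction.toPermHom G (G ⧸ H)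
  let s : G →* ℤˣ := Equiv.Perm.sign.comp f
  rcases (s.normal_ker).eq_bot_or_eq_top with h | h
  · exfalso
    have hsinj : Function.Injective s := (MonoidHom.ker_eq_bot_iff s).mp h
    have h1 := Nat.card_le_card_of_injective s hsinj
    rw [Nat.card_eq_fintype_card (α := ℤˣ), Fintype.card_units_int] at h1
    omega
  · have hnt : Nontrivial (G ⧸ H) := by
      rw [← Finite.one_lt_card_iff_nontrivial, ← Subgroup.index_eq_card]
      have h1 : H.index ≠ 1 := fun h1 => hH (Subgroup.index_eq_one.mp h1)
      have h0 : H.index ≠ 0 := Subgroup.index_ne_zero_of_finite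
      omega
    have hmem : ∀ g : G, f g ∈ alternatingGroup (G ⧸ H) := by
      intro g
      rw [Equiv.Perm.mem_alternatingGroup]
      have : g ∈ s.ker := by rw [h]; trivial
      exact MonoidHom.mem_ker.mp this
    let f' : G → alternatingGroup (G ⧸ H) := fun g => ⟨f g, hmem g⟩
    have hf' : Function.Injective f' := by
      intro a b hab
      apply hinj
      exact congrArg Subtype.val hab
    have h1 := Nat.card_le_card_of_injective f' hf'
    have h2 := two_mul_nat_card_alternatingGroup (α := G ⧸ H)
    rw [Nat.card_perm, ← Subgroup.index_eq_card] at h2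
    have h3 : (H.index).factorial ≤ (5 : ℕ).factorial := Nat.factorial_le hm
    have h4 : (5 : ℕ).factorial = 120 := by decide
    omega

theorem result {G : Type*} [Group G] [Finite G] [IsSimpleGroup G] (heven : Even (Nat.card G)) (hgt : 2 < Nat.card G) : 3 * Nat.card {t : G // orderOf t = 2} < Nat.card G := by
  classical
  by_contra hcon
  push Not at hcon
  have hnp : ¬ (Nat.card G).Prime := by
    intro hp
    have := (Nat.Prime.even_iff hp).mp heven
    omega
  have hns := Cfsg.Agent.Helper41.not_solvable_of_not_prime hnp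
  have hncyc : ¬ IsCyclic G := by
    intro hc
    apply hns
    have hcomm : IsMulCommutative G := IsCyclic.isMulCommutative
    exact IsSimpleGroup.comm_iff_isSolvable.mp (fun a b => mul_comm' a b)
  have hZ : Odd (Nat.card (Subgroup.center G)) := by
    rcases (Subgroup.instNormalCenter (G := G)).eq_bot_or_eq_top with h | h
    · rw [h, Subgroup.card_bot]
      exact odd_one
    · exfalso
      apply hns
      apply IsSimpleGroup.comm_iff_isSolvable.mp
      intro a b
      have ha : a ∈ Subgroup.center G := by rw [h]; trivial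
      exact (Subgroup.mem_center_iff.mp ha b).symm
  obtain ⟨H, hH, h | h⟩ := Cfsg.Agent.S0233.result heven hZ
  · have hn : H.Normal := Subgroup.normal_of_index_eq_two h
    rcases hn.eq_bot_or_eq_top with h1 | h1
    · rw [h1, Subgroup.index_bot] at h
      omega
    · exact hH h1
  · obtain ⟨n, hn⟩ : ∃ n, n = Nat.card {t : G // orderOf t = 2} := ⟨_, rfl⟩
    obtain ⟨g, hg⟩ : ∃ g, g = Nat.card G := ⟨_, rfl⟩
    rw [← hn, ← hg] at h
    rw [← hn, ← hg] at hcon
    rw [← hg] at hgt
    have hm : H.index ≤ 5 := by
      by_contra hm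
      push Not at hm
      have h1 : 2 * 6 * n ^ 2 ≤ 2 * H.index * n ^ 2 :=
        Nat.mul_le_mul_right _ (Nat.mul_le_mul_left _ hm)
      have h2 : g * (g + n) ≤ (3 * n) * (3 * n + n) :=
        Nat.mul_le_mul hcon (Nat.add_le_add_right hcon n)
      nlinarith
    have h60 := card_le_sixty (hg ▸ hgt) H hH hm
    have hc := Cfsg.Agent.S0493.result hncyc (h60.trans (by norm_num))
    obtain ⟨e⟩ := Cfsg.Agent.Helper41.simple_order_sixty hc
    have hn15 : n = 15 := by
      rw [hn, ← card_invol_A5]
      exact Nat.card_congr (e.toEquiv.subtypeEquiv (fun t => by simp [MulEquiv.orderOf_eq]))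
    rw [hg, hc, hn15] at hcon
    omega

end Cfsg.Agent.S0234
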