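import Cfsg.Statements.S0235
import Mathlib
import Cfsg.Agent.Helper4.Dihedral

set_option autoImplicit false
open Cfsg

namespace Cfsg.Agent.S0235

/-- If x² ≠ 1, the ordered pairs (u, v) of involutions with uv = x correspond bijectively to the involutions t with t x t⁻¹ = x⁻¹ (via (u, v) ↦ u), so the two counts agree. -/
theorem result {G : Type*} [Group G] [Finite G] (x : G) (hx : x ^ 2 ≠ 1) : Nat.card {p : G × G // orderOf p.1 = 2 ∧ orderOf p.2 = 2 ∧ p.1 * p.2 = x} = Nat.card {t : G // orderOf t = 2 ∧ t * x * t⁻¹ = x⁻¹} := by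
  apply Nat.card_congr
  refine ⟨fun p => ⟨p.1.1, p.2.1, ?_⟩, fun t => ⟨(t.1, t.1 * x), t.2.1, ?_, ?_⟩, ?_, ?_⟩
  · obtain ⟨⟨u, v⟩, hu, hv, huv⟩ := p
    simp only at hu hv huv ⊢
    have hu2 := Helper4.mul_self_of_orderOf_two hu
    have hv2 := Helper4.mul_self_of_orderOf_two hv
    rw [← huv]
    exact Helper4.conj_mul_of_mul_self hu2 hv2
  · obtain ⟨t, ht, htx⟩ := t
    simp only
    have ht2 := Helper4.mul_self_of_orderOf_two ht
    have hti := Helper4.inv_eq_self_of_mul_self ht2
    rw [hti] at htx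
    rw [Helper4.orderOf_two_iff]
    constructor
    · intro h
      apply hx
      have : x = t := by
        calc x = t * (t * x) := by rw [← mul_assoc, ht2, one_mul]
          _ = t := by rw [h, mul_one]
      rw [this, pow_two, ht2]
    · calc t * x * (t * x) = (t * x * t) * x := by group
        _ = 1 := by rw [htx, inv_mul_cancel]
  · obtain ⟨t, ht, htx⟩ := t
    simp only
    rw [← mul_assoc, Helper4.mul_self_of_orderOf_two ht, one_mul]
  · rintro ⟨⟨u, v⟩, hu, hv, huv⟩
    simp only at hu hv huv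
    apply Subtype.ext
    simp only
    rw [← huv, ← mul_assoc, Helper4.mul_self_of_orderOf_two hu, one_mul]
  · rintro ⟨t, ht, htx⟩
    rfl

end Cfsg.Agent.S0235
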