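import Cfsg.Statements.S0236
import Mathlib
import Cfsg.Agent.Helper4.Dihedral

set_option autoImplicit false
open Cfsg

namespace Cfsg.Agent.S0236

/-- If x is an involution, the number of ordered pairs (u, v) of involutions with uv = x, plus one, equals the number of involutions in the centralizer of x. -/
theorem result {G : Type*} [Group G] [Finite G] (x : G) (hx : orderOf x = 2) : Nat.card {p : G × G // orderOf p.1 = 2 ∧ orderOf p.2 = 2 ∧ p.1 * p.2 = x} + 1 = Nat.card {t : G // orderOf t = 2 ∧ Commute t x} := by
  have hx2 := Helper4.mul_self_of_orderOf_two hx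
  have e : Nat.card {p : G × G // orderOf p.1 = 2 ∧ orderOf p.2 = 2 ∧ p.1 * p.2 = x}
      = Nat.card {t : G // orderOf t = 2 ∧ Commute t x ∧ t ≠ x} := by
    apply Nat.card_congr
    refine ⟨fun p => ⟨p.1.1, p.2.1, ?_, ?_⟩, fun t => ⟨(t.1, t.1 * x), t.2.1, ?_, ?_⟩, ?_, ?_⟩
    · obtain ⟨⟨u, v⟩, hu, hv, huv⟩ := p
      simp only at hu hv huv ⊢
      have hu2 := Helper4.mul_self_of_orderOf_two hu
      have hv2 := Helper4.mul_self_of_orderOf_two hv
      have h1 := Helper4.conj_mul_of_mul_self hu2 hv2
      rw [huv, Helper4.inv_eq_self_of_mul_self hx2] at h1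
      show u * x = x * u
      calc u * x = (u * x * u⁻¹) * u := by group
        _ = x * u := by rw [h1]
    · obtain ⟨⟨u, v⟩, hu, hv, huv⟩ := p
      simp only at hu hv huv ⊢
      intro h
      apply Helper4.ne_one_of_orderOf_two hv
      have : u * v = u * 1 := by rw [huv, mul_one, h]
      exact mul_left_cancel this
    · obtain ⟨t, ht, hc, hne⟩ := t
      simp only
      rw [Helper4.orderOf_two_iff]
      constructor
      · intro h
        apply hne
        calc t = t * x * x := by rw [mul_assoc, hx2, mul_one]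
          _ = x := by rw [h, one_mul]
      · calc t * x * (t * x) = t * (x * t) * x := by group
          _ = t * (t * x) * x := by rw [hc.eq]
          _ = (t * t) * (x * x) := by group
          _ = 1 := by rw [Helper4.mul_self_of_orderOf_two ht, hx2, one_mul]
    · obtain ⟨t, ht, hc, hne⟩ := t
      simp only
      rw [← mul_assoc, Helper4.mul_self_of_orderOf_two ht, one_mul]
    · rintro ⟨⟨u, v⟩, hu, hv, huv⟩
      simp only at hu hv huv
      apply Subtype.ext
      simp only
      rw [← huv, ← mul_assoc, Helper4.mul_self_of_orderOf_two hu, one_mul]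
    · rintro ⟨t, ht, hc, hne⟩
      rfl
  rw [e]
  have hS : {t : G | orderOf t = 2 ∧ Commute t x}
      = insert x {t : G | orderOf t = 2 ∧ Commute t x ∧ t ≠ x} := by
    ext t
    simp only [Set.mem_ofPred_eq, Set.mem_insert_iff]
    constructor
    · rintro ⟨h1, h2⟩
      by_cases h : t = x
      · left; exact h
      · right; exact ⟨h1, h2, h⟩
    · rintro (rfl | ⟨h1, h2, _⟩)
      · exact ⟨hx, Commute.refl _⟩
      · exact ⟨h1, h2⟩
  have hnot : x ∉ {t : G | orderOf t = 2 ∧ Commute t x ∧ t ≠ x} := by
    simp
  have key := Set.ncard_insert_of_notMem hnot (Set.toFinite _)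
  rw [← hS] at key
  rw [← Nat.card_coe_set_eq, ← Nat.card_coe_set_eq] at key
  exact key.symm

end Cfsg.Agent.S0236
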