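import Cfsg.Statements.S0238
import Mathlib
import Cfsg.Agent.Helper4.Dihedral

set_option autoImplicit false
open Cfsg

namespace Cfsg.Agent.S0238

theorem fst_inverts {G : Type*} [Group G] {x u v : G} (hu : orderOf u = 2) (hv : orderOf v = 2)
    (huv : u * v = x) : u * x * u⁻¹ = x⁻¹ := by
  rw [← huv]
  exact Helper4.conj_mul_of_mul_self (Helper4.mul_self_of_orderOf_two hu)
    (Helper4.mul_self_of_orderOf_two hv)

theorem fst_injective {G : Type*} [Group G] (x : G) : Function.Injective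
    (fun p : {p : G × G // orderOf p.1 = 2 ∧ orderOf p.2 = 2 ∧ p.1 * p.2 = x} => p.1.1) := by
  rintro ⟨⟨u, v⟩, hu, hv, huv⟩ ⟨⟨u', v'⟩, hu', hv', huv'⟩ h
  simp only at h hu hv huv hu' hv' huv'
  subst h
  have : v = v' := mul_left_cancel (huv.trans huv'.symm)
  subst this
  rfl

/-- For every x in a finite group G, the number c of ordered pairs (u, v) of involutions with uv = x is at most |C_G(x)|; c = 0 when x is not conjugate to x⁻¹; and c + 2 ≤ |C_G(x)| when x is an involution. -/
theorem result {G : Type*} [Group G] [Finite G] (x : G) : Nat.card {p : G × G // orderOf p.1 = 2 ∧ orderOf p.2 = 2 ∧ p.1 * p.2 = x} ≤ Nat.card (Subgroup.centralizer ({x} : Set G)) ∧ (¬ IsConj x x⁻¹ → Nat.card {p : G × G // orderOf p.1 = 2 ∧ orderOf p.2 = 2 ∧ p.1 * p.2 = x} = 0) ∧ (orderOf x = 2 → Nat.card {p : G × G // orderOf p.1 = 2 ∧ orderOf p.2 = 2 ∧ p.1 * p.2 = x} + 2 ≤ Nat.card (Subgroup.centralizer ({x} : Set G))) := by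
  refine ⟨?_, ?_, ?_⟩
  · by_cases hne : Nonempty {p : G × G // orderOf p.1 = 2 ∧ orderOf p.2 = 2 ∧ p.1 * p.2 = x}
    · obtain ⟨⟨⟨u0, v0⟩, hu0, hv0, huv0⟩⟩ := hne
      simp only at hu0 hv0 huv0
      have h0 := fst_inverts hu0 hv0 huv0
      have hmem : ∀ p : {p : G × G // orderOf p.1 = 2 ∧ orderOf p.2 = 2 ∧ p.1 * p.2 = x},
          u0⁻¹ * p.1.1 ∈ Subgroup.centralizer ({x} : Set G) := by
        rintro ⟨⟨u, v⟩, hu, hv, huv⟩
        simp only at hu hv huv ⊢
        have h1 := fst_inverts hu hv huv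
        rw [Subgroup.mem_centralizer_singleton_iff]
        have e1 : u * x = x⁻¹ * u := by
          calc u * x = (u * x * u⁻¹) * u := by group
            _ = x⁻¹ * u := by rw [h1]
        have e2 : u0⁻¹ * x⁻¹ = x * u0⁻¹ := by
          calc u0⁻¹ * x⁻¹ = u0⁻¹ * (u0 * x * u0⁻¹) := by rw [h0]
            _ = x * u0⁻¹ := by group
        calc u0⁻¹ * u * x = u0⁻¹ * (u * x) := by group
          _ = (u0⁻¹ * x⁻¹) * u := by rw [e1]; group
          _ = x * (u0⁻¹ * u) := by rw [e2]; group
      apply Nat.card_le_card_of_injective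
        (fun p => (⟨u0⁻¹ * p.1.1, hmem p⟩ : Subgroup.centralizer ({x} : Set G)))
      intro p q hpq
      apply fst_injective x
      simp only [Subtype.mk.injEq] at hpq
      exact mul_left_cancel hpq
    · rw [not_nonempty_iff] at hne
      rw [Nat.card_of_isEmpty]; exact Nat.zero_le _
  · intro hnc
    haveI : IsEmpty {p : G × G // orderOf p.1 = 2 ∧ orderOf p.2 = 2 ∧ p.1 * p.2 = x} :=
      ⟨fun p => hnc (isConj_iff.mpr ⟨p.1.1, fst_inverts p.2.1 p.2.2.1 p.2.2.2⟩)⟩
    exact Nat.card_of_isEmpty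
  · intro hx
    have hx2 := Helper4.mul_self_of_orderOf_two hx
    have hcard : (Set.range (fun p : {p : G × G // orderOf p.1 = 2 ∧ orderOf p.2 = 2 ∧ p.1 * p.2 = x}
        => p.1.1)).ncard
        = Nat.card {p : G × G // orderOf p.1 = 2 ∧ orderOf p.2 = 2 ∧ p.1 * p.2 = x} := by
      rw [← Nat.card_coe_set_eq]; exact Nat.card_range_of_injective (fst_injective x)
    have hxS : x ∉ Set.range
        (fun p : {p : G × G // orderOf p.1 = 2 ∧ orderOf p.2 = 2 ∧ p.1 * p.2 = x} => p.1.1) := by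
      rintro ⟨⟨⟨u, v⟩, hu, hv, huv⟩, h⟩
      simp only at h hu hv huv
      apply Helper4.ne_one_of_orderOf_two hv
      have : u * v = u * 1 := by rw [huv, mul_one, h]
      exact mul_left_cancel this
    have h1S : (1 : G) ∉ insert x (Set.range
        (fun p : {p : G × G // orderOf p.1 = 2 ∧ orderOf p.2 = 2 ∧ p.1 * p.2 = x} => p.1.1)) := by
      rintro (h | ⟨⟨⟨u, v⟩, hu, hv, huv⟩, h⟩)
      · exact Helper4.ne_one_of_orderOf_two hx h.symm
      · simp only at h hu
        exact Helper4.ne_one_of_orderOf_two hu h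
    have hsub : insert 1 (insert x (Set.range
        (fun p : {p : G × G // orderOf p.1 = 2 ∧ orderOf p.2 = 2 ∧ p.1 * p.2 = x} => p.1.1)))
        ⊆ (Subgroup.centralizer ({x} : Set G) : Set G) := by
      intro g hg
      rcases hg with rfl | rfl | ⟨⟨⟨u, v⟩, hu, hv, huv⟩, rfl⟩
      · exact one_mem _
      · exact Subgroup.mem_centralizer_singleton_iff.mpr rfl
      · simp only at hu hv huv ⊢
        rw [SetLike.mem_coe, Subgroup.mem_centralizer_singleton_iff]
        have h0 := fst_inverts hu hv huv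
        rw [Helper4.inv_eq_self_of_mul_self hx2] at h0
        calc u * x = (u * x * u⁻¹) * u := by group
          _ = x * u := by rw [h0]
    have hle := Set.ncard_le_ncard hsub (Set.toFinite _)
    rw [Set.ncard_insert_of_notMem h1S (Set.toFinite _),
      Set.ncard_insert_of_notMem hxS (Set.toFinite _), hcard] at hle
    rw [← Nat.card_coe_set_eq] at hle
    exact hle

end Cfsg.Agent.S0238
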