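import Cfsg.Statements.S0239
import Mathlib
import Cfsg.Agent.Helper4.Dihedral

set_option autoImplicit false
open Cfsg

namespace Cfsg.Agent.S0239

/-- If some nontrivial element x of a finite group G is conjugate to x⁻¹, then |G| is even. -/
theorem result {G : Type*} [Group G] [Finite G] (x : G) (hx : x ≠ 1) (hreal : IsConj x x⁻¹) : Even (Nat.card G) := by
  obtain ⟨c, hc⟩ := isConj_iff.mp hreal
  by_contra hodd
  rw [Nat.not_even_iff_odd] at hodd
  have hco : Odd (orderOf c) := Odd.of_dvd_nat hodd (orderOf_dvd_natCard c)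
  obtain ⟨k, hk⟩ := hco
  have h1 : c * x⁻¹ * c⁻¹ = x := by
    have : c * x⁻¹ * c⁻¹ = (c * x * c⁻¹)⁻¹ := by group
    rw [this, hc, inv_inv]
  have h2 : (c * c) * x * (c * c)⁻¹ = x := by
    calc (c * c) * x * (c * c)⁻¹ = c * (c * x * c⁻¹) * c⁻¹ := by group
      _ = x := by rw [hc, h1]
  have h3 : Commute (c * c) x := by
    show (c * c) * x = x * (c * c)
    calc (c * c) * x = ((c * c) * x * (c * c)⁻¹) * (c * c) := by group
      _ = x * (c * c) := by rw [h2]
  have h4 : c = (c * c) ^ (k + 1) := by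
    rw [← pow_two, ← pow_mul]
    have : 2 * (k + 1) = orderOf c + 1 := by omega
    rw [this, pow_succ, pow_orderOf_eq_one, one_mul]
  have h5 : Commute c x := by rw [h4]; exact h3.pow_left _
  have h6 : x⁻¹ = x := by
    rw [← hc, h5.eq]; group
  have h7 : x * x = 1 := by
    nth_rewrite 1 [← h6]; exact inv_mul_cancel x
  have h8 : orderOf x = 2 := Helper4.orderOf_two_iff.mpr ⟨hx, h7⟩
  have h9 : 2 ∣ Nat.card G := h8 ▸ orderOf_dvd_natCard x
  exact Nat.not_even_iff_odd.mpr hodd (even_iff_two_dvd.mpr h9)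

end Cfsg.Agent.S0239
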