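import Cfsg.Statements.S0240
import Mathlib
import Cfsg.Agent.Helper4.Dihedral

set_option autoImplicit false
open Cfsg

namespace Cfsg.Agent.S0240

/-- Let G be a finite group with n involutions and H a subgroup with |H|·(n+1) > |G|. Then some nontrivial h ∈ H is strongly real in G: an involution t of G satisfies t h t⁻¹ = h⁻¹. -/
theorem result {G : Type*} [Group G] [Finite G] (H : Subgroup G) (hH : Nat.card G < Nat.card H * (Nat.card {t : G // orderOf t = 2} + 1)) : ∃ h : G, h ∈ H ∧ h ≠ 1 ∧ ∃ t : G, orderOf t = 2 ∧ t * h * t⁻¹ = h⁻¹ := by
  by_contra hno
  push Not at hno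
  have hinj : Function.Injective (fun p : Option {t : G // orderOf t = 2} × H =>
      (Option.elim p.1 (1 : G) (fun t => t.1)) * (p.2 : G)) := by
    rintro ⟨a, h1⟩ ⟨b, h2⟩ hab
    simp only at hab
    cases a with
    | none =>
      cases b with
      | none =>
        simp only [Option.elim_none, one_mul] at hab
        rw [Subtype.ext hab]
      | some t =>
        exfalso
        simp only [Option.elim_none, Option.elim_some, one_mul] at hab
        obtain ⟨t, ht⟩ := t
        simp only at hab
        have htH : t ∈ H := by
          have : t = (h1 : G) * (h2 : G)⁻¹ := by rw [hab]; group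
          rw [this]
          exact H.mul_mem h1.2 (H.inv_mem h2.2)
        have ht2 := Helper4.mul_self_of_orderOf_two ht
        refine hno t htH (Helper4.ne_one_of_orderOf_two ht) t ht ?_
        rw [ht2, one_mul]
    | some s =>
      cases b with
      | none =>
        exfalso
        simp only [Option.elim_none, Option.elim_some, one_mul] at hab
        obtain ⟨s, hs⟩ := s
        simp only at hab
        have hsH : s ∈ H := by
          have : s = (h2 : G) * (h1 : G)⁻¹ := by rw [← hab]; group
          rw [this]
          exact H.mul_mem h2.2 (H.inv_mem h1.2)
        have hs2 := Helper4.mul_self_of_orderOf_two hs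
        refine hno s hsH (Helper4.ne_one_of_orderOf_two hs) s hs ?_
        rw [hs2, one_mul]
      | some t =>
        simp only [Option.elim_some] at hab
        obtain ⟨s, hs⟩ := s
        obtain ⟨t, ht⟩ := t
        simp only at hab
        have hs2 := Helper4.mul_self_of_orderOf_two hs
        have ht2 := Helper4.mul_self_of_orderOf_two ht
        have hti := Helper4.inv_eq_self_of_mul_self ht2
        have hsi := Helper4.inv_eq_self_of_mul_self hs2
        by_cases hst : s = t
        · subst hst
          have := mul_left_cancel hab
          rw [Subtype.ext this]
        · exfalso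
          have hmem : t * s ∈ H := by
            have : t * s = (h2 : G) * (h1 : G)⁻¹ := by
              calc t * s = t⁻¹ * (s * h1) * (h1 : G)⁻¹ := by rw [hti]; group
                _ = t⁻¹ * (t * h2) * (h1 : G)⁻¹ := by rw [hab]
                _ = (h2 : G) * (h1 : G)⁻¹ := by group
            rw [this]
            exact H.mul_mem h2.2 (H.inv_mem h1.2)
          have hne : t * s ≠ 1 := by
            intro h
            apply hst
            calc s = t * (t * s) := by rw [← mul_assoc, ht2, one_mul]
              _ = t := by rw [h, mul_one]
          refine hno (t * s) hmem hne t ht ?_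
          rw [mul_inv_rev, hti, hsi, ← mul_assoc, ht2, one_mul]
  have hle := Nat.card_le_card_of_injective _ hinj
  rw [Nat.card_prod, Finite.card_option] at hle
  rw [mul_comm] at hle
  exact absurd hH (not_lt.mpr hle)

end Cfsg.Agent.S0240
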