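import Cfsg.Statements.S0241
import Mathlib
import Cfsg.Agent.Helper4.Dihedral

set_option autoImplicit false
open Cfsg

namespace Cfsg.Agent.S0241

/-- If x ≠ 1 is conjugate to x⁻¹ in a finite group G and |C_G(x)| is odd, then some involution t satisfies t x t⁻¹ = x⁻¹. -/
theorem result {G : Type*} [Group G] [Finite G] (x : G) (hx : x ≠ 1) (hreal : IsConj x x⁻¹) (hodd : Odd (Nat.card (Subgroup.centralizer ({x} : Set G)))) : ∃ t : G, orderOf t = 2 ∧ t * x * t⁻¹ = x⁻¹ := by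
  obtain ⟨c, hc⟩ := isConj_iff.mp hreal
  have h1 : c * x⁻¹ * c⁻¹ = x := by
    have : c * x⁻¹ * c⁻¹ = (c * x * c⁻¹)⁻¹ := by group
    rw [this, hc, inv_inv]
  have h2 : (c * c) * x * (c * c)⁻¹ = x := by
    calc (c * c) * x * (c * c)⁻¹ = c * (c * x * c⁻¹) * c⁻¹ := by group
      _ = x := by rw [hc, h1]
  have h3 : Commute (c ^ 2) x := by
    rw [pow_two]
    show (c * c) * x = x * (c * c)
    calc (c * c) * x = ((c * c) * x * (c * c)⁻¹) * (c * c) := by group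
      _ = x * (c * c) := by rw [h2]
  have hmem : c ^ 2 ∈ Subgroup.centralizer ({x} : Set G) :=
    Subgroup.mem_centralizer_singleton_iff.mpr h3.eq
  have hdvd : orderOf (c ^ 2) ∣ Nat.card (Subgroup.centralizer ({x} : Set G)) :=
    Subgroup.orderOf_dvd_natCard _ hmem
  have hko : Odd (orderOf (c ^ 2)) := Odd.of_dvd_nat hodd hdvd
  obtain ⟨j, hj⟩ := hko
  -- t = c ^ (2 j + 1)
  have ht2 : c ^ (2 * j + 1) * c ^ (2 * j + 1) = 1 := by
    rw [← pow_add]
    have : 2 * j + 1 + (2 * j + 1) = 2 * orderOf (c ^ 2) := by omega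
    rw [this, pow_mul, pow_orderOf_eq_one]
  have htx : c ^ (2 * j + 1) * x * (c ^ (2 * j + 1))⁻¹ = x⁻¹ := by
    have hcomm : Commute ((c ^ 2) ^ j) x := h3.pow_left j
    have e : c ^ (2 * j + 1) = c * (c ^ 2) ^ j := by
      rw [← pow_mul, pow_succ']
    rw [e]
    calc c * (c ^ 2) ^ j * x * (c * (c ^ 2) ^ j)⁻¹
        = c * ((c ^ 2) ^ j * x) * ((c ^ 2) ^ j)⁻¹ * c⁻¹ := by group
      _ = c * (x * (c ^ 2) ^ j) * ((c ^ 2) ^ j)⁻¹ * c⁻¹ := by rw [hcomm.eq]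
      _ = c * x * c⁻¹ := by group
      _ = x⁻¹ := hc
  refine ⟨c ^ (2 * j + 1), Helper4.orderOf_two_iff.mpr ⟨?_, ht2⟩, htx⟩
  intro h
  rw [h] at htx
  have h6 : x⁻¹ = x := by rw [← htx]; group
  have h7 : x * x = 1 := by
    nth_rewrite 1 [← h6]; exact inv_mul_cancel x
  have h8 : orderOf x = 2 := Helper4.orderOf_two_iff.mpr ⟨hx, h7⟩
  have hxmem : x ∈ Subgroup.centralizer ({x} : Set G) :=
    Subgroup.mem_centralizer_singleton_iff.mpr rfl
  have h9 : 2 ∣ Nat.card (Subgroup.centralizer ({x} : Set G)) :=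
    h8 ▸ Subgroup.orderOf_dvd_natCard _ hxmem
  exact Nat.not_even_iff_odd.mpr hodd (even_iff_two_dvd.mpr h9)

end Cfsg.Agent.S0241
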