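import Cfsg.Statements.S0243
import Mathlib
import Cfsg.Agent.S0242

set_option autoImplicit false
open Cfsg

namespace Cfsg.Agent.S0243

/-- Order of PSL_n(q): gcd(n, q-1) (q-1) |PSL_n(q)| = prod_{i<n} (q^n - q^i). -/
theorem result {F : Type*} [Field F] [Fintype F] {q : ℕ} (hF : Fintype.card F = q) (n : ℕ) (hn : 2 ≤ n) : Nat.gcd n (q - 1) * ((q - 1) * Nat.card (Matrix.ProjectiveSpecialLinearGroup (Fin n) F)) = ∏ i : Fin n, (q ^ n - q ^ (i : ℕ)) := by
  have hn1 : 1 ≤ n := by omega
  have hSL := Cfsg.Agent.S0242.result hF n hn1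
  rw [← hSL]
  have hq : Nat.card Fˣ = q - 1 := by
    classical
    rw [Nat.card_eq_fintype_card, Fintype.card_units, hF]
  have hroots : Nat.card (rootsOfUnity n F) = Nat.gcd n (q - 1) := by
    rw [rootsOfUnity_eq_ker, IsCyclic.card_powMonoidHom_ker, hq, Nat.gcd_comm]
  have hcenter : Nat.card (Subgroup.center (Matrix.SpecialLinearGroup (Fin n) F))
      = Nat.gcd n (q - 1) := by
    rw [← hroots]
    have e := Matrix.SpecialLinearGroup.center_equiv_rootsOfUnity' (n := Fin n) (R := F) ⟨0, by omega⟩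
    rw [Fintype.card_fin] at e
    exact Nat.card_congr e.toEquiv
  have hquot := Subgroup.card_eq_card_quotient_mul_card_subgroup
    (Subgroup.center (Matrix.SpecialLinearGroup (Fin n) F))
  rw [hcenter] at hquot
  rw [hquot]
  ring

end Cfsg.Agent.S0243
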