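import Cfsg.Statements.S0247
import Cfsg.Agent.Helper5.SymEmbed

set_option autoImplicit false
open Cfsg

namespace Cfsg.Agent.S0247

/-- Sp_4(2) is isomorphic to the symmetric group S_6. -/
theorem result {F : Type*} [Field F] [Fintype F] (hF : Fintype.card F = 2) : Nonempty (Matrix.symplecticGroup (Fin 2) F ≃* Equiv.Perm (Fin 6)) := by
  have h2 : (2 : F) = 0 := by
    have := Nat.cast_card_eq_zero F
    rw [hF] at this
    exact_mod_cast this
  have hΩ : (Fintype.card (Fin 6) : F) = 0 := by
    rw [Fintype.card_fin]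
    have : ((6 : ℕ) : F) = 2 * 3 := by norm_num
    rw [this, h2, zero_mul]
  obtain ⟨m, f, hm, hf⟩ := Helper5.exists_heart_embedding (F := F) (Ω := Fin 6) h2 hΩ 0
    (by rw [Fintype.card_fin]; omega)
  rw [Fintype.card_fin] at hm
  obtain rfl : m = 2 := by omega
  have hbij : Function.Bijective f := by
    apply hf.bijective_of_nat_card_le
    rw [Helper5.card_sp, hF, Nat.card_perm, Nat.card_eq_fintype_card, Fintype.card_fin]
    norm_num [Finset.prod_range_succ]
  exact ⟨(MulEquiv.ofBijective f hbij).symm⟩

end Cfsg.Agent.S0247
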