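import Cfsg.Statements.S0254
import Cfsg.Agent.Helper57.Ico9
import Cfsg.Agent.Helper5.SLCard
import Cfsg.Agent.Helper5.AltEmbed

set_option autoImplicit false
open Cfsg

namespace Cfsg.Agent.S0254

open Cfsg.Agent.Helper57 Matrix

/-- The coercion from `SL(2, K9)` to matrices, as a monoid hom. -/
def slCoe : SpecialLinearGroup (Fin 2) K9 →* Matrix (Fin 2) (Fin 2) K9 where
  toFun g := g.1
  map_one' := rfl
  map_mul' _ _ := rfl

theorem slCoe_injective : Function.Injective slCoe := fun _ _ h => Subtype.ext h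

/-- first generator of the binary icosahedral subgroup -/
def gA : SpecialLinearGroup (Fin 2) K9 := ⟨Q2.toMat icoA, by rw [Q2.det_toMat]; exact icoA_det⟩
/-- second generator of the binary icosahedral subgroup -/
def gB : SpecialLinearGroup (Fin 2) K9 := ⟨Q2.toMat icoB, by rw [Q2.det_toMat]; exact icoB_det⟩

theorem ico_card :
    Nat.card (Subgroup.closure ({gA, gB} : Set (SpecialLinearGroup (Fin 2) K9))) = 120 ∧
      ∀ g : SpecialLinearGroup (Fin 2) K9, g ∈ Subgroup.closure ({gA, gB} : Set _) ↔
        ∃ x ∈ icoL, Q2.toMat x = g.1 := by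
  have h := card_closure_pair_of_codes slCoe slCoe_injective Q2.toMat Q2.toMat_injective Q2.mul
    Q2.toMat_mul gA gB icoA icoB icoAi icoBi Q2.one rfl rfl
    (by show Q2.toMat icoAi * Q2.toMat icoA = 1; rw [← Q2.toMat_mul, icoAi_mul, Q2.toMat_one])
    (by show Q2.toMat icoBi * Q2.toMat icoB = 1; rw [← Q2.toMat_mul, icoBi_mul, Q2.toMat_one])
    Q2.toMat_one icoL icoL_nodup icoL_one icoL_mulA icoL_mulB icoL_bfs
  rw [icoL_length] at h
  exact h

theorem psl29_K9 :
    Nonempty (ProjectiveSpecialLinearGroup (Fin 2) K9 ≃* alternatingGroup (Fin 6)) := by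
  classical
  obtain ⟨hcard, hmem⟩ := ico_card
  set H : Subgroup (SpecialLinearGroup (Fin 2) K9) := Subgroup.closure {gA, gB} with hH
  have hG : Nat.card (SpecialLinearGroup (Fin 2) K9) = 720 := by
    rw [Helper5.card_SL2, card_K9]; norm_num
  have hidx : H.index = 6 := by
    have := H.card_mul_index
    rw [hcard, hG] at this
    omega
  have h2 : (2 : K9) ≠ 0 := by decide
  have hcen : Subgroup.center (SpecialLinearGroup (Fin 2) K9) ≤ H := by
    intro z hz
    rw [Matrix.SpecialLinearGroup.mem_center_iff] at hz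
    obtain ⟨r, hr, hrz⟩ := hz
    simp only [Fintype.card_fin] at hr
    have h0 : (r - 1) * (r + 1) = 0 := by linear_combination hr
    rw [hmem]
    rcases mul_eq_zero.1 h0 with h | h
    · have hr1 : r = 1 := by linear_combination h
      refine ⟨Q2.one, icoL_one, ?_⟩
      rw [Q2.toMat_one, ← hrz, hr1]
      simp
    · have hr1 : r = -1 := by linear_combination h
      refine ⟨icoN, icoL_neg_one, ?_⟩
      rw [← hrz, hr1]
      have hn : (⟨2, 0⟩ : K9) = -1 := by decide
      have hz : (⟨0, 0⟩ : K9) = 0 := by decide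
      apply Matrix.ext
      intro i j
      fin_cases i <;> fin_cases j <;> simp [icoN, Q2.toMat, hn, hz]
  let φ : SpecialLinearGroup (Fin 2) K9 →* Equiv.Perm (SpecialLinearGroup (Fin 2) K9 ⧸ H) :=
    MulAction.toPermHom _ _
  have hker : Subgroup.center (SpecialLinearGroup (Fin 2) K9) ≤ φ.ker := by
    intro z hz
    rw [MonoidHom.mem_ker]
    ext q
    induction q using QuotientGroup.induction_on with
    | H g =>
      have hzg : z * g = g * z := (Subgroup.mem_center_iff.1 hz g).symm
      show (z • (g : SpecialLinearGroup (Fin 2) K9 ⧸ H)) = g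
      rw [MulAction.Quotient.smul_mk, smul_eq_mul, hzg]
      exact QuotientGroup.eq.2 (by simpa using hcen hz)
  let ψ : ProjectiveSpecialLinearGroup (Fin 2) K9 →*
      Equiv.Perm (SpecialLinearGroup (Fin 2) K9 ⧸ H) :=
    QuotientGroup.lift (Subgroup.center (SpecialLinearGroup (Fin 2) K9)) φ hker
  have hsimple : IsSimpleGroup (ProjectiveSpecialLinearGroup (Fin 2) K9) :=
    Matrix.ProjectiveSpecialLinearGroup.rank_two_simple (by
      rw [Nat.card_eq_fintype_card, card_K9]; norm_num)
  have hψ : Function.Injective ψ := by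
    rw [← MonoidHom.ker_eq_bot_iff]
    rcases (MonoidHom.normal_ker ψ).eq_bot_or_eq_top with h | h
    · exact h
    · exfalso
      have hφ : ∀ g : SpecialLinearGroup (Fin 2) K9, φ g = 1 := by
        intro g
        have hg : (QuotientGroup.mk g : ProjectiveSpecialLinearGroup (Fin 2) K9) ∈ ψ.ker := by
          rw [h]; trivial
        exact hg
      have hT : H = ⊤ := by
        rw [eq_top_iff]
        intro g _
        have h1 : φ g ((1 : SpecialLinearGroup (Fin 2) K9) : SpecialLinearGroup (Fin 2) K9 ⧸ H)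
            = ((1 : SpecialLinearGroup (Fin 2) K9) : SpecialLinearGroup (Fin 2) K9 ⧸ H) := by
          rw [hφ g]; rfl
        have h2 : (g • ((1 : SpecialLinearGroup (Fin 2) K9) : SpecialLinearGroup (Fin 2) K9 ⧸ H))
            = ((1 : SpecialLinearGroup (Fin 2) K9) : SpecialLinearGroup (Fin 2) K9 ⧸ H) := h1
        rw [MulAction.Quotient.smul_mk, smul_eq_mul, mul_one] at h2
        have := QuotientGroup.eq.1 h2
        simpa using H.inv_mem this
      rw [hT, Subgroup.index_top] at hidx
      omega
  have hcardP : 2 * Nat.card (ProjectiveSpecialLinearGroup (Fin 2) K9) = Nat.factorial 6 := by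
    have h1 := Helper5.card_PSL2_mul (F := K9)
    rw [Helper5.card_center_SL2 h2, card_K9] at h1
    have h6 : Nat.factorial 6 = 720 := by decide
    omega
  exact Helper5.equiv_alternatingGroup_of_injective ψ hψ 6 hidx hcardP

/-- PSL_2(9) is isomorphic to A_6. -/
theorem result {F : Type*} [Field F] [Fintype F] (hF : Fintype.card F = 9) : Nonempty (Matrix.ProjectiveSpecialLinearGroup (Fin 2) F ≃* alternatingGroup (Fin 6)) := by
  have φ : F ≃+* K9 := FiniteField.ringEquivOfCardEq (K := F) (K' := K9) (by rw [hF, card_K9])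
  obtain ⟨e⟩ := psl29_K9
  exact ⟨(pslCongr φ).trans e⟩

end Cfsg.Agent.S0254
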