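import Cfsg.Statements.S0257
import Cfsg.Agent.S0251
import Cfsg.Agent.S0261
import Cfsg.Agent.Helper5.SLCard
import Cfsg.Agent.Helper5.SylowConj

set_option autoImplicit false
open Cfsg

namespace Cfsg.Agent.S0257

open Cfsg.Agent.Helper5 Matrix

/-- SL_2(3) has a normal subgroup of index 3 isomorphic to the quaternion group of order 8, and its centre has order 2. -/
theorem result {F : Type*} [Field F] [Fintype F] (hF : Fintype.card F = 3) : (∃ Q : Subgroup (Matrix.SpecialLinearGroup (Fin 2) F), Q.Normal ∧ Q.index = 3 ∧ Nonempty (Q ≃* QuaternionGroup 2)) ∧ Nat.card (Subgroup.center (Matrix.SpecialLinearGroup (Fin 2) F)) = 2 := by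
  classical
  have hodd : Odd (Fintype.card F) := by rw [hF]; decide
  have h2 : (2 : F) ≠ 0 := two_ne_zero_of_odd hodd
  refine ⟨?_, card_center_SL2 h2⟩
  obtain ⟨e⟩ := Cfsg.Agent.S0251.result hF
  have h4 : Nat.card (Fin 4) = 4 := by simp
  have hVn : (alternatingGroup.kleinFour (Fin 4)).Normal := alternatingGroup.normal_kleinFour h4
  let f : Matrix.SpecialLinearGroup (Fin 2) F →* alternatingGroup (Fin 4) :=
    e.toMonoidHom.comp (QuotientGroup.mk' (Subgroup.center (Matrix.SpecialLinearGroup (Fin 2) F)))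
  have hf : Function.Surjective f := e.surjective.comp (QuotientGroup.mk'_surjective _)
  let Q : Subgroup (Matrix.SpecialLinearGroup (Fin 2) F) :=
    (alternatingGroup.kleinFour (Fin 4)).comap f
  have hQn : Q.Normal := hVn.comap f
  have hQi : Q.index = 3 := by
    rw [Subgroup.index_comap_of_surjective _ hf]
    have h1 := Subgroup.card_mul_index (alternatingGroup.kleinFour (Fin 4))
    rw [alternatingGroup.kleinFour_card_of_card_eq_four h4,
      alternatingGroup.card_of_card_eq_four h4] at h1
    omega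
  have hG : Nat.card (Matrix.SpecialLinearGroup (Fin 2) F) = 24 := by
    rw [card_SL2, hF]
    norm_num
  have hQc : Nat.card Q = 8 := by
    have h1 := Subgroup.card_mul_index Q
    rw [hQi, hG] at h1
    omega
  have hfac : (24 : ℕ).factorization 2 = 3 := by
    have : (24 : ℕ) = 2 ^ 3 * 3 := by norm_num
    rw [this]
    exact fact2 3 3 (by decide)
  let P : Sylow 2 (Matrix.SpecialLinearGroup (Fin 2) F) := Sylow.ofCard Q (by
    rw [hQc, hG, hfac]; norm_num)
  obtain ⟨k, hk, ⟨eQ⟩⟩ := Cfsg.Agent.S0261.result hodd P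
  have hk1 : k = 1 := by
    have h1 : Nat.card (P : Subgroup (Matrix.SpecialLinearGroup (Fin 2) F)) = 8 := hQc
    rw [Nat.card_congr eQ.toEquiv, Nat.card_eq_fintype_card, QuaternionGroup.card] at h1
    have h3 : 2 ^ k = 2 ^ 1 := by omega
    exact Nat.pow_right_injective (le_refl 2) h3
  subst hk1
  exact ⟨Q, hQn, hQi, ⟨eQ⟩⟩

end Cfsg.Agent.S0257
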