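import Cfsg.Statements.S0259
import Cfsg.Agent.Helper5.GL2Sylow

set_option autoImplicit false
open Cfsg

namespace Cfsg.Agent.S0259

/-- Distinct Sylow p-subgroups of GL_2(q), p the characteristic, intersect trivially. -/
theorem result {F : Type*} [Field F] [Fintype F] (p : ℕ) [Fact p.Prime] [CharP F p] (P Q : Sylow p (Matrix.GeneralLinearGroup (Fin 2) F)) (h : P ≠ Q) : (P : Subgroup (Matrix.GeneralLinearGroup (Fin 2) F)) ⊓ (Q : Subgroup (Matrix.GeneralLinearGroup (Fin 2) F)) = ⊥ := by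
  obtain ⟨g, rfl⟩ := Helper5.exists_smul_sylowU p P
  obtain ⟨k, rfl⟩ := Helper5.exists_smul_sylowU p Q
  rw [Subgroup.eq_bot_iff_forall]
  intro x hx
  by_contra hx1
  rw [Subgroup.mem_inf] at hx
  obtain ⟨b, hb⟩ := (Helper5.mem_smul_sylowU_iff p g x).1 hx.1
  obtain ⟨c, hc⟩ := (Helper5.mem_smul_sylowU_iff p k x).1 hx.2
  have hc0 : c ≠ 0 := by
    rintro rfl
    apply hx1
    rw [← hc, Helper5.uGL_zero]
    group
  have hconj : (g⁻¹ * k) * Helper5.uGL c = Helper5.uGL b * (g⁻¹ * k) := by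
    have h1 : g * Helper5.uGL b * g⁻¹ = k * Helper5.uGL c * k⁻¹ := by rw [hb, hc]
    have h2 : Helper5.uGL b = g⁻¹ * (k * Helper5.uGL c * k⁻¹) * g := by
      rw [← h1]; group
    rw [h2]; group
  have h10 := Helper5.lower_left_eq_zero_of_conj hc0 hconj
  have hfix := (Helper5.smul_sylowU_eq_iff p (g⁻¹ * k)).2 h10
  apply h
  have h3 : k • Helper5.sylowU (F := F) p = g • ((g⁻¹ * k) • Helper5.sylowU (F := F) p) := by
    rw [← mul_smul, mul_inv_cancel_left]
  rw [h3, hfix]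

end Cfsg.Agent.S0259
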