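import Cfsg.Statements.S0262
import Cfsg.Agent.Helper41.SL2d

set_option autoImplicit false
open Cfsg

namespace Cfsg.Agent.S0262

open Cfsg.Agent.Helper41 Polynomial

/-- the entries of a matrix commuting with the normal form `K(δ, t)`. -/
theorem comm_Kmat {F : Type*} [Field F] (δ t : F) (hδ : δ ≠ 0)
    (H : Matrix.SpecialLinearGroup (Fin 2) F) (hH : H * Kmat δ t hδ = Kmat δ t hδ * H) :
    (H : Matrix (Fin 2) (Fin 2) F) 0 1 = -((H : Matrix (Fin 2) (Fin 2) F) 1 0 / δ) / δ ∧
    (H : Matrix (Fin 2) (Fin 2) F) 1 1 =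
      (H : Matrix (Fin 2) (Fin 2) F) 0 0 + t * ((H : Matrix (Fin 2) (Fin 2) F) 1 0 / δ) := by
  have h := congrArg (fun M : Matrix.SpecialLinearGroup (Fin 2) F => (M : Matrix (Fin 2) (Fin 2) F)) hH
  simp only [Matrix.SpecialLinearGroup.coe_mul] at h
  have h00 := congrFun (congrFun h 0) 0
  have h10 := congrFun (congrFun h 1) 0
  simp [Kmat, Matrix.mul_apply, Fin.sum_univ_two, Matrix.vecMul, dotProduct] at h00 h10
  constructor
  · field_simp
    field_simp at h00
    linear_combination h00
  · field_simp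
    field_simp at h10
    linear_combination h10

/-- For an odd prime r different from the characteristic, the Sylow r-subgroups of SL_2(q) are cyclic. -/
theorem result {F : Type*} [Field F] [Fintype F] (p : ℕ) [Fact p.Prime] [CharP F p] (r : ℕ) [Fact r.Prime] (hr : r ≠ 2) (hrp : r ≠ p) (R : Sylow r (Matrix.SpecialLinearGroup (Fin 2) F)) : IsCyclic (R : Subgroup (Matrix.SpecialLinearGroup (Fin 2) F)) := by
  have hpp : p.Prime := Fact.out
  have hrr : r.Prime := Fact.out
  set RS : Subgroup (Matrix.SpecialLinearGroup (Fin 2) F) := (R : Subgroup (Matrix.SpecialLinearGroup (Fin 2) F)) with hRS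
  by_cases hRbot : RS = ⊥
  · have : Subsingleton ↥RS := by
      rw [hRbot]; infer_instance
    exact isCyclic_of_subsingleton
  have hnt : Nontrivial ↥RS :=
    (Subgroup.nontrivial_iff_ne_bot _).mpr hRbot
  have hRp : IsPGroup r ↥RS := R.isPGroup'
  have hcen := hRp.center_nontrivial
  obtain ⟨z', hz'ne⟩ := exists_ne (1 : Subgroup.center ↥RS)
  set z : Matrix.SpecialLinearGroup (Fin 2) F := ((z' : ↥RS) : Matrix.SpecialLinearGroup (Fin 2) F) with hzdef
  have hz1 : z ≠ 1 := by
    intro h
    apply hz'ne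
    apply Subtype.ext
    apply Subtype.ext
    exact h
  have hzcomm : ∀ h : ↥RS,
      (h : Matrix.SpecialLinearGroup (Fin 2) F) * z = z * (h : Matrix.SpecialLinearGroup (Fin 2) F) := by
    intro h
    have := Subgroup.mem_center_iff.mp z'.2 h
    have h2 := congrArg (Subtype.val) this
    simpa using h2
  obtain ⟨k, hk⟩ := hRp (z' : ↥RS)
  have hzk : z ^ (r ^ k) = 1 := by
    have := congrArg (Subtype.val) hk
    simpa using this
  have hord : orderOf z ∣ r ^ k := orderOf_dvd_of_pow_eq_one hzk
  -- consequences of `z ^ n = 1` with `n` coprime to `r`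
  have hcop : ∀ n : ℕ, Nat.Coprime n r → (z : Matrix (Fin 2) (Fin 2) F) ^ n = 1 → False := by
    intro n hn hzn
    apply hz1
    have h1 : orderOf z ∣ n := by
      apply orderOf_dvd_of_pow_eq_one
      apply Subtype.ext
      rw [Matrix.SpecialLinearGroup.coe_pow, hzn]; rfl
    have h2 : orderOf z ∣ Nat.gcd n (r ^ k) := Nat.dvd_gcd h1 hord
    have h3 : Nat.gcd n (r ^ k) = 1 := Nat.Coprime.pow_right k hn
    rw [h3, Nat.dvd_one] at h2
    exact orderOf_eq_one_iff.mp h2
  have h2r : Nat.Coprime 2 r := (Nat.coprime_primes Nat.prime_two hrr).mpr (Ne.symm hr)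
  have hpr : Nat.Coprime p r := (Nat.coprime_primes hpp hrr).mpr (Ne.symm hrp)
  have hzpm : pmk z ≠ 1 := by
    intro h
    rw [pmk_eq_one_iff] at h
    rcases h with h | h
    · exact hcop 1 (Nat.coprime_one_left r) (by rw [pow_one, h])
    · exact hcop 2 h2r (by rw [pow_two, h]; simp)
  obtain ⟨U, δ, hδ, hU⟩ := exists_conj_eq_Kmat z hzpm
  set t := (z : Matrix (Fin 2) (Fin 2) F).trace with ht
  -- a root of the characteristic polynomial in the algebraic closure
  have hχdeg : (X ^ 2 - C t * X + C 1 : F[X]).degree ≠ 0 := by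
    have : (X ^ 2 - C t * X + C 1 : F[X]).degree = 2 := by compute_degree!
    rw [this]; norm_num
  obtain ⟨l, hl⟩ := IsAlgClosed.exists_aeval_eq_zero (AlgebraicClosure F) (X ^ 2 - C t * X + C 1 : F[X]) hχdeg
  simp only [map_add, map_sub, map_mul, map_pow, aeval_X, aeval_C, map_one] at hl
  set a := algebraMap F (AlgebraicClosure F) with hadef
  have hainj : Function.Injective a := (algebraMap F (AlgebraicClosure F)).injective
  have hl2 : l ^ 2 ≠ 1 := by
    intro hl2
    have hle : ∃ e : F, e ^ 2 = 1 ∧ l = a e := by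
      rcases (sq_eq_one_iff l).mp hl2 with h | h
      · exact ⟨1, by ring, by rw [h, map_one]⟩
      · exact ⟨-1, by ring, by rw [h, map_neg, map_one]⟩
    obtain ⟨e, he, hle⟩ := hle
    have hte : t = 2 * e := by
      apply hainj
      have h1 : a t * l = 2 := by linear_combination hl2 - hl
      rw [map_mul, map_ofNat, ← hle]
      calc a t = a t * l ^ 2 := by rw [hl2, mul_one]
        _ = 2 * l := by rw [pow_two, ← mul_assoc, h1]
    have h1 := unip_pow_eq p z e he hte
    have h2 : (z : Matrix (Fin 2) (Fin 2) F) ^ (p * 2) = 1 := by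
      rw [pow_mul, h1, _root_.smul_pow, one_pow, ← pow_mul, mul_comm p 2, pow_mul, he, one_pow, one_smul]
    exact hcop (p * 2) (Nat.Coprime.mul_left hpr h2r) h2
  -- the homomorphism
  have hcomm : ∀ h : ↥RS,
      (U * (h : Matrix.SpecialLinearGroup (Fin 2) F) * U⁻¹) * Kmat δ t hδ =
        Kmat δ t hδ * (U * (h : Matrix.SpecialLinearGroup (Fin 2) F) * U⁻¹) := by
    intro h
    rw [← hU]
    have := hzcomm h
    calc U * (h : Matrix.SpecialLinearGroup (Fin 2) F) * U⁻¹ * (U * z * U⁻¹)
        = U * ((h : Matrix.SpecialLinearGroup (Fin 2) F) * z) * U⁻¹ := by group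
      _ = U * (z * (h : Matrix.SpecialLinearGroup (Fin 2) F)) * U⁻¹ := by rw [this]
      _ = U * z * U⁻¹ * (U * (h : Matrix.SpecialLinearGroup (Fin 2) F) * U⁻¹) := by group
  let fa : ↥RS → F := fun h =>
    ((U * (h : Matrix.SpecialLinearGroup (Fin 2) F) * U⁻¹ : Matrix.SpecialLinearGroup (Fin 2) F) :
      Matrix (Fin 2) (Fin 2) F) 0 0
  let fb : ↥RS → F := fun h =>
    ((U * (h : Matrix.SpecialLinearGroup (Fin 2) F) * U⁻¹ : Matrix.SpecialLinearGroup (Fin 2) F) :
      Matrix (Fin 2) (Fin 2) F) 1 0 / δ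
  have hmul : ∀ h1 h2 : ↥RS,
      fa (h1 * h2) = fa h1 * fa h2 - fb h1 * fb h2 ∧
      fb (h1 * h2) = fa h1 * fb h2 + fa h2 * fb h1 + fb h1 * fb h2 * t := by
    intro h1 h2
    obtain ⟨c1, c2⟩ := comm_Kmat δ t hδ _ (hcomm h1)
    have e : U * ((h1 * h2 : ↥RS) : Matrix.SpecialLinearGroup (Fin 2) F) * U⁻¹
        = (U * (h1 : Matrix.SpecialLinearGroup (Fin 2) F) * U⁻¹) * (U * (h2 : Matrix.SpecialLinearGroup (Fin 2) F) * U⁻¹) := by
      rw [Subgroup.coe_mul]; group
    simp only [fa, fb]
    rw [e, Matrix.SpecialLinearGroup.coe_mul]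
    simp only [Matrix.mul_apply, Fin.sum_univ_two]
    rw [c1, c2]
    constructor
    · field_simp
      ring
    · field_simp
      ring
  have hone : fa 1 = 1 ∧ fb 1 = 0 := by
    have e1 : U * ((1 : ↥RS) : Matrix.SpecialLinearGroup (Fin 2) F) * U⁻¹ = 1 := by simp
    simp only [fa, fb, e1]
    simp
  let f : ↥RS →* AlgebraicClosure F :=
    { toFun := fun h => a (fa h) + a (fb h) * l
      map_one' := by rw [hone.1, hone.2, map_one, map_zero, zero_mul, add_zero]
      map_mul' := by
        intro h1 h2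
        obtain ⟨e1, e2⟩ := hmul h1 h2
        rw [e1, e2]
        simp only [map_add, map_sub, map_mul]
        linear_combination (-(a (fb h1) * a (fb h2))) * hl }
  have hfinj : Function.Injective f := by
    rw [injective_iff_map_eq_one]
    intro h hf
    have hf' : a (fa h) + a (fb h) * l = 1 := hf
    obtain ⟨c1, c2⟩ := comm_Kmat δ t hδ _ (hcomm h)
    have hdet := sl2_det (U * (h : Matrix.SpecialLinearGroup (Fin 2) F) * U⁻¹)
    rw [c1, c2] at hdet
    have hdet' : fa h ^ 2 + fa h * fb h * t + fb h ^ 2 = 1 := by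
      simp only [fa, fb]
      field_simp
      field_simp at hdet
      linear_combination hdet
    have hdet'' : (a (fa h) + a (fb h) * l) * (a (fa h) + a (fb h) * (a t - l)) = 1 := by
      have := congrArg a hdet'
      simp only [map_add, map_mul, map_pow, map_one] at this
      linear_combination this + (-(a (fb h)) ^ 2) * hl
    rw [hf', one_mul] at hdet''
    have hb0 : a (fb h) * (l - (a t - l)) = 0 := by linear_combination hf' - hdet''
    have hlne : l - (a t - l) ≠ 0 := by
      intro h0
      apply hl2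
      linear_combination (-1 : AlgebraicClosure F) * hl + l * h0
    have hb : fb h = 0 := by
      rcases mul_eq_zero.mp hb0 with h1 | h1
      · exact hainj (by rw [h1, map_zero])
      · exact absurd h1 hlne
    have ha1 : fa h = 1 := by
      apply hainj
      rw [hb, map_zero, zero_mul, add_zero] at hf'
      rw [hf', map_one]
    -- conclude h = 1
    have hconj : U * (h : Matrix.SpecialLinearGroup (Fin 2) F) * U⁻¹ = 1 := by
      apply Subtype.ext
      have hb' : ((U * (h : Matrix.SpecialLinearGroup (Fin 2) F) * U⁻¹ : Matrix.SpecialLinearGroup (Fin 2) F) :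
          Matrix (Fin 2) (Fin 2) F) 1 0 = 0 := by
        have : fb h = ((U * (h : Matrix.SpecialLinearGroup (Fin 2) F) * U⁻¹ : Matrix.SpecialLinearGroup (Fin 2) F) :
          Matrix (Fin 2) (Fin 2) F) 1 0 / δ := rfl
        rw [this] at hb
        rcases div_eq_zero_iff.mp hb with h1 | h1
        · exact h1
        · exact absurd h1 hδ
      have ha' : ((U * (h : Matrix.SpecialLinearGroup (Fin 2) F) * U⁻¹ : Matrix.SpecialLinearGroup (Fin 2) F) :
          Matrix (Fin 2) (Fin 2) F) 0 0 = 1 := ha1
      ext i j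
      fin_cases i <;> fin_cases j
      · simpa using ha'
      · simp [c1, hb']
      · simpa using hb'
      · simp [c2, hb', ha']
    apply Subtype.ext
    have : (h : Matrix.SpecialLinearGroup (Fin 2) F) = U⁻¹ * (U * (h : Matrix.SpecialLinearGroup (Fin 2) F) * U⁻¹) * U := by group
    rw [this, hconj]
    simp
  exact isCyclic_of_subgroup_isDomain f hfinj

end Cfsg.Agent.S0262
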