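import Cfsg.Statements.S0264
import Cfsg.Agent.Helper5.SLGen
import Cfsg.Agent.Helper5.SLCard

set_option autoImplicit false
set_option linter.unusedSimpArgs false
open Cfsg

namespace Cfsg.Agent.S0264

open Matrix Matrix.SpecialLinearGroup
open scoped commutatorElement

variable {ι F : Type*} [Field F] [DecidableEq ι] [Fintype ι]

/-- The diagonal element of `GL` with entry `a` at `i` and `1` elsewhere. -/
noncomputable def dg (i : ι) (a : F) (ha : a ≠ 0) : GL ι F :=
  ⟨diagonal (fun k => if k = i then a else 1), diagonal (fun k => if k = i then a⁻¹ else 1),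
    by
      rw [diagonal_mul_diagonal, ← diagonal_one]
      congr 1
      funext k
      by_cases hk : k = i <;> simp [hk, ha],
    by
      rw [diagonal_mul_diagonal, ← diagonal_one]
      congr 1
      funext k
      by_cases hk : k = i <;> simp [hk, ha]⟩

theorem dg_mul_transvection {i j : ι} (hij : i ≠ j) (a : F) (ha : a ≠ 0) (x : F) :
    dg i a ha * toGL (SpecialLinearGroup.transvection hij x) =
      toGL (SpecialLinearGroup.transvection hij (a * x)) * dg i a ha := by
  apply Units.ext
  simp only [Units.val_mul, dg, coe_GL_coe_matrix, transvection_coe]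
  ext r s
  rw [diagonal_mul, mul_diagonal]
  simp only [Matrix.add_apply, one_apply, single_apply]
  by_cases hr : r = i
  · subst hr
    by_cases hs : s = j
    · subst hs
      simp [hij, hij.symm]
    · by_cases hrs : r = s
      · subst hrs
        simp [hij, Ne.symm hs]
      · simp [hrs, hs, Ne.symm hs, Ne.symm hrs]
  · by_cases hrs : r = s
    · subst hrs
      simp [hr, Ne.symm hr]
    · simp [hr, Ne.symm hr, hrs]

theorem transvection_mem_commutator_GL {i j : ι} (hij : i ≠ j) {a : F} (ha0 : a ≠ 0) (ha1 : a ≠ 1)
    (b : F) : toGL (SpecialLinearGroup.transvection hij b) ∈ commutator (GL ι F) := by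
  have hsub : a - 1 ≠ 0 := sub_ne_zero.2 ha1
  have key : ⁅dg i a ha0, toGL (SpecialLinearGroup.transvection hij (b / (a - 1)))⁆ =
      toGL (SpecialLinearGroup.transvection hij b) := by
    rw [commutatorElement_def, dg_mul_transvection hij a ha0, mul_assoc _ (dg i a ha0),
      mul_inv_cancel, mul_one, ← map_inv, ← map_mul, transvection_inv, ← transvection_add]
    congr 2
    field_simp
    ring
  rw [← key]
  exact Subgroup.commutator_mem_commutator (Subgroup.mem_top _) (Subgroup.mem_top _)

theorem toGL_mem_commutator_of_mem {s : SpecialLinearGroup ι F}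
    (hs : s ∈ commutator (SpecialLinearGroup ι F)) : toGL s ∈ commutator (GL ι F) := by
  have h1 : Subgroup.map (toGL : SpecialLinearGroup ι F →* GL ι F)
      (commutator (SpecialLinearGroup ι F)) ≤ commutator (GL ι F) := by
    rw [commutator_def, Subgroup.map_commutator, commutator_def]
    exact Subgroup.commutator_mono le_top le_top
  exact h1 (Subgroup.mem_map_of_mem _ hs)

/-- GL_n(F)' = SL_n(F) (as the kernel of det), for every field F and every n, except n = 2 over the field of two elements. -/
theorem result {F : Type*} [Field F] (n : ℕ) (h : n = 2 → ∃ a : F, a ≠ 0 ∧ a ≠ 1) : commutator (Matrix.GeneralLinearGroup (Fin n) F) = (Matrix.GeneralLinearGroup.det : Matrix.GeneralLinearGroup (Fin n) F →* Fˣ).ker := by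
  apply le_antisymm
  · exact Abelianization.commutator_subset_ker _
  · intro g hg
    rw [← Helper5.toGL_range_eq_ker_det] at hg
    obtain ⟨s, rfl⟩ := hg
    rcases lt_or_ge n 2 with hn | hn
    · have : Subsingleton (Fin n) := by
        rw [← Fintype.card_le_one_iff_subsingleton]
        simp
        omega
      rw [Subsingleton.elim s 1, map_one]
      exact one_mem _
    · have : Nontrivial (Fin n) := Fintype.one_lt_card_iff_nontrivial.1 (by rw [Fintype.card_fin]; omega)
      refine Helper5.SL_transvection_induction
        (fun s => toGL s ∈ commutator (GL (Fin n) F)) ?_ ?_ s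
      · intro i j hij b
        rcases eq_or_lt_of_le hn with h2 | h3
        · obtain ⟨a, ha0, ha1⟩ := h h2.symm
          exact transvection_mem_commutator_GL hij ha0 ha1 b
        · exact toGL_mem_commutator_of_mem
            (Helper5.transvection_mem_commutator_of_three_le (by rw [Fintype.card_fin]; omega) hij b)
      · intro A B hA hB
        rw [map_mul]
        exact mul_mem hA hB

end Cfsg.Agent.S0264
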