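import Cfsg.Statements.S0267
import Cfsg.Agent.Helper5.ProjLine

set_option autoImplicit false
open Cfsg

namespace Cfsg.Agent.S0267

open scoped LinearAlgebra.Projectivization MatrixGroups
open Cfsg.Agent.Helper5

theorem sl_smul_eq_pgl {F : Type*} [Field F] (g : Matrix.SpecialLinearGroup (Fin 2) F)
    (p : ℙ F (Fin 2 → F)) :
    g • p = Matrix.ProjGenLinGroup.mk (Matrix.SpecialLinearGroup.toGL g) • p := by
  conv_lhs => rw [← Projectivization.mk_rep p]
  conv_rhs => rw [← Projectivization.mk_rep p]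
  rw [Projectivization.PGL.mk_smul_mk, Projectivization.smul_mk]
  rfl

theorem exists_smul_of_three {G α : Type*} [Group G] [MulAction G α]
    (h : MulAction.IsMultiplyPretransitive G α 3) (a b c a' b' c' : α)
    (hab : a ≠ b) (hac : a ≠ c) (hbc : b ≠ c) (hab' : a' ≠ b') (hac' : a' ≠ c') (hbc' : b' ≠ c') :
    ∃ g : G, g • a = a' ∧ g • b = b' ∧ g • c = c' := by
  rw [MulAction.isMultiplyPretransitive_iff] at h
  have inj : ∀ (a b c : α), a ≠ b → a ≠ c → b ≠ c → Function.Injective ![a, b, c] := by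
    intro a b c hab hac hbc i j hij
    fin_cases i <;> fin_cases j <;> simp_all
  obtain ⟨g, hg⟩ := h ⟨![a, b, c], inj a b c hab hac hbc⟩ ⟨![a', b', c'], inj a' b' c' hab' hac' hbc'⟩
  refine ⟨g, ?_, ?_, ?_⟩
  · have := congrArg (fun f : Fin 3 ↪ α => f 0) hg
    simpa [Function.Embedding.smul_apply] using this
  · have := congrArg (fun f : Fin 3 ↪ α => f 1) hg
    simpa [Function.Embedding.smul_apply] using this
  · have := congrArg (fun f : Fin 3 ↪ α => f 2) hg
    simpa [Function.Embedding.smul_apply] using this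

theorem sl_three_transitive_of_char_two {F : Type*} [Field F] [Fintype F] (h2 : ringChar F = 2) :
    MulAction.IsMultiplyPretransitive (Matrix.SpecialLinearGroup (Fin 2) F)
      (Projectivization F (Fin 2 → F)) 3 := by
  rw [MulAction.isMultiplyPretransitive_iff]
  intro x y
  have hpgl := pgl_three_transitive (F := F)
  rw [MulAction.isMultiplyPretransitive_iff] at hpgl
  obtain ⟨g, hg⟩ := hpgl x y
  obtain ⟨M, rfl⟩ := Matrix.ProjGenLinGroup.mk_surjective g
  have hdet : (M : Matrix (Fin 2) (Fin 2) F).det ≠ 0 := Matrix.GeneralLinearGroup.det_ne_zero M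
  obtain ⟨s, hs⟩ := FiniteField.isSquare_of_char_two h2 (M : Matrix (Fin 2) (Fin 2) F).det
  have hs0 : s ≠ 0 := by
    rintro rfl
    rw [mul_zero] at hs
    exact hdet hs
  let N : Matrix.SpecialLinearGroup (Fin 2) F :=
    ⟨s⁻¹ • (M : Matrix (Fin 2) (Fin 2) F), by
      rw [Matrix.det_smul, Fintype.card_fin, hs]
      field_simp⟩
  have key : ∀ p : ℙ F (Fin 2 → F), N • p = Matrix.ProjGenLinGroup.mk M • p := by
    intro p
    conv_lhs => rw [← Projectivization.mk_rep p]
    conv_rhs => rw [← Projectivization.mk_rep p]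
    rw [Projectivization.PGL.mk_smul_mk, Projectivization.smul_mk, Projectivization.mk_eq_mk_iff']
    refine ⟨s⁻¹, ?_⟩
    change s⁻¹ • ((M : Matrix (Fin 2) (Fin 2) F).mulVec p.rep)
      = (s⁻¹ • (M : Matrix (Fin 2) (Fin 2) F)).mulVec p.rep
    rw [Matrix.smul_mulVec]
  refine ⟨N, ?_⟩
  ext i
  rw [Function.Embedding.smul_apply, key, ← Function.Embedding.smul_apply, hg]

theorem char_two_of_sl_three_transitive {F : Type*} [Field F] [Fintype F]
    (h : MulAction.IsMultiplyPretransitive (Matrix.SpecialLinearGroup (Fin 2) F)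
      (Projectivization F (Fin 2 → F)) 3) : ringChar F = 2 := by
  by_contra h2
  obtain ⟨n, hn⟩ := FiniteField.exists_nonsquare h2
  have hn0 : n ≠ 0 := by
    rintro rfl
    exact hn ⟨0, by simp⟩
  have v4 : (![1, n] : Fin 2 → F) ≠ 0 := by
    intro h
    have := congrFun h 0
    simp at this
  have h12 : Projectivization.mk F (![1, 0] : Fin 2 → F) std1_ne
      ≠ Projectivization.mk F (![0, 1] : Fin 2 → F) std2_ne := by
    rw [Ne, mk_eq_mk_iff_dt]
    simp [dt]
  have h13 : Projectivization.mk F (![1, 0] : Fin 2 → F) std1_ne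
      ≠ Projectivization.mk F (![1, 1] : Fin 2 → F) std3_ne := by
    rw [Ne, mk_eq_mk_iff_dt]
    simp [dt]
  have h23 : Projectivization.mk F (![0, 1] : Fin 2 → F) std2_ne
      ≠ Projectivization.mk F (![1, 1] : Fin 2 → F) std3_ne := by
    rw [Ne, mk_eq_mk_iff_dt]
    simp [dt]
  have h14 : Projectivization.mk F (![1, 0] : Fin 2 → F) std1_ne
      ≠ Projectivization.mk F (![1, n] : Fin 2 → F) v4 := by
    rw [Ne, mk_eq_mk_iff_dt]
    simpa [dt] using hn0
  have h24 : Projectivization.mk F (![0, 1] : Fin 2 → F) std2_ne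
      ≠ Projectivization.mk F (![1, n] : Fin 2 → F) v4 := by
    rw [Ne, mk_eq_mk_iff_dt]
    simp [dt]
  obtain ⟨M, e1, e2, e3⟩ := exists_smul_of_three h _ _ _ _ _ _ h12 h13 h23 h12 h14 h24
  rw [Projectivization.smul_mk, Projectivization.mk_eq_mk_iff'] at e1 e2 e3
  obtain ⟨α, hα⟩ := e1
  obtain ⟨β, hβ⟩ := e2
  obtain ⟨γ, hγ⟩ := e3
  have a0 := congrFun hα 0
  have a1 := congrFun hα 1
  have b0 := congrFun hβ 0
  have b1 := congrFun hβ 1
  have c0 := congrFun hγ 0
  have c1 := congrFun hγ 1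
  have sm0 : ∀ v : Fin 2 → F, (M • v) 0 = (M : Matrix (Fin 2) (Fin 2) F) 0 0 * v 0
      + (M : Matrix (Fin 2) (Fin 2) F) 0 1 * v 1 := by
    intro v
    change (Matrix.mulVec _ _) 0 = _
    simp [Matrix.mulVec, dotProduct, Fin.sum_univ_two]
  have sm1 : ∀ v : Fin 2 → F, (M • v) 1 = (M : Matrix (Fin 2) (Fin 2) F) 1 0 * v 0
      + (M : Matrix (Fin 2) (Fin 2) F) 1 1 * v 1 := by
    intro v
    change (Matrix.mulVec _ _) 1 = _
    simp [Matrix.mulVec, dotProduct, Fin.sum_univ_two]
  rw [sm0] at a0 b0 c0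
  rw [sm1] at a1 b1 c1
  simp at a0 a1 b0 b1 c0 c1
  have hdet := M.det_coe
  rw [Matrix.det_fin_two] at hdet
  rw [← a1, ← b0] at hdet
  rw [← b0] at c0
  rw [← a1] at c1
  simp at c0 c1 hdet
  rw [← c0, ← c1] at hdet
  have hγ0 : γ ≠ 0 := by
    rintro rfl
    simp at hdet
  apply hn
  refine ⟨γ⁻¹, ?_⟩
  field_simp
  linear_combination hdet

/-- SL_2(q) is 3-transitive on the q+1 points of the projective line if and only if q is even. -/
theorem result {F : Type*} [Field F] [Fintype F] : MulAction.IsMultiplyPretransitive (Matrix.SpecialLinearGroup (Fin 2) F) (Projectivization F (Fin 2 → F)) 3 ↔ ringChar F = 2 := by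
  exact ⟨char_two_of_sl_three_transitive, sl_three_transitive_of_char_two⟩

end Cfsg.Agent.S0267
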