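import Cfsg.Statements.S0268
import Mathlib

set_option autoImplicit false
open Cfsg

namespace Cfsg.Agent.S0268

theorem two_ne_zero_of_odd_card {F : Type*} [Field F] [Fintype F] (hF : Odd (Fintype.card F)) :
    (2 : F) ≠ 0 := by
  intro h2
  have hchar : ringChar F = 2 := by
    have : (ringChar F) ∣ 2 := by
      have := (ringChar.spec F 2).1 (by exact_mod_cast h2)
      exact this
    rcases (Nat.dvd_prime Nat.prime_two).1 this with h | h
    · exfalso
      have := CharP.ringChar_ne_one (R := F)
      exact this h
    · exact h
  have := FiniteField.even_card_of_char_two hchar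
  rcases hF with ⟨k, hk⟩
  omega

/-- For q odd, -1 is the unique involution of SL_2(q). -/
theorem result {F : Type*} [Field F] [Fintype F] (hF : Odd (Fintype.card F)) (g : Matrix.SpecialLinearGroup (Fin 2) F) (h1 : g ≠ 1) (h2 : g * g = 1) : (g : Matrix (Fin 2) (Fin 2) F) = -1 := by
  have h2ne := two_ne_zero_of_odd_card hF
  have hdet : (g : Matrix (Fin 2) (Fin 2) F).det = 1 := g.2
  rw [Matrix.det_fin_two] at hdet
  have hsq : (g : Matrix (Fin 2) (Fin 2) F) * (g : Matrix (Fin 2) (Fin 2) F) = 1 := by
    have := congrArg (fun x : Matrix.SpecialLinearGroup (Fin 2) F => (x : Matrix (Fin 2) (Fin 2) F)) h2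
    simpa using this
  set M : Matrix (Fin 2) (Fin 2) F := (g : Matrix (Fin 2) (Fin 2) F) with hM
  have e00 := congrFun (congrFun hsq 0) 0
  have e01 := congrFun (congrFun hsq 0) 1
  have e10 := congrFun (congrFun hsq 1) 0
  have e11 := congrFun (congrFun hsq 1) 1
  simp [Matrix.mul_apply, Fin.sum_univ_two] at e00 e01 e10 e11
  by_cases hs : M 0 0 + M 1 1 = 0
  · exfalso
    have hd : M 1 1 = - M 0 0 := by linear_combination hs
    rw [hd] at hdet
    apply h2ne
    linear_combination (-1 : F) * hdet - e00
  · have hb : M 0 1 = 0 := by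
      have : M 0 1 * (M 0 0 + M 1 1) = 0 := by linear_combination e01
      rcases mul_eq_zero.1 this with h | h
      · exact h
      · exact absurd h hs
    have hc : M 1 0 = 0 := by
      have : M 1 0 * (M 0 0 + M 1 1) = 0 := by linear_combination e10
      rcases mul_eq_zero.1 this with h | h
      · exact h
      · exact absurd h hs
    rw [hb, hc] at hdet e00 e11
    simp at hdet e00 e11
    have had : M 0 0 = M 1 1 := by
      have : M 0 0 * (M 0 0 * M 1 1) = M 0 0 := by rw [hdet, mul_one]
      have h3 : M 0 0 * M 0 0 * M 1 1 = M 0 0 := by linear_combination this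
      rw [e00, one_mul] at h3
      exact h3.symm
    have ha : M 0 0 = 1 ∨ M 0 0 = -1 := by
      have : (M 0 0 - 1) * (M 0 0 + 1) = 0 := by linear_combination e00
      rcases mul_eq_zero.1 this with h | h
      · left; linear_combination h
      · right; linear_combination h
    rcases ha with ha | ha
    · exfalso
      apply h1
      apply Subtype.ext
      ext i j
      fin_cases i <;> fin_cases j <;> simp [← hM, ha, hb, hc, ← had]
    · ext i j
      fin_cases i <;> fin_cases j <;> simp [ha, hb, hc, ← had]

end Cfsg.Agent.S0268
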