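import Cfsg.Statements.S0272
import Cfsg.Agent.Helper5.GL2Sylow

set_option autoImplicit false
open Cfsg

namespace Cfsg.Agent.S0272

/-- The normaliser in GL_2(q) of a Sylow p-subgroup, p the characteristic, has order q (q-1)^2. -/
theorem result {F : Type*} [Field F] [Fintype F] {q : ℕ} (hF : Fintype.card F = q) (p : ℕ) [Fact p.Prime] [CharP F p] (P : Sylow p (Matrix.GeneralLinearGroup (Fin 2) F)) : Nat.card (Subgroup.normalizer ((P : Subgroup (Matrix.GeneralLinearGroup (Fin 2) F)) : Set (Matrix.GeneralLinearGroup (Fin 2) F))) = q * (q - 1) ^ 2 := by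
  rw [← hF]
  have h1 := Subgroup.card_mul_index
    (Subgroup.normalizer ((P : Subgroup (Matrix.GeneralLinearGroup (Fin 2) F)) :
      Set (Matrix.GeneralLinearGroup (Fin 2) F)))
  have h2 := Sylow.card_eq_index_normalizer P
  rw [Sylow.coe_coe, ← h2, Helper5.card_sylow_GL2_eq p, Matrix.card_GL_field] at h1
  simp only [Fin.prod_univ_two, Fin.val_zero, Fin.val_one, pow_zero, pow_one] at h1
  have hq : 1 < Fintype.card F := Fintype.one_lt_card
  obtain ⟨k, hk⟩ : ∃ k, Fintype.card F = k + 2 := ⟨Fintype.card F - 2, by omega⟩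
  rw [Sylow.coe_coe]
  rw [hk] at h1 ⊢
  have e1 : (k + 2) ^ 2 - 1 = (k + 1) * (k + 3) := by
    have : (k + 2) ^ 2 = (k + 1) * (k + 3) + 1 := by ring
    omega
  have e2 : (k + 2) ^ 2 - (k + 2) = (k + 2) * (k + 1) := by
    have : (k + 2) ^ 2 = (k + 2) * (k + 1) + (k + 2) := by ring
    omega
  have e3 : k + 2 - 1 = k + 1 := by omega
  rw [e1, e2] at h1
  rw [e3]
  have hpos : 0 < k + 2 + 1 := by positivity
  apply Nat.eq_of_mul_eq_mul_right hpos
  rw [h1]; ring

end Cfsg.Agent.S0272
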