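import Cfsg.Statements.S0273
import Cfsg.Agent.Helper5.GL2Sylow

set_option autoImplicit false
open Cfsg

namespace Cfsg.Agent.S0273

/-- Conjugation gives a bijection between centralisers of conjugate elements. -/
theorem card_centralizer_conj {G : Type*} [Group G] (g u : G) :
    Nat.card (Subgroup.centralizer ({g * u * g⁻¹} : Set G)) =
      Nat.card (Subgroup.centralizer ({u} : Set G)) := by
  refine Nat.card_congr
    { toFun := fun x => ⟨g⁻¹ * x.1 * g, ?_⟩
      invFun := fun y => ⟨g * y.1 * g⁻¹, ?_⟩
      left_inv := fun x => by apply Subtype.ext; simp [mul_assoc]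
      right_inv := fun y => by apply Subtype.ext; simp [mul_assoc] }
  · have hx := x.2
    rw [Subgroup.mem_centralizer_iff] at hx ⊢
    simp only [Set.mem_singleton_iff, forall_eq] at hx ⊢
    have : u * (g⁻¹ * x.1 * g) = g⁻¹ * ((g * u * g⁻¹) * x.1) * g := by group
    rw [this, hx]; group
  · have hy := y.2
    rw [Subgroup.mem_centralizer_iff] at hy ⊢
    simp only [Set.mem_singleton_iff, forall_eq] at hy ⊢
    have : g * u * g⁻¹ * (g * y.1 * g⁻¹) = g * (u * y.1) * g⁻¹ := by group
    rw [this, hy]; group

/-- In GL_2(q) the centraliser of a non-trivial element of a Sylow p-subgroup (p the characteristic) has order q (q-1): the Sylow subgroup times the scalars. -/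
theorem result {F : Type*} [Field F] [Fintype F] {q : ℕ} (hF : Fintype.card F = q) (p : ℕ) [Fact p.Prime] [CharP F p] (P : Sylow p (Matrix.GeneralLinearGroup (Fin 2) F)) (a : Matrix.GeneralLinearGroup (Fin 2) F) (ha : a ∈ P) (ha1 : a ≠ 1) : Nat.card (Subgroup.centralizer ({a} : Set (Matrix.GeneralLinearGroup (Fin 2) F))) = q * (q - 1) := by
  rw [← hF]
  obtain ⟨g, rfl⟩ := Helper5.exists_smul_sylowU p P
  obtain ⟨b, rfl⟩ := (Helper5.mem_smul_sylowU_iff p g a).1 ha
  have hb0 : b ≠ 0 := by
    rintro rfl
    apply ha1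
    rw [Helper5.uGL_zero]
    group
  rw [card_centralizer_conj, Helper5.card_centralizer_uGL hb0]

end Cfsg.Agent.S0273
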