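import Cfsg.Statements.S0274
import Mathlib
import Cfsg.Agent.Helper41.DkUnip
import Cfsg.Agent.Helper99.DicksonLiteB

set_option autoImplicit false
open Cfsg

namespace Cfsg.Agent.S0274

open Cfsg.Agent.Helper41

/-- Dickson's Theorem for SL_2: if p is odd and H is a subgroup of SL_2(q), q a power of p, with more than one Sylow p-subgroup, then H contains a copy of SL_2(p). -/
theorem result {F : Type*} [Field F] [Fintype F] (p : ℕ) [Fact p.Prime] [CharP F p] (hp : p ≠ 2) (H : Subgroup (Matrix.SpecialLinearGroup (Fin 2) F)) (hH : 1 < Nat.card (Sylow p H)) : ∃ K : Subgroup (Matrix.SpecialLinearGroup (Fin 2) F), K ≤ H ∧ Nonempty (K ≃* Matrix.SpecialLinearGroup (Fin 2) (ZMod p)) := by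
  classical
  have hnt : Nontrivial (Sylow p H) := Finite.one_lt_card_iff_nontrivial.mp hH
  obtain ⟨P1, P2, hne⟩ := exists_pair_ne (Sylow p H)
  -- two non-commuting elements
  have hex : ∃ a ∈ (P1 : Subgroup H), ∃ b ∈ (P2 : Subgroup H), a * b ≠ b * a := by
    by_contra hcon
    push Not at hcon
    apply hne
    have hle : (P1 : Subgroup H) ≤ Subgroup.normalizer ((P2 : Subgroup H) : Set H) := by
      intro a ha
      rw [Subgroup.mem_normalizer_iff]
      intro b
      constructor
      · intro hb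
        have := hcon a ha b hb
        rw [this, mul_inv_cancel_right]
        exact hb
      · intro hb
        have h1 := hcon a ha _ hb
        have h2 : a * b = a * b * a⁻¹ * a := by group
        have h3 : b = a * b * a⁻¹ := by
          apply mul_left_cancel (a := a)
          rw [h1, inv_mul_cancel_right]
        rw [h3]
        exact hb
    have hpg : IsPGroup p ((P1 : Subgroup H) ⊔ (P2 : Subgroup H) : Subgroup H) :=
      IsPGroup.to_sup_of_normal_right' P1.isPGroup' P2.isPGroup' hle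
    have e1 : (P1 : Subgroup H) ⊔ (P2 : Subgroup H) = P1 := P1.is_maximal' hpg le_sup_left
    have e2 : (P1 : Subgroup H) ⊔ (P2 : Subgroup H) = P2 := P2.is_maximal' hpg le_sup_right
    exact Sylow.ext (e1.symm.trans e2)
  obtain ⟨a, ha, b, hb, hab⟩ := hex
  obtain ⟨k1, hk1⟩ := P1.isPGroup' ⟨a, ha⟩
  obtain ⟨k2, hk2⟩ := P2.isPGroup' ⟨b, hb⟩
  have ha1 : (a : Matrix.SpecialLinearGroup (Fin 2) F) ^ (p ^ k1) = 1 := by
    have := congrArg (fun x : (P1 : Subgroup H) => ((x : H) : Matrix.SpecialLinearGroup (Fin 2) F)) hk1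
    simpa using this
  have hb1 : (b : Matrix.SpecialLinearGroup (Fin 2) F) ^ (p ^ k2) = 1 := by
    have := congrArg (fun x : (P2 : Subgroup H) => ((x : H) : Matrix.SpecialLinearGroup (Fin 2) F)) hk2
    simpa using this
  have hta := trace_eq_two_of_pow_eq_one p (a : Matrix.SpecialLinearGroup (Fin 2) F) k1 ha1
  have htb := trace_eq_two_of_pow_eq_one p (b : Matrix.SpecialLinearGroup (Fin 2) F) k2 hb1
  have hab' : (a : Matrix.SpecialLinearGroup (Fin 2) F) * b ≠ b * a := by
    intro h
    apply hab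
    exact Subtype.ext h
  obtain ⟨Q, hQ, lam, hlam, hX, hY⟩ := exists_conjGL_unip_pair _ _ hta htb hab'
  haveI : Finite F := Finite.of_fintype F
  obtain ⟨K', hK', ⟨e'⟩⟩ := Cfsg.Agent.Helper99.dl_exists_sl2_field p hp lam hlam _ _ hX hY
  obtain ⟨K, hK, ⟨e⟩⟩ := Cfsg.Agent.Helper99.dl_transfer (conjGL Q hQ) (conjGL_injective Q hQ)
    (a : Matrix.SpecialLinearGroup (Fin 2) F) b K' hK'
  refine ⟨K, ?_, ⟨e.trans e'⟩⟩
  refine hK.trans ?_
  rw [Subgroup.closure_le]
  rintro x (rfl | rfl)
  · exact a.2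
  · exact b.2

end Cfsg.Agent.S0274
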