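import Cfsg.Statements.S0275
import Cfsg.Agent.S0261
import Cfsg.Agent.S0274
import Cfsg.Agent.Helper5.QuatRecog

set_option autoImplicit false
open Cfsg

namespace Cfsg.Agent.S0275

open Cfsg.Agent.Helper5 Matrix
open scoped Pointwise

/-- If p is odd and H is a subgroup of SL_2(q), q a power of p, with more than one Sylow p-subgroup, then the Sylow 2-subgroups of H are generalised quaternion. -/
theorem result {F : Type*} [Field F] [Fintype F] (p : ℕ) [Fact p.Prime] [CharP F p] (hp : p ≠ 2) (H : Subgroup (Matrix.SpecialLinearGroup (Fin 2) F)) (hH : 1 < Nat.card (Sylow p H)) (S : Sylow 2 H) : ∃ k : ℕ, 1 ≤ k ∧ Nonempty ((S : Subgroup H) ≃* QuaternionGroup (2 ^ k)) := by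
  classical
  have hpp : p.Prime := Fact.out
  have h2 : (2 : F) ≠ 0 := by
    intro h
    have h' : ((2 : ℕ) : F) = 0 := by exact_mod_cast h
    have hd : p ∣ 2 := (CharP.cast_eq_zero_iff F p 2).1 h'
    exact hp ((Nat.prime_dvd_prime_iff_eq hpp Nat.prime_two).1 hd)
  obtain ⟨K, hKH, ⟨e⟩⟩ := Cfsg.Agent.S0274.result p hp H hH
  have hodd : Odd (Fintype.card (ZMod p)) := by
    rw [ZMod.card]
    exact hpp.odd_of_ne_two hp
  obtain ⟨P0⟩ : Nonempty (Sylow 2 (Matrix.SpecialLinearGroup (Fin 2) (ZMod p))) := inferInstance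
  obtain ⟨k0, hk0, ⟨e0⟩⟩ := Cfsg.Agent.S0261.result hodd P0
  set x0 := e0.symm (QuaternionGroup.a (1 : ZMod (2 * 2 ^ k0))) with hx0
  set y0 := e0.symm (QuaternionGroup.xa (0 : ZMod (2 * 2 ^ k0))) with hy0
  have hxy0 : x0 * y0 ≠ y0 * x0 := by
    intro h
    apply quaternion_not_comm k0 hk0
    have := congrArg e0 h
    rw [map_mul, map_mul, hx0, hy0, MulEquiv.apply_symm_apply, MulEquiv.apply_symm_apply] at this
    exact this
  let ψ : Matrix.SpecialLinearGroup (Fin 2) (ZMod p) →* H :=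
    (Subgroup.inclusion hKH).comp e.symm.toMonoidHom
  have hψ : Function.Injective ψ :=
    (Subgroup.inclusion_injective hKH).comp e.symm.injective
  have hR : IsPGroup 2 ((P0 : Subgroup (Matrix.SpecialLinearGroup (Fin 2) (ZMod p))).map ψ) :=
    P0.isPGroup'.map ψ
  obtain ⟨Q, hQle⟩ := hR.exists_le_sylow
  obtain ⟨g, hg⟩ := MulAction.exists_smul_eq H Q S
  have hmem : ∀ x ∈ (P0 : Subgroup (Matrix.SpecialLinearGroup (Fin 2) (ZMod p))),
      g * ψ x * g⁻¹ ∈ (S : Subgroup H) := by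
    intro x hx
    rw [← hg]
    change g * ψ x * g⁻¹ ∈ MulAut.conj g • (Q : Subgroup H)
    have := Subgroup.smul_mem_pointwise_smul (ψ x) (MulAut.conj g) (Q : Subgroup _)
      (hQle (Subgroup.mem_map_of_mem ψ hx))
    exact this
  have hnc : ¬ ∀ u v : (S : Subgroup H), u * v = v * u := by
    intro hc
    have h := congrArg Subtype.val (hc ⟨g * ψ x0.1 * g⁻¹, hmem _ x0.2⟩ ⟨g * ψ y0.1 * g⁻¹, hmem _ y0.2⟩)
    change g * ψ x0.1 * g⁻¹ * (g * ψ y0.1 * g⁻¹) = g * ψ y0.1 * g⁻¹ * (g * ψ x0.1 * g⁻¹) at h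
    apply hxy0
    apply Subtype.ext
    apply hψ
    change ψ (x0.1 * y0.1) = ψ (y0.1 * x0.1)
    rw [map_mul, map_mul]
    have h1 : ψ x0.1 * ψ y0.1 = g⁻¹ * (g * ψ x0.1 * g⁻¹ * (g * ψ y0.1 * g⁻¹)) * g := by group
    rw [h1, h]
    group
  have hinv : ∀ s t : (S : Subgroup H), s ^ 2 = 1 → t ^ 2 = 1 → s ≠ 1 → t ≠ 1 → s = t := by
    intro s t hs ht hs1 ht1
    have key : ∀ r : (S : Subgroup H), r ^ 2 = 1 → r ≠ 1 →
        (((r : H) : Matrix.SpecialLinearGroup (Fin 2) F) : Matrix (Fin 2) (Fin 2) F) = -1 := by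
      intro r hr hr1
      have h3 : ((r : H) : Matrix.SpecialLinearGroup (Fin 2) F) ^ 2 = 1 := by
        have := congrArg (fun y : (S : Subgroup H) =>
          ((y : H) : Matrix.SpecialLinearGroup (Fin 2) F)) hr
        exact this
      rcases Cfsg.Agent.S0261.sl2_involution h2 _ h3 with h | h
      · exact absurd (Subtype.ext (Subtype.ext h)) hr1
      · exact h
    exact Subtype.ext (Subtype.ext (Subtype.ext ((key s hs hs1).trans (key t ht ht1).symm)))
  exact quat_of_unique_involution S.isPGroup' hinv hnc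

end Cfsg.Agent.S0275
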