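import Cfsg.Statements.S0276
import Cfsg.Agent.Helper5.SLCard
import Cfsg.Agent.Helper41.SL2

set_option autoImplicit false
set_option linter.unusedSimpArgs false
open Cfsg

namespace Cfsg.Agent.S0276

open Cfsg.Agent

theorem two_ne_zero_of_odd_card' {F : Type*} [Field F] [Fintype F] (hF : Odd (Fintype.card F)) :
    (2 : F) ≠ 0 := by
  intro h2
  have hchar : ringChar F = 2 := by
    have : (ringChar F) ∣ 2 := by
      have := (ringChar.spec F 2).1 (by exact_mod_cast h2)
      exact this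
    rcases (Nat.dvd_prime Nat.prime_two).1 this with h | h
    · exfalso
      have := CharP.ringChar_ne_one (R := F)
      exact this h
    · exact h
  have := FiniteField.even_card_of_char_two hchar
  rcases hF with ⟨k, hk⟩
  omega

/-- A scalar matrix of determinant one squares to one. -/
theorem scalar_sq {F : Type*} [Field F] (M : Matrix (Fin 2) (Fin 2) F) (hdet : M.det = 1) (c : F)
    (hM : M = c • (1 : Matrix (Fin 2) (Fin 2) F)) : M * M = 1 := by
  subst hM
  have hc : c = 1 ∨ c = -1 := by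
    simpa [Matrix.det_fin_two] using hdet
  rcases hc with rfl | rfl <;> simp

/-- The main matrix computation: no element of order 8 in `SL_2(F)` unless 2 is a square. -/
theorem sq_eq_of_pow_four {F : Type*} [Field F] (h2 : (2 : F) ≠ 0) (hsq : ¬ IsSquare (2 : F))
    (A : Matrix.SpecialLinearGroup (Fin 2) F)
    (h : (A : Matrix (Fin 2) (Fin 2) F) ^ 4 = 1 ∨ (A : Matrix (Fin 2) (Fin 2) F) ^ 4 = -1) :
    (A : Matrix (Fin 2) (Fin 2) F) ^ 2 = 1 ∨ (A : Matrix (Fin 2) (Fin 2) F) ^ 2 = -1 := by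
  set M : Matrix (Fin 2) (Fin 2) F := (A : Matrix (Fin 2) (Fin 2) F) with hMdef
  set t : F := M.trace with htdef
  have hCH : M * M = t • M - 1 := Helper41.sl2_sq A
  have hdet : M.det = 1 := A.2
  have h4 : M ^ 4 = (t ^ 3 - 2 * t) • M + (1 - t ^ 2) • (1 : Matrix (Fin 2) (Fin 2) F) := by
    have e0 : M ^ 4 = (M * M) * (M * M) := by
      rw [← pow_two, ← pow_two, ← pow_mul]
    rw [e0, hCH]
    have e : (t • M - 1) * (t • M - 1) = (t * t) • (M * M) - (2 * t) • M + 1 := by
      simp only [mul_sub, sub_mul, smul_mul_assoc, mul_smul_comm, smul_smul, mul_one, one_mul]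
      module
    rw [e, hCH]
    module
  have ht2 : t ^ 2 - 2 ≠ 0 := by
    intro h0
    apply hsq
    exact ⟨t, by linear_combination -h0⟩
  rw [pow_two]
  rcases h with h | h
  · -- M^4 = 1
    rw [h4] at h
    by_cases ht : t = 0
    · right
      rw [hCH, ht, zero_smul, zero_sub]
    · left
      have h5 : (t * (t ^ 2 - 2)) • M = (t ^ 2) • (1 : Matrix (Fin 2) (Fin 2) F) := by
        have : (t ^ 3 - 2 * t) • M = (1 : Matrix (Fin 2) (Fin 2) F) - (1 - t ^ 2) • (1 : Matrix (Fin 2) (Fin 2) F) :=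
          eq_sub_of_add_eq h
        rw [show t * (t ^ 2 - 2) = t ^ 3 - 2 * t by ring, this]
        module
      have hne : t * (t ^ 2 - 2) ≠ 0 := mul_ne_zero ht ht2
      have h6 : M = ((t * (t ^ 2 - 2))⁻¹ * t ^ 2) • (1 : Matrix (Fin 2) (Fin 2) F) := by
        rw [← smul_smul, ← h5, smul_smul, inv_mul_cancel₀ hne, one_smul]
      exact scalar_sq M hdet _ h6
  · -- M^4 = -1
    exfalso
    rw [h4] at h
    have h5 : (t * (t ^ 2 - 2)) • M = (t ^ 2 - 2) • (1 : Matrix (Fin 2) (Fin 2) F) := by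
      have : (t ^ 3 - 2 * t) • M = -(1 : Matrix (Fin 2) (Fin 2) F) - (1 - t ^ 2) • (1 : Matrix (Fin 2) (Fin 2) F) :=
        eq_sub_of_add_eq h
      rw [show t * (t ^ 2 - 2) = t ^ 3 - 2 * t by ring, this]
      module
    have ht : t ≠ 0 := by
      intro ht
      rw [ht, zero_mul, zero_smul] at h5
      have h6 := congrArg (fun N : Matrix (Fin 2) (Fin 2) F => N 0 0) h5
      simp at h6
      exact h2 h6
    have hne : t * (t ^ 2 - 2) ≠ 0 := mul_ne_zero ht ht2
    have h6 : M = ((t * (t ^ 2 - 2))⁻¹ * (t ^ 2 - 2)) • (1 : Matrix (Fin 2) (Fin 2) F) := by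
      rw [← smul_smul, ← h5, smul_smul, inv_mul_cancel₀ hne, one_smul]
    have h7 : M * M = 1 := scalar_sq M hdet _ h6
    have h8 : M ^ 4 = 1 := by
      have e0 : M ^ 4 = (M * M) * (M * M) := by
        rw [← pow_two, ← pow_two, ← pow_mul]
      rw [e0, h7, one_mul]
    rw [← h4, h8] at h
    have h9 := congrArg (fun N : Matrix (Fin 2) (Fin 2) F => N 0 0) h
    simp at h9
    apply h2
    linear_combination h9

theorem card_sylow_two {F : Type*} [Field F] [Fintype F] {q : ℕ} (hF : Fintype.card F = q)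
    (hq : q % 8 = 3 ∨ q % 8 = 5) (h2 : (2 : F) ≠ 0)
    (P : Sylow 2 (Matrix.ProjectiveSpecialLinearGroup (Fin 2) F)) : Nat.card P = 4 := by
  have hN := Helper5.card_PSL2_mul (F := F)
  rw [Helper5.card_center_SL2 h2, hF] at hN
  set N := Nat.card (Matrix.ProjectiveSpecialLinearGroup (Fin 2) F) with hNdef
  obtain ⟨r, hr, hodd⟩ : ∃ r, N = 4 * r ∧ Odd r := by
    rcases hq with hq | hq
    · obtain ⟨m, rfl⟩ : ∃ m, q = 8 * m + 3 := ⟨q / 8, by omega⟩
      have e : (8 * m + 3) ^ 2 - 1 = 8 * ((4 * m + 1) * (2 * m + 1)) := by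
        have : (8 * m + 3) ^ 2 = 8 * ((4 * m + 1) * (2 * m + 1)) + 1 := by ring
        omega
      rw [e] at hN
      refine ⟨(8 * m + 3) * ((4 * m + 1) * (2 * m + 1)), ?_, ?_⟩
      · have : N * 2 = 8 * ((8 * m + 3) * ((4 * m + 1) * (2 * m + 1))) := by rw [hN]; ring
        omega
      · exact Odd.mul ⟨4 * m + 1, by ring⟩ (Odd.mul ⟨2 * m, by ring⟩ ⟨m, by ring⟩)
    · obtain ⟨m, rfl⟩ : ∃ m, q = 8 * m + 5 := ⟨q / 8, by omega⟩
      have e : (8 * m + 5) ^ 2 - 1 = 8 * ((2 * m + 1) * (4 * m + 3)) := by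
        have : (8 * m + 5) ^ 2 = 8 * ((2 * m + 1) * (4 * m + 3)) + 1 := by ring
        omega
      rw [e] at hN
      refine ⟨(8 * m + 5) * ((2 * m + 1) * (4 * m + 3)), ?_, ?_⟩
      · have : N * 2 = 8 * ((8 * m + 5) * ((2 * m + 1) * (4 * m + 3))) := by rw [hN]; ring
        omega
      · exact Odd.mul ⟨4 * m + 2, by ring⟩ (Odd.mul ⟨m, by ring⟩ ⟨2 * m + 1, by ring⟩)
  have hr2 : ¬ 2 ∣ r := by
    rcases hodd with ⟨k, hk⟩
    omega
  have hr0 : r ≠ 0 := by
    rintro rfl
    exact hr2 (dvd_zero 2)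
  rw [Sylow.card_eq_multiplicity, ← hNdef, hr, Nat.factorization_mul (by norm_num) hr0]
  simp only [Finsupp.coe_add, Pi.add_apply]
  rw [Nat.factorization_eq_zero_of_not_dvd hr2, add_zero]
  have : (4 : ℕ) = 2 ^ 2 := by norm_num
  rw [this, Nat.Prime.factorization_pow Nat.prime_two]
  simp

/-- For q = 3 or 5 mod 8 the Sylow 2-subgroups of PSL_2(q) are elementary abelian of order 4. -/
theorem result {F : Type*} [Field F] [Fintype F] {q : ℕ} (hF : Fintype.card F = q) (hq : q % 8 = 3 ∨ q % 8 = 5) (P : Sylow 2 (Matrix.ProjectiveSpecialLinearGroup (Fin 2) F)) : IsKleinFour (P : Subgroup (Matrix.ProjectiveSpecialLinearGroup (Fin 2) F)) := by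
  have hodd : Odd (Fintype.card F) := by
    rw [hF]
    rw [Nat.odd_iff]
    omega
  have h2 : (2 : F) ≠ 0 := two_ne_zero_of_odd_card' hodd
  have hsq : ¬ IsSquare (2 : F) := by
    rw [FiniteField.isSquare_two_iff, hF]
    omega
  have hcard : Nat.card (P : Subgroup (Matrix.ProjectiveSpecialLinearGroup (Fin 2) F)) = 4 :=
    card_sylow_two hF hq h2 P
  have hpow : ∀ x : (P : Subgroup (Matrix.ProjectiveSpecialLinearGroup (Fin 2) F)), x ^ 2 = 1 := by
    intro x
    have hx4 : x ^ 4 = 1 := by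
      rw [← hcard]
      exact pow_card_eq_one'
    obtain ⟨A, hA⟩ := Helper41.pmk_surjective (x : Matrix.ProjectiveSpecialLinearGroup (Fin 2) F)
    have hx4' : Helper41.pmk A ^ 4 = 1 := by
      rw [hA]
      exact_mod_cast congrArg Subtype.val hx4
    rw [Helper41.pmk_pow_eq_one_iff] at hx4'
    have h5 := sq_eq_of_pow_four h2 hsq A hx4'
    rw [← Helper41.pmk_pow_eq_one_iff, hA] at h5
    apply Subtype.ext
    exact_mod_cast h5
  refine ⟨hcard, ?_⟩
  have hdvd : Monoid.exponent (P : Subgroup (Matrix.ProjectiveSpecialLinearGroup (Fin 2) F)) ∣ 2 :=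
    Monoid.exponent_dvd_of_forall_pow_eq_one hpow
  rcases (Nat.dvd_prime Nat.prime_two).1 hdvd with h | h
  · exfalso
    rw [Monoid.exp_eq_one_iff] at h
    have := Nat.card_of_subsingleton (1 : (P : Subgroup (Matrix.ProjectiveSpecialLinearGroup (Fin 2) F)))
    omega
  · exact h

end Cfsg.Agent.S0276
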