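import Cfsg.Statements.S0281
import Cfsg.Agent.Helper36.SU2

set_option autoImplicit false
open Cfsg

namespace Cfsg.Agent.S0281

open Cfsg.Agent.Helper36 in
/-- SU_2(q) is isomorphic to SL_2(q). -/
theorem result {F K : Type*} [Field F] [Fintype F] [Field K] [Fintype K] {q : ℕ} (hF : Fintype.card F = q ^ 2) (hK : Fintype.card K = q) : Nonempty (Cfsg.SU 2 F q ≃* Matrix.SpecialLinearGroup (Fin 2) K) := by
  classical
  obtain ⟨σ, P, Pinv, l, hσq, hσ, hPP, hPP', hl0, hJP⟩ := exists_SU2_conj hF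
  obtain ⟨ι, hι⟩ := exists_subfield_embedding hF hK
  have hσι : ∀ k, σ (ι k) = ι k := by
    intro k
    rw [hσq, ← map_pow, ← hK, FiniteField.pow_card]
  have hJJ : J2 F * (- J2 F) = 1 := J2_mul_neg
  have hJJ' : (- J2 F) * J2 F = 1 := mul_eq_one_comm.1 hJJ
  have hmapσι : ∀ A : Matrix (Fin 2) (Fin 2) K, (A.map ι).map σ = A.map ι := by
    intro A
    ext i j
    simp [hσι]
  have hPσ : P.map σ * Pinv.map σ = 1 := by
    rw [← Matrix.map_mul, hPP]
    exact Matrix.map_one _ (map_zero σ) (map_one σ)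
  have hPσ' : Pinv.map σ * P.map σ = 1 := mul_eq_one_comm.1 hPσ
  have hPinvσ : Pinv * J2 F = l • Pinv.map σ := by
    have h : Pinv * (J2 F * P.map σ) * Pinv.map σ = Pinv * (l • P) * Pinv.map σ := by rw [hJP]
    rw [Matrix.mul_assoc, Matrix.mul_assoc, hPσ, Matrix.mul_one, Matrix.mul_smul,
      Matrix.smul_mul, hPP', Matrix.one_mul] at h
    exact h
  have hdetP : P.det * Pinv.det = 1 := by rw [← Matrix.det_mul, hPP, Matrix.det_one]
  have hdet : ∀ A : Matrix.SpecialLinearGroup (Fin 2) K,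
      (P * (A : Matrix (Fin 2) (Fin 2) K).map ι * Pinv).det = 1 := by
    intro A
    have h1 : ((A : Matrix (Fin 2) (Fin 2) K).map ι).det = 1 := by
      have := (RingHom.map_det ι (A : Matrix (Fin 2) (Fin 2) K)).symm
      rw [RingHom.mapMatrix_apply] at this
      rw [this, A.2, map_one]
    rw [Matrix.det_mul, Matrix.det_mul, h1, mul_one, hdetP]
  have hmem : ∀ A : Matrix.SpecialLinearGroup (Fin 2) K,
      (⟨P * (A : Matrix (Fin 2) (Fin 2) K).map ι * Pinv, hdet A⟩ :
        Matrix.SpecialLinearGroup (Fin 2) F) ∈ Cfsg.SU 2 F q := by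
    intro A
    refine (mem_SU2_iff σ hσq hσ _).2 ?_
    show J2 F * (P * (A : Matrix (Fin 2) (Fin 2) K).map ι * Pinv).map σ =
      P * (A : Matrix (Fin 2) (Fin 2) K).map ι * Pinv * J2 F
    rw [Matrix.map_mul, Matrix.map_mul, hmapσι, ← Matrix.mul_assoc, ← Matrix.mul_assoc, hJP,
      Matrix.mul_assoc (P * _) Pinv, hPinvσ]
    simp only [Matrix.smul_mul, Matrix.mul_smul]
  let ψ : Matrix.SpecialLinearGroup (Fin 2) K →* Cfsg.SU 2 F q :=
    MonoidHom.mk' (fun A => ⟨⟨P * (A : Matrix (Fin 2) (Fin 2) K).map ι * Pinv, hdet A⟩, hmem A⟩)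
      (by
        intro A B
        apply Subtype.ext
        apply Subtype.ext
        show P * ((A * B : Matrix.SpecialLinearGroup (Fin 2) K) :
            Matrix (Fin 2) (Fin 2) K).map ι * Pinv =
          (P * (A : Matrix (Fin 2) (Fin 2) K).map ι * Pinv) *
            (P * (B : Matrix (Fin 2) (Fin 2) K).map ι * Pinv)
        rw [Matrix.SpecialLinearGroup.coe_mul, Matrix.map_mul]
        calc P * ((A : Matrix (Fin 2) (Fin 2) K).map ι * (B : Matrix (Fin 2) (Fin 2) K).map ι) * Pinv
            = P * (A : Matrix (Fin 2) (Fin 2) K).map ι * 1 *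
                ((B : Matrix (Fin 2) (Fin 2) K).map ι * Pinv) := by
              simp only [Matrix.mul_one, Matrix.mul_assoc]
          _ = _ := by
              rw [← hPP']
              simp only [Matrix.mul_assoc])
  have hψ : ∀ A, ((ψ A : Cfsg.SU 2 F q) : Matrix.SpecialLinearGroup (Fin 2) F).1 =
      P * (A : Matrix (Fin 2) (Fin 2) K).map ι * Pinv := fun A => rfl
  have hinj : Function.Injective ψ := by
    intro A B hAB
    have h1 := hψ A
    rw [hAB, hψ B] at h1
    have h2 : (B : Matrix (Fin 2) (Fin 2) K).map ι = (A : Matrix (Fin 2) (Fin 2) K).map ι := by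
      have h3 : ∀ X : Matrix (Fin 2) (Fin 2) F, Pinv * (P * X * Pinv) * P = X := by
        intro X
        calc Pinv * (P * X * Pinv) * P = (Pinv * P) * X * (Pinv * P) := by
              simp only [Matrix.mul_assoc]
          _ = X := by rw [hPP', Matrix.one_mul, Matrix.mul_one]
      rw [← h3 ((B : Matrix (Fin 2) (Fin 2) K).map ι), h1, h3]
    apply Subtype.ext
    ext i j
    have h4 := congrFun (congrFun h2 i) j
    simp only [Matrix.map_apply] at h4
    exact (ι.injective h4).symm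
  have hsurj : Function.Surjective ψ := by
    intro C
    have hC := (mem_SU2_iff σ hσq hσ C.1).1 C.2
    obtain ⟨B, hB⟩ : ∃ B : Matrix (Fin 2) (Fin 2) F,
        B = Pinv * (C.1 : Matrix (Fin 2) (Fin 2) F) * P := ⟨_, rfl⟩
    have hBσ : B.map σ = B := by
      have hCσ : (C.1 : Matrix (Fin 2) (Fin 2) F).map σ =
          (- J2 F) * (C.1 : Matrix (Fin 2) (Fin 2) F) * J2 F := by
        rw [Matrix.mul_assoc, ← hC, ← Matrix.mul_assoc, hJJ', Matrix.one_mul]
      have hPσe : P.map σ = l • ((- J2 F) * P) := by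
        rw [← Matrix.mul_smul, ← hJP, ← Matrix.mul_assoc, hJJ', Matrix.one_mul]
      have hPinvσe : Pinv.map σ = l⁻¹ • (Pinv * J2 F) := by
        rw [hPinvσ, smul_smul, inv_mul_cancel₀ hl0, one_smul]
      rw [hB, Matrix.map_mul, Matrix.map_mul, hCσ, hPσe, hPinvσe]
      simp only [Matrix.smul_mul, Matrix.mul_smul, smul_smul, one_smul, mul_inv_cancel₀ hl0]
      calc Pinv * J2 F * (-J2 F * (C.1 : Matrix (Fin 2) (Fin 2) F) * J2 F) * (-J2 F * P)
          = Pinv * (J2 F * (-J2 F)) * (C.1 : Matrix (Fin 2) (Fin 2) F) * (J2 F * (-J2 F)) * P := by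
            simp only [Matrix.mul_assoc]
        _ = _ := by rw [hJJ, Matrix.mul_one, Matrix.mul_one]
    have hfix : ∀ i j, ∃ k, ι k = B i j := by
      intro i j
      apply hι
      rw [← hσq]
      have := congrFun (congrFun hBσ i) j
      simpa using this
    choose A₀ hA₀ using hfix
    have hA₀' : (Matrix.of A₀).map ι = B := by
      ext i j
      simp [hA₀]
    have hdetA : (Matrix.of A₀).det = 1 := by
      apply ι.injective
      rw [RingHom.map_det, RingHom.mapMatrix_apply, hA₀', map_one, hB, Matrix.det_mul,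
        Matrix.det_mul, C.1.2, mul_one, mul_comm, hdetP]
    refine ⟨⟨Matrix.of A₀, hdetA⟩, ?_⟩
    apply Subtype.ext
    apply Subtype.ext
    refine (hψ _).trans ?_
    show P * (Matrix.of A₀).map ι * Pinv = _
    rw [hA₀', hB]
    calc P * (Pinv * (C.1 : Matrix (Fin 2) (Fin 2) F) * P) * Pinv
        = (P * Pinv) * (C.1 : Matrix (Fin 2) (Fin 2) F) * (P * Pinv) := by
          simp only [Matrix.mul_assoc]
      _ = _ := by rw [hPP, Matrix.one_mul, Matrix.mul_one]
  exact ⟨(MulEquiv.ofBijective ψ ⟨hinj, hsurj⟩).symm⟩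

end Cfsg.Agent.S0281
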