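import Cfsg.Statements.S0290
import Cfsg.Agent.Helper5.QuadCount

set_option autoImplicit false
open Cfsg

namespace Cfsg.Agent.S0290

theorem card_minus {F : Type*} [Field F] [Fintype F] (k : ℕ) (a b : F)
    (hab : ∀ z₁ z₂ : F, z₁ ^ 2 + a * z₁ * z₂ + b * z₂ ^ 2 = 0 → z₁ = 0 ∧ z₂ = 0) :
    Nat.card {v : (Fin k ⊕ Fin k) ⊕ Fin 2 → F // Cfsg.quadFormMinus k F a b v = 0} =
      Fintype.card F ^ k + Fintype.card F ^ 2 *
        ((Fintype.card F ^ k - 1) * Fintype.card F ^ (k - 1)) := by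
  classical
  have e : {v : (Fin k ⊕ Fin k) ⊕ Fin 2 → F // Cfsg.quadFormMinus k F a b v = 0} ≃
      {p : (Fin 2 → F) × ((Fin k → F) × (Fin k → F)) //
        ∑ i, p.2.1 i * p.2.2 i = -(p.1 0 ^ 2 + a * p.1 0 * p.1 1 + b * p.1 1 ^ 2)} :=
    (((Equiv.sumArrowEquivProdArrow (Fin k ⊕ Fin k) (Fin 2) F).trans
      ((Equiv.sumArrowEquivProdArrow (Fin k) (Fin k) F).prodCongr (Equiv.refl _))).trans
        (Equiv.prodComm _ _)).subtypeEquiv
      (fun v => by
        change (∑ i : Fin k, v (.inl (.inl i)) * v (.inl (.inr i))) +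
            (v (.inr 0) ^ 2 + a * v (.inr 0) * v (.inr 1) + b * v (.inr 1) ^ 2) = 0 ↔
          ∑ i : Fin k, v (.inl (.inl i)) * v (.inl (.inr i)) =
            -(v (.inr 0) ^ 2 + a * v (.inr 0) * v (.inr 1) + b * v (.inr 1) ^ 2)
        constructor
        · intro h
          linear_combination h
        · intro h
          linear_combination h)
  rw [Nat.card_congr e,
    Helper5.card_subtype_prod (fun (z : Fin 2 → F) (x : (Fin k → F) × (Fin k → F)) =>
      ∑ i, x.1 i * x.2 i = -(z 0 ^ 2 + a * z 0 * z 1 + b * z 1 ^ 2))]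
  simp_rw [Helper5.card_dot_pairs]
  rw [Finset.sum_add_distrib, Finset.sum_const, Finset.card_univ, smul_eq_mul, Fintype.card_fin]
  have hsum : ∑ z : Fin 2 → F, (if -(z 0 ^ 2 + a * z 0 * z 1 + b * z 1 ^ 2) = 0
      then Fintype.card F ^ k else 0) = Fintype.card F ^ k := by
    have : ∀ z : Fin 2 → F, (-(z 0 ^ 2 + a * z 0 * z 1 + b * z 1 ^ 2) = 0) ↔ z = 0 := by
      intro z
      rw [neg_eq_zero]
      constructor
      · intro h
        obtain ⟨h0, h1⟩ := hab _ _ h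
        funext i
        fin_cases i
        · exact h0
        · exact h1
      · rintro rfl
        simp
    simp_rw [this]
    simp
  rw [hsum]
  congr 2
  simp

/-- The minus-type quadratic form on F^(2m), m at least 1, has q^(2m-1) + q^(m-1) - q^m zeros (that is, (q^m + 1)(q^(m-1) - 1) non-zero isotropic vectors). -/
theorem result {F : Type*} [Field F] [Fintype F] {q : ℕ} (hF : Fintype.card F = q) (m : ℕ) (hm : 1 ≤ m) (a b : F) (hab : ∀ z₁ z₂ : F, z₁ ^ 2 + a * z₁ * z₂ + b * z₂ ^ 2 = 0 → z₁ = 0 ∧ z₂ = 0) : Nat.card {v : (Fin (m - 1) ⊕ Fin (m - 1)) ⊕ Fin 2 → F // Cfsg.quadFormMinus (m - 1) F a b v = 0} = q ^ (2 * m - 1) + q ^ (m - 1) - q ^ m := by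
  rw [card_minus (m - 1) a b hab, hF]
  have hq : 1 ≤ q := by rw [← hF]; exact Fintype.card_pos
  obtain ⟨k, rfl⟩ : ∃ k, m = k + 1 := ⟨m - 1, by omega⟩
  simp only [Nat.add_sub_cancel]
  rcases Nat.eq_zero_or_pos k with rfl | hk
  · simp
  · have h1 : q ^ 2 * q ^ (k - 1) = q ^ (k + 1) := by
      rw [← pow_add]
      congr 1
      omega
    have h2 : q ^ 2 * ((q ^ k - 1) * q ^ (k - 1)) = (q ^ k - 1) * q ^ (k + 1) := by
      rw [mul_left_comm, h1]
    have h3 : q ^ (2 * (k + 1) - 1) = q ^ k * q ^ (k + 1) := by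
      rw [← pow_add]
      congr 1
      omega
    have h4 : 1 ≤ q ^ k := Nat.one_le_pow _ _ hq
    have h5 : q ^ (k + 1) ≤ q ^ k * q ^ (k + 1) := Nat.le_mul_of_pos_left _ h4
    rw [h2, h3, Nat.sub_mul, one_mul]
    omega

end Cfsg.Agent.S0290
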