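import Cfsg.Statements.S0291
import Cfsg.Agent.Helper5.QuadCount

set_option autoImplicit false
open Cfsg

namespace Cfsg.Agent.S0291

/-- For q odd, the form x_0^2 + sum_{i<m} x_i y_i on F^(2m+1) has exactly q^(2m) zeros. -/
theorem result {F : Type*} [Field F] [Fintype F] {q : ℕ} (hF : Fintype.card F = q) (hodd : Odd q) (m : ℕ) : Nat.card {v : Unit ⊕ (Fin m ⊕ Fin m) → F // Cfsg.quadFormOdd m F v = 0} = q ^ (2 * m) := by
  classical
  have e : {v : Unit ⊕ (Fin m ⊕ Fin m) → F // Cfsg.quadFormOdd m F v = 0} ≃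
      {p : F × ((Fin m → F) × (Fin m → F)) // ∑ i, p.2.1 i * p.2.2 i = -p.1 ^ 2} :=
    ((Equiv.sumArrowEquivProdArrow Unit (Fin m ⊕ Fin m) F).trans
      ((Equiv.funUnique Unit F).prodCongr (Equiv.sumArrowEquivProdArrow (Fin m) (Fin m) F))).subtypeEquiv
      (fun v => by
        simp only [Cfsg.quadFormOdd, Equiv.sumArrowEquivProdArrow, Equiv.trans_apply, Equiv.coe_fn_mk,
          Equiv.prodCongr_apply, Prod.map_fst, Prod.map_snd, Equiv.funUnique_apply,
          Function.comp_apply]
        constructor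
        · intro h
          linear_combination h
        · intro h
          linear_combination h)
  rw [Nat.card_congr e,
    Helper5.card_subtype_prod (fun (z : F) (x : (Fin m → F) × (Fin m → F)) =>
      ∑ i, x.1 i * x.2 i = -z ^ 2)]
  simp_rw [Helper5.card_dot_pairs]
  rw [Finset.sum_add_distrib, Finset.sum_const, Finset.card_univ, smul_eq_mul, Fintype.card_fin, hF]
  have hsum : ∑ z : F, (if -z ^ 2 = 0 then q ^ m else 0) = q ^ m := by
    have : ∀ z : F, (-z ^ 2 = 0) ↔ z = 0 := by
      intro z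
      simp
    simp_rw [this]
    simp
  rw [hsum]
  have hq : 1 ≤ q := by rw [← hF]; exact Fintype.card_pos
  rcases Nat.eq_zero_or_pos m with rfl | hm
  · simp
  · have h1 : q * q ^ (m - 1) = q ^ m := by
      rw [← pow_succ']
      congr 1
      omega
    have h2 : q * ((q ^ m - 1) * q ^ (m - 1)) = (q ^ m - 1) * q ^ m := by
      rw [mul_left_comm, h1]
    have h3 : q ^ (2 * m) = q ^ m * q ^ m := by
      rw [← pow_add]
      congr 1
      omega
    have h4 : 1 ≤ q ^ m := Nat.one_le_pow _ _ hq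
    have h5 : q ^ m ≤ q ^ m * q ^ m := Nat.le_mul_of_pos_left _ h4
    rw [h2, h3, Nat.sub_mul, one_mul]
    omega

end Cfsg.Agent.S0291
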