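import Cfsg.Statements.S0295
import Cfsg.Agent.Helper45.OmegaSimple
import Cfsg.Agent.Helper45.CenterForms

set_option autoImplicit false
open Cfsg

namespace Cfsg.Agent.S0295

/-- PΩ_{2m+1}(q) is simple for q odd and m at least 3. -/
theorem result {F : Type*} [Field F] [Fintype F] (hodd : Odd (Fintype.card F)) (m : ℕ) (hm : 3 ≤ m) : IsSimpleGroup (Cfsg.POmega F (Cfsg.quadFormOdd m F)) := by
  have h2 : (2 : F) ≠ 0 := Helper45.two_ne_zero_of_odd_card hodd
  have hQ := Helper45.oddQF_nondeg' (F := F) m h2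
  have hci : 6 ≤ Fintype.card (Unit ⊕ (Fin m ⊕ Fin m)) := by
    rw [Fintype.card_sum, Fintype.card_sum, Fintype.card_fin, Fintype.card_unit]
    omega
  have h := Helper45.pomega_simple (Helper43.oddQF m F) hQ hci
  exact h

end Cfsg.Agent.S0295
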