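import Cfsg.Statements.S0302
import Cfsg.Agent.Helper5.Klein
import Cfsg.Agent.Helper5.SLCard
import Cfsg.Agent.Helper5.OrthForms
import Cfsg.Agent.Helper5.OmegaIso
import Cfsg.Agent.Helper42.SLn

set_option autoImplicit false
open Cfsg

namespace Cfsg.Agent.S0302

open Cfsg.Agent.Helper5 Matrix

/-- An element of the kernel of the Klein homomorphism is `±1` on the diagonal and scalar. -/
theorem klein_ker_scalar {F : Type*} [Field F] (g : Matrix.SpecialLinearGroup (Fin 4) F)
    (hg : g ∈ (kleinIso F).ker) (hc : g ∈ Subgroup.center (Matrix.SpecialLinearGroup (Fin 4) F)) :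
    ∃ r : F, r ^ 2 = 1 ∧ (g : Matrix (Fin 4) (Fin 4) F) = Matrix.scalar (Fin 4) r := by
  rw [Matrix.SpecialLinearGroup.mem_center_iff] at hc
  obtain ⟨r, -, hr⟩ := hc
  refine ⟨r, ?_, hr.symm⟩
  have h1 := congrFun (kleinIso_ker g hg (Pi.single (Sum.inl 0) 1)) (Sum.inl 0)
  rw [← hr] at h1
  change (Matrix.scalar (Fin 4) r * kleinA F (Pi.single (Sum.inl 0) 1) *
    (Matrix.scalar (Fin 4) r)ᵀ) 0 1 = _ at h1
  rw [klein_conj_apply] at h1
  simp [Matrix.scalar_apply] at h1
  rw [pow_two]
  exact h1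

theorem card_klein_ker_le {F : Type*} [Field F] [Fintype F]
    (hker : (kleinIso F).ker ≤ Subgroup.center (Matrix.SpecialLinearGroup (Fin 4) F)) :
    Nat.card (kleinIso F).ker ≤ 2 := by
  classical
  let f : (kleinIso F).ker → ({1, -1} : Finset F) := fun g =>
    ⟨(g : Matrix.SpecialLinearGroup (Fin 4) F) 0 0, by
      obtain ⟨r, hr, hg⟩ := klein_ker_scalar g.1 g.2 (hker g.2)
      have h0 : (g : Matrix.SpecialLinearGroup (Fin 4) F) 0 0 = r := by
        rw [hg]
        simp
      rw [h0]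
      have h2 : (r - 1) * (r + 1) = 0 := by linear_combination hr
      rcases mul_eq_zero.1 h2 with h | h
      · simp [sub_eq_zero.1 h]
      · simp [eq_neg_of_add_eq_zero_left h]⟩
  have hf : Function.Injective f := by
    intro g h hgh
    have h0 : (g : Matrix.SpecialLinearGroup (Fin 4) F) 0 0 =
        (h : Matrix.SpecialLinearGroup (Fin 4) F) 0 0 := congrArg Subtype.val hgh
    obtain ⟨r, -, hg⟩ := klein_ker_scalar g.1 g.2 (hker g.2)
    obtain ⟨s, -, hh⟩ := klein_ker_scalar h.1 h.2 (hker h.2)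
    have e1 : (g.1 : Matrix (Fin 4) (Fin 4) F) 0 0 = r := by
      rw [hg]
      simp
    have e2 : (h.1 : Matrix (Fin 4) (Fin 4) F) 0 0 = s := by
      rw [hh]
      simp
    have hrs : r = s := by
      rw [← e1, ← e2]
      exact h0
    apply Subtype.ext
    apply Subtype.ext
    rw [hg, hh, hrs]
  calc Nat.card (kleinIso F).ker ≤ Nat.card ({1, -1} : Finset F) :=
        Nat.card_le_card_of_injective f hf
    _ = ({1, -1} : Finset F).card := Nat.card_eq_finsetCard _
    _ ≤ 2 := Finset.card_le_two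

/-- PΩ^+_6(q) is isomorphic to PSL_4(q). -/
theorem result {F : Type*} [Field F] [Fintype F] : Nonempty (Cfsg.POmega F (Cfsg.quadFormPlus 3 F) ≃* Matrix.ProjectiveSpecialLinearGroup (Fin 4) F) := by
  classical
  have hperf := Cfsg.Agent.Helper42.SLn.commutator_eq_top_of_three (F := F) (ι := Fin 4)
    (by rw [Fintype.card_fin]; norm_num)
  have hnorm : ∀ N : Subgroup (Matrix.SpecialLinearGroup (Fin 4) F), N.Normal →
      N ≤ Subgroup.center (Matrix.SpecialLinearGroup (Fin 4) F) ∨ N = ⊤ := fun N hN =>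
    Cfsg.Agent.Helper42.SLn.normal_le_center_or_eq_top hperf N
  have hker : (kleinIso F).ker ≤ Subgroup.center (Matrix.SpecialLinearGroup (Fin 4) F) :=
    (hnorm _ inferInstance).resolve_right (kleinIso_ker_ne_top F)
  have hker2 := card_klein_ker_le hker
  set q := Fintype.card F with hq
  have hq2 : 2 ≤ q := Fintype.one_lt_card
  -- orders
  have hO : Nat.card (Cfsg.isometryGroup F (Cfsg.quadFormPlus 3 F)) =
      2 * q ^ 6 * (q ^ 3 - 1) * ((q ^ 2 - 1) * (q ^ 4 - 1)) := by
    rw [card_GO_plus 3 (by norm_num)]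
    simp [Finset.prod_range_succ, hq]
  have hSL : Nat.card (Matrix.SpecialLinearGroup (Fin 4) F) * (q - 1) =
      (q ^ 4 - 1) * (q ^ 4 - q) * (q ^ 4 - q ^ 2) * (q ^ 4 - q ^ 3) := by
    have h := card_SL_mul (F := F) (Fin 4)
    rw [Matrix.card_GL_field] at h
    simp only [Fin.prod_univ_four] at h
    simpa using h
  have hOSL : Nat.card (Cfsg.isometryGroup F (Cfsg.quadFormPlus 3 F)) =
      2 * Nat.card (Matrix.SpecialLinearGroup (Fin 4) F) := by
    have hq1 : 0 < q - 1 := by omega
    apply Nat.eq_of_mul_eq_mul_right hq1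
    rw [mul_assoc 2, hSL, hO]
    have e1 : 1 ≤ q := by omega
    have e2 : 1 ≤ q ^ 2 := Nat.one_le_pow _ _ (by omega)
    have e3 : 1 ≤ q ^ 3 := Nat.one_le_pow _ _ (by omega)
    have e4 : 1 ≤ q ^ 4 := Nat.one_le_pow _ _ (by omega)
    have e5 : q ≤ q ^ 4 := Nat.le_self_pow (by norm_num) q
    have e6 : q ^ 2 ≤ q ^ 4 := Nat.pow_le_pow_right (by omega) (by norm_num)
    have e7 : q ^ 3 ≤ q ^ 4 := Nat.pow_le_pow_right (by omega) (by norm_num)
    zify [e1, e2, e3, e4, e5, e6, e7]
    ring
  have hOlarge : 96 < Nat.card (Cfsg.isometryGroup F (Cfsg.quadFormPlus 3 F)) := by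
    rw [hO]
    have e6 : 64 ≤ q ^ 6 := by
      calc 64 = 2 ^ 6 := by norm_num
        _ ≤ q ^ 6 := Nat.pow_le_pow_left hq2 6
    have e2 : 1 ≤ q ^ 2 - 1 := by
      have : 2 ^ 2 ≤ q ^ 2 := Nat.pow_le_pow_left hq2 2
      omega
    have e3 : 1 ≤ q ^ 3 - 1 := by
      have : 2 ^ 3 ≤ q ^ 3 := Nat.pow_le_pow_left hq2 3
      omega
    have e4 : 1 ≤ q ^ 4 - 1 := by
      have : 2 ^ 4 ≤ q ^ 4 := Nat.pow_le_pow_left hq2 4
      omega
    calc 96 < 2 * 64 * 1 * (1 * 1) := by norm_num
      _ ≤ 2 * q ^ 6 * (q ^ 3 - 1) * ((q ^ 2 - 1) * (q ^ 4 - 1)) := by gcongr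
  -- index of the image
  have hidx : (kleinIso F).range.index ≤ 4 := by
    have h1 := Subgroup.card_mul_index (kleinIso F).range
    have h2 := Subgroup.card_eq_card_quotient_mul_card_subgroup (kleinIso F).ker
    rw [Nat.card_congr (QuotientGroup.quotientKerEquivRange (kleinIso F)).toEquiv] at h2
    rw [hOSL, h2] at h1
    have hpos : 0 < Nat.card (kleinIso F).range := Nat.card_pos
    have h3 : (kleinIso F).range.index = 2 * Nat.card (kleinIso F).ker := by
      apply Nat.eq_of_mul_eq_mul_left hpos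
      rw [h1]
      ring
    rw [h3]
    omega
  have hcen : Nat.card (Subgroup.center (Matrix.SpecialLinearGroup (Fin 4) F)) ≤ 4 := by
    rw [Nat.card_congr (Matrix.SpecialLinearGroup.center_equiv_rootsOfUnity' (0 : Fin 4)).toEquiv]
    rw [Fintype.card_fin]
    exact card_rootsOfUnity F 4
  have hnormal : (kleinIso F).range.Normal :=
    range_normal_of_index_le_four (kleinIso F) hnorm hidx (by omega)
  have hle := commutator_le_of_normal_index_le_four (kleinIso F).range hidx
  have hge : (kleinIso F).range ≤ commutator (Cfsg.isometryGroup F (Cfsg.quadFormPlus 3 F)) := by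
    rw [MonoidHom.range_eq_map, ← hperf, commutator_def, Subgroup.map_commutator, commutator_def]
    exact Subgroup.commutator_mono le_top le_top
  have hrange := le_antisymm hge hle
  refine nonempty_commutator_quot_center (kleinIso F) hrange
    (QuotientGroup.mk' (Subgroup.center (Matrix.SpecialLinearGroup (Fin 4) F)))
    (QuotientGroup.mk'_surjective _) ?_
  intro s
  rw [QuotientGroup.mk'_apply, QuotientGroup.eq_one_iff]
  constructor
  · intro hs t
    rw [Subgroup.mem_center_iff.1 hs t]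
  · intro hs
    exact mem_center_of_perfect hperf (kleinIso F) hker s hs

end Cfsg.Agent.S0302
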