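import Cfsg.Statements.S0301
import Cfsg.Agent.Helper5.O5
import Cfsg.Agent.Helper5.OrthOdd
import Cfsg.Agent.Helper5.SympCard
import Cfsg.Agent.Helper5.SympCenter
import Cfsg.Agent.Helper5.SympPerfect
import Cfsg.Agent.S0302
import Cfsg.Agent.Helper42.SLn

set_option autoImplicit false
open Cfsg

namespace Cfsg.Agent.S0301

open Cfsg.Agent.Helper5 Matrix

/-- The kernel of `Sp₄ → O₅` is central. -/
theorem o5Iso_ker_le {F : Type*} [Field F] (h2 : (2 : F) ≠ 0) :
    (o5Iso F).ker ≤ Subgroup.center (Matrix.symplecticGroup (Fin 2) F) := by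
  classical
  intro A hA
  have hact := o5Iso_ker h2 A hA
  let g' : Matrix.SpecialLinearGroup (Fin 4) F := ⟨sp4Mat F A, sp4Mat_det A⟩
  have hg' : g' ∈ (kleinIso F).ker := by
    rw [MonoidHom.mem_ker]
    apply Subtype.ext
    apply Units.ext
    change ((kleinGL F g' : Matrix.GeneralLinearGroup (Fin 3 ⊕ Fin 3) F) :
      Matrix (Fin 3 ⊕ Fin 3) (Fin 3 ⊕ Fin 3) F) = 1
    rw [kleinGL_coe]
    have : kleinAct (g' : Matrix (Fin 4) (Fin 4) F) = 1 := LinearMap.ext hact
    rw [this]
    exact LinearMap.toMatrix'_id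
  have hperf := Cfsg.Agent.Helper42.SLn.commutator_eq_top_of_three (F := F) (ι := Fin 4)
    (by rw [Fintype.card_fin]; norm_num)
  have hkc : (kleinIso F).ker ≤ Subgroup.center (Matrix.SpecialLinearGroup (Fin 4) F) :=
    (Cfsg.Agent.Helper42.SLn.normal_le_center_or_eq_top hperf _).resolve_right
      (kleinIso_ker_ne_top F)
  obtain ⟨r, hr, hg⟩ := Cfsg.Agent.S0302.klein_ker_scalar g' hg' (hkc hg')
  have h3 : (A : Matrix (Fin 2 ⊕ Fin 2) (Fin 2 ⊕ Fin 2) F).submatrix fin4Sum fin4Sum =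
      Matrix.scalar (Fin 4) r := hg
  have hA' : (A : Matrix (Fin 2 ⊕ Fin 2) (Fin 2 ⊕ Fin 2) F) = Matrix.scalar _ r := by
    have h4 : (A : Matrix (Fin 2 ⊕ Fin 2) (Fin 2 ⊕ Fin 2) F) =
        (Matrix.scalar (Fin 4) r).submatrix fin4Sum.symm fin4Sum.symm := by
      rw [← h3]
      ext i j
      simp
    rw [h4]
    ext i j
    simp [Matrix.scalar_apply, Matrix.diagonal_apply]
  rw [sp_mem_center_iff]
  have hr' : (r - 1) * (r + 1) = 0 := by linear_combination hr
  rcases mul_eq_zero.1 hr' with h | h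
  · left
    rw [hA', sub_eq_zero.1 h]
    simp
  · right
    rw [hA', eq_neg_of_add_eq_zero_left h]
    ext i j
    by_cases hij : i = j
    · simp [Matrix.diagonal_apply, hij]
    · simp [Matrix.diagonal_apply, hij]

/-- PΩ_5(q) is isomorphic to PSp_4(q) for q odd. -/
theorem result {F : Type*} [Field F] [Fintype F] (hodd : Odd (Fintype.card F)) : Nonempty (Cfsg.POmega F (Cfsg.quadFormOdd 2 F) ≃* Cfsg.PSp 2 F) := by
  classical
  have h2 : (2 : F) ≠ 0 := two_ne_zero_of_odd hodd
  have hperf : commutator (Matrix.symplecticGroup (Fin 2) F) = ⊤ :=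
    commutator_sp_eq_top_of_two_le (le_refl 2) h2
  have hQneg : ∀ v : Unit ⊕ (Fin 2 ⊕ Fin 2) → F,
      Cfsg.quadFormOdd 2 F (-v) = Cfsg.quadFormOdd 2 F v := by
    intro v
    unfold Cfsg.quadFormOdd
    simp
  set φ : Matrix.symplecticGroup (Fin 2) F →* Cfsg.isometryGroup F (Cfsg.quadFormOdd 2 F) :=
    (toIso F (Cfsg.quadFormOdd 2 F)).comp (o5Iso F) with hφ
  have hge : φ.range ≤ commutator (Cfsg.isometryGroup F (Cfsg.quadFormOdd 2 F)) := by
    rintro _ ⟨a, rfl⟩
    have : a ∈ commutator (Matrix.symplecticGroup (Fin 2) F) := by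
      rw [hperf]
      exact Subgroup.mem_top a
    exact map_mem_commutator φ this
  have hcard : Nat.card (Cfsg.isometryGroup F (Cfsg.quadFormOdd 2 F)) =
      2 * Nat.card (Matrix.symplecticGroup (Fin 2) F) := by
    rw [card_GO_odd hodd 2, card_sp]
    ring
  have hidx := index_range_eq_mul φ 2 hcard
  have hkerφ : φ.ker = (o5Iso F).ker := by
    ext a
    rw [MonoidHom.mem_ker, MonoidHom.mem_ker]
    change toIso F (Cfsg.quadFormOdd 2 F) (o5Iso F a) = 1 ↔ _
    constructor
    · intro h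
      exact toIso_injective _ (by rw [h, map_one])
    · intro h
      rw [h, map_one]
  have hkerle : φ.ker ≤ Subgroup.center (Matrix.symplecticGroup (Fin 2) F) := by
    rw [hkerφ]
    exact o5Iso_ker_le h2
  have hker : Nat.card φ.ker ≤ 2 :=
    (Subgroup.card_le_of_le hkerle).trans (card_sp_center_of_two_ne (by norm_num) h2).le
  have hidx4 : φ.range.index ≤ 4 := by
    rw [hidx]
    omega
  have hnormal : φ.range.Normal := by
    refine normal_of_index_le_four_of_conj _
      (detHom (Cfsg.isometryGroup F (Cfsg.quadFormOdd 2 F))).ker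
      (hge.trans (commutator_le_detHom_ker _)) hidx4
      (toIso F (Cfsg.quadFormOdd 2 F) (isoNeg (Cfsg.quadFormOdd 2 F) hQneg)) ?_ ?_
    · intro hτ
      rw [MonoidHom.mem_ker] at hτ
      have h3 := congrArg Units.val hτ
      rw [detHom_coe] at h3
      change Matrix.det (LinearMap.toMatrix'
        (-1 : Module.End F (Unit ⊕ (Fin 2 ⊕ Fin 2) → F))) = 1 at h3
      rw [det_toMatrix_neg_one] at h3
      have h5 : Fintype.card (Unit ⊕ (Fin 2 ⊕ Fin 2)) = 5 := by simp
      rw [h5] at h3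
      exact h2 (by linear_combination -h3)
    · rintro _ ⟨a, rfl⟩
      refine ⟨a, ?_⟩
      change toIso F (Cfsg.quadFormOdd 2 F) (o5Iso F a) =
        (toIso F (Cfsg.quadFormOdd 2 F) (isoNeg (Cfsg.quadFormOdd 2 F) hQneg))⁻¹ *
          toIso F (Cfsg.quadFormOdd 2 F) (o5Iso F a) *
          toIso F (Cfsg.quadFormOdd 2 F) (isoNeg (Cfsg.quadFormOdd 2 F) hQneg)
      rw [← map_inv, ← map_mul, ← map_mul, mul_assoc, ← isoNeg_comm, ← mul_assoc, inv_mul_cancel,
        one_mul]
  have hle := commutator_le_of_normal_index_le_four φ.range hidx4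
  have hrange := le_antisymm hge hle
  refine nonempty_commutator_quot_center φ hrange
    (QuotientGroup.mk' (Subgroup.center (Matrix.symplecticGroup (Fin 2) F)))
    (QuotientGroup.mk'_surjective _) ?_
  intro s
  rw [QuotientGroup.mk'_apply, QuotientGroup.eq_one_iff]
  constructor
  · intro hs t
    rw [Subgroup.mem_center_iff.1 hs t]
  · intro hs
    exact mem_center_of_perfect hperf φ hkerle s hs

end Cfsg.Agent.S0301
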