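import Cfsg.Statements.S0303
import Cfsg.Agent.Helper5.O6MinusB
import Cfsg.Agent.Helper5.OrthMinus
import Cfsg.Agent.Helper5.UnitSU
import Cfsg.Agent.Helper5.OmegaIso
import Cfsg.Agent.Helper5.OmegaIso2
import Cfsg.Agent.S0302
import Cfsg.Agent.S0780
import Cfsg.Agent.S0781
import Cfsg.Agent.Helper42.SLn
import Cfsg.Agent.Helper45.DicksonTwo
import Cfsg.Agent.Helper45.DicksonRank
import Cfsg.Agent.Helper45.Spinor

set_option autoImplicit false
open Cfsg

namespace Cfsg.Agent.S0303

open Cfsg.Agent.Helper5 Matrix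

/-- `SU_n(q)` is perfect for `n ≥ 4`. -/
theorem su_commutator_eq_top {L : Type*} [Field L] [Fintype L] {q : ℕ}
    (hL : Fintype.card L = q ^ 2) (n : ℕ) (hn : 4 ≤ n) : commutator ↥(Cfsg.SU n L q) = ⊤ := by
  rw [eq_top_iff, ← Cfsg.Agent.S0780.result hL n (by omega) (by omega), commutator_eq_closure]
  apply Subgroup.closure_mono
  rintro A ⟨v, c, hv, hA⟩
  exact Cfsg.Agent.S0781.result hL n (Or.inl hn) A v c hv hA

/-- The orders of `O⁻₆(q)` and `SU₄(q)`. -/
theorem card_o6_su4 {F L : Type*} [Field F] [Fintype F] [Field L] [Fintype L] {q : ℕ}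
    (hF : Fintype.card F = q) (hL : Fintype.card L = q ^ 2) (a b : F)
    (hab : ∀ z₁ z₂ : F, z₁ ^ 2 + a * z₁ * z₂ + b * z₂ ^ 2 = 0 → z₁ = 0 ∧ z₂ = 0) :
    Nat.card (Cfsg.isometryGroup F (Cfsg.quadFormMinus 2 F a b)) =
      2 * Nat.card (Cfsg.SU 4 L q) := by
  have hq2 : 2 ≤ q := by
    rw [← hF]
    exact Fintype.one_lt_card
  have hO : Nat.card (Cfsg.isometryGroup F (Cfsg.quadFormMinus 2 F a b)) =
      2 * q ^ 6 * (q ^ 3 + 1) * ((q ^ 2 - 1) * (q ^ 4 - 1)) := by
    have h := card_GO_minus a b hab 3 (by norm_num)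
    change Nat.card (Cfsg.isometryGroup F (Cfsg.quadFormMinus 2 F a b)) = _ at h
    rw [h, hF]
    simp [Finset.prod_range_succ]
  have hGU := card_GU hL 4
  have hSU := card_SU_mul (n := 4) hL (by norm_num)
  have hGU' : Nat.card (Cfsg.GU 4 L q) =
      q ^ 6 * ((q + 1) * (q ^ 2 - 1) * (q ^ 3 + 1) * (q ^ 4 - 1)) := by
    have e0 : Even 0 := by decide
    have e1 : ¬ Even 1 := by decide
    have e2 : Even 2 := by decide
    have e3 : ¬ Even 3 := by decide
    rw [hGU, Finset.prod_range_succ, Finset.prod_range_succ, Finset.prod_range_succ,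
      Finset.prod_range_succ, Finset.prod_range_zero, if_pos e0, if_neg e1, if_pos e2, if_neg e3]
    norm_num
  rw [hGU'] at hSU
  rw [hO]
  apply Nat.eq_of_mul_eq_mul_left (by omega : 0 < q + 1)
  have : (q + 1) * (2 * Nat.card (Cfsg.SU 4 L q)) = 2 * ((q + 1) * Nat.card (Cfsg.SU 4 L q)) := by
    ring
  rw [this, hSU]
  ring

/-- PΩ^-_6(q) is isomorphic to PSU_4(q). -/
theorem result {F K : Type*} [Field F] [Fintype F] [Field K] [Fintype K] {q : ℕ} (hF : Fintype.card F = q) (hK : Fintype.card K = q ^ 2) (a b : F) (hab : ∀ z₁ z₂ : F, z₁ ^ 2 + a * z₁ * z₂ + b * z₂ ^ 2 = 0 → z₁ = 0 ∧ z₂ = 0) : Nonempty (Cfsg.POmega F (Cfsg.quadFormMinus 2 F a b) ≃* Cfsg.PSU 4 K q) := by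
  classical
  have := fact_of_aniso a b hab
  have hnb := aniso_not_both a b hab
  have hd := aniso_disc_ne_zero a b hab
  letI : Fintype (QuadraticAlgebra F (-b) a) :=
    Fintype.ofEquiv _ (QuadraticAlgebra.equivProd (-b) a).symm
  have hL : Fintype.card (QuadraticAlgebra F (-b) a) = q ^ 2 := by
    rw [Fintype.card_congr (QuadraticAlgebra.equivProd (-b) a), Fintype.card_prod, hF, pow_two]
  have hq2 : 2 ≤ q := by
    rw [← hF]
    exact Fintype.one_lt_card
  have hq : q ≠ 0 := by omega
  have hstar : ∀ z : QuadraticAlgebra F (-b) a, star z = z ^ q := by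
    intro z
    rw [← hF]
    exact quadAlg_star_eq_pow a b z
  obtain ⟨c, hc0, hc⟩ := quadAlg_exists_norm_neg_one a b
  have hperf : commutator ↥(Cfsg.SU 4 (QuadraticAlgebra F (-b) a) q) = ⊤ :=
    su_commutator_eq_top hL 4 le_rfl
  set ρ := u6Rho a b hq hstar c hc0 hc hd with hρ
  set φ : ↥(Cfsg.SU 4 (QuadraticAlgebra F (-b) a) q) →*
      Cfsg.isometryGroup F (Cfsg.quadFormMinus 2 F a b) :=
    (toIso F (Cfsg.quadFormMinus 2 F a b)).comp ρ with hφ
  have hkerφ : φ.ker = ρ.ker := by
    ext g
    rw [MonoidHom.mem_ker, MonoidHom.mem_ker]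
    change toIso F (Cfsg.quadFormMinus 2 F a b) (ρ g) = 1 ↔ _
    constructor
    · intro h
      exact toIso_injective _ (by rw [h, map_one])
    · intro h
      rw [h, map_one]
  -- kernel elements are scalars
  have hscal : ∀ g ∈ φ.ker, ∃ r : QuadraticAlgebra F (-b) a, r ^ 2 = 1 ∧
      ((g : Matrix.SpecialLinearGroup (Fin 4) (QuadraticAlgebra F (-b) a)) :
        Matrix (Fin 4) (Fin 4) (QuadraticAlgebra F (-b) a)) = Matrix.scalar (Fin 4) r := by
    intro g hg
    rw [hkerφ] at hg
    have hact := u6Rho_ker a b hq hstar c hc0 hc hd hnb g hg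
    have hg' : (g : Matrix.SpecialLinearGroup (Fin 4) (QuadraticAlgebra F (-b) a)) ∈
        (kleinIso (QuadraticAlgebra F (-b) a)).ker := by
      rw [MonoidHom.mem_ker]
      apply Subtype.ext
      apply Units.ext
      change ((kleinGL (QuadraticAlgebra F (-b) a)
        (g : Matrix.SpecialLinearGroup (Fin 4) (QuadraticAlgebra F (-b) a)) :
        Matrix.GeneralLinearGroup (Fin 3 ⊕ Fin 3) (QuadraticAlgebra F (-b) a)) :
        Matrix (Fin 3 ⊕ Fin 3) (Fin 3 ⊕ Fin 3) (QuadraticAlgebra F (-b) a)) = 1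
      rw [kleinGL_coe]
      have : kleinAct ((g : Matrix.SpecialLinearGroup (Fin 4) (QuadraticAlgebra F (-b) a)) :
          Matrix (Fin 4) (Fin 4) (QuadraticAlgebra F (-b) a)) = 1 := LinearMap.ext hact
      rw [this]
      exact LinearMap.toMatrix'_id
    have hperfSL := Cfsg.Agent.Helper42.SLn.commutator_eq_top_of_three
      (F := QuadraticAlgebra F (-b) a) (ι := Fin 4) (by rw [Fintype.card_fin]; norm_num)
    have hkc : (kleinIso (QuadraticAlgebra F (-b) a)).ker ≤
        Subgroup.center (Matrix.SpecialLinearGroup (Fin 4) (QuadraticAlgebra F (-b) a)) :=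
      (Cfsg.Agent.Helper42.SLn.normal_le_center_or_eq_top hperfSL _).resolve_right
        (kleinIso_ker_ne_top _)
    exact Cfsg.Agent.S0302.klein_ker_scalar _ hg' (hkc hg')
  have hkerle : φ.ker ≤ Subgroup.center ↥(Cfsg.SU 4 (QuadraticAlgebra F (-b) a) q) := by
    intro g hg
    obtain ⟨r, -, hr⟩ := hscal g hg
    rw [Subgroup.mem_center_iff]
    intro t
    apply Subtype.ext
    apply Subtype.ext
    change ((t : Matrix.SpecialLinearGroup (Fin 4) (QuadraticAlgebra F (-b) a)) :
        Matrix (Fin 4) (Fin 4) (QuadraticAlgebra F (-b) a)) *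
        ((g : Matrix.SpecialLinearGroup (Fin 4) (QuadraticAlgebra F (-b) a)) :
        Matrix (Fin 4) (Fin 4) (QuadraticAlgebra F (-b) a)) =
        ((g : Matrix.SpecialLinearGroup (Fin 4) (QuadraticAlgebra F (-b) a)) :
        Matrix (Fin 4) (Fin 4) (QuadraticAlgebra F (-b) a)) *
        ((t : Matrix.SpecialLinearGroup (Fin 4) (QuadraticAlgebra F (-b) a)) :
        Matrix (Fin 4) (Fin 4) (QuadraticAlgebra F (-b) a))
    rw [hr]
    exact ((Matrix.scalar_commute r (fun _ => Commute.all _ _) _).eq).symm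
  have hge : φ.range ≤ commutator (Cfsg.isometryGroup F (Cfsg.quadFormMinus 2 F a b)) := by
    rintro _ ⟨g, rfl⟩
    have : g ∈ commutator ↥(Cfsg.SU 4 (QuadraticAlgebra F (-b) a) q) := by
      rw [hperf]
      exact Subgroup.mem_top g
    exact map_mem_commutator φ this
  have hcard := card_o6_su4 (L := QuadraticAlgebra F (-b) a) hF hL a b hab
  have hidx := index_range_eq_mul φ 2 hcard
  have hQ := Cfsg.Agent.Helper45.minusQF_nondeg' 2 a b hab
  have hidxle : φ.range.index ≤
      (commutator (Cfsg.isometryGroup F (Cfsg.quadFormMinus 2 F a b))).index := by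
    by_cases h2 : (2 : F) = 0
    · haveI : CharP F 2 := CharTwo.of_one_ne_zero_of_two_eq_zero one_ne_zero h2
      have h1 := Cfsg.Agent.Helper45.omega_index_two_char2
        (Cfsg.Agent.Helper43.minusQF 2 F a b) hQ (Or.inr (by simp))
      have h2L : (2 : QuadraticAlgebra F (-b) a) = 0 := by
        have := congrArg (algebraMap F (QuadraticAlgebra F (-b) a)) h2
        rw [map_ofNat, map_zero] at this
        exact this
      have hk : Nat.card φ.ker = 1 := by
        have hbot : φ.ker = ⊥ := by
          rw [eq_bot_iff]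
          intro g hg
          obtain ⟨r, hr2, hr⟩ := hscal g hg
          have hr1 : r = 1 := by
            have h3 : (r - 1) ^ 2 = 0 := by
              linear_combination hr2 + (1 - r) * h2L
            exact sub_eq_zero.1 ((pow_eq_zero_iff two_ne_zero).1 h3)
          rw [Subgroup.mem_bot]
          apply Subtype.ext
          apply Subtype.ext
          rw [hr, hr1]
          simp
        rw [hbot]
        exact Subgroup.card_bot
      rw [hidx, hk]
      change _ ≤ (Cfsg.Omega F ⇑(Cfsg.Agent.Helper43.minusQF 2 F a b)).index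
      rw [h1]
    · have h1 := Cfsg.Agent.Helper45.omega_index
        (Cfsg.Agent.Helper43.minusQF 2 F a b) h2 hQ (by simp)
      have hk : Nat.card φ.ker ≤ 2 := by
        have hinj : Function.Injective (fun g : φ.ker =>
            decide ((((g : ↥(Cfsg.SU 4 (QuadraticAlgebra F (-b) a) q)) :
              Matrix.SpecialLinearGroup (Fin 4) (QuadraticAlgebra F (-b) a)) :
              Matrix (Fin 4) (Fin 4) (QuadraticAlgebra F (-b) a)) 0 0 = 1)) := by
          intro g g' hgg
          obtain ⟨r, hr2, hr⟩ := hscal g.1 g.2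
          obtain ⟨r', hr2', hr'⟩ := hscal g'.1 g'.2
          simp only [hr, hr', Matrix.scalar_apply, Matrix.diagonal_apply_eq, decide_eq_decide]
            at hgg
          have e1 : (r - 1) * (r + 1) = 0 := by linear_combination hr2
          have e2 : (r' - 1) * (r' + 1) = 0 := by linear_combination hr2'
          have hrr : r = r' := by
            rcases mul_eq_zero.1 e1 with h | h
            · have h' := sub_eq_zero.1 h
              rw [h', hgg.1 h']
            · rcases mul_eq_zero.1 e2 with h' | h'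
              · have h'' := sub_eq_zero.1 h'
                rw [h'', hgg.2 h'']
              · rw [eq_neg_of_add_eq_zero_left h, eq_neg_of_add_eq_zero_left h']
          apply Subtype.ext
          apply Subtype.ext
          apply Subtype.ext
          rw [hr, hr', hrr]
        have := Nat.card_le_card_of_injective _ hinj
        simpa using this
      rw [hidx]
      change _ ≤ (Cfsg.Omega F ⇑(Cfsg.Agent.Helper43.minusQF 2 F a b)).index
      rw [h1]
      omega
  have hrange := subgroup_eq_of_le_of_index_le _ _ hge hidxle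
  -- transport to `K`
  have e : QuadraticAlgebra F (-b) a ≃+* K := FiniteField.ringEquivOfCardEq (by rw [hL, hK])
  refine nonempty_commutator_quot_center φ hrange
    ((QuotientGroup.mk' (Subgroup.center ↥(Cfsg.SU 4 K q))).comp
      (suMapEquiv e 4 q).toMonoidHom) ?_ ?_
  · exact (QuotientGroup.mk'_surjective _).comp (suMapEquiv e 4 q).surjective
  · intro s
    rw [MonoidHom.comp_apply, QuotientGroup.mk'_apply, QuotientGroup.eq_one_iff]
    constructor
    · intro hs t
      have h1 := Subgroup.mem_center_iff.1 hs (suMapEquiv e 4 q t)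
      change suMapEquiv e 4 q t * suMapEquiv e 4 q s = suMapEquiv e 4 q s * suMapEquiv e 4 q t
        at h1
      rw [← map_mul, ← map_mul] at h1
      rw [(suMapEquiv e 4 q).injective h1]
    · intro hs
      have hsc := mem_center_of_perfect hperf φ hkerle s hs
      rw [Subgroup.mem_center_iff]
      intro y
      obtain ⟨t, rfl⟩ := (suMapEquiv e 4 q).surjective y
      change suMapEquiv e 4 q t * suMapEquiv e 4 q s = suMapEquiv e 4 q s * suMapEquiv e 4 q t
      rw [← map_mul, ← map_mul, Subgroup.mem_center_iff.1 hsc t]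

end Cfsg.Agent.S0303
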