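import Cfsg.Statements.S0304
import Cfsg.Agent.Helper36.OddOrth

set_option autoImplicit false
open Cfsg

namespace Cfsg.Agent.S0304

open Cfsg.Agent.Helper36 Matrix

/-- In characteristic 2, O_{2m+1}(q) is isomorphic to Sp_{2m}(q). -/
theorem result {F : Type*} [Field F] [Fintype F] [CharP F 2] (m : ℕ) : Nonempty (Cfsg.isometryGroup F (Cfsg.quadFormOdd m F) ≃* Matrix.symplecticGroup (Fin m) F) := by
  have hiso : ∀ g : ↥(Cfsg.isometryGroup F (Cfsg.quadFormOdd m F)),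
      ∀ v : Unit ⊕ (Fin m ⊕ Fin m) → F,
      Cfsg.quadFormOdd m F (((g : GL (Unit ⊕ (Fin m ⊕ Fin m)) F) :
        Matrix (Unit ⊕ (Fin m ⊕ Fin m)) (Unit ⊕ (Fin m ⊕ Fin m)) F) *ᵥ v)
        = Cfsg.quadFormOdd m F v := fun g v => g.2 v v
  have hstruct : ∀ g : ↥(Cfsg.isometryGroup F (Cfsg.quadFormOdd m F)),
      ((g : GL (Unit ⊕ (Fin m ⊕ Fin m)) F) :
        Matrix (Unit ⊕ (Fin m ⊕ Fin m)) (Unit ⊕ (Fin m ⊕ Fin m)) F)
      = oddMat ((g : GL (Unit ⊕ (Fin m ⊕ Fin m)) F) :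
          Matrix (Unit ⊕ (Fin m ⊕ Fin m)) (Unit ⊕ (Fin m ⊕ Fin m)) F).toBlocks₁₂
        ((g : GL (Unit ⊕ (Fin m ⊕ Fin m)) F) :
          Matrix (Unit ⊕ (Fin m ⊕ Fin m)) (Unit ⊕ (Fin m ⊕ Fin m)) F).toBlocks₂₂ := by
    intro g
    exact oddOrth_structure _
      (((g : GL (Unit ⊕ (Fin m ⊕ Fin m)) F)⁻¹ : GL (Unit ⊕ (Fin m ⊕ Fin m)) F) :
        Matrix (Unit ⊕ (Fin m ⊕ Fin m)) (Unit ⊕ (Fin m ⊕ Fin m)) F)
      (by rw [← Units.val_mul, mul_inv_cancel, Units.val_one]) (hiso g)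
  have hrow : ∀ g : ↥(Cfsg.isometryGroup F (Cfsg.quadFormOdd m F)),
      ∀ w : Fin m ⊕ Fin m → F,
      (((g : GL (Unit ⊕ (Fin m ⊕ Fin m)) F) :
          Matrix (Unit ⊕ (Fin m ⊕ Fin m)) (Unit ⊕ (Fin m ⊕ Fin m)) F).toBlocks₁₂ *ᵥ w) ()
        * (((g : GL (Unit ⊕ (Fin m ⊕ Fin m)) F) :
          Matrix (Unit ⊕ (Fin m ⊕ Fin m)) (Unit ⊕ (Fin m ⊕ Fin m)) F).toBlocks₁₂ *ᵥ w) ()
        + Cfsg.quadFormPlus m F (((g : GL (Unit ⊕ (Fin m ⊕ Fin m)) F) :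
          Matrix (Unit ⊕ (Fin m ⊕ Fin m)) (Unit ⊕ (Fin m ⊕ Fin m)) F).toBlocks₂₂ *ᵥ w)
        = Cfsg.quadFormPlus m F w := by
    intro g
    apply (oddMat_preserves_iff _ _).1
    rw [← hstruct g]
    exact hiso g
  have hmem : ∀ g : ↥(Cfsg.isometryGroup F (Cfsg.quadFormOdd m F)),
      ((g : GL (Unit ⊕ (Fin m ⊕ Fin m)) F) :
          Matrix (Unit ⊕ (Fin m ⊕ Fin m)) (Unit ⊕ (Fin m ⊕ Fin m)) F).toBlocks₂₂
        ∈ Matrix.symplecticGroup (Fin m) F := fun g => symplectic_of_oddMat _ _ (hrow g)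
  let Φ : ↥(Cfsg.isometryGroup F (Cfsg.quadFormOdd m F)) →* ↥(Matrix.symplecticGroup (Fin m) F) :=
    MonoidHom.mk' (fun g => ⟨_, hmem g⟩) (by
      intro g h
      apply Subtype.ext
      show (((g : GL (Unit ⊕ (Fin m ⊕ Fin m)) F) :
          Matrix (Unit ⊕ (Fin m ⊕ Fin m)) (Unit ⊕ (Fin m ⊕ Fin m)) F)
        * ((h : GL (Unit ⊕ (Fin m ⊕ Fin m)) F) :
          Matrix (Unit ⊕ (Fin m ⊕ Fin m)) (Unit ⊕ (Fin m ⊕ Fin m)) F)).toBlocks₂₂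
        = ((g : GL (Unit ⊕ (Fin m ⊕ Fin m)) F) :
          Matrix (Unit ⊕ (Fin m ⊕ Fin m)) (Unit ⊕ (Fin m ⊕ Fin m)) F).toBlocks₂₂
        * ((h : GL (Unit ⊕ (Fin m ⊕ Fin m)) F) :
          Matrix (Unit ⊕ (Fin m ⊕ Fin m)) (Unit ⊕ (Fin m ⊕ Fin m)) F).toBlocks₂₂
      have e1 := hstruct g
      have e2 := hstruct h
      conv_lhs => rw [e1, e2, oddMat_mul]
      rfl)
  have hΦ : ∀ g : ↥(Cfsg.isometryGroup F (Cfsg.quadFormOdd m F)),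
      ((Φ g : ↥(Matrix.symplecticGroup (Fin m) F)) : Matrix (Fin m ⊕ Fin m) (Fin m ⊕ Fin m) F)
        = ((g : GL (Unit ⊕ (Fin m ⊕ Fin m)) F) :
          Matrix (Unit ⊕ (Fin m ⊕ Fin m)) (Unit ⊕ (Fin m ⊕ Fin m)) F).toBlocks₂₂ := fun g => rfl
  refine ⟨MulEquiv.ofBijective Φ ⟨?_, ?_⟩⟩
  · intro g h hgh
    have hA := congrArg Subtype.val hgh
    rw [hΦ, hΦ] at hA
    have hr := hrow h
    rw [← hA] at hr
    have ha := oddMat_row_unique _ _ _ (hrow g) hr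
    apply Subtype.ext
    apply Units.ext
    rw [hstruct g, hstruct h, ha, hA]
  · rintro ⟨A, hA⟩
    obtain ⟨a, ha⟩ := exists_oddMat_row A hA
    have hdet : IsUnit (oddMat a A).det := by
      unfold oddMat
      rw [Matrix.det_fromBlocks_zero₂₁, Matrix.det_one, one_mul]
      exact SymplecticGroup.symplectic_det hA
    have hmemg : Matrix.GeneralLinearGroup.mk'' (oddMat a A) hdet
        ∈ Cfsg.isometryGroup F (Cfsg.quadFormOdd m F) := by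
      intro u _
      exact (oddMat_preserves_iff a A).2 ha u
    refine ⟨⟨_, hmemg⟩, ?_⟩
    apply Subtype.ext
    rfl

end Cfsg.Agent.S0304
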