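import Cfsg.Statements.S0307


set_option autoImplicit false
open Cfsg

namespace Cfsg.Agent.S0307

/-- PSL_n(q) is normal in PGL_n(q) with cyclic quotient of order gcd(n, q-1): the image of the natural map PSL_n → PGL_n is the kernel of a surjective homomorphism onto the cyclic group of that order. -/
theorem result {F : Type*} [Field F] [Fintype F] {q : ℕ} (hF : Fintype.card F = q) (n : ℕ) (hn : 1 ≤ n) : ∃ g : Matrix.ProjGenLinGroup (Fin n) F →* Multiplicative (ZMod (Nat.gcd n (q - 1))), Function.Surjective g ∧ g.ker = (Matrix.ProjectiveSpecialLinearGroup.toPGL : Matrix.ProjectiveSpecialLinearGroup (Fin n) F →* Matrix.ProjGenLinGroup (Fin n) F).range := by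
  classical
  have : NeZero n := ⟨by omega⟩
  have hidx : ((powMonoidHom n : Fˣ →* Fˣ).range).index = Nat.gcd n (q - 1) := by
    rw [IsCyclic.index_powMonoidHom_range, Nat.card_eq_fintype_card, Fintype.card_units, hF,
      Nat.gcd_comm]
  have hcardQ : Nat.card (Fˣ ⧸ (powMonoidHom n : Fˣ →* Fˣ).range) = Nat.gcd n (q - 1) := by
    rw [← hidx]
    rfl
  have : IsCyclic (Fˣ ⧸ (powMonoidHom n : Fˣ →* Fˣ).range) :=
    isCyclic_of_surjective (QuotientGroup.mk' _) (QuotientGroup.mk'_surjective _)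
  obtain ⟨e⟩ : Nonempty ((Fˣ ⧸ (powMonoidHom n : Fˣ →* Fˣ).range) ≃*
      Multiplicative (ZMod (Nat.gcd n (q - 1)))) := by
    have : ∀ k, Nat.card (Fˣ ⧸ (powMonoidHom n : Fˣ →* Fˣ).range) = k →
        Nonempty ((Fˣ ⧸ (powMonoidHom n : Fˣ →* Fˣ).range) ≃* Multiplicative (ZMod k)) := by
      rintro k rfl
      exact ⟨(zmodCyclicMulEquiv inferInstance).symm⟩
    exact this _ hcardQ
  have hχker : ∀ u : Fˣ, (e.toMonoidHom.comp (QuotientGroup.mk' _)) u = 1 ↔
      ∃ k : Fˣ, k ^ n = u := by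
    intro u
    show e (QuotientGroup.mk' _ u) = 1 ↔ _
    rw [MulEquiv.map_eq_one_iff, QuotientGroup.mk'_apply, QuotientGroup.eq_one_iff]
    rfl
  have hχsurj : Function.Surjective (e.toMonoidHom.comp (QuotientGroup.mk' _)) :=
    e.surjective.comp (QuotientGroup.mk'_surjective _)
  have hscalar : ((e.toMonoidHom.comp (QuotientGroup.mk' _)).comp
      Matrix.GeneralLinearGroup.det).comp (Matrix.GeneralLinearGroup.scalar (Fin n)) = 1 := by
    ext u
    show (e.toMonoidHom.comp (QuotientGroup.mk' _))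
      (Matrix.GeneralLinearGroup.det (Matrix.GeneralLinearGroup.scalar (Fin n) u)) = 1
    rw [Matrix.GeneralLinearGroup.det_scalar, hχker]
    exact ⟨u, by simp⟩
  refine ⟨Matrix.ProjGenLinGroup.lift _ hscalar, ?_, ?_⟩
  · intro z
    obtain ⟨u, rfl⟩ := hχsurj z
    obtain ⟨A, rfl⟩ := Matrix.GeneralLinearGroup.det_surjective (n := Fin n) u
    exact ⟨Matrix.ProjGenLinGroup.mk A, rfl⟩
  · ext x
    induction x using Matrix.ProjGenLinGroup.induction_on with | mk A =>
    rw [MonoidHom.mem_ker, Matrix.ProjGenLinGroup.lift_mk, MonoidHom.mem_range]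
    show (e.toMonoidHom.comp (QuotientGroup.mk' _)) (Matrix.GeneralLinearGroup.det A) = 1 ↔ _
    rw [hχker]
    constructor
    · rintro ⟨k, hk⟩
      have hk' : (k : F) ^ n = (A.1).det := by
        have := congrArg Units.val hk
        simpa using this
      have hdet : ((k⁻¹ : Fˣ).1 • A.1).det = 1 := by
        rw [Matrix.det_smul, Fintype.card_fin, ← hk', ← mul_pow]
        simp
      obtain ⟨X, hX⟩ : ∃ X : Matrix.SpecialLinearGroup (Fin n) F,
          (X : Matrix (Fin n) (Fin n) F) = (k⁻¹ : Fˣ).1 • A.1 := ⟨⟨_, hdet⟩, rfl⟩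
      refine ⟨QuotientGroup.mk X, ?_⟩
      show Matrix.ProjGenLinGroup.mk (Matrix.SpecialLinearGroup.toGL X) =
        Matrix.ProjGenLinGroup.mk A
      rw [Matrix.ProjGenLinGroup.mk_eq_mk_iff]
      refine ⟨k, Units.ext ?_⟩
      simp only [Units.val_mul, Matrix.SpecialLinearGroup.coe_GL_coe_matrix,
        Matrix.GeneralLinearGroup.coe_scalar, hX]
      simp [← Matrix.mul_smul, ← Matrix.diagonal_smul, Pi.smul_def, smul_eq_mul]
    · rintro ⟨X, hX⟩
      induction X using QuotientGroup.induction_on with | H X =>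
      have hX' : Matrix.ProjGenLinGroup.mk (Matrix.SpecialLinearGroup.toGL X) =
          Matrix.ProjGenLinGroup.mk A := hX
      rw [Matrix.ProjGenLinGroup.mk_eq_mk_iff] at hX'
      obtain ⟨u, hu⟩ := hX'
      refine ⟨u, ?_⟩
      rw [← hu, map_mul, Matrix.GeneralLinearGroup.det_scalar,
        Matrix.SpecialLinearGroup.coeToGL_det, one_mul, Fintype.card_fin]

end Cfsg.Agent.S0307
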