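import Cfsg.Statements.S0312
import Cfsg.Agent.Helper6.BN

set_option autoImplicit false
open Cfsg

namespace Cfsg.Agent.S0312

/-- Every standard parabolic subgroup of a group with a (B,N)-pair equals its own normaliser. -/
theorem result {G : Type*} [Group G] (P : Cfsg.BNPair G) {J : Set G}
    (hJ : J ⊆ P.S) : Subgroup.normalizer (P.parabolic J : Set G) = P.parabolic J := by
  apply le_antisymm
  · intro g hg
    rw [Subgroup.mem_normalizer_iff] at hg
    obtain ⟨n, hn, hgn⟩ := Cfsg.Agent.Helper6.bruhat_exists P g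
    obtain ⟨b, hb, b', hb', rfl⟩ := (Cfsg.Agent.Helper6.mem_DC P).1 hgn
    have hB := Cfsg.Agent.Helper6.B_le_parabolic P J
    have hnM : n ∈ P.parabolic J := by
      apply Cfsg.Agent.Helper6.mem_of_conj_le' P hn hB
      intro c hc
      have h1 : b'⁻¹ * c * b' ∈ P.parabolic J :=
        hB (P.B.mul_mem (P.B.mul_mem (P.B.inv_mem hb') hc) hb')
      have h2 := (hg _).1 h1
      have e : n * c * n⁻¹ = b⁻¹ * ((b * n * b') * (b'⁻¹ * c * b') * (b * n * b')⁻¹) * b := by
        group
      rw [e]
      exact Subgroup.mul_mem _ (Subgroup.mul_mem _ (Subgroup.inv_mem _ (hB hb)) h2) (hB hb)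
    exact Subgroup.mul_mem _ (Subgroup.mul_mem _ (hB hb) hnM) (hB hb')
  · exact Subgroup.le_normalizer

end Cfsg.Agent.S0312
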