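import Cfsg.Statements.S0313
import Cfsg.Agent.Helper6.BN

set_option autoImplicit false
open Cfsg

namespace Cfsg.Agent.S0313

/-- Two standard parabolic subgroups of a group with a (B,N)-pair which are conjugate in `G` coincide. -/
theorem result {G : Type*} [Group G] (P : Cfsg.BNPair G) {J K : Set G}
    (hJ : J ⊆ P.S) (hK : K ⊆ P.S) (g : G)
    (h : (P.parabolic J).map (MulAut.conj g).toMonoidHom = P.parabolic K) :
    P.parabolic J = P.parabolic K := by
  obtain ⟨n, hn, hgn⟩ := Cfsg.Agent.Helper6.bruhat_exists P g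
  obtain ⟨b, hb, b', hb', rfl⟩ := (Cfsg.Agent.Helper6.mem_DC P).1 hgn
  have hBJ := Cfsg.Agent.Helper6.B_le_parabolic P J
  have hBK := Cfsg.Agent.Helper6.B_le_parabolic P K
  have hconj : ∀ x ∈ P.parabolic J, (b * n * b') * x * (b * n * b')⁻¹ ∈ P.parabolic K := by
    intro x hx
    rw [← h]
    exact Subgroup.mem_map.2 ⟨x, hx, rfl⟩
  have hnK : n ∈ P.parabolic K := by
    apply Cfsg.Agent.Helper6.mem_of_conj_le' P hn hBK
    intro c hc
    have h1 : b'⁻¹ * c * b' ∈ P.parabolic J :=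
      hBJ (P.B.mul_mem (P.B.mul_mem (P.B.inv_mem hb') hc) hb')
    have h2 := hconj _ h1
    have e : n * c * n⁻¹ = b⁻¹ * ((b * n * b') * (b'⁻¹ * c * b') * (b * n * b')⁻¹) * b := by
      group
    rw [e]
    exact Subgroup.mul_mem _ (Subgroup.mul_mem _ (Subgroup.inv_mem _ (hBK hb)) h2) (hBK hb)
  have hgK : b * n * b' ∈ P.parabolic K :=
    Subgroup.mul_mem _ (Subgroup.mul_mem _ (hBK hb) hnK) (hBK hb')
  apply le_antisymm
  · intro x hx
    have h2 := hconj x hx
    have e : x = (b * n * b')⁻¹ * ((b * n * b') * x * (b * n * b')⁻¹) * (b * n * b') := by group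
    rw [e]
    exact Subgroup.mul_mem _ (Subgroup.mul_mem _ (Subgroup.inv_mem _ hgK) h2) hgK
  · intro x hx
    have h2 : (b * n * b') * x * (b * n * b')⁻¹ ∈ P.parabolic K :=
      Subgroup.mul_mem _ (Subgroup.mul_mem _ hgK hx) (Subgroup.inv_mem _ hgK)
    rw [← h] at h2
    obtain ⟨y, hy, hyx⟩ := Subgroup.mem_map.1 h2
    have : y = x := by
      have h3 : (b * n * b') * y * (b * n * b')⁻¹ = (b * n * b') * x * (b * n * b')⁻¹ := hyx
      exact mul_left_cancel (mul_right_cancel h3)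
    rw [← this]
    exact hy

end Cfsg.Agent.S0313
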