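import Cfsg.Statements.S0316
import Cfsg.Agent.Helper6.BN

set_option autoImplicit false
open Cfsg

namespace Cfsg.Agent.S0316

/-- The map `J ↦ P_J` is a lattice isomorphism from the power set of the set of distinguished generators onto the
subgroups containing `B`. -/
theorem result {G : Type*} [Group G] (P : Cfsg.BNPair G) :
    ∃ e : Set P.S ≃o {M : Subgroup G // P.B ≤ M},
      ∀ J : Set P.S, ((e J : {M : Subgroup G // P.B ≤ M}) : Subgroup G) = P.parabolic (Subtype.val '' J) := by
  have key : ∀ (J : Set P.S) (s : P.S), (s : G) ∈ P.parabolic (Subtype.val '' J) ↔ s ∈ J := by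
    intro J s
    constructor
    · intro h
      have hsub : (Subtype.val '' J : Set G) ⊆ P.S := by
        rintro _ ⟨t, _, rfl⟩
        exact t.2
      obtain ⟨t, ht, hts⟩ := Cfsg.Agent.Helper6.mem_of_mem_parabolic P hsub s.2 h
      have : t = s := Subtype.ext hts
      rw [← this]
      exact ht
    · intro h
      exact Cfsg.Agent.Helper6.closure_le_parabolic P _ (Subgroup.subset_closure ⟨s, h, rfl⟩)
  refine ⟨{ toFun := fun J => ⟨P.parabolic (Subtype.val '' J),
              Cfsg.Agent.Helper6.B_le_parabolic P _⟩
            invFun := fun M => {s : P.S | (s : G) ∈ M.1}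
            left_inv := ?_
            right_inv := ?_
            map_rel_iff' := ?_ }, fun J => rfl⟩
  · intro J
    ext s
    exact key J s
  · intro M
    apply Subtype.ext
    show P.parabolic (Subtype.val '' {s : P.S | (s : G) ∈ M.1}) = M.1
    have : (Subtype.val '' {s : P.S | (s : G) ∈ M.1} : Set G) = P.S ∩ (M.1 : Set G) := by
      ext x
      constructor
      · rintro ⟨s, hs, rfl⟩
        exact ⟨s.2, hs⟩
      · rintro ⟨hx, hxM⟩
        exact ⟨⟨x, hx⟩, hxM, rfl⟩
    rw [this]
    exact (Cfsg.Agent.Helper6.eq_parabolic_of_le P M.1 M.2).symm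
  · intro J K
    show P.parabolic (Subtype.val '' J) ≤ P.parabolic (Subtype.val '' K) ↔ J ≤ K
    constructor
    · intro h s hs
      exact (key K s).1 (h ((key J s).2 hs))
    · intro h
      exact Cfsg.Agent.Helper6.parabolic_mono P (Set.image_mono h)

end Cfsg.Agent.S0316
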