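import Cfsg.Statements.S0320
import Cfsg.Agent.Helper6.BN
import Cfsg.Agent.Helper6.Matsumoto

set_option autoImplicit false
open Cfsg

namespace Cfsg.Agent.S0320

/-- The Weyl group `W = N / (B ⊓ N)` of a (B,N)-pair, with its distinguished involutions, is a Coxeter system. -/
theorem result {G : Type*} [Group G] (P : Cfsg.BNPair G)
    [hN : ((P.B ⊓ P.N).subgroupOf P.N).Normal] :
    ∃ (M : CoxeterMatrix P.S) (cs : CoxeterSystem M (P.N ⧸ (P.B ⊓ P.N).subgroupOf P.N)),
      ∀ s : P.S, cs.simple s = QuotientGroup.mk (⟨(s : G), P.subset s.2⟩ : P.N) := by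
  have hinj : Function.Injective (fun s : P.S => Cfsg.Agent.Helper6.proj P (s : G)) := by
    intro s t hst
    exact Subtype.ext (Cfsg.Agent.Helper6.proj_inj_S P s.2 t.2 hst)
  have hrange : Set.range (fun s : P.S => Cfsg.Agent.Helper6.proj P (s : G)) =
      Cfsg.Agent.Helper6.SW P := by
    ext w
    constructor
    · rintro ⟨s, rfl⟩
      exact ⟨s, s.2, rfl⟩
    · rintro ⟨s, hs, rfl⟩
      exact ⟨⟨s, hs⟩, rfl⟩
  obtain ⟨M, cs, hcs⟩ := (Cfsg.Agent.Helper6.exchFamily P).exists_coxeterSystem _ hinj hrange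
  refine ⟨M, cs, fun s => ?_⟩
  have h1 := hcs s
  have h2 := Cfsg.Agent.Helper6.proj_of_mem P (P.subset s.2)
  exact h1.trans h2

end Cfsg.Agent.S0320
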