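import Cfsg.Statements.S0321
import Cfsg.Agent.Helper6.BN

set_option autoImplicit false
open Cfsg

namespace Cfsg.Agent.S0321

/-- For `n ∈ N` not in `B`, the union `B ∪ B n B` is (the underlying set of) a subgroup exactly when `n` agrees
modulo `B ⊓ N` with one of the distinguished representatives; thus the distinguished involutions are
determined by `B` and `N`. -/
theorem result {G : Type*} [Group G] (P : Cfsg.BNPair G) {n : G}
    (hn : n ∈ P.N) (hnB : n ∉ P.B) :
    (∃ H : Subgroup G, (H : Set G) = (P.B : Set G) ∪ DoubleCoset.doubleCoset n (P.B : Set G) P.B) ↔ ∃ s ∈ P.S, s⁻¹ * n ∈ P.B := by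
  constructor
  · rintro ⟨H, hH⟩
    have hBH : P.B ≤ H := by
      intro b hb
      have : b ∈ (H : Set G) := by
        rw [hH]
        exact Or.inl hb
      exact this
    have hnH : n ∈ H := by
      have : n ∈ (H : Set G) := by
        rw [hH]
        exact Or.inr (Cfsg.Agent.Helper6.DC_self P n)
      exact this
    have hHeq := Cfsg.Agent.Helper6.eq_parabolic_of_le P H hBH
    have hne : (P.S ∩ (H : Set G)).Nonempty := by
      by_contra hemp
      rw [Set.not_nonempty_iff_eq_empty] at hemp
      rw [hemp] at hHeq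
      have : H = P.B := by
        rw [hHeq]
        show P.B ⊔ Subgroup.closure ∅ = P.B
        simp
      exact hnB (this ▸ hnH)
    obtain ⟨s, hs, hsH⟩ := hne
    have : s ∈ (P.B : Set G) ∪ Cfsg.Agent.Helper6.DC P n := by
      rw [← hH]
      exact hsH
    rcases this with h | h
    · exact absurd h (Cfsg.Agent.Helper6.S_not_mem_B P hs)
    · exact ⟨s, hs, (Cfsg.Agent.Helper6.DC_eq_iff P (Cfsg.Agent.Helper6.S_mem_N P hs) hn).1
        (Cfsg.Agent.Helper6.DC_eq_of_mem P h)⟩
  · rintro ⟨s, hs, h⟩
    have hDC : DoubleCoset.doubleCoset s (P.B : Set G) P.B =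
        DoubleCoset.doubleCoset n (P.B : Set G) P.B :=
      (Cfsg.Agent.Helper6.DC_eq_iff P (Cfsg.Agent.Helper6.S_mem_N P hs) hn).2 h
    refine ⟨P.parabolic {s}, ?_⟩
    ext g
    rw [← hDC]
    simp only [SetLike.mem_coe, Set.mem_union]
    exact Cfsg.Agent.Helper6.parabolic_singleton P hs g

end Cfsg.Agent.S0321
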