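import Cfsg.Statements.S0322
import Cfsg.Agent.Helper6.BN

set_option autoImplicit false
open Cfsg

namespace Cfsg.Agent.S0322

/-- A group with a (B,N)-pair of rank one acts doubly transitively on the left cosets of `B`. -/
theorem result {G : Type*} [Group G] (P : Cfsg.BNPair G) (h : P.rank = 1) : MulAction.IsMultiplyPretransitive G (G ⧸ P.B) 2 := by
  have hcard : Nat.card P.S = 1 := h
  obtain ⟨hsub, ⟨s⟩⟩ := Nat.card_eq_one_iff_unique.1 hcard
  have hS : P.S = {(s : G)} := by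
    ext x
    constructor
    · intro hx
      have : (⟨x, hx⟩ : P.S) = s := Subsingleton.elim _ _
      exact congrArg Subtype.val this
    · intro hx
      rw [Set.mem_singleton_iff.1 hx]
      exact s.2
  have hall : ∀ g : G, g ∈ P.B ∨ g ∈ Cfsg.Agent.Helper6.DC P (s : G) := by
    intro g
    rw [← Cfsg.Agent.Helper6.parabolic_singleton P s.2 g, ← hS, Cfsg.Agent.Helper6.parabolic_S]
    trivial
  rw [MulAction.is_two_pretransitive_iff]
  intro a b c d hab hcd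
  obtain ⟨x, rfl⟩ := QuotientGroup.mk_surjective a
  obtain ⟨y, rfl⟩ := QuotientGroup.mk_surjective b
  obtain ⟨z, rfl⟩ := QuotientGroup.mk_surjective c
  obtain ⟨w, rfl⟩ := QuotientGroup.mk_surjective d
  have hxy : x⁻¹ * y ∉ P.B := fun hmem => hab (QuotientGroup.eq.2 hmem)
  have hzw : z⁻¹ * w ∉ P.B := fun hmem => hcd (QuotientGroup.eq.2 hmem)
  have h1 := (hall (x⁻¹ * y)).resolve_left hxy
  have h2 := (hall (z⁻¹ * w)).resolve_left hzw
  obtain ⟨b₁, hb₁, b₂, hb₂, e1⟩ := (Cfsg.Agent.Helper6.mem_DC P).1 h1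
  obtain ⟨b₃, hb₃, b₄, hb₄, e2⟩ := (Cfsg.Agent.Helper6.mem_DC P).1 h2
  refine ⟨z * b₃ * b₁⁻¹ * x⁻¹, ?_, ?_⟩
  · show ((z * b₃ * b₁⁻¹ * x⁻¹ * x : G) : G ⧸ P.B) = z
    rw [QuotientGroup.eq]
    have : (z * b₃ * b₁⁻¹ * x⁻¹ * x)⁻¹ * z = b₁ * b₃⁻¹ := by group
    rw [this]
    exact P.B.mul_mem hb₁ (P.B.inv_mem hb₃)
  · show ((z * b₃ * b₁⁻¹ * x⁻¹ * y : G) : G ⧸ P.B) = w
    rw [QuotientGroup.eq]
    have hy : y = x * (b₁ * s * b₂) := by
      rw [← e1]
      group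
    have hw : w = z * (b₃ * s * b₄) := by
      rw [← e2]
      group
    have : (z * b₃ * b₁⁻¹ * x⁻¹ * y)⁻¹ * w = b₂⁻¹ * b₄ := by
      rw [hy, hw]
      group
    rw [this]
    exact P.B.mul_mem (P.B.inv_mem hb₂) hb₄

end Cfsg.Agent.S0322
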