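import Cfsg.Statements.S0323


set_option autoImplicit false
open scoped Pointwise
open Cfsg

namespace Cfsg.Agent.S0323

/-- A doubly transitive action on a set with at least three points yields a (B,N)-pair of rank one:
`B` is the stabiliser of a point `x`, `N` the setwise stabiliser of a pair `{x, y}`. -/
theorem result {G Ω : Type*} [Group G] [MulAction G Ω]
    (h2 : MulAction.IsMultiplyPretransitive G Ω 2) {x y z : Ω} (hxy : x ≠ y) (hyz : y ≠ z) (hxz : x ≠ z) :
    ∃ P : Cfsg.BNPair G, P.B = MulAction.stabilizer G x ∧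
      P.N = MulAction.stabilizer G ({x, y} : Set Ω) ∧ P.rank = 1 := by
  rw [MulAction.is_two_pretransitive_iff] at h2
  obtain ⟨s, hsx, hsy⟩ := h2 hxy hxy.symm
  have hBtr : ∀ {u v : Ω}, u ≠ x → v ≠ x → ∃ b ∈ MulAction.stabilizer G x, b • u = v := by
    intro u v hu hv
    obtain ⟨g, hg1, hg2⟩ := h2 (a := x) (b := u) (c := x) (d := v) hu.symm hv.symm
    exact ⟨g, hg1, hg2⟩
  have hN : ∀ g : G, g ∈ MulAction.stabilizer G ({x, y} : Set Ω) ↔
      (g • x = x ∧ g • y = y) ∨ (g • x = y ∧ g • y = x) := by
    intro g
    rw [MulAction.mem_stabilizer_iff]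
    constructor
    · intro h
      have hx : g • x ∈ g • ({x, y} : Set Ω) := Set.smul_mem_smul_set (Set.mem_insert _ _)
      have hy : g • y ∈ g • ({x, y} : Set Ω) :=
        Set.smul_mem_smul_set (Set.mem_insert_of_mem _ rfl)
      rw [h] at hx hy
      have hne : g • x ≠ g • y := fun h => hxy (MulAction.injective g h)
      rcases hx with hx | hx <;> rcases hy with hy | hy
      · exact absurd (hx.trans hy.symm) hne
      · exact Or.inl ⟨hx, hy⟩
      · exact Or.inr ⟨hx, hy⟩
      · exact absurd (hx.trans hy.symm) hne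
    · rintro (⟨h1, h2⟩ | ⟨h1, h2⟩)
      · rw [Set.smul_set_insert, Set.smul_set_singleton, h1, h2]
      · rw [Set.smul_set_insert, Set.smul_set_singleton, h1, h2, Set.pair_comm]
  have hsN : s ∈ MulAction.stabilizer G ({x, y} : Set Ω) := (hN s).2 (Or.inr ⟨hsx, hsy⟩)
  have hB : ∀ g : G, g ∈ MulAction.stabilizer G x ↔ g • x = x := fun g =>
    MulAction.mem_stabilizer_iff
  refine ⟨{ B := MulAction.stabilizer G x
            N := MulAction.stabilizer G ({x, y} : Set Ω)
            S := {s}
            sup_eq_top := ?_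
            conj_mem := ?_
            subset := ?_
            sq_mem := ?_
            inj := ?_
            closure_sup := ?_
            mul_mem_union := ?_
            conj_ne := ?_ }, rfl, rfl, ?_⟩
  · -- sup_eq_top
    rw [eq_top_iff]
    intro g _
    by_cases hg : g • x = x
    · exact (le_sup_left : MulAction.stabilizer G x ≤ _) ((hB g).2 hg)
    · obtain ⟨b, hb, hbg⟩ := hBtr (u := g • x) (v := y) hg hxy.symm
      have h1 : s * b * g ∈ MulAction.stabilizer G x := by
        rw [hB, mul_smul, mul_smul, hbg, hsy]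
      have e : g = b⁻¹ * s⁻¹ * (s * b * g) := by group
      rw [e]
      exact Subgroup.mul_mem _ (Subgroup.mul_mem _
        ((le_sup_left : MulAction.stabilizer G x ≤ _) (Subgroup.inv_mem _ hb))
        ((le_sup_right : MulAction.stabilizer G ({x, y} : Set Ω) ≤ _) (Subgroup.inv_mem _ hsN)))
        ((le_sup_left : MulAction.stabilizer G x ≤ _) h1)
  · -- conj_mem
    intro n hn t ht
    have htx : t • x = x := (hB t).1 ht.1
    have hty : t • y = y := by
      rcases (hN t).1 ht.2 with h | h
      · exact h.2
      · exact absurd (htx.symm.trans h.1) hxy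
    have hn' := (hN n⁻¹).1 (Subgroup.inv_mem _ hn)
    have hu : t • (n⁻¹ • x) = n⁻¹ • x := by
      rcases hn' with h | h
      · rw [h.1, htx]
      · rw [h.1, hty]
    rw [hB, mul_smul, mul_smul, hu, smul_inv_smul]
  · -- subset
    intro s' hs'
    rw [Set.mem_singleton_iff.1 hs']
    exact hsN
  · -- sq_mem
    intro s' hs'
    rw [Set.mem_singleton_iff.1 hs', hB, mul_smul, hsx, hsy]
  · -- inj
    intro s₁ hs₁ s₂ hs₂ _
    rw [Set.mem_singleton_iff.1 hs₁, Set.mem_singleton_iff.1 hs₂]
  · -- closure_sup
    apply le_antisymm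
    · exact sup_le ((Subgroup.closure_le _).2 (Set.singleton_subset_iff.2 hsN)) inf_le_right
    · intro n hn
      rcases (hN n).1 hn with h | h
      · exact (le_sup_right : MulAction.stabilizer G x ⊓ MulAction.stabilizer G ({x, y} : Set Ω)
          ≤ Subgroup.closure {s} ⊔ _) ⟨(hB n).2 h.1, hn⟩
      · have h0 : s * n ∈ MulAction.stabilizer G x := by
          rw [hB, mul_smul, h.1, hsy]
        have h1 : s * n ∈ MulAction.stabilizer G x ⊓ MulAction.stabilizer G ({x, y} : Set Ω) :=
          ⟨h0, Subgroup.mul_mem _ hsN hn⟩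
        have e : n = s⁻¹ * (s * n) := by group
        rw [e]
        exact Subgroup.mul_mem _
          ((le_sup_left : Subgroup.closure {s} ≤ _)
            (Subgroup.inv_mem _ (Subgroup.subset_closure rfl)))
          ((le_sup_right : MulAction.stabilizer G x ⊓
            MulAction.stabilizer G ({x, y} : Set Ω) ≤ Subgroup.closure {s} ⊔ _) h1)
  · -- mul_mem_union
    intro s' hs' n hn b hb
    rw [Set.mem_singleton_iff.1 hs']
    have hbx : b • x = x := (hB b).1 hb
    rcases (hN n).1 hn with h | h
    · left
      rw [DoubleCoset.mem_doubleCoset]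
      refine ⟨1, Subgroup.one_mem _, (s * n)⁻¹ * (s * b * n), ?_, by group⟩
      show (s * n)⁻¹ * (s * b * n) ∈ MulAction.stabilizer G x
      rw [hB, mul_smul, mul_smul, mul_smul, h.1, hbx, hsx, inv_smul_eq_iff, mul_smul, h.1, hsx]
    · by_cases hv : b • y = y
      · left
        rw [DoubleCoset.mem_doubleCoset]
        refine ⟨1, Subgroup.one_mem _, (s * n)⁻¹ * (s * b * n), ?_, by group⟩
        show (s * n)⁻¹ * (s * b * n) ∈ MulAction.stabilizer G x
        rw [hB, mul_smul, mul_smul, mul_smul, h.1, hv, hsy, inv_smul_eq_iff, mul_smul, h.1, hsy]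
      · right
        have hvx : b • y ≠ x := by
          intro h'
          apply hxy
          have : b • y = b • x := by rw [h', hbx]
          exact (MulAction.injective b this).symm
        have hux : s • (b • y) ≠ x := by
          intro h'
          apply hv
          have : s • (b • y) = s • y := by rw [h', hsy]
          exact MulAction.injective s this
        obtain ⟨b₁, hb₁, hb₁y⟩ := hBtr (u := y) (v := s • (b • y)) hxy.symm hux
        rw [DoubleCoset.mem_doubleCoset]
        refine ⟨b₁, hb₁, (b₁ * n)⁻¹ * (s * b * n), ?_, by group⟩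
        show (b₁ * n)⁻¹ * (s * b * n) ∈ MulAction.stabilizer G x
        rw [hB, mul_smul, mul_smul, mul_smul, h.1, inv_smul_eq_iff, mul_smul, h.1, hb₁y]
  · -- conj_ne
    intro s' hs' heq
    rw [Set.mem_singleton_iff.1 hs'] at heq
    obtain ⟨b, hb, hby⟩ := hBtr (u := y) (v := z) hxy.symm hxz.symm
    have hmem : s * b * s ∈ (fun b : G => s * b * s) '' (MulAction.stabilizer G x : Set G) :=
      ⟨b, hb, rfl⟩
    rw [heq] at hmem
    have h1 : (s * b * s) • x = x := (hB _).1 hmem
    rw [mul_smul, mul_smul, hsx, hby] at h1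
    have : s • z = s • y := by rw [h1, hsy]
    exact hyz (MulAction.injective s this).symm
  · -- rank
    show Nat.card ({s} : Set G) = 1
    simp

end Cfsg.Agent.S0323
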