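import Cfsg.Statements.S0328
import Cfsg.Agent.Helper6.Suzuki2
open Cfsg.Agent.Helper6

set_option autoImplicit false
open Cfsg

namespace Cfsg.Agent.S0328

/-- The stabiliser in the Suzuki group of the two ovoid points spanned by `(1,0,0,0)` and `(0,0,0,1)` is
isomorphic to the multiplicative group of the field (cyclic of order `q - 1`). -/
theorem result {F : Type*} [Field F] [Fintype F] {m : ℕ} (hm : 1 ≤ m)
    (hF : Fintype.card F = 2 ^ (2 * m + 1)) :
    Nonempty (↥(MulAction.stabilizer (Cfsg.Sz F m) (Cfsg.suzukiPointInfinity F) ⊓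
        MulAction.stabilizer (Cfsg.Sz F m) (Cfsg.suzukiPointZero F)) ≃* Fˣ) := by
  classical
  have hchar := sz_charP hF
  let φ : Fˣ →* (Cfsg.Sz F m) := (szDhom F m).codRestrict (Cfsg.Sz F m) (fun t => szD_mem hF t)
  have hφS : ∀ t, φ t ∈ MulAction.stabilizer (Cfsg.Sz F m) (Cfsg.suzukiPointInfinity F) ⊓
      MulAction.stabilizer (Cfsg.Sz F m) (Cfsg.suzukiPointZero F) := by
    intro t
    refine Subgroup.mem_inf.2 ⟨?_, ?_⟩
    · rw [MulAction.mem_stabilizer_iff]
      exact szD_smul_inf t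
    · rw [MulAction.mem_stabilizer_iff, ← szP_zero (m := m)]
      exact szD_smul_zero hF t
  let ψ : Fˣ →* ↥(MulAction.stabilizer (Cfsg.Sz F m) (Cfsg.suzukiPointInfinity F) ⊓
      MulAction.stabilizer (Cfsg.Sz F m) (Cfsg.suzukiPointZero F)) := φ.codRestrict _ hφS
  have hbij : Function.Bijective ψ := by
    constructor
    · intro s t h
      have h1 : (ψ s).1.1 = (ψ t).1.1 := by rw [h]
      exact szD_injective h1
    · rintro ⟨⟨g, hg⟩, hx⟩
      obtain ⟨h1, h2⟩ := Subgroup.mem_inf.1 hx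
      rw [MulAction.mem_stabilizer_iff] at h1 h2
      rw [← szP_zero (m := m)] at h2
      obtain ⟨t, ht⟩ := sz_fix_two hm hF hg h1 h2
      refine ⟨t, ?_⟩
      apply Subtype.ext
      apply Subtype.ext
      exact ht.symm
  exact ⟨(MulEquiv.ofBijective ψ hbij).symm⟩

end Cfsg.Agent.S0328
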