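import Cfsg.Statements.S0332
import Cfsg.Agent.Helper6.Suzuki9

set_option autoImplicit false
open Cfsg

namespace Cfsg.Agent.S0332

/-- The Suzuki group is a CN-group: every non-identity element has nilpotent centraliser. -/
theorem result {F : Type*} [Field F] [Fintype F] {m : ℕ} (hm : 1 ≤ m)
    (hF : Fintype.card F = 2 ^ (2 * m + 1)) : Cfsg.IsCNGroup (Cfsg.Sz F m) := by
  intro g hg1
  have hchar := Cfsg.Agent.Helper6.sz_charP hF
  have key := Cfsg.Agent.Helper6.szCN_all hm hF g.2 (fun h => hg1 (Subtype.ext h))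
  have comm : ∀ c : Subgroup.centralizer ({g} : Set (Cfsg.Sz F m)),
      (c.1.1 : Matrix.SpecialLinearGroup (Fin 4) F) * g.1 = g.1 * c.1.1 := fun c =>
    (congrArg Subtype.val (Subgroup.mem_centralizer_iff.1 c.2 g rfl)).symm
  rcases key with H | H
  · have hcomm : IsMulCommutative (Subgroup.centralizer ({g} : Set (Cfsg.Sz F m))) := ⟨⟨fun a b => by
      apply Subtype.ext
      apply Subtype.ext
      exact H a.1.1 b.1.1 a.1.2 b.1.2 (comm a) (comm b)⟩⟩
    exact ⟨⟨1, Subgroup.upperCentralSeries_one_eq_top_iff.2 hcomm⟩⟩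
  · have hp : IsPGroup 2 (Subgroup.centralizer ({g} : Set (Cfsg.Sz F m))) := fun c => ⟨2, by
      apply Subtype.ext
      apply Subtype.ext
      exact H c.1.1 c.1.2 (comm c)⟩
    have : Fact (Nat.Prime 2) := ⟨Nat.prime_two⟩
    exact hp.isNilpotent

end Cfsg.Agent.S0332
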