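import Cfsg.Statements.S0333
import Cfsg.Agent.Helper6.SzTori3

set_option autoImplicit false
open Cfsg

namespace Cfsg.Agent.S0333

/-- With `q = 2^(2m+1)` and `r = 2^m`, the Suzuki group has cyclic subgroups of orders `q + 2r + 1` and
`q - 2r + 1`; each is the centraliser of each of its non-identity elements and has index `4` in its normaliser. -/
theorem result {F : Type*} [Field F] [Fintype F] {m : ℕ} (hm : 1 ≤ m)
    (hF : Fintype.card F = 2 ^ (2 * m + 1)) :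
    ∀ k ∈ ({2 ^ (2 * m + 1) + 2 ^ (m + 1) + 1, 2 ^ (2 * m + 1) - 2 ^ (m + 1) + 1} : Set ℕ),
      ∃ U : Subgroup (Cfsg.Sz F m), IsCyclic U ∧ Nat.card U = k ∧
        (∀ u ∈ U, u ≠ 1 → Subgroup.centralizer {u} = U) ∧ Nat.card (Subgroup.normalizer (U : Set (Cfsg.Sz F m))) = 4 * k := by
  have hchar := Cfsg.Agent.Helper6.sz_charP hF
  obtain ⟨g₁, g₂, hg₁, hg₂, hc₁, hc₂, hN₁, hN₂, -⟩ := Cfsg.Agent.Helper6.sz_tori_main hm hF
  intro k hk
  rcases hk with rfl | hk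
  · exact ⟨Subgroup.centralizer {g₁}, Cfsg.Agent.Helper6.szTor_cyclic hm hF hg₁, hc₁,
      fun u hu hu1 => Cfsg.Agent.Helper6.ti_cent_eq (Cfsg.Agent.Helper6.szE_tiData hm hF) hg₁ hu hu1,
      by rw [hN₁, hc₁]⟩
  · rw [Set.mem_singleton_iff] at hk
    subst hk
    exact ⟨Subgroup.centralizer {g₂}, Cfsg.Agent.Helper6.szTor_cyclic hm hF hg₂, hc₂,
      fun u hu hu1 => Cfsg.Agent.Helper6.ti_cent_eq (Cfsg.Agent.Helper6.szE_tiData hm hF) hg₂ hu hu1,
      by rw [hN₂, hc₂]⟩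

end Cfsg.Agent.S0333
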