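import Cfsg.Statements.S0339
import Cfsg.Agent.Helper6.Zass

set_option autoImplicit false
open Cfsg

namespace Cfsg.Agent.S0339

/-- A non-trivial normal subgroup of a Zassenhaus group is itself a Zassenhaus group on the same set. -/
theorem result {G Ω : Type*} [Group G] [MulAction G Ω] [Finite Ω]
    (hZ : Cfsg.IsZassenhausGroup G Ω) (N : Subgroup G) [N.Normal] (hN : N ≠ ⊥) :
    Cfsg.IsZassenhausGroup N Ω := by
  exact Cfsg.Agent.Helper6.zs_normal_zassenhaus hZ N hN

end Cfsg.Agent.S0339
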