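import Cfsg.Statements.S0344
import Cfsg.Agent.S0741
import Cfsg.Agent.S0729
import Cfsg.Agent.Helper13.Zass
import Cfsg.Agent.Helper66.ZassPSL
import Cfsg.Agent.Helper66.Sharp3Simple

set_option autoImplicit false
open Cfsg

namespace Cfsg.Agent.S0344

/-- A finite simple Zassenhaus group with a two-point stabiliser of even order is isomorphic to `PSL₂(F)` for a finite
field `F` with more than three elements. -/
theorem result {G Ω : Type*} [Group G] [Finite G] [MulAction G Ω] [Finite Ω]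
    (hZ : Cfsg.IsZassenhausGroup G Ω) [IsSimpleGroup G]
    {a b : Ω} (hab : a ≠ b) (heven : Even (Nat.card ↥(MulAction.stabilizer G a ⊓ MulAction.stabilizer G b))) :
    ∃ (F : Type) (_ : Field F) (_ : Fintype F), 3 < Fintype.card F ∧ Nonempty (G ≃* Matrix.ProjectiveSpecialLinearGroup (Fin 2) F) := by
  classical
  have := Fintype.ofFinite Ω
  have heven0 := heven
  obtain ⟨H, hH⟩ : ∃ H : Subgroup G,
      H = MulAction.stabilizer G a ⊓ MulAction.stabilizer G b := ⟨_, rfl⟩
  rw [← hH] at heven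
  have hHmem : ∀ x : G, x ∈ H ↔ x • a = a ∧ x • b = b := by
    intro x
    rw [hH, Subgroup.mem_inf, MulAction.mem_stabilizer_iff, MulAction.mem_stabilizer_iff]
  have h1 : Fintype.card Ω - 2 ≤ 2 * Nat.card H := by
    rw [hH]; exact Cfsg.Agent.S0741.result hZ hab heven0
  have h3le : 3 ≤ Fintype.card Ω := by
    have := Cfsg.Agent.Helper15.zass_three_le_card hZ
    rwa [Nat.card_eq_fintype_card] at this
  -- `|H|` divides `|Ω| - 2`
  have hXmem : ∀ x : Ω, x ∈ ((Finset.univ \ {a, b} : Finset Ω) : Set Ω) ↔ x ≠ a ∧ x ≠ b := by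
    intro x
    simp [not_or]
  let X : SubMulAction H Ω :=
    { carrier := ((Finset.univ \ {a, b} : Finset Ω) : Set Ω)
      smul_mem' := by
        rintro ⟨h, hh⟩ x hx
        rw [hXmem] at hx ⊢
        obtain ⟨hha, hhb⟩ := (hHmem h).mp hh
        refine ⟨?_, ?_⟩
        · intro h'
          have h'' : h • x = h • a := by rw [hha]; exact h'
          exact hx.1 (MulAction.injective h h'')
        · intro h'
          have h'' : h • x = h • b := by rw [hhb]; exact h'
          exact hx.2 (MulAction.injective h h'') }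
  have hfree : ∀ (h : H) (y : X), h • y = y → h = 1 := by
    intro h y hy
    have hy' : (h : G) • (y : Ω) = y := congrArg Subtype.val hy
    have hy2 : (y : Ω) ∈ ((Finset.univ \ {a, b} : Finset Ω) : Set Ω) := y.2
    obtain ⟨hya, hyb⟩ := (hXmem _).mp hy2
    obtain ⟨hha, hhb⟩ := (hHmem _).mp h.2
    apply Subtype.ext
    exact Cfsg.Agent.Helper15.zass_eq_one_of_fix_three hZ hab (Ne.symm hyb) (Ne.symm hya)
      hha hhb hy'
  have hdvd := Cfsg.Agent.Helper13.card_dvd_of_free hfree
  have hXcard : Nat.card X = Fintype.card Ω - 2 := by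
    change Nat.card ((Finset.univ \ {a, b} : Finset Ω) : Set Ω) = _
    rw [Nat.card_coe_set_eq, Set.ncard_coe_finset, Finset.card_univ_sdiff, Finset.card_pair hab]
  rw [hXcard] at hdvd
  obtain ⟨m, hm⟩ := hdvd
  have hdpos : 0 < Nat.card H := Nat.card_pos
  obtain ⟨r, hr⟩ := heven
  have hm12 : m = 1 ∨ m = 2 := by
    have hm0 : m ≠ 0 := by
      rintro rfl
      rw [mul_zero] at hm
      omega
    have hm2 : m ≤ 2 := by
      by_contra hcon
      push Not at hcon
      have : Nat.card H * 3 ≤ Nat.card H * m := Nat.mul_le_mul_left _ hcon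
      omega
    omega
  rcases hm12 with rfl | rfl
  · -- the sharply 3-transitive case is impossible
    exfalso
    have hd1 : Nat.card ↥(MulAction.stabilizer G a ⊓ MulAction.stabilizer G b) + 2 =
        Fintype.card Ω := by
      rw [← hH]; omega
    have hEvenΩ : Even (Fintype.card Ω) := by
      rw [← hd1, ← hH, hr]; exact ⟨r + 1, by ring⟩
    obtain ⟨c, hca, hcb⟩ := Cfsg.Agent.Helper6.zs_exists_ne₂ hZ a b
    by_cases h6 : 6 ≤ Fintype.card Ω
    · obtain ⟨G', hsimp, h3', hsharp'⟩ := Cfsg.Agent.Helper66.zass_sharp3_perm hZ hab hd1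
      obtain ⟨s, hsa, hsb, hsc⟩ := Cfsg.Agent.S0728.trans3 G' h3' hab (Ne.symm hca) (Ne.symm hcb)
        (Ne.symm hab) (Ne.symm hcb) (Ne.symm hca)
      obtain ⟨N, hNle, hNn, hNidx, hNs⟩ := Cfsg.Agent.S0729.result hEvenΩ h6 G' h3' hsharp' hab
        (Ne.symm hca) (Ne.symm hcb) s hsa hsb hsc
      exact Cfsg.Agent.Helper66.sharp3_perm_not_simple G' h3' hsharp' hab (Ne.symm hca)
        (Ne.symm hcb) s hsa hsb hsc N hNidx hNs
    · have hH2 : Nat.card H = 2 := by omega
      have htr := Cfsg.Agent.Helper66.zass_sharp3_trans hZ hab hd1 hca hcb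
      obtain ⟨s₁, hs₁a, hs₁b⟩ := Cfsg.Agent.Helper15.zass_two_trans hZ hab (Ne.symm hab)
      have hx1 : s₁ • c ≠ a := by
        rw [← hs₁b]; exact fun h => hcb (MulAction.injective s₁ h)
      have hx2 : s₁ • c ≠ b := by
        rw [← hs₁a]; exact fun h => hca (MulAction.injective s₁ h)
      obtain ⟨k, hka, hkb, hkc⟩ := htr _ hx1 hx2
      have hsa : (k⁻¹ * s₁) • a = b := by rw [mul_smul, hs₁a, inv_smul_eq_iff, hkb]
      have hsb : (k⁻¹ * s₁) • b = a := by rw [mul_smul, hs₁b, inv_smul_eq_iff, hka]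
      have hsc : (k⁻¹ * s₁) • c = c := by rw [mul_smul, inv_smul_eq_iff, hkc]
      refine Cfsg.Agent.Helper66.sharp3_not_simple (G := G) (Ω := Ω) hZ.2.2.1 hab (Ne.symm hca)
        (Ne.symm hcb) htr (k⁻¹ * s₁) hsa hsb hsc ⊥ ?_ ?_
      · rw [Subgroup.relIndex_bot_left, ← hH]; exact hH2
      · intro n hn
        rw [Subgroup.mem_bot] at hn ⊢
        rw [hn, mul_one, mul_inv_cancel]
  · have hd2 : 2 * Nat.card ↥(MulAction.stabilizer G a ⊓ MulAction.stabilizer G b) + 2 =
        Fintype.card Ω := by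
      rw [← hH]; omega
    obtain ⟨p, f, K, instF, instFt, hp, hp2, hKpf, hΩ, hres⟩ :=
      Cfsg.Agent.Helper66.zass_psl hZ hab heven0 hd2
    refine ⟨K, instF, instFt, ?_, hres⟩
    rw [← hH] at hd2
    omega

end Cfsg.Agent.S0344
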