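import Cfsg.Statements.S0347
import Cfsg.Agent.Helper66.SuzAsm

set_option autoImplicit false
open Cfsg

namespace Cfsg.Agent.S0347

theorem result {G Ω : Type*} [Group G] [Finite G] [MulAction G Ω] [Finite Ω]
    (hZ : Cfsg.IsZassenhausGroup G Ω) [IsSimpleGroup G]
    (x : Ω) (U : Subgroup G) (hUle : U ≤ MulAction.stabilizer G x) (hUn : (U.subgroupOf (MulAction.stabilizer G x)).Normal)
    (hU2 : IsPGroup 2 U) (hUna : ∃ u v : U, u * v ≠ v * u)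
    (hreg : ∀ y z : Ω, y ≠ x → z ≠ x → ∃! u : U, (u : G) • y = z) :
    Cfsg.IsSuzuki G := by
  have h3 := Cfsg.Agent.Helper15.zass_three_le_card hZ
  have hnt : Nontrivial Ω := by
    rw [← Finite.one_lt_card_iff_nontrivial]
    omega
  obtain ⟨b, hb⟩ := exists_ne x
  have hab : x ≠ b := hb.symm
  have hUn' : ∀ h ∈ MulAction.stabilizer G x, ∀ u ∈ U, h * u * h⁻¹ ∈ U := by
    intro h hh u hu
    have h1 : (⟨u, hUle hu⟩ : MulAction.stabilizer G x) ∈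
        U.subgroupOf (MulAction.stabilizer G x) := Subgroup.mem_subgroupOf.mpr hu
    have h2 := hUn.conj_mem _ h1 ⟨h, hh⟩
    exact Subgroup.mem_subgroupOf.mp h2
  have hUna' : ∃ u ∈ U, ∃ v ∈ U, u * v ≠ v * u := by
    obtain ⟨u, v, huv⟩ := hUna
    exact ⟨u.1, u.2, v.1, v.2, fun h => huv (Subtype.ext h)⟩
  obtain ⟨n, hodd, hn1, hΩ, hE, -, -, -⟩ :=
    Cfsg.Agent.Helper66.SuzOrd.suz_core hZ hab U hUle hUn' hreg hU2 hUna'
  have hG := Cfsg.Agent.Helper15.zass_card_group hZ hab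
  obtain ⟨m, rfl⟩ := hodd
  refine ⟨inferInstance, m, by omega, ?_⟩
  rw [hG, hΩ, hE]
  have e1 : 2 ^ (2 * (2 * m + 1)) = (2 ^ (2 * m + 1)) ^ 2 := by
    rw [← pow_mul, mul_comm]
  rw [e1]
  have e2 : (2 ^ (2 * m + 1)) ^ 2 + 1 - 1 = (2 ^ (2 * m + 1)) ^ 2 := by omega
  rw [e2]
  ring

end Cfsg.Agent.S0347
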