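import Cfsg.Statements.S0340
import Cfsg.Agent.Helper66.ZassFinal
import Cfsg.Agent.S0344
import Cfsg.Agent.S0347
import Cfsg.Agent.S0885
import Cfsg.Agent.Helper71.ZassBraid
import Cfsg.Agent.Helper6.Zass

set_option autoImplicit false
open Cfsg

namespace Cfsg.Agent.S0340

theorem result {G Ω : Type*} [Group G] [Finite G] [MulAction G Ω]
    [Finite Ω] (hZ : Cfsg.IsZassenhausGroup G Ω) [IsSimpleGroup G] :
    (∃ (F : Type) (_ : Field F) (_ : Fintype F), Nonempty (G ≃* Matrix.ProjectiveSpecialLinearGroup (Fin 2) F)) ∨ Cfsg.IsSuzuki G := by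
  classical
  have := Fintype.ofFinite Ω
  obtain ⟨g, -, a, b, hab, -, -⟩ := hZ.2.2.2.1
  by_cases heven : Even (Nat.card ↥(MulAction.stabilizer G a ⊓ MulAction.stabilizer G b))
  · obtain ⟨F, i1, i2, -, h⟩ := Cfsg.Agent.S0344.result hZ hab heven
    exact Or.inl ⟨F, i1, i2, h⟩
  · have hodd : Odd (Nat.card ↥(MulAction.stabilizer G a ⊓ MulAction.stabilizer G b)) :=
      Nat.not_even_iff_odd.mp heven
    obtain ⟨K, hKa, hKn, hKfree, hKtr⟩ := Cfsg.Agent.Helper6.zs_kernel hZ a
    have hKle : K ≤ MulAction.stabilizer G a := fun k hk => hKa k hk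
    have hreg : ∀ c d : Ω, c ≠ a → d ≠ a → ∃! u : K, (u : G) • c = d := by
      intro c d hc hd
      obtain ⟨k, hk, hkc⟩ := hKtr c d hc hd
      refine ⟨⟨k, hk⟩, hkc, ?_⟩
      rintro ⟨k', hk'⟩ hk'c
      have hk'c' : k' • c = d := hk'c
      have h0 : (k⁻¹ * k') • c = c := by rw [mul_smul, hk'c', ← hkc, inv_smul_smul]
      have h1 : k⁻¹ * k' = 1 := by
        by_contra hne
        exact hKfree _ (K.mul_mem (K.inv_mem hk) hk') hne c hc h0
      exact Subtype.ext (inv_mul_eq_one.mp h1).symm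
    have hcard : Nat.card K + 1 = Nat.card Ω :=
      Cfsg.Agent.Helper71.ZassBraid.card_reg K hKle hreg (Ne.symm hab)
    have hfix : ∀ u ∈ K, u ≠ 1 → ∀ c : Ω, u • c = c → c = a := by
      intro u hu hu1 c hc
      by_contra hca
      exact hKfree u hu hu1 c hca hc
    have h3 := Cfsg.Agent.Helper15.zass_three_le_card hZ
    rw [Nat.card_eq_fintype_card] at h3
    rw [Nat.card_eq_fintype_card (α := Ω)] at hcard
    have hh : Fintype.card Ω = (Fintype.card Ω - 1) + 1 := by omega
    rcases Cfsg.Agent.S0885.result hZ hab (Fintype.card Ω - 1) _ hh rfl hodd K hKle hcard hfix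
      with h | ⟨hK2, hKna, -⟩
    · left
      apply Cfsg.Agent.Helper66.zass_odd_small hZ hab hodd
      have e1 : Fintype.card Ω - 1 - 1 = Fintype.card Ω - 2 := by omega
      rw [← e1]
      exact h
    · right
      have hKn' : (K.subgroupOf (MulAction.stabilizer G a)).Normal := by
        constructor
        intro n hn g
        rw [Subgroup.mem_subgroupOf] at hn ⊢
        exact hKn g g.2 n hn
      exact Cfsg.Agent.S0347.result hZ a K hKle hKn' hK2 hKna hreg

end Cfsg.Agent.S0340
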