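import Cfsg.Statements.S0346
import Cfsg.Agent.Helper71.ZassPrimePow
import Cfsg.Agent.S0885

set_option autoImplicit false
open Cfsg

namespace Cfsg.Agent.S0346

/-- The number of points of a finite simple Zassenhaus group is `p^k + 1` for some prime power `p^k` (the regular normal
subgroup of a point stabiliser is a `p`-group). -/
theorem result {G Ω : Type*} [Group G] [Finite G] [MulAction G Ω] [Fintype Ω]
    (hZ : Cfsg.IsZassenhausGroup G Ω) [IsSimpleGroup G] :
    IsPrimePow (Fintype.card Ω - 1) := by
  classical
  have h3 := Cfsg.Agent.Helper15.zass_three_le_card hZ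
  rw [Nat.card_eq_fintype_card] at h3
  rw [← Nat.card_eq_fintype_card]
  apply Cfsg.Agent.Helper71.ZassPP.main hZ
  intro a b hab hodd H hHa hHcard hHfix
  have hh : Fintype.card Ω = (Fintype.card Ω - 1) + 1 := by omega
  have hHcard' : Nat.card H + 1 = Fintype.card Ω := by
    rw [hHcard, Nat.card_eq_fintype_card]
  rcases Cfsg.Agent.S0885.result hZ hab (Fintype.card Ω - 1) _ hh rfl hodd H hHa hHcard' hHfix
    with h | ⟨h, -, -⟩
  · left
    rw [Nat.card_eq_fintype_card]
    have : Fintype.card Ω - 1 - 1 = Fintype.card Ω - 2 := by omega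
    rw [← this]
    exact h
  · right
    exact h

end Cfsg.Agent.S0346
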