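import Cfsg.Statements.S0351
import Cfsg.Agent.Helper6.Steiner

set_option autoImplicit false
open Cfsg

namespace Cfsg.Agent.S0351

/-- Derived design: removing a point p from the blocks through p of an S(t+1, k+1, v) yields an S(t, k, v-1) on the points other than p. -/
theorem result {α : Type*} [Fintype α] [DecidableEq α] {t k : ℕ} {B : Set (Finset α)} (hB : Cfsg.IsSteinerSystem (t + 1) (k + 1) B) (p : α) : Cfsg.IsSteinerSystem t k {b' : Finset {a : α // a ≠ p} | ∃ b ∈ B, p ∈ b ∧ b' = Finset.subtype (fun a => a ≠ p) b} := by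
  constructor
  · rintro b' ⟨b, hb, hpb, rfl⟩
    rw [Finset.card_subtype]
    have : b.filter (fun a => a ≠ p) = b.erase p := by
      ext x
      simp [and_comm]
    rw [this, Finset.card_erase_of_mem hpb, hB.1 b hb]
    rfl
  · intro s hs
    have hpn : p ∉ s.map (Function.Embedding.subtype _) := by
      intro hmem
      rw [Finset.mem_map] at hmem
      obtain ⟨x, _, hx⟩ := hmem
      exact x.2 hx
    have hcard : (insert p (s.map (Function.Embedding.subtype _))).card = t + 1 := by
      rw [Finset.card_insert_of_notMem hpn, Finset.card_map, hs]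
    obtain ⟨b, hb, huniq⟩ := hB.2 _ hcard
    have hpb : p ∈ b := hb.2 (Finset.mem_insert_self _ _)
    refine ⟨Finset.subtype (fun a => a ≠ p) b, ⟨⟨b, hb.1, hpb, rfl⟩, ?_⟩, ?_⟩
    · intro x hx
      rw [Finset.mem_subtype]
      apply hb.2
      apply Finset.mem_insert_of_mem
      rw [Finset.mem_map]
      exact ⟨x, hx, rfl⟩
    · rintro b'' ⟨⟨b₂, hb₂, hpb₂, rfl⟩, hsub⟩
      have : b₂ = b := by
        apply huniq
        refine ⟨hb₂, ?_⟩
        intro x hx
        rw [Finset.mem_insert] at hx
        rcases hx with rfl | hx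
        · exact hpb₂
        · rw [Finset.mem_map] at hx
          obtain ⟨y, hy, rfl⟩ := hx
          have := hsub hy
          rw [Finset.mem_subtype] at this
          exact this
      rw [this]

end Cfsg.Agent.S0351
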