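import Cfsg.Statements.S0352
import Cfsg.Agent.Helper6.Steiner

set_option autoImplicit false
open Cfsg

namespace Cfsg.Agent.S0352

/-- In a Steiner system S(5, 8, 24), two distinct blocks intersect in 0, 2 or 4 points. -/
theorem result {α : Type*} [Fintype α] [DecidableEq α] (hα : Fintype.card α = 24) {B : Set (Finset α)} (hB : Cfsg.IsSteinerSystem 5 8 B) {b c : Finset α} (hb : b ∈ B) (hc : c ∈ B) (hbc : b ≠ c) : (b ∩ c).card = 0 ∨ (b ∩ c).card = 2 ∨ (b ∩ c).card = 4 := by
  have h1 := Cfsg.Agent.Helper6.steiner_moment_erase' hB hb 1 (by norm_num) hα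
    (A := 8) (C := 35) (D := 8855) (by decide) (by decide) (by decide)
  have h2 := Cfsg.Agent.Helper6.steiner_moment_erase' hB hb 2 (by norm_num) hα
    (A := 28) (C := 20) (D := 1540) (by decide) (by decide) (by decide)
  have h3 := Cfsg.Agent.Helper6.steiner_moment_erase' hB hb 3 (by norm_num) hα
    (A := 56) (C := 10) (D := 210) (by decide) (by decide) (by decide)
  have h4 := Cfsg.Agent.Helper6.steiner_moment_erase' hB hb 4 (by norm_num) hα
    (A := 70) (C := 4) (D := 20) (by decide) (by decide) (by decide)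
  have hle : ∀ c ∈ (Cfsg.Agent.Helper6.blocksF B).erase b,
      6 * Nat.choose (b ∩ c).card 2 + 24 * Nat.choose (b ∩ c).card 4 ≤
        3 * Nat.choose (b ∩ c).card 1 + 12 * Nat.choose (b ∩ c).card 3 := by
    intro c hc
    rw [Finset.mem_erase, Cfsg.Agent.Helper6.mem_blocksF] at hc
    have hlt := Cfsg.Agent.Helper6.steiner_inter_lt hB hb hc.2 (Ne.symm hc.1)
    interval_cases h : (b ∩ c).card <;> decide
  have hsum : ∑ c ∈ (Cfsg.Agent.Helper6.blocksF B).erase b,
      (6 * Nat.choose (b ∩ c).card 2 + 24 * Nat.choose (b ∩ c).card 4) =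
      ∑ c ∈ (Cfsg.Agent.Helper6.blocksF B).erase b,
        (3 * Nat.choose (b ∩ c).card 1 + 12 * Nat.choose (b ∩ c).card 3) := by
    simp only [Finset.sum_add_distrib, ← Finset.mul_sum]
    omega
  have key := (Finset.sum_eq_sum_iff_of_le hle).1 hsum c
    (Finset.mem_erase.2 ⟨Ne.symm hbc, Cfsg.Agent.Helper6.mem_blocksF.2 hc⟩)
  have hlt := Cfsg.Agent.Helper6.steiner_inter_lt hB hb hc hbc
  interval_cases h : (b ∩ c).card <;> simp [Nat.choose] at key ⊢

end Cfsg.Agent.S0352
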