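import Cfsg.Statements.S0353
import Cfsg.Agent.Helper6.Steiner
import Cfsg.Agent.S0352

set_option autoImplicit false
open Cfsg

namespace Cfsg.Agent.S0353

theorem card_inter_split {α : Type*} [DecidableEq α] (b c e : Finset α) :
    (b ∩ e).card = ((b \ c) ∩ e).card + ((b ∩ c) ∩ e).card := by
  rw [← Finset.card_union_of_disjoint]
  · congr 1
    ext x
    simp only [Finset.mem_inter, Finset.mem_union, Finset.mem_sdiff]
    tauto
  · rw [Finset.disjoint_left]
    intro x hx hx'
    simp only [Finset.mem_inter, Finset.mem_sdiff] at hx hx'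
    exact hx.1.2 hx'.1.2

/-- In an S(5, 8, 24), the symmetric difference of two blocks meeting in four points is a block. -/
theorem result {α : Type*} [Fintype α] [DecidableEq α] (hα : Fintype.card α = 24) {B : Set (Finset α)} (hB : Cfsg.IsSteinerSystem 5 8 B) {b c : Finset α} (hb : b ∈ B) (hc : c ∈ B) (h4 : (b ∩ c).card = 4) : symmDiff b c ∈ B := by
  have hbcard := hB.1 b hb
  have hccard := hB.1 c hc
  have hbc : b ≠ c := by
    intro h
    rw [h, Finset.inter_self, hccard] at h4
    omega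
  have I : ∀ {d e : Finset α}, d ∈ B → e ∈ B → d ≠ e →
      (d ∩ e).card = 0 ∨ (d ∩ e).card = 2 ∨ (d ∩ e).card = 4 :=
    fun hd he hne => Cfsg.Agent.S0352.result hα hB hd he hne
  have hlt : ∀ {d e : Finset α}, d ∈ B → e ∈ B → d ≠ e → (d ∩ e).card < 5 :=
    fun hd he hne => Cfsg.Agent.Helper6.steiner_inter_lt hB hd he hne
  have hX : (b \ c).card = 4 := by
    have := Finset.card_sdiff_add_card_inter b c
    omega
  have hY : (c \ b).card = 4 := by
    have := Finset.card_sdiff_add_card_inter c b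
    rw [Finset.inter_comm] at this
    omega
  have hcb : c ∩ b = b ∩ c := Finset.inter_comm c b
  have hXc : ∀ x ∈ b \ c, x ∉ c := fun x hx => (Finset.mem_sdiff.1 hx).2
  have hXb : ∀ x ∈ b \ c, x ∈ b := fun x hx => (Finset.mem_sdiff.1 hx).1
  have hYb : ∀ x ∈ c \ b, x ∉ b := fun x hx => (Finset.mem_sdiff.1 hx).2
  have hYc : ∀ x ∈ c \ b, x ∈ c := fun x hx => (Finset.mem_sdiff.1 hx).1
  obtain ⟨x₄, hx₄⟩ : (b \ c).Nonempty := Finset.card_pos.1 (by omega)
  -- analysis of a block through X and a point of Y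
  have keyX : ∀ e ∈ B, b \ c ⊆ e → ∀ y ∈ c \ b, y ∈ e →
      e ≠ b ∧ e ≠ c ∧ ((b ∩ c) ∩ e).card = 0 ∧
        (((c \ b) ∩ e).card = 2 ∨ ((c \ b) ∩ e).card = 4) := by
    intro e he hXe y hy hye
    have hne : e ≠ b := fun h => hYb y hy (h ▸ hye)
    have hne' : e ≠ c := fun h => hXc x₄ hx₄ (h ▸ hXe hx₄)
    have h1 := card_inter_split b c e
    have h2 : ((b \ c) ∩ e).card = 4 := by rw [Finset.inter_eq_left.2 hXe, hX]
    have h3 := hlt hb he (Ne.symm hne)
    have h0 : ((b ∩ c) ∩ e).card = 0 := by omega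
    have h5 := card_inter_split c b e
    rw [hcb, h0] at h5
    have h6 : 1 ≤ ((c \ b) ∩ e).card :=
      Finset.card_pos.2 ⟨y, Finset.mem_inter.2 ⟨hy, hye⟩⟩
    refine ⟨hne, hne', h0, ?_⟩
    rcases I hc he (Ne.symm hne') with h | h | h <;> omega
  obtain ⟨y, hy⟩ : (c \ b).Nonempty := Finset.card_pos.1 (by omega)
  have h5 : (insert y (b \ c)).card = 5 := by
    rw [Finset.card_insert_of_notMem (fun h => hYb y hy (hXb y h)), hX]
  obtain ⟨d, ⟨hd, hsd⟩, _⟩ := hB.2 _ h5
  have hXd : b \ c ⊆ d := fun x hx => hsd (Finset.mem_insert_of_mem hx)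
  have hyd : y ∈ d := hsd (Finset.mem_insert_self _ _)
  obtain ⟨hdb, hdc, hTd, hYd⟩ := keyX d hd hXd y hy hyd
  have hdcard := hB.1 d hd
  rcases hYd with hYd | hYd
  swap
  · -- Y ⊆ d, so d = X ∪ Y
    have hYsub : c \ b ⊆ d := by
      have := Finset.eq_of_subset_of_card_le
        (Finset.inter_subset_left : (c \ b) ∩ d ⊆ c \ b) (by rw [hYd, hY])
      rw [← this]
      exact Finset.inter_subset_right
    have hdisj : Disjoint (b \ c) (c \ b) := by
      rw [Finset.disjoint_left]
      intro x hx hx'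
      exact hYb x hx' (hXb x hx)
    have hsub : (b \ c) ∪ (c \ b) ⊆ d := Finset.union_subset hXd hYsub
    have hcard : d.card ≤ ((b \ c) ∪ (c \ b)).card := by
      rw [Finset.card_union_of_disjoint hdisj, hX, hY, hdcard]
    have : symmDiff b c = d := Finset.eq_of_subset_of_card_le hsub hcard
    rw [this]
    exact hd
  · exfalso
    -- pick y₃ ∈ Y \ d
    have hYd' : ((c \ b) \ d).card = 2 := by
      have := Finset.card_sdiff_add_card_inter (c \ b) d
      omega
    obtain ⟨y₃, hy₃⟩ : ((c \ b) \ d).Nonempty := Finset.card_pos.1 (by omega)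
    have hy₃Y : y₃ ∈ c \ b := (Finset.mem_sdiff.1 hy₃).1
    have hy₃d : y₃ ∉ d := (Finset.mem_sdiff.1 hy₃).2
    have h5' : (insert y₃ (b \ c)).card = 5 := by
      rw [Finset.card_insert_of_notMem (fun h => hYb y₃ hy₃Y (hXb y₃ h)), hX]
    obtain ⟨d', ⟨hd', hsd'⟩, _⟩ := hB.2 _ h5'
    have hXd' : b \ c ⊆ d' := fun x hx => hsd' (Finset.mem_insert_of_mem hx)
    have hy₃d' : y₃ ∈ d' := hsd' (Finset.mem_insert_self _ _)
    obtain ⟨hd'b, hd'c, hTd', hYd''⟩ := keyX d' hd' hXd' y₃ hy₃Y hy₃d'
    have hdd' : d ≠ d' := fun h => hy₃d (h ▸ hy₃d')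
    have hdd'X : d ∩ d' = b \ c := by
      have h1 := hlt hd hd' hdd'
      exact (Finset.eq_of_subset_of_card_le (Finset.subset_inter hXd hXd') (by rw [hX]; omega)).symm
    have hdisjY : Disjoint ((c \ b) ∩ d) ((c \ b) ∩ d') := by
      rw [Finset.disjoint_left]
      intro x hx hx'
      rw [Finset.mem_inter] at hx hx'
      have : x ∈ d ∩ d' := Finset.mem_inter.2 ⟨hx.2, hx'.2⟩
      rw [hdd'X] at this
      exact hYb x hx.1 (hXb x this)
    have hunion_sub : ((c \ b) ∩ d) ∪ ((c \ b) ∩ d') ⊆ c \ b :=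
      Finset.union_subset Finset.inter_subset_left Finset.inter_subset_left
    have hcard_le := Finset.card_le_card hunion_sub
    rw [Finset.card_union_of_disjoint hdisjY, hY, hYd] at hcard_le
    have hYd'2 : ((c \ b) ∩ d').card = 2 := by
      rcases hYd'' with h | h <;> omega
    have hYeq : ((c \ b) ∩ d) ∪ ((c \ b) ∩ d') = c \ b :=
      Finset.eq_of_subset_of_card_le hunion_sub
        (by rw [Finset.card_union_of_disjoint hdisjY, hY, hYd, hYd'2])
    have hyd' : y ∉ d' := by
      intro h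
      have : y ∈ d ∩ d' := Finset.mem_inter.2 ⟨hyd, h⟩
      rw [hdd'X] at this
      exact hYb y hy (hXb y this)
    -- the third block
    have hyy₃ : y ≠ y₃ := fun h => hy₃d (h ▸ hyd)
    have hX'card : ((b \ c).erase x₄).card = 3 := by
      rw [Finset.card_erase_of_mem hx₄, hX]
    have hX'sub : (b \ c).erase x₄ ⊆ b \ c := Finset.erase_subset _ _
    have hy₃X' : y₃ ∉ (b \ c).erase x₄ := fun h => hYb y₃ hy₃Y (hXb y₃ (hX'sub h))
    have hyX' : y ∉ insert y₃ ((b \ c).erase x₄) := by
      intro h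
      rw [Finset.mem_insert] at h
      rcases h with h | h
      · exact hyy₃ h
      · exact hYb y hy (hXb y (hX'sub h))
    have h5'' : (insert y (insert y₃ ((b \ c).erase x₄))).card = 5 := by
      rw [Finset.card_insert_of_notMem hyX', Finset.card_insert_of_notMem hy₃X', hX'card]
    obtain ⟨m, ⟨hm, hsm⟩, _⟩ := hB.2 _ h5''
    have hym : y ∈ m := hsm (Finset.mem_insert_self _ _)
    have hy₃m : y₃ ∈ m := hsm (Finset.mem_insert_of_mem (Finset.mem_insert_self _ _))
    have hX'm : (b \ c).erase x₄ ⊆ m := fun x hx =>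
      hsm (Finset.mem_insert_of_mem (Finset.mem_insert_of_mem hx))
    have hmd : m ≠ d := fun h => hy₃d (h ▸ hy₃m)
    have hmd' : m ≠ d' := fun h => hyd' (h ▸ hym)
    have hmb : m ≠ b := fun h => hYb y hy (h ▸ hym)
    obtain ⟨x₁, hx₁⟩ : ((b \ c).erase x₄).Nonempty := Finset.card_pos.1 (by omega)
    have hmc : m ≠ c := fun h => hXc x₁ (hX'sub hx₁) (h ▸ hX'm hx₁)
    -- m ∩ d = insert y X'
    have hyX'' : y ∉ (b \ c).erase x₄ := fun h => hYb y hy (hXb y (hX'sub h))
    have hmd_eq : m ∩ d = insert y ((b \ c).erase x₄) := by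
      have hsub : insert y ((b \ c).erase x₄) ⊆ m ∩ d := by
        intro x hx
        rw [Finset.mem_insert] at hx
        rcases hx with rfl | hx
        · exact Finset.mem_inter.2 ⟨hym, hyd⟩
        · exact Finset.mem_inter.2 ⟨hX'm hx, hXd (hX'sub hx)⟩
      have h1 := hlt hm hd hmd
      exact (Finset.eq_of_subset_of_card_le hsub
        (by rw [Finset.card_insert_of_notMem hyX'', hX'card]; omega)).symm
    have hmd'_eq : m ∩ d' = insert y₃ ((b \ c).erase x₄) := by
      have hsub : insert y₃ ((b \ c).erase x₄) ⊆ m ∩ d' := by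
        intro x hx
        rw [Finset.mem_insert] at hx
        rcases hx with rfl | hx
        · exact Finset.mem_inter.2 ⟨hy₃m, hy₃d'⟩
        · exact Finset.mem_inter.2 ⟨hX'm hx, hXd' (hX'sub hx)⟩
      have h1 := hlt hm hd' hmd'
      exact (Finset.eq_of_subset_of_card_le hsub
        (by rw [Finset.card_insert_of_notMem hy₃X', hX'card]; omega)).symm
    have hx₄m : x₄ ∉ m := by
      intro h
      have : x₄ ∈ m ∩ d := Finset.mem_inter.2 ⟨h, hXd hx₄⟩
      rw [hmd_eq, Finset.mem_insert] at this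
      rcases this with h' | h'
      · exact hYb y hy (h' ▸ hXb x₄ hx₄)
      · exact (Finset.mem_erase.1 h').1 rfl
    -- (b \ c) ∩ m = X'
    have hXm : ((b \ c) ∩ m).card = 3 := by
      have : (b \ c) ∩ m = (b \ c).erase x₄ := by
        ext x
        rw [Finset.mem_inter, Finset.mem_erase]
        constructor
        · rintro ⟨hx, hxm⟩
          exact ⟨fun h => hx₄m (h ▸ hxm), hx⟩
        · rintro ⟨hne, hx⟩
          exact ⟨hx, hX'm (Finset.mem_erase.2 ⟨hne, hx⟩)⟩
      rw [this, hX'card]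
    -- (c \ b) ∩ m = {y, y₃}
    have hYm : ((c \ b) ∩ m).card = 2 := by
      have : (c \ b) ∩ m = {y, y₃} := by
        ext x
        rw [Finset.mem_inter, Finset.mem_insert, Finset.mem_singleton]
        constructor
        · rintro ⟨hx, hxm⟩
          have hx' : x ∈ ((c \ b) ∩ d) ∪ ((c \ b) ∩ d') := by rw [hYeq]; exact hx
          rw [Finset.mem_union, Finset.mem_inter, Finset.mem_inter] at hx'
          rcases hx' with hx' | hx'
          · have : x ∈ m ∩ d := Finset.mem_inter.2 ⟨hxm, hx'.2⟩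
            rw [hmd_eq, Finset.mem_insert] at this
            rcases this with h' | h'
            · exact Or.inl h'
            · exact absurd (hXb x (hX'sub h')) (hYb x hx)
          · have : x ∈ m ∩ d' := Finset.mem_inter.2 ⟨hxm, hx'.2⟩
            rw [hmd'_eq, Finset.mem_insert] at this
            rcases this with h' | h'
            · exact Or.inr h'
            · exact absurd (hXb x (hX'sub h')) (hYb x hx)
        · rintro (rfl | rfl)
          · exact ⟨hy, hym⟩
          · exact ⟨hy₃Y, hy₃m⟩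
      rw [this, Finset.card_pair hyy₃]
    have e1 := card_inter_split b c m
    have e2 := card_inter_split c b m
    rw [hcb] at e2
    rw [hXm] at e1
    rw [hYm] at e2
    have i1 := I hb hm (Ne.symm hmb)
    have i2 := I hc hm (Ne.symm hmc)
    rcases i1 with h | h | h <;> rcases i2 with h' | h' | h' <;> omega

end Cfsg.Agent.S0353
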