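import Cfsg.Statements.S0354
import Cfsg.Agent.Helper6.Steiner

set_option autoImplicit false
open Cfsg

namespace Cfsg.Agent.S0354

/-- In an S(5, 8, 24), each block is disjoint from exactly 30 blocks. -/
theorem result {α : Type*} [Fintype α] [DecidableEq α] (hα : Fintype.card α = 24) {B : Set (Finset α)} (hB : Cfsg.IsSteinerSystem 5 8 B) {b : Finset α} (hb : b ∈ B) : {c : Finset α | c ∈ B ∧ Disjoint b c}.ncard = 30 := by
  have h0 := Cfsg.Agent.Helper6.steiner_moment_erase' hB hb 0 (by norm_num) hα
    (A := 1) (C := 56) (D := 42504) (by decide) (by decide) (by decide)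
  have h1 := Cfsg.Agent.Helper6.steiner_moment_erase' hB hb 1 (by norm_num) hα
    (A := 8) (C := 35) (D := 8855) (by decide) (by decide) (by decide)
  have h2 := Cfsg.Agent.Helper6.steiner_moment_erase' hB hb 2 (by norm_num) hα
    (A := 28) (C := 20) (D := 1540) (by decide) (by decide) (by decide)
  have h3 := Cfsg.Agent.Helper6.steiner_moment_erase' hB hb 3 (by norm_num) hα
    (A := 56) (C := 10) (D := 210) (by decide) (by decide) (by decide)
  have h4 := Cfsg.Agent.Helper6.steiner_moment_erase' hB hb 4 (by norm_num) hα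
    (A := 70) (C := 4) (D := 20) (by decide) (by decide) (by decide)
  have hset : {c : Finset α | c ∈ B ∧ Disjoint b c} =
      ↑((Cfsg.Agent.Helper6.blocksF B).filter (fun c => Disjoint b c)) := by
    ext c
    simp [Cfsg.Agent.Helper6.mem_blocksF]
  rw [hset, Set.ncard_coe_finset, Finset.card_filter,
    ← Finset.sum_erase_add _ _ (Cfsg.Agent.Helper6.mem_blocksF.2 hb)]
  have hbb : ¬ Disjoint b b := by
    rw [Finset.disjoint_self_iff_empty]
    intro h
    have := hB.1 b hb
    rw [h] at this
    simp at this
  rw [if_neg hbb, add_zero]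
  have hterm : ∀ c ∈ (Cfsg.Agent.Helper6.blocksF B).erase b,
      (if Disjoint b c then 1 else 0) + Nat.choose (b ∩ c).card 1 + Nat.choose (b ∩ c).card 3 =
        Nat.choose (b ∩ c).card 0 + Nat.choose (b ∩ c).card 2 + Nat.choose (b ∩ c).card 4 := by
    intro c hc
    rw [Finset.mem_erase, Cfsg.Agent.Helper6.mem_blocksF] at hc
    have hlt := Cfsg.Agent.Helper6.steiner_inter_lt hB hb hc.2 (Ne.symm hc.1)
    have hd : Disjoint b c ↔ (b ∩ c).card = 0 := by
      rw [Finset.card_eq_zero, Finset.disjoint_iff_inter_eq_empty]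
    by_cases hdis : Disjoint b c
    · rw [if_pos hdis, hd.1 hdis]
      decide
    · rw [if_neg hdis]
      have hne : (b ∩ c).card ≠ 0 := fun h => hdis (hd.2 h)
      interval_cases h : (b ∩ c).card
      · exact absurd rfl hne
      all_goals decide
  have hsum := Finset.sum_congr rfl hterm
  simp only [Finset.sum_add_distrib] at hsum
  omega

end Cfsg.Agent.S0354
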