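import Cfsg.Statements.S0357
import Cfsg.Agent.Helper6.Steiner

set_option autoImplicit false
open Cfsg

namespace Cfsg.Agent.S0357

/-- In a Steiner system S(5, 6, 12), the complement of every block is again a block. -/
theorem result {α : Type*} [Fintype α] [DecidableEq α] (hα : Fintype.card α = 12) {B : Set (Finset α)} (hB : Cfsg.IsSteinerSystem 5 6 B) {b : Finset α} (hb : b ∈ B) : bᶜ ∈ B := by
  have h0 := Cfsg.Agent.Helper6.steiner_moment_erase' hB hb 0 (by norm_num) hα
    (A := 1) (C := 6) (D := 792) (by decide) (by decide) (by decide)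
  have h1 := Cfsg.Agent.Helper6.steiner_moment_erase' hB hb 1 (by norm_num) hα
    (A := 6) (C := 5) (D := 330) (by decide) (by decide) (by decide)
  have h2 := Cfsg.Agent.Helper6.steiner_moment_erase' hB hb 2 (by norm_num) hα
    (A := 15) (C := 4) (D := 120) (by decide) (by decide) (by decide)
  have h3 := Cfsg.Agent.Helper6.steiner_moment_erase' hB hb 3 (by norm_num) hα
    (A := 20) (C := 3) (D := 36) (by decide) (by decide) (by decide)
  have h4 := Cfsg.Agent.Helper6.steiner_moment_erase' hB hb 4 (by norm_num) hα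
    (A := 15) (C := 2) (D := 8) (by decide) (by decide) (by decide)
  have hterm : ∀ c ∈ (Cfsg.Agent.Helper6.blocksF B).erase b,
      (if Disjoint b c then 1 else 0) + Nat.choose (b ∩ c).card 1 + Nat.choose (b ∩ c).card 3 =
        Nat.choose (b ∩ c).card 0 + Nat.choose (b ∩ c).card 2 + Nat.choose (b ∩ c).card 4 := by
    intro c hc
    rw [Finset.mem_erase, Cfsg.Agent.Helper6.mem_blocksF] at hc
    have hlt := Cfsg.Agent.Helper6.steiner_inter_lt hB hb hc.2 (Ne.symm hc.1)
    have hd : Disjoint b c ↔ (b ∩ c).card = 0 := by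
      rw [Finset.card_eq_zero, Finset.disjoint_iff_inter_eq_empty]
    by_cases hdis : Disjoint b c
    · rw [if_pos hdis, hd.1 hdis]
      decide
    · rw [if_neg hdis]
      have hne : (b ∩ c).card ≠ 0 := fun h => hdis (hd.2 h)
      interval_cases h : (b ∩ c).card
      · exact absurd rfl hne
      all_goals decide
  have hsum := Finset.sum_congr rfl hterm
  simp only [Finset.sum_add_distrib] at hsum
  have hone : ∑ c ∈ (Cfsg.Agent.Helper6.blocksF B).erase b, (if Disjoint b c then 1 else 0) = 1 := by
    omega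
  have hex : ∃ c ∈ (Cfsg.Agent.Helper6.blocksF B).erase b, Disjoint b c := by
    by_contra hno
    push Not at hno
    have : ∑ c ∈ (Cfsg.Agent.Helper6.blocksF B).erase b, (if Disjoint b c then 1 else 0) = 0 := by
      apply Finset.sum_eq_zero
      intro c hc
      rw [if_neg (hno c hc)]
    omega
  obtain ⟨c, hc, hdis⟩ := hex
  rw [Finset.mem_erase, Cfsg.Agent.Helper6.mem_blocksF] at hc
  have hsub : c ⊆ bᶜ := by
    intro x hx
    rw [Finset.mem_compl]
    intro hxb
    exact (Finset.disjoint_left.1 hdis) hxb hx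
  have hcard : bᶜ.card ≤ c.card := by
    rw [Finset.card_compl, hα, hB.1 b hb, hB.1 c hc.2]
  rw [← Finset.eq_of_subset_of_card_le hsub hcard]
  exact hc.2

end Cfsg.Agent.S0357
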