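import Cfsg.Statements.S0358
import Cfsg.Agent.Helper26.GolayMore

set_option autoImplicit false
open Cfsg

namespace Cfsg.Agent.S0358

/-- The length-24 code built from the squares modulo 23 has dimension 12 over the field with two elements. -/
theorem result : Module.finrank (ZMod 2) Cfsg.golayCode = 12 := by
  have h1 := Cfsg.Agent.Helper26.ncard_golayCode
  have h2 : Nat.card (golayCode : Submodule (ZMod 2) (GolayPt → ZMod 2)) = 4096 := by
    rw [← h1]
    rfl
  have h3 : Nat.card (golayCode : Submodule (ZMod 2) (GolayPt → ZMod 2)) =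
      Nat.card (ZMod 2) ^ Module.finrank (ZMod 2) golayCode := by
    haveI : Fintype (golayCode : Submodule (ZMod 2) (GolayPt → ZMod 2)) := Fintype.ofFinite _
    rw [Nat.card_eq_fintype_card, Nat.card_eq_fintype_card]
    exact Module.card_eq_pow_finrank
  rw [h2, Nat.card_zmod] at h3
  have h4 : (2 : ℕ) ^ 12 = 2 ^ Module.finrank (ZMod 2) golayCode := by
    rw [← h3]; norm_num
  exact (Nat.pow_right_injective (le_refl 2) h4).symm

end Cfsg.Agent.S0358
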