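import Cfsg.Statements.S0362
import Cfsg.Agent.Helper26.GolayMore

set_option autoImplicit false
open Cfsg

namespace Cfsg.Agent.S0362

/-- The length-24 code is self-orthogonal: the dot product over ZMod 2 of any two of its words vanishes (with dimension 12 this makes it self-dual). -/
theorem result (v w : Cfsg.GolayPt → ZMod 2) (hv : v ∈ Cfsg.golayCode) (hw : w ∈ Cfsg.golayCode) : ∑ i, v i * w i = 0 := by
  classical
  have ha : support₂ v ∈ supports (golayCode : Set (GolayPt → ZMod 2)) := ⟨v, hv, rfl⟩
  have hb : support₂ w ∈ supports (golayCode : Set (GolayPt → ZMod 2)) := ⟨w, hw, rfl⟩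
  have h2 := Cfsg.Agent.Helper26.even_card_inter ha hb
  have h3 : ∀ i, v i * w i = if i ∈ support₂ v ∩ support₂ w then (1 : ZMod 2) else 0 := by
    intro i
    simp only [support₂, Finset.mem_inter, Finset.mem_filter, Finset.mem_univ, true_and]
    generalize v i = a
    generalize w i = b
    revert a b
    decide
  rw [Finset.sum_congr rfl (fun i _ => h3 i), Finset.sum_boole, Finset.filter_mem_eq_inter,
    Finset.univ_inter]
  exact (ZMod.natCast_eq_zero_iff _ _).2 h2

end Cfsg.Agent.S0362
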