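import Cfsg.Statements.S0367
import Cfsg.Agent.Helper7.M24Trans

set_option autoImplicit false
open scoped Pointwise
open Cfsg

namespace Cfsg.Agent.S0367

/-- The permutation group preserving the length-24 code is transitive on octads. -/
theorem result (o o' : Finset Cfsg.GolayPt) (ho : o ∈ Cfsg.octads) (ho' : o' ∈ Cfsg.octads) : ∃ g : Cfsg.M24, g • o = o' := by
  obtain ⟨g, hg, rfl⟩ := Cfsg.Agent.Helper7.octad_eq_smul_O0 ho
  obtain ⟨g', hg', rfl⟩ := Cfsg.Agent.Helper7.octad_eq_smul_O0 ho'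
  refine ⟨⟨g' * g⁻¹, M24.mul_mem hg' (M24.inv_mem hg)⟩, ?_⟩
  show (g' * g⁻¹) • g • Cfsg.Agent.Helper7.setOf Cfsg.Agent.Helper7.O0 = g' • Cfsg.Agent.Helper7.setOf Cfsg.Agent.Helper7.O0
  rw [smul_smul, inv_mul_cancel_right]

end Cfsg.Agent.S0367
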