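import Cfsg.Statements.S0382
import Cfsg.Agent.Helper7.M12

set_option autoImplicit false
open scoped Pointwise
open Cfsg

namespace Cfsg.Agent.S0382

open Cfsg.Agent.Helper7 in
/-- A dodecad stabiliser in the group of the length-24 code has order 95040 = 2^6·3^3·5·11. -/
theorem result (d : Finset Cfsg.GolayPt) (hd : d ∈ Cfsg.dodecads) : Nat.card (MulAction.stabilizer Cfsg.M24 d) = 95040 := by
  have h := card_orbit_mul_card_stabilizer (X := Finset GolayPt) d
  have horb : MulAction.orbit (↥M24) d = dodecads := by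
    ext d'
    constructor
    · rintro ⟨g, rfl⟩
      exact smul_mem_wordsOfWeight g.2 hd
    · intro hd'
      obtain ⟨g, hg, rfl⟩ := dodecad_eq_smul_D1 hd
      obtain ⟨g', hg', rfl⟩ := dodecad_eq_smul_D1 hd'
      refine ⟨⟨g' * g⁻¹, M24.mul_mem hg' (M24.inv_mem hg)⟩, ?_⟩
      show (g' * g⁻¹) • g • setOf D1 = g' • setOf D1
      rw [smul_smul, inv_mul_cancel_right]
  have hc : Nat.card (MulAction.orbit (↥M24) d) = 2576 := by
    rw [horb, Nat.card_coe_set_eq, ncard_dodecads]
  rw [hc] at h
  omega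

end Cfsg.Agent.S0382
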