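import Cfsg.Statements.S0385
import Cfsg.Agent.Helper7.Octad

set_option autoImplicit false
open scoped Pointwise
open Cfsg

namespace Cfsg.Agent.S0385

/-- The 6-point intersections of octads with a fixed dodecad form a Steiner system S(5, 6, 12) on the dodecad. -/
theorem result (d : Finset Cfsg.GolayPt) (hd : d ∈ Cfsg.dodecads) : Cfsg.IsSteinerSystem 5 6 {h : Finset {p : Cfsg.GolayPt // p ∈ d} | ∃ o ∈ Cfsg.octads, (o ∩ d).card = 6 ∧ h = Finset.subtype (fun p => p ∈ d) o} := by
  constructor
  · rintro b ⟨o, ho, hc, rfl⟩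
    rw [Finset.card_subtype, ← hc]
    congr 1
  · intro s hs
    set t : Finset GolayPt := s.map (Function.Embedding.subtype _) with ht
    have htc : t.card = 5 := by rw [ht, Finset.card_map, hs]
    have htd : t ⊆ d := by
      intro x hx
      rw [ht, Finset.mem_map] at hx
      obtain ⟨y, _, rfl⟩ := hx
      exact y.2
    obtain ⟨o, ho, hto⟩ := Cfsg.Agent.Helper7.exists_octad_superset htc
    have h5 : 5 ≤ (o ∩ d).card := by
      rw [← htc]; exact Finset.card_le_card (Finset.subset_inter hto htd)
    have h6 := Cfsg.Agent.Helper7.octad_inter_dodecad ho hd h5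
    refine ⟨Finset.subtype (fun p => p ∈ d) o, ⟨⟨o, ho, h6, rfl⟩, ?_⟩, ?_⟩
    · intro x hx
      rw [Finset.mem_subtype]
      apply hto
      rw [ht, Finset.mem_map]
      exact ⟨x, hx, rfl⟩
    · rintro b ⟨⟨o', ho', hc', rfl⟩, hsb⟩
      have hto' : t ⊆ o' := by
        intro x hx
        rw [ht, Finset.mem_map] at hx
        obtain ⟨y, hy, rfl⟩ := hx
        have := hsb hy
        rwa [Finset.mem_subtype] at this
      have : o' = o := Cfsg.Agent.Helper7.octads_eq_of_inter ho' ho (by
        rw [← htc]; exact Finset.card_le_card (Finset.subset_inter hto' hto))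
      rw [this]

end Cfsg.Agent.S0385
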