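import Cfsg.Statements.S0386
import Cfsg.Agent.Helper7.M12

set_option autoImplicit false
open scoped Pointwise
open Cfsg

namespace Cfsg.Agent.S0386

open Cfsg.Agent.Helper7

/-- The test: the codeword is an octad meeting `D1` in `k` points. -/
def interPred (k : ℕ) (c : ℕ) : Bool :=
  Nat.beq (wt (enc c)) 8 && Nat.beq (wt (Nat.land (enc c) D1)) k

theorem count6 : countRange (interPred 6) 12 0 = 132 := by decide +kernel
theorem count2 : countRange (interPred 2) 12 0 = 132 := by decide +kernel
theorem count4 : countRange (interPred 4) 12 0 = 495 := by decide +kernel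

theorem ncard_D1 (k : ℕ) :
    {o : Finset GolayPt | o ∈ octads ∧ (o ∩ setOf D1).card = k}.ncard = countRange (interPred k) 12 0 := by
  have h := ncard_supports (fun o => o.card = 8 ∧ (o ∩ setOf D1).card = k) (interPred k) (by
    intro c _
    unfold interPred
    rw [Bool.and_eq_true, card_setOf, ← setOf_and, card_setOf]
    constructor
    · rintro ⟨h1, h2⟩
      exact ⟨Nat.eq_of_beq_eq_true h1, Nat.eq_of_beq_eq_true h2⟩
    · rintro ⟨h1, h2⟩
      constructor
      · rw [h1]; rfl
      · have : Nat.land (enc c) D1 = enc c &&& D1 := rfl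
        rw [this, h2]
        exact Nat.beq_refl k)
  rw [← h]
  congr 1
  ext o
  exact and_assoc

theorem ncard_transport (d : Finset GolayPt) (hd : d ∈ dodecads) (k : ℕ) :
    {o : Finset GolayPt | o ∈ octads ∧ (o ∩ d).card = k}.ncard = countRange (interPred k) 12 0 := by
  obtain ⟨h, hh, rfl⟩ := dodecad_eq_smul_D1 hd
  rw [← ncard_D1 k]
  have hset : {o : Finset GolayPt | o ∈ octads ∧ (o ∩ h • setOf D1).card = k}
      = (fun o : Finset GolayPt => h • o) '' {o : Finset GolayPt | o ∈ octads ∧ (o ∩ setOf D1).card = k} := by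
    ext o
    constructor
    · rintro ⟨ho, hc⟩
      refine ⟨h⁻¹ • o, ⟨smul_mem_wordsOfWeight (M24.inv_mem hh) ho, ?_⟩, smul_inv_smul h o⟩
      rw [← hc, ← Finset.card_smul_finset h (h⁻¹ • o ∩ setOf D1), Finset.smul_finset_inter,
        smul_inv_smul]
    · rintro ⟨o', ⟨ho', hc'⟩, rfl⟩
      refine ⟨smul_mem_wordsOfWeight hh ho', ?_⟩
      rw [← hc', ← Finset.smul_finset_inter, Finset.card_smul_finset]
  rw [hset, Set.ncard_image_of_injective _ (MulAction.injective h)]

/-- For a fixed dodecad, 132 octads meet it in 6 points, 132 in 2 points and 495 in 4 points. -/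
theorem result (d : Finset Cfsg.GolayPt) (hd : d ∈ Cfsg.dodecads) : {o : Finset Cfsg.GolayPt | o ∈ Cfsg.octads ∧ (o ∩ d).card = 6}.ncard = 132 ∧ {o : Finset Cfsg.GolayPt | o ∈ Cfsg.octads ∧ (o ∩ d).card = 2}.ncard = 132 ∧ {o : Finset Cfsg.GolayPt | o ∈ Cfsg.octads ∧ (o ∩ d).card = 4}.ncard = 495 := by
  refine ⟨?_, ?_, ?_⟩
  · rw [ncard_transport d hd 6, count6]
  · rw [ncard_transport d hd 2, count2]
  · rw [ncard_transport d hd 4, count4]

end Cfsg.Agent.S0386
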