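import Cfsg.Statements.S0388
import Cfsg.Agent.Helper7.MathieuSimple

set_option autoImplicit false
open scoped Pointwise
open Cfsg

namespace Cfsg.Agent.S0388

/-- The stabiliser of a dodecad and a point on it is simple. -/
theorem result (d : Finset Cfsg.GolayPt) (hd : d ∈ Cfsg.dodecads) (p : Cfsg.GolayPt) (hp : p ∈ d) : IsSimpleGroup ↥(MulAction.stabilizer Cfsg.M24 d ⊓ MulAction.stabilizer Cfsg.M24 p) := by
  have hstab : MulAction.stabilizer (↥M24) d ⊓ MulAction.stabilizer (↥M24) p
      = MulAction.stabilizer (↥M24) (d, p) := by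
    ext g
    simp only [MulAction.mem_stabilizer_iff, Subgroup.mem_inf, Prod.smul_mk, Prod.mk.injEq]
  have := Cfsg.Agent.Helper7.simple_stab_flag hd hp
  exact ((MulEquiv.subgroupCongr hstab).trans
    (Cfsg.Agent.Helper7.stabSubEquiv M24 (d, p))).isSimpleGroup

end Cfsg.Agent.S0388
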