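import Cfsg.Statements.S0389
import Cfsg.Agent.Helper7.M12Trans

set_option autoImplicit false
open scoped Pointwise
open Cfsg

namespace Cfsg.Agent.S0389

open Cfsg.Agent.Helper7 in
/-- The stabiliser of a dodecad and a point on it is 3-transitive on the complementary dodecad. -/
theorem result (d : Finset Cfsg.GolayPt) (hd : d ∈ Cfsg.dodecads) (p : Cfsg.GolayPt) (hp : p ∈ d) (x y : Fin 3 ↪ Cfsg.GolayPt) (hx : ∀ i, x i ∉ d) (hy : ∀ i, y i ∉ d) : ∃ g ∈ MulAction.stabilizer Cfsg.M24 d ⊓ MulAction.stabilizer Cfsg.M24 p, ∀ i, (g : Equiv.Perm Cfsg.GolayPt) (x i) = y i := by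
  obtain ⟨h, hh, rfl, rfl⟩ := dodecad_flag hd hp
  have hx' : ∀ i, (x.trans (h⁻¹ : Equiv.Perm GolayPt).toEmbedding) i ∉ setOf D1 := fun i hmem =>
    hx i (Finset.inv_smul_mem_iff.mp hmem)
  have hy' : ∀ i, (y.trans (h⁻¹ : Equiv.Perm GolayPt).toEmbedding) i ∉ setOf D1 := fun i hmem =>
    hy i (Finset.inv_smul_mem_iff.mp hmem)
  obtain ⟨kx, hkx, hkx0, hkx'⟩ := m11_tuple3 _ hx'
  obtain ⟨ky, hky, hky0, hky'⟩ := m11_tuple3 _ hy'
  have hkx'' : ∀ i : Fin 3, h (kx (pt (i.val + 5))) = x i := by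
    intro i
    rw [hkx' i]
    show h (h⁻¹ (x i)) = x i
    simp
  have hky'' : ∀ i : Fin 3, h (ky (pt (i.val + 5))) = y i := by
    intro i
    rw [hky' i]
    show h (h⁻¹ (y i)) = y i
    simp
  have hkM : ky * kx⁻¹ ∈ M12grp := M12grp.mul_mem hky (M12grp.inv_mem hkx)
  refine ⟨⟨h * (ky * kx⁻¹) * h⁻¹, M24.mul_mem (M24.mul_mem hh hkM.1) (M24.inv_mem hh)⟩, ?_, ?_⟩
  · refine Subgroup.mem_inf.mpr ⟨conj_M12grp_smul hkM, ?_⟩
    show (h * (ky * kx⁻¹) * h⁻¹) (h (pt 0)) = h (pt 0)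
    have hkx0' : kx⁻¹ (pt 0) = pt 0 := by
      rw [Equiv.Perm.inv_eq_iff_eq]; exact hkx0.symm
    simp only [Equiv.Perm.mul_apply]
    simp [hkx0', hky0]
  · intro i
    show (h * (ky * kx⁻¹) * h⁻¹) (x i) = y i
    rw [← hkx'' i, ← hky'' i]
    simp

end Cfsg.Agent.S0389
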