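import Cfsg.Statements.S0393
import Cfsg.Agent.Helper92.Leech
import Cfsg.Agent.S5553

set_option autoImplicit false
open Cfsg

namespace Cfsg.Agent.S0393

open Cfsg.Agent.Helper92 Cfsg.Agent.Helper26 Cfsg.Agent.S5553

/-! ### Step 1: vectors of uniform parity -/

/-- the parities of the differences with the coordinate at the extra point -/
def h1 : (GolayPt → ℤ) →+ (ZMod 23 → ZMod 2) where
  toFun x := fun i => ((x (some i) - x none : ℤ) : ZMod 2)
  map_zero' := by
    funext i
    simp
  map_add' := by
    intro x y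
    funext i
    show (((x (some i) + y (some i)) - (x none + y none) : ℤ) : ZMod 2) =
      ((x (some i) - x none : ℤ) : ZMod 2) + ((y (some i) - y none : ℤ) : ZMod 2)
    rw [← Int.cast_add]
    congr 1
    ring

/-- the vectors all of whose coordinates have the same parity -/
def U : AddSubgroup (GolayPt → ℤ) := h1.ker

theorem mem_U_iff (x : GolayPt → ℤ) : x ∈ U ↔ ∀ i : GolayPt, (x i + x none) % 2 = 0 := by
  constructor
  · intro h i
    cases i with
    | none => omega
    | some j =>
      have h' : h1 x j = 0 := by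
        have : h1 x = 0 := h
        rw [this]; rfl
      have h'' : ((x (some j) - x none : ℤ) : ZMod 2) = 0 := h'
      rw [cast_eq_zero_iff] at h''
      omega
  · intro h
    show h1 x = 0
    funext j
    show ((x (some j) - x none : ℤ) : ZMod 2) = 0
    rw [cast_eq_zero_iff]
    have := h (some j)
    omega

theorem h1_surjective : Function.Surjective h1 := by
  intro w
  refine ⟨fun p => match p with
    | none => 0
    | some i => if w i = 0 then 0 else 1, ?_⟩
  funext i
  show (((if w i = 0 then (0 : ℤ) else 1) - 0 : ℤ) : ZMod 2) = w i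
  generalize w i = a
  revert a
  decide

theorem U_index : U.index = 2 ^ 23 := by
  unfold U
  rw [AddSubgroup.index_ker, AddMonoidHom.range_eq_top.2 h1_surjective]
  rw [Nat.card_congr (AddSubgroup.topEquiv (G := ZMod 23 → ZMod 2)).toEquiv, Nat.card_fun,
    Nat.card_zmod, Nat.card_zmod]

/-! ### Step 2: the code condition -/

theorem thetaFun_add {x y : GolayPt → ℤ} (hx : x ∈ U) (hy : y ∈ U) :
    thetaFun (x + y) = thetaFun x + thetaFun y := by
  rw [mem_U_iff] at hx hy
  funext i
  have a := hx i
  have b := hy i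
  show ((((x i + y i) + (x none + y none)) / 2 : ℤ) : ZMod 2) =
    (((x i + x none) / 2 : ℤ) : ZMod 2) + (((y i + y none) / 2 : ℤ) : ZMod 2)
  rw [← Int.cast_add]
  congr 1
  omega

theorem thetaFun_zero : thetaFun 0 = 0 := by
  funext i
  simp [thetaFun]

theorem thetaFun_neg {x : GolayPt → ℤ} (hx : x ∈ U) : thetaFun (-x) = thetaFun x := by
  have h := thetaFun_add hx (neg_mem hx)
  rw [add_neg_cancel, thetaFun_zero] at h
  funext i
  have hi := congrFun h i
  have : ∀ a b : ZMod 2, (0 : ZMod 2) = a + b → b = a := by decide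
  exact this _ _ hi

/-- the vectors of uniform parity whose word lies in the code -/
def U' : AddSubgroup (GolayPt → ℤ) where
  carrier := {x | x ∈ U ∧ thetaFun x ∈ golayCode}
  zero_mem' := ⟨zero_mem U, by rw [thetaFun_zero]; exact zero_mem _⟩
  add_mem' := by
    rintro a b ⟨ha, ha'⟩ ⟨hb, hb'⟩
    exact ⟨add_mem ha hb, by rw [thetaFun_add ha hb]; exact add_mem ha' hb'⟩
  neg_mem' := by
    rintro a ⟨ha, ha'⟩
    exact ⟨neg_mem ha, by rw [thetaFun_neg ha]; exact ha'⟩

theorem mem_U' (x : GolayPt → ℤ) : x ∈ U' ↔ x ∈ U ∧ thetaFun x ∈ golayCode := Iff.rfl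

theorem U'_le : U' ≤ U := fun _ h => h.1

/-- the class of the word modulo the code -/
def h2 : U →+ (GolayPt → ZMod 2) ⧸ golayCode.toAddSubgroup where
  toFun x := QuotientAddGroup.mk (thetaFun x.1)
  map_zero' := by
    show QuotientAddGroup.mk (thetaFun 0) = _
    rw [thetaFun_zero]
    rfl
  map_add' := by
    intro x y
    show QuotientAddGroup.mk (thetaFun (x.1 + y.1)) = _
    rw [thetaFun_add x.2 y.2]
    rfl

theorem lift_mem_U (w : GolayPt → ZMod 2) : lift w ∈ U := by
  rw [mem_U_iff]
  intro i
  have a := G_parity (w i) (w none) (decide (i = none))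
  have b := G_parity (w none) (w none) (decide ((none : GolayPt) = none))
  show (G (w i) (w none) (decide (i = none)) +
    G (w none) (w none) (decide ((none : GolayPt) = none))) % 2 = 0
  omega

theorem thetaFun_lift (w : GolayPt → ZMod 2) : thetaFun (lift w) = w := by
  funext i
  exact G_theta (w i) (w none) (decide (i = none))

theorem h2_surjective : Function.Surjective h2 := by
  intro q
  obtain ⟨w, rfl⟩ := QuotientAddGroup.mk_surjective q
  refine ⟨⟨lift w, lift_mem_U w⟩, ?_⟩
  show QuotientAddGroup.mk (thetaFun (lift w)) = _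
  rw [thetaFun_lift]

theorem h2_ker : U'.addSubgroupOf U = h2.ker := by
  ext ⟨x, hx⟩
  rw [AddSubgroup.mem_addSubgroupOf, AddMonoidHom.mem_ker]
  show x ∈ U' ↔ (QuotientAddGroup.mk (thetaFun x) : (GolayPt → ZMod 2) ⧸ golayCode.toAddSubgroup) = 0
  rw [QuotientAddGroup.eq_zero_iff, mem_U']
  constructor
  · intro h; exact h.2
  · intro h; exact ⟨hx, h⟩

theorem card_quot : Nat.card ((GolayPt → ZMod 2) ⧸ golayCode.toAddSubgroup) = 2 ^ 12 := by
  have h := AddSubgroup.card_eq_card_quotient_mul_card_addSubgroup golayCode.toAddSubgroup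
  have hc : Nat.card golayCode.toAddSubgroup = 4096 := by
    have := ncard_golayCode
    rw [← Nat.card_coe_set_eq] at this
    exact this
  rw [hc, Nat.card_fun, Nat.card_zmod] at h
  have h24 : Nat.card GolayPt = 24 := by
    rw [Nat.card_eq_fintype_card]; exact Cfsg.Agent.Helper92.card_golayPt
  rw [h24] at h
  have : (2 : ℕ) ^ 24 = 2 ^ 12 * 4096 := by norm_num
  rw [this] at h
  exact (Nat.eq_of_mul_eq_mul_right (by norm_num) h).symm

theorem U'_relIndex : U'.relIndex U = 2 ^ 12 := by
  show (U'.addSubgroupOf U).index = 2 ^ 12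
  rw [h2_ker, AddSubgroup.index_ker, AddMonoidHom.range_eq_top.2 h2_surjective,
    Nat.card_congr (AddSubgroup.topEquiv
      (G := (GolayPt → ZMod 2) ⧸ golayCode.toAddSubgroup)).toEquiv, card_quot]

/-! ### Step 3: the sum condition -/

/-- the set of positions where the word of `x` is nonzero -/
theorem support_thetaFun {x : GolayPt → ℤ} (hx : x ∈ U) :
    support₂ (thetaFun x) = lvl x (-x none) := by
  rw [mem_U_iff] at hx
  ext i
  have a := hx i
  rw [mem_lvl]
  simp only [support₂, Finset.mem_filter, Finset.mem_univ, true_and]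
  show ¬ (((x i + x none) / 2 : ℤ) : ZMod 2) = 0 ↔ x i % 4 = (-x none + 2) % 4
  rw [cast_eq_zero_iff]
  omega

theorem lvl_mem {x : GolayPt → ℤ} (hx : x ∈ U') :
    lvl x (-x none) ∈ supports (golayCode : Set (GolayPt → ZMod 2)) := by
  rw [← support_thetaFun hx.1]
  exact ⟨_, hx.2, rfl⟩

theorem four_dvd_sum {x : GolayPt → ℤ} (hx : x ∈ U') : (∑ i, x i) % 4 = 0 := by
  have hL := lvl_mem hx
  have hc := card_of_mem_supports hL
  have hU := (mem_U_iff x).1 hx.1
  have hdec : ∑ i, x i = ∑ i, (x i + x none - 2 * (if i ∈ lvl x (-x none) then 1 else 0)) -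
      24 * x none + 2 * ((lvl x (-x none)).card : ℤ) := by
    rw [Finset.sum_sub_distrib, Finset.sum_add_distrib, Finset.sum_const, ← Finset.mul_sum,
      Finset.sum_boole, Finset.filter_mem_eq_inter, Finset.univ_inter, Finset.card_univ,
      Cfsg.Agent.Helper92.card_golayPt]
    simp only [nsmul_eq_mul]
    push_cast
    ring
  have hd : (4 : ℤ) ∣ ∑ i, (x i + x none - 2 * (if i ∈ lvl x (-x none) then 1 else 0)) := by
    apply Finset.dvd_sum
    intro i _
    have a := hU i
    by_cases hl : i ∈ lvl x (-x none)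
    · rw [if_pos hl]
      have : x i % 4 = (-x none + 2) % 4 := (mem_lvl x _ i).1 hl
      omega
    · rw [if_neg hl]
      have : ¬ x i % 4 = (-x none + 2) % 4 := fun h => hl ((mem_lvl x _ i).2 h)
      omega
  rw [hdec]
  rcases hc with h | h | h | h | h <;> rw [h] <;> omega

/-- the remaining condition on the coordinate sum -/
def h3 : U' →+ ZMod 2 where
  toFun x := (((∑ i, x.1 i) / 4 - x.1 none : ℤ) : ZMod 2)
  map_zero' := by simp
  map_add' := by
    intro x y
    have a := four_dvd_sum x.2
    have b := four_dvd_sum y.2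
    have hs : ∑ i, (x.1 + y.1) i = ∑ i, x.1 i + ∑ i, y.1 i := by
      simp [Finset.sum_add_distrib]
    show (((∑ i, (x.1 + y.1) i) / 4 - (x.1 none + y.1 none) : ℤ) : ZMod 2) =
      (((∑ i, x.1 i) / 4 - x.1 none : ℤ) : ZMod 2) + (((∑ i, y.1 i) / 4 - y.1 none : ℤ) : ZMod 2)
    rw [← Int.cast_add, hs]
    congr 1
    omega

theorem leech_le_U' : leechLattice ≤ U' := by
  intro x hx
  have hp : x ∈ U := by
    rw [mem_U_iff]
    intro i
    exact parity hx i
  exact ⟨hp, theta_mem ⟨x, hx⟩⟩

theorem h3_ker : leechLattice.addSubgroupOf U' = h3.ker := by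
  ext ⟨x, hx⟩
  rw [AddSubgroup.mem_addSubgroupOf, AddMonoidHom.mem_ker]
  show x ∈ leechLattice ↔ (((∑ i, x i) / 4 - x none : ℤ) : ZMod 2) = 0
  rw [cast_eq_zero_iff]
  have h4 := four_dvd_sum hx
  have hU := (mem_U_iff x).1 hx.1
  constructor
  · intro h
    rw [mem_leechLattice_iff] at h
    obtain ⟨m, p1, p2, -⟩ := h
    have a : x none % 2 = m % 2 := p1 none
    have b : (∑ i, x i) % 8 = (4 * m) % 8 := p2
    omega
  · intro h
    rw [mem_leechLattice_iff, mem_leechSet_iff]
    refine ⟨-x none, ?_, ?_, lvl_mem hx⟩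
    · intro i
      have a := hU i
      show x i % 2 = (-x none) % 2
      omega
    · show (∑ i, x i) % 8 = (4 * -x none) % 8
      omega

theorem h3_surjective : Function.Surjective h3 := by
  have hmem : (Pi.single (some 0) 4 : GolayPt → ℤ) ∈ U' := by
    constructor
    · rw [mem_U_iff]
      decide
    · have : thetaFun (Pi.single (some 0) 4 : GolayPt → ℤ) = 0 := by
        funext i
        revert i
        decide
      rw [this]
      exact zero_mem _
  have h1 : h3 ⟨Pi.single (some 0) 4, hmem⟩ = 1 := by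
    show (((∑ i, (Pi.single (some 0) 4 : GolayPt → ℤ) i) / 4 -
      (Pi.single (some 0) 4 : GolayPt → ℤ) none : ℤ) : ZMod 2) = 1
    rw [Finset.sum_pi_single']
    decide
  intro a
  have : a = 0 ∨ a = 1 := by revert a; decide
  rcases this with rfl | rfl
  · exact ⟨0, map_zero h3⟩
  · exact ⟨_, h1⟩

theorem leech_relIndex : leechLattice.relIndex U' = 2 := by
  show (leechLattice.addSubgroupOf U').index = 2
  rw [h3_ker, AddSubgroup.index_ker, AddMonoidHom.range_eq_top.2 h3_surjective,
    Nat.card_congr (AddSubgroup.topEquiv (G := ZMod 2)).toEquiv, Nat.card_zmod]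

/-- The lattice has index 2^36 in ℤ^24 (unimodular at scale 1/8). -/
theorem result : Cfsg.leechLattice.index = 2 ^ 36 := by
  rw [← AddSubgroup.relIndex_mul_index leech_le_U', ← AddSubgroup.relIndex_mul_index U'_le,
    leech_relIndex, U'_relIndex, U_index]
  norm_num

end Cfsg.Agent.S0393
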