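import Cfsg.Statements.S0399
import Cfsg.Agent.Helper92.LeechSimple

set_option autoImplicit false
open Cfsg

namespace Cfsg.Agent.S0399

/-- Automorphism group of the lattice modulo its centre is simple of order 4157776806543360000. -/
theorem result : Cfsg.IsCo1 (Cfsg.Co0 ⧸ Subgroup.center Cfsg.Co0) := by
  have hcard : Nat.card (Cfsg.Co0 ⧸ Subgroup.center Cfsg.Co0) = 4157776806543360000 := by
    have h := Subgroup.card_mul_index (Subgroup.center Cfsg.Co0)
    rw [Cfsg.Agent.Helper92.card_center, Cfsg.Agent.Helper92.card_co0,
      Subgroup.index_eq_card] at h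
    omega
  refine ⟨?_, hcard⟩
  have hnt : Nontrivial (Cfsg.Co0 ⧸ Subgroup.center Cfsg.Co0) := by
    rw [← Finite.one_lt_card_iff_nontrivial, hcard]
    norm_num
  refine ⟨fun H hH => ?_⟩
  have hKn : (H.comap (QuotientGroup.mk' (Subgroup.center Cfsg.Co0))).Normal := hH.comap _
  rcases Cfsg.Agent.Helper92.normal_le_center_or_eq_top
    (H.comap (QuotientGroup.mk' (Subgroup.center Cfsg.Co0))) with h | h
  · left
    rw [eq_bot_iff]
    intro x hx
    induction x using QuotientGroup.induction_on with
    | H g =>
      have h1 : g ∈ H.comap (QuotientGroup.mk' (Subgroup.center Cfsg.Co0)) := hx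
      have h2 := h h1
      rw [Subgroup.mem_bot]
      exact (QuotientGroup.eq_one_iff g).2 h2
  · right
    rw [eq_top_iff]
    intro x _
    induction x using QuotientGroup.induction_on with
    | H g =>
      have h1 : g ∈ H.comap (QuotientGroup.mk' (Subgroup.center Cfsg.Co0)) := by
        rw [h]; exact Subgroup.mem_top _
      exact h1

end Cfsg.Agent.S0399
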