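import Cfsg.Statements.S0401
import Cfsg.Agent.Helper92.LeechCong
-- import your own Cfsg.Agent.* helpers here

set_option autoImplicit false
open Cfsg

namespace Cfsg.Agent.S0401

open Cfsg.Agent.Helper92 in
theorem orb_leechV_of_norm (v : leechLattice) (hv : Cfsg.sqNorm (v : Cfsg.GolayPt → ℤ) = 48) :
    ∃ g : Cfsg.Co0, g • v = Cfsg.Spor.leechV := by
  have h48 : sqNorm (v : Cfsg.GolayPt → ℤ) ≤ 64 := by rw [hv]; norm_num
  rcases orb_cases v with h | h | h | h
  · have := h.sqNorm_eq h48 (by rw [sqNorm_zero']; norm_num)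
    rw [hv, sqNorm_zero'] at this
    omega
  · have := h.sqNorm_eq h48 (by rw [sqNorm_leechU]; norm_num)
    rw [hv, sqNorm_leechU] at this
    omega
  · exact h.exists_smul_eq (by rw [hv]; norm_num) (by rw [sqNorm_leechV]; norm_num)
  · have := h.sqNorm_eq h48 (by rw [sqNorm_U4])
    rw [hv, sqNorm_U4] at this
    omega

/-- Automorphisms of the lattice act transitively on vectors of sum of squares 48. -/
theorem result (v w : Cfsg.leechLattice) (hv : Cfsg.sqNorm (v : Cfsg.GolayPt → ℤ) = 48) (hw : Cfsg.sqNorm (w : Cfsg.GolayPt → ℤ) = 48) : ∃ g : Cfsg.Co0, g • v = w := by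
  obtain ⟨g, hg⟩ := orb_leechV_of_norm v hv
  obtain ⟨h, hh⟩ := orb_leechV_of_norm w hw
  refine ⟨h⁻¹ * g, ?_⟩
  rw [mul_smul, hg, ← hh, inv_smul_smul]

end Cfsg.Agent.S0401
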