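import Cfsg.Statements.S0412
import Cfsg.Agent.Helper93.SteinerAut
import Cfsg.Agent.S0369
import Cfsg.Agent.S0366
import Cfsg.Agent.Helper7.MathieuSimple2
import Cfsg.Agent.Helper91.M24Chain

set_option autoImplicit false
open Cfsg

namespace Cfsg.Agent.S0412

/-- Aut of an S(5, 8, 24) is simple of order 244823040 and 5-transitive on points. -/
theorem result {α : Type*} [Fintype α] [DecidableEq α] (hα : Fintype.card α = 24) {B : Set (Finset α)} (hB : Cfsg.IsSteinerSystem 5 8 B) : Cfsg.IsM24 (Cfsg.setSystemAut B) ∧ MulAction.IsMultiplyPretransitive (Cfsg.setSystemAut B) α 5 := by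
  obtain ⟨e, he⟩ := Cfsg.Agent.Helper93.steiner_5_8_24_octads hα hB
  have eq1 : Cfsg.setSystemAut B ≃* Cfsg.setSystemAut Cfsg.octads :=
    Cfsg.Agent.Helper93.autCongr e he
  have eq2 : Cfsg.setSystemAut B ≃* Cfsg.M24 :=
    eq1.trans (MulEquiv.subgroupCongr Cfsg.Agent.S0369.result.symm)
  refine ⟨⟨?_, ?_⟩, ?_⟩
  · haveI := Cfsg.Agent.Helper7.simple_M24
    exact eq2.isSimpleGroup
  · rw [Nat.card_congr eq2.toEquiv]
    exact Cfsg.Agent.Helper91.card_M24
  · haveI := Cfsg.Agent.S0366.result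
    refine Cfsg.Agent.Helper93.multTrans_transfer (H := Cfsg.M24) e ?_ 5
    intro u hu
    rw [Cfsg.Agent.S0369.result] at hu
    exact (Cfsg.Agent.Helper93.aut_mem_iff' e he u).2 hu

end Cfsg.Agent.S0412
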