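import Cfsg.Statements.S0413
import Cfsg.Agent.Helper93.SteinerAut23
import Cfsg.Agent.S0376
import Cfsg.Agent.S0377

set_option autoImplicit false
open Cfsg

namespace Cfsg.Agent.S0413

/-- Aut of an S(4, 7, 23) is simple of order 10200960 and 4-transitive. -/
theorem result {α : Type*} [Fintype α] [DecidableEq α] (hα : Fintype.card α = 23) {B : Set (Finset α)} (hB : Cfsg.IsSteinerSystem 4 7 B) : Cfsg.IsM23 (Cfsg.setSystemAut B) ∧ MulAction.IsMultiplyPretransitive (Cfsg.setSystemAut B) α 4 := by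
  obtain ⟨e, he⟩ := Cfsg.Agent.Helper93.steiner_4_7_23_conc hα hB
  have eq1 : Cfsg.setSystemAut B ≃* Cfsg.setSystemAut (Cfsg.Agent.Helper93.concR Cfsg.Agent.Helper93.R1) :=
    Cfsg.Agent.Helper93.autCongr e he
  have eq2 := eq1.trans Cfsg.Agent.Helper93.aut23Equiv
  refine ⟨⟨?_, ?_⟩, ?_⟩
  · have := Cfsg.Agent.S0377.result none
    exact eq2.isSimpleGroup
  · rw [Nat.card_congr eq2.toEquiv]
    exact Cfsg.Agent.S0376.result none
  · have := Cfsg.Agent.Helper93.aut23_trans
    exact Cfsg.Agent.Helper93.multTrans_transfer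
      (H := Cfsg.setSystemAut (Cfsg.Agent.Helper93.concR Cfsg.Agent.Helper93.R1)) e
      (fun u hu => (Cfsg.Agent.Helper93.aut_mem_iff' e he u).2 hu) 4

end Cfsg.Agent.S0413
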