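import Cfsg.Statements.S0427
import Cfsg.Agent.Helper93.BlockGraph

set_option autoImplicit false
open Cfsg

namespace Cfsg.Agent.S0427

/-- The block graph (adjacent = disjoint) of an S(3, 6, 22) is strongly regular with parameters (77, 16, 0, 4). -/
theorem result {α : Type*} [Fintype α] (hα : Fintype.card α = 22) {B : Set (Finset α)} (hB : Cfsg.IsSteinerSystem 3 6 B) [Fintype B] [DecidableRel (Cfsg.blockGraph B).Adj] : (Cfsg.blockGraph B).IsSRGWith 77 16 0 4 := by
  classical
  have hadj := Cfsg.Agent.Helper93.blockGraph_adj_iff B hB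
  refine ⟨?_, ?_, ?_, ?_⟩
  · rw [Cfsg.Agent.Helper93.card_blocks_type]
    exact Cfsg.Agent.Helper93.s22_card hα B hB
  · intro b
    rw [← SimpleGraph.card_neighborSet_eq_degree,
      Cfsg.Agent.Helper93.card_set_blocks B _ (fun c => Disjoint c (b : Finset α))
        (fun c => by rw [SimpleGraph.mem_neighborSet, hadj])]
    exact Cfsg.Agent.Helper93.s22_disjoint hα B hB b.2
  · intro b c hbc
    rw [Cfsg.Agent.Helper93.card_set_blocks B _
      (fun d => Disjoint d (b : Finset α) ∧ Disjoint d (c : Finset α))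
      (fun d => by rw [SimpleGraph.mem_commonNeighbors, hadj, hadj])]
    rw [Finset.card_eq_zero, Finset.filter_eq_empty_iff]
    rintro d hd ⟨h1, h2⟩
    exact Cfsg.Agent.Helper93.s22_no_triangle hα B hB b.2 c.2
      (Cfsg.Agent.Helper93.mem_linesF.1 hd) ((hadj b c).1 hbc) h1 h2
  · intro b c hne hbc
    rw [Cfsg.Agent.Helper93.card_set_blocks B _
      (fun d => Disjoint d (b : Finset α) ∧ Disjoint d (c : Finset α))
      (fun d => by rw [SimpleGraph.mem_commonNeighbors, hadj, hadj])]
    have hne' : (c : Finset α) ≠ (b : Finset α) := fun e => hne (Subtype.ext e.symm)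
    have h2 : ((c : Finset α) ∩ (b : Finset α)).card = 2 := by
      rcases Cfsg.Agent.Helper93.s22_inter hα B hB b.2 c.2 hne' with h | h
      · exfalso
        apply hbc
        rw [hadj]
        exact Finset.disjoint_iff_inter_eq_empty.2 (Finset.card_eq_zero.1 h)
      · exact h
    exact Cfsg.Agent.Helper93.s22_common_disjoint hα B hB b.2 c.2 h2

end Cfsg.Agent.S0427
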