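import Cfsg.Statements.S0429
import Cfsg.Agent.Helper67.S77Defs
import Cfsg.Agent.Helper93.Srg100Iso
import Cfsg.Agent.S0410
import Cfsg.Agent.Helper1.S77F10
import Cfsg.Agent.Helper1.S77F17a
import Cfsg.Agent.Helper11.S77F18
import Cfsg.Agent.Helper11.S77F19a
import Cfsg.Agent.Helper11.S77F8
import Cfsg.Agent.Helper36.S77F17
import Cfsg.Agent.Helper36.S77F6
import Cfsg.Agent.Helper39.S77F1
import Cfsg.Agent.Helper39.S77F2
import Cfsg.Agent.Helper39.S77F3
import Cfsg.Agent.Helper51.S77F11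
import Cfsg.Agent.Helper51.S77F12
import Cfsg.Agent.Helper51.S77F14
import Cfsg.Agent.Helper51.S77F19b
import Cfsg.Agent.Helper61.S77F14a
import Cfsg.Agent.Helper61.S77F15
import Cfsg.Agent.Helper61.S77F16
import Cfsg.Agent.Helper67.S77F20
import Cfsg.Agent.Helper67.S77F20a
import Cfsg.Agent.Helper67.S77F21
import Cfsg.Agent.Helper67.S77F5
import Cfsg.Agent.Helper7.S77F4
import Cfsg.Agent.Helper7.S77F9
import Cfsg.Agent.Helper77.S77F17b
import Cfsg.Agent.Helper77.S77F7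
import Cfsg.Agent.Helper80.S77F4a
import Cfsg.Agent.Helper88.S77F13

set_option autoImplicit false
open Cfsg

namespace Cfsg.Agent.S0429

open Cfsg.Agent.Helper67.S77 in
/-- the whole chain of counting facts for a strongly regular graph with parameters (77,16,0,4) -/
theorem chain77 {V : Type*} [Fintype V] [DecidableEq V] {G : SimpleGraph V} [DecidableRel G.Adj]
    (hG : G.IsSRGWith 77 16 0 4) : F19b G ∧ F20 G ∧ F21 G := by
  have h1 := Cfsg.Agent.Helper39.S77F1.p_F1 hG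
  have h2 := Cfsg.Agent.Helper39.S77F2.p_F2 hG
  have h3 := Cfsg.Agent.Helper39.S77F3.p_F3 hG
  have h4a := Cfsg.Agent.Helper80.S77F4a.p_F4a h1 h2 h3
  have h4 := Cfsg.Agent.Helper7.S77F4.p_F4 hG h4a
  have h5 := Cfsg.Agent.Helper67.S77F5.p_F5 h1 h2 h3 h4
  have h6 := Cfsg.Agent.Helper36.S77F6.p_F6 h1 h2 h3 h4
  have h7 := Cfsg.Agent.Helper77.S77F7.p_F7 hG h4
  have h8 := Cfsg.Agent.Helper11.S77F8.p_F8 hG h4 h5 h6 h7
  have h9 := Cfsg.Agent.Helper7.S77F9.p_F9 hG h5 h7 h8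
  have h10 := Cfsg.Agent.Helper1.S77F10.p_F10 hG h5 h7 h8 h9
  have h11 := Cfsg.Agent.Helper51.S77F11.p_F11 hG h5
  have h12 := Cfsg.Agent.Helper51.S77F12.p_F12 hG
  have h13 := Cfsg.Agent.Helper88.S77F13.p_F13 hG h11 h12
  have h14a := Cfsg.Agent.Helper61.S77F14a.p_F14a hG h4 h11 h12
  have h14 := Cfsg.Agent.Helper51.S77F14.p_F14 hG h11 h12 h14a
  have h15 := Cfsg.Agent.Helper61.S77F15.p_F15 hG
  have h16 := Cfsg.Agent.Helper61.S77F16.p_F16 hG h4 h5 h15
  have h17a := Cfsg.Agent.Helper1.S77F17a.p_F17a hG h7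
  have h17b := Cfsg.Agent.Helper77.S77F17b.p_F17b hG h10 h11 h13 h14
  have h17 := Cfsg.Agent.Helper36.S77F17.p_F17 hG h10 h11 h16 h17a h17b
  have h18 := Cfsg.Agent.Helper11.S77F18.p_F18 hG h6 h16 h17
  have h19a := Cfsg.Agent.Helper11.S77F19a.p_F19a hG h18
  have h19b := Cfsg.Agent.Helper51.S77F19b.p_F19b hG h19a
  have h20a := Cfsg.Agent.Helper67.S77F20a.p_F20a hG h18 h19a
  exact ⟨h19b, Cfsg.Agent.Helper67.S77F20.p_F20 hG h19b h20a, Cfsg.Agent.Helper67.S77F21.p_F21 h20a⟩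

/-- an isomorphism of set systems induces an isomorphism of block graphs -/
noncomputable def bgIso77 {α : Type*} {β : Type*} [DecidableEq β] (e : α ≃ β)
    {B : Set (Finset α)} {B' : Set (Finset β)}
    (he : (fun b => b.image e) '' B = B') : Cfsg.blockGraph B ≃g Cfsg.blockGraph B' where
  toEquiv := Cfsg.Agent.Helper93.blockEquiv e he
  map_rel_iff' := by
    intro b c
    unfold Cfsg.blockGraph
    simp only [SimpleGraph.fromRel_adj, ne_eq, EmbeddingLike.apply_eq_iff_eq]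
    rw [Cfsg.Agent.Helper93.blockEquiv_coe, Cfsg.Agent.Helper93.blockEquiv_coe,
      Finset.disjoint_image e.injective, Finset.disjoint_image e.injective]

/-- Uniqueness of the strongly regular graph with parameters (77, 16, 0, 4). -/
theorem result {V W : Type*} [Fintype V] [Fintype W] {G : SimpleGraph V} {H : SimpleGraph W} [DecidableRel G.Adj] [DecidableRel H.Adj] (hG : G.IsSRGWith 77 16 0 4) (hH : H.IsSRGWith 77 16 0 4) : Nonempty (G ≃g H) := by
  classical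
  obtain ⟨cG, sG, ⟨φ⟩⟩ := chain77 hG
  obtain ⟨cH, sH, ⟨ψ⟩⟩ := chain77 hH
  have hα : Fintype.card {C // C ∈ Cfsg.Agent.Helper67.S77.Cocls G} = 22 := by
    rw [Fintype.card_coe]; exact cG
  have hβ : Fintype.card {C // C ∈ Cfsg.Agent.Helper67.S77.Cocls H} = 22 := by
    rw [Fintype.card_coe]; exact cH
  obtain ⟨e, he⟩ := Cfsg.Agent.S0410.result hα hβ sG sH
  exact ⟨φ.trans ((bgIso77 e he).trans ψ.symm)⟩

end Cfsg.Agent.S0429
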