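import Cfsg.Statements.S0435
import Cfsg.Agent.Helper52.U7920Main

set_option autoImplicit false
open Cfsg

namespace Cfsg.Agent.S0435

/-- Involution centralisers in a simple group of order 7920 have order 48. -/
theorem result {G : Type*} [Group G] [Finite G] (hG : Cfsg.IsM11 G) (x : G) (hx : orderOf x = 2) : Nat.card (Subgroup.centralizer ({x} : Set G)) = 48 := by
  obtain ⟨hs, hc⟩ := hG
  haveI : IsSimpleGroup G := hs
  exact Cfsg.Agent.Helper52.u7920_result hc x hx

end Cfsg.Agent.S0435
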