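import Cfsg.Statements.S0439

set_option autoImplicit false
open Cfsg

namespace Cfsg.Agent.S0439

open Equiv in
theorem swap_mul_swap_pow_three {α : Type*} [DecidableEq α] [Fintype α] {a b c : α}
    (hab : a ≠ b) (hac : a ≠ c) (hbc : b ≠ c) : (swap a b * swap a c) ^ 3 = 1 := by
  have h := (Equiv.Perm.isThreeCycle_swap_mul_swap_same hab hac hbc).orderOf
  rw [← h]
  exact pow_orderOf_eq_one _

open Equiv in
theorem swap_swap_cases {α : Type*} [DecidableEq α] [Fintype α] {a b c f : α}
    (hab : a ≠ b) (hcf : c ≠ f) :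
    (swap a b * swap c f) ^ 2 = 1 ∨ (swap a b * swap c f) ^ 3 = 1 := by
  by_cases h1 : c = a
  · subst h1
    by_cases h2 : f = b
    · subst h2
      left
      rw [pow_two, swap_mul_self, one_mul]
    · right
      exact swap_mul_swap_pow_three hab hcf (Ne.symm h2)
  by_cases h2 : c = b
  · subst h2
    by_cases h3 : f = a
    · subst h3
      left
      rw [swap_comm c f, pow_two, swap_mul_self, one_mul]
    · right
      rw [swap_comm a c]
      exact swap_mul_swap_pow_three (Ne.symm hab) hcf (Ne.symm h3)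
  by_cases h3 : f = a
  · subst h3
    right
    rw [swap_comm c f]
    exact swap_mul_swap_pow_three hab (Ne.symm hcf) (Ne.symm h2)
  by_cases h4 : f = b
  · subst h4
    right
    rw [swap_comm c f, swap_comm a f]
    exact swap_mul_swap_pow_three (Ne.symm hab) (Ne.symm hcf) (Ne.symm h1)
  left
  have hd : Equiv.Perm.Disjoint (swap a b) (swap c f) := by
    apply Equiv.Perm.disjoint_swap_swap
    simp only [List.nodup_cons, List.mem_cons, List.not_mem_nil, or_false, not_or,
      List.nodup_nil, and_true, not_false_eq_true]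
    exact ⟨⟨hab, Ne.symm h1, Ne.symm h3⟩, ⟨Ne.symm h2, Ne.symm h4⟩, hcf⟩
  rw [hd.commute.mul_pow, pow_two, swap_mul_self, one_mul, pow_two, swap_mul_self]

theorem result (n : ℕ) (hn : 2 ≤ n) : Cfsg.IsThreeTranspositionClass {σ : Equiv.Perm (Fin n) | σ.IsSwap} := by
  refine ⟨⟨?_, ?_⟩, ?_, ?_⟩
  · intro d hd
    exact Equiv.Perm.IsSwap.orderOf hd
  · rintro d ⟨a, b, hab, rfl⟩ e ⟨c, f, hcf, rfl⟩
    exact swap_swap_cases hab hcf
  · have h01 : (⟨0, by omega⟩ : Fin n) ≠ ⟨1, by omega⟩ := by
      intro h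
      have := congrArg Fin.val h
      simp at this
    refine ⟨Equiv.swap ⟨0, by omega⟩ ⟨1, by omega⟩, ⟨_, _, h01, rfl⟩, ?_⟩
    ext σ
    show σ.IsSwap ↔ IsConj _ σ
    constructor
    · rintro ⟨a, b, hab, rfl⟩
      exact Equiv.Perm.isConj_swap h01 hab
    · intro h
      rw [isConj_iff] at h
      obtain ⟨g, rfl⟩ := h
      rw [← Equiv.Perm.card_support_eq_two, Equiv.Perm.card_support_conj,
        Equiv.Perm.card_support_eq_two]
      exact ⟨_, _, h01, rfl⟩
  · exact Equiv.Perm.closure_isSwap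

end Cfsg.Agent.S0439
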