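import Cfsg.Statements.S0440

set_option autoImplicit false
open Cfsg

namespace Cfsg.Agent.S0440

open Matrix

/-- the space of column vectors -/
abbrev V (n : ℕ) := Fin n ⊕ Fin n → ZMod 2

/-- the symplectic group -/
abbrev Sp (n : ℕ) := Matrix.symplecticGroup (Fin n) (ZMod 2)

section
variable {n : ℕ}

/-- the alternating form -/
def B (x y : V n) : ZMod 2 := x ⬝ᵥ (J (Fin n) (ZMod 2) *ᵥ y)

theorem B_add_left (x x' y : V n) : B (x + x') y = B x y + B x' y := by
  unfold B; rw [add_dotProduct]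

theorem B_add_right (x y y' : V n) : B x (y + y') = B x y + B x y' := by
  unfold B; rw [mulVec_add, dotProduct_add]

theorem B_smul_left (c : ZMod 2) (x y : V n) : B (c • x) y = c * B x y := by
  unfold B; rw [smul_dotProduct, smul_eq_mul]

theorem B_smul_right (c : ZMod 2) (x y : V n) : B x (c • y) = c * B x y := by
  unfold B; rw [mulVec_smul, dotProduct_smul, smul_eq_mul]

theorem B_zero_left (y : V n) : B 0 y = 0 := by
  unfold B; rw [zero_dotProduct]

theorem B_zero_right (x : V n) : B x 0 = 0 := by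
  unfold B; rw [mulVec_zero, dotProduct_zero]

theorem zmod2_neg (a : ZMod 2) : -a = a := by
  revert a; decide

theorem zmod2_add_self (a : ZMod 2) : a + a = 0 := by
  revert a; decide

theorem zmod2_cases (a : ZMod 2) : a = 0 ∨ a = 1 := by
  revert a; decide

theorem V_add_self (x : V n) : x + x = 0 := by
  funext i; exact zmod2_add_self (x i)

theorem B_symm (x y : V n) : B x y = B y x := by
  unfold B
  rw [dotProduct_mulVec, ← mulVec_transpose, J_transpose, neg_mulVec, neg_dotProduct,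
    dotProduct_comm, zmod2_neg]

theorem B_self (x : V n) : B x x = 0 := by
  unfold B
  have h : J (Fin n) (ZMod 2) *ᵥ x = Sum.elim (-(x ∘ Sum.inr)) (x ∘ Sum.inl) := by
    unfold J
    rw [fromBlocks_mulVec]
    simp [neg_mulVec]
  rw [h, dotProduct, Fintype.sum_sum_type]
  simp only [Sum.elim_inl, Sum.elim_inr, Pi.neg_apply, Function.comp_apply, mul_neg,
    Finset.sum_neg_distrib]
  rw [neg_add_eq_zero]
  apply Finset.sum_congr rfl
  intro i _
  rw [mul_comm]

/-- nondegeneracy -/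
theorem exists_B_eq_one {u : V n} (hu : u ≠ 0) : ∃ x : V n, B x u = 1 := by
  have hJ : J (Fin n) (ZMod 2) *ᵥ u ≠ 0 := by
    intro h
    apply hu
    have h2 : (J (Fin n) (ZMod 2) * J (Fin n) (ZMod 2)) *ᵥ u = 0 := by
      rw [← mulVec_mulVec, h, mulVec_zero]
    rw [J_squared, neg_mulVec, one_mulVec, neg_eq_zero] at h2
    exact h2
  obtain ⟨j, hj⟩ : ∃ j, (J (Fin n) (ZMod 2) *ᵥ u) j ≠ 0 := by
    by_contra hcon
    apply hJ
    funext j
    by_contra hj
    exact hcon ⟨j, hj⟩
  refine ⟨Pi.single j 1, ?_⟩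
  unfold B
  rw [single_one_dotProduct]
  exact (zmod2_cases _).resolve_left hj

/-- the action of the symplectic group on vectors -/
def act (g : Sp n) (x : V n) : V n := (g : Matrix (Fin n ⊕ Fin n) (Fin n ⊕ Fin n) (ZMod 2)) *ᵥ x

theorem act_mul (g h : Sp n) (x : V n) : act (g * h) x = act g (act h x) := by
  unfold act
  rw [Submonoid.coe_mul, mulVec_mulVec]

theorem act_one (x : V n) : act (1 : Sp n) x = x := by
  unfold act
  rw [Submonoid.coe_one, one_mulVec]

theorem act_add (g : Sp n) (x y : V n) : act g (x + y) = act g x + act g y := by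
  unfold act; rw [mulVec_add]

theorem act_smul (g : Sp n) (c : ZMod 2) (x : V n) : act g (c • x) = c • act g x := by
  unfold act; rw [mulVec_smul]

theorem act_zero (g : Sp n) : act g (0 : V n) = 0 := by
  unfold act; rw [mulVec_zero]

theorem act_inv_act (g : Sp n) (x : V n) : act g⁻¹ (act g x) = x := by
  rw [← act_mul, inv_mul_cancel, act_one]

theorem act_act_inv (g : Sp n) (x : V n) : act g (act g⁻¹ x) = x := by
  rw [← act_mul, mul_inv_cancel, act_one]

theorem adj (A : Matrix (Fin n ⊕ Fin n) (Fin n ⊕ Fin n) (ZMod 2)) (x z : V n) :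
    (A *ᵥ x) ⬝ᵥ z = x ⬝ᵥ (Aᵀ *ᵥ z) := by
  rw [dotProduct_mulVec, vecMul_transpose]

theorem B_mat (A : Matrix (Fin n ⊕ Fin n) (Fin n ⊕ Fin n) (ZMod 2)) (x y : V n) :
    B (A *ᵥ x) (A *ᵥ y) = x ⬝ᵥ ((Aᵀ * J (Fin n) (ZMod 2) * A) *ᵥ y) := by
  unfold B
  rw [adj, mulVec_mulVec, mulVec_mulVec, Matrix.mul_assoc]

theorem B_act (g : Sp n) (x y : V n) : B (act g x) (act g y) = B x y := by
  have h := SymplecticGroup.mem_iff'.mp g.2
  unfold act
  rw [B_mat, h]
  rfl

theorem Sp_ext {g h : Sp n} (H : ∀ x, act g x = act h x) : g = h := by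
  apply Subtype.ext
  apply mulVec_injective
  funext x
  exact H x

/-- the matrix of a transvection -/
def Tmat (u : V n) : Matrix (Fin n ⊕ Fin n) (Fin n ⊕ Fin n) (ZMod 2) :=
  1 + vecMulVec u (J (Fin n) (ZMod 2) *ᵥ u)

theorem Tmat_mulVec (u x : V n) : Tmat u *ᵥ x = x + B x u • u := by
  unfold Tmat B
  rw [add_mulVec, one_mulVec, vecMulVec_mulVec, dotProduct_comm, op_smul_eq_smul]

theorem mat_ext_of_B {M N : Matrix (Fin n ⊕ Fin n) (Fin n ⊕ Fin n) (ZMod 2)}
    (h : ∀ x y : V n, x ⬝ᵥ (M *ᵥ y) = x ⬝ᵥ (N *ᵥ y)) : M = N := by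
  ext i j
  have := h (Pi.single i 1) (Pi.single j 1)
  simpa using this

theorem Tmat_mem (u : V n) : Tmat u ∈ Matrix.symplecticGroup (Fin n) (ZMod 2) := by
  rw [SymplecticGroup.mem_iff']
  apply mat_ext_of_B
  intro x y
  rw [← B_mat, Tmat_mulVec, Tmat_mulVec]
  change _ = B x y
  rw [B_add_left, B_add_right, B_add_right, B_smul_left, B_smul_right, B_smul_right, B_smul_left,
    B_self, B_symm u y]
  have := zmod2_add_self (B y u * B x u)
  rw [mul_zero, mul_zero, add_zero, mul_comm (B x u) (B y u), add_assoc, this, add_zero]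

/-- the symplectic transvection -/
def T (u : V n) : Sp n := ⟨Tmat u, Tmat_mem u⟩

theorem act_T (u x : V n) : act (T u) x = x + B x u • u := Tmat_mulVec u x

theorem T_mul_self (u : V n) : T u * T u = 1 := by
  apply Sp_ext; intro x
  rw [act_mul, act_one, act_T, act_T, B_add_left, B_smul_left, B_self, mul_zero, add_zero,
    add_assoc, V_add_self, add_zero]

theorem T_inv (u : V n) : (T u)⁻¹ = T u := inv_eq_of_mul_eq_one_left (T_mul_self u)

theorem T_zero : T (0 : V n) = 1 := by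
  apply Sp_ext; intro x
  rw [act_T, act_one, smul_zero, add_zero]

theorem T_ne_one {u : V n} (hu : u ≠ 0) : T u ≠ 1 := by
  intro h
  obtain ⟨x, hx⟩ := exists_B_eq_one hu
  have h1 : act (T u) x = act 1 x := by rw [h]
  rw [act_T, act_one, hx, one_smul] at h1
  exact hu (by simpa using h1)

theorem orderOf_T {u : V n} (hu : u ≠ 0) : orderOf (T u) = 2 := by
  have : Fact (Nat.Prime 2) := ⟨Nat.prime_two⟩
  exact orderOf_eq_prime (by rw [pow_two]; exact T_mul_self u) (T_ne_one hu)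

theorem conj_T (g : Sp n) (u : V n) : g * T u * g⁻¹ = T (act g u) := by
  apply Sp_ext; intro x
  have h : B (act g⁻¹ x) u = B x (act g u) := by
    rw [← B_act g (act g⁻¹ x) u, act_act_inv]
  rw [act_mul, act_mul, act_T, act_T, act_add, act_smul, act_act_inv, h]

theorem T_comm {u v : V n} (h : B u v = 0) : T u * T v = T v * T u := by
  have h1 := conj_T (T u) v
  rw [act_T, B_symm v u, h, zero_smul, add_zero, T_inv] at h1
  calc T u * T v = T u * T v * T u * T u := by rw [mul_assoc _ (T u) (T u), T_mul_self, mul_one]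
    _ = T v * T u := by rw [h1]

theorem T_braid {u v : V n} (h : B u v = 1) : T u * T v * T u = T (u + v) := by
  have h1 := conj_T (T u) v
  rw [act_T, B_symm v u, h, one_smul, T_inv, add_comm] at h1
  exact h1

theorem T_pair (u v : V n) : (T u * T v) ^ 2 = 1 ∨ (T u * T v) ^ 3 = 1 := by
  rcases zmod2_cases (B u v) with h | h
  · left
    have hc : Commute (T u) (T v) := T_comm h
    rw [hc.mul_pow, pow_two, pow_two, T_mul_self, T_mul_self, one_mul]
  · right
    have h1 := T_braid h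
    have h2 : T v * T u * T v = T (u + v) := by
      have h3 := T_braid (u := v) (v := u) (by rw [B_symm]; exact h)
      rw [add_comm] at h3; exact h3
    calc (T u * T v) ^ 3 = (T u * T v * T u) * (T v * T u * T v) := by
          simp only [pow_succ, pow_zero, one_mul, mul_assoc]
      _ = 1 := by rw [h1, h2, T_mul_self]

theorem T_sub_one (u : V n) :
    ((T u : Sp n) : Matrix (Fin n ⊕ Fin n) (Fin n ⊕ Fin n) (ZMod 2)) - 1 =
      vecMulVec u (J (Fin n) (ZMod 2) *ᵥ u) := by
  change Tmat u - 1 = _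
  unfold Tmat
  rw [add_sub_cancel_left]

theorem vecMulVec_apply' (u x : V n) :
    (vecMulVec u (J (Fin n) (ZMod 2) *ᵥ u)) *ᵥ x = B x u • u := by
  rw [vecMulVec_mulVec, op_smul_eq_smul, dotProduct_comm]
  rfl

theorem rank_T_sub_one {u : V n} (hu : u ≠ 0) :
    (((T u : Sp n) : Matrix (Fin n ⊕ Fin n) (Fin n ⊕ Fin n) (ZMod 2)) - 1).rank = 1 := by
  rw [T_sub_one]
  unfold Matrix.rank
  have hr : LinearMap.range (vecMulVec u (J (Fin n) (ZMod 2) *ᵥ u)).mulVecLin =
      Submodule.span (ZMod 2) {u} := by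
    ext y
    rw [Submodule.mem_span_singleton, LinearMap.mem_range]
    constructor
    · rintro ⟨x, rfl⟩
      exact ⟨B x u, (vecMulVec_apply' u x).symm⟩
    · rintro ⟨a, rfl⟩
      obtain ⟨x, hx⟩ := exists_B_eq_one hu
      refine ⟨a • x, ?_⟩
      rw [Matrix.mulVecLin_apply, vecMulVec_apply', B_smul_left, hx, mul_one]
  rw [hr]
  exact finrank_span_singleton hu

theorem zmod2_eq_of_add_eq_zero {a b : ZMod 2} (h : a + b = 0) : a = b := by
  revert a b; decide

theorem eq_T_of_rank {g : Sp n}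
    (h : ((g : Matrix (Fin n ⊕ Fin n) (Fin n ⊕ Fin n) (ZMod 2)) - 1).rank = 1) :
    ∃ u : V n, u ≠ 0 ∧ g = T u := by
  unfold Matrix.rank at h
  rw [finrank_eq_one_iff'] at h
  obtain ⟨⟨u, hu_mem⟩, hu0, hspan⟩ := h
  have hu : u ≠ 0 := fun h0 => hu0 (Subtype.ext h0)
  have hc : ∀ x : V n, ∃ c : ZMod 2, act g x = x + c • u := by
    intro x
    obtain ⟨c, hc⟩ := hspan ⟨((g : Matrix (Fin n ⊕ Fin n) (Fin n ⊕ Fin n) (ZMod 2)) - 1) *ᵥ x,
      ⟨x, rfl⟩⟩
    refine ⟨c, ?_⟩
    have h1 : c • u = ((g : Matrix (Fin n ⊕ Fin n) (Fin n ⊕ Fin n) (ZMod 2)) - 1) *ᵥ x :=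
      congrArg Subtype.val hc
    rw [sub_mulVec, one_mulVec] at h1
    unfold act
    rw [h1]; abel
  choose c hc using hc
  obtain ⟨y₀, hy₀⟩ := hu_mem
  have hy₀' : act g y₀ = y₀ + u := by
    have h1 : ((g : Matrix (Fin n ⊕ Fin n) (Fin n ⊕ Fin n) (ZMod 2)) - 1) *ᵥ y₀ = u := hy₀
    rw [sub_mulVec, one_mulVec] at h1
    unfold act
    rw [← h1]; abel
  have hcy : c y₀ = 1 := by
    rcases zmod2_cases (c y₀) with h0 | h1
    · exfalso
      have h2 := hc y₀
      rw [h0, zero_smul, add_zero, hy₀'] at h2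
      exact hu (by simpa using h2)
    · exact h1
  have key : ∀ x y : V n, c y * B x u = c x * B y u := by
    intro x y
    have h1 := B_act g x y
    rw [hc x, hc y, B_add_left, B_add_right, B_add_right, B_smul_left, B_smul_right,
      B_smul_right, B_smul_left, B_self, mul_zero, mul_zero, add_zero, B_symm u y] at h1
    have h2 : c y * B x u + c x * B y u = 0 := by
      have h3 : B x y + c y * B x u + c x * B y u = B x y + 0 := by rw [h1, add_zero]
      rw [add_assoc] at h3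
      exact add_left_cancel h3
    exact zmod2_eq_of_add_eq_zero h2
  have hB : ∀ x : V n, B x u = c x * B y₀ u := by
    intro x
    have := key x y₀
    rw [hcy, one_mul] at this
    exact this
  have hb : B y₀ u = 1 := by
    rcases zmod2_cases (B y₀ u) with h0 | h1
    · exfalso
      obtain ⟨x, hx⟩ := exists_B_eq_one hu
      rw [hB x, h0, mul_zero] at hx
      exact zero_ne_one hx
    · exact h1
  refine ⟨u, hu, Sp_ext fun x => ?_⟩
  rw [act_T, hc x, hB x, hb, mul_one]

/-- the set of transvections -/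
def Dset (n : ℕ) : Set (Sp n) := {g | ∃ u : V n, u ≠ 0 ∧ g = T u}

theorem Dset_eq (n : ℕ) :
    {g : Matrix.symplecticGroup (Fin n) (ZMod 2) |
      ((g : Matrix (Fin n ⊕ Fin n) (Fin n ⊕ Fin n) (ZMod 2)) - 1).rank = 1} = Dset n := by
  ext g
  constructor
  · intro h
    exact eq_T_of_rank h
  · rintro ⟨u, hu, rfl⟩
    exact rank_T_sub_one hu

theorem T_mem_closure (w : V n) : T w ∈ Subgroup.closure (Dset n) := by
  by_cases hw : w = 0
  · rw [hw, T_zero]; exact Subgroup.one_mem _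
  · exact Subgroup.subset_closure ⟨w, hw, rfl⟩

theorem T_fix {w s : V n} (h : B s w = 0) : act (T w) s = s := by
  rw [act_T, h, zero_smul, add_zero]

theorem T_step {a b : V n} (h : B a b = 1) : act (T (a + b)) a = b := by
  rw [act_T, B_add_right, B_self, h, zero_add, one_smul, ← add_assoc, V_add_self, zero_add]

/-- moving one vector to another, fixing a prescribed set -/
theorem move1 (S : Set (V n)) (u u' v v' : V n) (hu : ∀ s ∈ S, B s u = 0)
    (hu' : ∀ s ∈ S, B s u' = 0) (hv : ∀ s ∈ S, B s v = 0) (hv' : ∀ s ∈ S, B s v' = 0)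
    (huv : B u v = 1) (hu'v' : B u' v' = 1) :
    ∃ h ∈ Subgroup.closure (Dset n), (∀ s ∈ S, act h s = s) ∧ act h u = u' := by
  rcases zmod2_cases (B u u') with h0 | h1
  · -- find w
    obtain ⟨w, hw, hw1, hw2⟩ : ∃ w : V n, (∀ s ∈ S, B s w = 0) ∧ B u w = 1 ∧ B u' w = 1 := by
      rcases zmod2_cases (B u' v) with h2 | h2
      · rcases zmod2_cases (B u v') with h3 | h3
        · refine ⟨v + v', fun s hs => ?_, ?_, ?_⟩
          · rw [B_add_right, hv s hs, hv' s hs, add_zero]
          · rw [B_add_right, huv, h3, add_zero]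
          · rw [B_add_right, h2, hu'v', zero_add]
        · exact ⟨v', hv', h3, hu'v'⟩
      · exact ⟨v, hv, huv, h2⟩
    refine ⟨T (w + u') * T (u + w), Subgroup.mul_mem _ (T_mem_closure _) (T_mem_closure _),
      fun s hs => ?_, ?_⟩
    · rw [act_mul, T_fix (w := u + w) (s := s) (by rw [B_add_right, hu s hs, hw s hs, add_zero]),
        T_fix (by rw [B_add_right, hw s hs, hu' s hs, add_zero])]
    · rw [act_mul, T_step hw1, T_step (by rw [B_symm]; exact hw2)]
  · exact ⟨T (u + u'), T_mem_closure _,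
      fun s hs => T_fix (by rw [B_add_right, hu s hs, hu' s hs, add_zero]), T_step h1⟩

/-- moving the second vector of a hyperbolic pair, fixing the first and a prescribed set -/
theorem move2 (S : Set (V n)) (u' v₁ v' : V n)
    (hu' : ∀ s ∈ S, B s u' = 0) (hv₁ : ∀ s ∈ S, B s v₁ = 0) (hv' : ∀ s ∈ S, B s v' = 0)
    (h1 : B u' v₁ = 1) (h2 : B u' v' = 1) :
    ∃ h ∈ Subgroup.closure (Dset n), (∀ s ∈ S, act h s = s) ∧ act h u' = u' ∧ act h v₁ = v' := by
  rcases zmod2_cases (B v₁ v') with h0 | h3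
  · refine ⟨T (v₁ + u' + v') * T u', Subgroup.mul_mem _ (T_mem_closure _) (T_mem_closure _),
      fun s hs => ?_, ?_, ?_⟩
    · rw [act_mul, T_fix (w := u') (s := s) (hu' s hs),
        T_fix (by rw [B_add_right, B_add_right, hv₁ s hs, hu' s hs, hv' s hs, add_zero, add_zero])]
    · rw [act_mul, T_fix (w := u') (s := u') (B_self u'),
        T_fix (by rw [B_add_right, B_add_right, h1, B_self, h2, add_zero, zmod2_add_self])]
    · have h4 : act (T u') v₁ = v₁ + u' := by
        rw [act_T, B_symm, h1, one_smul]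
      rw [act_mul, h4]
      exact T_step (by rw [B_add_left, h0, h2, zero_add])
  · refine ⟨T (v₁ + v'), T_mem_closure _,
      fun s hs => T_fix (by rw [B_add_right, hv₁ s hs, hv' s hs, add_zero]), ?_, T_step h3⟩
    exact T_fix (by rw [B_add_right, h1, h2, zmod2_add_self])

/-- moving a hyperbolic pair to another, fixing a prescribed set -/
theorem move (S : Set (V n)) (u u' v v' : V n) (hu : ∀ s ∈ S, B s u = 0)
    (hu' : ∀ s ∈ S, B s u' = 0) (hv : ∀ s ∈ S, B s v = 0) (hv' : ∀ s ∈ S, B s v' = 0)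
    (huv : B u v = 1) (hu'v' : B u' v' = 1) :
    ∃ h ∈ Subgroup.closure (Dset n), (∀ s ∈ S, act h s = s) ∧ act h u = u' ∧ act h v = v' := by
  obtain ⟨h₁, hh₁, hS₁, hu₁⟩ := move1 S u u' v v' hu hu' hv hv' huv hu'v'
  have hv₁ : ∀ s ∈ S, B s (act h₁ v) = 0 := by
    intro s hs
    rw [← hS₁ s hs, B_act]; exact hv s hs
  have h1 : B u' (act h₁ v) = 1 := by
    rw [← hu₁, B_act]; exact huv
  obtain ⟨h₂, hh₂, hS₂, hu₂, hv₂⟩ := move2 S u' (act h₁ v) v' hu' hv₁ hv' h1 hu'v'
  refine ⟨h₂ * h₁, Subgroup.mul_mem _ hh₂ hh₁, fun s hs => ?_, ?_, ?_⟩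
  · rw [act_mul, hS₁ s hs, hS₂ s hs]
  · rw [act_mul, hu₁, hu₂]
  · rw [act_mul, hv₂]

/-- transitivity on nonzero vectors -/
theorem exists_act_eq {u u' : V n} (hu : u ≠ 0) (hu' : u' ≠ 0) : ∃ h : Sp n, act h u = u' := by
  obtain ⟨v, hv⟩ := exists_B_eq_one hu
  obtain ⟨v', hv'⟩ := exists_B_eq_one hu'
  rw [B_symm] at hv hv'
  obtain ⟨h, -, -, hh⟩ := move1 (∅ : Set (V n)) u u' v v' (fun s hs => absurd hs (Set.notMem_empty s))
    (fun s hs => absurd hs (Set.notMem_empty s)) (fun s hs => absurd hs (Set.notMem_empty s))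
    (fun s hs => absurd hs (Set.notMem_empty s)) hv hv'
  exact ⟨h, hh⟩

/-- the standard basis vectors -/
def e (i : Fin n) : V n := Pi.single (Sum.inl i) 1

/-- the standard basis vectors, second half -/
def f (i : Fin n) : V n := Pi.single (Sum.inr i) 1

theorem B_single (a b : Fin n ⊕ Fin n) :
    B (Pi.single a 1 : V n) (Pi.single b 1) = J (Fin n) (ZMod 2) a b := by
  unfold B
  rw [single_one_dotProduct, mulVec_single_one]
  rfl

theorem B_e_e (i j : Fin n) : B (e i) (e j) = 0 := by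
  unfold e; rw [B_single]; simp [J]

theorem B_f_f (i j : Fin n) : B (f i) (f j) = 0 := by
  unfold f; rw [B_single]; simp [J]

theorem B_e_f (i j : Fin n) : B (e i) (f j) = if i = j then 1 else 0 := by
  unfold e f; rw [B_single]
  have h : J (Fin n) (ZMod 2) (Sum.inl i) (Sum.inr j) = -((1 : Matrix (Fin n) (Fin n) (ZMod 2)) i j) := rfl
  rw [h, zmod2_neg, Matrix.one_apply]

theorem B_f_e (i j : Fin n) : B (f i) (e j) = if i = j then 1 else 0 := by
  rw [B_symm, B_e_f]
  simp only [eq_comm]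

/-- the inductive claim: every element can be corrected by transvections to fix the first `k`
hyperbolic pairs of the standard basis -/
theorem fix_basis (k : ℕ) (hk : k ≤ n) (g : Sp n) :
    ∃ h ∈ Subgroup.closure (Dset n), ∀ i : Fin n, i.val < k →
      act (h * g) (e i) = e i ∧ act (h * g) (f i) = f i := by
  induction k with
  | zero => exact ⟨1, Subgroup.one_mem _, fun i hi => absurd hi (Nat.not_lt_zero _)⟩
  | succ k ih =>
    obtain ⟨h₀, hh₀, hfix⟩ := ih (Nat.le_of_succ_le hk)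
    obtain ⟨g', hg'⟩ : ∃ g' : Sp n, g' = h₀ * g := ⟨_, rfl⟩
    rw [← hg'] at hfix
    let i₀ : Fin n := ⟨k, hk⟩
    let S : Set (V n) := {s | ∃ i : Fin n, i.val < k ∧ (s = e i ∨ s = f i)}
    have hne : ∀ i : Fin n, i.val < k → i ≠ i₀ := by
      intro i hi h
      rw [h] at hi
      exact absurd hi (lt_irrefl k)
    have hSfix : ∀ s ∈ S, act g' s = s := by
      rintro s ⟨i, hi, rfl | rfl⟩
      · exact (hfix i hi).1
      · exact (hfix i hi).2
    have hu : ∀ s ∈ S, B s (act g' (e i₀)) = 0 := by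
      intro s hs
      rw [← hSfix s hs, B_act]
      obtain ⟨i, hi, rfl | rfl⟩ := hs
      · exact B_e_e i i₀
      · rw [B_f_e, if_neg (hne i hi)]
    have hv : ∀ s ∈ S, B s (act g' (f i₀)) = 0 := by
      intro s hs
      rw [← hSfix s hs, B_act]
      obtain ⟨i, hi, rfl | rfl⟩ := hs
      · rw [B_e_f, if_neg (hne i hi)]
      · exact B_f_f i i₀
    have hu' : ∀ s ∈ S, B s (e i₀) = 0 := by
      rintro s ⟨i, hi, rfl | rfl⟩
      · exact B_e_e i i₀
      · rw [B_f_e, if_neg (hne i hi)]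
    have hv' : ∀ s ∈ S, B s (f i₀) = 0 := by
      rintro s ⟨i, hi, rfl | rfl⟩
      · rw [B_e_f, if_neg (hne i hi)]
      · exact B_f_f i i₀
    have huv : B (act g' (e i₀)) (act g' (f i₀)) = 1 := by
      rw [B_act, B_e_f, if_pos rfl]
    have hu'v' : B (e i₀) (f i₀) = 1 := by
      rw [B_e_f, if_pos rfl]
    obtain ⟨h, hh, hS, hue, hvf⟩ :=
      move S (act g' (e i₀)) (e i₀) (act g' (f i₀)) (f i₀) hu hu' hv hv' huv hu'v'
    refine ⟨h * h₀, Subgroup.mul_mem _ hh hh₀, fun i hi => ?_⟩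
    have hmul : ∀ x : V n, act (h * h₀ * g) x = act h (act g' x) := fun x => by
      rw [mul_assoc, ← hg', act_mul]
    rw [hmul, hmul]
    rcases Nat.lt_succ_iff_lt_or_eq.mp hi with hlt | heq
    · rw [(hfix i hlt).1, (hfix i hlt).2]
      exact ⟨hS _ ⟨i, hlt, Or.inl rfl⟩, hS _ ⟨i, hlt, Or.inr rfl⟩⟩
    · have hi0 : i = i₀ := Fin.ext heq
      rw [hi0]
      exact ⟨hue, hvf⟩

theorem closure_Dset (n : ℕ) : Subgroup.closure (Dset n) = ⊤ := by
  rw [eq_top_iff]
  intro g _
  obtain ⟨h, hh, hfix⟩ := fix_basis n le_rfl g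
  have h1 : h * g = 1 := by
    apply Subtype.ext
    rw [Submonoid.coe_one]
    ext a b
    have hcol : ((h * g : Sp n) : Matrix (Fin n ⊕ Fin n) (Fin n ⊕ Fin n) (ZMod 2)) *ᵥ
        (Pi.single b 1) = Pi.single b 1 := by
      rcases b with i | i
      · exact (hfix i i.2).1
      · exact (hfix i i.2).2
    have h2 := congrFun hcol a
    rw [mulVec_single_one] at h2
    rw [Matrix.one_apply, Pi.single_apply] at *
    exact h2
  have h2 : g = h⁻¹ := eq_inv_of_mul_eq_one_right h1
  rw [h2]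
  exact Subgroup.inv_mem _ hh

end

theorem result (n : ℕ) (hn : 1 ≤ n) : Cfsg.IsThreeTranspositionClass {g : Matrix.symplecticGroup (Fin n) (ZMod 2) | ((g : Matrix (Fin n ⊕ Fin n) (Fin n ⊕ Fin n) (ZMod 2)) - 1).rank = 1} := by
  rw [Dset_eq]
  refine ⟨⟨?_, ?_⟩, ?_, closure_Dset n⟩
  · rintro d ⟨u, hu, rfl⟩
    exact orderOf_T hu
  · rintro d ⟨u, hu, rfl⟩ e' ⟨v, hv, rfl⟩
    exact T_pair u v
  · have hu₀ : (e (⟨0, hn⟩ : Fin n) : V n) ≠ 0 := by
      intro h
      have := congrFun h (Sum.inl ⟨0, hn⟩)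
      simp [e] at this
    refine ⟨T (e ⟨0, hn⟩), ⟨_, hu₀, rfl⟩, ?_⟩
    ext g
    change g ∈ Dset n ↔ IsConj (T (e ⟨0, hn⟩)) g
    rw [isConj_iff]
    constructor
    · rintro ⟨u, hu, rfl⟩
      obtain ⟨h, hh⟩ := exists_act_eq hu₀ hu
      exact ⟨h, by rw [conj_T, hh]⟩
    · rintro ⟨h, rfl⟩
      rw [conj_T]
      refine ⟨_, ?_, rfl⟩
      intro h0
      apply hu₀
      have := act_inv_act h (e ⟨0, hn⟩)
      rw [h0, act_zero] at this
      exact this.symm

end Cfsg.Agent.S0440
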