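import Cfsg.Statements.S0442
import Mathlib.Tactic.Group

set_option autoImplicit false
open Cfsg

namespace Cfsg.Agent.S0442

theorem sq_of_order_two {G : Type*} [Group G] {a : G} (ha : orderOf a = 2) : a * a = 1 := by
  have := pow_orderOf_eq_one a
  rw [ha, pow_two] at this
  exact this

/-- `a` conjugates `(a*b)^m` to its inverse when `a`, `b` are involutions. -/
theorem conj_pow_inv {G : Type*} [Group G] {a b : G} (ha : a * a = 1) (hb : b * b = 1) (m : ℕ) :
    a * (a * b) ^ m * a⁻¹ = ((a * b) ^ m)⁻¹ := by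
  have hainv : a⁻¹ = a := inv_eq_of_mul_eq_one_left ha
  have hbinv : b⁻¹ = b := inv_eq_of_mul_eq_one_left hb
  rw [← conj_pow, ← inv_pow]
  congr 1
  rw [mul_inv_rev, hainv, hbinv, ← mul_assoc, ha, one_mul]

theorem commute_of_even {G : Type*} [Group G] {a b : G} (ha : a * a = 1) (hb : b * b = 1) (m : ℕ)
    (h : (a * b) ^ (2 * m) = 1) : Commute ((a * b) ^ m) a := by
  have h1 := conj_pow_inv ha hb m
  have h2 : ((a * b) ^ m)⁻¹ = (a * b) ^ m := by
    apply inv_eq_of_mul_eq_one_left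
    rw [← pow_add, ← two_mul]; exact h
  rw [h2] at h1
  have : a * (a * b) ^ m = (a * b) ^ m * a := by
    calc a * (a * b) ^ m = a * (a * b) ^ m * a⁻¹ * a := by group
      _ = (a * b) ^ m * a := by rw [h1]
  exact this.symm

theorem odd_case {G : Type*} [Group G] {a b g : G} (ha2 : a * a = 1) (hb2 : b * b = 1)
    (hgb : a * g = g * b) (m : ℕ) (hpow : (a * b) ^ (2 * m + 1) = 1) :
    Commute (g * (a * b) ^ m) a := by
  have hainv : a⁻¹ = a := inv_eq_of_mul_eq_one_left ha2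
  have hbinv : b⁻¹ = b := inv_eq_of_mul_eq_one_left hb2
  have h1 : b * (a * b) ^ m * b⁻¹ = ((a * b) ^ m)⁻¹ := by
    rw [← conj_pow, ← inv_pow]
    congr 1
    rw [mul_inv_rev, hainv, hbinv, mul_assoc, mul_assoc, hb2, mul_one]
  have h2 : b * (a * b) ^ m = ((a * b) ^ m)⁻¹ * b := by
    calc b * (a * b) ^ m = b * (a * b) ^ m * b⁻¹ * b := by group
      _ = ((a * b) ^ m)⁻¹ * b := by rw [h1]
  have h3 : (a * b) ^ m * a = ((a * b) ^ m)⁻¹ * b := by
    have h4 : (a * b) ^ m * (a * b) ^ m * (a * b) = 1 := by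
      rw [← pow_add, ← two_mul, ← pow_succ]; exact hpow
    have h5 : (a * b) ^ m * (a * b) ^ m * a = b := by
      have : (a * b) ^ m * (a * b) ^ m = (a * b)⁻¹ := eq_inv_of_mul_eq_one_left h4
      rw [this, mul_inv_rev, hainv, hbinv, mul_assoc, ha2, mul_one]
    calc (a * b) ^ m * a = ((a * b) ^ m)⁻¹ * ((a * b) ^ m * (a * b) ^ m * a) := by group
      _ = ((a * b) ^ m)⁻¹ * b := by rw [h5]
  show g * (a * b) ^ m * a = a * (g * (a * b) ^ m)
  rw [← mul_assoc a g, hgb, mul_assoc g b, h2, ← h3, mul_assoc]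

theorem result {G : Type*} [Group G] (a g : G) (ha : orderOf a = 2) : (∀ m : ℕ, orderOf (a * (g⁻¹ * a * g)) = 2 * m + 1 → Commute (g * (a * (g⁻¹ * a * g)) ^ m) a) ∧ (∀ m : ℕ, orderOf (a * (g⁻¹ * a * g)) = 2 * m → Commute ((a * (g⁻¹ * a * g)) ^ m) a ∧ Commute ((a * (g * a * g⁻¹)) ^ m) a) := by
  have ha2 := sq_of_order_two ha
  have hainv : a⁻¹ = a := inv_eq_of_mul_eq_one_left ha2
  have hb2 : (g⁻¹ * a * g) * (g⁻¹ * a * g) = 1 := by
    calc (g⁻¹ * a * g) * (g⁻¹ * a * g) = g⁻¹ * (a * a) * g := by group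
      _ = 1 := by rw [ha2]; group
  have hc2 : (g * a * g⁻¹) * (g * a * g⁻¹) = 1 := by
    calc (g * a * g⁻¹) * (g * a * g⁻¹) = g * (a * a) * g⁻¹ := by group
      _ = 1 := by rw [ha2]; group
  have hbinv : (g⁻¹ * a * g)⁻¹ = g⁻¹ * a * g := inv_eq_of_mul_eq_one_left hb2
  refine ⟨fun m hm => ?_, fun m hm => ⟨?_, ?_⟩⟩
  · -- odd case
    apply odd_case ha2 hb2 (by group) m
    rw [← hm]; exact pow_orderOf_eq_one _
  · -- even case, first claim
    apply commute_of_even ha2 hb2 m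
    rw [← hm]; exact pow_orderOf_eq_one _
  · apply commute_of_even ha2 hc2 m
    have hconj : a * (g * a * g⁻¹) = g * (a * (g⁻¹ * a * g))⁻¹ * g⁻¹ := by
      rw [mul_inv_rev, hbinv, hainv]; group
    rw [hconj, conj_pow, inv_pow, ← hm, pow_orderOf_eq_one]
    group

end Cfsg.Agent.S0442
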