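import Cfsg.Statements.S0443

set_option autoImplicit false
open Cfsg

namespace Cfsg.Agent.S0443

/-- An involution centralising a Sylow 2-subgroup lies in it. -/
theorem mem_sylow_of_centralizes {G : Type*} [Group G] (t : G) (ht : orderOf t = 2)
    (P : Sylow 2 G) (hP : (P : Subgroup G) ≤ Subgroup.centralizer ({t} : Set G)) :
    t ∈ P := by
  have h2 : IsPGroup 2 (Subgroup.zpowers t) := by
    apply IsPGroup.of_card (n := 1)
    rw [Nat.card_zpowers, ht, pow_one]
  have hnorm : Subgroup.zpowers t ≤ Subgroup.normalizer ((P : Subgroup G) : Set G) := by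
    rw [Subgroup.zpowers_le]
    rw [Subgroup.mem_normalizer_iff]
    intro h
    constructor
    · intro hh
      have := hP hh
      rw [Subgroup.mem_centralizer_iff] at this
      have h1 : t * h = h * t := this t rfl
      rw [h1, mul_inv_cancel_right]
      exact hh
    · intro hh
      have := hP hh
      rw [Subgroup.mem_centralizer_iff] at this
      have h1 : t * (t * h * t⁻¹) = (t * h * t⁻¹) * t := this t rfl
      have h3 : t * h * t⁻¹ = h := by
        have h4 : t * (t * h * t⁻¹) = t * h := by rw [h1]; group
        exact mul_left_cancel h4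
      rw [h3] at hh
      exact hh
  have hQ : IsPGroup 2 (Subgroup.zpowers t ⊔ (P : Subgroup G) : Subgroup G) :=
    h2.to_sup_of_normal_right' P.isPGroup' hnorm
  have := P.is_maximal' hQ le_sup_right
  have ht' : t ∈ Subgroup.zpowers t ⊔ (P : Subgroup G) :=
    (le_sup_left : Subgroup.zpowers t ≤ _) (Subgroup.mem_zpowers t)
  rw [this] at ht'
  exact ht'

theorem result {G : Type*} [Group G] [Finite G] (t : G) (ht : orderOf t = 2) : Cfsg.IsTwoCentralInvolution t ↔ ∃ P : Sylow 2 G, (P : Subgroup G) ≤ Subgroup.centralizer ({t} : Set G) := by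
  constructor
  · rintro ⟨-, P, -, hP⟩
    refine ⟨P, fun x hx => ?_⟩
    rw [Subgroup.mem_centralizer_iff]
    intro h hh
    rw [Set.mem_singleton_iff] at hh
    subst hh
    exact (hP x hx).symm
  · rintro ⟨P, hP⟩
    refine ⟨ht, P, mem_sylow_of_centralizes t ht P hP, fun x hx => ?_⟩
    have := hP hx
    rw [Subgroup.mem_centralizer_iff] at this
    exact (this t rfl).symm

end Cfsg.Agent.S0443
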