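import Cfsg.Statements.S1682
import Cfsg.Agent.Helper28.SP4.He

set_option autoImplicit false
open Cfsg

namespace Cfsg.Agent.S1682

/-- In the presented Held group, the subgroup H generated by the images of a, c, d, e, f, (ab)^2 and (bcde)^7 has a normal subgroup of index 2 isomorphic to the 4-dimensional symplectic group over a field with four elements. -/
theorem result : ∃ (N : Subgroup (((Subgroup.closure ({Cfsg.Spor.He.a, Cfsg.Spor.He.c, Cfsg.Spor.He.d, Cfsg.Spor.He.e, Cfsg.Spor.He.f, (Cfsg.Spor.He.a * Cfsg.Spor.He.b) ^ 2, (Cfsg.Spor.He.b * Cfsg.Spor.He.c * Cfsg.Spor.He.d * Cfsg.Spor.He.e) ^ 7} : Set (FreeGroup Cfsg.Spor.He.Gen))).map (PresentedGroup.mk (Cfsg.Spor.coxRelators Cfsg.Spor.He.edges ∪ {r | r ∈ Cfsg.Spor.He.extra}))))) (K : Type) (_ : Field K) (_ : Fintype K), N.Normal ∧ N.index = 2 ∧ Fintype.card K = 4 ∧ Nonempty (N ≃* Matrix.symplecticGroup (Fin 2) K) := by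
  have hfin : Finite Cfsg.Spor.He := Cfsg.Agent.Helper28.HE.finite
  have hle := Cfsg.Agent.Helper28.SP4.NN_le
  let e1 : (Cfsg.Agent.Helper28.SP4.NN.subgroupOf Cfsg.Agent.Helper28.SP4.SS) ≃*
      Cfsg.Agent.Helper28.SP4.NN := Subgroup.subgroupOfEquivOfLe hle
  refine ⟨Cfsg.Agent.Helper28.SP4.NN.subgroupOf Cfsg.Agent.Helper28.SP4.SS, Cfsg.Agent.Helper28.GF4,
    inferInstance, inferInstance, ?_, ?_, Cfsg.Agent.Helper28.GF4.card_eq, ?_⟩
  · constructor
    intro n hn g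
    rw [Subgroup.mem_subgroupOf] at hn ⊢
    exact Cfsg.Agent.Helper28.SP4.norm_mem g g.2 n hn
  · have h := (Cfsg.Agent.Helper28.SP4.NN.subgroupOf Cfsg.Agent.Helper28.SP4.SS).card_mul_index
    rw [Nat.card_congr e1.toEquiv, Cfsg.Agent.Helper28.SP4.card_NN,
      Cfsg.Agent.Helper28.SP4.card_SS] at h
    have e : (1958400 : ℕ) = 979200 * 2 := by norm_num
    rw [e] at h
    exact Nat.eq_of_mul_eq_mul_left (by norm_num) h
  · exact ⟨(e1.trans Cfsg.Agent.Helper28.SP4.isoNN.symm).trans Cfsg.Agent.Helper28.SP4.isoSp⟩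

end Cfsg.Agent.S1682
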