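import Cfsg.Statements.S0462
import Cfsg.Agent.S1682
import Cfsg.Agent.Helper28.HE.Max

set_option autoImplicit false
open Cfsg

namespace Cfsg.Agent.S0462

/-- The Held group exists as a transitive permutation group of degree 2058: simple of order 4030387200, with point stabiliser containing, with index 2, a copy of the 4-dimensional symplectic group over the field with four elements. -/
theorem result : ∃ H : Subgroup (Equiv.Perm (Fin 2058)), Cfsg.IsHe H ∧ MulAction.IsPretransitive H (Fin 2058) ∧ ∃ (F : Type) (_ : Field F) (_ : Fintype F), Fintype.card F = 4 ∧ ∃ N : Subgroup (MulAction.stabilizer H (0 : Fin 2058)), N.index = 2 ∧ Nonempty (N ≃* Matrix.symplecticGroup (Fin 2) F) := by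
  have hfin : Finite Cfsg.Spor.He := Cfsg.Agent.Helper28.HE.finite
  have hsimp : IsSimpleGroup Cfsg.Spor.He := Cfsg.Agent.Helper28.HE.simple
  obtain ⟨e, he, he1⟩ := Cfsg.Agent.Helper28.C1683.cert.exists_equiv
  have htrans : ∀ i j : Fin 2058, ∃ x : Cfsg.Spor.He, Cfsg.Agent.Helper28.C1683.cert.perm x i = j := by
    intro i j
    obtain ⟨x, hx⟩ := MulAction.exists_smul_eq Cfsg.Spor.He (e.symm i) (e.symm j)
    refine ⟨x, ?_⟩
    have h := he x (e.symm i)
    rw [hx, Equiv.apply_symm_apply, Equiv.apply_symm_apply] at h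
    exact h.symm
  have hstab : ∀ x : Cfsg.Spor.He, Cfsg.Agent.Helper28.C1683.cert.perm x (0 : Fin 2058) = 0 ↔
      x ∈ Cfsg.Agent.Helper28.SP4.SS := by
    intro x
    have h := he x (QuotientGroup.mk 1)
    rw [he1, MulAction.Quotient.smul_mk, smul_eq_mul, mul_one] at h
    have h0 : (⟨0, Cfsg.Agent.Helper28.C1683.cert.hn⟩ : Fin 2058) = 0 := rfl
    rw [h0] at h he1
    rw [← h]
    constructor
    · intro h2
      have h3 := e.injective (h2.trans he1.symm)
      rw [QuotientGroup.eq, mul_one] at h3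
      exact (Subgroup.inv_mem_iff _).mp h3
    · intro h2
      rw [← he1]
      apply congrArg e
      rw [QuotientGroup.eq, mul_one]
      exact (Subgroup.inv_mem_iff _).mpr h2
  have hinj : Function.Injective Cfsg.Agent.Helper28.C1683.cert.perm := by
    rw [← MonoidHom.ker_eq_bot_iff]
    rcases (MonoidHom.normal_ker Cfsg.Agent.Helper28.C1683.cert.perm).eq_bot_or_eq_top with h | h
    · exact h
    · exfalso
      obtain ⟨x, hx⟩ := htrans 0 1
      have hk : x ∈ (Cfsg.Agent.Helper28.C1683.cert.perm).ker := by rw [h]; exact Subgroup.mem_top x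
      rw [MonoidHom.mem_ker] at hk
      rw [hk] at hx
      exact absurd hx (by decide)
  let e0 : Cfsg.Spor.He ≃* (Cfsg.Agent.Helper28.C1683.cert.perm).range := MonoidHom.ofInjective hinj
  have hst : MulAction.stabilizer (Cfsg.Agent.Helper28.C1683.cert.perm).range (0 : Fin 2058) =
      Cfsg.Agent.Helper28.SP4.SS.map (e0 : Cfsg.Spor.He →* (Cfsg.Agent.Helper28.C1683.cert.perm).range) := by
    ext g
    obtain ⟨x, rfl⟩ := e0.surjective g
    rw [MulAction.mem_stabilizer_iff]
    have e1 : e0 x • (0 : Fin 2058) = Cfsg.Agent.Helper28.C1683.cert.perm x 0 := rfl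
    rw [e1, hstab]
    constructor
    · intro hx
      exact ⟨x, hx, rfl⟩
    · rintro ⟨x', hx', heq⟩
      have : x' = x := e0.injective heq
      rw [← this]
      exact hx'
  obtain ⟨N, K, fK, ftK, _, hidx, hcard, ⟨iso⟩⟩ := Cfsg.Agent.S1682.result
  let f : Cfsg.Agent.Helper28.SP4.SS ≃*
      MulAction.stabilizer (Cfsg.Agent.Helper28.C1683.cert.perm).range (0 : Fin 2058) :=
    (e0.subgroupMap Cfsg.Agent.Helper28.SP4.SS).trans (MulEquiv.subgroupCongr hst.symm)
  refine ⟨(Cfsg.Agent.Helper28.C1683.cert.perm).range, ⟨?_, ?_⟩, ?_, K, fK, ftK, hcard,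
    N.map (f : Cfsg.Agent.Helper28.SP4.SS →*
      MulAction.stabilizer (Cfsg.Agent.Helper28.C1683.cert.perm).range (0 : Fin 2058)), ?_, ?_⟩
  · exact e0.symm.isSimpleGroup
  · rw [← Nat.card_congr e0.toEquiv]
    exact Cfsg.Agent.Helper28.HE.card_eq
  · constructor
    intro i j
    obtain ⟨x, hx⟩ := htrans i j
    exact ⟨e0 x, hx⟩
  · rw [Subgroup.index_map_equiv]
    exact hidx
  · exact ⟨(f.subgroupMap N).symm.trans iso⟩

end Cfsg.Agent.S0462
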