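import Cfsg.Statements.S0481
import Cfsg.Agent.S0443

set_option autoImplicit false
open Cfsg

namespace Cfsg.Agent.S0481

/-- Anything centralising `Q` is `1` or `z`. -/
theorem key {G : Type*} [Group G] (z : G) (hz : orderOf z = 2) (Q : Subgroup G)
    (hQC : Q ≤ Subgroup.centralizer ({z} : Set G))
    (hZ : Nat.card (Subgroup.center Q) = 2)
    (hlarge : Subgroup.centralizer (Q : Set G) ≤ Q) (x : G) (hx : ∀ q ∈ Q, q * x = x * q) :
    x = 1 ∨ x = z := by
  have hmem : ∀ y : G, (∀ q ∈ Q, q * y = y * q) → y ∈ Q := fun y hy =>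
    hlarge (Subgroup.mem_centralizer_iff.mpr hy)
  have hcen : ∀ (y : G) (hy : ∀ q ∈ Q, q * y = y * q), (⟨y, hmem y hy⟩ : Q) ∈ Subgroup.center Q := by
    intro y hy
    rw [Subgroup.mem_center_iff]
    intro q
    exact Subtype.ext (hy q q.2)
  have hzc : ∀ q ∈ Q, q * z = z * q := by
    intro q hq
    have := hQC hq
    rw [Subgroup.mem_centralizer_iff] at this
    exact (this z rfl).symm
  obtain ⟨c, d, hcd, huniv⟩ := Nat.card_eq_two_iff.mp hZ
  have hz1 : z ≠ 1 := by
    intro h
    rw [h, orderOf_one] at hz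
    exact absurd hz (by norm_num)
  -- the three elements 1, z, x of the centre
  let e1 : Subgroup.center Q := 1
  let ez : Subgroup.center Q := ⟨⟨z, hmem z hzc⟩, hcen z hzc⟩
  let ex : Subgroup.center Q := ⟨⟨x, hmem x hx⟩, hcen x hx⟩
  have h1 : e1 ∈ ({c, d} : Set (Subgroup.center Q)) := by rw [huniv]; trivial
  have h2 : ez ∈ ({c, d} : Set (Subgroup.center Q)) := by rw [huniv]; trivial
  have h3 : ex ∈ ({c, d} : Set (Subgroup.center Q)) := by rw [huniv]; trivial
  have hne : ez ≠ e1 := by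
    intro h
    apply hz1
    have := congrArg (fun t : Subgroup.center Q => ((t : Q) : G)) h
    exact this
  have hx' : ex = e1 ∨ ex = ez := by
    simp only [Set.mem_insert_iff, Set.mem_singleton_iff] at h1 h2 h3
    rcases h1 with h1 | h1 <;> rcases h2 with h2 | h2 <;> rcases h3 with h3 | h3
    · exact Or.inl (h3.trans h1.symm)
    · exact absurd (h2.trans h1.symm) hne
    · exact Or.inl (h3.trans h1.symm)
    · exact Or.inr (h3.trans h2.symm)
    · exact Or.inr (h3.trans h2.symm)
    · exact Or.inl (h3.trans h1.symm)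
    · exact absurd (h2.trans h1.symm) hne
    · exact Or.inl (h3.trans h1.symm)
  rcases hx' with h | h
  · left
    exact congrArg (fun t : Subgroup.center Q => ((t : Q) : G)) h
  · right
    exact congrArg (fun t : Subgroup.center Q => ((t : Q) : G)) h

theorem result {G : Type*} [Group G] [Finite G] (z : G) (hz : orderOf z = 2) (Q : Subgroup G) (hQC : Q ≤ Subgroup.centralizer ({z} : Set G)) (hQn : ∀ g ∈ Subgroup.centralizer ({z} : Set G), ∀ q ∈ Q, g * q * g⁻¹ ∈ Q) (hQ2 : IsPGroup 2 Q) (hZ : Nat.card (Subgroup.center Q) = 2) (hsq : ∀ x : Q, x ^ 2 ∈ Subgroup.center Q) (hlarge : Subgroup.centralizer (Q : Set G) ≤ Q) : (∃ P : Sylow 2 G, (P : Subgroup G) ≤ Subgroup.centralizer ({z} : Set G)) ∧ ∀ u : G, orderOf u = 2 → (∃ P : Sylow 2 G, (P : Subgroup G) ≤ Subgroup.centralizer ({u} : Set G)) → IsConj z u := by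
  have : Fact (Nat.Prime 2) := ⟨Nat.prime_two⟩
  have hkey := key z hz Q hQC hZ hlarge
  obtain ⟨T, hQT⟩ := hQ2.exists_le_sylow
  have hz1 : z ≠ 1 := by
    intro h
    rw [h, orderOf_one] at hz
    exact absurd hz (by norm_num)
  have hzc : ∀ q ∈ Q, q * z = z * q := by
    intro q hq
    have := hQC hq
    rw [Subgroup.mem_centralizer_iff] at this
    exact (this z rfl).symm
  have hzQ : z ∈ Q := hlarge (Subgroup.mem_centralizer_iff.mpr hzc)
  have hzT : z ∈ (T : Subgroup G) := hQT hzQ
  -- the centre of T is nontrivial, and its nontrivial elements are z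
  have hTne : (T : Subgroup G) ≠ ⊥ := by
    intro h
    rw [h, Subgroup.mem_bot] at hzT
    exact hz1 hzT
  have hnt : Nontrivial (T : Subgroup G) := (Subgroup.nontrivial_iff_ne_bot _).mpr hTne
  have hTp : IsPGroup 2 (T : Subgroup G) := T.isPGroup'
  have hcnt : Nontrivial (Subgroup.center (T : Subgroup G)) := hTp.center_nontrivial
  obtain ⟨w, hw⟩ := exists_ne (1 : Subgroup.center (T : Subgroup G))
  have hwc : ∀ q ∈ Q, q * ((w : (T : Subgroup G)) : G) = ((w : (T : Subgroup G)) : G) * q := by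
    intro q hq
    have := Subgroup.mem_center_iff.mp w.2 ⟨q, hQT hq⟩
    exact congrArg Subtype.val this
  have hwz : ((w : (T : Subgroup G)) : G) = z := by
    rcases hkey _ hwc with h | h
    · exfalso
      apply hw
      apply Subtype.ext
      apply Subtype.ext
      exact h
    · exact h
  have hTz : ∀ x ∈ (T : Subgroup G), x * z = z * x := by
    intro x hx
    have := Subgroup.mem_center_iff.mp w.2 ⟨x, hx⟩
    have := congrArg Subtype.val this
    rw [← hwz]
    exact this
  have hTC : (T : Subgroup G) ≤ Subgroup.centralizer ({z} : Set G) := by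
    intro x hx
    rw [Subgroup.mem_centralizer_iff]
    intro y hy
    rw [Set.mem_singleton_iff] at hy
    subst hy
    exact (hTz x hx).symm
  refine ⟨⟨T, hTC⟩, ?_⟩
  rintro u hu ⟨P, hP⟩
  have huP : u ∈ P := Cfsg.Agent.S0443.mem_sylow_of_centralizes u hu P hP
  obtain ⟨g, hg⟩ := MulAction.exists_smul_eq G T P
  -- P = g T g⁻¹
  have hmemP : ∀ x : G, x ∈ (P : Subgroup G) ↔ g⁻¹ * x * g ∈ (T : Subgroup G) := by
    intro x
    rw [← hg, Sylow.coe_subgroup_smul, Subgroup.mem_pointwise_smul_iff_inv_smul_mem]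
    simp [MulAut.smul_def]
  have hu1 : u ≠ 1 := by
    intro h
    rw [h, orderOf_one] at hu
    exact absurd hu (by norm_num)
  -- g⁻¹ u g centralises T, hence Q
  have huc : ∀ q ∈ Q, q * (g⁻¹ * u * g) = (g⁻¹ * u * g) * q := by
    intro q hq
    have hqT : q ∈ (T : Subgroup G) := hQT hq
    have hqP : g * q * g⁻¹ ∈ (P : Subgroup G) := by
      rw [hmemP]
      have : g⁻¹ * (g * q * g⁻¹) * g = q := by group
      rw [this]; exact hqT
    have := hP hqP
    rw [Subgroup.mem_centralizer_iff] at this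
    have h1 : u * (g * q * g⁻¹) = g * q * g⁻¹ * u := this u rfl
    calc q * (g⁻¹ * u * g) = g⁻¹ * (g * q * g⁻¹ * u) * g := by group
      _ = g⁻¹ * (u * (g * q * g⁻¹)) * g := by rw [h1]
      _ = (g⁻¹ * u * g) * q := by group
  rcases hkey _ huc with h | h
  · exfalso
    apply hu1
    calc u = g * (g⁻¹ * u * g) * g⁻¹ := by group
      _ = 1 := by rw [h]; group
  · rw [isConj_iff]
    refine ⟨g, ?_⟩
    rw [← h]; group

end Cfsg.Agent.S0481
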