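import Cfsg.Statements.S0499
import Mathlib
import Cfsg.Agent.S0071
import Cfsg.Agent.Helper70.Schmidt

set_option autoImplicit false
open Cfsg

namespace Cfsg.Agent.S0499

/-- Conjugation action on `Q` of a subgroup normalizing `Q`. -/
def conjActOn {G : Type*} [Group G] (Q A : Subgroup G)
    (hA : A ≤ Subgroup.normalizer (Q : Set G)) : MulAction A Q where
  smul a q := ⟨(a : G) * q * (a : G)⁻¹, (Subgroup.mem_normalizer_iff.mp (hA a.2) q).mp q.2⟩
  one_smul q := Subtype.ext (by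
    show (1 : G) * q * (1 : G)⁻¹ = q
    group)
  mul_smul a b q := Subtype.ext (by
    show ((a : G) * b) * q * ((a : G) * b)⁻¹ = a * (b * q * (b : G)⁻¹) * (a : G)⁻¹
    group)

theorem card_modEq_of_conj {G : Type*} [Group G] [Finite G] (Q : Subgroup G) (h : G)
    (hN : h ∈ Subgroup.normalizer (Q : Set G)) (r k : ℕ) [Fact r.Prime] (hh : orderOf h = r ^ k) :
    Nat.card Q ≡ Nat.card (Q ⊓ Subgroup.centralizer ({h} : Set G) : Subgroup G) [MOD r] := by
  have hA : Subgroup.zpowers h ≤ Subgroup.normalizer (Q : Set G) := by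
    rw [Subgroup.zpowers_le]; exact hN
  letI := conjActOn Q (Subgroup.zpowers h) hA
  have hAp : IsPGroup r (Subgroup.zpowers h) :=
    IsPGroup.of_card (n := k) (by rw [Nat.card_zpowers, hh])
  have h1 := hAp.card_modEq_card_fixedPoints Q
  have hsmul : ∀ (a : Subgroup.zpowers h) (q : Q), ((a • q : Q) : G) = (a : G) * q * (a : G)⁻¹ :=
    fun a q => rfl
  have h2 : Nat.card (MulAction.fixedPoints (Subgroup.zpowers h) Q) =
      Nat.card (Q ⊓ Subgroup.centralizer ({h} : Set G) : Subgroup G) := by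
    apply Nat.card_congr
    refine ⟨fun x => ⟨((x : Q) : G), Subgroup.mem_inf.mpr ⟨(x : Q).2, ?_⟩⟩,
      fun y => ⟨⟨(y : G), (Subgroup.mem_inf.mp y.2).1⟩, ?_⟩, ?_, ?_⟩
    · rw [Subgroup.mem_centralizer_iff]
      intro z hz
      rw [Set.mem_singleton_iff] at hz
      subst hz
      have hx := x.2 ⟨z, Subgroup.mem_zpowers z⟩
      have hx' := congrArg Subtype.val hx
      rw [hsmul] at hx'
      have hx'' : z * ((x : Q) : G) * z⁻¹ = ((x : Q) : G) := hx'
      calc z * ((x : Q) : G) = z * ((x : Q) : G) * z⁻¹ * z := by group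
        _ = ((x : Q) : G) * z := by rw [hx'']
    · intro a
      apply Subtype.ext
      rw [hsmul]
      show (a : G) * (y : G) * (a : G)⁻¹ = (y : G)
      have hy := (Subgroup.mem_inf.mp y.2).2
      have hhy : h ∈ Subgroup.centralizer ({(y : G)} : Set G) := by
        rw [Subgroup.mem_centralizer_iff]
        intro z hz
        rw [Set.mem_singleton_iff] at hz
        subst hz
        exact ((Subgroup.mem_centralizer_iff.mp hy) h rfl).symm
      have ha : (a : G) ∈ Subgroup.centralizer ({(y : G)} : Set G) :=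
        (Subgroup.zpowers_le.mpr hhy) a.2
      have ha' := (Subgroup.mem_centralizer_iff.mp ha) (y : G) rfl
      rw [← ha', mul_inv_cancel_right]
    · intro x; rfl
    · intro y; rfl
  rw [h2] at h1
  exact h1

theorem arith_aux (r a b : ℕ) (hr : r.Prime) (hr2 : r ≠ 2) (hba : b < a) (ha3 : a ≤ 3)
    (hdvd : r ∣ 2 ^ a - 2 ^ b) : (r = 3 ∧ 2 ≤ a) ∨ (r = 7 ∧ a = 3) := by
  have hr7 : r ≤ 7 := by
    have h1 : 2 ^ a - 2 ^ b ≤ 7 := by
      interval_cases a <;> interval_cases b <;> norm_num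
    have h2 : 0 < 2 ^ a - 2 ^ b := Nat.sub_pos_of_lt (Nat.pow_lt_pow_right (by norm_num) hba)
    exact (Nat.le_of_dvd h2 hdvd).trans h1
  have hr2' := hr.two_le
  interval_cases r <;> interval_cases a <;> interval_cases b <;>
    first | omega | (revert hr hdvd; decide)

/-- A non-abelian finite simple group of even order has order divisible by 12, 16 or 56. -/
theorem result {G : Type*} [Group G] [Finite G] [IsSimpleGroup G]
    (hG : ¬ IsMulCommutative G) (h2 : Even (Nat.card G)) :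
    12 ∣ Nat.card G ∨ 16 ∣ Nat.card G ∨ 56 ∣ Nat.card G := by
  have : Fact (Nat.Prime 2) := ⟨Nat.prime_two⟩
  obtain ⟨P⟩ : Nonempty (Sylow 2 G) := inferInstance
  have hnc : ¬ ∃ N : Subgroup G, N.Normal ∧ N.IsComplement' (P : Subgroup G) := by
    rintro ⟨N, hN, hc⟩
    rcases hN.eq_bot_or_eq_top with h | h
    · subst h
      have hPtop : (P : Subgroup G) = ⊤ := Subgroup.isComplement'_bot_left.mp hc
      have hG2 : IsPGroup 2 G := by
        have h1 := P.isPGroup'
        rw [hPtop] at h1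
        exact h1.of_equiv Subgroup.topEquiv
      have hnt : Nontrivial G := IsSimpleGroup.toNontrivial
      have hcn := hG2.center_nontrivial
      have hcne : Subgroup.center G ≠ ⊥ := (Subgroup.nontrivial_iff_ne_bot _).mp hcn
      have hctop : Subgroup.center G = ⊤ :=
        (Subgroup.Normal.eq_bot_or_eq_top inferInstance).resolve_left hcne
      exact hG (Subgroup.center_eq_top_iff.mp hctop)
    · subst h
      have hPbot : (P : Subgroup G) = ⊥ := Subgroup.isComplement'_top_left.mp hc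
      exact P.ne_bot_of_dvd_card (even_iff_two_dvd.mp h2) hPbot
  rw [Cfsg.Agent.S0071.result P] at hnc
  push Not at hnc
  obtain ⟨Q, hQP, g₀, hg₀N, hg₀o, hg₀C⟩ := hnc
  have hex : ∃ n : ℕ, ∃ g ∈ Subgroup.normalizer (Q : Set G), Nat.Coprime (orderOf g) 2 ∧
      g ∉ Subgroup.centralizer (Q : Set G) ∧ orderOf g = n := ⟨_, g₀, hg₀N, hg₀o, hg₀C, rfl⟩
  classical
  obtain ⟨g, hgN, hgo, hgC, hgn⟩ := Nat.find_spec hex
  have hmin : ∀ i : ℕ, orderOf (g ^ i) < orderOf g →
      g ^ i ∈ Subgroup.centralizer (Q : Set G) := by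
    intro i hi
    by_contra hni
    have h1 := Nat.find_min' hex ⟨g ^ i, pow_mem hgN i,
      Nat.Coprime.coprime_dvd_left (orderOf_pow_dvd i) hgo, hni, rfl⟩
    omega
  obtain ⟨r, k, hr, hk, hrk⟩ :=
    Cfsg.Agent.Helper70.exists_prime_pow_orderOf_of_minimal _ g hgC hmin
  have hr2 : r ≠ 2 := by
    rintro rfl
    rw [hrk] at hgo
    have h1 : (2 : ℕ) ∣ Nat.gcd (2 ^ k) 2 := Nat.dvd_gcd (dvd_pow_self 2 hk.ne') dvd_rfl
    have h2 : Nat.gcd (2 ^ k) 2 = 1 := hgo
    rw [h2] at h1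
    omega
  have : Fact r.Prime := ⟨hr⟩
  have hmod := card_modEq_of_conj Q g hgN r k hrk
  have hQ2 : IsPGroup 2 Q := P.isPGroup'.to_le hQP
  obtain ⟨a, ha⟩ := IsPGroup.iff_card.mp hQ2
  have hQ₀2 : IsPGroup 2 (Q ⊓ Subgroup.centralizer ({g} : Set G) : Subgroup G) :=
    hQ2.to_le inf_le_left
  obtain ⟨b, hb⟩ := IsPGroup.iff_card.mp hQ₀2
  have hlt : Nat.card (Q ⊓ Subgroup.centralizer ({g} : Set G) : Subgroup G) < Nat.card Q := by
    apply lt_of_le_of_ne (Subgroup.card_le_of_le inf_le_left)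
    intro heq
    apply hgC
    have hQle : Q ≤ Q ⊓ Subgroup.centralizer ({g} : Set G) :=
      (Subgroup.eq_of_le_of_card_ge inf_le_left heq.ge).ge
    rw [Subgroup.mem_centralizer_iff]
    intro q hq
    have h1 := (Subgroup.mem_inf.mp (hQle hq)).2
    exact ((Subgroup.mem_centralizer_iff.mp h1) g rfl).symm
  rw [ha, hb] at hmod hlt
  have hba : b < a := (Nat.pow_lt_pow_iff_right (by norm_num)).mp hlt
  have hQG : 2 ^ a ∣ Nat.card G := ha ▸ Subgroup.card_subgroup_dvd_card Q
  have hrG : r ∣ Nat.card G := by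
    have h1 : r ∣ orderOf g := by rw [hrk]; exact dvd_pow_self r hk.ne'
    exact h1.trans (orderOf_dvd_natCard g)
  by_cases ha4 : 4 ≤ a
  · right; left
    exact (pow_dvd_pow 2 ha4).trans hQG
  · have hdvd : r ∣ 2 ^ a - 2 ^ b :=
      (Nat.modEq_iff_dvd' (Nat.pow_le_pow_right (by norm_num) hba.le)).mp hmod.symm
    rcases arith_aux r a b hr hr2 hba (by omega) hdvd with ⟨rfl, ha2⟩ | ⟨rfl, rfl⟩
    · left
      have h4 : 4 ∣ Nat.card G := (pow_dvd_pow 2 ha2).trans hQG
      exact Nat.Coprime.mul_dvd_of_dvd_of_dvd (by norm_num : Nat.Coprime 4 3) h4 hrG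
    · right; right
      exact Nat.Coprime.mul_dvd_of_dvd_of_dvd (by norm_num : Nat.Coprime 8 7) hQG hrG

end Cfsg.Agent.S0499
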