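import Cfsg.Statements.S0496
import Cfsg.Agent.Helper27.O1092Sieve
import Cfsg.Agent.Helper27.O1092Pieces
import Cfsg.Agent.Helper3.Burnside2
import Cfsg.Agent.S0499
import Cfsg.Agent.S0988

set_option autoImplicit false
open Cfsg

namespace Cfsg.Agent.S0496

/-- A non-abelian finite simple group of order at most 1092 has order 60, 168, 360, 504, 660 or 1092. -/
theorem result {G : Type*} [Group G] [Finite G] [IsSimpleGroup G]
    (hG : ¬ IsMulCommutative G) (h : Nat.card G ≤ 1092) :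
    Nat.card G = 60 ∨ Nat.card G = 168 ∨ Nat.card G = 360 ∨ Nat.card G = 504 ∨ Nat.card G = 660 ∨
      Nat.card G = 1092 := by
  have hN := Cfsg.Agent.Helper27.O1092.sieve (Nat.card G) Nat.card_pos h
  rcases hN with hgood | hhard | ⟨a, b, i, j, ha, hb, hab⟩ | ⟨p, hp, hpd, hlt⟩ |
    ⟨h2, h12, h16, h56⟩ | ⟨p, q, r, hp, hq, hr, hpqr⟩
  · exact hgood
  · exact (Cfsg.Agent.Helper27.O1092.pc_hard hG hhard).elim
  · exfalso
    have hs := Cfsg.Agent.Helper3.isSolvable_of_card_eq (G := G) a b i j ha hb hab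
    have hc := IsSimpleGroup.comm_iff_isSolvable.mpr hs
    exact hG ⟨⟨fun x y => hc x y⟩⟩
  · rcases Cfsg.Agent.Helper27.O1092.pc_big_prime hG p hp hpd hlt h with h' | h' | h' | h'
    · exact Or.inl h'
    · exact Or.inr (Or.inl h')
    · exact Or.inr (Or.inr (Or.inr (Or.inr (Or.inl h'))))
    · exact Or.inr (Or.inr (Or.inr (Or.inr (Or.inr h'))))
  · exfalso
    rcases Cfsg.Agent.S0499.result hG (Nat.even_iff.mpr h2) with h' | h' | h' <;> omega
  · exact Or.inl (Cfsg.Agent.S0988.result p q r hp hq hr hpqr)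

end Cfsg.Agent.S0496
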