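import Cfsg.Statements.S0502
import Mathlib
import Cfsg.Agent.Helper1.Tools
import Cfsg.Agent.Helper48.PGroupLemmas

set_option autoImplicit false
open Cfsg

namespace Cfsg.Agent.S0502

/-- The commuting relation on Klein four-subgroups. -/
def R4 (P : Type*) [Group P] : Subgroup P → Subgroup P → Prop :=
  fun A B => IsKleinFour A ∧ IsKleinFour B ∧ ∀ a ∈ A, ∀ b ∈ B, a * b = b * a

theorem rtg_symm {α : Type*} {r : α → α → Prop} (hs : ∀ a b, r a b → r b a) {a b : α}
    (h : Relation.ReflTransGen r a b) : Relation.ReflTransGen r b a := by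
  induction h with
  | refl => exact Relation.ReflTransGen.refl
  | tail _ hbc ih => exact Relation.ReflTransGen.head (hs _ _ hbc) ih

theorem isKleinFour_of_card_of_sq {P : Type*} [Group P] (A : Subgroup P) (hc : Nat.card A = 4)
    (hsq : ∀ x ∈ A, x * x = 1) : IsKleinFour A := by
  refine ⟨hc, ?_⟩
  have hd : Monoid.exponent A ∣ 2 := Monoid.exponent_dvd_of_forall_pow_eq_one (fun x => by
    apply Subtype.ext
    rw [pow_two]
    exact hsq x x.2)
  rcases (Nat.dvd_prime Nat.prime_two).mp hd with h | h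
  · exfalso
    rw [Monoid.exp_eq_one_iff] at h
    have : Nat.card A = 1 := Nat.card_eq_one_iff_unique.mpr ⟨h, ⟨1⟩⟩
    omega
  · exact h

theorem exists_four {P : Type*} [Group P] (a b : P) (ha : a * a = 1) (hb : b * b = 1)
    (hab : b * a = a * b) (ha1 : a ≠ 1) (hb1 : b ≠ 1) (hne : a ≠ b) :
    ∃ A : Subgroup P, IsKleinFour A ∧ (A : Set P) = {1, a, b, a * b} := by
  have ha' : ∀ x : P, a * (a * x) = x := fun x => by rw [← mul_assoc, ha, one_mul]
  have hb' : ∀ x : P, b * (b * x) = x := fun x => by rw [← mul_assoc, hb, one_mul]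
  have hab' : ∀ x : P, b * (a * x) = a * (b * x) := fun x => by
    rw [← mul_assoc, hab, mul_assoc]
  have hainv : a⁻¹ = a := inv_eq_of_mul_eq_one_left ha
  have hbinv : b⁻¹ = b := inv_eq_of_mul_eq_one_left hb
  let A : Subgroup P :=
    { carrier := {1, a, b, a * b}
      one_mem' := by simp
      mul_mem' := by
        rintro x y (rfl | rfl | rfl | rfl) (rfl | rfl | rfl | rfl) <;>
          simp [mul_assoc, ha, hb, hab, ha', hb', hab']
      inv_mem' := by
        rintro x (rfl | rfl | rfl | rfl) <;> simp [hainv, hbinv, hab] }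
  refine ⟨A, ?_, rfl⟩
  apply isKleinFour_of_card_of_sq
  · have h1 : (1 : P) ∉ ({a, b, a * b} : Set P) := by
      rintro (h | h | h)
      · exact ha1 h.symm
      · exact hb1 h.symm
      · have : a = b⁻¹ := eq_inv_of_mul_eq_one_left h.symm
        rw [hbinv] at this
        exact hne this
    have h2 : a ∉ ({b, a * b} : Set P) := by
      rintro (h | h)
      · exact hne h
      · have h' : a * 1 = a * b := by rw [mul_one]; exact h
        exact hb1 (mul_left_cancel h').symm
    have h3 : b ∉ ({a * b} : Set P) := by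
      intro h
      have h' : 1 * b = a * b := by rw [one_mul]; exact h
      exact ha1 (mul_right_cancel h').symm
    have hcard : Nat.card A = (A : Set P).ncard := Nat.card_coe_set_eq (A : Set P)
    rw [hcard]
    show ({1, a, b, a * b} : Set P).ncard = 4
    rw [Set.ncard_insert_of_notMem h1, Set.ncard_insert_of_notMem h2,
      Set.ncard_insert_of_notMem h3, Set.ncard_singleton]
  · rintro x (rfl | rfl | rfl | rfl) <;> simp [mul_assoc, ha, hb, hab, ha', hb', hab']

theorem comm_four {P : Type*} [Group P] (x a b : P) (hxa : x * a = a * x) (hxb : x * b = b * x) :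
    ∀ y ∈ ({1, a, b, a * b} : Set P), x * y = y * x := by
  rintro y (rfl | rfl | rfl | rfl)
  · rw [mul_one, one_mul]
  · exact hxa
  · exact hxb
  · rw [← mul_assoc, hxa, mul_assoc, hxb, mul_assoc]

theorem exists_cent {P : Type*} [Group P] [Finite P] (E : Subgroup P) [hEn : E.Normal]
    (hEab : ∀ x ∈ E, ∀ y ∈ E, x * y = y * x) (hE2 : ∀ x ∈ E, x * x = 1)
    (hE8 : 8 ≤ Nat.card E) (u : P) (hu : u * u = 1) (e : P) (he : e ∈ E) (hee : e * e = 1) :
    ∃ f ∈ E, f ≠ 1 ∧ f ≠ e ∧ u * f = f * u := by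
  have huinv : u⁻¹ = u := inv_eq_of_mul_eq_one_left hu
  let φ : E →* E := MonoidHom.mk'
    (fun x => ⟨(x : P) * (u * x * u⁻¹), mul_mem x.2 (hEn.conj_mem x x.2 u)⟩) (by
      intro x y
      apply Subtype.ext
      show (x : P) * y * (u * ((x : P) * y) * u⁻¹) = x * (u * x * u⁻¹) * (y * (u * y * u⁻¹))
      have h1 : u * ((x : P) * y) * u⁻¹ = (u * x * u⁻¹) * (u * y * u⁻¹) := by group
      have h2 : (y : P) * (u * x * u⁻¹) = (u * x * u⁻¹) * y :=
        hEab _ y.2 _ (hEn.conj_mem x x.2 u)
      rw [h1]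
      calc (x : P) * y * (u * x * u⁻¹ * (u * y * u⁻¹))
          = x * (y * (u * x * u⁻¹)) * (u * y * u⁻¹) := by simp only [mul_assoc]
        _ = x * ((u * x * u⁻¹) * y) * (u * y * u⁻¹) := by rw [h2]
        _ = x * (u * x * u⁻¹) * (y * (u * y * u⁻¹)) := by simp only [mul_assoc])
  have hφ : ∀ x : E, ((φ x : E) : P) = (x : P) * (u * x * u⁻¹) := fun x => rfl
  have hrange : φ.range ≤ φ.ker := by
    rintro _ ⟨x, rfl⟩
    rw [MonoidHom.mem_ker]
    apply Subtype.ext
    rw [hφ, hφ, Subgroup.coe_one]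
    have hX : u * (x : P) * u⁻¹ ∈ E := hEn.conj_mem x x.2 u
    have h1 : u * ((x : P) * (u * x * u⁻¹)) * u⁻¹ = (u * x * u⁻¹) * x := by
      rw [huinv]
      calc u * ((x : P) * (u * x * u)) * u = u * x * u * x * (u * u) := by
            simp only [mul_assoc]
        _ = u * x * u * x := by rw [hu, mul_one]
    rw [h1]
    calc (x : P) * (u * x * u⁻¹) * ((u * x * u⁻¹) * x)
        = x * ((u * x * u⁻¹) * (u * x * u⁻¹)) * x := by simp only [mul_assoc]
      _ = 1 := by rw [hE2 _ hX, mul_one, hE2 _ x.2]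
  have hcard : Nat.card φ.ker * Nat.card φ.range = Nat.card E := by
    rw [← Subgroup.index_ker]
    exact Subgroup.card_mul_index φ.ker
  have hle : Nat.card φ.range ≤ Nat.card φ.ker := Subgroup.card_le_of_le hrange
  have h3 : 3 ≤ Nat.card φ.ker := by
    by_contra hlt
    have h2 : Nat.card φ.ker ≤ 2 := by omega
    have : Nat.card φ.ker * Nat.card φ.range ≤ 2 * 2 := Nat.mul_le_mul h2 (hle.trans h2)
    omega
  have hZ : Nat.card ((Subgroup.zpowers e).subgroupOf E) ≤ 2 := by
    have hzle : Subgroup.zpowers e ≤ E := by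
      rw [Subgroup.zpowers_le]; exact he
    rw [Cfsg.Agent.Helper1.card_subgroupOf_of_le hzle, Nat.card_zpowers]
    apply Nat.le_of_dvd (by norm_num)
    apply orderOf_dvd_of_pow_eq_one
    rw [pow_two]; exact hee
  have hnot : ¬ φ.ker ≤ (Subgroup.zpowers e).subgroupOf E := by
    intro hle'
    have := Subgroup.card_le_of_le hle'
    omega
  obtain ⟨x, hxk, hxZ⟩ := SetLike.not_le_iff_exists.mp hnot
  rw [Subgroup.mem_subgroupOf] at hxZ
  refine ⟨x, x.2, ?_, ?_, ?_⟩
  · intro h
    apply hxZ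
    rw [h]
    exact one_mem _
  · intro h
    apply hxZ
    rw [h]
    exact Subgroup.mem_zpowers e
  · rw [MonoidHom.mem_ker] at hxk
    have h1 : (x : P) * (u * x * u⁻¹) = 1 := by
      have := congrArg Subtype.val hxk
      rw [hφ, Subgroup.coe_one] at this
      exact this
    have h2 : u * (x : P) * u⁻¹ = (x : P)⁻¹ := eq_inv_of_mul_eq_one_right h1
    have h3 : ((x : P))⁻¹ = x := inv_eq_of_mul_eq_one_left (hE2 _ x.2)
    rw [h3] at h2
    calc u * (x : P) = u * x * u⁻¹ * u := by rw [inv_mul_cancel_right]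
      _ = x * u := by rw [h2]

/-- If a finite 2-group has a normal elementary abelian subgroup of order at least 8, then any two of its Klein
four-subgroups are joined by a chain of Klein four-subgroups with consecutive members commuting elementwise. -/
theorem result {P : Type*} [Group P] [Finite P] (hP : IsPGroup 2 P)
    (E : Subgroup P) [E.Normal] (hE : IsMulCommutative E) (hE2 : ∀ e ∈ E, e ^ 2 = 1) (hE8 : 8 ≤ Nat.card E) :
    Cfsg.IsFourConnected P := by
  have : Fact (Nat.Prime 2) := ⟨Nat.prime_two⟩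
  have hEne : E ≠ ⊥ := by
    rintro rfl
    rw [Subgroup.card_bot] at hE8
    omega
  obtain ⟨e, heE, he1, hec⟩ := Cfsg.Agent.Helper48.exists_ne_one_mem_center_of_normal hP E hEne
  have hecomm : ∀ x : P, x * e = e * x := fun x => Subgroup.mem_center_iff.mp hec x
  have hE2' : ∀ x ∈ E, x * x = 1 := fun x hx => by rw [← pow_two]; exact hE2 x hx
  have hee : e * e = 1 := hE2' e heE
  have hEab : ∀ x ∈ E, ∀ y ∈ E, x * y = y * x := fun x hx y hy =>
    congrArg Subtype.val (isMulCommutative_iff.mp hE ⟨x, hx⟩ ⟨y, hy⟩)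
  have key : ∀ U : Subgroup P, IsKleinFour U → ∃ F : Subgroup P, IsKleinFour F ∧ F ≤ E ∧
      Relation.ReflTransGen (R4 P) U F := by
    intro U hU
    have hU2 : ∀ x ∈ U, x * x = 1 := by
      intro x hx
      have h1 := Monoid.pow_exponent_eq_one (⟨x, hx⟩ : U)
      rw [hU.exponent_two, pow_two] at h1
      exact congrArg Subtype.val h1
    have hUab : ∀ x ∈ U, ∀ y ∈ U, x * y = y * x := by
      intro x hx y hy
      exact congrArg Subtype.val
        (mul_comm_of_exponent_two hU.exponent_two (⟨x, hx⟩ : U) ⟨y, hy⟩)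
    have hUex : ∃ u ∈ U, u ≠ 1 ∧ u ≠ e := by
      by_contra hcon
      push Not at hcon
      have hsub : (U : Set P) ⊆ {1, e} := by
        intro x hx
        by_cases hx1 : x = 1
        · exact Or.inl hx1
        · exact Or.inr (hcon x hx hx1)
      have h1 : (U : Set P).ncard ≤ ({1, e} : Set P).ncard :=
        Set.ncard_le_ncard hsub (Set.toFinite _)
      have h2 : ({1, e} : Set P).ncard ≤ 2 := by
        have := Set.ncard_insert_le (1 : P) ({e} : Set P)
        rw [Set.ncard_singleton] at this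
        exact this
      have h3 : Nat.card U = (U : Set P).ncard := Nat.card_coe_set_eq (U : Set P)
      have h4 := hU.card_four
      omega
    obtain ⟨u, huU, hu1, hue⟩ := hUex
    have huu : u * u = 1 := hU2 u huU
    obtain ⟨A₁, hA₁K, hA₁⟩ := exists_four u e huu hee (hecomm u).symm hu1 he1 hue
    obtain ⟨f, hfE, hf1, hfe, huf⟩ := exists_cent E hEab hE2' hE8 u huu e heE hee
    have hff : f * f = 1 := hE2' f hfE
    obtain ⟨F, hFK, hF⟩ := exists_four e f hee hff (hecomm f) he1 hf1 (Ne.symm hfe)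
    have hFE : F ≤ E := by
      intro x hx
      have hx' : x ∈ (F : Set P) := hx
      rw [hF] at hx'
      rcases hx' with rfl | rfl | rfl | rfl
      · exact one_mem _
      · exact heE
      · exact hfE
      · exact mul_mem heE hfE
    refine ⟨F, hFK, hFE, ?_⟩
    have h1 : ∀ x ∈ U, ∀ y ∈ A₁, x * y = y * x := by
      intro x hx y hy
      have hy' : y ∈ (A₁ : Set P) := hy
      rw [hA₁] at hy'
      exact comm_four x u e (hUab x hx u huU) (hecomm x) y hy'
    have h2 : ∀ y ∈ A₁, ∀ z ∈ F, y * z = z * y := by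
      intro y hy z hz
      have hy' : y ∈ (A₁ : Set P) := hy
      rw [hA₁] at hy'
      have hz' : z ∈ (F : Set P) := hz
      rw [hF] at hz'
      have hfy : f * y = y * f := comm_four f u e huf.symm (hecomm f) y hy'
      exact comm_four y e f (hecomm y) hfy.symm z hz'
    have r1 : R4 P U A₁ := ⟨hU, hA₁K, h1⟩
    have r2 : R4 P A₁ F := ⟨hA₁K, hFK, h2⟩
    exact Relation.ReflTransGen.head r1 (Relation.ReflTransGen.single r2)
  intro U V hU hV
  obtain ⟨F, hF, hFE, hUF⟩ := key U hU
  obtain ⟨F', hF', hF'E, hVF'⟩ := key V hV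
  have hsymm : ∀ A B : Subgroup P, R4 P A B → R4 P B A := by
    intro A B ⟨h1, h2, h3⟩
    exact ⟨h2, h1, fun b hb a ha => (h3 a ha b hb).symm⟩
  have hFF' : R4 P F F' :=
    ⟨hF, hF', fun a ha b hb => hEab a (hFE ha) b (hF'E hb)⟩
  show Relation.ReflTransGen (R4 P) U V
  exact hUF.trans ((Relation.ReflTransGen.single hFF').trans (rtg_symm hsymm hVF'))

end Cfsg.Agent.S0502
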