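import Cfsg.Statements.S0505
import Mathlib
import Cfsg.Agent.Helper54.PConstrained3
import Cfsg.Agent.Helper24.HallHigman

set_option autoImplicit false
open Cfsg

namespace Cfsg.Agent.S0505

theorem hh_of_solvable (C : Type*) [Group C] [Finite C] [Group.IsSolvable C]
    (h : pPrimeCore 2 C = ⊥) : Subgroup.centralizer (pCore 2 C : Set C) ≤ pCore 2 C := by
  have : Fact (Nat.Prime 2) := ⟨Nat.prime_two⟩
  apply Cfsg.Agent.Helper24.centralizer_pCore_le 2
  intro D hD hDc
  have h1 : D ≤ pPrimeCore 2 C := le_sSup ⟨hD, hDc⟩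
  rw [h] at h1
  exact le_bot_iff.mp h1

theorem eq_bot_of_centralizes {G : Type*} [Group G] [Finite G] {p : ℕ} [Fact p.Prime]
    (T : Subgroup G) (hT : IsPGroup p T) (t : G) (htT : t ∈ T)
    (hTt : T ≤ Subgroup.centralizer ({t} : Set G))
    (hHH : Subgroup.centralizer (pCore p ↥(Subgroup.centralizer ({t} : Set G)) :
      Set ↥(Subgroup.centralizer ({t} : Set G))) ≤ pCore p ↥(Subgroup.centralizer ({t} : Set G)))
    (X : Subgroup G) (hXo : (Nat.card X).Coprime p)
    (hXT : X ≤ Subgroup.centralizer (T : Set G))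
    (hXN : Subgroup.centralizer (T : Set G) ≤ Subgroup.normalizer (X : Set G)) : X = ⊥ := by
  rw [Subgroup.eq_bot_iff_forall]
  intro x hx
  have hCT : Subgroup.centralizer (T : Set G) ≤ Subgroup.centralizer ({t} : Set G) :=
    Subgroup.centralizer_le (Set.singleton_subset_iff.mpr htT)
  have hxC : x ∈ Subgroup.centralizer ({t} : Set G) := hCT (hXT hx)
  have hxo : (orderOf x).Coprime p :=
    Nat.Coprime.coprime_dvd_left (Subgroup.orderOf_dvd_natCard X hx) hXo
  have key := Cfsg.Agent.Helper54.eq_one_of_centralizes hHH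
    (T.subgroupOf (Subgroup.centralizer ({t} : Set G))) hT.comap_subtype ⟨x, hxC⟩
    (by rw [Subgroup.orderOf_mk]; exact hxo) ?_ ?_
  · exact congrArg Subtype.val key
  · intro s hs
    rw [Subgroup.mem_subgroupOf] at hs
    have h1 := Subgroup.mem_centralizer_iff.mp (hXT hx) s hs
    show _ * _ = _ * _
    exact Subtype.ext h1.symm
  · intro q hq hqT
    have hqT' : (q : G) ∈ Subgroup.centralizer (T : Set G) := by
      rw [Subgroup.mem_centralizer_iff]
      intro s hs
      have h1 := hqT ⟨s, hTt hs⟩ (Subgroup.mem_subgroupOf.mpr hs)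
      exact congrArg Subtype.val h1.eq
    have hqN := hXN hqT'
    have h1 : x * (q : G) * x⁻¹ * (q : G)⁻¹ ∈ X := by
      have h0 : (q : G) * x⁻¹ * (q : G)⁻¹ ∈ X :=
        (Subgroup.mem_normalizer_iff.mp hqN x⁻¹).mp (X.inv_mem hx)
      have h := X.mul_mem hx h0
      simpa [mul_assoc] using h
    have h2 : (⟨x, hxC⟩ : ↥(Subgroup.centralizer ({t} : Set G))) * q * ⟨x, hxC⟩⁻¹ * q⁻¹ ∈
        pCore p ↥(Subgroup.centralizer ({t} : Set G)) :=
      Subgroup.mul_mem _ ((pCore_normal p _).conj_mem q hq _) (Subgroup.inv_mem _ hq)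
    have hQp : IsPGroup p ((pCore p ↥(Subgroup.centralizer ({t} : Set G))).map
        (Subgroup.subtype _)) := (Cfsg.Agent.Helper22.pCore_isPGroup p _).map _
    have h3 : x * (q : G) * x⁻¹ * (q : G)⁻¹ = 1 :=
      Cfsg.Agent.Helper54.eq_one_of_mem_pgroup_of_mem_coprime hQp hXo ⟨_, h2, rfl⟩ h1
    show _ * _ = _ * _
    apply Subtype.ext
    show x * (q : G) = q * x
    calc x * (q : G) = x * q * x⁻¹ * (q : G)⁻¹ * (q * x) := by group
      _ = q * x := by rw [h3, one_mul]

theorem pPrimeCore_normalizer_eq_bot {G : Type*} [Group G] [Finite G] {p : ℕ} [Fact p.Prime]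
    (T : Subgroup G) (hT : IsPGroup p T) (t : G) (htT : t ∈ T)
    (hTt : T ≤ Subgroup.centralizer ({t} : Set G))
    (hHH : Subgroup.centralizer (pCore p ↥(Subgroup.centralizer ({t} : Set G)) :
      Set ↥(Subgroup.centralizer ({t} : Set G))) ≤ pCore p ↥(Subgroup.centralizer ({t} : Set G))) :
    pPrimeCore p ↥(Subgroup.normalizer (T : Set G)) = ⊥ := by
  have hinj : Function.Injective (Subgroup.normalizer (T : Set G)).subtype :=
    Subgroup.subtype_injective _
  have hX := eq_bot_of_centralizes T hT t htT hTt hHH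
    ((pPrimeCore p ↥(Subgroup.normalizer (T : Set G))).map
      (Subgroup.normalizer (T : Set G)).subtype) ?_ ?_ ?_
  · exact (Subgroup.map_eq_bot_iff_of_injective _ hinj).mp hX
  · rw [Subgroup.card_map_of_injective hinj]
    exact Cfsg.Agent.Helper22.card_pPrimeCore_coprime p _
  · rintro _ ⟨x, hx, rfl⟩
    rw [Subgroup.mem_centralizer_iff]
    intro s hs
    have hTn : (T.subgroupOf (Subgroup.normalizer (T : Set G))).Normal :=
      Subgroup.normal_in_normalizer
    have hc := Cfsg.Agent.Helper54.commute_of_normal_coprime (pPrimeCore_normal p _) hTn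
      hT.comap_subtype (Cfsg.Agent.Helper22.card_pPrimeCore_coprime p _) hx
      (show (⟨s, Subgroup.le_normalizer hs⟩ : ↥(Subgroup.normalizer (T : Set G))) ∈
        T.subgroupOf _ from Subgroup.mem_subgroupOf.mpr hs)
    exact (congrArg Subtype.val hc.eq).symm
  · intro g hg
    have hgN : g ∈ Subgroup.normalizer (T : Set G) := Subgroup.centralizer_le_normalizer _ hg
    rw [Subgroup.mem_normalizer_iff]
    intro y
    constructor
    · rintro ⟨x, hx, rfl⟩
      exact ⟨⟨g, hgN⟩ * x * ⟨g, hgN⟩⁻¹, (pPrimeCore_normal p _).conj_mem x hx _, rfl⟩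
    · rintro ⟨x, hx, hxy⟩
      refine ⟨⟨g, hgN⟩⁻¹ * x * ⟨g, hgN⟩, ?_, ?_⟩
      · have h := (pPrimeCore_normal p _).conj_mem x hx ⟨g, hgN⟩⁻¹
        simpa using h
      · have hxy' : (x : G) = g * y * g⁻¹ := hxy
        show g⁻¹ * (x : G) * g = y
        rw [hxy']
        group

/-- Let G be a finite group of even order in which the centralizer of every involution is solvable and has trivial
core (no nontrivial normal subgroup of odd order). Then G is of characteristic 2 type. -/
theorem result {G : Type*} [Group G] [Finite G]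
    (h2 : Even (Nat.card G))
    (hs : ∀ t : G, orderOf t = 2 → Group.IsSolvable (Subgroup.centralizer ({t} : Set G)))
    (hc : ∀ t : G, orderOf t = 2 → Cfsg.oddCore (Subgroup.centralizer ({t} : Set G)) = ⊥) :
    Cfsg.IsCharacteristicTwoType G := by
  refine ⟨h2, ?_⟩
  intro T hT hT1
  have : Fact (Nat.Prime 2) := ⟨Nat.prime_two⟩
  obtain ⟨t, hto, htT, hTt⟩ : ∃ t : G, orderOf t = 2 ∧ t ∈ T ∧
      T ≤ Subgroup.centralizer ({t} : Set G) := by
    have hTnt : Nontrivial ↥T := (Subgroup.nontrivial_iff_ne_bot T).mpr hT1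
    have hZnt : Nontrivial ↥(Subgroup.center ↥T) := hT.center_nontrivial
    have hZp : IsPGroup 2 ↥(Subgroup.center ↥T) := hT.to_subgroup _
    have hdvd : 2 ∣ Nat.card ↥(Subgroup.center ↥T) := by
      obtain ⟨n, hn⟩ := IsPGroup.iff_card.mp hZp
      rw [hn]
      have hn0 : n ≠ 0 := by
        rintro rfl
        rw [pow_zero] at hn
        have h1 := Finite.one_lt_card (α := ↥(Subgroup.center ↥T))
        omega
      exact dvd_pow_self 2 hn0
    obtain ⟨z, hz⟩ := exists_prime_orderOf_dvd_card' 2 hdvd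
    refine ⟨((z : ↥T) : G), ?_, (z : ↥T).2, ?_⟩
    · rw [Subgroup.orderOf_coe, Subgroup.orderOf_coe]; exact hz
    · intro s hs
      rw [Subgroup.mem_centralizer_iff]
      intro y hy
      rw [Set.mem_singleton_iff] at hy
      rw [hy]
      have h1 := Subgroup.mem_center_iff.mp z.2 ⟨s, hs⟩
      exact (congrArg Subtype.val h1).symm
  have hB : ∀ x : G, orderOf x = 2 →
      IsPConstrained 2 ↥(Subgroup.centralizer ({x} : Set G)) := by
    intro x hx
    have hsx := hs x hx
    have hcx : pPrimeCore 2 ↥(Subgroup.centralizer ({x} : Set G)) = ⊥ := hc x hx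
    rw [Cfsg.Agent.Helper54.isPConstrained_iff_of_surjective (MonoidHom.id _)
      Function.surjective_id
      (by rw [MonoidHom.ker_id, Subgroup.card_bot]; exact Nat.coprime_one_left 2) hcx]
    exact hh_of_solvable _ hcx
  have hst := hs t hto
  have hHH := hh_of_solvable ↥(Subgroup.centralizer ({t} : Set G)) (hc t hto)
  have hN := Cfsg.Agent.Helper54.isPConstrained_normalizer_of_centralizers hB T hT hT1
  have hNO := pPrimeCore_normalizer_eq_bot T hT t htT hTt hHH
  exact (Cfsg.Agent.Helper54.isPConstrained_iff_of_surjective (MonoidHom.id _)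
    Function.surjective_id
    (by rw [MonoidHom.ker_id, Subgroup.card_bot]; exact Nat.coprime_one_left 2) hNO).mp hN

end Cfsg.Agent.S0505
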