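import Cfsg.Statements.S0519
import Cfsg.Agent.Helper29.CycSelfCent
import Cfsg.Agent.Helper53.TwoGroup
import Cfsg.Agent.Helper53.Quat
import Cfsg.Agent.Helper73.Taussky

set_option autoImplicit false
open Cfsg

namespace Cfsg.Agent.S0519

/-- Let P be a finite p-group in which every abelian normal subgroup is cyclic, but which has a non-cyclic abelian
subgroup. Then p = 2 and P is generalized quaternion, dihedral of order at least 16, or quasi-dihedral. -/
theorem result {P : Type*} [Group P] [Finite P] (p : ℕ) [Fact p.Prime]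
    (hP : IsPGroup p P) (hn : ∀ A : Subgroup P, A.Normal → IsMulCommutative A → IsCyclic A)
    (hm : ∃ B : Subgroup P, IsMulCommutative B ∧ ¬ IsCyclic B) :
    p = 2 ∧ ((∃ n : ℕ, Nonempty (P ≃* QuaternionGroup n)) ∨ (∃ n : ℕ, 8 ≤ n ∧ Nonempty (P ≃* DihedralGroup n)) ∨
      Cfsg.IsQuasiDihedral P) := by
  have hp : p.Prime := Fact.out
  obtain ⟨B, hBc, hBnc⟩ := hm
  have hPnc : ¬ IsCyclic P := fun hc => hBnc inferInstance
  have hna' : ∃ x y : P, x * y ≠ y * x := by
    by_contra hcon
    push Not at hcon
    have h1 : IsCyclic (⊤ : Subgroup P) :=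
      hn ⊤ inferInstance ⟨⟨fun a b => Subtype.ext (hcon a b)⟩⟩
    exact hPnc (isCyclic_of_surjective (Subgroup.topEquiv : (⊤ : Subgroup P) ≃* P).toMonoidHom
      (Subgroup.topEquiv : (⊤ : Subgroup P) ≃* P).surjective)
  obtain ⟨A, hAn, hAc, hCA⟩ := Cfsg.Agent.Helper53.exists_normal_abelian_self_centralizing hP
  have hAcyc : IsCyclic A := hn A hAn ⟨⟨fun a b => Subtype.ext (hAc a a.2 b b.2)⟩⟩
  obtain ⟨u, hu⟩ : ∃ u : P, Subgroup.zpowers u = A := by
    obtain ⟨g, hg⟩ := hAcyc.exists_generator
    refine ⟨g, le_antisymm ?_ ?_⟩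
    · rw [Subgroup.zpowers_le]; exact g.2
    · intro x hx
      obtain ⟨k, hk⟩ := Subgroup.mem_zpowers_iff.mp (hg ⟨x, hx⟩)
      exact Subgroup.mem_zpowers_iff.mpr ⟨k, by simpa using congrArg Subtype.val hk⟩
  have hcent : ∀ g : P, g * u = u * g → g ∈ Subgroup.zpowers u := by
    intro g hg
    rw [hu]
    apply hCA
    rw [Subgroup.mem_centralizer_iff]
    intro x hx
    rw [← hu] at hx
    obtain ⟨k, rfl⟩ := Subgroup.mem_zpowers_iff.mp hx
    have : Commute g u := hg
    exact (this.zpow_right k).eq.symm
  obtain ⟨n, hAcard⟩ := IsPGroup.iff_card.mp (hP.to_subgroup A)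
  have hn1 : 1 ≤ n := by
    by_contra hn0
    have hn0' : n = 0 := by omega
    subst hn0'
    rw [pow_zero, ← hu, Nat.card_zpowers, orderOf_eq_one_iff] at hAcard
    obtain ⟨x, y, hxy⟩ := hna'
    apply hxy
    have hx := hcent x (by rw [hAcard, mul_one, one_mul])
    have hy := hcent y (by rw [hAcard, mul_one, one_mul])
    rw [hAcard, Subgroup.zpowers_one_eq_bot, Subgroup.mem_bot] at hx hy
    rw [hx, hy]
  obtain ⟨m, rfl⟩ : ∃ m, n = m + 1 := ⟨n - 1, by omega⟩
  have hcsc : Cfsg.Agent.Helper29.CSC p P u m := by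
    refine ⟨hP, ?_, by rw [hu]; exact hAn, hcent⟩
    rw [← Nat.card_zpowers, hu, hAcard]
  rcases hcsc.main hna' with ⟨hp2, hcard, a, b, ha, hba, hrel⟩ | halt
  · subst hp2
    refine ⟨rfl, ?_⟩
    rcases hrel with ⟨h1, h2⟩ | ⟨h1, h2⟩ | ⟨h0, h1, h2⟩
    · by_cases hm2 : 2 ≤ m
      · right; left
        have : NeZero (2 ^ (m + 1)) := ⟨by positivity⟩
        refine ⟨2 ^ (m + 1), ?_, Cfsg.Agent.Helper53.nonempty_mulEquiv_dihedralGroup_of
          (2 ^ (m + 1)) a b (by rw [hcard]; ring) ha (by rw [← sq]; exact h1) h2 hba⟩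
        calc 8 = 2 ^ 3 := by norm_num
          _ ≤ 2 ^ (m + 1) := Nat.pow_le_pow_right (by norm_num) (by omega)
      · exfalso
        have hm01 : m = 0 ∨ m = 1 := by omega
        rcases hm01 with rfl | rfl
        · obtain ⟨x, y, hxy⟩ := hna'
          have hc : IsMulCommutative P :=
            IsPGroup.isMulCommutative_of_card_eq_prime_sq (p := 2) (by simpa using hcard)
          exact hxy (hc.is_comm.comm x y)
        · -- dihedral of order 8: a normal four-group
          have ha4 : a ^ 4 = 1 := by
            have := pow_orderOf_eq_one a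
            rw [ha] at this
            simpa using this
          have hbo : orderOf b = 2 := by
            apply orderOf_eq_prime h1
            intro hb1
            apply hba
            rw [hb1]
            exact Subgroup.one_mem _
          have hz2 : (a ^ 2) ^ 2 = 1 := by rw [← pow_mul]; exact ha4
          have hzo : orderOf (a ^ 2) = 2 := by
            apply orderOf_eq_prime hz2
            intro hz1
            have h3 := orderOf_dvd_of_pow_eq_one hz1
            rw [ha] at h3
            have := Nat.le_of_dvd (by norm_num) h3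
            norm_num at this
          have hbz : a ^ 2 * b = b * a ^ 2 := by
            have h3 : b * a ^ 2 * b⁻¹ = a ^ 2 := by
              rw [← conj_pow, h2, inv_pow]
              apply inv_eq_of_mul_eq_one_left
              rw [← pow_add]; exact ha4
            calc a ^ 2 * b = (b * a ^ 2 * b⁻¹) * b := by rw [h3]
              _ = b * a ^ 2 := by group
          have hbnz : b ∉ Subgroup.zpowers (a ^ 2) := fun hmem =>
            hba ((Subgroup.zpowers_le.mpr (Subgroup.pow_mem _ (Subgroup.mem_zpowers a) 2)) hmem)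
          obtain ⟨E, hEcard, hEcomm, -, -, -, hEnc⟩ :=
            Cfsg.Agent.Helper29.exists_elemAb_sq 2 (a ^ 2) b hzo hbo hbz hbnz
          have hEidx : E.index = 2 := by
            have h3 := E.card_mul_index
            rw [hEcard, hcard] at h3
            norm_num at h3
            omega
          exact hEnc (hn E (Subgroup.normal_of_index_eq_two hEidx) hEcomm)
    · left
      have : NeZero (2 ^ m) := ⟨by positivity⟩
      exact ⟨2 ^ m, Cfsg.Agent.Helper73.nonempty_mulEquiv_quaternionGroup (2 ^ m) a b
        (by rw [hcard]; ring) (by rw [ha]; ring) (by rw [← sq]; exact h1) h2 hba⟩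
    · right; right
      refine ⟨m + 1, by omega, hcard, a, b, ha, ?_, ?_⟩
      · apply orderOf_eq_prime h1
        intro hb1
        apply hba
        rw [hb1]
        exact Subgroup.one_mem _
      · rw [h2]; rfl
  · exfalso
    obtain ⟨E, hset, hcard, hcomm, hnc, hchar, hrel⟩ := halt
    exact hnc (hn E inferInstance hcomm)

end Cfsg.Agent.S0519
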