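import Cfsg.Statements.S0520
import Cfsg.Agent.Helper21.PRank
import Cfsg.Agent.Helper21.Four

set_option autoImplicit false
open Cfsg

namespace Cfsg.Agent.S0520

open Cfsg.Agent.Helper21 Cfsg.Agent.Helper21.Four

/-- adjacency in the commuting graph of four-subgroups -/
def adj (P : Type*) [Group P] : Subgroup P → Subgroup P → Prop :=
  fun A B => IsKleinFour A ∧ IsKleinFour B ∧ ∀ a ∈ A, ∀ b ∈ B, a * b = b * a

theorem rtg_symm {α : Type*} {r : α → α → Prop} (hs : ∀ a b, r a b → r b a) {a b : α}
    (h : Relation.ReflTransGen r a b) : Relation.ReflTransGen r b a := by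
  induction h with
  | refl => exact Relation.ReflTransGen.refl
  | tail _ hbc ih => exact Relation.ReflTransGen.head (hs _ _ hbc) ih

theorem adj_symm {P : Type*} [Group P] (A B : Subgroup P) (h : adj P A B) : adj P B A :=
  ⟨h.2.1, h.1, fun b hb a ha => (h.2.2 a ha b hb).symm⟩

theorem four_map {A B : Type*} [Group A] [Group B] (f : A →* B) (hf : Function.Injective f)
    {U : Subgroup A} (hU : IsKleinFour U) : IsKleinFour (U.map f) := by
  apply isKleinFour_of
  · rw [Subgroup.card_map_of_injective hf]; exact hU.card_four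
  · rintro _ ⟨u, hu, rfl⟩
    rw [← map_mul, mul_self_of_isKleinFour hU hu, map_one]

theorem adj_map {A B : Type*} [Group A] [Group B] (f : A →* B) (hf : Function.Injective f)
    {U V : Subgroup A} (h : adj A U V) : adj B (U.map f) (V.map f) := by
  refine ⟨four_map f hf h.1, four_map f hf h.2.1, ?_⟩
  rintro _ ⟨a, ha, rfl⟩ _ ⟨b, hb, rfl⟩
  rw [← map_mul, ← map_mul, h.2.2 a ha b hb]

theorem rtg_map {A B : Type*} [Group A] [Group B] (f : A →* B) (hf : Function.Injective f)
    {U V : Subgroup A} (h : Relation.ReflTransGen (adj A) U V) :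
    Relation.ReflTransGen (adj B) (U.map f) (V.map f) := by
  induction h with
  | refl => exact Relation.ReflTransGen.refl
  | tail _ hbc ih => exact Relation.ReflTransGen.tail ih (adj_map f hf hbc)

theorem four_subgroupOf {G : Type*} [Group G] {U S : Subgroup G} (hUS : U ≤ S)
    (hU : IsKleinFour U) : IsKleinFour (U.subgroupOf S) := by
  apply isKleinFour_of
  · rw [Nat.card_congr (Subgroup.subgroupOfEquivOfLe hUS).toEquiv]; exact hU.card_four
  · intro x hx
    apply Subtype.ext
    exact mul_self_of_isKleinFour hU (Subgroup.mem_subgroupOf.mp hx)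

/-- four-subgroups of `G` inside a four-connected subgroup `S` are connected in `G`. -/
theorem rtg_of_le {G : Type*} [Group G] {S : Subgroup G} (hS : Cfsg.IsFourConnected S)
    {U V : Subgroup G} (hUS : U ≤ S) (hVS : V ≤ S) (hU : IsKleinFour U) (hV : IsKleinFour V) :
    Relation.ReflTransGen (adj G) U V := by
  have h : Relation.ReflTransGen (adj S) (U.subgroupOf S) (V.subgroupOf S) :=
    hS (U.subgroupOf S) (V.subgroupOf S) (four_subgroupOf hUS hU) (four_subgroupOf hVS hV)
  have h' := rtg_map S.subtype (Subgroup.subtype_injective S) h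
  rwa [Subgroup.map_subgroupOf_eq_of_le hUS, Subgroup.map_subgroupOf_eq_of_le hVS] at h'

theorem exists_four_of_not_rank {H : Type*} [Group H] [Finite H] (h : ¬ Cfsg.PRankLE 2 1 H) :
    ∃ U : Subgroup H, IsKleinFour U := by
  classical
  by_contra hcon
  apply h
  intro A hA hexp
  by_contra hlt
  apply hcon
  have h2 : 2 < Nat.card A := by simpa using hlt
  haveI : Fintype A := Fintype.ofFinite A
  rw [Nat.card_eq_fintype_card] at h2
  obtain ⟨x, y, z, hxy, hxz, hyz⟩ := Fintype.two_lt_card_iff.mp h2
  have key : ∃ a b : A, a ≠ 1 ∧ b ≠ 1 ∧ a ≠ b := by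
    by_cases hx : x = 1
    · exact ⟨y, z, fun h => hxy (hx.trans h.symm), fun h => hxz (hx.trans h.symm), hyz⟩
    · by_cases hy : y = 1
      · exact ⟨x, z, hx, fun h => hyz (hy.trans h.symm), hxz⟩
      · exact ⟨x, y, hx, hy, hxy⟩
  obtain ⟨a, b, ha1, hb1, hab⟩ := key
  have hsq : ∀ c : A, (c : H) * (c : H) = 1 := fun c => by rw [← pow_two]; exact hexp c c.2
  have hcomm : (a : H) * (b : H) = (b : H) * (a : H) :=
    congrArg Subtype.val (hA.is_comm.comm a b)
  exact ⟨fourSub (a : H) (b : H) (hsq a) (hsq b) hcomm,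
    isKleinFour_fourSub _ _ _ (fun h => ha1 (Subtype.ext h)) (fun h => hb1 (Subtype.ext h))
      (fun h => hab (Subtype.ext h))⟩

theorem cj_mul {G : Type*} [Group G] (g h : G) (U : Subgroup G) :
    U.map (MulAut.conj (g * h)).toMonoidHom =
      (U.map (MulAut.conj h).toMonoidHom).map (MulAut.conj g).toMonoidHom := by
  ext x
  rw [mem_map_conj_iff, mem_map_conj_iff, mem_map_conj_iff]
  have e : (g * h)⁻¹ * x * (g * h) = h⁻¹ * (g⁻¹ * x * g) * h := by group
  rw [e]

theorem cj_one {G : Type*} [Group G] (U : Subgroup G) :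
    U.map (MulAut.conj (1 : G)).toMonoidHom = U := by
  ext x
  rw [mem_map_conj_iff]
  simp

theorem isPGroup_four {G : Type*} [Group G] {V : Subgroup G} (hV : IsKleinFour V) :
    IsPGroup 2 V := by
  apply IsPGroup.of_card (n := 2)
  rw [hV.card_four]; norm_num

theorem not_rank_of_four {G : Type*} [Group G] {V Q : Subgroup G} (hV : IsKleinFour V)
    (hVQ : V ≤ Q) : ¬ Cfsg.PRankLE 2 1 Q := by
  refine not_pRankLE_of_elemAb hVQ ⟨⟨fun a b => Subtype.ext (comm_of_isKleinFour hV a.2 b.2)⟩⟩
    (fun a ha => by rw [pow_two]; exact mul_self_of_isKleinFour hV ha) ?_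
  rw [hV.card_four]; norm_num

/-- Let G be a finite group of 2-rank at least 2 and S a Sylow 2-subgroup whose commuting graph of Klein four-subgroups is
connected. Then the commuting graph of Klein four-subgroups of G is disconnected if and only if the 2-generated core — the
subgroup generated by the normalizers N_G(Q) of the subgroups Q of S that contain a Klein four-group — is a proper
subgroup of G. -/
theorem result {G : Type*} [Group G] [Finite G] (h2 : ¬ Cfsg.PRankLE 2 1 G)
    (S : Sylow 2 G) (hS : Cfsg.IsFourConnected (S : Subgroup G)) :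
    ¬ Cfsg.IsFourConnected G ↔
      (⨆ Q : {Q : Subgroup G // Q ≤ (S : Subgroup G) ∧ ¬ Cfsg.PRankLE 2 1 Q},
          Subgroup.normalizer ((Q : Subgroup G) : Set G)) ≠ ⊤ := by
  classical
  haveI : Fact (Nat.Prime 2) := ⟨Nat.prime_two⟩
  set M : Subgroup G := ⨆ Q : {Q : Subgroup G // Q ≤ (S : Subgroup G) ∧ ¬ Cfsg.PRankLE 2 1 Q},
    Subgroup.normalizer ((Q : Subgroup G) : Set G) with hM
  -- a four-group in S
  obtain ⟨U', hU'⟩ := exists_four_of_not_rank h2
  obtain ⟨g₀, hg₀⟩ := exists_conj_mem_sylow S (isPGroup_four hU')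
  have hU₀S : U'.map (MulAut.conj g₀).toMonoidHom ≤ S := by
    rintro _ ⟨r, hr, rfl⟩; exact hg₀ r hr
  have hU₀ : IsKleinFour (U'.map (MulAut.conj g₀).toMonoidHom) :=
    four_map _ (MulAut.conj g₀).injective hU'
  generalize U'.map (MulAut.conj g₀).toMonoidHom = U₀ at hU₀S hU₀
  constructor
  · -- not connected → M ≠ ⊤
    intro hnc hMtop
    apply hnc
    have hC : ∀ g : G, Relation.ReflTransGen (adj G) U₀ (U₀.map (MulAut.conj g).toMonoidHom) := by
      intro g
      have hg : g ∈ M := by rw [hMtop]; exact Subgroup.mem_top g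
      refine Subgroup.iSup_induction
        (C := fun g => Relation.ReflTransGen (adj G) U₀ (U₀.map (MulAut.conj g).toMonoidHom))
        _ hg ?_ ?_ ?_
      · rintro ⟨Q, hQS, hQr⟩ x hx
        obtain ⟨V', hV'⟩ := exists_four_of_not_rank hQr
        have hV : IsKleinFour (V'.map Q.subtype) := four_map _ (Subgroup.subtype_injective Q) hV'
        have hVQ : V'.map Q.subtype ≤ Q := Subgroup.map_subtype_le V'
        have hxV : (V'.map Q.subtype).map (MulAut.conj x).toMonoidHom ≤ S := by
          rintro _ ⟨v, hv, rfl⟩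
          exact hQS ((Subgroup.mem_normalizer_iff.mp hx v).mp (hVQ hv))
        have h1 := rtg_of_le hS hU₀S (hVQ.trans hQS) hU₀ hV
        have h2' := rtg_map (MulAut.conj x).toMonoidHom (MulAut.conj x).injective h1
        have h3 := rtg_of_le hS hxV hU₀S (four_map _ (MulAut.conj x).injective hV) hU₀
        exact rtg_symm adj_symm (h2'.trans h3)
      · show Relation.ReflTransGen (adj G) U₀ (U₀.map (MulAut.conj (1 : G)).toMonoidHom)
        rw [cj_one]
      · intro x y hx hy
        show Relation.ReflTransGen (adj G) U₀ (U₀.map (MulAut.conj (x * y)).toMonoidHom)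
        rw [cj_mul]
        exact hx.trans (rtg_map (MulAut.conj x).toMonoidHom (MulAut.conj x).injective hy)
    have hall : ∀ V : Subgroup G, IsKleinFour V → Relation.ReflTransGen (adj G) U₀ V := by
      intro V hV
      obtain ⟨g, hg⟩ := exists_conj_mem_sylow S (isPGroup_four hV)
      have hgV : V.map (MulAut.conj g).toMonoidHom ≤ S := by
        rintro _ ⟨r, hr, rfl⟩; exact hg r hr
      have h1 := rtg_of_le hS hU₀S hgV hU₀ (four_map _ (MulAut.conj g).injective hV)
      have h2' := rtg_map (MulAut.conj g⁻¹).toMonoidHom (MulAut.conj g⁻¹).injective h1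
      rw [← cj_mul g⁻¹ g V, inv_mul_cancel, cj_one] at h2'
      exact (hC g⁻¹).trans h2'
    intro U V hU hV
    exact (rtg_symm adj_symm (hall U hU)).trans (hall V hV)
  · -- M ≠ ⊤ → not connected
    intro hMne hconn
    apply hMne
    have hS2 : ¬ Cfsg.PRankLE 2 1 (S : Subgroup G) := not_rank_of_four hU₀ hU₀S
    have hgen : ∀ Q : Subgroup G, Q ≤ S → ¬ Cfsg.PRankLE 2 1 Q →
        Subgroup.normalizer (Q : Set G) ≤ M := by
      intro Q hQS hQr
      exact le_iSup (fun Q : {Q : Subgroup G // Q ≤ (S : Subgroup G) ∧ ¬ Cfsg.PRankLE 2 1 Q} =>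
        Subgroup.normalizer ((Q : Subgroup G) : Set G)) ⟨Q, hQS, hQr⟩
    have hSM : (S : Subgroup G) ≤ M := Subgroup.le_normalizer.trans (hgen S le_rfl hS2)
    have hmap : ((S.subtype hSM : Sylow 2 M) : Subgroup M).map M.subtype = S := by
      rw [Sylow.coe_subtype, Subgroup.map_subgroupOf_eq_of_le hSM]
    -- Claim B
    have hB : ∀ Q : Subgroup G, Q ≤ M → IsPGroup 2 Q → ¬ Cfsg.PRankLE 2 1 Q →
        Subgroup.normalizer (Q : Set G) ≤ M := by
      intro Q hQM hQp hQr n hn
      obtain ⟨m, hmM, hm⟩ := exists_conj_mem_sylow_of_le (S.subtype hSM) hQp hQM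
      rw [hmap] at hm
      have hQ' : Q.map (MulAut.conj m).toMonoidHom ≤ S := by
        rintro _ ⟨r, hr, rfl⟩; exact hm r hr
      have h1 := hgen _ hQ' (not_pRankLE_conj m hQr) (conj_mem_normalizer_map hn m)
      have e : n = m⁻¹ * (m * n * m⁻¹) * m := by group
      rw [e]
      exact M.mul_mem (M.mul_mem (M.inv_mem hmM) h1) hmM
    -- all four-groups are in M
    have hfour : ∀ V : Subgroup G, IsKleinFour V → V ≤ M := by
      intro V hV
      have h : Relation.ReflTransGen (adj G) U₀ V := hconn U₀ V hU₀ hV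
      induction h with
      | refl => exact hU₀S.trans hSM
      | tail _ hbc ih =>
        intro c hc
        apply hB _ (ih hbc.1) (isPGroup_four hbc.1) (not_rank_of_four hbc.1 le_rfl)
        apply Subgroup.centralizer_le_normalizer
        rw [Subgroup.mem_centralizer_iff]
        intro b hb
        exact hbc.2.2 b hb c hc
    -- every conjugate of S is in M
    rw [eq_top_iff]
    intro g _
    have hTp : IsPGroup 2 ((S : Subgroup G).map (MulAut.conj g).toMonoidHom) := S.isPGroup'.map _
    have hT : (S : Subgroup G).map (MulAut.conj g).toMonoidHom ≤ M := by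
      by_contra hnot
      have hlt : (S : Subgroup G).map (MulAut.conj g).toMonoidHom ⊓ M <
          (S : Subgroup G).map (MulAut.conj g).toMonoidHom :=
        lt_of_le_of_ne inf_le_left (fun h => hnot (h ▸ inf_le_right))
      obtain ⟨x, hxT, hxn, hxN⟩ := exists_normalizing_of_lt hTp hlt
      have hV : IsKleinFour (U₀.map (MulAut.conj g).toMonoidHom) :=
        four_map _ (MulAut.conj g).injective hU₀
      have hVT : U₀.map (MulAut.conj g).toMonoidHom ≤
          (S : Subgroup G).map (MulAut.conj g).toMonoidHom ⊓ M :=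
        le_inf (Subgroup.map_mono hU₀S) (hfour _ hV)
      have := hB _ inf_le_right (hTp.to_le inf_le_left) (not_rank_of_four hV hVT) hxN
      exact hxn ⟨hxT, this⟩
    -- Sylow in M
    obtain ⟨m, hmM, hm⟩ := exists_conj_mem_sylow_of_le (S.subtype hSM) hTp hT
    rw [hmap] at hm
    have hmg : m * g ∈ Subgroup.normalizer ((S : Subgroup G) : Set G) := by
      apply mem_normalizer_of_conj_mem
      intro w hw
      have := hm (g * w * g⁻¹) ⟨w, hw, rfl⟩
      have e : m * g * w * (m * g)⁻¹ = m * (g * w * g⁻¹) * m⁻¹ := by group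
      rw [e]; exact this
    have h1 : m * g ∈ M := hgen S le_rfl hS2 hmg
    have e : g = m⁻¹ * (m * g) := by group
    rw [e]
    exact M.mul_mem (M.inv_mem hmM) h1

end Cfsg.Agent.S0520
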