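import Cfsg.Statements.S0521
import Cfsg.Agent.Helper1.PPrimeCore
import Cfsg.Agent.Helper1.Basic
import Cfsg.Agent.Helper1.Tools
import Cfsg.Agent.Helper24.HallHigman
import Cfsg.Agent.Helper24.PStable
import Cfsg.Agent.Helper35.Burnside
import Cfsg.Agent.Helper47.Coprime
import Cfsg.Agent.Helper2.PGroup
import Cfsg.Agent.Helper22.Fitting

set_option autoImplicit false
open Cfsg

namespace Cfsg.Agent.S0521

open Subgroup
open scoped commutatorElement

universe u

/-- In a solvable group with `O_{p'} = 1`, an element acting trivially on `O_p / Φ(O_p)` lies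
in `O_p`. -/
theorem mem_pCore_of_frattini_solv {H : Type*} [Group H] [Finite H] [Group.IsSolvable H] {p : ℕ}
    [Fact p.Prime]
    (hcore : ∀ D : Subgroup H, D.Normal → (Nat.card D).Coprime p → D = ⊥) (g : H)
    (hg : ∀ y ∈ Cfsg.pCore p H, g * y * g⁻¹ * y⁻¹ ∈
      (frattini ↥(Cfsg.pCore p H)).map (Cfsg.pCore p H).subtype) : g ∈ Cfsg.pCore p H := by
  have hPn : (Cfsg.pCore p H).Normal := Cfsg.pCore_normal p H
  have hPp : IsPGroup p (Cfsg.pCore p H) := Helper1.pCore_isPGroup p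
  have hNtop : normalizer ((Cfsg.pCore p H : Subgroup H) : Set H) = ⊤ :=
    Subgroup.normalizer_eq_top_iff.mpr hPn
  have hFn : ((frattini ↥(Cfsg.pCore p H)).map (Cfsg.pCore p H).subtype).Normal := by
    rw [← Subgroup.normalizer_eq_top_iff, eq_top_iff, ← hNtop]
    exact Helper47.normalizer_le_normalizer_map_of_characteristic _ _
  let T : Subgroup H :=
    { carrier := {x | ∀ y ∈ Cfsg.pCore p H, x * y * x⁻¹ * y⁻¹ ∈
        (frattini ↥(Cfsg.pCore p H)).map (Cfsg.pCore p H).subtype}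
      one_mem' := fun y _ => by
        have e : (1 : H) * y * 1⁻¹ * y⁻¹ = 1 := by group
        rw [e]; exact Subgroup.one_mem _
      mul_mem' := by
        intro a b ha hb y hy
        have e : a * b * y * (a * b)⁻¹ * y⁻¹ =
            a * (b * y * b⁻¹ * y⁻¹) * a⁻¹ * (a * y * a⁻¹ * y⁻¹) := by group
        rw [e]
        exact Subgroup.mul_mem _ (hFn.conj_mem _ (hb y hy) a) (ha y hy)
      inv_mem' := by
        intro a ha y hy
        have e : a⁻¹ * y * a⁻¹⁻¹ * y⁻¹ = a⁻¹ * (a * y * a⁻¹ * y⁻¹)⁻¹ * a⁻¹⁻¹ := by group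
        rw [e]
        exact hFn.conj_mem _ (Subgroup.inv_mem _ (ha y hy)) a⁻¹ }
  have hTn : T.Normal := by
    refine ⟨fun x hx k y hy => ?_⟩
    have e : k * x * k⁻¹ * y * (k * x * k⁻¹)⁻¹ * y⁻¹ =
        k * (x * (k⁻¹ * y * k⁻¹⁻¹) * x⁻¹ * (k⁻¹ * y * k⁻¹⁻¹)⁻¹) * k⁻¹ := by group
    rw [e]
    exact hFn.conj_mem _ (hx _ (hPn.conj_mem y hy k⁻¹)) k
  have hTp : IsPGroup p T := by
    apply Helper47.isPGroup_of_forall_coprime_eq_one
    intro x hx
    have hx' : (orderOf (x : H)).Coprime p := by rw [Subgroup.orderOf_coe]; exact hx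
    have hcent := Helper35.centralizes_of_coprime_of_frattini hPp
      (by rw [hNtop]; exact Subgroup.mem_top _) hx' x.2
    have hxC : (x : H) ∈ centralizer ((Cfsg.pCore p H : Subgroup H) : Set H) := by
      rw [Subgroup.mem_centralizer_iff]
      intro y hy
      exact (hcent y hy).symm
    have hxP : (x : H) ∈ Cfsg.pCore p H := Helper24.centralizer_pCore_le p hcore hxC
    obtain ⟨k, hk⟩ := hPp ⟨x, hxP⟩
    have hk' : (x : H) ^ (p ^ k) = 1 := congrArg Subtype.val hk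
    have h1 : (x : H) = 1 :=
      Helper47.eq_one_of_pow_prime_pow_of_pow_coprime hk' (pow_orderOf_eq_one (x : H)) hx'
    exact Subtype.ext h1
  exact (le_sSup (⟨hTn, hTp⟩ : T.Normal ∧ IsPGroup p T) : T ≤ Cfsg.pCore p H) hg

/-- conjugation by `s` raises every element of `zpowers w` to the `k`-th power if it does so
for `w`. -/
theorem conj_zpowers {G : Type*} [Group G] {s w : G} {k : ℕ} (h : s * w * s⁻¹ = w ^ k)
    {c : G} (hc : c ∈ zpowers w) : s * c * s⁻¹ = c ^ k := by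
  obtain ⟨j, rfl⟩ := Subgroup.mem_zpowers_iff.mp hc
  have h1 : s * w ^ j * s⁻¹ = (s * w * s⁻¹) ^ j := by
    simpa using (map_zpow (MulAut.conj s).toMonoidHom w j)
  rw [h1, h, ← zpow_natCast, ← zpow_natCast, ← zpow_mul, ← zpow_mul, mul_comm]

theorem conj_pow_iter {G : Type*} [Group G] {s w : G} {k : ℕ} (h : s * w * s⁻¹ = w ^ k)
    (n : ℕ) : s ^ n * w * (s ^ n)⁻¹ = w ^ (k ^ n) := by
  induction n with
  | zero => simp
  | succ n ih =>
    have e : s ^ (n + 1) * w * (s ^ (n + 1))⁻¹ = s * (s ^ n * w * (s ^ n)⁻¹) * s⁻¹ := by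
      rw [pow_succ']; group
    rw [e, ih]
    have h1 : s * w ^ (k ^ n) * s⁻¹ = (s * w * s⁻¹) ^ (k ^ n) := by
      simpa using (map_pow (MulAut.conj s).toMonoidHom w (k ^ n))
    rw [h1, h, ← pow_mul, ← pow_succ']

/-- The key step: with `O_{p'}(G) = 1`, a `p`-subgroup `T ⊇ O_p(G)` with cyclic derived group is
contained in `O_p(G)`. -/
theorem le_pCore_of_cyclic_derived {G : Type u} [Group G] [Finite G] [Group.IsSolvable G]
    (hodd : Odd (Nat.card G)) (p : ℕ) [Fact p.Prime]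
    (hcore : ∀ D : Subgroup G, D.Normal → (Nat.card D).Coprime p → D = ⊥)
    (T : Subgroup G) (hT : IsPGroup p T) (hFT : Cfsg.pCore p G ≤ T)
    (hcyc : ∃ w : G, ⁅T, T⁆ ≤ zpowers w) : T ≤ Cfsg.pCore p G := by
  classical
  have hp : p.Prime := Fact.out
  have hFn : (Cfsg.pCore p G).Normal := Cfsg.pCore_normal p G
  have hFp : IsPGroup p (Cfsg.pCore p G) := Helper1.pCore_isPGroup p
  set F : Subgroup G := Cfsg.pCore p G with hFdef
  set Φ : Subgroup G := (frattini ↥F).map F.subtype with hΦdef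
  have hΦn : Φ.Normal := Helper22.normal_map_subtype_of_characteristic F (frattini ↥F)
  have hΦF : Φ ≤ F := by
    rintro _ ⟨y, -, rfl⟩
    exact y.2
  -- the cyclic group Z₀
  obtain ⟨w₀, hw₀⟩ := hcyc
  have hZc : IsCyclic ↥(⁅T, T⁆ ⊓ F : Subgroup G) := by
    haveI : IsCyclic ↥(zpowers w₀) := inferInstance
    exact Subgroup.isCyclic_of_le (inf_le_left.trans hw₀)
  obtain ⟨w, hw⟩ := (Subgroup.isCyclic_iff_exists_zpowers_eq_top _).mp hZc
  have hwZ : w ∈ (⁅T, T⁆ ⊓ F : Subgroup G) := by rw [← hw]; exact mem_zpowers w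
  have hTT : ⁅T, T⁆ ≤ T := by
    rw [Subgroup.commutator_le]
    intro a ha b hb
    rw [commutatorElement_def]
    exact T.mul_mem (T.mul_mem (T.mul_mem ha hb) (T.inv_mem ha)) (T.inv_mem hb)
  -- `T` normalizes `Z₀`
  have hZnorm : ∀ s ∈ T, ∀ z ∈ (⁅T, T⁆ ⊓ F : Subgroup G), s * z * s⁻¹ ∈ (⁅T, T⁆ ⊓ F : Subgroup G) := by
    intro s hs z hz
    refine ⟨?_, hFn.conj_mem z hz.2 s⟩
    have e : s * z * s⁻¹ = ⁅s, z⁆ * z := by rw [commutatorElement_def]; group
    rw [e]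
    exact Subgroup.mul_mem _ (Subgroup.commutator_mem_commutator hs (hTT hz.1)) hz.1
  -- the main computation: `s` acts quadratically modulo `Φ`
  have hquad : ∀ s ∈ T, ∀ c ∈ (⁅T, T⁆ ⊓ F : Subgroup G), c⁻¹ * (s * c * s⁻¹) ∈ Φ := by
    intro s hs c hc
    by_cases hw1 : w = 1
    · have hc1 : c = 1 := by
        rw [← hw, hw1] at hc
        simpa using hc
      rw [hc1]
      have e : (1 : G)⁻¹ * (s * 1 * s⁻¹) = 1 := by group
      rw [e]; exact Subgroup.one_mem _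
    have h1 : s * w * s⁻¹ ∈ zpowers w := by rw [hw]; exact hZnorm s hs w hwZ
    obtain ⟨k, hk⟩ := (mem_powers_iff_mem_zpowers.mpr h1)
    have hk' : s * w * s⁻¹ = w ^ k := hk.symm
    obtain ⟨a, ha⟩ := hT ⟨s, hs⟩
    have ha' : s ^ (p ^ a) = 1 := congrArg Subtype.val ha
    have h2 := conj_pow_iter hk' (p ^ a)
    rw [ha'] at h2
    have h3 : w ^ (k ^ (p ^ a)) = w ^ 1 := by
      rw [← h2]; group
    have h4 : k ^ (p ^ a) ≡ 1 [MOD orderOf w] := pow_eq_pow_iff_modEq.mp h3.symm |>.symm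
    have h5 : p ∣ orderOf w := by
      obtain ⟨b, hb⟩ := hFp ⟨w, hwZ.2⟩
      have hb' : w ^ (p ^ b) = 1 := congrArg Subtype.val hb
      obtain ⟨j, -, hj⟩ := (Nat.dvd_prime_pow hp).mp (orderOf_dvd_of_pow_eq_one hb')
      rcases Nat.eq_zero_or_pos j with hj0 | hj0
      · rw [hj0, pow_zero] at hj
        exact absurd (orderOf_eq_one_iff.mp hj) hw1
      · rw [hj]; exact dvd_pow_self p hj0.ne'
    have h6 : k ^ (p ^ a) ≡ 1 [MOD p] := h4.of_dvd h5
    have h7 : k ≡ 1 [MOD p] := by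
      rw [← ZMod.natCast_eq_natCast_iff] at h6 ⊢
      rw [Nat.cast_pow, ZMod.pow_card_pow] at h6
      exact h6
    have hk1 : 1 ≤ k := by
      rcases Nat.eq_zero_or_pos k with hk0 | hk0
      · exfalso
        rw [hk0] at h7
        have : p ∣ 1 - 0 := (Nat.modEq_iff_dvd' (Nat.zero_le 1)).mp h7
        exact hp.one_lt.ne' (Nat.dvd_one.mp (by simpa using this))
      · exact hk0
    obtain ⟨l, hl⟩ : p ∣ k - 1 := (Nat.modEq_iff_dvd' hk1).mp h7.symm
    have hkl : k = 1 + p * l := by omega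
    have hcw : c ∈ zpowers w := by rw [hw]; exact hc
    have h8 : s * c * s⁻¹ = c ^ k := conj_zpowers hk' hcw
    have h9 : c⁻¹ * (s * c * s⁻¹) = (c ^ l) ^ p := by
      rw [h8, hkl, pow_add, pow_one, inv_mul_cancel_left, mul_comm p l, pow_mul]
    rw [h9]
    have hclF : c ^ l ∈ F := Subgroup.pow_mem _ hc.2 l
    have := Helper2.pow_mem_frattini_of_isPGroup hFp (⟨c ^ l, hclF⟩ : ↥F)
    exact ⟨_, this, rfl⟩
  -- the quotient by `Φ`
  set π := QuotientGroup.mk' Φ with hπ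
  have hπs : Function.Surjective π := QuotientGroup.mk'_surjective Φ
  haveI hPn : (F.map π).Normal := hFn.map π hπs
  have hPp : IsPGroup p ↥(F.map π) := hFp.map π
  haveI hCn : (centralizer ((F.map π : Subgroup (G ⧸ Φ)) : Set (G ⧸ Φ))).Normal :=
    Subgroup.normal_centralizer
  have hodd' : Odd (Nat.card (G ⧸ Φ)) :=
    Odd.of_dvd_nat hodd (Subgroup.card_quotient_dvd_card Φ)
  have hmemΦ : ∀ x : G, π x = 1 ↔ x ∈ Φ := fun x => by
    rw [hπ, QuotientGroup.mk'_apply, QuotientGroup.eq_one_iff]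
  set C := centralizer ((F.map π : Subgroup (G ⧸ Φ)) : Set (G ⧸ Φ)) with hCdef
  have hstep : ∀ s ∈ T, QuotientGroup.mk' C (π s) ∈ Cfsg.pCore p ((G ⧸ Φ) ⧸ C) := by
    intro s hs
    apply Helper24.mk_mem_pCore_of_quadratic hodd' p (F.map π) hPp C
    · intro x hx
      rw [hCdef, Subgroup.mem_centralizer_iff]
      exact hx
    · rintro _ ⟨x, hx, rfl⟩
      have hcZ : ⁅x, s⁆ ∈ (⁅T, T⁆ ⊓ F : Subgroup G) := by
        refine ⟨Subgroup.commutator_mem_commutator (hFT hx) hs, ?_⟩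
        rw [commutatorElement_def]
        have e : x * s * x⁻¹ * s⁻¹ = x * (s * x⁻¹ * s⁻¹) := by group
        rw [e]
        exact Subgroup.mul_mem _ hx (hFn.conj_mem _ (Subgroup.inv_mem _ hx) s)
      have h1 := hquad s hs _ hcZ
      have h2 : π (⁅x, s⁆⁻¹ * (s * ⁅x, s⁆ * s⁻¹)) = 1 := (hmemΦ _).mpr h1
      have h3 : ⁅π x, π s⁆ = π ⁅x, s⁆ := (map_commutatorElement π x s).symm
      rw [h3]
      change π s * π ⁅x, s⁆ = π ⁅x, s⁆ * π s
      rw [map_mul, map_mul, map_mul, map_inv, map_inv] at h2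
      have h4 : π s * π ⁅x, s⁆ * (π s)⁻¹ = π ⁅x, s⁆ := (inv_mul_eq_one.mp h2).symm
      calc π s * π ⁅x, s⁆ = π s * π ⁅x, s⁆ * (π s)⁻¹ * π s := by group
        _ = π ⁅x, s⁆ * π s := by rw [h4]
  -- the preimage of the `p`-core
  set φ : G →* (G ⧸ Φ) ⧸ C := (QuotientGroup.mk' C).comp π with hφ
  have hφs : Function.Surjective φ :=
    (QuotientGroup.mk'_surjective C).comp hπs
  have hker : φ.ker ≤ F := by
    intro g hg
    rw [MonoidHom.mem_ker, hφ, MonoidHom.comp_apply, QuotientGroup.mk'_apply,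
      QuotientGroup.eq_one_iff] at hg
    apply mem_pCore_of_frattini_solv hcore g
    intro y hy
    have h1 : π y * π g = π g * π y :=
      (Subgroup.mem_centralizer_iff.mp hg) (π y) ⟨y, hy, rfl⟩
    have h2 : π (g * y * g⁻¹ * y⁻¹) = 1 := by
      rw [map_mul, map_mul, map_mul, map_inv, map_inv, ← h1]
      group
    exact (hmemΦ _).mp h2
  have hLp : IsPGroup p ↥((Cfsg.pCore p ((G ⧸ Φ) ⧸ C)).comap φ) :=
    IsPGroup.comap_of_ker_isPGroup (Helper1.pCore_isPGroup p) φ (hFp.to_le hker)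
  have hLn : ((Cfsg.pCore p ((G ⧸ Φ) ⧸ C)).comap φ).Normal :=
    (Cfsg.pCore_normal p _).comap φ
  intro s hs
  exact (le_sSup (⟨hLn, hLp⟩ : ((Cfsg.pCore p ((G ⧸ Φ) ⧸ C)).comap φ).Normal ∧
    IsPGroup p ↥((Cfsg.pCore p ((G ⧸ Φ) ⧸ C)).comap φ)) :
      (Cfsg.pCore p ((G ⧸ Φ) ⧸ C)).comap φ ≤ Cfsg.pCore p G) (hstep s hs)

/-- Let X be a finite solvable group of odd order, p a prime and S a Sylow p-subgroup of X whose commutator subgroup is
cyclic. Then the product of the largest normal subgroup of X of order prime to p with S is a normal subgroup of X. -/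
theorem result {X : Type*} [Group X] [Finite X] [Group.IsSolvable X]
    (hX : Odd (Nat.card X)) (p : ℕ) [Fact p.Prime] (S : Sylow p X) (hS : IsCyclic (commutator (S : Subgroup X))) :
    (Cfsg.pPrimeCore p X ⊔ (S : Subgroup X)).Normal := by
  have hKn : (Cfsg.pPrimeCore p X).Normal := Cfsg.Agent.Helper1.pPrimeCore_normal p
  have hsurj := QuotientGroup.mk'_surjective (Cfsg.pPrimeCore p X)
  have hbot := Cfsg.Agent.Helper1.pPrimeCore_quotient_eq_bot (G := X) p
  have hcore : ∀ D : Subgroup (X ⧸ Cfsg.pPrimeCore p X), D.Normal → (Nat.card D).Coprime p →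
      D = ⊥ := by
    intro D hD hDc
    have := Cfsg.Agent.Helper1.le_pPrimeCore hD hDc
    rw [hbot] at this
    exact le_bot_iff.mp this
  have hPq : (Sylow.mapSurjective hsurj S : Subgroup _) =
      (S : Subgroup X).map (QuotientGroup.mk' (Cfsg.pPrimeCore p X)) :=
    Sylow.coe_mapSurjective hsurj S
  have h1 : Cfsg.pCore p (X ⧸ Cfsg.pPrimeCore p X) ≤
      (S : Subgroup X).map (QuotientGroup.mk' (Cfsg.pPrimeCore p X)) := by
    rw [Cfsg.Agent.Helper1.pCore_eq_iInf_sylow, ← hPq]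
    exact iInf_le _ (Sylow.mapSurjective hsurj S)
  have hTp : IsPGroup p ↥((S : Subgroup X).map (QuotientGroup.mk' (Cfsg.pPrimeCore p X))) :=
    S.isPGroup'.map _
  have hodd : Odd (Nat.card (X ⧸ Cfsg.pPrimeCore p X)) :=
    Odd.of_dvd_nat hX (Subgroup.card_quotient_dvd_card _)
  have hcyc : ∃ w : X ⧸ Cfsg.pPrimeCore p X,
      ⁅(S : Subgroup X).map (QuotientGroup.mk' (Cfsg.pPrimeCore p X)),
        (S : Subgroup X).map (QuotientGroup.mk' (Cfsg.pPrimeCore p X))⁆ ≤ Subgroup.zpowers w := by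
    obtain ⟨w₀, hw₀⟩ := (Subgroup.isCyclic_iff_exists_zpowers_eq_top _).mp hS
    refine ⟨QuotientGroup.mk' (Cfsg.pPrimeCore p X) (w₀ : X), ?_⟩
    rw [← Subgroup.map_commutator, ← Subgroup.map_subtype_commutator, ← hw₀,
      MonoidHom.map_zpowers, MonoidHom.map_zpowers]
    exact le_of_eq rfl
  have h2 := le_pCore_of_cyclic_derived hodd p hcore _ hTp h1 hcyc
  have h3 : (S : Subgroup X).map (QuotientGroup.mk' (Cfsg.pPrimeCore p X)) =
      Cfsg.pCore p (X ⧸ Cfsg.pPrimeCore p X) := le_antisymm h2 h1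
  have h4 : ((S : Subgroup X).map (QuotientGroup.mk' (Cfsg.pPrimeCore p X))).Normal :=
    h3 ▸ Cfsg.Agent.Helper1.pCore_normal p
  rw [sup_comm, ← Cfsg.Agent.Helper1.comap_map_mk']
  exact h4.comap _

end Cfsg.Agent.S0521
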