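import Cfsg.Statements.S0522
import Mathlib
import Cfsg.Agent.S1480
import Cfsg.Agent.Helper34.PCons1
import Cfsg.Agent.Helper24.HallHigman

set_option autoImplicit false
open Cfsg

namespace Cfsg.Agent.S0522

open scoped Pointwise

theorem isPConstrained_of_isSolvable (p : ℕ) [Fact p.Prime] (X : Type*) [Group X] [Finite X]
    [Group.IsSolvable X] : Cfsg.IsPConstrained p X := by
  rw [Cfsg.Agent.Helper34.isPConstrained_iff_centralizer_pCore_le]
  apply Cfsg.Agent.Helper24.centralizer_pCore_le p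
  intro D hD hDc
  have h1 : D ≤ Cfsg.pPrimeCore p (X ⧸ Cfsg.pPrimeCore p X) := le_sSup ⟨hD, hDc⟩
  rw [Cfsg.Agent.Helper34.pPrimeCore_quotient_eq_bot p X] at h1
  exact le_bot_iff.mp h1

theorem isPGroup_iff_primes {X : Type*} [Group X] [Finite X] (q : ℕ) [hq : Fact q.Prime]
    (Y : Subgroup X) :
    IsPGroup q Y ↔ ∀ r : ℕ, r.Prime → r ∣ Nat.card Y → r ∈ ({q} : Set ℕ) := by
  constructor
  · intro h r hr hrY
    obtain ⟨n, hn⟩ := IsPGroup.iff_card.mp h
    rw [hn] at hrY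
    exact (Nat.prime_dvd_prime_iff_eq hr hq.out).mp (hr.dvd_of_dvd_pow hrY)
  · intro h
    have h1 : Nat.card Y = q ^ (Nat.card Y).primeFactorsList.length :=
      Nat.eq_prime_pow_of_unique_prime_dvd Nat.card_pos.ne' (fun {d} hd hdY => h d hd hdY)
    exact IsPGroup.of_card h1

/-- If `B` is an abelian normal subgroup of a Sylow `p`-subgroup `P` with `C_P(B) = B`, then every
`p`-element of `C(B)` lies in `B`. -/
theorem mem_of_centralizer_of_isPGroup {X : Type*} [Group X] [Finite X] (p : ℕ) [Fact p.Prime]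
    (P : Sylow p X) (B : Subgroup X) (hBP : B ≤ (P : Subgroup X))
    (hBn : ∀ x ∈ (P : Subgroup X), ∀ b ∈ B, x * b * x⁻¹ ∈ B)
    (hBc : (P : Subgroup X) ⊓ Subgroup.centralizer (B : Set X) = B)
    (x : X) (hxC : x ∈ Subgroup.centralizer (B : Set X)) (hx : IsPGroup p (Subgroup.zpowers x)) :
    x ∈ B := by
  have hBp : IsPGroup p B := P.isPGroup'.to_le hBP
  have hPN : (P : Subgroup X) ≤ Subgroup.normalizer (B : Set X) := by
    intro y hy
    rw [Subgroup.mem_normalizer_iff]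
    intro h
    constructor
    · intro hh; exact hBn y hy h hh
    · intro hh
      have h1 := hBn y⁻¹ (inv_mem hy) _ hh
      have h2 : y⁻¹ * (y * h * y⁻¹) * y⁻¹⁻¹ = h := by group
      rw [h2] at h1
      exact h1
  have hxN : x ∈ Subgroup.normalizer (B : Set X) := Subgroup.centralizer_le_normalizer _ hxC
  have hD : IsPGroup p (Subgroup.zpowers x ⊔ B : Subgroup X) :=
    IsPGroup.to_sup_of_normal_right' hx hBp (by rw [Subgroup.zpowers_le]; exact hxN)
  have hDN : Subgroup.zpowers x ⊔ B ≤ Subgroup.normalizer (B : Set X) :=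
    sup_le (by rw [Subgroup.zpowers_le]; exact hxN) Subgroup.le_normalizer
  obtain ⟨Q, hQ⟩ := (hD.comap_subtype (K := Subgroup.normalizer (B : Set X))).exists_le_sylow
  obtain ⟨n, hn⟩ := MulAction.exists_smul_eq (Subgroup.normalizer (B : Set X)) Q (P.subtype hPN)
  have hxQ : (⟨x, hxN⟩ : Subgroup.normalizer (B : Set X)) ∈ (Q : Subgroup _) := by
    apply hQ
    show x ∈ Subgroup.zpowers x ⊔ B
    exact Subgroup.mem_sup_left (Subgroup.mem_zpowers x)
  have h1 : n * ⟨x, hxN⟩ * n⁻¹ ∈ ((n • Q : Sylow p _) : Subgroup _) := by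
    rw [Sylow.coe_subgroup_smul]
    exact Subgroup.smul_mem_pointwise_smul (⟨x, hxN⟩ : Subgroup.normalizer (B : Set X))
      (MulAut.conj n) _ hxQ
  rw [hn, Sylow.coe_subtype, Subgroup.mem_subgroupOf] at h1
  have h2 : (n : X) * x * (n : X)⁻¹ ∈ (P : Subgroup X) := h1
  have hn' : ∀ b ∈ B, (n : X)⁻¹ * b * (n : X) ∈ B := by
    intro b hb
    have h3 := (Subgroup.mem_normalizer_iff.mp (inv_mem n.2) b).mp hb
    rw [inv_inv] at h3
    exact h3
  have h3 : (n : X) * x * (n : X)⁻¹ ∈ Subgroup.centralizer (B : Set X) := by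
    rw [Subgroup.mem_centralizer_iff]
    intro b hb
    have h4 := Subgroup.mem_centralizer_iff.mp hxC _ (hn' b hb)
    calc b * ((n : X) * x * (n : X)⁻¹) = n * ((n : X)⁻¹ * b * n * x) * (n : X)⁻¹ := by group
      _ = n * (x * ((n : X)⁻¹ * b * n)) * (n : X)⁻¹ := by rw [h4]
      _ = (n : X) * x * (n : X)⁻¹ * b := by group
  have h4 : (n : X) * x * (n : X)⁻¹ ∈ B := hBc.le (Subgroup.mem_inf.mpr ⟨h2, h3⟩)
  have h5 := hn' _ h4
  have h6 : (n : X)⁻¹ * ((n : X) * x * (n : X)⁻¹) * (n : X) = x := by group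
  rw [h6] at h5
  exact h5

/-- Transitivity Theorem (odd-order setting). Let X be a finite group of odd order in which the normalizer of every
nontrivial p-subgroup is solvable, P a Sylow p-subgroup, and B an abelian subgroup of P, normalized by P, with
C_P(B) = B and containing an elementary abelian subgroup of order p^3. Then for every prime q ≠ p, any two q-subgroups
that are maximal among the q-subgroups normalized by B are conjugate by an element of the centralizer of B. -/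
theorem result {X : Type*} [Group X] [Finite X] (hX : Odd (Nat.card X)) (p : ℕ)
    [Fact p.Prime] (hloc : ∀ T : Subgroup X, IsPGroup p T → T ≠ ⊥ → Group.IsSolvable (Subgroup.normalizer (T : Set X)))
    (P : Sylow p X) (B : Subgroup X) (hBP : B ≤ (P : Subgroup X))
    (hBn : ∀ x ∈ (P : Subgroup X), ∀ b ∈ B, x * b * x⁻¹ ∈ B) (hBa : IsMulCommutative B)
    (hBc : (P : Subgroup X) ⊓ Subgroup.centralizer (B : Set X) = B)
    (hB3 : ∃ E : Subgroup X, E ≤ B ∧ (∀ e ∈ E, e ^ p = 1) ∧ p ^ 3 ≤ Nat.card E)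
    (q : ℕ) [Fact q.Prime] (hqp : q ≠ p) (Q₁ Q₂ : Subgroup X)
    (h₁ : IsPGroup q Q₁ ∧ B ≤ Subgroup.normalizer (Q₁ : Set X) ∧
      ∀ R : Subgroup X, IsPGroup q R → B ≤ Subgroup.normalizer (R : Set X) → Q₁ ≤ R → R = Q₁)
    (h₂ : IsPGroup q Q₂ ∧ B ≤ Subgroup.normalizer (Q₂ : Set X) ∧
      ∀ R : Subgroup X, IsPGroup q R → B ≤ Subgroup.normalizer (R : Set X) → Q₂ ≤ R → R = Q₂) :
    ∃ c ∈ Subgroup.centralizer (B : Set X), Q₂ = Q₁.map (MulAut.conj c).toMonoidHom := by
  obtain ⟨E, hEB, hEexp, hE3⟩ := hB3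
  have hBp : IsPGroup p B := P.isPGroup'.to_le hBP
  have hp2 : p ≠ 2 := by
    rintro rfl
    have hcardB : Nat.card B = 1 := by
      obtain ⟨n, hn⟩ := IsPGroup.iff_card.mp hBp
      have hodd : Odd (Nat.card B) := hX.of_dvd_nat (Subgroup.card_subgroup_dvd_card B)
      rcases Nat.eq_zero_or_pos n with h0 | h0
      · rw [hn, h0, pow_zero]
      · exfalso
        rw [hn] at hodd
        exact (Nat.not_even_iff_odd.mpr hodd) ((Nat.even_pow).mpr ⟨even_two, h0.ne'⟩)
    have h1 := Subgroup.card_le_of_le hEB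
    norm_num at hE3
    omega
  have hloc' : ∀ T : Subgroup X, IsPGroup p T → T ≠ ⊥ →
      Cfsg.IsPConstrained p ↥(Subgroup.normalizer (T : Set X)) := by
    intro T hT hT1
    have := hloc T hT hT1
    exact isPConstrained_of_isSolvable p _
  have h2' : p = 2 → ∀ S : Sylow p X, Group.IsNilpotent (S : Subgroup X) ∧
      Group.nilpotencyClass (S : Subgroup X) ≤ 2 := fun h => absurd h hp2
  have hE3' : ¬ Cfsg.PRankLE p 2 B := by
    intro h
    have hcomm : IsMulCommutative (E.subgroupOf B) := by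
      rw [isMulCommutative_iff]
      intro a b
      exact Subtype.ext ((isMulCommutative_iff.mp hBa) a.1 b.1)
    have h1 := h (E.subgroupOf B) hcomm (by
      intro a ha
      apply Subtype.ext
      rw [Subgroup.mem_subgroupOf] at ha
      have := hEexp _ ha
      simpa using this)
    have h2 : Nat.card (E.subgroupOf B) = Nat.card E :=
      Nat.card_congr (Subgroup.subgroupOfEquivOfLe hEB).toEquiv
    rw [h2] at h1
    have h3 : p ^ 2 < p ^ 3 := Nat.pow_lt_pow_right (Fact.out : p.Prime).one_lt (by norm_num)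
    omega
  have hfull : ∀ x ∈ Subgroup.centralizer (B : Set X), IsPGroup p (Subgroup.zpowers x) → x ∈ B :=
    fun x hx hxp => mem_of_centralizer_of_isPGroup p P B hBP hBn hBc x hx hxp
  have hconv : ∀ Q : Subgroup X, (IsPGroup q Q ∧ B ≤ Subgroup.normalizer (Q : Set X) ∧
      ∀ R : Subgroup X, IsPGroup q R → B ≤ Subgroup.normalizer (R : Set X) → Q ≤ R → R = Q) →
      Q ∈ Cfsg.maxInvSubgroups ⊤ B {q} := by
    rintro Q ⟨hQ1, hQ2, hQ3⟩
    refine ⟨⟨le_top, (isPGroup_iff_primes q Q).mp hQ1, hQ2⟩, ?_⟩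
    rintro R ⟨-, hR1, hR2⟩ hQR
    exact hQ3 R ((isPGroup_iff_primes q R).mpr hR1) hR2 hQR
  obtain ⟨k, hk, hkQ⟩ := Cfsg.Agent.S1480.result p hloc' h2' B hBp hBa hE3' hfull q hqp
    Q₁ (hconv Q₁ h₁) Q₂ (hconv Q₂ h₂)
  refine ⟨k, ?_, hkQ⟩
  obtain ⟨k', -, rfl⟩ := hk
  exact k'.2

end Cfsg.Agent.S0522
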