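import Cfsg.Statements.S0532
import Cfsg.Agent.Helper9.CLT

set_option autoImplicit false
open Cfsg

namespace Cfsg.Agent.S0532

/-- If each subgroup of a finite group satisfies the converse of Lagrange's theorem, then a Sylow subgroup for the largest prime dividing the group order is normal. -/
theorem result {G : Type*} [Group G] [Finite G] (h : ∀ H : Subgroup G, Cfsg.HasSubgroupOfEveryOrder H) (p : ℕ) [Fact p.Prime] (hdvd : p ∣ Nat.card G) (hmax : ∀ q : ℕ, q.Prime → q ∣ Nat.card G → q ≤ p) (P : Sylow p G) : (P : Subgroup G).Normal := by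
  exact Cfsg.Agent.Helper9.sylow_normal_of_clt h p hdvd hmax P

end Cfsg.Agent.S0532
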