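import Cfsg.Statements.S0535
import Mathlib
import Cfsg.Agent.Helper1.HallConv

set_option autoImplicit false
open Cfsg

namespace Cfsg.Agent.S0535

theorem exists_pprime_sub {G : Type*} [Group G] [Finite G]
    (h : ∀ H : Subgroup G, H ≠ ⊥ → ∀ p : ℕ, p.Prime → p ∣ Nat.card H →
      ∃ K : Subgroup H, K ≠ ⊤ ∧ ∃ k : ℕ, K.index = p ^ k)
    (p : ℕ) (hp : p.Prime) : ∀ (n : ℕ) (H : Subgroup G), Nat.card H ≤ n →
      ∃ K : Subgroup G, K ≤ H ∧ ¬ p ∣ Nat.card K ∧ ∃ j : ℕ, K.relIndex H = p ^ j := by
  intro n
  induction n with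
  | zero =>
    intro H hH
    have := Nat.card_pos (α := H)
    omega
  | succ n ih =>
    intro H hH
    by_cases hpH : p ∣ Nat.card H
    · have hne : H ≠ ⊥ := by
        rintro rfl
        rw [Subgroup.card_bot] at hpH
        exact hp.one_lt.ne' (Nat.dvd_one.mp hpH)
      obtain ⟨K', hK'top, k, hk⟩ := h H hne p hp hpH
      have hK₁ : K'.map H.subtype ≤ H := Subgroup.map_subtype_le K'
      have hrel : (K'.map H.subtype).relIndex H = p ^ k := by
        rw [← hk]
        show ((K'.map H.subtype).subgroupOf H).index = _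
        rw [Subgroup.subgroupOf, Subgroup.comap_map_eq_self_of_injective H.subtype_injective]
      have hcard : Nat.card (K'.map H.subtype) ≤ n := by
        have h1 : Nat.card (K'.map H.subtype) = Nat.card K' :=
          Subgroup.card_map_of_injective H.subtype_injective
        have h2 := K'.card_mul_index
        have h3 : K'.index ≠ 1 := fun h => hK'top (Subgroup.index_eq_one.mp h)
        have h4 : K'.index ≠ 0 := Subgroup.index_ne_zero_of_finite
        have h5 : 2 ≤ K'.index := by omega
        have h6 : 0 < Nat.card K' := Nat.card_pos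
        nlinarith
      obtain ⟨K, hK1, hK2, j, hj⟩ := ih _ hcard
      refine ⟨K, hK1.trans hK₁, hK2, j + k, ?_⟩
      rw [← Subgroup.relIndex_mul_relIndex K _ H hK1 hK₁, hj, hrel, pow_add]
    · exact ⟨H, le_rfl, hpH, 0, by rw [Subgroup.relIndex_self, pow_zero]⟩

/-- Suppose that for every nontrivial subgroup H of a finite group and every prime p dividing the order of H there is a proper subgroup of H whose index in H is a power of p. Then the group is solvable. -/
theorem result {G : Type*} [Group G] [Finite G] (h : ∀ H : Subgroup G, H ≠ ⊥ → ∀ p : ℕ, p.Prime → p ∣ Nat.card H → ∃ K : Subgroup H, K ≠ ⊤ ∧ ∃ k : ℕ, K.index = p ^ k) : Group.IsSolvable G := by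
  apply Cfsg.Agent.Helper1.hall_converse_aux (Nat.card G) G rfl
  intro p hp
  obtain ⟨K, -, hK, j, hj⟩ := exists_pprime_sub h p hp _ ⊤ le_rfl
  rw [Subgroup.relIndex_top_right] at hj
  exact ⟨K, Cfsg.Agent.Helper1.index_eq_of_pow_of_not_dvd K p j hp hj hK⟩

end Cfsg.Agent.S0535
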