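import Cfsg.Statements.S0537
import Mathlib
import Cfsg.Agent.S0536

set_option autoImplicit false
open Cfsg

namespace Cfsg.Agent.S0537

theorem nilp_of_comm {H : Type*} [Group H] (h : IsMulCommutative H) : Group.IsNilpotent H :=
  ⟨⟨1, Subgroup.upperCentralSeries_one_eq_top_iff.mpr h⟩⟩

theorem isPGroup_of_sylow_eq_top {G : Type*} [Group G] {p : ℕ} (P : Sylow p G)
    (h : (P : Subgroup G) = ⊤) : IsPGroup p G := by
  have h1 := P.isPGroup'
  rw [h] at h1
  exact h1.of_equiv Subgroup.topEquiv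

/-- Coprime automorphism trick: if `P` (a `p`-group) centralizes `Ω₁(Q)` for an abelian normal
`q`-subgroup `Q`, it centralizes `Q`. -/
theorem comm_of_comm_omega {G : Type*} [Group G] {q : ℕ} (Q : Subgroup G) (hQn : Q.Normal)
    (hQab : ∀ u ∈ Q, ∀ v ∈ Q, u * v = v * u) (a : G) (hcop : (orderOf a).Coprime q)
    (hcomm1 : ∀ z ∈ Q, z ^ q = 1 → a * z = z * a) :
    ∀ k : ℕ, ∀ y ∈ Q, y ^ (q ^ k) = 1 → a * y = y * a := by
  intro k
  induction k with
  | zero =>
    intro y _ hyk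
    rw [pow_zero, pow_one] at hyk
    rw [hyk, mul_one, one_mul]
  | succ k ih =>
    intro y hy hyk
    have h1 : a * y ^ q = y ^ q * a := by
      apply ih (y ^ q) (pow_mem hy q)
      rw [← pow_mul, ← pow_succ']
      exact hyk
    have hwQ : a * y * a⁻¹ ∈ Q := hQn.conj_mem y hy a
    have hwq : (a * y * a⁻¹) ^ q = y ^ q := by
      rw [conj_pow, h1, mul_inv_cancel_right]
    have hzQ : y⁻¹ * (a * y * a⁻¹) ∈ Q := mul_mem (inv_mem hy) hwQ
    have hcyw : Commute y⁻¹ (a * y * a⁻¹) := hQab _ (inv_mem hy) _ hwQ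
    have hzq : (y⁻¹ * (a * y * a⁻¹)) ^ q = 1 := by
      rw [hcyw.mul_pow, hwq, inv_pow, inv_mul_cancel]
    have haz : Commute a (y⁻¹ * (a * y * a⁻¹)) := hcomm1 _ hzQ hzq
    have hay : a * y = y * (y⁻¹ * (a * y * a⁻¹)) * a := by group
    generalize y⁻¹ * (a * y * a⁻¹) = z at hzq haz hay
    have hpow : ∀ i : ℕ, a ^ i * y = y * z ^ i * a ^ i := by
      intro i
      induction i with
      | zero => simp
      | succ i ihi =>
        have hc : a ^ i * z = z * a ^ i := (haz.pow_left i)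
        calc a ^ (i + 1) * y = a ^ i * (a * y) := by rw [pow_succ, mul_assoc]
          _ = a ^ i * (y * z * a) := by rw [hay]
          _ = (a ^ i * y) * (z * a) := by simp only [mul_assoc]
          _ = (y * z ^ i * a ^ i) * (z * a) := by rw [ihi]
          _ = y * z ^ i * (a ^ i * z) * a := by simp only [mul_assoc]
          _ = y * z ^ i * (z * a ^ i) * a := by rw [hc]
          _ = y * z ^ (i + 1) * a ^ (i + 1) := by
            rw [pow_succ, pow_succ]; simp only [mul_assoc]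
    have hm := hpow (orderOf a)
    rw [pow_orderOf_eq_one, one_mul, mul_one] at hm
    have hzm : z ^ orderOf a = 1 := by
      have : y * z ^ orderOf a = y * 1 := by rw [mul_one]; exact hm.symm
      exact mul_left_cancel this
    have hz : z = 1 := by
      have h1 := orderOf_dvd_of_pow_eq_one hzm
      have h2 := orderOf_dvd_of_pow_eq_one hzq
      have h3 := Nat.dvd_gcd h1 h2
      rw [hcop.gcd_eq_one] at h3
      exact orderOf_eq_one_iff.mp (Nat.dvd_one.mp h3)
    rw [hay, hz, mul_one]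

/-- A finite non-abelian group in which every proper subgroup is abelian is either of prime-power order, or is generated by a cyclic Sylow p-subgroup and a normal Sylow q-subgroup that is elementary abelian, for distinct primes p and q. -/
theorem result {G : Type*} [Group G] [Finite G] (hna : ¬ IsMulCommutative G) (h : ∀ H : Subgroup G, H ≠ ⊤ → IsMulCommutative H) : (∃ p : ℕ, p.Prime ∧ IsPGroup p G) ∨ ∃ p q : ℕ, p.Prime ∧ q.Prime ∧ p ≠ q ∧ ∃ (P : Sylow p G) (Q : Sylow q G), IsCyclic P ∧ (Q : Subgroup G).Normal ∧ Cfsg.IsElementaryAbelian q (Q : Subgroup G) ∧ (P : Subgroup G) ⊔ Q = ⊤ := by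
  by_cases hnil : Group.IsNilpotent G
  · left
    by_contra hcon
    push Not at hcon
    apply hna
    obtain ⟨φ⟩ := (Group.isNilpotent_of_finite_tfae.out 0 4).mp hnil
    rw [isMulCommutative_iff]
    intro a b
    obtain ⟨x, rfl⟩ := φ.surjective a
    obtain ⟨y, rfl⟩ := φ.surjective b
    rw [← map_mul, ← map_mul]
    congr 1
    funext p P
    have hp : (p : ℕ).Prime := Nat.prime_of_mem_primeFactors p.2
    have hPne : (P : Subgroup G) ≠ ⊤ := fun htop => hcon p hp (isPGroup_of_sylow_eq_top P htop)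
    have hc := h P hPne
    exact (isMulCommutative_iff.mp hc) (x p P) (y p P)
  · right
    have hmin : Cfsg.IsMinimalNonNilpotent G := ⟨hnil, fun H hH => nilp_of_comm (h H hH)⟩
    obtain ⟨p, q, hp, hq, hpq, P, Q, hPc, hQn, htop⟩ := Cfsg.Agent.S0536.result hmin
    refine ⟨p, q, hp, hq, hpq, P, Q, hPc, hQn, ?_, htop⟩
    have : Fact p.Prime := ⟨hp⟩
    have : Fact q.Prime := ⟨hq⟩
    have hQne : (Q : Subgroup G) ≠ ⊤ :=
      fun htop' => hnil (isPGroup_of_sylow_eq_top Q htop').isNilpotent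
    have hPne : (P : Subgroup G) ≠ ⊤ :=
      fun htop' => hnil (isPGroup_of_sylow_eq_top P htop').isNilpotent
    have hQc := h Q hQne
    have hPc' := h P hPne
    have hQab : ∀ u ∈ (Q : Subgroup G), ∀ v ∈ (Q : Subgroup G), u * v = v * u := by
      intro u hu v hv
      exact congrArg Subtype.val ((isMulCommutative_iff.mp hQc) ⟨u, hu⟩ ⟨v, hv⟩)
    have hPab : ∀ u ∈ (P : Subgroup G), ∀ v ∈ (P : Subgroup G), u * v = v * u := by
      intro u hu v hv
      exact congrArg Subtype.val ((isMulCommutative_iff.mp hPc') ⟨u, hu⟩ ⟨v, hv⟩)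
    have hdisj : Disjoint (P : Subgroup G) (Q : Subgroup G) :=
      IsPGroup.disjoint_of_ne p q hpq _ _ P.isPGroup' Q.isPGroup'
    refine ⟨hQc, ?_⟩
    by_contra hcon
    push Not at hcon
    obtain ⟨y₀, hy₀Q, hy₀⟩ := hcon
    -- Ω₁(Q)
    let Q₁ : Subgroup G :=
      { carrier := {x | x ∈ (Q : Subgroup G) ∧ x ^ q = 1}
        mul_mem' := by
          rintro a b ⟨ha, ha'⟩ ⟨hb, hb'⟩
          refine ⟨mul_mem ha hb, ?_⟩
          have hc : Commute a b := hQab a ha b hb
          rw [hc.mul_pow, ha', hb', one_mul]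
        one_mem' := ⟨one_mem _, one_pow q⟩
        inv_mem' := by
          rintro a ⟨ha, ha'⟩
          exact ⟨inv_mem ha, by rw [inv_pow, ha', inv_one]⟩ }
    have hQ₁n : Q₁.Normal :=
      ⟨fun x hx g => ⟨hQn.conj_mem x hx.1 g, by rw [conj_pow, hx.2]; simp⟩⟩
    have hne1 : (P : Subgroup G) ⊔ Q₁ ≠ ⊤ := by
      intro htop1
      apply hy₀
      have hy : y₀ ∈ ((P : Subgroup G) ⊔ Q₁ : Subgroup G) := by rw [htop1]; trivial
      rw [← SetLike.mem_coe, Subgroup.mul_normal] at hy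
      obtain ⟨u, hu, v, hv, huv⟩ := Set.mem_mul.mp hy
      have hv' : v ∈ (Q : Subgroup G) ∧ v ^ q = 1 := hv
      have hu1 : u = y₀ * v⁻¹ := by rw [← huv, mul_inv_cancel_right]
      have huQ : u ∈ (Q : Subgroup G) := by rw [hu1]; exact mul_mem hy₀Q (inv_mem hv'.1)
      have hu0 : u = 1 := Subgroup.disjoint_def.mp hdisj hu huQ
      rw [← huv, hu0, one_mul]
      exact hv'.2
    have hc1 := h _ hne1
    have hcomm1 : ∀ a ∈ (P : Subgroup G), ∀ z ∈ (Q : Subgroup G), z ^ q = 1 → a * z = z * a := by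
      intro a ha z hz hzq
      have hz1 : z ∈ Q₁ := ⟨hz, hzq⟩
      exact congrArg Subtype.val ((isMulCommutative_iff.mp hc1)
        ⟨a, Subgroup.mem_sup_left ha⟩ ⟨z, Subgroup.mem_sup_right hz1⟩)
    have hPQ : ∀ a ∈ (P : Subgroup G), ∀ y ∈ (Q : Subgroup G), a * y = y * a := by
      intro a ha y hy
      have hcop : (orderOf a).Coprime q := by
        obtain ⟨k, hk⟩ := (IsPGroup.iff_orderOf.mp P.isPGroup') ⟨a, ha⟩
        rw [Subgroup.orderOf_mk] at hk
        rw [hk]
        exact Nat.Coprime.pow_left k ((Nat.coprime_primes hp hq).mpr hpq)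
      obtain ⟨k, hk⟩ := Q.isPGroup' ⟨y, hy⟩
      have hk' : y ^ (q ^ k) = 1 := by
        have := congrArg Subtype.val hk
        simpa using this
      exact comm_of_comm_omega (Q : Subgroup G) hQn hQab a hcop (hcomm1 a ha) k y hy hk'
    apply hna
    rw [isMulCommutative_iff]
    have hdecomp : ∀ g : G, ∃ u ∈ (P : Subgroup G), ∃ v ∈ (Q : Subgroup G), g = u * v := by
      intro g
      have hg : g ∈ ((P : Subgroup G) ⊔ Q : Subgroup G) := by rw [htop]; trivial
      rw [← SetLike.mem_coe, Subgroup.mul_normal] at hg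
      obtain ⟨u, hu, v, hv, huv⟩ := Set.mem_mul.mp hg
      exact ⟨u, hu, v, hv, huv.symm⟩
    intro g₁ g₂
    obtain ⟨u₁, hu₁, v₁, hv₁, rfl⟩ := hdecomp g₁
    obtain ⟨u₂, hu₂, v₂, hv₂, rfl⟩ := hdecomp g₂
    calc u₁ * v₁ * (u₂ * v₂) = u₁ * (v₁ * u₂) * v₂ := by simp only [mul_assoc]
      _ = u₁ * (u₂ * v₁) * v₂ := by rw [hPQ u₂ hu₂ v₁ hv₁]
      _ = (u₁ * u₂) * (v₁ * v₂) := by simp only [mul_assoc]
      _ = (u₂ * u₁) * (v₂ * v₁) := by rw [hPab u₁ hu₁ u₂ hu₂, hQab v₁ hv₁ v₂ hv₂]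
      _ = u₂ * (u₁ * v₂) * v₁ := by simp only [mul_assoc]
      _ = u₂ * (v₂ * u₁) * v₁ := by rw [hPQ u₁ hu₁ v₂ hv₂]
      _ = u₂ * v₂ * (u₁ * v₁) := by simp only [mul_assoc]

end Cfsg.Agent.S0537
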