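import Mathlib
import Cfsg.Statements.S0539
import Cfsg.Agent.Helper52.Subnormal

set_option autoImplicit false
open Pointwise
open Cfsg

namespace Cfsg.Agent.S0539

/-- Let S be a family of subnormal subgroups of a finite group that is closed under conjugation, and S₀ a proper subfamily. Then some member of S not in S₀ normalizes the join of S₀. -/
theorem result {G : Type*} [Group G] [Finite G] (S S₀ : Set (Subgroup G)) (hS : ∀ U ∈ S, U.IsSubnormal) (hconj : ∀ U ∈ S, ∀ g : G, MulAut.conj g • U ∈ S) (h₀ : S₀ ⊂ S) : ∃ X ∈ S, X ∉ S₀ ∧ X ≤ Subgroup.normalizer ((sSup S₀ : Subgroup G) : Set G) := by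
  classical
  by_contra hcon
  have hcon' : ∀ X ∈ S, X ≤ Subgroup.normalizer ((sSup S₀ : Subgroup G) : Set G) → X ∈ S₀ := by
    intro X hX hXN
    by_contra hX0
    exact hcon ⟨X, hX, hX0, hXN⟩
  have hW : (sSup S₀ : Subgroup G).IsSubnormal :=
    Cfsg.Agent.Helper52.subnormal_sSup S₀ (fun U hU => hS U (h₀.1 hU))
  obtain ⟨Y, hY⟩ := exists_maximal_of_wellFoundedGT
    (fun Y : Subgroup G => sSup S₀ ≤ Y ∧ Y.IsSubnormal ∧ ∀ X ∈ S, X ≤ Y → X ∈ S₀)
    ⟨sSup S₀, le_rfl, hW, fun X hX hXW => hcon' X hX (hXW.trans Subgroup.le_normalizer)⟩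
  have hYtop : Y ≠ ⊤ := by
    rintro rfl
    exact h₀.2 (fun X hX => hY.1.2.2 X hX le_top)
  rcases Subgroup.IsSubnormal.iff_eq_top_or_exists.mp hY.1.2.1 with h | ⟨K, hYK, hKsn, hYKn⟩
  · exact hYtop h
  have hKN : K ≤ Subgroup.normalizer (Y : Set G) :=
    (Subgroup.normal_subgroupOf_iff_le_normalizer hYK.le).mp hYKn
  have hnotP : ¬ (sSup S₀ ≤ K ∧ K.IsSubnormal ∧ ∀ X ∈ S, X ≤ K → X ∈ S₀) := by
    intro hP
    exact absurd (hY.2 hP hYK.le) (not_le_of_gt hYK)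
  have hex : ∃ X ∈ S, X ≤ K ∧ X ∉ S₀ := by
    by_contra hne
    apply hnotP
    refine ⟨hY.1.1.trans hYK.le, hKsn, fun X hX hXK => ?_⟩
    by_contra hX0
    exact hne ⟨X, hX, hXK, hX0⟩
  obtain ⟨X, hX, hXK, hX0⟩ := hex
  apply hX0
  apply hcon' X hX
  intro x hx
  apply Subgroup.mem_normalizer_fintype
  have hxN : x ∈ Subgroup.normalizer (Y : Set G) := hKN (hXK hx)
  have hle : sSup S₀ ≤ (sSup S₀ : Subgroup G).comap (MulAut.conj x).toMonoidHom := by
    apply sSup_le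
    intro U hU u hu
    have hU' : MulAut.conj x • U ∈ S₀ := by
      apply hY.1.2.2 _ (hconj U (h₀.1 hU) x)
      intro y hy
      rw [Subgroup.mem_smul_pointwise_iff_exists] at hy
      obtain ⟨s, hs, rfl⟩ := hy
      have hsY : s ∈ Y := hY.1.1 ((le_sSup hU : U ≤ sSup S₀) hs)
      exact (Subgroup.mem_normalizer_iff.mp hxN s).mp hsY
    have h1 : MulAut.conj x • u ∈ MulAut.conj x • U := Subgroup.smul_mem_pointwise_smul _ _ _ hu
    exact (le_sSup hU' : MulAut.conj x • U ≤ sSup S₀) h1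
  intro w hw
  exact hle hw

end Cfsg.Agent.S0539
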