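import Cfsg.Statements.S0546
import Cfsg.Agent.Helper9.HallSystem

set_option autoImplicit false
open Cfsg

namespace Cfsg.Agent.S0546

/-- The normal closure of a system normalizer of a finite solvable group is the whole group. -/
theorem result {G : Type*} [Group G] [Finite G] [Group.IsSolvable G] (K : Nat.Primes → Subgroup G) (hK : Cfsg.IsComplementSystem K) : Subgroup.normalClosure ((Cfsg.systemNormalizer K : Subgroup G) : Set G) = ⊤ := by
  exact Cfsg.Agent.Helper9.cs_normalClosure_systemNormalizer hK

end Cfsg.Agent.S0546
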