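import Cfsg.Statements.S0547
import Cfsg.Agent.Helper9.SolvPrim

set_option autoImplicit false
open Cfsg

namespace Cfsg.Agent.S0547

/-- Let a finite solvable group G act faithfully and primitively on a set, and let M be a minimal normal subgroup of G. Then M is transitive with trivial point stabilizers, and the number of points equals the order of M, which is a prime power p ^ d with d ≥ 1. -/
theorem result {G : Type*} [Group G] [Finite G] [Group.IsSolvable G] {Ω : Type*} [Nonempty Ω] [MulAction G Ω] [FaithfulSMul G Ω] (hprim : MulAction.IsPreprimitive G Ω) (M : Subgroup G) [M.Normal] (hM : M ≠ ⊥) (hmin : ∀ K : Subgroup G, K.Normal → K ≤ M → K = ⊥ ∨ K = M) : MulAction.IsPretransitive M Ω ∧ (∀ ω : Ω, MulAction.stabilizer M ω = ⊥) ∧ ∃ p d : ℕ, p.Prime ∧ 0 < d ∧ Nat.card Ω = p ^ d ∧ Nat.card M = p ^ d := by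
  obtain ⟨htrans, hab, ⟨p, hp, hpx⟩, hfix⟩ := Cfsg.Agent.Helper9.solvPrim_basic hprim M hM hmin
  have hstab : ∀ ω : Ω, MulAction.stabilizer M ω = ⊥ := by
    intro ω
    rw [Subgroup.eq_bot_iff_forall]
    intro m hm
    rw [MulAction.mem_stabilizer_iff] at hm
    have : (m : G) = 1 := hfix m m.2 ω hm
    exact Subtype.ext this
  refine ⟨htrans, hstab, ?_⟩
  have hPG : IsPGroup p M := by
    intro x
    refine ⟨1, ?_⟩
    rw [pow_one]
    exact Subtype.ext (hpx x x.2)
  have : Fact p.Prime := ⟨hp⟩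
  obtain ⟨d, hd⟩ := (IsPGroup.iff_card (p := p) (G := M)).mp hPG
  obtain ⟨ω⟩ := ‹Nonempty Ω›
  have hbij : Function.Bijective (fun m : M => m • ω) := by
    constructor
    · intro a b hab'
      have hab' : a • ω = b • ω := hab'
      have h1 : (a⁻¹ * b) • ω = ω := by
        rw [mul_smul, ← hab', inv_smul_smul]
      have h2 : a⁻¹ * b ∈ MulAction.stabilizer M ω := h1
      rw [hstab ω, Subgroup.mem_bot] at h2
      exact (inv_mul_eq_one.mp h2)
    · intro a
      exact MulAction.exists_smul_eq M ω a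
  have hcard : Nat.card Ω = Nat.card M := (Nat.card_eq_of_bijective _ hbij).symm
  refine ⟨p, d, hp, ?_, ?_, hd⟩
  · rcases Nat.eq_zero_or_pos d with h0 | h0
    · exfalso
      rw [h0, pow_zero] at hd
      exact hM (Subgroup.card_eq_one.mp hd)
    · exact h0
  · rw [hcard, hd]

end Cfsg.Agent.S0547
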