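import Cfsg.Statements.S0548
import Cfsg.Agent.Helper9.SolvPrim

set_option autoImplicit false
open Cfsg

namespace Cfsg.Agent.S0548

/-- Let a finite solvable group G act faithfully and primitively on a set, let M be a minimal normal subgroup and H the stabilizer of a point. Then H is a complement to M, no non-identity element of H centralizes M, and the only subgroups of M normalized by H are the trivial subgroup and M. -/
theorem result {G : Type*} [Group G] [Finite G] [Group.IsSolvable G] {Ω : Type*} [MulAction G Ω] [FaithfulSMul G Ω] (hprim : MulAction.IsPreprimitive G Ω) (M : Subgroup G) [M.Normal] (hM : M ≠ ⊥) (hmin : ∀ K : Subgroup G, K.Normal → K ≤ M → K = ⊥ ∨ K = M) (ω : Ω) : Subgroup.IsComplement' M (MulAction.stabilizer G ω) ∧ MulAction.stabilizer G ω ⊓ Subgroup.centralizer (M : Set G) = ⊥ ∧ ∀ K : Subgroup G, K ≤ M → MulAction.stabilizer G ω ≤ Subgroup.normalizer (K : Set G) → K = ⊥ ∨ K = M := by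
  have : Nonempty Ω := ⟨ω⟩
  obtain ⟨htrans, hab, -, hfix⟩ := Cfsg.Agent.Helper9.solvPrim_basic hprim M hM hmin
  have hdecomp : ∀ g : G, ∃ m ∈ M, ∃ h ∈ MulAction.stabilizer G ω, g = m * h := by
    intro g
    obtain ⟨m, hm⟩ := MulAction.exists_smul_eq M ω (g • ω)
    have hm' : (m : G) • ω = g • ω := hm
    refine ⟨m, m.2, (m : G)⁻¹ * g, ?_, by rw [mul_inv_cancel_left]⟩
    rw [MulAction.mem_stabilizer_iff, mul_smul, ← hm', inv_smul_smul]
  refine ⟨?_, ?_, ?_⟩
  · apply Subgroup.isComplement'_of_disjoint_and_mul_eq_univ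
    · rw [Subgroup.disjoint_def]
      intro x hxM hxS
      exact hfix x hxM ω hxS
    · rw [Set.eq_univ_iff_forall]
      intro g
      obtain ⟨m, hm, h, hh, rfl⟩ := hdecomp g
      exact Set.mul_mem_mul hm hh
  · rw [Subgroup.eq_bot_iff_forall]
    intro g hg
    obtain ⟨hg1, hg2⟩ := Subgroup.mem_inf.mp hg
    rw [MulAction.mem_stabilizer_iff] at hg1
    rw [Subgroup.mem_centralizer_iff] at hg2
    apply FaithfulSMul.eq_of_smul_eq_smul (α := Ω)
    intro a
    obtain ⟨n, hn⟩ := MulAction.exists_smul_eq M ω a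
    have hn' : (n : G) • ω = a := hn
    rw [one_smul, ← hn', ← mul_smul, ← hg2 n n.2, mul_smul, hg1]
  · intro K hKM hKN
    have hKnormal : K.Normal := by
      constructor
      intro k hk g
      obtain ⟨m, hm, h, hh, rfl⟩ := hdecomp g
      have h1 : h * k * h⁻¹ ∈ K := (Subgroup.mem_normalizer_iff.mp (hKN hh) k).mp hk
      have h2 : m * h * k * (m * h)⁻¹ = h * k * h⁻¹ := by
        have h3 : m * (h * k * h⁻¹) = (h * k * h⁻¹) * m := hab m hm _ (hKM h1)
        calc m * h * k * (m * h)⁻¹ = m * (h * k * h⁻¹) * m⁻¹ := by group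
          _ = (h * k * h⁻¹) * m * m⁻¹ := by rw [h3]
          _ = h * k * h⁻¹ := by rw [mul_inv_cancel_right]
      rw [h2]
      exact h1
    exact hmin K hKnormal hKM

end Cfsg.Agent.S0548
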