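import Cfsg.Statements.S0549

set_option autoImplicit false
open Cfsg

namespace Cfsg.Agent.S0549

theorem sup_eq_top_of_normal {G : Type*} [Group G] (U : Subgroup G) (hU : IsCoatom U)
    (hcore : U.normalCore = ⊥) (K : Subgroup G) (hKn : K.Normal) (hK : K ≠ ⊥) : K ⊔ U = ⊤ := by
  have h1 : ¬ K ≤ U := by
    intro h
    have := (Subgroup.normal_le_normalCore (H := U) (N := K) (hN := hKn)).mpr h
    rw [hcore] at this
    exact hK (le_bot_iff.mp this)
  have h2 : U < K ⊔ U := lt_of_le_of_ne le_sup_right (fun h => h1 (by rw [h]; exact le_sup_left))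
  exact hU.2 _ h2

/-- Let U be a maximal subgroup of a finite group G whose normal core is trivial, and N a nontrivial normal subgroup with centralizer C. Then C ∩ U = 1, and either C = 1 or C is a minimal normal subgroup of G. -/
theorem result {G : Type*} [Group G] [Finite G] (U : Subgroup G) (hU : IsCoatom U) (hcore : U.normalCore = ⊥) (N : Subgroup G) [N.Normal] (hN : N ≠ ⊥) : Subgroup.centralizer (N : Set G) ⊓ U = ⊥ ∧ (Subgroup.centralizer (N : Set G) = ⊥ ∨ (Subgroup.centralizer (N : Set G) ≠ ⊥ ∧ ∀ K : Subgroup G, K.Normal → K ≤ Subgroup.centralizer (N : Set G) → K = ⊥ ∨ K = Subgroup.centralizer (N : Set G))) := by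
  have hCn : (Subgroup.centralizer (N : Set G)).Normal := inferInstance
  have hNU : N ⊔ U = ⊤ := sup_eq_top_of_normal U hU hcore N inferInstance hN
  have h1 : Subgroup.centralizer (N : Set G) ⊓ U = ⊥ := by
    have hnorm : (Subgroup.centralizer (N : Set G) ⊓ U).Normal := by
      rw [← Subgroup.normalizer_eq_top_iff, eq_top_iff, ← hNU, sup_le_iff]
      constructor
      · intro n hn
        rw [Subgroup.mem_normalizer_iff]
        intro x
        constructor
        · intro hx
          have hx1 : x ∈ Subgroup.centralizer (N : Set G) := hx.1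
          have : n * x * n⁻¹ = x := by
            rw [Subgroup.mem_centralizer_iff] at hx1
            have := hx1 n hn
            rw [this, mul_assoc, mul_inv_cancel, mul_one]
          rw [this]; exact hx
        · intro hx
          have hx1 : n * x * n⁻¹ ∈ Subgroup.centralizer (N : Set G) := hx.1
          have hx2 : x ∈ Subgroup.centralizer (N : Set G) := by
            have := hCn.conj_mem _ hx1 n⁻¹
            simpa [mul_assoc] using this
          have : n * x * n⁻¹ = x := by
            rw [Subgroup.mem_centralizer_iff] at hx2
            have := hx2 n hn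
            rw [this, mul_assoc, mul_inv_cancel, mul_one]
          rw [this] at hx; exact hx
      · intro u hu
        rw [Subgroup.mem_normalizer_iff]
        intro x
        constructor
        · intro hx
          exact ⟨hCn.conj_mem _ hx.1 u, U.mul_mem (U.mul_mem hu hx.2) (U.inv_mem hu)⟩
        · intro hx
          constructor
          · have := hCn.conj_mem _ hx.1 u⁻¹
            simpa [mul_assoc] using this
          · have := U.mul_mem (U.mul_mem (U.inv_mem hu) hx.2) hu
            simpa [mul_assoc] using this
    have := (Subgroup.normal_le_normalCore (H := U) (N := Subgroup.centralizer (N : Set G) ⊓ U) (hN := hnorm)).mpr inf_le_right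
    rw [hcore] at this
    exact le_bot_iff.mp this
  refine ⟨h1, ?_⟩
  by_cases hC : Subgroup.centralizer (N : Set G) = ⊥
  · exact Or.inl hC
  · refine Or.inr ⟨hC, ?_⟩
    intro K hKn hKC
    by_cases hK : K = ⊥
    · exact Or.inl hK
    · refine Or.inr (le_antisymm hKC ?_)
      have hKU : K ⊔ U = ⊤ := sup_eq_top_of_normal U hU hcore K hKn hK
      intro c hc
      have hc' : c ∈ K ⊔ U := by rw [hKU]; exact Subgroup.mem_top c
      have := hKn
      rw [← SetLike.mem_coe, Subgroup.normal_mul] at hc'
      obtain ⟨k, hk, u, hu, rfl⟩ := hc'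
      have hu' : u ∈ Subgroup.centralizer (N : Set G) ⊓ U := by
        refine ⟨?_, hu⟩
        have := (Subgroup.centralizer (N : Set G)).mul_mem ((Subgroup.centralizer (N : Set G)).inv_mem (hKC hk)) hc
        simpa using this
      rw [h1, Subgroup.mem_bot] at hu'
      simpa [hu'] using hk

end Cfsg.Agent.S0549
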