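import Cfsg.Statements.S0550
import Mathlib

set_option autoImplicit false
open Cfsg

namespace Cfsg.Agent.S0550

theorem iso_of_common_complement {G : Type*} [Group G] (X Y N : Subgroup G) [N.Normal]
    (hX : X ⊓ N = ⊥) (hY : Y ⊓ N = ⊥) (hXY : X ⊔ N = Y ⊔ N) : Nonempty (X ≃* Y) := by
  have inj : ∀ Z : Subgroup G, Z ⊓ N = ⊥ →
      Function.Injective ((QuotientGroup.mk' N).comp Z.subtype) := by
    intro Z hZ
    rw [← MonoidHom.ker_eq_bot_iff, eq_bot_iff]
    intro z hz
    rw [MonoidHom.mem_ker, MonoidHom.comp_apply, ← MonoidHom.mem_ker, QuotientGroup.ker_mk'] at hz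
    have : (z : G) ∈ Z ⊓ N := ⟨z.2, hz⟩
    rw [hZ, Subgroup.mem_bot] at this
    rw [Subgroup.mem_bot]
    exact Subtype.ext this
  have hr : ((QuotientGroup.mk' N).comp X.subtype).range = ((QuotientGroup.mk' N).comp Y.subtype).range := by
    rw [MonoidHom.range_comp, MonoidHom.range_comp, Subgroup.range_subtype, Subgroup.range_subtype,
      Subgroup.map_eq_map_iff, QuotientGroup.ker_mk']
    exact hXY
  exact ⟨(MonoidHom.ofInjective (inj X hX)).trans
    ((MulEquiv.subgroupCongr hr).trans (MonoidHom.ofInjective (inj Y hY)).symm)⟩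

/-- core-free maximal `U`, normal `A` with `A ⊔ U = ⊤`: the centralizer of `A` meets `U` trivially -/
theorem centralizer_inf_eq_bot {G : Type*} [Group G] (U : Subgroup G) (hcore : U.normalCore = ⊥)
    (A : Subgroup G) [A.Normal] (hAU : A ⊔ U = ⊤) : Subgroup.centralizer (A : Set G) ⊓ U = ⊥ := by
  have hn : (Subgroup.centralizer (A : Set G) ⊓ U).Normal := by
    constructor
    intro d hd g
    have hg : g ∈ A ⊔ U := hAU ▸ Subgroup.mem_top g
    rw [Subgroup.mem_sup_of_normal_left] at hg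
    obtain ⟨a, ha, u, hu, rfl⟩ := hg
    have h1 : u * d * u⁻¹ ∈ Subgroup.centralizer (A : Set G) :=
      (inferInstance : (Subgroup.centralizer (A : Set G)).Normal).conj_mem d hd.1 u
    have h2 : u * d * u⁻¹ ∈ U := U.mul_mem (U.mul_mem hu hd.2) (U.inv_mem hu)
    have h3 : a * (u * d * u⁻¹) * a⁻¹ = u * d * u⁻¹ := by
      have := h1 a ha
      rw [mul_inv_eq_iff_eq_mul]
      exact this
    have : a * u * d * (a * u)⁻¹ = a * (u * d * u⁻¹) * a⁻¹ := by group
    rw [this, h3]
    exact ⟨h1, h2⟩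
  have : Subgroup.centralizer (A : Set G) ⊓ U ≤ U.normalCore :=
    Subgroup.normal_le_normalCore.mpr inf_le_right
  rwa [hcore, le_bot_iff] at this

/-- Let U be a maximal subgroup with trivial normal core in a finite group G, and A ≠ B two minimal normal subgroups. Then A is the centralizer of B and B that of A, U complements each of them, A and B are non-abelian, and A, B and (A ⊔ B) ∩ U are pairwise isomorphic. -/
theorem result {G : Type*} [Group G] [Finite G] (U : Subgroup G) (hU : IsCoatom U) (hcore : U.normalCore = ⊥) (A B : Subgroup G) [A.Normal] [B.Normal] (hA : A ≠ ⊥) (hB : B ≠ ⊥) (hAmin : ∀ K : Subgroup G, K.Normal → K ≤ A → K = ⊥ ∨ K = A) (hBmin : ∀ K : Subgroup G, K.Normal → K ≤ B → K = ⊥ ∨ K = B) (hAB : A ≠ B) : Subgroup.centralizer (B : Set G) = A ∧ Subgroup.centralizer (A : Set G) = B ∧ Subgroup.IsComplement' A U ∧ Subgroup.IsComplement' B U ∧ ¬ IsMulCommutative A ∧ Nonempty (A ≃* B) ∧ Nonempty (A ≃* ↥((A ⊔ B) ⊓ U)) := by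
  classical
  -- A and B meet trivially
  have hAB0 : A ⊓ B = ⊥ := by
    rcases hAmin (A ⊓ B) inferInstance inf_le_left with h | h
    · exact h
    · exfalso
      have hle : A ≤ B := by rw [← h]; exact inf_le_right
      rcases hBmin A inferInstance hle with h' | h'
      · exact hA h'
      · exact hAB h'
  have hcomm : ⁅A, B⁆ = ⊥ := by
    have := Subgroup.commutator_le_inf A B
    rwa [hAB0, le_bot_iff] at this
  have hAC : A ≤ Subgroup.centralizer (B : Set G) := Subgroup.commutator_eq_bot_iff_le_centralizer.mp hcomm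
  have hBC : B ≤ Subgroup.centralizer (A : Set G) := by
    rw [Subgroup.commutator_comm] at hcomm
    exact Subgroup.commutator_eq_bot_iff_le_centralizer.mp hcomm
  -- A and B supplement U
  have hsupp : ∀ N : Subgroup G, N.Normal → N ≠ ⊥ → N ⊔ U = ⊤ := by
    intro N hN hN0
    by_contra hne
    have h1 : U ≤ N ⊔ U := le_sup_right
    rcases eq_or_lt_of_le h1 with h2 | h2
    · have : N ≤ U := by rw [h2]; exact le_sup_left
      have : N ≤ U.normalCore := Subgroup.normal_le_normalCore.mpr this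
      rw [hcore, le_bot_iff] at this
      exact hN0 this
    · exact hne (hU.2 _ h2)
  have hAU : A ⊔ U = ⊤ := hsupp A inferInstance hA
  have hBU : B ⊔ U = ⊤ := hsupp B inferInstance hB
  have hCA : Subgroup.centralizer (A : Set G) ⊓ U = ⊥ := centralizer_inf_eq_bot U hcore A hAU
  have hCB : Subgroup.centralizer (B : Set G) ⊓ U = ⊥ := centralizer_inf_eq_bot U hcore B hBU
  -- centralizers
  have key : ∀ X Y : Subgroup G, Y.Normal → Y ≤ Subgroup.centralizer (X : Set G) → Y ⊔ U = ⊤ →
      Subgroup.centralizer (X : Set G) ⊓ U = ⊥ → Subgroup.centralizer (X : Set G) = Y := by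
    intro X Y hY hYC hYU hC
    refine le_antisymm ?_ hYC
    intro c hc
    have hg : c ∈ Y ⊔ U := hYU ▸ Subgroup.mem_top c
    rw [Subgroup.mem_sup_of_normal_left] at hg
    obtain ⟨b, hb, u, hu, rfl⟩ := hg
    have : u ∈ Subgroup.centralizer (X : Set G) ⊓ U := by
      refine ⟨?_, hu⟩
      have : u = b⁻¹ * (b * u) := by group
      rw [this]
      exact Subgroup.mul_mem _ (Subgroup.inv_mem _ (hYC hb)) hc
    rw [hC, Subgroup.mem_bot] at this
    rw [this, mul_one]
    exact hb
  have hCA' : Subgroup.centralizer (A : Set G) = B := key A B inferInstance hBC hBU hCA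
  have hCB' : Subgroup.centralizer (B : Set G) = A := key B A inferInstance hAC hAU hCB
  have hAU0 : A ⊓ U = ⊥ := by
    rw [eq_bot_iff, ← hCB]
    exact inf_le_inf_right _ hAC
  have hBU0 : B ⊓ U = ⊥ := by
    rw [eq_bot_iff, ← hCA]
    exact inf_le_inf_right _ hBC
  have hcompl : ∀ N : Subgroup G, N.Normal → N ⊔ U = ⊤ → N ⊓ U = ⊥ → Subgroup.IsComplement' N U := by
    intro N hN h1 h2
    apply Subgroup.isComplement'_of_disjoint_and_mul_eq_univ (disjoint_iff.mpr h2)
    rw [← Subgroup.normal_mul, h1, Subgroup.coe_top]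
  -- the isomorphisms
  have hDB : ((A ⊔ B) ⊓ U) ⊓ B = ⊥ := by
    rw [eq_bot_iff, ← hBU0]
    exact le_inf inf_le_right (inf_le_left.trans inf_le_right)
  have hDA : ((A ⊔ B) ⊓ U) ⊓ A = ⊥ := by
    rw [eq_bot_iff, ← hAU0]
    exact le_inf inf_le_right (inf_le_left.trans inf_le_right)
  have hsup1 : A ⊔ B = ((A ⊔ B) ⊓ U) ⊔ B := by
    apply le_antisymm
    · refine sup_le ?_ le_sup_right
      intro a ha
      have hg : a ∈ B ⊔ U := hBU ▸ Subgroup.mem_top a
      rw [Subgroup.mem_sup_of_normal_left] at hg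
      obtain ⟨b, hb, u, hu, rfl⟩ := hg
      rw [sup_comm]
      refine Subgroup.mul_mem_sup hb ⟨?_, hu⟩
      have : u = b⁻¹ * (b * u) := by group
      rw [this]
      exact Subgroup.mul_mem _ (Subgroup.mem_sup_right (B.inv_mem hb)) (Subgroup.mem_sup_left ha)
    · exact sup_le inf_le_left le_sup_right
  have hsup2 : B ⊔ A = ((A ⊔ B) ⊓ U) ⊔ A := by
    apply le_antisymm
    · refine sup_le ?_ le_sup_right
      intro b hb
      have hg : b ∈ A ⊔ U := hAU ▸ Subgroup.mem_top b
      rw [Subgroup.mem_sup_of_normal_left] at hg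
      obtain ⟨a, ha, u, hu, rfl⟩ := hg
      rw [sup_comm]
      refine Subgroup.mul_mem_sup ha ⟨?_, hu⟩
      have : u = a⁻¹ * (a * u) := by group
      rw [this]
      exact Subgroup.mul_mem _ (Subgroup.mem_sup_left (A.inv_mem ha)) (Subgroup.mem_sup_right hb)
    · exact sup_le (inf_le_left.trans (le_of_eq (sup_comm _ _))) le_sup_right
  obtain ⟨e1⟩ := iso_of_common_complement A ((A ⊔ B) ⊓ U) B hAB0 hDB hsup1
  obtain ⟨e2⟩ := iso_of_common_complement B ((A ⊔ B) ⊓ U) A (by rw [inf_comm]; exact hAB0) hDA hsup2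
  refine ⟨hCB', hCA', hcompl A inferInstance hAU hAU0, hcompl B inferInstance hBU hBU0, ?_,
    ⟨e1.trans e2.symm⟩, ⟨e1⟩⟩
  intro hcommA
  apply hA
  rw [eq_bot_iff, ← hAB0]
  refine le_inf le_rfl ?_
  rw [← hCA']
  intro a ha b hb
  have := hcommA.is_comm.comm ⟨a, ha⟩ ⟨b, hb⟩
  exact (congrArg Subtype.val this).symm

end Cfsg.Agent.S0550
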