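import Cfsg.Statements.S0551
import Mathlib
import Cfsg.Agent.Helper10.Basic
import Cfsg.Agent.Helper10.CoreFree

set_option autoImplicit false
open Pointwise
open Cfsg

namespace Cfsg.Agent.S0551

open Cfsg.Agent.Helper10

theorem conj_cancel {G : Type*} [Group G] (g : G) (H : Subgroup G) :
    MulAut.conj g • MulAut.conj g⁻¹ • H = H := by
  rw [smul_smul, ← map_mul, mul_inv_cancel, map_one, one_smul]

theorem conj_cancel' {G : Type*} [Group G] (g : G) (H : Subgroup G) :
    MulAut.conj g⁻¹ • MulAut.conj g • H = H := by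
  rw [smul_smul, ← map_mul, inv_mul_cancel, map_one, one_smul]

theorem le_normalizer_inf {G : Type*} [Group G] (L W : Subgroup G) [hL : L.Normal] :
    W ≤ Subgroup.normalizer ((L ⊓ W : Subgroup G) : Set G) := by
  intro v hv
  rw [Subgroup.mem_normalizer_iff]
  intro h
  constructor
  · rintro ⟨h1, h2⟩
    exact ⟨hL.conj_mem h h1 v, W.mul_mem (W.mul_mem hv h2) (W.inv_mem hv)⟩
  · rintro ⟨h1, h2⟩
    refine ⟨?_, ?_⟩
    · have := hL.conj_mem _ h1 v⁻¹
      have e : v⁻¹ * (v * h * v⁻¹) * v⁻¹⁻¹ = h := by group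
      rwa [e] at this
    · have := W.mul_mem (W.mul_mem (W.inv_mem hv) h2) hv
      have e : v⁻¹ * (v * h * v⁻¹) * v = h := by group
      rwa [e] at this

/-- In a finite solvable group all core-free maximal subgroups are conjugate. -/
theorem result {G : Type*} [Group G] [Finite G] [Group.IsSolvable G] (U V : Subgroup G) (hU : IsCoatom U) (hV : IsCoatom V) (hUc : U.normalCore = ⊥) (hVc : V.normalCore = ⊥) : ∃ g : G, MulAut.conj g • U = V := by
  classical
  have hnt : Nontrivial G := by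
    by_contra h
    rw [not_nontrivial_iff_subsingleton] at h
    exact hU.1 (Subsingleton.elim _ _)
  obtain ⟨p, hpF, N, hNn, hN0, hNp, hNc⟩ := exists_normal_pgroup (G := G)
  obtain ⟨hNU, hNU0, hCN⟩ := abelian_normal_corefree U hU hUc N hN0 hNc
  obtain ⟨hNV, hNV0, -⟩ := abelian_normal_corefree V hV hVc N hN0 hNc
  by_cases hNtop : N = ⊤
  · refine ⟨1, ?_⟩
    have hU0 : U = ⊥ := by rw [← hNU0, hNtop, top_inf_eq]
    have hV0 : V = ⊥ := by rw [← hNV0, hNtop, top_inf_eq]
    rw [hU0, hV0, map_one, one_smul]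
  have hQnt : Nontrivial (G ⧸ N) := QuotientGroup.nontrivial_iff.mpr hNtop
  obtain ⟨q, hqF, Lbar, hLn, hL0, hLq, -⟩ := exists_normal_pgroup (G := G ⧸ N)
  have hLnormal : (Lbar.comap (QuotientGroup.mk' N)).Normal := hLn.comap _
  have hNL : N ≤ Lbar.comap (QuotientGroup.mk' N) := by
    intro x hx
    show (QuotientGroup.mk' N x) ∈ Lbar
    have : QuotientGroup.mk' N x = 1 := (QuotientGroup.eq_one_iff x).mpr hx
    rw [this]
    exact Lbar.one_mem
  have hLN : ¬ Lbar.comap (QuotientGroup.mk' N) ≤ N := by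
    intro h
    apply hL0
    rw [eq_bot_iff]
    intro y hy
    obtain ⟨x, rfl⟩ := QuotientGroup.mk'_surjective N y
    have : x ∈ N := h hy
    rw [Subgroup.mem_bot]
    exact (QuotientGroup.eq_one_iff x).mpr this
  -- powers
  have hpow : ∀ x ∈ Lbar.comap (QuotientGroup.mk' N), ∃ k : ℕ, x ^ q ^ k ∈ N := by
    intro x hx
    obtain ⟨k, hk⟩ := hLq ⟨QuotientGroup.mk' N x, hx⟩
    refine ⟨k, ?_⟩
    have h1 : (QuotientGroup.mk' N x) ^ q ^ k = 1 := by
      have := congrArg Subtype.val hk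
      simpa using this
    rw [← map_pow] at h1
    exact (QuotientGroup.eq_one_iff _).mp h1
  generalize hLdef : Lbar.comap (QuotientGroup.mk' N) = L at hLnormal hNL hLN hpow
  -- q ≠ p
  have hqp : q ≠ p := by
    intro hqp
    subst hqp
    have hLp : IsPGroup q L := by
      rintro ⟨x, hx⟩
      obtain ⟨k, hxN⟩ := hpow x hx
      obtain ⟨j, hj⟩ := hNp ⟨x ^ q ^ k, hxN⟩
      refine ⟨k + j, ?_⟩
      apply Subtype.ext
      have h2 : (x ^ q ^ k) ^ q ^ j = 1 := by
        have := congrArg Subtype.val hj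
        simpa using this
      show x ^ q ^ (k + j) = 1
      rw [pow_add, pow_mul]
      exact h2
    have hZ := pgroup_fixed_point L N hLp hNp (fun l _ n hn => hNn.conj_mem n hn l) hN0
    obtain ⟨-, -, hCZ⟩ := abelian_normal_corefree U hU hUc (N ⊓ Subgroup.centralizer (L : Set G)) hZ
      (fun a ha b hb => hNc a ha.1 b hb.1)
    apply hLN
    have : L ≤ Subgroup.centralizer ((N ⊓ Subgroup.centralizer (L : Set G) : Subgroup G) : Set G) := by
      rw [Subgroup.le_centralizer_iff]
      exact inf_le_right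
    rw [hCZ] at this
    exact this.trans inf_le_left
  -- the q-subgroups L ⊓ W
  have key : ∀ W : Subgroup G, N ⊔ W = ⊤ → N ⊓ W = ⊥ →
      IsPGroup q (L ⊓ W : Subgroup G) ∧
      (∀ S : Subgroup G, S ≤ L → IsPGroup q S → L ⊓ W ≤ S → S = L ⊓ W) ∧ (L ⊓ W ≠ ⊥) := by
    intro W hNW hNW0
    have hdecomp : ∀ l ∈ L, ∃ n ∈ N, ∃ w ∈ L ⊓ W, l = n * w := by
      intro l hl
      have hg : l ∈ N ⊔ W := hNW ▸ Subgroup.mem_top l
      rw [Subgroup.mem_sup_of_normal_left] at hg
      obtain ⟨n, hn, w, hw, rfl⟩ := hg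
      refine ⟨n, hn, w, ⟨?_, hw⟩, rfl⟩
      have : w = n⁻¹ * (n * w) := by group
      rw [this]
      exact L.mul_mem (L.inv_mem (hNL hn)) hl
    refine ⟨?_, ?_, ?_⟩
    · rintro ⟨x, hxL, hxW⟩
      obtain ⟨k, hxN⟩ := hpow x hxL
      refine ⟨k, Subtype.ext ?_⟩
      have : x ^ q ^ k ∈ N ⊓ W := ⟨hxN, W.pow_mem hxW _⟩
      rw [hNW0, Subgroup.mem_bot] at this
      simpa using this
    · intro S hSL hSq hle
      refine le_antisymm ?_ hle
      intro s hs
      obtain ⟨n, hn, w, hw, rfl⟩ := hdecomp s (hSL hs)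
      have hwS : w ∈ S := hle hw
      have hnS : n ∈ S := by
        have : n = (n * w) * w⁻¹ := by group
        rw [this]
        exact S.mul_mem hs (S.inv_mem hwS)
      obtain ⟨k, hk⟩ := hSq ⟨n, hnS⟩
      obtain ⟨j, hj⟩ := hNp ⟨n, hn⟩
      have hk' : n ^ q ^ k = 1 := by simpa using congrArg Subtype.val hk
      have hj' : n ^ p ^ j = 1 := by simpa using congrArg Subtype.val hj
      have hn1 : n = 1 := by
        have h1 : orderOf n ∣ q ^ k := orderOf_dvd_of_pow_eq_one hk'
        have h2 : orderOf n ∣ p ^ j := orderOf_dvd_of_pow_eq_one hj'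
        have hcop : Nat.Coprime (q ^ k) (p ^ j) :=
          Nat.Coprime.pow _ _ ((Nat.coprime_primes hqF.out hpF.out).mpr hqp)
        have : orderOf n = 1 := Nat.eq_one_of_dvd_coprimes hcop h1 h2
        exact orderOf_eq_one_iff.mp this
      rw [hn1, one_mul]
      exact hw
    · intro h0
      apply hLN
      intro l hl
      obtain ⟨n, hn, w, hw, rfl⟩ := hdecomp l hl
      rw [h0, Subgroup.mem_bot] at hw
      rw [hw, mul_one]
      exact hn
  obtain ⟨hUq, hUmax, -⟩ := key U hNU hNU0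
  obtain ⟨hVq, hVmax, hLV0⟩ := key V hNV hNV0
  obtain ⟨Su, hSu⟩ := IsPGroup.exists_le_sylow hUq
  obtain ⟨Sv, hSv⟩ := IsPGroup.exists_le_sylow hVq
  obtain ⟨g, hg⟩ := MulAction.exists_smul_eq G Su Sv
  have hg' : MulAut.conj g • (Su : Subgroup G) = Sv := by
    rw [← hg, Sylow.coe_subgroup_smul]
  have hLconj : ∀ x : G, MulAut.conj x • L = L := fun x => Subgroup.Normal.conj_smul_eq_self x L
  have e1 : MulAut.conj g • (L ⊓ U) = L ⊓ V := by
    apply le_antisymm
    · have h1 : MulAut.conj g • (L ⊓ U) ≤ (Sv : Subgroup G) ⊓ L := by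
        refine le_inf ?_ ?_
        · rw [← hg']
          exact Subgroup.pointwise_smul_le_pointwise_smul_iff.mpr hSu
        · rw [← hLconj g]
          exact Subgroup.pointwise_smul_le_pointwise_smul_iff.mpr (by rw [hLconj g]; exact inf_le_left)
      have h2 : (Sv : Subgroup G) ⊓ L = L ⊓ V :=
        hVmax _ inf_le_right (Sv.2.to_le inf_le_left) (le_inf hSv inf_le_left)
      rw [← h2]
      exact h1
    · have h1 : MulAut.conj g⁻¹ • (L ⊓ V) ≤ (Su : Subgroup G) ⊓ L := by
        refine le_inf ?_ ?_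
        · have : (Su : Subgroup G) = MulAut.conj g⁻¹ • (Sv : Subgroup G) := by
            rw [← hg', conj_cancel']
          rw [this]
          exact Subgroup.pointwise_smul_le_pointwise_smul_iff.mpr hSv
        · rw [← hLconj g⁻¹]
          exact Subgroup.pointwise_smul_le_pointwise_smul_iff.mpr (by rw [hLconj g⁻¹]; exact inf_le_left)
      have h2 : (Su : Subgroup G) ⊓ L = L ⊓ U :=
        hUmax _ inf_le_right (Su.2.to_le inf_le_left) (le_inf hSu inf_le_left)
      rw [h2] at h1
      have := (Subgroup.pointwise_smul_le_pointwise_smul_iff (a := MulAut.conj g)).mpr h1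
      rwa [conj_cancel] at this
  have hVX : V ≤ Subgroup.normalizer ((L ⊓ V : Subgroup G) : Set G) := le_normalizer_inf L V
  have hU'X : MulAut.conj g • U ≤ Subgroup.normalizer ((L ⊓ V : Subgroup G) : Set G) := by
    have h1 := le_normalizer_inf L (MulAut.conj g • U)
    have h2 : L ⊓ MulAut.conj g • U = L ⊓ V := by
      rw [← e1, Subgroup.smul_inf, hLconj]
    rwa [h2] at h1
  have hXtop : Subgroup.normalizer ((L ⊓ V : Subgroup G) : Set G) ≠ ⊤ := by
    intro h
    have hn : (L ⊓ V).Normal := Subgroup.normalizer_eq_top_iff.mp h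
    have : L ⊓ V ≤ V.normalCore := Subgroup.normal_le_normalCore.mpr inf_le_right
    rw [hVc, le_bot_iff] at this
    exact hLV0 this
  have hXV : Subgroup.normalizer ((L ⊓ V : Subgroup G) : Set G) = V := by
    rcases eq_or_lt_of_le hVX with h | h
    · exact h.symm
    · exact absurd (hV.2 _ h) hXtop
  refine ⟨g, ?_⟩
  rw [hXV] at hU'X
  have h3 : U ≤ MulAut.conj g⁻¹ • V := by
    have := (Subgroup.pointwise_smul_le_pointwise_smul_iff (a := MulAut.conj g⁻¹)).mpr hU'X
    rwa [conj_cancel'] at this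
  have h4 : MulAut.conj g⁻¹ • V ≠ ⊤ := by
    intro h
    apply hV.1
    have : MulAut.conj g • (MulAut.conj g⁻¹ • V) = MulAut.conj g • ⊤ := by rw [h]
    rw [conj_cancel] at this
    rw [this]
    exact Subgroup.Normal.conj_smul_eq_self g ⊤
  rcases eq_or_lt_of_le h3 with h | h
  · rw [h, conj_cancel]
  · exact absurd (hU.2 _ h) h4

end Cfsg.Agent.S0551
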