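import Cfsg.Statements.S0553
import Mathlib
import Cfsg.Agent.Helper10.Basic

set_option autoImplicit false
open Cfsg

namespace Cfsg.Agent.S0553

open Cfsg.Agent.Helper10

universe u

theorem aux (n : ℕ) : ∀ (G : Type u) [Group G] [Finite G] [Group.IsSolvable G] [Nontrivial G],
    Nat.card G = n → (∀ M : Subgroup G, IsCoatom M → (Nat.card M).Coprime M.index) →
    ∃ p : ℕ, p.Prime ∧ p ∣ Nat.card G ∧ ∀ P : Sylow p G, (P : Subgroup G).Normal := by
  induction n using Nat.strong_induction_on with
  | _ n ih =>
  intro G _ _ _ _ hn h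
  classical
  obtain ⟨p, hpF, N, hNn, hN0, hNp, -⟩ := exists_normal_pgroup (G := G)
  have hp : p.Prime := hpF.out
  have hNcard : 1 < Nat.card N := (Subgroup.one_lt_card_iff_ne_bot _).mpr hN0
  have hpN : p ∣ Nat.card N := (hNp.card_eq_or_dvd).resolve_left (by omega)
  have hpG : p ∣ Nat.card G := hpN.trans (Subgroup.card_subgroup_dvd_card N)
  by_cases hcase : ∃ M : Subgroup G, IsCoatom M ∧ ¬ N ≤ M
  · -- N is not in some maximal subgroup M: then N is a normal Sylow subgroup
    obtain ⟨M, hM, hNM⟩ := hcase
    have hsup : N ⊔ M = ⊤ := by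
      apply hM.2
      refine lt_of_le_of_ne le_sup_right ?_
      intro heq
      exact hNM (heq ▸ le_sup_left)
    have hcop := h M hM
    -- p does not divide card M
    have hpM : ¬ p ∣ Nat.card M := by
      intro hpM
      have hpi : ¬ p ∣ M.index := fun hpi => hp.one_lt.ne' (Nat.eq_one_of_dvd_coprimes hcop hpM hpi)
      -- a Sylow p-subgroup of M is a Sylow p-subgroup of G
      obtain ⟨PM⟩ : Nonempty (Sylow p M) := inferInstance
      obtain ⟨Q, hQ⟩ := IsPGroup.exists_le_sylow (PM.2.map M.subtype)
      have hNQ : N ≤ Q := IsPGroup.le_sylow_of_normal hNp Q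
      -- cardinalities
      have hcQ : Nat.card Q = p ^ (Nat.card G).factorization p := Sylow.card_eq_multiplicity Q
      have hcPM : Nat.card PM = p ^ (Nat.card M).factorization p := Sylow.card_eq_multiplicity PM
      have hfac : (Nat.card G).factorization p = (Nat.card M).factorization p := by
        have h1 : Nat.card G = Nat.card M * M.index := (Subgroup.card_mul_index M).symm
        rw [h1, Nat.factorization_mul Nat.card_pos.ne' (Subgroup.index_ne_zero_of_finite),
          Finsupp.add_apply, Nat.factorization_eq_zero_of_not_dvd hpi, add_zero]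
      have hcmap : Nat.card ((PM : Subgroup M).map M.subtype) = Nat.card PM :=
        Subgroup.card_map_of_injective M.subtype_injective
      have heq : (PM : Subgroup M).map M.subtype = Q := by
        apply Subgroup.eq_of_le_of_card_ge hQ
        rw [hcmap, hcQ, hcPM, hfac]
      apply hNM
      rw [← heq] at hNQ
      exact hNQ.trans (Subgroup.map_subtype_le _)
    -- N ⊓ M = ⊥
    have hNM0 : N ⊓ M = ⊥ := by
      by_contra hne
      have h1 : 1 < Nat.card (N ⊓ M : Subgroup G) := (Subgroup.one_lt_card_iff_ne_bot _).mpr hne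
      have hpg : IsPGroup p (N ⊓ M : Subgroup G) := hNp.to_le inf_le_left
      have h2 : p ∣ Nat.card (N ⊓ M : Subgroup G) := (hpg.card_eq_or_dvd).resolve_left (by omega)
      exact hpM (h2.trans (Subgroup.card_dvd_of_le inf_le_right))
    have hcompl : Subgroup.IsComplement' N M := by
      apply Subgroup.isComplement'_of_disjoint_and_mul_eq_univ (disjoint_iff.mpr hNM0)
      rw [← Subgroup.normal_mul, hsup, Subgroup.coe_top]
    have hcardG : Nat.card N * Nat.card M = Nat.card G := hcompl.card_mul_card
    refine ⟨p, hp, hpG, ?_⟩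
    intro P
    have hNP : N ≤ P := IsPGroup.le_sylow_of_normal hNp P
    obtain ⟨k, hk⟩ := (IsPGroup.iff_card).mp P.2
    have hdvd : Nat.card P ∣ Nat.card N * Nat.card M := hcardG ▸ Subgroup.card_subgroup_dvd_card _
    have hcopP : (Nat.card P).Coprime (Nat.card M) := by
      rw [hk]
      exact Nat.Coprime.pow_left _ ((Nat.Prime.coprime_iff_not_dvd hp).mpr hpM)
    have hdvd' : Nat.card P ∣ Nat.card N := hcopP.dvd_of_dvd_mul_right hdvd
    have : N = P := Subgroup.eq_of_le_of_card_ge hNP (Nat.le_of_dvd Nat.card_pos hdvd')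
    rw [← this]
    exact hNn
  · -- N is in every maximal subgroup
    push Not at hcase
    by_cases hNtop : N = ⊤
    · refine ⟨p, hp, hpG, ?_⟩
      intro P
      have hNP : N ≤ P := IsPGroup.le_sylow_of_normal hNp P
      have : (P : Subgroup G) = ⊤ := by rw [eq_top_iff, ← hNtop]; exact hNP
      rw [this]
      infer_instance
    · have hQnt : Nontrivial (G ⧸ N) := by
        rw [QuotientGroup.nontrivial_iff]
        exact hNtop
      have hcardQ : Nat.card (G ⧸ N) < n := by
        have h1 := Subgroup.card_eq_card_quotient_mul_card_subgroup N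
        have h3 : 0 < Nat.card (G ⧸ N) := Nat.card_pos
        rw [← hn, h1]
        nlinarith
      have hQ : ∀ M : Subgroup (G ⧸ N), IsCoatom M → (Nat.card M).Coprime M.index := by
        intro M hM
        have hc := Subgroup.isCoatom_comap_of_surjective (QuotientGroup.mk'_surjective N) hM
        have h1 := h _ hc
        rw [Subgroup.index_comap_of_surjective _ (QuotientGroup.mk'_surjective N)] at h1
        have h2 : Nat.card M ∣ Nat.card (M.comap (QuotientGroup.mk' N)) :=
          Subgroup.card_dvd_of_surjective ((QuotientGroup.mk' N).subgroupComap M)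
            (MonoidHom.subgroupComap_surjective_of_surjective _ _ (QuotientGroup.mk'_surjective N))
        exact Nat.Coprime.coprime_dvd_left h2 h1
      obtain ⟨q, hq, hqd, hqn⟩ := ih _ hcardQ (G ⧸ N) rfl hQ
      have hqF : Fact q.Prime := ⟨hq⟩
      have hqG : q ∣ Nat.card G := hqd.trans (Subgroup.card_quotient_dvd_card N)
      refine ⟨q, hq, hqG, ?_⟩
      obtain ⟨Q0⟩ : Nonempty (Sylow q G) := inferInstance
      apply all_sylow_normal Q0
      -- the image of Q0 is normal in the quotient
      have hbar : ((Q0.mapSurjective (QuotientGroup.mk'_surjective N) : Sylow q (G ⧸ N)) : Subgroup (G ⧸ N)).Normal :=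
        hqn _
      rw [Sylow.coe_mapSurjective] at hbar
      have hL : (((Q0 : Subgroup G).map (QuotientGroup.mk' N)).comap (QuotientGroup.mk' N)).Normal :=
        hbar.comap _
      rw [Subgroup.comap_map_eq, QuotientGroup.ker_mk'] at hL
      -- Frattini argument in L = Q0 ⊔ N
      have hQL : (Q0 : Subgroup G) ≤ (Q0 : Subgroup G) ⊔ N := le_sup_left
      have hfr := Sylow.normalizer_sup_eq_top (Q0.subtype hQL)
      have hmap : ((Q0.subtype hQL : Sylow q ↥((Q0 : Subgroup G) ⊔ N)) : Subgroup ↥((Q0 : Subgroup G) ⊔ N)).map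
          (((Q0 : Subgroup G) ⊔ N).subtype) = Q0 := by
        rw [Sylow.coe_subtype]
        exact Subgroup.map_subgroupOf_eq_of_le hQL
      rw [hmap] at hfr
      rw [← Subgroup.normalizer_eq_top_iff]
      by_contra hnt
      obtain ⟨M, hM, hNM⟩ := (eq_top_or_exists_le_coatom (Subgroup.normalizer ((Q0 : Subgroup G) : Set G))).resolve_left hnt
      have : (⊤ : Subgroup G) ≤ M := by
        rw [← hfr]
        exact sup_le hNM (sup_le (Subgroup.le_normalizer.trans hNM) (hcase M hM))
      exact hM.1 (top_le_iff.mp this)

/-- Let G be a nontrivial finite solvable group in which every maximal subgroup has order coprime to its index. Then for some prime p dividing the order of G the Sylow p-subgroups of G are normal. -/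
theorem result {G : Type*} [Group G] [Finite G] [Group.IsSolvable G] [Nontrivial G] (h : ∀ M : Subgroup G, IsCoatom M → (Nat.card M).Coprime M.index) : ∃ p : ℕ, p.Prime ∧ p ∣ Nat.card G ∧ ∀ P : Sylow p G, (P : Subgroup G).Normal := by
  exact aux (Nat.card G) G rfl h

end Cfsg.Agent.S0553
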