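import Cfsg.Statements.S0554
import Mathlib
import Cfsg.Agent.Helper10.Basic
import Cfsg.Agent.Helper10.PCore

set_option autoImplicit false
open Cfsg

namespace Cfsg.Agent.S0554

universe u

lemma ones {G : Type*} [Group G] (L : List (Subgroup G)) :
    ∃ l : List G, List.Forall₂ (fun x H => x ∈ H) l L ∧ l.prod = 1 := by
  induction L with
  | nil => exact ⟨[], List.Forall₂.nil, rfl⟩
  | cons H L ih =>
    obtain ⟨l, hl, hp⟩ := ih
    exact ⟨1 :: l, List.Forall₂.cons H.one_mem hl, by simp [hp]⟩

lemma absorb {G : Type*} [Group G] (N : Subgroup G) [hN : N.Normal] (l : List G) (L : List (Subgroup G))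
    (h : List.Forall₂ (fun x H => x ∈ H) l L) (H : Subgroup G) (hH : H ∈ L) (hNH : N ≤ H)
    (n : G) (hn : n ∈ N) :
    ∃ l' : List G, List.Forall₂ (fun x H => x ∈ H) l' L ∧ l'.prod = l.prod * n := by
  induction h with
  | nil => simp at hH
  | @cons x K l L hxK hlL ih =>
    rcases List.mem_cons.mp hH with rfl | hH'
    · refine ⟨(x * (l.prod * n * l.prod⁻¹)) :: l,
        List.Forall₂.cons (H.mul_mem hxK (hNH (hN.conj_mem n hn _))) hlL, ?_⟩
      simp only [List.prod_cons]; group
    · obtain ⟨l', hl', hp⟩ := ih hH'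
      exact ⟨x :: l', List.Forall₂.cons hxK hl', by simp only [List.prod_cons, hp, mul_assoc]⟩

lemma lift {G Q : Type*} [Group G] [Group Q] (π : G →* Q) (L : List (Subgroup G)) :
    ∀ lb : List Q, List.Forall₂ (fun x H => x ∈ H) lb (L.map (Subgroup.map π)) →
    ∃ l : List G, List.Forall₂ (fun x H => x ∈ H) l L ∧ l.map π = lb := by
  induction L with
  | nil =>
    intro lb h
    simp only [List.map_nil, List.forall₂_nil_right_iff] at h
    subst h
    exact ⟨[], List.Forall₂.nil, rfl⟩
  | cons H L ih =>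
    intro lb h
    rw [List.map_cons] at h
    cases h with
    | cons hx hrest =>
      obtain ⟨y, hy, rfl⟩ := hx
      obtain ⟨l, hl, rfl⟩ := ih _ hrest
      exact ⟨y :: l, List.Forall₂.cons hy hl, rfl⟩

theorem listVersion : ∀ (n : ℕ) (G : Type u) [Group G] [Finite G] [Group.IsSolvable G], Nat.card G = n →
    ∀ L : List (Subgroup G),
      (∀ q : ℕ, q.Prime → q ∣ Nat.card G → ∃ P : Sylow q G, (P : Subgroup G) ∈ L) →
      ∀ g : G, ∃ l : List G, List.Forall₂ (fun x H => x ∈ H) l L ∧ g = l.prod := by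
  intro n
  induction n using Nat.strong_induction_on with
  | _ n ih =>
    intro G _ _ _ hcard L hL g
    rcases subsingleton_or_nontrivial G with hsub | hnt
    · obtain ⟨l, hl, hp⟩ := ones L
      exact ⟨l, hl, by rw [hp]; exact Subsingleton.elim _ _⟩
    · obtain ⟨p, hp, N, hNn, hNbot, hNp, _⟩ := Cfsg.Agent.Helper10.exists_normal_pgroup (G := G)
      have hpdvd : p ∣ Nat.card G := by
        rcases hNp.card_eq_or_dvd with h1 | h1
        · exact absurd (Subgroup.card_eq_one.mp h1) hNbot
        · exact h1.trans (Subgroup.card_subgroup_dvd_card N)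
      obtain ⟨P, hPL⟩ := hL p hp.out hpdvd
      have hNP : N ≤ P :=
        (Cfsg.Agent.Helper10.le_pCore N hNn hNp).trans (Cfsg.Agent.Helper10.pCore_le_sylow P)
      have hlt : Nat.card (G ⧸ N) < n := by
        have h1 := Subgroup.card_eq_card_quotient_mul_card_subgroup N
        have h2 : 1 < Nat.card N := by
          rw [Subgroup.one_lt_card_iff_ne_bot]; exact hNbot
        have h3 : 0 < Nat.card (G ⧸ N) := Nat.card_pos
        rw [← hcard, h1]
        exact (Nat.lt_mul_iff_one_lt_right h3).mpr h2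
      have hL' : ∀ q : ℕ, q.Prime → q ∣ Nat.card (G ⧸ N) →
          ∃ P' : Sylow q (G ⧸ N), (P' : Subgroup (G ⧸ N)) ∈ L.map (Subgroup.map (QuotientGroup.mk' N)) := by
        intro q hq hqd
        have := Fact.mk hq
        obtain ⟨P0, hP0⟩ := hL q hq (hqd.trans (Subgroup.card_quotient_dvd_card N))
        exact ⟨P0.mapSurjective (QuotientGroup.mk'_surjective N), by
          rw [Sylow.coe_mapSurjective]; exact List.mem_map_of_mem hP0⟩
      obtain ⟨lb, hlb, hg⟩ := ih _ hlt (G ⧸ N) rfl _ hL' (QuotientGroup.mk' N g)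
      obtain ⟨l, hl, rfl⟩ := lift (QuotientGroup.mk' N) L lb hlb
      rw [← map_list_prod] at hg
      have hn : l.prod⁻¹ * g ∈ N := QuotientGroup.eq.mp hg.symm
      obtain ⟨l', hl', hp'⟩ := absorb N l L hl P hPL hNP _ hn
      exact ⟨l', hl', by rw [hp']; group⟩

/-- Let G be a finite solvable group and let S assign to each of t distinct primes, including every prime divisor of the order of G, a Sylow subgroup of G. Then every element of G is a product s_0 s_1 ⋯ s_(t-1) with s_i in S i, the factors taken in the given order. -/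
theorem result {G : Type*} [Group G] [Finite G] [Group.IsSolvable G] (t : ℕ) (p : Fin t → ℕ) (hp : ∀ i, (p i).Prime) (hinj : Function.Injective p) (hall : ∀ q : ℕ, q.Prime → q ∣ Nat.card G → ∃ i, p i = q) (S : (i : Fin t) → Sylow (p i) G) : ∀ g : G, ∃ s : (i : Fin t) → G, (∀ i, s i ∈ (S i : Subgroup G)) ∧ g = (List.ofFn s).prod := by
  intro g
  have hL : ∀ q : ℕ, q.Prime → q ∣ Nat.card G →
      ∃ P : Sylow q G, (P : Subgroup G) ∈ List.ofFn (fun i => (S i : Subgroup G)) := by
    intro q hq hqd
    obtain ⟨i, rfl⟩ := hall q hq hqd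
    exact ⟨S i, by rw [List.mem_ofFn]; exact ⟨i, rfl⟩⟩
  obtain ⟨l, hl, hg⟩ := listVersion _ G rfl _ hL g
  have hlen : l.length = t := by rw [hl.length_eq, List.length_ofFn]
  refine ⟨fun i => l.get (i.cast hlen.symm), ?_, ?_⟩
  · intro i
    have := (List.forall₂_iff_get.mp hl).2 i (by rw [hlen]; exact i.2) (by rw [List.length_ofFn]; exact i.2)
    simpa using this
  · rw [hg]
    congr 1
    apply List.ext_get (by simp [hlen])
    intro k h1 h2
    simp

end Cfsg.Agent.S0554
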