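import Cfsg.Statements.S0555
import Mathlib

set_option autoImplicit false
open Cfsg

namespace Cfsg.Agent.S0555

open scoped commutatorElement

lemma comm_central {Q : Type*} [Group Q] (y g h : Q) (a b a' b' : ℤ)
    (h1 : MulAut.conj g y = y ^ a) (h2 : MulAut.conj h y = y ^ b)
    (h3 : MulAut.conj g⁻¹ y = y ^ a') (h4 : MulAut.conj h⁻¹ y = y ^ b') :
    MulAut.conj ⁅g, h⁆ y = y := by
  have e1 : (y ^ a) ^ a' = y := by
    have : MulAut.conj g (MulAut.conj g⁻¹ y) = y := by simp only [MulAut.conj_apply, inv_inv]; group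
    rw [h3, map_zpow, h1] at this
    exact this
  have e2 : (y ^ b) ^ b' = y := by
    have : MulAut.conj h (MulAut.conj h⁻¹ y) = y := by simp only [MulAut.conj_apply, inv_inv]; group
    rw [h4, map_zpow, h2] at this
    exact this
  have e0 : ⁅g, h⁆ = g * h * g⁻¹ * h⁻¹ := rfl
  rw [e0, map_mul, map_mul, map_mul, MulAut.mul_apply, MulAut.mul_apply, MulAut.mul_apply, h4,
    map_zpow, h3]
  simp only [map_zpow]
  rw [h2]
  simp only [map_zpow]
  rw [h1]
  rw [← zpow_mul (y ^ a) b a', mul_comm b a', zpow_mul (y ^ a) a' b, e1, e2]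

lemma aux {G : Type*} [Group G] (K L M : Subgroup G) [hKn : K.Normal] [hLn : L.Normal] [hMn : M.Normal]
    (hL : L = ⁅K, K⁆) (hM : M = ⁅L, L⁆) (hKG : K ≤ commutator G)
    (h₁ : IsCyclic (↥K ⧸ L.subgroupOf K)) (h₂ : IsCyclic (↥L ⧸ M.subgroupOf L)) : L = M := by
  have hML : M ≤ L := hM ▸ Subgroup.commutator_le_left L L
  have hLK : L ≤ K := hL ▸ Subgroup.commutator_le_left K K
  refine le_antisymm ?_ hML
  obtain ⟨q, hq⟩ := IsCyclic.exists_generator (α := ↥K ⧸ L.subgroupOf K)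
  obtain ⟨t, rfl⟩ := QuotientGroup.mk_surjective q
  have hKt : ∀ k ∈ K, ∃ n : ℤ, ∃ l ∈ L, k = (t : G) ^ n * l := by
    intro k hk
    obtain ⟨n, hn⟩ := Subgroup.mem_zpowers_iff.mp (hq (QuotientGroup.mk ⟨k, hk⟩))
    rw [← QuotientGroup.mk_zpow, QuotientGroup.eq] at hn
    refine ⟨n, ((t : G) ^ n)⁻¹ * k, ?_, by group⟩
    simpa [Subgroup.mem_subgroupOf] using hn
  obtain ⟨q, hq⟩ := IsCyclic.exists_generator (α := ↥L ⧸ M.subgroupOf L)
  obtain ⟨x, rfl⟩ := QuotientGroup.mk_surjective q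
  have hLx : ∀ l ∈ L, ∃ n : ℤ, ∃ m ∈ M, l = (x : G) ^ n * m := by
    intro l hl
    obtain ⟨n, hn⟩ := Subgroup.mem_zpowers_iff.mp (hq (QuotientGroup.mk ⟨l, hl⟩))
    rw [← QuotientGroup.mk_zpow, QuotientGroup.eq] at hn
    refine ⟨n, ((x : G) ^ n)⁻¹ * l, ?_, by group⟩
    simpa [Subgroup.mem_subgroupOf] using hn
  have hπ : ∀ g : G, QuotientGroup.mk' M g = 1 ↔ g ∈ M := fun g => QuotientGroup.eq_one_iff g
  set π := QuotientGroup.mk' M with hπdef
  set y := π (x : G) with hy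
  have hLy : ∀ l ∈ L, ∃ n : ℤ, π l = y ^ n := by
    intro l hl
    obtain ⟨n, m, hm, rfl⟩ := hLx l hl
    exact ⟨n, by rw [map_mul, map_zpow, (hπ m).mpr hm, mul_one]⟩
  have hconj : ∀ g : G, ∃ n : ℤ, MulAut.conj (π g) y = y ^ n := by
    intro g
    obtain ⟨n, hn⟩ := hLy (g * x * g⁻¹) (hLn.conj_mem x x.2 g)
    exact ⟨n, by rw [← hn, MulAut.conj_apply, map_mul, map_mul, map_inv]⟩
  have hZ : commutator G ≤ (Subgroup.centralizer {y}).comap π := by
    rw [commutator_def, Subgroup.commutator_le]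
    intro g _ h _
    rw [Subgroup.mem_comap, Subgroup.mem_centralizer_singleton_iff]
    obtain ⟨a, ha⟩ := hconj g
    obtain ⟨b, hb⟩ := hconj h
    obtain ⟨a', ha'⟩ := hconj g⁻¹
    obtain ⟨b', hb'⟩ := hconj h⁻¹
    rw [map_inv] at ha' hb'
    have := comm_central y (π g) (π h) a b a' b' ha hb ha' hb'
    rw [← map_commutatorElement, MulAut.conj_apply] at this
    rw [mul_inv_eq_iff_eq_mul] at this
    exact this
  have hE : ∀ k ∈ K, ∀ l ∈ L, Commute (π k) (π l) := by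
    intro k hk l hl
    have h1 := hZ (hKG hk)
    rw [Subgroup.mem_comap, Subgroup.mem_centralizer_singleton_iff] at h1
    obtain ⟨n, hn⟩ := hLy l hl
    rw [hn]
    exact Commute.zpow_right h1 n
  rw [hL, Subgroup.commutator_le]
  intro k1 hk1 k2 hk2
  rw [← hπ, map_commutatorElement, commutatorElement_eq_one_iff_commute]
  obtain ⟨n1, l1, hl1, rfl⟩ := hKt k1 hk1
  obtain ⟨n2, l2, hl2, rfl⟩ := hKt k2 hk2
  rw [map_mul, map_mul]
  have ht1 : (t : G) ^ n1 ∈ K := K.zpow_mem t.2 n1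
  have ht2 : (t : G) ^ n2 ∈ K := K.zpow_mem t.2 n2
  have hc : Commute (π ((t : G) ^ n1)) (π ((t : G) ^ n2)) := by
    rw [map_zpow, map_zpow]
    exact (Commute.refl _).zpow_zpow n1 n2
  exact Commute.mul_left (Commute.mul_right hc (hE _ ht1 l2 hl2))
    (Commute.mul_right (hE _ ht2 l1 hl1).symm (hE _ (hLK hl1) l2 hl2))

/-- Let i ≥ 1. If in the derived series of a group the quotient of the i-th term by the (i+1)-st and the quotient of the (i+1)-st by the (i+2)-nd are both cyclic, then the (i+1)-st and (i+2)-nd terms coincide. -/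
theorem result {G : Type*} [Group G] (i : ℕ) (hi : 1 ≤ i) (h₁ : IsCyclic (↥(derivedSeries G i) ⧸ (derivedSeries G (i + 1)).subgroupOf (derivedSeries G i))) (h₂ : IsCyclic (↥(derivedSeries G (i + 1)) ⧸ (derivedSeries G (i + 2)).subgroupOf (derivedSeries G (i + 1)))) : derivedSeries G (i + 1) = derivedSeries G (i + 2) := by
  have := derivedSeries_normal G i
  have := derivedSeries_normal G (i + 1)
  have := derivedSeries_normal G (i + 2)
  refine aux (derivedSeries G i) (derivedSeries G (i + 1)) (derivedSeries G (i + 2)) rfl rfl ?_ h₁ h₂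
  have := derivedSeries_antitone (G := G) hi
  rwa [derivedSeries_one] at this

end Cfsg.Agent.S0555
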