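import Cfsg.Statements.S0556
import Mathlib
import Cfsg.Agent.Helper29.FrobConj
import Cfsg.Agent.Helper51.Basic
import Cfsg.Agent.Helper10.Conj

set_option autoImplicit false
open Cfsg

namespace Cfsg.Agent.S0556

open scoped Pointwise commutatorElement

lemma lemF {Q : Type*} [Group Q] [Finite Q] (A : Subgroup Q) (hA : IsCoatom A)
    (hAc : ∀ a ∈ A, ∀ b ∈ A, a * b = b * a)
    (hTI : ∀ g : Q, g ∉ A → ∀ x : Q, x ∈ A → g⁻¹ * x * g ∈ A → x = 1) (hAbot : A ≠ ⊥) :
    derivedSeries Q 2 = ⊥ := by
  have hFC : Cfsg.IsFrobeniusComplement A :=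
    (Cfsg.Agent.Helper71.isFrobeniusComplement_iff A).mpr ⟨hAbot, hA.1, hTI⟩
  obtain ⟨N, -, hF⟩ := Cfsg.Agent.Helper29.exists_frobPair A hFC
  obtain ⟨Z, hZbot, hZN, hZc, hZA⟩ := hF.exists_invariant_abelian
  have hZA' : ¬ Z ≤ A := by
    intro h
    apply hZbot
    rw [eq_bot_iff]
    intro z hz
    exact Subgroup.mem_bot.mpr (hF.disjoint (hZN hz) (h hz))
  have hsup : Z ⊔ A = ⊤ := by
    apply hA.2
    exact lt_of_le_of_ne le_sup_right (fun h => hZA' (h ▸ le_sup_left))
  have hZn : Z.Normal := by
    have : Z ⊔ A ≤ Subgroup.normalizer (Z : Set Q) :=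
      sup_le Subgroup.le_normalizer (Subgroup.le_normalizer_iff.mpr hZA)
    rw [hsup, top_le_iff] at this
    exact Subgroup.normalizer_eq_top_iff.mp this
  have hder : ⁅(⊤ : Subgroup Q), ⊤⁆ ≤ Z := by
    rw [Subgroup.commutator_le]
    intro g _ h _
    have hk : ∀ x : Q, QuotientGroup.mk' Z x = 1 ↔ x ∈ Z := fun x => QuotientGroup.eq_one_iff x
    rw [← hk, map_commutatorElement, commutatorElement_eq_one_iff_commute]
    have hg : g ∈ Z ⊔ A := hsup ▸ Subgroup.mem_top g
    have hh : h ∈ Z ⊔ A := hsup ▸ Subgroup.mem_top h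
    rw [← SetLike.mem_coe, Subgroup.normal_mul] at hg hh
    obtain ⟨z, hz, a, ha, rfl⟩ := hg
    obtain ⟨z', hz', a', ha', rfl⟩ := hh
    rw [map_mul, map_mul, (hk z).mpr hz, (hk z').mpr hz', one_mul, one_mul]
    show _ * _ = _ * _
    rw [← map_mul, ← map_mul, hAc a ha a' ha']
  have h2 : derivedSeries Q 2 = ⁅⁅(⊤ : Subgroup Q), ⊤⁆, ⁅(⊤ : Subgroup Q), ⊤⁆⁆ := rfl
  rw [h2, eq_bot_iff]
  calc _ ≤ ⁅Z, Z⁆ := Subgroup.commutator_mono hder hder
    _ = ⊥ := by
      rw [Subgroup.commutator_eq_bot_iff_le_centralizer]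
      intro z hz
      rw [Subgroup.mem_centralizer_iff]
      intro w hw
      exact hZc w hw z hz

/-- If a finite group has a maximal subgroup that is abelian, then the third term of its derived series is trivial (so the group is solvable of derived length at most three). -/
theorem result {G : Type*} [Group G] [Finite G] (A : Subgroup G) (hA : IsCoatom A) [IsMulCommutative A] : derivedSeries G 3 = ⊥ := by
  classical
  have hAc : ∀ a ∈ A, ∀ b ∈ A, a * b = b * a :=
    fun a ha b hb => Cfsg.Agent.Helper51.comm_of_mem inferInstance ha hb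
  have h3 : derivedSeries G 3 = ⁅derivedSeries G 2, derivedSeries G 2⁆ := rfl
  by_cases hAn : A.Normal
  · obtain ⟨g, hg⟩ : ∃ g, g ∉ A := by
      by_contra h
      push Not at h
      exact hA.1 (eq_top_iff.mpr (fun x _ => h x))
    have hsup : A ⊔ Subgroup.zpowers g = ⊤ :=
      hA.2 _ (lt_of_le_of_ne le_sup_left (fun h => hg (h ▸
        (le_sup_right : Subgroup.zpowers g ≤ A ⊔ Subgroup.zpowers g) (Subgroup.mem_zpowers g))))
    have hder : ⁅(⊤ : Subgroup G), ⊤⁆ ≤ A := by
      rw [Subgroup.commutator_le]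
      intro x _ y _
      have hk : ∀ x : G, QuotientGroup.mk' A x = 1 ↔ x ∈ A := fun x => QuotientGroup.eq_one_iff x
      rw [← hk, map_commutatorElement, commutatorElement_eq_one_iff_commute]
      have hx : x ∈ A ⊔ Subgroup.zpowers g := hsup ▸ Subgroup.mem_top x
      have hy : y ∈ A ⊔ Subgroup.zpowers g := hsup ▸ Subgroup.mem_top y
      rw [← SetLike.mem_coe, Subgroup.normal_mul] at hx hy
      obtain ⟨a, ha, c, hc, rfl⟩ := hx
      obtain ⟨b, hb, d, hd, rfl⟩ := hy
      obtain ⟨k, rfl⟩ := Subgroup.mem_zpowers_iff.mp hc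
      obtain ⟨l, rfl⟩ := Subgroup.mem_zpowers_iff.mp hd
      rw [map_mul, map_mul, (hk a).mpr ha, (hk b).mpr hb, one_mul, one_mul, map_zpow, map_zpow]
      exact (Commute.refl _).zpow_zpow k l
    have hD2 : derivedSeries G 2 = ⊥ := by
      have h2 : derivedSeries G 2 = ⁅⁅(⊤ : Subgroup G), ⊤⁆, ⁅(⊤ : Subgroup G), ⊤⁆⁆ := rfl
      rw [h2, eq_bot_iff]
      calc _ ≤ ⁅A, A⁆ := Subgroup.commutator_mono hder hder
        _ = ⊥ := by
          rw [Subgroup.commutator_eq_bot_iff_le_centralizer]
          intro z hz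
          rw [Subgroup.mem_centralizer_iff]
          intro w hw
          exact hAc w hw z hz
    rw [h3, hD2]
    exact Subgroup.commutator_bot_left _
  · have hNA : Subgroup.normalizer (A : Set G) = A := by
      by_contra h
      have hlt : A < Subgroup.normalizer (A : Set G) := lt_of_le_of_ne Subgroup.le_normalizer (Ne.symm h)
      exact hAn (Subgroup.normalizer_eq_top_iff.mp (hA.2 _ hlt))
    have hZA : Subgroup.center G ≤ A := by
      by_contra h
      have hlt : A < A ⊔ Subgroup.center G :=
        lt_of_le_of_ne le_sup_left (fun h' => h (h' ▸ le_sup_right))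
      have htop := hA.2 _ hlt
      apply hAn
      have : A ⊔ Subgroup.center G ≤ Subgroup.normalizer (A : Set G) :=
        sup_le Subgroup.le_normalizer (Subgroup.center_le_normalizer _)
      rw [htop, top_le_iff] at this
      exact Subgroup.normalizer_eq_top_iff.mp this
    have hTI0 : ∀ g : G, g ∉ A → ∀ x ∈ A, g⁻¹ * x * g ∈ A → x ∈ Subgroup.center G := by
      intro g hg x hx hgx
      have hsup : A ⊔ MulAut.conj g • A = ⊤ := by
        apply hA.2
        refine lt_of_le_of_ne le_sup_left (fun h => ?_)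
        have hle : MulAut.conj g • A ≤ A := by
          have h' : MulAut.conj g • A ≤ A ⊔ MulAut.conj g • A := le_sup_right
          rwa [← h] at h'
        have hgN : g ∈ Subgroup.normalizer (A : Set G) :=
          Cfsg.Agent.Helper10.mem_normalizer_of_conj_smul_eq (Cfsg.Agent.Helper10.conj_smul_eq_of_ge hle)
        rw [hNA] at hgN
        exact hg hgN
      have hle : A ⊔ MulAut.conj g • A ≤ Subgroup.centralizer {x} := by
        refine sup_le ?_ ?_
        · intro a ha
          rw [Subgroup.mem_centralizer_singleton_iff]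
          exact hAc a ha x hx
        · intro b hb
          rw [Cfsg.Agent.Helper10.mem_conj_smul_iff] at hb
          rw [Subgroup.mem_centralizer_singleton_iff]
          have h4 := hAc _ hb _ hgx
          calc b * x = g * ((g⁻¹ * b * g) * (g⁻¹ * x * g)) * g⁻¹ := by group
            _ = g * ((g⁻¹ * x * g) * (g⁻¹ * b * g)) * g⁻¹ := by rw [h4]
            _ = x * b := by group
      rw [Subgroup.mem_center_iff]
      intro y
      have hy : y ∈ A ⊔ MulAut.conj g • A := hsup ▸ Subgroup.mem_top y
      have := hle hy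
      rw [Subgroup.mem_centralizer_singleton_iff] at this
      exact this
    have hπs : Function.Surjective (QuotientGroup.mk' (Subgroup.center G)) :=
      QuotientGroup.mk'_surjective _
    have hker : ∀ x : G, QuotientGroup.mk' (Subgroup.center G) x = 1 ↔ x ∈ Subgroup.center G :=
      fun x => QuotientGroup.eq_one_iff x
    have hcm : (A.map (QuotientGroup.mk' (Subgroup.center G))).comap
        (QuotientGroup.mk' (Subgroup.center G)) = A := by
      rw [QuotientGroup.comap_map_mk', sup_eq_right.mpr hZA]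
    have hmem : ∀ x : G, QuotientGroup.mk' (Subgroup.center G) x ∈
        A.map (QuotientGroup.mk' (Subgroup.center G)) ↔ x ∈ A := by
      intro x
      rw [← Subgroup.mem_comap, hcm]
    have hcoatom : IsCoatom (A.map (QuotientGroup.mk' (Subgroup.center G))) := by
      constructor
      · intro h
        apply hA.1
        rw [← hcm, h, Subgroup.comap_top]
      · intro B hB
        have h1 : A ≤ B.comap (QuotientGroup.mk' (Subgroup.center G)) := by
          rw [← hcm]; exact Subgroup.comap_mono hB.le
        have h2 : B.comap (QuotientGroup.mk' (Subgroup.center G)) ≠ A := by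
          intro h
          apply hB.ne
          rw [← Subgroup.map_comap_eq_self_of_surjective hπs B, h]
        have h3 := hA.2 _ (lt_of_le_of_ne h1 (Ne.symm h2))
        rw [← Subgroup.map_comap_eq_self_of_surjective hπs B, h3, Subgroup.map_top_of_surjective _ hπs]
    have hbarc : ∀ a ∈ A.map (QuotientGroup.mk' (Subgroup.center G)),
        ∀ b ∈ A.map (QuotientGroup.mk' (Subgroup.center G)), a * b = b * a := by
      rintro _ ⟨a, ha, rfl⟩ _ ⟨b, hb, rfl⟩
      rw [← map_mul, ← map_mul, hAc a ha b hb]
    have hbarTI : ∀ g : G ⧸ Subgroup.center G, g ∉ A.map (QuotientGroup.mk' (Subgroup.center G)) →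
        ∀ x : G ⧸ Subgroup.center G, x ∈ A.map (QuotientGroup.mk' (Subgroup.center G)) →
        g⁻¹ * x * g ∈ A.map (QuotientGroup.mk' (Subgroup.center G)) → x = 1 := by
      intro g hg x hx hgx
      obtain ⟨g, rfl⟩ := hπs g
      obtain ⟨x, hx', rfl⟩ := hx
      rw [hmem] at hg
      rw [← map_inv, ← map_mul, ← map_mul, hmem] at hgx
      exact (hker x).mpr (hTI0 g hg x hx' hgx)
    have hbarbot : A.map (QuotientGroup.mk' (Subgroup.center G)) ≠ ⊥ := by
      intro h
      apply hAn
      have hle : A ≤ Subgroup.center G := by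
        intro a ha
        rw [← hker]
        have : QuotientGroup.mk' (Subgroup.center G) a ∈ A.map (QuotientGroup.mk' (Subgroup.center G)) :=
          Subgroup.mem_map_of_mem _ ha
        rw [h, Subgroup.mem_bot] at this
        exact this
      have hAZ : A = Subgroup.center G := le_antisymm hle hZA
      rw [hAZ]
      infer_instance
    have hQ := lemF (A.map (QuotientGroup.mk' (Subgroup.center G))) hcoatom hbarc hbarTI hbarbot
    have hD2 : derivedSeries G 2 ≤ Subgroup.center G := by
      intro x hx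
      rw [← hker]
      have : QuotientGroup.mk' (Subgroup.center G) x ∈
          (derivedSeries G 2).map (QuotientGroup.mk' (Subgroup.center G)) := Subgroup.mem_map_of_mem _ hx
      rw [map_derivedSeries_eq hπs, hQ, Subgroup.mem_bot] at this
      exact this
    rw [h3, eq_bot_iff, Subgroup.commutator_le]
    intro z hz w _
    rw [Subgroup.mem_bot, commutatorElement_eq_one_iff_mul_comm]
    exact ((Subgroup.mem_center_iff.mp (hD2 hz)) w).symm

end Cfsg.Agent.S0556
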