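import Cfsg.Statements.S0559
import Mathlib

set_option autoImplicit false
open Pointwise
open Cfsg

namespace Cfsg.Agent.S0559

open Pointwise

theorem conj_smul_eq_of_mem {G : Type*} [Group G] (H : Subgroup G) (x h : G) (hh : h ∈ H) :
    MulAut.conj (x * h) • H = MulAut.conj x • H := by
  ext z
  simp only [Subgroup.mem_pointwise_smul_iff_inv_smul_mem, MulAut.smul_def, ← map_inv, MulAut.conj_apply, mul_inv_rev, inv_inv]
  constructor
  · intro hz
    have := H.mul_mem (H.mul_mem hh hz) (H.inv_mem hh)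
    convert this using 1
    group
  · intro hz
    have := H.mul_mem (H.mul_mem (H.inv_mem hh) hz) hh
    convert this using 1
    group

/-- Let G = HK be a finite group (every element a product of an element of H and an element of K), and let A and B be conjugates of H and K. Then every element is a product of an element of A and one of B, and there is g with A = gHg⁻¹ and B = gKg⁻¹ simultaneously. -/
theorem result {G : Type*} [Group G] [Finite G] (H K A B : Subgroup G) (hHK : ∀ g : G, ∃ h ∈ H, ∃ k ∈ K, g = h * k) (hA : ∃ x : G, A = MulAut.conj x • H) (hB : ∃ y : G, B = MulAut.conj y • K) : (∀ g : G, ∃ a ∈ A, ∃ b ∈ B, g = a * b) ∧ ∃ g : G, A = MulAut.conj g • H ∧ B = MulAut.conj g • K := by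
  obtain ⟨x, rfl⟩ := hA
  obtain ⟨y, rfl⟩ := hB
  obtain ⟨h, hh, k, hk, hxy⟩ := hHK (x⁻¹ * y)
  have hg0 : x * h = y * k⁻¹ := by
    have : y = x * (h * k) := by rw [← hxy]; group
    rw [this]; group
  have e1 : MulAut.conj (x * h) • H = MulAut.conj x • H := conj_smul_eq_of_mem H x h hh
  have e2 : MulAut.conj (x * h) • K = MulAut.conj y • K := by
    rw [hg0]; exact conj_smul_eq_of_mem K y k⁻¹ (K.inv_mem hk)
  refine ⟨?_, x * h, e1.symm, e2.symm⟩
  intro g
  obtain ⟨h', hh', k', hk', hg⟩ := hHK ((x * h)⁻¹ * g * (x * h))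
  refine ⟨(x * h) * h' * (x * h)⁻¹, ?_, (x * h) * k' * (x * h)⁻¹, ?_, ?_⟩
  · rw [← e1]
    exact ⟨h', hh', by simp [MulAut.conj_apply, mul_assoc]⟩
  · rw [← e2]
    exact ⟨k', hk', by simp [MulAut.conj_apply, mul_assoc]⟩
  · have : g = (x * h) * (h' * k') * (x * h)⁻¹ := by rw [← hg]; group
    rw [this]; group

end Cfsg.Agent.S0559
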