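import Cfsg.Statements.S0563
import Cfsg.Agent.Helper2.KWCoprime

set_option autoImplicit false
open Pointwise
open Cfsg

namespace Cfsg.Agent.S0563

/-- If a finite group G is the product AB of two nilpotent subgroups of coprime orders, then G is solvable, and for every Sylow p-subgroup P of A and Sylow q-subgroup Q of B the product set PQ is a subgroup. -/
theorem result {G : Type*} [Group G] [Finite G] (A B : Subgroup G) (hA : Group.IsNilpotent A) (hB : Group.IsNilpotent B) (hcop : (Nat.card A).Coprime (Nat.card B)) (hAB : ∀ g : G, ∃ a ∈ A, ∃ b ∈ B, g = a * b) : Group.IsSolvable G ∧ ∀ (p q : ℕ) [Fact p.Prime] [Fact q.Prime] (P : Sylow p A) (Q : Sylow q B), ∃ S : Subgroup G, (S : Set G) = (((P : Subgroup A).map A.subtype : Subgroup G) : Set G) * (((Q : Subgroup B).map B.subtype : Subgroup G) : Set G) := by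
  haveI hsol : Group.IsSolvable G := Cfsg.Agent.Helper2.kw_coprime_solvable A B hA hB hcop hAB
  refine ⟨hsol, ?_⟩
  intro p q _ _ P Q
  have hc : Cfsg.Agent.Helper2.KWC A B := ⟨hA, hB, hcop, hAB⟩
  have hPn : (((P : Subgroup A).map A.subtype).subgroupOf A).Normal := by
    have e : ((P : Subgroup A).map A.subtype).subgroupOf A = (P : Subgroup A) :=
      Subgroup.comap_map_eq_self_of_injective A.subtype_injective _
    rw [e]; infer_instance
  have hQn : (((Q : Subgroup B).map B.subtype).subgroupOf B).Normal := by
    have e : ((Q : Subgroup B).map B.subtype).subgroupOf B = (Q : Subgroup B) :=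
      Subgroup.comap_map_eq_self_of_injective B.subtype_injective _
    rw [e]; infer_instance
  have hPh : (Nat.card ((P : Subgroup A).map A.subtype)).Coprime
      ((P : Subgroup A).map A.subtype).index := by
    rw [Subgroup.index_map_subtype, Subgroup.card_map_of_injective A.subtype_injective]
    apply Nat.Coprime.mul_right (Sylow.card_coprime_index P)
    exact Nat.Coprime.coprime_dvd_left (Subgroup.card_subgroup_dvd_card _) hc.hall
  have hQh : (Nat.card ((Q : Subgroup B).map B.subtype)).Coprime
      ((Q : Subgroup B).map B.subtype).index := by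
    rw [Subgroup.index_map_subtype, Subgroup.card_map_of_injective B.subtype_injective]
    apply Nat.Coprime.mul_right (Sylow.card_coprime_index Q)
    exact Nat.Coprime.coprime_dvd_left (Subgroup.card_subgroup_dvd_card _) hc.symm.hall
  obtain ⟨S, hS⟩ := Cfsg.Agent.S0561.result A B _ _ hAB (Subgroup.map_subtype_le _) hPn
    (Subgroup.map_subtype_le _) hQn hPh hQh 1 1
  rw [map_one, one_smul, one_smul] at hS
  exact ⟨S, hS⟩

end Cfsg.Agent.S0563
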