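import Cfsg.Statements.S0567
import Mathlib

set_option autoImplicit false
open Cfsg

namespace Cfsg.Agent.S0567

open scoped commutatorElement

lemma comm_norm_left {G : Type*} [Group G] (K H : Subgroup G) :
    ∀ k' ∈ K, ∀ x ∈ ⁅K, H⁆, k' * x * k'⁻¹ ∈ ⁅K, H⁆ := by
  intro k' hk'
  have : ⁅K, H⁆ ≤ (⁅K, H⁆).comap (MulAut.conj k').toMonoidHom := by
    rw [Subgroup.commutator_le]
    intro k hk h hh
    rw [Subgroup.mem_comap]
    have e : (MulAut.conj k').toMonoidHom ⁅k, h⁆ = ⁅k' * k, h⁆ * ⁅k', h⁆⁻¹ := by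
      simp only [MulEquiv.coe_toMonoidHom, MulAut.conj_apply, commutatorElement_def]; group
    rw [e]
    exact Subgroup.mul_mem _ (Subgroup.commutator_mem_commutator (K.mul_mem hk' hk) hh)
      (Subgroup.inv_mem _ (Subgroup.commutator_mem_commutator hk' hh))
  intro x hx
  have := this hx
  rwa [Subgroup.mem_comap, MulEquiv.coe_toMonoidHom, MulAut.conj_apply] at this

lemma comm_norm_right {G : Type*} [Group G] (K H : Subgroup G) :
    ∀ h' ∈ H, ∀ x ∈ ⁅K, H⁆, h' * x * h'⁻¹ ∈ ⁅K, H⁆ := by
  intro h' hh'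
  have : ⁅K, H⁆ ≤ (⁅K, H⁆).comap (MulAut.conj h').toMonoidHom := by
    rw [Subgroup.commutator_le]
    intro k hk h hh
    rw [Subgroup.mem_comap]
    have e : (MulAut.conj h').toMonoidHom ⁅k, h⁆ = ⁅k, h'⁆⁻¹ * ⁅k, h' * h⁆ := by
      simp only [MulEquiv.coe_toMonoidHom, MulAut.conj_apply, commutatorElement_def]; group
    rw [e]
    exact Subgroup.mul_mem _ (Subgroup.inv_mem _ (Subgroup.commutator_mem_commutator hk hh'))
      (Subgroup.commutator_mem_commutator hk (H.mul_mem hh' hh))
  intro x hx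
  have := this hx
  rwa [Subgroup.mem_comap, MulEquiv.coe_toMonoidHom, MulAut.conj_apply] at this

lemma conj_sup_mem {G : Type*} [Group G] (S A B T : Subgroup G)
    (hA : ∀ s ∈ S, ∀ a ∈ A, s * a * s⁻¹ ∈ T) (hB : ∀ s ∈ S, ∀ b ∈ B, s * b * s⁻¹ ∈ T) :
    ∀ s ∈ S, ∀ x ∈ A ⊔ B, s * x * s⁻¹ ∈ T := by
  intro s hs
  have : A ⊔ B ≤ T.comap (MulAut.conj s).toMonoidHom := by
    refine sup_le ?_ ?_
    · intro a ha
      rw [Subgroup.mem_comap, MulEquiv.coe_toMonoidHom, MulAut.conj_apply]
      exact hA s hs a ha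
    · intro b hb
      rw [Subgroup.mem_comap, MulEquiv.coe_toMonoidHom, MulAut.conj_apply]
      exact hB s hs b hb
  intro x hx
  have := this hx
  rwa [Subgroup.mem_comap, MulEquiv.coe_toMonoidHom, MulAut.conj_apply] at this

/-- A subgroup H of a group G is subnormal exactly when, for some m, the subgroup obtained from G by taking the commutator with H m times in succession is contained in H. -/
theorem result {G : Type*} [Group G] (H : Subgroup G) : H.IsSubnormal ↔ ∃ m : ℕ, (fun K : Subgroup G => ⁅K, H⁆)^[m] ⊤ ≤ H := by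
  constructor
  · intro hs
    induction hs with
    | top => exact ⟨0, le_rfl⟩
    | step H K h_le hSubn hN ih =>
      obtain ⟨m, hm⟩ := ih
      refine ⟨m + 1, ?_⟩
      have mono : ∀ j, (fun X : Subgroup G => ⁅X, H⁆)^[j] ⊤ ≤ (fun X : Subgroup G => ⁅X, K⁆)^[j] ⊤ := by
        intro j
        induction j with
        | zero => exact le_rfl
        | succ j ihj =>
          rw [Function.iterate_succ_apply', Function.iterate_succ_apply']
          exact Subgroup.commutator_mono ihj h_le
      rw [Function.iterate_succ_apply']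
      have hKH : K ≤ Subgroup.normalizer (H : Set G) :=
        (Subgroup.normal_subgroupOf_iff_le_normalizer h_le).mp hN
      calc ⁅(fun X : Subgroup G => ⁅X, H⁆)^[m] ⊤, H⁆ ≤ ⁅K, H⁆ :=
            Subgroup.commutator_mono ((mono m).trans hm) le_rfl
        _ ≤ H := by
          rw [Subgroup.commutator_le]
          intro k hk h hh
          have := (Subgroup.le_normalizer_iff.mp hKH) k hk h hh
          rw [commutatorElement_def]
          exact H.mul_mem this (H.inv_mem hh)
  · rintro ⟨m, hm⟩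
    have key : ∀ j, (H ⊔ (fun X : Subgroup G => ⁅X, H⁆)^[j] ⊤).IsSubnormal := by
      intro j
      induction j with
      | zero =>
        have : H ⊔ (fun X : Subgroup G => ⁅X, H⁆)^[0] ⊤ = ⊤ := by simp
        rw [this]
        exact Subgroup.IsSubnormal.top
      | succ j ih =>
        rw [Function.iterate_succ_apply']
        generalize (fun X : Subgroup G => ⁅X, H⁆)^[j] ⊤ = K at ih
        have hle : H ⊔ ⁅K, H⁆ ≤ H ⊔ K := by
          refine sup_le le_sup_left ?_
          rw [Subgroup.commutator_le]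
          intro k hk h hh
          rw [commutatorElement_def]
          have hk' : k ∈ H ⊔ K := (le_sup_right : K ≤ H ⊔ K) hk
          have hh' : h ∈ H ⊔ K := (le_sup_left : H ≤ H ⊔ K) hh
          exact Subgroup.mul_mem _ (Subgroup.mul_mem _ (Subgroup.mul_mem _ hk' hh') (Subgroup.inv_mem _ hk'))
            (Subgroup.inv_mem _ hh')
        refine Subgroup.IsSubnormal.step _ _ hle ih ?_
        rw [Subgroup.normal_subgroupOf_iff_le_normalizer hle]
        refine sup_le ?_ ?_
        · rw [Subgroup.le_normalizer_iff]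
          refine conj_sup_mem H H ⁅K, H⁆ (H ⊔ ⁅K, H⁆) ?_ ?_
          · intro s hs a ha
            exact (le_sup_left : H ≤ H ⊔ ⁅K, H⁆) (H.mul_mem (H.mul_mem hs ha) (H.inv_mem hs))
          · intro s hs b hb
            exact (le_sup_right : ⁅K, H⁆ ≤ H ⊔ ⁅K, H⁆) (comm_norm_right K H s hs b hb)
        · rw [Subgroup.le_normalizer_iff]
          refine conj_sup_mem K H ⁅K, H⁆ (H ⊔ ⁅K, H⁆) ?_ ?_
          · intro s hs a ha
            have e : s * a * s⁻¹ = ⁅s, a⁆ * a := by rw [commutatorElement_def]; group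
            rw [e]
            exact Subgroup.mul_mem _ ((le_sup_right : ⁅K, H⁆ ≤ H ⊔ ⁅K, H⁆)
              (Subgroup.commutator_mem_commutator hs ha)) ((le_sup_left : H ≤ H ⊔ ⁅K, H⁆) ha)
          · intro s hs b hb
            exact (le_sup_right : ⁅K, H⁆ ≤ H ⊔ ⁅K, H⁆) (comm_norm_left K H s hs b hb)
    have := key m
    rwa [sup_eq_left.mpr hm] at this

end Cfsg.Agent.S0567
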