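import Cfsg.Statements.S0569
import Mathlib
import Cfsg.Agent.S0570
import Cfsg.Agent.Helper1.MinNormal

set_option autoImplicit false
open Cfsg

namespace Cfsg.Agent.S0569

open scoped Pointwise

universe u

/-- If `A` normalizes `B`, then `[A : A ∩ B]` divides `[X : B]`. -/
theorem relIndex_dvd_index_of_le_normalizer {X : Type*} [Group X] (A B : Subgroup X)
    (h : A ≤ Subgroup.normalizer (B : Set X)) : B.relIndex A ∣ B.index := by
  haveI : (B.subgroupOf (Subgroup.normalizer (B : Set X))).Normal :=
    Subgroup.normal_in_normalizer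
  have h1 : (B.subgroupOf (Subgroup.normalizer (B : Set X))).relIndex
      (A.subgroupOf (Subgroup.normalizer (B : Set X))) = B.relIndex A :=
    Subgroup.relIndex_subgroupOf h
  rw [← h1, ← Subgroup.relIndex_sup_right]
  exact (Subgroup.relIndex_dvd_index_of_le le_sup_right).trans
    (Subgroup.relIndex_dvd_index_of_le Subgroup.le_normalizer)

/-- A complement system whose members have prime-power relative index in `H` restricts to `H`. -/
theorem cs_subgroupOf {G : Type u} [Group G] [Finite G] (H : Subgroup G)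
    (K : Nat.Primes → Subgroup G) (hK : IsComplementSystem K)
    (h : ∀ p : Nat.Primes, ∃ k : ℕ, (K p).relIndex H ∣ (p : ℕ) ^ k) :
    IsComplementSystem (fun p => (K p).subgroupOf H) := by
  intro p
  obtain ⟨k, hk⟩ := h p
  obtain ⟨b, -, hb⟩ := (Nat.dvd_prime_pow p.2).mp hk
  have hcard := Helper9.relIndex_mul_card_inf (K p) H
  have hcop : ¬ (p : ℕ) ∣ Nat.card (K p ⊓ H : Subgroup G) := by
    intro hd
    have h2 : (p : ℕ) ∣ Nat.card (K p) := hd.trans (Subgroup.card_dvd_of_le inf_le_left)
    exact (Nat.Prime.coprime_iff_not_dvd p.2).mp (Helper9.cs_card_coprime hK p).symm h2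
  change (K p).relIndex H = (p : ℕ) ^ (Nat.card H).factorization p
  rw [← hcard, hb, Nat.factorization_mul (pow_pos p.2.pos b).ne' Nat.card_pos.ne',
    Finsupp.add_apply, Nat.factorization_eq_zero_of_not_dvd hcop, add_zero,
    Nat.Prime.factorization_pow p.2, Finsupp.single_eq_same]

/-- The quotient of `H` by `N ∩ H` is nilpotent when the image of `H` modulo `N` is. -/
theorem nilpotent_quotient_subgroupOf {G : Type*} [Group G] (N : Subgroup G) [N.Normal]
    (H : Subgroup G) (h : Group.IsNilpotent (H.map (QuotientGroup.mk' N))) :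
    Group.IsNilpotent (↥H ⧸ N.subgroupOf H) := by
  haveI := h
  have hsurj : Function.Surjective ((QuotientGroup.mk' N).subgroupMap H) :=
    MonoidHom.subgroupMap_surjective _ _
  have hker : N.subgroupOf H = ((QuotientGroup.mk' N).subgroupMap H).ker := by
    ext x
    rw [MonoidHom.mem_ker, Subgroup.mem_subgroupOf, Subtype.ext_iff]
    change (x : G) ∈ N ↔ QuotientGroup.mk' N (x : G) = 1
    rw [← MonoidHom.mem_ker, QuotientGroup.ker_mk']
  exact Group.nilpotent_of_mulEquiv
    ((QuotientGroup.quotientKerEquivOfSurjective _ hsurj).symm.trans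
      (QuotientGroup.quotientMulEquivOfEq hker.symm))



/-- Lifting step: from a Carter subgroup of `G ⧸ N` containing the system normalizer of the image
system, into which the image system reduces, to such a Carter subgroup of `G`. -/
theorem step {G : Type u} [Group G] [Finite G] [Group.IsSolvable G] (N : Subgroup G) [N.Normal]
    (hNnil : Group.IsNilpotent N) (K : Nat.Primes → Subgroup G) (hK : IsComplementSystem K)
    (Cb : Subgroup (G ⧸ N)) (hCb : IsCarterSubgroup Cb)
    (hDCb : systemNormalizer (fun p => (K p).map (QuotientGroup.mk' N)) ≤ Cb)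
    (hrelCb : ∀ p : Nat.Primes, ∃ k : ℕ,
      ((K p).map (QuotientGroup.mk' N)).relIndex Cb ∣ (p : ℕ) ^ k) :
    ∃ C : Subgroup G, IsCarterSubgroup C ∧ systemNormalizer K ≤ C ∧
      ∀ p : Nat.Primes, ∃ k : ℕ, (K p).relIndex C ∣ (p : ℕ) ^ k := by
  obtain ⟨H, hH⟩ : ∃ H : Subgroup G, H = Cb.comap (QuotientGroup.mk' N) := ⟨_, rfl⟩
  have hmemH : ∀ x : G, x ∈ H ↔ QuotientGroup.mk' N x ∈ Cb := by
    intro x; rw [hH, Subgroup.mem_comap]
  have hNH : N ≤ H := by
    intro x hx
    rw [hmemH]
    have : QuotientGroup.mk' N x = 1 := by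
      rw [← MonoidHom.mem_ker, QuotientGroup.ker_mk']; exact hx
    rw [this]; exact Cb.one_mem
  have hHmap : H.map (QuotientGroup.mk' N) = Cb := by
    rw [hH]
    exact Subgroup.map_comap_eq_self_of_surjective (QuotientGroup.mk'_surjective N) Cb
  -- the system reduces into `H`
  have hrelH : ∀ p : Nat.Primes, ∃ k : ℕ, (K p).relIndex H ∣ (p : ℕ) ^ k := by
    intro p
    obtain ⟨k, hk⟩ := hrelCb p
    have e1 : (K p ⊔ N).relIndex H = ((K p).map (QuotientGroup.mk' N)).relIndex Cb := by
      rw [← Helper1.comap_map_mk' N (K p), Subgroup.relIndex_comap, hHmap]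
    have hB : (K p ⊔ N) ⊓ H = N ⊔ (K p ⊓ H) := by
      apply le_antisymm
      · rintro x ⟨hx1, hx2⟩
        obtain ⟨k', hk', m, hm, rfl⟩ := Subgroup.mem_sup_of_normal_right.mp hx1
        have hkH : k' ∈ H := by
          have := H.mul_mem hx2 (H.inv_mem (hNH hm))
          rwa [mul_inv_cancel_right] at this
        exact Subgroup.mul_mem _ (Subgroup.mem_sup_right ⟨hk', hkH⟩) (Subgroup.mem_sup_left hm)
      · exact sup_le (le_inf le_sup_right hNH) (inf_le_inf_right _ le_sup_left)
    have h1 := Subgroup.relIndex_mul_relIndex (K p ⊓ H) ((K p ⊔ N) ⊓ H) H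
      (inf_le_inf_right _ le_sup_left) inf_le_right
    have h2 : (K p ⊓ H).relIndex H = (K p).relIndex H := Subgroup.inf_relIndex_right _ _
    have h3 : ((K p ⊔ N) ⊓ H).relIndex H = (K p ⊔ N).relIndex H := Subgroup.inf_relIndex_right _ _
    have h4 : (K p ⊓ H).relIndex ((K p ⊔ N) ⊓ H) = (K p).relIndex N := by
      rw [hB, ← Helper9.relIndex_eq_relIndex_sup_of_normal, ← Subgroup.inf_relIndex_right,
        inf_assoc, inf_of_le_right hNH, Subgroup.inf_relIndex_right]
    rw [h2, h3, h4] at h1
    refine ⟨(Nat.card G).factorization p + k, ?_⟩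
    rw [← h1, pow_add]
    exact Nat.mul_dvd_mul (hK p ▸ Helper9.relIndex_dvd_index_of_normal_right (K p) N) (e1 ▸ hk)
  have hKH := cs_subgroupOf H K hK hrelH
  -- `H` is nilpotent-by-nilpotent
  have hF : Group.IsNilpotent (N.subgroupOf H) := by
    haveI := hNnil
    exact Group.nilpotent_of_mulEquiv (Subgroup.subgroupOfEquivOfLe hNH).symm
  have hHF : Group.IsNilpotent (↥H ⧸ N.subgroupOf H) := by
    apply nilpotent_quotient_subgroupOf
    rw [hHmap]; exact hCb.1
  have hcarH : IsCarterSubgroup (systemNormalizer (fun p => (K p).subgroupOf H)) :=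
    (S0570.result (N.subgroupOf H) hF hHF _).mpr ⟨_, hKH, rfl⟩
  obtain ⟨DH, hDH⟩ : ∃ DH : Subgroup ↥H, DH = systemNormalizer (fun p => (K p).subgroupOf H) :=
    ⟨_, rfl⟩
  rw [← hDH] at hcarH
  have hDF : DH ⊔ N.subgroupOf H = ⊤ := by
    have h1 := Helper9.cs_systemNormalizer_map hKH (N.subgroupOf H)
    haveI := hHF
    rw [S0570.systemNormalizer_eq_top_of_nilpotent _ (Helper9.cs_map hKH (N.subgroupOf H)),
      ← hDH] at h1
    have h2 := congrArg (Subgroup.comap (QuotientGroup.mk' (N.subgroupOf H))) h1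
    rw [Helper1.comap_map_mk', Subgroup.comap_top] at h2
    exact h2.symm
  have hCN : DH.map H.subtype ⊔ N = H := by
    have h1 := congrArg (Subgroup.map H.subtype) hDF
    rw [Subgroup.map_sup, Subgroup.subgroupOf_map_subtype, inf_of_le_left hNH,
      ← MonoidHom.range_eq_map, Subgroup.range_subtype] at h1
    exact h1
  have hCmap : (DH.map H.subtype).map (QuotientGroup.mk' N) = Cb := by
    have h1 := congrArg (Subgroup.map (QuotientGroup.mk' N)) hCN
    rw [Subgroup.map_sup, QuotientGroup.map_mk'_self, sup_bot_eq, hHmap] at h1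
    exact h1
  have hmemDH : ∀ (x : G) (hx : x ∈ H), (∀ p : Nat.Primes, x ∈ Subgroup.normalizer (K p : Set G)) →
      (⟨x, hx⟩ : ↥H) ∈ DH := by
    intro x hx hxn
    rw [hDH, Helper9.mem_systemNormalizer]
    intro p
    rw [Subgroup.mem_normalizer_iff]
    intro h
    exact (Subgroup.mem_normalizer_iff.mp (hxn p)) h
  refine ⟨DH.map H.subtype, ⟨?_, ?_⟩, ?_, ?_⟩
  · haveI := hcarH.1
    exact Group.nilpotent_of_mulEquiv (DH.equivMapOfInjective H.subtype H.subtype_injective)
  · apply le_antisymm _ Subgroup.le_normalizer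
    intro x hx
    have hxH : x ∈ H := by
      rw [hmemH]
      have h1 : QuotientGroup.mk' N x ∈ Subgroup.normalizer
          (((DH.map H.subtype).map (QuotientGroup.mk' N) : Subgroup (G ⧸ N)) : Set (G ⧸ N)) :=
        Subgroup.le_normalizer_map _ (Subgroup.mem_map_of_mem _ hx)
      rw [hCmap, hCb.2] at h1
      exact h1
    have h2 : (⟨x, hxH⟩ : ↥H) ∈ Subgroup.normalizer (DH : Set ↥H) := by
      rw [Subgroup.mem_normalizer_iff]
      intro h
      rw [← Helper1.mem_map_subtype_iff H DH h, ← Helper1.mem_map_subtype_iff H DH]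
      exact Subgroup.mem_normalizer_iff.mp hx h
    rw [hcarH.2] at h2
    exact (Helper1.mem_map_subtype_iff H DH ⟨x, hxH⟩).mpr h2
  · intro x hx
    have hxH : x ∈ H := by
      rw [hmemH]
      apply hDCb
      rw [Helper9.cs_systemNormalizer_map hK N]
      exact Subgroup.mem_map_of_mem _ hx
    exact (Helper1.mem_map_subtype_iff H DH ⟨x, hxH⟩).mpr
      (hmemDH x hxH (fun p => Helper9.mem_systemNormalizer.mp hx p))
  · intro p
    refine ⟨(Nat.card ↥H).factorization p, ?_⟩
    have h1 : ((K p).subgroupOf H).relIndex DH = (K p).relIndex (DH.map H.subtype) :=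
      Subgroup.relIndex_comap (K p) H.subtype DH
    rw [← h1, ← hKH p]
    apply relIndex_dvd_index_of_le_normalizer
    intro x hx
    rw [hDH] at hx
    exact Helper9.mem_systemNormalizer.mp hx p

theorem main (n : ℕ) : ∀ (G : Type u) [Group G] [Finite G] [Group.IsSolvable G],
    Nat.card G = n → ∀ K : Nat.Primes → Subgroup G, IsComplementSystem K →
      ∃ C : Subgroup G, IsCarterSubgroup C ∧ systemNormalizer K ≤ C ∧
        ∀ p : Nat.Primes, ∃ k : ℕ, (K p).relIndex C ∣ (p : ℕ) ^ k := by
  induction n using Nat.strong_induction_on with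
  | _ n ih =>
    intro G _ _ _ hn K hK
    by_cases hnil : Group.IsNilpotent G
    · haveI := hnil
      refine ⟨⊤, Helper1.isCarter_top, le_top, fun p => ⟨(Nat.card G).factorization p, ?_⟩⟩
      rw [Subgroup.relIndex_top_right, hK p]
    · have htop : (⊤ : Subgroup G) ≠ ⊥ := by
        intro h
        apply hnil
        haveI : Subsingleton (Subgroup G) := subsingleton_of_bot_eq_top h.symm
        haveI : Subsingleton G := Subgroup.subsingleton_iff.mp inferInstance
        infer_instance
      obtain ⟨N, hNn, -, hN0, hNmin⟩ := Helper1.exists_minNormal ⊤ htop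
      haveI := hNn
      haveI hNab := (Helper1.minNormal_elemAbelian N hN0 hNmin).1
      have hNnil : Group.IsNilpotent N := by
        letI : CommGroup N := { (inferInstance : Group N) with mul_comm := hNab.is_comm.comm }
        infer_instance
      have hcard : Nat.card (G ⧸ N) < n := by
        rw [← hn]; exact Helper1.card_quotient_lt N hN0
      obtain ⟨Cb, hCb, hDCb, hrelCb⟩ := ih _ hcard (G ⧸ N) rfl _ (Helper9.cs_map hK N)
      exact step N hNnil K hK Cb hCb hDCb hrelCb

/-- In a finite solvable group: each nilpotent self-normalizing subgroup contains the system normalizer of some Hall complement system, and the system normalizer of any Hall complement system lies in some nilpotent self-normalizing subgroup. -/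
theorem result {G : Type*} [Group G] [Finite G] [Group.IsSolvable G] : (∀ C : Subgroup G, Cfsg.IsCarterSubgroup C → ∃ K : Nat.Primes → Subgroup G, Cfsg.IsComplementSystem K ∧ Cfsg.systemNormalizer K ≤ C) ∧ ∀ K : Nat.Primes → Subgroup G, Cfsg.IsComplementSystem K → ∃ C : Subgroup G, Cfsg.IsCarterSubgroup C ∧ Cfsg.systemNormalizer K ≤ C := by
  constructor
  · intro C hC
    obtain ⟨K₀, hK₀⟩ := S0570.cs_exists G
    obtain ⟨C₀, hC₀, hD₀, -⟩ := main _ G rfl K₀ hK₀
    obtain ⟨g, hg⟩ := (Helper1.carter_aux _ G rfl).2 _ _ hC₀ hC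
    refine ⟨fun p => MulAut.conj g • K₀ p, Helper9.cs_conj hK₀ g, ?_⟩
    rw [S0570.systemNormalizer_conj, ← hg]
    intro x hx
    rw [Helper10.mem_conj_smul_iff] at hx ⊢
    exact hD₀ hx
  · intro K hK
    obtain ⟨C, hC, hD, -⟩ := main _ G rfl K hK
    exact ⟨C, hC, hD⟩

end Cfsg.Agent.S0569
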