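import Cfsg.Statements.S0571
import Mathlib
import Cfsg.Agent.Helper9.Supersolvable3

set_option autoImplicit false
open Cfsg

namespace Cfsg.Agent.S0571

open Subgroup

universe u

/-- In a finite cyclic group, a subgroup is contained in any subgroup of the same order. -/
theorem cyc_le_of_card_eq {C : Type*} [Group C] [Finite C] [IsCyclic C] (H K : Subgroup C)
    (h : Nat.card K = Nat.card H) : K ≤ H := by
  classical
  have : Fintype C := Fintype.ofFinite C
  intro x hx
  by_contra hxH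
  have hn : 0 < Nat.card H := Nat.card_pos
  have hle := IsCyclic.card_pow_eq_one_le (α := C) hn
  have hsub : insert x ((H : Set C).toFinset) ⊆
      Finset.univ.filter (fun a : C => a ^ Nat.card H = 1) := by
    intro y hy
    rw [Finset.mem_insert] at hy
    rw [Finset.mem_filter]
    refine ⟨Finset.mem_univ _, ?_⟩
    rcases hy with rfl | hy
    · rw [← h]
      have := pow_card_eq_one' (G := K) (x := ⟨y, hx⟩)
      exact congrArg Subtype.val this
    · rw [Set.mem_toFinset] at hy
      have := pow_card_eq_one' (G := H) (x := ⟨y, hy⟩)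
      exact congrArg Subtype.val this
  have hcard := Finset.card_le_card hsub
  rw [Finset.card_insert_of_notMem (by rw [Set.mem_toFinset]; exact hxH)] at hcard
  have h2 : ((H : Set C).toFinset).card = Nat.card H := by
    rw [Set.toFinset_card, Nat.card_eq_fintype_card]; rfl
  rw [h2] at hcard
  omega

/-- A nontrivial product of two cyclic subgroups has a nontrivial normal subgroup inside the
larger factor. -/
theorem exists_normal_le {G : Type*} [Group G] [Finite G] [Nontrivial G] (A B : Subgroup G)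
    [IsCyclic A] [IsCyclic B] (hAB : ∀ g : G, ∃ a ∈ A, ∃ b ∈ B, g = a * b)
    (hle : Nat.card B ≤ Nat.card A) :
    ∃ D : Subgroup G, D ≤ A ∧ D ≠ ⊥ ∧ D.Normal := by
  obtain ⟨⟨b₀, hb₀B⟩, hb₀⟩ := IsCyclic.exists_generator (α := B)
  obtain ⟨⟨a₀, ha₀A⟩, ha₀⟩ := IsCyclic.exists_generator (α := A)
  have hAcomm : ∀ x ∈ A, ∀ y ∈ A, x * y = y * x := by
    intro x hx y hy
    obtain ⟨i, hi⟩ := Subgroup.mem_zpowers_iff.mp (ha₀ ⟨x, hx⟩)
    obtain ⟨j, hj⟩ := Subgroup.mem_zpowers_iff.mp (ha₀ ⟨y, hy⟩)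
    have hi' : a₀ ^ i = x := by simpa using congrArg Subtype.val hi
    have hj' : a₀ ^ j = y := by simpa using congrArg Subtype.val hj
    rw [← hi', ← hj', ← zpow_add, ← zpow_add, add_comm]
  have hBgen : ∀ b ∈ B, ∃ k : ℤ, b₀ ^ k = b := by
    intro b hb
    obtain ⟨k, hk⟩ := Subgroup.mem_zpowers_iff.mp (hb₀ ⟨b, hb⟩)
    exact ⟨k, by simpa using congrArg Subtype.val hk⟩
  -- D = A ∩ b₀ A b₀⁻¹
  let D : Subgroup G := A ⊓ A.map (MulAut.conj b₀).toMonoidHom
  have hDA : D ≤ A := inf_le_left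
  have hmemD : ∀ x, x ∈ D ↔ x ∈ A ∧ b₀⁻¹ * x * b₀ ∈ A := by
    intro x
    constructor
    · rintro ⟨h1, y, hy, rfl⟩
      refine ⟨h1, ?_⟩
      have : b₀⁻¹ * (MulAut.conj b₀).toMonoidHom y * b₀ = y := by
        simp [MulAut.conj_apply, mul_assoc]
      rw [this]; exact hy
    · rintro ⟨h1, h2⟩
      refine Subgroup.mem_inf.mpr ⟨h1, b₀⁻¹ * x * b₀, h2, ?_⟩
      simp [MulAut.conj_apply, mul_assoc]
  have hcardG : Nat.card G ≤ Nat.card A * Nat.card B := by
    have hsurj : Function.Surjective (fun q : A × B => (q.1 : G) * (q.2 : G)) := by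
      intro g
      obtain ⟨a, ha, b, hb, rfl⟩ := hAB g
      exact ⟨(⟨a, ha⟩, ⟨b, hb⟩), rfl⟩
    have := Nat.card_le_card_of_surjective _ hsurj
    rwa [Nat.card_prod] at this
  have hD0 : D ≠ ⊥ := by
    intro hbot
    have hinj : Function.Injective (fun q : A × A => (q.1 : G) * (b₀ * (q.2 : G) * b₀⁻¹)) := by
      rintro ⟨⟨a1, h1⟩, ⟨a1', h1'⟩⟩ ⟨⟨a2, h2⟩, ⟨a2', h2'⟩⟩ heq
      simp only at heq
      have hz : a2⁻¹ * a1 ∈ D := by
        rw [hmemD]
        refine ⟨A.mul_mem (A.inv_mem h2) h1, ?_⟩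
        have : b₀⁻¹ * (a2⁻¹ * a1) * b₀ = a2' * a1'⁻¹ := by
          have h3 : a2⁻¹ * a1 = b₀ * a2' * b₀⁻¹ * (b₀ * a1' * b₀⁻¹)⁻¹ := by
            rw [eq_mul_inv_iff_mul_eq, mul_assoc, heq]; group
          rw [h3]; group
        rw [this]
        exact A.mul_mem h2' (A.inv_mem h1')
      rw [hbot, Subgroup.mem_bot] at hz
      have e1 : a1 = a2 := by
        have := congrArg (fun t => a2 * t) hz
        simpa using this
      subst e1
      have e2 : a1' = a2' := by
        have h4 : b₀ * a1' * b₀⁻¹ = b₀ * a2' * b₀⁻¹ := mul_left_cancel heq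
        have := congrArg (fun t => b₀⁻¹ * t * b₀) h4
        simpa [mul_assoc] using this
      subst e2
      rfl
    have hcA : Nat.card (A × A) ≤ Nat.card G := Nat.card_le_card_of_injective _ hinj
    rw [Nat.card_prod] at hcA
    have hcG : Nat.card G ≤ Nat.card (A × A) := by
      rw [Nat.card_prod]
      exact hcardG.trans (Nat.mul_le_mul_left _ hle)
    have hbij := hinj.bijective_of_nat_card_le hcG
    obtain ⟨⟨⟨a, ha⟩, ⟨a', ha'⟩⟩, hq⟩ := hbij.2 b₀⁻¹
    simp only at hq
    have hb₀A : b₀ ∈ A := by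
      have : b₀ = a⁻¹ * a'⁻¹ := by
        have h5 : a * b₀ * a' = 1 := by
          have := congrArg (fun t => t * b₀) hq
          simp only [inv_mul_cancel] at this
          rw [← this]; group
        have h6 : b₀ = a⁻¹ * (a * b₀ * a') * a'⁻¹ := by group
        rw [h6, h5]; group
      rw [this]
      exact A.mul_mem (A.inv_mem ha) (A.inv_mem ha')
    have hAD : A ≤ D := by
      intro x hx
      rw [hmemD]
      exact ⟨hx, A.mul_mem (A.mul_mem (A.inv_mem hb₀A) hx) hb₀A⟩
    have hAbot : A = ⊥ := le_bot_iff.mp (hbot ▸ hAD)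
    have hA1 : Nat.card A = 1 := by rw [hAbot]; exact Subgroup.card_bot
    have hB1 : Nat.card B ≤ 1 := hA1 ▸ hle
    have : Nat.card G ≤ 1 := by
      calc Nat.card G ≤ Nat.card A * Nat.card B := hcardG
        _ ≤ 1 * 1 := Nat.mul_le_mul hA1.le hB1
        _ = 1 := by norm_num
    have h1 : 1 < Nat.card G := Finite.one_lt_card
    omega
  refine ⟨D, hDA, hD0, ?_⟩
  -- conjugation by b₀⁻¹ maps D onto D
  let D' : Subgroup G := D.map (MulAut.conj b₀⁻¹).toMonoidHom
  have hD'A : D' ≤ A := by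
    rintro _ ⟨d, hd, rfl⟩
    have := ((hmemD d).mp hd).2
    simpa [MulAut.conj_apply] using this
  have hcard' : Nat.card D' = Nat.card D :=
    Subgroup.card_map_of_injective (MulAut.conj b₀⁻¹).injective
  have hle' : D' ≤ D := by
    have h1 : Nat.card (D'.subgroupOf A) = Nat.card (D.subgroupOf A) := by
      rw [Nat.card_congr (Subgroup.subgroupOfEquivOfLe hD'A).toEquiv,
        Nat.card_congr (Subgroup.subgroupOfEquivOfLe hDA).toEquiv, hcard']
    have h2 := cyc_le_of_card_eq (D.subgroupOf A) (D'.subgroupOf A) h1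
    intro x hx
    exact h2 (show (⟨x, hD'A hx⟩ : A) ∈ D'.subgroupOf A from hx)
  have heq' : D' = D := Subgroup.eq_of_le_of_card_ge hle' hcard'.ge
  have hnb : b₀⁻¹ ∈ Subgroup.normalizer (D : Set G) := by
    rw [Subgroup.mem_normalizer_iff]
    intro h
    constructor
    · intro hh
      have : b₀⁻¹ * h * b₀⁻¹⁻¹ ∈ D' := ⟨h, hh, by simp⟩
      rwa [heq'] at this
    · intro hh
      rw [← heq'] at hh
      obtain ⟨d, hd, hdeq⟩ := hh
      have : d = h := by
        have h7 : b₀⁻¹ * d * b₀⁻¹⁻¹ = b₀⁻¹ * h * b₀⁻¹⁻¹ := by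
          simpa [MulAut.conj_apply] using hdeq
        exact mul_left_cancel (mul_right_cancel h7)
      rw [← this]; exact hd
  have hb₀n : b₀ ∈ Subgroup.normalizer (D : Set G) := by
    have := (Subgroup.normalizer (D : Set G)).inv_mem hnb
    simpa using this
  have hBn : B ≤ Subgroup.normalizer (D : Set G) := by
    intro b hb
    obtain ⟨k, rfl⟩ := hBgen b hb
    exact Subgroup.zpow_mem _ hb₀n k
  have hAn : A ≤ Subgroup.normalizer (D : Set G) := by
    intro a ha
    rw [Subgroup.mem_normalizer_iff]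
    intro h
    constructor
    · intro hh
      have : a * h * a⁻¹ = h := by
        rw [hAcomm a ha h (hDA hh)]; group
      rw [this]; exact hh
    · intro hh
      have hh' : a * h * a⁻¹ ∈ A := hDA hh
      have hhA : h ∈ A := by
        have : h = a⁻¹ * (a * h * a⁻¹) * a := by group
        rw [this]
        exact A.mul_mem (A.mul_mem (A.inv_mem ha) hh') ha
      have : a * h * a⁻¹ = h := by
        rw [hAcomm a ha h hhA]; group
      rwa [this] at hh
  constructor
  intro d hd g
  obtain ⟨a, ha, b, hb, rfl⟩ := hAB g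
  have hg : a * b ∈ Subgroup.normalizer (D : Set G) :=
    Subgroup.mul_mem _ (hAn ha) (hBn hb)
  exact (Subgroup.mem_normalizer_iff.mp hg d).mp hd

theorem aux (n : ℕ) : ∀ (G : Type u) [Group G] [Finite G], Nat.card G = n →
    ∀ (A B : Subgroup G) [IsCyclic A] [IsCyclic B],
      (∀ g : G, ∃ a ∈ A, ∃ b ∈ B, g = a * b) → Cfsg.IsSupersolvable G := by
  induction n using Nat.strong_induction_on with
  | _ n ih =>
  intro G _ _ hn A B _ _ hAB
  by_cases hG : Nat.card G = 1
  · have : Subsingleton G := (Nat.card_eq_one_iff_unique.mp hG).1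
    exact Cfsg.Agent.Helper9.ss_of_isCyclic
  have hnt : Nontrivial G := by
    rw [← Finite.one_lt_card_iff_nontrivial]
    have := Nat.card_pos (α := G)
    omega
  -- a nontrivial normal cyclic subgroup
  have key : ∃ D : Subgroup G, D ≠ ⊥ ∧ D.Normal ∧ IsCyclic D := by
    rcases le_total (Nat.card B) (Nat.card A) with hle | hle
    · obtain ⟨D, hDA, hD0, hDn⟩ := exists_normal_le A B hAB hle
      refine ⟨D, hD0, hDn, ?_⟩
      have : IsCyclic (D.subgroupOf A) := inferInstance
      exact isCyclic_of_surjective (Subgroup.subgroupOfEquivOfLe hDA)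
        (Subgroup.subgroupOfEquivOfLe hDA).surjective
    · have hBA : ∀ g : G, ∃ b ∈ B, ∃ a ∈ A, g = b * a := by
        intro g
        obtain ⟨a, ha, b, hb, h⟩ := hAB g⁻¹
        refine ⟨b⁻¹, B.inv_mem hb, a⁻¹, A.inv_mem ha, ?_⟩
        rw [← mul_inv_rev, ← h, inv_inv]
      obtain ⟨D, hDB, hD0, hDn⟩ := exists_normal_le B A hBA hle
      refine ⟨D, hD0, hDn, ?_⟩
      have : IsCyclic (D.subgroupOf B) := inferInstance
      exact isCyclic_of_surjective (Subgroup.subgroupOfEquivOfLe hDB)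
        (Subgroup.subgroupOfEquivOfLe hDB).surjective
  obtain ⟨D, hD0, hDn, hDc⟩ := key
  have hcard : Nat.card (G ⧸ D) < n := by
    have h1 := Subgroup.card_eq_card_quotient_mul_card_subgroup D
    have h2 : 1 < Nat.card D := (Subgroup.one_lt_card_iff_ne_bot _).mpr hD0
    have h3 : 0 < Nat.card (G ⧸ D) := Nat.card_pos
    rw [← hn, h1]
    nlinarith
  have hA' : IsCyclic (A.map (QuotientGroup.mk' D)) :=
    isCyclic_of_surjective ((QuotientGroup.mk' D).subgroupMap A)
      ((QuotientGroup.mk' D).subgroupMap_surjective A)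
  have hB' : IsCyclic (B.map (QuotientGroup.mk' D)) :=
    isCyclic_of_surjective ((QuotientGroup.mk' D).subgroupMap B)
      ((QuotientGroup.mk' D).subgroupMap_surjective B)
  have hq : Cfsg.IsSupersolvable (G ⧸ D) := by
    refine ih _ hcard (G ⧸ D) rfl (A.map (QuotientGroup.mk' D)) (B.map (QuotientGroup.mk' D)) ?_
    intro q
    obtain ⟨g, rfl⟩ := QuotientGroup.mk'_surjective D q
    obtain ⟨a, ha, b, hb, rfl⟩ := hAB g
    exact ⟨_, Subgroup.mem_map_of_mem _ ha, _, Subgroup.mem_map_of_mem _ hb, map_mul _ a b⟩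
  exact Cfsg.Agent.Helper9.ss_of_cyclic_of_quotient D hq

/-- If a finite group G is the product AB of two cyclic subgroups (every element is a product ab), then G is supersolvable. -/
theorem result {G : Type*} [Group G] [Finite G] (A B : Subgroup G) [IsCyclic A] [IsCyclic B] (hAB : ∀ g : G, ∃ a ∈ A, ∃ b ∈ B, g = a * b) : Cfsg.IsSupersolvable G := by
  exact aux (Nat.card G) G rfl A B hAB

end Cfsg.Agent.S0571
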