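import Cfsg.Statements.S0572
import Mathlib

set_option autoImplicit false
open Cfsg

namespace Cfsg.Agent.S0572

open scoped commutatorElement

lemma comm_mul_left {G : Type*} [Group G] (x y z : G) (h : y * z = z * y) : ⁅x * y, z⁆ = ⁅x, z⁆ := by
  rw [commutatorElement_def, commutatorElement_def]
  have : y * z * y⁻¹ = z := by rw [h]; group
  calc x * y * z * (x * y)⁻¹ * z⁻¹ = x * (y * z * y⁻¹) * x⁻¹ * z⁻¹ := by group
    _ = x * z * x⁻¹ * z⁻¹ := by rw [this]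

lemma comm_mul_right {G : Type*} [Group G] (x y z : G) (h : x * z = z * x) : ⁅x, y * z⁆ = ⁅x, y⁆ := by
  rw [commutatorElement_def, commutatorElement_def]
  have : z * x⁻¹ * z⁻¹ = x⁻¹ := by
    have : z * x⁻¹ = x⁻¹ * z := by
      calc z * x⁻¹ = x⁻¹ * (x * z) * x⁻¹ := by group
        _ = x⁻¹ * (z * x) * x⁻¹ := by rw [h]
        _ = x⁻¹ * z := by group
    rw [this]; group
  calc x * (y * z) * x⁻¹ * (y * z)⁻¹ = x * y * (z * x⁻¹ * z⁻¹) * y⁻¹ := by group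
    _ = x * y * x⁻¹ * y⁻¹ := by rw [this]

lemma conj_eq_self {G : Type*} [Group G] (x y : G) (h : x * y = y * x) : MulAut.conj x y = y := by
  rw [MulAut.conj_apply, h]; group

lemma key {G : Type*} [Group G] (a a1 a2 a3 b b1 b2 b3 : G)
    (haa1 : a1 * a = a * a1) (ha1a3 : a1 * a3 = a3 * a1) (ha3a2 : a3 * a2 = a2 * a3) (haa2 : a * a2 = a2 * a)
    (hbb1 : b1 * b = b * b1) (hb1b2 : b1 * b2 = b2 * b1) (hb3b : b3 * b = b * b3) (hb3b2 : b3 * b2 = b2 * b3)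
    (h1 : MulAut.conj b1 a = a3 * b3) (h2 : MulAut.conj a1 b = b2 * a2) :
    MulAut.conj a1 (MulAut.conj b1 ⁅a, b⁆) = MulAut.conj b1 (MulAut.conj a1 ⁅a, b⁆) := by
  rw [map_commutatorElement, map_commutatorElement (MulAut.conj a1) a b, h1, h2,
    conj_eq_self b1 b hbb1, conj_eq_self a1 a haa1, comm_mul_left _ _ _ hb3b, comm_mul_right _ _ _ haa2,
    map_commutatorElement, map_commutatorElement, h1, h2, conj_eq_self b1 b2 hb1b2,
    conj_eq_self a1 a3 ha1a3, comm_mul_left _ _ _ hb3b2, comm_mul_right _ _ _ ha3a2]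

/-- Itô's Theorem: if a group G is the product AB of two abelian subgroups, then the commutator subgroup of G is abelian, i.e. the second term of the derived series is trivial. -/
theorem result {G : Type*} [Group G] (A B : Subgroup G) [IsMulCommutative A] [IsMulCommutative B] (hAB : ∀ g : G, ∃ a ∈ A, ∃ b ∈ B, g = a * b) : derivedSeries G 2 = ⊥ := by
  classical
  have commA : ∀ x ∈ A, ∀ y ∈ A, x * y = y * x := fun x hx y hy =>
    Subtype.ext_iff.mp ((inferInstance : IsMulCommutative A).is_comm.comm ⟨x, hx⟩ ⟨y, hy⟩)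
  have commB : ∀ x ∈ B, ∀ y ∈ B, x * y = y * x := fun x hx y hy =>
    Subtype.ext_iff.mp ((inferInstance : IsMulCommutative B).is_comm.comm ⟨x, hx⟩ ⟨y, hy⟩)
  have hBA : ∀ g : G, ∃ b ∈ B, ∃ a ∈ A, g = b * a := by
    intro g
    obtain ⟨a, ha, b, hb, h⟩ := hAB g⁻¹
    refine ⟨b⁻¹, B.inv_mem hb, a⁻¹, A.inv_mem ha, ?_⟩
    rw [← mul_inv_rev, ← h, inv_inv]
  set S : Set G := {x | ∃ a ∈ A, ∃ b ∈ B, x = ⁅a, b⁆} with hS
  set N : Subgroup G := Subgroup.closure S with hN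
  -- pairwise commuting
  have hcomm : ∀ x ∈ S, ∀ y ∈ S, y * x = x * y := by
    rintro x ⟨a, ha, b, hb, rfl⟩ y ⟨a', ha', b', hb', rfl⟩
    obtain ⟨a3, ha3, b3, hb3, h1⟩ := hAB (MulAut.conj b'⁻¹ a)
    obtain ⟨b2, hb2, a2, ha2, h2⟩ := hBA (MulAut.conj a'⁻¹ b)
    have hk := key a a'⁻¹ a2 a3 b b'⁻¹ b2 b3 (commA _ (A.inv_mem ha') _ ha) (commA _ (A.inv_mem ha') _ ha3)
      (commA _ ha3 _ ha2) (commA _ ha _ ha2) (commB _ (B.inv_mem hb') _ hb) (commB _ (B.inv_mem hb') _ hb2)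
      (commB _ hb3 _ hb) (commB _ hb3 _ hb2) h1 h2
    simp only [MulAut.conj_apply] at hk
    rw [commutatorElement_def a' b']
    generalize ⁅a, b⁆ = x at hk
    have e1 : a' * b' * a'⁻¹ * b'⁻¹ * x = a' * b' * (a'⁻¹ * (b'⁻¹ * x * b'⁻¹⁻¹) * a'⁻¹⁻¹) * b'⁻¹ * a'⁻¹ * a' * b' * a'⁻¹ * b'⁻¹ := by group
    have e2 : x * (a' * b' * a'⁻¹ * b'⁻¹) = a' * b' * (b'⁻¹ * (a'⁻¹ * x * a'⁻¹⁻¹) * b'⁻¹⁻¹) * b'⁻¹ * a'⁻¹ * a' * b' * a'⁻¹ * b'⁻¹ := by group
    rw [e1, e2, hk]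
  have hNcomm : N ≤ Subgroup.centralizer (N : Set G) := by
    rw [hN, Subgroup.centralizer_closure, Subgroup.closure_le]
    intro x hx
    rw [SetLike.mem_coe, Subgroup.mem_centralizer_iff]
    intro y hy
    exact hcomm x hx y hy
  have hNA : ∀ a1 ∈ A, ∀ x ∈ N, a1 * x * a1⁻¹ ∈ N := by
    intro a1 ha1
    have : N ≤ N.comap (MulAut.conj a1).toMonoidHom := by
      rw [hN, Subgroup.closure_le]
      rintro x ⟨a, ha, b, hb, rfl⟩
      rw [SetLike.mem_coe, Subgroup.mem_comap]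
      have e : (MulAut.conj a1).toMonoidHom ⁅a, b⁆ = ⁅a1 * a, b⁆ * ⁅a1, b⁆⁻¹ := by
        simp only [MulEquiv.coe_toMonoidHom, MulAut.conj_apply, commutatorElement_def]; group
      rw [e]
      exact N.mul_mem (Subgroup.subset_closure ⟨_, A.mul_mem ha1 ha, b, hb, rfl⟩)
        (N.inv_mem (Subgroup.subset_closure ⟨a1, ha1, b, hb, rfl⟩))
    intro x hx
    have := this hx
    rwa [Subgroup.mem_comap, MulEquiv.coe_toMonoidHom, MulAut.conj_apply] at this
  have hNB : ∀ b1 ∈ B, ∀ x ∈ N, b1 * x * b1⁻¹ ∈ N := by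
    intro b1 hb1
    have : N ≤ N.comap (MulAut.conj b1).toMonoidHom := by
      rw [hN, Subgroup.closure_le]
      rintro x ⟨a, ha, b, hb, rfl⟩
      rw [SetLike.mem_coe, Subgroup.mem_comap]
      have e : (MulAut.conj b1).toMonoidHom ⁅a, b⁆ = ⁅a, b1⁆⁻¹ * ⁅a, b1 * b⁆ := by
        simp only [MulEquiv.coe_toMonoidHom, MulAut.conj_apply, commutatorElement_def]; group
      rw [e]
      exact N.mul_mem (N.inv_mem (Subgroup.subset_closure ⟨a, ha, b1, hb1, rfl⟩))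
        (Subgroup.subset_closure ⟨a, ha, _, B.mul_mem hb1 hb, rfl⟩)
    intro x hx
    have := this hx
    rwa [Subgroup.mem_comap, MulEquiv.coe_toMonoidHom, MulAut.conj_apply] at this
  have hNn : N.Normal := by
    constructor
    intro x hx g
    obtain ⟨a, ha, b, hb, rfl⟩ := hAB g
    have := hNA a ha _ (hNB b hb x hx)
    have e : a * b * x * (a * b)⁻¹ = a * (b * x * b⁻¹) * a⁻¹ := by group
    rw [e]; exact this
  have hder : ⁅(⊤ : Subgroup G), ⊤⁆ ≤ N := by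
    rw [Subgroup.commutator_le]
    intro g _ h _
    obtain ⟨a, ha, b, hb, rfl⟩ := hAB g
    obtain ⟨a', ha', b', hb', rfl⟩ := hAB h
    have hk : ∀ x : G, QuotientGroup.mk' N x = 1 ↔ x ∈ N := fun x => QuotientGroup.eq_one_iff x
    rw [← hk, map_commutatorElement, commutatorElement_eq_one_iff_commute]
    have c1 : ∀ x ∈ A, ∀ y ∈ B, Commute (QuotientGroup.mk' N x) (QuotientGroup.mk' N y) := by
      intro x hx y hy
      rw [← commutatorElement_eq_one_iff_commute, ← map_commutatorElement]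
      exact (hk _).mpr (Subgroup.subset_closure ⟨x, hx, y, hy, rfl⟩)
    have c2 : ∀ x ∈ A, ∀ y ∈ A, Commute (QuotientGroup.mk' N x) (QuotientGroup.mk' N y) := by
      intro x hx y hy
      show QuotientGroup.mk' N x * QuotientGroup.mk' N y = QuotientGroup.mk' N y * QuotientGroup.mk' N x
      rw [← map_mul, ← map_mul, commA x hx y hy]
    have c3 : ∀ x ∈ B, ∀ y ∈ B, Commute (QuotientGroup.mk' N x) (QuotientGroup.mk' N y) := by
      intro x hx y hy
      show QuotientGroup.mk' N x * QuotientGroup.mk' N y = QuotientGroup.mk' N y * QuotientGroup.mk' N x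
      rw [← map_mul, ← map_mul, commB x hx y hy]
    rw [map_mul, map_mul]
    exact Commute.mul_left (Commute.mul_right (c2 a ha a' ha') (c1 a ha b' hb'))
      (Commute.mul_right (c1 a' ha' b hb).symm (c3 b hb b' hb'))
  have h2 : derivedSeries G 2 = ⁅⁅(⊤ : Subgroup G), ⊤⁆, ⁅(⊤ : Subgroup G), ⊤⁆⁆ := rfl
  rw [h2, eq_bot_iff]
  calc ⁅⁅(⊤ : Subgroup G), ⊤⁆, ⁅(⊤ : Subgroup G), ⊤⁆⁆ ≤ ⁅N, N⁆ := Subgroup.commutator_mono hder hder
    _ = ⊥ := Subgroup.commutator_eq_bot_iff_le_centralizer.mpr hNcomm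

end Cfsg.Agent.S0572
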