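import Cfsg.Statements.S0573
import Mathlib
import Cfsg.Agent.S0572
import Cfsg.Agent.S0560
import Cfsg.Agent.S0567
import Cfsg.Agent.Helper1.Tools
import Cfsg.Agent.Helper1.MinNormal
import Cfsg.Agent.Helper10.CoreFree
import Cfsg.Agent.Helper50.CD
import Cfsg.Agent.Helper64.Index

set_option autoImplicit false
open Cfsg

namespace Cfsg.Agent.S0573

open scoped Pointwise commutatorElement

/-- If a nontrivial finite group G is the product AB of abelian subgroups A and B, then some nontrivial normal subgroup of G is contained in A or in B. -/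
theorem result {G : Type*} [Group G] [Finite G] [Nontrivial G] (A B : Subgroup G) [IsMulCommutative A] [IsMulCommutative B] (hAB : ∀ g : G, ∃ a ∈ A, ∃ b ∈ B, g = a * b) : ∃ N : Subgroup G, N.Normal ∧ N ≠ ⊥ ∧ (N ≤ A ∨ N ≤ B) := by
  classical
  by_contra hcon
  have hno : ∀ N : Subgroup G, N.Normal → N ≠ ⊥ → ¬ (N ≤ A ∨ N ≤ B) := by
    intro N hN hN0 h
    exact hcon ⟨N, hN, hN0, h⟩
  have commA : ∀ x ∈ A, ∀ y ∈ A, x * y = y * x := fun x hx y hy =>
    Subtype.ext_iff.mp ((inferInstance : IsMulCommutative A).is_comm.comm ⟨x, hx⟩ ⟨y, hy⟩)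
  have commB : ∀ x ∈ B, ∀ y ∈ B, x * y = y * x := fun x hx y hy =>
    Subtype.ext_iff.mp ((inferInstance : IsMulCommutative B).is_comm.comm ⟨x, hx⟩ ⟨y, hy⟩)
  -- S1: central elements of A or B are trivial
  have hcen : ∀ z ∈ Subgroup.center G, (z ∈ A ∨ z ∈ B) → z = 1 := by
    intro z hz hzAB
    by_contra hz1
    have hn : (Subgroup.zpowers z).Normal := by
      constructor
      intro x hx g
      obtain ⟨k, rfl⟩ := Subgroup.mem_zpowers_iff.mp hx
      have hzk : z ^ k ∈ Subgroup.center G := Subgroup.zpow_mem _ hz k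
      have := Subgroup.mem_center_iff.mp hzk g
      rw [this, mul_inv_cancel_right]
      exact Subgroup.zpow_mem_zpowers z k
    refine hno _ hn (by rw [Ne, Subgroup.zpowers_eq_bot]; exact hz1) ?_
    rcases hzAB with h | h
    · left; exact Subgroup.zpowers_le.mpr h
    · right; exact Subgroup.zpowers_le.mpr h
  have hcenmem : ∀ x : G, (∀ a ∈ A, a * x = x * a) → (∀ b ∈ B, b * x = x * b) →
      x ∈ Subgroup.center G := by
    intro x hxA hxB
    rw [Subgroup.mem_center_iff]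
    intro g
    obtain ⟨a, ha, b, hb, rfl⟩ := hAB g
    rw [mul_assoc, hxB b hb, ← mul_assoc, hxA a ha, mul_assoc]
  -- S2
  have hCA : Subgroup.centralizer (A : Set G) ≤ A := by
    intro c hc
    obtain ⟨a, ha, b, hb, rfl⟩ := hAB c
    have hbC : b ∈ Subgroup.centralizer (A : Set G) := by
      have haC : a⁻¹ ∈ Subgroup.centralizer (A : Set G) := by
        rw [Subgroup.mem_centralizer_iff]
        intro x hx
        exact commA x hx a⁻¹ (A.inv_mem ha)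
      have := Subgroup.mul_mem _ haC hc
      rwa [inv_mul_cancel_left] at this
    have hb1 : b = 1 := hcen b (hcenmem b (fun x hx => (Subgroup.mem_centralizer_iff.mp hbC x hx))
      (fun x hx => commB x hx b hb)) (Or.inr hb)
    rw [hb1, mul_one]
    exact ha
  have hCB : Subgroup.centralizer (B : Set G) ≤ B := by
    intro c hc
    obtain ⟨a, ha, b, hb, rfl⟩ := hAB c
    have haC : a ∈ Subgroup.centralizer (B : Set G) := by
      have hbC : b⁻¹ ∈ Subgroup.centralizer (B : Set G) := by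
        rw [Subgroup.mem_centralizer_iff]
        intro x hx
        exact commB x hx b⁻¹ (B.inv_mem hb)
      have := Subgroup.mul_mem _ hc hbC
      rwa [mul_inv_cancel_right] at this
    have ha1 : a = 1 := hcen a (hcenmem a (fun x hx => commA x hx a ha)
      (fun x hx => (Subgroup.mem_centralizer_iff.mp haC x hx))) (Or.inl ha)
    rw [ha1, one_mul]
    exact hb
  have hABbot : ∀ x, x ∈ A → x ∈ B → x = 1 := by
    intro x hxA hxB
    exact hcen x (hcenmem x (fun a ha => commA a ha x hxA) (fun b hb => commB b hb x hxB)) (Or.inl hxA)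
  -- S3
  have hDab : ⁅(⊤ : Subgroup G), (⊤ : Subgroup G)⁆ ≤
      Subgroup.centralizer ((⁅(⊤ : Subgroup G), (⊤ : Subgroup G)⁆ : Subgroup G) : Set G) := by
    have h2 : derivedSeries G 2 = ⊥ := Cfsg.Agent.S0572.result A B hAB
    have h2' : derivedSeries G 2 = ⁅⁅(⊤ : Subgroup G), (⊤ : Subgroup G)⁆, ⁅(⊤ : Subgroup G), (⊤ : Subgroup G)⁆⁆ := rfl
    rw [h2'] at h2
    exact Subgroup.commutator_eq_bot_iff_le_centralizer.mp h2
  have hD0 : ⁅(⊤ : Subgroup G), (⊤ : Subgroup G)⁆ ≠ ⊥ := by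
    intro h
    obtain ⟨x, hx⟩ := exists_ne (1 : G)
    apply hx
    obtain ⟨a, ha, b, hb, rfl⟩ := hAB x
    have hallc : ∀ y : G, y ∈ Subgroup.center G := by
      intro y
      rw [Subgroup.mem_center_iff]
      intro g
      have : ⁅g, y⁆ ∈ ⁅(⊤ : Subgroup G), (⊤ : Subgroup G)⁆ :=
        Subgroup.commutator_mem_commutator (Subgroup.mem_top _) (Subgroup.mem_top _)
      rw [h, Subgroup.mem_bot, commutatorElement_eq_one_iff_mul_comm] at this
      exact this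
    rw [hcen a (hallc a) (Or.inl ha), hcen b (hallc b) (Or.inr hb), one_mul]
  obtain ⟨N, hNn, hND, hN0, hNmin⟩ := Cfsg.Agent.Helper1.exists_minNormal ⁅(⊤ : Subgroup G), (⊤ : Subgroup G)⁆ hD0
  have hNc : ∀ x ∈ N, ∀ y ∈ N, x * y = y * x := fun x hx y hy =>
    (Subgroup.mem_centralizer_iff.mp (hDab (hND hy)) x (hND hx))
  have hDC : ⁅(⊤ : Subgroup G), (⊤ : Subgroup G)⁆ ≤ Subgroup.centralizer (N : Set G) := fun d hd =>
    Subgroup.centralizer_le (SetLike.coe_subset_coe.mpr hND) (hDab hd)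
  have hNcomm : IsMulCommutative N := ⟨⟨fun x y => Subtype.ext (hNc x x.2 y y.2)⟩⟩
  have hNsolv : Group.IsSolvable N := Group.isSolvable_of_comm (fun x y => Subtype.ext (hNc x x.2 y y.2))
  obtain ⟨-, p, hp, hexp⟩ := Cfsg.Agent.Helper1.minNormal_elemAbelian N hN0 hNmin
  have hpF := Fact.mk hp
  have hNp : IsPGroup p N := fun x => ⟨1, by
    rw [pow_one]
    exact Subtype.ext (by simpa using hexp x x.2)⟩
  -- S5
  have hfix : ∀ g : G, ∀ x ∈ N, x ≠ 1 → g * x = x * g → g ∈ Subgroup.centralizer (N : Set G) := by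
    intro g x hxN hx1 hgx
    have hFn : (N ⊓ Subgroup.centralizer {g}).Normal := by
      constructor
      intro y hy h
      have hy1 : y ∈ N := (Subgroup.mem_inf.mp hy).1
      have hy2 : y ∈ Subgroup.centralizer {g} := (Subgroup.mem_inf.mp hy).2
      refine Subgroup.mem_inf.mpr ⟨hNn.conj_mem y hy1 h, ?_⟩
      rw [Subgroup.mem_centralizer_singleton_iff]
      have hd : h * g⁻¹ * h⁻¹ * g ∈ Subgroup.centralizer (N : Set G) := by
        apply hDC
        have : h * g⁻¹ * h⁻¹ * g = ⁅h, g⁻¹⁆ := by rw [commutatorElement_def]; group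
        rw [this]
        exact Subgroup.commutator_mem_commutator (Subgroup.mem_top _) (Subgroup.mem_top _)
      have h1 := Subgroup.mem_centralizer_iff.mp hd (h * y * h⁻¹) (hNn.conj_mem y hy1 h)
      have h2 : y * g = g * y := Subgroup.mem_centralizer_singleton_iff.mp hy2
      calc (h * y * h⁻¹) * g = h * (y * g) * h⁻¹ * (h * g⁻¹ * h⁻¹ * g) := by group
        _ = h * (g * y) * h⁻¹ * (h * g⁻¹ * h⁻¹ * g) := by rw [h2]
        _ = (h * g * h⁻¹) * ((h * y * h⁻¹) * (h * g⁻¹ * h⁻¹ * g)) := by group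
        _ = (h * g * h⁻¹) * ((h * g⁻¹ * h⁻¹ * g) * (h * y * h⁻¹)) := by rw [h1]
        _ = g * (h * y * h⁻¹) := by group
    have hF0 : N ⊓ Subgroup.centralizer {g} ≠ ⊥ := by
      intro h
      have : x ∈ N ⊓ Subgroup.centralizer {g} :=
        Subgroup.mem_inf.mpr ⟨hxN, Subgroup.mem_centralizer_singleton_iff.mpr hgx.symm⟩
      rw [h, Subgroup.mem_bot] at this
      exact hx1 this
    rcases hNmin _ hFn inf_le_left with h | h
    · exact absurd h hF0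
    · rw [Subgroup.mem_centralizer_iff]
      intro y hy
      have : y ∈ N ⊓ Subgroup.centralizer {g} := by rw [h]; exact hy
      exact Subgroup.mem_centralizer_singleton_iff.mp (Subgroup.mem_inf.mp this).2
  -- S6
  have hNA : ∀ x ∈ N, x ∈ A → x = 1 := by
    intro x hxN hxA
    by_contra hx1
    have hAC : A ≤ Subgroup.centralizer (N : Set G) := fun a ha => hfix a x hxN hx1 (commA a ha x hxA)
    have hNA' : N ≤ A := by
      refine le_trans ?_ hCA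
      intro n hn
      rw [Subgroup.mem_centralizer_iff]
      intro a ha
      exact (Subgroup.mem_centralizer_iff.mp (hAC ha) n hn).symm
    exact hno N hNn hN0 (Or.inl hNA')
  have hNB : ∀ x ∈ N, x ∈ B → x = 1 := by
    intro x hxN hxB
    by_contra hx1
    have hBC : B ≤ Subgroup.centralizer (N : Set G) := fun b hb => hfix b x hxN hx1 (commB b hb x hxB)
    have hNB' : N ≤ B := by
      refine le_trans ?_ hCB
      intro n hn
      rw [Subgroup.mem_centralizer_iff]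
      intro b hb
      exact (Subgroup.mem_centralizer_iff.mp (hBC hb) n hn).symm
    exact hno N hNn hN0 (Or.inr hNB')
  obtain ⟨a₀, ha₀, ha₀C⟩ : ∃ a ∈ A, a ∉ Subgroup.centralizer (N : Set G) := by
    by_contra h
    push Not at h
    have hNA' : N ≤ A := by
      refine le_trans ?_ hCA
      intro n hn
      rw [Subgroup.mem_centralizer_iff]
      intro a ha
      exact (Subgroup.mem_centralizer_iff.mp (h a ha) n hn).symm
    exact hno N hNn hN0 (Or.inl hNA')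
  obtain ⟨b₀, hb₀, hb₀C⟩ : ∃ b ∈ B, b ∉ Subgroup.centralizer (N : Set G) := by
    by_contra h
    push Not at h
    have hNB' : N ≤ B := by
      refine le_trans ?_ hCB
      intro n hn
      rw [Subgroup.mem_centralizer_iff]
      intro b hb
      exact (Subgroup.mem_centralizer_iff.mp (h b hb) n hn).symm
    exact hno N hNn hN0 (Or.inr hNB')
  have hfpf : ∀ g : G, g ∉ Subgroup.centralizer (N : Set G) → ∀ x ∈ N, g * x = x * g → x = 1 := by
    intro g hg x hx hgx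
    by_contra hx1
    exact hg (hfix g x hx hx1 hgx)
  -- S7: p-subgroups centralize N
  have hpel : ∀ X : Subgroup G, IsPGroup p X → X ≤ Subgroup.centralizer (N : Set G) := by
    intro X hX g hg
    have hz : IsPGroup p (Subgroup.zpowers g) := hX.to_le (Subgroup.zpowers_le.mpr hg)
    have h1 := Cfsg.Agent.Helper10.pgroup_fixed_point (Subgroup.zpowers g) N hz hNp
      (fun l _ n hn => hNn.conj_mem n hn l) hN0
    obtain ⟨x, hx, hx1⟩ : ∃ x ∈ N ⊓ Subgroup.centralizer ((Subgroup.zpowers g : Subgroup G) : Set G), x ≠ 1 := by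
      by_contra h
      push Not at h
      exact h1 (eq_bot_iff.mpr (fun x hx => Subgroup.mem_bot.mpr (h x hx)))
    exact hfix g x hx.1 hx1 (Subgroup.mem_centralizer_iff.mp hx.2 g (Subgroup.mem_zpowers g))
  -- S8
  obtain ⟨k, hk⟩ := IsPGroup.iff_card.mp hNp
  have hANcard : Nat.card ↥(A ⊔ N) = Nat.card A * Nat.card N := by
    have h1 := Cfsg.Agent.Helper64.card_sup_mul_card_inf A N
    have h2 : A ⊓ N = ⊥ := by
      rw [eq_bot_iff]
      intro x hx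
      exact Subgroup.mem_bot.mpr (hNA x hx.2 hx.1)
    rwa [h2, Subgroup.card_bot, mul_one] at h1
  have hBNcard : Nat.card ↥(B ⊔ N) = Nat.card B * Nat.card N := by
    have h1 := Cfsg.Agent.Helper64.card_sup_mul_card_inf B N
    have h2 : B ⊓ N = ⊥ := by
      rw [eq_bot_iff]
      intro x hx
      exact Subgroup.mem_bot.mpr (hNB x hx.2 hx.1)
    rwa [h2, Subgroup.card_bot, mul_one] at h1
  have hMcard : Nat.card ↥(B ⊓ (A ⊔ N)) = Nat.card N := by
    have hset : ((A : Set G) * ((B ⊓ (A ⊔ N) : Subgroup G) : Set G)) = ((A ⊔ N : Subgroup G) : Set G) := by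
      ext x
      constructor
      · rintro ⟨a, ha, m, hm, rfl⟩
        exact Subgroup.mul_mem _ ((le_sup_left : A ≤ A ⊔ N) ha) hm.2
      · intro hx
        obtain ⟨a, ha, b, hb, rfl⟩ := hAB x
        refine ⟨a, ha, b, ⟨hb, ?_⟩, rfl⟩
        have := Subgroup.mul_mem _ (Subgroup.inv_mem _ ((le_sup_left : A ≤ A ⊔ N) ha)) hx
        rwa [inv_mul_cancel_left] at this
    have h1 := Cfsg.Agent.Helper50.card_mul_card_eq_card_mulSet A (B ⊓ (A ⊔ N))
    have h2 : A ⊓ (B ⊓ (A ⊔ N)) = ⊥ := by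
      rw [eq_bot_iff]
      intro x hx
      exact Subgroup.mem_bot.mpr (hABbot x hx.1 hx.2.1)
    rw [hset, h2, Subgroup.card_bot, mul_one] at h1
    have h3 : Nat.card A * Nat.card ↥(B ⊓ (A ⊔ N)) = Nat.card A * Nat.card N := by
      rw [h1]; exact hANcard
    exact Nat.eq_of_mul_eq_mul_left Nat.card_pos h3
  have hLcard : Nat.card ↥(A ⊓ (B ⊔ N)) = Nat.card N := by
    have hset : ((((A ⊓ (B ⊔ N) : Subgroup G) : Set G)) * (B : Set G)) = ((B ⊔ N : Subgroup G) : Set G) := by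
      ext x
      constructor
      · rintro ⟨l, hl, b, hb, rfl⟩
        exact Subgroup.mul_mem _ hl.2 ((le_sup_left : B ≤ B ⊔ N) hb)
      · intro hx
        obtain ⟨a, ha, b, hb, rfl⟩ := hAB x
        refine ⟨a, ⟨ha, ?_⟩, b, hb, rfl⟩
        have := Subgroup.mul_mem _ hx (Subgroup.inv_mem _ ((le_sup_left : B ≤ B ⊔ N) hb))
        rwa [mul_inv_cancel_right] at this
    have h1 := Cfsg.Agent.Helper50.card_mul_card_eq_card_mulSet (A ⊓ (B ⊔ N)) B
    have h2 : (A ⊓ (B ⊔ N)) ⊓ B = ⊥ := by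
      rw [eq_bot_iff]
      intro x hx
      exact Subgroup.mem_bot.mpr (hABbot x hx.1.1 hx.2)
    rw [hset, h2, Subgroup.card_bot, mul_one] at h1
    have h3 : Nat.card ↥(A ⊓ (B ⊔ N)) * Nat.card B = Nat.card N * Nat.card B := by
      rw [h1]; exact hBNcard.trans (mul_comm _ _)
    exact Nat.eq_of_mul_eq_mul_right Nat.card_pos h3
  have hMC : B ⊓ (A ⊔ N) ≤ Subgroup.centralizer (N : Set G) :=
    hpel _ (IsPGroup.of_card (n := k) (by rw [hMcard, hk]))
  have hLC : A ⊓ (B ⊔ N) ≤ Subgroup.centralizer (N : Set G) :=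
    hpel _ (IsPGroup.of_card (n := k) (by rw [hLcard, hk]))
  -- S9
  have hD1 : ∀ l ∈ A ⊓ (B ⊔ N), ∃ n ∈ N, ∃ m ∈ B ⊓ (A ⊔ N), l = n * m := by
    intro l hl
    obtain ⟨b, hb, n', hn', hl'⟩ := Subgroup.mem_sup_of_normal_right.mp hl.2
    refine ⟨b * n' * b⁻¹, hNn.conj_mem n' hn' b, b, ⟨hb, ?_⟩, ?_⟩
    · have : b = l * n'⁻¹ := by rw [← hl']; group
      rw [this]
      exact Subgroup.mul_mem _ ((le_sup_left : A ≤ A ⊔ N) hl.1)
        ((le_sup_right : N ≤ A ⊔ N) (N.inv_mem hn'))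
    · rw [← hl']; group
  have hD2 : ∀ m ∈ B ⊓ (A ⊔ N), ∃ n ∈ N, ∃ l ∈ A ⊓ (B ⊔ N), m = n * l := by
    intro m hm
    obtain ⟨a, ha, n', hn', hm'⟩ := Subgroup.mem_sup_of_normal_right.mp hm.2
    refine ⟨a * n' * a⁻¹, hNn.conj_mem n' hn' a, a, ⟨ha, ?_⟩, ?_⟩
    · have : a = m * n'⁻¹ := by rw [← hm']; group
      rw [this]
      exact Subgroup.mul_mem _ ((le_sup_left : B ≤ B ⊔ N) hm.1)
        ((le_sup_right : N ≤ B ⊔ N) (N.inv_mem hn'))
    · rw [← hm']; group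
  have hVeq : (A ⊓ (B ⊔ N)) ⊔ N = (B ⊓ (A ⊔ N)) ⊔ N := by
    apply le_antisymm
    · refine sup_le ?_ le_sup_right
      intro l hl
      obtain ⟨n, hn, m, hm, rfl⟩ := hD1 l hl
      exact Subgroup.mul_mem _ ((le_sup_right : N ≤ (B ⊓ (A ⊔ N)) ⊔ N) hn)
        ((le_sup_left : B ⊓ (A ⊔ N) ≤ (B ⊓ (A ⊔ N)) ⊔ N) hm)
    · refine sup_le ?_ le_sup_right
      intro m hm
      obtain ⟨n, hn, l, hl, rfl⟩ := hD2 m hm
      exact Subgroup.mul_mem _ ((le_sup_right : N ≤ (A ⊓ (B ⊔ N)) ⊔ N) hn)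
        ((le_sup_left : A ⊓ (B ⊔ N) ≤ (A ⊓ (B ⊔ N)) ⊔ N) hl)
  have hVA : ∀ a ∈ A, ∀ v ∈ (A ⊓ (B ⊔ N)) ⊔ N, a * v * a⁻¹ ∈ (A ⊓ (B ⊔ N)) ⊔ N := by
    refine Cfsg.Agent.S0567.conj_sup_mem A (A ⊓ (B ⊔ N)) N ((A ⊓ (B ⊔ N)) ⊔ N) ?_ ?_
    · intro a ha l hl
      have : a * l * a⁻¹ = l := by rw [commA a ha l hl.1]; group
      rw [this]
      exact (le_sup_left : A ⊓ (B ⊔ N) ≤ (A ⊓ (B ⊔ N)) ⊔ N) hl
    · intro a _ n hn
      exact (le_sup_right : N ≤ (A ⊓ (B ⊔ N)) ⊔ N) (hNn.conj_mem n hn a)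
  have hVB : ∀ b ∈ B, ∀ v ∈ (A ⊓ (B ⊔ N)) ⊔ N, b * v * b⁻¹ ∈ (A ⊓ (B ⊔ N)) ⊔ N := by
    rw [hVeq]
    refine Cfsg.Agent.S0567.conj_sup_mem B (B ⊓ (A ⊔ N)) N ((B ⊓ (A ⊔ N)) ⊔ N) ?_ ?_
    · intro b hb m hm
      have : b * m * b⁻¹ = m := by rw [commB b hb m hm.1]; group
      rw [this]
      exact (le_sup_left : B ⊓ (A ⊔ N) ≤ (B ⊓ (A ⊔ N)) ⊔ N) hm
    · intro b _ n hn
      exact (le_sup_right : N ≤ (B ⊓ (A ⊔ N)) ⊔ N) (hNn.conj_mem n hn b)
  have hVn : ((A ⊓ (B ⊔ N)) ⊔ N).Normal := by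
    constructor
    intro v hv g
    obtain ⟨a, ha, b, hb, rfl⟩ := hAB g
    have := hVA a ha _ (hVB b hb v hv)
    have e : a * b * v * (a * b)⁻¹ = a * (b * v * b⁻¹) * a⁻¹ := by group
    rw [e]
    exact this
  -- K1, K2: p-elements of A, B centralize V
  have hK1 : ∀ X : Subgroup G, IsPGroup p X → X ≤ A →
      X ≤ Subgroup.centralizer (((A ⊓ (B ⊔ N)) ⊔ N : Subgroup G) : Set G) := by
    intro X hX hXA x hx
    have h1 : (A ⊓ (B ⊔ N)) ⊔ N ≤ Subgroup.centralizer {x} := by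
      refine sup_le ?_ ?_
      · intro l hl
        rw [Subgroup.mem_centralizer_singleton_iff]
        exact commA l hl.1 x (hXA hx)
      · intro n hn
        rw [Subgroup.mem_centralizer_singleton_iff]
        exact (Subgroup.mem_centralizer_iff.mp (hpel X hX hx) n hn)
    rw [Subgroup.mem_centralizer_iff]
    intro v hv
    exact Subgroup.mem_centralizer_singleton_iff.mp (h1 hv)
  have hK2 : ∀ X : Subgroup G, IsPGroup p X → X ≤ B →
      X ≤ Subgroup.centralizer (((A ⊓ (B ⊔ N)) ⊔ N : Subgroup G) : Set G) := by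
    intro X hX hXB x hx
    have h1 : (B ⊓ (A ⊔ N)) ⊔ N ≤ Subgroup.centralizer {x} := by
      refine sup_le ?_ ?_
      · intro m hm
        rw [Subgroup.mem_centralizer_singleton_iff]
        exact commB m hm.1 x (hXB hx)
      · intro n hn
        rw [Subgroup.mem_centralizer_singleton_iff]
        exact (Subgroup.mem_centralizer_iff.mp (hpel X hX hx) n hn)
    rw [Subgroup.mem_centralizer_iff]
    intro v hv
    rw [hVeq] at hv
    exact Subgroup.mem_centralizer_singleton_iff.mp (h1 hv)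
  obtain ⟨PA, PB, R, hR⟩ := Cfsg.Agent.S0560.result A B hAB p
  have hRK : (R : Subgroup G) ≤ Subgroup.centralizer (((A ⊓ (B ⊔ N)) ⊔ N : Subgroup G) : Set G) := by
    intro r hr
    have hr' : r ∈ ((R : Subgroup G) : Set G) := hr
    rw [hR] at hr'
    obtain ⟨x, hx, y, hy, rfl⟩ := hr'
    exact Subgroup.mul_mem _
      (hK1 _ (PA.isPGroup'.map A.subtype) (Subgroup.map_subtype_le _) hx)
      (hK2 _ (PB.isPGroup'.map B.subtype) (Subgroup.map_subtype_le _) hy)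
  have hKidx : ¬ p ∣ (Subgroup.centralizer (((A ⊓ (B ⊔ N)) ⊔ N : Subgroup G) : Set G)).index :=
    fun h => R.not_dvd_index (h.trans (Subgroup.index_dvd_of_le hRK))
  -- S10
  have hcD : ⁅a₀⁻¹, b₀⁻¹⁆ ∈ Subgroup.centralizer (N : Set G) :=
    hDC (Subgroup.commutator_mem_commutator (Subgroup.mem_top _) (Subgroup.mem_top _))
  have hE1 : ∀ l ∈ A ⊓ (B ⊔ N), ∀ g : G, g * l * g⁻¹ * l⁻¹ ∈ N := by
    intro l hl g
    obtain ⟨a, ha, b, hb, rfl⟩ := hAB g
    obtain ⟨n, hn, m, hm, rfl⟩ := hD1 l hl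
    have h1 : b * (n * m) * b⁻¹ * (n * m)⁻¹ = b * n * b⁻¹ * n⁻¹ := by
      have hm' : m * b⁻¹ = b⁻¹ * m := commB m hm.1 b⁻¹ (B.inv_mem hb)
      calc b * (n * m) * b⁻¹ * (n * m)⁻¹ = b * n * (m * b⁻¹) * m⁻¹ * n⁻¹ := by group
        _ = b * n * (b⁻¹ * m) * m⁻¹ * n⁻¹ := by rw [hm']
        _ = b * n * b⁻¹ * n⁻¹ := by group
    have h2 : b * n * b⁻¹ * n⁻¹ ∈ N := N.mul_mem (hNn.conj_mem n hn b) (N.inv_mem hn)
    have h3 : a * (n * m) * a⁻¹ = n * m := by rw [commA a ha (n * m) hl.1]; group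
    have e : a * b * (n * m) * (a * b)⁻¹ * (n * m)⁻¹
        = a * (b * (n * m) * b⁻¹ * (n * m)⁻¹) * a⁻¹ * (a * (n * m) * a⁻¹ * (n * m)⁻¹) := by group
    rw [e, h1, h3, mul_inv_cancel, mul_one]
    exact hNn.conj_mem _ h2 a
  have hcp : ⁅a₀⁻¹, b₀⁻¹⁆ ^ p ∈ Subgroup.centralizer (((A ⊓ (B ⊔ N)) ⊔ N : Subgroup G) : Set G) := by
    have h1 : (A ⊓ (B ⊔ N)) ⊔ N ≤ Subgroup.centralizer {⁅a₀⁻¹, b₀⁻¹⁆ ^ p} := by
      refine sup_le ?_ ?_
      · intro l hl
        rw [Subgroup.mem_centralizer_singleton_iff]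
        have hn' := hE1 l hl ⁅a₀⁻¹, b₀⁻¹⁆
        generalize ⁅a₀⁻¹, b₀⁻¹⁆ = c at hcD hn' ⊢
        have hcomm : c * (c * l * c⁻¹ * l⁻¹) = (c * l * c⁻¹ * l⁻¹) * c :=
          (Subgroup.mem_centralizer_iff.mp hcD _ hn').symm
        have hpow : ∀ j : ℕ, c ^ j * l = (c * l * c⁻¹ * l⁻¹) ^ j * l * c ^ j := by
          intro j
          induction j with
          | zero => simp
          | succ j ih =>
            have hcj : c ^ j * (c * l * c⁻¹ * l⁻¹) = (c * l * c⁻¹ * l⁻¹) * c ^ j :=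
              (Commute.pow_left (show Commute c (c * l * c⁻¹ * l⁻¹) from hcomm) j)
            have hcj2 : c * (c * l * c⁻¹ * l⁻¹) ^ j = (c * l * c⁻¹ * l⁻¹) ^ j * c :=
              (Commute.pow_right (show Commute c (c * l * c⁻¹ * l⁻¹) from hcomm) j)
            calc c ^ (j + 1) * l = c * (c ^ j * l) := by rw [pow_succ']; group
              _ = c * ((c * l * c⁻¹ * l⁻¹) ^ j * l * c ^ j) := by rw [ih]
              _ = (c * (c * l * c⁻¹ * l⁻¹) ^ j) * l * c ^ j := by group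
              _ = ((c * l * c⁻¹ * l⁻¹) ^ j * c) * l * c ^ j := by rw [hcj2]
              _ = (c * l * c⁻¹ * l⁻¹) ^ j * (c * l * c⁻¹ * l⁻¹) * l * (c * c ^ j) := by group
              _ = (c * l * c⁻¹ * l⁻¹) ^ (j + 1) * l * c ^ (j + 1) := by rw [← pow_succ, ← pow_succ']
        have := hpow p
        rw [hexp _ hn', one_mul] at this
        exact this.symm
      · intro n hn
        rw [Subgroup.mem_centralizer_singleton_iff]
        have hc : (⁅a₀⁻¹, b₀⁻¹⁆ ^ p) ∈ Subgroup.centralizer (N : Set G) := Subgroup.pow_mem _ hcD p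
        exact (Subgroup.mem_centralizer_iff.mp hc n hn)
    rw [Subgroup.mem_centralizer_iff]
    intro v hv
    exact Subgroup.mem_centralizer_singleton_iff.mp (h1 hv)
  have hcK : ⁅a₀⁻¹, b₀⁻¹⁆ ∈ Subgroup.centralizer (((A ⊓ (B ⊔ N)) ⊔ N : Subgroup G) : Set G) := by
    have hKn : (Subgroup.centralizer (((A ⊓ (B ⊔ N)) ⊔ N : Subgroup G) : Set G)).Normal := inferInstance
    have h1 : (QuotientGroup.mk' (Subgroup.centralizer (((A ⊓ (B ⊔ N)) ⊔ N : Subgroup G) : Set G))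
        ⁅a₀⁻¹, b₀⁻¹⁆) ^ p = 1 := by
      rw [← map_pow]
      exact (QuotientGroup.eq_one_iff _).mpr hcp
    have h2 := orderOf_dvd_of_pow_eq_one h1
    have h3 : orderOf (QuotientGroup.mk' (Subgroup.centralizer (((A ⊓ (B ⊔ N)) ⊔ N : Subgroup G) : Set G))
        ⁅a₀⁻¹, b₀⁻¹⁆) ∣ (Subgroup.centralizer (((A ⊓ (B ⊔ N)) ⊔ N : Subgroup G) : Set G)).index :=
      orderOf_dvd_natCard _
    rcases (Nat.dvd_prime hp).mp h2 with h4 | h4
    · exact (QuotientGroup.eq_one_iff _).mp (orderOf_eq_one_iff.mp h4)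
    · rw [h4] at h3
      exact absurd h3 hKidx
  -- E4
  obtain ⟨n, hn, hn1⟩ : ∃ n ∈ N, n ≠ 1 := by
    by_contra h
    push Not at h
    exact hN0 (eq_bot_iff.mpr (fun x hx => Subgroup.mem_bot.mpr (h x hx)))
  obtain ⟨a, ha, b, hb, hnab⟩ := hAB n
  have haL : a ∈ A ⊓ (B ⊔ N) := by
    refine ⟨ha, ?_⟩
    have : a = n * b⁻¹ := by rw [hnab]; group
    rw [this]
    exact Subgroup.mul_mem _ ((le_sup_right : N ≤ B ⊔ N) hn) ((le_sup_left : B ≤ B ⊔ N) (B.inv_mem hb))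
  have hca : ⁅a₀⁻¹, b₀⁻¹⁆ * a = a * ⁅a₀⁻¹, b₀⁻¹⁆ :=
    (Subgroup.mem_centralizer_iff.mp hcK a ((le_sup_left : A ⊓ (B ⊔ N) ≤ (A ⊓ (B ⊔ N)) ⊔ N) haL)).symm
  have hw : b₀ * n * b₀⁻¹ * n⁻¹ ∈ N := N.mul_mem (hNn.conj_mem n hn b₀) (N.inv_mem hn)
  have hw1 : b₀ * n * b₀⁻¹ * n⁻¹ ≠ 1 := by
    intro h
    apply hn1
    apply hfpf b₀ hb₀C n hn
    calc b₀ * n = (b₀ * n * b₀⁻¹ * n⁻¹) * n * b₀ := by group
      _ = n * b₀ := by rw [h, one_mul]
  have hb0a : b₀ * a * b₀⁻¹ = (b₀ * n * b₀⁻¹ * n⁻¹) * a := by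
    have e1 : a = n * b⁻¹ := by rw [hnab]; group
    have e3 : b⁻¹ * b₀⁻¹ = b₀⁻¹ * b⁻¹ := commB _ (B.inv_mem hb) _ (B.inv_mem hb₀)
    rw [e1]
    calc b₀ * (n * b⁻¹) * b₀⁻¹ = b₀ * n * (b⁻¹ * b₀⁻¹) := by group
      _ = b₀ * n * (b₀⁻¹ * b⁻¹) := by rw [e3]
      _ = b₀ * n * b₀⁻¹ * n⁻¹ * (n * b⁻¹) := by group
  have ha0a : a₀ * a = a * a₀ := commA a₀ ha₀ a ha
  apply hw1
  apply hfpf a₀ ha₀C _ hw
  -- a₀ w = w a₀
  have key : a₀ * (b₀ * a * b₀⁻¹) * a₀⁻¹ = b₀ * a * b₀⁻¹ := by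
    have e : ⁅a₀⁻¹, b₀⁻¹⁆ = a₀⁻¹ * b₀⁻¹ * a₀ * b₀ := by rw [commutatorElement_def]; group
    rw [e] at hca
    calc a₀ * (b₀ * a * b₀⁻¹) * a₀⁻¹ = b₀ * a₀ * ((a₀⁻¹ * b₀⁻¹ * a₀ * b₀) * a) * b₀⁻¹ * a₀⁻¹ := by group
      _ = b₀ * a₀ * (a * (a₀⁻¹ * b₀⁻¹ * a₀ * b₀)) * b₀⁻¹ * a₀⁻¹ := by rw [hca]
      _ = b₀ * (a₀ * a) * a₀⁻¹ * b₀⁻¹ := by group
      _ = b₀ * (a * a₀) * a₀⁻¹ * b₀⁻¹ := by rw [ha0a]
      _ = b₀ * a * b₀⁻¹ := by group
  rw [hb0a] at key
  -- key : a₀ * (w * a) * a₀⁻¹ = w * a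
  generalize b₀ * n * b₀⁻¹ * n⁻¹ = w at key ⊢
  calc a₀ * w = (a₀ * (w * a) * a₀⁻¹) * (a₀ * a⁻¹) := by group
    _ = (w * a) * (a₀ * a⁻¹) := by rw [key]
    _ = w * (a * a₀) * a⁻¹ := by group
    _ = w * (a₀ * a) * a⁻¹ := by rw [ha0a]
    _ = w * a₀ := by group

end Cfsg.Agent.S0573
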