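import Cfsg.Statements.S0575
import Mathlib

set_option autoImplicit false
open Cfsg

namespace Cfsg.Agent.S0575

/-- If H is a normal subgroup of a finite group G, then the Frattini subgroup of H, viewed in G, lies in the Frattini subgroup of G. -/
theorem result {G : Type*} [Group G] [Finite G] (H : Subgroup G) [H.Normal] : (frattini ↥H).map H.subtype ≤ frattini G := by
  classical
  have hF : ((frattini ↥H).map H.subtype).Normal := inferInstance
  show _ ≤ ⨅ a ∈ {M : Subgroup G | IsCoatom M}, a
  refine le_iInf₂ ?_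
  intro M hM
  by_contra hnot
  have hsup : M ⊔ (frattini ↥H).map H.subtype = ⊤ := by
    by_contra hne
    have h1 : M ≤ M ⊔ (frattini ↥H).map H.subtype := le_sup_left
    rcases eq_or_lt_of_le h1 with h2 | h2
    · exact hnot (h2 ▸ le_sup_right)
    · exact hne (hM.2 _ h2)
  have hK : M.subgroupOf H ⊔ frattini ↥H = ⊤ := by
    rw [eq_top_iff]
    intro h _
    have hg : (h : G) ∈ M ⊔ (frattini ↥H).map H.subtype := hsup ▸ Subgroup.mem_top _
    rw [Subgroup.mem_sup_of_normal_right] at hg
    obtain ⟨m, hm, r, ⟨f, hf, rfl⟩, hmr⟩ := hg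
    have hmH : m ∈ H := by
      have : m = (h : G) * (f : G)⁻¹ := by rw [← hmr]; simp
      rw [this]
      exact H.mul_mem h.2 (H.inv_mem f.2)
    have : h = (⟨m, hmH⟩ : H) * f := by
      ext
      simpa using hmr.symm
    rw [this]
    apply Subgroup.mul_mem_sup
    · rw [Subgroup.mem_subgroupOf]
      exact hm
    · exact hf
  have hK' : M.subgroupOf H = ⊤ := frattini_nongenerating hK
  apply hnot
  rw [Subgroup.subgroupOf_eq_top] at hK'
  exact le_trans (Subgroup.map_subtype_le _) hK'

end Cfsg.Agent.S0575
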