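import Cfsg.Statements.S0576
-- import your own Cfsg.Agent.* helpers here

set_option autoImplicit false
open Cfsg

namespace Cfsg.Agent.S0576

/-- Let H be a normal subgroup of a finite group G with H contained in the Frattini subgroup of G. Then the group of inner automorphisms of H is contained in the Frattini subgroup of the automorphism group of H. -/
theorem result {G : Type*} [Group G] [Finite G] (H : Subgroup G) [H.Normal] (hH : H ≤ frattini G) : (MulAut.conj : ↥H →* MulAut ↥H).range ≤ frattini (MulAut ↥H) := by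
  classical
  -- frattini is the infimum of coatoms
  rw [frattini, Order.radical, le_iInf_iff]
  intro M
  rw [le_iInf_iff]
  intro hM
  by_contra hnot
  have hnormal : ((MulAut.conj : ↥H →* MulAut ↥H).range).Normal := by
    constructor
    rintro _ ⟨h, rfl⟩ g
    refine ⟨g h, ?_⟩
    ext x
    simp [MulAut.conj_apply]
  have hsup : M ⊔ (MulAut.conj : ↥H →* MulAut ↥H).range = ⊤ := by
    by_contra hne
    have h1 : M ≤ M ⊔ (MulAut.conj : ↥H →* MulAut ↥H).range := le_sup_left
    rcases eq_or_lt_of_le h1 with h2 | h2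
    · exact hnot (h2 ▸ le_sup_right)
    · exact hne (hM.2 _ h2)
  let θ : G →* MulAut ↥H := MulAut.conjNormal
  have hθ : ∀ h : H, θ (h : G) = MulAut.conj h := by
    intro h
    ext x
    simp [θ, MulAut.conjNormal_apply]
  have hK : M.comap θ ⊔ H = ⊤ := by
    rw [eq_top_iff]
    intro g _
    have hg : θ g ∈ M ⊔ (MulAut.conj : ↥H →* MulAut ↥H).range := hsup ▸ Subgroup.mem_top _
    rw [Subgroup.mem_sup_of_normal_right] at hg
    obtain ⟨m, hm, r, ⟨h, rfl⟩, hmr⟩ := hg
    have : g = (g * (h : G)⁻¹) * (h : G) := by group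
    rw [this]
    apply Subgroup.mul_mem_sup
    · rw [Subgroup.mem_comap, map_mul, map_inv, hθ, ← hmr]
      simpa using hm
    · exact h.2
  have hK' : M.comap θ = ⊤ := by
    apply frattini_nongenerating
    rw [eq_top_iff, ← hK]
    exact sup_le_sup_left hH _
  apply hnot
  rintro _ ⟨h, rfl⟩
  have : (h : G) ∈ M.comap θ := hK' ▸ Subgroup.mem_top _
  rw [Subgroup.mem_comap, hθ] at this
  exact this

end Cfsg.Agent.S0576
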