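import Cfsg.Statements.S0577
import Cfsg.Agent.Helper70.Schmidt2

set_option autoImplicit false
open Cfsg

namespace Cfsg.Agent.S0577

open Subgroup Cfsg.Agent.Helper70

/-- Let G be a finite minimal non-nilpotent group and Q a normal Sylow q-subgroup of G, and let D be the commutator subgroup of Q regarded in G (a normal subgroup). Then G modulo D is non-abelian and all its proper subgroups are abelian. -/
theorem result {G : Type*} [Group G] [Finite G] (hG : Cfsg.IsMinimalNonNilpotent G) (q : ℕ) [Fact q.Prime] (hq : q ∣ Nat.card G) (Q : Sylow q G) (hQ : (Q : Subgroup G).Normal) (D : Subgroup G) [D.Normal] (hD : D = (commutator ↥(Q : Subgroup G)).map (Q : Subgroup G).subtype) : ¬ IsMulCommutative (G ⧸ D) ∧ ∀ K : Subgroup (G ⧸ D), K ≠ ⊤ → IsMulCommutative K := by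
  have hD' : D = ⁅(Q : Subgroup G), (Q : Subgroup G)⁆ := by
    rw [hD, Subgroup.map_subtype_commutator]
  obtain ⟨h1, h2⟩ := schmidt_quotient hG.1 hG.2 q hq Q hQ
  rw [← hD'] at h1 h2
  constructor
  · intro hc
    exact h1 (Subgroup.Normal.quotient_commutative_iff_commutator_le.mp hc)
  · intro K hK
    have hH : K.comap (QuotientGroup.mk' D) ≠ ⊤ := by
      intro htop
      apply hK
      rw [eq_top_iff]
      intro x _
      obtain ⟨a, rfl⟩ := QuotientGroup.mk'_surjective D x
      have : a ∈ K.comap (QuotientGroup.mk' D) := by rw [htop]; trivial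
      exact this
    refine ⟨⟨fun x y => ?_⟩⟩
    obtain ⟨a, ha⟩ := QuotientGroup.mk'_surjective D x.1
    obtain ⟨b, hb⟩ := QuotientGroup.mk'_surjective D y.1
    have haH : a ∈ K.comap (QuotientGroup.mk' D) := by rw [Subgroup.mem_comap, ha]; exact x.2
    have hbH : b ∈ K.comap (QuotientGroup.mk' D) := by rw [Subgroup.mem_comap, hb]; exact y.2
    have := h2 _ hH a haH b hbH
    apply Subtype.ext
    show x.1 * y.1 = y.1 * x.1
    rw [← ha, ← hb]
    show ((a * b : G) : G ⧸ D) = ((b * a : G) : G ⧸ D)
    exact QuotientGroup.eq.mpr this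

end Cfsg.Agent.S0577
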