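import Cfsg.Statements.S0578
import Mathlib
import Cfsg.Agent.Helper53.PGroup
import Cfsg.Agent.Helper51.Basic

set_option autoImplicit false
open Cfsg

namespace Cfsg.Agent.S0578

open scoped commutatorElement

theorem sylow_comm {G : Type*} [Group G] [Finite G]
    (h : ∀ A : Subgroup G, IsMulCommutative A → Subgroup.normalizer (A : Set G) = Subgroup.centralizer (A : Set G))
    (p : ℕ) [Fact p.Prime] (P : Sylow p G) : IsMulCommutative (P : Subgroup G) := by
  obtain ⟨A, hA⟩ := exists_maximal_of_wellFoundedGT
    (fun A : Subgroup G => A ≤ P ∧ IsMulCommutative A) ⟨⊥, bot_le, inferInstance⟩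
  obtain ⟨hAP, hAc⟩ := hA.prop
  by_cases hEq : A = P
  · rw [← hEq]; exact hAc
  · exfalso
    have hlt : A < P := lt_of_le_of_ne hAP hEq
    obtain ⟨x, hxP, hxA, hxN⟩ := Cfsg.Agent.Helper53.exists_mem_normalizer_not_mem P.isPGroup' hlt
    rw [h A hAc] at hxN
    have hx : ∀ a ∈ A, a * x = x * a := fun a ha => (Subgroup.mem_centralizer_iff.mp hxN a ha)
    have hsup : IsMulCommutative ↥(A ⊔ Subgroup.zpowers x) := by
      refine Cfsg.Agent.Helper51.sup_isMulCommutative A (Subgroup.zpowers x) hAc inferInstance ?_
      intro a ha k hk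
      obtain ⟨n, rfl⟩ := Subgroup.mem_zpowers_iff.mp hk
      exact (Commute.zpow_right (hx a ha) n)
    have := hA.le_of_ge ⟨sup_le hAP (Subgroup.zpowers_le.mpr hxP), hsup⟩ le_sup_left
    exact hxA (this (Subgroup.mem_sup_right (Subgroup.mem_zpowers x)))

/-- If in a finite group the normalizer of each abelian subgroup coincides with its centralizer, then the group is abelian. -/
theorem result {G : Type*} [Group G] [Finite G] (h : ∀ A : Subgroup G, IsMulCommutative A → Subgroup.normalizer (A : Set G) = Subgroup.centralizer (A : Set G)) : IsMulCommutative G := by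
  have hcomm : commutator G = ⊥ := by
    rw [← Subgroup.card_eq_one, Nat.eq_one_iff_not_exists_prime_dvd]
    intro p hp hdvd
    haveI := Fact.mk hp
    obtain ⟨P⟩ : Nonempty (Sylow p G) := inferInstance
    have hPc := sylow_comm h p P
    have hP : Subgroup.normalizer ((P : Subgroup G) : Set G) ≤ Subgroup.centralizer (P : Set G) :=
      (h P hPc).le
    have hker : commutator G ≤ (MonoidHom.transferSylow P hP).ker := by
      rw [commutator_def, Subgroup.commutator_le]
      intro g _ k _
      rw [MonoidHom.mem_ker, map_commutatorElement, commutatorElement_eq_one_iff_commute]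
      exact hPc.is_comm.comm _ _
    exact MonoidHom.not_dvd_card_ker_transferSylow P hP (hdvd.trans (Subgroup.card_dvd_of_le hker))
  refine ⟨⟨fun a b => ?_⟩⟩
  have : ⁅a, b⁆ ∈ commutator G := by
    rw [commutator_def]
    exact Subgroup.commutator_mem_commutator (Subgroup.mem_top a) (Subgroup.mem_top b)
  rw [hcomm, Subgroup.mem_bot, commutatorElement_eq_one_iff_mul_comm] at this
  exact this

end Cfsg.Agent.S0578
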