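import Cfsg.Statements.S0582
import Cfsg.Agent.Helper9.CLT

set_option autoImplicit false
open Pointwise
open Cfsg

namespace Cfsg.Agent.S0582

universe u

open Cfsg.Agent.Helper9 in
/-- Structure of a supersolvable subgroup: normal Sylow subgroup for the largest prime and a
complement. -/
theorem decomp {G : Type u} [Group G] [Finite G] (H : Subgroup G) (hH : IsSupersolvable H)
    (p : ℕ) [Fact p.Prime] (hp : p ∣ Nat.card H)
    (hmax : ∀ q : ℕ, q.Prime → q ∣ Nat.card H → q ≤ p) :
    ∃ P H₁ : Subgroup G, P ≤ H ∧ H₁ ≤ H ∧ Nat.card P = p ^ (Nat.card H).factorization p ∧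
      Nat.card H₁ = Nat.card H / p ^ (Nat.card H).factorization p ∧
      H ≤ Subgroup.normalizer (P : Set G) ∧ H = P ⊔ H₁ ∧ IsSupersolvable H₁ := by
  classical
  have hpp : p.Prime := Fact.out
  obtain ⟨PH⟩ : Nonempty (Sylow p H) := inferInstance
  have hPHn : (PH : Subgroup H).Normal :=
    sylow_normal_of_clt (fun H' => clt_of_ss (ss_subgroup H' hH)) p hp hmax PH
  obtain ⟨H₁', hH₁'⟩ := clt_of_ss hH (Nat.card H / p ^ (Nat.card H).factorization p)
    (Nat.div_dvd_of_dvd (Nat.ordProj_dvd _ _))
  have hPc : Nat.card ((PH : Subgroup H).map H.subtype) = p ^ (Nat.card H).factorization p := by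
    rw [Subgroup.card_map_of_injective H.subtype_injective]
    exact PH.card_eq_multiplicity
  have hH₁c : Nat.card (H₁'.map H.subtype) = Nat.card H / p ^ (Nat.card H).factorization p := by
    rw [Subgroup.card_map_of_injective H.subtype_injective]
    exact hH₁'
  have hPle : (PH : Subgroup H).map H.subtype ≤ H := Subgroup.map_subtype_le _
  have hH₁le : H₁'.map H.subtype ≤ H := Subgroup.map_subtype_le _
  refine ⟨(PH : Subgroup H).map H.subtype, H₁'.map H.subtype, hPle, hH₁le, hPc, hH₁c, ?_, ?_, ?_⟩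
  · rw [← Subgroup.normal_subgroupOf_iff_le_normalizer hPle]
    have : ((PH : Subgroup H).map H.subtype).subgroupOf H = (PH : Subgroup H) :=
      Subgroup.comap_map_eq_self_of_injective H.subtype_injective _
    rw [this]; exact hPHn
  · symm
    apply Subgroup.eq_of_le_of_card_ge (sup_le hPle hH₁le)
    have d1 : Nat.card ((PH : Subgroup H).map H.subtype) ∣
        Nat.card ((PH : Subgroup H).map H.subtype ⊔ H₁'.map H.subtype : Subgroup G) :=
      Subgroup.card_dvd_of_le le_sup_left
    have d2 : Nat.card (H₁'.map H.subtype) ∣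
        Nat.card ((PH : Subgroup H).map H.subtype ⊔ H₁'.map H.subtype : Subgroup G) :=
      Subgroup.card_dvd_of_le le_sup_right
    rw [hPc] at d1
    rw [hH₁c] at d2
    have hcop : Nat.Coprime (p ^ (Nat.card H).factorization p)
        (Nat.card H / p ^ (Nat.card H).factorization p) :=
      Nat.Coprime.pow_left _ (Nat.coprime_ordCompl hpp Nat.card_pos.ne')
    have d3 := Nat.Coprime.mul_dvd_of_dvd_of_dvd hcop d1 d2
    rw [Nat.ordProj_mul_ordCompl_eq_self] at d3
    exact Nat.le_of_dvd Nat.card_pos d3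
  · exact ss_of_mulEquiv (H₁'.equivMapOfInjective H.subtype H.subtype_injective)
      (ss_subgroup H₁' hH)

theorem map_conj_of_mem_normalizer {G : Type*} [Group G] (Q : Subgroup G) (x : G)
    (hx : x ∈ Subgroup.normalizer (Q : Set G)) : Q.map (MulAut.conj x).toMonoidHom = Q := by
  ext y
  simp only [Subgroup.mem_map, MulEquiv.coe_toMonoidHom, MulAut.conj_apply]
  rw [Subgroup.mem_normalizer_iff] at hx
  constructor
  · rintro ⟨z, hz, rfl⟩; exact (hx z).1 hz
  · intro hy
    refine ⟨x⁻¹ * y * x, ?_, by group⟩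
    rw [hx]; convert hy using 1; group

theorem map_conj_subtype {G : Type*} [Group G] (N : Subgroup G) (A : Subgroup N) (x : N) :
    (A.map (MulAut.conj x).toMonoidHom).map N.subtype
      = (A.map N.subtype).map (MulAut.conj (x : G)).toMonoidHom := by
  rw [Subgroup.map_map, Subgroup.map_map]
  congr 1

theorem map_conj_mul {G : Type*} [Group G] (H : Subgroup G) (x g : G) :
    (H.map (MulAut.conj g).toMonoidHom).map (MulAut.conj x).toMonoidHom
      = H.map (MulAut.conj (x * g)).toMonoidHom := by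
  rw [Subgroup.map_map]
  congr 1
  ext y
  simp [mul_assoc]

open Cfsg.Agent.Helper9 in
theorem main (n : ℕ) : ∀ (G : Type u) [Group G] [Finite G] (H K : Subgroup G), Nat.card H = n →
    IsSupersolvable H → IsSupersolvable K → Nat.card H = Nat.card K →
    (Nat.card H).Coprime H.index → ∃ x : G, K = H.map (MulAut.conj x).toMonoidHom := by
  induction n using Nat.strong_induction_on with
  | _ n ih =>
  intro G _ _ H K hn hH hK hcard hHall
  classical
  by_cases h1 : Nat.card H = 1
  · refine ⟨1, ?_⟩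
    have hHb : H = ⊥ := Subgroup.card_eq_one.1 h1
    have hKb : K = ⊥ := Subgroup.card_eq_one.1 (hcard ▸ h1)
    rw [hHb, hKb, Subgroup.map_bot]
  have hne : (Nat.card H).primeFactors.Nonempty := by
    rw [Nat.nonempty_primeFactors]
    have := Nat.card_pos (α := H)
    omega
  obtain ⟨p, hp⟩ : ∃ p, p = (Nat.card H).primeFactors.max' hne := ⟨_, rfl⟩
  have hpm := Finset.max'_mem _ hne
  rw [← hp, Nat.mem_primeFactors] at hpm
  obtain ⟨hpp, hpd, -⟩ := hpm
  have : Fact p.Prime := ⟨hpp⟩
  have hmax : ∀ q : ℕ, q.Prime → q ∣ Nat.card H → q ≤ p := fun q hq hqd => by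
    rw [hp]
    exact Finset.le_max' _ q (Nat.mem_primeFactors.2 ⟨hq, hqd, Nat.card_pos.ne'⟩)
  obtain ⟨P, H₁, hPH, hH₁H, hPc, hH₁c, hHN, hHeq, hH₁s⟩ := decomp H hH p hpd hmax
  obtain ⟨Q, K₁, hQK, hK₁K, hQc, hK₁c, hKN, hKeq, hK₁s⟩ := decomp K hK p (hcard ▸ hpd)
    (fun q hq hqd => hmax q hq (hcard ▸ hqd))
  rw [← hcard] at hQc hK₁c
  have hpi : ¬ p ∣ H.index := fun h => by
    have := Nat.dvd_gcd hpd h
    rw [Nat.Coprime.gcd_eq_one hHall] at this
    exact hpp.one_lt.ne' (Nat.dvd_one.1 this)
  have hfact : (Nat.card G).factorization p = (Nat.card H).factorization p := by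
    rw [← H.card_mul_index, Nat.factorization_mul Nat.card_pos.ne'
      (fun h => hpi (by rw [h]; exact dvd_zero p))]
    simp [Nat.factorization_eq_zero_of_not_dvd hpi]
  obtain ⟨g, hg⟩ := MulAction.exists_smul_eq G (Sylow.ofCard P (by rw [hPc, hfact]))
    (Sylow.ofCard Q (by rw [hQc, hfact]))
  have hPQ : Q = P.map (MulAut.conj g).toMonoidHom := by
    have := congrArg (fun S : Sylow p G => (S : Subgroup G)) hg
    exact this.symm
  have hH₁N : H₁.map (MulAut.conj g).toMonoidHom ≤ Subgroup.normalizer (Q : Set G) := by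
    have h1 : H₁ ≤ Subgroup.normalizer (P : Set G) := hH₁H.trans hHN
    have h2 := Subgroup.map_mono (f := (MulAut.conj g).toMonoidHom) h1
    rw [Subgroup.map_equiv_normalizer_eq] at h2
    rw [hPQ]
    exact h2
  have hK₁N : K₁ ≤ Subgroup.normalizer (Q : Set G) := hK₁K.trans hKN
  have hA : IsSupersolvable ((H₁.map (MulAut.conj g).toMonoidHom).subgroupOf
      (Subgroup.normalizer (Q : Set G))) :=
    ss_of_mulEquiv (Subgroup.subgroupOfEquivOfLe hH₁N).symm
      (ss_of_mulEquiv (H₁.equivMapOfInjective _ (MulAut.conj g).injective) hH₁s)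
  have hB : IsSupersolvable (K₁.subgroupOf (Subgroup.normalizer (Q : Set G))) :=
    ss_of_mulEquiv (Subgroup.subgroupOfEquivOfLe hK₁N).symm hK₁s
  have hAc : Nat.card ((H₁.map (MulAut.conj g).toMonoidHom).subgroupOf
      (Subgroup.normalizer (Q : Set G))) = Nat.card H / p ^ (Nat.card H).factorization p := by
    rw [Nat.card_congr (Subgroup.subgroupOfEquivOfLe hH₁N).toEquiv,
      Subgroup.card_map_of_injective (MulAut.conj g).injective, hH₁c]
  have hBc : Nat.card (K₁.subgroupOf (Subgroup.normalizer (Q : Set G)))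
      = Nat.card H / p ^ (Nat.card H).factorization p := by
    rw [Nat.card_congr (Subgroup.subgroupOfEquivOfLe hK₁N).toEquiv, hK₁c]
  have hAdvd : Nat.card H / p ^ (Nat.card H).factorization p ∣ Nat.card H :=
    Nat.div_dvd_of_dvd (Nat.ordProj_dvd _ _)
  have hcop : (Nat.card ((H₁.map (MulAut.conj g).toMonoidHom).subgroupOf
      (Subgroup.normalizer (Q : Set G)))).Coprime
      ((H₁.map (MulAut.conj g).toMonoidHom).subgroupOf
      (Subgroup.normalizer (Q : Set G))).index := by
    apply Nat.coprime_of_dvd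
    intro q hq hqA hqi
    have h1 : Nat.card ((H₁.map (MulAut.conj g).toMonoidHom).subgroupOf
        (Subgroup.normalizer (Q : Set G))) * q ∣ Nat.card (Subgroup.normalizer (Q : Set G)) := by
      rw [← Subgroup.card_mul_index ((H₁.map (MulAut.conj g).toMonoidHom).subgroupOf
        (Subgroup.normalizer (Q : Set G)))]
      exact mul_dvd_mul_left _ hqi
    have h2 : Nat.card (Subgroup.normalizer (Q : Set G)) ∣ Nat.card G :=
      Subgroup.card_subgroup_dvd_card _
    have h3 : Nat.card G = (Nat.card H / p ^ (Nat.card H).factorization p) *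
        (p ^ (Nat.card H).factorization p * H.index) := by
      rw [← mul_assoc, mul_comm (Nat.card H / p ^ (Nat.card H).factorization p),
        Nat.ordProj_mul_ordCompl_eq_self, H.card_mul_index]
    rw [hAc] at h1 hqA
    have h4 := h1.trans h2
    rw [h3] at h4
    have hpos : 0 < Nat.card H / p ^ (Nat.card H).factorization p :=
      Nat.div_pos (Nat.le_of_dvd Nat.card_pos (Nat.ordProj_dvd _ _)) (pow_pos hpp.pos _)
    have h5 : q ∣ p ^ (Nat.card H).factorization p * H.index :=
      Nat.dvd_of_mul_dvd_mul_left hpos h4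
    rcases (Nat.Prime.dvd_mul hq).1 h5 with h | h
    · have hqp : q = p := (Nat.prime_dvd_prime_iff_eq hq hpp).1 (hq.dvd_of_dvd_pow h)
      rw [hqp] at hqA
      exact Nat.not_dvd_ordCompl hpp Nat.card_pos.ne' hqA
    · have : q ∣ Nat.gcd (Nat.card H) H.index := Nat.dvd_gcd (hqA.trans hAdvd) h
      rw [Nat.Coprime.gcd_eq_one hHall] at this
      exact hq.one_lt.ne' (Nat.dvd_one.1 this)
  have hlt : Nat.card ((H₁.map (MulAut.conj g).toMonoidHom).subgroupOf
      (Subgroup.normalizer (Q : Set G))) < n := by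
    rw [hAc, ← hn]
    have h2 : 2 ≤ p ^ (Nat.card H).factorization p := by
      have h3 : 1 ≤ (Nat.card H).factorization p :=
        (hpp.dvd_iff_one_le_factorization Nat.card_pos.ne').1 hpd
      calc 2 ≤ p := hpp.two_le
        _ = p ^ 1 := (pow_one p).symm
        _ ≤ p ^ (Nat.card H).factorization p := Nat.pow_le_pow_right hpp.pos h3
    exact Nat.div_lt_self Nat.card_pos h2
  obtain ⟨x, hx⟩ := ih _ hlt ↥(Subgroup.normalizer (Q : Set G)) _ _ rfl hA hB
    (hAc.trans hBc.symm) hcop
  have hK₁ : K₁ = (H₁.map (MulAut.conj g).toMonoidHom).map (MulAut.conj (x : G)).toMonoidHom := by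
    have e1 : K₁ = (K₁.subgroupOf (Subgroup.normalizer (Q : Set G))).map
        (Subgroup.normalizer (Q : Set G)).subtype :=
      (Subgroup.map_subgroupOf_eq_of_le hK₁N).symm
    have e2 : ((H₁.map (MulAut.conj g).toMonoidHom).subgroupOf
        (Subgroup.normalizer (Q : Set G))).map (Subgroup.normalizer (Q : Set G)).subtype
        = H₁.map (MulAut.conj g).toMonoidHom := Subgroup.map_subgroupOf_eq_of_le hH₁N
    rw [e1, hx, map_conj_subtype, e2]
  have key : ∀ y : G, Q.map (MulAut.conj y).toMonoidHom = Q →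
      K₁ = (H₁.map (MulAut.conj g).toMonoidHom).map (MulAut.conj y).toMonoidHom →
      K = H.map (MulAut.conj (y * g)).toMonoidHom := by
    intro y hy1 hy2
    rw [hKeq, hy2]
    nth_rewrite 1 [← hy1]
    rw [hPQ, ← Subgroup.map_sup, ← Subgroup.map_sup, ← hHeq, map_conj_mul]
  exact ⟨(x : G) * g, key x (map_conj_of_mem_normalizer Q x x.2) hK₁⟩

/-- Let H and K be supersolvable subgroups of a finite group G of the same order, that order being coprime to their index. Then H and K are conjugate in G. -/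
theorem result {G : Type*} [Group G] [Finite G] (H K : Subgroup G) (hH : Cfsg.IsSupersolvable H) (hK : Cfsg.IsSupersolvable K) (hcard : Nat.card H = Nat.card K) (hHall : (Nat.card H).Coprime H.index) : ∃ x : G, MulAut.conj x • H = K := by
  obtain ⟨x, hx⟩ := main _ G H K rfl hH hK hcard hHall
  exact ⟨x, hx.symm⟩

end Cfsg.Agent.S0582
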