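import Cfsg.Statements.S0584
import Mathlib

set_option autoImplicit false
open Cfsg

namespace Cfsg.Agent.S0584

/-- Let B ≤ A be normal subgroups of a finite group G with B contained in the Frattini subgroup of G. If A modulo B is nilpotent then A is nilpotent. -/
theorem result {G : Type*} [Group G] [Finite G] (A B : Subgroup G) [A.Normal] [B.Normal] (hBA : B ≤ A) (hB : B ≤ frattini G) (h : Group.IsNilpotent (↥A ⧸ B.subgroupOf A)) : Group.IsNilpotent A := by
  refine ((Group.isNilpotent_of_finite_tfae (G := ↥A)).out 0 3).mpr ?_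
  intro p hp P
  have := hp
  have : Group.IsNilpotent (↥A ⧸ B.subgroupOf A) := h
  have hsurj : Function.Surjective (QuotientGroup.mk' (B.subgroupOf A)) :=
    QuotientGroup.mk'_surjective (B.subgroupOf A)
  have hPbar : ((P : Subgroup A).map (QuotientGroup.mk' (B.subgroupOf A))).Normal := by
    have : (((P.mapSurjective hsurj : Sylow p (↥A ⧸ B.subgroupOf A)) :
        Subgroup (↥A ⧸ B.subgroupOf A))).Normal := inferInstance
    rwa [Sylow.coe_mapSurjective] at this
  have hSn : (B.subgroupOf A ⊔ (P : Subgroup A)).Normal := by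
    rw [← QuotientGroup.comap_map_mk']
    exact hPbar.comap _
  have hPS : (P : Subgroup A) ≤ B.subgroupOf A ⊔ (P : Subgroup A) := le_sup_right
  have hF1 := Sylow.normalizer_sup_eq_top' P hPS
  have hF1' : Subgroup.normalizer ((P : Subgroup A) : Set A) ⊔ B.subgroupOf A = ⊤ := by
    rw [← hF1]
    apply le_antisymm
    · exact sup_le le_sup_left ((le_sup_left : B.subgroupOf A ≤ B.subgroupOf A ⊔ (P : Subgroup A)).trans le_sup_right)
    · exact sup_le le_sup_left (sup_le le_sup_right (Subgroup.le_normalizer.trans le_sup_left))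
  have hF2 := Sylow.normalizer_sup_eq_top P
  have hA : A ≤ Subgroup.normalizer (((P : Subgroup A).map A.subtype : Subgroup G) : Set G) ⊔ B := by
    have := congrArg (Subgroup.map A.subtype) hF1'
    rw [Subgroup.map_sup, ← MonoidHom.range_eq_map, Subgroup.range_subtype] at this
    refine le_trans this.symm.le (sup_le_sup ?_ ?_)
    · rintro _ ⟨a, ha, rfl⟩
      rw [SetLike.mem_coe, Subgroup.mem_normalizer_iff] at ha
      rw [Subgroup.mem_normalizer_iff]
      intro x
      constructor
      · rintro ⟨y, hy, rfl⟩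
        exact ⟨a * y * a⁻¹, (ha y).mp hy, by simp⟩
      · rintro ⟨z, hz, hzx⟩
        have hx : x = A.subtype (a⁻¹ * z * a) := by
          simp only [Subgroup.coe_subtype, Subgroup.coe_mul, Subgroup.coe_inv] at hzx ⊢
          rw [hzx]; group
        rw [hx]
        refine ⟨a⁻¹ * z * a, ?_, rfl⟩
        refine (ha (a⁻¹ * z * a)).mpr ?_
        have e : a * (a⁻¹ * z * a) * a⁻¹ = z := by group
        rw [e]; exact hz
    · rw [Subgroup.subgroupOf_map_subtype]; exact inf_le_left
  have hG : Subgroup.normalizer (((P : Subgroup A).map A.subtype : Subgroup G) : Set G) ⊔ frattini G = ⊤ := by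
    rw [eq_top_iff, ← hF2]
    exact sup_le le_sup_left (hA.trans (sup_le_sup le_rfl hB))
  have hN' := frattini_nongenerating hG
  constructor
  intro x hx a
  have : (a : G) * x * (a : G)⁻¹ ∈ (P : Subgroup A).map A.subtype := by
    have ha : (a : G) ∈ Subgroup.normalizer (((P : Subgroup A).map A.subtype : Subgroup G) : Set G) :=
      hN' ▸ Subgroup.mem_top _
    exact (Subgroup.mem_normalizer_iff.mp ha x).mp ⟨x, hx, rfl⟩
  obtain ⟨y, hy, hyx⟩ := this
  have : y = a * x * a⁻¹ := Subtype.ext (by simpa using hyx)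
  rw [← this]; exact hy

end Cfsg.Agent.S0584
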