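import Cfsg.Statements.S0585
import Mathlib

set_option autoImplicit false
open Cfsg

namespace Cfsg.Agent.S0585

/-- In a finite group with trivial Frattini subgroup every abelian normal subgroup is complemented. -/
theorem exists_compl {G : Type*} [Group G] [Finite G] (hΦ : frattini G = ⊥) (A : Subgroup G)
    [A.Normal] (hAc : ∀ a ∈ A, ∀ b ∈ A, a * b = b * a) :
    ∃ H : Subgroup G, A ⊔ H = ⊤ ∧ A ⊓ H = ⊥ := by
  classical
  obtain ⟨H, hH⟩ := exists_minimal_of_wellFoundedLT (fun H : Subgroup G => A ⊔ H = ⊤) ⟨⊤, sup_top_eq _⟩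
  have hAH : A ⊔ H = ⊤ := hH.1
  refine ⟨H, hAH, ?_⟩
  have hn : (A ⊓ H).Normal := by
    constructor
    intro d hd g
    have hg : g ∈ A ⊔ H := hAH ▸ Subgroup.mem_top g
    rw [Subgroup.mem_sup_of_normal_left] at hg
    obtain ⟨a, ha, u, hu, rfl⟩ := hg
    have h1 : u * d * u⁻¹ ∈ A := (inferInstance : A.Normal).conj_mem d hd.1 u
    have h2 : u * d * u⁻¹ ∈ H := H.mul_mem (H.mul_mem hu hd.2) (H.inv_mem hu)
    have h3 : a * (u * d * u⁻¹) * a⁻¹ = u * d * u⁻¹ := by
      rw [hAc a ha _ h1]; group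
    have : a * u * d * (a * u)⁻¹ = a * (u * d * u⁻¹) * a⁻¹ := by group
    rw [this, h3]
    exact ⟨h1, h2⟩
  by_contra hne
  -- some maximal subgroup does not contain A ⊓ H
  have hex : ∃ M : Subgroup G, IsCoatom M ∧ ¬ (A ⊓ H ≤ M) := by
    by_contra hcon
    push Not at hcon
    apply hne
    rw [eq_bot_iff, ← hΦ]
    show _ ≤ ⨅ a ∈ {M : Subgroup G | IsCoatom M}, a
    exact le_iInf₂ hcon
  obtain ⟨M, hM, hDM⟩ := hex
  have hsup : (A ⊓ H) ⊔ M = ⊤ := by
    by_contra hne'
    have h1 : M ≤ (A ⊓ H) ⊔ M := le_sup_right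
    rcases eq_or_lt_of_le h1 with h2 | h2
    · exact hDM (h2 ▸ le_sup_left)
    · exact hne' (hM.2 _ h2)
  have hmin : A ⊔ (H ⊓ M) = ⊤ := by
    rw [eq_top_iff]
    intro g _
    have hg : g ∈ A ⊔ H := hAH ▸ Subgroup.mem_top g
    rw [Subgroup.mem_sup_of_normal_left] at hg
    obtain ⟨a, ha, u, hu, rfl⟩ := hg
    have hu' : u ∈ (A ⊓ H) ⊔ M := hsup ▸ Subgroup.mem_top u
    rw [Subgroup.mem_sup_of_normal_left] at hu'
    obtain ⟨d, hd, m, hm, rfl⟩ := hu'
    have hmH : m ∈ H := by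
      have : m = d⁻¹ * (d * m) := by group
      rw [this]
      exact H.mul_mem (H.inv_mem hd.2) hu
    have : a * (d * m) = (a * d) * m := by group
    rw [this]
    exact Subgroup.mul_mem_sup (A.mul_mem ha hd.1) ⟨hmH, hm⟩
  have hle : H ≤ H ⊓ M := hH.2 hmin inf_le_left
  exact hDM (inf_le_right.trans (hle.trans inf_le_right))

/-- If the Frattini subgroup of a finite group G is trivial, then every abelian normal subgroup of G has a complement in G. -/
theorem result {G : Type*} [Group G] [Finite G] (hΦ : frattini G = ⊥) (A : Subgroup G) [A.Normal] [IsMulCommutative A] : ∃ H : Subgroup G, Subgroup.IsComplement' A H := by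
  obtain ⟨H, h1, h2⟩ := exists_compl hΦ A (fun a ha b hb => by
    have := (inferInstance : IsMulCommutative A).is_comm.comm ⟨a, ha⟩ ⟨b, hb⟩
    exact congrArg Subtype.val this)
  refine ⟨H, ?_⟩
  apply Subgroup.isComplement'_of_disjoint_and_mul_eq_univ (disjoint_iff.mpr h2)
  rw [← Subgroup.normal_mul, h1, Subgroup.coe_top]

end Cfsg.Agent.S0585
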