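import Cfsg.Statements.S0586
import Mathlib
import Cfsg.Agent.S0575
import Cfsg.Agent.S0585

set_option autoImplicit false
open Cfsg

namespace Cfsg.Agent.S0586

theorem isNilpotent_of_comm {P : Type*} [Group P] (h : ∀ a b : P, a * b = b * a) :
    Group.IsNilpotent P := by
  let _ : CommGroup P := { (inferInstance : Group P) with mul_comm := h }
  infer_instance

/-- a finite nilpotent group with trivial Frattini subgroup is commutative -/
theorem comm_of_nilpotent_frattini_bot {P : Type*} [Group P] [Finite P] [hP : Group.IsNilpotent P]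
    (h : frattini P = ⊥) (a b : P) : a * b = b * a := by
  have hmax : ∀ M : Subgroup P, IsCoatom M → M.Normal :=
    ((Group.isNilpotent_of_finite_tfae (G := P)).out 0 2).mp hP
  have hmem : a * b * a⁻¹ * b⁻¹ ∈ frattini P := by
    show _ ∈ ⨅ M ∈ {M : Subgroup P | IsCoatom M}, M
    simp only [Subgroup.mem_iInf]
    intro M hM
    have hMn : M.Normal := hmax M hM
    by_cases ha : a ∈ M
    · have : a * b * a⁻¹ * b⁻¹ = a * (b * a⁻¹ * b⁻¹) := by group
      rw [this]
      exact M.mul_mem ha (hMn.conj_mem _ (M.inv_mem ha) b)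
    · have hsup : M ⊔ Subgroup.zpowers a = ⊤ := by
        apply hM.2
        refine lt_of_le_of_ne le_sup_left ?_
        intro heq
        apply ha
        rw [heq]
        exact Subgroup.mem_sup_right (Subgroup.mem_zpowers a)
      have hb : b ∈ M ⊔ Subgroup.zpowers a := hsup ▸ Subgroup.mem_top b
      rw [Subgroup.mem_sup_of_normal_left] at hb
      obtain ⟨m, hm, z, hz, rfl⟩ := hb
      obtain ⟨k, rfl⟩ := Subgroup.mem_zpowers_iff.mp hz
      have : a * (m * a ^ k) * a⁻¹ * (m * a ^ k)⁻¹ = (a * m * a⁻¹) * m⁻¹ := by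
        have h1 : a * (m * a ^ k) * a⁻¹ * (m * a ^ k)⁻¹ = a * m * (a ^ k * a⁻¹ * (a ^ k)⁻¹) * m⁻¹ := by
          group
        rw [h1]
        have h2 : a ^ k * a⁻¹ * (a ^ k)⁻¹ = a⁻¹ := by
          rw [← zpow_neg_one, ← zpow_add, ← zpow_neg, ← zpow_add]
          congr 1
          ring
        rw [h2]
      rw [this]
      exact M.mul_mem (hMn.conj_mem _ hm a) (M.inv_mem hm)
  rw [h, Subgroup.mem_bot] at hmem
  have : a * b = (a * b * a⁻¹ * b⁻¹) * (b * a) := by group
  rw [this, hmem, one_mul]

/-- the set of abelian minimal normal subgroups -/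
def minAb (G : Type*) [Group G] : Set (Subgroup G) :=
  {N : Subgroup G | N.Normal ∧ N ≠ ⊥ ∧ IsMulCommutative N ∧
    ∀ K : Subgroup G, K.Normal → K ≤ N → K = ⊥ ∨ K = N}

theorem le_centralizer_self_of_comm {G : Type*} [Group G] (N : Subgroup G) [h : IsMulCommutative N] :
    N ≤ Subgroup.centralizer (N : Set G) := by
  intro a ha b hb
  have := h.is_comm.comm ⟨b, hb⟩ ⟨a, ha⟩
  exact congrArg Subtype.val this

/-- an abelian normal subgroup centralizes every abelian minimal normal subgroup -/
theorem le_centralizer_minAb {G : Type*} [Group G] (N : Subgroup G) [N.Normal]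
    (hN : N ≤ Subgroup.centralizer (N : Set G)) (M : Subgroup G) (hM : M ∈ minAb G) :
    N ≤ Subgroup.centralizer (M : Set G) := by
  obtain ⟨hMn, hM0, hMc, hMmin⟩ := hM
  rcases hMmin (N ⊓ M) inferInstance inf_le_right with h | h
  · have := Subgroup.commutator_le_inf N M
    rw [h, le_bot_iff] at this
    exact Subgroup.commutator_eq_bot_iff_le_centralizer.mp this
  · have hle : M ≤ N := by rw [← h]; exact inf_le_left
    exact hN.trans (Subgroup.centralizer_le hle)

/-- If the Frattini subgroup of a finite group G is trivial, then the Fitting subgroup of G equals the join of all abelian minimal normal subgroups of G. -/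
theorem result {G : Type*} [Group G] [Finite G] (hΦ : frattini G = ⊥) : Cfsg.fittingSubgroup G = sSup {N : Subgroup G | N.Normal ∧ N ≠ ⊥ ∧ IsMulCommutative N ∧ ∀ K : Subgroup G, K.Normal → K ≤ N → K = ⊥ ∨ K = N} := by
  classical
  have hSn : (sSup (minAb G)).Normal := Subgroup.sSup_normal _ (fun H hH => hH.1)
  -- S is abelian
  have hSS : sSup (minAb G) ≤ Subgroup.centralizer ((sSup (minAb G) : Subgroup G) : Set G) := by
    refine sSup_le ?_
    intro M hM
    rw [Subgroup.le_centralizer_iff]
    refine sSup_le ?_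
    intro M' hM'
    have := hM'.1
    have := hM'.2.2.1
    exact le_centralizer_minAb M' (le_centralizer_self_of_comm M') M hM
  have hSc : ∀ a ∈ sSup (minAb G), ∀ b ∈ sSup (minAb G), a * b = b * a := by
    intro a ha b hb
    exact (hSS hb a ha)
  obtain ⟨H, hSH, hSH0⟩ := Cfsg.Agent.S0585.exists_compl hΦ (sSup (minAb G)) hSc
  show Cfsg.fittingSubgroup G = sSup (minAb G)
  apply le_antisymm
  · refine sSup_le ?_
    rintro N ⟨hNn, hNnil⟩
    have := hNn
    -- N is abelian
    have hNΦ : frattini ↥N = ⊥ := by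
      have := Cfsg.Agent.S0575.result N
      rw [hΦ, le_bot_iff] at this
      exact (Subgroup.map_eq_bot_iff_of_injective _ N.subtype_injective).mp this
    have hNc : N ≤ Subgroup.centralizer (N : Set G) := by
      intro a ha b hb
      have := comm_of_nilpotent_frattini_bot hNΦ ⟨b, hb⟩ ⟨a, ha⟩
      exact congrArg Subtype.val this
    -- N centralizes S
    have hNS : sSup (minAb G) ≤ Subgroup.centralizer (N : Set G) := by
      refine sSup_le ?_
      intro M hM
      rw [Subgroup.le_centralizer_iff]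
      exact le_centralizer_minAb N hNc M hM
    -- N ⊔ S is abelian
    have hT : N ⊔ sSup (minAb G) ≤ Subgroup.centralizer ((N ⊔ sSup (minAb G) : Subgroup G) : Set G) := by
      refine sup_le ?_ ?_
      · rw [Subgroup.le_centralizer_iff]
        exact sup_le hNc hNS
      · rw [Subgroup.le_centralizer_iff]
        exact sup_le (Subgroup.le_centralizer_iff.mp hNS) hSS
    -- D = (N ⊔ S) ⊓ H is normal
    have hDn : ((N ⊔ sSup (minAb G)) ⊓ H).Normal := by
      constructor
      intro d hd g
      have hg : g ∈ sSup (minAb G) ⊔ H := hSH ▸ Subgroup.mem_top g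
      rw [Subgroup.mem_sup_of_normal_left] at hg
      obtain ⟨a, ha, u, hu, rfl⟩ := hg
      have h1 : u * d * u⁻¹ ∈ N ⊔ sSup (minAb G) :=
        (inferInstance : (N ⊔ sSup (minAb G)).Normal).conj_mem d hd.1 u
      have h2 : u * d * u⁻¹ ∈ H := H.mul_mem (H.mul_mem hu hd.2) (H.inv_mem hu)
      have h3 : a * (u * d * u⁻¹) * a⁻¹ = u * d * u⁻¹ := by
        have := hT (Subgroup.mem_sup_right ha) _ h1
        rw [mul_inv_eq_iff_eq_mul]
        exact this.symm
      have : a * u * d * (a * u)⁻¹ = a * (u * d * u⁻¹) * a⁻¹ := by group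
      rw [this, h3]
      exact ⟨h1, h2⟩
    have hD0 : (N ⊔ sSup (minAb G)) ⊓ H = ⊥ := by
      by_contra hne
      obtain ⟨M, hM⟩ := exists_minimal_of_wellFoundedLT
        (fun K : Subgroup G => K.Normal ∧ K ≠ ⊥ ∧ K ≤ (N ⊔ sSup (minAb G)) ⊓ H) ⟨_, hDn, hne, le_rfl⟩
      obtain ⟨⟨hMn, hM0, hMD⟩, hMmin⟩ := hM
      have hMmem : M ∈ minAb G := by
        refine ⟨hMn, hM0, ⟨⟨?_⟩⟩, ?_⟩
        · rintro ⟨a, ha⟩ ⟨b, hb⟩
          apply Subtype.ext
          show a * b = b * a
          exact (hT (hMD hb).1 a (hMD ha).1)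
        · intro K hK hKM
          by_cases hK0 : K = ⊥
          · exact Or.inl hK0
          · exact Or.inr (le_antisymm hKM (hMmin ⟨hK, hK0, hKM.trans hMD⟩ hKM))
      have : M ≤ sSup (minAb G) ⊓ H := le_inf (le_sSup hMmem) (hMD.trans inf_le_right)
      rw [hSH0, le_bot_iff] at this
      exact hM0 this
    intro n hn
    have hg : n ∈ sSup (minAb G) ⊔ H := hSH ▸ Subgroup.mem_top n
    rw [Subgroup.mem_sup_of_normal_left] at hg
    obtain ⟨a, ha, u, hu, rfl⟩ := hg
    have : u ∈ (N ⊔ sSup (minAb G)) ⊓ H := by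
      refine ⟨?_, hu⟩
      have : u = a⁻¹ * (a * u) := by group
      rw [this]
      exact Subgroup.mul_mem _ (Subgroup.mem_sup_right (Subgroup.inv_mem _ ha)) (Subgroup.mem_sup_left hn)
    rw [hD0, Subgroup.mem_bot] at this
    rw [this, mul_one]
    exact ha
  · refine sSup_le ?_
    intro M hM
    refine le_sSup ⟨hM.1, ?_⟩
    have := hM.2.2.1
    exact isNilpotent_of_comm (fun a b => (hM.2.2.1).is_comm.comm a b)

end Cfsg.Agent.S0586
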