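import Cfsg.Statements.S0587
import Mathlib
import Cfsg.Agent.Helper10.CoreFree
import Cfsg.Agent.Helper10.PCore

set_option autoImplicit false
open Cfsg

namespace Cfsg.Agent.S0587

open Cfsg.Agent.Helper10

/-- the elements of order dividing `p` in a subgroup with commuting elements -/
def omegaSub {G : Type*} [Group G] (p : ℕ) (P : Subgroup G) (hPc : ∀ a ∈ P, ∀ b ∈ P, a * b = b * a) :
    Subgroup G where
  carrier := {z | z ∈ P ∧ z ^ p = 1}
  mul_mem' := by
    rintro a b ⟨ha, ha'⟩ ⟨hb, hb'⟩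
    refine ⟨P.mul_mem ha hb, ?_⟩
    have hc : Commute a b := hPc a ha b hb
    rw [hc.mul_pow, ha', hb', one_mul]
  one_mem' := ⟨P.one_mem, one_pow p⟩
  inv_mem' := by
    rintro a ⟨ha, ha'⟩
    exact ⟨P.inv_mem ha, by rw [inv_pow, ha', inv_one]⟩

theorem mem_omegaSub {G : Type*} [Group G] (p : ℕ) (P : Subgroup G)
    (hPc : ∀ a ∈ P, ∀ b ∈ P, a * b = b * a) (z : G) : z ∈ omegaSub p P hPc ↔ z ∈ P ∧ z ^ p = 1 :=
  Iff.rfl

/-- Let G be a finite group whose largest normal p-subgroup L is nontrivial, and M a maximal subgroup of G with trivial normal core. Then L is elementary abelian, M is a complement to L, L is a minimal normal subgroup of G, the centralizer of L is L, and for every prime q such that the largest normal q-subgroup of M is nontrivial, the order of L is congruent to 1 modulo q and q ≠ p. -/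
theorem result {G : Type*} [Group G] [Finite G] (p : ℕ) [Fact p.Prime] (hL : Cfsg.pCore p G ≠ ⊥) (M : Subgroup G) (hM : IsCoatom M) (hcore : M.normalCore = ⊥) : Cfsg.IsElementaryAbelian p (Cfsg.pCore p G) ∧ Subgroup.IsComplement' (Cfsg.pCore p G) M ∧ (∀ K : Subgroup G, K.Normal → K ≤ Cfsg.pCore p G → K = ⊥ ∨ K = Cfsg.pCore p G) ∧ Subgroup.centralizer ((Cfsg.pCore p G : Subgroup G) : Set G) = Cfsg.pCore p G ∧ ∀ (q : ℕ) [Fact q.Prime], Cfsg.pCore q ↥M ≠ ⊥ → Nat.card (Cfsg.pCore p G) % q = 1 % q ∧ q ≠ p := by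
  classical
  have hPn : (Cfsg.pCore p G).Normal := pCore_normal p G
  have hPp : IsPGroup p (Cfsg.pCore p G) := pCore_isPGroup p G
  generalize hPdef : Cfsg.pCore p G = P at hPn hPp hL ⊢
  -- the centre Z of P
  have hZ0 : P ⊓ Subgroup.centralizer (P : Set G) ≠ ⊥ :=
    pgroup_fixed_point P P hPp hPp (fun l _ n hn => hPn.conj_mem n hn l) hL
  have hZc : ∀ a ∈ P ⊓ Subgroup.centralizer (P : Set G), ∀ b ∈ P ⊓ Subgroup.centralizer (P : Set G),
      a * b = b * a := fun a ha b hb => (hb.2 a ha.1)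
  obtain ⟨-, -, hCZ⟩ := abelian_normal_corefree M hM hcore (P ⊓ Subgroup.centralizer (P : Set G)) hZ0 hZc
  have hPZ : P ≤ P ⊓ Subgroup.centralizer (P : Set G) := by
    have : P ≤ Subgroup.centralizer ((P ⊓ Subgroup.centralizer (P : Set G) : Subgroup G) : Set G) := by
      rw [Subgroup.le_centralizer_iff]
      exact inf_le_right
    rwa [hCZ] at this
  have hPc : ∀ a ∈ P, ∀ b ∈ P, a * b = b * a := fun a ha b hb => hZc a (hPZ ha) b (hPZ hb)
  obtain ⟨hPM, hPM0, hCP⟩ := abelian_normal_corefree M hM hcore P hL hPc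
  -- Omega_1
  have hNn : (omegaSub p P hPc).Normal := by
    constructor
    intro z hz g
    refine ⟨hPn.conj_mem z hz.1 g, ?_⟩
    rw [conj_pow, hz.2]
    simp
  have hN0 : omegaSub p P hPc ≠ ⊥ := by
    have hpd : p ∣ Nat.card P :=
      (hPp.card_eq_or_dvd).resolve_left (fun h => hL (Subgroup.card_eq_one.mp h))
    obtain ⟨x, hx⟩ := exists_prime_orderOf_dvd_card' p hpd
    intro h
    have hxN : (x : G) ∈ omegaSub p P hPc := by
      refine ⟨x.2, ?_⟩
      have := pow_orderOf_eq_one x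
      rw [hx] at this
      have h2 := congrArg Subtype.val this
      simpa using h2
    rw [h, Subgroup.mem_bot] at hxN
    have : x = 1 := Subtype.ext hxN
    rw [this, orderOf_one] at hx
    exact (Fact.out : p.Prime).one_lt.ne hx
  have hNc : ∀ a ∈ omegaSub p P hPc, ∀ b ∈ omegaSub p P hPc, a * b = b * a :=
    fun a ha b hb => hPc a ha.1 b hb.1
  obtain ⟨-, -, hCN⟩ := abelian_normal_corefree M hM hcore (omegaSub p P hPc) hN0 hNc
  have hPN : P ≤ omegaSub p P hPc := by
    have : P ≤ Subgroup.centralizer ((omegaSub p P hPc : Subgroup G) : Set G) :=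
      fun a ha b hb => hPc b hb.1 a ha
    rwa [hCN] at this
  refine ⟨⟨⟨⟨fun a b => Subtype.ext (hPc a a.2 b b.2)⟩⟩, fun a ha => (hPN ha).2⟩, ?_, ?_, hCP, ?_⟩
  · apply Subgroup.isComplement'_of_disjoint_and_mul_eq_univ (disjoint_iff.mpr hPM0)
    rw [← Subgroup.normal_mul, hPM, Subgroup.coe_top]
  · intro K hK hKP
    by_cases hK0 : K = ⊥
    · exact Or.inl hK0
    · right
      obtain ⟨-, -, hCK⟩ := abelian_normal_corefree M hM hcore K hK0
        (fun a ha b hb => hPc a (hKP ha) b (hKP hb))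
      have : P ≤ Subgroup.centralizer (K : Set G) := fun a ha b hb => hPc b (hKP hb) a ha
      rw [hCK] at this
      exact le_antisymm hKP this
  · intro q hqF hQ0
    have hQ'n : (Cfsg.pCore q ↥M).Normal := pCore_normal q M
    have hQ'q : IsPGroup q (Cfsg.pCore q ↥M) := pCore_isPGroup q M
    have hQq : IsPGroup q ((Cfsg.pCore q ↥M).map M.subtype) := hQ'q.map M.subtype
    have hQ0' : (Cfsg.pCore q ↥M).map M.subtype ≠ ⊥ := by
      rw [Ne, Subgroup.map_eq_bot_iff_of_injective _ M.subtype_injective]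
      exact hQ0
    have hQM : (Cfsg.pCore q ↥M).map M.subtype ≤ M := Subgroup.map_subtype_le _
    have hMQ : M ≤ Subgroup.normalizer (((Cfsg.pCore q ↥M).map M.subtype : Subgroup G) : Set G) := by
      intro m hm
      rw [Subgroup.mem_normalizer_iff]
      intro y
      constructor
      · rintro ⟨y', hy', rfl⟩
        exact ⟨⟨m, hm⟩ * y' * ⟨m, hm⟩⁻¹, hQ'n.conj_mem y' hy' ⟨m, hm⟩, rfl⟩
      · rintro ⟨z', hz', hz⟩
        refine ⟨⟨m, hm⟩⁻¹ * z' * ⟨m, hm⟩, ?_, ?_⟩
        · have := hQ'n.conj_mem z' hz' ⟨m, hm⟩⁻¹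
          simpa using this
        · have h1 : M.subtype (⟨m, hm⟩⁻¹ * z' * ⟨m, hm⟩) = m⁻¹ * (M.subtype z') * m := rfl
          rw [h1, hz]
          group
    generalize hQdef : (Cfsg.pCore q ↥M).map M.subtype = Q at hQq hQ0' hQM hMQ
    have hNQ : Subgroup.normalizer (Q : Set G) = M := by
      rcases eq_or_lt_of_le hMQ with h | h
      · exact h.symm
      · exfalso
        have htop := hM.2 _ h
        have hn : Q.Normal := Subgroup.normalizer_eq_top_iff.mp htop
        have : Q ≤ M.normalCore := Subgroup.normal_le_normalCore.mpr hQM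
        rw [hcore, le_bot_iff] at this
        exact hQ0' this
    have hPCQ : P ⊓ Subgroup.centralizer (Q : Set G) = ⊥ := by
      rw [eq_bot_iff, ← hPM0]
      refine inf_le_inf_left _ ?_
      rw [← hNQ]
      exact Subgroup.centralizer_le_normalizer _
    have hfix : ∀ x ∈ P, (∀ y ∈ Q, y * x * y⁻¹ = x) → x = 1 := by
      intro x hx hxy
      have : x ∈ P ⊓ Subgroup.centralizer (Q : Set G) := by
        refine ⟨hx, ?_⟩
        intro y hy
        have := hxy y hy
        calc y * x = (y * x * y⁻¹) * y := by group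
          _ = x * y := by rw [this]
      rwa [hPCQ, Subgroup.mem_bot] at this
    constructor
    · exact card_modEq_one_of_fixed_point_free Q P hQq (fun y _ x hx => hPn.conj_mem x hx y) hfix
    · intro hqp
      subst hqp
      exact pgroup_fixed_point Q P hQq hPp (fun y _ x hx => hPn.conj_mem x hx y) hL hPCQ

end Cfsg.Agent.S0587
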