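import Cfsg.Statements.S0589
import Cfsg.Agent.Helper29.FrobConj

set_option autoImplicit false
open Pointwise
open Cfsg

namespace Cfsg.Agent.S0589

/-- Let H be a Frobenius complement in a finite group G and L a subgroup of G whose order divides the order of H. Then L is contained in some conjugate of H. -/
theorem result {G : Type*} [Group G] [Finite G] (H : Subgroup G) (hH : Cfsg.IsFrobeniusComplement H) (L : Subgroup G) (hL : Nat.card L ∣ Nat.card H) : ∃ x : G, L ≤ MulAut.conj x • H := by
  obtain ⟨N, hN, hp⟩ := Cfsg.Agent.Helper29.exists_frobPair H hH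
  apply hp.le_conj L
  intro x hx hxN
  have h1 : orderOf x ∣ Nat.card H := (Subgroup.orderOf_dvd_natCard L hx).trans hL
  have h2 : orderOf x ∣ Nat.card N := Subgroup.orderOf_dvd_natCard N hxN
  have h3 : orderOf x ∣ 1 := by
    have h4 := Nat.dvd_gcd h2 h1
    have h5 : Nat.gcd (Nat.card N) (Nat.card H) = 1 := hp.coprime
    rwa [h5] at h4
  exact orderOf_eq_one_iff.mp (Nat.dvd_one.mp h3)

end Cfsg.Agent.S0589
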