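import Cfsg.Statements.S0590
import Mathlib
import Cfsg.Agent.Helper10.Thompson

set_option autoImplicit false
open Cfsg

namespace Cfsg.Agent.S0590

open Cfsg.Agent.Helper10
open scoped commutatorElement

/-- Quadratic action on an elementary abelian p-group forces the acting group modulo the kernel of the action to be elementary abelian. -/
theorem result {G : Type*} [Group G] [Finite G] {p : ℕ} [Fact p.Prime] (V H : Subgroup G) (hV : Cfsg.IsElementaryAbelian p V) (hHV : H ≤ Subgroup.normalizer (V : Set G)) (hq : ⁅⁅V, H⁆, H⁆ = ⊥) : ⁅H, H⁆ ≤ Subgroup.centralizer (V : Set G) ∧ ∀ a ∈ H, a ^ p ∈ Subgroup.centralizer (V : Set G) := by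
  have hVc := (elemAb_iff p V).mp hV
  have hW : ⁅V, H⁆ ≤ Subgroup.centralizer (H : Set G) :=
    Subgroup.commutator_eq_bot_iff_le_centralizer.mp hq
  have hnorm : ∀ a ∈ H, ∀ v ∈ V, a * v * a⁻¹ ∈ V :=
    fun a ha v hv => (Subgroup.mem_normalizer_iff.mp (hHV ha) v).mp hv
  -- the "derivation" d a v = v⁻¹ * (a * v * a⁻¹)
  have hd : ∀ a ∈ H, ∀ v ∈ V, (v⁻¹ * (a * v * a⁻¹) ∈ V) ∧
      ∀ b ∈ H, b * (v⁻¹ * (a * v * a⁻¹)) = (v⁻¹ * (a * v * a⁻¹)) * b := by
    intro a ha v hv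
    refine ⟨V.mul_mem (V.inv_mem hv) (hnorm a ha v hv), ?_⟩
    have h1 : v⁻¹ * (a * v * a⁻¹) = ⁅v⁻¹, a⁆ := by rw [commutatorElement_def]; group
    have hmem : v⁻¹ * (a * v * a⁻¹) ∈ ⁅V, H⁆ := by
      rw [h1]
      exact Subgroup.commutator_mem_commutator (V.inv_mem hv) ha
    intro b hb
    exact hW hmem b hb
  have hconj : ∀ (a d : G), a * d = d * a → a * d * a⁻¹ = d := by
    intro a d h
    rw [h]; group
  have hab : ∀ a ∈ H, ∀ b ∈ H, ∀ v ∈ V,
      (a * b) * v * (a * b)⁻¹ = v * (v⁻¹ * (a * v * a⁻¹)) * (v⁻¹ * (b * v * b⁻¹)) := by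
    intro a ha b hb v hv
    have h1 := hconj a _ ((hd b hb v hv).2 a ha)
    calc (a * b) * v * (a * b)⁻¹
        = (a * v * a⁻¹) * (a * (v⁻¹ * (b * v * b⁻¹)) * a⁻¹) := by group
      _ = (a * v * a⁻¹) * (v⁻¹ * (b * v * b⁻¹)) := by rw [h1]
      _ = v * (v⁻¹ * (a * v * a⁻¹)) * (v⁻¹ * (b * v * b⁻¹)) := by group
  have hF : ∀ a ∈ H, ∀ b ∈ H, ∀ v ∈ V, (a * b) * v * (a * b)⁻¹ = (b * a) * v * (b * a)⁻¹ := by
    intro a ha b hb v hv
    rw [hab a ha b hb v hv, hab b hb a ha v hv, mul_assoc v _ _, mul_assoc v _ _,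
      hVc.1 _ (hd a ha v hv).1 _ (hd b hb v hv).1]
  constructor
  · rw [Subgroup.commutator_le]
    intro a ha b hb
    rw [Subgroup.mem_centralizer_iff]
    intro v hv
    have hu : (b * a)⁻¹ * v * (b * a) ∈ V := by
      have := hnorm (b * a)⁻¹ (H.inv_mem (H.mul_mem hb ha)) v hv
      rwa [inv_inv] at this
    have h1 := hF a ha b hb _ hu
    have h2 : (b * a) * ((b * a)⁻¹ * v * (b * a)) * (b * a)⁻¹ = v := by group
    rw [h2] at h1
    have h3 : ⁅a, b⁆ * v * ⁅a, b⁆⁻¹ = (a * b) * ((b * a)⁻¹ * v * (b * a)) * (a * b)⁻¹ := by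
      rw [commutatorElement_def]; group
    rw [h1] at h3
    calc v * ⁅a, b⁆ = (⁅a, b⁆ * v * ⁅a, b⁆⁻¹) * ⁅a, b⁆ := by rw [h3]
      _ = ⁅a, b⁆ * v := by group
  · intro a ha
    rw [Subgroup.mem_centralizer_iff]
    intro v hv
    obtain ⟨d, hdef⟩ : ∃ d, d = v⁻¹ * (a * v * a⁻¹) := ⟨_, rfl⟩
    have hdV : d ∈ V := hdef ▸ (hd a ha v hv).1
    have hda : a * d = d * a := by rw [hdef]; exact (hd a ha v hv).2 a ha
    have hav : a * v * a⁻¹ = v * d := by rw [hdef]; group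
    have hpow : ∀ k : ℕ, a ^ k * v * (a ^ k)⁻¹ = v * d ^ k := by
      intro k
      induction k with
      | zero => simp
      | succ k ih =>
        have hc : a * d ^ k = d ^ k * a := (show Commute a d from hda).pow_right k
        calc a ^ (k + 1) * v * (a ^ (k + 1))⁻¹ = a * (a ^ k * v * (a ^ k)⁻¹) * a⁻¹ := by
              rw [pow_succ']; group
          _ = a * (v * d ^ k) * a⁻¹ := by rw [ih]
          _ = (a * v * a⁻¹) * (a * d ^ k * a⁻¹) := by group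
          _ = (v * d) * d ^ k := by rw [hav, hconj a _ hc]
          _ = v * d ^ (k + 1) := by rw [pow_succ', mul_assoc]
    have h1 := hpow p
    rw [hVc.2 _ hdV, mul_one] at h1
    calc v * a ^ p = (a ^ p * v * (a ^ p)⁻¹) * a ^ p := by rw [h1]
      _ = a ^ p * v := by group

end Cfsg.Agent.S0590
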