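import Cfsg.Statements.S0591
import Mathlib
import Cfsg.Agent.Helper10.Thompson

set_option autoImplicit false
open Cfsg

namespace Cfsg.Agent.S0591

open Cfsg.Agent.Helper10
open scoped commutatorElement

/-- For a quadratically acting element a on an elementary abelian p-group V, the fixed points C_V(a) have order at least the square root of the order of V. -/
theorem result {G : Type*} [Group G] [Finite G] {p : ℕ} [Fact p.Prime] (V : Subgroup G) (hV : Cfsg.IsElementaryAbelian p V) (a : G) (ha : a ∈ Subgroup.normalizer (V : Set G)) (hq : ⁅⁅V, Subgroup.zpowers a⁆, Subgroup.zpowers a⁆ = ⊥) : Nat.card V ≤ Nat.card ↥(V ⊓ Subgroup.centralizer (Subgroup.zpowers a : Set G)) ^ 2 := by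
  have hVc := (elemAb_iff p V).mp hV
  have hW : ⁅V, Subgroup.zpowers a⁆ ≤ Subgroup.centralizer (Subgroup.zpowers a : Set G) :=
    Subgroup.commutator_eq_bot_iff_le_centralizer.mp hq
  have hnorm : ∀ v ∈ V, a * v * a⁻¹ ∈ V := fun v hv => (Subgroup.mem_normalizer_iff.mp ha v).mp hv
  let φ : V →* V :=
    { toFun := fun v => ⟨(v : G)⁻¹ * (a * v * a⁻¹), V.mul_mem (V.inv_mem v.2) (hnorm v v.2)⟩
      map_one' := by
        apply Subtype.ext
        show ((1 : V) : G)⁻¹ * (a * ((1 : V) : G) * a⁻¹) = ((1 : V) : G)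
        simp
      map_mul' := by
        intro v w
        apply Subtype.ext
        show ((v * w : V) : G)⁻¹ * (a * ((v * w : V) : G) * a⁻¹) =
          ((v : G)⁻¹ * (a * v * a⁻¹)) * ((w : G)⁻¹ * (a * w * a⁻¹))
        have hc := hVc.1 _ (V.mul_mem (V.inv_mem v.2) (hnorm v v.2)) _ (V.inv_mem w.2)
        calc ((v * w : V) : G)⁻¹ * (a * ((v * w : V) : G) * a⁻¹)
            = (w : G)⁻¹ * ((v : G)⁻¹ * (a * v * a⁻¹)) * (a * w * a⁻¹) := by
              rw [Subgroup.coe_mul]; group
          _ = ((v : G)⁻¹ * (a * v * a⁻¹)) * (w : G)⁻¹ * (a * w * a⁻¹) := by rw [← hc]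
          _ = ((v : G)⁻¹ * (a * v * a⁻¹)) * ((w : G)⁻¹ * (a * w * a⁻¹)) := by group }
  have hφ : ∀ v : V, ((φ v : V) : G) = (v : G)⁻¹ * (a * v * a⁻¹) := fun v => rfl
  have hker : Nat.card φ.ker ≤ Nat.card ↥(V ⊓ Subgroup.centralizer (Subgroup.zpowers a : Set G)) := by
    have hle : (φ.ker).map V.subtype ≤ V ⊓ Subgroup.centralizer (Subgroup.zpowers a : Set G) := by
      rintro _ ⟨v, hv, rfl⟩
      refine ⟨v.2, ?_⟩
      rw [SetLike.mem_coe, MonoidHom.mem_ker] at hv
      have h1 : (v : G)⁻¹ * (a * v * a⁻¹) = 1 := by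
        rw [← hφ, hv]; rfl
      have h2 : (v : G) = a * v * a⁻¹ := inv_mul_eq_one.mp h1
      have h3 : a * (v : G) = v * a := by
        calc a * (v : G) = (a * v * a⁻¹) * a := by group
          _ = v * a := by rw [← h2]
      show (v : G) ∈ Subgroup.centralizer (Subgroup.zpowers a : Set G)
      rw [Subgroup.mem_centralizer_iff]
      intro h hh
      obtain ⟨k, rfl⟩ := Subgroup.mem_zpowers_iff.mp hh
      exact ((show Commute a (v : G) from h3).zpow_left k)
    calc Nat.card φ.ker = Nat.card ((φ.ker).map V.subtype) :=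
          (Subgroup.card_map_of_injective V.subtype_injective).symm
      _ ≤ _ := Subgroup.card_le_of_le hle
  have hrange : Nat.card φ.range ≤ Nat.card ↥(V ⊓ Subgroup.centralizer (Subgroup.zpowers a : Set G)) := by
    have hle : (φ.range).map V.subtype ≤ V ⊓ Subgroup.centralizer (Subgroup.zpowers a : Set G) := by
      rintro _ ⟨w, ⟨v, rfl⟩, rfl⟩
      refine ⟨(φ v).2, ?_⟩
      apply hW
      have : V.subtype (φ v) = ⁅(v : G)⁻¹, a⁆ := by
        show ((φ v : V) : G) = _
        rw [hφ, commutatorElement_def]; group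
      rw [this]
      exact Subgroup.commutator_mem_commutator (V.inv_mem v.2) (Subgroup.mem_zpowers a)
    calc Nat.card φ.range = Nat.card ((φ.range).map V.subtype) :=
          (Subgroup.card_map_of_injective V.subtype_injective).symm
      _ ≤ _ := Subgroup.card_le_of_le hle
  have hcard : Nat.card V = Nat.card φ.ker * Nat.card φ.range := by
    rw [Subgroup.card_eq_card_quotient_mul_card_subgroup φ.ker,
      Nat.card_congr (QuotientGroup.quotientKerEquivRange φ).toEquiv, mul_comm]
  rw [hcard, sq]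
  exact Nat.mul_le_mul hker hrange

end Cfsg.Agent.S0591
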