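import Cfsg.Statements.S0592
import Cfsg.Agent.Helper24.SL2Rat
import Cfsg.Agent.Helper24.Quadratic

set_option autoImplicit false
open Cfsg

namespace Cfsg.Agent.S0592

/-- Two quadratically acting generators of a linear group that is not a p-group, with the p'-part of the order of their product dividing q - 1, give a homomorphism onto a subgroup of SL(2, q) that is not a p-group. -/
theorem result {K : Type*} [Field K] [Fintype K] {p : ℕ} [Fact p.Prime] [CharP K p] {W : Type*} [AddCommGroup W] [Module K W] [FiniteDimensional K W] [Finite W] [Nontrivial W] (H : Subgroup (W ≃ₗ[K] W)) (a b : W ≃ₗ[K] W) (hH : H = Subgroup.closure {a, b}) (ha : ∀ w : W, a (a w - w) = a w - w) (hb : ∀ w : W, b (b w - w) = b w - w) (hnp : ¬ IsPGroup p H) (hk : ∃ e k : ℕ, orderOf (a * b) = p ^ e * k ∧ k ∣ Fintype.card K - 1) : ∃ φ : H →* Matrix.SpecialLinearGroup (Fin 2) K, ¬ IsPGroup p φ.range := by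
  classical
  subst hH
  have : Finite (W ≃ₗ[K] W) :=
    Finite.of_injective (fun f : W ≃ₗ[K] W => (f : W → W)) DFunLike.coe_injective
  have haX : a ∈ Subgroup.closure ({a, b} : Set (W ≃ₗ[K] W)) := Subgroup.subset_closure (by simp)
  have hbX : b ∈ Subgroup.closure ({a, b} : Set (W ≃ₗ[K] W)) := Subgroup.subset_closure (by simp)
  have hgen := Helper24.closure_pair_subtype_eq_top a b haX hbX
  obtain ⟨h, hh, hh1⟩ : ∃ h : Subgroup.closure ({a, b} : Set (W ≃ₗ[K] W)),
      (orderOf h).Coprime p ∧ h ≠ 1 := by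
    by_contra hcon
    push Not at hcon
    apply hnp
    have hcard : Nat.card (Subgroup.closure ({a, b} : Set (W ≃ₗ[K] W))) =
        p ^ (Nat.card (Subgroup.closure ({a, b} : Set (W ≃ₗ[K] W)))).primeFactorsList.length := by
      apply Nat.eq_prime_pow_of_unique_prime_dvd Nat.card_pos.ne'
      intro r hr hrd
      by_contra hrp
      have := Fact.mk hr
      obtain ⟨g, hg⟩ := exists_prime_orderOf_dvd_card' r hrd
      have hg1 : g = 1 := hcon g (by rw [hg]; exact (Nat.coprime_primes hr Fact.out).2 hrp)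
      rw [hg1, orderOf_one] at hg
      exact hr.ne_one hg.symm
    exact IsPGroup.of_card hcard
  let ρ : Subgroup.closure ({a, b} : Set (W ≃ₗ[K] W)) →* Module.End K W :=
    (LinearEquiv.automorphismGroup.toLinearMapMonoidHom).comp (Subgroup.subtype _)
  have hρ : ∀ (g : Subgroup.closure ({a, b} : Set (W ≃ₗ[K] W))) (w : W),
      ρ g w = (g : W ≃ₗ[K] W) w := fun g w => rfl
  have hquad : ∀ c : Subgroup.closure ({a, b} : Set (W ≃ₗ[K] W)),
      (∀ w : W, (c : W ≃ₗ[K] W) ((c : W ≃ₗ[K] W) w - w) = (c : W ≃ₗ[K] W) w - w) →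
      (ρ c - 1) * (ρ c - 1) = 0 := by
    intro c hc
    ext w
    simp only [Module.End.mul_apply, LinearMap.sub_apply, Module.End.one_apply,
      LinearMap.zero_apply, hρ]
    rw [hc, sub_self]
  have hρh : ρ h ≠ 1 := by
    intro h1
    apply hh1
    apply Subtype.ext
    ext w
    have := LinearMap.congr_fun h1 w
    exact this
  have hk' : ∃ e m : ℕ, ((⟨a, haX⟩ : Subgroup.closure ({a, b} : Set (W ≃ₗ[K] W))) *
      ⟨b, hbX⟩) ^ (p ^ e * m) = 1 ∧ m ∣ Fintype.card K - 1 := by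
    obtain ⟨e, k, hab, hk⟩ := hk
    refine ⟨e, k, ?_, hk⟩
    apply Subtype.ext
    show (a * b) ^ (p ^ e * k) = 1
    rw [← hab, pow_orderOf_eq_one]
  obtain ⟨φ, h', hh', hφh'⟩ := Helper24.exists_nonPGroup_sl2_rep p ρ ⟨a, haX⟩ ⟨b, hbX⟩ hgen
    (hquad _ ha) (hquad _ hb) ⟨h, hh, hρh⟩ hk'
  refine ⟨φ, ?_⟩
  intro hP
  obtain ⟨n, hn⟩ := hP ⟨φ h', h', rfl⟩
  have h1 : (φ h') ^ (p ^ n) = 1 := by
    have h0 := congrArg Subtype.val hn
    exact h0
  have h2 : (φ h') ^ (orderOf h') = 1 := by rw [← map_pow, pow_orderOf_eq_one, map_one]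
  have h3 := (pow_gcd_eq_one (a := φ h')).2 ⟨h2, h1⟩
  have hc : Nat.gcd (orderOf h') (p ^ n) = 1 := Nat.Coprime.pow_right n hh'
  rw [hc, pow_one] at h3
  exact hφh' h3

end Cfsg.Agent.S0592
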