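import Cfsg.Statements.S0594
import Cfsg.Agent.Helper24.QuadAmb
import Cfsg.Agent.Helper11.SL2Facts
import Cfsg.Agent.Helper32.PSolvable

set_option autoImplicit false
open Cfsg

namespace Cfsg.Agent.S0594

open Cfsg.Agent.Helper24

/-- A group `X = ⟨a, a₂⟩` with a normal `p'`-subgroup `Q'` containing `a⁻¹ a₂`, where `a ^ p = 1`,
is `p`-solvable. -/
theorem isPSolvable_of_pair {G : Type*} [Group G] [Finite G] {p : ℕ} [Fact p.Prime] (a a₂ : G)
    (hgen : Subgroup.closure ({a, a₂} : Set G) = ⊤) (Q : Subgroup G) [hQn : Q.Normal]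
    (hQ : (Nat.card Q).Coprime p) (hc : a⁻¹ * a₂ ∈ Q) (hap : a ^ p = 1) :
    Cfsg.IsPSolvable p G := by
  rw [Cfsg.Agent.Helper32.isPSolvable_iff_chain]
  have hzp : ∀ x : G, (QuotientGroup.mk' Q x) ∈ Subgroup.zpowers (QuotientGroup.mk' Q a) := by
    intro x
    have hle : Subgroup.closure ({a, a₂} : Set G) ≤
        (Subgroup.zpowers (QuotientGroup.mk' Q a)).comap (QuotientGroup.mk' Q) := by
      rw [Subgroup.closure_le]
      rintro y (rfl | rfl)
      · exact Subgroup.mem_zpowers _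
      · show QuotientGroup.mk' Q y ∈ Subgroup.zpowers (QuotientGroup.mk' Q a)
        have e : QuotientGroup.mk' Q y = QuotientGroup.mk' Q a := by
          have h1 : QuotientGroup.mk' Q (a⁻¹ * y) = 1 := (QuotientGroup.eq_one_iff _).2 hc
          rw [map_mul, map_inv, inv_mul_eq_one] at h1
          exact h1.symm
        rw [e]
        exact Subgroup.mem_zpowers _
    have hx : x ∈ Subgroup.closure ({a, a₂} : Set G) := by rw [hgen]; trivial
    exact hle hx
  have hpq : IsPGroup p (G ⧸ Q) := by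
    intro xb
    obtain ⟨x, rfl⟩ := QuotientGroup.mk_surjective xb
    obtain ⟨k, hk⟩ := Subgroup.mem_zpowers_iff.1 (hzp x)
    refine ⟨1, ?_⟩
    have hk' : (QuotientGroup.mk x : G ⧸ Q) = (QuotientGroup.mk' Q a) ^ k := hk.symm
    rw [hk', pow_one, ← zpow_natCast, ← zpow_mul, mul_comm, zpow_mul, zpow_natCast, ← map_pow, hap,
      map_one, one_zpow]
  obtain ⟨m, hm⟩ := IsPGroup.iff_card.1 hpq
  refine ⟨2, fun k => if k = 0 then ⊥ else if k = 1 then Q else ⊤, ?_, ?_, ?_, ?_, ?_⟩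
  · simp
  · simp
  · intro k hk
    interval_cases k
    · simp
    · simp
  · intro k
    by_cases h0 : k = 0
    · simp only [h0, if_true]; infer_instance
    · by_cases h1 : k = 1
      · simp only [h1]; exact hQn
      · simp only [h0, h1, if_false]; infer_instance
  · intro k hk
    interval_cases k
    · right
      simp only [if_true, Nat.zero_add, one_ne_zero, if_false]
      rw [Subgroup.relIndex_bot_left]
      exact hQ
    · left
      refine ⟨m, ?_⟩
      simp only [one_ne_zero, if_false, if_true]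
      have h2 : (if (1 + 1 = 0) then (⊥ : Subgroup G) else if (1 + 1 = 1) then Q else ⊤) = ⊤ := by
        simp
      rw [h2, Subgroup.relIndex_top_right, Subgroup.index_eq_card, hm]


/-- For odd p, two quadratic generators of a faithful group that is not a p-group, one of which acts nontrivially on a normal subgroup of order prime to p, force p = 3 and a section isomorphic to SL(2,3). -/
theorem result {G : Type*} [Group G] [Finite G] {p : ℕ} [Fact p.Prime] (hp : p ≠ 2) (V H : Subgroup G) (hV : Cfsg.IsElementaryAbelian p V) (hHV : H ≤ Subgroup.normalizer (V : Set G)) (hf : H ⊓ Subgroup.centralizer (V : Set G) = ⊥) (a b : G) (hab : H = Subgroup.closure {a, b}) (ha : ⁅⁅V, Subgroup.zpowers a⁆, Subgroup.zpowers a⁆ = ⊥) (hb : ⁅⁅V, Subgroup.zpowers b⁆, Subgroup.zpowers b⁆ = ⊥) (hnp : ¬ IsPGroup p H) (Q : Subgroup G) (hQH : Q ≤ H) (hQn : H ≤ Subgroup.normalizer (Q : Set G)) (hQ : (Nat.card Q).Coprime p) (hQa : ⁅Q, Subgroup.zpowers a⁆ ≠ ⊥) : p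 = 3 ∧ ∃ (K L : Subgroup G) (hL : (L.subgroupOf K).Normal), K ≤ H ∧ Nonempty ((K ⧸ L.subgroupOf K) ≃* Matrix.SpecialLinearGroup (Fin 2) (ZMod 3)) := by
  have haH : a ∈ H := by rw [hab]; exact Subgroup.subset_closure (by simp)
  obtain ⟨q, hqQ, hqa⟩ : ∃ q ∈ Q, q * a * q⁻¹ ≠ a := by
    by_contra hcon
    push Not at hcon
    apply hQa
    rw [Subgroup.commutator_eq_bot_iff_le_centralizer]
    intro q hq
    rw [Subgroup.mem_centralizer_iff]
    intro h hh
    obtain ⟨k, rfl⟩ := Subgroup.mem_zpowers_iff.1 hh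
    have h1 : Commute q a := mul_inv_eq_iff_eq_mul.1 (hcon q hq)
    exact ((h1.zpow_right k).eq).symm
  have hqH : q ∈ H := hQH hqQ
  have hXH : Subgroup.closure ({a, q * a * q⁻¹} : Set G) ≤ H := by
    rw [Subgroup.closure_le]
    rintro x (rfl | rfl)
    · exact haH
    · exact mul_mem (mul_mem hqH haH) (inv_mem hqH)
  have hcQ : a⁻¹ * (q * a * q⁻¹) ∈ Q := by
    have h1 : a⁻¹ * q * a⁻¹⁻¹ ∈ Q := (Subgroup.mem_normalizer_iff.1 (hQn (inv_mem haH)) q).1 hqQ
    have e : a⁻¹ * (q * a * q⁻¹) = (a⁻¹ * q * a⁻¹⁻¹) * q⁻¹ := by group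
    rw [e]
    exact mul_mem h1 (inv_mem hqQ)
  have hc1 : a⁻¹ * (q * a * q⁻¹) ≠ 1 := fun h => hqa (by
    rw [inv_mul_eq_one] at h; exact h.symm)
  have haX : a ∈ Subgroup.closure ({a, q * a * q⁻¹} : Set G) :=
    Subgroup.subset_closure (by simp)
  have ha₂X : q * a * q⁻¹ ∈ Subgroup.closure ({a, q * a * q⁻¹} : Set G) :=
    Subgroup.subset_closure (by simp)
  have hnpX : ¬ IsPGroup p (Subgroup.closure ({a, q * a * q⁻¹} : Set G)) := by
    intro hX
    obtain ⟨k, hk⟩ := hX ⟨a⁻¹ * (q * a * q⁻¹), mul_mem (inv_mem haX) ha₂X⟩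
    have hk' : (a⁻¹ * (q * a * q⁻¹)) ^ (p ^ k) = 1 := congrArg Subtype.val hk
    have hcard : (a⁻¹ * (q * a * q⁻¹)) ^ (Nat.card Q) = 1 := by
      have h1 : (⟨a⁻¹ * (q * a * q⁻¹), hcQ⟩ : Q) ^ Nat.card Q = 1 := pow_card_eq_one'
      exact congrArg Subtype.val h1
    have h2 : (a⁻¹ * (q * a * q⁻¹)) ^ Nat.gcd (p ^ k) (Nat.card Q) = 1 :=
      (pow_gcd_eq_one (a := a⁻¹ * (q * a * q⁻¹))).2 ⟨hk', hcard⟩
    have h3 : Nat.gcd (p ^ k) (Nat.card Q) = 1 := Nat.Coprime.pow_left k hQ.symm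
    rw [h3, pow_one] at h2
    exact hc1 h2
  have ha₂q := quad_conj_of_mem_normalizer V a q (hHV hqH) ha
  obtain ⟨K', θ, hθ⟩ := exists_surj_sl2_of_quad_pair_amb hp V H hV hHV hf a (q * a * q⁻¹) hXH
    ha ha₂q hnpX
  have hp3 : p = 3 := by
    by_contra h3
    refine Cfsg.Agent.Helper11.not_isSectionOf_sl2_of_isPSolvable
      (five_le_of_prime Fact.out hp h3) ?_ ⟨K', θ, hθ⟩
    have hQ'n : (Q.subgroupOf (Subgroup.closure ({a, q * a * q⁻¹} : Set G))).Normal := by
      refine ⟨fun n hn g => ?_⟩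
      rw [Subgroup.mem_subgroupOf] at hn ⊢
      exact (Subgroup.mem_normalizer_iff.1 (hQn (hXH g.2)) _).1 hn
    have hap : a ^ p = 1 := by
      have h1 : a ^ p ∈ H ⊓ Subgroup.centralizer (V : Set G) :=
        ⟨pow_mem haH p, pow_prime_mem_centralizer_of_quad V hV a (hHV haH) ha⟩
      rw [hf, Subgroup.mem_bot] at h1
      exact h1
    refine isPSolvable_of_pair (⟨a, haX⟩ : Subgroup.closure ({a, q * a * q⁻¹} : Set G))
      ⟨q * a * q⁻¹, ha₂X⟩ (closure_pair_subtype_eq_top a (q * a * q⁻¹) haX ha₂X)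
      (Q.subgroupOf (Subgroup.closure ({a, q * a * q⁻¹} : Set G))) ?_ ?_ ?_
    · have hdvd : Nat.card (Q.subgroupOf (Subgroup.closure ({a, q * a * q⁻¹} : Set G))) ∣
          Nat.card Q :=
        Subgroup.card_dvd_of_injective
          ((Subgroup.closure ({a, q * a * q⁻¹} : Set G)).subtype.subgroupComap Q)
          (fun x y hxy => Subtype.ext (Subtype.ext (congrArg (fun z : Q => (z : G)) hxy)))
      exact Nat.Coprime.coprime_dvd_left hdvd hQ
    · rw [Subgroup.mem_subgroupOf]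
      exact hcQ
    · exact Subtype.ext hap
  refine ⟨hp3, ?_⟩
  subst hp3
  exact exists_section_le_of_surj hXH K' θ hθ

end Cfsg.Agent.S0594
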