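import Cfsg.Statements.S0597
import Mathlib
import Cfsg.Agent.S0538
import Cfsg.Agent.S0567
import Cfsg.Agent.Helper22.Fitting
import Cfsg.Agent.Helper10.PAction

set_option autoImplicit false
open Cfsg

namespace Cfsg.Agent.S0597

open scoped commutatorElement

theorem pow_conj {G : Type*} [Group G] (d v w : G) (h : d * v * d⁻¹ = w * v)
    (hdw : d * w = w * d) (k : ℕ) : d ^ k * v * (d ^ k)⁻¹ = w ^ k * v := by
  induction k with
  | zero => simp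
  | succ k ih =>
    have hc : d * w ^ k = w ^ k * d := (Commute.pow_right (show Commute d w from hdw) k).eq
    calc d ^ (k + 1) * v * (d ^ (k + 1))⁻¹ = d * (d ^ k * v * (d ^ k)⁻¹) * d⁻¹ := by
          rw [pow_succ']; group
      _ = d * (w ^ k * v) * d⁻¹ := by rw [ih]
      _ = (d * w ^ k) * d⁻¹ * (d * v * d⁻¹) := by group
      _ = (w ^ k * d) * d⁻¹ * (w * v) := by rw [hc, h]
      _ = w ^ (k + 1) * v := by rw [pow_succ]; group

/-- The stability group of the series `V ≥ W ≥ 1`. -/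
def stab {G : Type*} [Group G] (V W : Subgroup G) : Subgroup G where
  carrier := {g | g ∈ Subgroup.centralizer (W : Set G) ∧ ∀ v ∈ V, ⁅v, g⁆ ∈ W}
  one_mem' := ⟨Subgroup.one_mem _, fun v _ => by
    rw [commutatorElement_one_right]; exact W.one_mem⟩
  mul_mem' := by
    rintro g h ⟨hg1, hg2⟩ ⟨hh1, hh2⟩
    refine ⟨Subgroup.mul_mem _ hg1 hh1, fun v hv => ?_⟩
    have e : ⁅v, g * h⁆ = ⁅v, g⁆ * (g * ⁅v, h⁆ * g⁻¹) := by
      simp only [commutatorElement_def]; group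
    have e2 : g * ⁅v, h⁆ * g⁻¹ = ⁅v, h⁆ := by
      have := hg1 _ (hh2 v hv)
      rw [← this]; group
    rw [e, e2]; exact W.mul_mem (hg2 v hv) (hh2 v hv)
  inv_mem' := by
    rintro g ⟨hg1, hg2⟩
    refine ⟨Subgroup.inv_mem _ hg1, fun v hv => ?_⟩
    have e : ⁅v, g⁻¹⁆ = g⁻¹ * ⁅v, g⁆⁻¹ * g := by
      simp only [commutatorElement_def]; group
    have e2 : g⁻¹ * ⁅v, g⁆⁻¹ * g = ⁅v, g⁆⁻¹ := by
      have := hg1 _ (W.inv_mem (hg2 v hv))
      rw [mul_assoc, this]; group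
    rw [e, e2]; exact W.inv_mem (hg2 v hv)

theorem le_normalizer_of_conj_mem {X : Type*} [Group X] (S T : Subgroup X)
    (h : ∀ s ∈ S, ∀ t ∈ T, s * t * s⁻¹ ∈ T) : S ≤ Subgroup.normalizer (T : Set X) := by
  intro s hs
  rw [Subgroup.mem_normalizer_iff]
  intro t
  refine ⟨h s hs t, fun ht => ?_⟩
  have := h s⁻¹ (S.inv_mem hs) _ ht
  have e : s⁻¹ * (s * t * s⁻¹) * s⁻¹⁻¹ = t := by group
  rwa [e] at this

/-- If two subnormal subgroups of a faithful group on an elementary abelian p-group satisfy [V, E₁, E₂] = 1, then their commutator lies in the largest normal p-subgroup. -/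
theorem result {G : Type*} [Group G] [Finite G] {p : ℕ} [Fact p.Prime] (V H : Subgroup G) (hV : Cfsg.IsElementaryAbelian p V) (hHV : H ≤ Subgroup.normalizer (V : Set G)) (hf : H ⊓ Subgroup.centralizer (V : Set G) = ⊥) (E₁ E₂ : Subgroup G) (h₁ : E₁ ≤ H) (h₂ : E₂ ≤ H) (hs₁ : (E₁.subgroupOf H).IsSubnormal) (hs₂ : (E₂.subgroupOf H).IsSubnormal) (hc : ⁅⁅V, E₁⁆, E₂⁆ = ⊥) : ⁅E₁, E₂⁆ ≤ (Cfsg.pCore p H).map H.subtype := by
  have hE₁V : E₁ ≤ Subgroup.normalizer (V : Set G) := h₁.trans hHV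
  have hE₂V : E₂ ≤ Subgroup.normalizer (V : Set G) := h₂.trans hHV
  have hWV : ⁅V, E₁⁆ ≤ V := Helper10.commutator_le_of_le_normalizer V E₁ hE₁V
  have hE₂W : E₂ ≤ Subgroup.centralizer ((⁅V, E₁⁆ : Subgroup G) : Set G) :=
    Subgroup.le_centralizer_iff.mp (Subgroup.commutator_eq_bot_iff_le_centralizer.mp hc)
  have hE₁W : ∀ e ∈ E₁, ∀ w ∈ ⁅V, E₁⁆, e * w * e⁻¹ ∈ ⁅V, E₁⁆ := S0567.comm_norm_right V E₁
  have hpow : ∀ x ∈ V, x ^ p = 1 := ((Helper10.elemAb_iff p V).mp hV).2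
  have hst : ⁅E₁, E₂⁆ ≤ stab V ⁅V, E₁⁆ := by
    rw [Subgroup.commutator_le]
    intro e₁ he₁ e₂ he₂
    constructor
    · have h1 : e₁ * e₂ * e₁⁻¹ ∈ Subgroup.centralizer ((⁅V, E₁⁆ : Subgroup G) : Set G) := by
        intro w hw
        have hw' : e₁⁻¹ * w * e₁ ∈ ⁅V, E₁⁆ := by
          have := hE₁W e₁⁻¹ (E₁.inv_mem he₁) w hw
          simpa using this
        have h2 := hE₂W he₂ _ hw'
        calc w * (e₁ * e₂ * e₁⁻¹) = e₁ * ((e₁⁻¹ * w * e₁) * e₂) * e₁⁻¹ := by group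
          _ = e₁ * (e₂ * (e₁⁻¹ * w * e₁)) * e₁⁻¹ := by rw [h2]
          _ = e₁ * e₂ * e₁⁻¹ * w := by group
      have h3 : ⁅e₁, e₂⁆ = (e₁ * e₂ * e₁⁻¹) * e₂⁻¹ := by rw [commutatorElement_def]
      rw [h3]
      exact Subgroup.mul_mem _ h1 (Subgroup.inv_mem _ (hE₂W he₂))
    · intro v hv
      have hv₂ : e₂⁻¹ * v * e₂ ∈ V := by
        have := (Subgroup.mem_normalizer_iff.mp (hE₂V (E₂.inv_mem he₂)) v).mp hv
        simpa using this
      have hw₁ : ⁅e₂⁻¹ * v * e₂, e₁⁻¹⁆ ∈ ⁅V, E₁⁆ :=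
        Subgroup.commutator_mem_commutator hv₂ (E₁.inv_mem he₁)
      have hw₀ : ⁅v, e₁⁆ ∈ ⁅V, E₁⁆ := Subgroup.commutator_mem_commutator hv he₁
      have e : ⁅v, ⁅e₁, e₂⁆⁆ =
          ⁅v, e₁⁆ * (e₁ * (e₂ * ⁅e₂⁻¹ * v * e₂, e₁⁻¹⁆ * e₂⁻¹) * e₁⁻¹) := by
        simp only [commutatorElement_def]; group
      have e2 : e₂ * ⁅e₂⁻¹ * v * e₂, e₁⁻¹⁆ * e₂⁻¹ = ⁅e₂⁻¹ * v * e₂, e₁⁻¹⁆ := by
        have := hE₂W he₂ _ hw₁
        rw [← this]; group
      rw [e, e2]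
      exact Subgroup.mul_mem _ hw₀ (hE₁W e₁ he₁ _ hw₁)
  have hDH : ⁅E₁, E₂⁆ ≤ H := by
    rw [Subgroup.commutator_le]
    intro a ha b hb
    rw [commutatorElement_def]
    exact H.mul_mem (H.mul_mem (H.mul_mem (h₁ ha) (h₂ hb)) (H.inv_mem (h₁ ha))) (H.inv_mem (h₂ hb))
  have hexp : ∀ d ∈ ⁅E₁, E₂⁆, d ^ p = 1 := by
    intro d hd
    obtain ⟨hd1, hd2⟩ := hst hd
    have hdpC : d ^ p ∈ Subgroup.centralizer (V : Set G) := by
      intro v hv
      have hw : d * v * d⁻¹ * v⁻¹ ∈ ⁅V, E₁⁆ := by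
        have := Subgroup.inv_mem _ (hd2 v hv)
        have e : (⁅v, d⁆)⁻¹ = d * v * d⁻¹ * v⁻¹ := by rw [commutatorElement_def]; group
        rwa [e] at this
      have h1 : d * v * d⁻¹ = (d * v * d⁻¹ * v⁻¹) * v := by group
      have h2 : d * (d * v * d⁻¹ * v⁻¹) = (d * v * d⁻¹ * v⁻¹) * d := (hd1 _ hw).symm
      have h3 := pow_conj d v _ h1 h2 p
      rw [hpow _ (hWV hw), one_mul] at h3
      calc v * d ^ p = (d ^ p * v * (d ^ p)⁻¹) * d ^ p := by rw [h3]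
        _ = d ^ p * v := by group
    have hmem : d ^ p ∈ H ⊓ Subgroup.centralizer (V : Set G) := ⟨H.pow_mem (hDH hd) p, hdpC⟩
    rw [hf] at hmem
    exact Subgroup.mem_bot.mp hmem
  -- subnormality inside `H`
  have hsn : (E₁.subgroupOf H ⊔ E₂.subgroupOf H).IsSubnormal := S0538.result _ _ hs₁ hs₂
  have hDle : ⁅E₁.subgroupOf H, E₂.subgroupOf H⁆ ≤ E₁.subgroupOf H ⊔ E₂.subgroupOf H := by
    rw [Subgroup.commutator_le]
    intro a ha b hb
    rw [commutatorElement_def]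
    have ha' : a ∈ E₁.subgroupOf H ⊔ E₂.subgroupOf H := le_sup_left (a := E₁.subgroupOf H) ha
    have hb' : b ∈ E₁.subgroupOf H ⊔ E₂.subgroupOf H := le_sup_right (b := E₂.subgroupOf H) hb
    exact Subgroup.mul_mem _ (Subgroup.mul_mem _ (Subgroup.mul_mem _ ha' hb')
      (Subgroup.inv_mem _ ha')) (Subgroup.inv_mem _ hb')
  have hnorm : E₁.subgroupOf H ⊔ E₂.subgroupOf H ≤
      Subgroup.normalizer ((⁅E₁.subgroupOf H, E₂.subgroupOf H⁆ : Subgroup ↥H) : Set ↥H) :=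
    sup_le (le_normalizer_of_conj_mem _ _ (S0567.comm_norm_left _ _))
      (le_normalizer_of_conj_mem _ _ (S0567.comm_norm_right _ _))
  have hDn : ((⁅E₁.subgroupOf H, E₂.subgroupOf H⁆).subgroupOf
      (E₁.subgroupOf H ⊔ E₂.subgroupOf H)).Normal := by
    rw [Subgroup.normal_subgroupOf_iff hDle]
    intro x k hx hk
    exact (Subgroup.mem_normalizer_iff.mp (hnorm hk) x).mp hx
  have hDsn : (⁅E₁.subgroupOf H, E₂.subgroupOf H⁆).IsSubnormal :=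
    Subgroup.IsSubnormal.step _ _ hDle hsn hDn
  have hmap : (⁅E₁.subgroupOf H, E₂.subgroupOf H⁆).map H.subtype = ⁅E₁, E₂⁆ := by
    rw [Subgroup.map_commutator, Subgroup.map_subgroupOf_eq_of_le h₁,
      Subgroup.map_subgroupOf_eq_of_le h₂]
  have hpD : IsPGroup p ↥(⁅E₁.subgroupOf H, E₂.subgroupOf H⁆ : Subgroup ↥H) := by
    intro d
    refine ⟨1, ?_⟩
    have hdmem : ((d : ↥H) : G) ∈ ⁅E₁, E₂⁆ := by
      rw [← hmap]
      exact Subgroup.mem_map_of_mem H.subtype d.2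
    have := hexp _ hdmem
    rw [pow_one]
    apply Subtype.ext
    apply Subtype.ext
    simpa using this
  have hle := Helper22.le_pCore_of_isSubnormal p hDsn hpD
  rw [← hmap]
  exact Subgroup.map_mono hle

end Cfsg.Agent.S0597
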