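import Cfsg.Statements.S0599
import Mathlib
import Cfsg.Agent.Helper10.Replacement
import Cfsg.Agent.Helper10.PAction

set_option autoImplicit false
open Cfsg

namespace Cfsg.Agent.S0599

/-- The Timmesfeld replacement Theorem: replacing a best offender A by C_A([U, A]) gives a best offender with fixed points [U, A]C_V(A), still nontrivial on V if A was. -/
theorem result {G : Type*} [Group G] [Finite G] {p : ℕ} [Fact p.Prime] (V A : Subgroup G) (hV : Cfsg.IsElementaryAbelian p V) (hAV : A ≤ Subgroup.normalizer (V : Set G)) (hA : Cfsg.IsBestOffenderOn p V A) (U : Subgroup G) (hU : U ≤ V) : Cfsg.IsBestOffenderOn p V (A ⊓ Subgroup.centralizer ((⁅U, A⁆ : Subgroup G) : Set G)) ∧ V ⊓ Subgroup.centralizer ((A ⊓ Subgroup.centralizer ((⁅U, A⁆ : Subgroup G) : Set G) : Subgroup G) : Set G) = ⁅U, A⁆ ⊔ (V ⊓ Subgroup.centralizer (A : Set G)) ∧ (⁅V, A⁆ ≠ ⊥ → ⁅V, A ⊓ Subgroup.centralizer ((⁅U, A⁆ : Subgroup G) : Set G)⁆ ≠ ⊥) := by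
  have hc : ∀ x ∈ V, ∀ y ∈ V, x * y = y * x := ((Helper10.elemAb_iff p V).mp hV).1
  obtain ⟨hbest, hab, hp⟩ := hA
  have hbest' : ∀ B ≤ A, Helper10.cfix V B ≤ Helper10.cfix V A := hbest
  obtain ⟨h1, h2⟩ := Helper10.replacement_core V A U hc hAV hab hbest' hU
  refine ⟨⟨?_, ?_, ?_⟩, h2, ?_⟩
  · intro B' hB'
    exact (hbest B' (hB'.trans inf_le_left)).trans (le_of_eq h1.symm)
  · exact (Subgroup.commutator_mono inf_le_left inf_le_left).trans hab
  · exact fun b hb => hp b hb.1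
  · intro hne hbot
    apply hne
    have hBV : V ≤ Subgroup.centralizer
        ((A ⊓ Subgroup.centralizer ((⁅U, A⁆ : Subgroup G) : Set G) : Subgroup G) : Set G) :=
      Subgroup.commutator_eq_bot_iff_le_centralizer.mp hbot
    rw [inf_eq_left.mpr hBV] at h2
    apply Helper10.commutator_eq_bot_of_le_sup_fixed V A hV hAV hp
    calc V = ⁅U, A⁆ ⊔ (V ⊓ Subgroup.centralizer (A : Set G)) := h2
      _ ≤ ⁅V, A⁆ ⊔ (V ⊓ Subgroup.centralizer (A : Set G)) :=
        sup_le_sup_right (Subgroup.commutator_mono hU le_rfl) _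

end Cfsg.Agent.S0599
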