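import Cfsg.Statements.S0605
import Mathlib
import Cfsg.Agent.Helper10.Thompson

set_option autoImplicit false
open Cfsg

namespace Cfsg.Agent.S0605

open Cfsg.Agent.Helper10
open Pointwise

/-- Elements of order p in the centralizer of the Thompson subgroup belong to the Thompson subgroup (so to its centre). -/
theorem result {G : Type*} [Group G] [Finite G] {p : ℕ} [Fact p.Prime] (x : G) (hx : x ∈ Subgroup.centralizer (Cfsg.thompsonSubgroup p G : Set G)) (ho : orderOf x = p) : x ∈ Cfsg.thompsonSubgroup p G := by
  obtain ⟨A, hA⟩ := exists_maxElemAb p G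
  have hxp : x ^ p = 1 := by rw [← ho]; exact pow_orderOf_eq_one x
  have hE : Cfsg.IsElementaryAbelian p (A ⊔ Subgroup.zpowers x) := by
    apply elemAb_sup hA.1 (elemAb_zpowers hxp)
    intro a ha b hb
    obtain ⟨i, rfl⟩ := Subgroup.mem_zpowers_iff.mp hb
    have hc : Commute a x := hx a (le_thompson hA ha)
    exact (hc.zpow_right i)
  have hcard := hA.2 _ hE
  have : A = A ⊔ Subgroup.zpowers x := Subgroup.eq_of_le_of_card_ge le_sup_left hcard
  apply le_thompson hA
  rw [this]
  exact Subgroup.mem_sup_right (Subgroup.mem_zpowers x)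

end Cfsg.Agent.S0605
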