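import Cfsg.Statements.S0607
import Mathlib
import Cfsg.Agent.Helper10.Replacement
import Cfsg.Agent.Helper10.PAction
import Cfsg.Agent.S0599
import Cfsg.Agent.S0606

set_option autoImplicit false
open Cfsg

namespace Cfsg.Agent.S0607

open scoped commutatorElement

/-- The replacement Theorem for the Thompson subgroup: from A of maximal order among elementary abelian p-subgroups one obtains A₀ = [V, A] C_A([V, A]) of the same kind, quadratic on V and nontrivial on V when A is. -/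
theorem result {G : Type*} [Group G] [Finite G] {p : ℕ} [Fact p.Prime] (V : Subgroup G) [V.Normal] (hV : Cfsg.IsElementaryAbelian p V) (A : Subgroup G) (hA : A ∈ Cfsg.maxElementaryAbelianSubgroups p G) : (⁅V, A⁆ ⊔ (A ⊓ Subgroup.centralizer ((⁅V, A⁆ : Subgroup G) : Set G))) ∈ Cfsg.maxElementaryAbelianSubgroups p G ∧ ⁅⁅V, ⁅V, A⁆ ⊔ (A ⊓ Subgroup.centralizer ((⁅V, A⁆ : Subgroup G) : Set G))⁆, ⁅V, A⁆ ⊔ (A ⊓ Subgroup.centralizer ((⁅V, A⁆ : Subgroup G) : Set G))⁆ = ⊥ ∧ (⁅V, A⁆ ≠ ⊥ → ⁅V, ⁅V, A⁆ ⊔ (A ⊓ Subgroup.centralizer ((⁅V, A⁆ : Subgroup G) : Set G))⁆ ≠ ⊥) := by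
  have hVn : V.Normal := inferInstance
  have hAV : A ≤ Subgroup.normalizer (V : Set G) := by
    rw [Subgroup.normalizer_eq_top]; exact le_top
  have hbo : Cfsg.IsBestOffenderOn p V A := S0606.result V hV A hA
  have hc : ∀ x ∈ V, ∀ y ∈ V, x * y = y * x := ((Helper10.elemAb_iff p V).mp hV).1
  have hA' := (Helper10.elemAb_iff p A).mp hA.1
  have hbest : ∀ B ≤ A, Helper10.cfix V B ≤ Helper10.cfix V A := hbo.1
  obtain ⟨h1, h2⟩ := Helper10.replacement_core V A V hc hAV hbo.2.1 hbest le_rfl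
  have h3 := (S0599.result V A hV hAV hbo V le_rfl).2.2
  have hWV : ⁅V, A⁆ ≤ V := Helper10.commutator_le_of_le_normalizer V A hAV
  have hWel : Cfsg.IsElementaryAbelian p ⁅V, A⁆ := Helper10.elemAb_of_le hV hWV
  have hBel : Cfsg.IsElementaryAbelian p
      (A ⊓ Subgroup.centralizer ((⁅V, A⁆ : Subgroup G) : Set G)) :=
    Helper10.elemAb_of_le hA.1 inf_le_left
  have hWB : ∀ w ∈ ⁅V, A⁆, ∀ b ∈ A ⊓ Subgroup.centralizer ((⁅V, A⁆ : Subgroup G) : Set G),
      w * b = b * w := fun w hw b hb => hb.2 w hw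
  have hA0el : Cfsg.IsElementaryAbelian p
      (⁅V, A⁆ ⊔ (A ⊓ Subgroup.centralizer ((⁅V, A⁆ : Subgroup G) : Set G))) :=
    Helper10.elemAb_sup hWel hBel hWB
  -- `C_V(A) ≤ A` by maximality
  have hCA : V ⊓ Subgroup.centralizer (A : Set G) ≤ A := by
    have hCel : Cfsg.IsElementaryAbelian p (V ⊓ Subgroup.centralizer (A : Set G)) :=
      Helper10.elemAb_of_le hV inf_le_left
    have hE : Cfsg.IsElementaryAbelian p (A ⊔ (V ⊓ Subgroup.centralizer (A : Set G))) :=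
      Helper10.elemAb_sup hA.1 hCel (fun a ha c hc' => hc'.2 a ha)
    have hle := hA.2 _ hE
    have heq : A = A ⊔ (V ⊓ Subgroup.centralizer (A : Set G)) :=
      Subgroup.eq_of_le_of_card_ge le_sup_left hle
    exact le_sup_right.trans heq.ge
  have hCB : V ⊓ Subgroup.centralizer (A : Set G) ≤
      A ⊓ Subgroup.centralizer ((⁅V, A⁆ : Subgroup G) : Set G) := by
    refine le_inf hCA ?_
    intro x hx w hw
    exact hc w (hWV hw) x hx.1
  have hsup : (A ⊓ Subgroup.centralizer ((⁅V, A⁆ : Subgroup G) : Set G)) ⊔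
      (V ⊓ Subgroup.centralizer
        ((A ⊓ Subgroup.centralizer ((⁅V, A⁆ : Subgroup G) : Set G) : Subgroup G) : Set G)) =
      ⁅V, A⁆ ⊔ (A ⊓ Subgroup.centralizer ((⁅V, A⁆ : Subgroup G) : Set G)) := by
    rw [h2]
    apply le_antisymm
    · exact sup_le le_sup_right (sup_le le_sup_left (hCB.trans le_sup_right))
    · exact sup_le (le_sup_left.trans le_sup_right) le_sup_left
  have hinf : (A ⊓ Subgroup.centralizer ((⁅V, A⁆ : Subgroup G) : Set G)) ⊓
      (V ⊓ Subgroup.centralizer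
        ((A ⊓ Subgroup.centralizer ((⁅V, A⁆ : Subgroup G) : Set G) : Subgroup G) : Set G)) ≤
      V ⊓ Subgroup.centralizer (A : Set G) := by
    rintro x ⟨hxB, hxV, -⟩
    exact ⟨hxV, fun a ha => hA'.1 a ha x hxB.1⟩
  have hcard : Nat.card A ≤
      Nat.card (⁅V, A⁆ ⊔ (A ⊓ Subgroup.centralizer ((⁅V, A⁆ : Subgroup G) : Set G)) :
        Subgroup G) := by
    have e1 := Helper10.card_mul_card_le
      (le_sup_left : (A ⊓ Subgroup.centralizer ((⁅V, A⁆ : Subgroup G) : Set G)) ≤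
        (A ⊓ Subgroup.centralizer ((⁅V, A⁆ : Subgroup G) : Set G)) ⊔
        (V ⊓ Subgroup.centralizer
          ((A ⊓ Subgroup.centralizer ((⁅V, A⁆ : Subgroup G) : Set G) : Subgroup G) : Set G)))
      (le_sup_right : (V ⊓ Subgroup.centralizer
          ((A ⊓ Subgroup.centralizer ((⁅V, A⁆ : Subgroup G) : Set G) : Subgroup G) : Set G)) ≤
        (A ⊓ Subgroup.centralizer ((⁅V, A⁆ : Subgroup G) : Set G)) ⊔
        (V ⊓ Subgroup.centralizer
          ((A ⊓ Subgroup.centralizer ((⁅V, A⁆ : Subgroup G) : Set G) : Subgroup G) : Set G)))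
    rw [hsup] at e1
    have e2 := Subgroup.card_le_of_le hinf
    have e3 : Nat.card A * Nat.card ↥(V ⊓ Subgroup.centralizer (A : Set G)) =
        Nat.card ↥(A ⊓ Subgroup.centralizer ((⁅V, A⁆ : Subgroup G) : Set G)) *
        Nat.card ↥(V ⊓ Subgroup.centralizer
          ((A ⊓ Subgroup.centralizer ((⁅V, A⁆ : Subgroup G) : Set G) : Subgroup G) : Set G)) :=
      h1.symm
    have e4 : Nat.card A * Nat.card ↥(V ⊓ Subgroup.centralizer (A : Set G)) ≤
        Nat.card (⁅V, A⁆ ⊔ (A ⊓ Subgroup.centralizer ((⁅V, A⁆ : Subgroup G) : Set G)) :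
          Subgroup G) * Nat.card ↥(V ⊓ Subgroup.centralizer (A : Set G)) := by
      rw [e3]; exact e1.trans (Nat.mul_le_mul_left _ e2)
    exact Nat.le_of_mul_le_mul_right e4 Nat.card_pos
  -- `[V, A₀] ≤ [V, B]`
  have hcomm : ⁅V, ⁅V, A⁆ ⊔ (A ⊓ Subgroup.centralizer ((⁅V, A⁆ : Subgroup G) : Set G))⁆ ≤
      ⁅V, A ⊓ Subgroup.centralizer ((⁅V, A⁆ : Subgroup G) : Set G)⁆ := by
    have hle : ⁅V, A⁆ ⊔ (A ⊓ Subgroup.centralizer ((⁅V, A⁆ : Subgroup G) : Set G)) ≤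
        Subgroup.centralizer (V : Set G) ⊔
          (A ⊓ Subgroup.centralizer ((⁅V, A⁆ : Subgroup G) : Set G)) :=
      sup_le_sup_right (fun w hw v hv => hc v hv w (hWV hw)) _
    rw [Subgroup.commutator_le]
    intro v hv x hx
    obtain ⟨c, hc', b, hb, rfl⟩ := Subgroup.mem_sup_of_normal_left.mp (hle hx)
    have hy : b * v⁻¹ * b⁻¹ ∈ V := hVn.conj_mem _ (V.inv_mem hv) b
    have e : ⁅v, c * b⁆ = ⁅v, b⁆ := by
      rw [commutatorElement_def, commutatorElement_def]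
      have hcy := hc' _ hy
      calc v * (c * b) * v⁻¹ * (c * b)⁻¹ = v * (c * (b * v⁻¹ * b⁻¹)) * c⁻¹ := by group
        _ = v * ((b * v⁻¹ * b⁻¹) * c) * c⁻¹ := by rw [hcy]
        _ = v * b * v⁻¹ * b⁻¹ := by group
    rw [e]
    exact Subgroup.commutator_mem_commutator hv hb
  refine ⟨⟨hA0el, fun E hE => (hA.2 E hE).trans hcard⟩, ?_, ?_⟩
  · have h5 : ⁅V, ⁅V, A⁆ ⊔ (A ⊓ Subgroup.centralizer ((⁅V, A⁆ : Subgroup G) : Set G))⁆ ≤ ⁅V, A⁆ :=
      hcomm.trans (Subgroup.commutator_mono le_rfl inf_le_left)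
    have h6 : ⁅V, A⁆ ⊔ (A ⊓ Subgroup.centralizer ((⁅V, A⁆ : Subgroup G) : Set G)) ≤
        Subgroup.centralizer ((⁅V, A⁆ : Subgroup G) : Set G) :=
      sup_le (fun x hx w hw => hc w (hWV hw) x (hWV hx)) inf_le_right
    have h7 : ⁅⁅V, A⁆, ⁅V, A⁆ ⊔ (A ⊓ Subgroup.centralizer ((⁅V, A⁆ : Subgroup G) : Set G))⁆ = ⊥ := by
      rw [Subgroup.commutator_eq_bot_iff_le_centralizer, Subgroup.le_centralizer_iff]; exact h6
    exact le_bot_iff.mp ((Subgroup.commutator_mono h5 le_rfl).trans h7.le)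
  · intro hne hbot
    apply h3 hne
    exact le_bot_iff.mp ((Subgroup.commutator_mono le_rfl le_sup_right).trans hbot.le)

end Cfsg.Agent.S0607
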