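import Cfsg.Statements.S0608
import Mathlib
import Cfsg.Agent.S0602
import Cfsg.Agent.Helper10.Thompson
import Cfsg.Agent.Helper10.Conj
import Cfsg.Agent.Helper46.Frattini
import Cfsg.Agent.Helper2.SylowLe

set_option autoImplicit false
open Cfsg

namespace Cfsg.Agent.S0608

open scoped Pointwise

/-- `Ω₁(Z(S))` is centralized by `S`. -/
theorem omegaOne_center_le_centralizer {G : Type*} [Group G] (p : ℕ) (S : Subgroup G) :
    Cfsg.omegaOne p (S ⊓ Subgroup.centralizer (S : Set G)) ≤
      Subgroup.centralizer (S : Set G) := by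
  unfold Cfsg.omegaOne
  rw [Subgroup.closure_le]
  rintro x ⟨hx, -⟩
  exact hx.2

/-- A Sylow `p`-subgroup contains an elementary abelian subgroup of largest order. -/
theorem exists_maxElemAb_le_sylow {G : Type*} [Group G] [Finite G] {p : ℕ} [Fact p.Prime]
    (S : Sylow p G) :
    ∃ A ∈ Cfsg.maxElementaryAbelianSubgroups p G, A ≤ (S : Subgroup G) := by
  obtain ⟨A0, hA0⟩ := Helper10.exists_maxElemAb p G
  obtain ⟨T, hT⟩ := (Helper10.elemAb_isPGroup hA0.1).exists_le_sylow
  obtain ⟨g, hg⟩ := MulAction.exists_smul_eq G T S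
  refine ⟨MulAut.conj g • A0, Helper10.maxElemAb_conj hA0 g, ?_⟩
  intro y hy
  rw [Helper10.mem_conj_smul_iff] at hy
  rw [← hg, Helper2.mem_smul_sylow_iff]
  exact hT hy

/-- The Thompson subgroup of `U` as the join of the largest elementary abelian subgroups of `G`
inside `U`, when there is one. -/
theorem thompsonOf_eq_of_le {G : Type*} [Group G] {p : ℕ} {U A0 : Subgroup G}
    (hA0 : A0 ∈ Cfsg.maxElementaryAbelianSubgroups p G) (hA0U : A0 ≤ U) :
    Cfsg.thompsonSubgroupOf p U =
      ⨆ A : {A : Subgroup G // A ∈ Cfsg.maxElementaryAbelianSubgroups p G ∧ A ≤ U},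
        (A : Subgroup G) := by
  apply le_antisymm
  · rw [Helper10.thompsonOf_eq_iSup]
    refine iSup_le ?_
    rintro ⟨A', hA'⟩
    exact le_iSup_of_le (ι := {A : Subgroup G // A ∈ Cfsg.maxElementaryAbelianSubgroups p G ∧ A ≤ U})
      ⟨A'.map U.subtype, Helper10.maxElemAb_map_subtype hA' hA0 hA0U, Subgroup.map_subtype_le _⟩
      le_rfl
  · refine iSup_le ?_
    rintro ⟨A, hA, hAU⟩
    exact Helper10.le_thompsonOf hA hAU

/-- The normalizer of `U` normalizes the Thompson subgroup of `U`. -/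
theorem normalizer_le_normalizer_thompsonOf {G : Type*} [Group G] {p : ℕ} {U A0 : Subgroup G}
    (hA0 : A0 ∈ Cfsg.maxElementaryAbelianSubgroups p G) (hA0U : A0 ≤ U) :
    Subgroup.normalizer (U : Set G) ≤
      Subgroup.normalizer (Cfsg.thompsonSubgroupOf p U : Set G) := by
  have key : ∀ n ∈ Subgroup.normalizer (U : Set G), ∀ x ∈ Cfsg.thompsonSubgroupOf p U,
      n * x * n⁻¹ ∈ Cfsg.thompsonSubgroupOf p U := by
    intro n hn
    have hle : Cfsg.thompsonSubgroupOf p U ≤
        (Cfsg.thompsonSubgroupOf p U).comap (MulAut.conj n).toMonoidHom := by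
      conv_lhs => rw [thompsonOf_eq_of_le hA0 hA0U]
      refine iSup_le ?_
      rintro ⟨A, hA, hAU⟩ x hx
      rw [Subgroup.mem_comap]
      change n * x * n⁻¹ ∈ _
      have hle' : MulAut.conj n • A ≤ U := by
        intro y hy
        rw [Helper10.mem_conj_smul_iff] at hy
        have h1 := (Subgroup.mem_normalizer_iff.mp hn (n⁻¹ * y * n)).mp (hAU hy)
        have e : n * (n⁻¹ * y * n) * n⁻¹ = y := by group
        rwa [e] at h1
      exact Helper10.le_thompsonOf (Helper10.maxElemAb_conj hA n) hle'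
        (Helper10.conj_mem_conj_smul n x A hx)
    intro x hx
    exact hle hx
  intro n hn
  rw [Subgroup.mem_normalizer_iff]
  intro h
  constructor
  · exact key n hn h
  · intro hh
    have := key n⁻¹ (Subgroup.inv_mem _ hn) _ hh
    have e : n⁻¹ * (n * h * n⁻¹) * n⁻¹⁻¹ = h := by group
    rwa [e] at this


/-- With trivial p'-core, Thompson factorizability is equivalent to J(G) centralizing the subgroup generated by all Ω₁(Z(S)), S Sylow. -/
theorem result {G : Type*} [Group G] [Finite G] {p : ℕ} [Fact p.Prime] (hO : Cfsg.pPrimeCore p G = ⊥) : Cfsg.IsThompsonFactorizable p G ↔ Cfsg.thompsonSubgroup p G ≤ Subgroup.centralizer ((⨆ S : Sylow p G, Cfsg.omegaOne p (((S : Subgroup G)) ⊓ Subgroup.centralizer ((S : Subgroup G) : Set G)) : Subgroup G) : Set G) := by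
  constructor
  · intro hfac
    unfold Cfsg.thompsonSubgroup
    refine sSup_le ?_
    intro A hA
    rw [Subgroup.le_centralizer_iff]
    refine iSup_le ?_
    intro S
    rw [Subgroup.le_centralizer_iff]
    intro a ha
    obtain ⟨T, hT⟩ := (Helper10.elemAb_isPGroup hA.1).exists_le_sylow
    obtain ⟨g, hg⟩ := MulAction.exists_smul_eq G S T
    have h2 : g⁻¹ * a * g ∈ Cfsg.thompsonSubgroupOf p (S : Subgroup G) := by
      have hle : MulAut.conj g⁻¹ • A ≤ (S : Subgroup G) := by
        intro y hy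
        rw [Helper10.mem_conj_smul_iff] at hy
        have h1 := hT hy
        rw [← hg, Helper2.mem_smul_sylow_iff] at h1
        have e : g⁻¹ * (g⁻¹⁻¹ * y * g⁻¹) * g = y := by group
        rwa [e] at h1
      apply Helper10.le_thompsonOf (Helper10.maxElemAb_conj hA g⁻¹) hle
      rw [Helper10.mem_conj_smul_iff]
      have e : g⁻¹⁻¹ * (g⁻¹ * a * g) * g⁻¹ = a := by group
      rw [e]; exact ha
    obtain ⟨x, hx, c, hc, n, hn, hgcn⟩ := hfac S g
    rw [hO, Subgroup.mem_bot] at hx
    subst hx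
    rw [one_mul] at hgcn
    have h3 : c⁻¹ * a * c ∈ Cfsg.thompsonSubgroupOf p (S : Subgroup G) := by
      have h := (Subgroup.mem_normalizer_iff.mp hn (g⁻¹ * a * g)).mp h2
      have e : n * (g⁻¹ * a * g) * n⁻¹ = c⁻¹ * a * c := by rw [hgcn]; group
      rwa [e] at h
    have h4 : c⁻¹ * a * c ∈ (S : Subgroup G) := Subgroup.map_subtype_le _ h3
    rw [Subgroup.mem_centralizer_iff]
    intro w hw
    have e1 : (c⁻¹ * a * c) * w = w * (c⁻¹ * a * c) :=
      (Subgroup.mem_centralizer_iff.mp (omegaOne_center_le_centralizer p _ hw) _ h4)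
    have e2 : w * c = c * w := Subgroup.mem_centralizer_iff.mp hc w hw
    calc w * a = (w * c) * (c⁻¹ * a * c) * c⁻¹ := by group
      _ = (c * w) * (c⁻¹ * a * c) * c⁻¹ := by rw [e2]
      _ = c * (w * (c⁻¹ * a * c)) * c⁻¹ := by group
      _ = c * ((c⁻¹ * a * c) * w) * c⁻¹ := by rw [e1]
      _ = a * (c * w) * c⁻¹ := by group
      _ = a * (w * c) * c⁻¹ := by rw [e2]
      _ = a * w := by group
  · intro hJ S g
    haveI : (Cfsg.thompsonSubgroup p G).Normal := by
      haveI := (S0602.result (G := G) (p := p)).1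
      infer_instance
    obtain ⟨a, ha, c, hc, hg⟩ :=
      Helper46.frattini_factorization (Cfsg.thompsonSubgroup p G) S g⁻¹
    refine ⟨1, Subgroup.one_mem _, c⁻¹, ?_, a⁻¹, ?_, ?_⟩
    · apply Subgroup.inv_mem
      exact Subgroup.centralizer_le
        (le_iSup (fun S : Sylow p G => Cfsg.omegaOne p
          ((S : Subgroup G) ⊓ Subgroup.centralizer ((S : Subgroup G) : Set G))) S) (hJ hc)
    · apply Subgroup.inv_mem
      obtain ⟨A0, hA0, hA0S⟩ := exists_maxElemAb_le_sylow S
      have hA0U : A0 ≤ (S : Subgroup G) ⊓ Cfsg.thompsonSubgroup p G :=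
        le_inf hA0S (Helper10.le_thompson hA0)
      have e : Cfsg.thompsonSubgroupOf p (S : Subgroup G) =
          Cfsg.thompsonSubgroupOf p ((S : Subgroup G) ⊓ Cfsg.thompsonSubgroup p G) := by
        rw [thompsonOf_eq_of_le hA0 hA0S, thompsonOf_eq_of_le hA0 hA0U]
        apply le_antisymm
        · refine iSup_le ?_
          rintro ⟨A, hA, hAS⟩
          exact le_iSup_of_le (ι := {A : Subgroup G // A ∈ Cfsg.maxElementaryAbelianSubgroups p G ∧
              A ≤ (S : Subgroup G) ⊓ Cfsg.thompsonSubgroup p G})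
            ⟨A, hA, le_inf hAS (Helper10.le_thompson hA)⟩ le_rfl
        · refine iSup_le ?_
          rintro ⟨A, hA, hAS⟩
          exact le_iSup_of_le (ι := {A : Subgroup G // A ∈ Cfsg.maxElementaryAbelianSubgroups p G ∧
              A ≤ (S : Subgroup G)}) ⟨A, hA, hAS.trans inf_le_left⟩ le_rfl
      rw [e]
      exact normalizer_le_normalizer_thompsonOf hA0 hA0U ha
    · have hg' : g = (a * c)⁻¹ := by rw [← hg, inv_inv]
      rw [one_mul, hg', mul_inv_rev]

end Cfsg.Agent.S0608
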