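import Cfsg.Statements.S0609
import Mathlib
import Cfsg.Agent.Helper19.ThompsonNPC
import Cfsg.Agent.Helper1.PPrimeCore
import Cfsg.Agent.Helper55.TwoClosed

set_option autoImplicit false
open Cfsg

namespace Cfsg.Agent.S0609

/-- Transport of the centre of `X` along a homomorphism injective on `X`. -/
theorem center_map {G G' : Type*} [Group G] [Group G'] (f : G →* G') (X : Subgroup G)
    (hf : Set.InjOn f (X : Set G)) :
    X.map f ⊓ Subgroup.centralizer ((X.map f : Subgroup G') : Set G') =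
      (X ⊓ Subgroup.centralizer (X : Set G)).map f := by
  apply le_antisymm
  · rintro _ ⟨⟨y, hy, rfl⟩, hyc⟩
    refine ⟨y, ⟨hy, ?_⟩, rfl⟩
    show y ∈ Subgroup.centralizer (X : Set G)
    rw [Subgroup.mem_centralizer_iff]
    intro x hx
    have hyc' : f y ∈ Subgroup.centralizer ((X.map f : Subgroup G') : Set G') := hyc
    have h1 := Subgroup.mem_centralizer_iff.mp hyc' (f x) (Subgroup.mem_map_of_mem _ hx)
    rw [← map_mul, ← map_mul] at h1
    exact hf (mul_mem hx hy) (mul_mem hy hx) h1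
  · rintro _ ⟨z, hz, rfl⟩
    refine ⟨Subgroup.mem_map_of_mem _ hz.1, ?_⟩
    show f z ∈ Subgroup.centralizer ((X.map f : Subgroup G') : Set G')
    rw [Subgroup.mem_centralizer_iff]
    rintro _ ⟨x, hx, rfl⟩
    have hz2 : z ∈ Subgroup.centralizer (X : Set G) := hz.2
    rw [← map_mul, ← map_mul, Subgroup.mem_centralizer_iff.mp hz2 x hx]

/-- Transport of `Ω₁` along a homomorphism injective on `X`. -/
theorem omegaOne_map {G G' : Type*} [Group G] [Group G'] (p : ℕ) (f : G →* G') (X : Subgroup G)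
    (hf : Set.InjOn f (X : Set G)) :
    Cfsg.omegaOne p (X.map f) = (Cfsg.omegaOne p X).map f := by
  unfold Cfsg.omegaOne
  rw [MonoidHom.map_closure]
  congr 1
  ext y
  constructor
  · rintro ⟨⟨z, hz, rfl⟩, hy⟩
    refine ⟨z, ⟨hz, ?_⟩, rfl⟩
    apply hf (X.pow_mem hz p) X.one_mem
    rw [map_pow, map_one]; exact hy
  · rintro ⟨z, ⟨hz, hzp⟩, rfl⟩
    exact ⟨Subgroup.mem_map_of_mem _ hz, by rw [← map_pow, hzp, map_one]⟩

theorem omegaOne_le {G : Type*} [Group G] (p : ℕ) (X : Subgroup G) : Cfsg.omegaOne p X ≤ X := by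
  unfold Cfsg.omegaOne
  rw [Subgroup.closure_le]
  rintro x ⟨hx, -⟩
  exact hx


/-- Thompson factorizability passes to and from the quotient by the largest normal subgroup of order prime to p. -/
theorem result {G : Type*} [Group G] [Finite G] {p : ℕ} [Fact p.Prime] : Cfsg.IsThompsonFactorizable p G ↔ Cfsg.IsThompsonFactorizable p (G ⧸ Cfsg.pPrimeCore p G) := by
  have hsurj : Function.Surjective (QuotientGroup.mk' (Cfsg.pPrimeCore p G)) :=
    QuotientGroup.mk'_surjective _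
  have hcop : (Nat.card (Cfsg.pPrimeCore p G)).Coprime p := Helper1.pPrimeCore_coprime p
  have hinj : ∀ S : Sylow p G, Set.InjOn (QuotientGroup.mk' (Cfsg.pPrimeCore p G))
      ((S : Subgroup G) : Set G) := fun S => Helper19.injOn_mk_of_coprime _ _ S.2 hcop
  have hZ : ∀ S : Sylow p G,
      Cfsg.omegaOne p (((S.mapSurjective hsurj : Sylow p (G ⧸ Cfsg.pPrimeCore p G)) :
          Subgroup (G ⧸ Cfsg.pPrimeCore p G)) ⊓
        Subgroup.centralizer (((S.mapSurjective hsurj : Sylow p (G ⧸ Cfsg.pPrimeCore p G)) :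
          Subgroup (G ⧸ Cfsg.pPrimeCore p G)) : Set (G ⧸ Cfsg.pPrimeCore p G))) =
      (Cfsg.omegaOne p ((S : Subgroup G) ⊓ Subgroup.centralizer ((S : Subgroup G) : Set G))).map
        (QuotientGroup.mk' (Cfsg.pPrimeCore p G)) := by
    intro S
    rw [Sylow.coe_mapSurjective, center_map _ _ (hinj S),
      omegaOne_map p _ _ ((hinj S).mono inf_le_left)]
  have hJ : ∀ S : Sylow p G,
      Cfsg.thompsonSubgroupOf p ((S.mapSurjective hsurj : Sylow p (G ⧸ Cfsg.pPrimeCore p G)) :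
          Subgroup (G ⧸ Cfsg.pPrimeCore p G)) =
      (Cfsg.thompsonSubgroupOf p (S : Subgroup G)).map
        (QuotientGroup.mk' (Cfsg.pPrimeCore p G)) := by
    intro S
    rw [Sylow.coe_mapSurjective, Helper19.thompsonSubgroupOf_eq_JJ,
      Helper19.thompsonSubgroupOf_eq_JJ, Helper19.JJ_map _ (hinj S)]
  constructor
  · intro hG Sb gb
    obtain ⟨S, rfl⟩ := Sylow.mapSurjective_surjective hsurj p Sb
    obtain ⟨g, rfl⟩ := hsurj gb
    obtain ⟨x, hx, c, hc, n, hn, rfl⟩ := hG S g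
    refine ⟨1, Subgroup.one_mem _, QuotientGroup.mk' _ c, ?_, QuotientGroup.mk' _ n, ?_, ?_⟩
    · rw [hZ S, Subgroup.mem_centralizer_iff]
      rintro _ ⟨w, hw, rfl⟩
      rw [← map_mul, ← map_mul, Subgroup.mem_centralizer_iff.mp hc w hw]
    · rw [hJ S]
      exact Subgroup.le_normalizer_map _ (Subgroup.mem_map_of_mem _ hn)
    · have hx1 : QuotientGroup.mk' (Cfsg.pPrimeCore p G) x = 1 := by
        rw [← MonoidHom.mem_ker, QuotientGroup.ker_mk']; exact hx
      rw [map_mul, map_mul, hx1]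
  · intro hQ S g
    obtain ⟨xb, hxb, cb, hcb, nb, hnb, heq⟩ :=
      hQ (S.mapSurjective hsurj) (QuotientGroup.mk' _ g)
    rw [Helper55.pPrimeCore_quotient_eq_bot, Subgroup.mem_bot] at hxb
    subst hxb
    rw [hZ S] at hcb
    rw [hJ S] at hnb
    obtain ⟨c, hc, rfl⟩ := Helper19.cent_lift _ _
      (S.2.to_le ((omegaOne_le p _).trans inf_le_left)) hcop hcb
    obtain ⟨n, hn, rfl⟩ := Helper19.norm_lift _ _
      (S.2.to_le (Subgroup.map_subtype_le _)) hcop hnb
    refine ⟨g * (c * n)⁻¹, ?_, c, hc, n, hn, by group⟩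
    rw [← QuotientGroup.ker_mk' (Cfsg.pPrimeCore p G), MonoidHom.mem_ker, map_mul, heq, one_mul,
      ← map_mul, ← map_mul, mul_inv_cancel, map_one]

end Cfsg.Agent.S0609
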