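import Cfsg.Statements.S0614
import Mathlib
import Cfsg.Agent.Helper10.FFPair2
import Cfsg.Agent.Helper5.SLCard
import Cfsg.Agent.S0611

set_option autoImplicit false
open Cfsg

namespace Cfsg.Agent.S0614

/-- The commutator of the p'-core with a minimal nontrivially-acting best offender is a 3-group (when p = 2) or a non-abelian 2-group (when p = 3). -/
theorem result {G : Type*} [Group G] [Finite G] {p : ℕ} [Fact p.Prime] (V H : Subgroup G) (hV : Cfsg.IsElementaryAbelian p V) (hHV : H ≤ Subgroup.normalizer (V : Set G)) (hf : H ⊓ Subgroup.centralizer (V : Set G) = ⊥) (hS1 : Subgroup.centralizer (Cfsg.pPrimeCore p ↥H : Set ↥H) ≤ Cfsg.pPrimeCore p ↥H) (hS3 : H = ⨆ A : {A : Subgroup G // A ≤ H ∧ Cfsg.IsBestOffenderOn p V A}, (A : Subgroup G)) (hH1 : H ≠ ⊥) (A : Subgroup G) (hAH : A ≤ H) (hA : Cfsg.IsBestOffenderOn p V A) (hAV : ⁅V, A⁆ ≠ ⊥) (hmin : ∀ B : Subgroup G, B ≤ A → Cfsg.IsBestOffenderOn p V B → ⁅V, B⁆ ≠ ⊥ → B = A) : (p = 2 ∧ IsPGroup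 3 ↥(⁅((Cfsg.pPrimeCore p ↥H).map H.subtype), A⁆)) ∨ (p = 3 ∧ IsPGroup 2 ↥(⁅((Cfsg.pPrimeCore p ↥H).map H.subtype), A⁆) ∧ ¬ IsMulCommutative ↥(⁅((Cfsg.pPrimeCore p ↥H).map H.subtype), A⁆)) := by
  have hp : p.Prime := Fact.out
  obtain ⟨hQH, hHQ, hQp, hfaith⟩ := Helper10.hypS_of_pPrimeCore (p := p) H hS1
  obtain ⟨hAc, hD, -⟩ := S0611.result V H hV hHV hf hS1 hS3 hH1 A hAH hA hAV hmin
  set Q : Subgroup G := (Cfsg.pPrimeCore p ↥H).map H.subtype with hQdef
  obtain ⟨x, hx, hxA⟩ : ∃ x ∈ Q, x ∉ Subgroup.centralizer (A : Set G) := by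
    by_contra hcon
    push Not at hcon
    obtain ⟨a, haA, ha1⟩ := Helper10.ffp_exists_ne_one_of_card_prime hp hAc
    apply ha1
    apply hfaith a (hAH haA) (Helper10.ffp_pow_p_of_card A hAc haA)
    rw [Subgroup.mem_centralizer_iff]
    intro q hq
    exact (Subgroup.mem_centralizer_iff.mp (hcon q hq) a haA).symm
  obtain ⟨h23, -, -, ⟨e⟩, -, -⟩ :=
    Helper10.ffp_pair_sl2 V H Q A hV hHV hf hQH hHQ hQp hAH hAc hD x hx hxA
  have hRle := Helper10.ffp_commutator_Q_le V H Q A hV hHV hf hQH hHQ hQp hAH hAc hD x hx hxA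
  have hRsup := Helper10.ffp_commutator_Q_sup V H Q A hV hHV hf hQH hHQ hQp hAH hAc hD x hx hxA
  set L : Subgroup G := A ⊔ A.map (MulAut.conj x).toMonoidHom with hL
  have hLc : Nat.card L = p * (p ^ 2 - 1) := by
    rw [Nat.card_congr e.toEquiv, Helper5.card_SL2, ZMod.card]
  have hord : ∀ g ∈ ⁅Q, A⁆, orderOf g ∣ p ^ 2 - 1 := by
    intro g hg
    have hgL : g ∈ L := (hRle hg).1
    have hgQ : g ∈ Q := (hRle hg).2
    have h1 : orderOf g ∣ Nat.card L := by
      have := orderOf_dvd_natCard (⟨g, hgL⟩ : ↥L)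
      rwa [Subgroup.orderOf_mk] at this
    have h2 : orderOf g ∣ Nat.card Q := by
      have := orderOf_dvd_natCard (⟨g, hgQ⟩ : ↥Q)
      rwa [Subgroup.orderOf_mk] at this
    have h3 : (orderOf g).Coprime p :=
      Nat.Coprime.coprime_dvd_left h2 ((Nat.Prime.coprime_iff_not_dvd hp).mpr hQp).symm
    rw [hLc] at h1
    exact h3.dvd_of_dvd_mul_left h1
  rcases h23 with h2 | h3
  · left
    refine ⟨h2, ?_⟩
    intro g
    refine ⟨1, ?_⟩
    have h1 := hord g g.2
    rw [h2] at h1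
    apply Subtype.ext
    rw [Subgroup.coe_pow, Subgroup.coe_one]
    exact orderOf_dvd_iff_pow_eq_one.mp h1
  · right
    refine ⟨h3, ?_, ?_⟩
    · intro g
      refine ⟨3, ?_⟩
      have h1 := hord g g.2
      rw [h3] at h1
      apply Subtype.ext
      rw [Subgroup.coe_pow, Subgroup.coe_one]
      exact orderOf_dvd_iff_pow_eq_one.mp h1
    · intro hcomm
      have hAQ : A ≤ Subgroup.normalizer (Q : Set G) := hAH.trans hHQ
      have hAR : A ≤ Subgroup.normalizer ((⁅Q, A⁆ : Subgroup G) : Set G) := fun g hg =>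
        Helper10.ffp_mem_normalizer_commutator Q A (hAQ hg) (Subgroup.le_normalizer hg)
      have key : ∀ g : ↥L, g ^ 4 = 1 → (g : G) ∈ ⁅Q, A⁆ := by
        intro g hg4
        have hgL : (g : G) ∈ A ⊔ ⁅Q, A⁆ := by
          rw [sup_comm, hRsup]
          exact g.2
        obtain ⟨a₀, ha₀, r, hr, hgar⟩ := Helper10.ffp_mem_sup_of_le_normalizer A _ hAR hgL
        have hrQ : r ∈ Q := (hRle hr).2
        have h1 := Helper10.ffp_mul_pow_mem Q (hAQ ha₀) hrQ 4
        have hg4' : (a₀ * r) ^ 4 = 1 := by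
          rw [← hgar, ← Subgroup.coe_pow, hg4, Subgroup.coe_one]
        rw [hg4', mul_one] at h1
        have ha₀3 : a₀ ^ 3 = 1 := by
          have := Helper10.ffp_pow_p_of_card A hAc ha₀
          rwa [h3] at this
        have ha₀Q : a₀ ∈ Q := by
          have h2 : a₀ ^ 4 ∈ Q := by
            have := Q.inv_mem h1
            rwa [inv_inv] at this
          have e4 : a₀ ^ 4 = a₀ := by
            rw [show 4 = 3 + 1 from rfl, pow_add, ha₀3, one_mul, pow_one]
          rwa [e4] at h2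
        have ha₀1 : a₀ = 1 :=
          Helper10.ffp_eq_one_of_pow_p Q hQp ha₀Q (by rw [h3]; exact ha₀3)
        rw [hgar, ha₀1, one_mul]
        exact hr
      obtain ⟨I, J, hI, hJ, hIJ⟩ := Helper10.sl2gen_three_noncomm
      have e' : ↥L ≃* Matrix.SpecialLinearGroup (Fin 2) (ZMod 3) := by
        rw [h3] at e
        exact e
      have hi : (e'.symm I) ^ 4 = 1 := by rw [← map_pow, hI, map_one]
      have hj : (e'.symm J) ^ 4 = 1 := by rw [← map_pow, hJ, map_one]
      have hiR := key _ hi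
      have hjR := key _ hj
      have hc := hcomm.is_comm.comm (⟨_, hiR⟩ : ↥(⁅Q, A⁆)) ⟨_, hjR⟩
      have hc' : ((e'.symm I : ↥L) : G) * (e'.symm J : ↥L) = (e'.symm J : ↥L) * (e'.symm I : ↥L) :=
        congrArg Subtype.val hc
      have hc'' : e'.symm I * e'.symm J = e'.symm J * e'.symm I := Subtype.ext hc'
      apply hIJ
      have := congrArg e' hc''
      rwa [map_mul, map_mul, e'.apply_symm_apply, e'.apply_symm_apply] at this

end Cfsg.Agent.S0614
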