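import Cfsg.Statements.S0615
import Cfsg.Agent.Helper62.SubnIrr

set_option autoImplicit false
open Cfsg

namespace Cfsg.Agent.S0615

open Cfsg.Agent.Helper62 in
theorem subnIn_of_subgroupOf {G : Type*} [Group G] {E E₁ : Subgroup G} (h1E : E₁ ≤ E)
    (hs : (E₁.subgroupOf E).IsSubnormal) : SubnIn E E₁ := by
  have h1 := (subnIn_of_isSubnormal hs).map E.subtype
  rw [Subgroup.map_subgroupOf_eq_of_le h1E] at h1
  have h2 : (⊤ : Subgroup E).map E.subtype = E := by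
    rw [← MonoidHom.range_eq_map, Subgroup.range_subtype]
  rwa [h2] at h1

open Cfsg.Agent.Helper62 in
theorem noNP_of_pCore {G : Type*} [Group G] [Finite G] {p : ℕ} [Fact p.Prime]
    {E E₁ : Subgroup G} (hs : SubnIn E E₁) (hOp : Cfsg.pCore p ↥E = ⊥) : NoNP p E₁ := by
  intro D hD hn hp
  have h1 : SubnIn E D := hs.of_normal hD hn
  obtain ⟨N, hDN, hNE, hEN, hNp⟩ := h1.exists_normal_pgroup hp
  have hn' : (N.subgroupOf E).Normal :=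
    (Subgroup.normal_subgroupOf_iff_le_normalizer hNE).mpr hEN
  have hp' : IsPGroup p (N.subgroupOf E) :=
    hNp.comap_of_injective (E.subtype) (Subgroup.subtype_injective _)
  have h5 := Helper47.le_pCore hn' hp'
  rw [hOp, le_bot_iff] at h5
  have h6 : N = ⊥ := by
    have := congrArg (Subgroup.map E.subtype) h5
    rwa [Subgroup.map_subgroupOf_eq_of_le hNE, Subgroup.map_bot] at this
  rw [eq_bot_iff, ← h6]
  exact hDN

/-- Two subnormal subgroups acting irreducibly on their incomparable commutator modules, in a faithful group with trivial largest normal p-subgroup, generate their direct product, and the commutator module splits accordingly. -/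
theorem result {G : Type*} [Group G] [Finite G] {p : ℕ} [Fact p.Prime] (V E E₁ E₂ : Subgroup G) (hV : Cfsg.IsElementaryAbelian p V) (hEV : E ≤ Subgroup.normalizer (V : Set G)) (hf : E ⊓ Subgroup.centralizer (V : Set G) = ⊥) (hgen : E = E₁ ⊔ E₂) (hs₁ : (E₁.subgroupOf E).IsSubnormal) (hs₂ : (E₂.subgroupOf E).IsSubnormal) (hOp : Cfsg.pCore p ↥E = ⊥) (hirr₁ : (∀ U : Subgroup G, U ≤ ⁅V, E₁⁆ → E₁ ≤ Subgroup.normalizer (U : Set G) → U = ⊥ ∨ U = ⁅V, E₁⁆)) (hirr₂ : (∀ U : Subgroup G, U ≤ ⁅V, E₂⁆ → E₂ ≤ Subgroup.normalizer (U : Set G) → U = ⊥ ∨ U = ⁅V, E₂⁆)) (h12 : ¬ ⁅V, E₁⁆ ≤ ⁅V, E₂⁆) (h21 : ¬ ⁅V, E₂⁆ ≤ ⁅V, E₁⁆) (hc₁ : 2 < Nat.card E₁) (hc₂ : 2 < Nat.card E₂) : ⁅E₁, E₂⁆ = ⊥ ∧ E₁ ⊓ E₂ = ⊥ ∧ ⁅V, E₁⁆ ⊓ ⁅V, E₂⁆ = ⊥ ∧ ⁅V, E⁆ = ⁅V, E₁⁆ ⊔ ⁅V, E₂⁆ := by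
  have h1E : E₁ ≤ E := by rw [hgen]; exact le_sup_left
  have h2E : E₂ ≤ E := by rw [hgen]; exact le_sup_right
  have hS₁ := subnIn_of_subgroupOf h1E hs₁
  have hS₂ := subnIn_of_subgroupOf h2E hs₂
  have hVab : ∀ y ∈ V, ∀ z ∈ V, y * z = z * y := by
    intro y hy z hz
    have h : (⟨y, hy⟩ : V) * ⟨z, hz⟩ = ⟨z, hz⟩ * ⟨y, hy⟩ := hV.1.is_comm.comm _ _
    exact congrArg Subtype.val h
  have main := Cfsg.Agent.Helper62.subn_irr_aux p V hVab hV.2 (Nat.card E) E E₁ E₂ le_rfl hEV hf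
    hS₁ hS₂ (noNP_of_pCore hS₁ hOp) (noNP_of_pCore hS₂ hOp) hirr₁ hirr₂ h12 h21 hc₁ hc₂
  rw [← hgen] at main
  exact main

end Cfsg.Agent.S0615
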