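import Cfsg.Statements.S0616
import Mathlib
import Cfsg.Agent.Helper10.FFStruct

set_option autoImplicit false
open Cfsg

namespace Cfsg.Agent.S0616

/-- Each minimal nontrivially-acting best offender spans, with its commutator on the p'-core, a direct factor E of H isomorphic to SL(2, p) with a 2-dimensional commutator module complementing C_V(E). -/
theorem result {G : Type*} [Group G] [Finite G] {p : ℕ} [Fact p.Prime] (V H : Subgroup G) (hV : Cfsg.IsElementaryAbelian p V) (hHV : H ≤ Subgroup.normalizer (V : Set G)) (hf : H ⊓ Subgroup.centralizer (V : Set G) = ⊥) (hS1 : Subgroup.centralizer (Cfsg.pPrimeCore p ↥H : Set ↥H) ≤ Cfsg.pPrimeCore p ↥H) (hS3 : H = ⨆ A : {A : Subgroup G // A ≤ H ∧ Cfsg.IsBestOffenderOn p V A}, (A : Subgroup G)) (hH1 : H ≠ ⊥) (A : Subgroup G) (hAH : A ≤ H) (hA : Cfsg.IsBestOffenderOn p V A) (hAV : ⁅V, A⁆ ≠ ⊥)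 (hmin : ∀ B : Subgroup G, B ≤ A → Cfsg.IsBestOffenderOn p V B → ⁅V, B⁆ ≠ ⊥ → B = A) : (p = 2 ∨ p = 3) ∧ Nonempty (↥(⁅((Cfsg.pPrimeCore p ↥H).map H.subtype), A⁆ ⊔ A) ≃* Matrix.SpecialLinearGroup (Fin 2) (ZMod p)) ∧ Nat.card ↥(⁅V, ⁅((Cfsg.pPrimeCore p ↥H).map H.subtype), A⁆ ⊔ A⁆) = p ^ 2 ∧ ⁅V, ⁅((Cfsg.pPrimeCore p ↥H).map H.subtype), A⁆ ⊔ A⁆ ⊓ (V ⊓ Subgroup.centralizer ((⁅((Cfsg.pPrimeCore p ↥H).map H.subtype), A⁆ ⊔ A : Subgroup G) : Set G)) = ⊥ ∧ ⁅V, ⁅((Cfsg.pPrimeCore p ↥H).map H.subtype), A⁆ ⊔ A⁆ ⊔ (V ⊓ Subgroup.centralizer ((⁅((Cfsg.pPrimeCore p ↥H).map H.subtype), A⁆ ⊔ A : Subgroup G) : Set G)) = V ∧ ⁅⁅((Cfsg.pPrimeCore p ↥H).map H.subtype), A⁆ ⊔ A, H ⊓ Subgroup.centralizer ((⁅V, ⁅((Cfsg.pPrimeCore p ↥H).map H.subtype), A⁆ ⊔ A⁆ : Subgroup G) : Set G)⁆ = ⊥ ∧ (⁅((Cfsg.pPrimeCore p ↥H).map H.subtype), A⁆ ⊔ A) ⊓ (H ⊓ Subgroup.centralizer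 ((⁅V, ⁅((Cfsg.pPrimeCore p ↥H).map H.subtype), A⁆ ⊔ A⁆ : Subgroup G) : Set G)) = ⊥ ∧ (⁅((Cfsg.pPrimeCore p ↥H).map H.subtype), A⁆ ⊔ A) ⊔ (H ⊓ Subgroup.centralizer ((⁅V, ⁅((Cfsg.pPrimeCore p ↥H).map H.subtype), A⁆ ⊔ A⁆ : Subgroup G) : Set G)) = H ∧ ⁅V, H ⊓ Subgroup.centralizer ((⁅V, ⁅((Cfsg.pPrimeCore p ↥H).map H.subtype), A⁆ ⊔ A⁆ : Subgroup G) : Set G)⁆ ≤ V ⊓ Subgroup.centralizer ((⁅((Cfsg.pPrimeCore p ↥H).map H.subtype), A⁆ ⊔ A : Subgroup G) : Set G) := by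
  have hp : p.Prime := Fact.out
  have hh := Helper10.ffs_hyp hV hHV hf hS1
  have hAT : Helper10.IsTSub p V H A :=
    Helper10.ffs_minoff_tsub hV hHV hf hS1 hS3 hH1 ⟨hAH, hA, hAV, hmin⟩
  obtain ⟨x, hx, hxA⟩ := hh.exists_not_mem_centralizer hAT
  obtain ⟨h23, hWc, hK, hiso, -, -⟩ := hh.pair hAT hx hxA
  have hsup := hh.commutator_Q_sup hAT hx hxA
  have hgen : ∀ X : Subgroup G, (∀ A' : Subgroup G, Helper10.IsTSub p V H A' → A' ≤ X) →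
      H ≤ X := fun X hX =>
    Helper10.ffs_le_of_minoff_le hV hHV hf hS1 hS3 hH1 X (fun A' hA' =>
      hX A' (Helper10.ffs_minoff_tsub hV hHV hf hS1 hS3 hH1 hA'))
  obtain ⟨h6, h8, h9⟩ := hh.factor hAT hx hxA hgen
  have h4 := hh.inf_centralizer_L hAT hx hxA
  have h5 := hh.sup_centralizer_L hAT hx hxA
  have hBH : A.map (MulAut.conj x).toMonoidHom ≤ H := (hAT.conj hHV (hh.hQH hx)).1
  rw [hsup]
  set L : Subgroup G := A ⊔ A.map (MulAut.conj x).toMonoidHom with hL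
  have hLH : L ≤ H := sup_le hAH hBH
  refine ⟨h23, hiso, hWc, ?_, h5, ?_, ?_, ?_, ?_⟩
  · rw [← le_bot_iff, ← h4]
    exact le_inf inf_le_left (inf_le_right.trans inf_le_right)
  · exact Subgroup.commutator_eq_bot_iff_le_centralizer.mpr (Subgroup.le_centralizer_iff.mp h6)
  · rw [← le_bot_iff, ← hK]
    exact le_inf inf_le_left (inf_le_right.trans inf_le_right)
  · exact le_antisymm (sup_le hLH inf_le_left) h8
  · exact le_inf (Helper10.commutator_le_of_le_normalizer V _ (inf_le_left.trans hHV)) h9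

end Cfsg.Agent.S0616
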