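import Cfsg.Statements.S0618
import Mathlib
import Cfsg.Agent.S0601
import Cfsg.Agent.S0602
import Cfsg.Agent.S0608
import Cfsg.Agent.Helper32.HallHigman
import Cfsg.Agent.Helper10.Hol2
import Cfsg.Agent.Helper10.FFStruct2

set_option autoImplicit false
open Cfsg

namespace Cfsg.Agent.S0618

/-- A p-separable group with trivial p'-core in which the Thompson factorization fails has p = 2 or 3, and J(G) induces on the normal closure of Ω₁(Z(S)) a group containing a normal SL(2, p). -/
theorem result {G : Type*} [Group G] [Finite G] {p : ℕ} [Fact p.Prime] (hsep : Cfsg.IsPSolvable p G) (hO : Cfsg.pPrimeCore p G = ⊥) (hnf : ¬ Cfsg.IsThompsonFactorizable p G) : (p = 2 ∨ p = 3) ∧ ∃ E : Subgroup G, Subgroup.centralizer ((⨆ S : Sylow p G, Cfsg.omegaOne p ((S : Subgroup G) ⊓ Subgroup.centralizer ((S : Subgroup G) : Set G))) : Set G) ≤ E ∧ E ≤ Cfsg.thompsonSubgroup p G ⊔ Subgroup.centralizer ((⨆ S : Sylow p G, Cfsg.omegaOne p ((S : Subgroup G) ⊓ Subgroup.centralizer ((S : Subgroup G) : Set G)))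 : Set G) ∧ Cfsg.thompsonSubgroup p G ⊔ Subgroup.centralizer ((⨆ S : Sylow p G, Cfsg.omegaOne p ((S : Subgroup G) ⊓ Subgroup.centralizer ((S : Subgroup G) : Set G))) : Set G) ≤ Subgroup.normalizer (E : Set G) ∧ ∃ hn : ((Subgroup.centralizer ((⨆ S : Sylow p G, Cfsg.omegaOne p ((S : Subgroup G) ⊓ Subgroup.centralizer ((S : Subgroup G) : Set G))) : Set G)).subgroupOf E).Normal, Nonempty ((↥E ⧸ (Subgroup.centralizer ((⨆ S : Sylow p G, Cfsg.omegaOne p ((S : Subgroup G) ⊓ Subgroup.centralizer ((S : Subgroup G) : Set G))) : Set G)).subgroupOf E) ≃* Matrix.SpecialLinearGroup (Fin 2) (ZMod p)) := by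
  have hc := Helper32.centralizer_pCore_le_of_isPSolvable hsep hO
  obtain ⟨W, hW⟩ : ∃ W : Subgroup G, W = ⨆ S : Sylow p G, Cfsg.omegaOne p
      ((S : Subgroup G) ⊓ Subgroup.centralizer ((S : Subgroup G) : Set G)) := ⟨_, rfl⟩
  obtain ⟨hWn, hWea, hD⟩ := S0601.result (G := G) (p := p) hc
  rw [← hW] at hWn hWea hD
  have hCW : Subgroup.centralizer (⨆ S : Sylow p G, ((Cfsg.omegaOne p
      ((S : Subgroup G) ⊓ Subgroup.centralizer ((S : Subgroup G) : Set G)) : Subgroup G) : Set G)) =
      Subgroup.centralizer (W : Set G) := by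
    rw [hW, Subgroup.iSup_eq_closure, Subgroup.centralizer_closure]
    rfl
  rw [hCW]
  have := hWn
  have hCn : (Subgroup.centralizer (W : Set G)).Normal := Subgroup.normal_centralizer
  have hcomap : (Cfsg.pCore p (G ⧸ Subgroup.centralizer (W : Set G))).comap
      (QuotientGroup.mk' (Subgroup.centralizer (W : Set G))) = Subgroup.centralizer (W : Set G) := by
    apply hD
    · exact Subgroup.Normal.comap (Helper10.pCore_normal p _) _
    · intro x hx
      rw [Subgroup.mem_comap]
      have : QuotientGroup.mk' (Subgroup.centralizer (W : Set G)) x = 1 := by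
        rw [← MonoidHom.mem_ker, QuotientGroup.ker_mk']; exact hx
      rw [this]; exact Subgroup.one_mem _
    · obtain ⟨k, hk⟩ := IsPGroup.iff_card.mp
        (Helper10.pCore_isPGroup p (G ⧸ Subgroup.centralizer (W : Set G)))
      refine ⟨k, ?_⟩
      have h1 := Subgroup.relIndex_comap (⊥ : Subgroup (G ⧸ Subgroup.centralizer (W : Set G)))
        (QuotientGroup.mk' (Subgroup.centralizer (W : Set G)))
        ((Cfsg.pCore p (G ⧸ Subgroup.centralizer (W : Set G))).comap
          (QuotientGroup.mk' (Subgroup.centralizer (W : Set G))))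
      rw [Subgroup.map_comap_eq_self_of_surjective (QuotientGroup.mk'_surjective _),
        Subgroup.relIndex_bot_left, hk, MonoidHom.comap_bot, QuotientGroup.ker_mk'] at h1
      exact h1
  have hOq : Cfsg.pCore p (G ⧸ Subgroup.centralizer (W : Set G)) = ⊥ := by
    rw [eq_bot_iff]
    intro y hy
    obtain ⟨g, rfl⟩ := QuotientGroup.mk_surjective y
    have h1 : g ∈ (Cfsg.pCore p (G ⧸ Subgroup.centralizer (W : Set G))).comap
        (QuotientGroup.mk' (Subgroup.centralizer (W : Set G))) := hy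
    rw [hcomap] at h1
    exact Subgroup.mem_bot.mpr ((QuotientGroup.eq_one_iff g).mpr h1)
  have hJ : ¬ Cfsg.thompsonSubgroup p G ≤ Subgroup.centralizer (W : Set G) := by
    intro h
    apply hnf
    refine (S0608.result hO).mpr ?_
    rw [← hW]; exact h
  have hJchar : (Cfsg.thompsonSubgroup p G).Characteristic := (S0602.result (G := G) (p := p)).1
  have hJn : (Cfsg.thompsonSubgroup p G).Normal := Subgroup.normal_of_characteristic _
  have hS1 := Helper10.hol_hS1 W hsep hOq (Cfsg.thompsonSubgroup p G)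
  have hS3 := Helper10.hol_hS3 (p := p) W hWea
  have hH1 : (Cfsg.thompsonSubgroup p G).map (Helper10.holMap W) ≠ ⊥ := by
    intro h
    apply hJ
    rw [← Helper10.holMap_ker]
    exact (Subgroup.map_eq_bot_iff _).mp h
  obtain ⟨h23, hE, -, hsup, -, -⟩ := Helper10.ffs_structure (Helper10.holV W)
    ((Cfsg.thompsonSubgroup p G).map (Helper10.holMap W)) (Helper10.holV_elemAb W hWea)
    (Helper10.hol_map_le_normalizer W _) (Helper10.hol_map_inf_centralizer W _) hS1 hS3 hH1
    (fun E => ∃ A, Helper10.IsMinOff p (Helper10.holV W)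
      ((Cfsg.thompsonSubgroup p G).map (Helper10.holMap W)) A ∧
      E = ⁅(Cfsg.pPrimeCore p ↥((Cfsg.thompsonSubgroup p G).map (Helper10.holMap W))).map
        ((Cfsg.thompsonSubgroup p G).map (Helper10.holMap W)).subtype, A⁆ ⊔ A)
    (fun E => Iff.rfl)
  refine ⟨h23, ?_⟩
  set f := Helper10.holMap W with hf
  set H' := (Cfsg.thompsonSubgroup p G).map f with hH'
  obtain ⟨E'⟩ : Nonempty {E : Subgroup (Helper10.HolAmb W) // ∃ A, Helper10.IsMinOff p
      (Helper10.holV W) H' A ∧
      E = ⁅(Cfsg.pPrimeCore p ↥H').map H'.subtype, A⁆ ⊔ A} := by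
    by_contra hempty
    rw [not_nonempty_iff] at hempty
    apply hH1
    rw [← hsup]
    exact iSup_of_empty _
  obtain ⟨hN, ⟨e⟩, -⟩ := hE E'
  have hE'H : (E' : Subgroup (Helper10.HolAmb W)) ≤ H' :=
    (le_iSup (fun E : {E : Subgroup (Helper10.HolAmb W) // ∃ A, Helper10.IsMinOff p
      (Helper10.holV W) H' A ∧
      E = ⁅(Cfsg.pPrimeCore p ↥H').map H'.subtype, A⁆ ⊔ A} =>
        (E : Subgroup (Helper10.HolAmb W))) E').trans hsup.le
  have hker : f.ker = Subgroup.centralizer (W : Set G) := Helper10.holMap_ker W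
  have hcm : (H').comap f = Cfsg.thompsonSubgroup p G ⊔ Subgroup.centralizer (W : Set G) := by
    rw [hH', Subgroup.comap_map_eq, hker]
  refine ⟨(E' : Subgroup (Helper10.HolAmb W)).comap f, ?_, ?_, ?_, ?_⟩
  · intro x hx
    rw [Subgroup.mem_comap]
    have : f x = 1 := by rw [← MonoidHom.mem_ker, hker]; exact hx
    rw [this]; exact Subgroup.one_mem _
  · rw [← hcm]
    exact Subgroup.comap_mono hE'H
  · rw [← hcm]
    intro g hg
    have hfg : f g ∈ H' := hg
    have h1 := hN hfg
    rw [Subgroup.mem_normalizer_iff] at h1 ⊢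
    intro x
    simp only [Subgroup.mem_comap, map_mul, map_inv]
    exact h1 (f x)
  · let ψ : ↥((E' : Subgroup (Helper10.HolAmb W)).comap f) →* ↥(E' : Subgroup (Helper10.HolAmb W)) :=
      MonoidHom.codRestrict (f.comp (Subgroup.subtype _)) (E' : Subgroup (Helper10.HolAmb W))
        (fun x => x.2)
    have hψ : Function.Surjective ψ := by
      rintro ⟨y, hy⟩
      obtain ⟨g, -, rfl⟩ := hE'H hy
      exact ⟨⟨g, hy⟩, rfl⟩
    have hkerψ : ψ.ker = (Subgroup.centralizer (W : Set G)).subgroupOf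
        ((E' : Subgroup (Helper10.HolAmb W)).comap f) := by
      ext x
      rw [MonoidHom.mem_ker, Subgroup.mem_subgroupOf, ← hker, MonoidHom.mem_ker]
      constructor
      · intro h
        exact congrArg Subtype.val h
      · intro h
        exact Subtype.ext h
    refine ⟨inferInstance, ⟨?_⟩⟩
    exact (QuotientGroup.quotientMulEquivOfEq hkerψ.symm).trans
      ((QuotientGroup.quotientKerEquivOfSurjective ψ hψ).trans e)

end Cfsg.Agent.S0618
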