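import Cfsg.Statements.S0619
import Mathlib
import Cfsg.Agent.S0602
import Cfsg.Agent.S0603
import Cfsg.Agent.S0606
import Cfsg.Agent.S0610
import Cfsg.Agent.Helper10.Hol2
import Cfsg.Agent.Helper10.Thompson

set_option autoImplicit false
open Cfsg

namespace Cfsg.Agent.S0619

open scoped commutatorElement

/-- Commutators of generators lying in a normal subgroup `N` force `⁅closure S, closure T⁆ ≤ N`. -/
theorem comm_closure_le {G : Type*} [Group G] (N : Subgroup G) [N.Normal] (S T : Set G)
    (h : ∀ x ∈ S, ∀ y ∈ T, ⁅x, y⁆ ∈ N) : ⁅Subgroup.closure S, Subgroup.closure T⁆ ≤ N := by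
  have hcomm : ∀ x y : G, ⁅x, y⁆ ∈ N →
      (QuotientGroup.mk' N x) * (QuotientGroup.mk' N y) =
        (QuotientGroup.mk' N y) * (QuotientGroup.mk' N x) := by
    intro x y hxy
    have h1 : QuotientGroup.mk' N ⁅x, y⁆ = 1 := by
      rw [← MonoidHom.mem_ker, QuotientGroup.ker_mk']; exact hxy
    rw [commutatorElement_def, map_mul, map_mul, map_mul, map_inv, map_inv] at h1
    have h2 := mul_inv_eq_one.mp h1
    exact mul_inv_eq_iff_eq_mul.mp h2
  have h1 : Subgroup.closure T ≤ (Subgroup.centralizer ((QuotientGroup.mk' N) '' S)).comap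
      (QuotientGroup.mk' N) := by
    rw [Subgroup.closure_le]
    intro y hy
    show QuotientGroup.mk' N y ∈ Subgroup.centralizer ((QuotientGroup.mk' N) '' S)
    rw [Subgroup.mem_centralizer_iff]
    rintro _ ⟨x, hx, rfl⟩
    exact hcomm x y (h x hx y hy)
  have h2 : Subgroup.closure S ≤ (Subgroup.centralizer
      (((Subgroup.closure T).map (QuotientGroup.mk' N) : Subgroup (G ⧸ N)) : Set (G ⧸ N))).comap
      (QuotientGroup.mk' N) := by
    rw [Subgroup.closure_le]
    intro x hx
    show QuotientGroup.mk' N x ∈ Subgroup.centralizer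
      (((Subgroup.closure T).map (QuotientGroup.mk' N) : Subgroup (G ⧸ N)) : Set (G ⧸ N))
    rw [Subgroup.mem_centralizer_iff]
    rintro _ ⟨y, hy, rfl⟩
    have h3 : QuotientGroup.mk' N y ∈ Subgroup.centralizer ((QuotientGroup.mk' N) '' S) := h1 hy
    exact (Subgroup.mem_centralizer_iff.mp h3 _ ⟨x, hx, rfl⟩).symm
  rw [Subgroup.commutator_le]
  intro g₁ hg₁ g₂ hg₂
  have h3 : QuotientGroup.mk' N g₁ ∈ Subgroup.centralizer
      (((Subgroup.closure T).map (QuotientGroup.mk' N) : Subgroup (G ⧸ N)) : Set (G ⧸ N)) := h2 hg₁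
  have h4 := Subgroup.mem_centralizer_iff.mp h3 _ ⟨g₂, hg₂, rfl⟩
  rw [← QuotientGroup.ker_mk' N, MonoidHom.mem_ker, commutatorElement_def, map_mul, map_mul,
    map_mul, map_inv, map_inv, ← h4]
  group


/-- For a p-separable group and a normal elementary abelian p-subgroup V with no nontrivial normal p-subgroup modulo its centralizer C, the Thompson subgroup J(G) moves Ω₁(Z(J(C))) only inside V. -/
theorem result {G : Type*} [Group G] [Finite G] {p : ℕ} [Fact p.Prime] (hsep : Cfsg.IsPSolvable p G) (V : Subgroup G) [V.Normal] (hV : Cfsg.IsElementaryAbelian p V) (hO : Cfsg.pCore p (G ⧸ Subgroup.centralizer (V : Set G)) = ⊥) : ⁅Cfsg.omegaOne p (Cfsg.centerThompsonOf p (Subgroup.centralizer (V : Set G))), Cfsg.thompsonSubgroup p G⁆ ≤ V := by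
  have hp : p.Prime := Fact.out
  have hJchar : (Cfsg.thompsonSubgroup p G).Characteristic := (S0602.result (G := G) (p := p)).1
  have hJn : (Cfsg.thompsonSubgroup p G).Normal := Subgroup.normal_of_characteristic _
  have hVc := ((Helper10.elemAb_iff p V).mp hV).1
  have hVC : V ≤ Subgroup.centralizer (V : Set G) := by
    intro v hv
    rw [Subgroup.mem_centralizer_iff]
    intro w hw
    exact hVc w hw v hv
  by_cases hJC : Cfsg.thompsonSubgroup p G ≤ Subgroup.centralizer (V : Set G)
  · have h1 : Cfsg.thompsonSubgroupOf p (Subgroup.centralizer (V : Set G)) =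
        Cfsg.thompsonSubgroup p G := S0603.result _ hJC
    have hΩ : Cfsg.omegaOne p (Cfsg.centerThompsonOf p (Subgroup.centralizer (V : Set G))) ≤
        Subgroup.centralizer (Cfsg.thompsonSubgroup p G : Set G) := by
      unfold Cfsg.omegaOne Cfsg.centerThompsonOf
      rw [h1, Subgroup.closure_le]
      rintro x ⟨hx, -⟩
      exact hx.2
    have h2 : ⁅Cfsg.omegaOne p (Cfsg.centerThompsonOf p (Subgroup.centralizer (V : Set G))),
        Cfsg.thompsonSubgroup p G⁆ = ⊥ := by
      rw [Subgroup.commutator_eq_bot_iff_le_centralizer]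
      exact hΩ
    rw [h2]; exact bot_le
  · have hS1 := Helper10.hol_hS1 V hsep hO (Cfsg.thompsonSubgroup p G)
    have hS3 := Helper10.hol_hS3 (p := p) V hV
    have hH1 : (Cfsg.thompsonSubgroup p G).map (Helper10.holMap V) ≠ ⊥ := by
      intro h
      apply hJC
      rw [← Helper10.holMap_ker]
      exact (Subgroup.map_eq_bot_iff _).mp h
    have key : ∀ A ∈ Cfsg.maxElementaryAbelianSubgroups p G,
        ∀ x ∈ Cfsg.centerThompsonOf p (Subgroup.centralizer (V : Set G)), x ^ p = 1 →
        ∀ a ∈ A, ⁅x, a⁆ ∈ V := by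
      intro A hA x hx hxp a ha
      have hAc := ((Helper10.elemAb_iff p A).mp hA.1).1
      have hAbo := Helper10.hol_bestOffender V (S0606.result V hV A hA)
      have hAle : A.map (Helper10.holMap V) ≤ (Cfsg.thompsonSubgroup p G).map (Helper10.holMap V) :=
        Subgroup.map_mono (le_sSup hA)
      have heq : Nat.card ↥(A.map (Helper10.holMap V)) *
          Nat.card ↥(Helper10.holV V ⊓ Subgroup.centralizer
            ((A.map (Helper10.holMap V) : Subgroup (Helper10.HolAmb V)) : Set (Helper10.HolAmb V))) =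
          Nat.card (Helper10.holV V) := by
        by_cases hA1 : A.map (Helper10.holMap V) = ⊥
        · rw [hA1, Subgroup.card_bot, one_mul, Subgroup.coe_bot, Subgroup.centralizer_eq_top_iff_subset.mpr
            (by simp), inf_top_eq]
        · exact S0610.result (Helper10.holV V) ((Cfsg.thompsonSubgroup p G).map (Helper10.holMap V))
            (Helper10.holV_elemAb V hV) (Helper10.hol_map_le_normalizer V _)
            (Helper10.hol_map_inf_centralizer V _) hS1 hS3 hH1 (A.map (Helper10.holMap V)) hAle hAbo hA1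
      rw [Helper10.hol_card_fix, Helper10.holV_card] at heq
      have e2 := Helper10.hol_card_map V A
      set C := Subgroup.centralizer (V : Set G) with hC
      set D := V ⊔ (A ⊓ C) with hD
      have hDea : Cfsg.IsElementaryAbelian p D := by
        apply Helper10.elemAb_sup hV (Helper10.elemAb_of_le hA.1 inf_le_left)
        intro v hv c hc
        exact Subgroup.mem_centralizer_iff.mp hc.2 v hv
      have hcardD : Nat.card A ≤ Nat.card D := by
        have h1 := Helper10.card_mul_card_le (le_sup_left : V ≤ D) (le_sup_right : A ⊓ C ≤ D)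
        have h2 : Nat.card ↥(V ⊓ (A ⊓ C)) ≤ Nat.card ↥(V ⊓ Subgroup.centralizer (A : Set G)) := by
          apply Subgroup.card_le_of_le
          rintro y ⟨hyV, hyA, -⟩
          refine ⟨hyV, ?_⟩
          show y ∈ Subgroup.centralizer (A : Set G)
          rw [Subgroup.mem_centralizer_iff]
          intro b hb
          exact hAc b hb y hyA
        have hpos : 0 < Nat.card ↥(V ⊓ Subgroup.centralizer (A : Set G)) := Nat.card_pos
        have h3 : Nat.card A * Nat.card ↥(V ⊓ Subgroup.centralizer (A : Set G)) ≤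
            Nat.card D * Nat.card ↥(V ⊓ Subgroup.centralizer (A : Set G)) := by
          calc Nat.card A * Nat.card ↥(V ⊓ Subgroup.centralizer (A : Set G))
              = Nat.card ↥(A.map (Helper10.holMap V)) *
                  Nat.card ↥(V ⊓ Subgroup.centralizer (A : Set G)) * Nat.card ↥(A ⊓ C) := by
                rw [← e2]; ring
            _ = Nat.card V * Nat.card ↥(A ⊓ C) := by rw [heq]
            _ ≤ Nat.card D * Nat.card ↥(V ⊓ (A ⊓ C)) := h1
            _ ≤ Nat.card D * Nat.card ↥(V ⊓ Subgroup.centralizer (A : Set G)) :=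
                Nat.mul_le_mul_left _ h2
        exact Nat.le_of_mul_le_mul_right h3 hpos
      have hDmax : D ∈ Cfsg.maxElementaryAbelianSubgroups p G :=
        ⟨hDea, fun B hB => (hA.2 B hB).trans hcardD⟩
      have hDC : D ≤ C := sup_le hVC inf_le_right
      have hDJ : D ≤ Cfsg.thompsonSubgroupOf p C := Helper10.le_thompsonOf hDmax hDC
      have hxcen : x ∈ Subgroup.centralizer (Cfsg.thompsonSubgroupOf p C : Set G) := hx.2
      have hxD : ∀ d ∈ D, d * x = x * d := fun d hd =>
        Subgroup.mem_centralizer_iff.mp hxcen d (hDJ hd)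
      have hxmem : x ∈ D := by
        have hsupea : Cfsg.IsElementaryAbelian p (D ⊔ Subgroup.zpowers x) := by
          apply Helper10.elemAb_sup hDea (Helper10.elemAb_zpowers hxp)
          intro d hd y hy
          obtain ⟨k, rfl⟩ := Subgroup.mem_zpowers_iff.mp hy
          exact ((Commute.zpow_right (hxD d hd) k)).eq
        have hle : Nat.card ↥(D ⊔ Subgroup.zpowers x) ≤ Nat.card D := hDmax.2 _ hsupea
        have h1 : D = D ⊔ Subgroup.zpowers x := Subgroup.eq_of_le_of_card_ge le_sup_left hle
        rw [h1]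
        exact Subgroup.mem_sup_right (Subgroup.mem_zpowers x)
      obtain ⟨v, hv, c, hc, rfl⟩ : ∃ v ∈ V, ∃ c ∈ A ⊓ C, x = v * c := by
        have h1 : x ∈ ((V ⊔ (A ⊓ C) : Subgroup G) : Set G) := hxmem
        rw [Subgroup.normal_mul] at h1
        obtain ⟨v, hv, c, hc, h2⟩ := Set.mem_mul.mp h1
        exact ⟨v, hv, c, hc, h2.symm⟩
      have hca : c * a = a * c := hAc c hc.1 a ha
      have h1 : ⁅v * c, a⁆ = v * (a * v⁻¹ * a⁻¹) := by
        rw [commutatorElement_def]
        calc v * c * a * (v * c)⁻¹ * a⁻¹ = v * (c * a) * c⁻¹ * v⁻¹ * a⁻¹ := by group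
          _ = v * (a * c) * c⁻¹ * v⁻¹ * a⁻¹ := by rw [hca]
          _ = v * (a * v⁻¹ * a⁻¹) := by group
      rw [h1]
      exact V.mul_mem hv (‹V.Normal›.conj_mem _ (V.inv_mem hv) a)
    have hJ : Cfsg.thompsonSubgroup p G =
        Subgroup.closure (⋃ A : Cfsg.maxElementaryAbelianSubgroups p G, ((A : Subgroup G) : Set G)) := by
      unfold Cfsg.thompsonSubgroup
      rw [sSup_eq_iSup', Subgroup.iSup_eq_closure]
    rw [hJ]
    unfold Cfsg.omegaOne
    apply comm_closure_le
    rintro x ⟨hx, hxp⟩ y hy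
    obtain ⟨A, hyA⟩ := Set.mem_iUnion.mp hy
    exact key A A.2 x hx hxp y hyA

end Cfsg.Agent.S0619
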