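import Cfsg.Statements.S0633
import Cfsg.Agent.Helper32.HHBase

set_option autoImplicit false
open Cfsg

namespace Cfsg.Agent.S0633

/-- Theorem B of Hall and Higman on the minimal polynomial of a p-element of order p^n in a p-solvable linear group on a nonzero vector space in characteristic p with no nontrivial normal p-subgroup: its degree is p^n, except when some p^n₀ - 1 (n₀ ≤ n) is a power of a prime q for which the Sylow q-subgroups are non-abelian, in which case the degree is at least p^(n-n₀)(p^n₀ - 1). -/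
theorem result {F : Type*} [Field F] {p : ℕ} [Fact p.Prime] [CharP F p] {V : Type*} [AddCommGroup V] [Module F V] [FiniteDimensional F V] [Nontrivial V] (H : Subgroup (V ≃ₗ[F] V)) [Finite H] (hsol : Cfsg.IsPSolvable p H) (hOp : Cfsg.pCore p H = ⊥) (x : V ≃ₗ[F] V) (hx : x ∈ H) (n : ℕ) (hn : orderOf x = p ^ n) (r : ℕ) (hr : minpoly F (x : Module.End F V) = (Polynomial.X - 1) ^ r) : r = p ^ n ∨ ∃ n₀ q m : ℕ, 1 ≤ n₀ ∧ n₀ ≤ n ∧ q.Prime ∧ 1 ≤ m ∧ p ^ n₀ - 1 = q ^ m ∧ (∀ Q : Sylow q H, ¬ IsMulCommutative Q) ∧ p ^ (n - n₀) * (p ^ n₀ - 1) ≤ r := by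
  classical
  have hp : p.Prime := Fact.out
  have hxP : x ^ (p ^ n) = 1 := by
    rw [← hn]
    exact pow_orderOf_eq_one x
  have hmin0 : ((x : V →ₗ[F] V) - 1) ^ r = 0 := by
    have h1 := minpoly.aeval F (x : Module.End F V)
    rw [hr] at h1
    simpa using h1
  have hX : (Polynomial.X - 1 : Polynomial F) ≠ 0 := by
    have := Polynomial.X_sub_C_ne_zero (1 : F)
    simpa using this
  have hdeg : ∀ k : ℕ, ((Polynomial.X - 1 : Polynomial F) ^ k).natDegree = k := by
    intro k
    have h1 : (Polynomial.X - 1 : Polynomial F) = Polynomial.X - Polynomial.C 1 := by simp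
    rw [h1, Polynomial.natDegree_pow, Polynomial.natDegree_X_sub_C, mul_one]
  have hle : r ≤ p ^ n := by
    have h1 : ((x : Module.End F V) - 1) ^ (p ^ n) = 0 := by
      rw [Cfsg.Agent.Helper32.HH.sub_one_pow_char_pow p]
      have h2 : (x : Module.End F V) ^ (p ^ n) = 1 := by
        have h3 := congrArg (Cfsg.Agent.Helper32.HH.equivToEnd F V) hxP
        rw [map_pow, map_one] at h3
        exact h3
      rw [h2, sub_self]
    have h3 : minpoly F (x : Module.End F V) ∣ (Polynomial.X - 1) ^ (p ^ n) := by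
      apply minpoly.dvd
      simpa using h1
    rw [hr] at h3
    have h4 := Polynomial.natDegree_le_of_dvd h3 (pow_ne_zero _ hX)
    rwa [hdeg, hdeg] at h4
  rcases Nat.eq_zero_or_pos n with hn0 | hn0
  · left
    subst hn0
    rw [pow_zero] at hle ⊢
    rcases Nat.eq_zero_or_pos r with h0 | h0
    · exfalso
      rw [h0, pow_zero] at hmin0
      exact one_ne_zero hmin0
    · omega
  · have hy : x ^ (p ^ (n - 1)) ≠ 1 := by
      intro h
      have h1 := orderOf_dvd_of_pow_eq_one h
      rw [hn] at h1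
      have h2 := (Nat.pow_dvd_pow_iff_le_right hp.one_lt).mp h1
      omega
    rcases Cfsg.Agent.Helper32.HH.hh_group H hsol hOp x hx n hn0 hxP hy r hmin0 with h | h
    · exact Or.inl (le_antisymm hle h)
    · exact Or.inr h

end Cfsg.Agent.S0633
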