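import Cfsg.Statements.S0634
import Cfsg.Agent.Helper32.HallHigman
import Cfsg.Agent.Helper32.PConstrained

set_option autoImplicit false
open Cfsg

namespace Cfsg.Agent.S0634

universe u
open Subgroup Cfsg.Agent.Helper32

theorem pPrimeCore_quot_comap_eq_bot {G : Type u} [Group G] [Finite G] {p : ℕ} [Fact p.Prime]
    (U : Subgroup G) [U.Normal] (N : Subgroup G) [N.Normal]
    (hN : N = (Cfsg.pPrimeCore p (G ⧸ U)).comap (QuotientGroup.mk' U)) :
    Cfsg.pPrimeCore p (G ⧸ N) = ⊥ := by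
  rw [Cfsg.pPrimeCore, sSup_eq_bot]
  rintro K ⟨hKn, hKc⟩
  set K' : Subgroup G := K.comap (QuotientGroup.mk' N) with hK'
  have hK'n : K'.Normal := hKn.comap _
  set K'' : Subgroup (G ⧸ U) := K'.map (QuotientGroup.mk' U) with hK''
  have hK''n : K''.Normal := hK'n.map _ (QuotientGroup.mk'_surjective U)
  have hUN : U ≤ N := by
    rw [hN]; intro x hx
    show (QuotientGroup.mk' U) x ∈ Cfsg.pPrimeCore p (G ⧸ U)
    have : (QuotientGroup.mk' U) x = 1 := (QuotientGroup.eq_one_iff x).mpr hx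
    rw [this]; exact Subgroup.one_mem _
  have hNK' : N ≤ K' := by
    intro x hx
    show (QuotientGroup.mk' N) x ∈ K
    have : (QuotientGroup.mk' N) x = 1 := (QuotientGroup.eq_one_iff x).mpr hx
    rw [this]; exact K.one_mem
  have c1 : Nat.card K' = Nat.card N * Nat.card K := card_comap_mk' N K
  have hK'eq : K' = K''.comap (QuotientGroup.mk' U) := by
    rw [hK'', QuotientGroup.comap_map_mk']
    exact (sup_eq_right.mpr (hUN.trans hNK')).symm
  have c2 : Nat.card K' = Nat.card U * Nat.card K'' := by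
    conv_lhs => rw [hK'eq]
    exact card_comap_mk' U K''
  have c3 : Nat.card N = Nat.card U * Nat.card (Cfsg.pPrimeCore p (G ⧸ U)) := by
    conv_lhs => rw [hN]
    exact card_comap_mk' U _
  have c4 : Nat.card K'' = Nat.card (Cfsg.pPrimeCore p (G ⧸ U)) * Nat.card K := by
    have : Nat.card U * Nat.card K'' =
        Nat.card U * (Nat.card (Cfsg.pPrimeCore p (G ⧸ U)) * Nat.card K) := by
      rw [← c2, c1, c3]; ring
    exact Nat.eq_of_mul_eq_mul_left Nat.card_pos this
  have hK''c : (Nat.card K'').Coprime p := by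
    rw [c4]; exact Nat.Coprime.mul_left (card_pPrimeCore_coprime' p (G ⧸ U)) hKc
  have hK''le : K'' ≤ Cfsg.pPrimeCore p (G ⧸ U) := le_sSup ⟨hK''n, hK''c⟩
  have hK'N : K' ≤ N := by
    rw [hN]; intro x hx; exact hK''le (Subgroup.mem_map_of_mem _ hx)
  rw [eq_bot_iff]
  intro y hy
  obtain ⟨x, rfl⟩ := QuotientGroup.mk'_surjective N y
  have : x ∈ N := hK'N hy
  rw [Subgroup.mem_bot]; exact (QuotientGroup.eq_one_iff x).mpr this

theorem main {G : Type u} [Group G] [Finite G] {p : ℕ} [Fact p.Prime]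
    (hsol : Cfsg.IsPSolvable p G) (k : ℕ) :
    Subgroup.centralizer ((((Cfsg.upperPSeries p G (2 * k + 2)).1.map (QuotientGroup.mk' (Cfsg.upperPSeries p G (2 * k + 1)).1)) : Subgroup (G ⧸ (Cfsg.upperPSeries p G (2 * k + 1)).1)) : Set (G ⧸ (Cfsg.upperPSeries p G (2 * k + 1)).1)) ≤ (Cfsg.upperPSeries p G (2 * k + 2)).1.map (QuotientGroup.mk' (Cfsg.upperPSeries p G (2 * k + 1)).1) := by
  have hp : p.Prime := Fact.out
  have e1 : (Cfsg.upperPSeries p G (2 * k + 1)).1 =
      (Cfsg.pPrimeCore p (G ⧸ (Cfsg.upperPSeries p G (2 * k)).1)).comap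
        (QuotientGroup.mk' _) := by
    rw [Cfsg.upperPSeries, if_pos (even_two_mul k)]
  have e2 : (Cfsg.upperPSeries p G (2 * k + 2)).1 =
      (Cfsg.pCore p (G ⧸ (Cfsg.upperPSeries p G (2 * k + 1)).1)).comap
        (QuotientGroup.mk' _) := by
    show (Cfsg.upperPSeries p G (2 * k + 1 + 1)).1 = _
    rw [Cfsg.upperPSeries, if_neg (by rw [Nat.not_even_iff_odd]; exact odd_two_mul_add_one k)]
  have hmap : (Cfsg.upperPSeries p G (2 * k + 2)).1.map
      (QuotientGroup.mk' (Cfsg.upperPSeries p G (2 * k + 1)).1) =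
      Cfsg.pCore p (G ⧸ (Cfsg.upperPSeries p G (2 * k + 1)).1) := by
    rw [e2]
    exact Subgroup.map_comap_eq_self_of_surjective (QuotientGroup.mk'_surjective _) _
  rw [hmap]
  exact centralizer_pCore_le_of_isPSolvable (isPSolvable_quotient hp hsol _)
    (pPrimeCore_quot_comap_eq_bot (Cfsg.upperPSeries p G (2 * k)).1 _ e1)

/-- In a p-soluble group each p-factor of the upper p-series contains its own centralizer in the corresponding quotient. -/
theorem result {G : Type*} [Group G] [Finite G] {p : ℕ} [Fact p.Prime] (hsol : Cfsg.IsPSolvable p G) (k : ℕ) : Subgroup.centralizer ((((Cfsg.upperPSeries p G (2 * k + 2)).1.map (QuotientGroup.mk' (Cfsg.upperPSeries p G (2 * k + 1)).1)) : Subgroup (G ⧸ (Cfsg.upperPSeries p G (2 * k + 1)).1)) : Set (G ⧸ (Cfsg.upperPSeries p G (2 * k + 1)).1)) ≤ (Cfsg.upperPSeries p G (2 * k + 2)).1.map (QuotientGroup.mk' (Cfsg.upperPSeries p G (2 * k + 1)).1) := by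
  exact main hsol k

end Cfsg.Agent.S0634
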