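import Cfsg.Statements.S0635
import Cfsg.Agent.Helper63.PLength
import Cfsg.Agent.Helper55.TwoClosed
import Cfsg.Agent.Helper32.HallHigman
import Cfsg.Agent.Helper32.PSolvable

set_option autoImplicit false
open Cfsg

namespace Cfsg.Agent.S0635

open Cfsg.Agent.Helper63.PLen

universe u

theorem aux (p : ℕ) [hp : Fact p.Prime] : ∀ (c : ℕ) (G : Type u) [Group G] [Finite G],
    Cfsg.IsPSolvable p G → ∀ S : Sylow p G, (∀ [Group.IsNilpotent ↥(S : Subgroup G)],
      Group.nilpotencyClass ↥(S : Subgroup G) ≤ c) → Cfsg.PLengthLE p c G := by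
  intro c
  induction c with
  | zero =>
    intro G _ _ _ S hS
    haveI : Group.IsNilpotent ↥(S : Subgroup G) := S.isPGroup'.isNilpotent
    have h0 : Group.nilpotencyClass ↥(S : Subgroup G) = 0 := Nat.le_zero.mp hS
    have hsub : Subsingleton ↥(S : Subgroup G) := Group.nilpotencyClass_zero_iff_subsingleton.mp h0
    have hbot : (S : Subgroup G) = ⊥ := by
      rw [eq_bot_iff]
      intro x hx
      have := Subsingleton.elim (⟨x, hx⟩ : ↥(S : Subgroup G)) 1
      exact Subgroup.mem_bot.mpr (congrArg Subtype.val this)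
    apply pLengthLE_of_coprime
    rw [Nat.coprime_comm, Nat.Prime.coprime_iff_not_dvd hp.out]
    intro hdvd
    exact S.ne_bot_of_dvd_card hdvd hbot
  | succ c ih =>
    intro G _ _ hsol S hS
    haveI : Group.IsNilpotent ↥(S : Subgroup G) := S.isPGroup'.isNilpotent
    have hS' : Group.nilpotencyClass ↥(S : Subgroup G) ≤ c + 1 := hS
    -- first quotient
    have hf : Function.Surjective (QuotientGroup.mk' (pPrimeCore p G)) :=
      QuotientGroup.mk'_surjective _
    have hsol1 : Cfsg.IsPSolvable p (G ⧸ pPrimeCore p G) :=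
      Cfsg.Agent.Helper32.isPSolvable_quotient hp.out hsol _
    have hred : pPrimeCore p (G ⧸ pPrimeCore p G) = ⊥ :=
      Cfsg.Agent.Helper55.pPrimeCore_quotient_eq_bot p G
    have hC := Cfsg.Agent.Helper32.centralizer_pCore_le_of_isPSolvable hsol1 hred
    have hQS : pCore p (G ⧸ pPrimeCore p G) ≤ (S : Subgroup G).map (QuotientGroup.mk' _) := by
      have := Cfsg.Agent.Helper24.normal_isPGroup_le_sylow
        (inferInstance : (pCore p (G ⧸ pPrimeCore p G)).Normal)
        (Cfsg.Agent.Helper24.isPGroup_pCore p _) (S.mapSurjective hf)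
      rwa [Sylow.coe_mapSurjective] at this
    -- second quotient
    have hg : Function.Surjective (QuotientGroup.mk' (pCore p (G ⧸ pPrimeCore p G))) :=
      QuotientGroup.mk'_surjective _
    have hgf : Function.Surjective ((QuotientGroup.mk' (pCore p (G ⧸ pPrimeCore p G))).comp
        (QuotientGroup.mk' (pPrimeCore p G))) := hg.comp hf
    have hsol2 : Cfsg.IsPSolvable p ((G ⧸ pPrimeCore p G) ⧸ pCore p (G ⧸ pPrimeCore p G)) :=
      Cfsg.Agent.Helper32.isPSolvable_quotient hp.out hsol1 _
    obtain ⟨T, hT⟩ : ∃ T : Sylow p ((G ⧸ pPrimeCore p G) ⧸ pCore p (G ⧸ pPrimeCore p G)),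
        (T : Subgroup ((G ⧸ pPrimeCore p G) ⧸ pCore p (G ⧸ pPrimeCore p G))) =
          (S : Subgroup G).map ((QuotientGroup.mk' (pCore p (G ⧸ pPrimeCore p G))).comp
            (QuotientGroup.mk' (pPrimeCore p G))) :=
      ⟨S.mapSurjective hgf, Sylow.coe_mapSurjective hgf S⟩
    have hclass : ∀ [Group.IsNilpotent
        ↥(T : Subgroup ((G ⧸ pPrimeCore p G) ⧸ pCore p (G ⧸ pPrimeCore p G)))],
        Group.nilpotencyClass
          ↥(T : Subgroup ((G ⧸ pPrimeCore p G) ⧸ pCore p (G ⧸ pPrimeCore p G))) ≤ c := by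
      rw [hT]
      intro _
      have hker : Subgroup.center ↥(S : Subgroup G) ≤
          (((QuotientGroup.mk' (pCore p (G ⧸ pPrimeCore p G))).comp
            (QuotientGroup.mk' (pPrimeCore p G))).subgroupMap (S : Subgroup G)).ker := by
        intro z hz
        rw [MonoidHom.mem_ker]
        apply Subtype.ext
        show (QuotientGroup.mk' (pCore p (G ⧸ pPrimeCore p G)))
          ((QuotientGroup.mk' (pPrimeCore p G)) (z : G)) = 1
        rw [QuotientGroup.mk'_apply, QuotientGroup.eq_one_iff]
        apply hC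
        rw [Subgroup.mem_centralizer_iff]
        intro q hq
        obtain ⟨s, hs, rfl⟩ := hQS hq
        have h1 := Subgroup.mem_center_iff.mp hz ⟨s, hs⟩
        have h2 : s * (z : G) = (z : G) * s := congrArg Subtype.val h1
        rw [← map_mul, ← map_mul, h2]
      have hsurj := QuotientGroup.lift_surjective_of_surjective (Subgroup.center ↥(S : Subgroup G))
        _ (MonoidHom.subgroupMap_surjective ((QuotientGroup.mk' (pCore p (G ⧸ pPrimeCore p G))).comp
            (QuotientGroup.mk' (pPrimeCore p G))) (S : Subgroup G)) hker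
      have h3 := Group.nilpotencyClass_le_of_surjective _ hsurj
      rw [Group.nilpotencyClass_quotient_center] at h3
      omega
    have ih' := ih _ hsol2 T hclass
    have h1 : PLengthLE p 1 ↥(pCore p (G ⧸ pPrimeCore p G)) :=
      pLengthLE_one_of_isPGroup p (Cfsg.Agent.Helper24.isPGroup_pCore p _)
    have h2 := pLengthLE_extension p (pCore p (G ⧸ pPrimeCore p G)) h1 ih'
    have h3 : PLengthLE p 0 ↥(pPrimeCore p G) :=
      pLengthLE_of_coprime p (Cfsg.Agent.Helper24.coprime_card_pPrimeCore p)
    have h4 := pLengthLE_extension p (pPrimeCore p G) h3 h2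
    have e : 0 + (1 + c) = c + 1 := by omega
    rw [e] at h4
    exact h4

/-- The p-length of a p-soluble group is at most the nilpotency class of its Sylow p-subgroups. -/
theorem result {G : Type*} [Group G] [Finite G] {p : ℕ} [Fact p.Prime] (hsol : Cfsg.IsPSolvable p G) (S : Sylow p G) : Cfsg.PLengthLE p (Group.nilpotencyClass ↥(S : Subgroup G)) G := by
  refine aux p _ G hsol S ?_
  intro _
  exact le_rfl

end Cfsg.Agent.S0635
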