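import Mathlib
import Cfsg.Statements.S0636
import Cfsg.Agent.S0126

set_option autoImplicit false
open Cfsg

namespace Cfsg.Agent.S0636

open Cfsg.Agent.S0126

universe u

variable {p : ℕ} [Fact p.Prime]

theorem lemmaB' {R : Type*} [Group R] [Finite R] (hp : p ≠ 2)
    (Z E W : Subgroup R) (hZc : Z ≤ Subgroup.center R) (hZp : ∀ c ∈ Z, c ^ p = 1)
    (hZcard : Nat.card Z = p)
    [hEn : E.Normal] [hWn : W.Normal] (hEcard : Nat.card E = p ^ 3)
    (hpow : ∀ x ∈ E, x ^ p ∈ Z) (hcomm : ∀ x ∈ E, ∀ y ∈ E, y * x * y⁻¹ * x⁻¹ ∈ Z)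
    (hWE : W ≤ E) (hWcard : Nat.card W = p ^ 2) :
    ∃ A : Subgroup R, A ≤ E ∧ A.Normal ∧ Cfsg.IsElementaryAbelian p A ∧ Nat.card A = p ^ 2 := by
  have hpp : p.Prime := Fact.out
  have hmul : ∀ x ∈ E, ∀ y ∈ E, (x * y) ^ p = x ^ p * y ^ p := by
    intro x hx y hy
    obtain ⟨c, hc⟩ : ∃ c, c = y * x * y⁻¹ * x⁻¹ := ⟨_, rfl⟩
    have hcZ : c ∈ Z := hc ▸ hcomm x hx y hy
    have hcc := Subgroup.mem_center_iff.mp (hZc hcZ)
    have hyx : y * x = c * x * y := by rw [hc]; group
    rw [mul_pow_class_two x y c (hcc x).symm (hcc y).symm hyx p]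
    obtain ⟨k, hk⟩ := p_dvd_sum_range (p := p) hp
    rw [hk, pow_mul, hZp c hcZ, one_pow, mul_one]
  by_cases h : ∀ x ∈ E, x ^ p = 1
  · refine ⟨W, hWE, hWn, ⟨IsPGroup.isMulCommutative_of_card_eq_prime_sq hWcard, fun a ha => h a (hWE ha)⟩, hWcard⟩
  · let φ : E →* Z := MonoidHom.mk' (fun x => ⟨(x : R) ^ p, hpow x.1 x.2⟩) (by
      intro a b
      apply Subtype.ext
      simp only [Subgroup.coe_mul]
      exact hmul a.1 a.2 b.1 b.2)
    have hφ : ∀ x : E, ((φ x : Z) : R) = (x : R) ^ p := fun x => rfl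
    have hker : ∀ x : E, x ∈ φ.ker ↔ (x : R) ^ p = 1 := by
      intro x
      rw [MonoidHom.mem_ker, ← hφ]
      constructor
      · intro hx; rw [hx]; rfl
      · intro hx; exact Subtype.ext hx
    have hrange : Nat.card φ.range = p := by
      have hd : Nat.card φ.range ∣ p := hZcard ▸ Subgroup.card_subgroup_dvd_card φ.range
      rcases (Nat.dvd_prime hpp).mp hd with h1 | h1
      · exfalso
        apply h
        intro x hx
        have hb : φ.range = ⊥ := Subgroup.eq_bot_of_card_eq _ h1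
        have hx1 : φ ⟨x, hx⟩ ∈ φ.range := ⟨_, rfl⟩
        rw [hb, Subgroup.mem_bot] at hx1
        have := hφ ⟨x, hx⟩
        rw [hx1] at this
        exact this.symm
      · exact h1
    have hkcard : Nat.card φ.ker = p ^ 2 := by
      have h1 := Subgroup.card_mul_index φ.ker
      rw [Subgroup.index_ker, hrange, hEcard] at h1
      have : Nat.card φ.ker * p = p ^ 2 * p := by rw [h1]; ring
      exact Nat.eq_of_mul_eq_mul_right hpp.pos this
    have hAcard : Nat.card (φ.ker.map E.subtype) = p ^ 2 := by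
      rw [Subgroup.card_map_of_injective E.subtype_injective, hkcard]
    refine ⟨φ.ker.map E.subtype, Subgroup.map_subtype_le _, ⟨?_⟩,
      ⟨IsPGroup.isMulCommutative_of_card_eq_prime_sq hAcard, ?_⟩, hAcard⟩
    · intro n hn g
      obtain ⟨x, hx, rfl⟩ := hn
      have hxE : g * (x : R) * g⁻¹ ∈ E := hEn.conj_mem _ x.2 g
      refine ⟨⟨_, hxE⟩, ?_, rfl⟩
      rw [SetLike.mem_coe, hker]
      rw [SetLike.mem_coe, hker] at hx
      simp only
      rw [conj_pow, hx]; group
    · intro a ha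
      obtain ⟨x, hx, rfl⟩ := ha
      rw [SetLike.mem_coe, hker] at hx
      exact hx

theorem main (hp : p ≠ 2) : ∀ (n : ℕ) (R : Type u) [Group R] [Finite R], Nat.card R = n →
    IsPGroup p R → ∀ S : Subgroup R, S.Normal → ¬ IsCyclic S →
    ∃ A : Subgroup R, A ≤ S ∧ A.Normal ∧ Cfsg.IsElementaryAbelian p A ∧ Nat.card A = p ^ 2 := by
  have hpp : p.Prime := Fact.out
  intro n
  induction n using Nat.strong_induction_on with
  | _ n ih =>
  intro R _ _ hn hR S hSn hnc
  have hSne : S ≠ ⊥ := by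
    intro h
    apply hnc
    have : Subsingleton S := by rw [h]; infer_instance
    exact isCyclic_of_subsingleton
  obtain ⟨z, hzS, hzc, hzo⟩ := exists_central_order_p hR S hSne
  obtain ⟨Z, hZdef⟩ : ∃ Z : Subgroup R, Z = Subgroup.zpowers z := ⟨_, rfl⟩
  have hZc : Z ≤ Subgroup.center R := by rw [hZdef]; exact Subgroup.zpowers_le.mpr hzc
  have hZS : Z ≤ S := by rw [hZdef]; exact Subgroup.zpowers_le.mpr hzS
  have hZn : Z.Normal := by
    constructor
    intro x hx g
    have := Subgroup.mem_center_iff.mp (hZc hx) g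
    rw [this]; simpa using hx
  have hZcard : Nat.card Z = p := by rw [hZdef, Nat.card_zpowers, hzo]
  have hZp : ∀ c ∈ Z, c ^ p = 1 := by
    intro c hc
    rw [hZdef] at hc
    obtain ⟨k, rfl⟩ := Subgroup.mem_zpowers_iff.mp hc
    rw [← zpow_natCast, ← zpow_mul, mul_comm, zpow_mul, zpow_natCast, ← hzo, pow_orderOf_eq_one, one_zpow]
  have hzZ : z ∈ Z := by rw [hZdef]; exact Subgroup.mem_zpowers z
  have hmk1 : ∀ x : R, (QuotientGroup.mk' Z x = 1) ↔ x ∈ Z := fun x => by
    rw [QuotientGroup.mk'_apply, QuotientGroup.eq_one_iff]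
  have hker : (QuotientGroup.mk' Z).ker = Z := QuotientGroup.ker_mk' Z
  have hcm : ∀ T : Subgroup R, Z ≤ T → (T.map (QuotientGroup.mk' Z)).comap (QuotientGroup.mk' Z) = T := by
    intro T hT
    apply Subgroup.comap_map_eq_self
    rw [hker]; exact hT
  obtain ⟨Sb, hSb⟩ : ∃ Sb : Subgroup (R ⧸ Z), Sb = S.map (QuotientGroup.mk' Z) := ⟨_, rfl⟩
  have hSbn : Sb.Normal := by rw [hSb]; exact hSn.map _ (QuotientGroup.mk'_surjective Z)
  have hSbc : Sb.comap (QuotientGroup.mk' Z) = S := by rw [hSb]; exact hcm S hZS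
  have hcardQ : Nat.card R = Nat.card (R ⧸ Z) * p := by
    rw [← hZcard]; exact Subgroup.card_eq_card_quotient_mul_card_subgroup Z
  have hQpos : 0 < Nat.card (R ⧸ Z) := Nat.card_pos
  have hlt : Nat.card (R ⧸ Z) < n := by
    rw [← hn, hcardQ]
    have : 2 ≤ p := hpp.two_le
    nlinarith
  have hcentN : ∀ w : R ⧸ Z, w ∈ Subgroup.center (R ⧸ Z) → (Subgroup.zpowers w).Normal := by
    intro w hwc
    constructor
    intro x hx g
    have hxc : x ∈ Subgroup.center (R ⧸ Z) := (Subgroup.zpowers_le.mpr hwc) hx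
    have := Subgroup.mem_center_iff.mp hxc g
    rw [this]; simpa using hx
  by_cases hQ : IsCyclic Sb
  · obtain ⟨g, hg⟩ := isCyclic_iff_exists_zpowers_eq_top.mp hQ
    have hgS : (g : R ⧸ Z) ∈ S.map (QuotientGroup.mk' Z) := hSb ▸ g.2
    obtain ⟨g0, hg0S, hg0⟩ := hgS
    have hdecomp : ∀ r ∈ S, ∃ k : ℤ, (g0 ^ k)⁻¹ * r ∈ Z := by
      intro r hr
      have hrb : QuotientGroup.mk' Z r ∈ Sb := by rw [hSb]; exact Subgroup.mem_map_of_mem _ hr
      have : (⟨_, hrb⟩ : Sb) ∈ Subgroup.zpowers g := by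
        rw [hg]; exact Subgroup.mem_top _
      obtain ⟨k, hk⟩ := Subgroup.mem_zpowers_iff.mp this
      have hk' := congrArg Subtype.val hk
      simp only [Subgroup.coe_zpow] at hk'
      refine ⟨k, ?_⟩
      rw [← hmk1, map_mul, map_inv, map_zpow, hg0, hk', inv_mul_cancel]
    have hScomm : ∀ x ∈ S, ∀ y ∈ S, x * y = y * x := by
      intro x hx y hy
      obtain ⟨i, hi⟩ := hdecomp x hx
      obtain ⟨j, hj⟩ := hdecomp y hy
      have hci := Subgroup.mem_center_iff.mp (hZc hi)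
      have hcj := Subgroup.mem_center_iff.mp (hZc hj)
      have ex : x = g0 ^ i * ((g0 ^ i)⁻¹ * x) := by group
      have ey : y = g0 ^ j * ((g0 ^ j)⁻¹ * y) := by group
      obtain ⟨a, ha⟩ : ∃ a, a = (g0 ^ i)⁻¹ * x := ⟨_, rfl⟩
      obtain ⟨b, hb⟩ : ∃ b, b = (g0 ^ j)⁻¹ * y := ⟨_, rfl⟩
      rw [← ha] at ex hci
      rw [← hb] at ey hcj
      rw [ex, ey]
      calc g0 ^ i * a * (g0 ^ j * b) = g0 ^ i * (a * g0 ^ j) * b := by group
        _ = g0 ^ i * (g0 ^ j * a) * b := by rw [hci]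
        _ = (g0 ^ i * g0 ^ j) * (a * b) := by group
        _ = (g0 ^ j * g0 ^ i) * (b * a) := by rw [← zpow_add, ← zpow_add, add_comm, hcj a]
        _ = g0 ^ j * (g0 ^ i * b) * a := by group
        _ = g0 ^ j * (b * g0 ^ i) * a := by rw [hcj]
        _ = g0 ^ j * b * (g0 ^ i * a) := by group
    have hzC : z ∉ Subgroup.zpowers g0 := by
      intro hz
      apply hnc
      rw [isCyclic_iff_exists_zpowers_eq_top]
      refine ⟨⟨g0, hg0S⟩, ?_⟩
      rw [eq_top_iff]
      intro r _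
      obtain ⟨k, hk⟩ := hdecomp r r.2
      have hZC : Z ≤ Subgroup.zpowers g0 := by rw [hZdef]; exact Subgroup.zpowers_le.mpr hz
      have h1 : (g0 ^ k)⁻¹ * (r : R) ∈ Subgroup.zpowers g0 := hZC hk
      have h2 : g0 ^ k ∈ Subgroup.zpowers g0 := Subgroup.zpow_mem_zpowers g0 k
      have h3 := Subgroup.mul_mem _ h2 h1
      have h4 : (r : R) ∈ Subgroup.zpowers g0 := by simpa using h3
      obtain ⟨l, hl⟩ := Subgroup.mem_zpowers_iff.mp h4
      rw [Subgroup.mem_zpowers_iff]
      exact ⟨l, Subtype.ext (by simpa using hl)⟩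
    have hCne : Subgroup.zpowers g0 ≠ ⊥ := by
      intro hC
      have hg1 : g0 = 1 := by
        have : g0 ∈ Subgroup.zpowers g0 := Subgroup.mem_zpowers g0
        rw [hC, Subgroup.mem_bot] at this
        exact this
      apply hnc
      rw [isCyclic_iff_exists_zpowers_eq_top]
      refine ⟨⟨z, hzS⟩, ?_⟩
      rw [eq_top_iff]
      intro r _
      obtain ⟨k, hk⟩ := hdecomp r r.2
      rw [hg1] at hk
      simp only [one_zpow, inv_one, one_mul] at hk
      rw [hZdef] at hk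
      obtain ⟨l, hl⟩ := Subgroup.mem_zpowers_iff.mp hk
      rw [Subgroup.mem_zpowers_iff]
      exact ⟨l, Subtype.ext (by simpa using hl)⟩
    obtain ⟨u', hu'⟩ := exists_prime_orderOf_dvd_card' p (p_dvd_card_of_ne_bot hR _ hCne)
    obtain ⟨u, hu⟩ : ∃ u : R, u = (u' : R) := ⟨_, rfl⟩
    have huC : u ∈ Subgroup.zpowers g0 := hu ▸ u'.2
    have huS : u ∈ S := (Subgroup.zpowers_le.mpr hg0S) huC
    have huo : orderOf u = p := by rw [hu, Subgroup.orderOf_coe, hu']
    have huZ : u ∉ Z := by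
      intro huZ
      have hle : Subgroup.zpowers u ≤ Z := Subgroup.zpowers_le.mpr huZ
      have heq : Subgroup.zpowers u = Z := by
        apply Subgroup.eq_of_le_of_card_ge hle
        rw [hZcard, Nat.card_zpowers, huo]
      apply hzC
      have : z ∈ Subgroup.zpowers u := by rw [heq]; exact hzZ
      exact (Subgroup.zpowers_le.mpr huC) this
    have hup : u ^ p = 1 := by rw [← huo]; exact pow_orderOf_eq_one u
    -- Ω
    let Om : Subgroup R :=
      { carrier := {x | x ∈ S ∧ x ^ p = 1}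
        mul_mem' := by
          rintro a b ⟨haS, ha⟩ ⟨hbS, hb⟩
          refine ⟨S.mul_mem haS hbS, ?_⟩
          rw [(show Commute a b from hScomm a haS b hbS).mul_pow, ha, hb, one_mul]
        one_mem' := ⟨S.one_mem, one_pow p⟩
        inv_mem' := by
          rintro a ⟨haS, ha⟩
          exact ⟨S.inv_mem haS, by rw [inv_pow, ha, inv_one]⟩ }
    have hOm : ∀ x, x ∈ Om ↔ x ∈ S ∧ x ^ p = 1 := fun x => Iff.rfl
    have hOmn : Om.Normal := by
      constructor
      intro x hx g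
      rw [hOm] at hx ⊢
      refine ⟨hSn.conj_mem x hx.1 g, ?_⟩
      rw [conj_pow, hx.2]; group
    have hZOm : Z ≤ Om := fun c hc => (hOm c).mpr ⟨hZS hc, hZp c hc⟩
    obtain ⟨Ob, hOb⟩ : ∃ Ob : Subgroup (R ⧸ Z), Ob = Om.map (QuotientGroup.mk' Z) := ⟨_, rfl⟩
    have hObn : Ob.Normal := by rw [hOb]; exact hOmn.map _ (QuotientGroup.mk'_surjective Z)
    have hObc : Ob.comap (QuotientGroup.mk' Z) = Om := by rw [hOb]; exact hcm Om hZOm
    have hObne : Ob ≠ ⊥ := by
      intro h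
      have : QuotientGroup.mk' Z u ∈ Ob := by
        rw [hOb]; exact Subgroup.mem_map_of_mem _ ((hOm u).mpr ⟨huS, hup⟩)
      rw [h, Subgroup.mem_bot, hmk1] at this
      exact huZ this
    obtain ⟨w, hwA, hwc, hwo⟩ := exists_central_order_p (hR.to_quotient Z) Ob hObne
    have hWbn : (Subgroup.zpowers w).Normal := hcentN w hwc
    have hWcard : Nat.card ((Subgroup.zpowers w).comap (QuotientGroup.mk' Z)) = p ^ 2 := by
      rw [card_comap_mk, Nat.card_zpowers, hwo, hZcard]; ring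
    have hWOm : (Subgroup.zpowers w).comap (QuotientGroup.mk' Z) ≤ Om := by
      rw [← hObc]; exact Subgroup.comap_mono (Subgroup.zpowers_le.mpr hwA)
    refine ⟨(Subgroup.zpowers w).comap (QuotientGroup.mk' Z), ?_, hWbn.comap _,
      ⟨IsPGroup.isMulCommutative_of_card_eq_prime_sq hWcard, ?_⟩, hWcard⟩
    · intro x hx; exact ((hOm x).mp (hWOm hx)).1
    · intro x hx; exact ((hOm x).mp (hWOm hx)).2
  · obtain ⟨Ab, hAbS, hAbn, ⟨hAbc, hAbp⟩, hAbcard⟩ := ih _ hlt (R ⧸ Z) rfl (hR.to_quotient Z) Sb hSbn hQ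
    have hAbne : Ab ≠ ⊥ := by
      intro h
      rw [h, Subgroup.card_bot] at hAbcard
      have : 2 ≤ p := hpp.two_le
      nlinarith
    obtain ⟨w, hwA, hwc, hwo⟩ := exists_central_order_p (hR.to_quotient Z) Ab hAbne
    have hWbn : (Subgroup.zpowers w).Normal := hcentN w hwc
    have hEn : (Ab.comap (QuotientGroup.mk' Z)).Normal := hAbn.comap _
    have hWn : ((Subgroup.zpowers w).comap (QuotientGroup.mk' Z)).Normal := hWbn.comap _
    have hES : Ab.comap (QuotientGroup.mk' Z) ≤ S := by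
      rw [← hSbc]; exact Subgroup.comap_mono hAbS
    obtain ⟨A, hAE, hA⟩ := lemmaB' hp Z (Ab.comap (QuotientGroup.mk' Z))
      ((Subgroup.zpowers w).comap (QuotientGroup.mk' Z))
      hZc hZp hZcard (by rw [card_comap_mk, hAbcard, hZcard]; ring)
      (by
        intro x hx
        rw [Subgroup.mem_comap] at hx
        rw [← hmk1, map_pow]
        exact hAbp _ hx)
      (by
        intro x hx y hy
        rw [Subgroup.mem_comap] at hx hy
        rw [← hmk1, map_mul, map_mul, map_mul, map_inv, map_inv]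
        have h1 := congrArg Subtype.val (hAbc.is_comm.comm ⟨_, hy⟩ ⟨_, hx⟩)
        simp only [Subgroup.coe_mul] at h1
        rw [h1]; group)
      (Subgroup.comap_mono (Subgroup.zpowers_le.mpr hwA))
      (by rw [card_comap_mk, Nat.card_zpowers, hwo, hZcard]; ring)
    exact ⟨A, hAE.trans hES, hA⟩

/-- For odd p, every non-cyclic normal subgroup of a p-group contains a normal elementary abelian subgroup of the whole group of order p². -/
theorem result {R : Type*} [Group R] [Finite R] {p : ℕ} [Fact p.Prime] (hp : p ≠ 2) (hR : IsPGroup p R) (S : Subgroup R) [S.Normal] (hS : ¬ IsCyclic S) : ∃ A : Subgroup R, A ≤ S ∧ A.Normal ∧ Cfsg.IsElementaryAbelian p A ∧ Nat.card A = p ^ 2 := by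
  exact main hp _ R rfl hR S inferInstance hS

end Cfsg.Agent.S0636
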