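import Cfsg.Statements.S0641

set_option autoImplicit false
open Cfsg

namespace Cfsg.Agent.S0641

theorem map_powerClosure_le {G G' : Type*} [Group G] [Group G'] (f : G →* G') (p n : ℕ)
    (H : Subgroup G) : (powerClosure p n H).map f ≤ powerClosure p n (H.map f) := by
  rw [powerClosure, MonoidHom.map_closure, Subgroup.closure_le]
  rintro _ ⟨y, ⟨x, hx, rfl⟩, rfl⟩
  apply Subgroup.subset_closure
  exact ⟨f x, Subgroup.mem_map_of_mem f hx, by rw [map_pow]⟩

/-- Regularity of a p-group passes to quotient groups. -/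
theorem result {G : Type*} [Group G] {p : ℕ} [Fact p.Prime] (hG : Cfsg.IsRegularPGroup p G) (N : Subgroup G) [N.Normal] : Cfsg.IsRegularPGroup p (G ⧸ N) := by
  refine ⟨hG.1.to_quotient N, ?_⟩
  intro a' b' n
  obtain ⟨a, rfl⟩ := QuotientGroup.mk_surjective a'
  obtain ⟨b, rfl⟩ := QuotientGroup.mk_surjective b'
  obtain ⟨c, hc, hceq⟩ := hG.2 a b n
  refine ⟨QuotientGroup.mk' N c, ?_, ?_⟩
  · have h1 := map_powerClosure_le (QuotientGroup.mk' N) p n _ (Subgroup.mem_map_of_mem _ hc)
    rw [Subgroup.map_commutator, MonoidHom.map_closure] at h1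
    have himg : (QuotientGroup.mk' N) '' ({a, b} : Set G) =
        ({(QuotientGroup.mk a : G ⧸ N), (QuotientGroup.mk b : G ⧸ N)} : Set (G ⧸ N)) := by
      rw [Set.image_pair]
      rfl
    rw [himg] at h1
    exact h1
  · have := congrArg (QuotientGroup.mk' N) hceq
    simpa using this

end Cfsg.Agent.S0641
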