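import Cfsg.Statements.S0642
import Cfsg.Agent.Helper11.PGroupIndex

set_option autoImplicit false
open Cfsg

namespace Cfsg.Agent.S0642

open Cfsg.Agent.Helper11
open scoped commutatorElement

theorem powerClosure_mono {G : Type*} [Group G] (p n : ℕ) {H K : Subgroup G} (h : H ≤ K) :
    powerClosure p n H ≤ powerClosure p n K := by
  apply Subgroup.closure_mono
  rintro y ⟨x, hx, rfl⟩
  exact ⟨x, h hx, rfl⟩

/-- A finite 2-group is regular exactly when it is abelian. -/
theorem result {G : Type*} [Group G] [Finite G] (hG : IsPGroup 2 G) : Cfsg.IsRegularPGroup 2 G ↔ ∀ a b : G, a * b = b * a := by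
  constructor
  · intro hreg
    -- every commutator lies in the subgroup generated by squares of the derived subgroup
    have key : ∀ x y : G, ⁅x, y⁆ ∈ powerClosure 2 1 (commutator G) := by
      intro x y
      obtain ⟨c, hc, hceq⟩ := hreg.2 (x⁻¹ * y⁻¹ * x) (x⁻¹) 1
      have hc' : c ∈ powerClosure 2 1 (commutator G) := by
        refine powerClosure_mono 2 1 ?_ hc
        rw [commutator_def]
        exact Subgroup.commutator_mono le_top le_top
      have : c = ⁅x, y⁆ := by
        rw [pow_one, pow_two, pow_two, pow_two] at hceq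
        have h2 : c = ((x⁻¹ * y⁻¹ * x) * (x⁻¹ * y⁻¹ * x) * (x⁻¹ * x⁻¹))⁻¹ *
            ((x⁻¹ * y⁻¹ * x * x⁻¹) * (x⁻¹ * y⁻¹ * x * x⁻¹)) := by
          rw [hceq]; group
        rw [h2, commutatorElement_def]
        group
      rw [← this]
      exact hc'
    have hle : commutator G ≤ powerClosure 2 1 (commutator G) := by
      rw [commutator_def, Subgroup.commutator_le]
      intro g₁ _ g₂ _
      exact key g₁ g₂
    have hbot : commutator G = ⊥ := by
      by_contra hne
      have : Fact (Nat.Prime 2) := ⟨Nat.prime_two⟩
      obtain ⟨M, hM, hpow⟩ := exists_lt_forall_pow_mem (p := 2) (commutator G)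
        (hG.to_subgroup _) hne
      have h1 : powerClosure 2 1 (commutator G) ≤ M := by
        rw [powerClosure, Subgroup.closure_le]
        rintro y ⟨x, hx, rfl⟩
        rw [pow_one]
        exact hpow x hx
      exact absurd (hle.trans h1) (not_le_of_gt hM)
    intro a b
    have : (⁅a, b⁆ : G) ∈ commutator G := by
      rw [commutator_def]
      exact Subgroup.commutator_mem_commutator (Subgroup.mem_top a) (Subgroup.mem_top b)
    rw [hbot, Subgroup.mem_bot, commutatorElement_eq_one_iff_mul_comm] at this
    exact this
  · intro hcomm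
    refine ⟨hG, ?_⟩
    intro a b n
    refine ⟨1, one_mem _, ?_⟩
    rw [mul_one]
    exact Commute.mul_pow (hcomm a b) _

end Cfsg.Agent.S0642
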