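import Cfsg.Statements.S0656
import Cfsg.Agent.Helper24.SL2Sec
import Cfsg.Agent.Helper24.Quadratic
import Cfsg.Agent.Helper41.BaerSuzuki

set_option autoImplicit false
open Cfsg

namespace Cfsg.Agent.S0656

open Cfsg.Agent.Helper24

open scoped commutatorElement in
theorem commute_of_quad {G : Type*} [Group G] (V : Subgroup G) (x : G)
    (hq : ⁅⁅V, Subgroup.zpowers x⁆, Subgroup.zpowers x⁆ = ⊥) {v : G} (hv : v ∈ V) :
    Commute (v * x * v⁻¹ * x⁻¹) x := by
  have h : Commute ⁅v, x⁆ x := by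
    rw [← commutatorElement_eq_one_iff_commute, ← Subgroup.mem_bot, ← hq]
    exact Subgroup.commutator_mem_commutator (Subgroup.commutator_mem_commutator hv
      (Subgroup.mem_zpowers x)) (Subgroup.mem_zpowers x)
  rwa [commutatorElement_def] at h

/-- For odd p, a faithful group on an elementary abelian p-group with no nontrivial normal p-subgroup in which some nontrivial p-element acts quadratically has a section isomorphic to SL(2, p). -/
theorem result {G : Type*} [Group G] [Finite G] {p : ℕ} [Fact p.Prime] (hp : p ≠ 2) (V H : Subgroup G) (hV : Cfsg.IsElementaryAbelian p V) (hHV : H ≤ Subgroup.normalizer (V : Set G)) (hf : H ⊓ Subgroup.centralizer (V : Set G) = ⊥) (hO : Cfsg.pCore p ↥H = ⊥) (x : G) (hxH : x ∈ H) (hx1 : x ≠ 1) (hxp : ∃ k : ℕ, orderOf x = p ^ k) (hq : ⁅⁅V, Subgroup.zpowers x⁆, Subgroup.zpowers x⁆ = ⊥) : ∃ (K L : Subgroup G) (hL : (L.subgroupOf K).Normal), K ≤ H ∧ Nonempty ((K ⧸ L.subgroupOf K)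 ≃* Matrix.SpecialLinearGroup (Fin 2) (ZMod p)) := by
  classical
  have hpodd : Odd p := (Fact.out : p.Prime).odd_of_ne_two hp
  -- Step 1: Baer–Suzuki inside `H`
  obtain ⟨z1, z2, hz1, hz2, hnp⟩ : ∃ z1 z2 : ↥H, (∃ g : ↥H, z1 = g * ⟨x, hxH⟩ * g⁻¹) ∧
      (∃ g : ↥H, z2 = g * ⟨x, hxH⟩ * g⁻¹) ∧
      ¬ IsPGroup p (Subgroup.closure ({z1, z2} : Set ↥H)) := by
    by_contra hcon
    push Not at hcon
    have hmem : ∀ P : Sylow p ↥H, (⟨x, hxH⟩ : ↥H) ∈ (P : Subgroup ↥H) := by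
      intro P
      apply Helper41.baer_suzuki_mem {z : ↥H | ∃ g : ↥H, z = g * ⟨x, hxH⟩ * g⁻¹} _ _ ⟨x, hxH⟩
        ⟨1, by simp⟩ P
      · rintro z ⟨g, rfl⟩ g'
        exact ⟨g' * g, by group⟩
      · intro z1 hz1 z2 hz2
        exact hcon z1 z2 hz1 hz2
    have h1 : (⟨x, hxH⟩ : ↥H) ∈ Helper41.sylowCore p ↥H := (Helper41.mem_sylowCore _).2 hmem
    have h2 : Helper41.sylowCore p ↥H ≤ Cfsg.pCore p ↥H :=
      le_sSup ⟨Helper41.sylowCore_normal p ↥H, Helper41.sylowCore_isPGroup p ↥H⟩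
    rw [hO] at h2
    have h3 := h2 h1
    rw [Subgroup.mem_bot] at h3
    exact hx1 (congrArg Subtype.val h3)
  -- Step 2: the subgroup generated by the two conjugates
  have haX : z1 ∈ Subgroup.closure ({z1, z2} : Set ↥H) := Subgroup.subset_closure (by simp)
  have hbX : z2 ∈ Subgroup.closure ({z1, z2} : Set ↥H) := Subgroup.subset_closure (by simp)
  have hgen := closure_pair_subtype_eq_top z1 z2 haX hbX
  obtain ⟨h, hh, hh1⟩ : ∃ h : Subgroup.closure ({z1, z2} : Set ↥H),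
      (orderOf h).Coprime p ∧ h ≠ 1 := by
    by_contra hcon
    push Not at hcon
    apply hnp
    have hcard : Nat.card (Subgroup.closure ({z1, z2} : Set ↥H)) =
        p ^ (Nat.card (Subgroup.closure ({z1, z2} : Set ↥H))).primeFactorsList.length := by
      apply Nat.eq_prime_pow_of_unique_prime_dvd Nat.card_pos.ne'
      intro r hr hrd
      by_contra hrp
      have := Fact.mk hr
      obtain ⟨g, hg⟩ := exists_prime_orderOf_dvd_card' r hrd
      have hg1 : g = 1 := hcon g (by rw [hg]; exact (Nat.coprime_primes hr Fact.out).2 hrp)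
      rw [hg1, orderOf_one] at hg
      exact hr.ne_one hg.symm
    exact IsPGroup.of_card hcard
  -- Step 3: the action on `V`
  let φ : Subgroup.closure ({z1, z2} : Set ↥H) →* MulAut ↥V :=
    V.normalizerMonoidHom.comp ((Subgroup.inclusion hHV).comp (Subgroup.subtype _))
  have hφ : ∀ (g : Subgroup.closure ({z1, z2} : Set ↥H)) (m : ↥V),
      ((φ g m : ↥V) : G) = ((g : ↥H) : G) * m * ((g : ↥H) : G)⁻¹ := fun g m => rfl
  have hMp : ∀ m : ↥V, m ^ p = 1 := fun m => Subtype.ext (hV.2 m m.2)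
  -- Step 4: quadratic action of the conjugates of `x`
  have hquad : ∀ c : Subgroup.closure ({z1, z2} : Set ↥H),
      (∃ g : ↥H, (c : ↥H) = g * ⟨x, hxH⟩ * g⁻¹) → ∀ m : ↥V, φ c (φ c m / m) = φ c m / m := by
    rintro c ⟨g, hc⟩ m
    apply Subtype.ext
    rw [hφ, Subgroup.coe_div, hφ]
    have hc0 : ((c : ↥H) : G) = (g : G) * x * (g : G)⁻¹ := by rw [hc]; rfl
    have hgN : (g : G)⁻¹ ∈ Subgroup.normalizer (V : Set G) := inv_mem (hHV g.2)
    have hv : (g : G)⁻¹ * m * (g : G) ∈ V := by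
      have := (Subgroup.mem_normalizer_iff.1 hgN (m : G)).1 m.2
      simpa using this
    have hcomm := commute_of_quad V x hq hv
    have h1 : Commute x ((g : G)⁻¹ * m * (g : G) * x * ((g : G)⁻¹ * m * (g : G))⁻¹ * x⁻¹)⁻¹ :=
      hcomm.symm.inv_right
    have h2 := h1.eq
    rw [hc0, div_eq_mul_inv]
    calc (g : G) * x * (g : G)⁻¹ * ((g : G) * x * (g : G)⁻¹ * m * ((g : G) * x * (g : G)⁻¹)⁻¹
          * (m : G)⁻¹) * ((g : G) * x * (g : G)⁻¹)⁻¹
        = (g : G) * (x * ((g : G)⁻¹ * m * (g : G) * x * ((g : G)⁻¹ * m * (g : G))⁻¹ * x⁻¹)⁻¹)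
          * x⁻¹ * (g : G)⁻¹ := by group
      _ = (g : G) * (((g : G)⁻¹ * m * (g : G) * x * ((g : G)⁻¹ * m * (g : G))⁻¹ * x⁻¹)⁻¹ * x)
          * x⁻¹ * (g : G)⁻¹ := by rw [h2]
      _ = (g : G) * x * (g : G)⁻¹ * m * ((g : G) * x * (g : G)⁻¹)⁻¹ * (m : G)⁻¹ := by group
  -- Step 5: the `p'`-element acts nontrivially
  have hφh : φ h ≠ 1 := by
    intro h1
    apply hh1
    have h2 : ((h : ↥H) : G) ∈ H ⊓ Subgroup.centralizer (V : Set G) := by
      refine ⟨(h : ↥H).2, ?_⟩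
      show ((h : ↥H) : G) ∈ Subgroup.centralizer (V : Set G)
      rw [Subgroup.mem_centralizer_iff]
      intro m hm
      have h3 := hφ h ⟨m, hm⟩
      rw [h1] at h3
      have h4 : m = ((h : ↥H) : G) * m * ((h : ↥H) : G)⁻¹ := h3
      rw [eq_mul_inv_iff_mul_eq] at h4
      exact h4
    rw [hf, Subgroup.mem_bot] at h2
    exact Subtype.ext (Subtype.ext h2)
  -- Step 6: the section
  obtain ⟨K', θ, hθ⟩ := @exists_surj_sl2_of_quadratic_pair_mulAut ↥V
    (commGroupOfComm ↥V (fun a b => hV.1.is_comm.comm a b)) _ p _ hpodd hMp _ _ _ φ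
    ⟨z1, haX⟩ ⟨z2, hbX⟩ hgen (hquad ⟨z1, haX⟩ hz1) (hquad ⟨z2, hbX⟩ hz2) ⟨h, hh, hφh⟩
  obtain ⟨K, L, hL, hK, hiso⟩ := exists_section_of_surj
    (H.subtype.comp (Subgroup.subtype (Subgroup.closure ({z1, z2} : Set ↥H))))
    ((Subgroup.subtype_injective H).comp (Subgroup.subtype_injective _)) K' θ hθ
  refine ⟨K, L, hL, ?_, hiso⟩
  intro y hy
  obtain ⟨w, rfl⟩ := hK hy
  exact (w : ↥H).2

end Cfsg.Agent.S0656
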