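import Cfsg.Statements.S0660
import Cfsg.Agent.Helper35.CoprimeGen

set_option autoImplicit false
open Cfsg

namespace Cfsg.Agent.S0660

open scoped Pointwise
open Cfsg.Agent.Helper35

/-- Under a coprime action on an abelian group, an invariant subgroup that is complemented admits an invariant complement. -/
theorem result {G : Type*} [Group G] [Finite G] (V A U : Subgroup G) (hVab : IsMulCommutative V) (hAV : A ≤ Subgroup.normalizer (V : Set G)) (hcop : (Nat.card A).Coprime (Nat.card V)) (hUV : U ≤ V) (hAU : A ≤ Subgroup.normalizer (U : Set G)) (W : Subgroup G) (hWV : W ≤ V) (hUW : U ⊓ W = ⊥) (hUWV : U ⊔ W = V) : ∃ W' : Subgroup G, W' ≤ V ∧ A ≤ Subgroup.normalizer (W' : Set G) ∧ U ⊓ W' = ⊥ ∧ U ⊔ W' = V := by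
  classical
  have hcomm : ∀ x ∈ V, ∀ y ∈ V, x * y = y * x := fun x hx y hy =>
    congrArg Subtype.val (hVab.is_comm.comm ⟨x, hx⟩ ⟨y, hy⟩)
  let _ : CommGroup V :=
    { (inferInstance : Group ↥V) with
      mul_comm := fun a b => Subtype.ext (hcomm a a.2 b b.2) }
  let _ : Fintype A := Fintype.ofFinite A
  -- the decomposition `V = U × W`
  have hWU : W ≤ Subgroup.normalizer (U : Set G) := by
    apply le_normalizer_of_forall_conj_mem
    intro w hw u hu
    have : w * u * w⁻¹ = u := by rw [hcomm w (hWV hw) u (hUV hu)]; group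
    rw [this]; exact hu
  have hdec : ∀ v : V, ∃ u ∈ U, ∃ w ∈ W, (v : G) = u * w := fun v =>
    exists_mul_of_mem_sup_of_le_normalizer hWU (by rw [hUWV]; exact v.2)
  choose pu hpu pw hpw hv using hdec
  have huniq : ∀ u ∈ U, ∀ w ∈ W, ∀ u' ∈ U, ∀ w' ∈ W, u * w = u' * w' → u = u' := by
    intro u hu w hw u' hu' w' hw' h
    have h1 : u'⁻¹ * u ∈ U ⊓ W := by
      refine ⟨U.mul_mem (U.inv_mem hu') hu, ?_⟩
      have h2 : u'⁻¹ * u = w' * w⁻¹ := by
        have := congrArg (fun z => u'⁻¹ * z * w⁻¹) h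
        simpa [mul_assoc] using this
      rw [h2]; exact W.mul_mem hw' (W.inv_mem hw)
    rw [hUW, Subgroup.mem_bot] at h1
    exact (inv_mul_eq_one.mp h1).symm
  let π : V →* V := MonoidHom.mk' (fun v => ⟨pu v, hUV (hpu v)⟩) (by
    intro v₁ v₂
    apply Subtype.ext
    change pu (v₁ * v₂) = pu v₁ * pu v₂
    apply huniq _ (hpu _) _ (hpw _) _ (U.mul_mem (hpu v₁) (hpu v₂)) _ (W.mul_mem (hpw v₁) (hpw v₂))
    rw [← hv, Subgroup.coe_mul]
    conv_lhs => rw [hv v₁, hv v₂]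
    have h3 := hcomm (pw v₁) (hWV (hpw v₁)) (pu v₂) (hUV (hpu v₂))
    calc pu v₁ * pw v₁ * (pu v₂ * pw v₂) = pu v₁ * (pw v₁ * pu v₂) * pw v₂ := by group
      _ = pu v₁ * (pu v₂ * pw v₁) * pw v₂ := by rw [h3]
      _ = _ := by group)
  have hπU : ∀ v : V, ((π v : V) : G) ∈ U := fun v => hpu v
  have hπid : ∀ v : V, (v : G) ∈ U → π v = v := by
    intro v hvU
    apply Subtype.ext
    change pu v = v
    exact huniq _ (hpu v) _ (hpw v) _ hvU 1 W.one_mem (by rw [← hv, mul_one])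
  -- conjugation by `A`
  let φ : A → (V →* V) := fun a =>
    MonoidHom.mk' (fun x => ⟨(a : G) * x * (a : G)⁻¹,
      (Subgroup.mem_normalizer_iff.mp (hAV a.2) x).mp x.2⟩)
      (fun x y => Subtype.ext (by simp [mul_assoc]))
  have hφ : ∀ (a : A) (x : V), ((φ a x : V) : G) = (a : G) * x * (a : G)⁻¹ := fun a x => rfl
  have hφU : ∀ (a : A) (x : V), (x : G) ∈ U → ((φ a x : V) : G) ∈ U := fun a x hx =>
    (Subgroup.mem_normalizer_iff.mp (hAU a.2) x).mp hx
  have hφmul : ∀ (a b : A) (x : V), φ (a * b) x = φ a (φ b x) := by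
    intro a b x; apply Subtype.ext; rw [hφ, hφ, hφ]; simp [mul_assoc]
  have hφinv : ∀ (a : A) (x : V), φ a⁻¹ (φ a x) = x := by
    intro a x; apply Subtype.ext; rw [hφ, hφ]; simp [mul_assoc]
  -- the averaged projection
  let θ : V →* V := ∏ a : A, (φ a⁻¹).comp (π.comp (φ a))
  have hθ : ∀ v : V, θ v = ∏ a : A, φ a⁻¹ (π (φ a v)) := fun v => by
    change (∏ a : A, (φ a⁻¹).comp (π.comp (φ a))) v = _
    rw [MonoidHom.finsetProd_apply]; rfl
  have hθU : ∀ v : V, ((θ v : V) : G) ∈ U := by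
    intro v
    rw [hθ]
    have : (∏ a : A, φ a⁻¹ (π (φ a v))) ∈ U.subgroupOf V :=
      Subgroup.prod_mem _ (fun a _ => hφU _ _ (hπU _))
    exact this
  have hθid : ∀ v : V, (v : G) ∈ U → θ v = v ^ Nat.card A := by
    intro v hvU
    rw [hθ]
    have h1 : ∀ a : A, φ a⁻¹ (π (φ a v)) = v := fun a => by rw [hπid _ (hφU a v hvU), hφinv]
    rw [Finset.prod_congr rfl (fun a _ => h1 a), Finset.prod_const, Finset.card_univ,
      Nat.card_eq_fintype_card]
  have hθφ : ∀ (b : A) (v : V), θ (φ b v) = φ b (θ v) := by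
    intro b v
    rw [hθ, hθ, map_prod]
    refine Fintype.prod_equiv (Equiv.mulRight b) _ _ ?_
    intro a
    change φ a⁻¹ (π (φ a (φ b v))) = φ b (φ (a * b)⁻¹ (π (φ (a * b) v)))
    rw [← hφmul a b v, ← hφmul b (a * b)⁻¹]
    have h1 : b * (a * b)⁻¹ = a⁻¹ := by group
    rw [h1]
  refine ⟨θ.ker.map V.subtype, Subgroup.map_subtype_le _, ?_, ?_, ?_⟩
  · apply le_normalizer_of_forall_conj_mem
    rintro b hb _ ⟨w, hw, rfl⟩
    refine ⟨φ ⟨b, hb⟩ w, ?_, rfl⟩
    rw [SetLike.mem_coe, MonoidHom.mem_ker, hθφ, MonoidHom.mem_ker.mp hw, map_one]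
  · rw [eq_bot_iff]
    rintro x ⟨hxU, y, hy, rfl⟩
    rw [Subgroup.mem_bot]
    have h1 : y ^ Nat.card A = 1 := by rw [← hθid y hxU]; exact hy
    have h2 : orderOf y ∣ Nat.card A := orderOf_dvd_of_pow_eq_one h1
    have h3 : orderOf y ∣ Nat.card V := orderOf_dvd_natCard y
    have h4 : orderOf y = 1 := Nat.eq_one_of_dvd_coprimes hcop h2 h3
    rw [orderOf_eq_one_iff] at h4
    rw [h4]; rfl
  · apply le_antisymm (sup_le hUV (Subgroup.map_subtype_le _))
    intro v hvV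
    have huU : (((θ ⟨v, hvV⟩) ^ (Nat.gcdA (Nat.card A) (Nat.card V)) : V) : G) ∈ U := by
      have : (θ ⟨v, hvV⟩) ^ (Nat.gcdA (Nat.card A) (Nat.card V)) ∈ U.subgroupOf V :=
        Subgroup.zpow_mem _ (hθU _) _
      exact this
    have hθu : θ ((θ ⟨v, hvV⟩) ^ (Nat.gcdA (Nat.card A) (Nat.card V))) = θ ⟨v, hvV⟩ := by
      rw [hθid _ huU, ← zpow_natCast, ← zpow_mul]
      have h1 : (Nat.gcdA (Nat.card A) (Nat.card V)) * (Nat.card A : ℤ) =
          1 - (Nat.card V : ℤ) * Nat.gcdB (Nat.card A) (Nat.card V) := by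
        have h2 := Nat.gcd_eq_gcd_ab (Nat.card A) (Nat.card V)
        rw [hcop] at h2
        push_cast at h2
        linarith
      rw [h1, zpow_sub, zpow_one, zpow_mul, zpow_natCast, pow_card_eq_one', one_zpow, inv_one, mul_one]
    have hker : (⟨v, hvV⟩ : V) * ((θ ⟨v, hvV⟩) ^ (Nat.gcdA (Nat.card A) (Nat.card V)))⁻¹ ∈ θ.ker := by
      rw [MonoidHom.mem_ker, map_mul, map_inv, hθu, mul_inv_cancel]
    have h5 : v = (((⟨v, hvV⟩ : V) * ((θ ⟨v, hvV⟩) ^ (Nat.gcdA (Nat.card A) (Nat.card V)))⁻¹ : V) : G) *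
        (((θ ⟨v, hvV⟩) ^ (Nat.gcdA (Nat.card A) (Nat.card V)) : V) : G) := by
      simp
    rw [h5]
    exact Subgroup.mul_mem _ (Subgroup.mem_sup_right ⟨_, hker, rfl⟩) (Subgroup.mem_sup_left huU)

end Cfsg.Agent.S0660
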