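import Cfsg.Statements.S0661
import Cfsg.Agent.Helper35.Coprime
import Cfsg.Agent.Helper24.Coprime
import Cfsg.Agent.Helper32.PPrime

set_option autoImplicit false
open Cfsg

namespace Cfsg.Agent.S0661

universe u
open Subgroup Cfsg.Agent.Helper35 Cfsg.Agent.Helper32
open scoped Pointwise commutatorElement

theorem inf_eq_bot_of_coprime_of_isPGroup {H : Type*} [Group H] [Finite H] {p : ℕ}
    [Fact p.Prime] {A R : Subgroup H} (hA : (Nat.card A).Coprime p) (hR : IsPGroup p R) :
    A ⊓ R = ⊥ := by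
  obtain ⟨n, hn⟩ := hR.exists_card_eq
  exact disjoint_iff.mp (Subgroup.disjoint_of_coprime_natCard
    (by rw [hn]; exact Nat.Coprime.pow_right n hA))

theorem main {G : Type u} [Group G] [Finite G] {p : ℕ} [Fact p.Prime]
    (hc : Subgroup.centralizer (Cfsg.pCore p (G ⧸ Cfsg.pPrimeCore p G) :
      Set (G ⧸ Cfsg.pPrimeCore p G)) ≤ Cfsg.pCore p (G ⧸ Cfsg.pPrimeCore p G))
    (P : Subgroup G) (hP : IsPGroup p P) :
    (Cfsg.pPrimeCore p ↥(Subgroup.normalizer (P : Set G))).map
      (Subgroup.normalizer (P : Set G)).subtype =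
      Cfsg.pPrimeCore p G ⊓ Subgroup.normalizer (P : Set G) := by
  have hp : p.Prime := Fact.out
  have hKn : (Cfsg.pPrimeCore p G).Normal := Cfsg.pPrimeCore_normal p G
  have hKc : (Nat.card (Cfsg.pPrimeCore p G)).Coprime p := card_pPrimeCore_coprime' p G
  set K : Subgroup G := Cfsg.pPrimeCore p G with hK
  set N : Subgroup G := Subgroup.normalizer (P : Set G) with hN
  have hX₀n : (Cfsg.pPrimeCore p ↥N).Normal := Cfsg.pPrimeCore_normal p ↥N
  have hX₀c : (Nat.card (Cfsg.pPrimeCore p ↥N)).Coprime p := card_pPrimeCore_coprime' p ↥N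
  set X : Subgroup G := (Cfsg.pPrimeCore p ↥N).map N.subtype with hX
  have hXN : X ≤ N := map_subtype_le _
  have hXc : (Nat.card X).Coprime p := by
    rw [hX, Subgroup.card_map_of_injective N.subtype_injective]; exact hX₀c
  have hNX : N ≤ normalizer (X : Set G) := by
    have h1 := Subgroup.le_normalizer_map (H := Cfsg.pPrimeCore p ↥N) N.subtype
    rw [normalizer_eq_top_iff.mpr hX₀n, ← MonoidHom.range_eq_map, Subgroup.range_subtype] at h1
    exact h1
  have hPN : P ≤ N := Subgroup.le_normalizer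
  apply le_antisymm
  · refine le_inf ?_ hXN
    -- the hard direction
    set π := QuotientGroup.mk' K with hπ
    have hRp : IsPGroup p (Cfsg.pCore p (G ⧸ K)) := pCore_isPGroup' p (G ⧸ K)
    have hRn : (Cfsg.pCore p (G ⧸ K)).Normal := Cfsg.pCore_normal p (G ⧸ K)
    have hnormR : ∀ S : Subgroup (G ⧸ K),
        S ≤ normalizer ((Cfsg.pCore p (G ⧸ K) : Subgroup (G ⧸ K)) : Set (G ⧸ K)) := by
      intro S
      rw [normalizer_eq_top_iff.mpr hRn]; exact le_top
    have hB : IsPGroup p (P.map π) := hP.map π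
    have hAcop : (Nat.card (X.map π)).Coprime p :=
      Nat.Coprime.coprime_dvd_left (Subgroup.card_map_dvd _ _) hXc
    have hXP : ⁅X, P⁆ = ⊥ := by
      rw [eq_bot_iff, ← inf_eq_bot_of_coprime_of_isPGroup hXc hP]
      refine le_inf (commutator_le_of_le_normalizer (hPN.trans hNX)) ?_
      rw [Subgroup.commutator_comm]
      exact commutator_le_of_le_normalizer hXN
    have hAB : ⁅X.map π, P.map π⁆ = ⊥ := by
      rw [← Subgroup.map_commutator, hXP, Subgroup.map_bot]
    have hAR : X.map π ⊓ Cfsg.pCore p (G ⧸ K) = ⊥ := inf_eq_bot_of_coprime_of_isPGroup hAcop hRp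
    have hC : Cfsg.pCore p (G ⧸ K) ⊓ centralizer ((P.map π : Subgroup (G ⧸ K)) : Set (G ⧸ K)) ≤
        centralizer ((X.map π : Subgroup (G ⧸ K)) : Set (G ⧸ K)) := by
      rintro c' ⟨hcR, hcB⟩
      obtain ⟨c, rfl⟩ : ∃ c, π c = c' := QuotientGroup.mk'_surjective K c'
      rw [Subgroup.mem_centralizer_iff]
      rintro _ ⟨x, hx, rfl⟩
      -- Step 1
      have h1 : MulAut.conj c • P ≤ K ⊔ P := by
        intro z hz
        rw [mem_conj_smul] at hz
        have hzK : z * (c⁻¹ * z * c)⁻¹ ∈ K := by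
          rw [← QuotientGroup.eq_one_iff]
          have hcomm : π (c⁻¹ * z * c) * π c = π c * π (c⁻¹ * z * c) :=
            (Subgroup.mem_centralizer_iff.mp hcB) (π (c⁻¹ * z * c))
              (Subgroup.mem_map_of_mem π hz)
          show π (z * (c⁻¹ * z * c)⁻¹) = 1
          have e : π z = π c * π (c⁻¹ * z * c) * (π c)⁻¹ := by
            rw [← map_inv, ← map_mul, ← map_mul]; congr 1; group
          rw [map_mul, map_inv, e, ← hcomm]; group
        have e2 : z = z * (c⁻¹ * z * c)⁻¹ * (c⁻¹ * z * c) := by group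
        rw [e2]
        exact Subgroup.mul_mem _ (mem_sup_left hzK) (mem_sup_right hz)
      have hPK : P ≤ normalizer (K : Set G) := by
        rw [normalizer_eq_top_iff.mpr hKn]; exact le_top
      have hsolvP : Group.IsSolvable P := by
        have := hP.isNilpotent
        infer_instance
      obtain ⟨a, ha⟩ := hP.exists_card_eq
      obtain ⟨k, hk, hconj⟩ := isz hPK (by rw [ha]; exact Nat.Coprime.pow_left a hKc.symm)
        (Or.inl hsolvP) h1 (card_conj_smul c P)
      have hn : k⁻¹ * c ∈ N := by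
        show k⁻¹ * c ∈ normalizer (P : Set G)
        rw [mem_normalizer_iff_conj_smul_eq, ← conj_smul_conj_smul, ← hconj,
          conj_smul_conj_smul, inv_mul_cancel, map_one, one_smul]
      have hk1 : π k = 1 := (QuotientGroup.eq_one_iff k).mpr hk
      have hπn : π (k⁻¹ * c) = π c := by
        rw [map_mul, map_inv, hk1, inv_one, one_mul]
      have hcomX : ⁅x, k⁻¹ * c⁆ ∈ X := by
        rw [commutatorElement_def]
        have h2 := (Subgroup.mem_normalizer_iff.mp (hNX hn) x⁻¹).mp (X.inv_mem hx)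
        have e : x * (k⁻¹ * c) * x⁻¹ * (k⁻¹ * c)⁻¹ = x * ((k⁻¹ * c) * x⁻¹ * (k⁻¹ * c)⁻¹) := by
          group
        rw [e]; exact X.mul_mem hx h2
      have h3 : ⁅π x, π c⁆ ∈ X.map π ⊓ Cfsg.pCore p (G ⧸ K) := by
        refine ⟨?_, ?_⟩
        · have := Subgroup.mem_map_of_mem π hcomX
          rw [map_commutatorElement, hπn] at this
          exact this
        · rw [commutatorElement_def]
          exact Subgroup.mul_mem _ (hRn.conj_mem _ hcR _) (Subgroup.inv_mem _ hcR)
      rw [hAR, Subgroup.mem_bot, commutatorElement_eq_one_iff_commute] at h3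
      exact h3.eq
    have key := Cfsg.Agent.Helper24.thompson_AxB (X.map π) (P.map π) hB hAB hAcop
      (Nat.card (Cfsg.pCore p (G ⧸ K))) (Cfsg.pCore p (G ⧸ K)) le_rfl hRp (hnormR _) (hnormR _) hC
    have hA_le : X.map π ≤ Cfsg.pCore p (G ⧸ K) :=
      (Subgroup.le_centralizer_iff.mp key).trans hc
    have hA_bot : X.map π = ⊥ := by
      rw [eq_bot_iff, ← hAR]; exact le_inf le_rfl hA_le
    intro x hx
    have h4 : π x ∈ X.map π := Subgroup.mem_map_of_mem π hx
    rw [hA_bot, Subgroup.mem_bot] at h4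
    exact (QuotientGroup.eq_one_iff x).mp h4
  · intro x hx
    have hKNn : (K.subgroupOf N).Normal := Subgroup.Normal.subgroupOf hKn N
    have hcard : (Nat.card (K.subgroupOf N)).Coprime p := by
      have h1 : Nat.card (K.subgroupOf N) = Nat.card ((K.subgroupOf N).map N.subtype) :=
        (Subgroup.card_map_of_injective N.subtype_injective).symm
      have h2 : (K.subgroupOf N).map N.subtype ≤ K := by
        rintro _ ⟨y, hy, rfl⟩; exact hy
      rw [h1]
      exact Nat.Coprime.coprime_dvd_left (Subgroup.card_dvd_of_le h2) hKc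
    have hle : K.subgroupOf N ≤ Cfsg.pPrimeCore p ↥N := le_pPrimeCore' _ hcard
    exact ⟨⟨x, hx.2⟩, hle hx.1, rfl⟩

/-- If, modulo the largest normal subgroup of order prime to p, the largest normal p-subgroup contains its centralizer, then for every p-subgroup P the p'-core of N_G(P) is just O_p'(G) ∩ N_G(P). -/
theorem result {G : Type*} [Group G] [Finite G] {p : ℕ} [Fact p.Prime] (hc : Subgroup.centralizer (Cfsg.pCore p (G ⧸ Cfsg.pPrimeCore p G) : Set (G ⧸ Cfsg.pPrimeCore p G)) ≤ Cfsg.pCore p (G ⧸ Cfsg.pPrimeCore p G)) (P : Subgroup G) (hP : IsPGroup p P) : (Cfsg.pPrimeCore p ↥(Subgroup.normalizer (P : Set G))).map (Subgroup.normalizer (P : Set G)).subtype = Cfsg.pPrimeCore p G ⊓ Subgroup.normalizer (P : Set G) := by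
  exact main hc P hP

end Cfsg.Agent.S0661
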