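import Cfsg.Statements.S0663

set_option autoImplicit false
open Cfsg

namespace Cfsg.Agent.S0663

open scoped commutatorElement

variable {L : Type*} [Group L]

theorem iter_zero (N B : Subgroup L) : iterCommutator N B 0 = N := rfl

theorem iter_succ (N B : Subgroup L) (i : ℕ) :
    iterCommutator N B (i + 1) = ⁅iterCommutator N B i, B⁆ := rfl

/-- if `B` normalizes `A` then `[A,B] ≤ A`. -/
theorem comm_le_left (A B : Subgroup L) (h : B ≤ Subgroup.normalizer (A : Set L)) : ⁅A, B⁆ ≤ A := by
  rw [Subgroup.commutator_le]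
  intro a ha b hb
  rw [commutatorElement_def]
  have h1 := Subgroup.le_normalizer_iff.mp h b hb a⁻¹ (A.inv_mem ha)
  have h2 : a * b * a⁻¹ * b⁻¹ = a * (b * a⁻¹ * b⁻¹) := by group
  rw [h2]
  exact A.mul_mem ha h1

/-- if `C` normalizes `A` and `B` then it normalizes `[A,B]`. -/
theorem comm_normalizer (A B C : Subgroup L) (hA : C ≤ Subgroup.normalizer (A : Set L))
    (hB : C ≤ Subgroup.normalizer (B : Set L)) :
    C ≤ Subgroup.normalizer ((⁅A, B⁆ : Subgroup L) : Set L) := by
  rw [Subgroup.le_normalizer_iff]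
  intro c hc x hx
  have key : ⁅A, B⁆ ≤ (⁅A, B⁆).comap (MulAut.conj c).toMonoidHom := by
    rw [Subgroup.commutator_le]
    intro a ha b hb
    rw [Subgroup.mem_comap]
    have h1 : (MulAut.conj c).toMonoidHom ⁅a, b⁆ = ⁅c * a * c⁻¹, c * b * c⁻¹⁆ := by
      simp only [MulEquiv.coe_toMonoidHom, MulAut.conj_apply, commutatorElement_def]
      group
    rw [h1]
    exact Subgroup.commutator_mem_commutator (Subgroup.le_normalizer_iff.mp hA c hc a ha)
      (Subgroup.le_normalizer_iff.mp hB c hc b hb)
  have h2 := key hx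
  rw [Subgroup.mem_comap] at h2
  simpa only [MulEquiv.coe_toMonoidHom, MulAut.conj_apply] using h2

/-- a `p`-group acting on a nontrivial `p`-group: `[A,B] ≠ A`. -/
theorem comm_ne [Finite L] {p : ℕ} [Fact p.Prime] (A B : Subgroup L) (hA : IsPGroup p A)
    (hB : IsPGroup p B) (h : B ≤ Subgroup.normalizer (A : Set L)) (hne : A ≠ ⊥) : ⁅A, B⁆ ≠ A := by
  intro heq
  have hT : IsPGroup p ↥(B ⊔ A) := IsPGroup.to_sup_of_normal_right' hB hA h
  have hnil : Group.IsNilpotent ↥(B ⊔ A) := hT.isNilpotent
  obtain ⟨c, hc⟩ := (Subgroup.isNilpotent_iff_lowerCentralSeries (B ⊔ A)).mp hnil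
  have key : ∀ i : ℕ, A ≤ (B ⊔ A).lowerCentralSeries i := by
    intro i
    induction i with
    | zero => exact le_sup_right
    | succ i ih =>
      rw [Subgroup.lowerCentralSeries_succ]
      calc A = ⁅A, B⁆ := heq.symm
        _ ≤ ⁅(B ⊔ A).lowerCentralSeries i, B ⊔ A⁆ := Subgroup.commutator_mono ih le_sup_left
  exact hne (le_bot_iff.mp (hc ▸ key c))

theorem card_mul_le [Finite L] {p : ℕ} [Fact p.Prime] (X Y : Subgroup L) (hY : IsPGroup p Y)
    (hXY : X ≤ Y) (hne : X ≠ Y) : Nat.card X * p ≤ Nat.card Y := by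
  have hp1 : 1 < p := (Fact.out : p.Prime).one_lt
  obtain ⟨k, hk⟩ := (IsPGroup.iff_card).mp hY
  obtain ⟨j, hj⟩ := (IsPGroup.iff_card).mp (hY.to_le hXY)
  have hlt : Nat.card X < Nat.card Y := by
    by_contra hle
    push Not at hle
    exact hne (Subgroup.eq_of_le_of_card_ge hXY hle)
  rw [hj, hk] at hlt
  rw [hj, hk]
  have h1 := (Nat.pow_lt_pow_iff_right hp1).mp hlt
  rw [← pow_succ]
  exact Nat.pow_le_pow_right hp1.le h1

theorem chain_props (N B : Subgroup L) (h : B ≤ Subgroup.normalizer (N : Set L)) :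
    ∀ i : ℕ, iterCommutator N B i ≤ N ∧
      B ≤ Subgroup.normalizer ((iterCommutator N B i : Subgroup L) : Set L) ∧
      iterCommutator N B (i + 1) ≤ iterCommutator N B i := by
  intro i
  induction i with
  | zero => exact ⟨le_rfl, h, comm_le_left N B h⟩
  | succ i ih =>
    obtain ⟨h1, h2, h3⟩ := ih
    have h4 : B ≤ Subgroup.normalizer ((iterCommutator N B (i + 1) : Subgroup L) : Set L) :=
      comm_normalizer _ B B h2 Subgroup.le_normalizer
    exact ⟨h3.trans h1, h4, comm_le_left _ B h4⟩

theorem chain_anti (N B : Subgroup L) (h : B ≤ Subgroup.normalizer (N : Set L)) :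
    ∀ i j : ℕ, i ≤ j → iterCommutator N B j ≤ iterCommutator N B i := by
  intro i j hij
  induction j with
  | zero =>
    have : i = 0 := by omega
    subst this
    exact le_rfl
  | succ j ih =>
    by_cases hj : i = j + 1
    · subst hj; exact le_rfl
    · exact ((chain_props N B h j).2.2).trans (ih (by omega))

theorem chain_card_le [Finite L] {p : ℕ} [Fact p.Prime] (N B : Subgroup L) (hN : IsPGroup p N)
    (hB : IsPGroup p B) (h : B ≤ Subgroup.normalizer (N : Set L)) (n : ℕ)
    (hn : Nat.card N = p ^ n) :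
    ∀ i ≤ n, Nat.card (iterCommutator N B i) * p ^ i ≤ p ^ n := by
  have hp1 : 1 < p := (Fact.out : p.Prime).one_lt
  intro i
  induction i with
  | zero =>
    intro _
    rw [iter_zero, hn, pow_zero, mul_one]
  | succ i ih =>
    intro hi
    obtain ⟨h1, h2, h3⟩ := chain_props N B h i
    by_cases hb : iterCommutator N B i = ⊥
    · have h4 : iterCommutator N B (i + 1) = ⊥ := le_bot_iff.mp (hb ▸ h3)
      rw [h4, Subgroup.card_bot, one_mul]
      exact Nat.pow_le_pow_right hp1.le hi
    · have h4 : iterCommutator N B (i + 1) ≠ iterCommutator N B i :=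
        comm_ne _ B (hN.to_le h1) hB h2 hb
      have h5 := card_mul_le _ _ (hN.to_le h1) h3 h4
      calc Nat.card (iterCommutator N B (i + 1)) * p ^ (i + 1)
          = Nat.card (iterCommutator N B (i + 1)) * p * p ^ i := by rw [pow_succ]; ring
        _ ≤ Nat.card (iterCommutator N B i) * p ^ i := Nat.mul_le_mul_right _ h5
        _ ≤ p ^ n := ih (by omega)

/-- `[A ⊔ B, G] ≤ W` if `[A,G] ≤ W`, `[B,G] ≤ W` and `W` is normalized by `N ⊇ A, B`. -/
theorem comm_sup_le (A B W N G : Subgroup L) (hA : A ≤ N) (hB : B ≤ N)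
    (hW : N ≤ Subgroup.normalizer (W : Set L)) (h1 : ⁅A, G⁆ ≤ W) (h2 : ⁅B, G⁆ ≤ W) :
    ⁅A ⊔ B, G⁆ ≤ W := by
  have hW' := Subgroup.le_normalizer_iff.mp hW
  let M : Subgroup L :=
    { carrier := {x | x ∈ N ∧ ∀ g ∈ G, ⁅x, g⁆ ∈ W}
      mul_mem' := by
        rintro x y ⟨hx, hx'⟩ ⟨hy, hy'⟩
        refine ⟨N.mul_mem hx hy, fun g hg => ?_⟩
        have h3 : ⁅x * y, g⁆ = x * ⁅y, g⁆ * x⁻¹ * ⁅x, g⁆ := by
          simp only [commutatorElement_def]; group
        rw [h3]
        exact W.mul_mem (hW' x hx _ (hy' g hg)) (hx' g hg)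
      one_mem' := by
        refine ⟨N.one_mem, fun g _ => ?_⟩
        have h3 : ⁅(1 : L), g⁆ = 1 := by simp only [commutatorElement_def]; group
        rw [h3]
        exact W.one_mem
      inv_mem' := by
        rintro x ⟨hx, hx'⟩
        refine ⟨N.inv_mem hx, fun g hg => ?_⟩
        have h3 : ⁅x⁻¹, g⁆ = x⁻¹ * (⁅x, g⁆)⁻¹ * (x⁻¹)⁻¹ := by
          simp only [commutatorElement_def]; group
        rw [h3]
        exact hW' x⁻¹ (N.inv_mem hx) _ (W.inv_mem (hx' g hg)) }
  have hM : ∀ x, x ∈ M ↔ x ∈ N ∧ ∀ g ∈ G, ⁅x, g⁆ ∈ W := fun x => Iff.rfl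
  have hAM : A ≤ M := fun a ha => (hM a).mpr ⟨hA ha, fun g hg =>
    h1 (Subgroup.commutator_mem_commutator ha hg)⟩
  have hBM : B ≤ M := fun b hb => (hM b).mpr ⟨hB hb, fun g hg =>
    h2 (Subgroup.commutator_mem_commutator hb hg)⟩
  rw [Subgroup.commutator_le]
  intro x hx g hg
  exact ((hM x).mp (sup_le hAM hBM hx)).2 g hg

theorem uniserial_structure [Finite L] {p : ℕ} [Fact p.Prime] (N G : Subgroup L)
    (hN : IsPGroup p N) (hG : IsPGroup p G) (hGN : G ≤ Subgroup.normalizer (N : Set L)) (n : ℕ)
    (hn : Nat.card N = p ^ n)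
    (hE : ∀ i ≤ n, Nat.card (iterCommutator N G i) = p ^ (n - i)) :
    (∀ i, N ≤ Subgroup.normalizer ((iterCommutator N G i : Subgroup L) : Set L)) ∧
    (∀ H : Subgroup L, H ≤ N → G ≤ Subgroup.normalizer (H : Set L) →
      ∃ i ≤ n, H = iterCommutator N G i) := by
  have hpp : p.Prime := Fact.out
  have hp1 : 1 < p := hpp.one_lt
  have hp0 : 0 < p := hpp.pos
  have hT : IsPGroup p ↥(G ⊔ N) := IsPGroup.to_sup_of_normal_right' hG hN hGN
  have hTN : G ⊔ N ≤ Subgroup.normalizer (N : Set L) := sup_le hGN Subgroup.le_normalizer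
  have propsG := chain_props N G hGN
  have propsT := chain_props N (G ⊔ N) hTN
  have hcd : ∀ i, iterCommutator N G i ≤ iterCommutator N (G ⊔ N) i := by
    intro i
    induction i with
    | zero => exact le_rfl
    | succ i ih =>
      rw [iter_succ, iter_succ]
      exact Subgroup.commutator_mono ih le_sup_left
  have hnbot : iterCommutator N G n = ⊥ := by
    have h1 := hE n le_rfl
    rw [Nat.sub_self, pow_zero] at h1
    exact Subgroup.eq_bot_of_card_eq _ h1
  have hgebot : ∀ i, n ≤ i → iterCommutator N G i = ⊥ := fun i hi =>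
    le_bot_iff.mp (hnbot ▸ chain_anti N G hGN n i hi)
  have heq : ∀ i ≤ n, iterCommutator N G i = iterCommutator N (G ⊔ N) i := by
    intro i hi
    apply Subgroup.eq_of_le_of_card_ge (hcd i)
    have h1 := chain_card_le N (G ⊔ N) hN hT hTN n hn i hi
    rw [hE i hi]
    have h2 : p ^ n = p ^ (n - i) * p ^ i := by rw [← pow_add]; congr 1; omega
    rw [h2] at h1
    exact Nat.le_of_mul_le_mul_right h1 (pow_pos hp0 _)
  have hnorm : ∀ i, G ⊔ N ≤ Subgroup.normalizer ((iterCommutator N G i : Subgroup L) : Set L) := by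
    intro i
    by_cases hi : i ≤ n
    · rw [heq i hi]
      exact (propsT i).2.1
    · rw [hgebot i (by omega), Subgroup.le_normalizer_iff]
      intro h _ k hk
      rw [Subgroup.mem_bot] at hk ⊢
      rw [hk]; group
  have hNnorm : ∀ i, N ≤ Subgroup.normalizer ((iterCommutator N G i : Subgroup L) : Set L) :=
    fun i => le_sup_right.trans (hnorm i)
  refine ⟨hNnorm, ?_⟩
  -- the key claim
  have hP : ∀ m i : ℕ, i + m + 1 = n → ∀ H : Subgroup L, H ≤ iterCommutator N G i →
      G ≤ Subgroup.normalizer (H : Set L) → ¬ H ≤ iterCommutator N G (i + 1) →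
      H = iterCommutator N G i := by
    intro m
    induction m with
    | zero =>
      intro i hi H hH hHG hnot
      have hbot : iterCommutator N G (i + 1) = ⊥ := hgebot _ (by omega)
      have hsup : H ⊔ iterCommutator N G (i + 1) = iterCommutator N G i := by
        apply Subgroup.eq_of_le_of_card_ge (sup_le hH (propsG i).2.2)
        have h1 : Nat.card (iterCommutator N G i) = Nat.card (iterCommutator N G (i + 1)) * p := by
          rw [hE i (by omega), hE (i + 1) (by omega), ← pow_succ]; congr 1; omega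
        rw [h1]
        apply card_mul_le _ _ (hN.to_le (sup_le (hH.trans (propsG i).1) (propsG (i + 1)).1))
          le_sup_right
        intro h2
        apply hnot
        rw [h2]
        exact le_sup_left
      rw [hbot, sup_bot_eq] at hsup
      exact hsup
    | succ m ih =>
      intro i hi H hH hHG hnot
      have hsup : H ⊔ iterCommutator N G (i + 1) = iterCommutator N G i := by
        apply Subgroup.eq_of_le_of_card_ge (sup_le hH (propsG i).2.2)
        have h1 : Nat.card (iterCommutator N G i) = Nat.card (iterCommutator N G (i + 1)) * p := by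
          rw [hE i (by omega), hE (i + 1) (by omega), ← pow_succ]; congr 1; omega
        rw [h1]
        apply card_mul_le _ _ (hN.to_le (sup_le (hH.trans (propsG i).1) (propsG (i + 1)).1))
          le_sup_right
        intro h2
        apply hnot
        rw [h2]
        exact le_sup_left
      have hH'le : ⁅H, G⁆ ≤ iterCommutator N G (i + 1) := by
        rw [iter_succ]
        exact Subgroup.commutator_mono hH le_rfl
      have hH'norm : G ≤ Subgroup.normalizer ((⁅H, G⁆ : Subgroup L) : Set L) :=
        comm_normalizer H G G hHG Subgroup.le_normalizer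
      have hH'not : ¬ ⁅H, G⁆ ≤ iterCommutator N G (i + 1 + 1) := by
        intro hle
        have h1 : ⁅H ⊔ iterCommutator N G (i + 1), G⁆ ≤ iterCommutator N G (i + 1 + 1) :=
          comm_sup_le H (iterCommutator N G (i + 1)) (iterCommutator N G (i + 1 + 1)) N G
            (hH.trans (propsG i).1) (propsG (i + 1)).1 (hNnorm (i + 1 + 1)) hle
            (by rw [iter_succ N G (i + 1)])
        rw [hsup, ← iter_succ] at h1
        have h2 := Subgroup.card_le_of_le h1
        rw [hE (i + 1) (by omega), hE (i + 1 + 1) (by omega)] at h2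
        have h3 := (Nat.pow_le_pow_iff_right hp1).mp h2
        omega
      have h4 : ⁅H, G⁆ = iterCommutator N G (i + 1) :=
        ih (i + 1) (by omega) _ hH'le hH'norm hH'not
      have h5 : iterCommutator N G (i + 1) ≤ H := h4 ▸ comm_le_left H G hHG
      rw [sup_eq_left.mpr h5] at hsup
      exact hsup
  have hS : ∀ m : ℕ, m ≤ n → ∀ H : Subgroup L, H ≤ iterCommutator N G (n - m) →
      G ≤ Subgroup.normalizer (H : Set L) → ∃ i ≤ n, H = iterCommutator N G i := by
    intro m
    induction m with
    | zero =>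
      intro _ H hH _
      rw [Nat.sub_zero, hnbot] at hH
      exact ⟨n, le_rfl, by rw [hnbot]; exact le_bot_iff.mp hH⟩
    | succ m ih =>
      intro hm H hH hHG
      by_cases hle : H ≤ iterCommutator N G (n - m)
      · exact ih (by omega) H hle hHG
      · have h1 : n - (m + 1) + 1 = n - m := by omega
        refine ⟨n - (m + 1), by omega, hP m (n - (m + 1)) (by omega) H hH hHG ?_⟩
        rw [h1]
        exact hle
  intro H hH hHG
  exact hS n le_rfl H (by rw [Nat.sub_self]; exact hH) hHG

/-- A p-group acts uniserially on a p-group N of order p^n exactly when the iterated commutator chain from N has length n; in that case the chain terms are all the invariant subgroups of N and they are normal in N. -/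
theorem result {L : Type*} [Group L] [Finite L] {p : ℕ} [Fact p.Prime] (N G : Subgroup L) (hN : IsPGroup p N) (hG : IsPGroup p G) (hGN : G ≤ Subgroup.normalizer (N : Set L)) (n : ℕ) (hn : Nat.card N = p ^ n) : ((∀ H : Subgroup L, H ≤ N → G ≤ Subgroup.normalizer (H : Set L) → H ≠ ⊥ → (⁅H, G⁆).relIndex H = p) ↔ Cfsg.iterCommutator N G (n - 1) ≠ ⊥ ∨ n = 0) ∧ ((∀ H : Subgroup L, H ≤ N → G ≤ Subgroup.normalizer (H : Set L) → H ≠ ⊥ → (⁅H, G⁆).relIndex H = p) → ∀ H : Subgroup L, H ≤ N → G ≤ Subgroup.normalizer (H : Set L) → (∃ i ≤ n, H = Cfsg.iterCommutator N G i) ∧ N ≤ Subgroup.normalizer (H : Set L)) := by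
  have hpp : p.Prime := Fact.out
  have hp1 : 1 < p := hpp.one_lt
  have hp0 : 0 < p := hpp.pos
  have propsG := chain_props N G hGN
  have hcardrel : ∀ i, Nat.card (iterCommutator N G (i + 1)) *
      (iterCommutator N G (i + 1)).relIndex (iterCommutator N G i) =
      Nat.card (iterCommutator N G i) := by
    intro i
    have h1 := Subgroup.relIndex_mul_relIndex ⊥ (iterCommutator N G (i + 1)) (iterCommutator N G i)
      bot_le (propsG i).2.2
    rw [Subgroup.relIndex_bot_left, Subgroup.relIndex_bot_left] at h1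
    exact h1
  -- (U) → (E)
  have hUE : (∀ H : Subgroup L, H ≤ N → G ≤ Subgroup.normalizer (H : Set L) → H ≠ ⊥ →
      (⁅H, G⁆).relIndex H = p) → ∀ i ≤ n, Nat.card (iterCommutator N G i) = p ^ (n - i) := by
    intro hU i
    induction i with
    | zero => intro _; rw [iter_zero, hn, Nat.sub_zero]
    | succ i ih =>
      intro hi
      have h1 := ih (by omega)
      have hne : iterCommutator N G i ≠ ⊥ := by
        intro hb
        rw [hb, Subgroup.card_bot] at h1
        have h2 : 1 < p ^ (n - i) := Nat.one_lt_pow (by omega) hp1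
        omega
      have h2 : (iterCommutator N G (i + 1)).relIndex (iterCommutator N G i) = p :=
        hU _ (propsG i).1 (propsG i).2.1 hne
      have h3 := hcardrel i
      rw [h2, h1] at h3
      have h4 : p ^ (n - i) = p ^ (n - (i + 1)) * p := by rw [← pow_succ]; congr 1; omega
      rw [h4] at h3
      exact Nat.eq_of_mul_eq_mul_right hp0 h3
  -- chain condition → (E)
  have hCE : (iterCommutator N G (n - 1) ≠ ⊥ ∨ n = 0) →
      ∀ i ≤ n, Nat.card (iterCommutator N G i) = p ^ (n - i) := by
    intro hc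
    rcases hc with hc | hc
    · by_cases hn0 : n = 0
      · intro i hi
        have : i = 0 := by omega
        subst this
        rw [iter_zero, hn, Nat.sub_zero]
      have hne : ∀ i ≤ n - 1, iterCommutator N G i ≠ ⊥ := by
        intro i hi hb
        apply hc
        exact le_bot_iff.mp (hb ▸ chain_anti N G hGN i (n - 1) hi)
      have hstrict : ∀ i ≤ n - 1, Nat.card (iterCommutator N G (i + 1)) * p ≤
          Nat.card (iterCommutator N G i) := by
        intro i hi
        exact card_mul_le _ _ (hN.to_le (propsG i).1) (propsG i).2.2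
          (comm_ne _ G (hN.to_le (propsG i).1) hG (propsG i).2.1 (hne i hi))
      have hupper := chain_card_le N G hN hG hGN n hn
      have hlower : ∀ d i : ℕ, i + d = n - 1 → p ^ (d + 1) ≤ Nat.card (iterCommutator N G i) := by
        intro d
        induction d with
        | zero =>
          intro i hi
          have hi' : i = n - 1 := by omega
          subst hi'
          obtain ⟨k, hk⟩ := (IsPGroup.iff_card).mp (hN.to_le (propsG (n - 1)).1)
          rw [hk]
          apply Nat.pow_le_pow_right hp0
          by_contra hk0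
          have hk0' : k = 0 := by omega
          rw [hk0', pow_zero] at hk
          exact hc (Subgroup.eq_bot_of_card_eq _ hk)
        | succ d ih =>
          intro i hi
          have h1 := ih (i + 1) (by omega)
          have h2 := hstrict i (by omega)
          calc p ^ (d + 1 + 1) = p ^ (d + 1) * p := pow_succ _ _
            _ ≤ Nat.card (iterCommutator N G (i + 1)) * p := Nat.mul_le_mul_right _ h1
            _ ≤ _ := h2
      intro i hi
      have h1 := hupper i hi
      have h2 : p ^ n = p ^ (n - i) * p ^ i := by rw [← pow_add]; congr 1; omega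
      rw [h2] at h1
      have h3 := Nat.le_of_mul_le_mul_right h1 (pow_pos hp0 _)
      by_cases hin : i = n
      · subst hin
        rw [Nat.sub_self, pow_zero] at h3 ⊢
        have h4 : 0 < Nat.card (iterCommutator N G i) := Nat.card_pos
        omega
      · have h4 := hlower (n - 1 - i) i (by omega)
        have h5 : n - 1 - i + 1 = n - i := by omega
        rw [h5] at h4
        exact le_antisymm h3 h4
    · intro i hi
      have : i = 0 := by omega
      subst this
      rw [iter_zero, hn, Nat.sub_zero]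
  -- (E) → everything
  have hEU : (∀ i ≤ n, Nat.card (iterCommutator N G i) = p ^ (n - i)) →
      (∀ H : Subgroup L, H ≤ N → G ≤ Subgroup.normalizer (H : Set L) → H ≠ ⊥ →
        (⁅H, G⁆).relIndex H = p) ∧
      (∀ H : Subgroup L, H ≤ N → G ≤ Subgroup.normalizer (H : Set L) →
        (∃ i ≤ n, H = Cfsg.iterCommutator N G i) ∧ N ≤ Subgroup.normalizer (H : Set L)) := by
    intro hE
    obtain ⟨hnorm, hclass⟩ := uniserial_structure N G hN hG hGN n hn hE
    constructor
    · intro H hH hHG hne
      obtain ⟨i, hi, rfl⟩ := hclass H hH hHG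
      have hin : i ≠ n := by
        intro h
        subst h
        apply hne
        have h1 := hE i le_rfl
        rw [Nat.sub_self, pow_zero] at h1
        exact Subgroup.eq_bot_of_card_eq _ h1
      have h3 := hcardrel i
      rw [hE i hi, hE (i + 1) (by omega)] at h3
      have h4 : p ^ (n - i) = p ^ (n - (i + 1)) * p := by rw [← pow_succ]; congr 1; omega
      rw [h4] at h3
      rw [← iter_succ]
      exact Nat.eq_of_mul_eq_mul_left (pow_pos hp0 _) h3
    · intro H hH hHG
      obtain ⟨i, hi, rfl⟩ := hclass H hH hHG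
      exact ⟨⟨i, hi, rfl⟩, hnorm i⟩
  refine ⟨⟨fun hU => ?_, fun hc => (hEU (hCE hc)).1⟩, fun hU => (hEU (hUE hU)).2⟩
  by_cases hn0 : n = 0
  · exact Or.inr hn0
  · left
    intro hb
    have h1 := hUE hU (n - 1) (by omega)
    rw [hb, Subgroup.card_bot] at h1
    have h2 : 1 < p ^ (n - (n - 1)) := Nat.one_lt_pow (by omega) hp1
    omega

end Cfsg.Agent.S0663
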