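import Cfsg.Statements.S0666
import Cfsg.Agent.Helper11.FrobThm
import Cfsg.Agent.Helper11.FrobAction

set_option autoImplicit false
open Cfsg

namespace Cfsg.Agent.S0666

open Cfsg.Agent.Helper11

/-- A Frobenius group acting on a nontrivial abelian group of order prime to that of its kernel, with the kernel acting without nontrivial fixed points, has a complement with a nontrivial fixed point. -/
theorem result {G : Type*} [Group G] [Finite G] (V F : Subgroup G) (hVab : IsMulCommutative V) (hV1 : V ≠ ⊥) (hFV : F ≤ Subgroup.normalizer (V : Set G)) (H : Subgroup ↥F) (hH : Cfsg.IsFrobeniusComplement H) (hcop : (Nat.card V).Coprime (Nat.card (Cfsg.frobeniusKernel H))) (hCK : V ⊓ Subgroup.centralizer (Subtype.val '' Cfsg.frobeniusKernel H : Set G) = ⊥) : V ⊓ Subgroup.centralizer ((H.map F.subtype : Subgroup G) : Set G) ≠ ⊥ := by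
  intro hbot
  obtain ⟨N, hNset, hNn, hcompl⟩ := frobenius_kernel_subgroup H hH
  obtain ⟨-, -, hF⟩ := (Cfsg.Agent.Helper71.isFrobeniusComplement_iff H).mp hH
  let ρ : ↥F →* MulAut ↥V := V.normalizerMonoidHom.comp (Subgroup.inclusion hFV)
  have hρ : ∀ (f : F) (v : V), ((ρ f v : V) : G) = (f : G) * (v : G) * (f : G)⁻¹ :=
    fun f v => rfl
  have hNH : ∀ x : F, x ∈ N → x ∈ H → x = 1 := fun x hxN hxH =>
    (Subgroup.disjoint_def.mp hcompl.disjoint) hxN hxH
  have hall : ∀ a : V, a = 1 := by
    apply frobenius_action_trivial (fun a b => (isMulCommutative_iff.mp hVab) a b) ρ N H hNH hF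
    · intro g hg
      have hgK : g ∉ Cfsg.frobeniusKernel H := by
        rw [← hNset]
        exact hg
      unfold Cfsg.frobeniusKernel at hgK
      rw [Set.mem_ofPred_eq] at hgK
      push Not at hgK
      obtain ⟨-, y, hy⟩ := hgK
      rw [Cfsg.Agent.Helper71.mem_conj_smul] at hy
      obtain ⟨⟨x, h₀⟩, hxh, -⟩ := (Subgroup.isComplement_iff_existsUnique.mp hcompl) y
      simp only at hxh
      refine ⟨x, x.2, (x : F)⁻¹ * g * (x : F), ?_, by group⟩
      have e : (x : F)⁻¹ * g * (x : F) = (h₀ : F) * (y⁻¹ * g * y) * (h₀ : F)⁻¹ := by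
        rw [← hxh]
        group
      rw [e]
      exact H.mul_mem (H.mul_mem h₀.2 hy) (H.inv_mem h₀.2)
    · have : Nat.card N = Nat.card (Cfsg.frobeniusKernel H) := by
        rw [← hNset]
        rfl
      rw [this]
      exact hcop
    · intro b hb
      have hmem : (b : G) ∈ V ⊓ Subgroup.centralizer
          (Subtype.val '' Cfsg.frobeniusKernel H : Set G) := by
        refine Subgroup.mem_inf.mpr ⟨b.2, ?_⟩
        rw [Subgroup.mem_centralizer_iff]
        rintro _ ⟨n, hn, rfl⟩
        have hnN : n ∈ N := by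
          have : n ∈ (N : Set F) := by rw [hNset]; exact hn
          exact this
        have h1 := congrArg Subtype.val (hb n hnN)
        rw [hρ] at h1
        calc (n : G) * (b : G) = (n : G) * (b : G) * (n : G)⁻¹ * (n : G) := by group
          _ = (b : G) * (n : G) := by rw [h1]
      rw [hCK, Subgroup.mem_bot] at hmem
      exact Subtype.ext hmem
    · intro b hb
      have hmem : (b : G) ∈ V ⊓ Subgroup.centralizer
          ((H.map F.subtype : Subgroup G) : Set G) := by
        refine Subgroup.mem_inf.mpr ⟨b.2, ?_⟩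
        rw [Subgroup.mem_centralizer_iff]
        rintro _ ⟨h, hh, rfl⟩
        have h1 := congrArg Subtype.val (hb h hh)
        rw [hρ] at h1
        calc (F.subtype h : G) * (b : G) = (h : G) * (b : G) * (h : G)⁻¹ * (h : G) := by
              rw [Subgroup.coe_subtype]; group
          _ = (b : G) * (F.subtype h : G) := by rw [h1]; rfl
      rw [hbot, Subgroup.mem_bot] at hmem
      exact Subtype.ext hmem
  apply hV1
  rw [Subgroup.eq_bot_iff_forall]
  intro x hx
  exact congrArg Subtype.val (hall ⟨x, hx⟩)

end Cfsg.Agent.S0666
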