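import Cfsg.Statements.S0668


set_option autoImplicit false
open Cfsg

namespace Cfsg.Agent.S0668

/-- The equivariant linear maps between the permutation modules of two finite `G`-sets form a space whose dimension is the number of `G`-orbits on the product of the two sets. -/
theorem result {G : Type*} [Group G] {K : Type*} [Field K] {Ω₁ Ω₂ : Type*} [Fintype Ω₁] [Fintype Ω₂] [MulAction G Ω₁] [MulAction G Ω₂] : Module.finrank K ((Cfsg.permRep K G Ω₁).linHom (Cfsg.permRep K G Ω₂)).invariants = Nat.card (MulAction.orbitRel.Quotient G (Ω₁ × Ω₂)) := by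
  classical
  have : Fintype (MulAction.orbitRel.Quotient G (Ω₁ × Ω₂)) := Fintype.ofFinite _
  -- the map from orbit functions to linear maps
  let Ψ : (MulAction.orbitRel.Quotient G (Ω₁ × Ω₂) → K) →ₗ[K] ((Ω₁ → K) →ₗ[K] (Ω₂ → K)) :=
    { toFun := fun c =>
        { toFun := fun m y => ∑ x, c (Quotient.mk'' (x, y)) * m x
          map_add' := by
            intro m₁ m₂
            funext y
            simp [mul_add, Finset.sum_add_distrib]
          map_smul' := by
            intro r m
            funext y
            simp only [Pi.smul_apply, smul_eq_mul, RingHom.id_apply, Finset.mul_sum]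
            refine Finset.sum_congr rfl (fun x _ => ?_)
            ring }
      map_add' := by
        intro c₁ c₂
        apply LinearMap.ext
        intro m
        funext y
        simp [add_mul, Finset.sum_add_distrib]
      map_smul' := by
        intro r c
        apply LinearMap.ext
        intro m
        funext y
        simp only [Pi.smul_apply, smul_eq_mul, RingHom.id_apply, LinearMap.coe_mk, AddHom.coe_mk,
          LinearMap.smul_apply, Finset.mul_sum]
        refine Finset.sum_congr rfl (fun x _ => ?_)
        ring }
  have hΨapp : ∀ c m y, Ψ c m y = ∑ x, c (Quotient.mk'' (x, y)) * m x := fun _ _ _ => rfl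
  have hΨsingle : ∀ c x y, Ψ c (Pi.single x 1) y = c (Quotient.mk'' (x, y)) := by
    intro c x y
    rw [hΨapp, Finset.sum_eq_single x]
    · simp
    · intro x' _ hx'
      rw [Pi.single_eq_of_ne hx', mul_zero]
    · intro hx
      exact absurd (Finset.mem_univ x) hx
  have hinj : Function.Injective Ψ := by
    rw [← LinearMap.ker_eq_bot, LinearMap.ker_eq_bot']
    intro c hc
    funext q
    induction q using Quotient.inductionOn' with
    | h xy =>
      obtain ⟨x, y⟩ := xy
      have := hΨsingle c x y
      rw [hc] at this
      simpa using this.symm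
  have hq : ∀ (g : G) (x : Ω₁) (y : Ω₂),
      (Quotient.mk'' (g • x, g • y) : MulAction.orbitRel.Quotient G (Ω₁ × Ω₂)) =
        Quotient.mk'' (x, y) := by
    intro g x y
    apply Quotient.sound'
    change (g • x, g • y) ∈ MulAction.orbit G (x, y)
    exact ⟨g, rfl⟩
  have hrange : LinearMap.range Ψ = ((Cfsg.permRep K G Ω₁).linHom (Cfsg.permRep K G Ω₂)).invariants := by
    apply le_antisymm
    · rintro _ ⟨c, rfl⟩
      rw [Representation.mem_invariants]
      intro g
      apply LinearMap.ext
      intro m
      funext y
      change Ψ c (Cfsg.permRep K G Ω₁ g⁻¹ m) (g⁻¹ • y) = Ψ c m y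
      rw [hΨapp, hΨapp]
      refine Fintype.sum_equiv (MulAction.toPerm g) _ _ (fun x => ?_)
      change c (Quotient.mk'' (x, g⁻¹ • y)) * m (g⁻¹⁻¹ • x) = c (Quotient.mk'' (g • x, y)) * m (g • x)
      rw [inv_inv]
      congr 2
      have := hq g x (g⁻¹ • y)
      rw [smul_inv_smul] at this
      exact this.symm
    · intro T hT
      rw [Representation.mem_invariants] at hT
      have hTinv : ∀ (g : G) (x : Ω₁) (y : Ω₂), T (Pi.single (g • x) 1) (g • y) = T (Pi.single x 1) y := by
        intro g x y
        have h1 := hT g
        have h2 : T (Pi.single (g • x) 1) (g • y) =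
            ((Cfsg.permRep K G Ω₁).linHom (Cfsg.permRep K G Ω₂) g T) (Pi.single (g • x) 1) (g • y) := by
          rw [h1]
        rw [h2]
        change T (Cfsg.permRep K G Ω₁ g⁻¹ (Pi.single (g • x) 1)) (g⁻¹ • g • y) = _
        rw [inv_smul_smul]
        have hs : Cfsg.permRep K G Ω₁ g⁻¹ (Pi.single (g • x) 1) = Pi.single x 1 := by
          funext z
          change (Pi.single (g • x) (1 : K) : Ω₁ → K) (g⁻¹⁻¹ • z) = (Pi.single x (1 : K) : Ω₁ → K) z
          rw [inv_inv]
          by_cases hz : z = x
          · subst hz
            simp
          · rw [Pi.single_eq_of_ne hz, Pi.single_eq_of_ne]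
            intro h'
            exact hz (MulAction.injective g h')
        rw [hs]
      let c : MulAction.orbitRel.Quotient G (Ω₁ × Ω₂) → K :=
        Quotient.lift (fun xy : Ω₁ × Ω₂ => T (Pi.single xy.1 1) xy.2) (by
          rintro ⟨x, y⟩ ⟨x', y'⟩ hrel
          obtain ⟨g, hg⟩ : (x, y) ∈ MulAction.orbit G (x', y') := hrel
          have hx : g • x' = x := congrArg Prod.fst hg
          have hy : g • y' = y := congrArg Prod.snd hg
          change T (Pi.single x 1) y = T (Pi.single x' 1) y'
          rw [← hx, ← hy]
          exact hTinv g x' y')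
      refine ⟨c, ?_⟩
      apply LinearMap.pi_ext
      intro x r
      have hr : (Pi.single x r : Ω₁ → K) = r • Pi.single x 1 := by
        funext z
        by_cases hz : z = x
        · subst hz
          simp
        · simp [Pi.single_eq_of_ne hz]
      rw [hr, map_smul, map_smul]
      congr 1
      funext y
      rw [hΨsingle]
      rfl
  rw [← hrange, LinearMap.finrank_range_of_inj hinj, Module.finrank_fintype_fun_eq_card,
    Nat.card_eq_fintype_card]

end Cfsg.Agent.S0668
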