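import Cfsg.Statements.S0669

set_option autoImplicit false
open Cfsg

namespace Cfsg.Agent.S0669

/-- The rank of a transitive action equals the number of orbits of a point stabiliser. -/
theorem result {G : Type*} [Group G] {Ω : Type*} [Finite Ω] [MulAction G Ω] [MulAction.IsPretransitive G Ω] (a : Ω) : Nat.card (MulAction.orbitRel.Quotient G (Ω × Ω)) = Nat.card (MulAction.orbitRel.Quotient (MulAction.stabilizer G a) Ω) := by
  symm
  have hwd : ∀ b b' : Ω, MulAction.orbitRel (MulAction.stabilizer G a) Ω b b' →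
      MulAction.orbitRel G (Ω × Ω) (a, b) (a, b') := by
    intro b b' h
    rw [MulAction.orbitRel_apply] at h ⊢
    obtain ⟨g, hg⟩ := h
    refine ⟨(g : G), ?_⟩
    have hga : (g : G) • a = a := g.2
    have hgb : (g : G) • b' = b := hg
    change ((g : G) • a, (g : G) • b') = (a, b)
    rw [hga, hgb]
  let f : MulAction.orbitRel.Quotient (MulAction.stabilizer G a) Ω →
      MulAction.orbitRel.Quotient G (Ω × Ω) :=
    Quotient.map' (fun b => (a, b)) hwd
  apply Nat.card_congr (Equiv.ofBijective f ⟨?_, ?_⟩)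
  · intro q q' h
    induction q using Quotient.inductionOn' with | _ b => ?_
    induction q' using Quotient.inductionOn' with | _ b' => ?_
    have h' : (Quotient.mk'' (a, b) : MulAction.orbitRel.Quotient G (Ω × Ω)) =
        Quotient.mk'' (a, b') := h
    rw [Quotient.eq''] at h' ⊢
    rw [MulAction.orbitRel_apply] at h' ⊢
    obtain ⟨g, hg⟩ := h'
    have hg' : (g • a, g • b') = (a, b) := hg
    rw [Prod.mk.injEq] at hg'
    exact ⟨⟨g, hg'.1⟩, hg'.2⟩
  · intro q
    induction q using Quotient.inductionOn' with | _ xy => ?_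
    obtain ⟨x, y⟩ := xy
    obtain ⟨g, hg⟩ := MulAction.exists_smul_eq G x a
    refine ⟨Quotient.mk'' (g • y), ?_⟩
    change (Quotient.mk'' (a, g • y) : MulAction.orbitRel.Quotient G (Ω × Ω)) = Quotient.mk'' (x, y)
    rw [Quotient.eq'', MulAction.orbitRel_apply]
    refine ⟨g, ?_⟩
    change (g • x, g • y) = (a, g • y)
    rw [hg]

end Cfsg.Agent.S0669
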