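import Cfsg.Statements.S0672
import Cfsg.Agent.Helper58.ThreeTrans

set_option autoImplicit false
open Cfsg

namespace Cfsg.Agent.S0672

/-- Let a finite group act faithfully and doubly transitively with point stabilisers of even order, and let `K` have characteristic `p` dividing the degree. If the heart of the permutation module admits no non-zero equivariant map to the permutation module on unordered pairs (phrased: every intertwining map from the sum-zero functions vanishing on the constants is zero), the action is triply transitive. -/
theorem result {G : Type*} [Group G] [Finite G] {K : Type*} [Field K] {p : ℕ} [Fact p.Prime] [CharP K p] {Ω : Type*} [Fintype Ω] [DecidableEq Ω] [MulAction G Ω] [FaithfulSMul G Ω] (h2 : MulAction.IsMultiplyPretransitive G Ω 2) (hp : p ∣ Fintype.card Ω) (heven : ∀ a : Ω, Even (Nat.card (MulAction.stabilizer G a))) (h : ∀ f : Representation.IntertwiningMap (Cfsg.permSumZero K G Ω).toRepresentation (Cfsg.permRep K G (Set.powersetCard Ω 2)), (∀ v : (Cfsg.permSumZero K G Ω).toSubmodule, (v : Ω → K) ∈ (Cfsg.permConstants K G Ω).toSubmodule → f v = 0) → f = 0) : MulAction.IsMultiplyPretransitive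 G Ω 3 := by
  classical
  apply Cfsg.Agent.Helper58.three_transitive_core (K := K) h2 heven
  intro ψ hequiv hone v hv
  let F : Representation.IntertwiningMap (Cfsg.permSumZero K G Ω).toRepresentation
      (Cfsg.permRep K G (Set.powersetCard Ω 2)) :=
    LinearMap.intertwiningMap_of_isIntertwiningMap (Cfsg.permSumZero K G Ω).toRepresentation
      (Cfsg.permRep K G (Set.powersetCard Ω 2))
      (ψ ∘ₗ (Cfsg.permSumZero K G Ω).toSubmodule.subtype) (by
        intro g w
        exact hequiv g (w : Ω → K))
  have hF : F = 0 := h F (by
    intro w hw
    have hw' : (w : Ω → K) ∈ Submodule.span K {(fun _ => 1 : Ω → K)} := hw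
    rw [Submodule.mem_span_singleton] at hw'
    obtain ⟨c, hc⟩ := hw'
    show ψ (w : Ω → K) = 0
    rw [← hc, map_smul, hone, smul_zero])
  have h1 := DFunLike.congr_fun hF (⟨v, hv⟩ : (Cfsg.permSumZero K G Ω).toSubmodule)
  exact h1

end Cfsg.Agent.S0672
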