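import Cfsg.Statements.S0677
import Cfsg.Agent.Helper58.Burnside
import Cfsg.Agent.Helper58.IndexP

set_option autoImplicit false
open Cfsg

namespace Cfsg.Agent.S0677

/-- In a transitive permutation group of prime degree `p` whose Sylow `p`-normaliser has even order, the point stabilisers are the only subgroups of index `p`. -/
theorem result {α : Type*} [Fintype α] [DecidableEq α] {p : ℕ} [Fact p.Prime] (hα : Fintype.card α = p) (G : Subgroup (Equiv.Perm α)) [MulAction.IsPretransitive G α] (P : Sylow p G) (heven : Even (Nat.card (Subgroup.normalizer ((P : Subgroup G) : Set G)))) (H : Subgroup G) (hH : H.index = p) : ∃ a : α, H = MulAction.stabilizer G a := by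
  classical
  have hp : p.Prime := Fact.out
  have hne : Nonempty α := by
    rw [← Fintype.card_pos_iff, hα]
    exact hp.pos
  have hstab : ∀ a : α, (MulAction.stabilizer G a).index = p := by
    intro a
    rw [MulAction.index_stabilizer_of_transitive G a, Nat.card_eq_fintype_card, hα]
  have heq : ∀ K₁ K₂ : Subgroup G, K₁ ≤ K₂ → K₁.index = p → K₂.index = p → K₁ = K₂ := by
    intro K₁ K₂ hle h1 h2
    have h3 := Subgroup.relIndex_mul_index hle
    rw [h1, h2] at h3
    have h4 : K₁.relIndex K₂ = 1 := by
      have : K₁.relIndex K₂ * p = 1 * p := by rw [h3, one_mul]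
      exact Nat.eq_of_mul_eq_mul_right hp.pos this
    exact le_antisymm hle (Subgroup.relIndex_eq_one.mp h4)
  have hpdvd : ∀ K : Subgroup G, K.index = p → ¬ p ∣ Nat.card K := by
    intro K hK hdvd
    apply Cfsg.Agent.Helper58.sq_not_dvd_card_perm hα G
    rw [← K.card_mul_index, hK, pow_two]
    exact Nat.mul_dvd_mul_right hdvd p
  have hpH := hpdvd H hH
  by_cases hp2 : p = 2
  · -- degree 2
    obtain ⟨a⟩ := hne
    refine ⟨a, ?_⟩
    symm
    apply heq _ _ _ (hstab a) hH
    have h1 : Nat.card G ∣ Nat.card (Equiv.Perm α) := Subgroup.card_subgroup_dvd_card G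
    rw [Nat.card_eq_fintype_card (α := Equiv.Perm α), Fintype.card_perm, hα, hp2] at h1
    have h2 := (MulAction.stabilizer G a).card_mul_index
    rw [hstab a, hp2] at h2
    have h3 : Nat.card G ≤ 2 := Nat.le_of_dvd (by norm_num) (by simpa using h1)
    have h4 : Nat.card (MulAction.stabilizer G a) = 1 := by
      have : 0 < Nat.card (MulAction.stabilizer G a) := Nat.card_pos
      omega
    rw [Subgroup.eq_bot_of_card_eq _ h4]
    exact bot_le
  have h2ne : (2 : ZMod p) ≠ 0 := by
    intro h
    have h' : ((2 : ℕ) : ZMod p) = 0 := by exact_mod_cast h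
    rw [ZMod.natCast_eq_zero_iff] at h'
    have := Nat.le_of_dvd (by norm_num) h'
    have := hp.two_le
    omega
  rcases Cfsg.Agent.Helper58.affine_or_two_transitive hα G with h2 | ⟨e₁, haff⟩
  · -- the 2-transitive case
    obtain ⟨t, ht, τ, hτ, e, het, heτ⟩ :=
      Cfsg.Agent.Helper58.exists_inverting_involution hα hp2 G P heven
    have htp : t ^ p = 1 := by
      apply Equiv.ext
      intro y
      obtain ⟨j, rfl⟩ := e.surjective y
      rw [Cfsg.Agent.Helper58.cycle_pow_apply e t het, ZMod.natCast_self, add_zero,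
        Equiv.Perm.one_apply]
    have ht1 : t ≠ 1 := by
      intro h
      have h1 := het 0
      rw [h, Equiv.Perm.one_apply, zero_add] at h1
      exact zero_ne_one (e.injective h1)
    have hτt : τ * t = t⁻¹ * τ := by
      apply Equiv.ext
      intro y
      obtain ⟨j, rfl⟩ := e.surjective y
      rw [Equiv.Perm.mul_apply, Equiv.Perm.mul_apply, het, heτ, heτ,
        Cfsg.Agent.Helper58.cycle_inv_apply e t het]
      congr 1
      ring
    have : Fintype (G ⧸ H) := Fintype.ofFinite _
    have hcardβ : Fintype.card (G ⧸ H) = p := by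
      rw [← Nat.card_eq_fintype_card, ← Subgroup.index_eq_card, hH]
    set s : Equiv.Perm (G ⧸ H) := MulAction.toPermHom G (G ⧸ H) ⟨t, ht⟩ with hs
    set u : Equiv.Perm (G ⧸ H) := MulAction.toPermHom G (G ⧸ H) ⟨τ, hτ⟩ with hu
    have hsp : s ^ p = 1 := by
      rw [hs, ← map_pow]
      have : (⟨t, ht⟩ : G) ^ p = 1 := Subtype.ext (by rw [Subgroup.coe_pow]; exact htp)
      rw [this, map_one]
    have hs1 : s ≠ 1 := by
      intro h
      have h1 : (⟨t, ht⟩ : G) • ((1 : G) : G ⧸ H) = ((1 : G) : G ⧸ H) := by
        have h2 : s ((1 : G) : G ⧸ H) = ((1 : G) : G ⧸ H) := by rw [h, Equiv.Perm.one_apply]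
        exact h2
      rw [MulAction.Quotient.smul_mk, QuotientGroup.eq, smul_eq_mul, mul_one, mul_one] at h1
      have h3 : (⟨t, ht⟩ : G) ∈ H := by
        have := H.inv_mem h1
        rwa [inv_inv] at this
      apply hpH
      have ho : orderOf (⟨⟨t, ht⟩, h3⟩ : H) = p := by
        apply orderOf_eq_prime
        · apply Subtype.ext
          apply Subtype.ext
          rw [Subgroup.coe_pow, Subgroup.coe_pow]
          exact htp
        · intro h4
          apply ht1
          have h5 := congrArg (fun z : H => ((z : G) : Equiv.Perm α)) h4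
          exact h5
      rw [← ho]
      exact orderOf_dvd_natCard _
    have hso : orderOf s = p := orderOf_eq_prime hsp hs1
    have hus : u * s = s⁻¹ * u := by
      rw [hs, hu, ← map_mul, ← map_inv, ← map_mul]
      congr 1
      apply Subtype.ext
      exact hτt
    obtain ⟨e', hes, heu⟩ := Cfsg.Agent.Helper58.dihedral_coords h2ne hcardβ s u hso hus
    rcases Cfsg.Agent.Helper58.index_p_core (G := G) (α := α) (β := G ⧸ H) h2ne e e' ⟨t, ht⟩ ⟨τ, hτ⟩
      (fun j => het j) (fun j => heτ j) (fun j => hes j) (fun j => heu j) h2 with hfix | htrans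
    · obtain ⟨x, hx⟩ := QuotientGroup.mk_surjective (e' 0)
      refine ⟨x⁻¹ • e 0, ?_⟩
      symm
      apply heq _ _ _ (hstab _) hH
      intro g hg
      rw [MulAction.mem_stabilizer_iff] at hg
      have h1 : (x * g * x⁻¹) • e 0 = e 0 := by
        rw [mul_smul, mul_smul, hg, smul_inv_smul]
      have h3 := hfix _ h1
      rw [← hx, MulAction.Quotient.smul_mk, QuotientGroup.eq, smul_eq_mul] at h3
      have h4 : (x * g * x⁻¹ * x)⁻¹ * x = g⁻¹ := by group
      rw [h4] at h3
      have := H.inv_mem h3
      rwa [inv_inv] at this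
    · exfalso
      apply hpdvd (MulAction.stabilizer G (e 0)) (hstab _)
      have horb : MulAction.orbit (MulAction.stabilizer G (e 0)) (e' 0) = Set.univ := by
        apply Set.eq_univ_of_forall
        intro y
        obtain ⟨g, hg1, hg2⟩ := htrans (e'.symm y)
        rw [Equiv.apply_symm_apply] at hg2
        exact ⟨⟨g, hg1⟩, hg2⟩
      have h1 := MulAction.index_stabilizer (MulAction.stabilizer G (e 0)) (e' 0)
      rw [horb, Set.ncard_univ, ← Subgroup.index_eq_card, hH] at h1
      have h2 := Subgroup.index_dvd_card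
        (MulAction.stabilizer (MulAction.stabilizer G (e 0)) (e' 0))
      rw [h1] at h2
      exact h2
  · -- the affine case
    have haff' : ∀ g : G, ∃ a b : ZMod p, ∀ x : ZMod p, (g : Equiv.Perm α) (e₁ x) = e₁ (a * x + b) := by
      intro g
      obtain ⟨a, b, hab⟩ := haff g g.2
      refine ⟨a, b, fun x => ?_⟩
      rw [← hab x, Equiv.apply_symm_apply]
    -- no non-trivial translation in H
    have hL : ∀ k : G, k ∈ H → ∀ d : ZMod p,
        (∀ y : ZMod p, (k : Equiv.Perm α) (e₁ y) = e₁ (y + d)) → d = 0 := by
      intro k hk d hkd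
      by_contra hd
      apply hpH
      have hpow : ∀ (n : ℕ) (y : ZMod p), ((k : Equiv.Perm α) ^ n) (e₁ y) = e₁ (y + n * d) := by
        intro n
        induction n with
        | zero => intro y; simp
        | succ n ih =>
          intro y
          rw [pow_succ', Equiv.Perm.mul_apply, ih, hkd]
          congr 1
          push_cast
          ring
      have ho : orderOf (⟨k, hk⟩ : H) = p := by
        apply orderOf_eq_prime
        · apply Subtype.ext
          apply Subtype.ext
          rw [Subgroup.coe_pow, Subgroup.coe_pow]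
          apply Equiv.ext
          intro y
          obtain ⟨j, rfl⟩ := e₁.surjective y
          show ((k : Equiv.Perm α) ^ p) (e₁ j) = e₁ j
          rw [hpow, ZMod.natCast_self, zero_mul, add_zero]
        · intro h4
          have h5 : (k : Equiv.Perm α) = 1 := congrArg (fun z : H => ((z : G) : Equiv.Perm α)) h4
          have h6 := hkd 0
          rw [h5, Equiv.Perm.one_apply, zero_add] at h6
          exact hd (e₁.injective h6).symm
      rw [← ho]
      exact orderOf_dvd_natCard _
    by_cases hHbot : H = ⊥
    · obtain ⟨a⟩ := hne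
      refine ⟨a, ?_⟩
      apply heq _ _ _ hH (hstab a)
      rw [hHbot]
      exact bot_le
    · obtain ⟨h₀, hh₀⟩ := Subgroup.ne_bot_iff_exists_ne_one.mp hHbot
      obtain ⟨a₀, b₀, hab₀⟩ := haff' (h₀ : G)
      have ha₀ : a₀ ≠ 1 := by
        intro ha
        have hb := hL (h₀ : G) h₀.2 b₀ (fun y => by rw [hab₀, ha, one_mul])
        apply hh₀
        apply Subtype.ext
        apply Subtype.ext
        apply Equiv.ext
        intro y
        obtain ⟨j, rfl⟩ := e₁.surjective y
        show ((h₀ : G) : Equiv.Perm α) (e₁ j) = e₁ j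
        rw [hab₀, ha, hb, one_mul, add_zero]
      have h1a : (1 : ZMod p) - a₀ ≠ 0 := by
        intro h
        apply ha₀
        linear_combination -h
      set x₀ : ZMod p := b₀ / (1 - a₀) with hx₀
      refine ⟨e₁ x₀, ?_⟩
      apply heq _ _ _ hH (hstab _)
      intro h hh
      rw [MulAction.mem_stabilizer_iff]
      obtain ⟨a, b, hab⟩ := haff' h
      show (h : Equiv.Perm α) (e₁ x₀) = e₁ x₀
      have ha0 : a ≠ 0 := by
        intro ha
        have h0 := hab 0
        have h1 := hab 1
        simp only [ha, zero_mul] at h0 h1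
        exact zero_ne_one (e₁.injective ((h : Equiv.Perm α).injective (h0.trans h1.symm)))
      have ha₀0 : a₀ ≠ 0 := by
        intro ha
        have h0 := hab₀ 0
        have h1 := hab₀ 1
        simp only [ha, zero_mul] at h0 h1
        exact zero_ne_one (e₁.injective (((h₀ : G) : Equiv.Perm α).injective (h0.trans h1.symm)))
      -- the element `(h h₀) (h₀ h)⁻¹` of `H` is a translation
      have hd := hL (h * (h₀ : G) * ((h₀ : G) * h)⁻¹) (H.mul_mem (H.mul_mem hh h₀.2)
        (H.inv_mem (H.mul_mem h₀.2 hh))) ((a * b₀ + b) - (a₀ * b + b₀)) (by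
        intro y
        have hy : e₁ y = (((h₀ : G) * h : G) : Equiv.Perm α) (e₁ ((y - a₀ * b - b₀) / (a₀ * a))) := by
          show e₁ y = ((h₀ : G) : Equiv.Perm α) ((h : Equiv.Perm α) (e₁ ((y - a₀ * b - b₀) / (a₀ * a))))
          rw [hab, hab₀]
          congr 1
          field_simp
          ring
        have hk : ((h * (h₀ : G) * ((h₀ : G) * h)⁻¹ : G) : Equiv.Perm α) =
            (h : Equiv.Perm α) * ((h₀ : G) : Equiv.Perm α) *
              ((((h₀ : G) * h : G) : Equiv.Perm α))⁻¹ := rfl
        rw [hk, Equiv.Perm.mul_apply, hy, Equiv.Perm.inv_def, Equiv.symm_apply_apply,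
          Equiv.Perm.mul_apply, hab₀, hab]
        congr 1
        field_simp
        ring)
      rw [hab, hx₀]
      congr 1
      field_simp
      linear_combination hd

end Cfsg.Agent.S0677
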