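import Cfsg.Statements.S0681
import Cfsg.Agent.Helper12.NearField

set_option autoImplicit false
open Cfsg

namespace Cfsg.Agent.S0681

open Cfsg.Agent.Helper12 MulAction

/-- The affine maps `x ↦ x * a + b`, `a ≠ 0`, of a near-field form a sharply doubly transitive permutation group. -/
theorem result {F : Type*} [Cfsg.NearField F] : ∃ H : Subgroup (Equiv.Perm F), (∀ σ : Equiv.Perm F, σ ∈ H ↔ ∃ a b : F, a ≠ 0 ∧ ∀ x : F, σ x = x * a + b) ∧ MulAction.IsMultiplyPretransitive H F 2 ∧ ∀ x : Fin 2 ↪ F, MulAction.stabilizer H x = ⊥ := by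
  refine ⟨affSubgroup F, mem_affSubgroup, ?_, ?_⟩
  · rw [is_two_pretransitive_iff]
    intro x1 x2 y1 y2 hx hy
    have hu : x2 - x1 ≠ 0 := sub_ne_zero.mpr (Ne.symm hx)
    have hv : y2 - y1 ≠ 0 := sub_ne_zero.mpr (Ne.symm hy)
    obtain ⟨u', hu1, hu2⟩ := nf_exists_inv hu
    have ha : u' * (y2 - y1) ≠ 0 := nf_mul_ne_zero (nf_inv_ne_zero hu1) hv
    obtain ⟨a', ha1, ha2⟩ := nf_exists_inv ha
    set a := u' * (y2 - y1) with ha_def
    set b := -(x1 * a) + y1 with hb_def
    refine ⟨⟨affPerm a a' b ha1 ha2, a, b, ha, fun x => rfl⟩, ?_, ?_⟩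
    · change x1 * a + b = y1
      rw [hb_def, add_neg_cancel_left]
    · change x2 * a + b = y2
      rw [hb_def, ← add_assoc, ← sub_eq_add_neg, ← nf_sub_mul, ha_def, ← mul_assoc, hu1, one_mul,
        sub_add_cancel]
  · intro x
    rw [eq_bot_iff]
    rintro ⟨σ, a, b, ha, hσ⟩ hmem
    rw [mem_stabilizer_iff] at hmem
    rw [Subgroup.mem_bot]
    apply Subtype.ext
    have h0 : σ (x 0) = x 0 := by
      have := congrArg (fun f : Fin 2 ↪ F => f 0) hmem
      exact this
    have h1 : σ (x 1) = x 1 := by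
      have := congrArg (fun f : Fin 2 ↪ F => f 1) hmem
      exact this
    rw [hσ] at h0 h1
    have hne : x 1 - x 0 ≠ 0 := by
      rw [sub_ne_zero]
      exact fun h => absurd (x.injective h) (by decide)
    obtain ⟨u', hu1, hu2⟩ := nf_exists_inv hne
    have hua : (x 1 - x 0) * a = x 1 - x 0 := by
      rw [nf_sub_mul]
      calc x 1 * a - x 0 * a = (x 1 * a + b) - (x 0 * a + b) := (add_sub_add_right_eq_sub _ _ _).symm
        _ = x 1 - x 0 := by rw [h0, h1]
    have ha1 : a = 1 := by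
      calc a = u' * ((x 1 - x 0) * a) := by rw [← mul_assoc, hu2, one_mul]
        _ = 1 := by rw [hua, hu2]
    have hb0 : b = 0 := by
      rw [ha1, mul_one] at h0
      exact left_eq_add.mp h0.symm
    ext y
    change σ y = y
    rw [hσ, ha1, hb0, mul_one, add_zero]

end Cfsg.Agent.S0681
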