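import Cfsg.Statements.S0682
import Cfsg.Agent.Helper12.NearField

set_option autoImplicit false
open Cfsg

namespace Cfsg.Agent.S0682

open Cfsg.Agent.Helper12

/-- A finite near-field has prime-power order; its additive group is commutative of prime exponent. -/
theorem result {F : Type*} [Cfsg.NearField F] [Finite F] : ∃ p j : ℕ, p.Prime ∧ 1 ≤ j ∧ Nat.card F = p ^ j ∧ (∀ x y : F, x + y = y + x) ∧ ∀ x : F, p • x = 0 := by
  have hnt : Nontrivial F := ⟨⟨0, 1, nf_zero_ne_one⟩⟩
  have hcard : Nat.card F ≠ 1 := by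
    intro h
    rw [Nat.card_eq_one_iff_unique] at h
    exact not_subsingleton F h.1
  obtain ⟨p, hp, hpd⟩ := Nat.exists_prime_and_dvd hcard
  have : Fact p.Prime := ⟨hp⟩
  obtain ⟨x, hx⟩ := exists_prime_addOrderOf_dvd_card' p hpd
  have hx0 : x ≠ 0 := by
    rintro rfl
    rw [addOrderOf_zero] at hx
    exact hp.one_lt.ne hx
  have hpx : p • x = 0 := by rw [← hx]; exact addOrderOf_nsmul_eq_zero x
  obtain ⟨x', hx1, hx2⟩ := nf_exists_inv hx0
  have hexp : ∀ y : F, p • y = 0 := by
    intro y
    have : y = x * (x' * y) := by rw [← mul_assoc, hx1, one_mul]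
    rw [this, ← nf_nsmul_mul, hpx, nf_zero_mul]
  have hPG : IsPGroup p (Multiplicative F) := by
    intro g
    refine ⟨1, ?_⟩
    rw [pow_one]
    exact congrArg Multiplicative.ofAdd (hexp (Multiplicative.toAdd g))
  obtain ⟨j, hj⟩ := (IsPGroup.iff_card (p := p)).mp hPG
  have hj' : Nat.card F = p ^ j := hj
  have hj1 : 1 ≤ j := by
    by_contra hcon
    have : j = 0 := by omega
    rw [this, pow_zero] at hj'
    exact hcard hj'
  have hcnt : Nontrivial (Subgroup.center (Multiplicative F)) := hPG.center_nontrivial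
  obtain ⟨⟨z, hz⟩, hz1⟩ := exists_ne (1 : Subgroup.center (Multiplicative F))
  have hz0 : Multiplicative.toAdd z ≠ 0 := by
    intro h
    apply hz1
    apply Subtype.ext
    exact h
  have hzc : ∀ y : F, Multiplicative.toAdd z + y = y + Multiplicative.toAdd z := by
    intro y
    have := Subgroup.mem_center_iff.mp hz (Multiplicative.ofAdd y)
    exact (congrArg Multiplicative.toAdd this).symm
  set z0 : F := Multiplicative.toAdd z with hz0_def
  obtain ⟨z', hzz1, hzz2⟩ := nf_exists_inv hz0
  have hcentral : ∀ w y : F, w ≠ 0 → w + y = y + w := by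
    intro w y hw
    have hc : z' * w ≠ 0 := nf_mul_ne_zero (nf_inv_ne_zero hzz1) hw
    obtain ⟨c', hc1, hc2⟩ := nf_exists_inv hc
    have hw' : w = z0 * (z' * w) := by rw [← mul_assoc, hzz1, one_mul]
    have hy' : y = (y * c') * (z' * w) := by rw [mul_assoc, hc2, mul_one]
    calc w + y = z0 * (z' * w) + (y * c') * (z' * w) := by rw [← hw', ← hy']
      _ = (z0 + y * c') * (z' * w) := (nf_add_mul _ _ _).symm
      _ = (y * c' + z0) * (z' * w) := by rw [hzc]
      _ = (y * c') * (z' * w) + z0 * (z' * w) := nf_add_mul _ _ _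
      _ = y + w := by rw [← hw', ← hy']
  refine ⟨p, j, hp, hj1, hj', ?_, hexp⟩
  intro a b
  by_cases ha : a = 0
  · rw [ha, zero_add, add_zero]
  · exact hcentral a b ha

end Cfsg.Agent.S0682
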