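import Cfsg.Statements.S0683
import Cfsg.Agent.Helper12.MinNormal
import Cfsg.Agent.Helper12.Sharp2

set_option autoImplicit false
open Cfsg

namespace Cfsg.Agent.S0683

open Cfsg.Agent.Helper12 MulAction

/-- A finite sharply doubly transitive permutation group is the affine group of a near-field: the permuted set carries a near-field structure for which the group consists exactly of the maps `x ↦ x * a + b` with `a ≠ 0`. -/
theorem result {α : Type*} [Fintype α] [DecidableEq α] (H : Subgroup (Equiv.Perm α)) [MulAction.IsMultiplyPretransitive H α 2] (hsharp : ∀ x : Fin 2 ↪ α, MulAction.stabilizer H x = ⊥) (h2 : 2 ≤ Fintype.card α) : ∃ _ : Cfsg.NearField α, ∀ σ : Equiv.Perm α, σ ∈ H ↔ ∃ a b : α, a ≠ 0 ∧ ∀ x : α, σ x = x * a + b := by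
  have htr : IsPretransitive H α := isPretransitive_of_is_two_pretransitive
  have hsharp' : ∀ (g : H) (a b : α), a ≠ b → g • a = a → g • b = b → g = 1 := by
    intro g a b hab ha hb
    have hmem : g ∈ stabilizer H (Function.Embedding.embFinTwo hab) := by
      rw [mem_stabilizer_iff]
      ext i
      change g • (Function.Embedding.embFinTwo hab i) = Function.Embedding.embFinTwo hab i
      fin_cases i
      · exact ha
      · exact hb
    rw [hsharp] at hmem
    exact Subgroup.mem_bot.mp hmem
  have h2t : ∀ {a b c d : α}, a ≠ b → c ≠ d → ∃ g : H, g • a = c ∧ g • b = d :=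
    is_two_pretransitive_iff.mp inferInstance
  have hcard : Nat.card H = Fintype.card α * (Fintype.card α - 1) := by
    obtain ⟨x0⟩ : Nonempty (Fin 2 ↪ α) :=
      Function.Embedding.nonempty_of_card_le (by rw [Fintype.card_fin]; exact h2)
    have h2t' : IsPretransitive H (Fin 2 ↪ α) := inferInstance
    have hbij := bijective_smul_of_regular (K := H) (α := Fin 2 ↪ α) h2t' hsharp x0
    rw [Nat.card_congr (Equiv.ofBijective _ hbij), Nat.card_eq_fintype_card,
      Fintype.card_embedding_eq, Fintype.card_fin]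
    simp [Nat.descFactorial]
    ring
  obtain ⟨p, j, N, hp, hj, hn, hnormal, hcomm, hexp, htrN, hsemi, hmem, hQ, hNp⟩ :=
    sharp2_main htr hsharp' h2 hcard
  -- two distinct points
  obtain ⟨o, e, hoe⟩ : ∃ o e : α, o ≠ e := by
    have : Nontrivial α := Fintype.one_lt_card_iff_nontrivial.mp (by omega)
    exact exists_pair_ne α
  -- translations
  choose τ hτN hτ using (fun a => htrN o a)
  have hτu : ∀ g ∈ N, ∀ a, g • o = a → g = τ a := by
    intro g hg a hga
    have h1 : (τ a)⁻¹ * g = 1 :=
      hsemi _ (N.mul_mem (N.inv_mem (hτN a)) hg) o (by rw [mul_smul, hga, inv_smul_eq_iff, hτ])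
    rw [inv_mul_eq_one] at h1
    exact h1.symm
  -- multiplications
  have hμex : ∀ a : α, ∃ g : H, g • o = o ∧ (a ≠ o → g • e = a) := by
    intro a
    by_cases ha : a = o
    · exact ⟨1, one_smul _ _, fun h => absurd ha h⟩
    · obtain ⟨g, hg1, hg2⟩ := h2t hoe (Ne.symm ha)
      exact ⟨g, hg1, fun _ => hg2⟩
  choose μ hμo hμe using hμex
  have hμu : ∀ (g : H) (a : α), a ≠ o → g • o = o → g • e = a → g = μ a := by
    intro g a ha hgo hge
    have h1 : (μ a)⁻¹ * g = 1 := by
      apply hsharp' _ o e hoe
      · rw [mul_smul, hgo, inv_smul_eq_iff, hμo]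
      · rw [mul_smul, hge, inv_smul_eq_iff, hμe a ha]
    rw [inv_mul_eq_one] at h1
    exact h1.symm
  have hτo : τ o = 1 := (hτu 1 N.one_mem o (one_smul _ _)).symm
  have hτcomp : ∀ b c : α, τ (τ c • b) = τ c * τ b := by
    intro b c
    exact (hτu (τ c * τ b) (N.mul_mem (hτN c) (hτN b)) _ (by rw [mul_smul, hτ])).symm
  have hadd_assoc : ∀ a b c : α, τ c • (τ b • a) = τ (τ c • b) • a := by
    intro a b c
    rw [hτcomp, mul_smul]
  have hadd_zero : ∀ a : α, τ o • a = a := by
    intro a
    rw [hτo, one_smul]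
  have hneg : ∀ a : α, τ a • ((τ a)⁻¹ • o) = o := fun a => smul_inv_smul _ _
  have hμe1 : μ e = 1 := (hμu 1 e (Ne.symm hoe) (one_smul _ _) (one_smul _ _)).symm
  have hμne : ∀ (a x : α), x ≠ o → μ a • x ≠ o := by
    intro a x hx h
    apply hx
    have : μ a • x = μ a • o := by rw [h, hμo]
    exact MulAction.injective (μ a) this
  have hμcomp : ∀ a b : α, a ≠ o → b ≠ o → μ (μ b • a) = μ b * μ a := by
    intro a b ha hb
    exact (hμu (μ b * μ a) _ (hμne b a ha) (by rw [mul_smul, hμo, hμo])
      (by rw [mul_smul, hμe a ha])).symm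
  have hmul_assoc : ∀ x a b : α,
      (if b = o then o else μ b • (if a = o then o else μ a • x))
        = (if (if b = o then o else μ b • a) = o then o
            else μ (if b = o then o else μ b • a) • x) := by
    intro x a b
    by_cases hb : b = o
    · simp [hb]
    · by_cases ha : a = o
      · simp [hb, ha, hμo]
      · rw [if_neg hb, if_neg ha, if_neg hb, if_neg (hμne b a ha), hμcomp a b ha hb, mul_smul]
  have hone_mul : ∀ a : α, (if a = o then o else μ a • e) = a := by
    intro a
    by_cases ha : a = o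
    · simp [ha]
    · rw [if_neg ha, hμe a ha]
  have hmul_one : ∀ x : α, (if e = o then o else μ e • x) = x := by
    intro x
    rw [if_neg (Ne.symm hoe), hμe1, one_smul]
  have hrd : ∀ a b c : α, (if c = o then o else μ c • (τ b • a))
      = τ (if c = o then o else μ c • b) • (if c = o then o else μ c • a) := by
    intro a b c
    by_cases hc : c = o
    · simp [hc, hτo]
    · rw [if_neg hc, if_neg hc, if_neg hc]
      have h1 : τ (μ c • b) = μ c * τ b * (μ c)⁻¹ := by
        refine (hτu _ (hnormal.conj_mem _ (hτN b) _) _ ?_).symm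
        rw [mul_smul, mul_smul, inv_smul_eq_iff.mpr (hμo c).symm, hτ]
      rw [h1, mul_smul, mul_smul, inv_smul_smul]
  have hinv : ∀ a : α, a ≠ o → ∃ b : α, (if b = o then o else μ b • a) = e ∧
      (if a = o then o else μ a • b) = e := by
    intro a ha
    have hb : (μ a)⁻¹ • e ≠ o := by
      intro h
      rw [inv_smul_eq_iff, hμo] at h
      exact hoe h.symm
    have hμb : μ ((μ a)⁻¹ • e) = (μ a)⁻¹ :=
      (hμu (μ a)⁻¹ _ hb (inv_smul_eq_iff.mpr (hμo a).symm) rfl).symm
    refine ⟨(μ a)⁻¹ • e, ?_, ?_⟩
    · rw [if_neg hb, hμb, inv_smul_eq_iff, hμe a ha]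
    · rw [if_neg ha, smul_inv_smul]
  refine ⟨{ add := fun a b => τ b • a
            add_assoc := hadd_assoc
            zero := o
            zero_add := fun b => hτ b
            add_zero := hadd_zero
            nsmul := @nsmulRec α ⟨o⟩ ⟨fun a b => τ b • a⟩
            neg := fun a => (τ a)⁻¹ • o
            zsmul := @zsmulRec α ⟨o⟩ ⟨fun a b => τ b • a⟩ ⟨fun a => (τ a)⁻¹ • o⟩
              (@nsmulRec α ⟨o⟩ ⟨fun a b => τ b • a⟩)
            neg_add_cancel := hneg
            mul := fun x a => if a = o then o else μ a • x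
            mul_assoc := hmul_assoc
            one := e
            one_mul := hone_mul
            mul_one := hmul_one
            right_distrib := hrd
            mul_zero := fun a => if_pos rfl
            zero_ne_one := hoe
            exists_inv := hinv }, ?_⟩
  change ∀ σ : Equiv.Perm α, σ ∈ H ↔
    ∃ a b : α, a ≠ o ∧ ∀ x : α, σ x = τ b • (if a = o then o else μ a • x)
  intro σ
  constructor
  · intro hσ
    set g : H := ⟨σ, hσ⟩ with hg
    have ha : (τ (g • o))⁻¹ • (g • e) ≠ o := by
      intro h
      rw [inv_smul_eq_iff, hτ] at h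
      exact hoe (MulAction.injective g h).symm
    have h1 : (τ (g • o))⁻¹ * g = μ ((τ (g • o))⁻¹ • (g • e)) := by
      apply hμu _ _ ha
      · rw [mul_smul, inv_smul_eq_iff, hτ]
      · rw [mul_smul]
    refine ⟨(τ (g • o))⁻¹ • (g • e), g • o, ha, fun x => ?_⟩
    rw [if_neg ha, ← h1, mul_smul, smul_inv_smul]
    rfl
  · rintro ⟨a, b, ha, h⟩
    have : σ = ((τ b * μ a : H) : Equiv.Perm α) := by
      ext x
      rw [h x, if_neg ha]
      rfl
    rw [this]
    exact (τ b * μ a).2

end Cfsg.Agent.S0683
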