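import Cfsg.Statements.S0684
import Mathlib

set_option autoImplicit false
open Cfsg

namespace Cfsg.Agent.S0684

open scoped IsMulCommutative

/-- Point stabiliser of a sharply doubly transitive group not of semilinear type: a maximal normal abelian subgroup `A` of a linear group `H` that is regular on non-zero vectors and has no irreducible cyclic normal subgroup is cyclic and reducible, and the order of `A` divides `p ^ k - 1` for `k` the dimension of a minimal `A`-invariant subspace. -/
theorem result {p : ℕ} [Fact p.Prime] {V : Type*} [AddCommGroup V] [Module (ZMod p) V] [Finite V] (H : Subgroup (V ≃ₗ[ZMod p] V)) (hreg : ∀ v w : V, v ≠ 0 → w ≠ 0 → ∃! h : H, (h : V ≃ₗ[ZMod p] V) v = w) (hI : ∀ A : Subgroup H, A.Normal → IsCyclic A → ∃ W : Submodule (ZMod p) V, W ≠ ⊥ ∧ W ≠ ⊤ ∧ ∀ a ∈ A, ∀ v ∈ W, ((a : H) : V ≃ₗ[ZMod p] V) v ∈ W) (A : Subgroup H) (hAn : A.Normal) (hAc : IsMulCommutative A) (hAmax : ∀ B : Subgroup H, B.Normal → IsMulCommutative B → A ≤ B → B = A) : IsCyclic A ∧ ∃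 W : Submodule (ZMod p) V, W ≠ ⊥ ∧ W ≠ ⊤ ∧ (∀ a ∈ A, ∀ v ∈ W, ((a : H) : V ≃ₗ[ZMod p] V) v ∈ W) ∧ (∀ W' : Submodule (ZMod p) V, W' ≤ W → (∀ a ∈ A, ∀ v ∈ W', ((a : H) : V ≃ₗ[ZMod p] V) v ∈ W') → W' = ⊥ ∨ W' = W) ∧ Nat.card A ∣ p ^ Module.finrank (ZMod p) W - 1 := by
  classical
  have hfinE : Finite (V ≃ₗ[ZMod p] V) :=
    Finite.of_injective (fun e => (e : V → V)) DFunLike.coe_injective
  have hfree : ∀ (h : H) (v : V), v ≠ 0 → (h : V ≃ₗ[ZMod p] V) v = v → h = 1 := by
    intro h v hv hh
    obtain ⟨g, _, hg⟩ := hreg v v hv hv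
    rw [hg h hh, hg 1 (by simp)]
  -- `V` is nontrivial
  obtain ⟨W0, hW0b, hW0t, _⟩ := hI ⊥ inferInstance inferInstance
  have hVnt : (⊤ : Submodule (ZMod p) V) ≠ ⊥ := by
    intro h
    apply hW0b
    exact eq_bot_iff.mpr (h ▸ le_top)
  -- a minimal invariant subspace
  let S : Set (Submodule (ZMod p) V) :=
    {W | W ≠ ⊥ ∧ ∀ a ∈ A, ∀ v ∈ W, ((a : H) : V ≃ₗ[ZMod p] V) v ∈ W}
  have hex : S.Nonempty := ⟨⊤, hVnt, fun _ _ _ _ => trivial⟩
  obtain ⟨W, ⟨hWb, hWinv⟩, hmin⟩ :=
    (measure (fun W : Submodule (ZMod p) V => Module.finrank (ZMod p) W)).wf.has_min S hex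
  have hWmin : ∀ W' : Submodule (ZMod p) V, W' ≤ W →
      (∀ a ∈ A, ∀ v ∈ W', ((a : H) : V ≃ₗ[ZMod p] V) v ∈ W') → W' = ⊥ ∨ W' = W := by
    intro W' hle hinv
    by_cases hb : W' = ⊥
    · exact Or.inl hb
    · right
      have h1 := hmin W' ⟨hb, hinv⟩
      apply Submodule.eq_of_le_of_finrank_le hle
      exact not_lt.mp h1
  -- the representation of `A` on `W`
  let ρ : A →* Module.End (ZMod p) W :=
    { toFun := fun a => (((a : H) : V ≃ₗ[ZMod p] V) : V →ₗ[ZMod p] V).restrict
        (fun v hv => hWinv a.1 a.2 v hv)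
      map_one' := by
        ext w
        simp
      map_mul' := by
        intro a b
        ext w
        simp }
  have hρ : ∀ (a : A) (w : W), ((ρ a w : W) : V) = ((a : H) : V ≃ₗ[ZMod p] V) (w : V) :=
    fun a w => rfl
  obtain ⟨w0, hw0W, hw00⟩ := Submodule.exists_mem_ne_zero_of_ne_bot hWb
  have hρinj : Function.Injective ρ := by
    intro a b hab
    have h1 : ((a : H) : V ≃ₗ[ZMod p] V) w0 = ((b : H) : V ≃ₗ[ZMod p] V) w0 := by
      have := congrArg (fun f : Module.End (ZMod p) W => ((f ⟨w0, hw0W⟩ : W) : V)) hab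
      exact this
    have hne : ((a : H) : V ≃ₗ[ZMod p] V) w0 ≠ 0 := by
      rw [Ne, LinearEquiv.map_eq_zero_iff]
      exact hw00
    obtain ⟨g, _, hg⟩ := hreg w0 _ hw00 hne
    have h2 : (a : H) = (b : H) := by rw [hg a.1 rfl, hg b.1 h1.symm]
    exact Subtype.ext h2
  -- minimality at the level of `W`
  have hWmin' : ∀ U : Submodule (ZMod p) W, (∀ (a : A), ∀ u ∈ U, ρ a u ∈ U) → U = ⊥ ∨ U = ⊤ := by
    intro U hU
    rcases hWmin (U.map W.subtype) (Submodule.map_subtype_le W U) (by
      rintro a ha _ ⟨u, hu, rfl⟩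
      exact ⟨ρ ⟨a, ha⟩ u, hU ⟨a, ha⟩ u hu, rfl⟩) with h | h
    · left
      rw [eq_bot_iff]
      intro u hu
      have : (u : V) ∈ U.map W.subtype := ⟨u, hu, rfl⟩
      rw [h, Submodule.mem_bot] at this
      rw [Submodule.mem_bot]
      exact Subtype.ext this
    · right
      rw [eq_top_iff]
      intro w _
      have : (w : V) ∈ U.map W.subtype := by rw [h]; exact w.2
      obtain ⟨u, hu, huw⟩ := this
      have : u = w := Subtype.ext huw
      rwa [← this]
  -- the commutative algebra generated by `A` on `W`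
  have hScomm : ∀ x ∈ Set.range ρ, ∀ y ∈ Set.range ρ, x * y = y * x := by
    rintro _ ⟨a, rfl⟩ _ ⟨b, rfl⟩
    rw [← map_mul, ← map_mul, (isMulCommutative_iff.mp hAc a b)]
  let E := Algebra.adjoin (ZMod p) (Set.range ρ)
  have hEc : IsMulCommutative E := Algebra.isMulCommutative_adjoin (ZMod p) hScomm
  have hEnt : Nontrivial E := by
    refine ⟨⟨0, 1, fun h => ?_⟩⟩
    have h1 := congrArg (fun f : E => ((f : Module.End (ZMod p) W) ⟨w0, hw0W⟩ : W)) h
    simp only [ZeroMemClass.coe_zero, LinearMap.zero_apply, OneMemClass.coe_one,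
      Module.End.one_apply] at h1
    exact hw00 (congrArg Subtype.val h1).symm
  have hEnzd : NoZeroDivisors E := by
    refine ⟨fun {e f} hef => ?_⟩
    by_cases hf0 : f = 0
    · exact Or.inr hf0
    left
    have hcomm : ∀ a : A, (ρ a) * (f : Module.End (ZMod p) W) = (f : Module.End (ZMod p) W) * ρ a := by
      intro a
      have := mul_comm (⟨ρ a, Algebra.subset_adjoin ⟨a, rfl⟩⟩ : E) f
      exact congrArg Subtype.val this
    have hU := hWmin' (LinearMap.range (f : Module.End (ZMod p) W)) (by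
      rintro a _ ⟨w, rfl⟩
      refine ⟨ρ a w, ?_⟩
      have := congrArg (fun g : Module.End (ZMod p) W => g w) (hcomm a)
      exact this.symm)
    rcases hU with hU | hU
    · exfalso
      apply hf0
      apply Subtype.ext
      exact LinearMap.range_eq_bot.mp hU
    · apply Subtype.ext
      apply LinearMap.ext
      intro w
      obtain ⟨w', rfl⟩ := LinearMap.range_eq_top.mp hU w
      have := congrArg (fun g : E => (g : Module.End (ZMod p) W) w') hef
      exact this
  have hEdom : IsDomain E := NoZeroDivisors.to_isDomain E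
  have hcyc : IsCyclic A := by
    let f : A →* E := ρ.codRestrict E (fun a => Algebra.subset_adjoin ⟨a, rfl⟩)
    have hf : Function.Injective f := by
      intro a b hab
      apply hρinj
      exact congrArg Subtype.val hab
    exact isCyclic_of_injective_ringHom f hf
  refine ⟨hcyc, W, hWb, ?_, hWinv, hWmin, ?_⟩
  · intro hWt
    obtain ⟨W1, hW1b, hW1t, hW1inv⟩ := hI A hAn hcyc
    rcases hWmin W1 (hWt ▸ le_top) hW1inv with h | h
    · exact hW1b h
    · exact hW1t (h.trans hWt)
  · -- divisibility by counting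
    let X := {w : W // w ≠ 0}
    letI : MulAction A X :=
      { smul := fun a x => ⟨ρ a x.1, fun h => x.2 (by
          have h1 : ((a : H) : V ≃ₗ[ZMod p] V) (x.1 : V) = 0 := by
            rw [← hρ, h]; rfl
          rw [LinearEquiv.map_eq_zero_iff] at h1
          exact Subtype.ext h1)⟩
        one_smul := fun x => by
          apply Subtype.ext
          change ρ 1 x.1 = x.1
          rw [map_one]; rfl
        mul_smul := fun a b x => by
          apply Subtype.ext
          change ρ (a * b) x.1 = ρ a (ρ b x.1)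
          rw [map_mul]; rfl }
    have hstab : ∀ x : X, MulAction.stabilizer A x = ⊥ := by
      intro x
      rw [eq_bot_iff]
      intro a ha
      rw [MulAction.mem_stabilizer_iff] at ha
      rw [Subgroup.mem_bot]
      have h1 : ρ a x.1 = x.1 := congrArg Subtype.val ha
      have h2 : ((a : H) : V ≃ₗ[ZMod p] V) (x.1 : V) = (x.1 : V) := by
        rw [← hρ, h1]
      have h3 : (a : H) = 1 := hfree a.1 _ (fun h => x.2 (Subtype.ext h)) h2
      exact Subtype.ext h3
    have hequiv := MulAction.selfEquivOrbitsQuotientProd hstab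
    have hcardX : Nat.card X = Nat.card (Quotient (MulAction.orbitRel A X)) * Nat.card A := by
      rw [Nat.card_congr hequiv, Nat.card_prod]
    have hX : Nat.card X = p ^ Module.finrank (ZMod p) W - 1 := by
      have h1 : Nat.card X = Set.ncard ({0}ᶜ : Set W) := by
        rw [← Nat.card_coe_set_eq]
        rfl
      rw [h1, Set.ncard_compl, Set.ncard_singleton, Module.natCard_eq_pow_finrank (K := ZMod p),
        Nat.card_zmod]
    rw [← hX, hcardX]
    exact Dvd.intro_left _ rfl

end Cfsg.Agent.S0684
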