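import Cfsg.Statements.S0687
import Mathlib
import Cfsg.Agent.Helper12.NearQ8

set_option autoImplicit false
open Cfsg

namespace Cfsg.Agent.S0687

/-- In a linear group over the prime field that is regular on non-zero vectors and has no irreducible cyclic normal subgroup, a normal subgroup `N` minimal among the non-abelian normal subgroups centralising a maximal normal abelian subgroup `A` is irreducible on `V`, and its centraliser is `A`. -/
theorem result {p : ℕ} [Fact p.Prime] {V : Type*} [AddCommGroup V] [Module (ZMod p) V] [Finite V] (H : Subgroup (V ≃ₗ[ZMod p] V)) (hreg : ∀ v w : V, v ≠ 0 → w ≠ 0 → ∃! h : H, (h : V ≃ₗ[ZMod p] V) v = w) (hI : ∀ A : Subgroup H, A.Normal → IsCyclic A → ∃ W : Submodule (ZMod p) V, W ≠ ⊥ ∧ W ≠ ⊤ ∧ ∀ a ∈ A, ∀ v ∈ W, ((a : H) : V ≃ₗ[ZMod p] V) v ∈ W) (A : Subgroup H) (hAn : A.Normal) (hAc : IsMulCommutative A) (hAmax : ∀ B : Subgroup H, B.Normal → IsMulCommutative B → A ≤ B → B = A) (N : Subgroup H) (hNn : N.Normal) (hNle : N ≤ Subgroup.centralizer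 (A : Set H)) (hNna : ¬ IsMulCommutative N) (hNmin : ∀ M : Subgroup H, M.Normal → M ≤ N → ¬ IsMulCommutative M → M = N) : (∀ W : Submodule (ZMod p) V, (∀ n ∈ N, ∀ v ∈ W, ((n : H) : V ≃ₗ[ZMod p] V) v ∈ W) → W = ⊥ ∨ W = ⊤) ∧ Subgroup.centralizer (N : Set H) = A := by
  have hp : p.Prime := Fact.out
  haveI : Finite (V ≃ₗ[ZMod p] V) := Cfsg.Agent.Helper12.finite_linEquiv
  have hfix := Cfsg.Agent.Helper12.hfix_of_reg H hreg
  have hna : ∃ x y : N, x * y ≠ y * x := by
    by_contra h
    push_neg at h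
    exact hNna (isMulCommutative_iff.mpr h)
  obtain ⟨x, y, hxy⟩ := hna
  haveI : Nontrivial V := Cfsg.Agent.Helper12.nontrivial_of_ne H
    (a := ((x * y : N) : H)) (b := ((y * x : N) : H)) (fun h => hxy (Subtype.ext h))
  have hρ := Cfsg.Agent.Helper12.lin_fpf H hfix
  have key : Nat.card V = p * p ∧
      (∀ a ∈ Subgroup.centralizer (N : Set H), ∀ b ∈ Subgroup.centralizer (N : Set H),
        a * b = b * a) ∧ ¬ Nat.card N ∣ p - 1 := by
    rcases Cfsg.Agent.Helper12.fpf_min_nonabelian hρ A hAn hAc hAmax N hNn hNle hNna hNmin with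
      ⟨_, ⟨e⟩⟩ | ⟨hperf, ⟨e⟩⟩
    · obtain ⟨hpl, hV, hK⟩ := Cfsg.Agent.Helper12.q8_case H hreg N hNn e
      refine ⟨hV, hK, ?_⟩
      have hN8 : Nat.card N = 8 := by
        rw [Nat.card_congr e.toEquiv, Nat.card_eq_fintype_card, QuaternionGroup.card]
      rw [hN8]
      rcases hpl with h | h | h | h | h <;> rw [h] <;> omega
    · obtain ⟨hp119, hV, hK⟩ := Cfsg.Agent.Helper12.sl25_case H hreg N hperf e
      refine ⟨hV, hK, ?_⟩
      have hN120 : Nat.card N = 120 := by
        rw [Nat.card_congr e.toEquiv, Cfsg.Agent.Helper56.card_SL25]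
      rw [hN120]
      intro hd
      have h2 := hp.two_le
      have hle := Nat.le_of_dvd (by omega) hd
      omega
  obtain ⟨hV, hK, hNd⟩ := key
  constructor
  · intro W hW
    have hdvd := Cfsg.Agent.Helper12.card_dvd_of_invariant H hfix N W hW
    rcases Cfsg.Agent.Helper12.submodule_card_cases hV W with h | h | h
    · exact Or.inl h
    · exact Or.inr h
    · exfalso
      rw [h] at hdvd
      exact hNd hdvd
  · have hAle : A ≤ Subgroup.centralizer (N : Set H) := by
      intro a ha
      rw [Subgroup.mem_centralizer_iff]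
      intro n hn
      exact ((Subgroup.mem_centralizer_iff.mp (hNle hn)) a ha).symm
    haveI := hNn
    have hKn : (Subgroup.centralizer (N : Set H)).Normal := inferInstance
    have hKc : IsMulCommutative (Subgroup.centralizer (N : Set H)) :=
      (Cfsg.Agent.Helper12.isMulComm_sub_iff _).mpr hK
    exact hAmax _ hKn hKc hAle

end Cfsg.Agent.S0687
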