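import Cfsg.Statements.S0688
import Mathlib
import Cfsg.Agent.Helper12.NearQ8
import Cfsg.Agent.S0685

set_option autoImplicit false
open Cfsg

namespace Cfsg.Agent.S0688

/-- Degrees of the soluble exceptional sharply doubly transitive groups: if a solvable linear group over the prime field is regular on the non-zero vectors of `V` and has no irreducible cyclic normal subgroup, then `V` has 25, 49, 121 or 529 elements. -/
theorem result {p : ℕ} [Fact p.Prime] {V : Type*} [AddCommGroup V] [Module (ZMod p) V] [Finite V] (H : Subgroup (V ≃ₗ[ZMod p] V)) (hreg : ∀ v w : V, v ≠ 0 → w ≠ 0 → ∃! h : H, (h : V ≃ₗ[ZMod p] V) v = w) (hI : ∀ A : Subgroup H, A.Normal → IsCyclic A → ∃ W : Submodule (ZMod p) V, W ≠ ⊥ ∧ W ≠ ⊤ ∧ ∀ a ∈ A, ∀ v ∈ W, ((a : H) : V ≃ₗ[ZMod p] V) v ∈ W) (hsolv : Group.IsSolvable H) : Nat.card V = 25 ∨ Nat.card V = 49 ∨ Nat.card V = 121 ∨ Nat.card V = 529 := by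
  classical
  have hp : p.Prime := Fact.out
  haveI : Finite (V ≃ₗ[ZMod p] V) := Cfsg.Agent.Helper12.finite_linEquiv
  have hfix := Cfsg.Agent.Helper12.hfix_of_reg H hreg
  have hbotc : IsMulCommutative (⊥ : Subgroup H) := by
    rw [Cfsg.Agent.Helper12.isMulComm_sub_iff]
    intro a ha b hb
    rw [Subgroup.mem_bot] at ha hb
    rw [ha, hb]
  haveI : Nontrivial V := by
    obtain ⟨W, hW0, _, _⟩ := hI ⊥ inferInstance inferInstance
    by_contra h
    rw [not_nontrivial_iff_subsingleton] at h
    apply hW0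
    rw [eq_bot_iff]
    intro w _
    rw [Submodule.mem_bot]
    exact Subsingleton.elim _ _
  have hρ := Cfsg.Agent.Helper12.lin_fpf H hfix
  -- a maximal normal abelian subgroup
  obtain ⟨A, hA⟩ := (Set.toFinite {B : Subgroup H | B.Normal ∧ IsMulCommutative B}).exists_maximal
    ⟨⊥, inferInstance, hbotc⟩
  have hAn : A.Normal := hA.prop.1
  have hAc : IsMulCommutative A := hA.prop.2
  have hAmax : ∀ B : Subgroup H, B.Normal → IsMulCommutative B → A ≤ B → B = A := by
    intro B hBn hBc hAB
    exact le_antisymm (hA.le_of_ge ⟨hBn, hBc⟩ hAB) hAB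
  obtain ⟨_, hCna⟩ := Cfsg.Agent.S0685.result H hreg hI A hAn hAc hAmax
  -- a minimal non-abelian normal subgroup centralising `A`
  haveI := hAn
  obtain ⟨N, hN⟩ := (Set.toFinite {M : Subgroup H | M.Normal ∧
      M ≤ Subgroup.centralizer (A : Set H) ∧ ¬ IsMulCommutative M}).exists_minimal
    ⟨Subgroup.centralizer (A : Set H), inferInstance, le_refl _, hCna⟩
  have hNn : N.Normal := hN.prop.1
  have hNle : N ≤ Subgroup.centralizer (A : Set H) := hN.prop.2.1
  have hNna : ¬ IsMulCommutative N := hN.prop.2.2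
  have hNmin : ∀ M : Subgroup H, M.Normal → M ≤ N → ¬ IsMulCommutative M → M = N := by
    intro M hMn hMN hMna
    exact le_antisymm hMN (hN.le_of_le ⟨hMn, hMN.trans hNle, hMna⟩ hMN)
  have hna : ∃ x y : N, x * y ≠ y * x := by
    by_contra h
    push_neg at h
    exact hNna (isMulCommutative_iff.mpr h)
  rcases Cfsg.Agent.Helper12.fpf_min_nonabelian hρ A hAn hAc hAmax N hNn hNle hNna hNmin with
    ⟨_, ⟨e⟩⟩ | ⟨hperf, _⟩
  swap
  · exfalso
    haveI := hsolv
    haveI : Nontrivial N := by
      obtain ⟨x, y, hxy⟩ := hna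
      exact ⟨⟨x * y, y * x, hxy⟩⟩
    exact (Group.IsSolvable.commutator_lt_top_of_nontrivial (G := N)).ne hperf
  obtain ⟨hpl, hV, _⟩ := Cfsg.Agent.Helper12.q8_case H hreg N hNn e
  rcases hpl with h | h | h | h | h
  · -- `p = 3` is impossible: an element of order four generates a normal cyclic subgroup
    exfalso
    have hcardH := Cfsg.Agent.Helper12.card_add_one_of_reg H hreg
    have hpp : p * p = 9 := by rw [h]
    have hV9 : Nat.card V = 9 := hV.trans hpp
    have hH8 : Nat.card H = 8 := by omega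
    have ho : orderOf ((e.symm (QuaternionGroup.a 1) : N) : H) = 4 := by
      rw [Subgroup.orderOf_coe, MulEquiv.orderOf_eq, QuaternionGroup.orderOf_a_one]
    have hB4 : Nat.card (Subgroup.zpowers ((e.symm (QuaternionGroup.a 1) : N) : H)) = 4 := by
      rw [Nat.card_zpowers, ho]
    have hBidx : (Subgroup.zpowers ((e.symm (QuaternionGroup.a 1) : N) : H)).index = 2 := by
      have h1 := Subgroup.card_mul_index (Subgroup.zpowers ((e.symm (QuaternionGroup.a 1) : N) : H))
      rw [hB4, hH8] at h1
      omega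
    have hBn := Subgroup.normal_of_index_eq_two hBidx
    obtain ⟨W, hW0, hW1, hWinv⟩ := hI _ hBn inferInstance
    have hdvd := Cfsg.Agent.Helper12.card_dvd_of_invariant H hfix _ W hWinv
    rw [hB4] at hdvd
    rcases Cfsg.Agent.Helper12.submodule_card_cases hV W with h' | h' | h'
    · exact hW0 h'
    · exact hW1 h'
    · rw [h', h] at hdvd
      omega
  · left; rw [h] at hV; omega
  · right; left; rw [h] at hV; omega
  · right; right; left; rw [h] at hV; omega
  · right; right; right; rw [h] at hV; omega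

end Cfsg.Agent.S0688
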