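import Cfsg.Statements.S0691
import Cfsg.Agent.Helper12.MatGroup

set_option autoImplicit false
open Cfsg

namespace Cfsg.Agent.S0691

open Cfsg.Agent.Helper12

/-- Generators, as quadruples of residues. -/
def gs : List Q4 := [(2, 0, 0, 3), (0, 4, 1, 0), (1, 2, 1, 3)]

/-- Inverses of the generators. -/
def gis : List Q4 := [(3, 0, 0, 2), (0, 1, 4, 0), (3, 3, 4, 1)]

/-- The elements of the group generated, each one a generator times a later entry. -/
def elts : List Q4 :=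
  [(4, 1, 2, 2), (4, 4, 3, 2), (2, 3, 4, 4), (2, 2, 1, 4), (1, 1, 2, 3), (3, 4, 3, 1),
   (3, 2, 1, 1), (1, 3, 4, 3), (1, 4, 3, 3), (3, 1, 2, 1), (4, 3, 4, 2), (0, 1, 4, 0),
   (3, 0, 0, 2), (3, 3, 4, 1), (4, 2, 1, 2), (2, 4, 3, 4), (0, 3, 3, 0), (2, 1, 2, 4),
   (0, 2, 2, 0), (4, 0, 0, 4), (1, 2, 1, 3), (0, 4, 1, 0), (2, 0, 0, 3), (1, 0, 0, 1)]

theorem h_cl : (gs ++ gis).all (fun g => closedUnder 5 g elts) = true := by decide +kernel
theorem h_id : qmem idq elts = true := by decide +kernel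
theorem h_gen : genOK 5 gs elts = true := by decide +kernel
theorem h_nd : nodupB elts = true := by decide +kernel
theorem h_red : redB 5 elts = true := by decide +kernel
theorem h_free : freeB 5 1 1 elts = true := by decide +kernel
theorem h_len : elts.length = 5 ^ 2 - 1 := by decide +kernel

/-- An exceptional sharply doubly transitive group of degree 5^2: the listed matrices generate a subgroup of GL(2,5) of order 24 acting regularly on the non-zero vectors. -/
theorem result (A : Matrix.GeneralLinearGroup (Fin 2) (ZMod 5)) (B : Matrix.GeneralLinearGroup (Fin 2) (ZMod 5)) (C : Matrix.GeneralLinearGroup (Fin 2) (ZMod 5)) (hA : (A : Matrix (Fin 2) (Fin 2) (ZMod 5)) = !![2, 0; 0, -2]) (hB : (B : Matrix (Fin 2) (Fin 2) (ZMod 5)) = !![0, -1; 1, 0]) (hC : (C : Matrix (Fin 2) (Fin 2) (ZMod 5)) = !![1, 2; 1, -2]) : Nat.card (Subgroup.closure ({A, B, C} : Set (Matrix.GeneralLinearGroup (Fin 2) (ZMod 5)))) = 24 ∧ ∀ v w : Fin 2 → ZMod 5, v ≠ 0 → w ≠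 0 → ∃! h : Subgroup.closure ({A, B, C} : Set (Matrix.GeneralLinearGroup (Fin 2) (ZMod 5))), Matrix.mulVec ((h : Matrix.GeneralLinearGroup (Fin 2) (ZMod 5)) : Matrix (Fin 2) (Fin 2) (ZMod 5)) v = w := by
  have : Fact (Nat.Prime 5) := ⟨by norm_num⟩
  have hA' : (A : Matrix (Fin 2) (Fin 2) (ZMod 5)) = toMat 5 (2, 0, 0, 3) := by
    rw [hA]; unfold toMat; decide
  have hB' : (B : Matrix (Fin 2) (Fin 2) (ZMod 5)) = toMat 5 (0, 4, 1, 0) := by
    rw [hB]; unfold toMat; decide
  have hC' : (C : Matrix (Fin 2) (Fin 2) (ZMod 5)) = toMat 5 (1, 2, 1, 3) := by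
    rw [hC]; unfold toMat; decide
  have hmain := main_simple (p := 5) ({A, B, C} : Set (Matrix.GeneralLinearGroup (Fin 2) (ZMod 5))) gs gis elts ?_ ?_
    h_cl h_id h_gen h_nd h_red h_free h_len
  · exact ⟨by rw [hmain.1]; norm_num, hmain.2⟩
  · intro s hs
    simp only [Set.mem_insert_iff, Set.mem_singleton_iff] at hs
    rcases hs with rfl | rfl | rfl
    · exact ⟨(2, 0, 0, 3), by simp [gs], (3, 0, 0, 2), by simp [gis], hA', by decide⟩
    · exact ⟨(0, 4, 1, 0), by simp [gs], (0, 1, 4, 0), by simp [gis], hB', by decide⟩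
    · exact ⟨(1, 2, 1, 3), by simp [gs], (3, 3, 4, 1), by simp [gis], hC', by decide⟩
  · intro q hq
    simp only [gs, List.mem_cons, List.mem_nil_iff, or_false] at hq
    rcases hq with rfl | rfl | rfl
    · exact ⟨A, by simp, hA'⟩
    · exact ⟨B, by simp, hB'⟩
    · exact ⟨C, by simp, hC'⟩

end Cfsg.Agent.S0691
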