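import Cfsg.Statements.S0692
import Cfsg.Agent.Helper12.MatGroup

set_option autoImplicit false
open Cfsg

namespace Cfsg.Agent.S0692

open Cfsg.Agent.Helper12

/-- Generators, as quadruples of residues. -/
def gs : List Q4 := [(0, 10, 1, 0), (2, 4, 1, 8)]

/-- Inverses of the generators. -/
def gis : List Q4 := [(0, 1, 10, 0), (8, 7, 10, 2)]

/-- The elements of the group generated, each one a generator times a later entry. -/
def elts : List Q4 :=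
  [(4, 4, 4, 7), (4, 7, 7, 7), (8, 2, 6, 3), (4, 6, 10, 7), (7, 4, 4, 4), (9, 8, 8, 6),
   (10, 7, 7, 5), (7, 8, 8, 3), (2, 2, 2, 8), (5, 4, 4, 10), (7, 7, 7, 4), (6, 3, 3, 9),
   (3, 9, 5, 8), (7, 5, 1, 4), (8, 6, 2, 3), (4, 10, 6, 7), (3, 7, 8, 8), (9, 2, 3, 2),
   (8, 3, 4, 3), (2, 8, 9, 9), (2, 3, 3, 5), (6, 7, 7, 1), (3, 10, 0, 4), (5, 8, 8, 2),
   (1, 4, 4, 6), (4, 3, 3, 8), (9, 9, 9, 3), (1, 3, 7, 0), (8, 8, 8, 4), (3, 2, 2, 9),
   (0, 4, 8, 1), (6, 2, 1, 6), (4, 1, 0, 3), (2, 6, 5, 10), (3, 5, 9, 8), (7, 1, 5, 4),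
   (8, 4, 3, 3), (2, 9, 8, 9), (8, 1, 0, 7), (3, 8, 7, 8), (9, 3, 2, 2), (7, 0, 10, 8),
   (9, 6, 5, 1), (10, 4, 8, 0), (5, 2, 1, 5), (1, 6, 5, 9), (0, 3, 7, 10), (5, 10, 9, 5),
   (10, 8, 4, 0), (3, 3, 3, 7), (8, 9, 9, 2), (0, 7, 3, 10), (5, 9, 10, 5), (7, 10, 0, 8),
   (9, 5, 6, 1), (5, 1, 2, 5), (8, 0, 1, 7), (1, 5, 6, 9), (0, 9, 6, 4), (10, 1, 9, 1),
   (5, 6, 3, 6), (4, 5, 2, 0), (4, 0, 1, 3), (2, 5, 6, 10), (1, 7, 3, 0), (6, 9, 10, 6),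
   (10, 5, 6, 2), (0, 8, 4, 1), (6, 1, 2, 6), (2, 0, 7, 6), (10, 10, 10, 9), (5, 5, 5, 3),
   (6, 4, 0, 2), (9, 1, 1, 10), (3, 6, 6, 5), (2, 7, 0, 6), (6, 10, 9, 6), (3, 0, 10, 4),
   (10, 6, 5, 2), (0, 2, 5, 7), (1, 10, 2, 10), (6, 5, 8, 5), (7, 6, 9, 0), (10, 9, 1, 1),
   (5, 3, 6, 6), (4, 2, 5, 0), (2, 1, 4, 8), (0, 6, 9, 4), (9, 0, 4, 5), (1, 1, 1, 2),
   (6, 6, 6, 8), (5, 7, 0, 9), (2, 10, 10, 1), (8, 5, 5, 6), (9, 4, 0, 5), (10, 2, 3, 4),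
   (5, 0, 7, 9), (4, 8, 9, 10), (8, 10, 7, 2), (1, 2, 10, 10), (6, 8, 5, 5), (7, 9, 6, 0),
   (9, 10, 7, 3), (0, 5, 2, 7), (3, 4, 1, 9), (1, 8, 9, 7), (7, 2, 3, 1), (1, 9, 8, 7),
   (6, 0, 4, 2), (7, 3, 2, 1), (3, 1, 4, 9), (9, 7, 10, 3), (0, 1, 10, 0), (8, 7, 10, 2),
   (10, 3, 2, 4), (4, 9, 8, 10), (10, 0, 0, 10), (2, 4, 1, 8), (0, 10, 1, 0), (1, 0, 0, 1)]

theorem h_cl : (gs ++ gis).all (fun g => closedUnder 11 g elts) = true := by decide +kernel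
theorem h_id : qmem idq elts = true := by decide +kernel
theorem h_gen : genOK 11 gs elts = true := by decide +kernel
theorem h_nd : nodupB elts = true := by decide +kernel
theorem h_red : redB 11 elts = true := by decide +kernel
theorem h_free : freeB 11 1 1 elts = true := by decide +kernel
theorem h_len : elts.length = 11 ^ 2 - 1 := by decide +kernel

/-- An exceptional sharply doubly transitive group of degree 11^2: the listed matrices generate a subgroup of GL(2,11) of order 120 acting regularly on the non-zero vectors. -/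
theorem result (A : Matrix.GeneralLinearGroup (Fin 2) (ZMod 11)) (B : Matrix.GeneralLinearGroup (Fin 2) (ZMod 11)) (hA : (A : Matrix (Fin 2) (Fin 2) (ZMod 11)) = !![0, -1; 1, 0]) (hB : (B : Matrix (Fin 2) (Fin 2) (ZMod 11)) = !![2, 4; 1, -3]) : Nat.card (Subgroup.closure ({A, B} : Set (Matrix.GeneralLinearGroup (Fin 2) (ZMod 11)))) = 120 ∧ ∀ v w : Fin 2 → ZMod 11, v ≠ 0 → w ≠ 0 → ∃! h : Subgroup.closure ({A, B} : Set (Matrix.GeneralLinearGroup (Fin 2) (ZMod 11))), Matrix.mulVec ((h : Matrix.GeneralLinearGroup (Fin 2) (ZMod 11)) : Matrix (Fin 2) (Fin 2) (ZMod 11)) v = w := by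
  have : Fact (Nat.Prime 11) := ⟨by norm_num⟩
  have hA' : (A : Matrix (Fin 2) (Fin 2) (ZMod 11)) = toMat 11 (0, 10, 1, 0) := by
    rw [hA]; unfold toMat; decide
  have hB' : (B : Matrix (Fin 2) (Fin 2) (ZMod 11)) = toMat 11 (2, 4, 1, 8) := by
    rw [hB]; unfold toMat; decide
  have hmain := main_simple (p := 11) ({A, B} : Set (Matrix.GeneralLinearGroup (Fin 2) (ZMod 11))) gs gis elts ?_ ?_
    h_cl h_id h_gen h_nd h_red h_free h_len
  · exact ⟨by rw [hmain.1]; norm_num, hmain.2⟩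
  · intro s hs
    simp only [Set.mem_insert_iff, Set.mem_singleton_iff] at hs
    rcases hs with rfl | rfl
    · exact ⟨(0, 10, 1, 0), by simp [gs], (0, 1, 10, 0), by simp [gis], hA', by decide⟩
    · exact ⟨(2, 4, 1, 8), by simp [gs], (8, 7, 10, 2), by simp [gis], hB', by decide⟩
  · intro q hq
    simp only [gs, List.mem_cons, List.mem_nil_iff, or_false] at hq
    rcases hq with rfl | rfl
    · exact ⟨A, by simp, hA'⟩
    · exact ⟨B, by simp, hB'⟩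

end Cfsg.Agent.S0692
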