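import Cfsg.Statements.S0693
import Cfsg.Agent.Helper12.MatGroup

set_option autoImplicit false
open Cfsg

namespace Cfsg.Agent.S0693

open Cfsg.Agent.Helper12

/-- Generators, as quadruples of residues. -/
def gs : List Q4 := [(0, 58, 1, 0), (9, 15, 49, 49)]

/-- Inverses of the generators. -/
def gis : List Q4 := [(0, 1, 58, 0), (49, 44, 10, 9)]

/-- The elements of the group generated, each one a generator times a later entry. -/
def elts : List Q4 :=
  [(3, 7, 7, 56), (7, 56, 56, 52), (41, 14, 40, 18), (34, 17, 43, 25), (52, 3, 3, 7),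
   (45, 41, 41, 40), (43, 25, 25, 42), (53, 21, 21, 5), (48, 40, 40, 10), (42, 34, 34, 43),
   (56, 52, 52, 3), (40, 18, 18, 45), (18, 45, 19, 41), (25, 42, 16, 34), (41, 40, 14, 18),
   (34, 43, 17, 25), (38, 53, 54, 21), (19, 48, 49, 40), (21, 5, 6, 38), (40, 10, 11, 19),
   (14, 18, 18, 19), (17, 25, 25, 16), (38, 30, 31, 54), (19, 41, 41, 14), (16, 34, 34, 17),
   (6, 38, 38, 54), (11, 19, 19, 49), (29, 38, 5, 31), (54, 21, 21, 6), (49, 40, 40, 11),
   (31, 54, 21, 29), (32, 25, 24, 28), (54, 29, 28, 38), (25, 28, 27, 35), (18, 19, 45, 41),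
   (25, 16, 42, 34), (21, 6, 5, 38), (40, 11, 10, 19), (21, 29, 28, 5), (38, 54, 53, 21),
   (19, 49, 48, 40), (5, 31, 30, 21), (34, 32, 31, 24), (30, 54, 21, 28), (31, 25, 24, 27),
   (24, 28, 27, 34), (28, 38, 5, 30), (27, 35, 34, 31), (30, 21, 54, 28), (5, 38, 38, 53),
   (10, 19, 19, 48), (28, 5, 38, 30), (27, 34, 35, 31), (5, 30, 31, 21), (34, 31, 32, 24),
   (31, 24, 25, 27), (21, 28, 29, 5), (24, 27, 28, 34), (39, 14, 48, 46), (4, 36, 11, 55),
   (58, 55, 30, 1), (46, 11, 45, 39), (54, 28, 29, 38), (25, 27, 28, 35), (29, 5, 38, 31),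
   (28, 34, 35, 32), (35, 31, 32, 25), (31, 21, 54, 29), (32, 24, 25, 28), (45, 39, 13, 48),
   (23, 4, 4, 11), (4, 58, 58, 30), (48, 46, 20, 45), (11, 55, 55, 23), (30, 1, 1, 4),
   (45, 13, 39, 48), (28, 35, 34, 32), (38, 31, 30, 54), (35, 32, 31, 25), (20, 45, 11, 13),
   (55, 23, 48, 4), (1, 4, 29, 58), (13, 48, 14, 20), (4, 11, 36, 55), (58, 30, 55, 1),
   (46, 45, 11, 39), (9, 49, 15, 49), (39, 48, 14, 46), (14, 20, 46, 11), (36, 55, 55, 48),
   (55, 1, 1, 29), (11, 13, 39, 14), (48, 4, 4, 36), (29, 58, 58, 55), (14, 46, 20, 11),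
   (10, 9, 10, 15), (11, 39, 13, 14), (15, 49, 50, 10), (49, 10, 44, 9), (55, 48, 23, 4),
   (1, 29, 4, 58), (13, 14, 48, 20), (50, 10, 44, 10), (20, 11, 45, 13), (10, 15, 49, 50),
   (49, 49, 50, 44), (44, 9, 10, 49), (49, 50, 49, 44), (48, 20, 46, 45), (44, 10, 9, 49),
   (10, 49, 15, 50), (50, 44, 10, 10), (0, 1, 58, 0), (49, 44, 10, 9), (10, 10, 9, 15),
   (15, 50, 49, 10), (58, 0, 0, 58), (9, 15, 49, 49), (0, 58, 1, 0), (1, 0, 0, 1)]

theorem h_cl : (gs ++ gis).all (fun g => closedUnder 59 g elts) = true := by decide +kernel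
theorem h_id : qmem idq elts = true := by decide +kernel
theorem h_gen : genOK 59 gs elts = true := by decide +kernel
theorem h_nd : nodupB elts = true := by decide +kernel
theorem h_red : redB 59 elts = true := by decide +kernel
theorem h_free : freeB 59 29 4 elts = true := by decide +kernel
theorem h_scal : scalB 59 29 4 elts = true := by decide +kernel
theorem h_len : 29 * elts.length = 59 ^ 2 - 1 := by decide +kernel

/-- An exceptional sharply doubly transitive group of degree 59^2: the listed matrices generate a subgroup of GL(2,59) of order 3480 acting regularly on the non-zero vectors. -/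
theorem result (A : Matrix.GeneralLinearGroup (Fin 2) (ZMod 59)) (B : Matrix.GeneralLinearGroup (Fin 2) (ZMod 59)) (C : Matrix.GeneralLinearGroup (Fin 2) (ZMod 59)) (hA : (A : Matrix (Fin 2) (Fin 2) (ZMod 59)) = !![0, -1; 1, 0]) (hB : (B : Matrix (Fin 2) (Fin 2) (ZMod 59)) = !![9, 15; -10, -10]) (hC : (C : Matrix (Fin 2) (Fin 2) (ZMod 59)) = !![4, 0; 0, 4]) : Nat.card (Subgroup.closure ({A, B, C} : Set (Matrix.GeneralLinearGroup (Fin 2) (ZMod 59)))) = 3480 ∧ ∀ v w : Fin 2 → ZMod 59, v ≠ 0 → w ≠ 0 → ∃! h : Subgroup.closure ({A, B, C} : Set (Matrix.GeneralLinearGroup (Fin 2) (ZMod 59))), Matrix.mulVec ((h : Matrix.GeneralLinearGroup (Fin 2) (ZMod 59)) : Matrix (Fin 2) (Fin 2) (ZMod 59)) v = w := by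
  have : Fact (Nat.Prime 59) := ⟨by norm_num⟩
  have hA' : (A : Matrix (Fin 2) (Fin 2) (ZMod 59)) = toMat 59 (0, 58, 1, 0) := by
    rw [hA]; unfold toMat; decide
  have hB' : (B : Matrix (Fin 2) (Fin 2) (ZMod 59)) = toMat 59 (9, 15, 49, 49) := by
    rw [hB]; unfold toMat; decide
  have hC' : (C : Matrix (Fin 2) (Fin 2) (ZMod 59)) = ((4 : ℕ) : ZMod 59) • 1 := by
    rw [hC]; ext i j; fin_cases i <;> fin_cases j <;> simp
  have hset : ({A, B, C} : Set (Matrix.GeneralLinearGroup (Fin 2) (ZMod 59))) = insert C {A, B} := by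
    ext x; simp only [Set.mem_insert_iff, Set.mem_singleton_iff]; tauto
  rw [hset]
  have hmain := main_central (p := 59) ({A, B} : Set (Matrix.GeneralLinearGroup (Fin 2) (ZMod 59))) C 4 29 hC' (by norm_num)
    (by decide +kernel) gs gis elts ?_ ?_ h_cl h_id h_gen h_nd h_red h_free h_scal h_len
  · exact ⟨by rw [hmain.1]; norm_num, hmain.2⟩
  · intro s hs
    simp only [Set.mem_insert_iff, Set.mem_singleton_iff] at hs
    rcases hs with rfl | rfl
    · exact ⟨(0, 58, 1, 0), by simp [gs], (0, 1, 58, 0), by simp [gis], hA', by decide⟩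
    · exact ⟨(9, 15, 49, 49), by simp [gs], (49, 44, 10, 9), by simp [gis], hB', by decide⟩
  · intro q hq
    simp only [gs, List.mem_cons, List.mem_nil_iff, or_false] at hq
    rcases hq with rfl | rfl
    · exact ⟨A, by simp, hA'⟩
    · exact ⟨B, by simp, hB'⟩

end Cfsg.Agent.S0693
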