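import Cfsg.Statements.S0694
import Cfsg.Agent.Helper58.Dickson

set_option autoImplicit false
open Cfsg

namespace Cfsg.Agent.S0694

/-- The Dickson pair condition: for a prime power `q` and `n > 1`, (every prime factor of `n` divides `q - 1`, and `4 ∣ n → 4 ∣ q - 1`) holds exactly when `q ^ n ≡ 1` modulo `n * (q - 1)` but `q ^ i` is not, for `0 < i < n`. -/
theorem result (q n : ℕ) (hq : IsPrimePow q) (hn : 1 < n) : ((∀ r : ℕ, r.Prime → r ∣ n → r ∣ q - 1) ∧ (4 ∣ n → 4 ∣ q - 1)) ↔ (q ^ n ≡ 1 [MOD n * (q - 1)] ∧ ∀ i : ℕ, 0 < i → i < n → ¬ q ^ i ≡ 1 [MOD n * (q - 1)]) := by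
  exact Cfsg.Agent.Helper58.dickson_iff q n hq.two_le hn

end Cfsg.Agent.S0694
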