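import Cfsg.Statements.S0697
import Mathlib
import Cfsg.Agent.Helper12.KPrimNormal

set_option autoImplicit false
open Cfsg

namespace Cfsg.Agent.S0697

/-- In a `k`-primitive permutation group which is not the whole symmetric group, a non-trivial non-regular normal subgroup is `k`-transitive. -/
theorem result {α : Type*} [Fintype α] [DecidableEq α] (G : Subgroup (Equiv.Perm α)) {k : ℕ} (hk : 1 ≤ k) (hkn : k ≤ Fintype.card α) (hG : MulAction.IsMultiplyPreprimitive G α k) (htop : G ≠ ⊤) (H : Subgroup G) [H.Normal] (hH : H ≠ ⊥) (hnr : ∃ a : α, MulAction.stabilizer H a ≠ ⊥) : MulAction.IsMultiplyPretransitive H α k := by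
  have hcard : k ≤ Nat.card α := by rw [Nat.card_eq_fintype_card]; exact hkn
  have hlt : Nat.card G < (Nat.card α).factorial := by
    rw [← Nat.card_perm]
    apply lt_of_le_of_ne (Subgroup.card_le_card_group G)
    intro h
    exact htop (Subgroup.eq_top_of_card_eq G h)
  exact Cfsg.Agent.Helper12.kprim_normal_aux k G α hk hcard hG hlt H hH (Or.inr hnr)

end Cfsg.Agent.S0697
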