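import Cfsg.Statements.S0699
import Mathlib

set_option autoImplicit false
open Cfsg

namespace Cfsg.Agent.S0699

universe u v

open scoped Pointwise

/-- Two involutions `a, b` whose product `b a` has odd order `2j+1` are conjugate by
`(b a)^(j+1)`. -/
theorem dih_conj {P : Type*} [Group P] (a b : P) (ha : a * a = 1) (hb : b * b = 1) (j : ℕ)
    (hc : (b * a) ^ (2 * j + 1) = 1) :
    (b * a) ^ (j + 1) * a * ((b * a) ^ (j + 1))⁻¹ = b := by
  have hsc : SemiconjBy a (b * a) (b * a)⁻¹ := by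
    show a * (b * a) = (b * a)⁻¹ * a
    have hinv : (b * a)⁻¹ = a * b := by
      rw [inv_eq_iff_mul_eq_one]
      calc b * a * (a * b) = b * (a * a) * b := by group
        _ = 1 := by rw [ha, mul_one, hb]
    rw [hinv]; group
  have h1 : a * (b * a) ^ (j + 1) = ((b * a) ^ (j + 1))⁻¹ * a := by
    have := (hsc.pow_right (j + 1)).eq
    rwa [inv_pow] at this
  have h2 : b * (b * a) ^ (j + 1) * (b * a) ^ (j + 1) = a := by
    rw [mul_assoc, ← pow_add]
    have e : j + 1 + (j + 1) = (2 * j + 1) + 1 := by ring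
    rw [e, pow_succ, hc, one_mul, ← mul_assoc, hb, one_mul]
  rw [mul_inv_eq_iff_eq_mul]
  have h3 : (b * a) ^ (j + 1) * a * (b * a) ^ (j + 1) = a := by
    rw [mul_assoc, h1, ← mul_assoc, mul_inv_cancel, one_mul]
  exact mul_right_cancel (h3.trans h2.symm)

variable {G : Type u} [Group G] [Finite G]

/-- Sylow's theorem inside a subgroup `L`, in cardinality form: a `p`-subgroup `T` of `L` is
conjugate under `L` into a subgroup `S` of `L` whose order is the full `p`-part of `|L|`. -/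
theorem sylow_sub (p : ℕ) [Fact p.Prime] (L S T : Subgroup G) (hS : S ≤ L) (hT : T ≤ L)
    (hcard : Nat.card S = p ^ (Nat.card L).factorization p) (hTp : IsPGroup p T) :
    ∃ x ∈ L, ∀ t ∈ T, x * t * x⁻¹ ∈ S := by
  have hS' : Nat.card (S.subgroupOf L) = p ^ (Nat.card L).factorization p := by
    rw [← hcard]
    exact Nat.card_congr (Subgroup.subgroupOfEquivOfLe hS).toEquiv
  let P : Sylow p L := Sylow.ofCard (S.subgroupOf L) hS'
  have hT' : IsPGroup p (T.subgroupOf L) := hTp.comap_subtype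
  obtain ⟨Q, hQ⟩ := hT'.exists_le_sylow
  obtain ⟨g, hg⟩ := MulAction.exists_smul_eq L Q P
  refine ⟨g, g.2, ?_⟩
  intro t ht
  have h1 : (⟨t, hT ht⟩ : L) ∈ (Q : Subgroup L) := hQ (Subgroup.mem_subgroupOf.mpr ht)
  have h2 : MulAut.conj g • (⟨t, hT ht⟩ : L) ∈ MulAut.conj g • (Q : Subgroup L) :=
    Subgroup.smul_mem_pointwise_smul _ _ _ h1
  rw [← Sylow.coe_subgroup_smul, hg] at h2
  have h3 : MulAut.conj g • (⟨t, hT ht⟩ : L) ∈ S.subgroupOf L := h2
  rw [Subgroup.mem_subgroupOf] at h3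
  simpa [MulAut.smul_def] using h3

/-- Existence of a Sylow `p`-subgroup of a subgroup, in cardinality form. -/
theorem sylow_exists (p : ℕ) [Fact p.Prime] (L : Subgroup G) :
    ∃ S : Subgroup G, S ≤ L ∧ Nat.card S = p ^ (Nat.card L).factorization p := by
  obtain ⟨P⟩ : Nonempty (Sylow p L) := inferInstance
  refine ⟨(P : Subgroup L).map L.subtype, Subgroup.map_subtype_le _, ?_⟩
  rw [Subgroup.card_map_of_injective L.subtype_injective]
  exact P.card_eq_multiplicity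

/-- A full `p`-part subgroup of `D` contained in `L ≤ D` has the full `p`-part of `|L|`. -/
theorem sylow_inter (p : ℕ) [Fact p.Prime] (L D S : Subgroup G) (hSL : S ≤ L) (hLD : L ≤ D)
    (hcard : Nat.card S = p ^ (Nat.card D).factorization p) :
    Nat.card S = p ^ (Nat.card L).factorization p := by
  have hp : p.Prime := Fact.out
  have hL0 : Nat.card L ≠ 0 := Nat.card_pos.ne'
  have hD0 : Nat.card D ≠ 0 := Nat.card_pos.ne'
  have h1 : (Nat.card L).factorization p ≤ (Nat.card D).factorization p :=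
    (Nat.factorization_le_iff_dvd hL0 hD0).mpr (Subgroup.card_dvd_of_le hLD) p
  have h2 : p ^ (Nat.card D).factorization p ∣ Nat.card L := by
    rw [← hcard]; exact Subgroup.card_dvd_of_le hSL
  have h3 : (Nat.card D).factorization p ≤ (Nat.card L).factorization p :=
    (hp.pow_dvd_iff_le_factorization hL0).mp h2
  rw [hcard, le_antisymm h1 h3]

/-- If `m⁻¹ S m ⊆ S` then `m` normalises the finite subgroup `S`. -/
theorem mem_normalizer_of_conj (S : Subgroup G) (m : G) (h : ∀ s ∈ S, m⁻¹ * s * m ∈ S) :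
    m ∈ Subgroup.normalizer (S : Set G) := by
  have hsurj : ∀ s ∈ S, ∃ s₀ ∈ S, m⁻¹ * s₀ * m = s := by
    let f : S → S := fun s => ⟨m⁻¹ * s * m, h s s.2⟩
    have hf : Function.Injective f := by
      intro a b hab
      have := congrArg Subtype.val hab
      simp only [f] at this
      exact Subtype.ext (mul_left_cancel (mul_right_cancel this))
    have hs := Finite.surjective_of_injective hf
    intro s hs'
    obtain ⟨s₀, h0⟩ := hs ⟨s, hs'⟩
    exact ⟨s₀, s₀.2, congrArg Subtype.val h0⟩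
  rw [Subgroup.mem_normalizer_iff]
  intro x
  constructor
  · intro hx
    obtain ⟨s₀, hs₀, h0⟩ := hsurj x hx
    have : m * x * m⁻¹ = s₀ := by rw [← h0]; group
    rw [this]; exact hs₀
  · intro hx
    have := h _ hx
    have e : m⁻¹ * (m * x * m⁻¹) * m = x := by group
    rwa [e] at this

/-- Core of Witt's lemma: if `S` has the full `2`-part of `|L|` and `g⁻¹ S g ≤ L`, then `g x⁻¹`
normalises `S` for some `x ∈ L`. -/
theorem witt_core (L S : Subgroup G) (hSL : S ≤ L)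
    (hcard : Nat.card S = 2 ^ (Nat.card L).factorization 2) (g : G)
    (hg : ∀ s ∈ S, g⁻¹ * s * g ∈ L) :
    ∃ x ∈ L, g * x⁻¹ ∈ Subgroup.normalizer (S : Set G) := by
  have hT : S.map (MulAut.conj g⁻¹).toMonoidHom ≤ L := by
    rintro _ ⟨s, hs, rfl⟩
    have := hg s hs
    simpa using this
  have hTp : IsPGroup 2 (S.map (MulAut.conj g⁻¹).toMonoidHom) := (IsPGroup.of_card hcard).map _
  obtain ⟨x, hx, hxT⟩ := sylow_sub 2 L S _ hSL hT hcard hTp
  refine ⟨x, hx, mem_normalizer_of_conj S _ ?_⟩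
  intro s hs
  have h1 : g⁻¹ * s * g ∈ S.map (MulAut.conj g⁻¹).toMonoidHom :=
    ⟨s, hs, by simp⟩
  have h2 := hxT _ h1
  have e : (g * x⁻¹)⁻¹ * s * (g * x⁻¹) = x * (g⁻¹ * s * g) * x⁻¹ := by group
  rw [e]; exact h2

/-- An element of `2`-power order acting on a finite set of odd size has a fixed point. -/
theorem exists_fixed_of_two_pow {P : Type*} [Group P] {X : Type*} [Finite X] [MulAction P X]
    (t : P) (e : ℕ) (ht : t ^ 2 ^ e = 1) (hodd : Odd (Nat.card X)) : ∃ ω : X, t • ω = ω := by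
  have hp : IsPGroup 2 (Subgroup.zpowers t) := by
    intro g
    obtain ⟨k, hk⟩ := Subgroup.mem_zpowers_iff.mp g.2
    refine ⟨e, Subtype.ext ?_⟩
    show (g : P) ^ 2 ^ e = 1
    rw [← hk, ← zpow_natCast, ← zpow_mul, mul_comm, zpow_mul, zpow_natCast, ht, one_zpow]
  have h := hp.card_modEq_card_fixedPoints X
  have hne : (MulAction.fixedPoints (Subgroup.zpowers t) X).Nonempty := by
    by_contra hemp
    rw [Set.not_nonempty_iff_eq_empty] at hemp
    rw [hemp] at h
    have h0 : Nat.card X % 2 = 0 := by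
      have := h
      simp only [Nat.ModEq, Nat.card_eq_fintype_card] at this
      simpa using this
    rcases hodd with ⟨k, hk⟩
    omega
  obtain ⟨ω, hω⟩ := hne
  exact ⟨ω, hω ⟨t, Subgroup.mem_zpowers t⟩⟩

variable {Ω : Type v} [Finite Ω] [MulAction G Ω]

/-- A nontrivial normal subgroup of a `3`-transitive group of odd degree `≥ 4` is `2`-transitive. -/
theorem two_trans (hodd : Odd (Nat.card Ω)) (h4 : 4 ≤ Nat.card Ω)
    (hG : ∀ a b c a' b' c' : Ω, a ≠ b → a ≠ c → b ≠ c → a' ≠ b' → a' ≠ c' → b' ≠ c' →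
      ∃ g : G, g • a = a' ∧ g • b = b' ∧ g • c = c')
    (N : Subgroup G) (hN : N.Normal) (hnt : ∃ x ∈ N, ∃ ω : Ω, x • ω ≠ ω) :
    ∀ a b a' b' : Ω, a ≠ b → a' ≠ b' → ∃ x ∈ N, x • a = a' ∧ x • b = b' := by
  classical
  have hfourth : ∀ a b c : Ω, ∃ d, d ≠ a ∧ d ≠ b ∧ d ≠ c := by
    intro a b c
    by_contra hcon
    push Not at hcon
    have hsub : (Set.univ : Set Ω) ⊆ {a, b, c} := by
      intro d _
      by_cases h1 : d = a
      · simp [h1]
      · by_cases h2 : d = b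
        · simp [h2]
        · simp [hcon d h1 h2]
    have h1 := Set.ncard_le_ncard hsub (Set.toFinite _)
    rw [Set.ncard_univ] at h1
    have h2 : ({a, b, c} : Set Ω).ncard ≤ 3 := by
      calc ({a, b, c} : Set Ω).ncard ≤ ({b, c} : Set Ω).ncard + 1 := Set.ncard_insert_le _ _
        _ ≤ (({c} : Set Ω).ncard + 1) + 1 := by
            have := Set.ncard_insert_le b ({c} : Set Ω); omega
        _ = 3 := by rw [Set.ncard_singleton]
    omega
  have hthird : ∀ a b : Ω, ∃ c, c ≠ a ∧ c ≠ b := by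
    intro a b
    obtain ⟨d, h1, h2, -⟩ := hfourth a b b
    exact ⟨d, h1, h2⟩
  have hG2 : ∀ a b a' b' : Ω, a ≠ b → a' ≠ b' → ∃ g : G, g • a = a' ∧ g • b = b' := by
    intro a b a' b' hab hab'
    obtain ⟨c, hca, hcb⟩ := hthird a b
    obtain ⟨c', hca', hcb'⟩ := hthird a' b'
    obtain ⟨g, h1, h2, -⟩ := hG a b c a' b' c' hab hca.symm hcb.symm hab' hca'.symm hcb'.symm
    exact ⟨g, h1, h2⟩
  obtain ⟨x, hx, α, hxα⟩ := hnt
  have htr : ∀ a b : Ω, ∃ y ∈ N, y • a = b := by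
    intro a b
    by_cases hab : a = b
    · exact ⟨1, N.one_mem, by rw [one_smul, hab]⟩
    · obtain ⟨g, h1, h2⟩ := hG2 α (x • α) a b (Ne.symm hxα) hab
      refine ⟨g * x * g⁻¹, hN.conj_mem x hx g, ?_⟩
      rw [mul_smul, mul_smul, ← h1, inv_smul_smul, h2]
  by_cases hcase : ∃ y ∈ N, ∃ a₀ c : Ω, y • a₀ = a₀ ∧ y • c ≠ c
  · obtain ⟨y, hy, a₀, c, hya, hyc⟩ := hcase
    have hca : c ≠ a₀ := by rintro rfl; exact hyc hya
    have hyca : y • c ≠ a₀ := by
      intro h
      apply hca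
      have : y • c = y • a₀ := by rw [h, hya]
      exact MulAction.injective y this
    have hst : ∀ a b b' : Ω, b ≠ a → b' ≠ a → ∃ z ∈ N, z • a = a ∧ z • b = b' := by
      intro a b b' hb hb'
      by_cases hbb : b = b'
      · exact ⟨1, N.one_mem, one_smul _ _, by rw [one_smul, hbb]⟩
      · obtain ⟨g, h1, h2, h3⟩ := hG a₀ c (y • c) a b b' hca.symm hyca.symm (Ne.symm hyc)
          hb.symm hb'.symm hbb
        refine ⟨g * y * g⁻¹, hN.conj_mem y hy g, ?_, ?_⟩
        · rw [mul_smul, mul_smul, ← h1, inv_smul_smul, hya]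
        · rw [mul_smul, mul_smul, ← h2, inv_smul_smul, h3]
    intro a b a' b' hab hab'
    obtain ⟨y₁, hy₁, h1⟩ := htr a a'
    have hne : y₁ • b ≠ a' := by
      rw [← h1]
      intro h
      exact hab (MulAction.injective y₁ h).symm
    obtain ⟨z, hz, h2, h3⟩ := hst a' (y₁ • b) b' hne hab'.symm
    exact ⟨z * y₁, N.mul_mem hz hy₁, by rw [mul_smul, h1, h2], by rw [mul_smul, h3]⟩
  · exfalso
    push Not at hcase
    have hγβ : x • (x • α) ≠ x • α := by
      intro h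
      exact hxα (hcase x hx (x • α) α h)
    have hγα : x • (x • α) ≠ α := by
      intro h
      have hx2 : ∀ ω : Ω, (x * x) • ω = ω := fun ω =>
        hcase (x * x) (N.mul_mem hx hx) α ω (by rw [mul_smul]; exact h)
      have hperm : (MulAction.toPerm x : Equiv.Perm Ω) ^ 2 ^ 1 = 1 := by
        ext ω
        simp only [pow_one, pow_two, Equiv.Perm.coe_mul, Function.comp_apply,
          MulAction.toPerm_apply, Equiv.Perm.coe_one, id_eq]
        rw [← mul_smul]; exact hx2 ω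
      obtain ⟨ω, hω⟩ := exists_fixed_of_two_pow (X := Ω) (MulAction.toPerm x : Equiv.Perm Ω) 1
        hperm hodd
      exact hxα (hcase x hx ω α hω)
    obtain ⟨δ, hδα, hδβ, hδγ⟩ := hfourth α (x • α) (x • (x • α))
    obtain ⟨g, h1, h2, h3⟩ := hG α (x • α) (x • (x • α)) α (x • α) δ (Ne.symm hxα) hγα.symm
      hγβ.symm (Ne.symm hxα) hδα.symm hδβ.symm
    have hx' : g * x * g⁻¹ ∈ N := hN.conj_mem x hx g
    have hgα : g⁻¹ • α = α := inv_smul_eq_iff.mpr h1.symm
    have hgβ : g⁻¹ • (x • α) = x • α := inv_smul_eq_iff.mpr h2.symm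
    have e1 : (g * x * g⁻¹) • α = x • α := by rw [mul_smul, mul_smul, hgα, h2]
    have e2 : (x⁻¹ * (g * x * g⁻¹)) • α = α := by rw [mul_smul, e1, inv_smul_smul]
    have e3 := hcase _ (N.mul_mem (N.inv_mem hx) hx') α (x • α) e2
    have e4 : (g * x * g⁻¹) • (x • α) = x • (x • α) := by
      have : (g * x * g⁻¹) • (x • α) = x • ((x⁻¹ * (g * x * g⁻¹)) • (x • α)) := by
        rw [smul_smul x, mul_inv_cancel_left]
      rw [this, e3]
    have e5 : (g * x * g⁻¹) • (x • α) = δ := by rw [mul_smul, mul_smul, hgβ, h3]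
    exact hδγ (e5.symm.trans e4)


/-- Case A of Wagner's theorem: the `2`-elements of `N` fixing `α` and `β` act trivially. -/
theorem caseA (hodd : Odd (Nat.card Ω))
    (hG : ∀ a b c a' b' c' : Ω, a ≠ b → a ≠ c → b ≠ c → a' ≠ b' → a' ≠ c' → b' ≠ c' →
      ∃ g : G, g • a = a' ∧ g • b = b' ∧ g • c = c')
    (N : Subgroup G) (hN : N.Normal)
    (hN2 : ∀ a b a' b' : Ω, a ≠ b → a' ≠ b' → ∃ x ∈ N, x • a = a' ∧ x • b = b')
    (α β : Ω) (hαβ : α ≠ β)
    (hA : ∀ y ∈ N, y • α = α → y • β = β → (∃ e : ℕ, y ^ 2 ^ e = 1) → ∀ ω : Ω, y • ω = ω) :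
    ∀ γ δ : Ω, γ ≠ α → γ ≠ β → δ ≠ α → δ ≠ β →
      ∃ d ∈ N, d • α = α ∧ d • β = β ∧ d • γ = δ := by
  have hA' : ∀ a b : Ω, a ≠ b → ∀ y ∈ N, y • a = a → y • b = b → (∃ e : ℕ, y ^ 2 ^ e = 1) →
      ∀ ω : Ω, y • ω = ω := by
    intro a b hab y hy hya hyb ⟨e, he⟩ ω
    obtain ⟨g, hg, hga, hgb⟩ := hN2 α β a b hαβ hab
    have h1 : (g⁻¹ * y * g) • α = α := by
      rw [mul_smul, mul_smul, hga, hya, ← hga, inv_smul_smul]
    have h2 : (g⁻¹ * y * g) • β = β := by
      rw [mul_smul, mul_smul, hgb, hyb, ← hgb, inv_smul_smul]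
    have h3 : (g⁻¹ * y * g) ^ 2 ^ e = 1 := by
      have e1 : g⁻¹ * y * g = g⁻¹ * y * g⁻¹⁻¹ := by rw [inv_inv]
      rw [e1, conj_pow, he, mul_one, mul_inv_cancel]
    have h4 := hA (g⁻¹ * y * g) (N.mul_mem (N.mul_mem (N.inv_mem hg) hy) hg) h1 h2 ⟨e, h3⟩
      (g⁻¹ • ω)
    rw [mul_smul, mul_smul, smul_inv_smul] at h4
    exact MulAction.injective g⁻¹ h4
  have hsq : ∀ t : G, t ∈ N → t • α = β → t • β = α → (∃ e : ℕ, t ^ 2 ^ e = 1) →
      ∀ ω : Ω, t • t • ω = ω := by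
    intro t ht h1 h2 ⟨e, he⟩ ω
    have h3 : (t * t) ^ 2 ^ e = 1 := by
      rw [(Commute.refl t).mul_pow, he, one_mul]
    have := hA (t * t) (N.mul_mem ht ht) (by rw [mul_smul, h1, h2]) (by rw [mul_smul, h2, h1])
      ⟨e, h3⟩ ω
    rwa [mul_smul] at this
  have huniq : ∀ t : G, t ∈ N → t • α = β → (∃ e : ℕ, t ^ 2 ^ e = 1) → ∀ φ φ' : Ω,
      t • φ = φ → t • φ' = φ' → φ = φ' := by
    intro t ht h1 he φ φ' hφ hφ'
    by_contra hne
    have := hA' φ φ' hne t ht hφ hφ' he α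
    rw [h1] at this
    exact hαβ this.symm
  -- a first `2`-element swapping `α` and `β`
  obtain ⟨x, hx, hxα, hxβ⟩ := hN2 α β β α hαβ hαβ.symm
  obtain ⟨e, k, hk, hord⟩ := Nat.exists_eq_two_pow_mul_odd (orderOf_pos x).ne'
  have hxeven : ∀ j : ℕ, (x ^ (2 * j)) • α = α ∧ (x ^ (2 * j)) • β = β := by
    intro j
    induction j with
    | zero => simp
    | succ j ih =>
      have e1 : x ^ (2 * (j + 1)) = x ^ (2 * j) * x * x := by
        rw [mul_add, pow_add, mul_one, pow_two, mul_assoc]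
      rw [e1]
      constructor
      · rw [mul_smul, mul_smul, hxα, hxβ, ih.1]
      · rw [mul_smul, mul_smul, hxβ, hxα, ih.2]
  obtain ⟨j, hj⟩ := hk
  have ht0α : (x ^ k) • α = β := by
    rw [hj, pow_succ, mul_smul, hxα]
    exact (hxeven j).2
  have ht0β : (x ^ k) • β = α := by
    rw [hj, pow_succ, mul_smul, hxβ]
    exact (hxeven j).1
  have ht0e : (x ^ k) ^ 2 ^ e = 1 := by
    rw [← pow_mul, mul_comm, ← hord, pow_orderOf_eq_one]
  have ht0N : x ^ k ∈ N := N.pow_mem hx k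
  obtain ⟨φ₀, hφ₀⟩ := exists_fixed_of_two_pow (X := Ω) (x ^ k) e ht0e hodd
  have hφα : φ₀ ≠ α := by
    rintro rfl
    rw [ht0α] at hφ₀
    exact hαβ hφ₀.symm
  have hφβ : φ₀ ≠ β := by
    rintro rfl
    rw [ht0β] at hφ₀
    exact hαβ hφ₀
  have hgood : ∀ γ : Ω, γ ≠ α → γ ≠ β → ∃ t ∈ N, t • α = β ∧ t • β = α ∧
      (∃ e : ℕ, t ^ 2 ^ e = 1) ∧ t • γ = γ := by
    intro γ hγα hγβ
    obtain ⟨k', h1, h2, h3⟩ := hG α β φ₀ α β γ hαβ hφα.symm hφβ.symm hαβ hγα.symm hγβ.symm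
    have i1 : k'⁻¹ • α = α := inv_smul_eq_iff.mpr h1.symm
    have i2 : k'⁻¹ • β = β := inv_smul_eq_iff.mpr h2.symm
    have i3 : k'⁻¹ • γ = φ₀ := inv_smul_eq_iff.mpr h3.symm
    refine ⟨k' * x ^ k * k'⁻¹, hN.conj_mem _ ht0N k', ?_, ?_, ⟨e, ?_⟩, ?_⟩
    · rw [mul_smul, mul_smul, i1, ht0α, h2]
    · rw [mul_smul, mul_smul, i2, ht0β, h1]
    · rw [conj_pow, ht0e, mul_one, mul_inv_cancel]
    · rw [mul_smul, mul_smul, i3, hφ₀, h3]
  intro γ δ hγα hγβ hδα hδβ
  obtain ⟨t, htN, htα, htβ, hte, htγ⟩ := hgood γ hγα hγβ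
  obtain ⟨t', ht'N, ht'α, ht'β, ht'e, ht'δ⟩ := hgood δ hδα hδβ
  have huN : t' * t ∈ N := N.mul_mem ht'N htN
  have huα : (t' * t) • α = α := by rw [mul_smul, htα, ht'β]
  have huβ : (t' * t) • β = β := by rw [mul_smul, htβ, ht'α]
  obtain ⟨e', k', hk', hord'⟩ := Nat.exists_eq_two_pow_mul_odd (orderOf_pos (t' * t)).ne'
  obtain ⟨j', hj'⟩ := hk'
  have hpowfix : ∀ i : ℕ, ((t' * t) ^ i) • α = α ∧ ((t' * t) ^ i) • β = β := by
    intro i
    induction i with
    | zero => simp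
    | succ i ih =>
      rw [pow_succ]
      constructor
      · rw [mul_smul, huα]
        exact ih.1
      · rw [mul_smul, huβ]
        exact ih.2
  have hutriv : ∀ ω : Ω, ((t' * t) ^ (2 * j' + 1)) • ω = ω := by
    apply hA _ (N.pow_mem huN _) (hpowfix _).1 (hpowfix _).2 ⟨e', ?_⟩
    rw [← pow_mul, ← hj', mul_comm, ← hord', pow_orderOf_eq_one]
  have ha : MulAction.toPermHom G Ω t * MulAction.toPermHom G Ω t = 1 := by
    ext ω
    simp only [Equiv.Perm.coe_mul, Function.comp_apply, MulAction.toPermHom_apply,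
      MulAction.toPerm_apply, Equiv.Perm.coe_one, id_eq]
    exact hsq t htN htα htβ hte ω
  have hb : MulAction.toPermHom G Ω t' * MulAction.toPermHom G Ω t' = 1 := by
    ext ω
    simp only [Equiv.Perm.coe_mul, Function.comp_apply, MulAction.toPermHom_apply,
      MulAction.toPerm_apply, Equiv.Perm.coe_one, id_eq]
    exact hsq t' ht'N ht'α ht'β ht'e ω
  have hc : (MulAction.toPermHom G Ω t' * MulAction.toPermHom G Ω t) ^ (2 * j' + 1) = 1 := by
    rw [← map_mul, ← map_pow]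
    ext ω
    simp only [MulAction.toPermHom_apply, MulAction.toPerm_apply, Equiv.Perm.coe_one, id_eq]
    exact hutriv ω
  have hconj := dih_conj _ _ ha hb j' hc
  rw [← map_mul, ← map_pow, ← map_inv, ← map_mul, ← map_mul] at hconj
  have h5 := congrArg (fun p : Equiv.Perm Ω => p (((t' * t) ^ (j' + 1)) • γ)) hconj
  simp only [MulAction.toPermHom_apply, MulAction.toPerm_apply] at h5
  rw [mul_smul, mul_smul, inv_smul_smul, htγ] at h5
  refine ⟨(t' * t) ^ (j' + 1), N.pow_mem huN _, (hpowfix _).1, (hpowfix _).2, ?_⟩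
  exact huniq t' ht'N ht'α ht'e _ _ h5.symm ht'δ


/-- The set of points fixed by every element of the subgroup `S`. -/
def fixSet (S : Subgroup G) (Ω : Type v) [MulAction G Ω] : Set Ω := {ω | ∀ s ∈ S, s • ω = ω}

omit [Finite G] [Finite Ω] in
theorem normalizer_smul_fixed (S : Subgroup G) (m : G)
    (hm : m ∈ Subgroup.normalizer (S : Set G)) (φ : Ω) (hφ : φ ∈ fixSet S Ω) :
    m • φ ∈ fixSet S Ω := by
  intro s hs
  have h1 : m⁻¹ * s * m ∈ S := by
    have := (Subgroup.mem_normalizer_iff.mp (inv_mem hm) s).mp hs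
    simpa using this
  have h2 := hφ _ h1
  rw [mul_smul, mul_smul, inv_smul_eq_iff] at h2
  exact h2

/-- The action of the normaliser of `S` on the fixed points of `S`. -/
@[reducible] def fixAction (S : Subgroup G) (Ω : Type v) [MulAction G Ω] :
    MulAction (Subgroup.normalizer (S : Set G)) (fixSet S Ω) where
  smul m φ := ⟨(m : G) • (φ : Ω), normalizer_smul_fixed (Ω := Ω) S (m : G) m.2 (φ : Ω) φ.2⟩
  one_smul φ := Subtype.ext (one_smul G (φ : Ω))
  mul_smul m m' φ := Subtype.ext (mul_smul (m : G) (m' : G) (φ : Ω))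

omit [Finite G] in
theorem fixSet_ncard_modEq (S : Subgroup G) (hS : IsPGroup 2 S) :
    Nat.card Ω ≡ (fixSet S Ω).ncard [MOD 2] := by
  have h := hS.card_modEq_card_fixedPoints Ω
  have e : MulAction.fixedPoints S Ω = fixSet S Ω := by
    ext ω
    simp only [MulAction.mem_fixedPoints, fixSet, Set.mem_ofPred_eq, Subtype.forall,
      Subgroup.mk_smul]
  rw [Nat.card_coe_set_eq, e] at h
  exact h

omit [Finite G] [Finite Ω] in
theorem card_stab2_eq (N : Subgroup G) (h : G) (hh : h ∈ N) (α β : Ω) :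
    Nat.card ↥(N ⊓ MulAction.stabilizer G (h • α) ⊓ MulAction.stabilizer G (h • β)) =
      Nat.card ↥(N ⊓ MulAction.stabilizer G α ⊓ MulAction.stabilizer G β) := by
  refine Nat.card_congr ⟨fun d => ⟨h⁻¹ * d * h, ?_⟩, fun d => ⟨h * d * h⁻¹, ?_⟩, ?_, ?_⟩
  · have hd := Subgroup.mem_inf.mp d.2
    have hd1 := Subgroup.mem_inf.mp hd.1
    have h1 : (d : G) ∈ N := hd1.1
    have h2 : (d : G) • (h • α) = h • α := MulAction.mem_stabilizer_iff.mp hd1.2
    have h3 : (d : G) • (h • β) = h • β := MulAction.mem_stabilizer_iff.mp hd.2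
    refine Subgroup.mem_inf.mpr ⟨Subgroup.mem_inf.mpr
      ⟨N.mul_mem (N.mul_mem (N.inv_mem hh) h1) hh, ?_⟩, ?_⟩
    · rw [MulAction.mem_stabilizer_iff, mul_smul, mul_smul, h2, inv_smul_smul]
    · rw [MulAction.mem_stabilizer_iff, mul_smul, mul_smul, h3, inv_smul_smul]
  · have hd := Subgroup.mem_inf.mp d.2
    have hd1 := Subgroup.mem_inf.mp hd.1
    have h1 : (d : G) ∈ N := hd1.1
    have h2 : (d : G) • α = α := MulAction.mem_stabilizer_iff.mp hd1.2
    have h3 : (d : G) • β = β := MulAction.mem_stabilizer_iff.mp hd.2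
    refine Subgroup.mem_inf.mpr ⟨Subgroup.mem_inf.mpr
      ⟨N.mul_mem (N.mul_mem hh h1) (N.inv_mem hh), ?_⟩, ?_⟩
    · rw [MulAction.mem_stabilizer_iff, mul_smul, mul_smul, inv_smul_smul, h2]
    · rw [MulAction.mem_stabilizer_iff, mul_smul, mul_smul, inv_smul_smul, h3]
  · intro d
    apply Subtype.ext
    show h * (h⁻¹ * (d : G) * h) * h⁻¹ = d
    group
  · intro d
    apply Subtype.ext
    show h⁻¹ * (h * (d : G) * h⁻¹) * h = d
    group


/-- Case B of Wagner's theorem: a Sylow `2`-subgroup `S` of `N_{αβ}` moves some point; induction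
on the fixed points of `S`, acted on by the normaliser of `S`. -/
theorem caseB
    (IH : ∀ (G' : Type u) [Group G'] [Finite G'] (Ω' : Type v) [Finite Ω'] [MulAction G' Ω'],
      Nat.card Ω' < Nat.card Ω → Odd (Nat.card Ω') → 5 ≤ Nat.card Ω' →
      (∀ a b c a' b' c' : Ω', a ≠ b → a ≠ c → b ≠ c → a' ≠ b' → a' ≠ c' → b' ≠ c' →
        ∃ g : G', g • a = a' ∧ g • b = b' ∧ g • c = c') →
      ∀ N' : Subgroup G', N'.Normal → (∃ x ∈ N', ∃ ω : Ω', x • ω ≠ ω) →
      ∀ a b c a' b' c' : Ω', a ≠ b → a ≠ c → b ≠ c → a' ≠ b' → a' ≠ c' → b' ≠ c' →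
        ∃ g ∈ N', g • a = a' ∧ g • b = b' ∧ g • c = c')
    (hodd : Odd (Nat.card Ω))
    (hG : ∀ a b c a' b' c' : Ω, a ≠ b → a ≠ c → b ≠ c → a' ≠ b' → a' ≠ c' → b' ≠ c' →
      ∃ g : G, g • a = a' ∧ g • b = b' ∧ g • c = c')
    (N : Subgroup G) (hN : N.Normal)
    (hN2 : ∀ a b a' b' : Ω, a ≠ b → a' ≠ b' → ∃ x ∈ N, x • a = a' ∧ x • b = b')
    (α β : Ω) (hαβ : α ≠ β)
    (S : Subgroup G) (hSD : S ≤ N ⊓ MulAction.stabilizer G α ⊓ MulAction.stabilizer G β)
    (hcard : Nat.card S =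
      2 ^ (Nat.card ↥(N ⊓ MulAction.stabilizer G α ⊓ MulAction.stabilizer G β)).factorization 2)
    (hmove : ∃ s ∈ S, ∃ ω : Ω, s • ω ≠ ω) :
    ∀ γ δ : Ω, γ ≠ α → γ ≠ β → δ ≠ α → δ ≠ β →
      ∃ d ∈ N, d • α = α ∧ d • β = β ∧ d • γ = δ := by
  classical
  have hSN : S ≤ N := fun s hs => (Subgroup.mem_inf.mp (Subgroup.mem_inf.mp (hSD hs)).1).1
  have hαF : α ∈ fixSet S Ω := fun s hs =>
    MulAction.mem_stabilizer_iff.mp (Subgroup.mem_inf.mp (Subgroup.mem_inf.mp (hSD hs)).1).2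
  have hβF : β ∈ fixSet S Ω := fun s hs =>
    MulAction.mem_stabilizer_iff.mp (Subgroup.mem_inf.mp (hSD hs)).2
  have hS2 : IsPGroup 2 S := IsPGroup.of_card hcard
  have hFodd : Odd (fixSet S Ω).ncard := by
    have h := fixSet_ncard_modEq (Ω := Ω) S hS2
    rcases hodd with ⟨k, hk⟩
    rw [Nat.odd_iff]
    have h' : Nat.card Ω % 2 = (fixSet S Ω).ncard % 2 := h
    omega
  -- a third fixed point
  have hφ₀ : ∃ φ₀ ∈ fixSet S Ω, φ₀ ≠ α ∧ φ₀ ≠ β := by
    by_contra hcon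
    push Not at hcon
    have hF : fixSet S Ω = {α, β} := by
      ext ω
      constructor
      · intro hω
        by_cases h1 : ω = α
        · simp [h1]
        · simp [hcon ω hω h1]
      · intro hω
        rcases hω with rfl | rfl
        · exact hαF
        · exact hβF
    rw [hF, Set.ncard_pair hαβ] at hFodd
    exact absurd hFodd (by decide)
  obtain ⟨φ₀, hφ₀F, hφα, hφβ⟩ := hφ₀
  -- Witt: the normaliser of `S` is `3`-transitive on the fixed points
  have hM3 : ∀ a b c a' b' c' : Ω, a ∈ fixSet S Ω → b ∈ fixSet S Ω → c ∈ fixSet S Ω →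
      a' ∈ fixSet S Ω → b' ∈ fixSet S Ω → c' ∈ fixSet S Ω →
      a ≠ b → a ≠ c → b ≠ c → a' ≠ b' → a' ≠ c' → b' ≠ c' →
      ∃ m ∈ Subgroup.normalizer (S : Set G), m • a = a' ∧ m • b = b' ∧ m • c = c' := by
    intro a b c a' b' c' ha hb hc ha' hb' hc' hab hac hbc hab' hac' hbc'
    obtain ⟨g, h1, h2, h3⟩ := hG a b c a' b' c' hab hac hbc hab' hac' hbc'
    have hSL : S ≤ N ⊓ MulAction.stabilizer G a ⊓ MulAction.stabilizer G b ⊓
        MulAction.stabilizer G c := fun s hs =>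
      Subgroup.mem_inf.mpr ⟨Subgroup.mem_inf.mpr ⟨Subgroup.mem_inf.mpr
        ⟨hSN hs, MulAction.mem_stabilizer_iff.mpr (ha s hs)⟩,
        MulAction.mem_stabilizer_iff.mpr (hb s hs)⟩, MulAction.mem_stabilizer_iff.mpr (hc s hs)⟩
    have hcardL : Nat.card S = 2 ^ (Nat.card ↥(N ⊓ MulAction.stabilizer G a ⊓
        MulAction.stabilizer G b ⊓ MulAction.stabilizer G c)).factorization 2 := by
      apply sylow_inter 2 _ (N ⊓ MulAction.stabilizer G a ⊓ MulAction.stabilizer G b) S hSL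
        inf_le_left
      obtain ⟨h, hh, hα, hβ⟩ := hN2 α β a b hαβ hab
      rw [hcard, ← hα, ← hβ, card_stab2_eq N h hh α β]
    obtain ⟨x, hx, hm⟩ := witt_core _ S hSL hcardL g (by
      intro s hs
      refine Subgroup.mem_inf.mpr ⟨Subgroup.mem_inf.mpr ⟨Subgroup.mem_inf.mpr ⟨?_, ?_⟩, ?_⟩, ?_⟩
      · have := hN.conj_mem s (hSN hs) g⁻¹
        simpa using this
      · rw [MulAction.mem_stabilizer_iff, mul_smul, mul_smul, h1, ha' s hs, ← h1, inv_smul_smul]
      · rw [MulAction.mem_stabilizer_iff, mul_smul, mul_smul, h2, hb' s hs, ← h2, inv_smul_smul]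
      · rw [MulAction.mem_stabilizer_iff, mul_smul, mul_smul, h3, hc' s hs, ← h3, inv_smul_smul])
    have hx1 := Subgroup.mem_inf.mp hx
    have hx2 := Subgroup.mem_inf.mp hx1.1
    have hx3 := Subgroup.mem_inf.mp hx2.1
    have hxa : x⁻¹ • a = a := inv_smul_eq_iff.mpr (MulAction.mem_stabilizer_iff.mp hx3.2).symm
    have hxb : x⁻¹ • b = b := inv_smul_eq_iff.mpr (MulAction.mem_stabilizer_iff.mp hx2.2).symm
    have hxc : x⁻¹ • c = c := inv_smul_eq_iff.mpr (MulAction.mem_stabilizer_iff.mp hx1.2).symm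
    refine ⟨g * x⁻¹, hm, ?_, ?_, ?_⟩
    · rw [mul_smul, hxa, h1]
    · rw [mul_smul, hxb, h2]
    · rw [mul_smul, hxc, h3]
  -- an element of `N` normalising `S` and swapping `α`, `β`
  have hnt : ∃ m ∈ N, m ∈ Subgroup.normalizer (S : Set G) ∧ m • α = β := by
    obtain ⟨g, hg, h1, h2⟩ := hN2 α β β α hαβ hαβ.symm
    obtain ⟨x, hx, hm⟩ := witt_core _ S hSD hcard g (by
      intro s hs
      refine Subgroup.mem_inf.mpr ⟨Subgroup.mem_inf.mpr
        ⟨N.mul_mem (N.mul_mem (N.inv_mem hg) (hSN hs)) hg, ?_⟩, ?_⟩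
      · rw [MulAction.mem_stabilizer_iff, mul_smul, mul_smul, h1, hβF s hs, ← h1, inv_smul_smul]
      · rw [MulAction.mem_stabilizer_iff, mul_smul, mul_smul, h2, hαF s hs, ← h2, inv_smul_smul])
    have hx1 := Subgroup.mem_inf.mp hx
    have hx2 := Subgroup.mem_inf.mp hx1.1
    have hxa : x⁻¹ • α = α := inv_smul_eq_iff.mpr (MulAction.mem_stabilizer_iff.mp hx2.2).symm
    refine ⟨g * x⁻¹, N.mul_mem hg (N.inv_mem hx2.1), hm, ?_⟩
    rw [mul_smul, hxa, h1]
  -- every point outside `{α, β}` can be moved into the fixed points by `N_{αβ}`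
  have hB1 : ∀ γ : Ω, γ ≠ α → γ ≠ β → ∃ d ∈ N, d • α = α ∧ d • β = β ∧ d • γ ∈ fixSet S Ω := by
    intro γ hγα hγβ
    obtain ⟨k, h1, h2, h3⟩ := hG α β γ α β φ₀ hαβ hγα.symm hγβ.symm hαβ hφα.symm hφβ.symm
    obtain ⟨x, hx, hm⟩ := witt_core _ S hSD hcard k (by
      intro s hs
      refine Subgroup.mem_inf.mpr ⟨Subgroup.mem_inf.mpr ⟨?_, ?_⟩, ?_⟩
      · have := hN.conj_mem s (hSN hs) k⁻¹
        simpa using this
      · rw [MulAction.mem_stabilizer_iff, mul_smul, mul_smul, h1, hαF s hs, inv_smul_eq_iff, h1]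
      · rw [MulAction.mem_stabilizer_iff, mul_smul, mul_smul, h2, hβF s hs, inv_smul_eq_iff, h2])
    have hx1 := Subgroup.mem_inf.mp hx
    have hx2 := Subgroup.mem_inf.mp hx1.1
    refine ⟨x, hx2.1, MulAction.mem_stabilizer_iff.mp hx2.2, MulAction.mem_stabilizer_iff.mp hx1.2,
      ?_⟩
    have h4 := normalizer_smul_fixed (Ω := Ω) S _ (inv_mem hm) φ₀ hφ₀F
    have e1 : (k * x⁻¹)⁻¹ • φ₀ = x • γ := by
      rw [mul_inv_rev, inv_inv, mul_smul, ← h3, inv_smul_smul]
    rwa [e1] at h4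
  -- `N_{αβ}` is transitive on the remaining fixed points
  have hF3 : ∀ φ φ' : Ω, φ ∈ fixSet S Ω → φ' ∈ fixSet S Ω → φ ≠ α → φ ≠ β → φ' ≠ α → φ' ≠ β →
      ∃ x ∈ N, x • α = α ∧ x • β = β ∧ x • φ = φ' := by
    intro φ φ' hφF hφ'F h1 h2 h1' h2'
    by_cases hφφ : φ = φ'
    · exact ⟨1, N.one_mem, one_smul _ _, one_smul _ _, by rw [one_smul, hφφ]⟩
    · have h4 : 4 ≤ (fixSet S Ω).ncard := by
        have hsub : ({α, β, φ, φ'} : Set Ω) ⊆ fixSet S Ω := by
          intro ω hω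
          rcases hω with rfl | rfl | rfl | rfl
          · exact hαF
          · exact hβF
          · exact hφF
          · exact hφ'F
        have hc4 : ({α, β, φ, φ'} : Set Ω).ncard = 4 := by
          rw [Set.ncard_insert_of_notMem (by simp [hαβ, Ne.symm h1, Ne.symm h1']),
            Set.ncard_insert_of_notMem (by simp [Ne.symm h2, Ne.symm h2']), Set.ncard_pair hφφ]
        rw [← hc4]
        exact Set.ncard_le_ncard hsub (Set.toFinite _)
      have h5 : 5 ≤ (fixSet S Ω).ncard := by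
        rcases hFodd with ⟨k, hk⟩
        omega
      obtain ⟨s₀, hs₀, ω₀, hω₀⟩ := hmove
      have hlt : Nat.card (fixSet S Ω) < Nat.card Ω :=
        Finite.card_subtype_lt (x := ω₀) (fun h => hω₀ (h s₀ hs₀))
      let _ := fixAction S Ω
      obtain ⟨m, hmN, hmM, hmα⟩ := hnt
      have key := IH (Subgroup.normalizer (S : Set G)) (fixSet S Ω) hlt
        (by rw [Nat.card_coe_set_eq]; exact hFodd) (by rw [Nat.card_coe_set_eq]; exact h5)
        (by
          intro a b c a' b' c' hab hac hbc hab' hac' hbc'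
          obtain ⟨m', hm', e1, e2, e3⟩ := hM3 a b c a' b' c' a.2 b.2 c.2 a'.2 b'.2 c'.2
            (fun h => hab (Subtype.ext h)) (fun h => hac (Subtype.ext h))
            (fun h => hbc (Subtype.ext h)) (fun h => hab' (Subtype.ext h))
            (fun h => hac' (Subtype.ext h)) (fun h => hbc' (Subtype.ext h))
          exact ⟨⟨m', hm'⟩, Subtype.ext e1, Subtype.ext e2, Subtype.ext e3⟩)
        (N.subgroupOf (Subgroup.normalizer (S : Set G))) (hN.subgroupOf _)
        ⟨⟨m, hmM⟩, Subgroup.mem_subgroupOf.mpr hmN, ⟨α, hαF⟩, by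
          intro h
          have := congrArg Subtype.val h
          exact hαβ (this.symm.trans hmα)⟩
        ⟨α, hαF⟩ ⟨β, hβF⟩ ⟨φ, hφF⟩ ⟨α, hαF⟩ ⟨β, hβF⟩ ⟨φ', hφ'F⟩
        (fun h => hαβ (congrArg Subtype.val h)) (fun h => h1 (congrArg Subtype.val h).symm)
        (fun h => h2 (congrArg Subtype.val h).symm) (fun h => hαβ (congrArg Subtype.val h))
        (fun h => h1' (congrArg Subtype.val h).symm) (fun h => h2' (congrArg Subtype.val h).symm)
      obtain ⟨g, hg, e1, e2, e3⟩ := key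
      exact ⟨(g : G), Subgroup.mem_subgroupOf.mp hg, congrArg Subtype.val e1,
        congrArg Subtype.val e2, congrArg Subtype.val e3⟩
  intro γ δ hγα hγβ hδα hδβ
  obtain ⟨d₁, hd₁, a1, b1, f1⟩ := hB1 γ hγα hγβ
  obtain ⟨d₂, hd₂, a2, b2, f2⟩ := hB1 δ hδα hδβ
  have n1 : d₁ • γ ≠ α := by
    intro h
    rw [← a1] at h
    exact hγα (MulAction.injective d₁ h)
  have n2 : d₁ • γ ≠ β := by
    intro h
    rw [← b1] at h
    exact hγβ (MulAction.injective d₁ h)
  have n3 : d₂ • δ ≠ α := by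
    intro h
    rw [← a2] at h
    exact hδα (MulAction.injective d₂ h)
  have n4 : d₂ • δ ≠ β := by
    intro h
    rw [← b2] at h
    exact hδβ (MulAction.injective d₂ h)
  obtain ⟨x, hx, xa, xb, xf⟩ := hF3 _ _ f1 f2 n1 n2 n3 n4
  refine ⟨d₂⁻¹ * x * d₁, N.mul_mem (N.mul_mem (N.inv_mem hd₂) hx) hd₁, ?_, ?_, ?_⟩
  · rw [mul_smul, mul_smul, a1, xa, inv_smul_eq_iff, a2]
  · rw [mul_smul, mul_smul, b1, xb, inv_smul_eq_iff, b2]
  · rw [mul_smul, mul_smul, xf, inv_smul_smul]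


/-- Wagner's theorem in abstract form, by strong induction on the degree. -/
theorem wagner_aux : ∀ (n : ℕ) (G : Type u) [Group G] [Finite G] (Ω : Type v) [Finite Ω]
    [MulAction G Ω], Nat.card Ω = n → Odd n → 5 ≤ n →
    (∀ a b c a' b' c' : Ω, a ≠ b → a ≠ c → b ≠ c → a' ≠ b' → a' ≠ c' → b' ≠ c' →
      ∃ g : G, g • a = a' ∧ g • b = b' ∧ g • c = c') →
    ∀ N : Subgroup G, N.Normal → (∃ x ∈ N, ∃ ω : Ω, x • ω ≠ ω) →
    ∀ a b c a' b' c' : Ω, a ≠ b → a ≠ c → b ≠ c → a' ≠ b' → a' ≠ c' → b' ≠ c' →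
      ∃ g ∈ N, g • a = a' ∧ g • b = b' ∧ g • c = c' := by
  intro n
  induction n using Nat.strong_induction_on with
  | _ n ih =>
    intro G _ _ Ω _ _ hn hodd h5 hG N hN hnt
    subst hn
    have hN2 := two_trans hodd (by omega) hG N hN hnt
    have hstab : ∀ α β : Ω, α ≠ β → ∀ γ δ : Ω, γ ≠ α → γ ≠ β → δ ≠ α → δ ≠ β →
        ∃ d ∈ N, d • α = α ∧ d • β = β ∧ d • γ = δ := by
      intro α β hαβ
      obtain ⟨S, hSD, hcard⟩ :=
        sylow_exists 2 (N ⊓ MulAction.stabilizer G α ⊓ MulAction.stabilizer G β)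
      by_cases htriv : ∀ s ∈ S, ∀ ω : Ω, s • ω = ω
      · apply caseA hodd hG N hN hN2 α β hαβ
        intro y hy hyα hyβ ⟨e, he⟩ ω
        have hT : Subgroup.zpowers y ≤
            N ⊓ MulAction.stabilizer G α ⊓ MulAction.stabilizer G β := by
          rw [Subgroup.zpowers_le]
          exact Subgroup.mem_inf.mpr ⟨Subgroup.mem_inf.mpr
            ⟨hy, MulAction.mem_stabilizer_iff.mpr hyα⟩, MulAction.mem_stabilizer_iff.mpr hyβ⟩
        have hTp : IsPGroup 2 (Subgroup.zpowers y) := by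
          intro g
          obtain ⟨k, hk⟩ := Subgroup.mem_zpowers_iff.mp g.2
          refine ⟨e, Subtype.ext ?_⟩
          show (g : G) ^ 2 ^ e = 1
          rw [← hk, ← zpow_natCast, ← zpow_mul, mul_comm, zpow_mul, zpow_natCast, he, one_zpow]
        obtain ⟨x, hx, hxT⟩ := sylow_sub 2 _ S _ hSD hT hcard hTp
        have h1 := htriv _ (hxT y (Subgroup.mem_zpowers y)) (x • ω)
        rw [mul_smul, mul_smul, inv_smul_smul] at h1
        exact MulAction.injective x h1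
      · push Not at htriv
        exact caseB (fun G' _ _ Ω' _ _ hlt ho h5' hG' N' hN' hnt' =>
          ih (Nat.card Ω') hlt G' Ω' rfl ho h5' hG' N' hN' hnt') hodd hG N hN hN2 α β hαβ S hSD
          hcard htriv
    intro a b c a' b' c' hab hac hbc hab' hac' hbc'
    obtain ⟨x, hx, h1, h2⟩ := hN2 a b a' b' hab hab'
    have hc1 : x • c ≠ a' := by
      rw [← h1]
      exact fun h => hac (MulAction.injective x h).symm
    have hc2 : x • c ≠ b' := by
      rw [← h2]
      exact fun h => hbc (MulAction.injective x h).symm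
    obtain ⟨d, hd, h3, h4, h6⟩ := hstab a' b' hab' (x • c) c' hc1 hc2 hac'.symm hbc'.symm
    exact ⟨d * x, N.mul_mem hd hx, by rw [mul_smul, h1, h3], by rw [mul_smul, h2, h4],
      by rw [mul_smul, h6]⟩

/-- Wagner's Theorem: a non-trivial normal subgroup of a triply transitive permutation group of odd degree at least 5 is triply transitive. -/
theorem result {α : Type*} [Fintype α] [DecidableEq α] (G : Subgroup (Equiv.Perm α)) (hodd : Odd (Fintype.card α)) (h5 : 5 ≤ Fintype.card α) (hG : MulAction.IsMultiplyPretransitive G α 3) (N : Subgroup G) [N.Normal] (hN : N ≠ ⊥) : MulAction.IsMultiplyPretransitive N α 3 := by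
  have hG3 : ∀ a b c a' b' c' : α, a ≠ b → a ≠ c → b ≠ c → a' ≠ b' → a' ≠ c' → b' ≠ c' →
      ∃ g : G, g • a = a' ∧ g • b = b' ∧ g • c = c' := by
    intro a b c a' b' c' hab hac hbc hab' hac' hbc'
    have hx : Function.Injective ![a, b, c] := by
      intro i j hij
      fin_cases i <;> fin_cases j <;> simp_all
    have hy : Function.Injective ![a', b', c'] := by
      intro i j hij
      fin_cases i <;> fin_cases j <;> simp_all
    obtain ⟨g, hg⟩ := MulAction.exists_smul_eq G (⟨![a, b, c], hx⟩ : Fin 3 ↪ α)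
      (⟨![a', b', c'], hy⟩ : Fin 3 ↪ α)
    refine ⟨g, ?_, ?_, ?_⟩
    · have := congrArg (fun e : Fin 3 ↪ α => e 0) hg
      simpa using this
    · have := congrArg (fun e : Fin 3 ↪ α => e 1) hg
      simpa using this
    · have := congrArg (fun e : Fin 3 ↪ α => e 2) hg
      simpa using this
  have hnt : ∃ x ∈ N, ∃ ω : α, x • ω ≠ ω := by
    obtain ⟨x, hx1⟩ := (Subgroup.ne_bot_iff_exists_ne_one).mp hN
    refine ⟨(x : G), x.2, ?_⟩
    by_contra hcon
    push Not at hcon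
    apply hx1
    apply Subtype.ext
    apply Subtype.ext
    ext ω
    show ((x : G) : Equiv.Perm α) ω = ω
    exact hcon ω
  have key := wagner_aux (Fintype.card α) G α (Nat.card_eq_fintype_card) hodd h5 hG3 N
    inferInstance hnt
  rw [MulAction.isMultiplyPretransitive_iff]
  intro x y
  obtain ⟨g, hg, h1, h2, h3⟩ := key (x 0) (x 1) (x 2) (y 0) (y 1) (y 2)
    (fun h => by simpa using x.injective h) (fun h => by simpa using x.injective h)
    (fun h => by simpa using x.injective h) (fun h => by simpa using y.injective h)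
    (fun h => by simpa using y.injective h) (fun h => by simpa using y.injective h)
  refine ⟨⟨g, hg⟩, ?_⟩
  ext i
  fin_cases i
  · exact h1
  · exact h2
  · exact h3

end Cfsg.Agent.S0699
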