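import Cfsg.Statements.S0700
import Cfsg.Agent.Helper59.MinNormal2

set_option autoImplicit false
open Cfsg

namespace Cfsg.Agent.S0700

/-- Burnside's Theorem on doubly transitive groups: a minimal normal subgroup of a finite doubly transitive permutation group is elementary abelian and regular, or simple and primitive. -/
theorem result {α : Type*} [Fintype α] [DecidableEq α] (G : Subgroup (Equiv.Perm α)) (hG : MulAction.IsMultiplyPretransitive G α 2) (N : Subgroup G) [N.Normal] (hN : N ≠ ⊥) (hmin : ∀ M : Subgroup G, M.Normal → M ≤ N → M = ⊥ ∨ M = N) : (IsMulCommutative N ∧ (∃ p : ℕ, p.Prime ∧ ∀ n ∈ N, n ^ p = 1) ∧ ∀ a : α, MulAction.stabilizer N a = ⊥) ∨ (IsSimpleGroup N ∧ MulAction.IsPreprimitive N α) := by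
  have hNn : N.Normal := inferInstance
  have hmin' : ∀ M : Subgroup G, M.Normal → M ≠ ⊥ → M ≤ N → M = N := by
    intro M hM hM1 hMN
    rcases hmin M hM hMN with h | h
    · exact absurd h hM1
    · exact h
  rcases Cfsg.Agent.Helper59.burnside_two_transitive (G := G) (Ω := α) hG N hNn hN hmin' with
    ⟨hc, hp, hreg⟩ | ⟨hs, hprim⟩
  · left
    refine ⟨⟨⟨fun a b => Subtype.ext (hc a a.2 b b.2)⟩⟩, hp, ?_⟩
    intro a
    rw [Subgroup.eq_bot_iff_forall]
    intro x hx
    rw [MulAction.mem_stabilizer_iff] at hx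
    have h1 : (x : G) = 1 := hreg a (x : G) x.2 hx
    exact Subtype.ext h1
  · right
    exact ⟨hs, hprim⟩

end Cfsg.Agent.S0700
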