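import Cfsg.Statements.S0701
import Cfsg.Agent.Helper12.Cent

set_option autoImplicit false
open Cfsg

namespace Cfsg.Agent.S0701

open Cfsg.Agent.Helper12

/-- The centraliser in the full symmetric group of a transitive permutation group `G` is semiregular, and it is transitive if and only if `G` is regular. -/
theorem result {α : Type*} (G : Subgroup (Equiv.Perm α)) [MulAction.IsPretransitive G α] : (∀ c ∈ Subgroup.centralizer (G : Set (Equiv.Perm α)), ∀ a : α, c a = a → c = 1) ∧ (MulAction.IsPretransitive (Subgroup.centralizer (G : Set (Equiv.Perm α))) α ↔ ∀ a : α, MulAction.stabilizer G a = ⊥) := by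
  have hG := setTrans_of_isPretransitive G
  refine ⟨fun c hc a h => cent_semiregular hG hc h, ?_, ?_⟩
  · intro hC a
    rw [eq_bot_iff]
    intro g hg
    rw [MulAction.mem_stabilizer_iff] at hg
    rw [Subgroup.mem_bot]
    apply Subtype.ext
    ext b
    obtain ⟨c, hc⟩ := hC.exists_smul_eq a b
    have hc2 := c.2
    rw [Subgroup.mem_centralizer_iff] at hc2
    have h1 := congrArg (fun σ : Equiv.Perm α => σ a) (hc2 g.1 g.2)
    simp only [Equiv.Perm.coe_mul, Function.comp_apply] at h1
    have hga : (g : Equiv.Perm α) a = a := hg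
    have hcab : (c : Equiv.Perm α) a = b := hc
    rw [hga, hcab] at h1
    simpa using h1
  · intro hreg
    refine ⟨fun a b => ?_⟩
    have hbij : ∀ x : α, Function.Bijective (fun g : G => g • x) := by
      intro x
      refine ⟨?_, fun y => MulAction.exists_smul_eq G x y⟩
      intro g h hgh
      have : g⁻¹ * h ∈ MulAction.stabilizer G x := by
        rw [MulAction.mem_stabilizer_iff, mul_smul]
        simp only at hgh
        rw [← hgh, inv_smul_smul]
      rw [hreg x, Subgroup.mem_bot, inv_mul_eq_one] at this
      exact this
    let ea : G ≃ α := Equiv.ofBijective _ (hbij a)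
    let eb : G ≃ α := Equiv.ofBijective _ (hbij b)
    have hea : ∀ g : G, ea g = g • a := fun g => rfl
    have heb : ∀ g : G, eb g = g • b := fun g => rfl
    let c : Equiv.Perm α := ea.symm.trans eb
    have hcmem : c ∈ Subgroup.centralizer (G : Set (Equiv.Perm α)) := by
      rw [Subgroup.mem_centralizer_iff]
      intro g hg
      ext x
      obtain ⟨h, rfl⟩ := ea.surjective x
      have h1 : g (ea h) = ea (⟨g, hg⟩ * h) := by
        rw [hea, hea, mul_smul]; rfl
      simp only [Equiv.Perm.coe_mul, Function.comp_apply, c, Equiv.trans_apply,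
        Equiv.symm_apply_apply]
      rw [h1, Equiv.symm_apply_apply, heb, heb, mul_smul]; rfl
    refine ⟨⟨c, hcmem⟩, ?_⟩
    change c a = b
    have : ea.symm a = 1 := by
      rw [Equiv.symm_apply_eq, hea, one_smul]
    simp only [c, Equiv.trans_apply, this, heb, one_smul]

end Cfsg.Agent.S0701
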