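-- Statement S0702: centraliser of a transitive group.
import Cfsg.Statements.S0702
import Mathlib

set_option autoImplicit false
open Cfsg

namespace Cfsg.Agent.S0702

section
variable {α : Type*} (G : Subgroup (Equiv.Perm α)) [MulAction.IsPretransitive G α] (a : α)

/-- a chosen group element taking `a` to `x` -/
noncomputable def rep (x : α) : G := Classical.choose (MulAction.exists_smul_eq G a x)

theorem rep_spec (x : α) : rep G a x • a = x :=
  Classical.choose_spec (MulAction.exists_smul_eq G a x)

/-- the map `g • a ↦ g n⁻¹ • a` -/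
noncomputable def fn (n : G) (x : α) : α := (rep G a x * n⁻¹) • a

theorem fn_key {n : G}
    (hn : n ∈ Subgroup.normalizer ((MulAction.stabilizer G a : Subgroup G) : Set G)) (g : G) :
    fn G a n (g • a) = (g * n⁻¹) • a := by
  unfold fn
  have h1 : g⁻¹ * rep G a (g • a) ∈ MulAction.stabilizer G a := by
    rw [MulAction.mem_stabilizer_iff, mul_smul, rep_spec, inv_smul_smul]
  have h2 : n * (g⁻¹ * rep G a (g • a)) * n⁻¹ ∈ MulAction.stabilizer G a :=
    (Subgroup.mem_normalizer_iff.mp hn _).mp h1
  rw [MulAction.mem_stabilizer_iff] at h2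
  have h3 : rep G a (g • a) * n⁻¹ = (g * n⁻¹) * (n * (g⁻¹ * rep G a (g • a)) * n⁻¹) := by group
  rw [h3, mul_smul, h2]

theorem fn_one (x : α) : fn G a 1 x = x := by
  unfold fn; rw [inv_one, mul_one, rep_spec]

theorem fn_mul {n m : G}
    (hn : n ∈ Subgroup.normalizer ((MulAction.stabilizer G a : Subgroup G) : Set G))
    (x : α) : fn G a n (fn G a m x) = fn G a (n * m) x := by
  have h1 : fn G a m x = (rep G a x * m⁻¹) • a := rfl
  rw [h1, fn_key G a hn]
  unfold fn
  rw [mul_inv_rev, mul_assoc]

/-- the permutation attached to an element of the normaliser -/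
noncomputable def cperm
    (n : Subgroup.normalizer ((MulAction.stabilizer G a : Subgroup G) : Set G)) :
    Equiv.Perm α where
  toFun := fn G a n
  invFun := fn G a (n : G)⁻¹
  left_inv x := by rw [fn_mul G a (inv_mem n.2), inv_mul_cancel, fn_one]
  right_inv x := by rw [fn_mul G a n.2, mul_inv_cancel, fn_one]

theorem cperm_mem (n : Subgroup.normalizer ((MulAction.stabilizer G a : Subgroup G) : Set G)) :
    cperm G a n ∈ Subgroup.centralizer (G : Set (Equiv.Perm α)) := by
  rw [Subgroup.mem_centralizer_iff]
  intro k hk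
  ext x
  change k (fn G a n x) = fn G a n (k x)
  have hx : k x = ((⟨k, hk⟩ : G) * rep G a x) • a := by rw [mul_smul, rep_spec]; rfl
  rw [hx, fn_key G a n.2]
  unfold fn
  rw [mul_assoc, mul_smul]; rfl

/-- the homomorphism from the normaliser onto the centraliser -/
noncomputable def phi : Subgroup.normalizer ((MulAction.stabilizer G a : Subgroup G) : Set G) →*
    Subgroup.centralizer (G : Set (Equiv.Perm α)) where
  toFun n := ⟨cperm G a n, cperm_mem G a n⟩
  map_one' := by apply Subtype.ext; ext x; exact fn_one G a x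
  map_mul' n m := by apply Subtype.ext; ext x; exact (fn_mul G a n.2 x).symm

theorem phi_ker : (phi G a).ker = (MulAction.stabilizer G a).subgroupOf
    (Subgroup.normalizer ((MulAction.stabilizer G a : Subgroup G) : Set G)) := by
  ext n
  rw [MonoidHom.mem_ker, Subgroup.mem_subgroupOf, MulAction.mem_stabilizer_iff]
  constructor
  · intro h
    have h1 : cperm G a n a = a :=
      congrArg (fun c : Subgroup.centralizer (G : Set (Equiv.Perm α)) => (c : Equiv.Perm α) a) h
    have h2 : fn G a n ((1 : G) • a) = ((1 : G) * (n : G)⁻¹) • a := fn_key G a n.2 1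
    rw [one_smul, one_mul] at h2
    change fn G a n a = a at h1
    rw [h1, eq_inv_smul_iff] at h2
    exact h2
  · intro h
    apply Subtype.ext
    ext x
    change fn G a n x = x
    have := fn_key G a n.2 (rep G a x)
    rw [rep_spec] at this
    rw [this, mul_smul, inv_smul_eq_iff.mpr h.symm, rep_spec]

theorem phi_surj : Function.Surjective (phi G a) := by
  rintro ⟨c, hc⟩
  rw [Subgroup.mem_centralizer_iff] at hc
  have hck : ∀ (k : G) (x : α), c (k • x) = k • c x := by
    intro k x
    have := congrArg (fun σ : Equiv.Perm α => σ x) (hc k.1 k.2)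
    exact this.symm
  obtain ⟨g, hg⟩ := MulAction.exists_smul_eq G a (c a)
  have hn : g⁻¹ ∈ Subgroup.normalizer ((MulAction.stabilizer G a : Subgroup G) : Set G) := by
    rw [Subgroup.mem_normalizer_iff]
    intro h
    rw [MulAction.mem_stabilizer_iff, MulAction.mem_stabilizer_iff, inv_inv, mul_smul, mul_smul,
      hg, inv_smul_eq_iff, hg, ← hck, c.injective.eq_iff]
  refine ⟨⟨g⁻¹, hn⟩, ?_⟩
  apply Subtype.ext
  ext x
  change fn G a g⁻¹ x = c x
  have := fn_key G a hn (rep G a x)
  rw [rep_spec] at this
  rw [this, inv_inv, mul_smul, hg, ← hck, rep_spec]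

end

/-- For a transitive permutation group `G` on a finite set, the centraliser of `G` in the symmetric group is isomorphic to `N_G(G_ω)/G_ω`, and its orbit of `ω` is the set of fixed points of `G_ω`. -/
theorem result {α : Type*} [Finite α] (G : Subgroup (Equiv.Perm α)) [MulAction.IsPretransitive G α] (a : α) : Nonempty (Subgroup.centralizer (G : Set (Equiv.Perm α)) ≃* Subgroup.normalizer ((MulAction.stabilizer G a : Subgroup G) : Set G) ⧸ (MulAction.stabilizer G a).subgroupOf (Subgroup.normalizer ((MulAction.stabilizer G a : Subgroup G) : Set G))) ∧ MulAction.orbit (Subgroup.centralizer (G : Set (Equiv.Perm α))) a = MulAction.fixedPoints (MulAction.stabilizer G a) α := by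
  refine ⟨⟨((QuotientGroup.quotientKerEquivOfSurjective (phi G a) (phi_surj G a)).symm.trans
    (QuotientGroup.quotientMulEquivOfEq (phi_ker G a)))⟩, ?_⟩
  ext x
  rw [MulAction.mem_fixedPoints]
  constructor
  · rintro ⟨c, rfl⟩ h
    have hc := Subgroup.mem_centralizer_iff.mp c.2 h.1.1 h.1.2
    have := congrArg (fun σ : Equiv.Perm α => σ a) hc
    change ((h : G) : Equiv.Perm α) ((c : Equiv.Perm α) a) = (c : Equiv.Perm α) a
    have ha : ((h : G) : Equiv.Perm α) a = a := h.2
    simp only [Equiv.Perm.coe_mul, Function.comp_apply] at this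
    rw [this, ha]
  · intro hx
    obtain ⟨g, hg⟩ := MulAction.exists_smul_eq G a x
    have hle : MulAction.stabilizer G a ≤ MulAction.stabilizer G x := by
      intro h hh
      exact hx ⟨h, hh⟩
    have heq : MulAction.stabilizer G a = MulAction.stabilizer G x := by
      apply Subgroup.eq_of_le_of_card_ge hle
      rw [← hg, MulAction.stabilizer_smul_eq_stabilizer_map_conj,
        Subgroup.card_map_of_injective (MulAut.conj g).injective]
    have hn : g⁻¹ ∈ Subgroup.normalizer ((MulAction.stabilizer G a : Subgroup G) : Set G) := by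
      rw [Subgroup.mem_normalizer_iff]
      intro h
      rw [inv_inv]
      conv_lhs => rw [heq]
      rw [MulAction.mem_stabilizer_iff, MulAction.mem_stabilizer_iff, mul_smul, mul_smul, hg,
        inv_smul_eq_iff, hg]
    refine ⟨phi G a ⟨g⁻¹, hn⟩, ?_⟩
    change fn G a g⁻¹ a = x
    have := fn_key G a hn 1
    rw [one_smul, one_mul, inv_inv, hg] at this
    exact this

end Cfsg.Agent.S0702
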