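import Cfsg.Statements.S0703
import Cfsg.Agent.Helper12.MinNormal

set_option autoImplicit false
open Cfsg

namespace Cfsg.Agent.S0703

open Cfsg.Agent.Helper12

/-- The `p`-torsion of an abelian normal subgroup, as a subgroup of the ambient group. -/
def torsionSub {G : Type*} [Group G] (M : Subgroup G)
    (hab : ∀ x ∈ M, ∀ y ∈ M, x * y = y * x) (p : ℕ) : Subgroup G where
  carrier := {g | g ∈ M ∧ g ^ p = 1}
  one_mem' := ⟨M.one_mem, one_pow p⟩
  mul_mem' := by
    rintro x y ⟨hx, hxp⟩ ⟨hy, hyp⟩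
    refine ⟨M.mul_mem hx hy, ?_⟩
    have hc : Commute x y := hab x hx y hy
    rw [hc.mul_pow, hxp, hyp, one_mul]
  inv_mem' := by
    rintro x ⟨hx, hxp⟩
    exact ⟨M.inv_mem hx, by rw [inv_pow, hxp, inv_one]⟩

theorem torsionSub_normal {G : Type*} [Group G] (M : Subgroup G) [hn : M.Normal]
    (hab : ∀ x ∈ M, ∀ y ∈ M, x * y = y * x) (p : ℕ) : (torsionSub M hab p).Normal := by
  refine ⟨?_⟩
  rintro x ⟨hx, hxp⟩ g
  exact ⟨hn.conj_mem x hx g, by rw [conj_pow, hxp, mul_one, mul_inv_cancel]⟩

/-- An abelian transitive minimal normal subgroup `M` of a permutation group on a finite set is self-centralising in the symmetric group, regular, elementary abelian, and is the unique minimal normal subgroup. -/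
theorem result {α : Type*} [Finite α] (G : Subgroup (Equiv.Perm α)) (M : Subgroup G) [M.Normal] (hM : M ≠ ⊥) (hmin : ∀ L : Subgroup G, L.Normal → L ≤ M → L = ⊥ ∨ L = M) (hab : IsMulCommutative M) (htrans : MulAction.IsPretransitive M α) : Subgroup.centralizer ((M.map G.subtype : Subgroup (Equiv.Perm α)) : Set (Equiv.Perm α)) = M.map G.subtype ∧ (∀ a : α, MulAction.stabilizer M a = ⊥) ∧ (∃ p : ℕ, p.Prime ∧ ∀ m ∈ M, m ^ p = 1) ∧ ∀ L : Subgroup G, L.Normal → L ≠ ⊥ → (∀ L' : Subgroup G, L'.Normal → L' ≤ L → L' = ⊥ ∨ L' = L) → L = M := by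
  have hne : Nonempty α := by
    by_contra h
    rw [not_nonempty_iff] at h
    apply hM
    rw [eq_bot_iff]
    intro m _
    rw [Subgroup.mem_bot]
    apply Subtype.ext
    exact Subsingleton.elim _ _
  rw [isMulCommutative_iff] at hab
  have hab' : ∀ x ∈ M, ∀ y ∈ M, x * y = y * x := by
    intro x hx y hy
    exact congrArg Subtype.val (hab ⟨x, hx⟩ ⟨y, hy⟩)
  have hMtr := setTrans_map G M htrans
  have hle : M.map G.subtype ≤ Subgroup.centralizer
      ((M.map G.subtype : Subgroup (Equiv.Perm α)) : Set (Equiv.Perm α)) := by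
    rintro _ ⟨m, hm, rfl⟩
    rw [Subgroup.mem_centralizer_iff]
    rintro _ ⟨m', hm', rfl⟩
    rw [← map_mul, ← map_mul, hab' m' hm' m hm]
  have hC := cent_eq_of_le_of_setTrans hMtr _ hle hMtr
  refine ⟨hC, stabilizer_eq_bot_of_map_le_cent G M _ hMtr hle, ?_, ?_⟩
  · -- elementary abelian
    have hMnt : Nontrivial M := (Subgroup.nontrivial_iff_ne_bot M).mpr hM
    have hcard : Nat.card M ≠ 1 := by
      intro h
      rw [Nat.card_eq_one_iff_unique] at h
      exact not_subsingleton M h.1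
    obtain ⟨p, hp, hpd⟩ := Nat.exists_prime_and_dvd hcard
    haveI : Fact p.Prime := ⟨hp⟩
    obtain ⟨x, hx⟩ := exists_prime_orderOf_dvd_card' p hpd
    refine ⟨p, hp, ?_⟩
    have hn := torsionSub_normal M hab' p
    have hle2 : torsionSub M hab' p ≤ M := fun g hg => hg.1
    rcases hmin _ hn hle2 with h | h
    · exfalso
      have hxm : (x : G) ∈ torsionSub M hab' p := by
        refine ⟨x.2, ?_⟩
        rw [← Subgroup.coe_pow, ← hx, pow_orderOf_eq_one]; rfl
      rw [h, Subgroup.mem_bot] at hxm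
      have hx1 : x = 1 := Subtype.ext hxm
      rw [hx1, orderOf_one] at hx
      exact hp.one_lt.ne hx
    · intro m hm
      rw [← h] at hm
      exact hm.2
  · intro L hLn hL hLmin
    by_contra hcon
    have := hLn
    have hLM : L ⊓ M = ⊥ := inf_eq_bot_of_minimal L M hL hLmin hmin hcon
    have hMLbot : M ⊓ L = ⊥ := by rw [inf_comm]; exact hLM
    have h1 := map_le_centralizer_map G M L hMLbot
    rw [hC] at h1
    have h2 : L ≤ M := le_of_map_subtype_le G L M h1
    rcases hmin L hLn h2 with h | h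
    · exact hL h
    · exact hcon h

end Cfsg.Agent.S0703
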