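import Cfsg.Statements.S0704
import Cfsg.Agent.Helper12.MinNormal

set_option autoImplicit false
open Cfsg

namespace Cfsg.Agent.S0704

open Cfsg.Agent.Helper12

/-- Two distinct transitive minimal normal subgroups `M`, `N` of a permutation group are regular, non-abelian, isomorphic, each other's centraliser in the symmetric group, and the only minimal normal subgroups. -/
theorem result {α : Type*} (G : Subgroup (Equiv.Perm α)) (M N : Subgroup G) [M.Normal] [N.Normal] (hM : M ≠ ⊥) (hN : N ≠ ⊥) (hMmin : ∀ L : Subgroup G, L.Normal → L ≤ M → L = ⊥ ∨ L = M) (hNmin : ∀ L : Subgroup G, L.Normal → L ≤ N → L = ⊥ ∨ L = N) (hMN : M ≠ N) (hMt : MulAction.IsPretransitive M α) (hNt : MulAction.IsPretransitive N α) : (∀ a : α, MulAction.stabilizer M a = ⊥) ∧ (∀ a : α, MulAction.stabilizer N a = ⊥) ∧ ¬ IsMulCommutative M ∧ Nonempty (M ≃* N) ∧ Subgroup.centralizer ((M.map G.subtype : Subgroup (Equiv.Perm α)) : Set (Equiv.Perm α)) = N.map G.subtype ∧ Subgroup.centralizer ((N.map G.subtype : Subgroup (Equiv.Perm α))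 : Set (Equiv.Perm α)) = M.map G.subtype ∧ ∀ L : Subgroup G, L.Normal → L ≠ ⊥ → (∀ L' : Subgroup G, L'.Normal → L' ≤ L → L' = ⊥ ∨ L' = L) → L = M ∨ L = N := by
  have hne : Nonempty α := by
    by_contra h
    rw [not_nonempty_iff] at h
    apply hM
    rw [eq_bot_iff]
    intro m _
    rw [Subgroup.mem_bot]
    apply Subtype.ext
    exact Subsingleton.elim _ _
  have hMNbot : M ⊓ N = ⊥ := inf_eq_bot_of_minimal M N hM hMmin hNmin hMN
  have hNMbot : N ⊓ M = ⊥ := by rw [inf_comm]; exact hMNbot
  have hMtr := setTrans_map G M hMt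
  have hNtr := setTrans_map G N hNt
  have hNle := map_le_centralizer_map G M N hMNbot
  have hMle := map_le_centralizer_map G N M hNMbot
  have hCM := cent_eq_of_le_of_setTrans hMtr _ hNle hNtr
  have hCN := cent_eq_of_le_of_setTrans hNtr _ hMle hMtr
  have hMreg := stabilizer_eq_bot_of_map_le_cent G M _ hNtr hMle
  have hNreg := stabilizer_eq_bot_of_map_le_cent G N _ hMtr hNle
  refine ⟨hMreg, hNreg, ?_, ?_, hCM, hCN, ?_⟩
  · intro hab
    rw [isMulCommutative_iff] at hab
    have hle : M.map G.subtype ≤ Subgroup.centralizer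
        ((M.map G.subtype : Subgroup (Equiv.Perm α)) : Set (Equiv.Perm α)) := by
      rintro _ ⟨m, hm, rfl⟩
      rw [Subgroup.mem_centralizer_iff]
      rintro _ ⟨m', hm', rfl⟩
      have := congrArg Subtype.val (hab ⟨m', hm'⟩ ⟨m, hm⟩)
      rw [← map_mul, ← map_mul]
      exact congrArg _ this
    rw [hCM] at hle
    have hle' : M ≤ N := le_of_map_subtype_le G M N hle
    apply hM
    rw [← hMNbot]
    exact (inf_eq_left.mpr hle').symm
  · apply nonempty_mulEquiv_of_regular_commuting G M N hMt hNt hMreg hNreg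
    intro m hm n hn
    exact (Subgroup.commute_of_normal_of_disjoint M N inferInstance inferInstance
      (disjoint_iff.mpr hMNbot) m n hm hn).eq
  · intro L hLn hL hLmin
    by_contra hcon
    rw [not_or] at hcon
    have := hLn
    have hLM : L ⊓ M = ⊥ := inf_eq_bot_of_minimal L M hL hLmin hMmin hcon.1
    have hMLbot : M ⊓ L = ⊥ := by rw [inf_comm]; exact hLM
    have h1 := map_le_centralizer_map G M L hMLbot
    rw [hCM] at h1
    have h2 : L ≤ N := le_of_map_subtype_le G L N h1
    rcases hNmin L hLn h2 with h | h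
    · exact hL h
    · exact hcon.2 h

end Cfsg.Agent.S0704
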