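-- Statement S0705: generously k-transitive groups are k-transitive.
import Cfsg.Statements.S0705
import Mathlib

set_option autoImplicit false
open scoped Pointwise
open Cfsg

namespace Cfsg.Agent.S0705

theorem aux1 {α : Type*} [Fintype α] [DecidableEq α] (G : Subgroup (Equiv.Perm α)) {k : ℕ}
    (hk : k < Fintype.card α)
    (hgen : ∀ s : Finset α, s.card = k + 1 → ∀ σ : Equiv.Perm ↥s,
      ∃ g ∈ G, ∀ x : ↥s, g (x : α) = σ x) :
    ∀ (d : ℕ) (x y : Fin k → α), Function.Injective x → Function.Injective y →
      (Finset.univ.filter (fun i => x i ≠ y i)).card ≤ d → ∃ g ∈ G, ∀ i, g (x i) = y i := by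
  intro d
  induction d with
  | zero =>
    intro x y hx hy hd
    refine ⟨1, G.one_mem, fun i => ?_⟩
    have h0 : (Finset.univ.filter (fun i => x i ≠ y i)) = ∅ :=
      Finset.card_eq_zero.mp (Nat.le_zero.mp hd)
    by_contra hne
    have hi : i ∈ Finset.univ.filter (fun i => x i ≠ y i) := by
      rw [Finset.mem_filter]
      exact ⟨Finset.mem_univ i, hne⟩
    rw [h0] at hi
    exact absurd hi (Finset.notMem_empty i)
  | succ d ih =>
    intro x y hx hy hd
    by_cases hall : ∀ i, x i = y i
    · exact ⟨1, G.one_mem, fun i => hall i⟩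
    · push Not at hall
      obtain ⟨i, hi⟩ := hall
      have hs0 : (insert (y i) (Finset.univ.image x)).card ≤ k + 1 := by
        refine le_trans (Finset.card_insert_le _ _) ?_
        have := Finset.card_image_le (s := (Finset.univ : Finset (Fin k))) (f := x)
        rw [Finset.card_univ, Fintype.card_fin] at this
        omega
      obtain ⟨s, hss, hsc⟩ :=
        Finset.exists_superset_card_eq hs0 (by omega : k + 1 ≤ Fintype.card α)
      have hxs : ∀ l, x l ∈ s := fun l =>
        hss (Finset.mem_insert_of_mem (Finset.mem_image_of_mem x (Finset.mem_univ l)))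
      have hys : y i ∈ s := hss (Finset.mem_insert_self _ _)
      obtain ⟨g, hgG, hg⟩ := hgen s hsc (Equiv.swap ⟨x i, hxs i⟩ ⟨y i, hys⟩)
      have hgi : g (x i) = y i := by
        have := hg ⟨x i, hxs i⟩
        rw [Equiv.swap_apply_left] at this
        exact this
      have hgl : ∀ l, x l = y l → g (x l) = y l := by
        intro l hl
        have := hg ⟨x l, hxs l⟩
        rw [Equiv.swap_apply_of_ne_of_ne] at this
        · rw [this]; exact hl
        · intro h
          have h1 : x l = x i := congrArg Subtype.val h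
          have h2 := hx h1
          subst h2
          exact hi hl
        · intro h
          have h1 : x l = y i := congrArg Subtype.val h
          rw [hl] at h1
          have h2 := hy h1
          subst h2
          exact hi hl
      obtain ⟨g', hg'G, hg'⟩ := ih (fun l => g (x l)) y (g.injective.comp hx) hy (by
        have hsub : (Finset.univ.filter (fun l => g (x l) ≠ y l)) ⊂
            (Finset.univ.filter (fun l => x l ≠ y l)) := by
          rw [Finset.ssubset_iff_of_subset]
          · refine ⟨i, ?_, ?_⟩
            · rw [Finset.mem_filter]; exact ⟨Finset.mem_univ i, hi⟩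
            · rw [Finset.mem_filter]; exact fun h => h.2 hgi
          · intro l hl
            rw [Finset.mem_filter] at hl ⊢
            exact ⟨Finset.mem_univ l, fun h => hl.2 (hgl l h)⟩
        have := Finset.card_lt_card hsub
        omega)
      exact ⟨g' * g, G.mul_mem hg'G hgG, fun l => hg' l⟩

/-- A generously `k`-transitive permutation group (every `(k+1)`-subset has its full symmetric group induced by the setwise stabiliser) of degree greater than `k` is `k`-transitive, and for a `k`-subset the setwise and pointwise stabilisers have the same orbits outside it. -/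
theorem result {α : Type*} [Fintype α] [DecidableEq α] (G : Subgroup (Equiv.Perm α)) {k : ℕ} (hk : k < Fintype.card α) (hgen : ∀ s : Finset α, s.card = k + 1 → ∀ σ : Equiv.Perm ↥s, ∃ g ∈ G, ∀ x : ↥s, g (x : α) = σ x) : MulAction.IsMultiplyPretransitive G α k ∧ ∀ s : Finset α, s.card = k → ∀ a b : α, a ∉ s → b ∉ s → (∃ g ∈ G, g • s = s ∧ g a = b) → ∃ g ∈ G, (∀ x ∈ s, g x = x) ∧ g a = b := by
  refine ⟨⟨fun x y => ?_⟩, ?_⟩
  · obtain ⟨g, hgG, hg⟩ := aux1 G hk hgen _ x y x.injective y.injective le_rfl
    refine ⟨⟨g, hgG⟩, ?_⟩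
    ext i
    exact hg i
  · intro s hsc a b ha hb ⟨g, hgG, hgs, hgab⟩
    have hgs' : ∀ x ∈ s, g x ∈ s := by
      intro x hx
      have : g • x ∈ g • s := Finset.smul_mem_smul_finset hx
      rw [hgs] at this
      exact this
    have hginv : ∀ y ∈ s, g⁻¹ y ∈ s := by
      intro y hy
      rw [← hgs] at hy
      obtain ⟨x, hx, rfl⟩ := Finset.mem_smul_finset.mp hy
      rw [Equiv.Perm.smul_def, Equiv.Perm.inv_def, Equiv.symm_apply_apply]
      exact hx
    have hgb : g⁻¹ b = a := by rw [← hgab, Equiv.Perm.inv_def, Equiv.symm_apply_apply]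
    have htc : (insert b s).card = k + 1 := by rw [Finset.card_insert_of_notMem hb, hsc]
    have hτb : (Equiv.swap a b * g⁻¹) b = b := by
      rw [Equiv.Perm.mul_apply, hgb, Equiv.swap_apply_left]
    have hτs : ∀ y ∈ s, (Equiv.swap a b * g⁻¹) y = g⁻¹ y := by
      intro y hy
      rw [Equiv.Perm.mul_apply]
      apply Equiv.swap_apply_of_ne_of_ne
      · intro h; exact ha (h ▸ hginv y hy)
      · intro h; exact hb (h ▸ hginv y hy)
    have hτt : ∀ y, y ∈ insert b s → (Equiv.swap a b * g⁻¹) y ∈ insert b s := by
      intro y hy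
      rcases Finset.mem_insert.mp hy with rfl | hy
      · rw [hτb]; exact Finset.mem_insert_self _ _
      · rw [hτs y hy]; exact Finset.mem_insert_of_mem (hginv y hy)
    obtain ⟨h', hh'G, hh'⟩ := hgen (insert b s) htc
      ((Equiv.swap a b * g⁻¹).subtypePermOfFintype hτt)
    refine ⟨h' * g, G.mul_mem hh'G hgG, ?_, ?_⟩
    · intro x hx
      rw [Equiv.Perm.mul_apply]
      have := hh' ⟨g x, Finset.mem_insert_of_mem (hgs' x hx)⟩
      rw [Equiv.Perm.subtypePermOfFintype_apply] at this
      change h' (g x) = (Equiv.swap a b * g⁻¹) (g x) at this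
      rw [this, hτs _ (hgs' x hx), Equiv.Perm.inv_def, Equiv.symm_apply_apply]
    · rw [Equiv.Perm.mul_apply, hgab]
      have := hh' ⟨b, Finset.mem_insert_self _ _⟩
      rw [Equiv.Perm.subtypePermOfFintype_apply] at this
      change h' b = (Equiv.swap a b * g⁻¹) b at this
      rw [this, hτb]

end Cfsg.Agent.S0705
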