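import Cfsg.Statements.S0706
import Mathlib

set_option autoImplicit false
open Cfsg

namespace Cfsg.Agent.S0706

open MulAction
open scoped Pointwise

/-- `k`-homogeneity from generosity. -/
lemma homog {𝔾 α : Type*} [Group 𝔾] [MulAction 𝔾 α] [DecidableEq α] {k : ℕ}
    (hgen : ∀ s : Finset α, s.card = k + 1 → ∀ σ : Equiv.Perm ↥s, ∃ g : 𝔾, ∀ x : ↥s, g • (x : α) = σ x) :
    ∀ (n : ℕ) (Γ Γ' : Finset α), Γ.card = k → Γ'.card = k → (Γ' \ Γ).card = n →
      ∃ g : 𝔾, ∀ x ∈ Γ, g • x ∈ Γ' := by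
  intro n
  induction n with
  | zero =>
    intro Γ Γ' h1 h2 h0
    have hsub : Γ' ⊆ Γ := by
      rw [Finset.card_eq_zero, Finset.sdiff_eq_empty_iff_subset] at h0
      exact h0
    have : Γ' = Γ := Finset.eq_of_subset_of_card_le hsub (by omega)
    exact ⟨1, fun x hx => by simpa [this] using hx⟩
  | succ n ih =>
    intro Γ Γ' h1 h2 h0
    have hb : (Γ' \ Γ).Nonempty := by rw [← Finset.card_pos]; omega
    obtain ⟨b, hb⟩ := hb
    have ha : (Γ \ Γ').Nonempty := by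
      rw [← Finset.card_pos, Finset.card_sdiff_comm (h1.trans h2.symm)]; omega
    obtain ⟨a, ha⟩ := ha
    rw [Finset.mem_sdiff] at ha hb
    have hs : (insert b Γ).card = k + 1 := by rw [Finset.card_insert_of_notMem hb.2, h1]
    obtain ⟨g₁, hg₁⟩ := hgen (insert b Γ) hs
      (Equiv.swap ⟨a, Finset.mem_insert_of_mem ha.1⟩ ⟨b, Finset.mem_insert_self _ _⟩)
    have hab : a ≠ b := fun h => ha.2 (h ▸ hb.1)
    have hΓ₁card : (insert b (Γ.erase a)).card = k := by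
      rw [Finset.card_insert_of_notMem, Finset.card_erase_of_mem ha.1, h1]
      · have : 0 < k := by rw [← h1]; exact Finset.card_pos.mpr ⟨a, ha.1⟩
        omega
      · intro h; exact hb.2 (Finset.mem_of_mem_erase h)
    have hmap : ∀ x ∈ Γ, g₁ • x ∈ insert b (Γ.erase a) := by
      intro x hx
      have h := hg₁ ⟨x, Finset.mem_insert_of_mem hx⟩
      by_cases hxa : x = a
      · subst hxa
        rw [Equiv.swap_apply_left] at h
        rw [h]; exact Finset.mem_insert_self _ _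
      · have hxb : x ≠ b := fun h' => hb.2 (h' ▸ hx)
        rw [Equiv.swap_apply_of_ne_of_ne (by simpa [Subtype.ext_iff] using hxa)
          (by simpa [Subtype.ext_iff] using hxb)] at h
        rw [h]
        exact Finset.mem_insert_of_mem (Finset.mem_erase.mpr ⟨hxa, hx⟩)
    have hcard : (Γ' \ insert b (Γ.erase a)).card = n := by
      have : Γ' \ insert b (Γ.erase a) = (Γ' \ Γ).erase b := by
        ext y
        simp only [Finset.mem_sdiff, Finset.mem_insert, Finset.mem_erase]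
        constructor
        · rintro ⟨hy, hy'⟩
          push Not at hy'
          refine ⟨hy'.1, hy, fun hyΓ => ?_⟩
          have : y = a := by
            by_contra hne
            exact hy'.2 hne hyΓ
          exact ha.2 (this ▸ hy)
        · rintro ⟨hyb, hy, hyΓ⟩
          refine ⟨hy, ?_⟩
          rintro (h | h)
          · exact hyb h
          · exact hyΓ h.2
      rw [this, Finset.card_erase_of_mem (Finset.mem_sdiff.mpr hb), h0]
      rfl
    obtain ⟨g₂, hg₂⟩ := ih (insert b (Γ.erase a)) Γ' hΓ₁card h2 hcard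
    exact ⟨g₂ * g₁, fun x hx => by rw [mul_smul]; exact hg₂ _ (hmap x hx)⟩

/-- A `p`-subgroup of `H` has order at most the `p`-part of `|H|`. -/
lemma pbound {𝔾 : Type*} [Group 𝔾] [Finite 𝔾] {p : ℕ} [Fact p.Prime] (H Q : Subgroup 𝔾)
    (hQ : IsPGroup p Q) (hle : Q ≤ H) : Nat.card Q ≤ p ^ (Nat.card H).factorization p := by
  obtain ⟨a, ha⟩ := IsPGroup.iff_card.mp hQ
  rw [ha]
  have hdvd : p ^ a ∣ Nat.card H := ha ▸ Subgroup.card_dvd_of_le hle
  have hp := (Fact.out : p.Prime)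
  exact Nat.pow_le_pow_right hp.pos ((hp.pow_dvd_iff_le_factorization Nat.card_pos.ne').mp hdvd)

/-- `g` acts on `Γ` as the `j`-th power of the standard `p`-cycle along `ι`. -/
def Std {𝔾 α : Type*} [Group 𝔾] [MulAction 𝔾 α] {p : ℕ} (ι : ZMod p → α) (Γ : Finset α)
    (j : ZMod p) (g : 𝔾) : Prop :=
  (∀ i, g • ι i = ι (i + j)) ∧ ∀ x ∈ Γ, x ∉ Set.range ι → g • x = x

section std
variable {𝔾 α : Type*} [Group 𝔾] [MulAction 𝔾 α] {p : ℕ} {ι : ZMod p → α} {Γ : Finset α}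

lemma Std.one : Std ι Γ 0 (1 : 𝔾) := ⟨fun i => by simp, fun x _ _ => one_smul _ _⟩

lemma Std.mul {j j' : ZMod p} {g g' : 𝔾} (h : Std ι Γ j g) (h' : Std ι Γ j' g') :
    Std ι Γ (j' + j) (g * g') :=
  ⟨fun i => by rw [mul_smul, h'.1, h.1, add_assoc],
    fun x hx hx' => by rw [mul_smul, h'.2 x hx hx', h.2 x hx hx']⟩

lemma Std.inv {j : ZMod p} {g : 𝔾} (h : Std ι Γ j g) : Std ι Γ (-j) g⁻¹ :=
  ⟨fun i => by rw [inv_smul_eq_iff, h.1]; congr 1; ring,
    fun x hx hx' => by rw [inv_smul_eq_iff, h.2 x hx hx']⟩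

lemma Std.pow {j : ZMod p} {g : 𝔾} (h : Std ι Γ j g) (n : ℕ) : Std ι Γ (n * j) (g ^ n) := by
  induction n with
  | zero => simpa using (Std.one : Std ι Γ 0 (1 : 𝔾))
  | succ n ih =>
    rw [pow_succ]
    have := ih.mul h
    convert this using 1
    push_cast; ring

/-- The subgroup of elements acting on `Γ` as a power of the standard cycle. -/
def stdGroup (𝔾 : Type*) {α : Type*} [Group 𝔾] [MulAction 𝔾 α] {p : ℕ} (ι : ZMod p → α)
    (Γ : Finset α) : Subgroup 𝔾 where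
  carrier := {g | ∃ j, Std ι Γ j g}
  mul_mem' := fun ⟨_, h⟩ ⟨_, h'⟩ => ⟨_, h.mul h'⟩
  one_mem' := ⟨0, Std.one⟩
  inv_mem' := fun ⟨_, h⟩ => ⟨_, h.inv⟩

end std

/-- Existence of the `p`-element `t` attached to a fixed point `c` of `P₀`. -/
lemma exists_t {𝔾 α : Type*} [Group 𝔾] [Finite 𝔾] [MulAction 𝔾 α] [Fintype α] [DecidableEq α]
    {k p : ℕ} [Fact p.Prime]
    (hgen : ∀ s : Finset α, s.card = k + 1 → ∀ σ : Equiv.Perm ↥s, ∃ g : 𝔾, ∀ x : ↥s, g • (x : α) = σ x)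
    (Γ : Finset α) (hΓ : Γ.card = k) (ι : ZMod p → α) (hι : Function.Injective ι)
    (hιΓ : ∀ i, ι i ∈ Γ) (P₀ : Subgroup 𝔾) (hP₀p : IsPGroup p P₀)
    (hP₀H : P₀ ≤ fixingSubgroup 𝔾 (Γ : Set α))
    (hP₀card : Nat.card P₀ = p ^ (Nat.card (fixingSubgroup 𝔾 (Γ : Set α))).factorization p)
    (c : α) (hc : c ∉ Γ) (hPc : ∀ q ∈ P₀, q • c = c) :
    ∃ t : 𝔾, t ∈ Subgroup.normalizer (P₀ : Set 𝔾) ∧ Std ι Γ 1 t ∧ t • c = c ∧
      ∃ n : ℕ, t ^ (p ^ n) = 1 := by
  classical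
  have hp := (Fact.out : p.Prime)
  set H := fixingSubgroup 𝔾 (Γ : Set α) with hH
  set s : Finset α := insert c Γ with hs
  have hscard : s.card = k + 1 := by rw [hs, Finset.card_insert_of_notMem hc, hΓ]
  let ιe : ZMod p ↪ α := ⟨ι, hι⟩
  let σ₀ : Equiv.Perm α := (Equiv.addRight (1 : ZMod p)).viaFintypeEmbedding ιe
  have hσι : ∀ i, σ₀ (ι i) = ι (i + 1) := fun i => by
    have := Equiv.Perm.viaFintypeEmbedding_apply_image (Equiv.addRight (1 : ZMod p)) ιe i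
    simpa [σ₀, ιe] using this
  have hσn : ∀ x, x ∉ Set.range ι → σ₀ x = x := fun x hx =>
    Equiv.Perm.viaFintypeEmbedding_apply_notMem_range (Equiv.addRight (1 : ZMod p)) ιe hx
  have hσs : ∀ x, σ₀ x ∈ s ↔ x ∈ s := by
    intro x
    by_cases hx : x ∈ Set.range ι
    · obtain ⟨i, rfl⟩ := hx
      rw [hσι]
      exact ⟨fun _ => Finset.mem_insert_of_mem (hιΓ i), fun _ => Finset.mem_insert_of_mem (hιΓ _)⟩
    · rw [hσn x hx]
  obtain ⟨g₀, hg₀⟩ := hgen s hscard (σ₀.subtypePerm hσs)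
  have hg₀' : ∀ x ∈ s, g₀ • x = σ₀ x := fun x hx => by
    have := hg₀ ⟨x, hx⟩
    simpa using this
  set K := fixingSubgroup 𝔾 (s : Set α) with hK
  have hKH : K ≤ H := fun g hg => by
    rw [mem_fixingSubgroup_iff] at hg ⊢
    exact fun y hy => hg y (Finset.mem_insert_of_mem hy)
  have hP₀K : P₀ ≤ K := fun q hq => by
    rw [mem_fixingSubgroup_iff]
    intro y hy
    rcases Finset.mem_insert.mp hy with rfl | hy
    · exact hPc q hq
    · exact (mem_fixingSubgroup_iff 𝔾).mp (hP₀H hq) y hy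
  have hg₀inv : ∀ x ∈ s, g₀⁻¹ • x ∈ s := fun x hx => by
    have hy : σ₀.symm x ∈ s := (hσs _).mp (by simpa using hx)
    have : g₀ • (σ₀.symm x) = x := by rw [hg₀' _ hy]; simp
    rw [inv_smul_eq_iff.mpr this.symm]
    exact hy
  have hP₁K : P₀.map (MulAut.conj g₀).toMonoidHom ≤ K := by
    rintro _ ⟨q, hq, rfl⟩
    rw [mem_fixingSubgroup_iff]
    intro y hy
    have hy' : g₀⁻¹ • y ∈ s := hg₀inv y hy
    have hq' : q • (g₀⁻¹ • y) = g₀⁻¹ • y := (mem_fixingSubgroup_iff 𝔾).mp (hP₀K hq) _ hy'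
    simp only [MulEquiv.toMonoidHom_eq_coe, MonoidHom.coe_coe, MulAut.conj_apply, mul_smul]
    rw [hq', smul_inv_smul]
  obtain ⟨S₁, hS₁⟩ := (hP₀p.comap_subtype (K := K)).exists_le_sylow
  have hS₁eq : P₀.subgroupOf K = S₁ := by
    apply Subgroup.eq_of_le_of_card_ge hS₁
    have h1 : Nat.card (S₁ : Subgroup K) ≤ Nat.card P₀ := by
      have := pbound H ((S₁ : Subgroup K).map K.subtype) (S₁.isPGroup'.map _)
        ((Subgroup.map_subtype_le _).trans hKH)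
      rw [Subgroup.card_map_of_injective K.subtype_injective] at this
      rw [hP₀card]; exact this
    have h2 : Nat.card (P₀.subgroupOf K) = Nat.card P₀ :=
      Nat.card_congr (Subgroup.subgroupOfEquivOfLe hP₀K).toEquiv
    exact h1.trans (le_of_eq h2.symm)
  obtain ⟨S₂, hS₂⟩ := ((hP₀p.map (MulAut.conj g₀).toMonoidHom).comap_subtype (K := K)).exists_le_sylow
  obtain ⟨e, he⟩ := MulAction.exists_smul_eq K S₂ S₁
  have hnorm : ∀ q ∈ P₀, ((e : 𝔾) * g₀) * q * ((e : 𝔾) * g₀)⁻¹ ∈ P₀ := by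
    intro q hq
    have hq1 : g₀ * q * g₀⁻¹ ∈ P₀.map (MulAut.conj g₀).toMonoidHom := ⟨q, hq, by simp⟩
    have hmem : (⟨_, hP₁K hq1⟩ : K) ∈ (S₂ : Subgroup K) := hS₂ (Subgroup.mem_subgroupOf.mpr hq1)
    have h1 : MulAut.conj e • (⟨_, hP₁K hq1⟩ : K) ∈ MulAut.conj e • (S₂ : Subgroup K) :=
      Subgroup.smul_mem_pointwise_smul _ _ _ hmem
    rw [← Sylow.coe_subgroup_smul, he, ← hS₁eq, Subgroup.mem_subgroupOf] at h1
    have h2 : ((MulAut.conj e • (⟨_, hP₁K hq1⟩ : K) : K) : 𝔾) =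
        (e : 𝔾) * (g₀ * q * g₀⁻¹) * (e : 𝔾)⁻¹ := by
      simp [MulAut.smul_def]
    rw [h2] at h1
    convert h1 using 1
    group
  set g₁ := (e : 𝔾) * g₀ with hg₁
  have hg₁N : g₁ ∈ Subgroup.normalizer (P₀ : Set 𝔾) := by
    rw [Subgroup.mem_normalizer_iff_map_conj_eq]
    apply Subgroup.eq_of_le_of_card_ge
    · rintro _ ⟨q, hq, rfl⟩
      exact hnorm q hq
    · rw [Subgroup.card_map_of_injective (MulAut.conj g₁).injective]
  have hg₁s : ∀ x ∈ s, g₁ • x = σ₀ x := fun x hx => by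
    rw [hg₁, mul_smul, hg₀' x hx]
    exact (mem_fixingSubgroup_iff 𝔾).mp e.2 _ ((hσs x).mpr hx)
  have hcr : c ∉ Set.range ι := by rintro ⟨i, rfl⟩; exact hc (hιΓ i)
  have hg₁S : Std ι Γ 1 g₁ :=
    ⟨fun i => by rw [hg₁s _ (Finset.mem_insert_of_mem (hιΓ i)), hσι],
      fun x hx hx' => by rw [hg₁s _ (Finset.mem_insert_of_mem hx), hσn x hx']⟩
  have hg₁c : g₁ • c = c := by rw [hg₁s _ (Finset.mem_insert_self _ _), hσn c hcr]
  -- the `p`-part
  have hN : orderOf g₁ ≠ 0 := (orderOf_pos g₁).ne'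
  obtain ⟨a, b, hb, hNab⟩ := Nat.exists_eq_pow_mul_and_not_dvd hN p hp.ne_one
  have hcop : Nat.Coprime p b := (Nat.Prime.coprime_iff_not_dvd hp).mpr hb
  obtain ⟨e', he1, he0⟩ := Nat.chineseRemainder hcop 1 0
  have hbe : b ∣ e' := (Nat.modEq_zero_iff_dvd).mp he0
  refine ⟨g₁ ^ e', pow_mem hg₁N _, ?_, ?_, a, ?_⟩
  · have := hg₁S.pow e'
    have h1 : ((e' : ℕ) : ZMod p) = 1 := by
      have := (ZMod.natCast_eq_natCast_iff e' 1 p).mpr he1
      simpa using this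
    rwa [h1, mul_one] at this
  · have : g₁ ∈ stabilizer 𝔾 c := hg₁c
    exact (stabilizer 𝔾 c).pow_mem this _
  · rw [← pow_mul]
    apply orderOf_dvd_iff_pow_eq_one.mp
    rw [hNab, mul_comm e']
    exact Nat.mul_dvd_mul_left _ hbe

theorem main {𝔾 α : Type*} [Group 𝔾] [Finite 𝔾] [MulAction 𝔾 α] [Fintype α] [DecidableEq α] {k : ℕ}
    (hgen : ∀ s : Finset α, s.card = k + 1 → ∀ σ : Equiv.Perm ↥s, ∃ g : 𝔾, ∀ x : ↥s, g • (x : α) = σ x)
    {p : ℕ} (hp : p.Prime) (hpk : p ≤ k) (Γ : Finset α) (hΓ : Γ.card = k) (f : Fin p → α)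
    (hf : ∀ i, f i ∉ Γ)
    (hdist : ∀ i j, i ≠ j → f j ∉ orbit (fixingSubgroup 𝔾 (Γ : Set α)) (f i)) :
    ∃ i, p ∣ Nat.card (orbit (fixingSubgroup 𝔾 (Γ : Set α)) (f i)) := by
  classical
  have : Fact p.Prime := ⟨hp⟩
  by_contra hcon
  push Not at hcon
  set H := fixingSubgroup 𝔾 (Γ : Set α) with hH
  obtain ⟨P⟩ : Nonempty (Sylow p H) := inferInstance
  set P₀ : Subgroup 𝔾 := (P : Subgroup H).map H.subtype with hP₀
  have hP₀H : P₀ ≤ H := Subgroup.map_subtype_le _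
  have hP₀p : IsPGroup p P₀ := P.isPGroup'.map _
  set m := (Nat.card H).factorization p with hm
  have hP₀card : Nat.card P₀ = p ^ m := by
    rw [hP₀, Subgroup.card_map_of_injective (Subgroup.subtype_injective _)]
    exact P.card_eq_multiplicity
  -- step 1: `P₀`-fixed points in each orbit
  have step1 : ∀ i, ∃ x ∈ orbit H (f i), ∀ q ∈ P₀, q • x = x := by
    intro i
    obtain ⟨x, hx⟩ := P.isPGroup'.nonempty_fixed_point_of_prime_not_dvd_card (orbit H (f i)) (hcon i)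
    refine ⟨x, x.2, ?_⟩
    rintro _ ⟨q, hq, rfl⟩
    have := hx ⟨q, hq⟩
    exact congrArg Subtype.val this
  choose x hxorb hxfix using step1
  have hxΓ : ∀ i, x i ∉ Γ := by
    intro i hmem
    obtain ⟨h, hh⟩ := hxorb i
    have h1 : (h : 𝔾) • x i = x i := (mem_fixingSubgroup_iff 𝔾).mp h.2 _ hmem
    have h2 : (h : 𝔾) • f i = x i := hh
    have : f i = x i := MulAction.injective (h : 𝔾) (h2.trans h1.symm)
    exact hf i (this ▸ hmem)
  -- the embedding ι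
  have hcardle : Fintype.card (ZMod p) ≤ Fintype.card ↥Γ := by
    rw [ZMod.card, Fintype.card_coe, hΓ]; exact hpk
  obtain ⟨ι'⟩ := Function.Embedding.nonempty_of_card_le hcardle
  set ι : ZMod p → α := fun i => (ι' i : α) with hιdef
  have hι : Function.Injective ι := fun i j hij => ι'.injective (Subtype.ext hij)
  have hιΓ : ∀ i, ι i ∈ Γ := fun i => (ι' i).2
  set E := stdGroup 𝔾 ι Γ with hE
  have hstd0 : ∀ g : 𝔾, Std ι Γ 0 g → g ∈ H := by
    intro g hg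
    rw [mem_fixingSubgroup_iff]
    intro y hy
    by_cases hyr : y ∈ Set.range ι
    · obtain ⟨i, rfl⟩ := hyr
      rw [hg.1, add_zero]
    · exact hg.2 y hy hyr
  have hHstd : ∀ g : 𝔾, g ∈ H → Std ι Γ 0 g := by
    intro g hg
    rw [mem_fixingSubgroup_iff] at hg
    exact ⟨fun i => by rw [add_zero]; exact hg _ (hιΓ i), fun y hy _ => hg y hy⟩
  -- order bound in E
  have lemC : ∀ Q : Subgroup 𝔾, IsPGroup p Q → Q ≤ E → Nat.card Q ≤ p ^ (m + 1) := by
    intro Q hQ hQE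
    have h1 := Subgroup.card_mul_index (stabilizer Q (ι 0))
    rw [index_stabilizer] at h1
    have h2 : (orbit Q (ι 0)).ncard ≤ p := by
      have hsub : orbit Q (ι 0) ⊆ Set.range ι := by
        rintro _ ⟨q, rfl⟩
        obtain ⟨j, hj⟩ := hQE q.2
        exact ⟨0 + j, (hj.1 0).symm⟩
      calc (orbit Q (ι 0)).ncard ≤ (Set.range ι).ncard := Set.ncard_le_ncard hsub (Set.toFinite _)
        _ = p := by rw [← Nat.card_coe_set_eq, Nat.card_range_of_injective hι, Nat.card_zmod]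
    have h3 : Nat.card (stabilizer Q (ι 0)) ≤ p ^ m := by
      have := pbound H ((stabilizer Q (ι 0)).map Q.subtype) ((hQ.to_subgroup _).map _) ?_
      · rwa [Subgroup.card_map_of_injective Q.subtype_injective] at this
      · rintro _ ⟨q, hq, rfl⟩
        obtain ⟨j, hj⟩ := hQE q.2
        have hq' : (q : 𝔾) • ι 0 = ι 0 := hq
        have hj0 : j = 0 := by
          have := hj.1 0
          rw [hq'] at this
          simpa using (hι this).symm
        subst hj0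
        exact hstd0 _ hj
    calc Nat.card Q = Nat.card (stabilizer Q (ι 0)) * (orbit Q (ι 0)).ncard := h1.symm
      _ ≤ p ^ m * p := Nat.mul_le_mul h3 h2
      _ = p ^ (m + 1) := (pow_succ p m).symm
  have hfacts : ∀ (c : α) (t : 𝔾), t ∈ Subgroup.normalizer (P₀ : Set 𝔾) → Std ι Γ 1 t → t • c = c →
      (∃ n : ℕ, t ^ (p ^ n) = 1) → (∀ q ∈ P₀, q • c = c) →
      IsPGroup p ↥(P₀ ⊔ Subgroup.zpowers t) ∧ P₀ ⊔ Subgroup.zpowers t ≤ E ∧
      (∀ q ∈ P₀ ⊔ Subgroup.zpowers t, q • c = c) ∧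
      p ^ (m + 1) ≤ Nat.card ↥(P₀ ⊔ Subgroup.zpowers t) := by
    intro c t htN htS htc ⟨n, htn⟩ hPc
    have hzp : IsPGroup p (Subgroup.zpowers t) := by
      have hdvd : orderOf t ∣ p ^ n := orderOf_dvd_of_pow_eq_one htn
      obtain ⟨a, -, ha⟩ := (Nat.dvd_prime_pow hp).mp hdvd
      exact IsPGroup.of_card (n := a) (by rw [Nat.card_zpowers, ha])
    have hQp : IsPGroup p ↥(P₀ ⊔ Subgroup.zpowers t) := by
      rw [sup_comm]
      exact hzp.to_sup_of_normal_right' hP₀p ((Subgroup.zpowers_le).mpr htN)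
    have hQE : P₀ ⊔ Subgroup.zpowers t ≤ E :=
      sup_le (fun q hq => ⟨0, hHstd q (hP₀H hq)⟩) ((Subgroup.zpowers_le).mpr ⟨1, htS⟩)
    have hQc : ∀ q ∈ P₀ ⊔ Subgroup.zpowers t, q • c = c := by
      have : P₀ ⊔ Subgroup.zpowers t ≤ stabilizer 𝔾 c :=
        sup_le (fun q hq => hPc q hq) ((Subgroup.zpowers_le).mpr htc)
      exact fun q hq => this hq
    refine ⟨hQp, hQE, hQc, ?_⟩
    obtain ⟨a, ha⟩ := IsPGroup.iff_card.mp hQp
    have hle : P₀ ≤ P₀ ⊔ Subgroup.zpowers t := le_sup_left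
    have hdvd : p ^ m ∣ p ^ a := by rw [← hP₀card, ← ha]; exact Subgroup.card_dvd_of_le hle
    have hma : m ≤ a := (Nat.pow_dvd_pow_iff_le_right hp.one_lt).mp hdvd
    rcases hma.eq_or_lt with h | h
    · exfalso
      have heq : P₀ = P₀ ⊔ Subgroup.zpowers t :=
        Subgroup.eq_of_le_of_card_ge hle (by rw [ha, hP₀card, h])
      have ht : t ∈ P₀ := heq ▸ (le_sup_right : Subgroup.zpowers t ≤ _) (Subgroup.mem_zpowers t)
      have h1 : t • ι 0 = ι 0 := (mem_fixingSubgroup_iff 𝔾).mp (hP₀H ht) _ (hιΓ 0)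
      have h2 := htS.1 0
      rw [h1, zero_add] at h2
      have : Fact (1 < p) := ⟨hp.one_lt⟩
      exact one_ne_zero (hι h2).symm
    · rw [ha]; exact Nat.pow_le_pow_right hp.pos h
  -- the base point c₀
  set c₀ := x ⟨0, hp.pos⟩ with hc₀
  have hc₀Γ : c₀ ∉ Γ := hxΓ _
  have hc₀P : ∀ q ∈ P₀, q • c₀ = c₀ := hxfix _
  obtain ⟨t₀, ht₀N, ht₀S, ht₀c, ht₀n⟩ :=
    exists_t hgen Γ hΓ ι hι hιΓ P₀ hP₀p hP₀H hP₀card c₀ hc₀Γ hc₀P
  obtain ⟨hQ₀p, hQ₀E, hQ₀c, hQ₀card⟩ := hfacts c₀ t₀ ht₀N ht₀S ht₀c ht₀n hc₀P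
  set Q₀ := P₀ ⊔ Subgroup.zpowers t₀ with hQ₀
  set F₀ : Finset α := Finset.univ.filter (fun y => y ∉ Γ ∧ ∀ q ∈ Q₀, q • y = y) with hF₀
  have hF₀card : F₀.card < p := by
    by_contra hge
    push Not at hge
    obtain ⟨F₁, hF₁sub, hF₁card⟩ := Finset.exists_subset_card_eq hge
    set R : Finset α := Finset.univ.image ι with hR
    have hRcard : R.card = p := by
      rw [hR, Finset.card_image_of_injective _ hι, Finset.card_univ, ZMod.card]
    have hRΓ : R ⊆ Γ := by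
      intro y hy; obtain ⟨i, -, rfl⟩ := Finset.mem_image.mp hy; exact hιΓ i
    have hdisj : Disjoint (Γ \ R) F₁ := by
      rw [Finset.disjoint_left]
      intro y hy hy'
      have := (Finset.mem_filter.mp (hF₁sub hy')).2.1
      exact this (Finset.mem_sdiff.mp hy).1
    have hΓ'card : ((Γ \ R) ∪ F₁).card = k := by
      rw [Finset.card_union_of_disjoint hdisj, Finset.card_sdiff_of_subset hRΓ, hRcard, hF₁card, hΓ]
      omega
    have hQ₀fix : ∀ q ∈ Q₀, ∀ y ∈ (Γ \ R) ∪ F₁, q • y = y := by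
      intro q hq y hy
      rcases Finset.mem_union.mp hy with hy | hy
      · have hyΓ := (Finset.mem_sdiff.mp hy).1
        have hyR : y ∉ Set.range ι := by
          rintro ⟨i, rfl⟩
          exact (Finset.mem_sdiff.mp hy).2 (Finset.mem_image_of_mem _ (Finset.mem_univ _))
        have : Q₀ ≤ stabilizer 𝔾 y :=
          sup_le (fun q hq => (mem_fixingSubgroup_iff 𝔾).mp (hP₀H hq) _ hyΓ)
            ((Subgroup.zpowers_le).mpr (ht₀S.2 y hyΓ hyR))
        exact this hq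
      · exact (Finset.mem_filter.mp (hF₁sub hy)).2.2 q hq
    obtain ⟨g, hg⟩ := homog hgen _ Γ ((Γ \ R) ∪ F₁) hΓ hΓ'card rfl
    have hconj : Q₀.map (MulAut.conj g⁻¹).toMonoidHom ≤ H := by
      rintro _ ⟨q, hq, rfl⟩
      rw [mem_fixingSubgroup_iff]
      intro y hy
      simp only [MulEquiv.toMonoidHom_eq_coe, MonoidHom.coe_coe, MulAut.conj_apply, inv_inv, mul_smul]
      rw [hQ₀fix q hq _ (hg y hy), inv_smul_smul]
    have h1 := pbound H _ (hQ₀p.map (MulAut.conj g⁻¹).toMonoidHom) hconj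
    rw [Subgroup.card_map_of_injective (MulAut.conj g⁻¹).injective] at h1
    have h2 : p ^ (m + 1) ≤ p ^ m := hQ₀card.trans h1
    exact absurd h2 (not_le.mpr (Nat.pow_lt_pow_right hp.one_lt (Nat.lt_succ_self m)))
  have key : ∀ c, c ∉ Γ → (∀ q ∈ P₀, q • c = c) → ∃ h ∈ H, h • c ∈ F₀ := by
    intro c hcΓ hcP
    obtain ⟨t, htN, htS, htc, htn⟩ := exists_t hgen Γ hΓ ι hι hιΓ P₀ hP₀p hP₀H hP₀card c hcΓ hcP
    obtain ⟨hQp, hQE, hQc, hQcard⟩ := hfacts c t htN htS htc htn hcP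
    set Q := P₀ ⊔ Subgroup.zpowers t with hQ
    obtain ⟨S, hS⟩ := (hQp.comap_subtype (K := E)).exists_le_sylow
    obtain ⟨S₀, hS₀⟩ := (hQ₀p.comap_subtype (K := E)).exists_le_sylow
    have hSeq : Q.subgroupOf E = S := by
      apply Subgroup.eq_of_le_of_card_ge hS
      have h1 : Nat.card (S : Subgroup E) ≤ p ^ (m + 1) := by
        have := lemC ((S : Subgroup E).map E.subtype) (S.isPGroup'.map _) (Subgroup.map_subtype_le _)
        rwa [Subgroup.card_map_of_injective E.subtype_injective] at this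
      have h2 : Nat.card (Q.subgroupOf E) = Nat.card Q :=
        Nat.card_congr (Subgroup.subgroupOfEquivOfLe hQE).toEquiv
      exact (h1.trans hQcard).trans (le_of_eq h2.symm)
    obtain ⟨e, he⟩ := MulAction.exists_smul_eq E S₀ S
    obtain ⟨j, hj⟩ := e.2
    have hpow : Std ι Γ j (t₀ ^ j.val) := by
      have := ht₀S.pow j.val
      rwa [mul_one, ZMod.natCast_zmod_val] at this
    have hh : Std ι Γ 0 ((e : 𝔾) * (t₀ ^ j.val)⁻¹) := by
      have := hj.mul hpow.inv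
      simpa using this
    have hconj : ∀ q ∈ Q₀, (e : 𝔾) * (t₀ ^ j.val)⁻¹ * q * ((e : 𝔾) * (t₀ ^ j.val)⁻¹)⁻¹ ∈ Q := by
      intro q hq
      have ht₀Q : t₀ ^ j.val ∈ Q₀ :=
        Q₀.pow_mem ((le_sup_right : Subgroup.zpowers t₀ ≤ Q₀) (Subgroup.mem_zpowers t₀)) _
      have hq' : (t₀ ^ j.val)⁻¹ * q * (t₀ ^ j.val) ∈ Q₀ :=
        Q₀.mul_mem (Q₀.mul_mem (Q₀.inv_mem ht₀Q) hq) ht₀Q
      have hmem : (⟨_, hQ₀E hq'⟩ : E) ∈ (S₀ : Subgroup E) := hS₀ (Subgroup.mem_subgroupOf.mpr hq')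
      have h1 : MulAut.conj e • (⟨_, hQ₀E hq'⟩ : E) ∈ MulAut.conj e • (S₀ : Subgroup E) :=
        Subgroup.smul_mem_pointwise_smul _ _ _ hmem
      rw [← Sylow.coe_subgroup_smul, he, ← hSeq, Subgroup.mem_subgroupOf] at h1
      have h2 : ((MulAut.conj e • (⟨_, hQ₀E hq'⟩ : E) : E) : 𝔾) =
          (e : 𝔾) * ((t₀ ^ j.val)⁻¹ * q * (t₀ ^ j.val)) * (e : 𝔾)⁻¹ := by
        simp [MulAut.smul_def]
      rw [h2] at h1
      convert h1 using 1
      group
    refine ⟨((e : 𝔾) * (t₀ ^ j.val)⁻¹)⁻¹, H.inv_mem (hstd0 _ hh), ?_⟩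
    rw [Finset.mem_filter]
    refine ⟨Finset.mem_univ _, ?_, ?_⟩
    · intro hmem
      have hfixΓ := (mem_fixingSubgroup_iff 𝔾).mp (hstd0 _ hh) _ hmem
      rw [smul_inv_smul] at hfixΓ
      exact hcΓ (hfixΓ ▸ hmem)
    · intro q hq
      have := hQc _ (hconj q hq)
      rw [mul_smul, mul_smul] at this
      rw [eq_inv_smul_iff]
      exact this
  have hx' : ∀ i, ∃ h ∈ H, h • x i ∈ F₀ := fun i => key (x i) (hxΓ i) (hxfix i)
  choose h hhH hhF using hx'
  have hinj : Function.Injective (fun i : Fin p => (⟨h i • x i, hhF i⟩ : F₀)) := by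
    intro i j hij
    simp only [Subtype.mk.injEq] at hij
    by_contra hne
    apply hdist i j hne
    have h1 : orbit H (x i) = orbit H (f i) := orbit_eq_iff.mpr (hxorb i)
    have h2 : orbit H (x j) = orbit H (f j) := orbit_eq_iff.mpr (hxorb j)
    have h3 : x j ∈ orbit H (x i) :=
      ⟨⟨(h j)⁻¹ * h i, H.mul_mem (H.inv_mem (hhH j)) (hhH i)⟩, by
        show ((h j)⁻¹ * h i) • x i = x j
        rw [mul_smul, hij, inv_smul_smul]⟩
    rw [h1] at h3
    have h4 : orbit H (x j) = orbit H (f i) := orbit_eq_iff.mpr h3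
    rw [← h4, h2]
    exact mem_orbit_self _
  have := Fintype.card_le_of_injective _ hinj
  rw [Fintype.card_fin, Fintype.card_coe] at this
  omega

/-- In a generously `k`-transitive permutation group, for a prime `p ≤ k` and a `k`-set `Γ`, there are no `p` points outside `Γ` lying in distinct orbits of the pointwise stabiliser of `Γ` all of length prime to `p` (at most `p - 1` such orbits). -/
theorem result {α : Type*} [Fintype α] [DecidableEq α] (G : Subgroup (Equiv.Perm α)) {k : ℕ} (hk : k < Fintype.card α) (hgen : ∀ s : Finset α, s.card = k + 1 → ∀ σ : Equiv.Perm ↥s, ∃ g ∈ G, ∀ x : ↥s, g (x : α) = σ x) {p : ℕ} (hp : p.Prime) (hpk : p ≤ k) (Γ : Finset α) (hΓ : Γ.card = k) (f : Fin p → α) (hf : ∀ i, f i ∉ Γ) (hdist : ∀ i j, i ≠ j → f j ∉ MulAction.orbit (fixingSubgroup G (Γ : Set α)) (f i)) : ∃ i, p ∣ Nat.card (MulAction.orbit (fixingSubgroup G (Γ : Set α)) (f i)) := by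
  exact main (𝔾 := G) (fun s hs σ => by
    obtain ⟨g, hg, h⟩ := hgen s hs σ
    exact ⟨⟨g, hg⟩, h⟩) hp hpk Γ hΓ f hf hdist

end Cfsg.Agent.S0706
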