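-- Statement S0707: primitive groups, distinct points have distinct stabilisers.
import Cfsg.Statements.S0707
import Mathlib

set_option autoImplicit false
open Cfsg

namespace Cfsg.Agent.S0707

/-- In a primitive permutation group, distinct points have distinct stabilisers unless the group is regular of prime degree. -/
theorem result {α : Type*} (G : Subgroup (Equiv.Perm α)) [MulAction.IsPreprimitive G α] (h : ¬ (Nat.card α).Prime ∨ ∃ a : α, MulAction.stabilizer G a ≠ ⊥) {a b : α} (hab : a ≠ b) : MulAction.stabilizer G a ≠ MulAction.stabilizer G b := by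
  intro heq
  have : Nontrivial α := ⟨⟨a, b, hab⟩⟩
  have hco : IsCoatom (MulAction.stabilizer G a) :=
    MulAction.IsPreprimitive.isCoatom_stabilizer_of_isPreprimitive G a
  obtain ⟨g, hg⟩ := MulAction.exists_smul_eq G a b
  have hga : g⁻¹ • b = a := by rw [← hg, inv_smul_smul]
  -- g normalises the stabiliser of a
  have hgn : g ∈ Subgroup.normalizer (MulAction.stabilizer G a : Set G) := by
    rw [Subgroup.mem_normalizer_iff]
    intro x
    constructor
    · intro hx
      rw [heq, MulAction.mem_stabilizer_iff, mul_smul, mul_smul, hga]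
      rw [MulAction.mem_stabilizer_iff] at hx
      rw [hx, hg]
    · intro hx
      rw [heq, MulAction.mem_stabilizer_iff, mul_smul, mul_smul, hga] at hx
      rw [MulAction.mem_stabilizer_iff]
      have := congrArg (fun y => g⁻¹ • y) hx
      simp only [inv_smul_smul] at this
      rw [this, hga]
  have hgs : g ∉ MulAction.stabilizer G a := by
    rw [MulAction.mem_stabilizer_iff, hg]
    exact fun hba => hab hba.symm
  have hnt : Subgroup.normalizer (MulAction.stabilizer G a : Set G) = ⊤ := by
    apply hco.2
    exact lt_of_le_of_ne Subgroup.le_normalizer (fun he => hgs (he ▸ hgn))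
  have hnormal : (MulAction.stabilizer G a).Normal := Subgroup.normalizer_eq_top_iff.mp hnt
  -- the stabiliser is trivial
  have hbot : MulAction.stabilizer G a = ⊥ := by
    rw [eq_bot_iff]
    intro x hx
    rw [Subgroup.mem_bot]
    apply Subtype.ext
    apply Equiv.ext
    intro c
    obtain ⟨k, hk⟩ := MulAction.exists_smul_eq G a c
    have h1 : k⁻¹ * x * k ∈ MulAction.stabilizer G a := by
      have := hnormal.conj_mem x hx k⁻¹
      simpa using this
    rw [MulAction.mem_stabilizer_iff, mul_smul, mul_smul] at h1
    have h2 : x • k • a = k • a := by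
      have := congrArg (fun y => k • y) h1
      simpa using this
    rw [hk] at h2
    exact h2
  have hbot' : ∀ c : α, MulAction.stabilizer G c = ⊥ := by
    intro c
    obtain ⟨k, hk⟩ := MulAction.exists_smul_eq G a c
    rw [← hk, MulAction.stabilizer_smul_eq_stabilizer_map_conj, hbot, Subgroup.map_bot]
  -- every subgroup is trivial or everything
  have hsub : ∀ H : Subgroup G, H = ⊥ ∨ H = ⊤ := by
    intro H
    by_cases hH : H = ⊥
    · exact Or.inl hH
    · right
      have := hco.2 H
      rw [hbot] at this
      exact this (bot_lt_iff_ne_bot.mpr hH)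
  have hg1 : g ≠ 1 := by
    rintro rfl
    rw [one_smul] at hg
    exact hab hg
  have hz : Subgroup.zpowers g = ⊤ :=
    (hsub _).resolve_left (fun h0 => hg1 (Subgroup.zpowers_eq_bot.mp h0))
  have hcomm : IsMulCommutative G := ⟨⟨fun x y => by
    have hx : x ∈ Subgroup.zpowers g := hz ▸ Subgroup.mem_top x
    have hy : y ∈ Subgroup.zpowers g := hz ▸ Subgroup.mem_top y
    obtain ⟨i, rfl⟩ := hx
    obtain ⟨j, rfl⟩ := hy
    exact (Commute.zpow_zpow_self g i j).eq⟩⟩
  have : Nontrivial G := ⟨⟨g, 1, hg1⟩⟩
  have hsimple : IsSimpleGroup G := ⟨fun H _ => hsub H⟩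
  have hprime : (Nat.card G).Prime := Group.is_simple_iff_prime_card.mp hsimple
  -- the action is regular
  have hcard : Nat.card α = Nat.card G := by
    have hbij : Function.Bijective (fun k : G => k • a) := by
      constructor
      · intro k1 k2 hk
        have hk' : k2⁻¹ * k1 ∈ MulAction.stabilizer G a := by
          rw [MulAction.mem_stabilizer_iff, mul_smul]
          change k1 • a = k2 • a at hk
          rw [hk, inv_smul_smul]
        rw [hbot, Subgroup.mem_bot] at hk'
        have := congrArg (fun y => k2 * y) hk'
        simpa using this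
      · intro c
        exact MulAction.exists_smul_eq G a c
    exact (Nat.card_congr (Equiv.ofBijective _ hbij)).symm
  rcases h with h | ⟨c, hc⟩
  · exact h (hcard ▸ hprime)
  · exact hc (hbot' c)

end Cfsg.Agent.S0707
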