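import Cfsg.Statements.S0708
import Mathlib
import Cfsg.Agent.Helper12.SharpK

set_option autoImplicit false
open Cfsg

namespace Cfsg.Agent.S0708

open MulAction Cfsg.Agent.Helper12 in
/-- In a sharply 4-transitive action a non-identity element has finitely many fixed points. -/
theorem fix_finite {G : Type*} [Group G] {Ω : Type*} [MulAction G Ω]
    (hsharp : ∀ x : Fin 4 ↪ Ω, stabilizer G x = ⊥) {g : G} (hg : g ≠ 1) :
    {x : Ω | g • x = x}.Finite := by
  by_contra hinf
  have hinf' : {x : Ω | g • x = x}.Infinite := hinf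
  apply hg
  apply sharpK_eq hsharp (fun i : Fin 4 => ((hinf'.natEmbedding _ i.1 : {x : Ω | g • x = x}) : Ω))
    (Subtype.val_injective.comp ((hinf'.natEmbedding _).injective.comp Fin.val_injective))
  intro i
  rw [one_smul]
  exact (hinf'.natEmbedding _ i.1).2

open MulAction Cfsg.Agent.Helper12 in
/-- Tits: a sharply 4-transitive action lives on a finite set. -/
theorem finite_of_sharp4 {G : Type*} [Group G] {Ω : Type*} [MulAction G Ω]
    (h4 : IsMultiplyPretransitive G Ω 4) (hsharp : ∀ x : Fin 4 ↪ Ω, stabilizer G x = ⊥)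
    (hne : Nonempty (Fin 4 ↪ Ω)) : Finite Ω := by
  classical
  obtain ⟨e⟩ := hne
  have hD : D4 (e 0) (e 1) (e 2) (e 3) := by
    refine ⟨?_, ?_, ?_, ?_, ?_, ?_⟩ <;>
    · intro h
      have := e.injective h
      revert this
      decide
  obtain ⟨a, ha⟩ : ∃ a, a = e 0 := ⟨_, rfl⟩
  obtain ⟨b, hb⟩ : ∃ b, b = e 1 := ⟨_, rfl⟩
  obtain ⟨c, hc⟩ : ∃ c, c = e 2 := ⟨_, rfl⟩
  obtain ⟨d, hd⟩ : ∃ d, d = e 3 := ⟨_, rfl⟩
  rw [← ha, ← hb, ← hc, ← hd] at hD
  obtain ⟨hab, hac, had, hbc, hbd, hcd⟩ := hD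
  have hD : D4 a b c d := ⟨hab, hac, had, hbc, hbd, hcd⟩
  obtain ⟨t, hta, htb, htc, htd⟩ := ex4 h4 (a := a) (b := b) (c := c) (d := d)
    (a' := b) (b' := a) (c' := c) (d' := d) hD ⟨hab.symm, hbc, hbd, hac, had, hcd⟩
  obtain ⟨σ, hσa, hσb, hσc, hσd⟩ := ex4 h4 (a := a) (b := b) (c := c) (d := d)
    (a' := a) (b' := b) (c' := d) (d' := c) hD ⟨hab, had, hac, hbd, hbc, hcd.symm⟩
  have htt : t * t = 1 := by
    apply eq4 hsharp hD
    · rw [mul_smul, hta, htb, one_smul]
    · rw [mul_smul, htb, hta, one_smul]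
    · rw [mul_smul, htc, htc, one_smul]
    · rw [mul_smul, htd, htd, one_smul]
  have hσσ : σ * σ = 1 := by
    apply eq4 hsharp hD
    · rw [mul_smul, hσa, hσa, one_smul]
    · rw [mul_smul, hσb, hσb, one_smul]
    · rw [mul_smul, hσc, hσd, one_smul]
    · rw [mul_smul, hσd, hσc, one_smul]
  have hσt : σ * t = t * σ := by
    apply eq4 hsharp hD
    · rw [mul_smul, mul_smul, hta, hσb, hσa, hta]
    · rw [mul_smul, mul_smul, htb, hσa, hσb, htb]
    · rw [mul_smul, mul_smul, htc, hσc, htd]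
    · rw [mul_smul, mul_smul, htd, hσd, htc]
  have ht2 : ∀ y : Ω, t • t • y = y := fun y => by rw [← mul_smul, htt, one_smul]
  have hσ2 : ∀ y : Ω, σ • σ • y = y := fun y => by rw [← mul_smul, hσσ, one_smul]
  have hcm : ∀ y : Ω, σ • t • y = t • σ • y := fun y => by
    rw [← mul_smul, hσt, mul_smul]
  have ht1 : t ≠ 1 := by
    rintro rfl
    rw [one_smul] at hta
    exact hab hta
  have hσ1 : σ ≠ 1 := by
    rintro rfl
    rw [one_smul] at hσc
    exact hcd hσc
  have htσ1 : t * σ ≠ 1 := by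
    intro h
    have h1 : (t * σ) • a = b := by rw [mul_smul, hσa, hta]
    rw [h, one_smul] at h1
    exact hab h1
  obtain ⟨P, hP⟩ : ∃ P : Set Ω, P = {x | t • x = x} ∪ {x | σ • x = x} ∪ {x | (t * σ) • x = x} :=
    ⟨_, rfl⟩
  have hPfin : P.Finite := by
    rw [hP]
    exact ((fix_finite hsharp ht1).union (fix_finite hsharp hσ1)).union (fix_finite hsharp htσ1)
  have haP : a ∈ P := by rw [hP]; exact Or.inl (Or.inr hσa)
  have hbP : b ∈ P := by rw [hP]; exact Or.inl (Or.inr hσb)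
  have hcP : c ∈ P := by rw [hP]; exact Or.inl (Or.inl htc)
  have hdP : d ∈ P := by rw [hP]; exact Or.inl (Or.inl htd)
  -- the centraliser of the four-group
  obtain ⟨C, hC⟩ : ∃ C : Set G, C = {g | g * t = t * g ∧ g * σ = σ * g} := ⟨_, rfl⟩
  have hCP : ∀ g ∈ C, ∀ x ∈ P, g • x ∈ P := by
    intro g hg x hx
    rw [hC] at hg
    obtain ⟨hgt, hgσ⟩ := hg
    rw [hP] at hx ⊢
    rcases hx with (hx | hx) | hx
    · left; left
      show t • g • x = g • x
      rw [← mul_smul, ← hgt, mul_smul, hx]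
    · left; right
      show σ • g • x = g • x
      rw [← mul_smul, ← hgσ, mul_smul, hx]
    · right
      show (t * σ) • g • x = g • x
      have h1 : t * σ * g = g * (t * σ) := by
        rw [mul_assoc, ← hgσ, ← mul_assoc, ← hgt, mul_assoc]
      rw [← mul_smul, h1, mul_smul, hx]
  have hCfin : C.Finite := by
    apply Set.Finite.of_finite_image (f := fun g : G => (g • a, g • b, g • c, g • d))
    · apply Set.Finite.subset (((hPfin.prod (hPfin.prod (hPfin.prod hPfin)))))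
      rintro _ ⟨g, hg, rfl⟩
      exact ⟨hCP g hg a haP, hCP g hg b hbP, hCP g hg c hcP, hCP g hg d hdP⟩
    · intro g _ g' _ h
      simp only [Prod.mk.injEq] at h
      exact eq4 hsharp hD h.1 h.2.1 h.2.2.1 h.2.2.2
  -- points outside `P` form at most one orbit of the centraliser
  have hreg : ∀ x : Ω, x ∉ P → D4 x (t • x) (σ • x) (t • σ • x) := by
    intro x hx
    rw [hP] at hx
    simp only [Set.mem_union, Set.mem_ofPred_eq, not_or] at hx
    obtain ⟨⟨hxt, hxσ⟩, hxtσ⟩ := hx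
    rw [mul_smul] at hxtσ
    refine ⟨Ne.symm hxt, Ne.symm hxσ, Ne.symm hxtσ, ?_, ?_, ?_⟩
    · intro h
      apply hxtσ
      rw [← h, ht2]
    · intro h
      exact hxσ (smul_left_cancel t h).symm
    · intro h
      apply hxt
      have h1 : σ • σ • x = σ • t • σ • x := congrArg (fun z => σ • z) h
      rw [hσ2, hcm, hσ2] at h1
      exact h1.symm
  have hmove : ∀ x x' : Ω, x ∉ P → x' ∉ P → ∃ g ∈ C, g • x = x' := by
    intro x x' hx hx'
    obtain ⟨g, g1, g2, g3, g4⟩ := ex4 h4 (hreg x hx) (hreg x' hx')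
    refine ⟨g, ?_, g1⟩
    rw [hC]
    constructor
    · apply eq4 hsharp (hreg x hx)
      · rw [mul_smul, mul_smul, g2, g1]
      · rw [mul_smul, mul_smul, ht2, g1, g2, ht2]
      · rw [mul_smul, mul_smul, g4, g3]
      · rw [mul_smul, mul_smul, ht2, g3, g4, ht2]
    · apply eq4 hsharp (hreg x hx)
      · rw [mul_smul, mul_smul, g3, g1]
      · rw [mul_smul, mul_smul, hcm, g4, g2, hcm]
      · rw [mul_smul, mul_smul, hσ2, g1, g3, hσ2]
      · rw [mul_smul, mul_smul, hcm, hσ2, g2, g4, hcm, hσ2]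
  rw [← Set.finite_univ_iff]
  by_cases hex : ∃ x₀ : Ω, x₀ ∉ P
  · obtain ⟨x₀, hx₀⟩ := hex
    apply Set.Finite.subset (hPfin.union (hCfin.image (fun g : G => g • x₀)))
    intro x _
    by_cases hx : x ∈ P
    · exact Or.inl hx
    · obtain ⟨g, hg, hgx⟩ := hmove x₀ x hx₀ hx
      exact Or.inr ⟨g, hg, hgx⟩
  · push Not at hex
    exact Set.Finite.subset hPfin (fun x _ => hex x)

/-- Tits' argument: a sharply 4-transitive group (no finiteness assumed) has finite degree at most 11, and at most 6 when the degree is even. -/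
theorem result {G : Type*} [Group G] {Ω : Type*} [MulAction G Ω] (h4 : MulAction.IsMultiplyPretransitive G Ω 4) (hsharp : ∀ x : Fin 4 ↪ Ω, MulAction.stabilizer G x = ⊥) (hne : Nonempty (Fin 4 ↪ Ω)) : Finite Ω ∧ Nat.card Ω ≤ 11 ∧ (Even (Nat.card Ω) → Nat.card Ω ≤ 6) := by
  have hfin : Finite Ω := finite_of_sharp4 h4 hsharp hne
  have := Fintype.ofFinite Ω
  obtain ⟨e⟩ := hne
  have hn : 4 ≤ Fintype.card Ω := by
    have := Fintype.card_le_of_embedding e
    simpa using this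
  have hc := Cfsg.Agent.Helper12.sharp4_card h4 hsharp hn
  rw [Nat.card_eq_fintype_card]
  refine ⟨hfin, by omega, ?_⟩
  rintro ⟨r, hr⟩
  omega

end Cfsg.Agent.S0708
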