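import Cfsg.Statements.S0709
import Mathlib

set_option autoImplicit false
open Cfsg

namespace Cfsg.Agent.S0709

/-- Witt's one-point extension lemma, in abstract form. -/
theorem witt_step {α : Type*} (K : Subgroup (Equiv.Perm α)) (g h : Equiv.Perm α) (a ω : α)
    (P : α → Prop)
    (hKP : ∀ x ∈ K, ∀ c, P c → x c = c)
    (hg : g ∈ K) (hKω : ∀ x ∈ K, x ω = ω) (haω : a ≠ ω) (hPa : ¬ P a)
    (hha : h a = ω) (hhω : h ω = a) (hga : g a ≠ a)
    (h2 : ∀ b c d e : α, ¬ P b → ¬ P c → ¬ P d → ¬ P e → b ≠ ω → c ≠ ω → d ≠ ω → e ≠ ω →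
      b ≠ c → d ≠ e → ∃ x ∈ K, x b = d ∧ x c = e)
    (hh2 : h ^ 2 ∈ K) (hgh : (g * h) ^ 3 ∈ K)
    (hnorm : ∀ x ∈ K, x a = a → h * x * h⁻¹ ∈ K ∧ (h * x * h⁻¹) a = a) :
    (∀ x ∈ Subgroup.closure ((K : Set (Equiv.Perm α)) ∪ {h}), x ω = ω → x ∈ K) ∧
    (∀ b, ¬ P b → ∃ x ∈ Subgroup.closure ((K : Set (Equiv.Perm α)) ∪ {h}), x b = ω) := by
  have hKle : K ≤ Subgroup.closure ((K : Set (Equiv.Perm α)) ∪ {h}) := by
    intro x hx
    exact Subgroup.subset_closure (Or.inl hx)
  have hhmem : h ∈ Subgroup.closure ((K : Set (Equiv.Perm α)) ∪ {h}) :=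
    Subgroup.subset_closure (Or.inr rfl)
  -- points moved by `K` stay outside `P` and `ω`
  have hKnP : ∀ x ∈ K, ∀ c, ¬ P c → ¬ P (x c) := by
    intro x hx c hc hP
    have h1 := hKP x hx (x c) hP
    have h2 : x c = c := x.injective h1
    rw [h2] at hP
    exact hc hP
  have hKnω : ∀ x ∈ K, ∀ c, c ≠ ω → x c ≠ ω := by
    intro x hx c hc h1
    rw [← hKω x hx] at h1
    exact hc (x.injective h1)
  have hh2a : (h ^ 2) a = a := by
    rw [pow_two, Equiv.Perm.mul_apply, hha, hhω]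
  -- `h⁻¹ x h ∈ K` for `x ∈ K_a`
  have hnorm' : ∀ x ∈ K, x a = a → h⁻¹ * x * h ∈ K := by
    intro x hx hxa
    have h1 := (hnorm x hx hxa).1
    have e1 : h⁻¹ * x * h = (h ^ 2)⁻¹ * (h * x * h⁻¹) * h ^ 2 := by
      rw [pow_two]; group
    rw [e1]
    exact K.mul_mem (K.mul_mem (K.inv_mem hh2) h1) hh2
  -- `h g h ∈ K h K`
  have hhgh : ∃ u ∈ K, ∃ v ∈ K, h * g * h = u * h * v := by
    refine ⟨g⁻¹ * (g * h) ^ 3 * (h ^ 2)⁻¹, K.mul_mem (K.mul_mem (K.inv_mem hg) hgh) (K.inv_mem hh2),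
      g⁻¹, K.inv_mem hg, ?_⟩
    rw [pow_succ, pow_two, pow_two]
    group
  -- `h w h ∈ K ∪ K h K` for `w ∈ K`
  have hhwh : ∀ w ∈ K, h * w * h ∈ K ∨ ∃ u ∈ K, ∃ v ∈ K, h * w * h = u * h * v := by
    intro w hw
    by_cases hwa : w a = a
    · left
      have h1 := (hnorm w hw hwa).1
      have e1 : h * w * h = (h * w * h⁻¹) * h ^ 2 := by rw [pow_two]; group
      rw [e1]
      exact K.mul_mem h1 hh2
    · right
      obtain ⟨y, hy, hya, hyg⟩ := h2 a (g a) a (w a) hPa (hKnP g hg a hPa) hPa (hKnP w hw a hPa)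
        haω (hKnω g hg a haω) haω (hKnω w hw a haω) (Ne.symm hga) (Ne.symm hwa)
      have hz : (g⁻¹ * y⁻¹ * w) a = a := by
        rw [Equiv.Perm.mul_apply, Equiv.Perm.mul_apply, ← hyg]
        simp
      have hzK : g⁻¹ * y⁻¹ * w ∈ K := K.mul_mem (K.mul_mem (K.inv_mem hg) (K.inv_mem hy)) hw
      obtain ⟨u, hu, v, hv, huv⟩ := hhgh
      refine ⟨(h * y * h⁻¹) * u, K.mul_mem (hnorm y hy hya).1 hu,
        v * (h⁻¹ * (g⁻¹ * y⁻¹ * w) * h), K.mul_mem hv (hnorm' _ hzK hz), ?_⟩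
      have e1 : h * w * h = (h * y * h⁻¹) * (h * g * h) * (h⁻¹ * (g⁻¹ * y⁻¹ * w) * h) := by group
      rw [e1, huv]
      group
  -- the set `K ∪ K h K` contains the closure
  have hX : ∀ x ∈ Subgroup.closure ((K : Set (Equiv.Perm α)) ∪ {h}),
      x ∈ K ∨ ∃ u ∈ K, ∃ v ∈ K, x = u * h * v := by
    intro x hx
    induction hx using Subgroup.closure_induction with
    | mem x hx =>
      rcases hx with hx | hx
      · exact Or.inl hx
      · right
        rw [Set.mem_singleton_iff] at hx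
        exact ⟨1, K.one_mem, 1, K.one_mem, by rw [hx]; group⟩
    | one => exact Or.inl K.one_mem
    | mul x y _ _ ihx ihy =>
      rcases ihx with hx | ⟨u, hu, v, hv, rfl⟩
      · rcases ihy with hy | ⟨u', hu', v', hv', rfl⟩
        · exact Or.inl (K.mul_mem hx hy)
        · right
          exact ⟨x * u', K.mul_mem hx hu', v', hv', by group⟩
      · rcases ihy with hy | ⟨u', hu', v', hv', rfl⟩
        · right
          exact ⟨u, hu, v * y, K.mul_mem hv hy, by group⟩
        · rcases hhwh (v * u') (K.mul_mem hv hu') with h1 | ⟨u'', hu'', v'', hv'', h1⟩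
          · left
            have e1 : u * h * v * (u' * h * v') = u * (h * (v * u') * h) * v' := by group
            rw [e1]
            exact K.mul_mem (K.mul_mem hu h1) hv'
          · right
            refine ⟨u * u'', K.mul_mem hu hu'', v'' * v', K.mul_mem hv'' hv', ?_⟩
            have e1 : u * h * v * (u' * h * v') = u * (h * (v * u') * h) * v' := by group
            rw [e1, h1]
            group
    | inv x _ ihx =>
      rcases ihx with hx | ⟨u, hu, v, hv, rfl⟩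
      · exact Or.inl (K.inv_mem hx)
      · right
        refine ⟨v⁻¹ * (h ^ 2)⁻¹, K.mul_mem (K.inv_mem hv) (K.inv_mem hh2), u⁻¹, K.inv_mem hu, ?_⟩
        rw [pow_two]
        group
  refine ⟨?_, ?_⟩
  · intro x hx hxω
    rcases hX x hx with h1 | ⟨u, hu, v, hv, rfl⟩
    · exact h1
    · exfalso
      rw [Equiv.Perm.mul_apply, Equiv.Perm.mul_apply, hKω v hv, hhω] at hxω
      exact hKnω u hu a haω hxω
  · intro b hb
    by_cases hbω : b = ω
    · exact ⟨1, Subgroup.one_mem _, by rw [hbω]; rfl⟩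
    · by_cases hba : b = a
      · exact ⟨h, hhmem, by rw [hba, hha]⟩
      · obtain ⟨x, hx, hxb, -⟩ := h2 b a a b hb hPa hPa hb hbω haω haω hbω hba (Ne.symm hba)
        exact ⟨h * x, Subgroup.mul_mem _ hhmem (hKle hx), by
          rw [Equiv.Perm.mul_apply, hxb, hha]⟩

variable {α : Type*}

/-- The group generated by `G` and `s 2, …, s (k-1)`. -/
def Gk (G : Subgroup (Equiv.Perm α)) (s : ℕ → Equiv.Perm α) (k : ℕ) : Subgroup (Equiv.Perm α) :=
  Subgroup.closure ((G : Set (Equiv.Perm α)) ∪ {x | ∃ i : ℕ, 2 ≤ i ∧ i + 1 ≤ k ∧ x = s i})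

theorem le_Gk (G : Subgroup (Equiv.Perm α)) (s : ℕ → Equiv.Perm α) (k : ℕ) : G ≤ Gk G s k :=
  fun _ hx => Subgroup.subset_closure (Or.inl hx)

theorem s_mem_Gk (G : Subgroup (Equiv.Perm α)) (s : ℕ → Equiv.Perm α) (k i : ℕ) (h2 : 2 ≤ i)
    (hi : i + 1 ≤ k) : s i ∈ Gk G s k :=
  Subgroup.subset_closure (Or.inr ⟨i, h2, hi, rfl⟩)

theorem Gk_two (G : Subgroup (Equiv.Perm α)) (s : ℕ → Equiv.Perm α) : Gk G s 2 = G := by
  apply le_antisymm
  · apply (Subgroup.closure_le _).mpr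
    rintro x (hx | ⟨i, h2, hi, rfl⟩)
    · exact hx
    · omega
  · exact le_Gk G s 2

theorem Gk_mono (G : Subgroup (Equiv.Perm α)) (s : ℕ → Equiv.Perm α) (k : ℕ) :
    Gk G s k ≤ Gk G s (k + 1) := by
  apply Subgroup.closure_mono
  rintro x (hx | ⟨i, h2, hi, rfl⟩)
  · exact Or.inl hx
  · exact Or.inr ⟨i, h2, by omega, rfl⟩

theorem Gk_succ (G : Subgroup (Equiv.Perm α)) (s : ℕ → Equiv.Perm α) (k : ℕ) (hk : 2 ≤ k) :
    Gk G s (k + 1) = Subgroup.closure ((Gk G s k : Set (Equiv.Perm α)) ∪ {s k}) := by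
  apply le_antisymm
  · apply (Subgroup.closure_le _).mpr
    rintro x (hx | ⟨i, h2, hi, rfl⟩)
    · exact Subgroup.subset_closure (Or.inl (le_Gk G s k hx))
    · by_cases hik : i = k
      · subst hik
        exact Subgroup.subset_closure (Or.inr rfl)
      · exact Subgroup.subset_closure (Or.inl (s_mem_Gk G s k i h2 (by omega)))
  · apply (Subgroup.closure_le _).mpr
    rintro x (hx | hx)
    · exact Gk_mono G s k hx
    · rw [Set.mem_singleton_iff] at hx
      rw [hx]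
      exact s_mem_Gk G s (k + 1) k hk le_rfl

/-- Witt's Lemma for constructing transitive extensions. Points `q 1, …, q t` (`t ≥ 2`) of a finite set are given; `G` fixes `q i` for `i ≥ 3` and is doubly transitive on the remaining points; `s 1 ∈ G` swaps `q 1, q 2`; for `2 ≤ i ≤ t-1`, `s i` swaps `q i, q (i+1)` and fixes the other `q j`; with `H` the stabiliser of `q 1, q 2` in `G`: `s i ^ 2 ∈ H`, `(s i * s (i+1)) ^ 3 ∈ H`, `(s i * s j) ^ 2 ∈ H` for `j ≥ i + 2`, and `s i` (`i ≥ 2`) normalises the stabiliser of `q 2` in `G`. Then `G` and the `s i` generate a `t`-transitive group whose pointwise stabiliser of the `q`'s is `H`. -/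
theorem result {α : Type*} [Fintype α] [DecidableEq α] (t : ℕ) (ht : 2 ≤ t) (q : ℕ → α) (hq : ∀ i j : ℕ, 1 ≤ i → i ≤ t → 1 ≤ j → j ≤ t → q i = q j → i = j) (G : Subgroup (Equiv.Perm α)) (hfix : ∀ g ∈ G, ∀ i : ℕ, 3 ≤ i → i ≤ t → g (q i) = q i) (h2 : ∀ a b c d : α, (∀ i, 3 ≤ i → i ≤ t → a ≠ q i ∧ b ≠ q i ∧ c ≠ q i ∧ d ≠ q i) → a ≠ b → c ≠ d → ∃ g ∈ G, g a = c ∧ g b = d) (s : ℕ → Equiv.Perm α) (hs1 : s 1 ∈ G) (hs1q : s 1 (q 1) = q 2 ∧ s 1 (q 2) = q 1) (hsq : ∀ i : ℕ, 2 ≤ i → i + 1 ≤ t → s i (q i) = q (i + 1) ∧ s i (q (i + 1)) = q i ∧ ∀ j : ℕ, 1 ≤ j → j ≤ t → j ≠ i → j ≠ i + 1 → s i (q j) = q j) (H : Subgroup (Equiv.Perm α)) (hH : H = G ⊓ MulAction.stabilizer (Equiv.Perm α) (q 1) ⊓ MulAction.stabilizer (Equiv.Perm α) (q 2)) (hsq2 : ∀ i : ℕ, 1 ≤ i → i + 1 ≤ t → s i ^ 2 ∈ H) (hbraid : ∀ i : ℕ, 1 ≤ i → i + 2 ≤ t → (s i * s (i + 1)) ^ 3 ∈ H) (hcomm : ∀ i j : ℕ, 1 ≤ i → i + 2 ≤ j → j + 1 ≤ t → (s i * s j) ^ 2 ∈ H ∧ (s j * s i) ^ 2 ∈ H) (hnorm : ∀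 i : ℕ, 2 ≤ i → i + 1 ≤ t → ∀ g ∈ G ⊓ MulAction.stabilizer (Equiv.Perm α) (q 2), s i * g * (s i)⁻¹ ∈ G ⊓ MulAction.stabilizer (Equiv.Perm α) (q 2)) : MulAction.IsMultiplyPretransitive ↥(Subgroup.closure ((G : Set (Equiv.Perm α)) ∪ {x | ∃ i : ℕ, 2 ≤ i ∧ i + 1 ≤ t ∧ x = s i})) α t ∧ Subgroup.closure ((G : Set (Equiv.Perm α)) ∪ {x | ∃ i : ℕ, 2 ≤ i ∧ i + 1 ≤ t ∧ x = s i}) ⊓ fixingSubgroup (Equiv.Perm α) {x | ∃ i : ℕ, 1 ≤ i ∧ i ≤ t ∧ x = q i} = H := by
  have hqne : ∀ i j : ℕ, 1 ≤ i → i ≤ t → 1 ≤ j → j ≤ t → i ≠ j → q i ≠ q j :=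
    fun i j hi hit hj hjt hij h => hij (hq i j hi hit hj hjt h)
  have hHG : H ≤ G := by
    rw [hH]
    exact inf_le_left.trans inf_le_left
  have hHmem : ∀ x : Equiv.Perm α, x ∈ H ↔ x ∈ G ∧ x (q 1) = q 1 ∧ x (q 2) = q 2 := by
    intro x
    rw [hH, Subgroup.mem_inf, Subgroup.mem_inf, MulAction.mem_stabilizer_iff,
      MulAction.mem_stabilizer_iff, and_assoc]
    rfl
  have hHq : ∀ x ∈ H, ∀ i, 1 ≤ i → i ≤ t → x (q i) = q i := by
    intro x hx i hi hit
    obtain ⟨hxG, hx1, hx2⟩ := (hHmem x).mp hx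
    by_cases h1 : i = 1
    · subst h1; exact hx1
    · by_cases h2' : i = 2
      · subst h2'; exact hx2
      · exact hfix x hxG i (by omega) hit
  have hfixk : ∀ k, 2 ≤ k → ∀ x ∈ Gk G s k, ∀ j, k < j → j ≤ t → x (q j) = q j := by
    intro k hk x hx j hkj hjt
    have hle : Gk G s k ≤ MulAction.stabilizer (Equiv.Perm α) (q j) := by
      apply (Subgroup.closure_le _).mpr
      rintro y (hy | ⟨i, hi2, hi, rfl⟩)
      · exact hfix y hy j (by omega) hjt
      · exact (hsq i hi2 (by omega)).2.2 j (by omega) hjt (by omega) (by omega)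
    exact hle hx
  -- `s i` normalises `G` for `i ≥ 3`
  have hNG : ∀ i, 3 ≤ i → i + 1 ≤ t → ∀ x ∈ G, s i * x * (s i)⁻¹ ∈ G := by
    intro i hi hit x hx
    have hs1c : s i * s 1 * (s i)⁻¹ ∈ G := by
      have h1 := (hcomm 1 i le_rfl (by omega) hit).2
      have h3 := hsq2 i (by omega) hit
      have e : s i * s 1 * (s i)⁻¹ = (s i * s 1) ^ 2 * (s 1)⁻¹ * (s i ^ 2)⁻¹ := by
        rw [pow_two, pow_two]; group
      rw [e]
      exact G.mul_mem (G.mul_mem (hHG h1) (G.inv_mem hs1)) (G.inv_mem (hHG h3))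
    by_cases hx2 : x (q 2) = q 2
    · exact (hnorm i (by omega) hit x ⟨hx, hx2⟩).1
    · have hxq : ∀ j, 3 ≤ j → j ≤ t → x (q 2) ≠ q j := by
        intro j hj hjt h
        rw [← hfix x hx j hj hjt] at h
        exact hqne 2 j (by omega) (by omega) (by omega) hjt (by omega) (x.injective h)
      obtain ⟨y, hy, hy2, hy1⟩ := h2 (q 2) (q 1) (q 2) (x (q 2))
        (fun j hj hjt => ⟨hqne 2 j (by omega) (by omega) (by omega) hjt (by omega),
          hqne 1 j (by omega) (by omega) (by omega) hjt (by omega),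
          hqne 2 j (by omega) (by omega) (by omega) hjt (by omega), hxq j hj hjt⟩)
        (hqne 2 1 (by omega) (by omega) (by omega) (by omega) (by omega)) (Ne.symm hx2)
      have hz : ((y * s 1)⁻¹ * x) (q 2) = q 2 := by
        have h3 : (y * s 1) (q 2) = x (q 2) := by rw [Equiv.Perm.mul_apply, hs1q.2, hy1]
        rw [Equiv.Perm.mul_apply, ← h3]
        simp
      have hzG : (y * s 1)⁻¹ * x ∈ G := G.mul_mem (G.inv_mem (G.mul_mem hy hs1)) hx
      have e : s i * x * (s i)⁻¹ = (s i * y * (s i)⁻¹) * (s i * s 1 * (s i)⁻¹) *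
          (s i * ((y * s 1)⁻¹ * x) * (s i)⁻¹) := by group
      rw [e]
      exact G.mul_mem (G.mul_mem (hnorm i (by omega) hit y ⟨hy, hy2⟩).1 hs1c)
        (hnorm i (by omega) hit _ ⟨hzG, hz⟩).1
  -- `s (j+1)` normalises `Gk j`
  have hNGk : ∀ j, 2 ≤ j → j + 2 ≤ t → ∀ x ∈ Gk G s j,
      s (j + 1) * x * (s (j + 1))⁻¹ ∈ Gk G s j := by
    intro j hj hjt x hx
    induction hx using Subgroup.closure_induction with
    | mem x hx =>
      rcases hx with hx | ⟨i, hi2, hi, rfl⟩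
      · exact le_Gk G s j (hNG (j + 1) (by omega) (by omega) x hx)
      · have h1 := (hcomm i (j + 1) (by omega) (by omega) (by omega)).2
        have h3 := hsq2 (j + 1) (by omega) (by omega)
        have e : s (j + 1) * s i * (s (j + 1))⁻¹ =
            (s (j + 1) * s i) ^ 2 * (s i)⁻¹ * (s (j + 1) ^ 2)⁻¹ := by
          rw [pow_two, pow_two]; group
        rw [e]
        exact (Gk G s j).mul_mem ((Gk G s j).mul_mem (le_Gk G s j (hHG h1))
          ((Gk G s j).inv_mem (s_mem_Gk G s j i hi2 hi))) ((Gk G s j).inv_mem (le_Gk G s j (hHG h3)))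
    | one =>
      have e : s (j + 1) * 1 * (s (j + 1))⁻¹ = 1 := by group
      rw [e]
      exact Subgroup.one_mem _
    | mul x y _ _ ihx ihy =>
      have e : s (j + 1) * (x * y) * (s (j + 1))⁻¹ =
          (s (j + 1) * x * (s (j + 1))⁻¹) * (s (j + 1) * y * (s (j + 1))⁻¹) := by group
      rw [e]
      exact Subgroup.mul_mem _ ihx ihy
    | inv x _ ihx =>
      have e : s (j + 1) * x⁻¹ * (s (j + 1))⁻¹ = (s (j + 1) * x * (s (j + 1))⁻¹)⁻¹ := by group
      rw [e]
      exact Subgroup.inv_mem _ ihx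
  -- the main induction
  have hQ : ∀ k, 2 ≤ k → k ≤ t →
      (∀ a b c d : α, (∀ j, k < j → j ≤ t → a ≠ q j ∧ b ≠ q j ∧ c ≠ q j ∧ d ≠ q j) → a ≠ b →
        c ≠ d → ∃ g ∈ Gk G s k, g a = c ∧ g b = d) ∧
      (∀ x y : Fin k → α, Function.Injective x → Function.Injective y →
        (∀ i j, k < j → j ≤ t → x i ≠ q j ∧ y i ≠ q j) → ∃ g ∈ Gk G s k, ∀ i, g (x i) = y i) ∧
      (∀ g ∈ Gk G s k, (∀ i, 1 ≤ i → i ≤ k → g (q i) = q i) → g ∈ H) ∧
      (3 ≤ k → ∀ g ∈ Gk G s k, g (q k) = q k → g ∈ Gk G s (k - 1)) := by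
    intro k hk
    induction k, hk using Nat.le_induction with
    | base =>
      intro _
      rw [Gk_two]
      refine ⟨fun a b c d hav hab hcd => h2 a b c d (fun i hi hit => hav i (by omega) hit) hab hcd,
        ?_, ?_, fun h3 => absurd h3 (by omega)⟩
      · intro x y hx hy hav
        obtain ⟨g, hg, h0, h1⟩ := h2 (x 0) (x 1) (y 0) (y 1)
          (fun i hi hit => ⟨(hav 0 i (by omega) hit).1, (hav 1 i (by omega) hit).1,
            (hav 0 i (by omega) hit).2, (hav 1 i (by omega) hit).2⟩)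
          (fun h => absurd (hx h) (by decide)) (fun h => absurd (hy h) (by decide))
        exact ⟨g, hg, Fin.forall_fin_two.mpr ⟨h0, h1⟩⟩
      · intro g hg hgq
        exact (hHmem g).mpr ⟨hg, hgq 1 le_rfl (by omega), hgq 2 (by omega) le_rfl⟩
    | succ k hk ih =>
      intro hkt
      obtain ⟨ih2, ihT, ihS, ih4⟩ := ih (by omega)
      obtain ⟨j, rfl⟩ : ∃ j, k = j + 1 := ⟨k - 1, by omega⟩
      -- the data of the one-point extension
      have hgK : s j ∈ Gk G s (j + 1) := by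
        by_cases hj1 : j = 1
        · subst hj1; exact le_Gk G s _ hs1
        · exact s_mem_Gk G s (j + 1) j (by omega) le_rfl
      have hga : s j (q (j + 1)) = q j := by
        by_cases hj1 : j = 1
        · subst hj1; exact hs1q.2
        · exact (hsq j (by omega) (by omega)).2.1
      have hsk := hsq (j + 1) (by omega) hkt
      have hPa : ¬ ∃ i, j + 1 + 1 < i ∧ i ≤ t ∧ q (j + 1) = q i := by
        rintro ⟨i, hi, hit, h⟩
        exact hqne (j + 1) i (by omega) (by omega) (by omega) hit (by omega) h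
      have hstep := witt_step (Gk G s (j + 1)) (s j) (s (j + 1)) (q (j + 1)) (q (j + 1 + 1))
        (fun c => ∃ i, j + 1 + 1 < i ∧ i ≤ t ∧ c = q i)
        (by
          rintro x hx c ⟨i, hi, hit, rfl⟩
          exact hfixk (j + 1) (by omega) x hx i (by omega) hit)
        hgK (fun x hx => hfixk (j + 1) (by omega) x hx (j + 1 + 1) (by omega) hkt)
        (hqne (j + 1) (j + 1 + 1) (by omega) (by omega) (by omega) hkt (by omega)) hPa
        hsk.1 hsk.2.1
        (by
          rw [hga]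
          exact hqne j (j + 1) (by omega) (by omega) (by omega) (by omega) (by omega))
        (by
          intro b c d e hb hc hd he hbω hcω hdω heω hbc hde
          apply ih2 b c d e _ hbc hde
          intro i hi hit
          by_cases hi' : i = j + 1 + 1
          · subst hi'; exact ⟨hbω, hcω, hdω, heω⟩
          · exact ⟨fun h => hb ⟨i, by omega, hit, h⟩, fun h => hc ⟨i, by omega, hit, h⟩,
              fun h => hd ⟨i, by omega, hit, h⟩, fun h => he ⟨i, by omega, hit, h⟩⟩)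
        (le_Gk G s _ (hHG (hsq2 (j + 1) (by omega) hkt)))
        (le_Gk G s _ (hHG (hbraid j (by omega) (by omega))))
        (by
          intro x hx hxa
          constructor
          · by_cases hj1 : j = 1
            · subst hj1
              rw [Gk_two] at hx ⊢
              exact (hnorm 2 le_rfl hkt x ⟨hx, hxa⟩).1
            · have hx' := ih4 (by omega) x hx hxa
              have e : j + 1 - 1 = j := by omega
              rw [e] at hx'
              exact Gk_mono G s j (hNGk j (by omega) (by omega) x hx')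
          · have h1 : (s (j + 1))⁻¹ (q (j + 1)) = q (j + 1 + 1) := by
              rw [Equiv.Perm.inv_eq_iff_eq, hsk.2.1]
            rw [Equiv.Perm.mul_apply, Equiv.Perm.mul_apply, h1,
              hfixk (j + 1) (by omega) x hx (j + 1 + 1) (by omega) hkt, hsk.2.1])
      rw [← Gk_succ G s (j + 1) (by omega)] at hstep
      obtain ⟨hC1, hC2⟩ := hstep
      have hfix' := hfixk (j + 1 + 1) (by omega)
      -- transitivity of the old group on the old points
      have hKtr : ∀ e f : α, (∀ i, j + 1 < i → i ≤ t → e ≠ q i ∧ f ≠ q i) →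
          ∃ w ∈ Gk G s (j + 1), w e = f := by
        intro e f hav
        by_cases hef : e = f
        · exact ⟨1, Subgroup.one_mem _, by rw [hef]; rfl⟩
        · obtain ⟨w, hw, h1, -⟩ := ih2 e f f e
            (fun i hi hit => ⟨(hav i hi hit).1, (hav i hi hit).2, (hav i hi hit).2,
              (hav i hi hit).1⟩) hef (Ne.symm hef)
          exact ⟨w, hw, h1⟩
      -- elements of the new group keep points away from the later `q i`
      have hav' : ∀ u ∈ Gk G s (j + 1 + 1), ∀ b c : α, u c = q (j + 1 + 1) → b ≠ c →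
          (∀ i, j + 1 + 1 < i → i ≤ t → b ≠ q i) →
          ∀ i, j + 1 < i → i ≤ t → u b ≠ q i := by
        intro u hu b c huc hbc hb i hi hit
        by_cases hi' : i = j + 1 + 1
        · subst hi'
          rw [← huc]
          exact fun h => hbc (u.injective h)
        · intro h
          rw [← hfix' u hu i (by omega) hit] at h
          exact hb i (by omega) hit (u.injective h)
      refine ⟨?_, ?_, ?_, ?_⟩
      · intro a b c d hav hab hcd
        obtain ⟨u, hu, hua⟩ := hC2 a (by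
          rintro ⟨i, hi, hit, h⟩
          exact (hav i hi hit).1 h)
        obtain ⟨v, hv, hvc⟩ := hC2 c (by
          rintro ⟨i, hi, hit, h⟩
          exact (hav i hi hit).2.2.1 h)
        obtain ⟨w, hw, hwe⟩ := hKtr (u b) (v d) (fun i hi hit =>
          ⟨hav' u hu b a hua (Ne.symm hab) (fun i hi hit => (hav i hi hit).2.1) i hi hit,
            hav' v hv d c hvc (Ne.symm hcd) (fun i hi hit => (hav i hi hit).2.2.2) i hi hit⟩)
        refine ⟨v⁻¹ * w * u, Subgroup.mul_mem _ (Subgroup.mul_mem _ (Subgroup.inv_mem _ hv)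
          (Gk_mono G s _ hw)) hu, ?_, ?_⟩
        · rw [Equiv.Perm.mul_apply, Equiv.Perm.mul_apply, hua,
            hfixk (j + 1) (by omega) w hw (j + 1 + 1) (by omega) hkt, Equiv.Perm.inv_eq_iff_eq, hvc]
        · rw [Equiv.Perm.mul_apply, Equiv.Perm.mul_apply, hwe, Equiv.Perm.inv_eq_iff_eq]
      · intro x y hx hy hav
        obtain ⟨u, hu, hux⟩ := hC2 (x (Fin.last (j + 1))) (by
          rintro ⟨i, hi, hit, h⟩
          exact (hav _ i hi hit).1 h)
        obtain ⟨v, hv, hvy⟩ := hC2 (y (Fin.last (j + 1))) (by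
          rintro ⟨i, hi, hit, h⟩
          exact (hav _ i hi hit).2 h)
        obtain ⟨w, hw, hwe⟩ := ihT (fun i : Fin (j + 1) => u (x i.castSucc))
          (fun i : Fin (j + 1) => v (y i.castSucc))
          (fun a b hab => Fin.castSucc_injective _ (hx (u.injective hab)))
          (fun a b hab => Fin.castSucc_injective _ (hy (v.injective hab)))
          (fun i i' hi' hit =>
            ⟨hav' u hu (x i.castSucc) (x (Fin.last (j + 1))) hux
              (fun h => (Fin.castSucc_lt_last i).ne (hx h))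
              (fun i'' hi'' hit'' => (hav _ i'' hi'' hit'').1) i' hi' hit,
            hav' v hv (y i.castSucc) (y (Fin.last (j + 1))) hvy
              (fun h => (Fin.castSucc_lt_last i).ne (hy h))
              (fun i'' hi'' hit'' => (hav _ i'' hi'' hit'').2) i' hi' hit⟩)
        refine ⟨v⁻¹ * w * u, Subgroup.mul_mem _ (Subgroup.mul_mem _ (Subgroup.inv_mem _ hv)
          (Gk_mono G s _ hw)) hu, ?_⟩
        intro i
        refine Fin.lastCases ?_ (fun i => ?_) i
        · rw [Equiv.Perm.mul_apply, Equiv.Perm.mul_apply, hux,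
            hfixk (j + 1) (by omega) w hw (j + 1 + 1) (by omega) hkt, Equiv.Perm.inv_eq_iff_eq, hvy]
        · have h1 : w (u (x i.castSucc)) = v (y i.castSucc) := hwe i
          rw [Equiv.Perm.mul_apply, Equiv.Perm.mul_apply, h1, Equiv.Perm.inv_eq_iff_eq]
      · intro g hg hgq
        apply ihS g (hC1 g hg (hgq (j + 1 + 1) (by omega) le_rfl))
        intro i hi hit
        exact hgq i hi (by omega)
      · intro _ g hg hgq
        have e : j + 1 + 1 - 1 = j + 1 := by omega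
        rw [e]
        exact hC1 g hg hgq
  obtain ⟨-, hT, hS, -⟩ := hQ t ht le_rfl
  constructor
  · rw [MulAction.isMultiplyPretransitive_iff]
    intro x y
    obtain ⟨g, hg, hgxy⟩ := hT x y x.injective y.injective (fun i j hj hjt => by omega)
    refine ⟨⟨g, hg⟩, ?_⟩
    ext i
    exact hgxy i
  · apply le_antisymm
    · rintro g ⟨hg1, hg2⟩
      apply hS g hg1
      intro i hi hit
      exact (mem_fixingSubgroup_iff (Equiv.Perm α)).mp hg2 (q i) ⟨i, hi, hit, rfl⟩
    · intro g hg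
      refine ⟨le_Gk G s t (hHG hg), ?_⟩
      show g ∈ fixingSubgroup (Equiv.Perm α) {x | ∃ i : ℕ, 1 ≤ i ∧ i ≤ t ∧ x = q i}
      rw [mem_fixingSubgroup_iff]
      rintro _ ⟨i, hi, hit, rfl⟩
      exact hHq g hg i hi hit

end Cfsg.Agent.S0709
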