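-- Statement S0710: no transitive group of degree 13 and order 13*12*11*10*9*8.
import Cfsg.Statements.S0710
import Mathlib

set_option autoImplicit false
open Cfsg

namespace Cfsg.Agent.S0710

/-- No transitive permutation group on 13 points has order `13 * 12 * 11 * 10 * 9 * 8`. -/
theorem result {α : Type*} [Fintype α] [DecidableEq α] (hα : Fintype.card α = 13) (G : Subgroup (Equiv.Perm α)) [MulAction.IsPretransitive G α] : Nat.card G ≠ 13 * 12 * 11 * 10 * 9 * 8 := by
  intro hG
  have hp13 : Nat.Prime 13 := by norm_num
  have : Fact (Nat.Prime 13) := ⟨hp13⟩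
  have hcα : Nat.card α = 13 := by rw [Nat.card_eq_fintype_card, hα]
  obtain ⟨P⟩ : Nonempty (Sylow 13 G) := inferInstance
  have hPcard : Nat.card P = 13 := by
    rw [Sylow.card_eq_multiplicity, hG]
    have h1 : (13 * 12 * 11 * 10 * 9 * 8 : ℕ) = 13 ^ 1 * 95040 := by norm_num
    rw [h1, Nat.factorization_mul (by norm_num) (by norm_num), hp13.factorization_pow]
    have h2 : (Nat.factorization 95040) 13 = 0 := by
      apply Nat.factorization_eq_zero_of_not_dvd
      norm_num
    simp [h2]
  have hPcyc : IsCyclic P := isCyclic_of_prime_card hPcard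
  have hPcomm : IsMulCommutative (P : Subgroup G) := by
    obtain ⟨g, hg⟩ := hPcyc
    refine ⟨⟨fun x y => ?_⟩⟩
    obtain ⟨i, rfl⟩ := hg x
    obtain ⟨j, rfl⟩ := hg y
    exact (Commute.zpow_zpow_self g i j).eq
  -- P moves some point
  have hPne : ∃ (x : G), x ∈ (P : Subgroup G) ∧ x ≠ 1 := by
    by_contra hcon
    push Not at hcon
    have : (P : Subgroup G) = ⊥ := by
      rw [eq_bot_iff]
      intro x hx
      rw [Subgroup.mem_bot]
      exact hcon x hx
    have h1 : Nat.card (P : Subgroup G) = 1 := by
      rw [this]; exact Subgroup.card_bot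
    change Nat.card P = 1 at h1
    omega
  obtain ⟨x, hxP, hx1⟩ := hPne
  have hxa : ∃ a : α, x • a ≠ a := by
    by_contra hcon
    push Not at hcon
    apply hx1
    apply Subtype.ext
    apply Equiv.ext
    intro c
    exact hcon c
  obtain ⟨a, hxa⟩ := hxa
  -- the orbit of a under P is everything
  have horb : MulAction.orbit P a = Set.univ := by
    have h1 : Nat.card (MulAction.orbit P a) * Nat.card (MulAction.stabilizer P a) = 13 := by
      rw [Nat.card_coe_set_eq, ← MulAction.index_stabilizer, mul_comm, Subgroup.card_mul_index]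
      exact hPcard
    have h2 : Nat.card (MulAction.stabilizer P a) ≠ 13 := by
      intro h13
      have htop : MulAction.stabilizer P a = ⊤ := by
        apply Subgroup.eq_top_of_card_eq
        rw [h13, hPcard]
      have : (⟨x, hxP⟩ : P) ∈ MulAction.stabilizer P a := by
        rw [htop]; exact Subgroup.mem_top _
      exact hxa (MulAction.mem_stabilizer_iff.mp this)
    have h3 : Nat.card (MulAction.stabilizer P a) ∣ 13 := Dvd.intro_left _ h1
    rw [Nat.dvd_prime hp13] at h3
    have h4 : Nat.card (MulAction.stabilizer P a) = 1 := h3.resolve_right h2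
    rw [h4, mul_one] at h1
    apply Set.eq_of_subset_of_ncard_le (Set.subset_univ _)
    rw [Set.ncard_univ, hcα, ← Nat.card_coe_set_eq, h1]
  -- the centraliser of P is semiregular
  have hsemi : ∀ c : G, c ∈ Subgroup.centralizer ((P : Subgroup G) : Set G) → c • a = a → c = 1 := by
    intro c hc hca
    apply Subtype.ext
    apply Equiv.ext
    intro b
    have hb : b ∈ MulAction.orbit P a := by rw [horb]; exact Set.mem_univ b
    obtain ⟨p, rfl⟩ := hb
    rw [Subgroup.mem_centralizer_iff] at hc
    have h1 := hc p.1 p.2
    change c • (p.1 • a) = p.1 • a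
    rw [← mul_smul, ← h1, mul_smul, hca]
  have hCcard : Nat.card (Subgroup.centralizer ((P : Subgroup G) : Set G)) = 13 := by
    have hle : Nat.card (Subgroup.centralizer ((P : Subgroup G) : Set G)) ≤ 13 := by
      refine le_trans (Nat.card_le_card_of_injective
        (fun c : Subgroup.centralizer ((P : Subgroup G) : Set G) => (c : G) • a) ?_) (le_of_eq hcα)
      intro c d hcd
      have h1 : (d : G)⁻¹ * (c : G) = 1 := by
        apply hsemi _ (Subgroup.mul_mem _ (Subgroup.inv_mem _ d.2) c.2)
        rw [mul_smul]
        change (c : G) • a = (d : G) • a at hcd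
        rw [hcd, inv_smul_smul]
      apply Subtype.ext
      rw [inv_mul_eq_one] at h1
      exact h1.symm
    have hdvd : Nat.card (P : Subgroup G) ∣
        Nat.card (Subgroup.centralizer ((P : Subgroup G) : Set G)) :=
      Subgroup.card_dvd_of_le (Subgroup.le_centralizer (P : Subgroup G))
    change Nat.card P ∣ _ at hdvd
    rw [hPcard] at hdvd
    have hpos : 0 < Nat.card (Subgroup.centralizer ((P : Subgroup G) : Set G)) := Nat.card_pos
    obtain ⟨k, hk⟩ := hdvd
    have : k = 1 := by nlinarith
    rw [hk, this]
  -- normaliser mod centraliser embeds in Aut(P), of order 12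
  have key := Subgroup.card_dvd_of_injective _
    (QuotientGroup.kerLift_injective (P : Subgroup G).normalizerMonoidHom)
  rw [Subgroup.normalizerMonoidHom_ker, ← Subgroup.index, ← Subgroup.relIndex] at key
  rw [hPcyc.card_mulAut, hPcard, Nat.totient_prime hp13] at key
  have hNcard : Nat.card (Subgroup.normalizer ((P : Subgroup G) : Set G)) =
      13 * (Subgroup.centralizer ((P : Subgroup G) : Set G)).relIndex
        (Subgroup.normalizer ((P : Subgroup G) : Set G)) := by
    have e1 := Subgroup.card_mul_index
      ((Subgroup.centralizer ((P : Subgroup G) : Set G)).subgroupOf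
        (Subgroup.normalizer ((P : Subgroup G) : Set G)))
    have e2 : Nat.card ((Subgroup.centralizer ((P : Subgroup G) : Set G)).subgroupOf
        (Subgroup.normalizer ((P : Subgroup G) : Set G))) = 13 := by
      refine Eq.trans ?_ hCcard
      exact Nat.card_congr (Subgroup.subgroupOfEquivOfLe
        (Subgroup.centralizer_le_normalizer _)).toEquiv
    rw [e2] at e1
    exact e1.symm
  have hmod := card_sylow_modEq_one 13 G
  rw [Sylow.card_eq_index_normalizer P] at hmod
  have hmul := Subgroup.card_mul_index (Subgroup.normalizer ((P : Subgroup G) : Set G))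
  rw [hNcard, hG] at hmul
  generalize (Subgroup.centralizer ((P : Subgroup G) : Set G)).relIndex
        (Subgroup.normalizer ((P : Subgroup G) : Set G)) = d at key hmul
  generalize (Subgroup.normalizer ((P : Subgroup G) : Set G)).index = n at hmod hmul
  have hd12 : d ≤ 12 := Nat.le_of_dvd (by norm_num) key
  have hmod' : n % 13 = 1 := hmod
  interval_cases d <;> omega

end Cfsg.Agent.S0710
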