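import Cfsg.Statements.S0714
import Mathlib

set_option autoImplicit false
open Cfsg

namespace Cfsg.Agent.S0714

variable {α : Type*} [Fintype α] [DecidableEq α] {K : Type*} [Field K]

/-- the 3-cycle `p → q → r → p`. -/
def cyc (p q r : α) : Equiv.Perm α := Equiv.swap p q * Equiv.swap q r

theorem cyc_mem {p q r : α} (hpq : p ≠ q) (hqr : q ≠ r) : cyc p q r ∈ alternatingGroup α := by
  rw [Equiv.Perm.mem_alternatingGroup, cyc, Equiv.Perm.sign_mul, Equiv.Perm.sign_swap hpq,
    Equiv.Perm.sign_swap hqr]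
  rfl

theorem cyc_p {p q r : α} (hpq : p ≠ q) (hpr : p ≠ r) : cyc p q r p = q := by
  simp [cyc, Equiv.swap_apply_of_ne_of_ne hpq hpr]

theorem cyc_q {p q r : α} (hpr : p ≠ r) (hqr : q ≠ r) : cyc p q r q = r := by
  simp [cyc, Equiv.swap_apply_of_ne_of_ne hpr.symm hqr.symm]

theorem cyc_r {p q r : α} : cyc p q r r = p := by
  simp [cyc]

theorem cyc_other {p q r x : α} (h1 : x ≠ p) (h2 : x ≠ q) (h3 : x ≠ r) : cyc p q r x = x := by
  simp [cyc, Equiv.swap_apply_of_ne_of_ne h2 h3, Equiv.swap_apply_of_ne_of_ne h1 h2]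

theorem exists_not_mem (hα : 5 ≤ Fintype.card α) (s : Finset α) (hs : s.card ≤ 4) :
    ∃ x, x ∉ s := by
  by_contra h
  push Not at h
  have : s = Finset.univ := Finset.eq_univ_iff_forall.mpr h
  rw [this, Finset.card_univ] at hs
  omega

theorem step1 (hα : 5 ≤ Fintype.card α) (W : Submodule K (α → K))
    (hinv : ∀ σ ∈ alternatingGroup α, ∀ f ∈ W, (fun x => f (σ x)) ∈ W)
    {f : α → K} (hf : f ∈ W) {a b : α} (hab : f a ≠ f b) :
    ∃ x y : α, x ≠ y ∧ (Pi.single x 1 - Pi.single y 1 : α → K) ∈ W := by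
  have hab' : a ≠ b := fun h => hab (h ▸ rfl)
  obtain ⟨c, hc⟩ := exists_not_mem hα {a, b} (le_trans Finset.card_le_two (by norm_num))
  simp only [Finset.mem_insert, Finset.mem_singleton, not_or] at hc
  obtain ⟨hca, hcb⟩ := hc
  obtain ⟨d, hd⟩ := exists_not_mem hα {a, b, c} (le_trans Finset.card_le_three (by norm_num))
  simp only [Finset.mem_insert, Finset.mem_singleton, not_or] at hd
  obtain ⟨hda, hdb, hdc⟩ := hd
  obtain ⟨e, he⟩ := exists_not_mem hα {a, b, c, d} Finset.card_le_four
  simp only [Finset.mem_insert, Finset.mem_singleton, not_or] at he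
  obtain ⟨hea, heb, hec, hed⟩ := he
  set u : α → K := f - (fun x => f (cyc a b c x)) with hu
  have huW : u ∈ W := W.sub_mem hf (hinv _ (cyc_mem hab' (Ne.symm hcb)) f hf)
  have hua : u a ≠ 0 := by
    simp only [hu, Pi.sub_apply, cyc_p hab' (Ne.symm hca)]
    exact sub_ne_zero.mpr hab
  have hu0 : ∀ x, x ≠ a → x ≠ b → x ≠ c → u x = 0 := by
    intro x h1 h2 h3
    simp only [hu, Pi.sub_apply, cyc_other h1 h2 h3, sub_self]
  set v : α → K := u - (fun x => u (cyc a d e x)) with hv
  have hvW : v ∈ W := W.sub_mem huW (hinv _ (cyc_mem (Ne.symm hda) (Ne.symm hed)) u huW)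
  have hveq : v = u a • (Pi.single a 1 - Pi.single e 1 : α → K) := by
    funext x
    simp only [hv, Pi.sub_apply, Pi.smul_apply, smul_eq_mul, Pi.single_apply]
    rcases eq_or_ne x a with rfl | hxa
    · rw [cyc_p (Ne.symm hda) (Ne.symm hea), hu0 d hda hdb hdc]
      simp [Ne.symm hea]
    rcases eq_or_ne x d with rfl | hxd
    · rw [cyc_q (Ne.symm hea) (Ne.symm hed), hu0 x hda hdb hdc, hu0 e hea heb hec]
      simp [hxa, Ne.symm hed]
    rcases eq_or_ne x e with rfl | hxe
    · rw [cyc_r, hu0 x hea heb hec]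
      simp [hxa]
    · rw [cyc_other hxa hxd hxe]
      simp [hxa, hxe]
  refine ⟨a, e, Ne.symm hea, ?_⟩
  have h1 : (u a)⁻¹ • v ∈ W := W.smul_mem _ hvW
  rw [hveq, smul_smul, inv_mul_cancel₀ hua, one_smul] at h1
  exact h1

theorem step2 (hα : 5 ≤ Fintype.card α) (W : Submodule K (α → K))
    (hinv : ∀ σ ∈ alternatingGroup α, ∀ f ∈ W, (fun x => f (σ x)) ∈ W)
    {x0 y0 : α} (hxy : x0 ≠ y0) (hw : (Pi.single x0 1 - Pi.single y0 1 : α → K) ∈ W)
    (z : α) (hz : z ≠ x0) : (Pi.single x0 1 - Pi.single z 1 : α → K) ∈ W := by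
  rcases eq_or_ne z y0 with rfl | hzy
  · exact hw
  obtain ⟨t, ht⟩ := exists_not_mem hα {x0, y0, z} (le_trans Finset.card_le_three (by norm_num))
  simp only [Finset.mem_insert, Finset.mem_singleton, not_or] at ht
  obtain ⟨htx, hty, htz⟩ := ht
  have h1 := hinv _ (cyc_mem hzy (Ne.symm hty)) _ hw
  have heq : (fun x => (Pi.single x0 1 - Pi.single y0 1 : α → K) (cyc z y0 t x))
      = (Pi.single x0 1 - Pi.single z 1 : α → K) := by
    funext x
    simp only [Pi.sub_apply, Pi.single_apply]
    rcases eq_or_ne x z with rfl | hxz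
    · rw [cyc_p hzy (Ne.symm htz)]
      simp [hz, Ne.symm hxy]
    rcases eq_or_ne x y0 with rfl | hxy0
    · rw [cyc_q (Ne.symm htz) (Ne.symm hty)]
      simp [htx, hty, Ne.symm hxy, hxz]
    rcases eq_or_ne x t with rfl | hxt
    · rw [cyc_r]
      simp [hz, hzy, htx, htz]
    · rw [cyc_other hxz hxy0 hxt]
      simp [hxy0, hxz]
  rw [heq] at h1
  exact h1

theorem step3 (W : Submodule K (α → K)) (x0 : α)
    (h : ∀ z, z ≠ x0 → (Pi.single x0 1 - Pi.single z 1 : α → K) ∈ W)
    (g : α → K) (hg : ∑ x, g x = 0) : g ∈ W := by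
  have key : g = ∑ z, (g z) • (Pi.single z 1 - Pi.single x0 1 : α → K) := by
    funext y
    simp only [Finset.sum_apply, Pi.smul_apply, Pi.sub_apply, Pi.single_apply, smul_eq_mul,
      mul_sub, Finset.sum_sub_distrib, mul_ite, mul_one, mul_zero]
    rw [Finset.sum_ite_eq Finset.univ y g]
    by_cases hy : y = x0
    · simp [hy, hg]
    · simp [hy]
  rw [key]
  refine W.sum_mem fun z _ => W.smul_mem _ ?_
  rcases eq_or_ne z x0 with rfl | hz
  · rw [sub_self]; exact W.zero_mem
  · have := W.neg_mem (h z hz)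
    rwa [neg_sub] at this

theorem core (hα : 5 ≤ Fintype.card α) (W : Submodule K (α → K))
    (hinv : ∀ σ ∈ alternatingGroup α, ∀ f ∈ W, (fun x => f (σ x)) ∈ W) :
    W = ⊥ ∨ W = Submodule.span K {fun _ => (1 : K)} ∨
      (∀ f : α → K, f ∈ W ↔ ∑ x, f x = 0) ∨ W = ⊤ := by
  by_cases hconst : ∀ f ∈ W, ∀ a b : α, f a = f b
  · -- all functions in W are constant
    by_cases hbot : W = ⊥
    · left; exact hbot
    right; left
    have hne : Nonempty α := by
      rw [← Fintype.card_pos_iff]; omega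
    obtain ⟨a0⟩ := hne
    apply le_antisymm
    · intro f hf
      rw [Submodule.mem_span_singleton]
      refine ⟨f a0, ?_⟩
      funext x
      simp [hconst f hf x a0]
    · rw [Submodule.span_singleton_le_iff_mem]
      obtain ⟨f, hf, hf0⟩ := (Submodule.ne_bot_iff W).mp hbot
      have hfa : f a0 ≠ 0 := by
        intro h
        apply hf0
        funext x
        rw [hconst f hf x a0, h]; rfl
      have h1 : (f a0)⁻¹ • f ∈ W := W.smul_mem _ hf
      have h2 : (f a0)⁻¹ • f = fun _ => (1 : K) := by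
        funext x
        simp [hconst f hf x a0, hfa]
      rwa [h2] at h1
  · push Not at hconst
    obtain ⟨f, hf, a, b, hab⟩ := hconst
    obtain ⟨x0, y0, hxy, hw⟩ := step1 hα W hinv hf hab
    have hsz : ∀ g : α → K, ∑ x, g x = 0 → g ∈ W :=
      step3 W x0 (fun z hz => step2 hα W hinv hxy hw z hz)
    by_cases hall : ∀ g ∈ W, ∑ x, g x = 0
    · right; right; left
      exact fun g => ⟨hall g, hsz g⟩
    · right; right; right
      push Not at hall
      obtain ⟨g, hg, hgs⟩ := hall
      rw [eq_top_iff]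
      intro h _
      have h1 : h - ((∑ x, h x) / (∑ x, g x)) • g ∈ W := by
        apply hsz
        simp only [Pi.sub_apply, Pi.smul_apply, smul_eq_mul, Finset.sum_sub_distrib,
          ← Finset.mul_sum]
        rw [div_mul_cancel₀ _ hgs, sub_self]
      have h2 := W.add_mem h1 (W.smul_mem ((∑ x, h x) / (∑ x, g x)) hg)
      rwa [sub_add_cancel] at h2

/-- Over any field, the permutation module of the alternating group of degree at least 5 has exactly four invariant subspaces: zero, the constant functions, the functions with coordinate sum zero, and everything. -/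
theorem result {α : Type*} [Fintype α] [DecidableEq α] (hα : 5 ≤ Fintype.card α) {K : Type*} [Field K] (W : Subrepresentation (Cfsg.permRep K (alternatingGroup α) α)) : W.toSubmodule = ⊥ ∨ W = Cfsg.permConstants K (alternatingGroup α) α ∨ W = Cfsg.permSumZero K (alternatingGroup α) α ∨ W.toSubmodule = ⊤ := by
  have hinv : ∀ σ ∈ alternatingGroup α, ∀ f ∈ W.toSubmodule, (fun x => f (σ x)) ∈ W.toSubmodule := by
    intro σ hσ f hf
    have h1 := W.apply_mem_toSubmodule (⟨σ, hσ⟩⁻¹ : alternatingGroup α) hf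
    have h2 : (Cfsg.permRep K (alternatingGroup α) α (⟨σ, hσ⟩⁻¹ : alternatingGroup α)) f
        = fun x => f (σ x) := by
      funext x
      simp only [Cfsg.permRep, inv_inv]
      rfl
    rwa [h2] at h1
  rcases core hα W.toSubmodule hinv with h | h | h | h
  · left; exact h
  · right; left
    apply Subrepresentation.toSubmodule_injective
    exact h
  · right; right; left
    apply Subrepresentation.toSubmodule_injective
    ext f
    rw [h f]
    rfl
  · right; right; right; exact h

end Cfsg.Agent.S0714
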