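import Cfsg.Statements.S0715
import Mathlib
import Cfsg.Agent.Helper12.PermMod4

set_option autoImplicit false
open Cfsg

namespace Cfsg.Agent.S0715

/-- If a natural number `f` divides the degree of every non-principal irreducible constituent of the permutation character of a transitive group, then `f` divides every non-trivial subdegree. -/
theorem result {G : Type*} [Group G] [Fintype G] {Ω : Type*} [Fintype Ω] [MulAction G Ω] [MulAction.IsPretransitive G Ω] (f : ℕ) (hf : ∀ χ : G → ℂ, Cfsg.IsIrrCharacter G χ → χ ≠ (fun _ => 1) → Cfsg.classInner (fun g : G => (Nat.card (MulAction.fixedBy Ω g) : ℂ)) χ ≠ 0 → ∃ m : ℕ, χ 1 = (f : ℂ) * m) (a b : Ω) (hab : b ≠ a) : f ∣ Nat.card (MulAction.orbit (MulAction.stabilizer G a) b) := by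
  classical
  exact Cfsg.Agent.Helper12.subdegree_dvd f hf a b hab

end Cfsg.Agent.S0715
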