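import Cfsg.Statements.S0717
import Mathlib
import Cfsg.Agent.Helper12.PermMod3

set_option autoImplicit false
open Cfsg

namespace Cfsg.Agent.S0717

/-- All suborbits of a transitive group are self-paired (every pair of points is interchanged by some group element) if and only if the permutation character is multiplicity-free and each of its irreducible constituents is real-valued. -/
theorem result {G : Type*} [Group G] [Fintype G] {Ω : Type*} [Fintype Ω] [MulAction G Ω] [MulAction.IsPretransitive G Ω] : (∀ a b : Ω, ∃ g : G, g • a = b ∧ g • b = a) ↔ ∀ χ : G → ℂ, Cfsg.IsIrrCharacter G χ → Cfsg.classInner (fun g : G => (Nat.card (MulAction.fixedBy Ω g) : ℂ)) χ ≠ 0 → Cfsg.classInner (fun g : G => (Nat.card (MulAction.fixedBy Ω g) : ℂ)) χ = 1 ∧ ∀ g : G, (starRingEnd ℂ) (χ g) = χ g := by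
  classical
  constructor
  · intro hsw χ hχ hne
    have hsym : ∀ X : Matrix Ω Ω ℂ, X ∈ Cfsg.Agent.Helper12.cen G Ω → X.transpose = X := by
      intro X hX
      ext x y
      obtain ⟨g, h1, h2⟩ := hsw x y
      rw [Matrix.transpose_apply]
      have h3 := (Cfsg.Agent.Helper12.mem_cen_iff.mp hX) g x y
      rw [h1, h2] at h3
      exact h3
    have hcomm : ∀ X Y : Matrix Ω Ω ℂ, X ∈ Cfsg.Agent.Helper12.cen G Ω →
        Y ∈ Cfsg.Agent.Helper12.cen G Ω → X * Y = Y * X := by
      intro X Y hX hY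
      have h1 := hsym (X * Y) (Cfsg.Agent.Helper12.mul_mem_cen hX hY)
      rw [Matrix.transpose_mul, hsym X hX, hsym Y hY] at h1
      exact h1.symm
    have hmf := Cfsg.Agent.Helper12.multFree_of_cen_comm hcomm χ hχ
    refine ⟨hmf.resolve_left hne, ?_⟩
    have hχc := Cfsg.Agent.Helper79.isIrrCharacter_conj hχ
    have hch : Cfsg.IsCharacter G χ := Cfsg.Agent.Helper79.irr_isCharacter ⟨χ, hχ⟩
    by_contra hreal
    have hne' : (⟨χ, hχ⟩ : Cfsg.IrrCharacter G) ≠ ⟨fun g => (starRingEnd ℂ) (χ g), hχc⟩ := by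
      intro h
      apply hreal
      intro g
      have h1 := congrArg Subtype.val h
      exact (congrFun h1 g).symm
    have h1 : Cfsg.Agent.Helper12.proj Ω χ *
        Cfsg.Agent.Helper12.proj Ω (fun g => (starRingEnd ℂ) (χ g)) = 0 :=
      Cfsg.Agent.Helper12.proj_mul_of_ne (Ω := Ω) hne'
    have h2 : (Cfsg.Agent.Helper12.proj Ω χ).transpose = Cfsg.Agent.Helper12.proj Ω χ :=
      hsym _ (Cfsg.Agent.Helper12.proj_mem_cen
        (Cfsg.Agent.Helper79.isCharacter_isClassFunction hch))
    rw [Cfsg.Agent.Helper12.proj_transpose hch] at h2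
    rw [h2] at h1
    have h3 : Cfsg.Agent.Helper12.proj Ω χ * Cfsg.Agent.Helper12.proj Ω χ =
        Cfsg.Agent.Helper12.proj Ω χ :=
      Cfsg.Agent.Helper12.proj_mul_self (Ω := Ω) ⟨χ, hχ⟩
    rw [h1] at h3
    exact Cfsg.Agent.Helper12.proj_ne_zero (Ω := Ω) ⟨χ, hχ⟩ hne h3.symm
  · intro h a b
    have hX := Cfsg.Agent.Helper12.orb_mem_cen (G := G) a b
    have hs := Cfsg.Agent.Helper12.cen_transpose_of_real h hX
    have h1 : Cfsg.Agent.Helper12.orb G a b a b = 1 :=
      Cfsg.Agent.Helper12.orb_apply_of ⟨1, one_smul _ _, one_smul _ _⟩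
    have h2 : Cfsg.Agent.Helper12.orb G a b b a = 1 := by
      have h3 := congrFun (congrFun hs b) a
      rw [Matrix.transpose_apply] at h3
      rw [← h3]
      exact h1
    by_contra hcon
    rw [Cfsg.Agent.Helper12.orb_apply_of_not hcon] at h2
    exact zero_ne_one h2

end Cfsg.Agent.S0717
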