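import Cfsg.Statements.S0720
import Cfsg.Agent.Helper12.W2pGroup

set_option autoImplicit false
open Cfsg

namespace Cfsg.Agent.S0720

/-- Wielandt's Theorem on primitive groups of degree `2p`: such a group is doubly transitive, or it has rank 3, `p = 2a² + 2a + 1`, and subdegrees `a(2a+1)` and `(a+1)(2a+1)`. -/
theorem result {α : Type*} [Fintype α] [DecidableEq α] {p : ℕ} (hp : p.Prime) (hα : Fintype.card α = 2 * p) (G : Subgroup (Equiv.Perm α)) (hG : MulAction.IsPreprimitive G α) (a₀ : α) : MulAction.IsMultiplyPretransitive G α 2 ∨ (Nat.card (MulAction.orbitRel.Quotient (MulAction.stabilizer G a₀) α) = 3 ∧ ∃ a : ℕ, 0 < a ∧ p = 2 * a ^ 2 + 2 * a + 1 ∧ ∀ b : α, b ≠ a₀ → Nat.card (MulAction.orbit (MulAction.stabilizer G a₀) b) = a * (2 * a + 1) ∨ Nat.card (MulAction.orbit (MulAction.stabilizer G a₀) b) = (a + 1) * (2 * a + 1)) := by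
  classical
  haveI : Fact p.Prime := ⟨hp⟩
  haveI := hG.toIsPretransitive
  obtain ⟨x, hx, hxo⟩ := Cfsg.Agent.Helper12.w2p_exists_order hp hα G a₀
  by_cases hfix : ∃ ω, x ω = ω
  · obtain ⟨ω, hω⟩ := hfix
    exact Or.inl (Cfsg.Agent.Helper12.w2p_fixed_two hp hα G hG hx hxo hω)
  · push Not at hfix
    obtain ⟨C, rfl, rfl⟩ := Cfsg.Agent.Helper12.w2p_ctx hα G hx hxo hfix a₀
    exact C.final hG

end Cfsg.Agent.S0720
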