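import Cfsg.Statements.S0723
import Mathlib
import Cfsg.Agent.S0721
import Cfsg.Agent.S0722
import Cfsg.Agent.Helper98.PiSimple

set_option autoImplicit false
open Cfsg

namespace Cfsg.Agent.S0723

section Abstract

variable {ι : Type*} {T : Type*} [Group T]

/-- Two surjective homomorphisms with the same kernel differ by an automorphism of the target. -/
theorem exists_mulEquiv_of_ker {X : Type*} [Group X] (p q : X →* T) (hp : Function.Surjective p)
    (hq : Function.Surjective q) (h : ∀ x, p x = 1 ↔ q x = 1) :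
    ∃ τ : T ≃* T, ∀ x, τ (p x) = q x := by
  classical
  have key : ∀ x y, p x = p y → q x = q y := by
    intro x y hxy
    have h1 : p (x * y⁻¹) = 1 := by rw [map_mul, map_inv, hxy, mul_inv_cancel]
    have h2 := (h _).mp h1
    rw [map_mul, map_inv, mul_inv_eq_one] at h2
    exact h2
  have key' : ∀ x y, q x = q y → p x = p y := by
    intro x y hxy
    have h1 : q (x * y⁻¹) = 1 := by rw [map_mul, map_inv, hxy, mul_inv_cancel]
    have h2 := (h _).mpr h1
    rw [map_mul, map_inv, mul_inv_eq_one] at h2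
    exact h2
  have hf : ∀ x, q (Classical.choose (hp (p x))) = q x :=
    fun x => key _ _ (Classical.choose_spec (hp (p x)))
  have hmul : ∀ s t, q (Classical.choose (hp (s * t))) =
      q (Classical.choose (hp s)) * q (Classical.choose (hp t)) := by
    intro s t
    obtain ⟨x, rfl⟩ := hp s
    obtain ⟨y, rfl⟩ := hp t
    rw [← map_mul, hf, hf, hf, map_mul]
  have hinj : Function.Injective (fun t => q (Classical.choose (hp t))) := by
    intro s t hst
    obtain ⟨x, rfl⟩ := hp s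
    obtain ⟨y, rfl⟩ := hp t
    simp only [hf] at hst
    exact key' _ _ hst
  have hsurj : Function.Surjective (fun t => q (Classical.choose (hp t))) := by
    intro u
    obtain ⟨x, rfl⟩ := hq u
    exact ⟨p x, hf x⟩
  exact ⟨MulEquiv.ofBijective (MonoidHom.mk' (fun t => q (Classical.choose (hp t))) hmul)
    ⟨hinj, hsurj⟩, hf⟩

/-- A normal-subgroup argument in a simple coordinate. -/
theorem coord_full [IsSimpleGroup T] (D : Subgroup (ι → T)) (i : ι)
    (hi : ∀ t : T, ∃ x ∈ D, x i = t)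
    (P : (ι → T) → Prop) (hP1 : P 1) (hPmul : ∀ x y, P x → P y → P (x * y))
    (hPinv : ∀ x, P x → P x⁻¹) (hPconj : ∀ x z, P x → P (z * x * z⁻¹))
    (hne : ∃ x ∈ D, P x ∧ x i ≠ 1) :
    ∀ t : T, ∃ x ∈ D, P x ∧ x i = t := by
  let A : Subgroup T :=
    { carrier := {t | ∃ x ∈ D, P x ∧ x i = t}
      mul_mem' := by
        rintro _ _ ⟨x, hx, hPx, rfl⟩ ⟨y, hy, hPy, rfl⟩
        exact ⟨x * y, D.mul_mem hx hy, hPmul x y hPx hPy, rfl⟩
      one_mem' := ⟨1, D.one_mem, hP1, rfl⟩
      inv_mem' := by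
        rintro _ ⟨x, hx, hPx, rfl⟩
        exact ⟨x⁻¹, D.inv_mem hx, hPinv x hPx, rfl⟩ }
  have hA : A.Normal := by
    constructor
    rintro _ ⟨x, hx, hPx, rfl⟩ s
    obtain ⟨z, hz, rfl⟩ := hi s
    exact ⟨z * x * z⁻¹, D.mul_mem (D.mul_mem hz hx) (D.inv_mem hz), hPconj x z hPx, rfl⟩
  rcases hA.eq_bot_or_eq_top with h | h
  · exfalso
    obtain ⟨x, hx, hPx, hxi⟩ := hne
    have hmem : x i ∈ A := ⟨x, hx, hPx, rfl⟩
    rw [h, Subgroup.mem_bot] at hmem
    exact hxi hmem
  · intro t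
    have hmem : t ∈ A := h ▸ Subgroup.mem_top t
    exact hmem

/-- Two coordinates are related when they have the same kernel on `D`. -/
def Rel (D : Subgroup (ι → T)) (i j : ι) : Prop := ∀ x ∈ D, x i = 1 ↔ x j = 1

theorem rel_refl (D : Subgroup (ι → T)) (i : ι) : Rel D i i := fun _ _ => Iff.rfl

theorem rel_symm {D : Subgroup (ι → T)} {i j : ι} (h : Rel D i j) : Rel D j i :=
  fun x hx => (h x hx).symm

theorem rel_trans {D : Subgroup (ι → T)} {i j k : ι} (h : Rel D i j) (h' : Rel D j k) :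
    Rel D i k := fun x hx => (h x hx).trans (h' x hx)

theorem sep_of_not_rel [IsSimpleGroup T] (D : Subgroup (ι → T))
    (hfull : ∀ i, ∀ t : T, ∃ x ∈ D, x i = t) (i j : ι) (h : ¬ Rel D i j) :
    ∀ t : T, ∃ x ∈ D, x i = t ∧ x j = 1 := by
  unfold Rel at h
  push Not at h
  obtain ⟨x, hx, hxne⟩ := h
  rcases hxne with ⟨hxi, hxj⟩ | ⟨hxi, hxj⟩
  · have key := coord_full D j (hfull j) (fun y => y i = 1) rfl
      (fun y z hy hz => by simp [hy, hz]) (fun y hy => by simp [hy])
      (fun y z hy => by simp [hy]) ⟨x, hx, hxi, hxj⟩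
    intro t
    obtain ⟨z, hz, hzi⟩ := hfull i t
    obtain ⟨y, hy, hyi, hyj⟩ := key (z j)
    refine ⟨z * y⁻¹, D.mul_mem hz (D.inv_mem hy), ?_, ?_⟩
    · simp [hzi, hyi]
    · simp [hyj]
  · have key := coord_full D i (hfull i) (fun y => y j = 1) rfl
      (fun y z hy hz => by simp [hy, hz]) (fun y hy => by simp [hy])
      (fun y z hy => by simp [hy]) ⟨x, hx, hxj, hxi⟩
    intro t
    obtain ⟨y, hy, hyj, hyi⟩ := key t
    exact ⟨y, hy, hyi, hyj⟩

theorem sep_finset [IsSimpleGroup T] (hT : ¬ IsMulCommutative T) (D : Subgroup (ι → T))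
    (hfull : ∀ i, ∀ t : T, ∃ x ∈ D, x i = t) (i : ι) (S : Finset ι)
    (hS : ∀ j ∈ S, ¬ Rel D i j) :
    ∀ t : T, ∃ x ∈ D, x i = t ∧ ∀ j ∈ S, x j = 1 := by
  classical
  induction S using Finset.induction_on with
  | empty =>
    intro t
    obtain ⟨x, hx, hxi⟩ := hfull i t
    exact ⟨x, hx, hxi, by simp⟩
  | insert j S' hj ih =>
    have ih' := ih (fun j' hj' => hS j' (Finset.mem_insert_of_mem hj'))
    have hjrel : ¬ Rel D i j := hS j (Finset.mem_insert_self j S')
    have hab : ∃ a b : T, a * b ≠ b * a := by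
      by_contra hcon
      push Not at hcon
      exact hT ⟨⟨hcon⟩⟩
    obtain ⟨a, b, hab⟩ := hab
    obtain ⟨x, hx, hxi, hxS⟩ := ih' a
    obtain ⟨y, hy, hyi, hyj⟩ := sep_of_not_rel D hfull i j hjrel b
    have key := coord_full D i (hfull i) (fun z => ∀ j' ∈ insert j S', z j' = 1)
      (fun _ _ => rfl)
      (fun y z hy hz j' hj' => by simp [hy j' hj', hz j' hj'])
      (fun y hy j' hj' => by simp [hy j' hj'])
      (fun y z hy j' hj' => by simp [hy j' hj'])
      ⟨x * y * x⁻¹ * y⁻¹, D.mul_mem (D.mul_mem (D.mul_mem hx hy) (D.inv_mem hx)) (D.inv_mem hy),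
        by
          intro j' hj'
          rcases Finset.mem_insert.mp hj' with rfl | hj''
          · simp [hyj]
          · simp [hxS j' hj''],
        by
          intro h1
          apply hab
          simp only [Pi.mul_apply, Pi.inv_apply, hxi, hyi] at h1
          rw [mul_inv_eq_one, mul_inv_eq_iff_eq_mul] at h1
          exact h1⟩
    intro t
    obtain ⟨z, hz, hPz, hzi⟩ := key t
    exact ⟨z, hz, hzi, hPz⟩

theorem exists_supported [Finite ι] [IsSimpleGroup T] (hT : ¬ IsMulCommutative T)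
    (D : Subgroup (ι → T)) (hfull : ∀ i, ∀ t : T, ∃ x ∈ D, x i = t) (i : ι) (t : T) :
    ∃ x ∈ D, x i = t ∧ ∀ j, ¬ Rel D i j → x j = 1 := by
  classical
  have := Fintype.ofFinite ι
  obtain ⟨x, hx, hxi, hxS⟩ := sep_finset hT D hfull i
    (Finset.univ.filter (fun j => ¬ Rel D i j)) (fun j hj => (Finset.mem_filter.mp hj).2) t
  exact ⟨x, hx, hxi, fun j hj => hxS j (Finset.mem_filter.mpr ⟨Finset.mem_univ j, hj⟩)⟩

theorem mem_of_classwise [Finite ι] [IsSimpleGroup T] (hT : ¬ IsMulCommutative T)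
    (D : Subgroup (ι → T)) (hfull : ∀ i, ∀ t : T, ∃ x ∈ D, x i = t) :
    ∀ y : ι → T, (∀ i j, Rel D i j → ∀ x ∈ D, x i = y i → x j = y j) → y ∈ D := by
  classical
  have := Fintype.ofFinite ι
  suffices H : ∀ n : ℕ, ∀ y : ι → T, (Finset.univ.filter (fun i => y i ≠ 1)).card = n →
      (∀ i j, Rel D i j → ∀ x ∈ D, x i = y i → x j = y j) → y ∈ D from
    fun y hy => H _ y rfl hy
  intro n
  induction n using Nat.strong_induction_on with
  | _ n ih =>
    intro y hn hQ
    by_cases hy : ∀ i, y i = 1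
    · have h1 : y = 1 := funext hy
      rw [h1]
      exact D.one_mem
    · push Not at hy
      obtain ⟨i, hi⟩ := hy
      obtain ⟨d, hd, hdi, hdj⟩ := exists_supported hT D hfull i (y i)
      have hdrel : ∀ j, Rel D i j → d j = y j := fun j hj => hQ i j hj d hd hdi
      have hy' : y * d⁻¹ ∈ D := by
        apply ih (Finset.univ.filter (fun j => (y * d⁻¹) j ≠ 1)).card ?_ (y * d⁻¹) rfl ?_
        · rw [← hn]
          apply Finset.card_lt_card
          rw [Finset.ssubset_iff_of_subset]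
          · exact ⟨i, by simp [hi], by simp [hdi]⟩
          · intro j hj
            simp only [Finset.mem_filter, Finset.mem_univ, true_and] at hj ⊢
            by_cases hrel : Rel D i j
            · exfalso
              apply hj
              simp [hdrel j hrel]
            · have h2 := hdj j hrel
              simpa [h2] using hj
        · intro i' j' hrel x hx hxi
          have h1 : (x * d) i' = y i' := by
            simp only [Pi.mul_apply, Pi.inv_apply] at hxi ⊢
            rw [hxi, inv_mul_cancel_right]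
          have h2 := hQ i' j' hrel (x * d) (D.mul_mem hx hd) h1
          simp only [Pi.mul_apply, Pi.inv_apply] at h2 ⊢
          rw [← h2, mul_inv_cancel_right]
      have h3 : y = y * d⁻¹ * d := by group
      rw [h3]
      exact D.mul_mem hy' hd

/-- A subdirect product of finitely many copies of a non-abelian simple group is a product of
diagonal subgroups, up to automorphisms of the coordinates. -/
theorem subdirect_structure [Finite ι] [IsSimpleGroup T] (hT : ¬ IsMulCommutative T)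
    (D : Subgroup (ι → T)) (hfull : ∀ i, ∀ t : T, ∃ x ∈ D, x i = t) :
    ∃ (c : ι → ι) (θ : ι → T ≃* T), (∀ i j, c i = c j ↔ Rel D i j) ∧ (∀ i, c (c i) = c i) ∧
      ∀ x : ι → T, x ∈ D ↔ ∀ i j, c i = c j → θ i (x i) = θ j (x j) := by
  classical
  letI s : Setoid ι := ⟨Rel D, ⟨rel_refl D, rel_symm, rel_trans⟩⟩
  have hc1 : ∀ i : ι, Rel D (Quotient.out (Quotient.mk s i)) i := fun i => Quotient.mk_out i
  have hc : ∀ i j : ι, Quotient.out (Quotient.mk s i) = Quotient.out (Quotient.mk s j) ↔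
      Rel D i j := by
    intro i j
    constructor
    · intro h
      have h1 := hc1 i
      rw [h] at h1
      exact rel_trans (rel_symm h1) (hc1 j)
    · intro h
      have h1 : Quotient.mk s i = Quotient.mk s j := Quotient.sound h
      rw [h1]
  have hτ : ∀ i : ι, ∃ τ : T ≃* T, ∀ x ∈ D, τ (x i) = x (Quotient.out (Quotient.mk s i)) := by
    intro i
    obtain ⟨τ, hτ⟩ := exists_mulEquiv_of_ker
      ((Pi.evalMonoidHom (fun _ : ι => T) i).comp D.subtype)
      ((Pi.evalMonoidHom (fun _ : ι => T) (Quotient.out (Quotient.mk s i))).comp D.subtype)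
      (fun t => by
        obtain ⟨x, hx, hxi⟩ := hfull i t
        exact ⟨⟨x, hx⟩, hxi⟩)
      (fun t => by
        obtain ⟨x, hx, hxi⟩ := hfull (Quotient.out (Quotient.mk s i)) t
        exact ⟨⟨x, hx⟩, hxi⟩)
      (fun x => (rel_symm (hc1 i)) x.1 x.2)
    exact ⟨τ, fun x hx => hτ ⟨x, hx⟩⟩
  choose θ hθ using hτ
  refine ⟨fun i => Quotient.out (Quotient.mk s i), θ, hc, ?_, ?_⟩
  · intro i
    exact (hc _ _).mpr (hc1 i)
  · intro x
    constructor
    · intro hx i j hij
      rw [hθ i x hx, hθ j x hx]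
      exact congrArg x hij
    · intro h
      apply mem_of_classwise hT D hfull
      intro i j hrel d hd hdi
      have hij := (hc i j).mpr hrel
      have h1 := h i j hij
      have h2 : θ j (d j) = θ j (x j) := by
        rw [← h1, ← hdi, hθ i d hd, hθ j d hd]
        exact (congrArg d hij).symm
      exact (θ j).injective h2

/-- An automorphism of a finite power of a non-abelian simple group permutes the coordinate
kernels. -/
theorem aut_coord [Finite ι] [IsSimpleGroup T] (hT : ¬ IsMulCommutative T)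
    (φ : (ι → T) ≃* (ι → T)) (i : ι) : ∃ j, ∀ x, x i = 1 ↔ (φ x) j = 1 := by
  classical
  obtain ⟨t₀, ht₀⟩ := exists_ne (1 : T)
  -- the image of the `i`-th kernel
  have hMn : ((MonoidHom.ker (Pi.evalMonoidHom (fun _ : ι => T) i)).comap
      φ.symm.toMonoidHom).Normal := inferInstance
  have hMmem : ∀ y : ι → T, y ∈ (MonoidHom.ker (Pi.evalMonoidHom (fun _ : ι => T) i)).comap
      φ.symm.toMonoidHom ↔ (φ.symm y) i = 1 := fun y => Iff.rfl
  have hy₀ : φ (Pi.mulSingle i t₀) ∉ (MonoidHom.ker (Pi.evalMonoidHom (fun _ : ι => T) i)).comap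
      φ.symm.toMonoidHom := by
    rw [hMmem]
    simp [ht₀]
  have h1 := (Helper98.mem_normal_pi_iff hT
    ((MonoidHom.ker (Pi.evalMonoidHom (fun _ : ι => T) i)).comap φ.symm.toMonoidHom)
    (φ (Pi.mulSingle i t₀))).not.mp hy₀
  push Not at h1
  obtain ⟨j, hj, hy₀j⟩ := h1
  refine ⟨j, fun x => ⟨fun hx => hj (φ x) ((hMmem _).mpr (by simpa using hx)), ?_⟩⟩
  -- the preimage of the `j`-th kernel
  have hM'mem : ∀ x : ι → T, x ∈ (MonoidHom.ker (Pi.evalMonoidHom (fun _ : ι => T) j)).comap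
      φ.toMonoidHom ↔ (φ x) j = 1 := fun x => Iff.rfl
  have hx₀ : Pi.mulSingle i t₀ ∉ (MonoidHom.ker (Pi.evalMonoidHom (fun _ : ι => T) j)).comap
      φ.toMonoidHom := by
    rw [hM'mem]
    exact hy₀j
  have h2 := (Helper98.mem_normal_pi_iff hT
    ((MonoidHom.ker (Pi.evalMonoidHom (fun _ : ι => T) j)).comap φ.toMonoidHom)
    (Pi.mulSingle i t₀)).not.mp hx₀
  push Not at h2
  obtain ⟨i', hi', hne⟩ := h2
  have hii : i' = i := by
    by_contra hcon
    exact hne (Pi.mulSingle_eq_of_ne (M := fun _ : ι => T) hcon t₀)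
  subst hii
  intro hx
  exact hi' x ((hM'mem x).mpr hx)

theorem aut_coord_inj [IsSimpleGroup T] [DecidableEq ι]
    (φ : (ι → T) ≃* (ι → T)) (i i' j : ι) (h : ∀ x, x i = 1 ↔ (φ x) j = 1)
    (h' : ∀ x, x i' = 1 ↔ (φ x) j = 1) : i = i' := by
  obtain ⟨t₀, ht₀⟩ := exists_ne (1 : T)
  by_contra hcon
  have h1 : (Pi.mulSingle i t₀ : ι → T) i' = 1 :=
    Pi.mulSingle_eq_of_ne (M := fun _ : ι => T) (Ne.symm hcon) t₀
  have h2 := (h _).mpr ((h' _).mp h1)
  rw [Pi.mulSingle_eq_same] at h2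
  exact ht₀ h2

theorem aut_transfer (φ : (ι → T) ≃* (ι → T)) (i j : ι) (h : ∀ x, x i = 1 ↔ (φ x) j = 1) :
    ∃ τ : T ≃* T, ∀ x, τ (x i) = (φ x) j := by
  exact exists_mulEquiv_of_ker (Pi.evalMonoidHom (fun _ : ι => T) i)
    ((Pi.evalMonoidHom (fun _ : ι => T) j).comp φ.toMonoidHom)
    (fun t => ⟨fun _ => t, rfl⟩)
    (fun t => ⟨φ.symm (fun _ => t), by simp⟩) h

end Abstract

section Core

variable {H : Type*} [Group H] {ι : Type*} {T : Type*} [Group T]

/-- Conjugation by `h` on the normal subgroup `N`, transported to `ι → T`. -/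
def phi (N : Subgroup H) [N.Normal] (e₀ : N ≃* (ι → T)) (h : H) : (ι → T) ≃* (ι → T) :=
  (e₀.symm.trans (MulAut.conjNormal h)).trans e₀

theorem phi_apply (N : Subgroup H) [N.Normal] (e₀ : N ≃* (ι → T)) (h : H) (x : ι → T) :
    phi N e₀ h x = e₀ (MulAut.conjNormal h (e₀.symm x)) := rfl

theorem phi_e (N : Subgroup H) [N.Normal] (e₀ : N ≃* (ι → T)) (h : H) (n : N) :
    phi N e₀ h (e₀ n) = e₀ (MulAut.conjNormal h n) := by
  rw [phi_apply, MulEquiv.symm_apply_apply]

theorem phi_mul (N : Subgroup H) [N.Normal] (e₀ : N ≃* (ι → T)) (h h' : H) (x : ι → T) :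
    phi N e₀ (h * h') x = phi N e₀ h (phi N e₀ h' x) := by
  simp only [phi_apply, map_mul, MulAut.mul_apply, MulEquiv.symm_apply_apply]

theorem phi_one (N : Subgroup H) [N.Normal] (e₀ : N ≃* (ι → T)) (x : ι → T) :
    phi N e₀ 1 x = x := by
  simp only [phi_apply, map_one, MulAut.one_apply, MulEquiv.apply_symm_apply]

theorem phi_inv_phi (N : Subgroup H) [N.Normal] (e₀ : N ≃* (ι → T)) (h : H) (x : ι → T) :
    phi N e₀ h⁻¹ (phi N e₀ h x) = x := by
  rw [← phi_mul, inv_mul_cancel, phi_one]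

theorem phi_phi_inv (N : Subgroup H) [N.Normal] (e₀ : N ≃* (ι → T)) (h : H) (x : ι → T) :
    phi N e₀ h (phi N e₀ h⁻¹ x) = x := by
  rw [← phi_mul, mul_inv_cancel, phi_one]

theorem phi_coe (N : Subgroup H) [N.Normal] (e₀ : N ≃* (ι → T)) (n : N) (x : ι → T) :
    phi N e₀ (n : H) x = e₀ n * x * (e₀ n)⁻¹ := by
  rw [phi_apply]
  have h1 : MulAut.conjNormal (n : H) (e₀.symm x) = n * e₀.symm x * n⁻¹ := by
    apply Subtype.ext
    simp [MulAut.conjNormal_apply]
  rw [h1, map_mul, map_mul, map_inv, MulEquiv.apply_symm_apply]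

theorem coe_symm_phi (N : Subgroup H) [N.Normal] (e₀ : N ≃* (ι → T)) (h : H) (x : ι → T) :
    ((e₀.symm (phi N e₀ h x) : N) : H) = h * (e₀.symm x : N) * h⁻¹ := by
  rw [phi_apply, MulEquiv.symm_apply_apply, MulAut.conjNormal_apply]

/-- The image of `K ⊓ N` in `ι → T`. -/
def dsub (K N : Subgroup H) (e₀ : N ≃* (ι → T)) : Subgroup (ι → T) :=
  (K.subgroupOf N).comap e₀.symm.toMonoidHom

theorem mem_dsub (K N : Subgroup H) (e₀ : N ≃* (ι → T)) (x : ι → T) :
    x ∈ dsub K N e₀ ↔ ((e₀.symm x : N) : H) ∈ K := Iff.rfl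

theorem apply_mem_dsub (K N : Subgroup H) (e₀ : N ≃* (ι → T)) (n : N) :
    e₀ n ∈ dsub K N e₀ ↔ (n : H) ∈ K := by
  rw [mem_dsub, MulEquiv.symm_apply_apply]

theorem phi_mem_dsub (K N : Subgroup H) [N.Normal] (e₀ : N ≃* (ι → T)) (k : H) (hk : k ∈ K)
    (x : ι → T) : phi N e₀ k x ∈ dsub K N e₀ ↔ x ∈ dsub K N e₀ := by
  rw [mem_dsub, mem_dsub, coe_symm_phi, K.mul_mem_cancel_right (K.inv_mem hk),
    K.mul_mem_cancel_left hk]

/-- `K` is transitive on the coordinates. -/
theorem coord_trans (N K : Subgroup H) [hNn : N.Normal]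
    (hmin : ∀ M : Subgroup H, M.Normal → M ≤ N → M = ⊥ ∨ M = N)
    (hNK : ∀ h : H, ∃ n ∈ N, n⁻¹ * h ∈ K)
    [Finite ι] [IsSimpleGroup T] (hT : ¬ IsMulCommutative T) (e₀ : N ≃* (ι → T)) (i i' : ι) :
    ∃ k ∈ K, ∀ x, x i = 1 ↔ (phi N e₀ k x) i' = 1 := by
  classical
  obtain ⟨t₀, ht₀⟩ := exists_ne (1 : T)
  have hO : ∀ j : ι, (∃ h : H, ∀ x, x i = 1 ↔ (phi N e₀ h x) j = 1) →
      ∀ h' : H, ∃ j'', (∃ h : H, ∀ x, x i = 1 ↔ (phi N e₀ h x) j'' = 1) ∧
        ∀ y, y j = 1 ↔ (phi N e₀ h'⁻¹ y) j'' = 1 := by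
    rintro j ⟨h₁, hh₁⟩ h'
    obtain ⟨j'', hj''⟩ := aut_coord hT (phi N e₀ h'⁻¹) j
    exact ⟨j'', ⟨h'⁻¹ * h₁, fun x => by rw [phi_mul, ← hj'', ← hh₁]⟩, hj''⟩
  let M' : Subgroup (ι → T) :=
    { carrier := {x | ∀ j, (∃ h : H, ∀ x, x i = 1 ↔ (phi N e₀ h x) j = 1) → x j = 1}
      mul_mem' := by
        intro x y hx hy j hj
        simp [hx j hj, hy j hj]
      one_mem' := fun j _ => rfl
      inv_mem' := by
        intro x hx j hj
        simp [hx j hj] }
  have hMmem : ∀ h : H, h ∈ (M'.comap e₀.toMonoidHom).map N.subtype ↔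
      ∃ n : N, (∀ j, (∃ h : H, ∀ x, x i = 1 ↔ (phi N e₀ h x) j = 1) → e₀ n j = 1) ∧
        (n : H) = h := by
    intro h
    constructor
    · rintro ⟨n, hn, rfl⟩
      exact ⟨n, hn, rfl⟩
    · rintro ⟨n, hn, rfl⟩
      exact ⟨n, hn, rfl⟩
  have hMN : (M'.comap e₀.toMonoidHom).map N.subtype ≤ N := Subgroup.map_subtype_le _
  have hMnormal : ((M'.comap e₀.toMonoidHom).map N.subtype).Normal := by
    constructor
    intro h hh h'
    obtain ⟨n, hn, rfl⟩ := (hMmem h).mp hh
    rw [hMmem]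
    refine ⟨MulAut.conjNormal h' n, ?_, by rw [MulAut.conjNormal_apply]⟩
    intro j hj
    obtain ⟨j'', hj''O, hj''⟩ := hO j hj h'
    rw [← phi_e, hj'', phi_inv_phi]
    exact hn j'' hj''O
  have hiO : ∃ h : H, ∀ x, x i = 1 ↔ (phi N e₀ h x) i = 1 := ⟨1, fun x => by rw [phi_one]⟩
  rcases hmin _ hMnormal hMN with hbot | htop
  · have hi'O : ∃ h : H, ∀ x, x i = 1 ↔ (phi N e₀ h x) i' = 1 := by
      by_contra hcon
      have hmem : ((e₀.symm (Pi.mulSingle i' t₀) : N) : H) ∈
          (M'.comap e₀.toMonoidHom).map N.subtype := by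
        rw [hMmem]
        refine ⟨e₀.symm (Pi.mulSingle i' t₀), ?_, rfl⟩
        intro j hj
        rw [MulEquiv.apply_symm_apply]
        apply Pi.mulSingle_eq_of_ne (M := fun _ : ι => T)
        rintro rfl
        exact hcon hj
      rw [hbot, Subgroup.mem_bot] at hmem
      have h1 : e₀.symm (Pi.mulSingle i' t₀) = 1 := Subtype.ext hmem
      have h2 : (Pi.mulSingle i' t₀ : ι → T) = 1 := by
        have h3 := congrArg e₀ h1
        rwa [MulEquiv.apply_symm_apply, map_one] at h3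
      have h3 := congrFun h2 i'
      rw [Pi.mulSingle_eq_same] at h3
      exact ht₀ h3
    obtain ⟨h, hh⟩ := hi'O
    obtain ⟨n, hn, hk⟩ := hNK h
    refine ⟨n⁻¹ * h, hk, fun x => ?_⟩
    rw [hh x]
    have e2 : phi N e₀ h x = phi N e₀ ((⟨n, hn⟩ : N) : H) (phi N e₀ (n⁻¹ * h) x) := by
      rw [← phi_mul]
      congr 1
      simp
    rw [e2, phi_coe]
    simp only [Pi.mul_apply, Pi.inv_apply]
    exact conj_eq_one_iff
  · exfalso
    have hmem : ((e₀.symm (Pi.mulSingle i t₀) : N) : H) ∈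
        (M'.comap e₀.toMonoidHom).map N.subtype := by
      rw [htop]
      exact (e₀.symm (Pi.mulSingle i t₀)).2
    obtain ⟨n, hn, hnn⟩ := (hMmem _).mp hmem
    have h1 : n = e₀.symm (Pi.mulSingle i t₀) := Subtype.ext hnn
    have h2 := hn i hiO
    rw [h1, MulEquiv.apply_symm_apply, Pi.mulSingle_eq_same] at h2
    exact ht₀ h2

/-- The core of the O'Nan–Scott dichotomy, in abstract form. -/
theorem ons_core (N K : Subgroup H) [hNn : N.Normal]
    (hmin : ∀ M : Subgroup H, M.Normal → M ≤ N → M = ⊥ ∨ M = N)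
    (hmax : ∀ X : Subgroup H, X ≤ N → K ⊓ N ≤ X → K ≤ Subgroup.normalizer (X : Set H) →
      X = K ⊓ N ∨ X = N)
    (hNK : ∀ h : H, ∃ n ∈ N, n⁻¹ * h ∈ K) (hnot : ¬ N ≤ K)
    [IsSimpleGroup T] (hT : ¬ IsMulCommutative T) (m : ℕ) (hm : 0 < m)
    (e₀ : N ≃* (Fin m → T)) :
    ∃ e : N ≃* (Fin m → T),
      (∃ R : Fin m → Subgroup T, (∀ i, R i ≠ ⊤) ∧ ∀ n : N, (n : H) ∈ K ↔ ∀ i, e n i ∈ R i) ∨
      (∃ (k : ℕ) (c : Fin m → Fin m), 2 ≤ k ∧
        (∀ j : Fin m, Nat.card {i : Fin m // c i = j} = k ∨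
          Nat.card {i : Fin m // c i = j} = 0) ∧
        ∀ n : N, (n : H) ∈ K ↔ ∀ i j : Fin m, c i = c j → e n i = e n j) := by
  classical
  have htrans := coord_trans N K hmin hNK hT e₀
  have hDe := apply_mem_dsub K N e₀
  have hDphi := phi_mem_dsub K N e₀
  have hinvR : ∀ k ∈ K, ∀ i i' : Fin m, (∀ x, x i = 1 ↔ (phi N e₀ k x) i' = 1) →
      ∀ x : Fin m → T, (∃ d ∈ dsub K N e₀, d i = x i) →
        ∃ d ∈ dsub K N e₀, d i' = (phi N e₀ k x) i' := by
    intro k hk i i' hii x ⟨d, hd, hdi⟩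
    obtain ⟨τ, hτ⟩ := aut_transfer (phi N e₀ k) i i' hii
    refine ⟨phi N e₀ k d, (hDphi k hk d).mpr hd, ?_⟩
    rw [← hτ, ← hτ, hdi]
  have hfull_all : (∃ i, ∀ t : T, ∃ d ∈ dsub K N e₀, d i = t) →
      ∀ i, ∀ t : T, ∃ d ∈ dsub K N e₀, d i = t := by
    rintro ⟨i, hi⟩ i' t'
    obtain ⟨k, hk, hii⟩ := htrans i i'
    obtain ⟨τ, hτ⟩ := aut_transfer (phi N e₀ k) i i' hii
    obtain ⟨d, hd, hdi⟩ := hi (τ.symm t')
    refine ⟨phi N e₀ k d, (hDphi k hk d).mpr hd, ?_⟩
    rw [← hτ, hdi, MulEquiv.apply_symm_apply]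
  by_cases hfull : ∃ i, ∀ t : T, ∃ d ∈ dsub K N e₀, d i = t
  · -- diagonal case
    have hfull' := hfull_all hfull
    obtain ⟨c, θ, hc, hcc, hmem⟩ := subdirect_structure hT (dsub K N e₀) hfull'
    refine ⟨e₀.trans (MulEquiv.piCongrRight θ), Or.inr ?_⟩
    have hle : ∀ j j' : Fin m, Nat.card {i : Fin m // c i = c j} ≤
        Nat.card {i : Fin m // c i = c j'} := by
      intro j j'
      obtain ⟨k, hk, hjj⟩ := htrans j j'
      have hσ : ∀ i : Fin m, ∃ i₁, ∀ x, x i = 1 ↔ (phi N e₀ k x) i₁ = 1 :=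
        fun i => aut_coord hT (phi N e₀ k) i
      choose σ hσ using hσ
      have hσrel : ∀ i, c i = c j → c (σ i) = c j' := by
        intro i hi
        rw [hc] at hi ⊢
        intro y hy
        have hx : phi N e₀ k⁻¹ y ∈ dsub K N e₀ := (hDphi k⁻¹ (K.inv_mem hk) y).mpr hy
        have h1 : y (σ i) = 1 ↔ (phi N e₀ k⁻¹ y) i = 1 := by
          rw [hσ i (phi N e₀ k⁻¹ y), phi_phi_inv]
        have h2 : y j' = 1 ↔ (phi N e₀ k⁻¹ y) j = 1 := by
          rw [hjj (phi N e₀ k⁻¹ y), phi_phi_inv]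
        rw [h1, h2]
        exact hi _ hx
      apply Nat.card_le_card_of_injective (fun i : {i : Fin m // c i = c j} =>
        (⟨σ i.1, hσrel i.1 i.2⟩ : {i : Fin m // c i = c j'}))
      intro a b hab
      have h1 : σ a.1 = σ b.1 := congrArg Subtype.val hab
      apply Subtype.ext
      apply aut_coord_inj (phi N e₀ k) a.1 b.1 (σ a.1) (hσ a.1)
      rw [h1]
      exact hσ b.1
    have hcard : ∀ j j' : Fin m, Nat.card {i : Fin m // c i = c j} =
        Nat.card {i : Fin m // c i = c j'} := fun j j' => le_antisymm (hle j j') (hle j' j)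
    refine ⟨Nat.card {i : Fin m // c i = c ⟨0, hm⟩}, c, ?_, ?_, ?_⟩
    · by_contra hlt
      have hpos : 0 < Nat.card {i : Fin m // c i = c ⟨0, hm⟩} :=
        Nat.card_pos_iff.mpr ⟨⟨⟨⟨0, hm⟩, rfl⟩⟩, inferInstance⟩
      have h1 : Nat.card {i : Fin m // c i = c ⟨0, hm⟩} = 1 := by omega
      have hinj : ∀ i j : Fin m, c i = c j → i = j := by
        intro i j hij
        have h2 : Nat.card {i' : Fin m // c i' = c j} = 1 := by rw [hcard j ⟨0, hm⟩, h1]
        have h3 := (Nat.card_eq_one_iff_unique.mp h2).1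
        have h4 := Subsingleton.elim (⟨i, hij⟩ : {i' : Fin m // c i' = c j}) ⟨j, rfl⟩
        exact congrArg Subtype.val h4
      apply hnot
      intro h hh
      have h5 : e₀ ⟨h, hh⟩ ∈ dsub K N e₀ := by
        rw [hmem]
        intro i j hij
        have h6 := hinj i j hij
        subst h6
        rfl
      exact (hDe ⟨h, hh⟩).mp h5
    · intro j
      by_cases hj : c j = j
      · left
        rw [← hcard j ⟨0, hm⟩]
        exact Nat.card_congr (Equiv.subtypeEquivRight (fun i => by rw [hj]))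
      · right
        rw [Nat.card_eq_zero]
        left
        constructor
        rintro ⟨i, hi⟩
        apply hj
        rw [← hi, hcc]
    · intro n
      rw [← hDe, hmem]
      rfl
  · -- product case
    push Not at hfull
    have hXmem : ∀ h : H, h ∈ ((Subgroup.pi Set.univ (fun i => (dsub K N e₀).map
        (Pi.evalMonoidHom (fun _ : Fin m => T) i))).comap e₀.toMonoidHom).map N.subtype ↔
        ∃ n : N, (∀ i, ∃ d ∈ dsub K N e₀, d i = e₀ n i) ∧ (n : H) = h := by
      intro h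
      constructor
      · rintro ⟨n, hn, rfl⟩
        refine ⟨n, fun i => ?_, rfl⟩
        have h1 := hn i (Set.mem_univ i)
        exact h1
      · rintro ⟨n, hn, rfl⟩
        refine ⟨n, fun i _ => ?_, rfl⟩
        exact hn i
    have hXN : ((Subgroup.pi Set.univ (fun i => (dsub K N e₀).map
        (Pi.evalMonoidHom (fun _ : Fin m => T) i))).comap e₀.toMonoidHom).map N.subtype ≤ N :=
      Subgroup.map_subtype_le _
    have hKX : K ⊓ N ≤ ((Subgroup.pi Set.univ (fun i => (dsub K N e₀).map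
        (Pi.evalMonoidHom (fun _ : Fin m => T) i))).comap e₀.toMonoidHom).map N.subtype := by
      intro h hh
      rw [hXmem]
      exact ⟨⟨h, hh.2⟩, fun i => ⟨e₀ ⟨h, hh.2⟩, (hDe _).mpr hh.1, rfl⟩, rfl⟩
    have hconjX : ∀ k ∈ K, ∀ h ∈ ((Subgroup.pi Set.univ (fun i => (dsub K N e₀).map
        (Pi.evalMonoidHom (fun _ : Fin m => T) i))).comap e₀.toMonoidHom).map N.subtype,
        k * h * k⁻¹ ∈ ((Subgroup.pi Set.univ (fun i => (dsub K N e₀).map
        (Pi.evalMonoidHom (fun _ : Fin m => T) i))).comap e₀.toMonoidHom).map N.subtype := by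
      intro k hk h hh
      obtain ⟨n, hn, rfl⟩ := (hXmem h).mp hh
      rw [hXmem]
      refine ⟨MulAut.conjNormal k n, ?_, by rw [MulAut.conjNormal_apply]⟩
      intro i'
      rw [← phi_e]
      obtain ⟨i, hi⟩ := aut_coord hT (phi N e₀ k⁻¹) i'
      have hii : ∀ x, x i = 1 ↔ (phi N e₀ k x) i' = 1 := fun x => by
        rw [hi (phi N e₀ k x), phi_inv_phi]
      exact hinvR k hk i i' hii (e₀ n) (hn i)
    have hnorm : K ≤ Subgroup.normalizer ((((Subgroup.pi Set.univ (fun i => (dsub K N e₀).map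
        (Pi.evalMonoidHom (fun _ : Fin m => T) i))).comap e₀.toMonoidHom).map N.subtype :
        Subgroup H) : Set H) := by
      intro k hk
      rw [Subgroup.mem_normalizer_iff]
      intro h
      constructor
      · exact hconjX k hk h
      · intro hkh
        have h1 := hconjX k⁻¹ (K.inv_mem hk) _ hkh
        have e1 : k⁻¹ * (k * h * k⁻¹) * k⁻¹⁻¹ = h := by group
        rwa [e1] at h1
    have hXK : ∀ n : N, (∀ i, ∃ d ∈ dsub K N e₀, d i = e₀ n i) → (n : H) ∈ K := by
      intro n hn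
      have hnX : (n : H) ∈ ((Subgroup.pi Set.univ (fun i => (dsub K N e₀).map
          (Pi.evalMonoidHom (fun _ : Fin m => T) i))).comap e₀.toMonoidHom).map N.subtype :=
        (hXmem _).mpr ⟨n, hn, rfl⟩
      rcases hmax _ hXN hKX hnorm with h1 | h1
      · rw [h1] at hnX
        exact hnX.1
      · exfalso
        obtain ⟨t, ht⟩ := hfull ⟨0, hm⟩
        have hmem : ((e₀.symm (Pi.mulSingle ⟨0, hm⟩ t) : N) : H) ∈
            ((Subgroup.pi Set.univ (fun i => (dsub K N e₀).map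
            (Pi.evalMonoidHom (fun _ : Fin m => T) i))).comap e₀.toMonoidHom).map N.subtype := by
          rw [h1]
          exact (e₀.symm (Pi.mulSingle ⟨0, hm⟩ t)).2
        obtain ⟨n', hn', hnn⟩ := (hXmem _).mp hmem
        have h2 : n' = e₀.symm (Pi.mulSingle ⟨0, hm⟩ t) := Subtype.ext hnn
        obtain ⟨d, hd, hd0⟩ := hn' ⟨0, hm⟩
        rw [h2, MulEquiv.apply_symm_apply, Pi.mulSingle_eq_same] at hd0
        exact ht d hd hd0
    refine ⟨e₀, Or.inl ⟨fun i => (dsub K N e₀).map (Pi.evalMonoidHom (fun _ : Fin m => T) i),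
      ?_, ?_⟩⟩
    · intro i hi
      obtain ⟨t, ht⟩ := hfull i
      have hi' : (dsub K N e₀).map (Pi.evalMonoidHom (fun _ : Fin m => T) i) = ⊤ := hi
      have h1 : t ∈ (dsub K N e₀).map (Pi.evalMonoidHom (fun _ : Fin m => T) i) := by
        rw [hi']
        exact Subgroup.mem_top t
      obtain ⟨d, hd, hdt⟩ := h1
      exact ht d hd hdt
    · intro n
      constructor
      · intro hn i
        exact ⟨e₀ n, (hDe n).mpr hn, rfl⟩
      · intro hn
        exact hXK n hn

end Core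

/-- The core of the O'Nan–Scott Theorem. Let `H` be a primitive permutation group on a finite set whose unique minimal normal subgroup `N` is non-abelian, and `K` a point stabiliser. Then there are a non-abelian simple group `T` and an isomorphism `N ≃* T^m` (`m ≥ 1`) under which `K ⊓ N` becomes either a product `∏ K_i` of proper subgroups `K_i < T`, or the set of functions constant on each block of a partition of the index set into blocks of one common size `k ≥ 2`. -/
theorem result {α : Type*} [Finite α] (H : Subgroup (Equiv.Perm α)) [MulAction.IsPreprimitive H α] (N : Subgroup H) [N.Normal] (hN : N ≠ ⊥) (hmin : ∀ M : Subgroup H, M.Normal → M ≤ N → M = ⊥ ∨ M = N) (huniq : ∀ L : Subgroup H, L.Normal → L ≠ ⊥ → (∀ M : Subgroup H, M.Normal → M ≤ L → M = ⊥ ∨ M = L) → L = N) (hnab : ¬ IsMulCommutative N) (a : α) : ∃ (T : Type) (_ : Group T) (m : ℕ) (e : N ≃* (Fin m → T)), IsSimpleGroup T ∧ ¬ IsMulCommutative T ∧ 0 < m ∧ ((∃ K : Fin m → Subgroup T,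 (∀ i, K i ≠ ⊤) ∧ ∀ n : N, (n : H) ∈ MulAction.stabilizer H a ↔ ∀ i, e n i ∈ K i) ∨ (∃ (k : ℕ) (c : Fin m → Fin m), 2 ≤ k ∧ (∀ j : Fin m, Nat.card {i : Fin m // c i = j} = k ∨ Nat.card {i : Fin m // c i = j} = 0) ∧ ∀ n : N, (n : H) ∈ MulAction.stabilizer H a ↔ ∀ i j : Fin m, c i = c j → e n i = e n j)) := by
  classical
  obtain ⟨T, instT, m, hTs, hm, ⟨e₀⟩⟩ := Cfsg.Agent.S0721.result N hN hmin
  haveI := hTs
  have hT : ¬ IsMulCommutative T := by
    intro hcomm
    apply hnab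
    rw [isMulCommutative_iff]
    intro x y
    apply e₀.injective
    rw [map_mul, map_mul]
    funext i
    exact mul_comm' _ _
  have hNtr : MulAction.IsPretransitive N α := by
    apply MulAction.IsQuasiPreprimitive.isPretransitive_of_normal
    intro hfix
    apply hN
    rw [Subgroup.eq_bot_iff_forall]
    intro n hn
    apply Subtype.ext
    ext ω
    have h1 : ω ∈ MulAction.fixedPoints N α := by rw [hfix]; trivial
    exact h1 ⟨n, hn⟩
  have hNK : ∀ h : H, ∃ n ∈ N, n⁻¹ * h ∈ MulAction.stabilizer H a := by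
    intro h
    obtain ⟨n, hn⟩ := MulAction.exists_smul_eq N a (h • a)
    refine ⟨(n : H), n.2, ?_⟩
    rw [MulAction.mem_stabilizer_iff, mul_smul, inv_smul_eq_iff]
    exact hn.symm
  have hnot : ¬ N ≤ MulAction.stabilizer H a := by
    intro hle
    apply hN
    rw [Subgroup.eq_bot_iff_forall]
    intro n hn
    apply Subtype.ext
    ext ω
    obtain ⟨n', hn'⟩ := MulAction.exists_smul_eq N a ω
    have h1 : (n' : H) • a = a := MulAction.mem_stabilizer_iff.mp (hle n'.2)
    have h2 : ω = a := by rw [← hn']; exact h1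
    rw [h2]
    exact MulAction.mem_stabilizer_iff.mp (hle hn)
  obtain ⟨e, he⟩ := ons_core N (MulAction.stabilizer H a) hmin
    (fun X hX hKX hinv => Cfsg.Agent.S0722.result H N hN hmin a X hX hKX hinv) hNK hnot hT m hm e₀
  exact ⟨T, instT, m, e, hTs, hT, hm, he⟩

end Cfsg.Agent.S0723
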