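-- Statement S0724: Blichfeldt's theorem.
import Cfsg.Statements.S0724
import Mathlib

set_option autoImplicit false
open Cfsg

namespace Cfsg.Agent.S0724

/-- Blichfeldt's Theorem: if a finite set `L` of natural numbers contains the number of fixed points of every non-identity element of a permutation group `G` of degree `n`, then the order of `G` divides `∏ (n - l)` over `l ∈ L`. -/
theorem result {α : Type*} [Fintype α] [DecidableEq α] (G : Subgroup (Equiv.Perm α)) (L : Finset ℕ) (hL : ∀ g ∈ G, g ≠ 1 → Nat.card (MulAction.fixedBy α g) ∈ L) : Nat.card G ∣ ∏ l ∈ L, (Fintype.card α - l) := by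
  classical
  by_cases hbig : ∃ l ∈ L, Fintype.card α ≤ l
  · obtain ⟨l, hl, hle⟩ := hbig
    rw [Finset.prod_eq_zero hl (Nat.sub_eq_zero_of_le hle)]
    exact dvd_zero _
  push Not at hbig
  set θ : G → ℤ := fun g => (Nat.card (MulAction.fixedBy α (g : Equiv.Perm α)) : ℤ) with hθ
  have hpow : ∀ j : ℕ, (Nat.card G : ℤ) ∣ ∑ g : G, θ g ^ j := by
    intro j
    have hB := MulAction.sum_card_fixedBy_eq_card_orbits_mul_card_group G (Fin j → α)
    have hfix : ∀ g : G, Fintype.card (MulAction.fixedBy (Fin j → α) g) =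
        (Nat.card (MulAction.fixedBy α (g : Equiv.Perm α))) ^ j := by
      intro g
      rw [← Nat.card_eq_fintype_card]
      have e : MulAction.fixedBy (Fin j → α) g ≃
          (Fin j → MulAction.fixedBy α (g : Equiv.Perm α)) :=
        { toFun := fun f => fun i => ⟨f.1 i, congrFun f.2 i⟩
          invFun := fun f => ⟨fun i => (f i).1, funext fun i => (f i).2⟩
          left_inv := fun f => rfl
          right_inv := fun f => rfl }
      rw [Nat.card_congr e, Nat.card_fun, Nat.card_fin]
    have h1 : (∑ g : G, θ g ^ j) =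
        ((∑ g : G, Fintype.card (MulAction.fixedBy (Fin j → α) g) : ℕ) : ℤ) := by
      rw [Nat.cast_sum]
      apply Finset.sum_congr rfl
      intro g _
      rw [hfix g, Nat.cast_pow]
    rw [h1, hB, Nat.card_eq_fintype_card, Nat.cast_mul]
    exact dvd_mul_left _ _
  have hpoly : ∀ p : Polynomial ℤ, (Nat.card G : ℤ) ∣ ∑ g : G, p.eval (θ g) := by
    intro p
    simp_rw [Polynomial.eval_eq_sum_range]
    rw [Finset.sum_comm]
    apply Finset.dvd_sum
    intro i _
    rw [← Finset.mul_sum]
    exact dvd_mul_of_dvd_right (hpow i) _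
  have hev : ∀ x : ℤ, (∏ l ∈ L, (Polynomial.X - Polynomial.C (l : ℤ))).eval x =
      ∏ l ∈ L, (x - l) := by
    intro x; rw [Polynomial.eval_prod]; simp
  have h1 := hpoly (∏ l ∈ L, (Polynomial.X - Polynomial.C (l : ℤ)))
  rw [Finset.sum_eq_single (1 : G)] at h1
  · rw [hev] at h1
    have hθ1 : θ 1 = Fintype.card α := by
      simp [hθ]
    rw [hθ1] at h1
    have hcast : (∏ l ∈ L, ((Fintype.card α : ℤ) - (l : ℤ))) =
        ((∏ l ∈ L, (Fintype.card α - l) : ℕ) : ℤ) := by
      rw [Nat.cast_prod]
      apply Finset.prod_congr rfl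
      intro l hl
      rw [Nat.cast_sub (hbig l hl).le]
    rw [hcast] at h1
    exact Int.natCast_dvd_natCast.mp h1
  · intro g _ hg
    rw [hev]
    apply Finset.prod_eq_zero (hL g.1 g.2 (by intro h; apply hg; exact Subtype.ext h))
    simp [hθ]
  · intro h; exact absurd (Finset.mem_univ _) h

end Cfsg.Agent.S0724
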