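import Cfsg.Statements.S0726
import Mathlib

set_option autoImplicit false
open Cfsg

namespace Cfsg.Agent.S0726

theorem cent_eq {G : Type*} [Group G] :
    Subgroup.centralizer ((MulAction.toPermHom G G).range : Set (Equiv.Perm G))
      = (MulAction.toPermHom Gᵐᵒᵖ G).range := by
  ext c
  constructor
  · intro hc
    rw [Subgroup.mem_centralizer_iff] at hc
    refine ⟨MulOpposite.op (c 1), ?_⟩
    ext x
    have h := hc (MulAction.toPermHom G G x) ⟨x, rfl⟩
    have h2 := congrArg (fun σ : Equiv.Perm G => σ 1) h
    simp only [Equiv.Perm.coe_mul, Function.comp_apply, MulAction.toPermHom_apply,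
      MulAction.toPerm_apply, smul_eq_mul, mul_one] at h2
    simp only [MulAction.toPermHom_apply, MulAction.toPerm_apply, MulOpposite.smul_eq_mul_unop,
      MulOpposite.unop_op]
    exact h2
  · rintro ⟨a, rfl⟩
    rw [Subgroup.mem_centralizer_iff]
    rintro _ ⟨g, rfl⟩
    ext x
    simp only [Equiv.Perm.coe_mul, Function.comp_apply, MulAction.toPermHom_apply,
      MulAction.toPerm_apply, smul_eq_mul, MulOpposite.smul_eq_mul_unop, mul_assoc]

/-- The left and right regular permutation representations of a group are each other's centralisers in the symmetric group: the centraliser of the left regular image is the right regular image, and a transitive subgroup centralising the left regular image is the whole right regular image. -/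
theorem result {G : Type*} [Group G] : Subgroup.centralizer ((MulAction.toPermHom G G).range : Set (Equiv.Perm G)) = (MulAction.toPermHom Gᵐᵒᵖ G).range ∧ ∀ H : Subgroup (Equiv.Perm G), H ≤ Subgroup.centralizer ((MulAction.toPermHom G G).range : Set (Equiv.Perm G)) → MulAction.IsPretransitive H G → H = (MulAction.toPermHom Gᵐᵒᵖ G).range := by
  refine ⟨cent_eq, ?_⟩
  intro H hH htr
  rw [cent_eq] at hH
  refine le_antisymm hH ?_
  rintro _ ⟨a, rfl⟩
  obtain ⟨h, hh⟩ := htr.exists_smul_eq (1 : G) (MulOpposite.unop a)
  obtain ⟨b, hb⟩ := hH h.2
  have hba : b = a := by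
    have h3 : (h : Equiv.Perm G) 1 = MulOpposite.unop a := hh
    rw [← hb] at h3
    simp only [MulAction.toPermHom_apply, MulAction.toPerm_apply, MulOpposite.smul_eq_mul_unop,
      one_mul] at h3
    exact MulOpposite.unop_injective h3
  rw [← hba, hb]
  exact h.2

end Cfsg.Agent.S0726
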