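import Cfsg.Statements.S0727
import Mathlib
import Cfsg.Agent.Helper12.Sharp3Iso

set_option autoImplicit false
open Cfsg

namespace Cfsg.Agent.S0727

/-- A sharply triply transitive permutation group of degree `2^f + 1` is isomorphic to the projective general linear group of degree 2 over the field with `2^f` elements. -/
theorem result {α : Type*} [Fintype α] [DecidableEq α] {f : ℕ} (hf : 1 ≤ f) (hα : Fintype.card α = 2 ^ f + 1) (G : Subgroup (Equiv.Perm α)) (h3 : MulAction.IsMultiplyPretransitive G α 3) (hsharp : ∀ x : Fin 3 ↪ α, MulAction.stabilizer G x = ⊥) : ∃ (F : Type) (_ : Field F) (_ : Fintype F), Fintype.card F = 2 ^ f ∧ Nonempty (G ≃* Matrix.ProjGenLinGroup (Fin 2) F) := by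
  have hodd : Odd (Fintype.card α) := by
    rw [hα]
    exact Even.add_one (Nat.even_pow.mpr ⟨even_two, by omega⟩)
  have h2f : 2 ≤ 2 ^ f := by
    calc 2 = 2 ^ 1 := rfl
      _ ≤ 2 ^ f := Nat.pow_le_pow_right (by norm_num) hf
  have hm : 3 ≤ Fintype.card α := by omega
  obtain ⟨f', hf', hcard, F, iF, iFT, hFc, ⟨e⟩⟩ :=
    Cfsg.Agent.Helper12.sharp3_iso_SL G h3 hsharp hodd hm
  have hff : f' = f := Nat.pow_right_injective (le_refl 2) (by omega : 2 ^ f' = 2 ^ f)
  subst hff
  obtain ⟨e'⟩ := Cfsg.Agent.Helper12.nonempty_sl_equiv_pgl hf hFc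
  exact ⟨F, iF, iFT, hFc, ⟨e.trans e'⟩⟩

end Cfsg.Agent.S0727
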