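import Cfsg.Statements.S0730
import Cfsg.Agent.S0729
import Cfsg.Agent.Helper59.Sharp3Even
import Cfsg.Agent.Helper66.Sharp3PGL

set_option autoImplicit false
open Cfsg

namespace Cfsg.Agent.S0730

/-- A sharply triply transitive group of degree `p^f + 1`, `p` an odd prime and `f` odd, is isomorphic to the projective general linear group of degree 2 over the field with `p^f` elements (for even `f` there is a second, twisted, group). -/
theorem result {α : Type*} [Fintype α] [DecidableEq α] {p f : ℕ} (hp : p.Prime) (hp2 : p ≠ 2) (hfo : Odd f) (hα : Fintype.card α = p ^ f + 1) (G : Subgroup (Equiv.Perm α)) (h3 : MulAction.IsMultiplyPretransitive G α 3) (hsharp : ∀ x : Fin 3 ↪ α, MulAction.stabilizer G x = ⊥) : ∃ (F : Type) (_ : Field F) (_ : Fintype F), Fintype.card F = p ^ f ∧ Nonempty (G ≃* Matrix.ProjGenLinGroup (Fin 2) F) := by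
  have hpodd : Odd p := hp.odd_of_ne_two hp2
  have hpf : Odd (p ^ f) := hpodd.pow
  have heven : Even (Fintype.card α) := by
    rw [hα]
    exact hpf.add_one
  have hf1 : f ≠ 0 := by
    obtain ⟨k, hk⟩ := hfo
    omega
  have h3le : 3 ≤ p := by
    have := hp.two_le
    omega
  have hpf3 : 3 ≤ p ^ f := le_trans h3le (Nat.le_self_pow hf1 p)
  have h4 : 4 ≤ Fintype.card α := by omega
  obtain ⟨a, b, c, hab, hac, hbc⟩ : ∃ a b c : α, a ≠ b ∧ a ≠ c ∧ b ≠ c := by
    have : 2 < Fintype.card α := by omega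
    rw [Fintype.two_lt_card_iff] at this
    exact this
  obtain ⟨p', T, hp', hp'2, hTexp, C⟩ :=
    Cfsg.Agent.Helper59.Sharp3Even.Ctx.of_sharp h3 hsharp heven h4 hab
  obtain ⟨s, hsa, hsb, hsc⟩ := C.t3 a b c b a c hab hac hbc (Ne.symm hab) hbc hac
  have h3s : ∀ g : G, ∀ x y z : α, x ≠ y → y ≠ z → x ≠ z → g • x = x → g • y = y → g • z = z →
      g = 1 := fun g x y z hxy hyz hxz hx hy hz => C.s3 g x y z hxy hxz hyz hx hy hz
  have htr : ∀ x : α, x ≠ a → x ≠ b → ∃ k : G, k • a = a ∧ k • b = b ∧ k • c = x :=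
    fun x hxa hxb => C.t3 a b c a b x hab hac hbc hab (Ne.symm hxa) (Ne.symm hxb)
  have hN : ∃ N : Subgroup G, N ≤ MulAction.stabilizer G a ⊓ MulAction.stabilizer G b ∧
      (N.subgroupOf (MulAction.stabilizer G a ⊓ MulAction.stabilizer G b)).Normal ∧
      N.relIndex (MulAction.stabilizer G a ⊓ MulAction.stabilizer G b) = 2 ∧
      ∀ n ∈ N, s * n * s⁻¹ ∈ N := by
    by_cases h6 : 6 ≤ Fintype.card α
    · exact Cfsg.Agent.S0729.result heven h6 G h3 hsharp hab hac hbc s hsa hsb hsc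
    · refine ⟨⊥, bot_le, ?_, ?_, ?_⟩
      · rw [Subgroup.bot_subgroupOf]
        infer_instance
      · rw [Subgroup.relIndex_bot_left,
          Cfsg.Agent.Helper66.sharp3_card_stab2 h3s hab (Ne.symm hac) (Ne.symm hbc) htr]
        obtain ⟨k, hk⟩ := heven
        omega
      · intro n hn
        rw [Subgroup.mem_bot] at hn ⊢
        rw [hn, mul_one, mul_inv_cancel]
  obtain ⟨N, hNle, hNn, hNidx, hNs⟩ := hN
  exact Cfsg.Agent.Helper66.sharp3_pgl hp hp2 hfo hα h3s hab (Ne.symm hac) (Ne.symm hbc) T C.Ka C.Kn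
    (fun t ht ht1 x hx h => ht1 (C.Ks t ht x hx h)) C.Kt C.Kc htr s hsa hsb hsc N hNle hNn hNidx hNs

end Cfsg.Agent.S0730
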