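import Cfsg.Statements.S0731
import Cfsg.Agent.Helper71.ZassOdd
import Cfsg.Agent.Helper71.ZassBraid
import Cfsg.Agent.S0741

set_option autoImplicit false
open Cfsg

namespace Cfsg.Agent.S0731

/-- A finite Zassenhaus group whose point stabiliser has an abelian regular normal subgroup on the remaining points is sharply triply transitive or isomorphic to `PSL(2, F)` for a finite field `F` of odd characteristic. -/
theorem result {G Ω : Type*} [Group G] [Finite G] [MulAction G Ω] [Finite Ω] (hZ : Cfsg.IsZassenhausGroup G Ω) (x : Ω) (F : Subgroup G) (hFle : F ≤ MulAction.stabilizer G x) (hFn : (F.subgroupOf (MulAction.stabilizer G x)).Normal) (hFab : IsMulCommutative F) (hreg : ∀ y z : Ω, y ≠ x → z ≠ x → ∃! u : F, (u : G) • y = z) : (MulAction.IsMultiplyPretransitive G Ω 3 ∧ ∀ t : Fin 3 ↪ Ω, MulAction.stabilizer G t = ⊥) ∨ ∃ (K : Type) (_ : Field K) (_ : Fintype K), ringChar K ≠ 2 ∧ Nonempty (G ≃* Matrix.ProjectiveSpecialLinearGroup (Fin 2) K) := by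
  classical
  have : Fintype Ω := Fintype.ofFinite Ω
  obtain ⟨b, hb⟩ := Cfsg.Agent.Helper6.zs_exists_ne hZ x
  have hab : x ≠ b := hb.symm
  have h3 := Cfsg.Agent.Helper15.zass_three_le_card hZ
  rw [Nat.card_eq_fintype_card] at h3
  obtain ⟨e, he⟩ : ∃ e : ℕ,
    e = Nat.card ↥(MulAction.stabilizer G x ⊓ MulAction.stabilizer G b) := ⟨_, rfl⟩
  have hepos : 0 < e := by rw [he]; exact Nat.card_pos
  have hbound : Fintype.card Ω - 2 ≤ 2 * e := by
    rcases Nat.even_or_odd e with heven | hodd
    · rw [he] at heven ⊢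
      exact Cfsg.Agent.S0741.result hZ hab heven
    · have hFcard : Nat.card F + 1 = Fintype.card Ω := by
        rw [← Nat.card_eq_fintype_card]
        exact Cfsg.Agent.Helper71.ZassBraid.card_reg F hFle hreg hb
      have hFfix : ∀ u ∈ F, u ≠ 1 → ∀ c : Ω, u • c = c → c = x := by
        intro u hu hu1 c hc
        by_contra hcx
        obtain ⟨w, -, hw⟩ := hreg c c hcx hcx
        have h1 := hw ⟨u, hu⟩ hc
        have h2 := hw 1 (one_smul _ _)
        exact hu1 (congrArg Subtype.val (h1.trans h2.symm))
      rcases Cfsg.Agent.S0885.result hZ hab (Fintype.card Ω - 1) e (by omega) he.symm hodd F hFle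
        hFcard hFfix with h | ⟨-, ⟨u, v, huv⟩, -⟩
      · omega
      · exact absurd (hFab.is_comm.comm u v) huv
  have hdvd := Cfsg.Agent.Helper71.ZassBraid.card_stab_dvd hZ hab
  rw [Nat.card_eq_fintype_card (α := Ω), ← he] at hdvd
  obtain ⟨k, hk⟩ := hdvd
  have hk1 : k = 1 ∨ k = 2 := by
    have hk0 : k ≠ 0 := by
      rintro rfl
      omega
    have h1 : e * k ≤ e * 2 := by rw [← hk]; omega
    have h2 := Nat.le_of_mul_le_mul_left h1 hepos
    omega
  rcases hk1 with rfl | rfl
  · left
    have he2 : Fintype.card Ω - 2 = e := by omega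
    have hfix3 : ∀ g : G, ∀ c : Ω, c ≠ x → c ≠ b → g • x = x → g • b = b → g • c = c → g = 1 :=
      fun g c hcx hcb h1 h2 h3 =>
        Cfsg.Agent.Helper15.zass_eq_one_of_fix_three hZ hab (Ne.symm hcb) (Ne.symm hcx) h1 h2 h3
    -- the two point stabiliser is regular on the remaining points
    have htr : ∀ c d : Ω, c ≠ x → c ≠ b → d ≠ x → d ≠ b →
        ∃ h : G, h • x = x ∧ h • b = b ∧ h • c = d := by
      intro c d hcx hcb hdx hdb
      have hmem : ∀ h : ↥(MulAction.stabilizer G x ⊓ MulAction.stabilizer G b),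
          (h : G) • x = x ∧ (h : G) • b = b := fun h => ⟨h.2.1, h.2.2⟩
      let φ : ↥(MulAction.stabilizer G x ⊓ MulAction.stabilizer G b) →
          {y : Ω // y ≠ x ∧ y ≠ b} := fun h => ⟨(h : G) • c, by
            constructor
            · intro hc
              apply hcx
              have : (h : G) • c = (h : G) • x := by rw [hc, (hmem h).1]
              exact MulAction.injective _ this
            · intro hc
              apply hcb
              have : (h : G) • c = (h : G) • b := by rw [hc, (hmem h).2]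
              exact MulAction.injective _ this⟩
      have hinj : Function.Injective φ := by
        intro h h' hh
        have h1 : (h : G) • c = (h' : G) • c := congrArg Subtype.val hh
        have h2 : ((h : G)⁻¹ * (h' : G)) = 1 := by
          apply hfix3 _ c hcx hcb
          · rw [mul_smul, (hmem h').1, inv_smul_eq_iff, (hmem h).1]
          · rw [mul_smul, (hmem h').2, inv_smul_eq_iff, (hmem h).2]
          · rw [mul_smul, ← h1, inv_smul_smul]
        apply Subtype.ext
        exact (inv_mul_eq_one.mp h2)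
      have hcardX : Nat.card {y : Ω // y ≠ x ∧ y ≠ b} = Fintype.card Ω - 2 := by
        rw [Nat.card_eq_fintype_card, Fintype.card_subtype]
        have : (Finset.univ.filter (fun y : Ω => y ≠ x ∧ y ≠ b)) = Finset.univ \ {x, b} := by
          ext y
          simp
        rw [this, Finset.card_univ_sdiff, Finset.card_pair hab]
      have hbij := hinj.bijective_of_nat_card_le (by rw [hcardX, he2, he])
      obtain ⟨h, hh⟩ := hbij.2 ⟨d, hdx, hdb⟩
      exact ⟨(h : G), (hmem h).1, (hmem h).2, congrArg Subtype.val hh⟩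
    constructor
    · refine ⟨fun s t => ?_⟩
      have hs01 : s 0 ≠ s 1 := fun h => by simpa using s.injective h
      have hs02 : s 0 ≠ s 2 := fun h => by simpa using s.injective h
      have hs12 : s 1 ≠ s 2 := fun h => by simpa using s.injective h
      have ht01 : t 0 ≠ t 1 := fun h => by simpa using t.injective h
      have ht02 : t 0 ≠ t 2 := fun h => by simpa using t.injective h
      have ht12 : t 1 ≠ t 2 := fun h => by simpa using t.injective h
      obtain ⟨g₁, hg₁0, hg₁1⟩ := Cfsg.Agent.Helper15.zass_two_trans hZ hs01 hab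
      obtain ⟨g₂, hg₂0, hg₂1⟩ := Cfsg.Agent.Helper15.zass_two_trans hZ ht01 hab
      have hc1 : g₁ • s 2 ≠ x := by
        rw [← hg₁0]
        exact fun h => hs02 (MulAction.injective g₁ h).symm
      have hc2 : g₁ • s 2 ≠ b := by
        rw [← hg₁1]
        exact fun h => hs12 (MulAction.injective g₁ h).symm
      have hd1 : g₂ • t 2 ≠ x := by
        rw [← hg₂0]
        exact fun h => ht02 (MulAction.injective g₂ h).symm
      have hd2 : g₂ • t 2 ≠ b := by
        rw [← hg₂1]
        exact fun h => ht12 (MulAction.injective g₂ h).symm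
      obtain ⟨h, hhx, hhb, hhc⟩ := htr _ _ hc1 hc2 hd1 hd2
      refine ⟨g₂⁻¹ * h * g₁, ?_⟩
      ext i
      rw [Function.Embedding.smul_apply]
      fin_cases i
      · show (g₂⁻¹ * h * g₁) • s 0 = t 0
        rw [mul_smul, mul_smul, hg₁0, hhx, inv_smul_eq_iff, hg₂0]
      · show (g₂⁻¹ * h * g₁) • s 1 = t 1
        rw [mul_smul, mul_smul, hg₁1, hhb, inv_smul_eq_iff, hg₂1]
      · show (g₂⁻¹ * h * g₁) • s 2 = t 2
        rw [mul_smul, mul_smul, hhc, inv_smul_smul]
    · intro t
      rw [eq_bot_iff]
      intro g hg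
      rw [MulAction.mem_stabilizer_iff] at hg
      have h0 : g • t 0 = t 0 := by
        have := congrArg (fun f : Fin 3 ↪ Ω => f 0) hg
        simpa using this
      have h1 : g • t 1 = t 1 := by
        have := congrArg (fun f : Fin 3 ↪ Ω => f 1) hg
        simpa using this
      have h2 : g • t 2 = t 2 := by
        have := congrArg (fun f : Fin 3 ↪ Ω => f 2) hg
        simpa using this
      have ht01 : t 0 ≠ t 1 := fun h => by simpa using t.injective h
      have ht02 : t 0 ≠ t 2 := fun h => by simpa using t.injective h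
      have ht12 : t 1 ≠ t 2 := fun h => by simpa using t.injective h
      exact Subgroup.mem_bot.mpr
        (Cfsg.Agent.Helper15.zass_eq_one_of_fix_three hZ ht01 ht12 ht02 h0 h1 h2)
  · right
    have h2 : 2 * e + 2 = Fintype.card Ω := by omega
    have key : ∃ (p f : ℕ) (K : Type) (_ : Field K) (_ : Fintype K), p.Prime ∧ p ≠ 2 ∧
        Fintype.card K = p ^ f ∧ Fintype.card Ω = p ^ f + 1 ∧
        Nonempty (G ≃* Matrix.ProjectiveSpecialLinearGroup (Fin 2) K) := by
      rcases Nat.even_or_odd e with heven | hodd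
      · rw [he] at heven h2
        exact Cfsg.Agent.Helper66.zass_psl hZ hab heven h2
      · rw [he] at hodd h2
        exact Cfsg.Agent.Helper71.ZassOdd.zass_psl_odd hZ hab hodd h2
    obtain ⟨p, f, K, iF, iFt, hp, hp2, hK, -, hiso⟩ := key
    refine ⟨K, iF, iFt, ?_, hiso⟩
    intro hchar
    have h1 : ((Fintype.card K : ℕ) : K) = 0 := Nat.cast_card_eq_zero K
    rw [hK, Nat.cast_pow] at h1
    have h2' : (p : K) = 0 := eq_zero_of_pow_eq_zero h1
    have h3' : ringChar K ∣ p := (ringChar.spec K p).mp h2'
    rw [hchar] at h3'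
    exact hp2 ((Nat.prime_dvd_prime_iff_eq Nat.prime_two hp).mp h3').symm

end Cfsg.Agent.S0731
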