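import Cfsg.Statements.S0733
import Mathlib.Algebra.Module.ZMod

set_option autoImplicit false
open Cfsg

namespace Cfsg.Agent.S0733

open Pointwise in
theorem aux {p : ℕ} [Fact p.Prime] {V : Type*} [AddCommGroup V] [Module (ZMod p) V] [Finite V] [Nontrivial V] (G₀ : Subgroup (V ≃ₗ[ZMod p] V)) (G : Subgroup (Equiv.Perm V)) (hG : ∀ σ : Equiv.Perm V, σ ∈ G ↔ ∃ g ∈ G₀, ∃ b : V, ∀ x : V, σ x = (g : V ≃ₗ[ZMod p] V) x + b) : MulAction.IsPreprimitive G V ↔ ∀ W : Submodule (ZMod p) V, (∀ g ∈ G₀, ∀ v ∈ W, (g : V ≃ₗ[ZMod p] V) v ∈ W) → W = ⊥ ∨ W = ⊤ := by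
  classical
  -- translations and linear maps in G
  have htrans : ∀ b : V, Equiv.addRight b ∈ G := by
    intro b
    rw [hG]
    exact ⟨1, G₀.one_mem, b, fun x => rfl⟩
  have haff : ∀ g ∈ G₀, ∀ b : V, ∃ σ ∈ G, ∀ x, σ x = (g : V ≃ₗ[ZMod p] V) x + b := by
    intro g hg b
    refine ⟨(g : V ≃ₗ[ZMod p] V).toEquiv.trans (Equiv.addRight b), ?_, fun x => rfl⟩
    rw [hG]
    exact ⟨g, hg, b, fun x => rfl⟩
  constructor
  · intro hprim W hW
    have hWinv : ∀ g ∈ G₀, ∀ v, v ∈ W ↔ (g : V ≃ₗ[ZMod p] V) v ∈ W := by
      intro g hg v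
      refine ⟨hW g hg v, fun h => ?_⟩
      have := hW g⁻¹ (G₀.inv_mem hg) _ h
      have e : (g⁻¹ : V ≃ₗ[ZMod p] V) ((g : V ≃ₗ[ZMod p] V) v) = v := by
        show (g⁻¹ * g) v = v
        rw [inv_mul_cancel]; rfl
      rwa [e] at this
    have hblock : MulAction.IsBlock G (W : Set V) := by
      rw [MulAction.isBlock_iff_smul_eq_or_disjoint]
      intro σ
      obtain ⟨g, hg, b, hσ⟩ := (hG σ.1).mp σ.2
      have hset : σ • (W : Set V) = {y | y - b ∈ W} := by
        ext y
        rw [Set.mem_smul_set]
        constructor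
        · rintro ⟨x, hx, rfl⟩
          show σ.1 x - b ∈ W
          rw [hσ, add_sub_cancel_right]
          exact hW g hg x hx
        · intro hy
          have hy' : y - b ∈ W := hy
          refine ⟨(g⁻¹ : V ≃ₗ[ZMod p] V) (y - b), hW g⁻¹ (G₀.inv_mem hg) _ hy', ?_⟩
          show σ.1 _ = y
          rw [hσ]
          have e : (g : V ≃ₗ[ZMod p] V) ((g⁻¹ : V ≃ₗ[ZMod p] V) (y - b)) = y - b := by
            show (g * g⁻¹) (y - b) = y - b
            rw [mul_inv_cancel]; rfl
          rw [e, sub_add_cancel]
      rw [hset]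
      by_cases hb : b ∈ W
      · left
        ext y
        constructor
        · intro hy
          have hy' : y - b ∈ W := hy
          have := W.add_mem hy' hb
          rwa [sub_add_cancel] at this
        · intro hy
          exact W.sub_mem hy hb
      · right
        rw [Set.disjoint_left]
        intro y hy hy2
        have hy' : y - b ∈ W := hy
        apply hb
        have := W.sub_mem hy2 hy'
        rwa [sub_sub_cancel] at this
    rcases hprim.isTrivialBlock_of_isBlock hblock with h | h
    · left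
      rw [Submodule.eq_bot_iff]
      intro x hx
      exact h hx W.zero_mem
    · right
      rw [Submodule.eq_top_iff']
      intro x
      have : x ∈ (W : Set V) := by rw [h]; trivial
      exact this
  · intro hirr
    have : MulAction.IsPretransitive G V := by
      refine ⟨fun x y => ⟨⟨Equiv.addRight (y - x), htrans _⟩, ?_⟩⟩
      show x + (y - x) = y
      abel
    refine ⟨fun {B} hB => ?_⟩
    by_cases hsub : B.Subsingleton
    · exact Or.inl hsub
    · right
      obtain ⟨b₀, hb₀⟩ : B.Nonempty := by
        by_contra hne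
        rw [Set.not_nonempty_iff_eq_empty] at hne
        exact hsub (hne ▸ Set.subsingleton_empty)
      -- translation by elements of B - b₀ fixes B
      have htB : ∀ x : V, x + b₀ ∈ B →
          (⟨Equiv.addRight x, htrans x⟩ : G) • B = B := by
        intro x hx
        apply hB.smul_eq_of_mem hb₀
        show b₀ + x ∈ B
        rwa [add_comm]
      let W₀ : AddSubgroup V :=
        { carrier := {x | x + b₀ ∈ B}
          zero_mem' := by simpa using hb₀
          add_mem' := by
            intro x y hx hy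
            have h1 := htB x hx
            have hy' : y + b₀ ∈ B := hy
            have : (⟨Equiv.addRight x, htrans x⟩ : G) • (y + b₀) ∈
                (⟨Equiv.addRight x, htrans x⟩ : G) • B := Set.smul_mem_smul_set hy'
            rw [h1] at this
            show x + y + b₀ ∈ B
            have e : (⟨Equiv.addRight x, htrans x⟩ : G) • (y + b₀) = x + y + b₀ := by
              show y + b₀ + x = x + y + b₀
              abel
            rwa [e] at this
          neg_mem' := by
            intro x hx
            have h1 := htB x hx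
            have : b₀ ∈ (⟨Equiv.addRight x, htrans x⟩ : G) • B := by rw [h1]; exact hb₀
            rw [Set.mem_smul_set] at this
            obtain ⟨y, hy, hyx⟩ := this
            have hyx' : y + x = b₀ := hyx
            show -x + b₀ ∈ B
            have : -x + b₀ = y := by rw [← hyx']; abel
            rwa [this] }
      have hW₀ : ∀ x, x ∈ W₀ ↔ x + b₀ ∈ B := fun x => Iff.rfl
      let W : Submodule (ZMod p) V := { W₀ with smul_mem' := fun c _ h => ZMod.smul_mem (K := W₀) h c }
      have hWmem : ∀ x, x ∈ W ↔ x + b₀ ∈ B := fun x => Iff.rfl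
      have hWinv : ∀ g ∈ G₀, ∀ v ∈ W, (g : V ≃ₗ[ZMod p] V) v ∈ W := by
        intro g hg v hv
        obtain ⟨σ, hσG, hσ⟩ := haff g hg (b₀ - (g : V ≃ₗ[ZMod p] V) b₀)
        have h1 : (⟨σ, hσG⟩ : G) • B = B := by
          apply hB.smul_eq_of_mem hb₀
          show σ b₀ ∈ B
          rw [hσ, add_sub_cancel]
          exact hb₀
        have hv' : v + b₀ ∈ B := (hWmem v).mp hv
        have h2 : (⟨σ, hσG⟩ : G) • (v + b₀) ∈ (⟨σ, hσG⟩ : G) • B := Set.smul_mem_smul_set hv'
        rw [h1] at h2
        rw [hWmem]
        have e : (⟨σ, hσG⟩ : G) • (v + b₀) = (g : V ≃ₗ[ZMod p] V) v + b₀ := by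
          show σ (v + b₀) = _
          rw [hσ, map_add]
          abel
        rwa [e] at h2
      rcases hirr W hWinv with h | h
      · exfalso
        apply hsub
        intro x hx y hy
        have hx' : x - b₀ ∈ W := by rw [hWmem, sub_add_cancel]; exact hx
        have hy' : y - b₀ ∈ W := by rw [hWmem, sub_add_cancel]; exact hy
        rw [h, Submodule.mem_bot] at hx' hy'
        rw [sub_eq_zero.mp hx', sub_eq_zero.mp hy']
      · ext y
        simp only [Set.mem_univ, iff_true]
        have : y - b₀ ∈ W := by rw [h]; trivial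
        rw [hWmem, sub_add_cancel] at this
        exact this

/-- A permutation group of affine type — generated by the translations of a finite vector space `V` over `ZMod p` together with a group `G₀` of linear automorphisms — is primitive on `V` if and only if `G₀` is irreducible on `V`. -/
theorem result {p : ℕ} [Fact p.Prime] {V : Type*} [AddCommGroup V] [Module (ZMod p) V] [Finite V] [Nontrivial V] (G₀ : Subgroup (V ≃ₗ[ZMod p] V)) (G : Subgroup (Equiv.Perm V)) (hG : ∀ σ : Equiv.Perm V, σ ∈ G ↔ ∃ g ∈ G₀, ∃ b : V, ∀ x : V, σ x = (g : V ≃ₗ[ZMod p] V) x + b) : MulAction.IsPreprimitive G V ↔ ∀ W : Submodule (ZMod p) V, (∀ g ∈ G₀, ∀ v ∈ W, (g : V ≃ₗ[ZMod p] V) v ∈ W) → W = ⊥ ∨ W = ⊤ := by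
  exact aux G₀ G hG

end Cfsg.Agent.S0733
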