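import Cfsg.Statements.S0734
-- import your own Cfsg.Agent.* helpers here

set_option autoImplicit false
open Cfsg


namespace Cfsg.Agent.S0734

open MulAction
open scoped Pointwise

/-- Connectedness of invariant graphs of a primitive group. -/
lemma conn_of_prim {G : Type*} [Group G] {Ω : Type*} [MulAction G Ω] [IsPreprimitive G Ω]
    {R : Ω → Ω → Prop}
    (hR : ∀ (h : G) (u v : Ω), R u v → R (h • u) (h • v)) (hsymm : ∀ u v, R u v → R v u)
    {x₀ y₀ : Ω} (hne : x₀ ≠ y₀) (hxy : R x₀ y₀) : ∀ u v, Relation.ReflTransGen R u v := by
  have hsym' : ∀ {a b : Ω}, Relation.ReflTransGen R a b → Relation.ReflTransGen R b a := by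
    intro a b hab
    induction hab with
    | refl => exact Relation.ReflTransGen.refl
    | tail _ hbc ih => exact Relation.ReflTransGen.head (hsymm _ _ hbc) ih
  have hsmul : ∀ (h : G) (a b : Ω), Relation.ReflTransGen R a b →
      Relation.ReflTransGen R (h • a) (h • b) := by
    intro h a b hab
    induction hab with
    | refl => exact Relation.ReflTransGen.refl
    | tail _ hbc ih => exact ih.tail (hR h _ _ hbc)
  have hblock : IsBlock G {v | Relation.ReflTransGen R x₀ v} := by
    rw [isBlock_iff_smul_eq_of_mem]
    intro g a ha hga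
    have h1 : Relation.ReflTransGen R (g • x₀) x₀ := (hsmul g _ _ ha).trans (hsym' hga)
    ext v
    rw [Set.mem_smul_set_iff_inv_smul_mem]
    constructor
    · intro hv
      have := hsmul g _ _ hv
      rw [smul_inv_smul] at this
      exact (hsym' h1).trans this
    · intro hv
      have := hsmul g⁻¹ _ _ (h1.trans hv)
      rwa [inv_smul_smul] at this
  have hBuniv : {v | Relation.ReflTransGen R x₀ v} = Set.univ := by
    rcases IsPreprimitive.isTrivialBlock_of_isBlock hblock with h | h
    · exact absurd (h (show x₀ ∈ {v | Relation.ReflTransGen R x₀ v} from Relation.ReflTransGen.refl)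
        (show y₀ ∈ {v | Relation.ReflTransGen R x₀ v} from Relation.ReflTransGen.single hxy)) hne
    · exact h
  intro u v
  have hu : u ∈ {v | Relation.ReflTransGen R x₀ v} := hBuniv ▸ Set.mem_univ u
  have hv : v ∈ {v | Relation.ReflTransGen R x₀ v} := hBuniv ▸ Set.mem_univ v
  exact (hsym' hu).trans hv

/-- Higman's criterion for primitivity: a transitive action on a finite set is primitive if and only if every non-trivial orbital graph (edges = images of a fixed pair of distinct points) is connected. -/
theorem result {G : Type*} [Group G] {Ω : Type*} [Finite Ω] [MulAction G Ω] [MulAction.IsPretransitive G Ω] [Nontrivial Ω] : MulAction.IsPreprimitive G Ω ↔ ∀ a b : Ω, a ≠ b → (SimpleGraph.fromRel fun x y : Ω => ∃ g : G, g • a = x ∧ g • b = y).Connected := by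
  constructor
  · intro hprim a b hab
    have hconn := conn_of_prim (G := G)
      (R := (SimpleGraph.fromRel fun x y : Ω => ∃ g : G, g • a = x ∧ g • b = y).Adj)
      (by
        intro h u v huv
        rw [SimpleGraph.fromRel_adj] at huv ⊢
        obtain ⟨hne, huv⟩ := huv
        refine ⟨fun he => hne (smul_left_cancel h he), ?_⟩
        rcases huv with ⟨g, rfl, rfl⟩ | ⟨g, rfl, rfl⟩
        · exact Or.inl ⟨h * g, mul_smul _ _ _, mul_smul _ _ _⟩
        · exact Or.inr ⟨h * g, mul_smul _ _ _, mul_smul _ _ _⟩)
      (fun u v huv => huv.symm) hab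
      (by
        rw [SimpleGraph.fromRel_adj]
        exact ⟨hab, Or.inl ⟨1, one_smul _ _, one_smul _ _⟩⟩)
    exact ⟨fun u v => (SimpleGraph.reachable_iff_reflTransGen u v).mpr (hconn u v)⟩
  · intro hall
    refine { toIsPretransitive := inferInstance, isTrivialBlock_of_isBlock := ?_ }
    intro B hB
    by_cases hsub : B.Subsingleton
    · exact Or.inl hsub
    · right
      rw [Set.not_subsingleton_iff] at hsub
      obtain ⟨a, ha, b, hb, hab⟩ := hsub
      have hconn := hall a b hab
      have key : ∀ v, Relation.ReflTransGen
          (SimpleGraph.fromRel fun x y : Ω => ∃ g : G, g • a = x ∧ g • b = y).Adj a v → v ∈ B := by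
        intro v hv
        induction hv with
        | refl => exact ha
        | @tail x y _ hxy ih =>
          rw [SimpleGraph.fromRel_adj] at hxy
          rw [isBlock_iff_smul_eq_of_mem] at hB
          rcases hxy.2 with ⟨g, hg1, hg2⟩ | ⟨g, hg1, hg2⟩
          · have h1 : g • B = B := hB ha (hg1 ▸ ih)
            rw [← h1, ← hg2]
            exact Set.smul_mem_smul_set hb
          · have h1 : g • B = B := hB hb (hg2 ▸ ih)
            rw [← h1, ← hg1]
            exact Set.smul_mem_smul_set ha
      ext v
      simp only [Set.mem_univ, iff_true]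
      exact key v ((SimpleGraph.reachable_iff_reflTransGen a v).mp (hconn.preconnected a v))

end Cfsg.Agent.S0734
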