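import Cfsg.Statements.S0735
-- import your own Cfsg.Agent.* helpers here

set_option autoImplicit false
open Cfsg


namespace Cfsg.Agent.S0735

open MulAction
open scoped Pointwise

lemma pair_move {α : Type*} [Fintype α] [DecidableEq α] (G : Subgroup (Equiv.Perm α))
    (h2 : IsPretransitive G (Set.powersetCard α 2)) {a c b d : α} (hac : a ≠ c) (hbd : b ≠ d) :
    ∃ g : G, (g • a = b ∧ g • c = d) ∨ (g • a = d ∧ g • c = b) := by
  obtain ⟨g, hg⟩ := exists_smul_eq G
    (⟨{a, c}, Set.powersetCard.mem_iff.mpr (Finset.card_pair hac)⟩ : Set.powersetCard α 2)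
    ⟨{b, d}, Set.powersetCard.mem_iff.mpr (Finset.card_pair hbd)⟩
  have h' : g • ({a, c} : Finset α) = {b, d} :=
    (Set.powersetCard.coe_smul (g := g)
      (s := (⟨{a, c}, Set.powersetCard.mem_iff.mpr (Finset.card_pair hac)⟩ :
        Set.powersetCard α 2))).symm.trans (congrArg Subtype.val hg)
  have ha : g • a ∈ g • ({a, c} : Finset α) := Finset.smul_mem_smul_finset (by simp)
  have hc : g • c ∈ g • ({a, c} : Finset α) := Finset.smul_mem_smul_finset (by simp)
  rw [h', Finset.mem_insert, Finset.mem_singleton] at ha hc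
  have hne : g • a ≠ g • c := fun he => hac (smul_left_cancel g he)
  refine ⟨g, ?_⟩
  rcases ha with ha | ha <;> rcases hc with hc | hc
  · exact absurd (ha.trans hc.symm) hne
  · exact Or.inl ⟨ha, hc⟩
  · exact Or.inr ⟨ha, hc⟩
  · exact absurd (ha.trans hc.symm) hne

/-- A 2-homogeneous permutation group (transitive on 2-subsets) of even order is doubly transitive; a non-trivial 2-homogeneous group is primitive. -/
theorem result {α : Type*} [Fintype α] [DecidableEq α] (G : Subgroup (Equiv.Perm α)) (h2 : MulAction.IsPretransitive G (Set.powersetCard α 2)) (hα : 3 ≤ Fintype.card α) : (Even (Nat.card G) → MulAction.IsMultiplyPretransitive G α 2) ∧ (G ≠ ⊥ → MulAction.IsPreprimitive G α) := by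
  constructor
  · intro heven
    have : Fact (Nat.Prime 2) := ⟨Nat.prime_two⟩
    obtain ⟨t, ht⟩ := exists_prime_orderOf_dvd_card' (G := G) 2 (even_iff_two_dvd.mp heven)
    have ht1 : t ≠ 1 := by
      rintro rfl
      rw [orderOf_one] at ht
      omega
    have ht2 : t * t = 1 := by rw [← pow_two, ← ht, pow_orderOf_eq_one]
    obtain ⟨x, hx⟩ : ∃ x : α, t • x ≠ x := by
      by_contra hcon
      push Not at hcon
      apply ht1
      apply Subtype.ext
      apply Equiv.ext
      intro x
      exact hcon x
    have hty : t • t • x = x := by rw [smul_smul, ht2, one_smul]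
    have key : ∀ a b : α, a ≠ b → ∃ k : G, k • x = a ∧ k • (t • x) = b := by
      intro a b hab
      obtain ⟨g, hg | hg⟩ := pair_move G h2 (Ne.symm hx) hab
      · exact ⟨g, hg.1, hg.2⟩
      · exact ⟨g * t, by rw [mul_smul, hg.2], by rw [mul_smul, hty, hg.1]⟩
    rw [MulAction.is_two_pretransitive_iff]
    intro a b c d hab hcd
    obtain ⟨k₁, h1, h1'⟩ := key a b hab
    obtain ⟨k₂, h2', h2''⟩ := key c d hcd
    exact ⟨k₂ * k₁⁻¹, by rw [mul_smul, ← h1, inv_smul_smul, h2'],
      by rw [mul_smul, ← h1', inv_smul_smul, h2'']⟩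
  · intro _
    have htrans : IsPretransitive G α := by
      refine ⟨fun a b => ?_⟩
      by_cases hab : a = b
      · exact ⟨1, by rw [one_smul, hab]⟩
      · obtain ⟨c, _, hc⟩ := Finset.exists_mem_notMem_of_card_lt_card
          (s := ({a, b} : Finset α)) (t := Finset.univ)
          (lt_of_le_of_lt Finset.card_le_two (by rw [Finset.card_univ]; omega))
        rw [Finset.mem_insert, Finset.mem_singleton, not_or] at hc
        obtain ⟨g₃, hg₃ | hg₃⟩ := pair_move G h2 (a := a) (c := c) (b := b) (d := c)
          (Ne.symm hc.1) (Ne.symm hc.2)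
        · exact ⟨g₃, hg₃.1⟩
        · obtain ⟨g₁, hg₁ | hg₁⟩ := pair_move G h2 (a := a) (c := c) (b := a) (d := b)
            (Ne.symm hc.1) hab
          · exact ⟨g₁ * g₃, by rw [mul_smul, hg₃.1, hg₁.2]⟩
          · exact ⟨g₁, hg₁.1⟩
    refine { toIsPretransitive := htrans, isTrivialBlock_of_isBlock := ?_ }
    intro B hB
    by_cases hsub : B.Subsingleton
    · exact Or.inl hsub
    · right
      rw [Set.not_subsingleton_iff] at hsub
      obtain ⟨a, ha, b, hb, hab⟩ := hsub
      rw [isBlock_iff_smul_eq_of_mem] at hB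
      ext x
      simp only [Set.mem_univ, iff_true]
      by_cases hxa : x = a
      · rw [hxa]
        exact ha
      · obtain ⟨g, hg | hg⟩ := pair_move G h2 (a := a) (c := b) (b := a) (d := x) hab (Ne.symm hxa)
        · have h1 : g • B = B := hB ha (by rw [hg.1]; exact ha)
          rw [← h1, ← hg.2]
          exact Set.smul_mem_smul_set hb
        · have h1 : g • B = B := hB hb (by rw [hg.2]; exact ha)
          rw [← h1, ← hg.1]
          exact Set.smul_mem_smul_set ha

end Cfsg.Agent.S0735
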