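import Cfsg.Statements.S0736
import Mathlib

set_option autoImplicit false
open Cfsg

namespace Cfsg.Agent.S0736

open Pointwise in
/-- Lucas-type congruence: `C(p^a j + p^a - 1, p^a - 1) ≡ 1 mod p`. -/
theorem choose_lucas_one (p : ℕ) [Fact p.Prime] : ∀ (a j : ℕ),
    Nat.choose (p ^ a * j + p ^ a - 1) (p ^ a - 1) ≡ 1 [MOD p] := by
  have hp : p.Prime := Fact.out
  intro a
  induction a with
  | zero => intro j; simp [Nat.ModEq]
  | succ a ih =>
    intro j
    have hpos : 0 < p ^ a := pow_pos hp.pos a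
    have h1 : p ^ (a + 1) * j + p ^ (a + 1) - 1 = p * (p ^ a * j + p ^ a - 1) + (p - 1) := by
      obtain ⟨M', hM'⟩ : ∃ M', p ^ a * j + p ^ a = M' + 1 := ⟨p ^ a * j + p ^ a - 1, by omega⟩
      have e1 : p ^ (a + 1) * j + p ^ (a + 1) = p * (M' + 1) := by rw [← hM']; ring
      rw [e1, hM', Nat.add_sub_cancel, Nat.mul_succ]
      have := hp.two_le
      generalize p * M' = t
      omega
    have h2 : p ^ (a + 1) - 1 = p * (p ^ a - 1) + (p - 1) := by
      obtain ⟨M', hM'⟩ : ∃ M', p ^ a = M' + 1 := ⟨p ^ a - 1, by omega⟩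
      have e1 : p ^ (a + 1) = p * (M' + 1) := by rw [← hM']; ring
      rw [e1, hM', Nat.add_sub_cancel, Nat.mul_succ]
      have := hp.two_le
      generalize p * M' = t
      omega
    have hlt : p - 1 < p := Nat.sub_lt hp.pos one_pos
    have key := Choose.choose_modEq_choose_mod_mul_choose_div_nat (p := p)
      (n := p ^ (a + 1) * j + p ^ (a + 1) - 1) (k := p ^ (a + 1) - 1)
    rw [h1, h2, Nat.mul_add_mod, Nat.mul_add_mod, Nat.mod_eq_of_lt hlt,
      Nat.mul_add_div hp.pos, Nat.mul_add_div hp.pos, Nat.div_eq_of_lt hlt, add_zero, add_zero,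
      Nat.choose_self, one_mul] at key
    rw [h1, h2]
    exact key.trans (ih j)

open Pointwise in
/-- the counting core: the number of `(k-1)`-subsets of a `k`-set lying in a fixed orbit is
divisible by every prime power `q ∣ k` with `k + q - 1 ≤ n`. -/
theorem count_dvd {α : Type*} [Fintype α] [DecidableEq α] (k c : ℕ) (hk : 1 ≤ k)
    (O : Finset α → Prop) [DecidablePred O]
    (hc : ∀ Δ : Finset α, Δ.card = k → ((Δ.powersetCard (k - 1)).filter O).card = c)
    (p a : ℕ) (hp : p.Prime) (hq : p ^ a ∣ k) (hn : k + p ^ a - 1 ≤ Fintype.card α) :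
    p ^ a ∣ c := by
  have : Fact p.Prime := ⟨hp⟩
  have hqpos : 0 < p ^ a := pow_pos hp.pos a
  obtain ⟨Λ, -, hΛ⟩ := Finset.exists_subset_card_eq (s := (Finset.univ : Finset α))
    (n := k + p ^ a - 1) (by rw [Finset.card_univ]; exact hn)
  -- double counting
  have hdc := Finset.sum_card_bipartiteAbove_eq_sum_card_bipartiteBelow
    (s := Λ.powersetCard k) (t := (Λ.powersetCard (k - 1)).filter O)
    (r := fun (Δ T : Finset α) => T ⊆ Δ)
  have h1 : ∀ Δ ∈ Λ.powersetCard k,
      (((Λ.powersetCard (k - 1)).filter O).bipartiteAbove (fun (Δ T : Finset α) => T ⊆ Δ) Δ).card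
        = c := by
    intro Δ hΔ
    rw [Finset.mem_powersetCard] at hΔ
    rw [← hc Δ hΔ.2]
    congr 1
    ext T
    simp only [Finset.bipartiteAbove, Finset.mem_filter, Finset.mem_powersetCard]
    constructor
    · rintro ⟨⟨⟨_, h2⟩, h3⟩, h4⟩
      exact ⟨⟨h4, h2⟩, h3⟩
    · rintro ⟨⟨h4, h2⟩, h3⟩
      exact ⟨⟨⟨h4.trans hΔ.1, h2⟩, h3⟩, h4⟩
  have h2 : ∀ T ∈ (Λ.powersetCard (k - 1)).filter O,
      ((Λ.powersetCard k).bipartiteBelow (fun (Δ T : Finset α) => T ⊆ Δ) T).card = p ^ a := by
    intro T hT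
    rw [Finset.mem_filter, Finset.mem_powersetCard] at hT
    obtain ⟨⟨hTΛ, hTc⟩, -⟩ := hT
    have hcard : (Λ \ T).card = p ^ a := by
      rw [Finset.card_sdiff_of_subset hTΛ, hΛ, hTc]
      omega
    rw [← hcard]
    symm
    apply Finset.card_bij (fun d _ => insert d T)
    · intro d hd
      rw [Finset.mem_sdiff] at hd
      simp only [Finset.bipartiteBelow, Finset.mem_filter, Finset.mem_powersetCard]
      refine ⟨⟨?_, ?_⟩, Finset.subset_insert d T⟩
      · intro x hx
        rw [Finset.mem_insert] at hx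
        rcases hx with rfl | hx
        · exact hd.1
        · exact hTΛ hx
      · rw [Finset.card_insert_of_notMem hd.2, hTc]
        omega
    · intro d hd d' hd' hdd
      rw [Finset.mem_sdiff] at hd hd'
      have : d ∈ insert d' T := by rw [← hdd]; exact Finset.mem_insert_self d T
      rw [Finset.mem_insert] at this
      rcases this with h | h
      · exact h
      · exact absurd h hd.2
    · intro Δ hΔ
      simp only [Finset.bipartiteBelow, Finset.mem_filter, Finset.mem_powersetCard] at hΔ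
      obtain ⟨⟨hΔΛ, hΔc⟩, hTΔ⟩ := hΔ
      have hdiff : (Δ \ T).card = 1 := by
        rw [Finset.card_sdiff_of_subset hTΔ, hΔc, hTc]
        omega
      rw [Finset.card_eq_one] at hdiff
      obtain ⟨d, hd⟩ := hdiff
      have hdmem : d ∈ Δ \ T := by rw [hd]; exact Finset.mem_singleton_self d
      rw [Finset.mem_sdiff] at hdmem
      refine ⟨d, Finset.mem_sdiff.mpr ⟨hΔΛ hdmem.1, hdmem.2⟩, ?_⟩
      ext x
      rw [Finset.mem_insert]
      constructor
      · rintro (rfl | hx)
        · exact hdmem.1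
        · exact hTΔ hx
      · intro hx
        by_cases hxT : x ∈ T
        · exact Or.inr hxT
        · left
          have : x ∈ Δ \ T := Finset.mem_sdiff.mpr ⟨hx, hxT⟩
          rw [hd, Finset.mem_singleton] at this
          exact this
  rw [Finset.sum_congr rfl h1, Finset.sum_congr rfl h2, Finset.sum_const, Finset.sum_const,
    smul_eq_mul, smul_eq_mul, Finset.card_powersetCard, hΛ] at hdc
  -- hdc : choose (k + p^a - 1) k * c = card * p^a
  obtain ⟨j, hj⟩ := hq
  have hsymm : Nat.choose (k + p ^ a - 1) k = Nat.choose (k + p ^ a - 1) (p ^ a - 1) := by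
    rw [← Nat.choose_symm (by omega)]
    congr 1
    omega
  have hmod : Nat.choose (k + p ^ a - 1) (p ^ a - 1) ≡ 1 [MOD p] := by
    have := choose_lucas_one p a j
    rw [← hj] at this
    exact this
  have hcop : Nat.Coprime (p ^ a) (Nat.choose (k + p ^ a - 1) k) := by
    apply Nat.Coprime.pow_left
    rw [hsymm, Nat.Prime.coprime_iff_not_dvd hp]
    intro hdvd
    have h0 : Nat.choose (k + p ^ a - 1) (p ^ a - 1) ≡ 0 [MOD p] :=
      (Nat.modEq_zero_iff_dvd).mpr hdvd
    have h10 : 1 ≡ 0 [MOD p] := hmod.symm.trans h0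
    rw [Nat.modEq_zero_iff_dvd] at h10
    exact hp.one_lt.ne' (Nat.dvd_one.mp h10)
  exact hcop.dvd_of_dvd_mul_left (Dvd.intro_left _ hdc.symm)

open Pointwise in
theorem main {α : Type*} [Fintype α] [DecidableEq α] (G : Subgroup (Equiv.Perm α)) {k : ℕ} (hk : 2 ≤ k) (hG : MulAction.IsPretransitive G (Set.powersetCard α k)) (hq : ∀ q : ℕ, IsPrimePow q → q ∣ k → k + q - 1 ≤ Fintype.card α) : MulAction.IsPretransitive G (Set.powersetCard α (k - 1)) := by
  classical
  have hkpos : 1 ≤ k := by omega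
  have hchoose : ∀ m : ℕ, 1 ≤ m → Nat.choose m (m - 1) = m := by
    intro m hm
    obtain ⟨m', rfl⟩ : ∃ m', m = m' + 1 := ⟨m - 1, by omega⟩
    rw [Nat.add_sub_cancel, Nat.choose_succ_self_right]
  -- a prime dividing k gives n > k
  obtain ⟨p₀, hp₀, hp₀k⟩ := Nat.exists_prime_and_dvd (show k ≠ 1 by omega)
  have hn1 : k + 1 ≤ Fintype.card α := by
    have := hq p₀ hp₀.isPrimePow hp₀k
    have := hp₀.two_le
    omega
  have htrans : ∀ s t : Finset α, s.card = k → t.card = k → ∃ g : G, g • s = t := by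
    intro s t hs ht
    obtain ⟨g, hg⟩ := hG.exists_smul_eq
      (⟨s, Set.powersetCard.mem_iff.mpr hs⟩ : Set.powersetCard α k)
      ⟨t, Set.powersetCard.mem_iff.mpr ht⟩
    refine ⟨g, ?_⟩
    have h1 : ((g • (⟨s, Set.powersetCard.mem_iff.mpr hs⟩ : Set.powersetCard α k) :
        Set.powersetCard α k) : Finset α) = t :=
      congrArg (fun x : Set.powersetCard α k => (x : Finset α)) hg
    exact (Set.powersetCard.coe_smul (g := g)
      (s := (⟨s, Set.powersetCard.mem_iff.mpr hs⟩ : Set.powersetCard α k))).symm.trans h1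
  -- a (k-1)-set and a k-set containing it
  obtain ⟨Δ₀, -, hΔ₀⟩ := Finset.exists_subset_card_eq (s := (Finset.univ : Finset α))
    (n := k) (by rw [Finset.card_univ]; omega)
  obtain ⟨T₀, hT₀Δ, hT₀⟩ := Finset.exists_subset_card_eq (s := Δ₀) (n := k - 1) (by omega)
  let O : Finset α → Prop := fun T => ∃ g : G, g • T₀ = T
  have hOinv : ∀ (g : G) (T : Finset α), O T → O (g • T) := by
    rintro g T ⟨h, rfl⟩
    exact ⟨g * h, mul_smul g h T₀⟩
  set c := ((Δ₀.powersetCard (k - 1)).filter O).card with hcdef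
  have hcinv : ∀ (g : G) (Δ : Finset α),
      (((g • Δ).powersetCard (k - 1)).filter O).card = ((Δ.powersetCard (k - 1)).filter O).card := by
    intro g Δ
    symm
    apply Finset.card_bij (fun T _ => g • T)
    · intro T hT
      rw [Finset.mem_filter, Finset.mem_powersetCard] at hT ⊢
      exact ⟨⟨Finset.smul_finset_subset_smul_finset hT.1.1, by rw [Finset.card_smul_finset]; exact hT.1.2⟩,
        hOinv g T hT.2⟩
    · intro T _ T' _ h
      have := congrArg (fun x => g⁻¹ • x) h
      simpa using this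
    · intro T' hT'
      rw [Finset.mem_filter, Finset.mem_powersetCard] at hT'
      refine ⟨g⁻¹ • T', ?_, by simp⟩
      rw [Finset.mem_filter, Finset.mem_powersetCard]
      refine ⟨⟨?_, by rw [Finset.card_smul_finset]; exact hT'.1.2⟩, hOinv g⁻¹ T' hT'.2⟩
      have := Finset.smul_finset_subset_smul_finset (a := g⁻¹) hT'.1.1
      simpa using this
  have hc : ∀ Δ : Finset α, Δ.card = k → ((Δ.powersetCard (k - 1)).filter O).card = c := by
    intro Δ hΔ
    obtain ⟨g, hg⟩ := htrans Δ₀ Δ hΔ₀ hΔ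
    rw [← hg, hcinv]
  have hcpos : c ≠ 0 := by
    rw [hcdef]
    apply Finset.card_ne_zero_of_mem (a := T₀)
    rw [Finset.mem_filter, Finset.mem_powersetCard]
    exact ⟨⟨hT₀Δ, hT₀⟩, ⟨1, one_smul _ _⟩⟩
  have hcle : c ≤ k := by
    rw [hcdef]
    refine le_trans (Finset.card_filter_le _ _) ?_
    rw [Finset.card_powersetCard, hΔ₀, hchoose k hkpos]
  have hkc : k ∣ c := by
    rw [← Nat.factorization_prime_le_iff_dvd (by omega) hcpos]
    intro p hp
    rw [← Nat.Prime.pow_dvd_iff_le_factorization hp hcpos]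
    by_cases hz : k.factorization p = 0
    · rw [hz, pow_zero]; exact one_dvd _
    · have hdvd : p ^ k.factorization p ∣ k := Nat.ordProj_dvd k p
      apply count_dvd k c hkpos O hc p (k.factorization p) hp hdvd
      apply hq _ _ hdvd
      exact ⟨p, k.factorization p, hp.prime, Nat.pos_of_ne_zero hz, rfl⟩
  have hck : c = k := le_antisymm hcle (Nat.le_of_dvd (Nat.pos_of_ne_zero hcpos) hkc)
  -- every (k-1)-set is in the orbit
  have hall : ∀ T : Finset α, T.card = k - 1 → O T := by
    intro T hT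
    obtain ⟨d, hd⟩ : ∃ d, d ∉ T := by
      by_contra hcon
      push Not at hcon
      have : Finset.univ ⊆ T := fun x _ => hcon x
      have := Finset.card_le_card this
      rw [Finset.card_univ] at this
      omega
    have hΔ : (insert d T).card = k := by
      rw [Finset.card_insert_of_notMem hd, hT]; omega
    have h1 := hc (insert d T) hΔ
    have h2 : ((insert d T).powersetCard (k - 1)).card = k := by
      rw [Finset.card_powersetCard, hΔ, hchoose k hkpos]
    have h3 : ((insert d T).powersetCard (k - 1)).filter O = (insert d T).powersetCard (k - 1) := by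
      apply Finset.eq_of_subset_of_card_le (Finset.filter_subset _ _)
      rw [h1, h2, hck]
    have h4 : T ∈ ((insert d T).powersetCard (k - 1)).filter O := by
      rw [h3, Finset.mem_powersetCard]
      exact ⟨Finset.subset_insert d T, hT⟩
    exact (Finset.mem_filter.mp h4).2
  refine ⟨fun s t => ?_⟩
  obtain ⟨g, hg⟩ := hall (s : Finset α) s.2
  obtain ⟨h, hh⟩ := hall (t : Finset α) t.2
  refine ⟨h * g⁻¹, ?_⟩
  apply Subtype.ext
  refine (Set.powersetCard.coe_smul (g := h * g⁻¹) (s := s)).trans ?_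
  rw [← hg, mul_smul, inv_smul_smul, hh]

/-- A `k`-homogeneous permutation group of degree `n`, `k ≥ 2`, with `k + q - 1 ≤ n` for every prime power `q` dividing `k`, is `(k-1)`-homogeneous. -/
theorem result {α : Type*} [Fintype α] [DecidableEq α] (G : Subgroup (Equiv.Perm α)) {k : ℕ} (hk : 2 ≤ k) (hG : MulAction.IsPretransitive G (Set.powersetCard α k)) (hq : ∀ q : ℕ, IsPrimePow q → q ∣ k → k + q - 1 ≤ Fintype.card α) : MulAction.IsPretransitive G (Set.powersetCard α (k - 1)) := by
  exact main G hk hG hq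

end Cfsg.Agent.S0736
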