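import Cfsg.Statements.S0743
-- import your own Cfsg.Agent.* helpers here

set_option autoImplicit false
open Cfsg

namespace Cfsg.Agent.S0743

theorem gleason_aux {α : Type*} [Fintype α] [DecidableEq α] (G : Subgroup (Equiv.Perm α)) {p : ℕ}
    (hp : p.Prime) (H : Subgroup G) (T : Set α) (hT : ∀ h ∈ H, ∀ x ∈ T, h • x ∈ T)
    (hP : ∀ b ∈ T, ∃ P : Subgroup G, P ≤ H ∧ IsPGroup p P ∧ (∀ g ∈ P, g • b = b) ∧
      ∀ x ∈ T, (∀ g ∈ P, g • x = x) → x = b) :
    ∀ a ∈ T, ∀ b ∈ T, ∃ h ∈ H, h • a = b := by
  intro a ha b hb
  have : Fact p.Prime := ⟨hp⟩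
  by_contra hcon
  let O : Set α := {x | ∃ h ∈ H, h • a = x}
  have hOT : O ⊆ T := by
    rintro x ⟨h, hh, rfl⟩
    exact hT h hh a ha
  have haO : a ∈ O := ⟨1, H.one_mem, one_smul _ _⟩
  have hbO : b ∉ O := fun hbO => hcon hbO
  have hOinv : ∀ g ∈ H, ∀ x ∈ O, g • x ∈ O := by
    rintro g hg x ⟨h, hh, rfl⟩
    exact ⟨g * h, H.mul_mem hg hh, mul_smul _ _ _⟩
  obtain ⟨Pa, hPaH, hPa, hPafix, hPauniq⟩ := hP a ha
  obtain ⟨Pb, hPbH, hPb, hPbfix, hPbuniq⟩ := hP b hb
  let Sa : SubMulAction Pa α :=
    { carrier := O, smul_mem' := fun g x hx => hOinv g.1 (hPaH g.2) x hx }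
  let Sb : SubMulAction Pb α :=
    { carrier := O, smul_mem' := fun g x hx => hOinv g.1 (hPbH g.2) x hx }
  have hdvd : p ∣ Nat.card Sb := by
    by_contra hnd
    obtain ⟨⟨x, hx⟩, hxfix⟩ := hPb.nonempty_fixed_point_of_prime_not_dvd_card Sb hnd
    have hxO : x ∈ O := hx
    apply hbO
    have : x = b := by
      apply hPbuniq x (hOT hxO)
      intro g hg
      have := hxfix ⟨g, hg⟩
      exact congrArg Subtype.val this
    rwa [this] at hxO
  have hdvd' : p ∣ Nat.card Sa := hdvd
  have hafix : (⟨a, haO⟩ : Sa) ∈ MulAction.fixedPoints Pa Sa := by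
    intro g
    apply Subtype.ext
    exact hPafix g.1 g.2
  obtain ⟨⟨x, hx⟩, hxfix, hne⟩ := hPa.exists_fixed_point_of_prime_dvd_card_of_fixed_point Sa hdvd' hafix
  apply hne
  apply Subtype.ext
  symm
  apply hPauniq x (hOT hx)
  intro g hg
  have := hxfix ⟨g, hg⟩
  exact congrArg Subtype.val this

/-- Gleason's Lemma: let `p` be a prime and `1 ≤ k < n`; if every `k`-subset of the `n` points is exactly the fixed-point set of some `p`-subgroup of `G`, then `G` is `k`-transitive. -/
theorem result {α : Type*} [Fintype α] [DecidableEq α] (G : Subgroup (Equiv.Perm α)) {p k : ℕ} (hp : p.Prime) (hk : 1 ≤ k) (hkn : k < Fintype.card α) (h : ∀ s : Finset α, s.card = k → ∃ P : Subgroup G, IsPGroup p P ∧ MulAction.fixedPoints P α = (s : Set α)) : MulAction.IsMultiplyPretransitive G α k := by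
  classical
  have step1 : ∀ S' : Finset α, S'.card = k - 1 → ∀ a ∉ S', ∀ b ∉ S',
      ∃ g ∈ fixingSubgroup G (S' : Set α), g • a = b := by
    intro S' hS'
    have key := gleason_aux G hp (fixingSubgroup G (S' : Set α)) {x | x ∉ S'} ?_ ?_
    · intro a ha b hb
      exact key a ha b hb
    · intro g hg x hx hx'
      rw [mem_fixingSubgroup_iff] at hg
      have h1 := hg (g • x) hx'
      have h2 : g • x = x := by
        have := congrArg (fun y => g⁻¹ • y) h1
        simpa using this
      rw [h2] at hx'
      exact hx hx'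
    · intro b hb
      have hb' : b ∉ S' := hb
      obtain ⟨P, hPp, hPfix⟩ := h (insert b S')
        (by rw [Finset.card_insert_of_notMem hb', hS']; omega)
      refine ⟨P, ?_, hPp, ?_, ?_⟩
      · intro g hg
        rw [mem_fixingSubgroup_iff]
        intro y hy
        have : y ∈ MulAction.fixedPoints P α := by
          rw [hPfix]
          simp only [Finset.coe_insert, Set.mem_insert_iff, Finset.mem_coe]
          exact Or.inr hy
        exact this ⟨g, hg⟩
      · intro g hg
        have : b ∈ MulAction.fixedPoints P α := by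
          rw [hPfix]
          simp
        exact this ⟨g, hg⟩
      · intro x hx hfix
        have : x ∈ MulAction.fixedPoints P α := fun g => hfix g.1 g.2
        rw [hPfix] at this
        simp only [Finset.coe_insert, Set.mem_insert_iff, Finset.mem_coe] at this
        rcases this with h | h
        · exact h
        · exact absurd h hx
  have step2 : ∀ d : ℕ, d ≤ k - 1 → ∀ S' : Finset α, S'.card = k - 1 - d → ∀ a ∉ S', ∀ b ∉ S',
      ∃ g ∈ fixingSubgroup G (S' : Set α), g • a = b := by
    intro d
    induction d with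
    | zero =>
      intro _ S' hS'
      exact step1 S' (by simpa using hS')
    | succ d ih =>
      intro hd S' hS' a ha b hb
      obtain ⟨c, hc⟩ : ∃ c, c ∉ insert a (insert b S') := by
        by_contra hall
        push Not at hall
        have h0 : Finset.univ ⊆ insert a (insert b S') := fun x _ => hall x
        have h3 := Finset.card_le_card h0
        rw [Finset.card_univ] at h3
        have h1 := Finset.card_insert_le a (insert b S')
        have h2 := Finset.card_insert_le b S'
        omega
      simp only [Finset.mem_insert, not_or] at hc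
      obtain ⟨hca, hcb, hcS⟩ := hc
      obtain ⟨g, hg, hga⟩ := ih (by omega) (insert c S')
        (by rw [Finset.card_insert_of_notMem hcS]; omega) a
        (by simp [ha, Ne.symm hca]) b (by simp [hb, Ne.symm hcb])
      refine ⟨g, ?_, hga⟩
      rw [mem_fixingSubgroup_iff] at hg ⊢
      intro y hy
      exact hg y (by simp [Finset.mem_coe.mp hy])
  have step3 : ∀ S' : Finset α, S'.card ≤ k - 1 → ∀ a ∉ S', ∀ b ∉ S',
      ∃ g ∈ fixingSubgroup G (S' : Set α), g • a = b := by
    intro S' hS'
    exact step2 (k - 1 - S'.card) (by omega) S' (by omega)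
  rw [MulAction.isMultiplyPretransitive_iff]
  intro x y
  have main : ∀ j : ℕ, j ≤ k → ∃ g : G, ∀ i : Fin k, i.1 < j → g • x i = y i := by
    intro j
    induction j with
    | zero => intro _; exact ⟨1, fun i hi => absurd hi (Nat.not_lt_zero _)⟩
    | succ j ih =>
      intro hj
      obtain ⟨g, hg⟩ := ih (by omega)
      let S' : Finset α := (Finset.univ.filter (fun i : Fin k => i.1 < j)).image y
      have hS'card : S'.card ≤ k - 1 := by
        refine le_trans Finset.card_image_le ?_
        rw [Fin.card_filter_val_lt]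
        omega
      have hmem : ∀ z, z ∈ S' ↔ ∃ i : Fin k, i.1 < j ∧ y i = z := by
        intro z
        simp [S']
      have ha : g • x ⟨j, by omega⟩ ∉ S' := by
        rw [hmem]
        rintro ⟨i, hi, hyi⟩
        rw [← hg i hi] at hyi
        have h1 : x i = x ⟨j, by omega⟩ := by
          have := congrArg (fun z => g⁻¹ • z) hyi
          simpa using this
        have h2 := x.injective h1
        rw [Fin.ext_iff] at h2
        simp at h2
        omega
      have hb : y ⟨j, by omega⟩ ∉ S' := by
        rw [hmem]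
        rintro ⟨i, hi, hyi⟩
        have h2 := y.injective hyi
        rw [Fin.ext_iff] at h2
        simp at h2
        omega
      obtain ⟨h', hh', hh'ab⟩ := step3 S' hS'card _ ha _ hb
      refine ⟨h' * g, ?_⟩
      intro i hi
      rw [mul_smul]
      rcases Nat.lt_succ_iff_lt_or_eq.mp hi with hi' | hi'
      · rw [hg i hi']
        rw [mem_fixingSubgroup_iff] at hh'
        apply hh'
        rw [Finset.mem_coe, hmem]
        exact ⟨i, hi', rfl⟩
      · have : i = ⟨j, by omega⟩ := Fin.ext hi'
        rw [this]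
        exact hh'ab
  obtain ⟨g, hg⟩ := main k le_rfl
  refine ⟨g, ?_⟩
  ext i
  exact hg i i.2

end Cfsg.Agent.S0743
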