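import Cfsg.Statements.S0745
import Cfsg.Agent.Helper64.LW2Main
import Cfsg.Agent.Helper83.LW2H1

set_option autoImplicit false
open Cfsg

namespace Cfsg.Agent.S0745

/-- Let `G` have degree `n` and `3 ≤ k ≤ n`; suppose `G` is `(k-2)`-transitive but not `(k-1)`-transitive, and is `(k-1)`-homogeneous and `k`-homogeneous. Then `k = n` and `G` is the alternating group, or `n = 5, k = 4, |G| = 20`, or `n = 6, k = 5, |G| = 120`, or `n = 9, k = 5, |G| ∈ {504, 1512}`. -/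
theorem result {α : Type*} [Fintype α] [DecidableEq α] (G : Subgroup (Equiv.Perm α)) {k : ℕ} (hk : 3 ≤ k) (hkn : k ≤ Fintype.card α) (ht : MulAction.IsMultiplyPretransitive G α (k - 2)) (hnt : ¬ MulAction.IsMultiplyPretransitive G α (k - 1)) (hh1 : MulAction.IsPretransitive G (Set.powersetCard α (k - 1))) (hh : MulAction.IsPretransitive G (Set.powersetCard α k)) : (k = Fintype.card α ∧ G = alternatingGroup α) ∨ (Fintype.card α = 5 ∧ k = 4 ∧ Nat.card G = 20) ∨ (Fintype.card α = 6 ∧ k = 5 ∧ Nat.card G = 120) ∨ (Fintype.card α = 9 ∧ k = 5 ∧ (Nat.card G = 504 ∨ Nat.card G = 1512)) := by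
  obtain ⟨m, rfl⟩ : ∃ m, k = m + 2 := ⟨k - 2, by omega⟩
  have e1 : m + 2 - 2 = m := by omega
  have e2 : m + 2 - 1 = m + 1 := by omega
  rw [e1] at ht
  rw [e2] at hnt hh1
  have hT := Cfsg.Agent.Helper58.LWG1a.ktrans_of_pretransitive G m ht
  have hnT : ¬ Cfsg.Agent.Lead.LW.KTrans G (m + 1) := fun h =>
    hnt (Cfsg.Agent.Helper58.LWG1b.pretransitive_of_ktrans G (m + 1) h)
  have hH1 := Cfsg.Agent.Helper83.LW2H1.homog_of_pretransitive G (m + 1) hh1
  have hH2 := Cfsg.Agent.Helper83.LW2H1.homog_of_pretransitive G (m + 2) hh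
  rcases Cfsg.Agent.Helper64.LW2Main.main745 G m (by omega) hkn hT hnT hH1 hH2 with h | h | h | h
  · exact Or.inl h
  · exact Or.inr (Or.inl ⟨h.1, by omega, h.2.2⟩)
  · exact Or.inr (Or.inr (Or.inl ⟨h.1, by omega, h.2.2⟩))
  · exact Or.inr (Or.inr (Or.inr ⟨h.1, by omega, h.2.2⟩))

end Cfsg.Agent.S0745
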