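import Cfsg.Statements.S0746
import Cfsg.Agent.S0745
import Cfsg.Agent.S0736
import Cfsg.Agent.Helper64.LW2B46
import Cfsg.Agent.Helper83.LW2H1

set_option autoImplicit false
open Cfsg

namespace Cfsg.Agent.S0746

/-- The Livingstone–Wagner Theorem, first form: a `k`-homogeneous group of degree `n` with `4 ≤ 2k ≤ n` is `(k-1)`-transitive. -/
theorem result {α : Type*} [Fintype α] [DecidableEq α] (G : Subgroup (Equiv.Perm α)) {k : ℕ} (hk : 2 ≤ k) (hkn : 2 * k ≤ Fintype.card α) (hh : MulAction.IsPretransitive G (Set.powersetCard α k)) : MulAction.IsMultiplyPretransitive G α (k - 1) := by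
  induction k, hk using Nat.le_induction with
  | base =>
    exact Cfsg.Agent.Helper58.LWG1b.pretransitive_of_ktrans G 1
      (Cfsg.Agent.Helper64.LW2B46.ktrans_one_of_homog_two G (by omega)
        (Cfsg.Agent.Helper83.LW2H1.homog_of_pretransitive G 2 hh))
  | succ k hk ih =>
    have hh1 : MulAction.IsPretransitive G (Set.powersetCard α (k + 1 - 1)) := by
      apply Cfsg.Agent.S0736.result G (by omega) hh
      intro q _ hq
      have := Nat.le_of_dvd (by omega) hq
      omega
    have hh1' : MulAction.IsPretransitive G (Set.powersetCard α k) := by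
      have e : k + 1 - 1 = k := by omega
      rw [e] at hh1
      exact hh1
    have ht := ih (by omega) hh1'
    by_contra hnt
    have ht' : MulAction.IsMultiplyPretransitive G α (k + 1 - 2) := by
      have e : k + 1 - 2 = k - 1 := by omega
      rw [e]
      exact ht
    rcases Cfsg.Agent.S0745.result G (k := k + 1) (by omega) (by omega) ht' hnt hh1 hh with
      h | h | h | h
    · omega
    · omega
    · omega
    · omega

end Cfsg.Agent.S0746
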