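import Cfsg.Statements.S0749
import Cfsg.Agent.Helper13.Witt

set_option autoImplicit false
open Cfsg

namespace Cfsg.Agent.S0749

/-- Witt's Lemma for alternating forms. If B is a non-degenerate alternating bilinear form on a finite-dimensional vector space V (over any field) and φ is a linear equivalence between subspaces X and Y of V preserving B, then φ extends to a B-preserving linear automorphism of V. -/
theorem result {F V : Type*} [Field F] [AddCommGroup V] [Module F V] [FiniteDimensional F V] (B : LinearMap.BilinForm F V) (hB : B.Nondegenerate) (hA : B.IsAlt) (X Y : Submodule F V) (φ : X ≃ₗ[F] Y) (hφ : ∀ x x' : X, B (φ x : V) (φ x' : V) = B (x : V) (x' : V)) : ∃ g : V ≃ₗ[F] V, (∀ u v : V, B (g u) (g v) = B u v) ∧ ∀ x : X, g (x : V) = (φ x : V) := by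
  obtain ⟨f, hf⟩ := LinearMap.exists_extend (Y.subtype.comp φ.toLinearMap)
  have hfx : ∀ x : X, f (x : V) = (φ x : V) := fun x => by
    have := congrArg (fun h => h x) hf
    simpa using this
  obtain ⟨g, hgG, hg⟩ := Cfsg.Agent.Helper13.witt_alt B hB hA X f
    (fun x hx x' hx' => by
      have := hφ ⟨x, hx⟩ ⟨x', hx'⟩
      rw [← hfx ⟨x, hx⟩, ← hfx ⟨x', hx'⟩] at this
      exact this)
    (fun x hx h0 => by
      have h1 := hfx ⟨x, hx⟩
      have h2 : φ ⟨x, hx⟩ = 0 := Subtype.ext (by rw [← h1]; exact h0)
      have h3 := φ.map_eq_zero_iff.mp h2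
      exact congrArg Subtype.val h3)
  exact ⟨g, Cfsg.Agent.Helper13.TG_isometry B hA g hgG, fun x => by rw [hg x x.2, hfx]⟩

end Cfsg.Agent.S0749
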