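import Cfsg.Statements.S0750
import Cfsg.Agent.Helper13.WittQuad

set_option autoImplicit false
open Cfsg

namespace Cfsg.Agent.S0750

/-- Witt's Lemma for quadratic forms over a finite field, in any characteristic: if Q is a quadratic form on a finite-dimensional space V whose polar bilinear form is non-degenerate, then every linear equivalence between subspaces X, Y of V that preserves Q extends to a Q-preserving linear automorphism of V. (In odd characteristic this is the symmetric-bilinear case; in characteristic two it is the statement for non-degenerate quadratic forms.) -/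
theorem result {F V : Type*} [Field F] [Finite F] [AddCommGroup V] [Module F V] [FiniteDimensional F V] (Q : QuadraticForm F V) (hQ : (QuadraticMap.polarBilin Q).Nondegenerate) (X Y : Submodule F V) (φ : X ≃ₗ[F] Y) (hφ : ∀ x : X, Q (φ x : V) = Q (x : V)) : ∃ g : V ≃ₗ[F] V, (∀ v : V, Q (g v) = Q v) ∧ ∀ x : X, g (x : V) = (φ x : V) := by
  obtain ⟨f, hf⟩ := LinearMap.exists_extend (Y.subtype.comp φ.toLinearMap)
  have hfx : ∀ x : X, f (x : V) = (φ x : V) := fun x => by
    have := congrArg (fun h => h x) hf
    simpa using this
  obtain ⟨g, hgG, hg⟩ := Cfsg.Agent.Helper13.witt_quad Q hQ X f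
    (fun x hx => by
      have := hφ ⟨x, hx⟩
      rw [← hfx ⟨x, hx⟩] at this
      exact this)
    (fun x hx h0 => by
      have h1 := hfx ⟨x, hx⟩
      have h2 : φ ⟨x, hx⟩ = 0 := Subtype.ext (by rw [← h1]; exact h0)
      have h3 := φ.map_eq_zero_iff.mp h2
      exact congrArg Subtype.val h3)
  exact ⟨g, hgG, fun x => by rw [hg x x.2, hfx]⟩

end Cfsg.Agent.S0750
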