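import Cfsg.Statements.S0754

set_option autoImplicit false
open Cfsg

namespace Cfsg.Agent.S0754

/-- In a field F with q^2 elements, every non-zero μ with μ^q = μ (that is, μ in the subfield of order q) has exactly q + 1 solutions λ of λ^(q+1) = μ. -/
theorem result {F : Type*} [Field F] [Fintype F] {q : ℕ} (hF : Fintype.card F = q ^ 2) (μ : F) (hμ : μ ≠ 0) (hμq : μ ^ q = μ) : Nat.card {x : F // x ^ (q + 1) = μ} = q + 1 := by
  classical
  have hq2 : 2 ≤ q := by
    have h1 : 1 < Fintype.card F := Fintype.one_lt_card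
    rw [hF] at h1
    by_contra h
    interval_cases q <;> simp at h1
  set A : Finset F := Finset.univ.filter (fun x => x ≠ 0) with hA
  set S : Finset F := Finset.univ.filter (fun y => y ≠ 0 ∧ y ^ q = y) with hS
  have hAcard : A.card = q ^ 2 - 1 := by
    rw [hA, Finset.filter_ne', Finset.card_erase_of_mem (Finset.mem_univ _), Finset.card_univ, hF]
  have hmaps : ∀ x ∈ A, x ^ (q + 1) ∈ S := by
    intro x hx
    rw [hA, Finset.mem_filter] at hx
    rw [hS, Finset.mem_filter]
    refine ⟨Finset.mem_univ _, pow_ne_zero _ hx.2, ?_⟩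
    have := FiniteField.pow_card x
    rw [hF] at this
    calc (x ^ (q + 1)) ^ q = x ^ (q ^ 2) * x ^ q := by ring
      _ = x ^ (q + 1) := by rw [this]; ring
  have hfib : ∀ y : F, (A.filter (fun x => x ^ (q + 1) = y)).card ≤ q + 1 := by
    intro y
    calc (A.filter (fun x => x ^ (q + 1) = y)).card
          ≤ (Polynomial.nthRoots (q + 1) y).toFinset.card := by
          apply Finset.card_le_card
          intro x hx
          rw [Finset.mem_filter] at hx
          rw [Multiset.mem_toFinset, Polynomial.mem_nthRoots (by omega)]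
          exact hx.2
      _ ≤ Multiset.card (Polynomial.nthRoots (q + 1) y) := Multiset.toFinset_card_le _
      _ ≤ q + 1 := Polynomial.card_nthRoots _ _
  have hScard : S.card ≤ q - 1 := by
    calc S.card ≤ (Polynomial.nthRoots (q - 1) (1 : F)).toFinset.card := by
          apply Finset.card_le_card
          intro y hy
          rw [hS, Finset.mem_filter] at hy
          rw [Multiset.mem_toFinset, Polynomial.mem_nthRoots (by omega)]
          have h := hy.2.2
          have : y ^ (q - 1) * y = 1 * y := by
            rw [← pow_succ, Nat.sub_add_cancel (by omega), one_mul]; exact h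
          exact mul_right_cancel₀ hy.2.1 this
      _ ≤ Multiset.card (Polynomial.nthRoots (q - 1) (1 : F)) := Multiset.toFinset_card_le _
      _ ≤ q - 1 := Polynomial.card_nthRoots _ _
  have hμS : μ ∈ S := by
    rw [hS, Finset.mem_filter]; exact ⟨Finset.mem_univ _, hμ, hμq⟩
  have hsum := Finset.card_eq_sum_card_fiberwise hmaps
  rw [← Finset.add_sum_erase S _ hμS] at hsum
  have hrest : ∑ y ∈ S.erase μ, (A.filter (fun x => x ^ (q + 1) = y)).card ≤ (S.card - 1) * (q + 1) := by
    calc _ ≤ ∑ y ∈ S.erase μ, (q + 1) := Finset.sum_le_sum (fun y _ => hfib y)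
      _ = (S.card - 1) * (q + 1) := by
        rw [Finset.sum_const, Finset.card_erase_of_mem hμS, smul_eq_mul]
  have hfμ := hfib μ
  have hcount : (A.filter (fun x => x ^ (q + 1) = μ)).card = q + 1 := by
    have hSpos : 1 ≤ S.card := Finset.card_pos.mpr ⟨μ, hμS⟩
    have h1 : (S.card - 1) * (q + 1) ≤ (q - 2) * (q + 1) := Nat.mul_le_mul_right _ (by omega)
    have hq : q ^ 2 - 1 = (q - 2) * (q + 1) + (q + 1) := by
      obtain ⟨k, rfl⟩ : ∃ k, q = k + 2 := ⟨q - 2, by omega⟩
      have : (k + 2) ^ 2 = (k + 2 - 2) * (k + 2 + 1) + (k + 2 + 1) + 1 := by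
        simp only [Nat.add_sub_cancel]; ring
      omega
    omega
  have heq : (Finset.univ.filter (fun x : F => x ^ (q + 1) = μ)) = A.filter (fun x => x ^ (q + 1) = μ) := by
    ext x
    simp only [Finset.mem_filter, Finset.mem_univ, true_and, hA]
    constructor
    · intro h
      refine ⟨fun h0 => hμ ?_, h⟩
      rw [← h, h0]; simp
    · exact fun h => h.2
  rw [Nat.card_eq_fintype_card, Fintype.card_subtype, heq, hcount]

end Cfsg.Agent.S0754
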