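import Cfsg.Statements.S0757

set_option autoImplicit false
open Cfsg

namespace Cfsg.Agent.S0757

theorem toMatrix'_wss {F : Type*} [Field F] [Invertible (2:F)] {ι : Type*} [Fintype ι] [DecidableEq ι] (w : ι → F) :
    QuadraticForm.toMatrix' (QuadraticMap.weightedSumSquares F w) = Matrix.diagonal w := by
  ext i j
  rw [QuadraticForm.toMatrix', LinearMap.toMatrix₂'_apply, QuadraticMap.associated_apply]
  simp only [QuadraticMap.weightedSumSquares_apply, Pi.add_apply, smul_eq_mul, Matrix.diagonal_apply]
  rw [invOf_smul_eq_iff, two_smul, ← Finset.sum_sub_distrib, ← Finset.sum_sub_distrib]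
  have : ∀ x, w x * (((Pi.single i (1:F) : ι → F) x + (Pi.single j (1:F) : ι → F) x) * ((Pi.single i (1:F) : ι → F) x + (Pi.single j (1:F) : ι → F) x)) -
      w x * ((Pi.single i (1:F) : ι → F) x * (Pi.single i (1:F) : ι → F) x) - w x * ((Pi.single j (1:F) : ι → F) x * (Pi.single j (1:F) : ι → F) x)
      = (if x = i then (if i = j then w i + w i else 0) else 0) := by
    intro x
    by_cases hxi : x = i
    · subst hxi
      by_cases hxj : x = j
      · subst hxj; simp; ring
      · simp [hxj]
    · by_cases hxj : x = j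
      · subst hxj; simp [hxi]
      · simp [hxi, hxj]
  simp only [this, Finset.sum_ite_eq', Finset.mem_univ, if_true]
  split_ifs <;> simp

theorem result {F : Type*} [Field F] (h2 : (2 : F) ≠ 0) (n : ℕ) (α : F) (hα : ¬ IsSquare α) : ¬ (QuadraticMap.weightedSumSquares F (fun _ : Fin (n + 1) => (1 : F))).Equivalent (QuadraticMap.weightedSumSquares F (fun i : Fin (n + 1) => if i = Fin.last n then α else (1 : F))) := by
  rintro ⟨e⟩
  have : Invertible (2 : F) := invertibleOfNonzero h2
  set Q₁ := QuadraticMap.weightedSumSquares F (fun _ : Fin (n + 1) => (1 : F)) with hQ₁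
  set Q₂ := QuadraticMap.weightedSumSquares F (fun i : Fin (n + 1) => if i = Fin.last n then α else (1 : F)) with hQ₂
  have hcomp : Q₁ = Q₂.comp (e.toLinearEquiv : (Fin (n+1) → F) →ₗ[F] (Fin (n+1) → F)) := by
    ext x
    simp [QuadraticMap.comp_apply]
  have hd := congrArg QuadraticForm.discr' hcomp
  rw [QuadraticForm.discr'_comp] at hd
  have hd1 : QuadraticForm.discr' Q₁ = 1 := by
    rw [QuadraticForm.discr', hQ₁, toMatrix'_wss, Matrix.det_diagonal]
    simp
  have hd2 : QuadraticForm.discr' Q₂ = α := by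
    rw [QuadraticForm.discr', hQ₂, toMatrix'_wss, Matrix.det_diagonal]
    rw [Finset.prod_ite_eq' ]
    simp
  rw [hd1, hd2] at hd
  set d := (LinearMap.toMatrix' (e.toLinearEquiv : (Fin (n+1) → F) →ₗ[F] (Fin (n+1) → F))).det with hdd
  have hd0 : d ≠ 0 := by
    intro h0
    rw [h0] at hd
    simp at hd
  apply hα
  refine ⟨d⁻¹, ?_⟩
  field_simp
  linear_combination -hd

end Cfsg.Agent.S0757
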