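import Cfsg.Statements.S0758

set_option autoImplicit false
open Cfsg

namespace Cfsg.Agent.S0758

theorem iso_iff {F : Type*} [Field F] (β : F) :
    (∃ x y : F, (x ≠ 0 ∨ y ≠ 0) ∧ x ^ 2 + β * y ^ 2 = 0) ↔ IsSquare (-β) := by
  constructor
  · rintro ⟨x, y, hxy, h⟩
    have hy : y ≠ 0 := by
      rintro rfl
      simp at h
      simp [h] at hxy
    refine ⟨x / y, ?_⟩
    field_simp
    linear_combination -h
  · rintro ⟨s, hs⟩
    refine ⟨s, 1, Or.inr one_ne_zero, ?_⟩
    linear_combination -hs

/-- For a finite field F of odd order q and a non-square α: the form x² + y² is isotropic iff q ≡ 1 mod 4, and the form x² + α y² is isotropic iff q ≡ 3 mod 4. -/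
theorem result {F : Type*} [Field F] [Fintype F] (h2 : (2 : F) ≠ 0) (α : F) (hα : ¬ IsSquare α) : ((∃ x y : F, (x ≠ 0 ∨ y ≠ 0) ∧ x ^ 2 + y ^ 2 = 0) ↔ Fintype.card F % 4 = 1) ∧ ((∃ x y : F, (x ≠ 0 ∨ y ≠ 0) ∧ x ^ 2 + α * y ^ 2 = 0) ↔ Fintype.card F % 4 = 3) := by
  classical
  have hchar : ringChar F ≠ 2 := by
    intro h
    haveI : CharP F 2 := h ▸ ringChar.charP F
    exact h2 (by exact_mod_cast CharP.cast_eq_zero F 2)
  have hodd : Fintype.card F % 2 = 1 := FiniteField.odd_card_of_char_ne_two hchar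
  have hm1 := FiniteField.isSquare_neg_one_iff (F := F)
  have hα0 : α ≠ 0 := by
    rintro rfl
    exact hα ⟨0, by simp⟩
  constructor
  · have h := iso_iff (1 : F)
    simp only [one_mul] at h
    rw [h, hm1]
    omega
  · rw [iso_iff α]
    have hχα : quadraticChar F α = -1 := quadraticChar_neg_one_iff_not_isSquare.mpr hα
    have hmul : quadraticChar F (-α) = quadraticChar F (-1) * quadraticChar F α := by
      rw [← map_mul]; simp
    rw [← quadraticChar_one_iff_isSquare (neg_ne_zero.mpr hα0), hmul, hχα]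
    have h1 : quadraticChar F (-1) = -1 ↔ ¬ IsSquare (-1 : F) := quadraticChar_neg_one_iff_not_isSquare
    rw [hm1] at h1
    constructor
    · intro h
      have : quadraticChar F (-1) = -1 := by linarith
      have := h1.mp this
      omega
    · intro h
      have : quadraticChar F (-1) = -1 := h1.mpr (by omega)
      rw [this]; norm_num

end Cfsg.Agent.S0758
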