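import Cfsg.Statements.S0759
import Cfsg.Agent.Helper13.FinQuad

set_option autoImplicit false
open Cfsg

namespace Cfsg.Agent.S0759

open Module Matrix in
theorem neg_one_pow_isSquare_of_tot_sing {F : Type*} [Field F] (h2 : (2 : F) ≠ 0) {m : ℕ}
    (A : Matrix (Fin m) (Fin (2 * m)) F) (hA : A * Aᵀ = 0)
    (hli : LinearIndependent F (fun i => A i)) : IsSquare ((-1 : F) ^ m) := by
  classical
  have hsurj : Function.Surjective A.mulVec := by
    have hr : A.rank = m := by
      rw [Matrix.rank_eq_finrank_span_row]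
      have := finrank_span_eq_card hli
      rw [Fintype.card_fin] at this
      exact this
    have hrange : LinearMap.range A.mulVecLin = ⊤ := by
      apply Submodule.eq_top_of_finrank_eq
      have : finrank F (LinearMap.range A.mulVecLin) = A.rank := rfl
      rw [this, hr]; simp
    exact LinearMap.range_eq_top.mp hrange
  obtain ⟨Bm, hB⟩ := Matrix.mulVec_surjective_iff_exists_right_inverse.mp hsurj
  let D : Matrix (Fin m) (Fin (2 * m)) F := Bmᵀ
  have hAD : A * Dᵀ = 1 := by simpa [D] using hB
  have hDA : D * Aᵀ = 1 := by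
    have := congrArg Matrix.transpose hAD
    simpa [Matrix.transpose_mul] using this
  let Cm : Matrix (Fin m) (Fin m) F := D * Dᵀ
  have hC : Cmᵀ = Cm := by simp [Cm, Matrix.transpose_mul]
  let c : F := 2⁻¹
  have hc : c + c = 1 := by
    simp only [c]; field_simp; norm_num
  let X : Matrix (Fin m) (Fin (2 * m)) F := D + c • ((1 - Cm) * A)
  have hXt : Xᵀ = Dᵀ + c • (Aᵀ * (1 - Cm)) := by
    simp [X, Matrix.transpose_mul, hC]
  have e1 : D * (Aᵀ * (1 - Cm)) = 1 - Cm := by rw [← Matrix.mul_assoc, hDA, Matrix.one_mul]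
  have e2 : (1 - Cm) * A * Dᵀ = 1 - Cm := by rw [Matrix.mul_assoc, hAD, Matrix.mul_one]
  have e3 : (1 - Cm) * A * (Aᵀ * (1 - Cm)) = 0 := by
    rw [Matrix.mul_assoc, ← Matrix.mul_assoc A, hA]; simp
  have hXX : X * Xᵀ = 1 := by
    rw [hXt]
    simp only [X, Matrix.add_mul, Matrix.mul_add, Matrix.smul_mul, Matrix.mul_smul, e1, e2, e3]
    have hDD : D * Dᵀ = Cm := rfl
    rw [hDD, smul_zero, add_zero, add_assoc, ← add_smul, hc, one_smul]
    abel
  have hXA : X * Aᵀ = 1 := by
    simp only [X, Matrix.add_mul, Matrix.smul_mul, Matrix.mul_assoc, hA, hDA]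
    simp
  have hAX : A * Xᵀ = 1 := by
    have := congrArg Matrix.transpose hXA
    simpa [Matrix.transpose_mul] using this
  let e : Fin m ⊕ Fin m ≃ Fin (2 * m) := finSumFinEquiv.trans (finCongr (by omega))
  let P : Matrix (Fin m ⊕ Fin m) (Fin m ⊕ Fin m) F := (Matrix.fromRows X A).submatrix id e
  have hP : P * Pᵀ = Matrix.fromBlocks 1 1 1 0 := by
    simp only [P]
    rw [Matrix.transpose_submatrix, Matrix.submatrix_mul_equiv, Matrix.transpose_fromRows,
      Matrix.fromRows_mul_fromCols, hXX, hXA, hAX, hA]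
    simp
  have hdet : P.det * P.det = (-1) ^ m := by
    have := congrArg Matrix.det hP
    rw [Matrix.det_mul, Matrix.det_transpose, Matrix.det_fromBlocks_one₁₁] at this
    rw [this]
    simp [Matrix.det_neg]
  exact ⟨P.det, hdet.symm⟩

theorem exists_tot_sing_of_map {F : Type*} [Field F] {m n : ℕ} {M : Type*} [AddCommGroup M]
    [Module F M] [FiniteDimensional F M] (hM : Module.finrank F M = m)
    (φ : M →ₗ[F] (Fin n → F)) (hinj : Function.Injective φ)
    (hQ : ∀ c, ∑ i, φ c i ^ 2 = 0) :
    ∃ W : Submodule F (Fin n → F), Module.finrank F W = m ∧ ∀ w ∈ W, ∑ i, w i ^ 2 = 0 :=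
  ⟨LinearMap.range φ, by rw [LinearMap.finrank_range_of_inj hinj, hM],
    by rintro _ ⟨c, rfl⟩; exact hQ c⟩

theorem caseA {F : Type*} [Field F] (m : ℕ) (i : F) (hi : i * i = -1) :
    ∃ W : Submodule F (Fin (2 * m) → F), Module.finrank F W = m ∧ ∀ w ∈ W, ∑ i, w i ^ 2 = 0 := by
  let e : Fin 2 × Fin m ≃ Fin (2 * m) := finProdFinEquiv
  let coef : Fin 2 → F := ![1, i]
  let φ : (Fin m → F) →ₗ[F] (Fin (2 * m) → F) :=
    { toFun := fun c k => coef (e.symm k).1 * c (e.symm k).2
      map_add' := fun c d => by ext k; simp [mul_add]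
      map_smul' := fun a c => by ext k; simp; ring }
  have hφ : ∀ c k, φ c k = coef (e.symm k).1 * c (e.symm k).2 := fun c k => rfl
  apply exists_tot_sing_of_map (by simp) φ
  · intro c d h
    ext j
    have := congrFun h (e (0, j))
    simpa [hφ, coef] using this
  · intro c
    simp only [hφ]
    rw [← Equiv.sum_comp e]
    simp only [Equiv.symm_apply_apply]
    rw [Fintype.sum_prod_type, Fin.sum_univ_two, ← Finset.sum_add_distrib]
    apply Finset.sum_eq_zero
    intro j _
    simp only [coef, Matrix.cons_val_zero, Matrix.cons_val_one]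
    linear_combination (c j) ^ 2 * hi

theorem caseB {F : Type*} [Field F] (l : ℕ) (a b : F) (hab : a ^ 2 + b ^ 2 = -1) :
    ∃ W : Submodule F (Fin (2 * (l + l)) → F), Module.finrank F W = l + l ∧
      ∀ w ∈ W, ∑ i, w i ^ 2 = 0 := by
  let e : Fin 4 × Fin l ≃ Fin (2 * (l + l)) := finProdFinEquiv.trans (finCongr (by omega))
  let M4 : Fin 4 → Fin 2 → F := ![![1, 0], ![0, 1], ![a, b], ![-b, a]]
  let φ : (Fin 2 × Fin l → F) →ₗ[F] (Fin (2 * (l + l)) → F) :=
    { toFun := fun c k => M4 (e.symm k).1 0 * c (0, (e.symm k).2) + M4 (e.symm k).1 1 * c (1, (e.symm k).2)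
      map_add' := fun c d => by ext k; simp; ring
      map_smul' := fun r c => by ext k; simp; ring }
  have hφ : ∀ c k, φ c k = M4 (e.symm k).1 0 * c (0, (e.symm k).2) + M4 (e.symm k).1 1 * c (1, (e.symm k).2) :=
    fun c k => rfl
  apply exists_tot_sing_of_map (by simp; ring) φ
  · intro c d h
    ext ⟨t, j⟩
    have h0 := congrFun h (e (0, j))
    have h1 := congrFun h (e (1, j))
    simp only [hφ, Equiv.symm_apply_apply, M4] at h0 h1
    fin_cases t
    · simpa using h0
    · simpa using h1
  · intro c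
    simp only [hφ]
    rw [← Equiv.sum_comp e]
    simp only [Equiv.symm_apply_apply]
    rw [Fintype.sum_prod_type, Fin.sum_univ_four, ← Finset.sum_add_distrib,
      ← Finset.sum_add_distrib, ← Finset.sum_add_distrib]
    apply Finset.sum_eq_zero
    intro j _
    simp only [M4]
    simp
    linear_combination ((c (0, j)) ^ 2 + (c (1, j)) ^ 2) * hab


/-- Type of the orthonormal form: over a finite field of odd order q and for m ≥ 1, the quadratic form Σ_(i<2m) x_i² on F^(2m) admits an m-dimensional subspace on which it vanishes identically if and only if it is not the case that q ≡ 3 (mod 4) and m is odd. -/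
theorem result {F : Type*} [Field F] [Fintype F] (h2 : (2 : F) ≠ 0) (m : ℕ) (hm : 1 ≤ m) : (∃ W : Submodule F (Fin (2 * m) → F), Module.finrank F W = m ∧ ∀ w ∈ W, ∑ i, w i ^ 2 = 0) ↔ ¬ (Fintype.card F % 4 = 3 ∧ Odd m) := by
  classical
  constructor
  · rintro ⟨W, hW, hQ⟩ ⟨h3, hodd⟩
    have hfd : FiniteDimensional F W := inferInstance
    let b : Module.Basis (Fin m) F W := Module.finBasisOfFinrankEq F W hW
    let A : Matrix (Fin m) (Fin (2 * m)) F := Matrix.of (fun i => (b i : Fin (2 * m) → F))
    have hAA : A * A.transpose = 0 := by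
      ext i j
      simp only [Matrix.mul_apply, Matrix.transpose_apply, Matrix.zero_apply, A, Matrix.of_apply]
      have h1 := hQ _ (b i).2
      have h2' := hQ _ (b j).2
      have h3' := hQ _ (W.add_mem (b i).2 (b j).2)
      have h4 : ∑ k, ((b i : Fin (2 * m) → F) + (b j : Fin (2 * m) → F)) k ^ 2 =
          ∑ k, (b i : Fin (2 * m) → F) k ^ 2 + ∑ k, (b j : Fin (2 * m) → F) k ^ 2 +
          2 * ∑ k, (b i : Fin (2 * m) → F) k * (b j : Fin (2 * m) → F) k := by
        rw [Finset.mul_sum, ← Finset.sum_add_distrib, ← Finset.sum_add_distrib]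
        apply Finset.sum_congr rfl
        intro k _
        simp only [Pi.add_apply]; ring
      rw [h4, h1, h2', zero_add, zero_add] at h3'
      exact (mul_eq_zero.mp h3').resolve_left h2
    have hli : LinearIndependent F (fun i => A i) := by
      have := b.linearIndependent.map' W.subtype (Submodule.ker_subtype _)
      exact this
    have hsq := neg_one_pow_isSquare_of_tot_sing h2 A hAA hli
    rw [hodd.neg_one_pow, FiniteField.isSquare_neg_one_iff] at hsq
    exact hsq h3
  · intro h
    by_cases h3 : Fintype.card F % 4 = 3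
    · have hev : Even m := by
        rw [← Nat.not_odd_iff_even]
        exact fun ho => h ⟨h3, ho⟩
      obtain ⟨l, rfl⟩ := hev
      obtain ⟨x, y, hxy⟩ := Cfsg.Agent.Helper13.exists_sq_add_sq_eq_one h2
        (a := (-1 : F)) (b := -1) (by simp) (by simp)
      exact caseB l x y (by linear_combination -hxy)
    · obtain ⟨i, hi⟩ := FiniteField.isSquare_neg_one_iff.mpr h3
      exact caseA m i hi.symm

end Cfsg.Agent.S0759
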