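import Cfsg.Statements.S0760

set_option autoImplicit false
open Cfsg

namespace Cfsg.Agent.S0760

theorem orthogonal_sup' {F V : Type*} [Field F] [AddCommGroup V] [Module F V]
    (B : LinearMap.BilinForm F V) (A C : Submodule F V) :
    B.orthogonal (A ⊔ C) = B.orthogonal A ⊓ B.orthogonal C := by
  ext m
  simp only [LinearMap.BilinForm.mem_orthogonal_iff, Submodule.mem_inf]
  constructor
  · intro h
    exact ⟨fun n hn => h n (Submodule.mem_sup_left hn), fun n hn => h n (Submodule.mem_sup_right hn)⟩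
  · rintro ⟨h1, h2⟩ n hn
    obtain ⟨a, ha, c, hc, rfl⟩ := Submodule.mem_sup.mp hn
    rw [map_add, LinearMap.add_apply, h1 a ha, h2 c hc, add_zero]

/-- key step: maximality forces `W₁ ⊓ W₂^⊥ ≤ W₂`. -/
theorem inf_orth_le {F V : Type*} [Field F] [AddCommGroup V] [Module F V]
    (Q : QuadraticForm F V) (B : LinearMap.BilinForm F V) (hBQ : ∀ x y, B x y = QuadraticMap.polar Q x y)
    (W₁ W₂ : Submodule F V) (h₁ : ∀ w ∈ W₁, Q w = 0) (h₂ : ∀ w ∈ W₂, Q w = 0)
    (hmax₂ : ∀ W : Submodule F V, W₂ ≤ W → (∀ w ∈ W, Q w = 0) → W = W₂) :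
    W₁ ⊓ B.orthogonal W₂ ≤ W₂ := by
  have key : W₂ ⊔ (W₁ ⊓ B.orthogonal W₂) = W₂ := by
    apply hmax₂ _ le_sup_left
    intro w hw
    obtain ⟨b, hb, a, ha, rfl⟩ := Submodule.mem_sup.mp hw
    obtain ⟨ha1, ha2⟩ := Submodule.mem_inf.mp ha
    rw [LinearMap.BilinForm.mem_orthogonal_iff] at ha2
    have hp : QuadraticMap.polar Q b a = 0 := by rw [← hBQ]; exact ha2 b hb
    have : Q (b + a) = Q b + Q a + QuadraticMap.polar Q b a := by
      simp [QuadraticMap.polar]
    rw [this, h₂ b hb, h₁ a ha1, hp]; simp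
  calc W₁ ⊓ B.orthogonal W₂
      ≤ W₂ ⊔ (W₁ ⊓ B.orthogonal W₂) := le_sup_right
    _ = W₂ := key

theorem le_orth {F V : Type*} [Field F] [AddCommGroup V] [Module F V]
    (Q : QuadraticForm F V) (B : LinearMap.BilinForm F V) (hBQ : ∀ x y, B x y = QuadraticMap.polar Q x y)
    (W : Submodule F V) (h : ∀ w ∈ W, Q w = 0) :
    W ≤ B.orthogonal W := by
  intro m hm
  rw [LinearMap.BilinForm.mem_orthogonal_iff]
  intro n hn
  rw [hBQ]
  simp [QuadraticMap.polar, h n hn, h m hm, h (n + m) (W.add_mem hn hm)]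

/-- Witt index is well defined: if Q is a quadratic form on a finite-dimensional space V over a finite field with non-degenerate polar form, and W₁, W₂ are subspaces on which Q vanishes that are maximal with this property, then W₁ and W₂ have the same dimension, and twice this dimension is at most dim V. -/
theorem result {F V : Type*} [Field F] [Finite F] [AddCommGroup V] [Module F V] [FiniteDimensional F V] (Q : QuadraticForm F V) (hQ : (QuadraticMap.polarBilin Q).Nondegenerate) (W₁ W₂ : Submodule F V) (h₁ : ∀ w ∈ W₁, Q w = 0) (h₂ : ∀ w ∈ W₂, Q w = 0) (hmax₁ : ∀ W : Submodule F V, W₁ ≤ W → (∀ w ∈ W, Q w = 0) → W = W₁) (hmax₂ : ∀ W : Submodule F V, W₂ ≤ W → (∀ w ∈ W, Q w = 0) → W = W₂) : Module.finrank F W₁ = Module.finrank F W₂ ∧ 2 * Module.finrank F W₁ ≤ Module.finrank F V := by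
  let B : LinearMap.BilinForm F V := QuadraticMap.polarBilin Q
  have hBQ : ∀ x y, B x y = QuadraticMap.polar Q x y := fun x y => rfl
  have hB : B.Nondegenerate := hQ
  have hrefl : B.IsRefl := by
    intro x y h
    have : B y x = B x y := QuadraticMap.polar_comm Q y x
    rw [this]; exact h
  have hle1 := le_orth Q B hBQ W₁ h₁
  have hle2 := le_orth Q B hBQ W₂ h₂
  have e1 : W₁ ⊓ B.orthogonal W₂ = W₁ ⊓ W₂ :=
    le_antisymm (le_inf inf_le_left (inf_orth_le Q B hBQ W₁ W₂ h₁ h₂ hmax₂)) (inf_le_inf_left _ hle2)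
  have e2 : B.orthogonal W₁ ⊓ W₂ = W₁ ⊓ W₂ := by
    rw [inf_comm]
    exact le_antisymm (le_inf (inf_orth_le Q B hBQ W₂ W₁ h₂ h₁ hmax₁) inf_le_left)
      (by rw [inf_comm]; exact inf_le_inf_left _ hle1)
  have f1 := LinearMap.BilinForm.finrank_orthogonal hB W₁
  have f2 := LinearMap.BilinForm.finrank_orthogonal hB W₂
  have f3 := LinearMap.BilinForm.finrank_orthogonal hB (W₁ ⊔ B.orthogonal W₂)
  rw [orthogonal_sup', LinearMap.BilinForm.orthogonal_orthogonal hB hrefl, e2] at f3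
  have f4 := Submodule.finrank_sup_add_finrank_inf_eq W₁ (B.orthogonal W₂)
  rw [e1] at f4
  have l1 := Submodule.finrank_le W₁
  have l2 := Submodule.finrank_le W₂
  have l3 := Submodule.finrank_le (W₁ ⊔ B.orthogonal W₂)
  have l4 := Submodule.finrank_mono hle1
  constructor
  · omega
  · omega

end Cfsg.Agent.S0760
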