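import Cfsg.Statements.S0761

set_option autoImplicit false
open Cfsg

namespace Cfsg.Agent.S0761

/-- Hyperbolic partners: let B be a non-degenerate bilinear form on a finite-dimensional space, either alternating, or symmetric with 2 ≠ 0. If Z is a subspace on which B vanishes, x ∉ Z is isotropic and orthogonal to Z, then there is an isotropic y with B x y = 1 which is orthogonal to Z. -/
theorem result {F V : Type*} [Field F] [AddCommGroup V] [Module F V] [FiniteDimensional F V] (B : LinearMap.BilinForm F V) (hB : B.Nondegenerate) (hform : B.IsAlt ∨ (B.IsSymm ∧ (2 : F) ≠ 0)) (x : V) (Z : Submodule F V) (hxZ : x ∉ Z) (hx : B x x = 0) (hxz : ∀ z ∈ Z, B x z = 0) (hZ : ∀ z ∈ Z, ∀ z' ∈ Z, B z z' = 0) : ∃ y : V, B y y = 0 ∧ B x y = 1 ∧ ∀ z ∈ Z, B z y = 0 := by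
  have hrefl : B.IsRefl := by
    rcases hform with h | ⟨h, _⟩
    · exact h.isRefl
    · exact h.isRefl
  have hoo := LinearMap.BilinForm.orthogonal_orthogonal hB hrefl Z
  have hx' : x ∉ B.orthogonal (B.orthogonal Z) := by rw [hoo]; exact hxZ
  rw [LinearMap.BilinForm.mem_orthogonal_iff] at hx'
  push Not at hx'
  obtain ⟨w, hw, hwx⟩ := hx'
  rw [LinearMap.BilinForm.mem_orthogonal_iff] at hw
  have hxw : B x w ≠ 0 := fun h => hwx (hrefl _ _ h)
  set w' := (B x w)⁻¹ • w with hw'
  have hxw' : B x w' = 1 := by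
    rw [hw', map_smul, smul_eq_mul, inv_mul_cancel₀ hxw]
  have hzw' : ∀ z ∈ Z, B z w' = 0 := by
    intro z hz
    rw [hw', map_smul, hw z hz, smul_zero]
  rcases hform with h | ⟨h, h2⟩
  · exact ⟨w', h.self_eq_zero w', hxw', hzw'⟩
  · have hw'x : B w' x = 1 := by rw [h.eq]; exact hxw'
    refine ⟨w' - (B w' w' / 2) • x, ?_, ?_, ?_⟩
    · simp only [map_sub, map_smul, LinearMap.sub_apply, LinearMap.smul_apply, smul_eq_mul, hx, hxw', hw'x]
      field_simp
      ring
    · simp only [map_sub, map_smul, smul_eq_mul, hx, hxw']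
      ring
    · intro z hz
      have hzx : B z x = 0 := by rw [h.eq]; exact hxz z hz
      simp only [map_sub, map_smul, smul_eq_mul, hzw' z hz, hzx]
      ring

end Cfsg.Agent.S0761
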