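import Cfsg.Statements.S0763

set_option autoImplicit false
open Cfsg

namespace Cfsg.Agent.S0763

section
variable {F V : Type*} [Field F] [CharP F 2] [AddCommGroup V] [Module F V] (Q : QuadraticForm F V)

theorem polar_self0 (x : V) : QuadraticMap.polar Q x x = 0 := by
  rw [QuadraticMap.polar_self, two_smul, CharTwo.add_self_eq_zero]

theorem Q_add (x y : V) : Q (x + y) = Q x + Q y + QuadraticMap.polar Q x y := by
  simp [QuadraticMap.polar]

theorem li_of_polar {v w : V} (h : QuadraticMap.polar Q v w = 1) : LinearIndependent F ![v, w] := by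
  rw [LinearIndependent.pair_iff]
  intro s t hst
  have ht : t = 0 := by
    have := congrArg (fun z => QuadraticMap.polar Q v z) hst
    simp only [QuadraticMap.polar_add_right, QuadraticMap.polar_smul_right, polar_self0, h,
      smul_eq_mul, mul_zero, mul_one, zero_add] at this
    simpa [QuadraticMap.polar] using this
  have hs : s = 0 := by
    have := congrArg (fun z => QuadraticMap.polar Q z w) hst
    simp only [QuadraticMap.polar_add_left, QuadraticMap.polar_smul_left, polar_self0, h,
      smul_eq_mul, mul_zero, mul_one, add_zero] at this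
    simpa [QuadraticMap.polar] using this
  exact ⟨hs, ht⟩

theorem exists_partner (hQ : (QuadraticMap.polarBilin Q).Nondegenerate) {v : V} (hv : v ≠ 0) :
    ∃ w : V, QuadraticMap.polar Q v w = 1 := by
  have : ∃ w', QuadraticMap.polar Q v w' ≠ 0 := by
    by_contra hcon
    push Not at hcon
    exact hv (hQ.1 v hcon)
  obtain ⟨w', hw'⟩ := this
  refine ⟨(QuadraticMap.polar Q v w')⁻¹ • w', ?_⟩
  rw [QuadraticMap.polar_smul_right, smul_eq_mul, inv_mul_cancel₀ hw']

end

/-- Binary quadratic forms in characteristic two over a finite field: if Q is a quadratic form on a 2-dimensional space whose polar form is non-degenerate, then either there are vectors v, w with Q v = Q w = 0 and polar value 1 (Q is xy in these coordinates), or there are v, w and μ with Q v = 1, Q w = μ, polar value 1 and x² + x + μ without roots in F (Q is x² + xy + μy²). -/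
theorem result {F V : Type*} [Field F] [Finite F] [CharP F 2] [AddCommGroup V] [Module F V] (Q : QuadraticForm F V) (h2 : Module.finrank F V = 2) (hQ : (QuadraticMap.polarBilin Q).Nondegenerate) : (∃ v w : V, LinearIndependent F ![v, w] ∧ Q v = 0 ∧ Q w = 0 ∧ QuadraticMap.polar Q v w = 1) ∨ (∃ (v w : V) (μ : F), LinearIndependent F ![v, w] ∧ (∀ x : F, x ^ 2 + x + μ ≠ 0) ∧ Q v = 1 ∧ Q w = μ ∧ QuadraticMap.polar Q v w = 1) := by
  by_cases hiso : ∃ v : V, v ≠ 0 ∧ Q v = 0
  · left
    obtain ⟨v, hv, hQv⟩ := hiso
    obtain ⟨w, hw⟩ := exists_partner Q hQ hv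
    have hwv : QuadraticMap.polar Q w v = 1 := by rw [QuadraticMap.polar_comm]; exact hw
    have hpol : QuadraticMap.polar Q v (w + Q w • v) = 1 := by
      rw [QuadraticMap.polar_add_right, QuadraticMap.polar_smul_right, polar_self0, hw]; simp
    refine ⟨v, w + Q w • v, li_of_polar Q hpol, hQv, ?_, hpol⟩
    rw [Q_add, QuadraticMap.map_smul, hQv, QuadraticMap.polar_smul_right, hwv]
    simp only [smul_eq_mul, mul_zero, add_zero, mul_one]
    exact CharTwo.add_self_eq_zero _
  · right
    push Not at hiso
    have hnt : Nontrivial V := Module.nontrivial_of_finrank_pos (R := F) (by omega)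
    obtain ⟨v₀, hv₀⟩ := exists_ne (0 : V)
    have hc : Q v₀ ≠ 0 := hiso v₀ hv₀
    obtain ⟨s, hs⟩ := FiniteField.isSquare_of_char_two (ringChar.eq F 2) (Q v₀)
    have hs0 : s ≠ 0 := by
      rintro rfl
      simp at hs
      exact hc hs
    set v := s⁻¹ • v₀ with hvdef
    have hv : v ≠ 0 := smul_ne_zero (inv_ne_zero hs0) hv₀
    have hQv : Q v = 1 := by
      rw [hvdef, QuadraticMap.map_smul, hs, smul_eq_mul]
      field_simp
    obtain ⟨w, hw⟩ := exists_partner Q hQ hv
    have hli := li_of_polar Q hw
    refine ⟨v, w, Q w, hli, ?_, hQv, rfl, hw⟩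
    intro x hx
    have hne : x • v + w ≠ 0 := by
      intro h0
      have := (LinearIndependent.pair_iff.mp hli) x 1 (by simpa using h0)
      exact one_ne_zero this.2
    apply hiso _ hne
    rw [Q_add, QuadraticMap.map_smul, hQv, QuadraticMap.polar_smul_left, hw]
    simp only [smul_eq_mul, mul_one]
    linear_combination hx

end Cfsg.Agent.S0763
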