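import Cfsg.Statements.S0764
import Cfsg.Agent.Helper13.Symp

set_option autoImplicit false
open Cfsg

namespace Cfsg.Agent.S0764

/-- Symplectic transvections are isometries: for every vector v and scalar c the matrix of x ↦ x + c f(x, v) v lies in the symplectic group. -/
theorem result {F : Type*} [Field F] (m : ℕ) (v : Fin m ⊕ Fin m → F) (c : F) : Cfsg.sympTransvection m v c ∈ Matrix.symplecticGroup (Fin m) F := by
  exact Cfsg.Agent.Helper13.sympTransvection_mem v c

end Cfsg.Agent.S0764
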