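import Cfsg.Statements.S0770
-- import your own Cfsg.Agent.* helpers here

set_option autoImplicit false
open Cfsg

namespace Cfsg.Agent.S0770

lemma mem_diag_iff {F : Type*} [Field F] {n : ℕ} (h : Matrix.GeneralLinearGroup (Fin n) F) :
    h ∈ ((Units.map (Matrix.diagonalRingHom (Fin n) F).toMonoidHom).range :
        Subgroup (Matrix.GeneralLinearGroup (Fin n) F))
      ↔ ∃ d : Fin n → F, (h : Matrix (Fin n) (Fin n) F) = Matrix.diagonal d := by
  constructor
  · rintro ⟨u, rfl⟩
    exact ⟨(u : Fin n → F), rfl⟩
  · rintro ⟨d, hd⟩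
    have hgi : (h : Matrix (Fin n) (Fin n) F) * (h⁻¹ : Matrix.GeneralLinearGroup (Fin n) F) = 1 := by
      rw [← Units.val_mul, mul_inv_cancel, Units.val_one]
    have hne : ∀ i, d i ≠ 0 := by
      intro i hi
      have := congrFun (congrFun hgi i) i
      rw [hd, Matrix.diagonal_mul, hi, zero_mul, Matrix.one_apply_eq] at this
      exact zero_ne_one this
    refine ⟨⟨d, fun i => (d i)⁻¹, funext fun i => mul_inv_cancel₀ (hne i),
      funext fun i => inv_mul_cancel₀ (hne i)⟩, ?_⟩
    apply Units.ext
    rw [hd]
    rfl

/-- For a field with at least 3 elements, an invertible matrix normalises the subgroup of invertible diagonal matrices of GL_n if and only if it is monomial (exactly one non-zero entry in each row). -/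
theorem result {F : Type*} [Field F] (hF : ∃ a : F, a ≠ 0 ∧ a ≠ 1) (n : ℕ) (g : Matrix.GeneralLinearGroup (Fin n) F) : g ∈ Subgroup.normalizer ((Units.map (Matrix.diagonalRingHom (Fin n) F).toMonoidHom).range : Subgroup (Matrix.GeneralLinearGroup (Fin n) F)) ↔ ∀ i : Fin n, ∃! j : Fin n, (g : Matrix (Fin n) (Fin n) F) i j ≠ 0 := by
  have hgi : (g : Matrix (Fin n) (Fin n) F) * (g⁻¹ : Matrix.GeneralLinearGroup (Fin n) F) = 1 := by
    rw [← Units.val_mul, mul_inv_cancel, Units.val_one]
  have hig : ((g⁻¹ : Matrix.GeneralLinearGroup (Fin n) F) : Matrix (Fin n) (Fin n) F) * g = 1 := by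
    rw [← Units.val_mul, inv_mul_cancel, Units.val_one]
  constructor
  · intro hg i
    obtain ⟨a, ha0, ha1⟩ := hF
    have hex : ∃ j, (g : Matrix (Fin n) (Fin n) F) i j ≠ 0 := by
      by_contra hcon
      push Not at hcon
      have := congrFun (congrFun hgi i) i
      rw [Matrix.mul_apply, Matrix.one_apply_eq,
        Finset.sum_eq_zero (fun j _ => by rw [hcon j, zero_mul])] at this
      exact zero_ne_one this
    obtain ⟨j, hj⟩ := hex
    refine ⟨j, hj, ?_⟩
    intro j' hj'
    by_contra hne
    have hne' : ∀ k, Function.update (fun _ => (1 : F)) j a k ≠ 0 := by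
      intro k
      by_cases hk : k = j
      · subst hk
        rw [Function.update_self]
        exact ha0
      · rw [Function.update_of_ne hk]
        exact one_ne_zero
    have ht : ∃ t : Matrix.GeneralLinearGroup (Fin n) F, (t : Matrix (Fin n) (Fin n) F)
        = Matrix.diagonal (Function.update (fun _ => (1 : F)) j a) :=
      ⟨Units.map (Matrix.diagonalRingHom (Fin n) F).toMonoidHom
        ⟨_, fun k => (Function.update (fun _ => (1 : F)) j a k)⁻¹,
          funext fun k => mul_inv_cancel₀ (hne' k), funext fun k => inv_mul_cancel₀ (hne' k)⟩, rfl⟩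
    obtain ⟨t, ht⟩ := ht
    have htD := (mem_diag_iff t).mpr ⟨_, ht⟩
    have hconj := (Subgroup.mem_normalizer_iff.mp hg t).mp htD
    obtain ⟨d', hd'⟩ := (mem_diag_iff _).mp hconj
    have heq : (g : Matrix (Fin n) (Fin n) F) * Matrix.diagonal (Function.update (fun _ => (1 : F)) j a)
        = Matrix.diagonal d' * g := by
      rw [← hd', ← ht, Units.val_mul, Units.val_mul, mul_assoc, hig, mul_one]
    have e1 := congrFun (congrFun heq i) j
    have e2 := congrFun (congrFun heq i) j'
    rw [Matrix.mul_diagonal, Matrix.diagonal_mul] at e1 e2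
    rw [Function.update_self] at e1
    rw [Function.update_of_ne hne] at e2
    have h1 : a = d' i :=
      mul_left_cancel₀ hj (show (g : Matrix (Fin n) (Fin n) F) i j * a
        = (g : Matrix (Fin n) (Fin n) F) i j * d' i by rw [e1, mul_comm])
    have h2 : (1 : F) = d' i :=
      mul_left_cancel₀ hj' (show (g : Matrix (Fin n) (Fin n) F) i j' * 1
        = (g : Matrix (Fin n) (Fin n) F) i j' * d' i by rw [e2, mul_comm])
    exact ha1 (h1.trans h2.symm)
  · intro hmono
    choose π hπ hπu using hmono
    have hsurj : Function.Surjective π := by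
      intro j₀
      by_contra hcon
      push Not at hcon
      have hcol : ∀ i, (g : Matrix (Fin n) (Fin n) F) i j₀ = 0 := by
        intro i
        by_contra h
        exact hcon i (hπu i j₀ h).symm
      have := congrFun (congrFun hig j₀) j₀
      rw [Matrix.mul_apply, Matrix.one_apply_eq,
        Finset.sum_eq_zero (fun i _ => by rw [hcol i, mul_zero])] at this
      exact zero_ne_one this
    have hbij : Function.Bijective π := ⟨Finite.injective_iff_surjective.mpr hsurj, hsurj⟩
    have hcomm : ∀ d : Fin n → F, (g : Matrix (Fin n) (Fin n) F) * Matrix.diagonal d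
        = Matrix.diagonal (fun i => d (π i)) * g := by
      intro d
      ext i j
      rw [Matrix.mul_diagonal, Matrix.diagonal_mul]
      by_cases h : (g : Matrix (Fin n) (Fin n) F) i j = 0
      · rw [h, zero_mul, mul_zero]
      · rw [hπu i j h, mul_comm]
    rw [Subgroup.mem_normalizer_iff]
    intro h
    rw [mem_diag_iff, mem_diag_iff]
    constructor
    · rintro ⟨d, hd⟩
      refine ⟨fun i => d (π i), ?_⟩
      rw [Units.val_mul, Units.val_mul, hd, hcomm d, mul_assoc, hgi, mul_one]
    · rintro ⟨d', hd'⟩
      refine ⟨fun j => d' ((Equiv.ofBijective π hbij).symm j), ?_⟩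
      have h1 := hcomm (fun j => d' ((Equiv.ofBijective π hbij).symm j))
      have h2 : (fun i => d' ((Equiv.ofBijective π hbij).symm (π i))) = d' := by
        funext i
        congr 1
        exact (Equiv.ofBijective π hbij).symm_apply_apply i
      rw [h2] at h1
      have h3 : (g : Matrix (Fin n) (Fin n) F) * h = Matrix.diagonal d' * g := by
        rw [← hd', Units.val_mul, Units.val_mul, mul_assoc, hig, mul_one]
      have h4 : (g : Matrix (Fin n) (Fin n) F) * h
          = g * Matrix.diagonal (fun j => d' ((Equiv.ofBijective π hbij).symm j)) := by rw [h3, h1]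
      calc (h : Matrix (Fin n) (Fin n) F)
          = ((g⁻¹ : Matrix.GeneralLinearGroup (Fin n) F) : Matrix (Fin n) (Fin n) F) * (g * h) := by
            rw [← mul_assoc, hig, one_mul]
        _ = ((g⁻¹ : Matrix.GeneralLinearGroup (Fin n) F) : Matrix (Fin n) (Fin n) F)
              * (g * Matrix.diagonal (fun j => d' ((Equiv.ofBijective π hbij).symm j))) := by rw [h4]
        _ = Matrix.diagonal (fun j => d' ((Equiv.ofBijective π hbij).symm j)) := by
            rw [← mul_assoc, hig, one_mul]

end Cfsg.Agent.S0770
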