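import Cfsg.Statements.S0772
import Cfsg.Agent.Helper13.Parabolic2

set_option autoImplicit false
open Cfsg

namespace Cfsg.Agent.S0772

open Matrix

/-- transvection `1 + u φᵀ` with `φ · u = 0` as an element of `GL`. -/
def tvGL {F : Type*} [Field F] {n : ℕ} (u φ : Fin n → F) (h : φ ⬝ᵥ u = 0) : GL (Fin n) F :=
  ⟨1 + vecMulVec u φ, 1 - vecMulVec u φ, by
    have hX : vecMulVec u φ * vecMulVec u φ = 0 := by
      rw [vecMulVec_mul_vecMulVec, h, zero_smul]
      ext a b
      simp [vecMulVec_apply]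
    calc (1 + vecMulVec u φ) * (1 - vecMulVec u φ)
        = 1 - vecMulVec u φ * vecMulVec u φ := by noncomm_ring
      _ = 1 := by rw [hX, sub_zero], by
    have hX : vecMulVec u φ * vecMulVec u φ = 0 := by
      rw [vecMulVec_mul_vecMulVec, h, zero_smul]
      ext a b
      simp [vecMulVec_apply]
    calc (1 - vecMulVec u φ) * (1 + vecMulVec u φ)
        = 1 - vecMulVec u φ * vecMulVec u φ := by noncomm_ring
      _ = 1 := by rw [hX, sub_zero]⟩

theorem tvGL_coe {F : Type*} [Field F] {n : ℕ} (u φ : Fin n → F) (h : φ ⬝ᵥ u = 0) :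
    ((tvGL u φ h : GL (Fin n) F) : Matrix (Fin n) (Fin n) F) = 1 + vecMulVec u φ := rfl

theorem gl_mul_inv_val {F : Type*} [Field F] {n : ℕ} (g : GL (Fin n) F) :
    (g : Matrix (Fin n) (Fin n) F) * ((g⁻¹ : GL (Fin n) F) : Matrix (Fin n) (Fin n) F) = 1 :=
  Units.mul_inv g

theorem gl_inv_mul_val {F : Type*} [Field F] {n : ℕ} (g : GL (Fin n) F) :
    ((g⁻¹ : GL (Fin n) F) : Matrix (Fin n) (Fin n) F) * (g : Matrix (Fin n) (Fin n) F) = 1 :=
  Units.inv_mul g

/-- Maximal parabolics are maximal: over a finite field, for 0 < k < n the stabiliser in GL_n of the span of the first k coordinate vectors is a maximal proper subgroup. -/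
theorem result {F : Type*} [Field F] [Finite F] (n k : ℕ) (hk0 : 0 < k) (hkn : k < n) : IsCoatom (Cfsg.stabilizing (Cfsg.glToMat (Fin n) F) {v : Fin n → F | ∀ i : Fin n, k ≤ (i : ℕ) → v i = 0}) := by
  classical
  have hkn' : k ≤ n := le_of_lt hkn
  have hmemP : ∀ g : GL (Fin n) F,
      g ∈ Cfsg.stabilizing (Cfsg.glToMat (Fin n) F) {v : Fin n → F | ∀ i : Fin n, k ≤ (i : ℕ) → v i = 0} ↔
        ∀ i j : Fin n, k ≤ (i : ℕ) → (j : ℕ) < k → (g : Matrix (Fin n) (Fin n) F) i j = 0 :=
    fun g => Cfsg.Agent.Helper13.mem_stab_iff' hkn' g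
  constructor
  · intro htop
    have hh : (Pi.single (⟨0, by omega⟩ : Fin n) (1 : F)) ⬝ᵥ (Pi.single (⟨k, hkn⟩ : Fin n) (1 : F)) = 0 := by
      rw [single_dotProduct, Pi.single_apply, if_neg (by intro h; rw [Fin.ext_iff] at h; simp at h; omega)]
      simp
    have hmem : tvGL (Pi.single (⟨k, hkn⟩ : Fin n) (1 : F)) (Pi.single (⟨0, by omega⟩ : Fin n) (1 : F)) hh ∈
        Cfsg.stabilizing (Cfsg.glToMat (Fin n) F) {v : Fin n → F | ∀ i : Fin n, k ≤ (i : ℕ) → v i = 0} := by
      rw [htop]; trivial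
    rw [hmemP] at hmem
    have h1 := hmem ⟨k, hkn⟩ ⟨0, by omega⟩ le_rfl hk0
    rw [tvGL_coe, Matrix.add_apply, vecMulVec_apply, Pi.single_eq_same, Pi.single_eq_same,
      Matrix.one_apply_ne (by intro h; rw [Fin.ext_iff] at h; simp at h; omega)] at h1
    simp at h1
  · intro H hPH
    have hPle : Cfsg.stabilizing (Cfsg.glToMat (Fin n) F) {v : Fin n → F | ∀ i : Fin n, k ≤ (i : ℕ) → v i = 0} ≤ H :=
      le_of_lt hPH
    obtain ⟨h₀, hh₀H, hh₀P⟩ := SetLike.exists_of_lt hPH
    -- an element of H moving a vector of W₀ out of W₀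
    have key1 : ∃ h ∈ H, ∃ w : Fin n → F, (∀ i : Fin n, k ≤ (i : ℕ) → w i = 0) ∧
        ¬ (∀ i : Fin n, k ≤ (i : ℕ) → ((h : Matrix (Fin n) (Fin n) F) *ᵥ w) i = 0) := by
      have hnot : ¬ ∀ v : Fin n → F, (∀ i : Fin n, k ≤ (i : ℕ) → v i = 0) ↔
          (∀ i : Fin n, k ≤ (i : ℕ) → ((h₀ : Matrix (Fin n) (Fin n) F) *ᵥ v) i = 0) := hh₀P
      obtain ⟨v, hv⟩ := Classical.not_forall.mp hnot
      by_cases h1 : ∀ i : Fin n, k ≤ (i : ℕ) → v i = 0
      · by_cases h2 : ∀ i : Fin n, k ≤ (i : ℕ) → ((h₀ : Matrix (Fin n) (Fin n) F) *ᵥ v) i = 0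
        · exact absurd ⟨fun _ => h2, fun _ => h1⟩ hv
        · exact ⟨h₀, hh₀H, v, h1, h2⟩
      · by_cases h2 : ∀ i : Fin n, k ≤ (i : ℕ) → ((h₀ : Matrix (Fin n) (Fin n) F) *ᵥ v) i = 0
        · refine ⟨h₀⁻¹, H.inv_mem hh₀H, (h₀ : Matrix (Fin n) (Fin n) F) *ᵥ v, h2, ?_⟩
          rw [Matrix.mulVec_mulVec, gl_inv_mul_val, Matrix.one_mulVec]
          exact h1
        · exact absurd ⟨fun h => absurd h h1, fun h => absurd h h2⟩ hv
    obtain ⟨h, hhH, w, hw, hb⟩ := key1
    set b : Fin n → F := (h : Matrix (Fin n) (Fin n) F) *ᵥ w with hbdef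
    push Not at hb
    obtain ⟨i₀, hi₀, hbi₀⟩ := hb
    -- Claim A
    have claimA : ∀ (ψ : Fin n → F) (hh : ψ ⬝ᵥ b = 0), tvGL b ψ hh ∈ H := by
      intro ψ hh
      have hφ : (ψ ᵥ* (h : Matrix (Fin n) (Fin n) F)) ⬝ᵥ w = 0 := by
        rw [← dotProduct_mulVec]; exact hh
      have ht₀ : tvGL w (ψ ᵥ* (h : Matrix (Fin n) (Fin n) F)) hφ ∈ H := by
        apply hPle
        rw [hmemP]
        intro i j hi hj
        rw [tvGL_coe, Matrix.add_apply, vecMulVec_apply, hw i hi, zero_mul, add_zero,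
          Matrix.one_apply_ne (by intro h'; rw [h'] at hi; omega)]
      have hconj : h * tvGL w (ψ ᵥ* (h : Matrix (Fin n) (Fin n) F)) hφ * h⁻¹ = tvGL b ψ hh := by
        apply Units.ext
        rw [Units.val_mul, Units.val_mul, tvGL_coe, tvGL_coe, Matrix.mul_add, Matrix.add_mul,
          Matrix.mul_one, gl_mul_inv_val, mul_vecMulVec, vecMulVec_mul, vecMul_vecMul,
          gl_mul_inv_val, vecMul_one]
      rw [← hconj]
      exact H.mul_mem (H.mul_mem hhH ht₀) (H.inv_mem hhH)
    -- Claim B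
    have claimB : ∀ (i' j' : Fin n), k ≤ (i' : ℕ) → (j' : ℕ) < k → ∀ (c : F)
        (hh : (Pi.single j' c : Fin n → F) ⬝ᵥ (Pi.single i' (1 : F)) = 0),
        tvGL (Pi.single i' (1 : F)) (Pi.single j' c) hh ∈ H := by
      intro i' j' hi' hj' c hh
      have hdet1 : (Matrix.updateCol (1 : Matrix (Fin n) (Fin n) F) i₀ b).det ≠ 0 := by
        rw [← Matrix.cramer_apply, Matrix.cramer_one]
        exact hbi₀
      set r₁ : GL (Fin n) F := Matrix.GeneralLinearGroup.mkOfDetNeZero _ hdet1 with hr₁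
      have hr₁P : r₁ ∈ H := by
        apply hPle
        rw [hmemP]
        intro i j hi hj
        show Matrix.updateCol (1 : Matrix (Fin n) (Fin n) F) i₀ b i j = 0
        rw [Matrix.updateCol_ne (by intro h'; rw [h'] at hj; omega),
          Matrix.one_apply_ne (by intro h'; rw [h'] at hi; omega)]
      have hdet2 : ((Equiv.swap i₀ i').permMatrix F).det ≠ 0 := by
        rw [Matrix.det_permutation]
        rcases Int.units_eq_one_or (Equiv.Perm.sign (Equiv.swap i₀ i')) with h' | h' <;> simp [h']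
      set σ : GL (Fin n) F := Matrix.GeneralLinearGroup.mkOfDetNeZero _ hdet2 with hσ
      have hσP : σ ∈ H := by
        apply hPle
        rw [hmemP]
        intro i j hi hj
        show (Equiv.swap i₀ i').permMatrix F i j = 0
        have hne : Equiv.swap i₀ i' i ≠ j := by
          intro h'
          have h3 : k ≤ ((Equiv.swap i₀ i' i : Fin n) : ℕ) := by
            rw [Equiv.swap_apply_def]
            split_ifs <;> omega
          rw [h'] at h3
          omega
        simp [Equiv.Perm.permMatrix, PEquiv.toMatrix_apply, hne]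
      set r : GL (Fin n) F := r₁ * σ with hr
      have hrH : r ∈ H := H.mul_mem hr₁P hσP
      have hrb : (r : Matrix (Fin n) (Fin n) F) *ᵥ (Pi.single i' (1 : F)) = b := by
        rw [hr, Units.val_mul, ← Matrix.mulVec_mulVec]
        have h1 : (σ : Matrix (Fin n) (Fin n) F) *ᵥ (Pi.single i' (1 : F)) = Pi.single i₀ (1 : F) := by
          show (Equiv.swap i₀ i').permMatrix F *ᵥ _ = _
          rw [Matrix.permMatrix_mulVec]
          funext x
          simp only [Function.comp, Pi.single_apply]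
          by_cases hx : x = i₀
          · rw [hx, Equiv.swap_apply_left, if_pos rfl, if_pos rfl]
          · rw [if_neg hx, if_neg]
            intro h'
            apply hx
            have := congrArg (Equiv.swap i₀ i') h'
            rw [Equiv.swap_apply_self, Equiv.swap_apply_right] at this
            exact this
        rw [h1, Matrix.mulVec_single_one]
        funext x
        show Matrix.updateCol (1 : Matrix (Fin n) (Fin n) F) i₀ b x i₀ = b x
        rw [Matrix.updateCol_self]
      have hψ : ((Pi.single j' c : Fin n → F) ᵥ* ((r⁻¹ : GL (Fin n) F) : Matrix (Fin n) (Fin n) F)) ⬝ᵥ b = 0 := by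
        rw [← dotProduct_mulVec, ← hrb, Matrix.mulVec_mulVec, gl_inv_mul_val, Matrix.one_mulVec]
        exact hh
      have hA := claimA _ hψ
      have hconj : r⁻¹ * tvGL b ((Pi.single j' c : Fin n → F) ᵥ* ((r⁻¹ : GL (Fin n) F) : Matrix (Fin n) (Fin n) F)) hψ * r
          = tvGL (Pi.single i' (1 : F)) (Pi.single j' c) hh := by
        apply Units.ext
        rw [Units.val_mul, Units.val_mul, tvGL_coe, tvGL_coe, Matrix.mul_add, Matrix.add_mul,
          Matrix.mul_one, gl_inv_mul_val, mul_vecMulVec, vecMulVec_mul, vecMul_vecMul,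
          gl_inv_mul_val, vecMul_one]
        congr 2
        rw [← hrb, Matrix.mulVec_mulVec, gl_inv_mul_val, Matrix.one_mulVec]
      rw [← hconj]
      exact H.mul_mem (H.mul_mem (H.inv_mem hrH) hA) hrH
    -- all elementary transvections
    have claimC : ∀ t : Matrix.TransvectionStruct (Fin n) F,
        ∃ u ∈ H, (u : Matrix (Fin n) (Fin n) F) = t.toMatrix := by
      intro t
      have hh : (Pi.single t.j t.c : Fin n → F) ⬝ᵥ (Pi.single t.i (1 : F)) = 0 := by
        rw [single_dotProduct, Pi.single_apply, if_neg (Ne.symm t.hij), mul_zero]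
      have hmat : ((tvGL (Pi.single t.i (1 : F)) (Pi.single t.j t.c) hh : GL (Fin n) F) :
          Matrix (Fin n) (Fin n) F) = t.toMatrix := by
        rw [tvGL_coe, Matrix.TransvectionStruct.toMatrix, Matrix.transvection]
        congr 1
        ext a b'
        rw [vecMulVec_apply, Matrix.single_apply, Pi.single_apply, Pi.single_apply]
        by_cases ha : a = t.i
        · by_cases hb' : b' = t.j
          · rw [if_pos ha, if_pos hb', if_pos ⟨ha.symm, hb'.symm⟩, one_mul]
          · rw [if_pos ha, if_neg hb', if_neg (fun h' : t.i = a ∧ t.j = b' => hb' h'.2.symm), mul_zero]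
        · rw [if_neg ha, if_neg (fun h' : t.i = a ∧ t.j = b' => ha h'.1.symm), zero_mul]
      refine ⟨_, ?_, hmat⟩
      by_cases hcase : k ≤ (t.i : ℕ) ∧ (t.j : ℕ) < k
      · exact claimB t.i t.j hcase.1 hcase.2 t.c hh
      · apply hPle
        rw [hmemP]
        intro i j hi hj
        rw [tvGL_coe, Matrix.add_apply, vecMulVec_apply,
          Matrix.one_apply_ne (by intro h'; rw [h'] at hi; omega), zero_add,
          Pi.single_apply, Pi.single_apply]
        by_cases ha : i = t.i
        · by_cases hb' : j = t.j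
          · exfalso
            apply hcase
            rw [← ha, ← hb']
            exact ⟨hi, hj⟩
          · rw [if_neg hb', mul_zero]
        · rw [if_neg ha, zero_mul]
    have claimD : ∀ D : Fin n → F, (Matrix.diagonal D).det ≠ 0 →
        ∃ u ∈ H, (u : Matrix (Fin n) (Fin n) F) = Matrix.diagonal D := by
      intro D hD
      refine ⟨Matrix.GeneralLinearGroup.mkOfDetNeZero _ hD, ?_, rfl⟩
      apply hPle
      rw [hmemP]
      intro i j hi hj
      show Matrix.diagonal D i j = 0
      exact Matrix.diagonal_apply_ne _ (by intro h'; rw [h'] at hi; omega)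
    rw [eq_top_iff]
    intro g _
    have hgdet : (g : Matrix (Fin n) (Fin n) F).det ≠ 0 :=
      ((Matrix.isUnit_iff_isUnit_det _).mp g.isUnit).ne_zero
    obtain ⟨u, huH, hug⟩ := Matrix.diagonal_transvection_induction_of_det_ne_zero
      (fun M => ∃ u ∈ H, (u : Matrix (Fin n) (Fin n) F) = M) (g : Matrix (Fin n) (Fin n) F) hgdet
      claimD claimC (by
        rintro A B _ _ ⟨uA, hA, rfl⟩ ⟨uB, hB, rfl⟩
        exact ⟨uA * uB, H.mul_mem hA hB, rfl⟩)
    have : u = g := Units.ext hug
    rw [← this]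
    exact huH

end Cfsg.Agent.S0772
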