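import Cfsg.Statements.S0773
import Cfsg.Agent.Helper13.Parabolic2

set_option autoImplicit false
open Cfsg

namespace Cfsg.Agent.S0773

/-- The stabilisers in GL_n(F), F finite, of the coordinate subspaces of dimensions k and n − k are isomorphic groups, but when 2k ≠ n (and 0 < k < n) no element of GL_n conjugates one onto the other. -/
theorem result {F : Type*} [Field F] [Finite F] (n k : ℕ) (hk0 : 0 < k) (hkn : k < n) (h2 : 2 * k ≠ n) : Nonempty (↥(Cfsg.stabilizing (Cfsg.glToMat (Fin n) F) {v : Fin n → F | ∀ i : Fin n, k ≤ (i : ℕ) → v i = 0}) ≃* ↥(Cfsg.stabilizing (Cfsg.glToMat (Fin n) F) {v : Fin n → F | ∀ i : Fin n, n - k ≤ (i : ℕ) → v i = 0})) ∧ ∀ g : Matrix.GeneralLinearGroup (Fin n) F, (Cfsg.stabilizing (Cfsg.glToMat (Fin n) F) {v : Fin n → F | ∀ i : Fin n, k ≤ (i : ℕ) → v i = 0}).map (MulAut.conj g).toMonoidHom ≠ Cfsg.stabilizing (Cfsg.glToMat (Fin n) F) {v : Fin n → F | ∀ i : Fin n, n - k ≤ (i : ℕ) → v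 i = 0} := by
  exact ⟨⟨Cfsg.Agent.Helper13.parabolicIso hkn.le⟩, fun g => Cfsg.Agent.Helper13.not_conj hk0 hkn h2 g⟩

end Cfsg.Agent.S0773
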