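import Cfsg.Statements.S0776
import Cfsg.Agent.Helper13.SpSplit2

set_option autoImplicit false
open Cfsg

namespace Cfsg.Agent.S0776

/-- If W ≤ F^(2m) is a 2k-dimensional subspace on which the symplectic form is non-degenerate, then the stabiliser of W in Sp_2m(F) is isomorphic to Sp_2k(F) × Sp_(2m−2k)(F). -/
theorem result {F : Type*} [Field F] (m k : ℕ) (hk : k ≤ m) (W : Submodule F (Fin m ⊕ Fin m → F)) (hWk : Module.finrank F W = 2 * k) (hW : ∀ u ∈ W, (∀ v ∈ W, Cfsg.sympForm m F u v = 0) → u = 0) : Nonempty (↥(Cfsg.stabilizing (Cfsg.spToMat m F) (W : Set (Fin m ⊕ Fin m → F))) ≃* Matrix.symplecticGroup (Fin k) F × Matrix.symplecticGroup (Fin (m - k)) F) := by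
  exact Cfsg.Agent.Helper13.sp_stab_nondeg hk W hWk hW

end Cfsg.Agent.S0776
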