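import Cfsg.Statements.S0778
import Cfsg.Agent.Helper13.SpBlocks

set_option autoImplicit false
open Cfsg

namespace Cfsg.Agent.S0778

/-- The elements of Sp_2m(F) stabilising both W = ⟨e_1..e_m⟩ and U = ⟨f_1..f_m⟩ form a subgroup isomorphic to GL_m(F) (block-diagonal matrices diag(X, X^(−ᵀ)) up to the sign convention of J), for m ≥ 1 or m = 0 alike. -/
theorem result {F : Type*} [Field F] (m : ℕ) : Nonempty (↥(Cfsg.stabilizing (Cfsg.spToMat m F) {v : Fin m ⊕ Fin m → F | ∀ i : Fin m, v (Sum.inr i) = 0} ⊓ Cfsg.stabilizing (Cfsg.spToMat m F) {v : Fin m ⊕ Fin m → F | ∀ i : Fin m, v (Sum.inl i) = 0}) ≃* Matrix.GeneralLinearGroup (Fin m) F) := by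
  classical
  have key : ∀ g : ↥(Cfsg.stabilizing (Cfsg.spToMat m F) {v : Fin m ⊕ Fin m → F | ∀ i : Fin m, v (Sum.inr i) = 0} ⊓ Cfsg.stabilizing (Cfsg.spToMat m F) {v : Fin m ⊕ Fin m → F | ∀ i : Fin m, v (Sum.inl i) = 0}),
      ((g.1 : Matrix.symplecticGroup (Fin m) F) : Matrix (Fin m ⊕ Fin m) (Fin m ⊕ Fin m) F) =
        Matrix.fromBlocks
          ((g.1 : Matrix.symplecticGroup (Fin m) F) : Matrix (Fin m ⊕ Fin m) (Fin m ⊕ Fin m) F).toBlocks₁₁ 0 0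
          ((g.1 : Matrix.symplecticGroup (Fin m) F) : Matrix (Fin m ⊕ Fin m) (Fin m ⊕ Fin m) F).toBlocks₂₂ ∧
      ((g.1 : Matrix.symplecticGroup (Fin m) F) : Matrix (Fin m ⊕ Fin m) (Fin m ⊕ Fin m) F).toBlocks₁₁ *
        (((g.1 : Matrix.symplecticGroup (Fin m) F) : Matrix (Fin m ⊕ Fin m) (Fin m ⊕ Fin m) F).toBlocks₂₂).transpose = 1 := by
    intro g
    obtain ⟨h1, h2⟩ := Subgroup.mem_inf.mp g.2
    have hC := (Cfsg.Agent.Helper13.sp_stab_inl_iff g.1).mp h1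
    have hB := (Cfsg.Agent.Helper13.sp_stab_inr_iff g.1).mp h2
    refine ⟨?_, Cfsg.Agent.Helper13.sp_upper_blocks g.1 hC⟩
    conv_lhs => rw [← Matrix.fromBlocks_toBlocks
      ((g.1 : Matrix.symplecticGroup (Fin m) F) : Matrix (Fin m ⊕ Fin m) (Fin m ⊕ Fin m) F), hC, hB]
  refine ⟨{
    toFun := fun g => ⟨((g.1 : Matrix.symplecticGroup (Fin m) F) : Matrix (Fin m ⊕ Fin m) (Fin m ⊕ Fin m) F).toBlocks₁₁,
      (((g.1 : Matrix.symplecticGroup (Fin m) F) : Matrix (Fin m ⊕ Fin m) (Fin m ⊕ Fin m) F).toBlocks₂₂).transpose,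
      (key g).2, _root_.mul_eq_one_comm.mp (key g).2⟩
    invFun := fun X => ⟨⟨Matrix.fromBlocks (X : Matrix (Fin m) (Fin m) F) 0 0
        ((X⁻¹ : Matrix.GeneralLinearGroup (Fin m) F) : Matrix (Fin m) (Fin m) F).transpose,
        (Cfsg.Agent.Helper13.sp_mem_fromBlocks_iff _ _ _ _).mpr
          ⟨by simp, by simp, by simp⟩⟩,
      Subgroup.mem_inf.mpr ⟨(Cfsg.Agent.Helper13.sp_stab_inl_iff _).mpr rfl,
        (Cfsg.Agent.Helper13.sp_stab_inr_iff _).mpr rfl⟩⟩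
    left_inv := ?_
    right_inv := ?_
    map_mul' := ?_ }⟩
  · intro g
    apply Subtype.ext
    apply Subtype.ext
    show Matrix.fromBlocks _ 0 0 (Matrix.transpose (Matrix.transpose _)) = _
    rw [Matrix.transpose_transpose]
    exact (key g).1.symm
  · intro X
    exact Units.ext rfl
  · intro g h
    apply Units.ext
    show (((g * h).1 : Matrix.symplecticGroup (Fin m) F) : Matrix (Fin m ⊕ Fin m) (Fin m ⊕ Fin m) F).toBlocks₁₁ =
      ((g.1 : Matrix.symplecticGroup (Fin m) F) : Matrix (Fin m ⊕ Fin m) (Fin m ⊕ Fin m) F).toBlocks₁₁ *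
      ((h.1 : Matrix.symplecticGroup (Fin m) F) : Matrix (Fin m ⊕ Fin m) (Fin m ⊕ Fin m) F).toBlocks₁₁
    have hmul : (((g * h).1 : Matrix.symplecticGroup (Fin m) F) : Matrix (Fin m ⊕ Fin m) (Fin m ⊕ Fin m) F) =
      ((g.1 : Matrix.symplecticGroup (Fin m) F) : Matrix (Fin m ⊕ Fin m) (Fin m ⊕ Fin m) F) *
      ((h.1 : Matrix.symplecticGroup (Fin m) F) : Matrix (Fin m ⊕ Fin m) (Fin m ⊕ Fin m) F) := rfl
    rw [hmul]
    conv_lhs => rw [(key g).1, (key h).1, Matrix.fromBlocks_multiply]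
    simp

end Cfsg.Agent.S0778
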