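import Cfsg.Statements.S0779

set_option autoImplicit false
open Cfsg

namespace Cfsg.Agent.S0779

open Matrix

section
variable {F : Type*} [Field F] {q : ℕ} {n : ℕ}

theorem q_props [Fintype F] (hF : Fintype.card F = q ^ 2) :
    (∀ a b : F, (a + b) ^ q = a ^ q + b ^ q) ∧ (∀ a : F, (a ^ q) ^ q = a) ∧ 2 ≤ q := by
  obtain ⟨p, hp⟩ := CharP.exists F
  obtain ⟨k, hpprime, hk⟩ := FiniteField.card F p
  have : Fact p.Prime := ⟨hpprime⟩
  have hdvd : q ∣ p ^ (k : ℕ) := by
    rw [← hk, hF]; exact Dvd.intro_left (q ^ 1) (by ring)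
  obtain ⟨j, -, hj⟩ := (Nat.dvd_prime_pow hpprime).mp hdvd
  refine ⟨?_, ?_, ?_⟩
  · intro a b
    rw [hj]; exact add_pow_char_pow a b p j
  · intro a
    rw [← pow_mul, ← pow_two, ← hF, FiniteField.pow_card]
  · have h1 : 1 < Fintype.card F := Fintype.one_lt_card
    rw [hF] at h1
    by_contra h
    interval_cases q <;> simp at h1

theorem herm_add_left (u u' w : Fin n → F) :
    hermForm n F q (u + u') w = hermForm n F q u w + hermForm n F q u' w := by
  simp only [hermForm, Pi.add_apply, add_mul, Finset.sum_add_distrib]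

theorem herm_smul_left (a : F) (u w : Fin n → F) :
    hermForm n F q (a • u) w = a * hermForm n F q u w := by
  simp only [hermForm, Pi.smul_apply, smul_eq_mul, Finset.mul_sum, mul_assoc]

theorem herm_add_right (hadd : ∀ a b : F, (a + b) ^ q = a ^ q + b ^ q) (u w w' : Fin n → F) :
    hermForm n F q u (w + w') = hermForm n F q u w + hermForm n F q u w' := by
  simp only [hermForm, Pi.add_apply, hadd, mul_add, Finset.sum_add_distrib]

theorem herm_smul_right (a : F) (u w : Fin n → F) :
    hermForm n F q u (a • w) = a ^ q * hermForm n F q u w := by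
  simp only [hermForm, Pi.smul_apply, smul_eq_mul, Finset.mul_sum, mul_pow]
  exact Finset.sum_congr rfl fun i _ => by ring

theorem herm_pow (hadd : ∀ a b : F, (a + b) ^ q = a ^ q + b ^ q) (hqq : ∀ a : F, (a ^ q) ^ q = a)
    (u w : Fin n → F) : (hermForm n F q u w) ^ q = hermForm n F q w u := by
  simp only [hermForm]
  have hsum : ∀ (s : Finset (Fin n)) (f : Fin n → F), (∑ i ∈ s, f i) ^ q = ∑ i ∈ s, (f i) ^ q := by
    intro s f
    induction s using Finset.induction_on with
    | empty =>
      have : q ≠ 0 := by
        intro h0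
        have := hadd 0 0
        rw [h0] at this
        simp at this
      simp [this]
    | insert a s ha ih => rw [Finset.sum_insert ha, Finset.sum_insert ha, hadd, ih]
  rw [hsum]
  exact Finset.sum_congr rfl fun i _ => by rw [mul_pow, hqq, mul_comm]

theorem ut_mulVec (v : Fin n → F) (c : F) (x : Fin n → F) :
    unitaryTransvection n q v c *ᵥ x = x + (c * hermForm n F q x v) • v := by
  rw [unitaryTransvection, add_mulVec, one_mulVec, smul_mulVec, vecMulVec_mulVec]
  have : (fun j => v j ^ q) ⬝ᵥ x = hermForm n F q x v := by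
    simp only [dotProduct, hermForm]
    exact Finset.sum_congr rfl fun i _ => by ring
  rw [this]
  simp [mul_smul]

end

/-- Unitary transvections: let |F| = q², h the standard Hermitian form Σ x_i y_i^q and v ≠ 0 with h(v, v) = 0. The linear map x ↦ x + c h(x, v) v is an isometry of h if and only if c = 0 or c^(q−1) = −1. -/
theorem result {F : Type*} [Field F] [Fintype F] {q : ℕ} (hF : Fintype.card F = q ^ 2) (n : ℕ) (v : Fin n → F) (hv : v ≠ 0) (hv0 : Cfsg.hermForm n F q v v = 0) (c : F) : (∀ x y : Fin n → F, Cfsg.hermForm n F q ((Cfsg.unitaryTransvection n q v c).mulVec x) ((Cfsg.unitaryTransvection n q v c).mulVec y) = Cfsg.hermForm n F q x y) ↔ (c = 0 ∨ c ^ (q - 1) = -1) := by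
  obtain ⟨hadd, hqq, hq2⟩ := q_props hF
  have key : ∀ x y : Fin n → F, Cfsg.hermForm n F q ((Cfsg.unitaryTransvection n q v c).mulVec x)
      ((Cfsg.unitaryTransvection n q v c).mulVec y) = Cfsg.hermForm n F q x y +
        (c + c ^ q) * (Cfsg.hermForm n F q x v * Cfsg.hermForm n F q v y) := by
    intro x y
    rw [ut_mulVec, ut_mulVec]
    have e1 : ∀ a b : F, hermForm n F q (x + a • v) (y + b • v) = hermForm n F q x y +
        b ^ q * hermForm n F q x v + a * (hermForm n F q v y + b ^ q * hermForm n F q v v) := by
      intro a b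
      simp only [herm_add_left, herm_add_right hadd, herm_smul_left, herm_smul_right]
      ring
    rw [e1, hv0, mul_pow, herm_pow hadd hqq y v]
    ring
  have hcq : c ^ q = c * c ^ (q - 1) := by
    rw [← pow_succ', Nat.sub_add_cancel (by omega)]
  constructor
  · intro h
    obtain ⟨i, hi⟩ : ∃ i, v i ≠ 0 := by
      by_contra hcon
      push Not at hcon
      exact hv (funext hcon)
    have h1 := h (Pi.single i 1) (Pi.single i 1)
    rw [key] at h1
    have hx : Cfsg.hermForm n F q (Pi.single i 1) v = v i ^ q := by
      simp [hermForm, Pi.single_apply]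
    have hy : Cfsg.hermForm n F q v (Pi.single i 1) = v i := by
      have hq0 : q ≠ 0 := by omega
      simp [hermForm, Pi.single_apply, hq0]
    rw [hx, hy] at h1
    have h2 : (c + c ^ q) * (v i ^ q * v i) = 0 := by linear_combination h1
    have h3 : c + c ^ q = 0 := by
      rcases mul_eq_zero.mp h2 with h | h
      · exact h
      · exact absurd h (mul_ne_zero (pow_ne_zero _ hi) hi)
    by_cases hc : c = 0
    · exact Or.inl hc
    · right
      rw [hcq] at h3
      have : c * (1 + c ^ (q - 1)) = 0 := by linear_combination h3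
      rcases mul_eq_zero.mp this with h | h
      · exact absurd h hc
      · linear_combination h
  · intro h x y
    rw [key]
    have : c + c ^ q = 0 := by
      rcases h with h | h
      · rw [h, zero_pow (by omega)]; simp
      · rw [hcq, h]; ring
    rw [this]; ring

end Cfsg.Agent.S0779
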