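import Cfsg.Statements.S0792
import Cfsg.Agent.Helper45.Spinor
import Cfsg.Agent.Helper13.Quad

set_option autoImplicit false
open Cfsg

namespace Cfsg.Agent.S0792

/-- For q odd and Q with non-degenerate polar form on F^n, the determinant-one isometries form the subgroup generated by all products r_u r_v of two reflections (Q(u), Q(v) ≠ 0). -/
theorem result {F : Type*} [Field F] [Fintype F] (h2 : (2 : F) ≠ 0) {n : ℕ} (Q : QuadraticForm F (Fin n → F)) (hQ : (QuadraticMap.polarBilin Q).Nondegenerate) : Cfsg.specialIsometryGroup F ⇑Q = Subgroup.closure {g : ↥(Cfsg.isometryGroup F ⇑Q) | ∃ u v : Fin n → F, Q u ≠ 0 ∧ Q v ≠ 0 ∧ ((g : Matrix.GeneralLinearGroup (Fin n) F) : Matrix (Fin n) (Fin n) F) = Cfsg.reflectionMatrix ⇑Q u * Cfsg.reflectionMatrix ⇑Q v} := by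
  classical
  let D : ↥(Cfsg.isometryGroup F ⇑Q) →* Fˣ :=
    Matrix.GeneralLinearGroup.det.comp (Cfsg.isometryGroup F ⇑Q).subtype
  have hDval : ∀ g : ↥(Cfsg.isometryGroup F ⇑Q), ((D g : Fˣ) : F) =
      ((g : Matrix.GeneralLinearGroup (Fin n) F) : Matrix (Fin n) (Fin n) F).det := fun g => rfl
  have hDrefl : ∀ (v : Fin n → F) (hv : Q v ≠ 0), D (Cfsg.Agent.Helper45.reflO Q v hv) = -1 := by
    intro v hv
    apply Units.ext
    rw [hDval, Cfsg.Agent.Helper45.reflO_coe, Cfsg.Agent.Helper13.reflection_det Q v hv]
    simp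
  have hneg : (-1 : Fˣ) ≠ 1 := by
    intro h
    have := congrArg Units.val h
    simp only [Units.val_neg, Units.val_one] at this
    apply h2
    linear_combination -this
  apply le_antisymm
  · intro g hg
    have hg1 : D g = 1 := hg
    have htop := Cfsg.Agent.Helper45.reflGroup_eq_top Q h2 hQ
    have hmem : g ∈ Cfsg.Agent.Helper45.reflGroup Q := by rw [htop]; trivial
    unfold Cfsg.Agent.Helper45.reflGroup at hmem
    rw [← Subgroup.mem_toSubmonoid, Subgroup.closure_toSubmonoid] at hmem
    obtain ⟨l, hl, hlg⟩ := Submonoid.exists_list_of_mem_closure hmem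
    have hl' : ∀ y ∈ l, ∃ (v : Fin n → F) (hv : Q v ≠ 0), y = Cfsg.Agent.Helper45.reflO Q v hv := by
      intro y hy
      rcases hl y hy with h | h
      · exact h
      · obtain ⟨v, hv, h'⟩ := h
        refine ⟨v, hv, ?_⟩
        have h1 : y⁻¹ = Cfsg.Agent.Helper45.reflO Q v hv := h'
        have h3 := Cfsg.Agent.Helper45.reflO_mul_self Q v hv
        rw [← h1] at h3 ⊢
        have : y⁻¹ = y := by
          have h4 : y⁻¹ * y⁻¹ * y = y := by rw [h3, one_mul]
          rw [inv_mul_cancel_right] at h4
          exact h4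
        exact this.symm
    have hdet : ∀ l : List ↥(Cfsg.isometryGroup F ⇑Q),
        (∀ y ∈ l, ∃ (v : Fin n → F) (hv : Q v ≠ 0), y = Cfsg.Agent.Helper45.reflO Q v hv) →
        D l.prod = (-1) ^ l.length := by
      intro l
      induction l with
      | nil => intro _; simp
      | cons a l ih =>
        intro h
        obtain ⟨v, hv, rfl⟩ := h _ (List.mem_cons_self)
        rw [List.prod_cons, map_mul, hDrefl, ih (fun y hy => h y (List.mem_cons_of_mem _ hy)),
          List.length_cons, pow_succ, mul_comm]
    have hpairs : ∀ (k : ℕ) (l : List ↥(Cfsg.isometryGroup F ⇑Q)), l.length = 2 * k →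
        (∀ y ∈ l, ∃ (v : Fin n → F) (hv : Q v ≠ 0), y = Cfsg.Agent.Helper45.reflO Q v hv) →
        l.prod ∈ Subgroup.closure {g : ↥(Cfsg.isometryGroup F ⇑Q) | ∃ u v : Fin n → F,
          Q u ≠ 0 ∧ Q v ≠ 0 ∧
          ((g : Matrix.GeneralLinearGroup (Fin n) F) : Matrix (Fin n) (Fin n) F) =
            Cfsg.reflectionMatrix ⇑Q u * Cfsg.reflectionMatrix ⇑Q v} := by
      intro k
      induction k with
      | zero =>
        intro l hlen _
        have : l = [] := List.length_eq_zero_iff.mp (by simpa using hlen)
        rw [this]; simp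
      | succ k ih =>
        intro l hlen h
        match l, hlen, h with
        | a :: b :: l', hlen, h =>
          obtain ⟨u, hu, rfl⟩ := h _ (List.mem_cons_self)
          obtain ⟨v, hv, rfl⟩ := h _ (List.mem_cons_of_mem _ List.mem_cons_self)
          rw [List.prod_cons, List.prod_cons, ← mul_assoc]
          apply Subgroup.mul_mem
          · apply Subgroup.subset_closure
            exact ⟨u, v, hu, hv, rfl⟩
          · apply ih l'
            · simp only [List.length_cons] at hlen; omega
            · intro y hy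
              exact h y (List.mem_cons_of_mem _ (List.mem_cons_of_mem _ hy))
        | [a], hlen, _ => simp at hlen; omega
        | [], hlen, _ => simp at hlen
    have hlen : Even l.length := by
      by_contra hodd
      rw [Nat.not_even_iff_odd] at hodd
      have h5 := hdet l hl'
      rw [hlg, hg1, hodd.neg_one_pow] at h5
      exact hneg h5.symm
    obtain ⟨k, hk⟩ := hlen
    rw [← hlg]
    exact hpairs k l (by omega) hl'
  · rw [Subgroup.closure_le]
    rintro g ⟨u, v, hu, hv, hg⟩
    show D g = 1
    apply Units.ext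
    rw [hDval, hg, Matrix.det_mul, Cfsg.Agent.Helper13.reflection_det Q u hu,
      Cfsg.Agent.Helper13.reflection_det Q v hv]
    simp

end Cfsg.Agent.S0792
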