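import Cfsg.Statements.S0796
import Mathlib

set_option autoImplicit false
open Cfsg

namespace Cfsg.Agent.S0796

/-- If G is finite and acts faithfully and primitively on X, H is the stabiliser of a point, A is a normal subgroup of H whose normal closure in G is G, then for every non-trivial normal subgroup K of G the quotient G ⧸ K is isomorphic to A ⧸ B for some normal subgroup B of A. -/
theorem result {G X : Type*} [Group G] [Finite G] [MulAction G X] [FaithfulSMul G X] (hprim : MulAction.IsPreprimitive G X) (x : X) (A : Subgroup G) (hA : A ≤ MulAction.stabilizer G x) (hAn : (A.subgroupOf (MulAction.stabilizer G x)).Normal) (hgen : Subgroup.normalClosure (A : Set G) = ⊤) (K : Subgroup G) [K.Normal] (hK : K ≠ ⊥) : ∃ (B : Subgroup A) (_ : B.Normal), Nonempty (G ⧸ K ≃* A ⧸ B) := by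
  classical
  have := hprim
  -- K acts nontrivially
  have hNX : MulAction.fixedPoints K X ≠ Set.univ := by
    intro h
    apply hK
    refine K.eq_bot_iff_forall.mpr fun k hk => ?_
    apply FaithfulSMul.eq_of_smul_eq_smul (α := X)
    intro y
    rw [one_smul]
    exact Set.eq_univ_iff_forall.mp h y ⟨k, hk⟩
  have is_transK : MulAction.IsPretransitive K X :=
    MulAction.IsQuasiPreprimitive.isPretransitive_of_normal hNX
  -- every conjugate of an element of A lies in K ⊔ A
  have hconj : ∀ g : G, ∀ a ∈ A, g * a * g⁻¹ ∈ K ⊔ A := by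
    intro g a ha
    obtain ⟨k, hk⟩ := MulAction.exists_smul_eq K x (g • x)
    have hk' : (k : G) • x = g • x := hk
    have hh : (k : G)⁻¹ * g ∈ MulAction.stabilizer G x := by
      rw [MulAction.mem_stabilizer_iff, mul_smul, ← hk', inv_smul_smul]
    set h : G := (k : G)⁻¹ * g with hdef
    have hg : g = (k : G) * h := by rw [hdef]; group
    have hha : h * a * h⁻¹ ∈ A := by
      have := hAn.conj_mem ⟨a, hA ha⟩ (Subgroup.mem_subgroupOf.mpr ha) ⟨h, hh⟩
      rw [Subgroup.mem_subgroupOf] at this
      simpa using this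
    have : g * a * g⁻¹ = (k : G) * (h * a * h⁻¹) * (k : G)⁻¹ := by rw [hg]; group
    rw [this]
    have hkK : (k : G) ∈ K ⊔ A := Subgroup.mem_sup_left k.2
    exact (K ⊔ A).mul_mem ((K ⊔ A).mul_mem hkK (Subgroup.mem_sup_right hha)) ((K ⊔ A).inv_mem hkK)
  have htop : K ⊔ A = ⊤ := by
    rw [eq_top_iff, ← hgen, Subgroup.normalClosure]
    rw [Subgroup.closure_le]
    intro y hy
    rw [Group.mem_conjugatesOfSet_iff] at hy
    obtain ⟨a, ha, hay⟩ := hy
    rw [isConj_iff] at hay
    obtain ⟨c, rfl⟩ := hay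
    exact hconj c a ha
  -- the map A → G ⧸ K
  let φ : A →* G ⧸ K := (QuotientGroup.mk' K).comp A.subtype
  have hsurj : Function.Surjective φ := by
    intro y
    obtain ⟨g, rfl⟩ := QuotientGroup.mk_surjective y
    have hg : g ∈ K ⊔ A := by rw [htop]; exact Subgroup.mem_top g
    rw [← SetLike.mem_coe, Subgroup.normal_mul] at hg
    obtain ⟨k, hk, a, ha, rfl⟩ := hg
    refine ⟨⟨a, ha⟩, ?_⟩
    change ((a : G) : G ⧸ K) = ((k * a : G) : G ⧸ K)
    rw [QuotientGroup.eq]
    have : a⁻¹ * (k * a) = a⁻¹ * k * a⁻¹⁻¹ := by group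
    rw [this]
    exact Subgroup.Normal.conj_mem inferInstance k hk a⁻¹
  exact ⟨φ.ker, inferInstance, ⟨(QuotientGroup.quotientKerEquivOfSurjective φ hsurj).symm⟩⟩

end Cfsg.Agent.S0796
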