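import Cfsg.Statements.S0799
import Cfsg.Agent.Helper41.DkPSL

set_option autoImplicit false
open Cfsg

namespace Cfsg.Agent.S0799

open Cfsg.Agent.Helper41 Cfsg.Agent.Helper41.Dk

/-- Dickson's classification of the subgroups of PSL_2(q), q a power of the prime p, d = gcd(2, q − 1): every subgroup H is (a) cyclic or dihedral with k dividing (q+1)/d or (q−1)/d (cyclic of order k, or dihedral of order 2k), (b) isomorphic to a subgroup of the normaliser of a Sylow p-subgroup, (c) isomorphic to A_4, S_4 or A_5, or (d) isomorphic to PSL_2(K) or PGL_2(K) for a finite field K with |K|^m = q. -/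
theorem result {F : Type*} [Field F] [Fintype F] {q : ℕ} (hF : Fintype.card F = q) (p : ℕ) [Fact p.Prime] [CharP F p] (H : Subgroup (Matrix.ProjectiveSpecialLinearGroup (Fin 2) F)) : (∃ k : ℕ, (k ∣ (q + 1) / Nat.gcd 2 (q - 1) ∨ k ∣ (q - 1) / Nat.gcd 2 (q - 1)) ∧ ((IsCyclic H ∧ Nat.card H = k) ∨ Nonempty (H ≃* DihedralGroup k))) ∨ (∃ (P : Sylow p (Matrix.ProjectiveSpecialLinearGroup (Fin 2) F)) (K : Subgroup (Matrix.ProjectiveSpecialLinearGroup (Fin 2) F)), K ≤ Subgroup.normalizer ((P : Subgroup (Matrix.ProjectiveSpecialLinearGroup (Fin 2) F)) : Set (Matrix.ProjectiveSpecialLinearGroup (Fin 2) F)) ∧ Nonempty (H ≃* K)) ∨ Nonempty (H ≃* alternatingGroup (Fin 4)) ∨ Nonempty (H ≃* Equiv.Perm (Fin 4)) ∨ Nonempty (H ≃* alternatingGroup (Fin 5)) ∨ (∃ (K : Type) (_ : Field K) (_ : Fintype K) (m : ℕ), Fintype.card K ^ m = q ∧ (Nonempty (H ≃* Matrix.ProjectiveSpecialLinearGroup (Fin 2) K) ∨ Nonempty (H ≃* Matrix.ProjGenLinGroup (Fin 2) K)))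 := by
  classical
  subst hF
  obtain ⟨Ht, hHt⟩ : ∃ Ht : Subgroup (Matrix.SpecialLinearGroup (Fin 2) F), Ht =
      H.comap (QuotientGroup.mk' (Subgroup.center (Matrix.SpecialLinearGroup (Fin 2) F))) :=
    ⟨_, rfl⟩
  have hle : Subgroup.center (Matrix.SpecialLinearGroup (Fin 2) F) ≤ Ht := by
    intro z hz
    rw [hHt, Subgroup.mem_comap, QuotientGroup.mk'_apply, (QuotientGroup.eq_one_iff z).mpr hz]
    exact H.one_mem
  obtain ⟨br⟩ : Nonempty ((↥Ht ⧸ (Subgroup.center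
      (Matrix.SpecialLinearGroup (Fin 2) F)).subgroupOf Ht) ≃* ↥H) := by
    subst hHt
    exact psl_bridge H
  have hD := dickson_subgroup p Ht hle
  have hZ : ∀ g : Ht, g ∈ (Subgroup.center (Matrix.SpecialLinearGroup (Fin 2) F)).subgroupOf Ht ↔
      Ht.subtype g ∈ Subgroup.center (Matrix.SpecialLinearGroup (Fin 2) F) :=
    fun g => Subgroup.mem_subgroupOf
  have hcardZ : Nat.card ((Subgroup.center (Matrix.SpecialLinearGroup (Fin 2) F)).subgroupOf Ht) =
      Nat.gcd 2 (Fintype.card F - 1) := by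
    rw [Nat.card_congr (Subgroup.subgroupOfEquivOfLe hle).toEquiv]; exact card_center_gcd p
  rcases hD with hB | hT | ⟨-, ⟨e⟩⟩ | ⟨-, ⟨e⟩⟩ | ⟨-, ⟨e⟩⟩ | ⟨Q, hQ, K0, hS⟩
  · right; left
    obtain ⟨v, hv, hfix⟩ := hB
    obtain ⟨P, hP⟩ := borel_case p H v hv (fun g hg => hfix ⟨g, by rw [hHt]; exact hg⟩)
    exact ⟨P, H, hP, ⟨MulEquiv.refl _⟩⟩
  · left
    obtain ⟨x, hxZ, ht, hx⟩ := hT
    obtain ⟨k, hk, hk2⟩ := torus_concl Ht.subtype p Subtype.val_injective _ hZ x hxZ ht hx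
    rw [hcardZ] at hk
    refine ⟨k, ?_, ?_⟩
    · rcases hk with h | h
      · left; exact Nat.dvd_div_of_mul_dvd (by rw [mul_comm]; exact h)
      · right; exact Nat.dvd_div_of_mul_dvd (by rw [mul_comm]; exact h)
    · rcases hk2 with ⟨hc, hcard⟩ | ⟨⟨e⟩⟩
      · left
        haveI := hc
        refine ⟨isCyclic_of_surjective br br.surjective, ?_⟩
        rw [← hcard]; exact Nat.card_congr br.symm.toEquiv
      · right; exact ⟨br.symm.trans e⟩
  · right; right; left; exact ⟨br.symm.trans e⟩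
  · right; right; right; left; exact ⟨br.symm.trans e⟩
  · right; right; right; right; left; exact ⟨br.symm.trans e⟩
  · right; right; right; right; right
    obtain ⟨K, hKf, hKfin, m, φ, hcard, hφ⟩ := exists_small_field p K0
    have hZ2 : ∀ g : Ht, g ∈ (Subgroup.center
        (Matrix.SpecialLinearGroup (Fin 2) F)).subgroupOf Ht ↔
        ((conjGL Q hQ).comp Ht.subtype) g ∈
          Subgroup.center (Matrix.SpecialLinearGroup (Fin 2) F) := by
      intro g
      rw [MonoidHom.comp_apply, conjGL_mem_center]; exact Subgroup.mem_subgroupOf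
    refine ⟨K, hKf, hKfin, m, hcard, ?_⟩
    rcases hS with h1 | ⟨lam, hlam, hlam2, h2⟩
    · left
      obtain ⟨e⟩ := sl2K_case φ K0 ((conjGL Q hQ).comp Ht.subtype) _ hφ hZ2 h1
      exact ⟨br.symm.trans e⟩
    · right
      obtain ⟨e⟩ := pgl2K_case φ K0 ((conjGL Q hQ).comp Ht.subtype) _ hφ hZ2 lam hlam hlam2 h2
      exact ⟨br.symm.trans e⟩

end Cfsg.Agent.S0799
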