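import Cfsg.Statements.S0800
import Cfsg.Agent.Helper41.SL2d

set_option autoImplicit false
open Cfsg

namespace Cfsg.Agent.S0800

open Cfsg.Agent.Helper41

/-- Tori of SL_2(q): if g ∈ SL_2(q) has order coprime to the characteristic p, then the order of g divides q − 1 or q + 1. -/
theorem result {F : Type*} [Field F] [Fintype F] {q : ℕ} (hF : Fintype.card F = q) (p : ℕ) [Fact p.Prime] [CharP F p] (g : Matrix.SpecialLinearGroup (Fin 2) F) (hg : Nat.Coprime (orderOf g) p) : orderOf g ∣ q - 1 ∨ orderOf g ∣ q + 1 := by
  subst hF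
  have hpp : p.Prime := Fact.out
  have hpow : ∀ n : ℕ, (g : Matrix (Fin 2) (Fin 2) F) ^ n = 1 → orderOf g ∣ n := by
    intro n hn
    apply orderOf_dvd_of_pow_eq_one
    apply Subtype.ext
    rw [Matrix.SpecialLinearGroup.coe_pow, hn]
    rfl
  by_cases hroot : ∃ l : F, l ^ 2 - (g : Matrix (Fin 2) (Fin 2) F).trace * l + 1 = 0
  · obtain ⟨l, hl⟩ := hroot
    have hl0 : l ≠ 0 := by
      rintro rfl
      simp at hl
    by_cases hl2 : l ^ 2 = 1
    · have ht : (g : Matrix (Fin 2) (Fin 2) F).trace = 2 * l := by
        have h1 : (g : Matrix (Fin 2) (Fin 2) F).trace * l = 2 := by linear_combination hl2 - hl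
        calc (g : Matrix (Fin 2) (Fin 2) F).trace
            = (g : Matrix (Fin 2) (Fin 2) F).trace * l ^ 2 := by rw [hl2, mul_one]
          _ = 2 * l := by rw [pow_two, ← mul_assoc, h1]
      have h1 := unip_pow_eq p g l hl2 ht
      have h2 : (g : Matrix (Fin 2) (Fin 2) F) ^ (p * 2) = 1 := by
        rw [pow_mul, h1, smul_pow, one_pow, ← pow_mul, mul_comm p 2, pow_mul, hl2, one_pow, one_smul]
      have h3 : orderOf g ∣ 2 := (Nat.Coprime.dvd_mul_left hg).mp (hpow _ h2)
      by_cases hp2 : p = 2
      · subst hp2
        have h4 : orderOf g = 1 := by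
          have := Nat.Coprime.eq_one_of_dvd hg h3
          exact this
        left; rw [h4]; exact one_dvd _
      · left
        have hodd : Fintype.card F % 2 = 1 := by
          apply FiniteField.odd_card_of_char_ne_two
          rw [ringChar.eq F p]; exact hp2
        exact dvd_trans h3 (by omega)
    · left
      apply hpow
      have := split_pow_eq g l hl hl2 (Fintype.card F - 1) 1 (by norm_num)
        (FiniteField.pow_card_sub_one_eq_one l hl0)
      rw [this, one_smul]
  · right
    push Not at hroot
    exact hpow _ (nonsplit_pow g hroot).1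

end Cfsg.Agent.S0800
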