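import Cfsg.Statements.S0801
import Cfsg.Agent.Helper41.DkMax
import Cfsg.Agent.Helper99.DicksonLiteB
import Cfsg.Agent.Helper56.SL25

set_option autoImplicit false
open Cfsg

namespace Cfsg.Agent.S0801

section aux

open Cfsg.Agent.Helper41 Cfsg.Agent.Helper41.Dk Matrix

variable {F : Type*} [Field F]

local notation "SL2" => Matrix.SpecialLinearGroup (Fin 2) F

/-- the generating set of the statement is `{Lx 1, Ux lam}`. -/
theorem gens_eq (lam : F) :
    {g : SL2 | (g : Matrix (Fin 2) (Fin 2) F) = !![1, 0; 1, 1] ∨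
      (g : Matrix (Fin 2) (Fin 2) F) = !![1, lam; 0, 1]} = {Lx 1, Ux lam} := by
  ext g
  simp only [Set.mem_ofPred_eq, Set.mem_insert_iff, Set.mem_singleton_iff]
  constructor
  · rintro (h | h)
    · left; exact Subtype.ext h
    · right; exact Subtype.ext h
  · rintro (rfl | rfl)
    · left; rfl
    · right; rfl

/-- an involution of `SL₂(F)` (char ≠ 2) generates the centre. -/
theorem center_le_of_invol (h2 : (2 : F) ≠ 0) (L : Subgroup SL2) (k : SL2) (hk : k ∈ L)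
    (hkk : k * k = 1) (hk1 : k ≠ 1) : Subgroup.center SL2 ≤ L := by
  have e00 := congrArg (fun g : SL2 => g.1 0 0) hkk
  have e01 := congrArg (fun g : SL2 => g.1 0 1) hkk
  have e10 := congrArg (fun g : SL2 => g.1 1 0) hkk
  have e11 := congrArg (fun g : SL2 => g.1 1 1) hkk
  simp only [mul_e00, mul_e01, mul_e10, mul_e11, Matrix.SpecialLinearGroup.coe_one,
    Matrix.one_apply_eq, ne_eq, zero_ne_one, not_false_eq_true, Matrix.one_apply_ne,
    one_ne_zero] at e00 e01 e10 e11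
  have hd := sl2_det k
  have h4 : (k.1 0 0 + k.1 1 1) ^ 2 = 4 := by linear_combination e00 + e11 + 2 * hd
  have hne : k.1 0 0 + k.1 1 1 ≠ 0 := by
    intro h
    rw [h] at h4
    have h5 : (2 : F) * 2 = 0 := by linear_combination -h4
    exact h2 (mul_self_eq_zero.mp h5)
  have hb : k.1 0 1 = 0 := by
    have : k.1 0 1 * (k.1 0 0 + k.1 1 1) = 0 := by linear_combination e01
    exact (mul_eq_zero.mp this).resolve_right hne
  have hc : k.1 1 0 = 0 := by
    have : k.1 1 0 * (k.1 0 0 + k.1 1 1) = 0 := by linear_combination e10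
    exact (mul_eq_zero.mp this).resolve_right hne
  have had : k.1 0 0 = k.1 1 1 := by
    have : (k.1 0 0 - k.1 1 1) * (k.1 0 0 + k.1 1 1) = 0 := by linear_combination e00 - e11
    exact sub_eq_zero.mp ((mul_eq_zero.mp this).resolve_right hne)
  have ha : k.1 0 0 = -1 := by
    have : (k.1 0 0 - 1) * (k.1 0 0 + 1) = 0 := by
      rw [hb] at e00; linear_combination e00
    rcases mul_eq_zero.mp this with h | h
    · exfalso
      apply hk1
      have h1 : k.1 0 0 = 1 := sub_eq_zero.mp h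
      apply sl_ext
      · simpa using h1
      · simpa using hb
      · simpa using hc
      · rw [← had]; simpa using h1
    · exact eq_neg_of_add_eq_zero_left h
  intro z hz
  rw [center_iff_entries] at hz
  obtain ⟨z10, z01, z00⟩ := hz
  have hdz := sl2_det z
  rw [z10, z01, ← z00] at hdz
  have h1 : (z.1 0 0 - 1) * (z.1 0 0 + 1) = 0 := by linear_combination hdz
  rcases mul_eq_zero.mp h1 with h | h
  · have h1 : z.1 0 0 = 1 := sub_eq_zero.mp h
    have : z = 1 := by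
      apply sl_ext
      · simpa using h1
      · simpa using z01
      · simpa using z10
      · rw [← z00]; simpa using h1
    rw [this]; exact L.one_mem
  · have h1 : z.1 0 0 = -1 := eq_neg_of_add_eq_zero_left h
    have : z = k := by
      apply sl_ext
      · rw [h1, ha]
      · rw [z01, hb]
      · rw [z10, hc]
      · rw [← z00, ← had, h1, ha]
    rw [this]; exact hk

/-- the Weyl element. -/
def wS : SL2 := mkSL 0 1 (-1) 0 (by ring)

theorem wS_Ux : wS * Ux (1 : F) * wS⁻¹ = (Lx 1)⁻¹ := by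
  apply sl_ext <;>
    simp only [wS, Lx, mul_e00, mul_e01, mul_e10, mul_e11, mk_e00, mk_e01, mk_e10, mk_e11,
      Ux_e00, Ux_e01, Ux_e10, Ux_e11, inv_e00, inv_e01, inv_e10, inv_e11] <;> ring

theorem wS_Lx (lam : F) : wS * Lx lam * wS⁻¹ = (Ux lam)⁻¹ := by
  apply sl_ext <;>
    simp only [wS, Lx, mul_e00, mul_e01, mul_e10, mul_e11, mk_e00, mk_e01, mk_e10, mk_e11,
      Ux_e00, Ux_e01, Ux_e10, Ux_e11, inv_e00, inv_e01, inv_e10, inv_e11] <;> ring

theorem arith_even (p : ℕ) (hp : Odd p) : 2 ∣ p * (p ^ 2 - 1) := by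
  obtain ⟨k, rfl⟩ := hp
  have : (2 * k + 1) ^ 2 - 1 = 2 * (2 * k ^ 2 + 2 * k) := by
    apply Nat.sub_eq_of_eq_add; ring
  rw [this]
  exact ⟨(2 * k + 1) * (2 * k ^ 2 + 2 * k), by ring⟩

/-- a copy of `SL₂(p)` inside `⟨Lx 1, Ux lam⟩` (helper99's Dickson-lite, transported). -/
theorem exists_K [Fintype F] (p : ℕ) [Fact p.Prime] [CharP F p] (hp : p ≠ 2) (lam : F)
    (hlam : lam ≠ 0) :
    ∃ K' : Subgroup SL2, K' ≤ Subgroup.closure {Lx 1, Ux lam} ∧
      Nat.card K' = p * (p ^ 2 - 1) := by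
  obtain ⟨K, hK, ⟨e⟩⟩ := Cfsg.Agent.Helper99.dl_exists_sl2_field p hp lam hlam (Ux 1) (Lx lam)
    rfl rfl
  refine ⟨K.map (MulAut.conj wS).toMonoidHom, ?_, ?_⟩
  · rw [Subgroup.map_le_iff_le_comap]
    refine hK.trans ?_
    rw [Subgroup.closure_le]
    intro g hg
    simp only [Set.mem_insert_iff, Set.mem_singleton_iff] at hg
    show (MulAut.conj wS) g ∈ Subgroup.closure {Lx 1, Ux lam}
    rw [MulAut.conj_apply]
    rcases hg with rfl | rfl
    · rw [wS_Ux]
      exact Subgroup.inv_mem _ (Subgroup.subset_closure (by simp))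
    · rw [wS_Lx]
      exact Subgroup.inv_mem _ (Subgroup.subset_closure (by simp))
  · rw [Subgroup.card_map_of_injective (MulAut.conj wS).injective, Nat.card_congr e.toEquiv,
      Cfsg.Agent.Helper5.card_SL2, ZMod.card]

theorem center_le [Fintype F] (p : ℕ) [Fact p.Prime] [CharP F p] (hp : p ≠ 2) (h2 : (2 : F) ≠ 0)
    (lam : F) (hlam : lam ≠ 0) :
    Subgroup.center SL2 ≤ Subgroup.closure {Lx 1, Ux lam} := by
  obtain ⟨K', hK', hcard⟩ := exists_K p hp lam hlam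
  have hodd : Odd p := (Fact.out : p.Prime).odd_of_ne_two hp
  have h2dvd : 2 ∣ Nat.card K' := by rw [hcard]; exact arith_even p hodd
  have : Fact (Nat.Prime 2) := ⟨Nat.prime_two⟩
  obtain ⟨k, hk⟩ := exists_prime_orderOf_dvd_card' 2 h2dvd
  refine center_le_of_invol h2 _ k.1 (hK' k.2) ?_ ?_
  · have h1 : k ^ 2 = 1 := by
      have h0 := pow_orderOf_eq_one k
      rwa [hk] at h0
    have h3 : (k * k : K') = 1 := by rw [← sq]; exact h1
    exact congrArg Subtype.val h3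
  · intro h
    have h1 : k = 1 := Subtype.ext h
    rw [h1, orderOf_one] at hk
    omega

/-! ### field size -/

/-- if the generator is fixed by the `k`-th power of Frobenius, so is everything. -/
theorem forall_pow_eq (p : ℕ) [Fact p.Prime] [CharP F p] (k : ℕ) (lam : F)
    (hgen : Subfield.closure ({lam} : Set F) = ⊤) (h : lam ^ (p ^ k) = lam) :
    ∀ x : F, x ^ (p ^ k) = x := by
  intro x
  have hle : Subfield.closure ({lam} : Set F) ≤
      (iterateFrobenius F p k).eqLocusField (RingHom.id F) := by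
    rw [Subfield.closure_le]
    intro y hy
    rw [Set.mem_singleton_iff] at hy
    subst hy
    show iterateFrobenius F p k y = RingHom.id F y
    rw [iterateFrobenius_def]; exact h
  have hx : x ∈ (iterateFrobenius F p k).eqLocusField (RingHom.id F) :=
    hle (by rw [hgen]; trivial)
  have h1 : iterateFrobenius F p k x = RingHom.id F x := hx
  rwa [iterateFrobenius_def] at h1

theorem card_le_of_pow [Fintype F] (p : ℕ) [Fact p.Prime] [CharP F p] (k : ℕ) (hk : 0 < k)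
    (lam : F) (hgen : Subfield.closure ({lam} : Set F) = ⊤) (h : lam ^ (p ^ k) = lam) :
    Fintype.card F ≤ p ^ k := by
  classical
  have hall := forall_pow_eq p k lam hgen h
  obtain ⟨g, hg⟩ := IsCyclic.exists_generator (α := Fˣ)
  have ho : orderOf g = Nat.card Fˣ := orderOf_eq_card_of_forall_mem_zpowers hg
  have hp1 : 2 ≤ p ^ k := by
    calc 2 ≤ p := (Fact.out : p.Prime).two_le
      _ = p ^ 1 := (pow_one p).symm
      _ ≤ p ^ k := Nat.pow_le_pow_right (Fact.out : p.Prime).pos hk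
  have hg1 : g ^ (p ^ k - 1) = 1 := by
    apply Units.ext
    rw [Units.val_pow_eq_pow_val, Units.val_one]
    have h1 := hall (g : F)
    have h2 : (g : F) ^ (p ^ k - 1) * (g : F) = 1 * (g : F) := by
      rw [← pow_succ, Nat.sub_add_cancel (by omega), h1, one_mul]
    exact mul_right_cancel₀ g.ne_zero h2
  have hd : orderOf g ∣ p ^ k - 1 := orderOf_dvd_of_pow_eq_one hg1
  rw [ho, Nat.card_units, Nat.card_eq_fintype_card] at hd
  have := Nat.le_of_dvd (by omega) hd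
  omega

theorem card_eq_p [Fintype F] (p : ℕ) [Fact p.Prime] [CharP F p]
    (lam : F) (hgen : Subfield.closure ({lam} : Set F) = ⊤) (h : lam ^ p = lam) :
    Fintype.card F = p := by
  have h1 := card_le_of_pow p 1 one_pos lam hgen (by rw [pow_one]; exact h)
  obtain ⟨n, -, hn⟩ := FiniteField.card F p
  rw [hn] at h1 ⊢
  have hn1 : (n : ℕ) ≤ 1 := (Nat.pow_le_pow_iff_right (Fact.out : p.Prime).one_lt).mp h1
  have hn0 : 0 < (n : ℕ) := n.pos
  have : (n : ℕ) = 1 := by omega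
  rw [this, pow_one]

theorem card_SL2_of_pow [Fintype F] (p : ℕ) [Fact p.Prime] [CharP F p]
    (lam : F) (hgen : Subfield.closure ({lam} : Set F) = ⊤) (h : lam ^ p = lam) :
    Nat.card SL2 = p * (p ^ 2 - 1) := by
  rw [Cfsg.Agent.Helper5.card_SL2, card_eq_p p lam hgen h]

/-! ### powers and traces -/

theorem pow_rec (g : SL2) (n : ℕ) :
    ((g ^ (n + 2) : SL2) : Matrix (Fin 2) (Fin 2) F) 1 0 =
      tr g * ((g ^ (n + 1) : SL2) : Matrix (Fin 2) (Fin 2) F) 1 0 -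
        ((g ^ n : SL2) : Matrix (Fin 2) (Fin 2) F) 1 0 := by
  have h := sl2_sq g
  have e : ((g ^ (n + 2) : SL2) : Matrix (Fin 2) (Fin 2) F) =
      tr g • ((g ^ (n + 1) : SL2) : Matrix (Fin 2) (Fin 2) F) -
        ((g ^ n : SL2) : Matrix (Fin 2) (Fin 2) F) := by
    rw [pow_succ, pow_succ, mul_assoc, Matrix.SpecialLinearGroup.coe_mul,
      Matrix.SpecialLinearGroup.coe_mul (g ^ n) g, Matrix.SpecialLinearGroup.coe_mul g g, h,
      Matrix.mul_sub, Matrix.mul_smul, Matrix.mul_one]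
  rw [e]
  simp [Matrix.sub_apply, Matrix.smul_apply]

theorem e10_pow2 (g : SL2) : ((g ^ 2 : SL2) : Matrix (Fin 2) (Fin 2) F) 1 0 = tr g * g.1 1 0 := by
  have h2 := pow_rec g 0
  simp only [zero_add, pow_one, pow_zero, Matrix.SpecialLinearGroup.coe_one] at h2
  rw [h2]; simp

theorem e10_pow3 (g : SL2) :
    ((g ^ 3 : SL2) : Matrix (Fin 2) (Fin 2) F) 1 0 = (tr g ^ 2 - 1) * g.1 1 0 := by
  have h3 := pow_rec g 1
  simp only [pow_one] at h3
  have h2 := e10_pow2 g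
  rw [show (1 + 2 : ℕ) = 3 from rfl, show (1 + 1 : ℕ) = 2 from rfl, h2] at h3
  rw [h3]; ring

theorem e10_pow4 (g : SL2) :
    ((g ^ 4 : SL2) : Matrix (Fin 2) (Fin 2) F) 1 0 = (tr g ^ 3 - 2 * tr g) * g.1 1 0 := by
  have h4 := pow_rec g 2
  rw [show (2 + 2 : ℕ) = 4 from rfl, show (2 + 1 : ℕ) = 3 from rfl, e10_pow3, e10_pow2] at h4
  rw [h4]; ring

theorem e10_pow5 (g : SL2) :
    ((g ^ 5 : SL2) : Matrix (Fin 2) (Fin 2) F) 1 0 =
      (tr g ^ 4 - 3 * tr g ^ 2 + 1) * g.1 1 0 := by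
  have h5 := pow_rec g 3
  rw [show (3 + 2 : ℕ) = 5 from rfl, show (3 + 1 : ℕ) = 4 from rfl, e10_pow4, e10_pow3] at h5
  rw [h5]; ring

/-! ### quotients -/

theorem pow_mem_of_iso {X A : Type*} [Group X] [Group A] (Z : Subgroup X) [Z.Normal]
    (e : X ⧸ Z ≃* A) (g : X) (n : ℕ) (h : (e (g : X ⧸ Z)) ^ n = 1) : g ^ n ∈ Z := by
  rw [← map_pow, ← QuotientGroup.mk_pow] at h
  have h1 : ((g ^ n : X) : X ⧸ Z) = 1 := by
    apply e.injective; rw [h, map_one]
  exact (QuotientGroup.eq_one_iff _).mp h1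

theorem a4_orders : ∀ a : alternatingGroup (Fin 4), a ^ 2 = 1 ∨ a ^ 3 = 1 := by decide

theorem s4_orders : ∀ a b : Equiv.Perm (Fin 4), a ^ 3 = 1 → b ^ 3 = 1 →
    (a * b) ^ 2 = 1 ∨ (a * b) ^ 3 = 1 := by decide +kernel

theorem a5_orders : ∀ a : alternatingGroup (Fin 5), a ^ 2 = 1 ∨ a ^ 3 = 1 ∨ a ^ 5 = 1 := by
  decide +kernel

theorem e10_of_pow_mem (L : Subgroup SL2) (g : SL2) (hg : g ∈ L) (n : ℕ)
    (h : (⟨g, hg⟩ : L) ^ n ∈ (Subgroup.center SL2).subgroupOf L) :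
    ((g ^ n : SL2) : Matrix (Fin 2) (Fin 2) F) 1 0 = 0 := by
  rw [Subgroup.mem_subgroupOf] at h
  have h1 : g ^ n ∈ Subgroup.center SL2 := h
  exact ((center_iff_entries _).mp h1).1

theorem tr_A4 (L : Subgroup SL2)
    (e : L ⧸ (Subgroup.center SL2).subgroupOf L ≃* alternatingGroup (Fin 4)) (g : SL2)
    (hg : g ∈ L) (h10 : g.1 1 0 = 1) : tr g = 0 ∨ tr g ^ 2 = 1 := by
  rcases a4_orders (e ((⟨g, hg⟩ : L) : L ⧸ (Subgroup.center SL2).subgroupOf L)) with h | h
  · left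
    have h1 := e10_of_pow_mem L g hg 2 (pow_mem_of_iso _ e _ 2 h)
    rw [e10_pow2, h10, mul_one] at h1
    exact h1
  · right
    have h1 := e10_of_pow_mem L g hg 3 (pow_mem_of_iso _ e _ 3 h)
    rw [e10_pow3, h10, mul_one] at h1
    linear_combination h1

theorem tr_A5 (L : Subgroup SL2)
    (e : L ⧸ (Subgroup.center SL2).subgroupOf L ≃* alternatingGroup (Fin 5)) (g : SL2)
    (hg : g ∈ L) (h10 : g.1 1 0 = 1) :
    tr g = 0 ∨ tr g ^ 2 = 1 ∨ tr g ^ 4 - 3 * tr g ^ 2 + 1 = 0 := by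
  rcases a5_orders (e ((⟨g, hg⟩ : L) : L ⧸ (Subgroup.center SL2).subgroupOf L)) with h | h | h
  · left
    have h1 := e10_of_pow_mem L g hg 2 (pow_mem_of_iso _ e _ 2 h)
    rw [e10_pow2, h10, mul_one] at h1
    exact h1
  · right; left
    have h1 := e10_of_pow_mem L g hg 3 (pow_mem_of_iso _ e _ 3 h)
    rw [e10_pow3, h10, mul_one] at h1
    linear_combination h1
  · right; right
    have h1 := e10_of_pow_mem L g hg 5 (pow_mem_of_iso _ e _ 5 h)
    rw [e10_pow5, h10, mul_one] at h1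
    exact h1

theorem tr_S4 (L : Subgroup SL2)
    (e : L ⧸ (Subgroup.center SL2).subgroupOf L ≃* Equiv.Perm (Fin 4)) (a b : SL2)
    (ha : a ∈ L) (hb : b ∈ L) (ha3 : a ^ 3 = 1) (hb3 : b ^ 3 = 1)
    (h10 : (a * b).1 1 0 = 1) : tr (a * b) = 0 ∨ tr (a * b) ^ 2 = 1 := by
  have hab : a * b ∈ L := L.mul_mem ha hb
  have e1 : (e ((⟨a, ha⟩ : L) : L ⧸ (Subgroup.center SL2).subgroupOf L)) ^ 3 = 1 := by
    rw [← map_pow, ← QuotientGroup.mk_pow]
    have : (⟨a, ha⟩ : L) ^ 3 = 1 := Subtype.ext ha3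
    rw [this, QuotientGroup.mk_one, map_one]
  have e2 : (e ((⟨b, hb⟩ : L) : L ⧸ (Subgroup.center SL2).subgroupOf L)) ^ 3 = 1 := by
    rw [← map_pow, ← QuotientGroup.mk_pow]
    have : (⟨b, hb⟩ : L) ^ 3 = 1 := Subtype.ext hb3
    rw [this, QuotientGroup.mk_one, map_one]
  have e3 : e ((⟨a * b, hab⟩ : L) : L ⧸ (Subgroup.center SL2).subgroupOf L) =
      e ((⟨a, ha⟩ : L) : L ⧸ (Subgroup.center SL2).subgroupOf L) *
        e ((⟨b, hb⟩ : L) : L ⧸ (Subgroup.center SL2).subgroupOf L) := by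
    rw [← map_mul, ← QuotientGroup.mk_mul]; rfl
  rcases s4_orders _ _ e1 e2 with h | h
  · left
    rw [← e3] at h
    have h1 := e10_of_pow_mem L (a * b) hab 2 (pow_mem_of_iso _ e _ 2 h)
    rw [e10_pow2, h10, mul_one] at h1
    exact h1
  · right
    rw [← e3] at h
    have h1 := e10_of_pow_mem L (a * b) hab 3 (pow_mem_of_iso _ e _ 3 h)
    rw [e10_pow3, h10, mul_one] at h1
    linear_combination h1

/-! ### killing the cases of Dickson's list -/

theorem no_fix (lam : F) (hlam : lam ≠ 0) (v : Fin 2 → F) (hv : v ≠ 0) (c c' : F)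
    (h1 : (Lx (1 : F)).1 *ᵥ v = c • v) (h2 : (Ux lam).1 *ᵥ v = c' • v) : False := by
  have e0 := congrFun h2 0
  have e1 := congrFun h2 1
  have f0 := congrFun h1 0
  have f1 := congrFun h1 1
  simp only [Matrix.mulVec, dotProduct, Fin.sum_univ_two, Pi.smul_apply, smul_eq_mul, Lx,
    Ux_e00, Ux_e01, Ux_e10, Ux_e11, mk_e00, mk_e01, mk_e10, mk_e11] at e0 e1 f0 f1
  have hv1 : v 1 = 0 := by
    have h : lam * v 1 ^ 2 = 0 := by linear_combination (v 1) * e0 - (v 0) * e1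
    rcases mul_eq_zero.mp h with h | h
    · exact absurd h hlam
    · exact pow_eq_zero_iff two_ne_zero |>.mp h
  have hv0 : v 0 = 0 := by
    have h : v 0 ^ 2 = 0 := by linear_combination (v 0) * f1 - (v 1) * f0
    exact pow_eq_zero_iff two_ne_zero |>.mp h
  apply hv
  ext i
  fin_cases i
  · exact hv0
  · exact hv1

theorem no_T (h2 : (2 : F) ≠ 0) (lam : F) (hlam : lam ≠ 0)
    (h : (Lx (1 : F) * Lx 1) * (Ux lam * Ux lam) = (Ux lam * Ux lam) * (Lx 1 * Lx 1)) :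
    False := by
  have h4 := congrArg (fun g : SL2 => g.1 0 0) h
  simp only [Lx, mul_e00, mul_e01, mul_e10, mul_e11, mk_e00, mk_e01, mk_e10, mk_e11, Ux_e00,
    Ux_e01, Ux_e10, Ux_e11] at h4
  have h5 : (2 : F) * 2 * lam = 0 := by linear_combination -h4
  rcases mul_eq_zero.mp h5 with h6 | h6
  · exact h2 (mul_self_eq_zero.mp h6)
  · exact hlam h6

theorem tr_Lx (s : F) : tr (Lx s) = 2 := by
  rw [tr_eq]; simp only [Lx, mk_e00, mk_e11]; norm_num

theorem tr_Ux (s : F) : tr (Ux s) = 2 := by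
  rw [tr_eq, Ux_e00, Ux_e11]; norm_num

theorem S_case [Fintype F] (h2 : (2 : F) ≠ 0) (lam : F)
    (hgen : Subfield.closure ({lam} : Set F) = ⊤) (L : Subgroup SL2) (hX : Lx 1 ∈ L)
    (hY : Ux lam ∈ L) (Q : Matrix (Fin 2) (Fin 2) F) (hQ : Q.det ≠ 0) (K1 : Subfield F)
    (hS : (∀ g : SL2, g ∈ ((conjGL Q hQ).comp L.subtype).range ↔ MemK K1 g.1) ∨
      (∃ lam' : F, lam' ∉ K1 ∧ lam' ^ 2 ∈ K1 ∧
        ∀ g : SL2, g ∈ ((conjGL Q hQ).comp L.subtype).range ↔
          (MemK K1 g.1 ∨ MemK K1 (lam' • g.1)))) : L = ⊤ := by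
  have h2K : (2 : F) ∈ K1 := by
    rw [← one_add_one_eq_two]; exact K1.add_mem K1.one_mem K1.one_mem
  have key : MemK K1 (conjGL Q hQ (Lx 1)).1 → MemK K1 (conjGL Q hQ (Ux lam)).1 → K1 = ⊤ := by
    intro m1 m2
    have m3 : MemK K1 (conjGL Q hQ (Lx 1 * Ux lam)).1 := by
      rw [map_mul, Matrix.SpecialLinearGroup.coe_mul]; exact memK_mul K1 m1 m2
    have ht := tr_conjGL Q hQ (Lx 1 * Ux lam)
    rw [tr_eq, tr_eq] at ht
    simp only [Lx, mul_e00, mul_e01, mul_e10, mul_e11, mk_e00, mk_e01, mk_e10, mk_e11, Ux_e00,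
      Ux_e01, Ux_e10, Ux_e11] at ht
    have hlamK : lam ∈ K1 := by
      have e : lam = (conjGL Q hQ (mkSL 1 0 1 1 (by ring) * Ux lam)).1 0 0 +
          (conjGL Q hQ (mkSL 1 0 1 1 (by ring) * Ux lam)).1 1 1 - 2 := by
        linear_combination -ht
      rw [e]
      exact K1.sub_mem (K1.add_mem (m3 0 0) (m3 1 1)) h2K
    rw [eq_top_iff, ← hgen, Subfield.closure_le]
    intro y hy
    rw [Set.mem_singleton_iff] at hy
    rw [hy]; exact hlamK
  rcases hS with h1 | ⟨lam', hl', hl'2, h1⟩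
  · have hK1 := key ((h1 _).mp ⟨⟨Lx 1, hX⟩, rfl⟩) ((h1 _).mp ⟨⟨Ux lam, hY⟩, rfl⟩)
    apply eq_top_of_range_top L Q hQ
    intro g
    rw [h1, hK1]
    intro i j; trivial
  · exfalso
    have unip : ∀ g : SL2, g ∈ L → tr g = 2 → MemK K1 (conjGL Q hQ g).1 := by
      intro g hg htr
      rcases (h1 _).mp ⟨⟨g, hg⟩, rfl⟩ with h | h
      · exact h
      · exfalso
        apply hl'
        have ht := tr_conjGL Q hQ g
        rw [htr, tr_eq] at ht
        have h00 := h 0 0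
        have h11 := h 1 1
        rw [Matrix.smul_apply, smul_eq_mul] at h00 h11
        have e : lam' = (lam' * (conjGL Q hQ g).1 0 0 + lam' * (conjGL Q hQ g).1 1 1) *
            (2 : F)⁻¹ := by
          field_simp
          linear_combination -lam' * ht
        rw [e]
        exact K1.mul_mem (K1.add_mem h00 h11) (K1.inv_mem h2K)
    have hK1 := key (unip _ hX (tr_Lx 1)) (unip _ hY (tr_Ux lam))
    apply hl'; rw [hK1]; trivial

theorem prime_cases3 (p : ℕ) (hp : p.Prime) (hp2 : p ≠ 2) (n : ℕ) (h : p ∣ 2 ^ n * 3) :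
    p = 3 := by
  rcases (Nat.Prime.dvd_mul hp).mp h with h1 | h1
  · exact absurd ((Nat.prime_dvd_prime_iff_eq hp Nat.prime_two).mp
      (Nat.Prime.dvd_of_dvd_pow hp h1)) hp2
  · exact (Nat.prime_dvd_prime_iff_eq hp Nat.prime_three).mp h1

theorem prime_cases35 (p : ℕ) (hp : p.Prime) (hp2 : p ≠ 2) (n : ℕ) (h : p ∣ 2 ^ n * 3 * 5) :
    p = 3 ∨ p = 5 := by
  rcases (Nat.Prime.dvd_mul hp).mp h with h1 | h1
  · left; exact prime_cases3 p hp hp2 n h1
  · right; exact (Nat.prime_dvd_prime_iff_eq hp Nat.prime_five).mp h1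

/-- `t = 0` or `t² = 1` with `t = 2 ± lam` puts `lam` in the prime field `𝔽₃`. -/
theorem lam3_plus (h3 : (3 : F) = 0) (lam : F) (h : 2 + lam = 0 ∨ (2 + lam) ^ 2 = 1) :
    lam ^ 3 = lam := by
  have ht3 : (2 + lam) ^ 3 = 2 + lam := by
    rcases h with h | h
    · rw [h]; ring
    · linear_combination (2 + lam) * h
  linear_combination ht3 - (2 * lam ^ 2 + 4 * lam + 2) * h3

theorem lam3_minus (h3 : (3 : F) = 0) (lam : F) (h : 2 - lam = 0 ∨ (2 - lam) ^ 2 = 1) :
    lam ^ 3 = lam := by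
  have ht3 : (2 - lam) ^ 3 = 2 - lam := by
    rcases h with h | h
    · rw [h]; ring
    · linear_combination (2 - lam) * h
  linear_combination -ht3 + (2 * lam ^ 2 - 4 * lam + 2) * h3

theorem lam5_plus (h5 : (5 : F) = 0) (lam : F)
    (h : 2 + lam = 0 ∨ (2 + lam) ^ 2 = 1 ∨ (2 + lam) ^ 4 - 3 * (2 + lam) ^ 2 + 1 = 0) :
    lam ^ 5 = lam := by
  have ht5 : (2 + lam) ^ 5 = 2 + lam := by
    rcases h with h | h | h
    · rw [h]; ring
    · linear_combination (2 + lam) * ((2 + lam) ^ 2 + 1) * h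
    · have hq : ((2 + lam) ^ 2 + 1) ^ 2 = 0 := by
        linear_combination h + (2 + lam) ^ 2 * h5
      have hq' : (2 + lam) ^ 2 + 1 = 0 := pow_eq_zero_iff two_ne_zero |>.mp hq
      linear_combination (2 + lam) * ((2 + lam) ^ 2 - 1) * hq'
  linear_combination ht5 - (2 * lam ^ 4 + 8 * lam ^ 3 + 16 * lam ^ 2 + 16 * lam + 6) * h5

theorem gen_top [Fintype F] (p : ℕ) [Fact p.Prime] [CharP F p] (hp : p ≠ 2) (h2 : (2 : F) ≠ 0)
    (lam : F) (hlam : lam ≠ 0) (hgen : Subfield.closure ({lam} : Set F) = ⊤)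
    (hex : ¬ (Fintype.card F = 9 ∧ lam ^ 2 = -1)) :
    Subgroup.closure {Lx 1, Ux lam} = (⊤ : Subgroup SL2) := by
  classical
  obtain ⟨L, hL⟩ : ∃ L : Subgroup SL2, L = Subgroup.closure {Lx 1, Ux lam} := ⟨_, rfl⟩
  rw [← hL]
  have hX : Lx (1 : F) ∈ L := by rw [hL]; exact Subgroup.subset_closure (by simp)
  have hY : Ux lam ∈ L := by rw [hL]; exact Subgroup.subset_closure (by simp)
  have hcen : Subgroup.center SL2 ≤ L := by rw [hL]; exact center_le p hp h2 lam hlam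
  have hcen2 : Nat.card (Subgroup.center SL2) = 2 := Cfsg.Agent.Helper5.card_center_SL2 h2
  have hidx := card_of_index L hcen
  rw [hcen2] at hidx
  have hZ : ∀ g : L, g ∈ (Subgroup.center SL2).subgroupOf L ↔
      L.subtype g ∈ Subgroup.center SL2 := fun g => Subgroup.mem_subgroupOf
  have hpp : p.Prime := Fact.out
  have hp0 : ((p : ℕ) : F) = 0 := CharP.cast_eq_zero F p
  -- the elements `XY` and `XY⁻¹`
  have hg1L : Lx 1 * Ux lam ∈ L := L.mul_mem hX hY
  have hg2L : Lx 1 * (Ux lam)⁻¹ ∈ L := L.mul_mem hX (L.inv_mem hY)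
  have g1_10 : (Lx (1 : F) * Ux lam).1 1 0 = 1 := by
    simp only [Lx, mul_e10, mk_e10, mk_e11, Ux_e00, Ux_e10]; ring
  have g1_tr : tr (Lx (1 : F) * Ux lam) = 2 + lam := by
    rw [tr_eq]
    simp only [Lx, mul_e00, mul_e11, mk_e00, mk_e01, mk_e10, mk_e11, Ux_e00, Ux_e01, Ux_e10,
      Ux_e11]
    ring
  have g2_10 : (Lx (1 : F) * (Ux lam)⁻¹).1 1 0 = 1 := by
    simp only [Lx, mul_e10, mk_e10, mk_e11, inv_e00, inv_e10, Ux_e11, Ux_e10]; ring
  have g2_tr : tr (Lx (1 : F) * (Ux lam)⁻¹) = 2 - lam := by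
    rw [tr_eq]
    simp only [Lx, mul_e00, mul_e11, mk_e00, mk_e01, mk_e10, mk_e11, inv_e00, inv_e01, inv_e10,
      inv_e11, Ux_e00, Ux_e01, Ux_e10, Ux_e11]
    ring
  -- `X` has order `p`
  have hXp : orderOf (Lx (1 : F)) = p := by
    apply orderOf_eq_prime (unip_pow_char p _ (tr_Lx 1))
    intro h
    have h1 := congrArg (fun g : SL2 => g.1 1 0) h
    simp [Lx, mk_e10] at h1
  have hYp : Ux lam ^ p = 1 := unip_pow_char p _ (tr_Ux lam)
  have hpdvd : p ∣ Nat.card L := by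
    have h1 := orderOf_dvd_natCard (⟨Lx 1, hX⟩ : L)
    rwa [Subgroup.orderOf_mk, hXp] at h1
  have hLdvd : Nat.card L ∣ Nat.card SL2 := Subgroup.card_subgroup_dvd_card L
  rcases dickson_subgroup p L hcen with hB | hT | ⟨h12, ⟨e⟩⟩ | ⟨h24, ⟨e⟩⟩ | ⟨h60, ⟨e⟩⟩ |
    ⟨Q, hQ, K1, hS⟩
  · exfalso
    obtain ⟨v, hv, hfix⟩ := hB
    obtain ⟨c, hc⟩ := hfix ⟨Lx 1, hX⟩
    obtain ⟨c', hc'⟩ := hfix ⟨Ux lam, hY⟩
    exact no_fix lam hlam v hv c c' hc hc'
  · exfalso
    obtain ⟨x, hxZ, -, hx⟩ := hT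
    have hcomm := sq_comm_of_T L.subtype Subtype.val_injective _ hZ x hxZ hx
      ⟨Lx 1, hX⟩ ⟨Ux lam, hY⟩
    exact no_T h2 lam hlam (congrArg Subtype.val hcomm.eq)
  · -- `A₄`: `p = 3`, `lam ∈ 𝔽₃`
    rw [h12] at hidx
    have hp3 : p = 3 := prime_cases3 p hpp hp 3 (by rw [hidx] at hpdvd; exact hpdvd)
    subst hp3
    have h3 : (3 : F) = 0 := by exact_mod_cast hp0
    have hl3 : lam ^ 3 = lam := by
      apply lam3_plus h3
      have := tr_A4 L e _ hg1L g1_10
      rwa [g1_tr] at this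
    have hc := card_SL2_of_pow 3 lam hgen hl3
    apply Subgroup.eq_top_of_card_eq
    rw [hidx, hc]
    norm_num
  · -- `S₄`: impossible
    exfalso
    rw [h24] at hidx
    have hp3 : p = 3 := prime_cases3 p hpp hp 4 (by rw [hidx] at hpdvd; exact hpdvd)
    subst hp3
    have h3 : (3 : F) = 0 := by exact_mod_cast hp0
    have hl3 : lam ^ 3 = lam := by
      apply lam3_plus h3
      have := tr_S4 L e _ _ hX hY (unip_pow_char 3 _ (tr_Lx 1)) hYp g1_10
      rwa [g1_tr] at this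
    have hc := card_SL2_of_pow 3 lam hgen hl3
    rw [hidx, hc] at hLdvd
    revert hLdvd; decide
  · -- `A₅`
    rw [h60] at hidx
    have hp35 : p = 3 ∨ p = 5 :=
      prime_cases35 p hpp hp 3 (by rw [hidx] at hpdvd; exact hpdvd)
    have ht1 := tr_A5 L e _ hg1L g1_10
    rw [g1_tr] at ht1
    have ht2 := tr_A5 L e _ hg2L g2_10
    rw [g2_tr] at ht2
    rcases hp35 with hp3 | hp5
    · exfalso
      subst hp3
      have h3 : (3 : F) = 0 := by exact_mod_cast hp0
      have hno : lam ^ 3 ≠ lam := by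
        intro hl3
        have hc := card_SL2_of_pow 3 lam hgen hl3
        rw [hidx, hc] at hLdvd
        revert hLdvd; decide
      have q1 : (2 + lam) ^ 4 - 3 * (2 + lam) ^ 2 + 1 = 0 := by
        rcases ht1 with h | h | h
        · exact absurd (lam3_plus h3 lam (Or.inl h)) hno
        · exact absurd (lam3_plus h3 lam (Or.inr h)) hno
        · exact h
      have q2 : (2 - lam) ^ 4 - 3 * (2 - lam) ^ 2 + 1 = 0 := by
        rcases ht2 with h | h | h
        · exact absurd (lam3_minus h3 lam (Or.inl h)) hno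
        · exact absurd (lam3_minus h3 lam (Or.inr h)) hno
        · exact h
      have hl : lam * (lam ^ 2 + 1) = 0 := by
        linear_combination q1 - q2 - (13 * lam + 5 * lam ^ 3) * h3
      have hl2 : lam ^ 2 = -1 := by
        rcases mul_eq_zero.mp hl with h | h
        · exact absurd h hlam
        · exact eq_neg_of_add_eq_zero_left h
      have hl9 : lam ^ (3 ^ 2) = lam := by
        norm_num
        linear_combination (lam ^ 7 - lam ^ 5 + lam ^ 3 - lam) * hl2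
      have hle := card_le_of_pow 3 2 (by norm_num) lam hgen hl9
      obtain ⟨n, -, hn⟩ := FiniteField.card F 3
      have hn2 : (n : ℕ) ≤ 2 := by
        rw [hn] at hle
        exact (Nat.pow_le_pow_iff_right (by norm_num)).mp hle
      have hn0 : 0 < (n : ℕ) := n.pos
      have hn12 : (n : ℕ) = 1 ∨ (n : ℕ) = 2 := by omega
      rcases hn12 with h1 | h1
      · apply hno
        have := FiniteField.pow_card lam
        rw [hn, h1, pow_one] at this
        exact this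
      · apply hex
        refine ⟨by rw [hn, h1]; norm_num, hl2⟩
    · subst hp5
      have h5 : (5 : F) = 0 := by exact_mod_cast hp0
      have hl5 : lam ^ 5 = lam := lam5_plus h5 lam ht1
      have hc := card_SL2_of_pow 5 lam hgen hl5
      apply Subgroup.eq_top_of_card_eq
      rw [hidx, hc]
      norm_num
  · exact S_case h2 lam hgen L hX hY Q hQ K1 hS

/-! ### the exceptional case: a model of `𝔽₉` -/

abbrev K9 := QuadraticAlgebra (ZMod 3) (-1) 0

def X9 : Matrix.SpecialLinearGroup (Fin 2) K9 := ⟨!![1, 0; 1, 1], by decide⟩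
def Y9 : Matrix.SpecialLinearGroup (Fin 2) K9 := ⟨!![1, ⟨0, 1⟩; 0, 1], by decide⟩
def y9 : Matrix.SpecialLinearGroup (Fin 2) K9 := Y9 * X9 * Y9 * X9
def z9 : Matrix.SpecialLinearGroup (Fin 2) K9 := ⟨!![-1, 0; 0, -1], by decide⟩

theorem X9_3 : X9 ^ 3 = 1 := by decide +kernel
theorem y9_5 : y9 ^ 5 = 1 := by decide +kernel
theorem z9_2 : z9 ^ 2 = 1 := by decide +kernel
theorem X9z9 : X9 * z9 = z9 * X9 := by decide +kernel
theorem y9z9 : y9 * z9 = z9 * y9 := by decide +kernel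
theorem X9y9 : (X9 * y9) ^ 2 = z9 := by decide +kernel
theorem Y9_eq : Y9 * (X9 * y9) = (X9 * y9) * X9 := by decide +kernel
theorem y9_00 : y9.1 0 0 = 0 := by decide +kernel

theorem map_entry (φ : K9 →+* F) (g : Matrix.SpecialLinearGroup (Fin 2) K9) (i j : Fin 2) :
    (Matrix.SpecialLinearGroup.map φ g).1 i j = φ (g.1 i j) := rfl

theorem exists_phi [CharP F 3] (lam : F) (hl2 : lam ^ 2 = -1) :
    ∃ φ : K9 →+* F, φ ⟨0, 1⟩ = lam := by
  let _ := ZMod.algebra F 3
  have h : lam * lam = (-1 : ZMod 3) • (1 : F) + (0 : ZMod 3) • lam := by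
    rw [zero_smul, add_zero, neg_smul, one_smul, ← sq, hl2]
  refine ⟨(QuadraticAlgebra.lift ⟨lam, h⟩ : K9 →ₐ[ZMod 3] F), ?_⟩
  show (QuadraticAlgebra.lift ⟨lam, h⟩ : K9 →ₐ[ZMod 3] F) ⟨0, 1⟩ = lam
  rw [QuadraticAlgebra.lift_apply_apply]
  simp

theorem map_X9 (φ : K9 →+* F) : Matrix.SpecialLinearGroup.map φ X9 = Lx 1 := by
  apply sl_ext
  · rw [map_entry, show X9.1 0 0 = 1 from rfl, map_one]; rfl
  · rw [map_entry, show X9.1 0 1 = 0 from rfl, map_zero]; rfl
  · rw [map_entry, show X9.1 1 0 = 1 from rfl, map_one]; rfl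
  · rw [map_entry, show X9.1 1 1 = 1 from rfl, map_one]; rfl

theorem map_Y9 (φ : K9 →+* F) (lam : F) (hφ : φ ⟨0, 1⟩ = lam) :
    Matrix.SpecialLinearGroup.map φ Y9 = Ux lam := by
  apply sl_ext
  · rw [map_entry, show Y9.1 0 0 = 1 from rfl, map_one]; rfl
  · rw [map_entry, show Y9.1 0 1 = ⟨0, 1⟩ from rfl, hφ]; rfl
  · rw [map_entry, show Y9.1 1 0 = 0 from rfl, map_zero]; rfl
  · rw [map_entry, show Y9.1 1 1 = 1 from rfl, map_one]; rfl

theorem exc_card [Fintype F] (hcard : Fintype.card F = 9) (lam : F) (hlam : lam ≠ 0)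
    (hl2 : lam ^ 2 = -1) :
    Nat.card (Subgroup.closure {Lx (1 : F), Ux lam}) = 120 := by
  classical
  obtain ⟨p, hchar⟩ := CharP.exists F
  haveI := hchar
  obtain ⟨n, hpp, hn⟩ := FiniteField.card F p
  have hp3 : p = 3 := by
    have h1 : p ∣ 3 ^ 2 := by
      have h0 : p ∣ p ^ (n : ℕ) := dvd_pow_self p n.ne_zero
      rw [← hn, hcard] at h0
      exact h0
    exact (Nat.prime_dvd_prime_iff_eq hpp Nat.prime_three).mp (hpp.dvd_of_dvd_pow h1)
  subst hp3
  have : Fact (Nat.Prime 3) := ⟨hpp⟩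
  obtain ⟨φ, hφ⟩ := exists_phi lam hl2
  obtain ⟨f, hfx, hfy, hfz⟩ := Cfsg.Agent.Helper56.exists_hom X9 y9 z9 X9_3 y9_5 z9_2 X9z9 y9z9
    X9y9
  obtain ⟨Φ, hΦ⟩ : ∃ Φ : Cfsg.Agent.Helper56.Q →* SL2,
      Φ = (Matrix.SpecialLinearGroup.map φ).comp f := ⟨_, rfl⟩
  have hΦx : Φ Cfsg.Agent.Helper56.qx = Lx 1 := by
    rw [hΦ, MonoidHom.comp_apply, hfx, map_X9]
  have hΦy : Φ Cfsg.Agent.Helper56.qy = Ux lam * Lx 1 * Ux lam * Lx 1 := by
    rw [hΦ, MonoidHom.comp_apply, hfy, y9, map_mul, map_mul, map_mul, map_X9, map_Y9 φ lam hφ]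
  have hΦY : Φ (Cfsg.Agent.Helper56.qx * Cfsg.Agent.Helper56.qy * Cfsg.Agent.Helper56.qx *
      (Cfsg.Agent.Helper56.qx * Cfsg.Agent.Helper56.qy)⁻¹) = Ux lam := by
    have h2 : Matrix.SpecialLinearGroup.map φ y9 = Φ Cfsg.Agent.Helper56.qy := by
      rw [hΦ, MonoidHom.comp_apply, hfy]
    have h1 : Ux lam * (Lx 1 * Φ Cfsg.Agent.Helper56.qy) =
        (Lx 1 * Φ Cfsg.Agent.Helper56.qy) * Lx 1 := by
      have h0 := congrArg (Matrix.SpecialLinearGroup.map φ) Y9_eq
      simp only [map_mul, map_X9, map_Y9 φ lam hφ, h2] at h0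
      exact h0
    rw [map_mul, map_mul, map_inv, map_mul, hΦx]
    rw [eq_comm, eq_mul_inv_iff_mul_eq]
    exact h1
  obtain ⟨L, hL⟩ : ∃ L : Subgroup SL2, L = Subgroup.closure {Lx 1, Ux lam} := ⟨_, rfl⟩
  rw [← hL]
  have hX : Lx (1 : F) ∈ L := by rw [hL]; exact Subgroup.subset_closure (by simp)
  have hY : Ux lam ∈ L := by rw [hL]; exact Subgroup.subset_closure (by simp)
  have hle : L ≤ Φ.range := by
    rw [hL, Subgroup.closure_le]
    rintro g (rfl | rfl)
    · exact ⟨_, hΦx⟩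
    · exact ⟨_, hΦY⟩
  have hub : Nat.card L ≤ 120 := by
    calc Nat.card L ≤ Nat.card Φ.range := Subgroup.card_le_of_le hle
      _ ≤ Nat.card Cfsg.Agent.Helper56.Q :=
        Nat.card_le_card_of_surjective Φ.rangeRestrict Φ.rangeRestrict_surjective
      _ = 120 := Cfsg.Agent.Helper56.card_Q
  obtain ⟨K', hK', hKcard⟩ := exists_K 3 (by norm_num) lam hlam
  have h24 : 24 ∣ Nat.card L := by
    have h0 := Subgroup.card_dvd_of_le (hL ▸ hK')
    rw [hKcard] at h0
    exact h0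
  have h5 : 5 ∣ Nat.card L := by
    have hy : Φ Cfsg.Agent.Helper56.qy ∈ L := by
      rw [hΦy]
      exact L.mul_mem (L.mul_mem (L.mul_mem hY hX) hY) hX
    have ho : orderOf (Φ Cfsg.Agent.Helper56.qy) = 5 := by
      have : Fact (Nat.Prime 5) := ⟨Nat.prime_five⟩
      apply orderOf_eq_prime
      · rw [← map_pow, Cfsg.Agent.Helper56.qy5, map_one]
      · intro h
        have h1 : (Φ Cfsg.Agent.Helper56.qy).1 0 0 = 0 := by
          rw [hΦ, MonoidHom.comp_apply, hfy, map_entry, y9_00, map_zero]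
        rw [h] at h1
        simp at h1
    have h0 := orderOf_dvd_natCard (⟨Φ Cfsg.Agent.Helper56.qy, hy⟩ : L)
    rwa [Subgroup.orderOf_mk, ho] at h0
  have h120 : 120 ∣ Nat.card L := by
    have h0 : 24 * 5 ∣ Nat.card L := Nat.Coprime.mul_dvd_of_dvd_of_dvd (by norm_num) h24 h5
    exact h0
  have hpos : 0 < Nat.card L := Nat.card_pos
  exact le_antisymm hub (Nat.le_of_dvd hpos h120)

end aux

/-- Let F be a finite field of odd characteristic and λ ≠ 0 an element generating F as a field. Then the lower and upper unitriangular matrices with off-diagonal entries 1 and λ generate SL_2(F), unless |F| = 9 and λ² = −1, in which case they generate a subgroup of order 120. -/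
theorem result {F : Type*} [Field F] [Fintype F] (h2 : (2 : F) ≠ 0) (lam : F) (hlam : lam ≠ 0) (hgen : Subfield.closure ({lam} : Set F) = ⊤) : (Subgroup.closure {g : Matrix.SpecialLinearGroup (Fin 2) F | (g : Matrix (Fin 2) (Fin 2) F) = !![1, 0; 1, 1] ∨ (g : Matrix (Fin 2) (Fin 2) F) = !![1, lam; 0, 1]} = ⊤ ∧ ¬ (Fintype.card F = 9 ∧ lam ^ 2 = -1)) ∨ (Fintype.card F = 9 ∧ lam ^ 2 = -1 ∧ Nat.card ↥(Subgroup.closure {g : Matrix.SpecialLinearGroup (Fin 2) F | (g : Matrix (Fin 2) (Fin 2) F) = !![1, 0; 1, 1] ∨ (g : Matrix (Fin 2) (Fin 2) F) = !![1, lam; 0, 1]}) = 120) := by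
  classical
  rw [gens_eq lam]
  obtain ⟨p, hchar⟩ := CharP.exists F
  haveI := hchar
  haveI : Fact p.Prime := ⟨CharP.char_is_prime F p⟩
  have hp2 : p ≠ 2 := by
    rintro rfl
    apply h2
    exact_mod_cast CharP.cast_eq_zero F 2
  by_cases hex : Fintype.card F = 9 ∧ lam ^ 2 = -1
  · right
    exact ⟨hex.1, hex.2, exc_card hex.1 lam hlam hex.2⟩
  · left
    exact ⟨gen_top p hp2 h2 lam hlam hgen hex, hex⟩

end Cfsg.Agent.S0801
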