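import Cfsg.Statements.S0806
import Cfsg.Agent.Helper41.DkMax2

set_option autoImplicit false
open Cfsg

namespace Cfsg.Agent.S0806

open Cfsg.Agent.Helper41 Cfsg.Agent.Helper41.Dk Matrix

/-- Minimal index (Galois): if q ∉ {2, 3, 5, 7, 9, 11} then every proper subgroup of PSL_2(q) has index ≥ q + 1, and some subgroup has index exactly q + 1. -/
theorem result {F : Type*} [Field F] [Fintype F] {q : ℕ} (hF : Fintype.card F = q) (hq : q ∉ ({2, 3, 5, 7, 9, 11} : Finset ℕ)) : (∀ H : Subgroup (Matrix.ProjectiveSpecialLinearGroup (Fin 2) F), H ≠ ⊤ → q + 1 ≤ H.index) ∧ ∃ H : Subgroup (Matrix.ProjectiveSpecialLinearGroup (Fin 2) F), H.index = q + 1 := by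
  classical
  obtain ⟨p, hchar⟩ := CharP.exists F
  haveI := hchar
  haveI : Fact p.Prime := ⟨CharP.char_is_prime F p⟩
  have hq2 : 2 ≤ q := by rw [← hF]; exact Fintype.one_lt_card
  simp only [Finset.mem_insert, Finset.mem_singleton, not_or] at hq
  obtain ⟨n2, n3, n5, n7, n9, n11⟩ := hq
  have hSL : Nat.card (Matrix.SpecialLinearGroup (Fin 2) F) = q * (q ^ 2 - 1) := by
    rw [Cfsg.Agent.Helper5.card_SL2, hF]
  have hcen : Nat.card (Subgroup.center (Matrix.SpecialLinearGroup (Fin 2) F)) =
      Nat.gcd 2 (q - 1) := by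
    rw [card_center_gcd (F := F) p, hF]
  have hd1 : q % 2 = 1 → Nat.gcd 2 (q - 1) = 2 := by
    intro h
    exact Nat.gcd_eq_left (by omega)
  have hd0 : q % 2 = 0 → Nat.gcd 2 (q - 1) = 1 := by
    intro h
    exact Nat.Coprime.gcd_eq_one (Nat.coprime_two_left.mpr (Nat.odd_iff.mpr (by omega)))
  have hN : ∀ c, c ≤ q - 1 → c * q ≤ q * (q - 1) := by
    intro c hc
    rw [mul_comm]; exact Nat.mul_le_mul_left q hc
  have hsq : q ^ 2 - 1 = (q + 1) * (q - 1) := by
    obtain ⟨m, rfl⟩ : ∃ m, q = m + 1 := ⟨q - 1, by omega⟩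
    have h1 : (m + 1) ^ 2 = (m + 1 + 1) * m + 1 := by ring
    rw [h1]; simp
  have key : ∀ Mt : Subgroup (Matrix.SpecialLinearGroup (Fin 2) F),
      Subgroup.center (Matrix.SpecialLinearGroup (Fin 2) F) ≤ Mt → Mt ≠ ⊤ →
      Nat.card Mt ≤ q * (q - 1) := by
    intro Mt hcenle hne
    have hdvd : Nat.card Mt ∣ q * (q ^ 2 - 1) := by
      rw [← hSL]; exact Subgroup.card_subgroup_dvd_card Mt
    have hidx := card_of_index Mt hcenle
    rw [hcen] at hidx
    have hnetop : Nat.card Mt ≠ q * (q ^ 2 - 1) := by
      intro h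
      apply hne
      apply Subgroup.eq_top_of_card_eq
      rw [h, hSL]
    rcases dickson_subgroup p Mt hcenle with hB | hT | ⟨h12, -⟩ | ⟨h24, -⟩ | ⟨h60, -⟩ |
      ⟨Q, hQ, K1, hS⟩
    · obtain ⟨v, hv, hfix⟩ := hB
      rw [← hF]
      exact card_le_of_fix Mt v hv hfix
    · have h3 := hN 3 (by omega)
      rcases card_dvd_of_T p Mt hT with h | h
      · rw [hF] at h
        have := Nat.le_of_dvd (by omega) h
        omega
      · rw [hF] at h
        have := Nat.le_of_dvd (by omega) h
        omega
    · rw [h12] at hidx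
      rcases Nat.mod_two_eq_zero_or_one q with h0 | h1
      · rw [hd0 h0] at hidx
        have h3 := hN 3 (by omega)
        omega
      · rw [hd1 h1] at hidx
        have h3 := hN 6 (by omega)
        omega
    · rw [h24] at hidx
      rcases Nat.mod_two_eq_zero_or_one q with h0 | h1
      · rw [hd0 h0] at hidx
        by_cases h4 : q = 4
        · exfalso
          rw [hidx, h4] at hdvd
          norm_num at hdvd
        · have h3 := hN 5 (by omega)
          omega
      · rw [hd1 h1] at hidx
        have h3 := hN 8 (by omega)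
        omega
    · rw [h60] at hidx
      rcases Nat.mod_two_eq_zero_or_one q with h0 | h1
      · rw [hd0 h0] at hidx
        by_cases h4 : q = 4
        · exfalso
          apply hnetop
          rw [hidx, h4]
          norm_num
        · by_cases h6 : q = 6
          · exfalso
            rw [hidx, h6] at hdvd
            norm_num at hdvd
          · by_cases h8 : q = 8
            · exfalso
              rw [hidx, h8] at hdvd
              norm_num at hdvd
            · have h3 := hN 9 (by omega)
              omega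
      · rw [hd1 h1] at hidx
        have h3 := hN 12 (by omega)
        omega
    · have hr2 : 2 ≤ Nat.card K1 := by
        haveI : Fintype K1 := Fintype.ofFinite _
        rw [Nat.card_eq_fintype_card]; exact Fintype.one_lt_card
      rcases hS with h1 | ⟨lam, hlam, hlam2, h2'⟩
      · rcases subfield_cases K1 with hK1 | hK1
        · exfalso
          apply hne
          apply eq_top_of_range_top Mt Q hQ
          intro g
          rw [h1, hK1]
          intro i j; trivial
        · rw [hF] at hK1
          rw [card_of_range_SK Mt Q hQ K1 h1, card_SK]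
          have e1 : Nat.card K1 ≤ Nat.card K1 ^ 2 := by nlinarith
          exact Nat.mul_le_mul (e1.trans hK1) (Nat.sub_le_sub_right hK1 1)
      · have hlam0 : lam ≠ 0 := fun h => hlam (h ▸ K1.zero_mem)
        rcases subfield_cases K1 with hK1 | hK1
        · exfalso
          rw [hK1] at hlam
          exact hlam trivial
        · rw [hF] at hK1
          have h3 := card_le_of_range_ext Mt Q hQ K1 lam hlam0 hlam2 h2'
          rw [card_SK] at h3
          have e1 : 2 * Nat.card K1 ≤ Nat.card K1 ^ 2 := by nlinarith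
          calc Nat.card Mt ≤ 2 * (Nat.card K1 * (Nat.card K1 ^ 2 - 1)) := h3
            _ = (2 * Nat.card K1) * (Nat.card K1 ^ 2 - 1) := by ring
            _ ≤ q * (q - 1) := Nat.mul_le_mul (e1.trans hK1) (Nat.sub_le_sub_right hK1 1)
  constructor
  · intro H hH
    have h1 : (pre H).index = H.index :=
      Subgroup.index_comap_of_surjective H (QuotientGroup.mk'_surjective _)
    have h2 := key (pre H) (center_le_pre H) (fun h => hH (pre_eq_top.mp h))
    have h3 := Subgroup.index_mul_card (pre H)
    rw [hSL, h1, hsq] at h3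
    by_contra hlt
    push_neg at hlt
    have h4 : H.index * Nat.card (pre H) ≤ q * (q * (q - 1)) :=
      Nat.mul_le_mul (by omega) h2
    have h5 : q * (q * (q - 1)) < q * ((q + 1) * (q - 1)) := by
      apply Nat.mul_lt_mul_of_pos_left _ (by omega)
      apply Nat.mul_lt_mul_of_pos_right (by omega) (by omega)
    omega
  · refine ⟨(Bor : Subgroup (Matrix.SpecialLinearGroup (Fin 2) F)).map
      (QuotientGroup.mk' (Subgroup.center (Matrix.SpecialLinearGroup (Fin 2) F))), ?_⟩
    have h1 := Subgroup.index_comap_of_surjective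
      ((Bor : Subgroup (Matrix.SpecialLinearGroup (Fin 2) F)).map
        (QuotientGroup.mk' (Subgroup.center (Matrix.SpecialLinearGroup (Fin 2) F))))
      (QuotientGroup.mk'_surjective (Subgroup.center (Matrix.SpecialLinearGroup (Fin 2) F)))
    rw [← h1]
    have h2 := pre_map (Bor : Subgroup (Matrix.SpecialLinearGroup (Fin 2) F)) center_le_Bor
    rw [pre] at h2
    rw [h2]
    have h3 := Subgroup.index_mul_card (Bor : Subgroup (Matrix.SpecialLinearGroup (Fin 2) F))
    rw [hSL, card_Bor, hF, hsq] at h3
    have h4 : q * ((q + 1) * (q - 1)) = (q + 1) * (q * (q - 1)) := by ring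
    rw [h4] at h3
    exact Nat.eq_of_mul_eq_mul_right (Nat.mul_pos (by omega) (by omega)) h3

end Cfsg.Agent.S0806
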