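import Cfsg.Statements.S0809
import Cfsg.Agent.Helper40.SL2OrderFour

set_option autoImplicit false
open Cfsg

namespace Cfsg.Agent.S0809

/-- In SL_2(q), q odd: any two subgroups of order 4 are conjugate, and the normaliser of a subgroup of order 4 has order 2(q − 1) if q ≡ 1 (mod 4) and 2(q + 1) if q ≡ 3 (mod 4); consequently all involutions of PSL_2(q) are conjugate. -/
theorem result {F : Type*} [Field F] [Fintype F] {q : ℕ} (hF : Fintype.card F = q) (hodd : Odd q) (A : Subgroup (Matrix.SpecialLinearGroup (Fin 2) F)) (hA : Nat.card A = 4) : (∀ B : Subgroup (Matrix.SpecialLinearGroup (Fin 2) F), Nat.card B = 4 → ∃ g : Matrix.SpecialLinearGroup (Fin 2) F, B = A.map (MulAut.conj g).toMonoidHom) ∧ (q % 4 = 1 → Nat.card ↥(Subgroup.normalizer (A : Set (Matrix.SpecialLinearGroup (Fin 2) F))) = 2 * (q - 1)) ∧ (q % 4 = 3 → Nat.card ↥(Subgroup.normalizer (A : Set (Matrix.SpecialLinearGroup (Fin 2) F))) = 2 * (q + 1)) ∧ (∀ x y : Matrix.ProjectiveSpecialLinearGroup (Fin 2) F, orderOf x = 2 → orderOf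 y = 2 → IsConj x y) := by
  classical
  subst hF
  have h2 := Cfsg.Agent.Helper40.two_ne_zero_of_odd hodd
  obtain ⟨a, haA, hatr, hAeq⟩ := Cfsg.Agent.Helper40.exists_generator_of_card_four hodd A hA
  have hns := Cfsg.Agent.Helper40.nonScalar_of_tr2_eq_zero h2 a hatr
  have ht := Cfsg.Agent.Helper40.tr2_sq_ne_four_of_eq_zero h2 a hatr
  have hAle : A ≤ Subgroup.centralizer ({a} : Set (Matrix.SpecialLinearGroup (Fin 2) F)) := by
    rw [hAeq, Subgroup.zpowers_le, Subgroup.mem_centralizer_iff]
    rintro _ rfl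
    rfl
  have hN := Cfsg.Agent.Helper40.normalizer_eq_of_le h2 a hns ht A haA hAle
  have hNc := (Cfsg.Agent.Helper40.card_normalizer_centralizer hodd a hns ht).1
  refine ⟨?_, ?_, ?_, ?_⟩
  · intro B hB
    obtain ⟨b, hbB, hbtr, hBeq⟩ := Cfsg.Agent.Helper40.exists_generator_of_card_four hodd B hB
    obtain ⟨g, hg⟩ := Cfsg.Agent.Helper40.exists_conj_of_tr2_eq_zero hodd a b hatr hbtr
    refine ⟨g, ?_⟩
    rw [hBeq, hAeq, MonoidHom.map_zpowers]
    congr 1
    exact hg.symm
  · intro hq
    rw [hN, hNc]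
    congr 1
    have hsq : IsSquare (-1 : F) := by
      rw [FiniteField.isSquare_neg_one_iff]
      omega
    obtain ⟨i, hi⟩ := hsq
    have hi0 : i ≠ 0 := by
      rintro rfl
      simp at hi
    exact Cfsg.Agent.Helper40.card_centralizer_split hodd a hns (2 * i) (mul_ne_zero h2 hi0)
      (by rw [hatr]; linear_combination (4 : F) * hi)
  · intro hq
    rw [hN, hNc]
    congr 1
    apply Cfsg.Agent.Helper40.card_centralizer_nonsplit hodd a hns
    rintro ⟨e, he⟩
    have hsq : IsSquare (-1 : F) := by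
      refine ⟨e / 2, ?_⟩
      rw [hatr] at he
      field_simp
      linear_combination he
    rw [FiniteField.isSquare_neg_one_iff] at hsq
    omega
  · intro x y hx hy
    obtain ⟨a', rfl⟩ := QuotientGroup.mk_surjective x
    obtain ⟨b', rfl⟩ := QuotientGroup.mk_surjective y
    have key : ∀ c : Matrix.SpecialLinearGroup (Fin 2) F,
        orderOf (QuotientGroup.mk c : Matrix.ProjectiveSpecialLinearGroup (Fin 2) F) = 2 →
        Cfsg.Agent.Helper40.tr2 c = 0 := by
      intro c hc
      have h1 : (QuotientGroup.mk c : Matrix.ProjectiveSpecialLinearGroup (Fin 2) F) ^ 2 = 1 := by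
        have h9 := pow_orderOf_eq_one
          (QuotientGroup.mk c : Matrix.ProjectiveSpecialLinearGroup (Fin 2) F)
        rwa [hc] at h9
      have h0 : (QuotientGroup.mk c : Matrix.ProjectiveSpecialLinearGroup (Fin 2) F) ≠ 1 := by
        intro h
        rw [h, orderOf_one] at hc
        omega
      rw [← QuotientGroup.mk_pow, ← QuotientGroup.mk_one,
        Cfsg.Agent.Helper42.SL2.psl_mk_eq_iff] at h1
      rw [← QuotientGroup.mk_one, Ne, Cfsg.Agent.Helper42.SL2.psl_mk_eq_iff] at h0
      push Not at h0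
      apply Cfsg.Agent.Helper40.tr2_eq_zero_of_sq
      rcases h1 with h1 | h1
      · exfalso
        have h3 : c * c = 1 := by
          apply Subtype.ext
          rw [← pow_two]
          exact h1
        rcases Cfsg.Agent.Helper40.eq_one_or_neg_one_of_sq h2 c h3 with h | h
        · exact h0.1 h
        · exact h0.2 (by rw [h]; rfl)
      · rw [pow_two, Matrix.SpecialLinearGroup.coe_mul] at h1
        rw [h1]
        rfl
    obtain ⟨g, hg⟩ := Cfsg.Agent.Helper40.exists_conj_of_tr2_eq_zero hodd a' b' (key a' hx) (key b' hy)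
    rw [isConj_iff]
    exact ⟨QuotientGroup.mk g, by rw [← hg]; rfl⟩

end Cfsg.Agent.S0809
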