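import Cfsg.Statements.S0810
import Cfsg.Agent.Helper5.DkMin
import Cfsg.Agent.S0804

set_option autoImplicit false
open Cfsg

namespace Cfsg.Agent.S0810

open Cfsg.Agent.Helper5

/-- PSL_2(q) is a minimal simple group (non-abelian simple with all proper subgroups solvable) exactly when q = 2^r with r prime, q = 3^r with r an odd prime, q a prime > 5 with q ≡ ±2 (mod 5), or q = 5. -/
theorem result {F : Type*} [Field F] [Fintype F] {q : ℕ} (hF : Fintype.card F = q) : Cfsg.IsMinimalSimple (Matrix.ProjectiveSpecialLinearGroup (Fin 2) F) ↔ ((∃ r : ℕ, r.Prime ∧ q = 2 ^ r) ∨ (∃ r : ℕ, r.Prime ∧ r ≠ 2 ∧ q = 3 ^ r) ∨ (q.Prime ∧ 5 < q ∧ (q % 5 = 2 ∨ q % 5 = 3)) ∨ q = 5) := by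
  classical
  obtain ⟨p, hp⟩ := CharP.exists F
  have : Fact p.Prime := ⟨CharP.char_is_prime F p⟩
  have hpp : p.Prime := Fact.out
  obtain ⟨n, -, hn⟩ := FiniteField.card F p
  rw [hF] at hn
  have hn1 : 1 ≤ (n : ℕ) := n.pos
  have hgcd := card_PSL2_mul_gcd (F := F)
  rw [hF] at hgcd
  have hge := card_PSL2_ge (F := F)
  rw [hF] at hge
  have hq2 : 2 ≤ q := by
    rw [← hF]
    exact Fintype.one_lt_card
  constructor
  · rintro ⟨hsimple, hnc, hmin⟩
    have hq4 : 4 ≤ q := by
      by_contra hq
      have hq' : q = 2 ∨ q = 3 := by omega
      have hsol : Group.IsSolvable (Matrix.ProjectiveSpecialLinearGroup (Fin 2) F) := by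
        rcases hq' with hq' | hq'
        · apply isSolvable_of_card_two_three 1 1
          rw [hq'] at hgcd
          have e1 : Nat.gcd 2 (2 - 1) = 1 := by decide
          have e2 : 2 * (2 ^ 2 - 1) = 6 := by norm_num
          rw [e1, e2, mul_one] at hgcd
          rw [hgcd]
          norm_num
        · apply isSolvable_of_card_two_three 2 1
          rw [hq'] at hgcd
          have e1 : Nat.gcd 2 (3 - 1) = 2 := by decide
          have e2 : 3 * (3 ^ 2 - 1) = 24 := by norm_num
          rw [e1, e2] at hgcd
          have e3 : Nat.card (Matrix.ProjectiveSpecialLinearGroup (Fin 2) F) = 12 := by omega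
          rw [e3]
          norm_num
      apply hnc
      exact ⟨⟨IsSimpleGroup.comm_iff_isSolvable.2 hsol⟩⟩
    have key : ∀ H : Subgroup (Matrix.ProjectiveSpecialLinearGroup (Fin 2) F),
        ¬ Group.IsSolvable H →
        Nat.card H < Nat.card (Matrix.ProjectiveSpecialLinearGroup (Fin 2) F) → False := by
      intro H hns hlt
      apply hns
      apply hmin
      intro htop
      rw [htop, Subgroup.card_top] at hlt
      exact lt_irrefl _ hlt
    have hA5 : 5 ∣ q * (q ^ 2 - 1) →
        60 < Nat.card (Matrix.ProjectiveSpecialLinearGroup (Fin 2) F) → False := by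
      intro h5 hbig
      obtain ⟨H, ⟨e⟩⟩ := (Cfsg.Agent.S0804.result (F := F) hF).2 h5
      apply key H
      · intro hs
        exact alt5_not_solvable (isSolvable_of_mulEquiv e.symm hs)
      · rw [Nat.card_congr e.toEquiv, card_alt_fin_five]
        exact hbig
    have hsub : ∀ a m : ℕ, a ≠ 0 → 4 ≤ p ^ a → (p ^ a) ^ m = q → 2 ≤ m → False := by
      intro a m ha h4 hm hm2
      have : Fintype (GaloisField p a) := Fintype.ofFinite _
      have hcK : Fintype.card (GaloisField p a) = p ^ a := by
        rw [← Nat.card_eq_fintype_card]
        exact GaloisField.card p a ha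
      obtain ⟨H, ⟨e⟩⟩ := exists_psl_sub (F := F) (K := GaloisField p a) m
        (by rw [hcK, hm, hF])
      apply key H
      · intro hs
        exact psl2_not_solvable (K := GaloisField p a) (by rw [hcK]; exact h4)
          (isSolvable_of_mulEquiv e.symm hs)
      · have h1 : Nat.card H ≤ p ^ a * ((p ^ a) ^ 2 - 1) := by
          rw [Nat.card_congr e.toEquiv]
          have h0 := card_PSL2_le (F := GaloisField p a)
          rw [hcK] at h0
          exact h0
        have h2 : (p ^ a) ^ 2 ≤ q := by
          rw [← hm]
          exact Nat.pow_le_pow_right (by omega) hm2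
        have h3 := two_mul_lt_of_sq_le (p ^ a) q (by omega) h2
        omega
    have hdiv : ∀ c : ℕ, 2 ≤ c → ¬ (n : ℕ).Prime → 2 ≤ (n : ℕ) → 4 ≤ p ^ 2 → False := by
      intro c _ hnp hn2 h4
      obtain ⟨a, ⟨b, hab⟩, ha2, han⟩ := Nat.exists_dvd_of_not_prime2 hn2 hnp
      have hb2 : 2 ≤ b := by
        by_contra hb
        have hb' : b = 0 ∨ b = 1 := by omega
        rcases hb' with rfl | rfl
        · omega
        · omega
      apply hsub a b (by omega) ?_ ?_ hb2
      · exact h4.trans (Nat.pow_le_pow_right hpp.pos ha2)
      · rw [← pow_mul, ← hab, ← hn]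
    by_cases hn1' : (n : ℕ) = 1
    · rw [hn1', pow_one] at hn
      subst hn
      have hq5 : 5 ≤ q := by
        have : q ≠ 4 := by
          rintro rfl
          norm_num at hpp
        omega
      by_cases h5 : q = 5
      · right; right; right
        exact h5
      · have hq7 : 7 ≤ q := by
          have : q ≠ 6 := by
            rintro rfl
            norm_num at hpp
          omega
        have hmod : q % 5 ≠ 0 := by
          intro h0
          have h5' : 5 ∣ q := Nat.dvd_of_mod_eq_zero h0
          exact h5 ((Nat.prime_dvd_prime_iff_eq Nat.prime_five hpp).1 h5').symm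
        by_cases h23 : q % 5 = 2 ∨ q % 5 = 3
        · right; right; left
          exact ⟨hpp, by omega, h23⟩
        · exfalso
          apply hA5 (five_dvd_of_mod q hpp.pos (by omega))
          have h49 : 49 ≤ q ^ 2 := by nlinarith
          have : 7 * 48 ≤ q * (q ^ 2 - 1) := Nat.mul_le_mul hq7 (by omega)
          omega
    · have hn2 : 2 ≤ (n : ℕ) := by omega
      by_cases hp2 : p = 2
      · by_cases hnp : (n : ℕ).Prime
        · left
          exact ⟨n, hnp, by rw [hn, hp2]⟩
        · exfalso
          exact hdiv 2 le_rfl hnp hn2 (by rw [hp2]; norm_num)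
      · by_cases hp3 : p = 3
        · by_cases hnp : (n : ℕ).Prime
          · by_cases hn2' : (n : ℕ) = 2
            · exfalso
              rw [hn2', hp3] at hn
              have hq9 : q = 9 := by
                rw [hn]
                norm_num
              rw [hq9] at hge
              apply hA5
              · rw [hq9]
                norm_num
              · have e2 : 9 * (9 ^ 2 - 1) = 720 := by norm_num
                rw [e2] at hge
                omega
            · right; left
              exact ⟨n, hnp, hn2', by rw [hn, hp3]⟩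
          · exfalso
            exact hdiv 2 le_rfl hnp hn2 (by rw [hp3]; norm_num)
        · exfalso
          have hp5 : 5 ≤ p := by
            have h2 := hpp.two_le
            have : p ≠ 4 := by
              rintro rfl
              norm_num at hpp
            omega
          exact hsub 1 n one_ne_zero (by rw [pow_one]; omega) (by rw [pow_one]; exact hn.symm) hn2
  · intro hlist
    have hq4 : 4 ≤ q := by
      rcases hlist with ⟨r, hr, hq⟩ | ⟨r, hr, -, hq⟩ | ⟨-, h, -⟩ | hq
      · rw [hq]
        calc 4 = 2 ^ 2 := by norm_num
          _ ≤ 2 ^ r := Nat.pow_le_pow_right (by norm_num) hr.two_le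
      · rw [hq]
        calc 4 ≤ 3 ^ 2 := by norm_num
          _ ≤ 3 ^ r := Nat.pow_le_pow_right (by norm_num) hr.two_le
      · omega
      · omega
    have hsimple : IsSimpleGroup (Matrix.ProjectiveSpecialLinearGroup (Fin 2) F) :=
      Matrix.ProjectiveSpecialLinearGroup.rank_two_simple
        (by rw [Nat.card_eq_fintype_card, hF]; exact hq4)
    have hns := psl2_not_solvable (K := F) (by rw [hF]; exact hq4)
    refine ⟨hsimple, ?_, ?_⟩
    · intro hc
      exact hns (Group.isSolvable_of_comm (fun a b => hc.is_comm.comm a b))
    · intro M hM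
      rcases dickson_laws p M with ⟨h1, -⟩ | ⟨h1, -⟩ | ⟨⟨e'⟩⟩ | ⟨⟨e'⟩⟩ | ⟨⟨e'⟩⟩ |
        ⟨K, _, _, m, hKm, hK⟩
      · exact h1.isSolvable
      · exact h1.isSolvable
      · apply isSolvable_of_card_two_three 2 1
        rw [Nat.card_congr e'.toEquiv, card_alt_fin_four]
        norm_num
      · apply isSolvable_of_card_two_three 3 1
        rw [Nat.card_congr e'.toEquiv, card_perm_fin_four]
        norm_num
      · exfalso
        have h5d := (Cfsg.Agent.S0804.result (F := F) hF).1 ⟨M, ⟨e'⟩⟩
        have hcM : Nat.card M = 60 := by rw [Nat.card_congr e'.toEquiv, card_alt_fin_five]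
        have htop : Nat.card (Matrix.ProjectiveSpecialLinearGroup (Fin 2) F) = 60 → False :=
          fun h => hM (Subgroup.eq_top_of_card_eq M (by rw [hcM, h]))
        rcases hlist with ⟨r, hr, hq⟩ | ⟨r, hr, hr2, hq⟩ | ⟨hqp, hq5, hq23⟩ | hq5
        · by_cases hr2 : r = 2
          · apply htop
            rw [hq, hr2] at hgcd
            have e1 : Nat.gcd 2 (2 ^ 2 - 1) = 1 := by decide
            have e2 : 2 ^ 2 * ((2 ^ 2) ^ 2 - 1) = 60 := by norm_num
            rw [e1, e2, mul_one] at hgcd
            exact hgcd
          · have hodd : Odd r := hr.odd_of_ne_two hr2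
            rw [hq] at h5d
            refine not_five_dvd _ ?_ (two_pow_sq_mod r hodd) h5d
            intro h
            have h' := Nat.Prime.dvd_of_dvd_pow Nat.prime_five h
            omega
        · have hodd : Odd r := hr.odd_of_ne_two hr2
          rw [hq] at h5d
          refine not_five_dvd _ ?_ (three_pow_sq_mod r hodd) h5d
          intro h
          have h' := Nat.Prime.dvd_of_dvd_pow Nat.prime_five h
          omega
        · rcases five_dvd_cases q hqp h5d with h | h | h <;> omega
        · apply htop
          rw [hq5] at hgcd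
          have e1 : Nat.gcd 2 (5 - 1) = 2 := by decide
          have e2 : 5 * (5 ^ 2 - 1) = 120 := by norm_num
          rw [e1, e2] at hgcd
          omega
      · by_cases hkq : Fintype.card K = q
        · exact absurd (top_of_equiv_same_card' (hkq.trans hF.symm) M hK) hM
        · have hK1 : 1 < Fintype.card K := Fintype.one_lt_card
          rw [hF] at hKm
          have hk23 : Fintype.card K = 2 ∨ Fintype.card K = 3 := by
            rcases hlist with ⟨r, hr, hq⟩ | ⟨r, hr, hr2, hq⟩ | ⟨hqp, hq5, hq23⟩ | hq5
            · rw [hq] at hKm hkq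
              rcases sub_card_of_prime_pow 2 r _ m Nat.prime_two hr hK1 hKm with h | h
              · exact absurd h hkq
              · left
                exact h
            · rw [hq] at hKm hkq
              rcases sub_card_of_prime_pow 3 r _ m Nat.prime_three hr hK1 hKm with h | h
              · exact absurd h hkq
              · right
                exact h
            · exfalso
              exact hkq ((Nat.Prime.pow_eq_iff hqp).1 hKm).1
            · exfalso
              rw [hq5] at hKm hkq
              exact hkq ((Nat.Prime.pow_eq_iff Nat.prime_five).1 hKm).1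
          have hgK := card_PSL2_mul_gcd (F := K)
          rcases hk23 with h | h
          · rw [h] at hgK
            have e1 : Nat.gcd 2 (2 - 1) = 1 := by decide
            have e2 : 2 * (2 ^ 2 - 1) = 6 := by norm_num
            rw [e1, e2, mul_one] at hgK
            apply isSolvable_of_card_two_three 1 1
            rcases hK with ⟨⟨e⟩⟩ | ⟨⟨e⟩⟩
            · rw [Nat.card_congr e.toEquiv, hgK]
              norm_num
            · rw [Nat.card_congr e.toEquiv, card_PGL2_eq, h]
              norm_num
          · rw [h] at hgK
            have e1 : Nat.gcd 2 (3 - 1) = 2 := by decide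
            have e2 : 3 * (3 ^ 2 - 1) = 24 := by norm_num
            rw [e1, e2] at hgK
            rcases hK with ⟨⟨e⟩⟩ | ⟨⟨e⟩⟩
            · apply isSolvable_of_card_two_three 2 1
              rw [Nat.card_congr e.toEquiv]
              have e3 : Nat.card (Matrix.ProjectiveSpecialLinearGroup (Fin 2) K) = 12 := by
                omega
              rw [e3]
              norm_num
            · apply isSolvable_of_card_two_three 3 1
              rw [Nat.card_congr e.toEquiv, card_PGL2_eq, h]
              norm_num

end Cfsg.Agent.S0810
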