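import Cfsg.Statements.S0811
import Cfsg.Agent.Helper41.DkDih2

set_option autoImplicit false
open Cfsg

namespace Cfsg.Agent.S0811

open Cfsg.Agent.Helper41 Cfsg.Agent.Helper41.Dk Matrix

/-- For q ∉ {2, 7, 9}, PSL_2(q) has a maximal subgroup isomorphic to the dihedral group of order 2(q + 1)/d, d = gcd(2, q − 1). -/
theorem result {F : Type*} [Field F] [Fintype F] {q : ℕ} (hF : Fintype.card F = q) (hq : q ∉ ({2, 7, 9} : Finset ℕ)) : ∃ H : Subgroup (Matrix.ProjectiveSpecialLinearGroup (Fin 2) F), IsCoatom H ∧ Nonempty (H ≃* DihedralGroup ((q + 1) / Nat.gcd 2 (q - 1))) := by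
  classical
  obtain ⟨p, hchar⟩ := CharP.exists F
  haveI := hchar
  haveI : Fact p.Prime := ⟨CharP.char_is_prime F p⟩
  have hq2 : 2 ≤ q := by rw [← hF]; exact Fintype.one_lt_card
  simp only [Finset.mem_insert, Finset.mem_singleton, not_or] at hq
  obtain ⟨n2, n7, n9⟩ := hq
  have hSL : Nat.card (Matrix.SpecialLinearGroup (Fin 2) F) = q * (q ^ 2 - 1) := by
    rw [Cfsg.Agent.Helper5.card_SL2, hF]
  have hcen : Nat.card (Subgroup.center (Matrix.SpecialLinearGroup (Fin 2) F)) =
      Nat.gcd 2 (q - 1) := by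
    rw [card_center_gcd (F := F) p, hF]
  have hsq : q ^ 2 - 1 = (q + 1) * (q - 1) := by
    obtain ⟨m, rfl⟩ : ∃ m, q = m + 1 := ⟨q - 1, by omega⟩
    have h1 : (m + 1) ^ 2 = (m + 1 + 1) * m + 1 := by ring
    rw [h1]; simp
  obtain ⟨x0, x1, w, hxc, htr, hord, hw, hcardcen, hcomm, hnofix⟩ := exists_nonsplit_elt (F := F) p
  rw [hF] at hord hcardcen
  have hpow : ∀ k, x1 ^ k = 1 → (q + 1) ∣ k := fun k h => hord ▸ orderOf_dvd_of_pow_eq_one h
  have hx2 : x1 * x1 ≠ 1 := fun h => htr (tr_sq_of_mul_self _ h)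
  obtain ⟨e⟩ := NT_dihedral p x1 w hxc htr hw
  rw [hcardcen, hcen] at e
  refine ⟨(NT x1).map
    (QuotientGroup.mk' (Subgroup.center (Matrix.SpecialLinearGroup (Fin 2) F))), ?_, ⟨e⟩⟩
  have hpre := pre_map (NT x1) (center_le_NT _)
  have hcardN : Nat.card (NT x1) = 2 * (q + 1) := by
    rw [card_NT_of_inv _ w hw hx2, hcardcen]
  have hbig : 2 * (q + 1) < q * ((q + 1) * (q - 1)) := by
    have h0 : 2 ≤ q - 1 := by omega
    have h1 : 2 * (q + 1) < q * (q + 1) := Nat.mul_lt_mul_of_pos_right (by omega) (by omega)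
    have h2 : q * (q + 1) ≤ q * ((q + 1) * (q - 1)) :=
      Nat.mul_le_mul_left q (Nat.le_mul_of_pos_right _ (by omega))
    omega
  apply isCoatom_of_pre
  · rw [hpre]
    intro htop
    have h1 : Nat.card (NT x1) =
        Nat.card (Matrix.SpecialLinearGroup (Fin 2) F) := by rw [htop, Subgroup.card_top]
    rw [hcardN, hSL, hsq] at h1
    omega
  · intro Mt hle hne
    rw [hpre] at hle hne
    have hcenle : Subgroup.center (Matrix.SpecialLinearGroup (Fin 2) F) ≤ Mt :=
      (center_le_NT _).trans hle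
    have hxM : x1 ∈ Mt := hle (self_mem_NT _)
    have hwM : w ∈ Mt := hle (Or.inr hw)
    have hx0M : x0 ∈ Mt := hle (cen_le_NT x1 (mem_cen.mpr hcomm))
    have hdvdN : 2 * (q + 1) ∣ Nat.card Mt := hcardN ▸ Subgroup.card_dvd_of_le hle
    have hlt : 2 * (q + 1) < Nat.card Mt := by
      by_contra hcon
      push_neg at hcon
      apply hne
      symm
      apply Subgroup.eq_of_le_of_card_ge hle
      rw [hcardN]; exact hcon
    have hdvd : Nat.card Mt ∣ q * (q ^ 2 - 1) := by
      rw [← hSL]; exact Subgroup.card_subgroup_dvd_card Mt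
    have hidx := card_of_index Mt hcenle
    rw [hcen] at hidx
    have htopcard : Nat.card Mt = q * (q ^ 2 - 1) → Mt = ⊤ := by
      intro h
      apply Subgroup.eq_top_of_card_eq
      rw [h, hSL]
    by_cases hq3 : q = 3
    · apply htopcard
      rw [hq3] at hdvdN hlt hdvd ⊢
      obtain ⟨k, hk⟩ := hdvdN
      rw [hk] at hdvd hlt ⊢
      have h1 := Nat.le_of_dvd (by norm_num) hdvd
      have h2 : k ≤ 3 := by omega
      interval_cases k
      · omega
      · omega
      · norm_num at hdvd
      · norm_num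
    have hx2c : x1 * x1 ∉
        Subgroup.center (Matrix.SpecialLinearGroup (Fin 2) F) := by
      intro h
      have h1 := pow_center_sq x1 2 (by rw [pow_two]; exact h)
      have h2 := Nat.le_of_dvd (by norm_num) (hpow _ h1)
      omega
    rcases dickson_subgroup p Mt hcenle with hB | hT | ⟨h12, ⟨e12⟩⟩ | ⟨h24, ⟨e24⟩⟩ |
      ⟨h60, ⟨e60⟩⟩ | ⟨Q, hQ, K1, hS⟩
    · exfalso
      obtain ⟨v, hv, hfix⟩ := hB
      obtain ⟨c, hc⟩ := hfix ⟨x0, hx0M⟩
      exact hnofix v hv c hc
    · exfalso
      rcases card_dvd_of_T p Mt hT with h | h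
      · rw [hF] at h
        have h1 := Nat.le_of_dvd (by omega) h
        omega
      · rw [hF] at h
        have h1 : 2 * (q + 1) ∣ 2 * (q - 1) := hdvdN.trans h
        have h2 := Nat.le_of_dvd (by omega) h1
        omega
    · exfalso
      have hconj : (e12 (QuotientGroup.mk (⟨w, hwM⟩ : Mt))) *
          (e12 (QuotientGroup.mk (⟨x1, hxM⟩ : Mt))) *
          (e12 (QuotientGroup.mk (⟨w, hwM⟩ : Mt)))⁻¹ =
          (e12 (QuotientGroup.mk (⟨x1, hxM⟩ : Mt)))⁻¹ := by
        rw [← map_inv, ← map_inv, ← map_mul, ← map_mul, ← QuotientGroup.mk_inv,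
          ← QuotientGroup.mk_inv, ← QuotientGroup.mk_mul, ← QuotientGroup.mk_mul]
        congr 2
        exact Subtype.ext hw
      have h1 := a4_inv_fact _ _ hconj
      have h2 := quot_pow_center Mt e12 ⟨x1, hxM⟩ 2 (by rw [pow_two]; exact h1)
      exact hx2c (by rw [← pow_two]; exact h2)
    · exfalso
      have hq5 : q = 5 := by
        rcases s4_pow_fact (e24 (QuotientGroup.mk (⟨x1, hxM⟩ : Mt))) with h | h
        · have h1 := hpow _ (pow_center_sq x1 3 (quot_pow_center Mt e24 ⟨x1, hxM⟩ 3 h))
          have h2 := Nat.le_of_dvd (by norm_num) h1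
          have h3 : q ≤ 5 := by omega
          interval_cases q <;> first | omega | (norm_num at h1)
        · have h1 := hpow _ (pow_center_sq x1 4 (quot_pow_center Mt e24 ⟨x1, hxM⟩ 4 h))
          have h2 := Nat.le_of_dvd (by norm_num) h1
          have h3 : q ≤ 7 := by omega
          interval_cases q <;> first | omega | (norm_num at h1)
      rw [h24, hq5] at hidx
      rw [hidx, hq5] at hdvd
      norm_num at hdvd
    · have hq45 : q = 4 ∨ q = 5 := by
        rcases a5_pow_fact (e60 (QuotientGroup.mk (⟨x1, hxM⟩ : Mt))) with h | h | h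
        · have h1 := hpow _ (pow_center_sq x1 2 (quot_pow_center Mt e60 ⟨x1, hxM⟩ 2 h))
          have h2 := Nat.le_of_dvd (by norm_num) h1
          have h3 : q ≤ 3 := by omega
          interval_cases q <;> first | omega | (norm_num at h1)
        · have h1 := hpow _ (pow_center_sq x1 3 (quot_pow_center Mt e60 ⟨x1, hxM⟩ 3 h))
          have h2 := Nat.le_of_dvd (by norm_num) h1
          have h3 : q ≤ 5 := by omega
          interval_cases q <;> first | omega | (norm_num at h1)
        · have h1 := hpow _ (pow_center_sq x1 5 (quot_pow_center Mt e60 ⟨x1, hxM⟩ 5 h))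
          have h2 := Nat.le_of_dvd (by norm_num) h1
          have h3 : q ≤ 9 := by omega
          interval_cases q <;> first | omega | (norm_num at h1)
      rcases hq45 with h4 | h5
      · apply htopcard
        rw [hidx, h60, h4]
        norm_num
      · apply htopcard
        rw [hidx, h60, h5]
        norm_num
    · rcases S_case p Mt Q hQ K1 hS x1 hxM hxc htr hx2c with htop | ⟨r, hr2, hrq, hrdvd, hr⟩
      · exact htop
      · exfalso
        rw [hF] at hrq hrdvd
        rw [hord] at hr
        have hr4 : 2 * r ≤ r ^ 2 := by nlinarith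
        rcases hr with ⟨hcard, h | h⟩ | ⟨h2F, h | h⟩
        · have h1 := Nat.le_of_dvd (by omega) h
          omega
        · have h1 := Nat.le_of_dvd (by omega) h
          omega
        · have h1 := Nat.le_of_dvd (by omega) h
          omega
        · have h1 := Nat.le_of_dvd (by omega) h
          have hr3 : r = 2 := by
            by_contra hc
            have hc3 : 3 ≤ r := by omega
            have h9 : 3 * r ≤ r * r := Nat.mul_le_mul_right r hc3
            rw [pow_two] at hrq
            omega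
          rw [hr3] at hrq h hrdvd
          have h3 : q ≤ 5 := by omega
          interval_cases q <;> first | omega | (norm_num at h) | (norm_num at hrdvd)

end Cfsg.Agent.S0811
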