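import Cfsg.Statements.S0812
import Cfsg.Agent.Helper41.DkDih

set_option autoImplicit false
open Cfsg

namespace Cfsg.Agent.S0812

open Cfsg.Agent.Helper41 Cfsg.Agent.Helper41.Dk Matrix

/-- For q ∉ {2, 3, 5, 7, 9, 11}, PSL_2(q) has a maximal subgroup isomorphic to the dihedral group of order 2(q − 1)/d, d = gcd(2, q − 1). -/
theorem result {F : Type*} [Field F] [Fintype F] {q : ℕ} (hF : Fintype.card F = q) (hq : q ∉ ({2, 3, 5, 7, 9, 11} : Finset ℕ)) : ∃ H : Subgroup (Matrix.ProjectiveSpecialLinearGroup (Fin 2) F), IsCoatom H ∧ Nonempty (H ≃* DihedralGroup ((q - 1) / Nat.gcd 2 (q - 1))) := by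
  classical
  obtain ⟨p, hchar⟩ := CharP.exists F
  haveI := hchar
  haveI : Fact p.Prime := ⟨CharP.char_is_prime F p⟩
  have hq2 : 2 ≤ q := by rw [← hF]; exact Fintype.one_lt_card
  simp only [Finset.mem_insert, Finset.mem_singleton, not_or] at hq
  obtain ⟨n2, n3, n5, n7, n9, n11⟩ := hq
  have hSL : Nat.card (Matrix.SpecialLinearGroup (Fin 2) F) = q * (q ^ 2 - 1) := by
    rw [Cfsg.Agent.Helper5.card_SL2, hF]
  have hcen : Nat.card (Subgroup.center (Matrix.SpecialLinearGroup (Fin 2) F)) =
      Nat.gcd 2 (q - 1) := by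
    rw [card_center_gcd (F := F) p, hF]
  have hsq : q ^ 2 - 1 = (q + 1) * (q - 1) := by
    obtain ⟨m, rfl⟩ : ∃ m, q = m + 1 := ⟨q - 1, by omega⟩
    have h1 : (m + 1) ^ 2 = (m + 1 + 1) * m + 1 := by ring
    rw [h1]; simp
  obtain ⟨ζ, hζ⟩ := exists_gen (F := F)
  rw [hF] at hζ
  have hpow : ∀ k, ζ ^ k = 1 → (q - 1) ∣ k := fun k h => hζ ▸ orderOf_dvd_of_pow_eq_one h
  have hζ2 : ζ * ζ ≠ 1 := by
    intro h
    have h1 := hpow 2 (by rw [pow_two]; exact h)
    have h2 := Nat.le_of_dvd (by norm_num) h1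
    omega
  have hxc : (Dg ζ : Matrix.SpecialLinearGroup (Fin 2) F) ∉
      Subgroup.center (Matrix.SpecialLinearGroup (Fin 2) F) :=
    fun h => hζ2 ((Dg_mem_center_iff ζ).mp h)
  have htr := Dg_tr ζ hζ2
  have hw := wS_conj ζ
  have hx2 : (Dg ζ : Matrix.SpecialLinearGroup (Fin 2) F) * Dg ζ ≠ 1 :=
    fun h => htr (tr_sq_of_mul_self _ h)
  have hcardcen : Nat.card (cen (Dg ζ : Matrix.SpecialLinearGroup (Fin 2) F)) = q - 1 := by
    rw [card_cen_split (Dg ζ) (Dg_e01 ζ) (Dg_e10 ζ), hF]
    rw [Dg_e00, Dg_e11]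
    intro h
    apply hζ2
    apply Units.ext
    rw [Units.val_mul, Units.val_one]
    nth_rewrite 2 [h]
    exact Units.mul_inv ζ
  obtain ⟨e⟩ := NT_dihedral p (Dg ζ) wS hxc htr hw
  rw [hcardcen, hcen] at e
  refine ⟨(NT (Dg ζ : Matrix.SpecialLinearGroup (Fin 2) F)).map
    (QuotientGroup.mk' (Subgroup.center (Matrix.SpecialLinearGroup (Fin 2) F))), ?_, ⟨e⟩⟩
  have hpre := pre_map (NT (Dg ζ : Matrix.SpecialLinearGroup (Fin 2) F)) (center_le_NT _)
  have hcardN : Nat.card (NT (Dg ζ : Matrix.SpecialLinearGroup (Fin 2) F)) = 2 * (q - 1) := by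
    rw [card_NT_of_inv _ wS hw hx2, hcardcen]
  have hbig : 2 * (q - 1) < q * ((q + 1) * (q - 1)) := by
    have h1 : 2 * (q - 1) < q * (q - 1) := Nat.mul_lt_mul_of_pos_right (by omega) (by omega)
    have h2 : q * (q - 1) ≤ q * ((q + 1) * (q - 1)) :=
      Nat.mul_le_mul_left q (Nat.le_mul_of_pos_left _ (by omega))
    omega
  apply isCoatom_of_pre
  · rw [hpre]
    intro htop
    have h1 : Nat.card (NT (Dg ζ : Matrix.SpecialLinearGroup (Fin 2) F)) =
        Nat.card (Matrix.SpecialLinearGroup (Fin 2) F) := by rw [htop, Subgroup.card_top]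
    rw [hcardN, hSL, hsq] at h1
    omega
  · intro Mt hle hne
    rw [hpre] at hle hne
    have hcenle : Subgroup.center (Matrix.SpecialLinearGroup (Fin 2) F) ≤ Mt :=
      (center_le_NT _).trans hle
    have hxM : (Dg ζ : Matrix.SpecialLinearGroup (Fin 2) F) ∈ Mt := hle (self_mem_NT _)
    have hwM : (wS : Matrix.SpecialLinearGroup (Fin 2) F) ∈ Mt := hle (Or.inr hw)
    have hdvdN : 2 * (q - 1) ∣ Nat.card Mt := hcardN ▸ Subgroup.card_dvd_of_le hle
    have hlt : 2 * (q - 1) < Nat.card Mt := by
      by_contra hcon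
      push_neg at hcon
      apply hne
      symm
      apply Subgroup.eq_of_le_of_card_ge hle
      rw [hcardN]; exact hcon
    have hdvd : Nat.card Mt ∣ q * (q ^ 2 - 1) := by
      rw [← hSL]; exact Subgroup.card_subgroup_dvd_card Mt
    have hidx := card_of_index Mt hcenle
    rw [hcen] at hidx
    have htopcard : Nat.card Mt = q * (q ^ 2 - 1) → Mt = ⊤ := by
      intro h
      apply Subgroup.eq_top_of_card_eq
      rw [h, hSL]
    have hx2c : (Dg ζ : Matrix.SpecialLinearGroup (Fin 2) F) * Dg ζ ∉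
        Subgroup.center (Matrix.SpecialLinearGroup (Fin 2) F) := by
      intro h
      have h1 := Dg_pow_center ζ 2 (by rw [pow_two]; exact h)
      have h2 := Nat.le_of_dvd (by norm_num) (hpow _ h1)
      have h3 : q = 4 := by omega
      rw [h3] at hpow
      have h4 := hpow _ h1
      norm_num at h4
    rcases dickson_subgroup p Mt hcenle with hB | hT | ⟨h12, ⟨e12⟩⟩ | ⟨h24, ⟨e24⟩⟩ |
      ⟨h60, ⟨e60⟩⟩ | ⟨Q, hQ, K1, hS⟩
    · exfalso
      obtain ⟨v, hv, hfix⟩ := hB
      obtain ⟨c, hc⟩ := hfix ⟨Dg ζ, hxM⟩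
      obtain ⟨c', hc'⟩ := hfix ⟨wS, hwM⟩
      exact no_fix_Dg_wS ζ hζ2 v hv c c' hc hc'
    · exfalso
      rcases card_dvd_of_T p Mt hT with h | h
      · rw [hF] at h
        have h1 : 2 * (q - 1) ∣ 2 * (q + 1) := hdvdN.trans h
        have h2 : (q - 1) ∣ (q + 1) := Nat.dvd_of_mul_dvd_mul_left (by norm_num) h1
        have h3 : (q - 1) ∣ 2 := by
          have h4 : q + 1 = (q - 1) + 2 := by omega
          rw [h4] at h2
          exact (Nat.dvd_add_right (dvd_refl _)).mp h2
        have h5 := Nat.le_of_dvd (by norm_num) h3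
        omega
      · rw [hF] at h
        have h1 := Nat.le_of_dvd (by omega) h
        omega
    · exfalso
      have hconj : (e12 (QuotientGroup.mk (⟨wS, hwM⟩ : Mt))) *
          (e12 (QuotientGroup.mk (⟨Dg ζ, hxM⟩ : Mt))) *
          (e12 (QuotientGroup.mk (⟨wS, hwM⟩ : Mt)))⁻¹ =
          (e12 (QuotientGroup.mk (⟨Dg ζ, hxM⟩ : Mt)))⁻¹ := by
        rw [← map_inv, ← map_inv, ← map_mul, ← map_mul, ← QuotientGroup.mk_inv,
          ← QuotientGroup.mk_inv, ← QuotientGroup.mk_mul, ← QuotientGroup.mk_mul]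
        congr 2
        exact Subtype.ext hw
      have h1 := a4_inv_fact _ _ hconj
      have h2 := quot_pow_center Mt e12 ⟨Dg ζ, hxM⟩ 2 (by rw [pow_two]; exact h1)
      exact hx2c (by rw [← pow_two]; exact h2)
    · exfalso
      have hq4 : q = 4 := by
        rcases s4_pow_fact (e24 (QuotientGroup.mk (⟨Dg ζ, hxM⟩ : Mt))) with h | h
        · have h1 := hpow _ (Dg_pow_center ζ 3 (quot_pow_center Mt e24 ⟨Dg ζ, hxM⟩ 3 h))
          have h2 := Nat.le_of_dvd (by norm_num) h1
          have h3 : q ≤ 7 := by omega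
          interval_cases q <;> first | omega | (norm_num at h1)
        · have h1 := hpow _ (Dg_pow_center ζ 4 (quot_pow_center Mt e24 ⟨Dg ζ, hxM⟩ 4 h))
          have h2 := Nat.le_of_dvd (by norm_num) h1
          have h3 : q ≤ 9 := by omega
          interval_cases q <;> first | omega | (norm_num at h1)
      rw [h24, hq4] at hidx
      rw [hidx, hq4] at hdvd
      norm_num at hdvd
    · have hq46 : q = 4 ∨ q = 6 := by
        rcases a5_pow_fact (e60 (QuotientGroup.mk (⟨Dg ζ, hxM⟩ : Mt))) with h | h | h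
        · have h1 := hpow _ (Dg_pow_center ζ 2 (quot_pow_center Mt e60 ⟨Dg ζ, hxM⟩ 2 h))
          have h2 := Nat.le_of_dvd (by norm_num) h1
          have h3 : q ≤ 5 := by omega
          interval_cases q <;> first | omega | (norm_num at h1)
        · have h1 := hpow _ (Dg_pow_center ζ 3 (quot_pow_center Mt e60 ⟨Dg ζ, hxM⟩ 3 h))
          have h2 := Nat.le_of_dvd (by norm_num) h1
          have h3 : q ≤ 7 := by omega
          interval_cases q <;> first | omega | (norm_num at h1)
        · have h1 := hpow _ (Dg_pow_center ζ 5 (quot_pow_center Mt e60 ⟨Dg ζ, hxM⟩ 5 h))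
          have h2 := Nat.le_of_dvd (by norm_num) h1
          have h3 : q ≤ 11 := by omega
          interval_cases q <;> first | omega | (norm_num at h1)
      rcases hq46 with h4 | h6
      · apply htopcard
        rw [hidx, h60, h4]
        norm_num
      · exfalso
        rw [h60, h6] at hidx
        rw [hidx, h6] at hdvd
        norm_num at hdvd
    · have hordx : orderOf (Dg ζ : Matrix.SpecialLinearGroup (Fin 2) F) = q - 1 := by
        rw [orderOf_injective (Dg : Fˣ →* Matrix.SpecialLinearGroup (Fin 2) F) Dg_injective ζ, hζ]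
      rcases S_case p Mt Q hQ K1 hS (Dg ζ) hxM hxc htr hx2c with htop | ⟨r, hr2, hrq, hrdvd, hr⟩
      · exact htop
      · exfalso
        rw [hF] at hrq hrdvd
        rw [hordx] at hr
        have hr4 : 2 * r ≤ r ^ 2 := by nlinarith
        rcases hr with ⟨hcard, h | h⟩ | ⟨h2F, h | h⟩
        · have h1 := Nat.le_of_dvd (by omega) h
          omega
        · have h1 := Nat.le_of_dvd (by omega) h
          have hr3 : r = 2 := by
            by_contra hc
            have hc3 : 3 ≤ r := by omega
            have h9 : 3 * r ≤ r * r := Nat.mul_le_mul_right r hc3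
            rw [pow_two] at hrq
            omega
          rw [hr3] at hcard hrq h1
          have hq4 : q = 4 := by omega
          rw [hcard, hq4] at hlt
          norm_num at hlt
        · have h1 := Nat.le_of_dvd (by omega) h
          omega
        · have h1 := Nat.le_of_dvd (by omega) h
          have hr3 : r ≤ 3 := by
            by_contra hc
            have hc3 : 4 ≤ r := by omega
            have h9 : 4 * r ≤ r * r := Nat.mul_le_mul_right r hc3
            rw [pow_two] at hrq
            omega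
          interval_cases r
          · have hq47 : q = 4 := by
              have h3 : q ≤ 7 := by omega
              interval_cases q <;> first | omega | (norm_num at h)
            apply h2F
            have h4 : ((Fintype.card F : ℕ) : F) = 0 := Nat.cast_card_eq_zero F
            rw [hF, hq47] at h4
            have h5 : (2 : F) * 2 = 0 := by
              have h6 : ((4 : ℕ) : F) = 2 * 2 := by norm_num
              rw [← h6]; exact h4
            exact (mul_self_eq_zero.mp h5)
          · omega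

end Cfsg.Agent.S0812
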