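import Cfsg.Statements.S2604
import Cfsg.Agent.Helper45.OutC
import Cfsg.Agent.Helper45.CenterForms
import Cfsg.Agent.Helper45.TSing
import Cfsg.Agent.Helper44.PSL2E

set_option autoImplicit false
open Cfsg

namespace Cfsg.Agent.S2604

/-- Outer automorphism group of the simple orthogonal group Ω_(2m+1)(q), m ≥ 3, q = p^f odd: it is the direct product of a group of order 2 (diagonal automorphisms, from SO) and a cyclic group of order f (field automorphisms). -/
theorem result {F : Type*} [Field F] [Fintype F] {p f m : ℕ} [Fact p.Prime] (hf : 1 ≤ f) (hF : Fintype.card F = p ^ f) (hp : p ≠ 2) (hm : 3 ≤ m) : Nonempty (Cfsg.Out (Cfsg.POmega F (Cfsg.quadFormOdd m F)) ≃* Multiplicative (ZMod 2 × ZMod f)) := by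
  have hpodd : Odd p := (Nat.Prime.eq_two_or_odd' Fact.out).resolve_left hp
  have hodd : Odd (Fintype.card F) := by
    rw [hF]
    exact hpodd.pow
  have h2 : (2 : F) ≠ 0 := Helper45.two_ne_zero_of_odd_card hodd
  have hQ := Helper45.oddQF_nondeg' (F := F) m h2
  have hcard : Fintype.card (Unit ⊕ (Fin m ⊕ Fin m)) = 2 * m + 1 := by
    rw [Fintype.card_sum, Fintype.card_sum, Fintype.card_fin, Fintype.card_unit]
    omega
  have hn7 : 7 ≤ Fintype.card (Unit ⊕ (Fin m ⊕ Fin m)) := by omega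
  have hn5 : 5 ≤ Fintype.card (Unit ⊕ (Fin m ⊕ Fin m)) := by omega
  have hoddι : Odd (Fintype.card (Unit ⊕ (Fin m ⊕ Fin m))) := ⟨m, hcard⟩
  have hcase : 9 ≤ Fintype.card (Unit ⊕ (Fin m ⊕ Fin m)) ∨
      Helper45.AO.TS4free (Helper43.oddQF m F) := by
    by_cases h4 : 4 ≤ m
    · left
      omega
    · right
      intro W hW
      have h5 := Helper45.finrank_ts_le (Helper43.oddQF m F) hQ W hW
      omega
  obtain ⟨Θ, hΘ1, hΘ2⟩ := Helper45.OO.exists_theta (Helper43.oddQF m F) hQ hn7 hcase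
  have := Helper44.charP_of_card (F := F) p f hF
  obtain ⟨hcyc, hcardC⟩ := Helper44.ringAut_cyclic_card (F := F) p f hF
  have hfield : ∀ σ : RingAut F, IsSemisimilarityPair (⇑(Helper43.oddQF m F))
      (1 : GL (Unit ⊕ (Fin m ⊕ Fin m)) F) σ := by
    intro σ
    refine ⟨1, fun v => ?_⟩
    rw [Units.val_one, Matrix.one_mulVec, Units.val_one, one_mul, Helper43.oddQF_coe]
    unfold quadFormOdd
    rw [map_add, map_pow, map_sum]
    congr 1
    apply Finset.sum_congr rfl
    intro i _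
    rw [map_mul]
  obtain ⟨s, hs⟩ : ∃ s : RingAut F →* MulAut (POmega F (⇑(Helper43.oddQF m F))),
      ∀ σ : RingAut F, s σ = Helper45.OO.semiAut (⇑(Helper43.oddQF m F)) 1 σ (hfield σ) := by
    refine ⟨{ toFun := fun σ => Helper45.OO.semiAut (⇑(Helper43.oddQF m F)) 1 σ (hfield σ)
              map_one' := Helper45.OO.semiAut_one _ _
              map_mul' := ?_ }, fun σ => rfl⟩
    intro σ τ
    rw [Helper45.OO.semiAut_mul]
    exact Helper45.OO.semiAut_congr _ _ _ (by rw [map_one, mul_one]) rfl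
  have hsΘ : ∀ σ : RingAut F, Θ (s σ) = σ := by
    intro σ
    rw [hs]
    exact hΘ1 1 σ (hfield σ)
  have hker := Helper45.OO.theta_ker_iff (Helper43.oddQF m F) Θ hΘ1 hΘ2
  have hI : Inn (POmega F (⇑(Helper43.oddQF m F))) ≤ Θ.ker := by
    intro α hα
    exact (hker α).mpr (Helper45.OO.inn_sim (Helper43.oddQF m F) α hα)
  have hidx := Helper45.OO.odd_relIndex (Helper43.oddQF m F) h2 hQ hn5 hoddι Θ.ker hker
  exact Helper45.OO.out_split (Inn (POmega F (⇑(Helper43.oddQF m F)))) hcyc f hcardC Θ s hsΘ hI hidx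

end Cfsg.Agent.S2604
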