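import Cfsg.Statements.S0816
import Cfsg.Agent.Helper44.OmB
import Cfsg.Agent.S2604

set_option autoImplicit false
open Cfsg

namespace Cfsg.Agent.S0816

/-- |Aut(PΩ_(2m+1)(q))| = 2 f · |PΩ_(2m+1)(q)| for q = p^f odd and m ≥ 3 (for the form quadFormOdd). -/
theorem result {F : Type*} [Field F] [Fintype F] (p f : ℕ) [Fact p.Prime] (hf : 1 ≤ f) (hF : Fintype.card F = p ^ f) (hodd : Odd p) (m : ℕ) (hm : 3 ≤ m) : Nat.card (MulAut (Cfsg.POmega F (Cfsg.quadFormOdd m F))) = 2 * f * Nat.card (Cfsg.POmega F (Cfsg.quadFormOdd m F)) := by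
  have hp : p ≠ 2 := by
    rintro rfl
    exact absurd hodd (by decide)
  have hoddF : Odd (Fintype.card F) := by
    rw [hF]
    exact hodd.pow
  have h2 : (2 : F) ≠ 0 := Cfsg.Agent.Helper45.two_ne_zero_of_odd_card hoddF
  have hQ := Cfsg.Agent.Helper45.oddQF_nondeg' (F := F) m h2
  have hcard : Fintype.card (Unit ⊕ (Fin m ⊕ Fin m)) = 2 * m + 1 := by
    rw [Fintype.card_sum, Fintype.card_sum, Fintype.card_fin, Fintype.card_unit]
    omega
  haveI : IsSimpleGroup (Cfsg.POmega F (Cfsg.quadFormOdd m F)) :=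
    Cfsg.Agent.Helper45.pomega_simple (Cfsg.Agent.Helper43.oddQF m F) hQ (by omega)
  have hperf : commutator (Cfsg.POmega F (Cfsg.quadFormOdd m F)) = ⊤ :=
    Cfsg.Agent.Helper44.POm.commutator_quotient_top _
      (Cfsg.Agent.Helper45.omega_perfect (Cfsg.Agent.Helper43.oddQF m F) hQ (by omega))
  obtain ⟨e⟩ := Cfsg.Agent.S2604.result (F := F) (p := p) (f := f) (m := m) hf hF hp hm
  haveI : NeZero f := ⟨by omega⟩
  have hout : Nat.card (Cfsg.Out (Cfsg.POmega F (Cfsg.quadFormOdd m F))) = 2 * f := by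
    rw [Nat.card_congr e.toEquiv]
    show Nat.card (ZMod 2 × ZMod f) = 2 * f
    rw [Nat.card_prod, Nat.card_zmod, Nat.card_zmod]
  exact Cfsg.Agent.Helper44.POm.card_aut_of_card_out
    (Cfsg.Agent.Helper44.POm.conj_injective_of_simple hperf) (2 * f) hout

end Cfsg.Agent.S0816
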