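import Cfsg.Statements.S0817
import Cfsg.Agent.Helper45.OctG

set_option autoImplicit false
open Cfsg

namespace Cfsg.Agent.S0817

/-- |Aut(PΩ⁺_2m(q))| for q = p^f, m ≥ 4: |PΩ⁺_2m(q)| times f, times 3 when m = 4, times 2 if p = 2, and times 8 or 4 if p is odd according as m(q−1)/2 is even or odd. -/
theorem result {F : Type*} [Field F] [Fintype F] (p f : ℕ) [Fact p.Prime] (hf : 1 ≤ f) (hF : Fintype.card F = p ^ f) (m : ℕ) (hm : 4 ≤ m) : Nat.card (MulAut (Cfsg.POmega F (Cfsg.quadFormPlus m F))) = (if m = 4 then 3 else 1) * (if p = 2 then 2 else (if Even (m * (p ^ f - 1) / 2) then 8 else 4)) * f * Nat.card (Cfsg.POmega F (Cfsg.quadFormPlus m F)) := by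
  have hQ := Helper45.plusQF_nondeg' (F := F) m
  have hcard : Fintype.card (Fin m ⊕ Fin m) = 2 * m := by
    rw [Fintype.card_sum, Fintype.card_fin]
    omega
  have hci : 6 ≤ Fintype.card (Fin m ⊕ Fin m) := by omega
  have hn : 5 ≤ Fintype.card (Fin m ⊕ Fin m) := by omega
  have h1 := Helper45.OO.card_aut_pomega (Helper43.plusQF m F) hQ hci
  rw [Helper43.plusQF_coe] at h1
  rw [h1]
  congr 1
  have h2 := Helper45.Oct.card_out_eq (Helper43.plusQF m F) (Helper45.Oct.plus_field m) hQ hn p f hF
  refine h2.trans ?_
  have hidx : (Helper45.Oct.semiSub (Helper43.plusQF m F)).index = if m = 4 then 3 else 1 := by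
    by_cases h4 : m = 4
    · subst h4
      rw [if_pos rfl]
      exact Helper45.Oct.semiSub_index_eight
    · rw [if_neg h4, Helper45.Oct.semiSub_top m (by omega), Subgroup.index_top]
  have hrel : (Inn (POmega F ⇑(Helper43.plusQF m F))).relIndex (pgoAut F ⇑(Helper43.plusQF m F)) =
      if p = 2 then 2 else (if Even (m * (p ^ f - 1) / 2) then 8 else 4) := by
    show (Inn (POmega F (quadFormPlus m F))).relIndex (pgoAut F (quadFormPlus m F)) =
      if p = 2 then 2 else (if Even (m * (p ^ f - 1) / 2) then 8 else 4)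
    by_cases hp : p = 2
    · subst hp
      rw [if_pos rfl]
      haveI := Helper44.charP_of_card (F := F) 2 f hF
      have h3 := Helper45.OO.char2_relIndex (Helper43.plusQF m F) hQ hn
        (pgoAut F ⇑(Helper43.plusQF m F)) (fun α => Helper45.mem_pgoAut_iff _ α)
      rw [Helper43.plusQF_coe] at h3
      exact h3
    · rw [if_neg hp]
      have hpodd : Odd p := (Fact.out : p.Prime).odd_of_ne_two hp
      have hq : Odd (p ^ f) := hpodd.pow
      have hodd : Odd (Fintype.card F) := by rw [hF]; exact hq
      obtain ⟨hA, hB⟩ := Helper45.pgo_plus_mod_inn (F := F) hodd hm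
      obtain ⟨t, ht⟩ := hq
      have hmt : m * (p ^ f - 1) / 2 = m * t := by
        have h3 : p ^ f - 1 = 2 * t := by omega
        rw [h3]
        have h4 : m * (2 * t) = (m * t) * 2 := by ring
        rw [h4, Nat.mul_div_cancel _ (by norm_num)]
      rw [hmt]
      by_cases hc : Odd m ∧ Fintype.card F % 4 = 3
      · obtain ⟨φ, hφs, hφk⟩ := hA hc
        have hne : ¬ Even (m * t) := by
          rw [Nat.even_mul]
          rintro (h5 | h5)
          · exact (Nat.not_even_iff_odd.mpr hc.1) h5
          · obtain ⟨s, hs⟩ := h5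
            have := hc.2
            rw [hF] at this
            omega
        rw [if_neg hne, Helper45.Oct.relIndex_of_surj _ _ φ hφs hφk, Nat.card_eq_fintype_card,
          Fintype.card_multiplicative, Fintype.card_prod, ZMod.card]
      · obtain ⟨φ, hφs, hφk⟩ := hB hc
        have hev : Even (m * t) := by
          rw [Nat.even_mul]
          by_contra hcon
          push Not at hcon
          apply hc
          obtain ⟨hm1, ht1⟩ := hcon
          have hto : Odd t := Nat.not_even_iff_odd.mp ht1
          obtain ⟨s, hs⟩ := hto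
          refine ⟨Nat.not_even_iff_odd.mp hm1, ?_⟩
          rw [hF]
          omega
        rw [if_pos hev, Helper45.Oct.relIndex_of_surj _ _ φ hφs hφk, Nat.card_eq_fintype_card,
          DihedralGroup.card]
  rw [hidx, hrel]
  ring

end Cfsg.Agent.S0817
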