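import Cfsg.Statements.S2605
import Cfsg.Agent.Helper45.OutE
import Cfsg.Agent.Helper45.CenterForms
import Cfsg.Agent.Helper45.TSing
import Cfsg.Agent.Helper44.PSL2E

set_option autoImplicit false
open Cfsg

namespace Cfsg.Agent.S2605

/-- Outer automorphism group of PΩ⁻_2m(q), m ≥ 4, q = 2^f: cyclic of order 2f, generated by a semilinear map inducing the Frobenius automorphism of the field (its f-th power is a graph automorphism, an orthogonal transvection). -/
theorem result {F : Type*} [Field F] [Fintype F] {f m : ℕ} (hf : 1 ≤ f) (hF : Fintype.card F = 2 ^ f) (hm : 4 ≤ m) (a b : F) (hab : ∀ z₁ z₂ : F, z₁ ^ 2 + a * z₁ * z₂ + b * z₂ ^ 2 = 0 → z₁ = 0 ∧ z₂ = 0) : IsCyclic (Cfsg.Out (Cfsg.POmega F (Cfsg.quadFormMinus (m - 1) F a b))) ∧ Nat.card (Cfsg.Out (Cfsg.POmega F (Cfsg.quadFormMinus (m - 1) F a b))) = 2 * f := by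
  have hev : Even (Fintype.card F) := by
    rw [hF]
    exact Nat.even_pow.mpr ⟨even_two, by omega⟩
  have hchar : CharP F 2 := Helper45.charP_two_of_even_card hev
  obtain ⟨k, hk⟩ : ∃ k, m - 1 = k := ⟨_, rfl⟩
  rw [hk]
  have hk3 : 3 ≤ k := by omega
  have hQ := Helper45.minusQF_nondeg' (F := F) k a b hab
  have hcard : Fintype.card ((Fin k ⊕ Fin k) ⊕ Fin 2) = 2 * k + 2 := by
    rw [Fintype.card_sum, Fintype.card_sum, Fintype.card_fin, Fintype.card_fin]
    omega
  have hn7 : 7 ≤ Fintype.card ((Fin k ⊕ Fin k) ⊕ Fin 2) := by omega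
  have hn5 : 5 ≤ Fintype.card ((Fin k ⊕ Fin k) ⊕ Fin 2) := by omega
  have hcase : 9 ≤ Fintype.card ((Fin k ⊕ Fin k) ⊕ Fin 2) ∨
      Helper45.AO.TS4free (Helper43.minusQF k F a b) := by
    by_cases h4 : 4 ≤ k
    · left
      omega
    · right
      have hm3 : k = 3 := by omega
      subst hm3
      intro W hW
      by_contra hcon
      obtain ⟨v, hvW, hv⟩ := Helper45.minus_exists_nonsingular 3 a b hab W (by omega)
      exact hv (hW v hvW)
  obtain ⟨Θ, hΘ1, hΘ2⟩ := Helper45.OO.exists_theta (Helper43.minusQF k F a b) hQ hn7 hcase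
  have hcardC : Nat.card (RingAut F) = f := (Helper44.ringAut_cyclic_card (F := F) 2 f hF).2
  have hker := Helper45.OO.theta_ker_iff (Helper43.minusQF k F a b) Θ hΘ1 hΘ2
  have hI : Inn (POmega F (⇑(Helper43.minusQF k F a b))) ≤ Θ.ker := by
    intro α hα
    exact (hker α).mpr (Helper45.OO.inn_sim (Helper43.minusQF k F a b) α hα)
  have hidx := Helper45.OO.char2_relIndex (Helper43.minusQF k F a b) hQ hn5 Θ.ker hker
  obtain ⟨g, hg, hψ⟩ := Helper45.OO.minus_frob k (by omega) a b hab f hF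
  have hgen : ∀ c : RingAut F, ∃ j : ℕ,
      c = Θ (Helper45.OO.semiAut (⇑(Helper43.minusQF k F a b)) g (frobeniusEquiv F 2) hg) ^ j := by
    intro c
    rw [hΘ1]
    exact Helper45.OO.ringAut_eq_frob_pow c
  exact Helper45.OO.out_cyclic (Inn (POmega F (⇑(Helper43.minusQF k F a b)))) f hcardC (by omega)
    Θ hI hidx _ hgen hψ

end Cfsg.Agent.S2605
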