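import Cfsg.Statements.S0818
import Cfsg.Agent.Helper45.OutI
import Cfsg.Agent.S2605
import Cfsg.Agent.S2606

set_option autoImplicit false
open Cfsg

namespace Cfsg.Agent.S0818

/-- |Aut(PΩ⁻_2m(q))| for q = p^f, m ≥ 4 (form quadFormMinus (m−1) with anisotropic binary part): |PΩ⁻_2m(q)| times f, times 2 if p = 2, and times 4 or 8 if p is odd according as m(q−1)/2 is even or odd. -/
theorem result {F : Type*} [Field F] [Fintype F] (p f : ℕ) [Fact p.Prime] (hf : 1 ≤ f) (hF : Fintype.card F = p ^ f) (m : ℕ) (hm : 4 ≤ m) (a b : F) (hab : ∀ z₁ z₂ : F, z₁ ^ 2 + a * z₁ * z₂ + b * z₂ ^ 2 = 0 → z₁ = 0 ∧ z₂ = 0) : Nat.card (MulAut (Cfsg.POmega F (Cfsg.quadFormMinus (m - 1) F a b))) = (if p = 2 then 2 else (if Even (m * (p ^ f - 1) / 2) then 4 else 8)) * f * Nat.card (Cfsg.POmega F (Cfsg.quadFormMinus (m - 1) F a b)) := by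
  have hQ := Helper45.minusQF_nondeg' (F := F) (m - 1) a b hab
  have hci : 6 ≤ Fintype.card ((Fin (m - 1) ⊕ Fin (m - 1)) ⊕ Fin 2) := by
    rw [Fintype.card_sum, Fintype.card_sum, Fintype.card_fin, Fintype.card_fin]
    omega
  have h1 := Helper45.OO.card_aut_pomega (Helper43.minusQF (m - 1) F a b) hQ hci
  rw [Helper43.minusQF_coe] at h1
  rw [h1]
  congr 1
  have hcf : Nat.card (Multiplicative (ZMod f)) = f := by
    haveI : NeZero f := ⟨by omega⟩
    rw [Nat.card_eq_fintype_card, Fintype.card_multiplicative, ZMod.card]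
  by_cases hp : p = 2
  · subst hp
    rw [if_pos rfl]
    exact (S2605.result hf hF hm a b hab).2
  · rw [if_neg hp]
    have h2 := S2606.result hf hF hp hm a b hab
    have hpodd : Odd p := (Fact.out : p.Prime).odd_of_ne_two hp
    have hq : Odd (p ^ f) := hpodd.pow
    obtain ⟨t, ht⟩ := hq
    have hmt : m * (p ^ f - 1) / 2 = m * t := by
      have h3 : p ^ f - 1 = 2 * t := by omega
      rw [h3]
      have h4 : m * (2 * t) = (m * t) * 2 := by ring
      rw [h4, Nat.mul_div_cancel _ (by norm_num)]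
    rw [hmt]
    by_cases hc : p ^ f % 4 = 3 ∧ Odd m
    · rw [if_pos hc] at h2
      obtain ⟨e⟩ := h2
      have hne : ¬ Even (m * t) := by
        rw [Nat.even_mul]
        rintro (h5 | h5)
        · exact (Nat.not_even_iff_odd.mpr hc.2) h5
        · obtain ⟨s, hs⟩ := h5
          omega
      rw [if_neg hne, Nat.card_congr e.toEquiv, Nat.card_prod, hcf, Nat.card_eq_fintype_card,
        DihedralGroup.card]
    · rw [if_neg hc] at h2
      obtain ⟨e⟩ := h2
      have hev : Even (m * t) := by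
        rw [Nat.even_mul]
        by_contra hcon
        push Not at hcon
        apply hc
        obtain ⟨hm1, ht1⟩ := hcon
        have hto : Odd t := Nat.not_even_iff_odd.mp ht1
        obtain ⟨s, hs⟩ := hto
        exact ⟨by omega, Nat.not_even_iff_odd.mp hm1⟩
      haveI : NeZero (2 * f) := ⟨by omega⟩
      rw [if_pos hev, Nat.card_congr e.toEquiv, Nat.card_eq_fintype_card,
        Fintype.card_multiplicative, Fintype.card_prod, ZMod.card, ZMod.card]
      ring

end Cfsg.Agent.S0818
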