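import Cfsg.Statements.S0839
import Mathlib

set_option autoImplicit false
open Cfsg
open scoped Matrix

namespace Cfsg.Agent.S0839

open Module in
/-- For a rank-one square matrix `N` of size `n + 2` there is a matrix `g` of determinant one
such that all columns of `N * g` except the first one vanish. -/
theorem exists_adapted {F : Type*} [Field F] (n : ℕ) (N : Matrix (Fin (n + 2)) (Fin (n + 2)) F)
    (hrank : N.rank = 1) :
    ∃ g : Matrix (Fin (n + 2)) (Fin (n + 2)) F, g.det = 1 ∧ ∀ i j, j ≠ 0 → (N * g) i j = 0 := by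
  classical
  have hr : Module.finrank F (LinearMap.range N.mulVecLin) = 1 := hrank
  have hk : Module.finrank F (LinearMap.ker N.mulVecLin) = n + 1 := by
    have := LinearMap.finrank_range_add_finrank_ker N.mulVecLin
    rw [hr, Module.finrank_fin_fun] at this
    omega
  -- a vector outside the kernel
  obtain ⟨y, hy⟩ : ∃ y, N.mulVecLin y ≠ 0 := by
    by_contra hcon
    push Not at hcon
    have : N.mulVecLin = 0 := LinearMap.ext hcon
    rw [this, LinearMap.range_zero, finrank_bot] at hr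
    exact absurd hr (by norm_num)
  have hsp : ∀ z, ∃ c : F, z + c • y ∈ LinearMap.ker N.mulVecLin := by
    intro z
    have hne : (⟨N.mulVecLin y, LinearMap.mem_range_self _ y⟩ : LinearMap.range N.mulVecLin) ≠ 0 := by
      intro h
      exact hy (congrArg Subtype.val h)
    obtain ⟨c, hc⟩ := (finrank_eq_one_iff_of_nonzero' _ hne).mp hr
      ⟨N.mulVecLin z, LinearMap.mem_range_self _ z⟩
    have hc' : c • N.mulVecLin y = N.mulVecLin z := congrArg Subtype.val hc
    refine ⟨-c, ?_⟩
    rw [LinearMap.mem_ker, map_add, map_smul, ← hc']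
    module
  have hli : ∀ (c : F), ∀ x ∈ LinearMap.ker N.mulVecLin, c • y + x = 0 → c = 0 := by
    intro c x hx hc
    have := congrArg N.mulVecLin hc
    rw [map_add, map_smul, LinearMap.mem_ker.mp hx, add_zero, map_zero] at this
    exact (smul_eq_zero.mp this).resolve_right hy
  let bK : Basis (Fin (n + 1)) F (LinearMap.ker N.mulVecLin) := Module.finBasisOfFinrankEq F _ hk
  let b : Basis (Fin (n + 2)) F (Fin (n + 2) → F) := Basis.mkFinCons y bK hli hsp
  have hb : (b : Fin (n + 2) → Fin (n + 2) → F) = Fin.cons y ((↑) ∘ bK) :=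
    Basis.coe_mkFinCons _ _ _ _
  have hbs : ∀ j : Fin (n + 1), N.mulVecLin (b j.succ) = 0 := by
    intro j
    have : b j.succ = (bK j : Fin (n + 2) → F) := by rw [hb]; rfl
    rw [this]
    exact LinearMap.mem_ker.mp (bK j).2
  -- the matrix with columns `b j`
  let g₀ : Matrix (Fin (n + 2)) (Fin (n + 2)) F := (Pi.basisFun F (Fin (n + 2))).toMatrix b
  have hg₀ : ∀ i j, g₀ i j = b j i := by
    intro i j
    simp [g₀, Basis.toMatrix_apply]
  have hdet₀ : IsUnit g₀.det := (Pi.basisFun F (Fin (n + 2))).isUnit_det b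
  let d : Fin (n + 2) → F := fun i => if i = 0 then (g₀.det)⁻¹ else 1
  refine ⟨g₀ * Matrix.diagonal d, ?_, ?_⟩
  · rw [Matrix.det_mul, Matrix.det_diagonal, Fin.prod_univ_succ]
    have h1 : ∀ i : Fin (n + 1), d i.succ = 1 := by
      intro i
      simp [d, Fin.succ_ne_zero]
    simp only [h1, Finset.prod_const_one, mul_one]
    simp only [d, if_true]
    exact mul_inv_cancel₀ hdet₀.ne_zero
  · intro i j hj
    obtain ⟨j', rfl⟩ := Fin.exists_succ_eq.mpr hj
    rw [← Matrix.mul_assoc, Matrix.mul_diagonal]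
    have : (N * g₀) i j'.succ = N.mulVecLin (b j'.succ) i := by
      rw [Matrix.mul_apply, Matrix.mulVecLin_apply, Matrix.mulVec, dotProduct]
      simp only [hg₀]
    rw [this, hbs]
    simp

/-- Every transvection t ∈ SL_(n+2)(F) (rank(t − 1) = 1, (t − 1)² = 0) is conjugate in SL_(n+2)(F) to 1 + v·e_0ᵀ for some column vector v with v_0 = 0 (the group A of matrices that are the identity except in the first column below the diagonal); the dimension is written n + 2 ≥ 2. -/
theorem result {F : Type*} [Field F] (n : ℕ) (t : Matrix.SpecialLinearGroup (Fin (n + 2)) F) (ht : Cfsg.IsTransvection (t : Matrix (Fin (n + 2)) (Fin (n + 2)) F)) : ∃ (g : Matrix.SpecialLinearGroup (Fin (n + 2)) F) (v : Fin (n + 2) → F), v 0 = 0 ∧ ((g⁻¹ * t * g : Matrix.SpecialLinearGroup (Fin (n + 2)) F) : Matrix (Fin (n + 2)) (Fin (n + 2)) F) = 1 + Matrix.vecMulVec v (Pi.single 0 1) := by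
  classical
  obtain ⟨hrank, hsq⟩ := ht
  obtain ⟨g₁, hdet, hcols⟩ := exists_adapted n _ hrank
  set A : Matrix (Fin (n + 2)) (Fin (n + 2)) F := (t : Matrix (Fin (n + 2)) (Fin (n + 2)) F) with hA
  set N : Matrix (Fin (n + 2)) (Fin (n + 2)) F := A - 1 with hN
  have hunit : IsUnit g₁.det := by rw [hdet]; exact isUnit_one
  -- first column of `N * g₁`
  let w : Fin (n + 2) → F := fun i => (N * g₁) i 0
  have hNg : N * g₁ = Matrix.vecMulVec w (Pi.single 0 1) := by
    ext i j
    rw [Matrix.vecMulVec_apply]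
    by_cases hj : j = 0
    · subst hj
      simp [w]
    · rw [hcols i j hj, Pi.single_apply, if_neg hj, mul_zero]
  let v : Fin (n + 2) → F := g₁⁻¹ *ᵥ w
  have hgv : g₁ *ᵥ v = w := by
    simp only [v]
    rw [Matrix.mulVec_mulVec, Matrix.mul_nonsing_inv _ hunit, Matrix.one_mulVec]
  have hw0 : w ≠ 0 := by
    intro h
    have hz : N * g₁ = 0 := by rw [hNg, h]; ext i j; simp [Matrix.vecMulVec_apply]
    have hN0 : N = 0 := by
      have := congrArg (· * g₁⁻¹) hz
      simp only [Matrix.mul_assoc, Matrix.mul_nonsing_inv _ hunit, Matrix.mul_one,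
        Matrix.zero_mul] at this
      exact this
    rw [hN0, Matrix.rank_zero] at hrank
    exact absurd hrank (by norm_num)
  have hv0 : v 0 = 0 := by
    have h1 : N *ᵥ w = 0 := by
      have : w = (N * g₁) *ᵥ (Pi.single 0 1) := by
        ext i
        simp [w, Matrix.mulVec, dotProduct, Pi.single_apply]
      rw [this, Matrix.mulVec_mulVec, ← Matrix.mul_assoc, hsq, Matrix.zero_mul, Matrix.zero_mulVec]
    have h2 : N *ᵥ w = v 0 • w := by
      rw [← hgv, Matrix.mulVec_mulVec, hNg, Matrix.vecMulVec_mulVec, hgv]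
      simp
    rw [h1] at h2
    exact (smul_eq_zero.mp h2.symm).resolve_right hw0
  obtain ⟨G, hG⟩ : ∃ G : Matrix.SpecialLinearGroup (Fin (n + 2)) F,
      (G : Matrix (Fin (n + 2)) (Fin (n + 2)) F) = g₁ := ⟨⟨g₁, hdet⟩, rfl⟩
  refine ⟨G, v, hv0, ?_⟩
  -- cancel `g₁` on the left
  have hinj : ∀ X Y : Matrix (Fin (n + 2)) (Fin (n + 2)) F, g₁ * X = g₁ * Y → X = Y := by
    intro X Y h
    have := congrArg (g₁⁻¹ * ·) h
    simpa only [← Matrix.mul_assoc, Matrix.nonsing_inv_mul _ hunit, Matrix.one_mul] using this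
  apply hinj
  have e1 : g₁ * ((G⁻¹ * t * G : Matrix.SpecialLinearGroup (Fin (n + 2)) F) :
      Matrix (Fin (n + 2)) (Fin (n + 2)) F) = A * g₁ := by
    have h1 : G * (G⁻¹ * t * G) = t * G := by group
    have h2 := congrArg (fun x : Matrix.SpecialLinearGroup (Fin (n + 2)) F =>
      (x : Matrix (Fin (n + 2)) (Fin (n + 2)) F)) h1
    simp only [Matrix.SpecialLinearGroup.coe_mul, hG] at h2
    rw [← hG]
    simp only [Matrix.SpecialLinearGroup.coe_mul, hG]
    exact h2
  rw [e1, Matrix.mul_add, Matrix.mul_one, Matrix.mul_vecMulVec, hgv, ← hNg, hN]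
  noncomm_ring

end Cfsg.Agent.S0839
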