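import Cfsg.Statements.S0820
import Mathlib
import Cfsg.Agent.S0839

set_option autoImplicit false
open Cfsg
open scoped Matrix

namespace Cfsg.Agent.S0820

/-- The standard transvection `1 + E₁₀` in `SL₃`. -/
def T0 (F : Type*) [Field F] : Matrix.SpecialLinearGroup (Fin 3) F :=
  ⟨!![1, 0, 0; 1, 1, 0; 0, 0, 1], by simp [Matrix.det_fin_three]⟩

theorem T0_coe (F : Type*) [Field F] :
    ((T0 F : Matrix.SpecialLinearGroup (Fin 3) F) : Matrix (Fin 3) (Fin 3) F)
      = !![1, 0, 0; 1, 1, 0; 0, 0, 1] := rfl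

/-- Every transvection of `SL₃(F)` is conjugate in `SL₃(F)` to the standard one. -/
theorem conj_T0 {F : Type*} [Field F] (t : Matrix.SpecialLinearGroup (Fin 3) F)
    (ht : Cfsg.IsTransvection (t : Matrix (Fin 3) (Fin 3) F)) :
    ∃ h : Matrix.SpecialLinearGroup (Fin 3) F, h⁻¹ * t * h = T0 F := by
  obtain ⟨g, v, hv0, hgv⟩ : ∃ (g : Matrix.SpecialLinearGroup (Fin 3) F) (v : Fin 3 → F),
      v 0 = 0 ∧ ((g⁻¹ * t * g : Matrix.SpecialLinearGroup (Fin 3) F) : Matrix (Fin 3) (Fin 3) F)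
        = 1 + Matrix.vecMulVec v (Pi.single 0 1) := Cfsg.Agent.S0839.result 1 t ht
  -- `v ≠ 0`
  have hv : v 1 ≠ 0 ∨ v 2 ≠ 0 := by
    by_contra hcon
    push Not at hcon
    have hvz : v = 0 := by
      ext i
      fin_cases i
      · exact hv0
      · exact hcon.1
      · exact hcon.2
    have h1 : g⁻¹ * t * g = 1 := by
      apply Subtype.ext
      rw [hgv, hvz]
      ext i j
      simp
    have ht1 : t = 1 := by
      have : t = g * (g⁻¹ * t * g) * g⁻¹ := by group
      rw [this, h1]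
      group
    have hN : (t : Matrix (Fin 3) (Fin 3) F) - 1 = 0 := by rw [ht1]; simp
    have := ht.1
    rw [hN, Matrix.rank_zero] at this
    exact absurd this (by norm_num)
  obtain ⟨x, y, hxy⟩ : ∃ x y : F, v 1 * y - v 2 * x = 1 := by
    rcases hv with h | h
    · exact ⟨0, (v 1)⁻¹, by field_simp; ring⟩
    · exact ⟨-(v 2)⁻¹, 0, by field_simp; ring⟩
  obtain ⟨h₂, hh₂⟩ : ∃ h₂ : Matrix.SpecialLinearGroup (Fin 3) F,
      (h₂ : Matrix (Fin 3) (Fin 3) F) = !![1, 0, 0; 0, v 1, x; 0, v 2, y] :=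
    ⟨⟨!![1, 0, 0; 0, v 1, x; 0, v 2, y], by rw [Matrix.det_fin_three]; simp; linear_combination hxy⟩,
      rfl⟩
  refine ⟨g * h₂, ?_⟩
  have key : (g⁻¹ * t * g) * h₂ = h₂ * T0 F := by
    apply Subtype.ext
    rw [Matrix.SpecialLinearGroup.coe_mul (g⁻¹ * t * g) h₂,
      Matrix.SpecialLinearGroup.coe_mul h₂ (T0 F), hgv, hh₂, T0_coe]
    ext i j
    fin_cases i <;> fin_cases j <;>
      simp [Matrix.mul_apply, Fin.sum_univ_three, Matrix.vecMulVec_apply, hv0, Matrix.one_apply]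
  calc (g * h₂)⁻¹ * t * (g * h₂) = h₂⁻¹ * ((g⁻¹ * t * g) * h₂) := by group
    _ = h₂⁻¹ * (h₂ * T0 F) := by rw [key]
    _ = T0 F := by group

theorem center_pow_three {F : Type*} [Field F] (z : Matrix.SpecialLinearGroup (Fin 3) F)
    (hz : z ∈ Subgroup.center (Matrix.SpecialLinearGroup (Fin 3) F)) : z ^ 3 = 1 := by
  obtain ⟨r, hr, hrz⟩ := Matrix.SpecialLinearGroup.mem_center_iff.mp hz
  have hr3 : r ^ 3 = 1 := by simpa using hr
  apply Subtype.ext
  rw [Matrix.SpecialLinearGroup.coe_pow, ← hrz, ← map_pow, hr3, map_one]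
  rfl

/-- A nonzero square-zero `3 × 3` matrix has rank one. -/
theorem rank_eq_one_of_sq_zero {F : Type*} [Field F] (N : Matrix (Fin 3) (Fin 3) F)
    (hN : N ≠ 0) (hsq : N * N = 0) : N.rank = 1 := by
  have hle : LinearMap.range N.mulVecLin ≤ LinearMap.ker N.mulVecLin := by
    rintro _ ⟨v, rfl⟩
    rw [LinearMap.mem_ker, Matrix.mulVecLin_apply, Matrix.mulVecLin_apply, Matrix.mulVec_mulVec,
      hsq, Matrix.zero_mulVec]
  have h1 := Submodule.finrank_mono hle
  have h2 := LinearMap.finrank_range_add_finrank_ker N.mulVecLin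
  rw [Module.finrank_fin_fun] at h2
  have h3 : Module.finrank F (LinearMap.range N.mulVecLin) ≠ 0 := by
    intro h0
    apply hN
    have hbot : LinearMap.range N.mulVecLin = ⊥ := Submodule.finrank_eq_zero.mp h0
    have hz : N.mulVecLin = 0 := LinearMap.range_eq_bot.mp hbot
    ext i j
    have := congrFun (LinearMap.congr_fun hz (Pi.single j 1)) i
    simpa [Matrix.mulVecLin_apply] using this
  change Module.finrank F (LinearMap.range N.mulVecLin) = 1
  omega

theorem exists_transvection_lift {F : Type*} [Field F] [Fintype F] (hF : Fintype.card F = 4)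
    (x : Matrix.ProjectiveSpecialLinearGroup (Fin 3) F) (hx : orderOf x = 2) :
    ∃ g : Matrix.SpecialLinearGroup (Fin 3) F,
      (QuotientGroup.mk g : Matrix.ProjectiveSpecialLinearGroup (Fin 3) F) = x ∧
      Cfsg.IsTransvection (g : Matrix (Fin 3) (Fin 3) F) := by
  obtain ⟨g₀, rfl⟩ := QuotientGroup.mk_surjective x
  have hx2 : (QuotientGroup.mk g₀ : Matrix.ProjectiveSpecialLinearGroup (Fin 3) F) ^ 2 = 1 := by
    rw [← hx]
    exact pow_orderOf_eq_one _
  have hc : g₀ ^ 2 ∈ Subgroup.center (Matrix.SpecialLinearGroup (Fin 3) F) := by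
    rw [← QuotientGroup.eq_one_iff]
    exact hx2
  have hx1 : (QuotientGroup.mk g₀ : Matrix.ProjectiveSpecialLinearGroup (Fin 3) F) ≠ 1 := by
    intro h
    rw [h, orderOf_one] at hx
    omega
  have hmk : (QuotientGroup.mk (g₀ ^ 3) : Matrix.ProjectiveSpecialLinearGroup (Fin 3) F)
      = QuotientGroup.mk g₀ := by
    have : g₀ ^ 3 = g₀ * g₀ ^ 2 := by group
    rw [this, QuotientGroup.mk_mul, (QuotientGroup.eq_one_iff _).mpr hc, mul_one]
  refine ⟨g₀ ^ 3, hmk, ?_⟩
  have hg2 : (g₀ ^ 3) ^ 2 = 1 := by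
    rw [← pow_mul, show 3 * 2 = 2 * 3 from rfl, pow_mul]
    exact center_pow_three _ hc
  have hg1 : g₀ ^ 3 ≠ 1 := by
    intro h
    apply hx1
    rw [← hmk, h]
    rfl
  have h2 : (2 : F) = 0 := by
    have h4 : ((Fintype.card F : ℕ) : F) = 0 := FiniteField.cast_card_eq_zero F
    rw [hF] at h4
    have : (2 : F) * 2 = 0 := by
      have : ((4 : ℕ) : F) = 2 * 2 := by norm_num
      rw [← this]
      exact h4
    exact mul_self_eq_zero.mp this
  obtain ⟨A, hA⟩ : ∃ A : Matrix (Fin 3) (Fin 3) F,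
      A = ((g₀ ^ 3 : Matrix.SpecialLinearGroup (Fin 3) F) : Matrix (Fin 3) (Fin 3) F) := ⟨_, rfl⟩
  have hAA : A * A = 1 := by
    have := congrArg (fun z : Matrix.SpecialLinearGroup (Fin 3) F =>
      (z : Matrix (Fin 3) (Fin 3) F)) hg2
    simp only [Matrix.SpecialLinearGroup.coe_pow, Matrix.SpecialLinearGroup.coe_one] at this
    rw [hA, ← pow_two]
    exact this
  have hA1 : A ≠ 1 := by
    intro h
    apply hg1
    apply Subtype.ext
    rw [← hA, h]
    rfl
  have hsq : (A - 1) * (A - 1) = 0 := by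
    have : (A - 1) * (A - 1) = A * A - (2 : F) • A + 1 := by
      rw [two_smul]
      noncomm_ring
    rw [this, hAA, h2, zero_smul]
    have h11 : (1 : Matrix (Fin 3) (Fin 3) F) + 1 = (2 : F) • (1 : Matrix (Fin 3) (Fin 3) F) := by
      rw [two_smul]
    rw [sub_zero, h11, h2, zero_smul]
  rw [← hA]
  exact ⟨rank_eq_one_of_sq_zero _ (sub_ne_zero.mpr hA1) hsq, hsq⟩

/-- Any two elements of order 2 of PSL_3(4) are conjugate. -/
theorem result {F : Type*} [Field F] [Fintype F] (hF : Fintype.card F = 4) (x y : Matrix.ProjectiveSpecialLinearGroup (Fin 3) F) (hx : orderOf x = 2) (hy : orderOf y = 2) : IsConj x y := by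
  obtain ⟨gx, rfl, htx⟩ := exists_transvection_lift hF x hx
  obtain ⟨gy, rfl, hty⟩ := exists_transvection_lift hF y hy
  obtain ⟨a, ha⟩ := conj_T0 gx htx
  obtain ⟨b, hb⟩ := conj_T0 gy hty
  have hconj : IsConj gx gy := by
    rw [isConj_iff]
    refine ⟨b * a⁻¹, ?_⟩
    have h1 : gx = a * T0 F * a⁻¹ := by rw [← ha]; group
    have h2 : gy = b * T0 F * b⁻¹ := by rw [← hb]; group
    rw [h1, h2]
    group
  exact (QuotientGroup.mk' (Subgroup.center (Matrix.SpecialLinearGroup (Fin 3) F))).map_isConj hconj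

end Cfsg.Agent.S0820
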