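import Cfsg.Statements.S0821
import Mathlib
import Cfsg.Agent.Helper37.Orth
import Cfsg.Agent.Helper14.OddOrthCenter
import Cfsg.Agent.Helper14.SympRank

set_option autoImplicit false
open Cfsg

namespace Cfsg.Agent.S0821

/-- PSp_2m(q) ≇ PΩ_(2m+1)(q) for q odd and m ≥ 3 (they have the same order). -/
theorem result {F : Type*} [Field F] [Fintype F] (hodd : Odd (Fintype.card F)) (m : ℕ) (hm : 3 ≤ m) : IsEmpty (Cfsg.PSp m F ≃* Cfsg.POmega F (Cfsg.quadFormOdd m F)) := by
  constructor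
  intro e
  have h2 : (2 : F) ≠ 0 := by
    apply Ring.two_ne_zero
    intro hc
    have h1 := FiniteField.even_card_of_char_two hc
    rcases hodd with ⟨t, ht⟩
    omega
  obtain ⟨A₀, hA₀c, hA₀2, hA₀card⟩ := (Cfsg.Agent.Helper37.omega_odd_rank hodd m).1
  have hcen := Cfsg.Agent.Helper14.center_omega_odd_eq_bot m h2 hm
  have hπ : Function.Injective
      (QuotientGroup.mk' (Subgroup.center ↥(Cfsg.Omega F (Cfsg.quadFormOdd m F)))) := by
    rw [← MonoidHom.ker_eq_bot_iff, QuotientGroup.ker_mk', hcen]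
  have hφ : Function.Injective (e.symm.toMonoidHom.comp
      (QuotientGroup.mk' (Subgroup.center ↥(Cfsg.Omega F (Cfsg.quadFormOdd m F))))) :=
    e.symm.injective.comp hπ
  have hcard : Nat.card (A₀.map (e.symm.toMonoidHom.comp
      (QuotientGroup.mk' (Subgroup.center ↥(Cfsg.Omega F (Cfsg.quadFormOdd m F)))))) =
      Nat.card A₀ := Subgroup.card_map_of_injective hφ
  have hlt := Cfsg.Agent.Helper14.psp_rank_lt h2 m hm (A₀.map (e.symm.toMonoidHom.comp
      (QuotientGroup.mk' (Subgroup.center ↥(Cfsg.Omega F (Cfsg.quadFormOdd m F)))))) (by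
      rintro _ ⟨a, ha, rfl⟩ _ ⟨b, hb, rfl⟩
      rw [← map_mul, ← map_mul, setLike_mul_comm ha hb]) (by
      rintro _ ⟨a, ha, rfl⟩
      rw [← map_pow, hA₀2 a ha, map_one])
  omega

end Cfsg.Agent.S0821
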