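import Cfsg.Statements.S0826
import Cfsg.Agent.Helper5.SymEmbed

set_option autoImplicit false
open Cfsg

namespace Cfsg.Agent.S0826

/-- S_2n ≤ Sp_(2n−2)(2) for n ≥ 3: there is an injective homomorphism from the symmetric group on 2n letters into the symplectic group of degree 2n − 2 over the field with two elements. -/
theorem result (n : ℕ) (hn : 3 ≤ n) : ∃ f : Equiv.Perm (Fin (2 * n)) →* Matrix.symplecticGroup (Fin (n - 1)) (ZMod 2), Function.Injective f := by
  have h2 : (2 : ZMod 2) = 0 := by decide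
  have hΩ : (Fintype.card (Fin (2 * n)) : ZMod 2) = 0 := by
    rw [Fintype.card_fin, Nat.cast_mul, Nat.cast_ofNat, h2, zero_mul]
  obtain ⟨m, f, hm, hf⟩ := Helper5.exists_heart_embedding (F := ZMod 2) (Ω := Fin (2 * n)) h2 hΩ
    ⟨0, by omega⟩ (by rw [Fintype.card_fin]; omega)
  rw [Fintype.card_fin] at hm
  obtain rfl : m = n - 1 := by omega
  exact ⟨f, hf⟩

end Cfsg.Agent.S0826
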