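import Cfsg.Statements.S0827
import Cfsg.Agent.Helper38.PSU32Q8

set_option autoImplicit false
set_option linter.style.haveILetI false
open Cfsg

namespace Cfsg.Agent.S0827

/-- U_3(2) ≅ 3².Q_8: PSU_3(2) (form over the field with 4 elements) has a normal subgroup N which is elementary abelian of order 9 such that the quotient by N is isomorphic to the quaternion group of order 8. -/
theorem result {F : Type*} [Field F] [Fintype F] (hF : Fintype.card F = 4) : ∃ (N : Subgroup (Cfsg.PSU 3 F 2)) (_ : N.Normal), Nat.card N = 9 ∧ (∀ x ∈ N, x ^ 3 = 1) ∧ Nonempty (Cfsg.PSU 3 F 2 ⧸ N ≃* QuaternionGroup 2) := by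
  classical
  let e : F ≃+* Cfsg.Agent.Helper98.F4 :=
    FiniteField.ringEquivOfCardEq (hF.trans Cfsg.Agent.Helper98.F4.card_eq.symm)
  let φ : F →+* Cfsg.Agent.Helper98.F4 := e.toRingHom
  let ψ : Cfsg.Agent.Helper98.F4 →+* F := e.symm.toRingHom
  have h2 : (2 : F) = 0 := by
    apply φ.injective
    rw [map_ofNat, map_zero]
    decide
  haveI hnorm := Cfsg.Agent.Helper38.evenMono_normal (F := F) φ
  have hZ := Cfsg.Agent.Helper38.center_le_evenMono ψ h2
  let N : Subgroup (Cfsg.PSU 3 F 2) := (Cfsg.Agent.Helper38.evenMono F).map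
    (QuotientGroup.mk' (Subgroup.center (Cfsg.SU 3 F 2)))
  haveI hN : N.Normal := Subgroup.Normal.map hnorm _ (QuotientGroup.mk'_surjective _)
  let e3 : Cfsg.PSU 3 F 2 ⧸ N ≃* Cfsg.SU 3 F 2 ⧸ Cfsg.Agent.Helper38.evenMono F :=
    QuotientGroup.quotientQuotientEquivQuotient (Subgroup.center (Cfsg.SU 3 F 2))
      (Cfsg.Agent.Helper38.evenMono F) hZ
  obtain ⟨e8⟩ := Cfsg.Agent.Helper38.su32_quot_quaternion hF φ
  refine ⟨N, hN, ?_, ?_, ⟨e3.trans e8⟩⟩
  · have h1 := Subgroup.card_eq_card_quotient_mul_card_subgroup N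
    have h2' := Subgroup.card_eq_card_quotient_mul_card_subgroup
      (Subgroup.center (Cfsg.SU 3 F 2))
    have hcen := Cfsg.Agent.Helper5.card_center_SU (F := F) (q := 2) (by rw [hF]; norm_num) 3
      (by norm_num)
    have h8 : Nat.card (Cfsg.PSU 3 F 2 ⧸ N) = 8 := by
      rw [Nat.card_congr e3.toEquiv]
      exact (Cfsg.Agent.Helper38.card_evenMono hF φ).2
    rw [Cfsg.Agent.Helper38.card_su32 hF, hcen] at h2'
    have hg : Nat.gcd 3 (2 + 1) = 3 := by norm_num
    rw [hg] at h2'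
    rw [h8] at h1
    have h72 : Nat.card (Cfsg.PSU 3 F 2) = 72 := by
      have h3 : Nat.card (Cfsg.PSU 3 F 2) * 3 = 216 := h2'.symm
      omega
    have h4 : Nat.card (Cfsg.PSU 3 F 2) = 8 * Nat.card N := h1
    omega
  · rintro x ⟨g, hg, rfl⟩
    rw [← map_pow, Cfsg.Agent.Helper38.cube_of_mem_evenMono hg, map_one]

end Cfsg.Agent.S0827
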