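import Cfsg.Statements.S0828
import Cfsg.Agent.Helper38.FlagCount

set_option autoImplicit false
open Cfsg

namespace Cfsg.Agent.S0828

open Cfsg.Agent.Helper38 Module

section Form

variable {F : Type*} [Field F]

theorem symp_add_left (u u' v : Fin 2 ⊕ Fin 2 → F) :
    Cfsg.sympForm 2 F (u + u') v = Cfsg.sympForm 2 F u v + Cfsg.sympForm 2 F u' v := by
  simp [Cfsg.sympForm, add_dotProduct]

theorem symp_smul_left (a : F) (u v : Fin 2 ⊕ Fin 2 → F) :
    Cfsg.sympForm 2 F (a • u) v = a * Cfsg.sympForm 2 F u v := by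
  simp [Cfsg.sympForm, smul_dotProduct]

theorem symp_add_right (u v v' : Fin 2 ⊕ Fin 2 → F) :
    Cfsg.sympForm 2 F u (v + v') = Cfsg.sympForm 2 F u v + Cfsg.sympForm 2 F u v' := by
  simp [Cfsg.sympForm, Matrix.mulVec_add, dotProduct_add]

theorem symp_smul_right (a : F) (u v : Fin 2 ⊕ Fin 2 → F) :
    Cfsg.sympForm 2 F u (a • v) = a * Cfsg.sympForm 2 F u v := by
  simp [Cfsg.sympForm, Matrix.mulVec_smul, dotProduct_smul]

theorem symp_self (v : Fin 2 ⊕ Fin 2 → F) : Cfsg.sympForm 2 F v v = 0 := by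
  simp [Cfsg.sympForm, Matrix.J, dotProduct, Matrix.mulVec, Fintype.sum_sum_type,
    Matrix.fromBlocks]
  ring

theorem symp_swap (u v : Fin 2 ⊕ Fin 2 → F) :
    Cfsg.sympForm 2 F u v = - Cfsg.sympForm 2 F v u := by
  simp [Cfsg.sympForm, Matrix.J, dotProduct, Matrix.mulVec, Fintype.sum_sum_type,
    Matrix.fromBlocks]
  ring

theorem symp_nondeg (v : Fin 2 ⊕ Fin 2 → F) (hv : v ≠ 0) : ∃ w, Cfsg.sympForm 2 F v w ≠ 0 := by
  classical
  obtain ⟨i, hi⟩ : ∃ i, v i ≠ 0 := by
    by_contra h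
    push Not at h
    exact hv (funext h)
  refine ⟨-(Matrix.mulVec (Matrix.J (Fin 2) F) (Pi.single i 1)), ?_⟩
  unfold Cfsg.sympForm
  rw [Matrix.mulVec_neg, Matrix.mulVec_mulVec, Matrix.J_squared, Matrix.neg_mulVec,
    Matrix.one_mulVec, neg_neg, dotProduct_single_one]
  exact hi

/-- The linear functional `w ↦ f(v, w)`. -/
def sympFun (v : Fin 2 ⊕ Fin 2 → F) : (Fin 2 ⊕ Fin 2 → F) →ₗ[F] F where
  toFun w := Cfsg.sympForm 2 F v w
  map_add' := symp_add_right v
  map_smul' a w := by simp [symp_smul_right]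

theorem finrank_ker_sympFun (v : Fin 2 ⊕ Fin 2 → F) (hv : v ≠ 0) :
    finrank F (LinearMap.ker (sympFun v)) = 3 := by
  obtain ⟨w, hw⟩ := symp_nondeg v hv
  have hsurj : Function.Surjective (sympFun v) := by
    intro c
    refine ⟨(c / Cfsg.sympForm 2 F v w) • w, ?_⟩
    show Cfsg.sympForm 2 F v ((c / Cfsg.sympForm 2 F v w) • w) = c
    rw [symp_smul_right, div_mul_cancel₀ c hw]
  have h := (sympFun v).finrank_range_add_finrank_ker
  rw [LinearMap.range_eq_top.mpr hsurj, finrank_top, Module.finrank_self,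
    Module.finrank_fintype_fun_eq_card] at h
  simp at h
  omega

end Form

/-- The symplectic generalised quadrangle over a field with q elements: the number of 2-dimensional subspaces of F^4 on which the symplectic form vanishes is (q + 1)(q² + 1), and every non-zero vector lies in exactly q + 1 of them. -/
theorem result {F : Type*} [Field F] [Fintype F] {q : ℕ} (hF : Fintype.card F = q) : Nat.card {W : Submodule F (Fin 2 ⊕ Fin 2 → F) // Module.finrank F W = 2 ∧ ∀ u ∈ W, ∀ v ∈ W, Cfsg.sympForm 2 F u v = 0} = (q + 1) * (q ^ 2 + 1) ∧ ∀ v : Fin 2 ⊕ Fin 2 → F, v ≠ 0 → Nat.card {W : Submodule F (Fin 2 ⊕ Fin 2 → F) // Module.finrank F W = 2 ∧ v ∈ W ∧ ∀ u ∈ W, ∀ w ∈ W, Cfsg.sympForm 2 F u w = 0} = q + 1 := by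
  classical
  have hq : 2 ≤ q := by rw [← hF]; exact Fintype.one_lt_card
  have hdim : finrank F (Fin 2 ⊕ Fin 2 → F) = 4 := by
    rw [Module.finrank_fintype_fun_eq_card]
    simp
  have pencil : ∀ v : Fin 2 ⊕ Fin 2 → F, v ≠ 0 →
      Nat.card {W : Submodule F (Fin 2 ⊕ Fin 2 → F) //
        (Module.finrank F W = 2 ∧ ∀ u ∈ W, ∀ v ∈ W, Cfsg.sympForm 2 F u v = 0) ∧ v ∈ W} = q + 1 := by
    intro v hv
    have hvK : Submodule.span F {v} ≤ LinearMap.ker (sympFun v) := by
      rw [Submodule.span_le]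
      intro x hx
      rw [Set.mem_singleton_iff] at hx
      rw [hx]
      exact symp_self v
    have h := natCard_pencil (F := F)
      (fun W : Submodule F (Fin 2 ⊕ Fin 2 → F) =>
        Module.finrank F W = 2 ∧ ∀ u ∈ W, ∀ v ∈ W, Cfsg.sympForm 2 F u v = 0)
      (fun W h => h.1) v hv (LinearMap.ker (sympFun v))
      (fun W hW hvW w hw => hW.2 v hvW w hw)
      (fun w hw hwv => by
        refine ⟨finrank_span_pair hv hwv, ?_⟩
        have hvw : Cfsg.sympForm 2 F v w = 0 := hw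
        have hwv' : Cfsg.sympForm 2 F w v = 0 := by rw [symp_swap, hvw, neg_zero]
        intro x hx y hy
        obtain ⟨a, b, rfl⟩ := Submodule.mem_span_pair.mp hx
        obtain ⟨c, d, rfl⟩ := Submodule.mem_span_pair.mp hy
        simp only [symp_add_left, symp_add_right, symp_smul_left, symp_smul_right, symp_self,
          hvw, hwv']
        ring)
    rw [natCard_mem_not_mem _ _ hvK, finrank_ker_sympFun v hv, finrank_span_singleton hv, hF,
      pow_one] at h
    have h2 : q ^ 3 - q = (q + 1) * (q ^ 2 - q) := by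
      have h3 : q ≤ q ^ 2 := by nlinarith
      have h4 : q ≤ q ^ 3 := by nlinarith [Nat.pow_le_pow_right (by omega : 1 ≤ q) (by omega : 2 ≤ 3)]
      zify [h3, h4]
      ring
    rw [h2] at h
    have hpos : 0 < q ^ 2 - q := by
      have : q < q ^ 2 := by nlinarith
      omega
    exact (Nat.eq_of_mul_eq_mul_right hpos h).symm
  refine ⟨?_, fun v hv => ?_⟩
  · have hfl := natCard_flags (F := F)
      (fun W : Submodule F (Fin 2 ⊕ Fin 2 → F) =>
        Module.finrank F W = 2 ∧ ∀ u ∈ W, ∀ v ∈ W, Cfsg.sympForm 2 F u v = 0)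
      (fun W h => h.1)
    rw [finsum_congr (fun v : {v : Fin 2 ⊕ Fin 2 → F // v ≠ 0} => pencil v.1 v.2)] at hfl
    have : Fintype {v : Fin 2 ⊕ Fin 2 → F // v ≠ 0} := Fintype.ofFinite _
    rw [finsum_eq_sum_of_fintype, Finset.sum_const, Finset.card_univ, smul_eq_mul,
      ← Nat.card_eq_fintype_card, natCard_ne_zero_vec (F := F), hdim, hF] at hfl
    obtain ⟨k, hk⟩ : ∃ k, q ^ 2 = k + 1 := ⟨q ^ 2 - 1, by have : 1 ≤ q ^ 2 := Nat.one_le_pow _ _ (by omega); omega⟩
    have h4 : q ^ 4 = (k + 1) ^ 2 := by rw [← hk]; ring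
    have h5 : q ^ 4 - 1 = k * (k + 2) := by
      rw [h4]
      have : (k + 1) ^ 2 = k * (k + 2) + 1 := by ring
      omega
    have h6 : q ^ 2 - 1 = k := by omega
    rw [h5, h6] at hfl
    have hkpos : 0 < k := by
      have : 4 ≤ q ^ 2 := by nlinarith
      omega
    have h7 : k * ((k + 2) * (q + 1)) = k * Nat.card {W : Submodule F (Fin 2 ⊕ Fin 2 → F) //
        Module.finrank F W = 2 ∧ ∀ u ∈ W, ∀ v ∈ W, Cfsg.sympForm 2 F u v = 0} := by
      rw [← mul_assoc, hfl, mul_comm]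
    have h8 := Nat.eq_of_mul_eq_mul_left hkpos h7
    rw [← h8, hk]
    ring
  · rw [← pencil v hv]
    refine Nat.card_congr (Equiv.subtypeEquivRight (fun W => ?_))
    tauto

end Cfsg.Agent.S0828
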