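import Cfsg.Statements.S0830
import Cfsg.Agent.Helper38.HermCount

set_option autoImplicit false
open Cfsg

namespace Cfsg.Agent.S0830

open Cfsg.Agent.Helper38

/-- The unitary quadrangle of PSU_5(q): with |F| = q², the number of 2-dimensional subspaces of F^5 on which the Hermitian form vanishes is (q³ + 1)(q⁵ + 1). -/
theorem result {F : Type*} [Field F] [Fintype F] {q : ℕ} (hF : Fintype.card F = q ^ 2) : Nat.card {W : Submodule F (Fin 5 → F) // Module.finrank F W = 2 ∧ ∀ u ∈ W, ∀ v ∈ W, Cfsg.hermForm 5 F q u v = 0} = (q ^ 3 + 1) * (q ^ 5 + 1) := by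
  have hq := two_le_of_card_sq hF
  have h := natCard_herm_planes hF 3
  have hqZ : (2 : ℤ) ≤ (q : ℤ) := by exact_mod_cast hq
  have hB4 : Bz (q : ℤ) 5 = (q : ℤ) ^ 9 - (q : ℤ) ^ 5 + (q : ℤ) ^ 4 := by
    simp only [Bz]
    ring
  have hB2 : Bz (q : ℤ) 3 = (q : ℤ) ^ 5 - (q : ℤ) ^ 3 + (q : ℤ) ^ 2 := by
    simp only [Bz]
    ring
  rw [show (3 + 2 : ℕ) = 5 from rfl, hB4, hB2] at h
  have hD : (((q : ℤ) ^ 2) ^ 2 - 1) * (((q : ℤ) ^ 2) ^ 2 - (q : ℤ) ^ 2) ≠ 0 := by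
    have hq2 : (4 : ℤ) ≤ (q : ℤ) ^ 2 := by nlinarith
    have h1 : (0 : ℤ) < ((q : ℤ) ^ 2) ^ 2 - 1 := by nlinarith
    have h2 : (0 : ℤ) < ((q : ℤ) ^ 2) ^ 2 - (q : ℤ) ^ 2 := by nlinarith
    positivity
  have h3 : (Nat.card {W : Submodule F (Fin 5 → F) // Module.finrank F W = 2 ∧
      ∀ u ∈ W, ∀ v ∈ W, Cfsg.hermForm 5 F q u v = 0} : ℤ) *
      ((((q : ℤ) ^ 2) ^ 2 - 1) * (((q : ℤ) ^ 2) ^ 2 - (q : ℤ) ^ 2)) =
      (((q : ℤ) ^ 3 + 1) * ((q : ℤ) ^ 5 + 1)) *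
      ((((q : ℤ) ^ 2) ^ 2 - 1) * (((q : ℤ) ^ 2) ^ 2 - (q : ℤ) ^ 2)) := by
    rw [← mul_assoc, h]
    ring
  have h4 := mul_right_cancel₀ hD h3
  exact_mod_cast h4

end Cfsg.Agent.S0830
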