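import Cfsg.Statements.S0831
import Cfsg.Agent.Helper43.TwoFamPlus

set_option autoImplicit false
open Cfsg

namespace Cfsg.Agent.S0831

/-- The two families of maximal totally singular subspaces of the hyperbolic quadric: for the form Σ x_i y_i on F^(2m), m ≥ 1, and m-dimensional subspaces U, W, X on which it vanishes, the parities of m − dim(U ∩ W), m − dim(W ∩ X) and m − dim(U ∩ X) sum to an even number (so 'even codimension of the intersection' is an equivalence relation), and there exist two such subspaces meeting in codimension 1 (so there are exactly two classes). -/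
theorem result {F : Type*} [Field F] (m : ℕ) (hm : 1 ≤ m) : (∀ U W X : Submodule F (Fin m ⊕ Fin m → F), (Module.finrank F U = m ∧ ∀ w ∈ U, Cfsg.quadFormPlus m F w = 0) → (Module.finrank F W = m ∧ ∀ w ∈ W, Cfsg.quadFormPlus m F w = 0) → (Module.finrank F X = m ∧ ∀ w ∈ X, Cfsg.quadFormPlus m F w = 0) → Even ((m - Module.finrank F ↥(U ⊓ W)) + (m - Module.finrank F ↥(W ⊓ X)) + (m - Module.finrank F ↥(U ⊓ X)))) ∧ ∃ U W : Submodule F (Fin m ⊕ Fin m → F), (Module.finrank F U = m ∧ ∀ w ∈ U, Cfsg.quadFormPlus m F w = 0) ∧ (Module.finrank F W = m ∧ ∀ w ∈ W, Cfsg.quadFormPlus m F w = 0) ∧ Module.finrank F ↥(U ⊓ W) + 1 = m := by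
  have hQ := Helper43.TwoFam.plusQSpace m F
  refine ⟨fun U W X hU hW hX => hQ.parity hU hW hX, ?_⟩
  obtain ⟨W', hW', hadj, _⟩ := hQ.exists_adjacent (Helper43.TwoFam.mts_plusE m F)
    (Helper43.TwoFam.mts_plusE' m F) (Helper43.TwoFam.plusE_ne m F hm)
  exact ⟨Helper43.TwoFam.plusE m F, W', Helper43.TwoFam.mts_plusE m F, hW', hadj⟩

end Cfsg.Agent.S0831
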