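import Cfsg.Statements.S0833
import Mathlib

set_option autoImplicit false
open Cfsg

namespace Cfsg.Agent.S0833

open TensorProduct

/-- A nondegenerate alternating form on a space of dimension `2k` has a totally isotropic
subspace of dimension `k`. -/
theorem exists_lagrangian {F U : Type*} [Field F] [AddCommGroup U] [Module F U]
    [FiniteDimensional F U] (B : LinearMap.BilinForm F U) (hB : B.Nondegenerate) (hA : B.IsAlt)
    (k : ℕ) (hU : Module.finrank F U = 2 * k) :
    ∃ L : Submodule F U, Module.finrank F L = k ∧ ∀ x ∈ L, ∀ y ∈ L, B x y = 0 := by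
  classical
  let s : Set ℕ := {n | ∃ L : Submodule F U, Module.finrank F L = n ∧ ∀ x ∈ L, ∀ y ∈ L, B x y = 0}
  have hne : s.Nonempty := by
    refine ⟨0, ⊥, by simp, ?_⟩
    intro x hx y hy
    rw [Submodule.mem_bot] at hx
    subst hx
    simp
  have hbdd : BddAbove s := by
    refine ⟨Module.finrank F U, ?_⟩
    rintro n ⟨L, rfl, -⟩
    exact Submodule.finrank_le L
  obtain ⟨L, hL, hLti⟩ := Nat.sSup_mem hne hbdd
  have hmax : ∀ L' : Submodule F U, (∀ x ∈ L', ∀ y ∈ L', B x y = 0) →
      Module.finrank F L' ≤ Module.finrank F L := by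
    intro L' h'
    rw [hL]
    exact le_csSup hbdd ⟨L', rfl, h'⟩
  have hperp : B.orthogonal L ≤ L := by
    intro v hv
    by_contra hvL
    have hti : ∀ x ∈ L ⊔ Submodule.span F {v}, ∀ y ∈ L ⊔ Submodule.span F {v}, B x y = 0 := by
      intro x hx y hy
      obtain ⟨l, hl, z, hz, rfl⟩ := Submodule.mem_sup.mp hx
      obtain ⟨l', hl', z', hz', rfl⟩ := Submodule.mem_sup.mp hy
      obtain ⟨a, rfl⟩ := Submodule.mem_span_singleton.mp hz
      obtain ⟨b, rfl⟩ := Submodule.mem_span_singleton.mp hz'
      have h1 : B l v = 0 := hv l hl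
      have h2 : B l' v = 0 := hv l' hl'
      have h3 : B v l' = 0 := by rw [← hA.neg_eq, h2, neg_zero]
      have h4 : B v v = 0 := hA v
      simp [map_add, hLti l hl l' hl', h1, h3, h4]
    have hlt : L < L ⊔ Submodule.span F {v} := by
      refine lt_of_le_of_ne le_sup_left ?_
      intro h
      apply hvL
      rw [h]
      exact Submodule.mem_sup_right (Submodule.mem_span_singleton_self v)
    have h5 := Submodule.finrank_lt_finrank_of_lt hlt
    have h6 := hmax _ hti
    omega
  have hle : L ≤ B.orthogonal L := fun x hx n hn => hLti n hn x hx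
  have heq : B.orthogonal L = L := le_antisymm hperp hle
  have hfin := LinearMap.BilinForm.finrank_orthogonal hB L
  rw [heq] at hfin
  have h7 : Module.finrank F L ≤ Module.finrank F U := Submodule.finrank_le L
  exact ⟨L, by omega, hLti⟩

theorem tmul_apply {F U W : Type*} [Field F] [AddCommGroup U] [Module F U]
    [AddCommGroup W] [Module F W] (B₁ : LinearMap.BilinForm F U) (B₂ : LinearMap.BilinForm F W)
    (u u' : U) (w w' : W) :
    (B₁.tmul B₂) (u ⊗ₜ w) (u' ⊗ₜ w') = B₁ u u' * B₂ w w' := by
  change B₂ w w' • B₁ u u' = _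
  rw [smul_eq_mul, mul_comm]

/-- If B₁, B₂ are non-degenerate alternating forms on U (dim 2k) and W (dim 2l), then B₁ ⊗ B₂ on U ⊗ W is symmetric, non-degenerate, and vanishes identically on some subspace of dimension 2kl (half of dim U ⊗ W). -/
theorem result {F U W : Type*} [Field F] [Fintype F] [AddCommGroup U] [Module F U] [FiniteDimensional F U] [AddCommGroup W] [Module F W] [FiniteDimensional F W] (B₁ : LinearMap.BilinForm F U) (B₂ : LinearMap.BilinForm F W) (h₁ : B₁.Nondegenerate) (h₂ : B₂.Nondegenerate) (hA₁ : B₁.IsAlt) (hA₂ : B₂.IsAlt) (k l : ℕ) (hU : Module.finrank F U = 2 * k) (hW : Module.finrank F W = 2 * l) : (B₁.tmul B₂).IsSymm ∧ (B₁.tmul B₂).Nondegenerate ∧ (∃ X : Submodule F (TensorProduct F U W), Module.finrank F X = 2 * k * l ∧ ∀ x ∈ X, ∀ y ∈ X, (B₁.tmul B₂) x y = 0) := by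
  classical
  have hsymm : (B₁.tmul B₂).IsSymm := by
    rw [LinearMap.isSymm_iff_eq_flip]
    apply LinearMap.ext
    intro x
    apply LinearMap.ext
    intro y
    induction x using TensorProduct.induction_on with
    | zero => simp
    | tmul u w =>
      induction y using TensorProduct.induction_on with
      | zero => simp
      | tmul u' w' =>
        rw [LinearMap.flip_apply, tmul_apply, tmul_apply, ← hA₁.neg_eq u' u, ← hA₂.neg_eq w' w]
        ring
      | add y₁ y₂ h₁ h₂ => simp only [map_add, h₁, h₂]
    | add x₁ x₂ h₁ h₂ => simp only [map_add, LinearMap.add_apply, h₁, h₂]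
  refine ⟨hsymm, ?_, ?_⟩
  · -- nondegeneracy
    rw [hsymm.isRefl.nondegenerate_iff_separatingLeft]
    let e : U ⊗[F] W ≃ₗ[F] Module.Dual F (U ⊗[F] W) :=
      (TensorProduct.congr (B₁.toDual h₁) (B₂.toDual h₂)).trans (TensorProduct.dualDistribEquiv F U W)
    have he : ∀ x y, (B₁.tmul B₂) x y = e x y := by
      intro x y
      induction x using TensorProduct.induction_on with
      | zero => simp
      | tmul u w =>
        induction y using TensorProduct.induction_on with
        | zero => simp
        | tmul u' w' =>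
          rw [tmul_apply]
          simp only [e, LinearEquiv.trans_apply, TensorProduct.congr_tmul]
          erw [TensorProduct.dualDistrib_apply]
          rw [LinearMap.BilinForm.toDual_def, LinearMap.BilinForm.toDual_def]
        | add y₁ y₂ h₁ h₂ => simp only [map_add, h₁, h₂]
      | add x₁ x₂ h₁ h₂ => simp only [map_add, LinearMap.add_apply, h₁, h₂]
    intro x hx
    have : e x = 0 := by
      apply LinearMap.ext
      intro y
      rw [← he, hx y]
      rfl
    exact e.map_eq_zero_iff.mp this
  · obtain ⟨L, hLk, hLti⟩ := exists_lagrangian B₁ h₁ hA₁ k hU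
    let f : L ⊗[F] W →ₗ[F] U ⊗[F] W := LinearMap.rTensor W L.subtype
    have hf : Function.Injective f :=
      Module.Flat.rTensor_preserves_injective_linearMap L.subtype L.injective_subtype
    refine ⟨LinearMap.range f, ?_, ?_⟩
    · rw [LinearMap.finrank_range_of_inj hf, Module.finrank_tensorProduct, hLk, hW]
      ring
    · rintro _ ⟨x, rfl⟩ _ ⟨y, rfl⟩
      induction x using TensorProduct.induction_on with
      | zero => simp
      | tmul u w =>
        induction y using TensorProduct.induction_on with
        | zero => simp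
        | tmul u' w' =>
          simp only [f, LinearMap.rTensor_tmul, Submodule.subtype_apply]
          rw [tmul_apply, hLti u u.2 u' u'.2, zero_mul]
        | add y₁ y₂ h₁ h₂ => simp only [map_add, h₁, h₂, add_zero]
      | add x₁ x₂ h₁ h₂ => simp only [map_add, LinearMap.add_apply, h₁, h₂, add_zero]

end Cfsg.Agent.S0833
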