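import Cfsg.Statements.S0834
import Mathlib
import Cfsg.Agent.Helper14.Forms

set_option autoImplicit false
open Cfsg

namespace Cfsg.Agent.S0834

/-- Over a finite field with 2 ≠ 0: if B₁ on U (dim 2k, k ≥ 1) and B₂ on W (dim 2l, l ≥ 1) are non-degenerate symmetric forms admitting no totally isotropic subspaces of dimensions k, resp. l (minus type), then B₁ ⊗ B₂ admits a totally isotropic subspace of dimension 2kl (plus type). -/
theorem result {F U W : Type*} [Field F] [Fintype F] [AddCommGroup U] [Module F U] [FiniteDimensional F U] [AddCommGroup W] [Module F W] [FiniteDimensional F W] (h2 : (2 : F) ≠ 0) (B₁ : LinearMap.BilinForm F U) (B₂ : LinearMap.BilinForm F W) (h₁ : B₁.Nondegenerate) (h₂ : B₂.Nondegenerate) (hS₁ : B₁.IsSymm) (hS₂ : B₂.IsSymm) (k l : ℕ) (hk : 1 ≤ k) (hl : 1 ≤ l) (hU : Module.finrank F U = 2 * k) (hW : Module.finrank F W = 2 * l) (hm₁ : ¬ (∃ X : Submodule F (U), Module.finrank F X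 = k ∧ ∀ x ∈ X, ∀ y ∈ X, (B₁) x y = 0)) (hm₂ : ¬ (∃ X : Submodule F (W), Module.finrank F X = l ∧ ∀ x ∈ X, ∀ y ∈ X, (B₂) x y = 0)) : (∃ X : Submodule F (TensorProduct F U W), Module.finrank F X = 2 * k * l ∧ ∀ x ∈ X, ∀ y ∈ X, (B₁.tmul B₂) x y = 0) := by
  classical
  obtain ⟨d₁, hd₁⟩ := Cfsg.Agent.Helper14.exists_discEq B₁
  obtain ⟨d₂, hd₂⟩ := Cfsg.Agent.Helper14.exists_discEq B₂
  have hd := hd₁.tmul hd₂
  rw [hU, hW] at hd
  have hnd : (B₁.tmul B₂).Nondegenerate := Cfsg.Agent.Helper14.nondegenerate_tmul h₁ h₂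
  have hsymm : LinearMap.BilinForm.IsSymm (B₁.tmul B₂) :=
    LinearMap.BilinForm.isSymm_iff.mpr
      (LinearMap.IsSymm.tmul (LinearMap.BilinForm.isSymm_iff.mp hS₁)
        (LinearMap.BilinForm.isSymm_iff.mp hS₂))
  have hfin : Module.finrank F (TensorProduct F U W) = 2 * (2 * k * l) := by
    rw [Module.finrank_tensorProduct, hU, hW]
    ring
  have hd₁0 := hd₁.ne_zero h₁
  have hd₂0 := hd₂.ne_zero h₂
  refine Cfsg.Agent.Helper14.exists_isotropic_subspace h2 (2 * k * l) (TensorProduct F U W)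
    (B₁.tmul B₂) hnd hsymm hfin ⟨d₁ ^ l * d₂ ^ k, mul_ne_zero (pow_ne_zero _ hd₁0)
      (pow_ne_zero _ hd₂0), ?_⟩
  have he : ((-1 : F)) ^ (2 * k * l) = 1 := by
    rw [mul_assoc, pow_mul]
    simp
  have : (-1 : F) ^ (2 * k * l) * (d₁ ^ l * d₂ ^ k) ^ 2 = d₁ ^ (2 * l) * d₂ ^ (2 * k) := by
    rw [he]
    ring
  rw [this]
  exact hd

end Cfsg.Agent.S0834
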