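import Cfsg.Statements.S0835
import Mathlib
import Cfsg.Agent.Helper14.Forms

set_option autoImplicit false
open Cfsg

namespace Cfsg.Agent.S0835

/-- Over a finite field with 2 ≠ 0: if B₁ on U (dim 2k, k ≥ 1) is non-degenerate symmetric of minus type (no totally isotropic k-subspace) and B₂ on W (dim 2l + 1) is non-degenerate symmetric, then B₁ ⊗ B₂ (dimension 2k(2l+1)) admits no totally isotropic subspace of dimension k(2l+1) (minus type). -/
theorem result {F U W : Type*} [Field F] [Fintype F] [AddCommGroup U] [Module F U] [FiniteDimensional F U] [AddCommGroup W] [Module F W] [FiniteDimensional F W] (h2 : (2 : F) ≠ 0) (B₁ : LinearMap.BilinForm F U) (B₂ : LinearMap.BilinForm F W) (h₁ : B₁.Nondegenerate) (h₂ : B₂.Nondegenerate) (hS₁ : B₁.IsSymm) (hS₂ : B₂.IsSymm) (k l : ℕ) (hk : 1 ≤ k) (hU : Module.finrank F U = 2 * k) (hW : Module.finrank F W = 2 * l + 1) (hm₁ : ¬ (∃ X : Submodule F (U), Module.finrank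 F X = k ∧ ∀ x ∈ X, ∀ y ∈ X, (B₁) x y = 0)) : ¬ (∃ X : Submodule F (TensorProduct F U W), Module.finrank F X = k * (2 * l + 1) ∧ ∀ x ∈ X, ∀ y ∈ X, (B₁.tmul B₂) x y = 0) := by
  classical
  rintro ⟨X, hX, hXti⟩
  apply hm₁
  obtain ⟨d₁, hd₁⟩ := Cfsg.Agent.Helper14.exists_discEq B₁
  obtain ⟨d₂, hd₂⟩ := Cfsg.Agent.Helper14.exists_discEq B₂
  have hd := hd₁.tmul hd₂
  rw [hU, hW] at hd
  have hnd : (B₁.tmul B₂).Nondegenerate := Cfsg.Agent.Helper14.nondegenerate_tmul h₁ h₂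
  have hsymm : LinearMap.BilinForm.IsSymm (B₁.tmul B₂) :=
    LinearMap.BilinForm.isSymm_iff.mpr
      (LinearMap.IsSymm.tmul (LinearMap.BilinForm.isSymm_iff.mp hS₁)
        (LinearMap.BilinForm.isSymm_iff.mp hS₂))
  have hfin : Module.finrank F (TensorProduct F U W) = 2 * (k * (2 * l + 1)) := by
    rw [Module.finrank_tensorProduct, hU, hW]
    ring
  have hd₁0 := hd₁.ne_zero h₁
  have hd₂0 := hd₂.ne_zero h₂
  obtain ⟨s, hs0, hds⟩ := Cfsg.Agent.Helper14.discEq_of_isotropic h2 (k * (2 * l + 1))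
    (TensorProduct F U W) (B₁.tmul B₂) hnd hsymm hfin ⟨X, hX, hXti⟩
  obtain ⟨t, ht0, ht⟩ := hds.unique hd
  have hD : d₁ ^ l * d₂ ^ k ≠ 0 := mul_ne_zero (pow_ne_zero _ hd₁0) (pow_ne_zero _ hd₂0)
  have he : ((-1 : F)) ^ (k * (2 * l + 1)) = (-1) ^ k := by
    rw [mul_add, mul_one, pow_add, mul_comm k (2 * l), mul_assoc, pow_mul]
    simp
  rw [he] at ht
  have key : d₁ = (-1) ^ k * (t * s / (d₁ ^ l * d₂ ^ k)) ^ 2 := by
    field_simp
    linear_combination ht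
  refine Cfsg.Agent.Helper14.exists_isotropic_subspace h2 k U B₁ h₁ hS₁ hU
    ⟨t * s / (d₁ ^ l * d₂ ^ k), div_ne_zero (mul_ne_zero ht0 hs0) hD, ?_⟩
  rw [← key]
  exact hd₁

end Cfsg.Agent.S0835
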