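import Cfsg.Statements.S0836
import Mathlib

set_option autoImplicit false
open Cfsg
open scoped commutatorElement

namespace Cfsg.Agent.S0836

open Matrix in
/-- A transvection as an element of the special linear group. -/
def tv {F : Type*} [Field F] {n : ℕ} (i j : Fin n) (h : i ≠ j) (c : F) :
    Matrix.SpecialLinearGroup (Fin n) F :=
  ⟨Matrix.transvection i j c, Matrix.det_transvection_of_ne i j h c⟩

theorem tv_coe {F : Type*} [Field F] {n : ℕ} (i j : Fin n) (h : i ≠ j) (c : F) :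
    ((tv i j h c : Matrix.SpecialLinearGroup (Fin n) F) : Matrix (Fin n) (Fin n) F)
      = Matrix.transvection i j c := rfl

theorem tv_inv {F : Type*} [Field F] {n : ℕ} (i j : Fin n) (h : i ≠ j) (c : F) :
    (tv i j h c)⁻¹ = tv i j h (-c) := by
  apply inv_eq_of_mul_eq_one_right
  apply Subtype.ext
  rw [Matrix.SpecialLinearGroup.coe_mul, tv_coe, tv_coe,
    Matrix.transvection_mul_transvection_same i j h]
  simp

theorem single_neg' {F : Type*} [Field F] {n : ℕ} (i j : Fin n) (c : F) :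
    (Matrix.single i j (-c) : Matrix (Fin n) (Fin n) F) = - Matrix.single i j c := by
  rw [eq_neg_iff_add_eq_zero, ← Matrix.single_add]
  simp

theorem comm3 {F : Type*} [Field F] {n : ℕ} (i j k : Fin n) (hij : i ≠ j) (hik : i ≠ k)
    (hkj : k ≠ j) (c : F) :
    ⁅tv i k hik c, tv k j hkj 1⁆ = tv i j hij c := by
  rw [commutatorElement_def, tv_inv, tv_inv]
  apply Subtype.ext
  simp only [Matrix.SpecialLinearGroup.coe_mul, tv_coe, Matrix.transvection]
  simp only [mul_add, add_mul, mul_one, one_mul, Matrix.single_mul_single_same,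
    Matrix.single_mul_single_of_ne _ _ _ _ hik.symm, Matrix.single_mul_single_of_ne _ _ _ _ hkj.symm,
    Matrix.single_mul_single_of_ne _ _ _ _ hij.symm]
  simp only [single_neg', zero_mul, add_zero, mul_neg, mul_one, neg_neg]
  abel

/-- The diagonal matrix `diag(x, y)` with `x * y = 1` as an element of `SL₂`. -/
def dg {F : Type*} [Field F] (x y : F) (h : x * y = 1) : Matrix.SpecialLinearGroup (Fin 2) F :=
  ⟨!![x, 0; 0, y], by rw [Matrix.det_fin_two_of]; simp [h]⟩

theorem dg_coe {F : Type*} [Field F] (x y : F) (h : x * y = 1) :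
    ((dg x y h : Matrix.SpecialLinearGroup (Fin 2) F) : Matrix (Fin 2) (Fin 2) F) = !![x, 0; 0, y] :=
  rfl

theorem comm2 {F : Type*} [Field F] (x : F) (hx : x ≠ 0) (hx2 : x ^ 2 ≠ 1) (i j : Fin 2)
    (hij : i ≠ j) (c : F) :
    ∃ g₁ g₂ : Matrix.SpecialLinearGroup (Fin 2) F, ⁅g₁, g₂⁆ = tv i j hij c := by
  have hx1 : x ^ 2 - 1 ≠ 0 := sub_ne_zero.mpr hx2
  have key : ∀ (d : Matrix.SpecialLinearGroup (Fin 2) F) (y : F), y ≠ 0 → y ≠ 1 →
      (∀ e : F, d * tv i j hij e * d⁻¹ = tv i j hij (y * e)) →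
      ∃ g₁ g₂ : Matrix.SpecialLinearGroup (Fin 2) F, ⁅g₁, g₂⁆ = tv i j hij c := by
    intro d y hy0 hy1 hd
    have hy1' : y - 1 ≠ 0 := sub_ne_zero.mpr hy1
    refine ⟨d, tv i j hij (c / (y - 1)), ?_⟩
    rw [commutatorElement_def, hd, tv_inv]
    apply Subtype.ext
    rw [Matrix.SpecialLinearGroup.coe_mul, tv_coe, tv_coe, tv_coe,
      Matrix.transvection_mul_transvection_same i j hij]
    congr 1
    field_simp
    ring
  have hxinv : x * x⁻¹ = 1 := mul_inv_cancel₀ hx
  have hxinv' : x⁻¹ * x = 1 := inv_mul_cancel₀ hx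
  have hy0 : x ^ 2 ≠ 0 := pow_ne_zero 2 hx
  have h01 : ∀ e : F, (Matrix.transvection (0 : Fin 2) 1 e : Matrix (Fin 2) (Fin 2) F) = !![1, e; 0, 1] := by
    intro e
    ext a b
    fin_cases a <;> fin_cases b <;> simp [Matrix.transvection]
  have h10 : ∀ e : F, (Matrix.transvection (1 : Fin 2) 0 e : Matrix (Fin 2) (Fin 2) F) = !![1, 0; e, 1] := by
    intro e
    ext a b
    fin_cases a <;> fin_cases b <;> simp [Matrix.transvection]
  have hcases : (i = 0 ∧ j = 1) ∨ (i = 1 ∧ j = 0) := by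
    fin_cases i <;> fin_cases j <;> simp at hij ⊢
  rcases hcases with ⟨rfl, rfl⟩ | ⟨rfl, rfl⟩
  · refine key (dg x x⁻¹ hxinv) (x ^ 2) hy0 hx2 ?_
    intro e
    apply mul_inv_eq_of_eq_mul
    apply Subtype.ext
    rw [Matrix.SpecialLinearGroup.coe_mul, Matrix.SpecialLinearGroup.coe_mul, tv_coe, tv_coe,
      h01, h01, dg_coe]
    ext a b
    fin_cases a <;> fin_cases b <;> simp [Matrix.mul_apply, Fin.sum_univ_two] <;> field_simp
  · refine key (dg x⁻¹ x hxinv') (x ^ 2) hy0 hx2 ?_
    intro e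
    apply mul_inv_eq_of_eq_mul
    apply Subtype.ext
    rw [Matrix.SpecialLinearGroup.coe_mul, Matrix.SpecialLinearGroup.coe_mul, tv_coe, tv_coe,
      h10, h10, dg_coe]
    ext a b
    fin_cases a <;> fin_cases b <;> simp [Matrix.mul_apply, Fin.sum_univ_two] <;> field_simp

/-- For i ≠ j and any scalar c, the elementary transvection 1 + c E_ij is a commutator ⁅g, h⁆ of two elements of SL_n(F) provided n ≥ 3, or n = 2 and F contains x ≠ 0 with x² ≠ 1. -/
theorem result {F : Type*} [Field F] (n : ℕ) (hn : 3 ≤ n ∨ (n = 2 ∧ ∃ x : F, x ≠ 0 ∧ x ^ 2 ≠ 1)) (i j : Fin n) (hij : i ≠ j) (c : F) (t : Matrix.SpecialLinearGroup (Fin n) F) (ht : (t : Matrix (Fin n) (Fin n) F) = Matrix.transvection i j c) : t ∈ commutatorSet (Matrix.SpecialLinearGroup (Fin n) F) := by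
  have ht' : t = tv i j hij c := Subtype.ext (by rw [ht, tv_coe])
  rw [ht']
  rcases hn with hn | ⟨rfl, x, hx, hx2⟩
  · -- pick k different from i and j
    obtain ⟨k, hki, hkj⟩ : ∃ k : Fin n, k ≠ i ∧ k ≠ j := by
      by_contra hcon
      push Not at hcon
      have hsub : (Finset.univ : Finset (Fin n)) ⊆ {i, j} := by
        intro k _
        by_cases hki : k = i
        · simp [hki]
        · simp [hcon k hki]
      have := Finset.card_le_card hsub
      have h2 : ({i, j} : Finset (Fin n)).card ≤ 2 := Finset.card_le_two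
      simp only [Finset.card_univ, Fintype.card_fin] at this
      omega
    exact ⟨tv i k hki.symm c, tv k j hkj 1, comm3 i j k hij hki.symm hkj c⟩
  · exact comm2 x hx hx2 i j hij c

end Cfsg.Agent.S0836
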