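import Cfsg.Statements.S0838
import Mathlib
import Cfsg.Agent.Helper14.Forms2

set_option autoImplicit false
open Cfsg

namespace Cfsg.Agent.S0838

/-- Over a finite field with 2 ≠ 0 and n odd: two quadratic forms Q₁, Q₂ on F^n with non-degenerate polar forms are similar — there are an invertible linear map g and a scalar c ≠ 0 with Q₂ (g v) = c · Q₁ v for all v. -/
theorem result {F : Type*} [Field F] [Fintype F] (h2 : (2 : F) ≠ 0) {n : ℕ} (hn : Odd n) (Q₁ Q₂ : QuadraticForm F (Fin n → F)) (h₁ : (QuadraticMap.polarBilin Q₁).Nondegenerate) (h₂ : (QuadraticMap.polarBilin Q₂).Nondegenerate) : ∃ (g : (Fin n → F) ≃ₗ[F] (Fin n → F)) (c : F), c ≠ 0 ∧ ∀ v, Q₂ (g v) = c * Q₁ v := by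
  classical
  obtain ⟨k, rfl⟩ := hn
  have hs₁ : LinearMap.BilinForm.IsSymm (QuadraticMap.polarBilin Q₁) :=
    ⟨fun x y => by
      rw [QuadraticMap.polarBilin_apply_apply, QuadraticMap.polarBilin_apply_apply,
        QuadraticMap.polar_comm]⟩
  have hs₂ : LinearMap.BilinForm.IsSymm (QuadraticMap.polarBilin Q₂) :=
    ⟨fun x y => by
      rw [QuadraticMap.polarBilin_apply_apply, QuadraticMap.polarBilin_apply_apply,
        QuadraticMap.polar_comm]⟩
  have hfin : Module.finrank F (Fin (2 * k + 1) → F) = 2 * k + 1 := by simp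
  obtain ⟨u, huo, hu1, hul⟩ := Cfsg.Agent.Helper14.exists_normal_basis h2 (2 * k) _
    (QuadraticMap.polarBilin Q₁) h₁ hs₁ hfin
  obtain ⟨v, hvo, hv1, hvl⟩ := Cfsg.Agent.Helper14.exists_normal_basis h2 (2 * k) _
    (QuadraticMap.polarBilin Q₂) h₂ hs₂ hfin
  obtain ⟨a, ha⟩ : ∃ a, a = (QuadraticMap.polarBilin Q₁) (u (Fin.last (2 * k))) (u (Fin.last (2 * k))) :=
    ⟨_, rfl⟩
  obtain ⟨b, hb⟩ : ∃ b, b = (QuadraticMap.polarBilin Q₂) (v (Fin.last (2 * k))) (v (Fin.last (2 * k))) :=
    ⟨_, rfl⟩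
  rw [← ha] at hul
  rw [← hb] at hvl
  obtain ⟨c, hcdef⟩ : ∃ c, c = b / a := ⟨_, rfl⟩
  have hc : c ≠ 0 := by rw [hcdef]; exact div_ne_zero hvl hul
  have hnd' : (c • QuadraticMap.polarBilin Q₁).Nondegenerate := by
    refine ⟨fun x hx => h₁.1 x (fun y => ?_), fun y hy => h₁.2 y (fun x => ?_)⟩
    · have := hx y
      simpa [hc] using this
    · have := hy x
      simpa [hc] using this
  have hs' : LinearMap.BilinForm.IsSymm (c • QuadraticMap.polarBilin Q₁) := hs₁.smul c
  obtain ⟨u', hu'o, hu'1, hu'l⟩ := Cfsg.Agent.Helper14.exists_normal_basis h2 (2 * k) _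
    (c • QuadraticMap.polarBilin Q₁) hnd' hs' hfin
  obtain ⟨a', ha'⟩ : ∃ a', a' = (c • QuadraticMap.polarBilin Q₁) (u' (Fin.last (2 * k)))
      (u' (Fin.last (2 * k))) := ⟨_, rfl⟩
  have hD1 : Cfsg.Agent.Helper14.DiscEq (c • QuadraticMap.polarBilin Q₁) a' := by
    have := Cfsg.Agent.Helper14.discEq_of_basis (c • QuadraticMap.polarBilin Q₁) u'
    rw [Cfsg.Agent.Helper14.det_gram_normal u' hu'o hu'1, ← ha'] at this
    exact this
  have hD2 : Cfsg.Agent.Helper14.DiscEq (c • QuadraticMap.polarBilin Q₁) (c ^ (2 * k + 1) * a) := by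
    have := Cfsg.Agent.Helper14.discEq_smul (QuadraticMap.polarBilin Q₁) u c
    rw [Cfsg.Agent.Helper14.det_gram_normal u huo hu1, ← ha, Fintype.card_fin] at this
    exact this
  obtain ⟨t, ht0, ht⟩ := hD2.unique hD1
  obtain ⟨r, hrdef⟩ : ∃ r, r = t * c ^ k := ⟨_, rfl⟩
  have hr0 : r ≠ 0 := by rw [hrdef]; exact mul_ne_zero ht0 (pow_ne_zero _ hc)
  have hr : a' = r * r * b := by
    have e1 : c ^ (2 * k + 1) * a = (c ^ k) ^ 2 * b := by
      rw [pow_succ, ← pow_mul, mul_comm k 2, mul_assoc, hcdef, div_mul_cancel₀ _ hul]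
    rw [ht, e1, hrdef]
    ring
  -- rescale the last vector of `v`
  let w : Fin (2 * k + 1) → Fˣ := fun i => if i = Fin.last (2 * k) then Units.mk0 r hr0 else 1
  let v' := v.unitsSMul w
  let g : (Fin (2 * k + 1) → F) ≃ₗ[F] (Fin (2 * k + 1) → F) := u'.equiv v' (Equiv.refl _)
  have hg : ∀ i, g (u' i) = (w i : F) • v i := by
    intro i
    simp only [g, Module.Basis.equiv_apply, Equiv.refl_apply, v', Module.Basis.unitsSMul_apply]
    rfl
  have hform : (QuadraticMap.polarBilin Q₂).compl₁₂ (g : (Fin (2 * k + 1) → F) →ₗ[F] _)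
      (g : (Fin (2 * k + 1) → F) →ₗ[F] _) = c • QuadraticMap.polarBilin Q₁ := by
    apply LinearMap.BilinForm.ext_basis u'
    intro i j
    rw [LinearMap.compl₁₂_apply]
    simp only [LinearEquiv.coe_coe, hg, map_smul, LinearMap.smul_apply, smul_eq_mul]
    by_cases hij : i = j
    · subst hij
      by_cases hil : i = Fin.last (2 * k)
      · subst hil
        have hw : ((w (Fin.last (2 * k)) : Fˣ) : F) = r := by simp [w]
        rw [hw, ← hb]
        have := ha'
        simp only [LinearMap.smul_apply, smul_eq_mul] at this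
        rw [← this, hr]
        ring
      · have hw : ((w i : Fˣ) : F) = 1 := by simp [w, hil]
        rw [hw, hv1 i hil]
        have := hu'1 i hil
        simp only [LinearMap.smul_apply, smul_eq_mul] at this
        rw [this]
        ring
    · rw [hvo i j hij]
      have := hu'o i j hij
      simp only [LinearMap.smul_apply, smul_eq_mul] at this
      rw [this]
      ring
  refine ⟨g, c, hc, fun x => ?_⟩
  have h := LinearMap.congr_fun₂ hform x x
  rw [LinearMap.compl₁₂_apply] at h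
  simp only [LinearEquiv.coe_coe, LinearMap.smul_apply, smul_eq_mul,
    QuadraticMap.polarBilin_apply_apply, QuadraticMap.polar_self] at h
  have h' : (2 : F) * Q₂ (g x) = 2 * (c * Q₁ x) := by
    simp only [nsmul_eq_mul, Nat.cast_ofNat] at h
    linear_combination h
  exact mul_left_cancel₀ h2 h'

end Cfsg.Agent.S0838
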