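import Cfsg.Statements.S0845
import Mathlib
import Cfsg.Agent.Helper14.BSInvol

set_option autoImplicit false
open Cfsg

namespace Cfsg.Agent.S0845

/-- Suppose a Sylow 2-subgroup S of the finite group G is generalized quaternion of order at least 16. Then G has a normal subgroup M of even order such that G / M is non-abelian, that is, M does not contain the commutator subgroup of G. -/
theorem result {G : Type*} [Group G] [Finite G] (S : Sylow 2 G) (n : ℕ) (e : (S : Subgroup G) ≃* QuaternionGroup (2 ^ (n + 2))) : ∃ M : Subgroup G, M.Normal ∧ Even (Nat.card M) ∧ ¬ commutator G ≤ M := by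
  obtain ⟨M, hMn, hinv, -, hcomm⟩ := Cfsg.Agent.Helper14.GenQuat.exists_normal S n e
  refine ⟨M, hMn, ?_, hcomm⟩
  have hs := Cfsg.Agent.Helper14.GenQuat.setup_gen S n e
  have ht : orderOf (Cfsg.Agent.Helper14.GenQuat.gen S n e ^ (2 ^ (n + 2))) = 2 := by
    rw [orderOf_pow_of_dvd (by positivity) (by rw [hs.ord]; exact pow_dvd_pow 2 (by omega)),
      hs.ord, Nat.pow_div (by omega) (by norm_num)]
    have : n + 3 - (n + 2) = 1 := by omega
    rw [this, pow_one]
  have h1 := Subgroup.orderOf_dvd_natCard M (hinv _ ht)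
  rw [ht] at h1
  exact even_iff_two_dvd.mpr h1

end Cfsg.Agent.S0845
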