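import Cfsg.Statements.S0846
import Mathlib
import Cfsg.Agent.Helper14.BSInvol

set_option autoImplicit false
open Cfsg

namespace Cfsg.Agent.S0846

/-- Suppose a Sylow 2-subgroup S of the finite group G is generalized quaternion of order at least 16. Then every Sylow 2-subgroup of the subgroup generated by the involutions of G is cyclic. -/
theorem result {G : Type*} [Group G] [Finite G] (S : Sylow 2 G) (n : ℕ) (e : (S : Subgroup G) ≃* QuaternionGroup (2 ^ (n + 2))) (Q : Sylow 2 ↥(Subgroup.closure {g : G | orderOf g = 2})) : IsCyclic Q := by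
  obtain ⟨M, hMn, hinv, hSM, -⟩ := Cfsg.Agent.Helper14.GenQuat.exists_normal S n e
  have hLM : Subgroup.closure {g : G | orderOf g = 2} ≤ M := by
    rw [Subgroup.closure_le]
    intro g hg
    exact hinv g hg
  exact Cfsg.Agent.Helper14.GenQuat.isCyclic_sylow_of_le S n e M hMn hSM _ hLM Q

end Cfsg.Agent.S0846
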