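import Cfsg.Statements.S0848
import Cfsg.Agent.Helper21.DEightC

set_option autoImplicit false
open Cfsg

namespace Cfsg.Agent.S0848

/-- If a finite group equals its own commutator subgroup and contains an involution whose centralizer is isomorphic to the dihedral group of order 8, then the group has order 168 or 360. -/
theorem result {G : Type*} [Group G] [Finite G] (hperf : commutator G = ⊤) (t : G) (ht : orderOf t = 2) (e : Subgroup.centralizer ({t} : Set G) ≃* DihedralGroup 4) : Nat.card G = 168 ∨ Nat.card G = 360 := by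
  classical
  have : Fact (Nat.Prime 2) := ⟨Nat.prime_two⟩
  set C := Subgroup.centralizer ({t} : Set G) with hCdef
  have hcardC : Nat.card ↥C = 2 ^ 3 := by
    rw [Nat.card_congr e.toEquiv, DihedralGroup.nat_card]
    norm_num
  have hCp : IsPGroup 2 ↥C := IsPGroup.of_card hcardC
  obtain ⟨P, hP⟩ := hCp.exists_le_sylow
  have ht1 : t ≠ 1 := by
    intro h
    rw [h, orderOf_one] at ht
    norm_num at ht
  have htC : t ∈ C := by
    rw [hCdef, Subgroup.mem_centralizer_iff]
    intro h hh
    rw [Set.mem_singleton_iff] at hh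
    rw [hh]
  -- `t` corresponds to the central rotation
  have hcenC : ∀ (c : G) (hc : c ∈ C), (∀ y ∈ C, y * c = c * y) → c ≠ 1 →
      e ⟨c, hc⟩ = DihedralGroup.r 2 := by
    intro c hc hcomm hc1
    have h1 : ∀ y : DihedralGroup 4, e ⟨c, hc⟩ * y = y * e ⟨c, hc⟩ := by
      intro y
      have h2 := hcomm (e.symm y : G) (e.symm y).2
      have h3 : (e.symm y : ↥C) * ⟨c, hc⟩ = ⟨c, hc⟩ * e.symm y := Subtype.ext h2
      have h4 := congrArg e h3
      rw [map_mul, map_mul, MulEquiv.apply_symm_apply] at h4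
      exact h4.symm
    rcases Cfsg.Agent.Helper21.DEight.deD4_center _ h1 with h5 | h5
    · exfalso
      apply hc1
      have h6 : (⟨c, hc⟩ : ↥C) = 1 := by
        apply e.injective
        rw [h5, map_one]
      exact congrArg Subtype.val h6
    · exact h5
  have het : e ⟨t, htC⟩ = DihedralGroup.r 2 := by
    apply hcenC t htC _ ht1
    intro y hy
    rw [hCdef, Subgroup.mem_centralizer_iff] at hy
    exact (hy t rfl).symm
  -- `C` is a Sylow subgroup
  have hPle : (P : Subgroup G) ≤ C := by
    have hnt : Nontrivial ↥(P : Subgroup G) := ⟨⟨⟨t, hP htC⟩, 1, fun h => ht1 (congrArg Subtype.val h)⟩⟩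
    have hcn := P.isPGroup'.center_nontrivial
    obtain ⟨z, hz⟩ := exists_ne (1 : ↥(Subgroup.center ↥(P : Subgroup G)))
    have hzc : ∀ p ∈ (P : Subgroup G), p * (z : ↥(P : Subgroup G)).1 = (z : ↥(P : Subgroup G)).1 * p := by
      intro p hp
      have h1 := Subgroup.mem_center_iff.mp z.2 ⟨p, hp⟩
      exact congrArg Subtype.val h1
    have hz1 : ((z : ↥(P : Subgroup G)) : G) ≠ 1 := by
      intro h
      apply hz
      apply Subtype.ext
      apply Subtype.ext
      exact h
    have hzC : ((z : ↥(P : Subgroup G)) : G) ∈ C := by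
      rw [hCdef, Subgroup.mem_centralizer_iff]
      intro h hh
      rw [Set.mem_singleton_iff] at hh
      rw [hh]
      exact hzc t (hP htC)
    have hez := hcenC _ hzC (fun y hy => hzc y (hP hy)) hz1
    have hzt : ((z : ↥(P : Subgroup G)) : G) = t := by
      have h1 : (⟨_, hzC⟩ : ↥C) = ⟨t, htC⟩ := e.injective (hez.trans het.symm)
      exact congrArg Subtype.val h1
    intro p hp
    rw [hCdef, Subgroup.mem_centralizer_iff]
    intro h hh
    rw [Set.mem_singleton_iff] at hh
    rw [hh, ← hzt]
    exact (hzc p hp).symm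
  have hPC : (P : Subgroup G) = C := le_antisymm hPle hP
  let e' : ↥(P : Subgroup G) ≃* DihedralGroup (2 ^ (3 - 1)) := (MulEquiv.subgroupCongr hPC).trans e
  have hJt : Cfsg.Agent.Helper21.DihOrd.dsJ 3 e' = t := by
    have h1 : e' ⟨t, hP htC⟩ = DihedralGroup.r 2 := het
    have h2 : (⟨t, hP htC⟩ : ↥(P : Subgroup G)) = e'.symm (DihedralGroup.r 2) := by
      rw [← h1, MulEquiv.symm_apply_apply]
    exact (congrArg Subtype.val h2).symm
  have hC' : Subgroup.centralizer ({Cfsg.Agent.Helper21.DihOrd.dsJ 3 e'} : Set G) ≤ (P : Subgroup G) := by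
    rw [hJt, hPC]
  -- fusion from perfectness
  have hfus : ∀ i : ZMod (2 ^ (3 - 1)),
      IsConj (Cfsg.Agent.Helper21.DihOrd.dsJ 3 e') (Cfsg.Agent.Helper55.dRef e' i) := by
    intro i
    by_contra hcon
    have hno : ∀ (g : G) (j : ZMod (2 ^ (3 - 1))),
        g * Cfsg.Agent.Helper55.dRef e' i * g⁻¹ ≠ Cfsg.Agent.Helper55.dRot e' j := by
      intro g j hgj
      apply hcon
      have ho : orderOf (Cfsg.Agent.Helper55.dRot e' j) = 2 := by
        rw [← hgj, Cfsg.Agent.Helper21.DihOrd.dsOrderOf_conj, Cfsg.Agent.Helper55.orderOf_dRef]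
      have hJ := Cfsg.Agent.Helper21.DihOrd.dsRot_eq_J e' (by norm_num) ho
      rw [isConj_iff]
      refine ⟨g⁻¹, ?_⟩
      rw [← hJ, ← hgj]
      group
    have h1 := Cfsg.Agent.Helper55.transfer_dihedralSign_ne_one P e' i hno
    apply h1
    have hker : commutator G ≤ (MonoidHom.transfer
        ((Cfsg.Agent.S0107.dihedralSign (2 ^ (3 - 1))).comp e'.toMonoidHom)).ker :=
      Abelianization.commutator_subset_ker _
    rw [hperf] at hker
    exact hker (Subgroup.mem_top _)
  exact Cfsg.Agent.Helper21.DEight.deOrder P e' hC' (hfus 0) (hfus (-1))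

end Cfsg.Agent.S0848
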