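import Cfsg.Statements.S0849
import Mathlib

set_option autoImplicit false
open Cfsg

namespace Cfsg.Agent.S0849

theorem ebz_coe {G : Type*} [Group G] (H : Subgroup G) (θ : H → ℂ) (h : H) :
    Cfsg.extendByZero H θ (h : G) = θ h := by
  unfold Cfsg.extendByZero
  exact Subtype.val_injective.extend_apply θ 0 h

theorem ebz_not_mem {G : Type*} [Group G] (H : Subgroup G) (θ : H → ℂ) {g : G} (hg : g ∉ H) :
    Cfsg.extendByZero H θ g = 0 := by
  unfold Cfsg.extendByZero
  rw [Function.extend_apply']
  · rfl
  · rintro ⟨h, rfl⟩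
    exact hg h.2

theorem fsum_mem {α : Type*} [Fintype α] (s : Set α) (f : α → ℂ) :
    ∑ᶠ p ∈ s, f p = ∑ p, s.indicator f p := by
  rw [finsum_mem_def, finsum_eq_sum_of_fintype]

theorem inv_eq_self_of_conj {G : Type*} [Group G] {u a : G} (hu : orderOf u = 2) (h : IsConj u a) :
    a⁻¹ = a := by
  obtain ⟨c, rfl⟩ := isConj_iff.mp h
  have hu2 : u * u = 1 := by
    have := pow_orderOf_eq_one u
    rw [hu, pow_two] at this
    exact this
  rw [inv_eq_iff_mul_eq_one]
  calc c * u * c⁻¹ * (c * u * c⁻¹) = c * (u * u) * c⁻¹ := by group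
    _ = 1 := by rw [hu2]; group

/-- Let H be a subgroup of a finite group G and S a subset of H that is mapped to itself under conjugation by H, is disjoint from its conjugate by any element outside H, and is closed under inverses. Let φ be a class function of H vanishing on H away from S, and let u, v be involutions of G. Then the sum of the induced function of φ over all products a * b with a conjugate to u and b conjugate to v equals the index of H times the sum of φ (a * b) over such pairs with a and b in H. -/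
theorem result {G : Type*} [Group G] [Fintype G] (H : Subgroup G) (S : Set G) (hSH : S ⊆ H) (hHS : ∀ h ∈ H, ∀ s ∈ S, h * s * h⁻¹ ∈ S) (hTI : ∀ g : G, g ∉ H → ∀ s ∈ S, g * s * g⁻¹ ∉ S) (hinv : ∀ s ∈ S, s⁻¹ ∈ S) (φ : H → ℂ) (hφ : Cfsg.IsClassFunction H φ) (hφS : ∀ x : H, (x : G) ∉ S → φ x = 0) (u v : G) (hu : orderOf u = 2) (hv : orderOf v = 2) : ∑ᶠ p ∈ {p : G × G | IsConj u p.1 ∧ IsConj v p.2}, Cfsg.indFun H φ (p.1 * p.2) = (H.index : ℂ) * ∑ᶠ p ∈ {p : H × H | IsConj u (p.1 : G) ∧ IsConj v (p.2 : G)}, φ (p.1 * p.2) := by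
  classical
  set T : Set (G × G) := {p : G × G | IsConj u p.1 ∧ IsConj v p.2} with hT
  set T' : Set (H × H) := {p : H × H | IsConj u (p.1 : G) ∧ IsConj v (p.2 : G)} with hT'
  rw [fsum_mem, fsum_mem]
  -- Step 1: conjugation invariance of the inner sum
  have step1 : ∀ x : G, ∑ p : G × G, T.indicator (fun p => Cfsg.extendByZero H φ (x⁻¹ * (p.1 * p.2) * x)) p
      = ∑ p : G × G, T.indicator (fun p => Cfsg.extendByZero H φ (p.1 * p.2)) p := by
    intro x
    refine Fintype.sum_equiv (((MulAut.conj x⁻¹).toEquiv).prodCongr ((MulAut.conj x⁻¹).toEquiv)) _ _ ?_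
    intro p
    have hmem : p ∈ T ↔ (((MulAut.conj x⁻¹).toEquiv).prodCongr ((MulAut.conj x⁻¹).toEquiv)) p ∈ T := by
      simp only [hT, Set.mem_ofPred_eq, Equiv.prodCongr_apply, Prod.map_fst, Prod.map_snd,
        MulEquiv.toEquiv_eq_coe, EquivLike.coe_coe, MulAut.conj_apply, inv_inv]
      constructor
      · rintro ⟨h1, h2⟩
        exact ⟨h1.trans (isConj_iff.mpr ⟨x⁻¹, by simp⟩), h2.trans (isConj_iff.mpr ⟨x⁻¹, by simp⟩)⟩
      · rintro ⟨h1, h2⟩
        exact ⟨h1.trans (isConj_iff.mpr ⟨x, by group⟩), h2.trans (isConj_iff.mpr ⟨x, by group⟩)⟩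
    by_cases hp : p ∈ T
    · rw [Set.indicator_of_mem hp, Set.indicator_of_mem (hmem.mp hp)]
      congr 1
      simp only [Equiv.prodCongr_apply, Prod.map_fst, Prod.map_snd,
        MulEquiv.toEquiv_eq_coe, EquivLike.coe_coe, MulAut.conj_apply, inv_inv]
      group
    · rw [Set.indicator_of_notMem hp, Set.indicator_of_notMem (fun h => hp (hmem.mpr h))]
  -- Step 2
  have step2 : ∑ p : G × G, T.indicator (fun p => Cfsg.indFun H φ (p.1 * p.2)) p
      = (Nat.card H : ℂ)⁻¹ * ((Nat.card G : ℂ) *
          ∑ p : G × G, T.indicator (fun p => Cfsg.extendByZero H φ (p.1 * p.2)) p) := by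
    have e1 : ∀ p : G × G, T.indicator (fun p => Cfsg.indFun H φ (p.1 * p.2)) p
        = (Nat.card H : ℂ)⁻¹ * ∑ x : G,
            T.indicator (fun p => Cfsg.extendByZero H φ (x⁻¹ * (p.1 * p.2) * x)) p := by
      intro p
      by_cases hp : p ∈ T
      · simp only [Set.indicator_of_mem hp]
        rfl
      · simp only [Set.indicator_of_notMem hp]
        simp
    simp only [e1]
    rw [← Finset.mul_sum, Finset.sum_comm]
    simp only [step1]
    rw [Finset.sum_const, Finset.card_univ, nsmul_eq_mul]
    simp only [Nat.card_eq_fintype_card]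
  -- Step 3
  have step3 : ∑ p : G × G, T.indicator (fun p => Cfsg.extendByZero H φ (p.1 * p.2)) p
      = ∑ p : H × H, T'.indicator (fun p => φ (p.1 * p.2)) p := by
    symm
    refine Fintype.sum_of_injective (fun p : H × H => ((p.1 : G), (p.2 : G))) ?_ _ _ ?_ ?_
    · intro p q hpq
      simp only [Prod.mk.injEq] at hpq
      exact Prod.ext (Subtype.ext hpq.1) (Subtype.ext hpq.2)
    · rintro ⟨a, b⟩ hq
      by_cases hp : (a, b) ∈ T
      · rw [Set.indicator_of_mem hp]
        obtain ⟨ha, hb⟩ := hp
        simp only at ha hb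
        by_cases hab : a * b ∈ H
        · by_cases habS : a * b ∈ S
          · exfalso
            apply hq
            have hainv : a⁻¹ = a := inv_eq_self_of_conj hu ha
            have hbinv : b⁻¹ = b := inv_eq_self_of_conj hv hb
            have haH : a ∈ H := by
              by_contra haH
              apply hTI a haH (a * b) habS
              have : a * (a * b) * a⁻¹ = (a * b)⁻¹ := by
                rw [mul_inv_rev, hainv, hbinv]
                have haa : a * a = 1 := by
                  nth_rewrite 1 [← hainv]; exact inv_mul_cancel a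
                rw [← mul_assoc, haa, one_mul]
              rw [this]
              exact hinv _ habS
            have hbH : b ∈ H := by
              have : b = a⁻¹ * (a * b) := by group
              rw [this]
              exact H.mul_mem (H.inv_mem haH) hab
            exact ⟨(⟨a, haH⟩, ⟨b, hbH⟩), rfl⟩
          · have := ebz_coe H φ ⟨a * b, hab⟩
            simp only at this
            rw [this]
            exact hφS ⟨a * b, hab⟩ habS
        · exact ebz_not_mem H φ hab
      · rw [Set.indicator_of_notMem hp]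
    · rintro ⟨a, b⟩
      by_cases hp : (a, b) ∈ T'
      · have hp' : ((a : G), (b : G)) ∈ T := hp
        rw [Set.indicator_of_mem hp, Set.indicator_of_mem hp']
        have := ebz_coe H φ (a * b)
        simp only [Subgroup.coe_mul] at this
        exact this.symm
      · have hp' : ((a : G), (b : G)) ∉ T := hp
        rw [Set.indicator_of_notMem hp, Set.indicator_of_notMem hp']
  rw [step2, step3, ← mul_assoc]
  congr 1
  have hcard : (Nat.card G : ℂ) = (H.index : ℂ) * (Nat.card H : ℂ) := by
    rw [← Nat.cast_mul, Subgroup.index_mul_card]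
  have hH : (Nat.card H : ℂ) ≠ 0 := by
    exact_mod_cast Nat.card_pos.ne'
  rw [hcard]
  field_simp

end Cfsg.Agent.S0849
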