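import Cfsg.Statements.S0850
import Mathlib

set_option autoImplicit false
open Cfsg

namespace Cfsg.Agent.S0850

theorem ebz_coe {G : Type*} [Group G] (H : Subgroup G) (θ : H → ℂ) (h : H) :
    Cfsg.extendByZero H θ (h : G) = θ h := by
  unfold Cfsg.extendByZero
  exact Subtype.val_injective.extend_apply θ 0 h

theorem ebz_mem {G : Type*} [Group G] (H : Subgroup G) (θ : H → ℂ) {g : G} (hg : g ∈ H) :
    Cfsg.extendByZero H θ g = θ ⟨g, hg⟩ := ebz_coe H θ ⟨g, hg⟩

theorem ebz_not_mem {G : Type*} [Group G] (H : Subgroup G) (θ : H → ℂ) {g : G} (hg : g ∉ H) :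
    Cfsg.extendByZero H θ g = 0 := by
  unfold Cfsg.extendByZero
  rw [Function.extend_apply']
  · rfl
  · rintro ⟨h, rfl⟩
    exact hg h.2

theorem sum_ebz_const {G : Type*} [Group G] [Fintype G] (H : Subgroup G) (c : ℂ) :
    ∑ g : G, Cfsg.extendByZero H (fun _ => c) g = (Nat.card H : ℂ) * c := by
  classical
  have h1 : ∀ g : G, Cfsg.extendByZero H (fun _ => c) g = if g ∈ H then c else 0 := by
    intro g
    by_cases hg : g ∈ H
    · rw [ebz_mem H _ hg, if_pos hg]
    · rw [ebz_not_mem H _ hg, if_neg hg]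
  simp only [h1]
  rw [Finset.sum_ite, Finset.sum_const, Finset.sum_const_zero, add_zero, nsmul_eq_mul]
  congr 2
  rw [Nat.card_eq_fintype_card, Fintype.card_subtype]

/-- prime order case of part one -/
theorem part1_prime {G : Type*} [Group G] [Fintype G] (K : Subgroup G)
    (hC : ∀ k ∈ K, k ≠ 1 → Subgroup.centralizer ({k} : Set G) ≤ K)
    (p : ℕ) (hp : p.Prime) (y : G) (hyN : y ∈ Subgroup.normalizer (K : Set G)) (hyK : y ∉ K)
    (hy : orderOf y = p) (g : G) : g * y * g⁻¹ ∉ K := by
  classical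
  intro hgy
  have : Fact p.Prime := ⟨hp⟩
  have hyinvN : y⁻¹ ∈ Subgroup.normalizer (K : Set G) := Subgroup.inv_mem _ hyN
  -- the conjugation map on K
  let f : Function.End K := fun k => ⟨y * k * y⁻¹, (Subgroup.mem_normalizer_iff.mp hyN k).mp k.2⟩
  have hfpow : ∀ (n : ℕ) (k : K), (((f ^ n) k : K) : G) = y ^ n * k * (y ^ n)⁻¹ := by
    intro n
    induction n with
    | zero =>
      intro k
      rw [pow_zero, pow_zero, inv_one, mul_one, one_mul]
      rfl
    | succ n ih =>
      intro k
      rw [pow_succ]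
      change (((f ^ n) (f k) : K) : G) = _
      rw [ih (f k)]
      change y ^ n * (y * k * y⁻¹) * (y ^ n)⁻¹ = _
      rw [pow_succ, mul_inv_rev]
      group
  have hf : f ^ p ^ 1 = 1 := by
    funext k
    apply Subtype.ext
    rw [hfpow, pow_one, ← hy, pow_orderOf_eq_one, inv_one, mul_one, one_mul]
    rfl
  have hmod := Equiv.Perm.card_fixedPoints_modEq (p := p) (n := 1) hf
  have hfix : Fintype.card (Function.fixedPoints f) = 1 := by
    rw [Fintype.card_eq_one_iff]
    refine ⟨⟨1, ?_⟩, ?_⟩
    · change f 1 = 1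
      apply Subtype.ext
      change y * 1 * y⁻¹ = 1
      group
    · rintro ⟨k, hk⟩
      apply Subtype.ext
      change k = 1
      by_contra hk1
      have hk1' : (k : G) ≠ 1 := fun h => hk1 (Subtype.ext h)
      have hyc : y ∈ Subgroup.centralizer ({(k : G)} : Set G) := by
        rw [Subgroup.mem_centralizer_singleton_iff]
        have h2 : y * k * y⁻¹ = k := congrArg Subtype.val hk
        calc y * (k : G) = (y * k * y⁻¹) * y := by group
          _ = k * y := by rw [h2]
      exact hyK (hC k k.2 hk1' hyc)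
  rw [hfix] at hmod
  -- p divides card K
  have hdvd : p ∣ Fintype.card K := by
    have h1 : orderOf (g * y * g⁻¹) = p := by
      have := (MulAut.conj g).orderOf_eq y
      rw [MulAut.conj_apply] at this
      rw [this, hy]
    have h2 : orderOf (⟨g * y * g⁻¹, hgy⟩ : K) = p := by
      rw [← h1, ← Subgroup.orderOf_coe]
    rw [← h2]
    exact orderOf_dvd_card
  have h0 : Fintype.card K ≡ 0 [MOD p] := (Nat.modEq_zero_iff_dvd).mpr hdvd
  have h01 : 0 ≡ 1 [MOD p] := h0.symm.trans hmod
  have : p ∣ 1 := (Nat.modEq_zero_iff_dvd).mp h01.symm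
  exact hp.one_lt.ne' (Nat.dvd_one.mp this)

theorem part1 {G : Type*} [Group G] [Fintype G] (K : Subgroup G)
    (hC : ∀ k ∈ K, k ≠ 1 → Subgroup.centralizer ({k} : Set G) ≤ K)
    (x : G) (hxN : x ∈ Subgroup.normalizer (K : Set G)) (hxK : x ∉ K) (g : G) :
    g * x * g⁻¹ ∉ K := by
  intro hgx
  have hx1 : x ≠ 1 := fun h => hxK (h ▸ K.one_mem)
  have hm1 : orderOf x ≠ 1 := fun h => hx1 (orderOf_eq_one_iff.mp h)
  have hm0 : orderOf x ≠ 0 := (orderOf_pos x).ne'
  obtain ⟨p, hp, hpm⟩ := Nat.exists_prime_and_dvd hm1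
  set y := x ^ (orderOf x / p) with hy
  have hyo : orderOf y = p := orderOf_pow_orderOf_div hm0 hpm
  have hyN : y ∈ Subgroup.normalizer (K : Set G) := Subgroup.pow_mem _ hxN _
  have hy1 : y ≠ 1 := by
    intro h
    rw [h, orderOf_one] at hyo
    exact hp.one_lt.ne' hyo.symm
  have hyK : y ∉ K := by
    intro hyK
    apply hxK
    apply hC y hyK hy1
    rw [Subgroup.mem_centralizer_singleton_iff]
    rw [hy, ← pow_succ, ← pow_succ']
  apply part1_prime K hC p hp y hyN hyK hyo g
  have : g * y * g⁻¹ = (g * x * g⁻¹) ^ (orderOf x / p) := by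
    rw [hy, conj_pow]
  rw [this]
  exact K.pow_mem hgx _

/-- Let K be a subgroup of the finite group G that meets each conjugate by an element outside its normalizer N trivially, is properly contained in N, and contains the centralizer of each of its non-identity elements (a T.I. subgroup with Frobenius normalizer). Then no element of N outside K is conjugate in G to an element of K, and for every class function ϑ of N that vanishes on N away from K and at the identity, the function induced from ϑ to G agrees with ϑ on all of N. -/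
theorem result {G : Type*} [Group G] [Fintype G] (K : Subgroup G) (hTI : ∀ g : G, g ∉ Subgroup.normalizer (K : Set G) → ∀ k ∈ K, g * k * g⁻¹ ∈ K → k = 1) (hlt : K < Subgroup.normalizer (K : Set G)) (hC : ∀ k ∈ K, k ≠ 1 → Subgroup.centralizer ({k} : Set G) ≤ K) : (∀ x ∈ Subgroup.normalizer (K : Set G), x ∉ K → ∀ g : G, g * x * g⁻¹ ∉ K) ∧ ∀ (ϑ : Subgroup.normalizer (K : Set G) → ℂ), Cfsg.IsClassFunction (Subgroup.normalizer (K : Set G)) ϑ → (∀ x : Subgroup.normalizer (K : Set G), (x : G) ∉ K → ϑ x = 0) → ϑ 1 = 0 → ∀ x : Subgroup.normalizer (K : Set G), Cfsg.indFun (Subgroup.normalizer (K : Set G)) ϑ x = ϑ x := by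
  classical
  refine ⟨fun x hxN hxK g => part1 K hC x hxN hxK g, ?_⟩
  intro ϑ hϑ hϑ0 hϑ1 x
  have key : ∀ g : G, Cfsg.extendByZero (Subgroup.normalizer (K : Set G)) ϑ (g⁻¹ * (x : G) * g)
      = Cfsg.extendByZero (Subgroup.normalizer (K : Set G)) (fun _ => ϑ x) g := by
    intro g
    by_cases hg : g ∈ Subgroup.normalizer (K : Set G)
    · rw [ebz_mem _ _ hg]
      have hmem : g⁻¹ * (x : G) * g ∈ Subgroup.normalizer (K : Set G) :=
        Subgroup.mul_mem _ (Subgroup.mul_mem _ (Subgroup.inv_mem _ hg) x.2) hg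
      rw [ebz_mem _ _ hmem]
      have := hϑ x (⟨g, hg⟩ : Subgroup.normalizer (K : Set G))⁻¹
      rw [← this]
      congr 1
      apply Subtype.ext
      simp
    · rw [ebz_not_mem _ _ hg]
      by_cases hmem : g⁻¹ * (x : G) * g ∈ Subgroup.normalizer (K : Set G)
      · rw [ebz_mem _ _ hmem]
        by_cases hK : g⁻¹ * (x : G) * g ∈ K
        · by_cases hxK : (x : G) ∈ K
          · have hginv : g⁻¹ ∉ Subgroup.normalizer (K : Set G) :=
              fun h => hg (by simpa using Subgroup.inv_mem _ h)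
            have hx1 : (x : G) = 1 := hTI g⁻¹ hginv x hxK (by simpa using hK)
            have : (⟨g⁻¹ * (x : G) * g, hmem⟩ : Subgroup.normalizer (K : Set G)) = 1 := by
              apply Subtype.ext
              simp [hx1]
            rw [this, hϑ1]
          · exfalso
            have := part1 K hC x x.2 hxK g⁻¹
            rw [inv_inv] at this
            exact this hK
        · exact hϑ0 ⟨_, hmem⟩ hK
      · exact ebz_not_mem _ _ hmem
  unfold Cfsg.indFun
  simp only [key]
  rw [sum_ebz_const]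
  have hcard : (Nat.card (Subgroup.normalizer (K : Set G)) : ℂ) ≠ 0 := by
    exact_mod_cast Nat.card_pos.ne'
  field_simp

end Cfsg.Agent.S0850
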