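import Cfsg.Statements.S0851
import Mathlib
import Cfsg.Agent.Helper14.Coherence2

set_option autoImplicit false
open Cfsg

namespace Cfsg.Agent.S0851

/-- Let K be a subgroup of the finite group G that meets each conjugate by an element outside its normalizer N trivially, is properly contained in N, and contains the centralizer of each of its non-identity elements (a T.I. subgroup with Frobenius normalizer). Suppose K is abelian, let e be the index of K in N, and call an irreducible character of N relevant when it takes at some element of K a value different from its degree. Then either there is exactly one relevant character and K is an elementary abelian p-group of order e + 1 for some prime p, or there are a sign ε and an injective map f from the relevant characters to the irreducible characters of G such that inducing χ - ξ to G gives ε (f χ - f ξ) for all relevant χ and ξ. -/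
theorem result {G : Type*} [Group G] [Fintype G] (K : Subgroup G) (hTI : ∀ g : G, g ∉ Subgroup.normalizer (K : Set G) → ∀ k ∈ K, g * k * g⁻¹ ∈ K → k = 1) (hlt : K < Subgroup.normalizer (K : Set G)) (hC : ∀ k ∈ K, k ≠ 1 → Subgroup.centralizer ({k} : Set G) ≤ K) (hab : ∀ a ∈ K, ∀ b ∈ K, a * b = b * a) : (Nat.card {χ : Cfsg.IrrCharacter (Subgroup.normalizer (K : Set G)) // ∃ k : Subgroup.normalizer (K : Set G), (k : G) ∈ K ∧ (χ : ↥(Subgroup.normalizer (K : Set G)) → ℂ) k ≠ (χ : ↥(Subgroup.normalizer (K : Set G)) → ℂ) 1} = 1 ∧ ∃ p : ℕ, p.Prime ∧ Cfsg.IsElementaryAbelian p K ∧ Nat.card K = (K.subgroupOf (Subgroup.normalizer (K : Set G))).index + 1) ∨ ∃ (ε : ℂ) (f : {χ : Cfsg.IrrCharacter (Subgroup.normalizer (K : Set G)) // ∃ k : Subgroup.normalizer (K : Set G), (k : G) ∈ K ∧ (χ : ↥(Subgroup.normalizer (K : Set G)) → ℂ) k ≠ (χ : ↥(Subgroup.normalizer (K : Set G)) → ℂ) 1} → Cfsg.IrrCharacter G), (ε = 1 ∨ ε = -1) ∧ Function.Injective f ∧ ∀ χ ξ, Cfsg.indFun (Subgroup.normalizer (K : Set G)) ((χ.1 :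 ↥(Subgroup.normalizer (K : Set G)) → ℂ) - (ξ.1 : ↥(Subgroup.normalizer (K : Set G)) → ℂ)) = ε • ((f χ : G → ℂ) - (f ξ : G → ℂ)) := by
  classical
  haveI : Fintype ↥(Subgroup.normalizer (K : Set G)) := Fintype.ofFinite _
  right
  by_cases hcard : Nat.card {χ : Cfsg.IrrCharacter (Subgroup.normalizer (K : Set G)) //
      ∃ k : Subgroup.normalizer (K : Set G), (k : G) ∈ K ∧
        (χ : ↥(Subgroup.normalizer (K : Set G)) → ℂ) k
          ≠ (χ : ↥(Subgroup.normalizer (K : Set G)) → ℂ) 1} ≤ 1
  · have hsub : Subsingleton {χ : Cfsg.IrrCharacter (Subgroup.normalizer (K : Set G)) //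
      ∃ k : Subgroup.normalizer (K : Set G), (k : G) ∈ K ∧
        (χ : ↥(Subgroup.normalizer (K : Set G)) → ℂ) k
          ≠ (χ : ↥(Subgroup.normalizer (K : Set G)) → ℂ) 1} :=
      Finite.card_le_one_iff_subsingleton.mp hcard
    refine ⟨1, fun _ => Cfsg.Agent.Helper79.trivIrr G, Or.inl rfl, ?_, ?_⟩
    · intro a b _
      exact Subsingleton.elim a b
    · intro χ ξ
      rw [Subsingleton.elim χ ξ, Cfsg.Agent.Helper3.indFun_sub, sub_self, sub_self, smul_zero]
  · push Not at hcard
    obtain ⟨S, hS⟩ : ∃ S : Set (↥(Subgroup.normalizer (K : Set G)) → ℂ),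
        S = {χ : ↥(Subgroup.normalizer (K : Set G)) → ℂ |
          IsIrrCharacter ↥(Subgroup.normalizer (K : Set G)) χ ∧
            ∃ k : ↥(Subgroup.normalizer (K : Set G)), (k : G) ∈ K ∧ χ k ≠ χ 1} := ⟨_, rfl⟩
    have eqv := Finite.equivFin {χ : Cfsg.IrrCharacter (Subgroup.normalizer (K : Set G)) //
      ∃ k : Subgroup.normalizer (K : Set G), (k : G) ∈ K ∧
        (χ : ↥(Subgroup.normalizer (K : Set G)) → ℂ) k
          ≠ (χ : ↥(Subgroup.normalizer (K : Set G)) → ℂ) 1}
    have hmemS : ∀ i, ((eqv.symm i).1 : ↥(Subgroup.normalizer (K : Set G)) → ℂ) ∈ S := by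
      intro i
      rw [hS]
      exact ⟨(eqv.symm i).1.2, (eqv.symm i).2⟩
    have hdeg : ∀ i, ((eqv.symm i).1 : ↥(Subgroup.normalizer (K : Set G)) → ℂ) 1
        = ((K.subgroupOf (Subgroup.normalizer (K : Set G))).index : ℂ) := by
      intro i
      rw [Cfsg.Agent.Helper80.irr_one_eq (eqv.symm i).1,
        Cfsg.Agent.Helper14.Coh.degree_eq_index K S hC hab hS (hmemS i)]
    obtain ⟨ε, hε, θ, hθirr, hθinj, hθ⟩ := Cfsg.Agent.Helper3.exceptional_characters (K : Set G)
      hTI _ hcard (fun i => ((eqv.symm i).1 : ↥(Subgroup.normalizer (K : Set G)) → ℂ))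
      (fun i => (eqv.symm i).1.2)
      (fun i j h => eqv.symm.injective (Subtype.ext (Subtype.ext h)))
      (fun i x hx => Cfsg.Agent.Helper14.Coh.vanish_off K hC _ (eqv.symm i).1.2
        (eqv.symm i).2 x hx)
      (fun i j => by rw [hdeg i, hdeg j])
    refine ⟨ε, fun r => ⟨θ (eqv r), hθirr _⟩, hε, ?_, ?_⟩
    · intro a b h
      exact eqv.injective (hθinj (congrArg Subtype.val h))
    · intro χ ξ
      rw [Cfsg.Agent.Helper3.indFun_sub]
      have h := hθ (eqv χ) (eqv ξ)
      simp only [Equiv.symm_apply_apply] at h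
      exact h

end Cfsg.Agent.S0851
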