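import Cfsg.Statements.S0852
import Mathlib
import Cfsg.Agent.Helper14.Coherence

set_option autoImplicit false
open Cfsg

namespace Cfsg.Agent.S0852

/-- Let K be a subgroup of the finite group G that meets each conjugate by an element outside its normalizer N trivially, is properly contained in N, and contains the centralizer of each of its non-identity elements (a T.I. subgroup with Frobenius normalizer). Let S be the set of irreducible characters of N taking at some element of K a value different from their degree, suppose S has at least two members, and let star be a linear isometry on the integer span of S into the generalized characters of G that agrees with induction on the members vanishing at the identity (so S is coherent, with star as the extending isometry). Then an irreducible character ψ of G is of the form star χ or -star χ for some χ in S if and only if ψ is not constant on the non-identity elements of K. -/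
theorem result {G : Type*} [Group G] [Fintype G] (K : Subgroup G) (hTI : ∀ g : G, g ∉ Subgroup.normalizer (K : Set G) → ∀ k ∈ K, g * k * g⁻¹ ∈ K → k = 1) (hlt : K < Subgroup.normalizer (K : Set G)) (hC : ∀ k ∈ K, k ≠ 1 → Subgroup.centralizer ({k} : Set G) ≤ K) [Fintype ↥(Subgroup.normalizer (K : Set G))] (S : Set (↥(Subgroup.normalizer (K : Set G)) → ℂ)) (hS : S = {χ : ↥(Subgroup.normalizer (K : Set G)) → ℂ | Cfsg.IsIrrCharacter ↥(Subgroup.normalizer (K : Set G)) χ ∧ ∃ k : ↥(Subgroup.normalizer (K : Set G)), (k : G) ∈ K ∧ χ k ≠ χ 1}) (htwo : ∃ χ ∈ S, ∃ ξ ∈ S, χ ≠ ξ) (star : (↥(Subgroup.normalizer (K : Set G)) → ℂ) → (G → ℂ)) (hstar : Cfsg.IsLinearIsometryOn (Cfsg.zspan S) star) (hext : ∀ α ∈ Cfsg.zspanOn S ({1}ᶜ : Set ↥(Subgroup.normalizer (K : Set G))), star α = Cfsg.indFun (Subgroup.normalizer (K : Set G)) α) (ψ : G → ℂ) (hψ : Cfsg.IsIrrCharacter G ψ) : (∃ χ ∈ S, ψ = star χ ∨ ψ = -star χ) ↔ ∃ a ∈ K, ∃ b ∈ K, a ≠ 1 ∧ b ≠ 1 ∧ ψ a ≠ ψ b := by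
  classical
  haveI : Fintype (IrrCharacter ↥(Subgroup.normalizer (K : Set G))) := Fintype.ofFinite _
  have hirr : ∀ χ ∈ S, IsIrrCharacter ↥(Subgroup.normalizer (K : Set G)) χ := by
    intro χ hχ
    rw [hS] at hχ
    exact hχ.1
  obtain ⟨χa, hχa, χb, hχb, hab⟩ := htwo
  constructor
  · rintro ⟨χ₀, hχ₀, hψeq⟩
    obtain ⟨D, -, -, hval⟩ := Cfsg.Agent.Helper14.Coh.star_apply K S hS star hstar hext hχ₀
    obtain ⟨ξ, hξ, hξne⟩ : ∃ ξ ∈ S, ξ ≠ χ₀ := by
      by_cases h : χa = χ₀
      · exact ⟨χb, hχb, fun h' => hab (h.trans h'.symm)⟩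
      · exact ⟨χa, hχa, h⟩
    obtain ⟨a, b, haK, hbK, ha1, hb1, hne⟩ :=
      Cfsg.Agent.Helper14.Coh.nonconst K S hC hS hχ₀ hξ hξne
    refine ⟨a, haK, b, hbK, fun h => ha1 (Subtype.ext h), fun h => hb1 (Subtype.ext h), ?_⟩
    have h1 := hval a haK ha1
    have h2 := hval b hbK hb1
    rcases hψeq with h | h
    · rw [h, h1, h2]
      intro h3
      apply hne
      linear_combination h3
    · rw [h]
      simp only [Pi.neg_apply]
      rw [h1, h2]
      intro h3
      apply hne
      linear_combination (-1 : ℂ) * h3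
  · rintro ⟨a, haK, b, hbK, ha1, hb1, hne⟩
    by_contra hcon
    push Not at hcon
    have hzero : ∀ χ ∈ S, classInner (star χ) ψ = 0 := by
      intro χ hχ
      have hgen := hstar.2.2.2 χ (Submodule.subset_span hχ)
      have hnorm : classInner (star χ) (star χ) = 1 := by
        rw [hstar.2.2.1 χ (Submodule.subset_span hχ) χ (Submodule.subset_span hχ)]
        exact Cfsg.Agent.Helper15.irr_inner_self (hirr χ hχ)
      obtain ⟨ξ, hξ | hξ⟩ := Cfsg.Agent.Helper4.genChar_norm_one hgen hnorm
      · rw [hξ]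
        apply Cfsg.Agent.Helper15.irr_inner_ne ξ.2 hψ
        intro h
        exact (hcon χ hχ).1 (by rw [hξ, h])
      · have h0 : classInner (ξ : G → ℂ) ψ = 0 :=
          Cfsg.Agent.Helper15.irr_inner_ne ξ.2 hψ
            (fun h => (hcon χ hχ).2 (by rw [hξ, neg_neg, h]))
        rw [hξ, show (-(ξ : G → ℂ)) = (-1 : ℂ) • (ξ : G → ℂ) by simp,
          Cfsg.Agent.Helper15.classInner_smul_left, h0, mul_zero]
    obtain ⟨D, -, hval⟩ := Cfsg.Agent.Helper14.Coh.restrict_formula K S hS star hstar hext
      ⟨χa, hχa⟩ ψ (Cfsg.Agent.Helper79.isCharacter_isClassFunction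
        (Cfsg.Agent.Helper79.isCharacter_of_irr hψ))
    have hN : ∀ x ∈ K, x ∈ Subgroup.normalizer (K : Set G) :=
      fun x hx => Subgroup.le_normalizer hx
    have h1 := hval ⟨a, hN a haK⟩ haK (fun h => ha1 (congrArg Subtype.val h))
    have h2 := hval ⟨b, hN b hbK⟩ hbK (fun h => hb1 (congrArg Subtype.val h))
    have hs : ∀ k : ↥(Subgroup.normalizer (K : Set G)),
        ∑ θ : IrrCharacter ↥(Subgroup.normalizer (K : Set G)),
          (if (θ : ↥(Subgroup.normalizer (K : Set G)) → ℂ) ∈ S then
            (starRingEnd ℂ) (classInner (star (θ : ↥(Subgroup.normalizer (K : Set G)) → ℂ)) ψ) *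
              (θ : ↥(Subgroup.normalizer (K : Set G)) → ℂ) k else 0) = 0 := by
      intro k
      apply Finset.sum_eq_zero
      intro θ _
      split_ifs with hθ
      · rw [hzero _ hθ, map_zero, zero_mul]
      · rfl
    rw [hs] at h1 h2
    exact hne (h1.trans h2.symm)

end Cfsg.Agent.S0852
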