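import Cfsg.Statements.S0853
import Mathlib
import Cfsg.Agent.Helper14.Coherence

set_option autoImplicit false
open Cfsg

namespace Cfsg.Agent.S0853

/-- Let K be a subgroup of the finite group G that meets each conjugate by an element outside its normalizer N trivially, is properly contained in N, and contains the centralizer of each of its non-identity elements (a T.I. subgroup with Frobenius normalizer). Let S be the set of irreducible characters of N taking at some element of K a value different from their degree, suppose S has at least two members, and let star be a linear isometry on the integer span of S into the generalized characters of G that agrees with induction on the members vanishing at the identity (so S is coherent, with star as the extending isometry). Then there is a single integer m such that star χ k - χ k = m * χ 1 / e for every χ in S and every non-identity element k of K, where e is the index of K in N. -/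
theorem result {G : Type*} [Group G] [Fintype G] (K : Subgroup G) (hTI : ∀ g : G, g ∉ Subgroup.normalizer (K : Set G) → ∀ k ∈ K, g * k * g⁻¹ ∈ K → k = 1) (hlt : K < Subgroup.normalizer (K : Set G)) (hC : ∀ k ∈ K, k ≠ 1 → Subgroup.centralizer ({k} : Set G) ≤ K) [Fintype ↥(Subgroup.normalizer (K : Set G))] (S : Set (↥(Subgroup.normalizer (K : Set G)) → ℂ)) (hS : S = {χ : ↥(Subgroup.normalizer (K : Set G)) → ℂ | Cfsg.IsIrrCharacter ↥(Subgroup.normalizer (K : Set G)) χ ∧ ∃ k : ↥(Subgroup.normalizer (K : Set G)), (k : G) ∈ K ∧ χ k ≠ χ 1}) (htwo : ∃ χ ∈ S, ∃ ξ ∈ S, χ ≠ ξ) (star : (↥(Subgroup.normalizer (K : Set G)) → ℂ) → (G → ℂ)) (hstar : Cfsg.IsLinearIsometryOn (Cfsg.zspan S) star) (hext : ∀ α ∈ Cfsg.zspanOn S ({1}ᶜ : Set ↥(Subgroup.normalizer (K : Set G))), star α = Cfsg.indFun (Subgroup.normalizer (K : Set G)) α) : ∃ m : ℤ, ∀ χ ∈ S, ∀ k : ↥(Subgroup.normalizer (K : Set G)), (k : G) ∈ K → k ≠ 1 → star χ k - χ k = (m : ℂ) * χ 1 / ((K.subgroupOf (Subgroup.normalizer (K : Set G))).index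 : ℂ) := by
  classical
  haveI : Fintype (IrrCharacter ↥(Subgroup.normalizer (K : Set G))) := Fintype.ofFinite _
  have hirr : ∀ χ ∈ S, IsIrrCharacter ↥(Subgroup.normalizer (K : Set G)) χ := by
    intro χ hχ
    rw [hS] at hχ
    exact hχ.1
  have hdeg : ∀ χ ∈ S, χ 1 = (charDegree χ : ℂ) := fun χ hχ =>
    Cfsg.Agent.Helper80.isCharacter_one_eq (Cfsg.Agent.Helper79.isCharacter_of_irr (hirr χ hχ))
  have hposN : ∀ χ ∈ S, 0 < charDegree χ := fun χ hχ =>
    Cfsg.Agent.Helper80.irr_degree_pos ⟨χ, hirr χ hχ⟩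
  have hpos : ∀ χ ∈ S, (charDegree χ : ℂ) ≠ 0 := by
    intro χ hχ
    have := hposN χ hχ
    exact_mod_cast this.ne'
  obtain ⟨χ₁, hχ₁, -, -, -⟩ := htwo
  obtain ⟨k₀, hk₀K, hk₀ne⟩ : ∃ k₀ : ↥(Subgroup.normalizer (K : Set G)),
      (k₀ : G) ∈ K ∧ k₀ ≠ 1 := by
    have h := hχ₁
    rw [hS] at h
    obtain ⟨k, hkK, hne⟩ := h.2
    exact ⟨k, hkK, fun h' => hne (by rw [h'])⟩
  -- the divisibility property
  have hP : ∀ γ : ℕ, (∀ d, (∃ χ ∈ S, charDegree χ = d) → γ ∣ d) →
      γ ∣ (K.subgroupOf (Subgroup.normalizer (K : Set G))).index := by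
    intro γ hγ
    have h1 : γ ∣ Nat.card (K.subgroupOf (Subgroup.normalizer (K : Set G))) *
        (K.subgroupOf (Subgroup.normalizer (K : Set G))).index := by
      rw [Subgroup.card_mul_index]
      exact dvd_trans (hγ _ ⟨χ₁, hχ₁, rfl⟩)
        (Cfsg.Agent.Helper79.isIrrCharacter_charDegree_dvd_card (hirr χ₁ hχ₁))
    have h2 : γ ^ 2 ∣ ∑ θ : IrrCharacter ↥(Subgroup.normalizer (K : Set G)),
        (if (θ : ↥(Subgroup.normalizer (K : Set G)) → ℂ) ∈ S then
          charDegree (θ : ↥(Subgroup.normalizer (K : Set G)) → ℂ) ^ 2 else 0) := by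
      apply Finset.dvd_sum
      intro θ _
      by_cases hθ : (θ : ↥(Subgroup.normalizer (K : Set G)) → ℂ) ∈ S
      · rw [if_pos hθ]
        exact pow_dvd_pow_of_dvd (hγ _ ⟨θ, hθ, rfl⟩) 2
      · rw [if_neg hθ]
        exact dvd_zero _
    have hE := Cfsg.Agent.Helper14.Coh.sum_nonS_sq K S hS
    have hE' : ∑ θ : IrrCharacter ↥(Subgroup.normalizer (K : Set G)),
        (if (θ : ↥(Subgroup.normalizer (K : Set G)) → ℂ) ∈ S then 0 else
          charDegree (θ : ↥(Subgroup.normalizer (K : Set G)) → ℂ) ^ 2)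
        = (K.subgroupOf (Subgroup.normalizer (K : Set G))).index := by
      apply Nat.cast_injective (R := ℂ)
      rw [← hE]
      push_cast
      apply Finset.sum_congr rfl
      intro θ _
      split_ifs
      · rfl
      · rw [Cfsg.Agent.Helper80.irr_one_eq θ, sq]
    have h3 : (∑ θ : IrrCharacter ↥(Subgroup.normalizer (K : Set G)),
        (if (θ : ↥(Subgroup.normalizer (K : Set G)) → ℂ) ∈ S then
          charDegree (θ : ↥(Subgroup.normalizer (K : Set G)) → ℂ) ^ 2 else 0))
        + (K.subgroupOf (Subgroup.normalizer (K : Set G))).index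
        = Nat.card (K.subgroupOf (Subgroup.normalizer (K : Set G))) *
          (K.subgroupOf (Subgroup.normalizer (K : Set G))).index := by
      rw [Subgroup.card_mul_index, Nat.card_eq_fintype_card,
        ← Cfsg.Agent.Helper80.irr_sum_charDegree_sq]
      conv_lhs => rw [← hE']
      rw [← Finset.sum_add_distrib]
      apply Finset.sum_congr rfl
      intro θ _
      split_ifs <;> simp
    exact Cfsg.Agent.Helper14.Coh.nat_dvd_aux γ _ _ _ Nat.card_pos h1 h2 h3
  -- integrality of the differences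
  have hz : ∀ χ ∈ S, ∃ z : ℤ, ∀ k : ↥(Subgroup.normalizer (K : Set G)),
      (k : G) ∈ K → k ≠ 1 → star χ k - χ k = z := by
    intro χ hχ
    obtain ⟨D, hD1, hD2, hval⟩ := Cfsg.Agent.Helper14.Coh.star_apply K S hS star hstar hext hχ
    have hgenN : IsGeneralizedCharacter ↥(Subgroup.normalizer (K : Set G))
        (fun n : ↥(Subgroup.normalizer (K : Set G)) => star χ n) :=
      Cfsg.Agent.Helper14.Coh.genChar_restrict (hstar.2.2.2 χ (Submodule.subset_span hχ)) _
    have hDint : ∀ d, (∃ χ' ∈ S, charDegree χ' = d) → ∃ z : ℤ, D * (d : ℂ) = z := by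
      rintro d ⟨χ', hχ', rfl⟩
      obtain ⟨z, hz⟩ := Cfsg.Agent.Helper14.Coh.genChar_inner_int' hgenN
        (Cfsg.Agent.Helper79.isCharacter_of_irr (hirr χ' hχ'))
      by_cases hne : χ' = χ
      · subst hne
        refine ⟨z - 1, ?_⟩
        rw [← hdeg χ' hχ', ← hD2, hz]
        push_cast
        ring
      · refine ⟨z, ?_⟩
        rw [← hdeg χ' hχ', ← hD1 χ' hχ' hne, hz]
    obtain ⟨m, hm⟩ := Cfsg.Agent.Helper14.Coh.int_ideal_aux D _ _ hP hDint
    have hconj : (starRingEnd ℂ) D = D := by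
      obtain ⟨z, hz⟩ := hDint _ ⟨χ, hχ, rfl⟩
      have hne := hpos χ hχ
      have hD : D = (z : ℂ) / (charDegree χ : ℂ) := by
        field_simp
        exact hz
      rw [hD]
      simp
    have hΛ : ∃ l : ℤ, ∑ θ : IrrCharacter ↥(Subgroup.normalizer (K : Set G)),
        (if (θ : ↥(Subgroup.normalizer (K : Set G)) → ℂ) ∈ S then 0 else
          classInner (fun n : ↥(Subgroup.normalizer (K : Set G)) => star χ n)
            (θ : ↥(Subgroup.normalizer (K : Set G)) → ℂ) *
            (θ : ↥(Subgroup.normalizer (K : Set G)) → ℂ) 1) = l := by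
      have hall : ∀ θ : IrrCharacter ↥(Subgroup.normalizer (K : Set G)), ∃ l : ℤ,
          (if (θ : ↥(Subgroup.normalizer (K : Set G)) → ℂ) ∈ S then (0 : ℂ) else
            classInner (fun n : ↥(Subgroup.normalizer (K : Set G)) => star χ n)
              (θ : ↥(Subgroup.normalizer (K : Set G)) → ℂ) *
              (θ : ↥(Subgroup.normalizer (K : Set G)) → ℂ) 1) = l := by
        intro θ
        by_cases hθ : (θ : ↥(Subgroup.normalizer (K : Set G)) → ℂ) ∈ S
        · exact ⟨0, by rw [if_pos hθ]; simp⟩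
        · obtain ⟨z, hz⟩ := Cfsg.Agent.Helper14.Coh.genChar_inner_int hgenN
            (Cfsg.Agent.Helper79.irr_isCharacter θ)
          exact ⟨z * charDegree (θ : ↥(Subgroup.normalizer (K : Set G)) → ℂ), by
            rw [if_neg hθ, hz, Cfsg.Agent.Helper80.irr_one_eq θ]
            push_cast
            ring⟩
      choose l hl using hall
      exact ⟨∑ θ, l θ, by
        push_cast
        exact Finset.sum_congr rfl (fun θ _ => hl θ)⟩
    obtain ⟨l, hl⟩ := hΛ
    refine ⟨l - m, ?_⟩
    intro k hkK hk1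
    rw [hval k hkK hk1, hconj, hm, hl]
    push_cast
    ring
  choose! z hz using hz
  have hrel : ∀ χ ∈ S, ∀ ξ ∈ S,
      (charDegree ξ : ℂ) * (z χ : ℂ) = (charDegree χ : ℂ) * (z ξ : ℂ) := by
    intro χ hχ ξ hξ
    have h := Cfsg.Agent.Helper14.Coh.comb_star_apply K S hTI hC hS star hstar hext hχ hξ
      k₀ hk₀K hk₀ne
    have h1 := hz χ hχ k₀ hk₀K hk₀ne
    have h2 := hz ξ hξ k₀ hk₀K hk₀ne
    rw [← h1, ← h2]
    linear_combination h
  have hcint : ∀ d, (∃ χ ∈ S, charDegree χ = d) →
      ∃ w : ℤ, ((z χ₁ : ℂ) / (charDegree χ₁ : ℂ)) * (d : ℂ) = w := by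
    rintro d ⟨χ, hχ, rfl⟩
    refine ⟨z χ, ?_⟩
    have h := hrel χ hχ χ₁ hχ₁
    have hne := hpos χ₁ hχ₁
    field_simp
    linear_combination (-1 : ℂ) * h
  obtain ⟨m, hm⟩ := Cfsg.Agent.Helper14.Coh.int_ideal_aux _ _ _ hP hcint
  refine ⟨m, ?_⟩
  intro χ hχ k hkK hk1
  have he : ((K.subgroupOf (Subgroup.normalizer (K : Set G))).index : ℂ) ≠ 0 := by
    have : (K.subgroupOf (Subgroup.normalizer (K : Set G))).index ≠ 0 :=
      Subgroup.index_ne_zero_of_finite
    exact_mod_cast this
  have h := hrel χ hχ χ₁ hχ₁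
  have hne := hpos χ₁ hχ₁
  rw [hz χ hχ k hkK hk1, ← hm, hdeg χ hχ]
  field_simp
  linear_combination h

end Cfsg.Agent.S0853
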