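import Cfsg.Statements.S0855
import Cfsg.Agent.Helper15.Thompson
import Cfsg.Agent.Helper15.RamGen
import Cfsg.Agent.Helper15.CharInner
import Cfsg.Agent.Helper79.ItoMichler
import Cfsg.Agent.Helper79.Abelian
import Cfsg.Agent.Helper79.Linear
import Cfsg.Agent.Helper79.Codegree

set_option autoImplicit false
open Cfsg

namespace Cfsg.Agent.S0855

open Cfsg.Agent.Helper15 in
/-- For a finite group G and a prime p: every irreducible character of G has degree a power of p if and only if G has an abelian normal subgroup whose order is prime to p and whose index is a power of p. -/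
theorem result {G : Type*} [Group G] [Finite G] (p : ℕ) (hp : p.Prime) : (∀ χ : Cfsg.IrrCharacter G, ∃ k : ℕ, (χ : G → ℂ) 1 = (p : ℂ) ^ k) ↔ ∃ A : Subgroup G, A.Normal ∧ (∀ a ∈ A, ∀ b ∈ A, a * b = b * a) ∧ Nat.Coprime (Nat.card A) p ∧ ∃ k : ℕ, A.index = p ^ k := by
  classical
  haveI : Fact p.Prime := ⟨hp⟩
  constructor
  · intro hdeg
    have hT : ∀ χ : G → ℂ, IsIrrCharacter G χ → ∀ d : ℕ, χ 1 = d → Nat.Coprime d p → d = 1 := by
      intro χ hχ d hd hc
      obtain ⟨k, hk⟩ := hdeg ⟨χ, hχ⟩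
      have h1 : d = p ^ k := by
        have h2 : (d : ℂ) = ((p ^ k : ℕ) : ℂ) := by
          rw [← hd]
          push_cast
          exact hk
        exact_mod_cast h2
      rw [h1] at hc ⊢
      rcases Nat.eq_zero_or_pos k with rfl | hkpos
      · simp
      · exfalso
        have h3 : Nat.Coprime p p := Nat.Coprime.coprime_dvd_left (dvd_pow_self p hkpos.ne') hc
        rw [Nat.coprime_self] at h3
        exact hp.ne_one h3
    obtain ⟨N, hNn, hcop, k, hk⟩ := thompson_normal_complement p hT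
    refine ⟨N, hNn, ?_, hcop, k, hk⟩
    haveI := hNn
    letI : Fintype G := Fintype.ofFinite G
    letI : Fintype N := Fintype.ofFinite N
    have hlin : ∀ ϑ : IrrCharacter N, charDegree (ϑ : N → ℂ) = 1 := by
      intro ϑ
      obtain ⟨χ, hχ, hne⟩ := Cfsg.Agent.Helper79.exists_irr_over_normal N ϑ.2
      obtain ⟨j, hj, hjdvd⟩ := degree_eq_mul_of_constituent N χ hχ ϑ.1 ϑ.2 hne
      obtain ⟨i, hi⟩ := hdeg ⟨χ, hχ⟩
      have h1 : p ^ i = j * charDegree (ϑ : N → ℂ) := by
        have h2 : ((p ^ i : ℕ) : ℂ) = ((j * charDegree (ϑ : N → ℂ) : ℕ) : ℂ) := by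
          push_cast
          rw [← hi, ← Cfsg.Agent.Helper80.irr_one_eq ϑ]
          exact hj
        exact_mod_cast h2
      have h2 : charDegree (ϑ : N → ℂ) ∣ p ^ i := ⟨j, by rw [h1, mul_comm]⟩
      have h3 : charDegree (ϑ : N → ℂ) ∣ Nat.card N :=
        Cfsg.Agent.Helper79.irr_charDegree_dvd_card ϑ
      have h4 : Nat.Coprime (Nat.card N) (p ^ i) := Nat.Coprime.pow_right i hcop
      exact Nat.eq_one_of_dvd_coprimes h4 h3 h2
    have hcomm : commutator N = ⊥ := by
      by_contra hne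
      obtain ⟨χ, hχ⟩ := Cfsg.Agent.Helper79.exists_nonlinear_of_commutator_ne_bot hne
      exact hχ (hlin χ)
    intro a ha b hb
    have h1 : (⟨a, ha⟩ : N) * ⟨b, hb⟩ * (⟨a, ha⟩ : N)⁻¹ * (⟨b, hb⟩ : N)⁻¹ ∈ commutator N :=
      Subgroup.commutator_mem_commutator (Subgroup.mem_top _) (Subgroup.mem_top _)
    rw [hcomm, Subgroup.mem_bot] at h1
    have h2 := mul_inv_eq_iff_eq_mul.mp (mul_inv_eq_one.mp h1)
    exact congrArg Subtype.val h2
  · rintro ⟨A, hAn, hAcomm, -, k, hk⟩ χ
    haveI := hAn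
    letI : Fintype G := Fintype.ofFinite G
    letI : Fintype A := Fintype.ofFinite A
    have hχc := isChar_of_irr χ.2
    have hres : IsClassFunction A (fun a : A => χ.1 a) := fun g h => by
      simpa using isClassFunction_of_isChar hχc (g : G) (h : G)
    have hne : (fun a : A => χ.1 a) ≠ 0 := by
      intro h0
      have h1 := congrFun h0 1
      exact Cfsg.Agent.Helper80.irr_one_ne_zero χ h1
    obtain ⟨ϑ, hϑ⟩ := exists_constituent hres hne
    obtain ⟨j, hj, hjdvd⟩ := degree_eq_mul_of_constituent A χ.1 χ.2 ϑ.1 ϑ.2 hϑ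
    have hϑ1 : charDegree (ϑ : A → ℂ) = 1 :=
      Cfsg.Agent.Helper79.irr_charDegree_eq_one_of_comm
        (fun a b => Subtype.ext (hAcomm a a.2 b b.2)) ϑ
    rw [hk] at hjdvd
    obtain ⟨i, -, hi⟩ := (Nat.dvd_prime_pow hp).mp hjdvd
    refine ⟨i, ?_⟩
    rw [hj, Cfsg.Agent.Helper80.irr_one_eq ϑ, hϑ1, hi]
    push_cast
    ring

end Cfsg.Agent.S0855
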