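import Cfsg.Statements.S0857
import Mathlib
import Cfsg.Agent.Helper4.GoingDown2

set_option autoImplicit false
open Cfsg

namespace Cfsg.Agent.S0857

open Cfsg.Agent.Helper75 Cfsg.Agent.Helper4 in
theorem aux {G : Type*} [Group G] [Fintype G] (K L : Subgroup G) [hK : K.Normal] [hLn : L.Normal]
    (hLK : L < K) (hchief : ∀ M : Subgroup G, M.Normal → L ≤ M → M ≤ K → M = L ∨ M = K)
    (hab : ⁅K, K⁆ ≤ L) (ϑ : K → ℂ) (hϑ : Cfsg.IsIrrCharacter K ϑ)
    (hinv : ∀ (g : G) (n : K), ϑ ⟨g * n * g⁻¹, hK.conj_mem (n : G) n.2 g⟩ = ϑ n) :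
    Cfsg.IsIrrCharacter L (resTo hLK.le ϑ) ∨
    (∃ (φ : L → ℂ) (e : ℕ), Cfsg.IsIrrCharacter L φ ∧ resTo hLK.le ϑ = (e : ℂ) • φ ∧
      e ^ 2 = L.relIndex K) ∨
    (∃ F : Finset (L → ℂ), (∀ φ ∈ F, Cfsg.IsIrrCharacter L φ) ∧ F.card = L.relIndex K ∧
      resTo hLK.le ϑ = ∑ φ ∈ F, φ) := by
  classical
  letI : Fintype ↥L := Fintype.ofFinite _
  letI : Fintype ↥K := Fintype.ofFinite _
  letI : Fintype (IrrCharacter ↥L) := Fintype.ofFinite _
  have hle : L ≤ K := hLK.le
  have hϑc : IsCharacter ↥K ϑ := Cfsg.Agent.Helper79.isCharacter_of_irr hϑ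
  have hΦchar : IsCharacter ↥L (resTo hle ϑ) := isCharacter_resTo hle hϑc
  have hΦ1 : resTo hle ϑ 1 ≠ 0 := by
    rw [resTo_apply]
    exact Cfsg.Agent.Helper81.irr_one_ne_zero (⟨ϑ, hϑ⟩ : IrrCharacter ↥K)
  obtain ⟨φ, hφ, hne⟩ := exists_irr_constituent hΦchar hΦ1
  set O : Finset (IrrCharacter ↥L) :=
    Finset.univ.filter (fun ψ : IrrCharacter ↥L => ∃ t ∈ K, (ψ : ↥L → ℂ) = conjFun L t φ) with hOdef
  have hO : ∀ ψ : IrrCharacter ↥L, ψ ∈ O ↔ ∃ t ∈ K, (ψ : ↥L → ℂ) = conjFun L t φ := by
    intro ψ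
    simp [hOdef]
  obtain ⟨e, he0, hdec, hcount⟩ := goingDown_decomp K L hle ϑ hϑ hinv φ hφ hne O hO
  have hle2 := sum_normSq_resTo_le hle ϑ
  have hKsum : ∑ k : ↥K, Complex.normSq (ϑ k) = (Nat.card ↥K : ℝ) := sum_normSq_of_irr hϑ
  -- index facts
  have hidx : Nat.card ↥L * L.relIndex K = Nat.card ↥K := by
    have h1 := Subgroup.card_mul_index (L.subgroupOf K)
    rw [Nat.card_congr (Subgroup.subgroupOfEquivOfLe hle).toEquiv] at h1
    exact h1
  have hLpos : 0 < Nat.card ↥L := Nat.card_pos
  have hφO : (⟨φ, hφ⟩ : IrrCharacter ↥L) ∈ O := (hO _).2 ⟨1, K.one_mem, (conjFun_one L φ).symm⟩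
  have hOpos : 0 < O.card := Finset.card_pos.2 ⟨_, hφO⟩
  -- the inertia group
  have hInorm : (K ⊓ inertia L φ).Normal :=
    goingDown_inertia_normal K L hle hab ϑ hϑ hinv φ hφ hne
  have hLT : L ≤ inertia L φ :=
    le_inertia L φ (isCharacter_isClassFunction' (Cfsg.Agent.Helper79.isCharacter_of_irr hφ))
  rcases hchief (K ⊓ inertia L φ) hInorm (le_inf hle hLT) inf_le_left with hI | hI
  · -- Case: inertia group in K is L.  Then `e = 1` and there are `|K:L|` conjugates.
    right; right
    have hfib : Nat.card ↥K ≤ Nat.card ↥L * O.card := by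
      let f : ↥K → IrrCharacter ↥L := fun t => ⟨conjFun L (t : G) φ, isIrrCharacter_conjFun L _ hφ⟩
      have h1 := Finset.card_le_mul_card_image (f := f) (Finset.univ : Finset ↥K) (Nat.card ↥L) (by
        intro b hb
        obtain ⟨t', -, rfl⟩ := Finset.mem_image.1 hb
        have hsub : (Finset.univ.filter (fun a : ↥K => f a = f t'))
            ⊆ (Finset.univ : Finset ↥L).image (fun l : ↥L => (⟨(l : G) * (t' : G),
                K.mul_mem (hle l.2) t'.2⟩ : ↥K)) := by
          intro a ha
          have hfa : f a = f t' := (Finset.mem_filter.1 ha).2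
          have hfa' : conjFun L (a : G) φ = conjFun L (t' : G) φ := congrArg Subtype.val hfa
          have hmem : (a : G) * (t' : G)⁻¹ ∈ K ⊓ inertia L φ := by
            refine ⟨K.mul_mem a.2 (K.inv_mem t'.2), ?_⟩
            show (a : G) * (t' : G)⁻¹ ∈ inertia L φ
            rw [mem_inertia, conjFun_mul, hfa', ← conjFun_mul, mul_inv_cancel, conjFun_one]
          rw [hI] at hmem
          refine Finset.mem_image.2 ⟨⟨(a : G) * (t' : G)⁻¹, hmem⟩, Finset.mem_univ _, ?_⟩
          apply Subtype.ext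
          simp
        calc (Finset.univ.filter (fun a : ↥K => f a = f t')).card
            ≤ ((Finset.univ : Finset ↥L).image (fun l : ↥L => (⟨(l : G) * (t' : G),
                K.mul_mem (hle l.2) t'.2⟩ : ↥K))).card := Finset.card_le_card hsub
          _ ≤ (Finset.univ : Finset ↥L).card := Finset.card_image_le
          _ = Nat.card ↥L := by rw [Finset.card_univ, Nat.card_eq_fintype_card])
      have h2 : (Finset.univ : Finset ↥K).image f ⊆ O := by
        intro ψ hψ
        obtain ⟨t, -, rfl⟩ := Finset.mem_image.1 hψ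
        exact (hO _).2 ⟨(t : G), t.2, rfl⟩
      calc Nat.card ↥K = (Finset.univ : Finset ↥K).card := by
            rw [Finset.card_univ, Nat.card_eq_fintype_card]
        _ ≤ Nat.card ↥L * ((Finset.univ : Finset ↥K).image f).card := h1
        _ ≤ Nat.card ↥L * O.card := Nat.mul_le_mul_left _ (Finset.card_le_card h2)
    have hnat : Nat.card ↥L * (e ^ 2 * O.card) ≤ Nat.card ↥K := by
      have : ((Nat.card ↥L * (e ^ 2 * O.card) : ℕ) : ℝ) ≤ ((Nat.card ↥K : ℕ) : ℝ) := by
        push_cast
        rw [hcount, ← hKsum]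
        exact hle2
      exact_mod_cast this
    have he1 : e = 1 := by
      have h3 : Nat.card ↥L * (e ^ 2 * O.card) ≤ Nat.card ↥L * (1 * O.card) := by
        rw [one_mul]
        exact hnat.trans hfib
      have h4 : e ^ 2 * O.card ≤ 1 * O.card := Nat.le_of_mul_le_mul_left h3 hLpos
      have h5 : e ^ 2 ≤ 1 := Nat.le_of_mul_le_mul_right h4 hOpos
      have h6 : e ≤ 1 := by nlinarith
      omega
    subst he1
    have hOcard : O.card = L.relIndex K := by
      have h3 : Nat.card ↥L * O.card = Nat.card ↥K := by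
        apply le_antisymm
        · simpa using hnat
        · exact hfib
      rw [← hidx] at h3
      exact Nat.eq_of_mul_eq_mul_left hLpos h3
    refine ⟨O.image (fun ψ : IrrCharacter ↥L => (ψ : ↥L → ℂ)), ?_, ?_, ?_⟩
    · intro ψ hψ
      obtain ⟨ψ', -, rfl⟩ := Finset.mem_image.1 hψ
      exact ψ'.2
    · rw [Finset.card_image_of_injective _ Subtype.val_injective, hOcard]
    · rw [Finset.sum_image (fun a _ b _ h => Subtype.val_injective h), hdec]
      apply Finset.sum_congr rfl
      intro ψ _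
      simp
  · -- Case: `φ` is `K`-invariant.
    have hKT : K ≤ inertia L φ := by
      intro x hx
      have : x ∈ K ⊓ inertia L φ := by rw [hI]; exact hx
      exact this.2
    have hOeq : O = {(⟨φ, hφ⟩ : IrrCharacter ↥L)} := by
      ext ψ
      rw [hO, Finset.mem_singleton]
      constructor
      · rintro ⟨t, ht, hψ⟩
        apply Subtype.ext
        rw [hψ]
        exact (mem_inertia L φ t).1 (hKT ht)
      · rintro rfl
        exact ⟨1, K.one_mem, (conjFun_one L φ).symm⟩
    rw [hOeq] at hdec hcount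
    rw [Finset.sum_singleton] at hdec
    rw [Finset.card_singleton] at hcount
    -- the support subgroup
    let S : Set G := {x | x ∈ L ∨ ∃ h : x ∈ K, ϑ ⟨x, h⟩ ≠ 0}
    have hSconj : ∀ x ∈ S, ∀ g : G, g * x * g⁻¹ ∈ S := by
      rintro x (hx | ⟨hx, hx0⟩) g
      · exact Or.inl (hLn.conj_mem x hx g)
      · refine Or.inr ⟨hK.conj_mem x hx g, ?_⟩
        rw [hinv g ⟨x, hx⟩]
        exact hx0
    have hSK : S ⊆ (K : Set G) := by
      rintro x (hx | ⟨hx, -⟩)
      · exact hle hx
      · exact hx
    have hYL : L ≤ Subgroup.normalClosure S :=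
      fun x hx => Subgroup.subset_normalClosure (Or.inl hx)
    have hYK : Subgroup.normalClosure S ≤ K := Subgroup.normalClosure_le_normal hSK
    have hYcl : Subgroup.normalClosure S ≤ Subgroup.closure S := by
      unfold Subgroup.normalClosure
      apply Subgroup.closure_mono
      intro a ha
      obtain ⟨b, hb, hconj⟩ := Group.mem_conjugatesOfSet_iff.1 ha
      obtain ⟨c, hc⟩ := isConj_iff.1 hconj
      rw [← hc]
      exact hSconj b hb c
    rcases hchief (Subgroup.normalClosure S) Subgroup.normalClosure_normal hYL hYK with hY | hY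
    · -- `ϑ` vanishes off `L`.
      right; left
      have hvan : ∀ k : ↥K, (k : G) ∉ L → ϑ k = 0 := by
        intro k hk
        by_contra h0
        apply hk
        rw [← hY]
        exact Subgroup.subset_normalClosure (Or.inr ⟨k.2, h0⟩)
      have heq := sum_normSq_resTo_eq hle ϑ hvan
      rw [heq, hKsum] at hcount
      refine ⟨φ, e, hφ, hdec, ?_⟩
      have h1 : Nat.card ↥L * e ^ 2 = Nat.card ↥L * L.relIndex K := by
        rw [hidx]
        have : ((Nat.card ↥L * e ^ 2 : ℕ) : ℝ) = ((Nat.card ↥K : ℕ) : ℝ) := by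
          push_cast
          rw [← hcount]
          ring
        exact_mod_cast this
      exact Nat.eq_of_mul_eq_mul_left hLpos h1
    · -- no nontrivial twist fixes `ϑ`
      left
      set N : Subgroup ↥K := L.subgroupOf K with hN
      letI : Fintype ↥N := Fintype.ofFinite _
      have hQ : ∀ a b : ↥K ⧸ N, a * b = b * a := by
        intro a b
        obtain ⟨a, rfl⟩ := QuotientGroup.mk_surjective a
        obtain ⟨b, rfl⟩ := QuotientGroup.mk_surjective b
        rw [← QuotientGroup.mk_mul, ← QuotientGroup.mk_mul, QuotientGroup.eq]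
        rw [hN, Subgroup.mem_subgroupOf]
        have hc : (a : G)⁻¹ * (b : G) * ((a : G)⁻¹)⁻¹ * (b : G)⁻¹ ∈ L :=
          hab (Subgroup.commutator_mem_commutator (K.inv_mem a.2) b.2)
        have : (((a * b)⁻¹ * (b * a) : ↥K) : G)
            = (b : G)⁻¹ * ((a : G)⁻¹ * (b : G) * ((a : G)⁻¹)⁻¹ * (b : G)⁻¹) * ((b : G)⁻¹)⁻¹ := by
          push_cast
          group
        rw [this]
        exact hLn.conj_mem _ hc _
      have hfree : ∀ μ : (↥K ⧸ N) →* ℂˣ,
          (∀ k : ↥K, ((μ (QuotientGroup.mk k) : ℂˣ) : ℂ) * ϑ k = ϑ k) → μ = 1 := by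
        intro μ hμ
        have hSM : S ⊆ ((μ.comp (QuotientGroup.mk' N)).ker.map K.subtype : Set G) := by
          rintro x (hx | ⟨hx, hx0⟩)
          · refine ⟨⟨x, hle hx⟩, ?_, rfl⟩
            show (μ.comp (QuotientGroup.mk' N)) ⟨x, hle hx⟩ = 1
            rw [MonoidHom.comp_apply, QuotientGroup.mk'_apply]
            have : (QuotientGroup.mk (⟨x, hle hx⟩ : ↥K) : ↥K ⧸ N) = 1 := by
              rw [QuotientGroup.eq_one_iff, hN, Subgroup.mem_subgroupOf]
              exact hx
            rw [this, map_one]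
          · refine ⟨⟨x, hx⟩, ?_, rfl⟩
            show (μ.comp (QuotientGroup.mk' N)) ⟨x, hx⟩ = 1
            rw [MonoidHom.comp_apply, QuotientGroup.mk'_apply]
            have h1 := hμ ⟨x, hx⟩
            have h2 : ((μ (QuotientGroup.mk (⟨x, hx⟩ : ↥K)) : ℂˣ) : ℂ) = 1 := by
              have h3 : (((μ (QuotientGroup.mk (⟨x, hx⟩ : ↥K)) : ℂˣ) : ℂ) - 1) * ϑ ⟨x, hx⟩ = 0 := by
                rw [sub_mul, h1, one_mul, sub_self]
              rcases mul_eq_zero.1 h3 with h4 | h4
              · exact sub_eq_zero.1 h4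
              · exact absurd h4 hx0
            exact Units.ext h2
        have hKM : K ≤ (μ.comp (QuotientGroup.mk' N)).ker.map K.subtype := by
          intro x hx
          have hx' : x ∈ Subgroup.normalClosure S := by rw [hY]; exact hx
          exact (Subgroup.closure_le _).2 hSM (hYcl hx')
        apply MonoidHom.ext
        intro q
        obtain ⟨k, rfl⟩ := QuotientGroup.mk_surjective q
        obtain ⟨k', hk', hkk'⟩ := hKM k.2
        have : k' = k := Subtype.ext hkk'
        rw [this] at hk'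
        exact hk'
      have htw := twist_count N hQ ϑ hϑ hfree
      have hsumN : ∑ n : ↥N, Complex.normSq (ϑ n) = ∑ x : ↥L, Complex.normSq (resTo hle ϑ x) :=
        Fintype.sum_equiv (Subgroup.subgroupOfEquivOfLe hle).toEquiv _ _ (fun n => rfl)
      rw [hsumN, ← hcount] at htw
      have hNidx : N.index = L.relIndex K := rfl
      have he1 : e = 1 := by
        have h1 : L.relIndex K * (Nat.card ↥L * (e ^ 2 * 1)) = Nat.card ↥L * L.relIndex K := by
          rw [hidx]
          have : ((L.relIndex K * (Nat.card ↥L * (e ^ 2 * 1)) : ℕ) : ℝ) = ((Nat.card ↥K : ℕ) : ℝ) := by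
            push_cast
            rw [← htw, hNidx]
            push_cast
            ring
          exact_mod_cast this
        have hrpos : 0 < L.relIndex K := by
          rcases Nat.eq_zero_or_pos (L.relIndex K) with h | h
          · rw [h, mul_zero] at hidx
            exact absurd hidx.symm (Nat.card_pos (α := ↥K)).ne'
          · exact h
        have h2 : e ^ 2 = 1 := by
          have h3 : (L.relIndex K * Nat.card ↥L) * e ^ 2 = (L.relIndex K * Nat.card ↥L) * 1 := by
            rw [mul_one]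
            calc (L.relIndex K * Nat.card ↥L) * e ^ 2
                = L.relIndex K * (Nat.card ↥L * (e ^ 2 * 1)) := by ring
              _ = Nat.card ↥L * L.relIndex K := h1
              _ = L.relIndex K * Nat.card ↥L := by ring
          exact Nat.eq_of_mul_eq_mul_left (Nat.mul_pos hrpos hLpos) h3
        have h6 : e ≤ 1 := by nlinarith
        omega
      subst he1
      rw [hdec]
      simpa using hφ

/-- Let L < K be normal subgroups of the finite group G with no normal subgroup of G strictly between them and with K / L abelian (the commutator subgroup of K lies in L). Let ϑ be an irreducible character of K invariant under conjugation by G. Then the restriction of ϑ to L is irreducible; or it equals e times an irreducible character of L with e ^ 2 equal to the index of L in K; or it is the sum of a family of pairwise distinct irreducible characters of L indexed by a set whose size is the index of L in K. -/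
theorem result {G : Type*} [Group G] [Fintype G] (K L : Subgroup G) [hK : K.Normal] [L.Normal] (hLK : L < K) (hchief : ∀ M : Subgroup G, M.Normal → L ≤ M → M ≤ K → M = L ∨ M = K) (hab : ⁅K, K⁆ ≤ L) (ϑ : K → ℂ) (hϑ : Cfsg.IsIrrCharacter K ϑ) (hinv : ∀ (g : G) (n : K), ϑ ⟨g * n * g⁻¹, hK.conj_mem (n : G) n.2 g⟩ = ϑ n) : Cfsg.IsIrrCharacter L (fun x : L => ϑ ⟨(x : G), hLK.le x.2⟩) ∨ (∃ (φ : L → ℂ) (e : ℕ), Cfsg.IsIrrCharacter L φ ∧ (fun x : L => ϑ ⟨(x : G), hLK.le x.2⟩) = (e : ℂ) • φ ∧ e ^ 2 = L.relIndex K) ∨ (∃ F : Finset (L → ℂ), (∀ φ ∈ F, Cfsg.IsIrrCharacter L φ) ∧ F.card = L.relIndex K ∧ (fun x : L => ϑ ⟨(x : G), hLK.le x.2⟩) = ∑ φ ∈ F, φ) := by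
  exact aux K L hLK hchief hab ϑ hϑ hinv

end Cfsg.Agent.S0857
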