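import Cfsg.Statements.S0858
import Cfsg.Agent.Helper15.RelM4

set_option autoImplicit false
open Cfsg

namespace Cfsg.Agent.S0858

open Cfsg.Agent.Helper15 in
/-- Let N be a normal subgroup of the finite group G with G / N solvable, and suppose that for every subgroup H containing N and all subgroups L < K between N and H that are normal in H with no subgroup normal in H strictly between them, the index of L in K is not a perfect square. Then every irreducible character χ of G is induced from an irreducible character ψ of some subgroup H containing N such that the restriction of ψ to N is irreducible. -/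
theorem result {G : Type*} [Group G] [Fintype G] (N : Subgroup G) [N.Normal] (hsolv : Group.IsSolvable (G ⧸ N)) (hchief : ∀ (H K L : Subgroup G), N ≤ L → L < K → K ≤ H → (∀ h ∈ H, ∀ k ∈ K, h * k * h⁻¹ ∈ K) → (∀ h ∈ H, ∀ l ∈ L, h * l * h⁻¹ ∈ L) → (∀ M : Subgroup G, L ≤ M → M ≤ K → (∀ h ∈ H, ∀ m ∈ M, h * m * h⁻¹ ∈ M) → M = L ∨ M = K) → ¬ IsSquare (L.relIndex K)) (χ : G → ℂ) (hχ : Cfsg.IsIrrCharacter G χ) : ∃ (H : Subgroup G) (hNH : N ≤ H) (ψ : H → ℂ), Cfsg.IsIrrCharacter H ψ ∧ Cfsg.indFun H ψ = χ ∧ Cfsg.IsIrrCharacter N (fun n : N => ψ ⟨(n : G), hNH n.2⟩) := by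
  exact relM_all N.index G N rfl hsolv hchief χ hχ

end Cfsg.Agent.S0858
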