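import Cfsg.Statements.S0860
import Cfsg.Agent.Helper3.BrauerPerm

set_option autoImplicit false
open Cfsg

namespace Cfsg.Agent.S0860

/-- Let a group A act on the set of irreducible characters and on the set of conjugacy classes of a finite group G in such a way that (a • χ) evaluated on the class a • C equals χ evaluated on C, for all a, χ and C. Then every element of A fixes exactly as many irreducible characters as it fixes conjugacy classes. -/
theorem result {G : Type*} [Group G] [Finite G] {A : Type*} [Group A] [MulAction A (Cfsg.IrrCharacter G)] [MulAction A (ConjClasses G)] (hcompat : ∀ (a : A) (χ : Cfsg.IrrCharacter G) (g g' : G), ConjClasses.mk g' = a • ConjClasses.mk g → ((a • χ : Cfsg.IrrCharacter G) : G → ℂ) g' = (χ : G → ℂ) g) (a : A) : Nat.card {χ : Cfsg.IrrCharacter G // a • χ = χ} = Nat.card {C : ConjClasses G // a • C = C} := by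
  have hout : ∀ g : G, ConjClasses.mk ((a • ConjClasses.mk g : ConjClasses G).out) =
      a • ConjClasses.mk g := fun g => Quotient.out_eq _
  have h1 := Cfsg.Agent.Helper3.brauer_perm (G := G)
    (fun g => (a • ConjClasses.mk g : ConjClasses G).out)
    (fun χ => a⁻¹ • χ)
    (fun χ g => by
      have := hcompat a (a⁻¹ • χ) g _ (hout g)
      rw [smul_inv_smul] at this
      exact this.symm)
    (fun C => a • C = C)
    (fun g => by
      rw [← ConjClasses.mk_eq_mk_iff_isConj, hout g, eq_comm])
  rw [← h1]
  apply Nat.card_congr
  apply Equiv.subtypeEquivRight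
  intro χ
  rw [inv_smul_eq_iff, eq_comm]

end Cfsg.Agent.S0860
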