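import Mathlib
import Cfsg.Statements.S4955
import Cfsg.Agent.Helper80.CharOrtho
import Cfsg.Agent.Helper79.Quotient
import Cfsg.Agent.Helper82.NonVanish
import Cfsg.Agent.Helper82.GenSum

set_option autoImplicit false
open Cfsg

namespace Cfsg.Agent.S4955

open scoped ComplexConjugate

/-- Let X be a finite group with an abelian normal Sylow p-subgroup V (a normal p-subgroup of index prime to p in which any two elements commute), and let G be a complement to V in X. Then for every v in V, writing C for the centralizer of v in G, the number k(X) of conjugacy classes of X satisfies k(X) ≤ (order of C)·(order of V) − ((order of G) − k(G)); the statement is written with the subtracted term moved to the left. In particular, if some v in V is centralized by no nonidentity element of G, then k(X) is at most the order of V. -/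
theorem result {X : Type*} [Group X] [Finite X] (p : ℕ) [Fact p.Prime] (V : Subgroup X) [V.Normal] (hVp : IsPGroup p V) (hidx : ¬ p ∣ V.index) (hab : ∀ a ∈ V, ∀ b ∈ V, a * b = b * a) (G : Subgroup X) (hGV : Subgroup.IsComplement' V G) (v : X) (hv : v ∈ V) : Nat.card (ConjClasses X) + Nat.card G ≤ Nat.card ↥(G ⊓ Subgroup.centralizer ({v} : Set X)) * Nat.card V + Nat.card (ConjClasses G) := by
  classical
  have hcard : Nat.card V * Nat.card G = Nat.card X := Subgroup.IsComplement.card_mul_card hGV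
  have hG : ¬ p ∣ Nat.card G := by
    have h1 : Nat.card V * V.index = Nat.card X := V.card_mul_index
    have h2 : V.index = Nat.card G :=
      Nat.eq_of_mul_eq_mul_left Nat.card_pos (h1.trans hcard.symm)
    rwa [h2] at hidx
  have hdisj : ∀ z : X, z ∈ V → z ∈ G → z = 1 := fun z hzV hzG =>
    (Subgroup.disjoint_def.1 hGV.disjoint) hzV hzG
  have huniq : ∀ u ∈ V, ∀ h ∈ G, ∀ u' ∈ V, ∀ h' ∈ G, u * h = u' * h' → u = u' ∧ h = h' := by
    intro u hu h hh u' hu' h' hh' e
    have e1 : u'⁻¹ * u = h' * h⁻¹ := by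
      rw [eq_mul_inv_iff_mul_eq, mul_assoc, e, inv_mul_cancel_left]
    have e2 : u'⁻¹ * u = 1 :=
      hdisj _ (V.mul_mem (V.inv_mem hu') hu) (e1 ▸ G.mul_mem hh' (G.inv_mem hh))
    have e3 : h' * h⁻¹ = 1 := e1 ▸ e2
    exact ⟨(inv_mul_eq_one.1 e2).symm, (mul_inv_eq_one.1 e3).symm⟩
  have hdec : ∀ x : X, ∃ w ∈ V, ∃ h ∈ G, x = w * h := by
    intro x
    obtain ⟨⟨⟨w, hw⟩, ⟨h, hh⟩⟩, e⟩ := (Subgroup.isComplement_iff_existsUnique.1 hGV x).exists
    exact ⟨w, hw, h, hh, e.symm⟩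
  -- the retraction of X onto G
  let f : ↥G →* X ⧸ V := (QuotientGroup.mk' V).comp G.subtype
  have hfbij : Function.Bijective f := by
    constructor
    · rw [injective_iff_map_eq_one]
      intro g hg
      have : (g : X) ∈ V := (QuotientGroup.eq_one_iff _).1 hg
      exact Subtype.ext (hdisj _ this g.2)
    · intro q
      obtain ⟨x, rfl⟩ := QuotientGroup.mk_surjective q
      obtain ⟨w, hw, h, hh, rfl⟩ := hdec x
      refine ⟨⟨h, hh⟩, ?_⟩
      show ((h : X) : X ⧸ V) = ((w * h : X) : X ⧸ V)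
      rw [QuotientGroup.mk_mul, (QuotientGroup.eq_one_iff w).2 hw, one_mul]
  let e : ↥G ≃* X ⧸ V := MulEquiv.ofBijective f hfbij
  let r : X →* ↥G := e.symm.toMonoidHom.comp (QuotientGroup.mk' V)
  have hr : Function.Surjective r := e.symm.surjective.comp (QuotientGroup.mk'_surjective V)
  have hrV : ∀ u ∈ V, r u = 1 := by
    intro u hu
    show e.symm ((u : X) : X ⧸ V) = 1
    rw [(QuotientGroup.eq_one_iff u).2 hu, map_one]
  haveI := Fintype.ofFinite X
  haveI := Fintype.ofFinite ↥G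
  letI : Fintype (IrrCharacter X) := Fintype.ofFinite _
  letI : Fintype (IrrCharacter ↥G) := Fintype.ofFinite _
  -- inflation of irreducible characters of G to X
  let infl : IrrCharacter ↥G → IrrCharacter X := fun ψ =>
    ⟨fun x => (ψ : ↥G → ℂ) (r x), Cfsg.Agent.Helper79.isIrrCharacter_comp r hr ψ.2⟩
  have hinfl : Function.Injective infl := by
    intro ψ ψ' h
    apply Subtype.ext
    funext g
    obtain ⟨x, rfl⟩ := hr g
    exact congrFun (congrArg Subtype.val h) x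
  -- roots of unity
  have hn0 : orderOf v ≠ 0 := (orderOf_pos v).ne'
  have hnpos : 0 < orderOf v := orderOf_pos v
  haveI : NeZero (orderOf v) := ⟨hn0⟩
  have hζ : IsPrimitiveRoot (Complex.exp (2 * Real.pi * Complex.I / (orderOf v : ℂ))) (orderOf v) :=
    Complex.isPrimitiveRoot_exp (orderOf v) hn0
  set ζ : ℂ := Complex.exp (2 * Real.pi * Complex.I / (orderOf v : ℂ)) with hζdef
  let jj : ℂ → ℕ := fun ξ =>
    if h : ξ ^ orderOf v = 1 then Classical.choose (hζ.eq_pow_of_pow_eq_one h) else 0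
  have hjj : ∀ ξ ∈ primitiveRoots (orderOf v) ℂ, ζ ^ jj ξ = ξ := by
    intro ξ hξ
    have h1 : ξ ^ orderOf v = 1 := ((mem_primitiveRoots hnpos).1 hξ).pow_eq_one
    simp only [jj, dif_pos h1]
    exact (Classical.choose_spec (hζ.eq_pow_of_pow_eq_one h1)).2
  have hjjcop : ∀ ξ ∈ primitiveRoots (orderOf v) ℂ, (jj ξ).Coprime (orderOf v) := by
    intro ξ hξ
    have h1 : IsPrimitiveRoot ξ (orderOf v) := (mem_primitiveRoots hnpos).1 hξ
    rw [← hjj ξ hξ] at h1
    exact (hζ.pow_iff_coprime hnpos (jj ξ)).1 h1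
  -- centralizers of the generators of ⟨v⟩
  have hcent : ∀ ξ ∈ primitiveRoots (orderOf v) ℂ,
      Subgroup.centralizer ({v ^ jj ξ} : Set X) = Subgroup.centralizer ({v} : Set X) := by
    intro ξ hξ
    obtain ⟨m, hm⟩ := exists_pow_eq_self_of_coprime (hjjcop ξ hξ)
    ext x
    simp only [Subgroup.mem_centralizer_iff, Set.mem_singleton_iff, forall_eq]
    constructor
    · intro h
      have h2 : Commute ((v ^ jj ξ) ^ m) x := (show Commute (v ^ jj ξ) x from h).pow_left m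
      rw [hm] at h2
      exact h2
    · intro h
      exact (show Commute v x from h).pow_left _
  -- column orthogonality at the generators
  have hcol : ∀ ξ ∈ primitiveRoots (orderOf v) ℂ,
      ∑ χ : IrrCharacter X, ‖(χ : X → ℂ) (v ^ jj ξ)‖ ^ 2 =
        (Nat.card (Subgroup.centralizer ({v} : Set X)) : ℝ) := by
    intro ξ hξ
    apply Complex.ofReal_injective
    rw [Complex.ofReal_sum]
    push_cast
    rw [← hcent ξ hξ, ← Cfsg.Agent.Helper80.irr_column_orthogonality_of_isConj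
      (IsConj.refl (v ^ jj ξ))]
    refine Finset.sum_congr rfl fun χ _ => ?_
    rw [Complex.mul_conj']
  -- every irreducible character has large generator sum
  have hF : ∀ χ : IrrCharacter X, (Nat.totient (orderOf v) : ℝ) ≤
      ∑ ξ ∈ primitiveRoots (orderOf v) ℂ, ‖(χ : X → ℂ) (v ^ jj ξ)‖ ^ 2 := by
    rintro ⟨χf, m, ρ, hρ, rfl⟩
    haveI := hρ
    exact Cfsg.Agent.Helper82.sum_normSq_gen_ge ρ v ζ hζ jj hjj (fun ξ hξ =>
      Cfsg.Agent.Helper82.character_ne_zero_of_complement p V hVp hab G hGV hG ρ (v ^ jj ξ)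
        (V.pow_mem hv _))
  have hinflval : ∀ (ψ : IrrCharacter ↥G) (ξ : ℂ),
      (infl ψ : X → ℂ) (v ^ jj ξ) = (ψ : ↥G → ℂ) 1 := by
    intro ψ ξ
    show (ψ : ↥G → ℂ) (r (v ^ jj ξ)) = _
    rw [hrV _ (V.pow_mem hv _)]
  have hdegsq : ∑ ψ : IrrCharacter ↥G, ‖(ψ : ↥G → ℂ) 1‖ ^ 2 = (Nat.card G : ℝ) := by
    apply Complex.ofReal_injective
    rw [Complex.ofReal_sum]
    push_cast
    have h1 := Cfsg.Agent.Helper80.irr_sum_degree_sq (G := ↥G)
    rw [Nat.card_eq_fintype_card, ← h1]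
    refine Finset.sum_congr rfl fun ψ _ => ?_
    rw [Cfsg.Agent.Helper80.irr_one_eq ψ]
    simp [sq]
  have hI : (Fintype.card (IrrCharacter X) : ℝ) = (Nat.card (ConjClasses X) : ℝ) := by
    exact_mod_cast Cfsg.Agent.Helper80.card_irr_eq_card_conjClasses (G := X)
  have hJ : (Fintype.card (IrrCharacter ↥G) : ℝ) = (Nat.card (ConjClasses ↥G) : ℝ) := by
    exact_mod_cast Cfsg.Agent.Helper80.card_irr_eq_card_conjClasses (G := ↥G)
  have hPRcard : (primitiveRoots (orderOf v) ℂ).card = Nat.totient (orderOf v) :=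
    Complex.card_primitiveRoots (orderOf v)
  have hΦpos : (0 : ℝ) < (Nat.totient (orderOf v) : ℝ) :=
    Nat.cast_pos.2 (Nat.totient_pos.2 hnpos)
  -- total sum
  have hT : ∑ χ : IrrCharacter X, ∑ ξ ∈ primitiveRoots (orderOf v) ℂ,
      ‖(χ : X → ℂ) (v ^ jj ξ)‖ ^ 2 =
      (Nat.totient (orderOf v) : ℝ) * (Nat.card (Subgroup.centralizer ({v} : Set X)) : ℝ) := by
    rw [Finset.sum_comm, Finset.sum_congr rfl hcol, Finset.sum_const, hPRcard, nsmul_eq_mul]
  have hsum1 : ∑ χ : IrrCharacter X, ((∑ ξ ∈ primitiveRoots (orderOf v) ℂ,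
      ‖(χ : X → ℂ) (v ^ jj ξ)‖ ^ 2) - (Nat.totient (orderOf v) : ℝ)) =
      (Nat.totient (orderOf v) : ℝ) * (Nat.card (Subgroup.centralizer ({v} : Set X)) : ℝ) -
        (Nat.card (ConjClasses X) : ℝ) * (Nat.totient (orderOf v) : ℝ) := by
    rw [Finset.sum_sub_distrib, hT, Finset.sum_const, Finset.card_univ, nsmul_eq_mul, hI]
  have hsum2 : ∑ ψ : IrrCharacter ↥G, ((∑ ξ ∈ primitiveRoots (orderOf v) ℂ,
      ‖(infl ψ : X → ℂ) (v ^ jj ξ)‖ ^ 2) - (Nat.totient (orderOf v) : ℝ)) ≤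
      ∑ χ : IrrCharacter X, ((∑ ξ ∈ primitiveRoots (orderOf v) ℂ,
      ‖(χ : X → ℂ) (v ^ jj ξ)‖ ^ 2) - (Nat.totient (orderOf v) : ℝ)) := by
    rw [← Finset.sum_image (s := Finset.univ) (g := infl)
      (f := fun χ : IrrCharacter X => (∑ ξ ∈ primitiveRoots (orderOf v) ℂ,
        ‖(χ : X → ℂ) (v ^ jj ξ)‖ ^ 2) - (Nat.totient (orderOf v) : ℝ))
      (fun a _ b _ h => hinfl h)]
    exact Finset.sum_le_sum_of_subset_of_nonneg (Finset.subset_univ _)
      (fun χ _ _ => sub_nonneg.2 (hF χ))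
  have hsum3 : ∑ ψ : IrrCharacter ↥G, ((∑ ξ ∈ primitiveRoots (orderOf v) ℂ,
      ‖(infl ψ : X → ℂ) (v ^ jj ξ)‖ ^ 2) - (Nat.totient (orderOf v) : ℝ)) =
      (Nat.totient (orderOf v) : ℝ) * (Nat.card G : ℝ) -
        (Nat.card (ConjClasses ↥G) : ℝ) * (Nat.totient (orderOf v) : ℝ) := by
    have h1 : ∀ ψ : IrrCharacter ↥G, ∑ ξ ∈ primitiveRoots (orderOf v) ℂ,
        ‖(infl ψ : X → ℂ) (v ^ jj ξ)‖ ^ 2 =
        (Nat.totient (orderOf v) : ℝ) * ‖(ψ : ↥G → ℂ) 1‖ ^ 2 := by
      intro ψ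
      simp only [hinflval]
      rw [Finset.sum_const, hPRcard, nsmul_eq_mul]
    simp only [h1]
    rw [Finset.sum_sub_distrib, ← Finset.mul_sum, hdegsq, Finset.sum_const, Finset.card_univ,
      nsmul_eq_mul, hJ]
  -- the centralizer of v in X
  have hVC : ∀ w ∈ V, w ∈ Subgroup.centralizer ({v} : Set X) := by
    intro w hw
    rw [Subgroup.mem_centralizer_iff]
    intro y hy
    rw [Set.mem_singleton_iff] at hy
    subst hy
    exact hab _ hv _ hw
  have hCcard : Nat.card (Subgroup.centralizer ({v} : Set X)) =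
      Nat.card ↥(G ⊓ Subgroup.centralizer ({v} : Set X)) * Nat.card V := by
    rw [mul_comm, ← Nat.card_prod]
    symm
    refine Nat.card_congr (Equiv.ofBijective
      (fun q : ↥V × ↥(G ⊓ Subgroup.centralizer ({v} : Set X)) =>
        (⟨(q.1 : X) * (q.2 : X), Subgroup.mul_mem _ (hVC _ q.1.2) q.2.2.2⟩ :
          ↥(Subgroup.centralizer ({v} : Set X)))) ⟨?_, ?_⟩)
    · rintro ⟨w, h⟩ ⟨w', h'⟩ heq
      have h1 : (w : X) * (h : X) = (w' : X) * (h' : X) := congrArg Subtype.val heq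
      obtain ⟨e1, e2⟩ := huniq w w.2 h h.2.1 w' w'.2 h' h'.2.1 h1
      exact Prod.ext (Subtype.ext e1) (Subtype.ext e2)
    · rintro ⟨x, hx⟩
      obtain ⟨w, hw, h, hh, rfl⟩ := hdec x
      have h1 : h ∈ Subgroup.centralizer ({v} : Set X) := by
        have := Subgroup.mul_mem _ (Subgroup.inv_mem _ (hVC w hw)) hx
        simpa using this
      exact ⟨(⟨w, hw⟩, ⟨h, Subgroup.mem_inf.2 ⟨hh, h1⟩⟩), rfl⟩
  have key : (Nat.card (ConjClasses X) : ℝ) + (Nat.card G : ℝ) ≤
      (Nat.card (Subgroup.centralizer ({v} : Set X)) : ℝ) + (Nat.card (ConjClasses ↥G) : ℝ) := by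
    have h := hsum2
    rw [hsum1, hsum3] at h
    nlinarith [h, hΦpos]
  rw [← hCcard]
  exact_mod_cast key

end Cfsg.Agent.S4955
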