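import Cfsg.Statements.S0861
import Cfsg.Agent.S4955
import Cfsg.Agent.Helper80.CharOrtho

set_option autoImplicit false
open Cfsg

namespace Cfsg.Agent.S0861

/-- Let P be a normal abelian Sylow p-subgroup of the finite group G and suppose some element g of P has centralizer exactly P. Then the number of irreducible characters of G is at most the order of P, and if equality holds then G / P is abelian (the commutator subgroup lies in P). -/
theorem result {G : Type*} [Group G] [Finite G] (p : ℕ) [Fact p.Prime] (P : Sylow p G) [(P : Subgroup G).Normal] (hab : ∀ a ∈ P, ∀ b ∈ P, a * b = b * a) (g : G) (hg : g ∈ P) (hC : Subgroup.centralizer ({g} : Set G) = P) : Nat.card (Cfsg.IrrCharacter G) ≤ Nat.card P ∧ (Nat.card (Cfsg.IrrCharacter G) = Nat.card P → commutator G ≤ P) := by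
  classical
  have hp : p.Prime := Fact.out
  have hidx : ¬ p ∣ (P : Subgroup G).index := P.not_dvd_index
  have hcop : Nat.Coprime (Nat.card (P : Subgroup G)) (P : Subgroup G).index := by
    obtain ⟨k, hk⟩ := IsPGroup.iff_card.mp P.isPGroup'
    rw [hk]
    exact Nat.Coprime.pow_left k ((Nat.Prime.coprime_iff_not_dvd hp).mpr hidx)
  obtain ⟨H, hH⟩ := Subgroup.exists_right_complement'_of_coprime hcop
  have key := Cfsg.Agent.S4955.result p (P : Subgroup G) P.isPGroup' hidx hab H hH g hg
  have h1 : Nat.card ↥(H ⊓ Subgroup.centralizer ({g} : Set G)) = 1 := by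
    rw [hC]
    have h0 : H ⊓ (P : Subgroup G) = ⊥ := by
      rw [inf_comm]
      exact hH.disjoint.eq_bot
    rw [h0]
    exact Subgroup.card_bot
  rw [h1, one_mul] at key
  have h2 : Nat.card (ConjClasses H) ≤ Nat.card H :=
    Nat.card_le_card_of_surjective ConjClasses.mk ConjClasses.mk_surjective
  rw [Cfsg.Agent.Helper80.natCard_irr_eq_card_conjClasses]
  refine ⟨by omega, ?_⟩
  intro heq
  have h3 : Nat.card (ConjClasses H) = Nat.card H := by omega
  have h4 : IsMulCommutative H := by
    rw [← commProb_eq_one_iff, commProb_def', h3]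
    exact div_self (by exact_mod_cast (Nat.card_pos (α := H)).ne')
  rw [← Subgroup.Normal.quotient_commutative_iff_commutator_le]
  have hrep : ∀ a : G ⧸ (P : Subgroup G), ∃ t : H, a = ((t : G) : G ⧸ (P : Subgroup G)) := by
    intro a
    obtain ⟨x, rfl⟩ := QuotientGroup.mk_surjective a
    obtain ⟨⟨s, t⟩, hst⟩ := (Subgroup.isComplement'_def.mp hH).2 x
    refine ⟨t, ?_⟩
    have h5 : x = (s : G) * (t : G) := hst.symm
    rw [h5, QuotientGroup.mk_mul, (QuotientGroup.eq_one_iff (s : G)).mpr s.2, one_mul]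
  refine ⟨⟨fun a b => ?_⟩⟩
  obtain ⟨t₁, rfl⟩ := hrep a
  obtain ⟨t₂, rfl⟩ := hrep b
  have h6 : t₁ * t₂ = t₂ * t₁ := h4.is_comm.comm t₁ t₂
  have h7 : (t₁ : G) * (t₂ : G) = (t₂ : G) * (t₁ : G) := congrArg Subtype.val h6
  rw [← QuotientGroup.mk_mul, ← QuotientGroup.mk_mul, h7]

end Cfsg.Agent.S0861
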