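import Cfsg.Statements.S0862
import Cfsg.Agent.Helper15.DetExt

set_option autoImplicit false
open Cfsg

namespace Cfsg.Agent.S0862

open Cfsg.Agent.Helper15 in
/-- Let N be a normal subgroup of the finite group G and ϑ an irreducible character of N of degree d coprime to the index of N, which is the restriction of some irreducible character of G. Let μ be a character of G of degree 1 whose restriction to N is the determinantal character of ϑ. Then there is exactly one irreducible character χ of G restricting to ϑ whose determinantal character is μ. -/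
theorem result {G : Type*} [Group G] [Finite G] (N : Subgroup G) [N.Normal] (ϑ : N → ℂ) (hϑ : Cfsg.IsIrrCharacter N ϑ) (d : ℕ) (hd : ϑ 1 = d) (hcop : Nat.Coprime N.index d) (hext : ∃ η : G → ℂ, Cfsg.IsIrrCharacter G η ∧ (∀ n : N, η n = ϑ n)) (μ : G → ℂ) (hμ : Cfsg.IsCharacter G μ ∧ μ 1 = 1) (hμN : ∀ n : N, μ n = Cfsg.detChar ϑ n) : ∃! χ : G → ℂ, Cfsg.IsIrrCharacter G χ ∧ (∀ n : N, χ n = ϑ n) ∧ Cfsg.detChar χ = μ := by
  obtain ⟨f, hf⟩ := linChar_exists_hom μ hμ
  have hfN : ∀ n : N, (f n : ℂ) = Cfsg.detChar ϑ n := fun n => by rw [← hf, hμN]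
  obtain ⟨χ, hχ, hχN, hχdet⟩ := exists_irr_extension_det N ϑ hϑ d hd hcop hext f hfN
  have hμf : μ = fun g => (f g : ℂ) := funext hf
  refine ⟨χ, ⟨hχ, hχN, by rw [hχdet, hμf]⟩, ?_⟩
  rintro χ' ⟨hχ', hχ'N, hχ'det⟩
  exact irr_extension_det_unique N ϑ hϑ d hd hcop χ' χ hχ' hχ hχ'N hχN
    (by rw [hχ'det, hχdet, hμf])

end Cfsg.Agent.S0862
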