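import Cfsg.Statements.S0863
import Cfsg.Agent.Helper15.DetChar
import Cfsg.Agent.Helper15.ProjExt2
import Cfsg.Agent.Helper15.CharInner

set_option autoImplicit false
open Cfsg

namespace Cfsg.Agent.S0863

open Cfsg.Agent.Helper15 in
/-- Let N be a normal subgroup of the finite group G with G / N solvable, and ϑ an irreducible character of N, invariant under conjugation by G, of degree d coprime to the index of N. Then ϑ is the restriction of an irreducible character of G if and only if the determinantal character of ϑ is the restriction of a character of G of degree 1. -/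
theorem result {G : Type*} [Group G] [Finite G] (N : Subgroup G) [hN : N.Normal] (hsolv : Group.IsSolvable (G ⧸ N)) (ϑ : N → ℂ) (hϑ : Cfsg.IsIrrCharacter N ϑ) (hinv : ∀ (g : G) (n : N), ϑ ⟨g * n * g⁻¹, hN.conj_mem (n : G) n.2 g⟩ = ϑ n) (d : ℕ) (hd : ϑ 1 = d) (hcop : Nat.Coprime N.index d) : (∃ χ : G → ℂ, Cfsg.IsIrrCharacter G χ ∧ (∀ n : N, χ n = ϑ n)) ↔ ∃ μ : G → ℂ, Cfsg.IsCharacter G μ ∧ μ 1 = 1 ∧ ∀ n : N, μ n = Cfsg.detChar ϑ n := by
  constructor
  · rintro ⟨χ, hχ, hres⟩
    have hχc : IsCharacter G χ := isChar_of_irr hχ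
    refine ⟨detChar χ, (detChar_isCharacter χ hχc).1, (detChar_isCharacter χ hχc).2, fun n => ?_⟩
    rw [← detChar_restrict N χ hχc n]
    have h1 : (fun x : N => χ x) = ϑ := funext hres
    rw [h1]
  · rintro ⟨μ, hμc, hμ1, hμ⟩
    obtain ⟨f, hf⟩ := linChar_exists_hom μ ⟨hμc, hμ1⟩
    obtain ⟨d', θ, hθirr, hθ⟩ := hϑ
    have hd' : d' = d := by
      have h1 := hd
      rw [← hθ, Representation.char_one] at h1
      simpa using h1
    subst hd'
    have hdet : ∀ n : N, (f n : ℂ) = LinearMap.det (θ n) := by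
      intro n
      rw [← hf, hμ, detChar_of_rep θ ϑ ⟨d', θ, hθ⟩ hθ]
    obtain ⟨ρ, hρ⟩ := exists_rep_extension_of_det θ hθirr (by rw [hθ]; exact hinv) f hdet hcop
    exact exists_irr_extension_of_rep θ hθirr hθ ρ hρ

end Cfsg.Agent.S0863
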