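import Mathlib
import Cfsg.Statements.S0864
import Cfsg.Agent.Helper15.LinExtSylow

set_option autoImplicit false
open Cfsg

namespace Cfsg.Agent.S0864

open Cfsg.Agent.Helper15

theorem result {G : Type*} [Group G] [Finite G] (N : Subgroup G) [hN : N.Normal] (lam : N → ℂ) (hlam : Cfsg.IsCharacter N lam ∧ lam 1 = 1) (hinv : ∀ (g : G) (n : N), lam ⟨g * n * g⁻¹, hN.conj_mem (n : G) n.2 g⟩ = lam n) (hsyl : ∀ p : ℕ, p.Prime → p ∣ orderOf lam → ∃ (H : Subgroup G) (hNH : N ≤ H) (ν : H → ℂ), Nat.Coprime H.index p ∧ (∃ k : ℕ, N.relIndex H = p ^ k) ∧ Cfsg.IsCharacter H ν ∧ ν 1 = 1 ∧ ∀ n : N, ν ⟨(n : G), hNH n.2⟩ = lam n) : ∃ μ : G → ℂ, Cfsg.IsCharacter G μ ∧ μ 1 = 1 ∧ ∀ n : N, μ n = lam n := by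
  obtain ⟨f, hf⟩ := linChar_exists_hom lam hlam
  have hlam_eq : lam = fun n => (f n : ℂ) := funext hf
  have hord : orderOf lam = orderOf f := by rw [hlam_eq]; exact orderOf_homToFun f
  have hinv' : ∀ (g : G) (n : N), f ⟨g * n * g⁻¹, hN.conj_mem (n : G) n.2 g⟩ = f n := by
    intro g n
    apply Units.ext
    rw [← hf, ← hf, hinv]
  have hsyl' : ∀ p : ℕ, p.Prime → p ∣ orderOf f → ∃ (H : Subgroup G) (hNH : N ≤ H)
      (ν : H →* ℂˣ), Nat.Coprime H.index p ∧ ∀ n : N, ν ⟨(n : G), hNH n.2⟩ = f n := by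
    intro p hp hpo
    obtain ⟨H, hNH, ν, hcop, -, hν, hν1, hνres⟩ := hsyl p hp (by rw [hord]; exact hpo)
    obtain ⟨ν', hν'⟩ := linChar_exists_hom ν ⟨hν, hν1⟩
    refine ⟨H, hNH, ν', hcop, ?_⟩
    intro n
    apply Units.ext
    rw [← hν', hνres n, hf n]
  obtain ⟨F, hF⟩ := exists_hom_extension_of_sylow N f hinv' hsyl'
  refine ⟨fun g => (F g : ℂ), (linChar_of_hom F).1, (linChar_of_hom F).2, ?_⟩
  intro n
  change ((F (n : G) : ℂˣ) : ℂ) = lam n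
  rw [hF n, hf n]

end Cfsg.Agent.S0864
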