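import Mathlib
import Cfsg.Statements.S0865
import Cfsg.Agent.Helper15.LinExt

set_option autoImplicit false
open Cfsg

namespace Cfsg.Agent.S0865

open Cfsg.Agent.Helper15

theorem result {G : Type*} [Group G] [Finite G] (N : Subgroup G) [hN : N.Normal] (lam : N → ℂ) (hlam : Cfsg.IsCharacter N lam ∧ lam 1 = 1) (hinv : ∀ (g : G) (n : N), lam ⟨g * n * g⁻¹, hN.conj_mem (n : G) n.2 g⟩ = lam n) (hcop : Nat.Coprime N.index (orderOf lam)) : ∃ μ : G → ℂ, (Cfsg.IsCharacter G μ ∧ μ 1 = 1 ∧ (∀ n : N, μ n = lam n) ∧ orderOf μ = orderOf lam) ∧ ∀ μ' : G → ℂ, Cfsg.IsCharacter G μ' ∧ μ' 1 = 1 → (∀ n : N, μ' n = lam n) → Nat.Coprime N.index (orderOf μ') → μ' = μ := by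
  obtain ⟨f, hf⟩ := linChar_exists_hom lam hlam
  have hlam_eq : lam = fun n => (f n : ℂ) := funext hf
  have hord : orderOf lam = orderOf f := by rw [hlam_eq]; exact orderOf_homToFun f
  have hinv' : ∀ (g : G) (n : N), f ⟨g * n * g⁻¹, hN.conj_mem (n : G) n.2 g⟩ = f n := by
    intro g n
    apply Units.ext
    rw [← hf, ← hf, hinv]
  rw [hord] at hcop
  obtain ⟨F, hFres, hFord⟩ := exists_hom_extension_coprime N f hinv' hcop
  refine ⟨fun g => (F g : ℂ), ⟨(linChar_of_hom F).1, (linChar_of_hom F).2, ?_, ?_⟩, ?_⟩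
  · intro n
    change ((F (n : G) : ℂˣ) : ℂ) = lam n
    rw [hFres n, hf n]
  · rw [orderOf_homToFun F, hFord, hord]
  · intro μ' hμ' hres hcop'
    obtain ⟨F', hF'⟩ := linChar_exists_hom μ' hμ'
    have hμ'_eq : μ' = fun g => (F' g : ℂ) := funext hF'
    have hord' : orderOf μ' = orderOf F' := by rw [hμ'_eq]; exact orderOf_homToFun F'
    rw [hord'] at hcop'
    have hFF' : F' = F := by
      apply hom_eq_of_coprime N F' F _ hcop' (by rw [hFord]; exact hcop)
      intro n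
      apply Units.ext
      rw [← hF', hres n, hf n, hFres n]
    rw [hμ'_eq, hFF']

end Cfsg.Agent.S0865
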