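import Cfsg.Statements.S0868
import Cfsg.Agent.Helper15.Gallagher2

set_option autoImplicit false
open scoped ComplexConjugate
open Cfsg

namespace Cfsg.Agent.S0868

/-- Let N be a normal subgroup of the finite group G, χ an irreducible character of G whose restriction ϑ to N is irreducible, and ψ an irreducible character of G. Define η on G by η g = (1 / order of N) * Σ over n in N of ψ (n * g) * conj (χ (n * g)). Then: if the restriction of ψ to N has nonzero inner product with ϑ, η is an irreducible character of G; if that inner product is zero, η vanishes identically; and if ψ = χ then η is identically 1. -/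
theorem result {G : Type*} [Group G] [Fintype G] (N : Subgroup G) [N.Normal] [Fintype N] (χ : G → ℂ) (hχ : Cfsg.IsIrrCharacter G χ) (hχN : Cfsg.IsIrrCharacter N (fun n : N => χ n)) (ψ : G → ℂ) (hψ : Cfsg.IsIrrCharacter G ψ) (η : G → ℂ) (hη : η = fun g => (Nat.card N : ℂ)⁻¹ * ∑ n : N, ψ ((n : G) * g) * conj (χ ((n : G) * g))) : (Cfsg.classInner (fun n : N => ψ n) (fun n : N => χ n) ≠ 0 → Cfsg.IsIrrCharacter G η) ∧ (Cfsg.classInner (fun n : N => ψ n) (fun n : N => χ n) = 0 → η = 0) ∧ (ψ = χ → η = fun _ => 1) := by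
  have hηeq : η = Cfsg.Agent.Helper15.avgN N (fun g => ψ g * (starRingEnd ℂ) (χ g)) := by
    rw [hη]; rfl
  have hG := Cfsg.Agent.Helper15.gallagher_average N χ hχ hχN ψ hψ
  refine ⟨fun h => ?_, fun h => ?_, fun h => ?_⟩
  · rw [hηeq]; exact (hG.1 h).1
  · rw [hηeq]; exact hG.2 h
  · have hne : Cfsg.classInner (fun n : N => ψ n) (fun n : N => χ n) ≠ 0 := by
      rw [h, Cfsg.Agent.Helper15.irr_inner_self hχN]
      exact one_ne_zero
    obtain ⟨h1, h2, h3⟩ := hG.1 hne
    rw [hηeq]
    have hχc := Cfsg.Agent.Helper15.isChar_of_irr hχ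
    have hone : Cfsg.IsIrrCharacter N (fun _ : N => (1 : ℂ)) :=
      Cfsg.Agent.Helper79.isIrrCharacter_one
    have hmul : ((fun _ : N => (1 : ℂ)) * fun n : N => χ n) = fun n : N => χ n := by
      funext n; simp
    have hprod : Cfsg.IsIrrCharacter N ((fun _ : N => (1 : ℂ)) * fun n : N => χ n) := by
      rw [hmul]; exact hχN
    have hone' : Cfsg.IsIrrCharacter G (fun _ : G => (1 : ℂ)) :=
      Cfsg.Agent.Helper79.isIrrCharacter_one
    refine Cfsg.Agent.Helper15.gallagher_inj N _ _ hone (fun _ _ => rfl) hprod χ hχc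
      (fun _ => rfl) _ _ h1 hone'
      ((Cfsg.Agent.Helper15.inner_ind_one_ne_zero_iff N h1).mpr h2)
      ((Cfsg.Agent.Helper15.inner_ind_one_ne_zero_iff N hone').mpr (fun _ _ => rfl)) ?_
    rw [← h3, h]
    funext g
    simp

end Cfsg.Agent.S0868
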