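import Mathlib
import Cfsg.Statements.S0869

set_option autoImplicit false
open Cfsg

namespace Cfsg.Agent.S0869

theorem exists_eval_one {S : Type*} (R : AddSubgroup (S → ℤ))
    (hcon : ∀ (x : S) (p : ℕ), p.Prime → ∃ f ∈ R, ¬ (p : ℤ) ∣ f x) (x : S) :
    ∃ f ∈ R, f x = 1 := by
  obtain ⟨a, ha⟩ := Int.subgroup_cyclic (R.map (Pi.evalAddMonoidHom (fun _ : S => ℤ) x))
  have hmem : ∀ f ∈ R, a ∣ f x := by
    intro f hf
    have h1 : f x ∈ R.map (Pi.evalAddMonoidHom (fun _ : S => ℤ) x) :=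
      ⟨f, hf, rfl⟩
    rw [ha, AddSubgroup.mem_closure_singleton] at h1
    obtain ⟨k, hk⟩ := h1
    exact ⟨k, by rw [← hk]; simp [mul_comm]⟩
  by_cases h : a.natAbs = 1
  · have ha_mem : a ∈ R.map (Pi.evalAddMonoidHom (fun _ : S => ℤ) x) := by
      rw [ha]; exact AddSubgroup.subset_closure rfl
    obtain ⟨f, hf, hfa⟩ := ha_mem
    rcases Int.natAbs_eq a with h2 | h2
    · exact ⟨f, hf, by
        have : f x = a := hfa
        rw [this, h2, h]; rfl⟩
    · refine ⟨-f, R.neg_mem hf, ?_⟩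
      have : f x = a := hfa
      change -(f x) = 1
      rw [this, h2, h]; simp
  · obtain ⟨p, pp, pd⟩ := Nat.exists_prime_and_dvd h
    obtain ⟨f, hf, hfp⟩ := hcon x p pp
    exact absurd ((Int.natCast_dvd.mpr pd).trans (hmem f hf)) hfp

theorem result {S : Type*} [Finite S] [Nonempty S] (R : AddSubgroup (S → ℤ)) (hmul : ∀ f ∈ R, ∀ g ∈ R, f * g ∈ R) (h1 : (1 : S → ℤ) ∉ R) : ∃ (x : S) (p : ℕ), p.Prime ∧ ∀ f ∈ R, (p : ℤ) ∣ f x := by
  classical
  by_contra hcon
  push_neg at hcon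
  have key := exists_eval_one R hcon
  choose F hFR hF1 using key
  have hind : ∀ s : Finset S, (1 - ∏ x ∈ s, (1 - F x)) ∈ R := by
    intro s
    induction s using Finset.induction_on with
    | empty => simp
    | insert a s ha ih =>
      rw [Finset.prod_insert ha]
      have h2 : (1 - (1 - F a) * ∏ x ∈ s, (1 - F x)) =
          (1 - ∏ x ∈ s, (1 - F x)) + F a - F a * (1 - ∏ x ∈ s, (1 - F x)) := by ring
      rw [h2]
      exact R.sub_mem (R.add_mem ih (hFR a)) (hmul _ (hFR a) _ ih)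
  haveI := Fintype.ofFinite S
  have h0 : ∏ x ∈ (Finset.univ : Finset S), (1 - F x) = 0 := by
    funext y
    rw [Finset.prod_apply]
    apply Finset.prod_eq_zero (Finset.mem_univ y)
    simp [hF1]
  have := hind Finset.univ
  rw [h0, sub_zero] at this
  exact h1 this

end Cfsg.Agent.S0869
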