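import Mathlib
import Cfsg.Statements.S0870
import Cfsg.Agent.Helper15.PermChar

set_option autoImplicit false
open Cfsg

namespace Cfsg.Agent.S0870

/-- For subgroups H and K of a finite group G, the pointwise product of the functions induced from the constant function 1 on H and on K is a sum, over subgroups U of H with natural-number coefficients, of the functions induced from the constant function 1 on U. -/
theorem result {G : Type*} [Group G] [Fintype G] (H K : Subgroup G) : ∃ a : Subgroup G → ℕ, (∀ U, a U ≠ 0 → U ≤ H) ∧ Cfsg.indFun H (fun _ => 1) * Cfsg.indFun K (fun _ => 1) = ∑ U : Subgroup G, (a U : ℂ) • Cfsg.indFun U (fun _ => 1) :=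
  Cfsg.Agent.Helper15.indFun_one_mul_indFun_one H K

end Cfsg.Agent.S0870
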