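import Cfsg.Statements.S0875
import Cfsg.Agent.Helper15.PiPartBrauer

set_option autoImplicit false
open Cfsg

namespace Cfsg.Agent.S0875

open Cfsg.Agent.Helper15 in
/-- Let G be a finite group of order m * n with m and n coprime, and g an element whose order is coprime to m. Every x in G factors uniquely as x = u * v with u, v commuting, the order of u coprime to n and the order of v coprime to m; let ϑ be the function on G equal to n at those x whose factor v is conjugate to g and equal to 0 elsewhere. Then ϑ is a linear combination of the irreducible characters of G with algebraic-integer coefficients. -/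
theorem result {G : Type*} [Group G] [Fintype G] (m n : ℕ) (hmn : Nat.card G = m * n) (hcop : Nat.Coprime m n) (g : G) (hg : Nat.Coprime (orderOf g) m) (ϑ : G → ℂ) (hϑ1 : ∀ x : G, (∃ v : G, IsConj v g ∧ (∃ u : G, x = u * v ∧ Commute u v ∧ Nat.Coprime (orderOf u) n ∧ Nat.Coprime (orderOf v) m)) → ϑ x = n) (hϑ0 : ∀ x : G, (¬ ∃ v : G, IsConj v g ∧ (∃ u : G, x = u * v ∧ Commute u v ∧ Nat.Coprime (orderOf u) n ∧ Nat.Coprime (orderOf v) m)) → ϑ x = 0) : ∃ c : Cfsg.IrrCharacter G → ℂ, (∀ χ, c χ ∈ Cfsg.AlgInt) ∧ ϑ = ∑ᶠ χ : Cfsg.IrrCharacter G, c χ • (χ : G → ℂ) := by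
  classical
  have hbez := Nat.gcd_eq_gcd_ab n m
  rw [hcop.symm.gcd_eq_one] at hbez
  have hst : (n : ℤ) * Nat.gcdA n m + (m : ℤ) * Nat.gcdB n m = 1 := by
    rw [← hbez]
    simp
  have hmem := piPart_mem_genSpanA m n hmn hcop g _ _ hst ϑ
    (fun x hx => hϑ1 x ((exists_parts_iff m n hmn hcop g _ _ hst x).mpr hx))
    (fun x hx => hϑ0 x (fun h => hx ((exists_parts_iff m n hmn hcop g _ _ hst x).mp h)))
  letI : Fintype (Cfsg.IrrCharacter G) := Fintype.ofFinite _
  refine ⟨fun χ => Cfsg.classInner ϑ χ,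
    fun χ => Cfsg.Agent.Helper73.classInner_algInt_of_mem_genSpanA hmem χ, ?_⟩
  rw [finsum_eq_sum_of_fintype]
  exact classFun_eq_sum (Cfsg.Agent.Helper73.isClassFunction_of_mem_genSpanA hmem)

end Cfsg.Agent.S0875
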