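import Cfsg.Statements.S0876
import Cfsg.Agent.Helper15.PiPartBrauer
import Cfsg.Agent.Helper15.PRegCong

set_option autoImplicit false
open Cfsg

namespace Cfsg.Agent.S0876

open Cfsg.Agent.Helper15 in
/-- Let G be a finite group, p a prime and M a maximal ideal of the ring of algebraic integers containing p. Let x, y be elements with p-parts a and b (so a⁻¹ * x and b⁻¹ * y are their p-regular parts). Then a⁻¹ * x and b⁻¹ * y are conjugate in G if and only if, for every irreducible character χ, the difference χ x - χ y lies in the local ideal at M. -/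
theorem result {G : Type*} [Group G] [Finite G] (p : ℕ) (M : Ideal Cfsg.AlgInt) (hM : Cfsg.IsPModular p M) (x y a b : G) (ha : Cfsg.IsPPart p x a) (hb : Cfsg.IsPPart p y b) : IsConj (a⁻¹ * x) (b⁻¹ * y) ↔ ∀ χ : Cfsg.IrrCharacter G, Cfsg.MemLocalIdeal M ((χ : G → ℂ) x - (χ : G → ℂ) y) := by
  classical
  cases nonempty_fintype G
  have hp := hM.1
  constructor
  · intro hconj χ
    have hχc := isChar_of_irr χ.2
    have h1 := character_sub_pRegular_memLocalIdeal hM hχc ha
    have h2 := character_sub_pRegular_memLocalIdeal hM hχc hb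
    have h3 : (χ : G → ℂ) (a⁻¹ * x) = (χ : G → ℂ) (b⁻¹ * y) :=
      Cfsg.Agent.Helper79.isCharacter_eq_of_isConj hχc hconj
    have h4 : (χ : G → ℂ) x - (χ : G → ℂ) y =
        ((χ : G → ℂ) x - (χ : G → ℂ) (a⁻¹ * x)) - ((χ : G → ℂ) y - (χ : G → ℂ) (b⁻¹ * y)) := by
      rw [h3]
      ring
    rw [h4]
    exact Cfsg.Agent.Helper77.memLocalIdeal_sub hM.2.1 h1 h2
  · intro hall
    by_contra hnc
    obtain ⟨e, n, hn, hcard⟩ :=
      Nat.exists_eq_pow_mul_and_not_dvd (Nat.card_pos (α := G)).ne' p hp.ne_one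
    have hpn : Nat.Coprime p n := (Nat.Prime.coprime_iff_not_dvd hp).mpr hn
    have hcop : Nat.Coprime (p ^ e) n := Nat.Coprime.pow_left _ hpn
    have hbez := Nat.gcd_eq_gcd_ab n (p ^ e)
    rw [hcop.symm.gcd_eq_one] at hbez
    have hst : (n : ℤ) * Nat.gcdA n (p ^ e) + ((p ^ e : ℕ) : ℤ) * Nat.gcdB n (p ^ e) = 1 := by
      rw [← hbez]
      simp
    obtain ⟨x', hax', hcommx, ⟨kx, hkx⟩, hx'⟩ := ha
    obtain ⟨y', hby', hcommy, ⟨ky, hky⟩, hy'⟩ := hb
    have hx'eq : a⁻¹ * x = x' := by rw [← hax', inv_mul_cancel_left]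
    have hy'eq : b⁻¹ * y = y' := by rw [← hby', inv_mul_cancel_left]
    rw [hx'eq, hy'eq] at hnc
    have hxK : IsConj (x ^ (((p ^ e : ℕ) : ℤ) * Nat.gcdB n (p ^ e))) x' :=
      (exists_parts_iff (p ^ e) n hcard hcop x' _ _ hst x).mp
        ⟨x', IsConj.refl _, a, hax'.symm, hcommx, by rw [hkx]; exact Nat.Coprime.pow_left _ hpn,
          Nat.Coprime.pow_right _ ((Nat.Prime.coprime_iff_not_dvd hp).mpr hx').symm⟩
    have hyK : IsConj (y ^ (((p ^ e : ℕ) : ℤ) * Nat.gcdB n (p ^ e))) y' :=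
      (exists_parts_iff (p ^ e) n hcard hcop y' _ _ hst y).mp
        ⟨y', IsConj.refl _, b, hby'.symm, hcommy, by rw [hky]; exact Nat.Coprime.pow_left _ hpn,
          Nat.Coprime.pow_right _ ((Nat.Prime.coprime_iff_not_dvd hp).mpr hy').symm⟩
    obtain ⟨ϑ, hϑ⟩ : ∃ ϑ : G → ℂ, ϑ = fun z =>
        if IsConj (z ^ (((p ^ e : ℕ) : ℤ) * Nat.gcdB n (p ^ e))) x' then (n : ℂ) else 0 := ⟨_, rfl⟩
    have hmem := piPart_mem_genSpanA (p ^ e) n hcard hcop x' _ _ hst ϑ
      (fun z hz => by rw [hϑ]; exact if_pos hz) (fun z hz => by rw [hϑ]; exact if_neg hz)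
    have hϑx : ϑ x = n := by rw [hϑ]; exact if_pos hxK
    have hϑy : ϑ y = 0 := by
      rw [hϑ]
      exact if_neg (fun h => hnc (h.symm.trans hyK))
    letI : Fintype (Cfsg.IrrCharacter G) := Fintype.ofFinite _
    have hsum := classFun_eq_sum (Cfsg.Agent.Helper73.isClassFunction_of_mem_genSpanA hmem)
    have h5 : (n : ℂ) = ∑ χ : Cfsg.IrrCharacter G,
        Cfsg.classInner ϑ χ * ((χ : G → ℂ) x - (χ : G → ℂ) y) := by
      have e1 := congrFun hsum x
      have e2 := congrFun hsum y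
      rw [hϑx] at e1
      rw [hϑy] at e2
      simp only [Finset.sum_apply, Pi.smul_apply, smul_eq_mul] at e1 e2
      simp only [mul_sub, Finset.sum_sub_distrib]
      rw [← e1, ← e2, sub_zero]
    apply Cfsg.Agent.Helper77.not_memLocalIdeal_natCast hM hn
    rw [h5]
    apply Cfsg.Agent.Helper77.memLocalIdeal_sum hM.2.1
    intro χ _
    exact Cfsg.Agent.Helper77.memLocalIdeal_mul hM.2.1
      (Cfsg.Agent.Helper77.memLocalRing_of_isIntegral hM.2.1
        (Cfsg.Agent.Helper73.classInner_algInt_of_mem_genSpanA hmem χ)) (hall χ)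

end Cfsg.Agent.S0876
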