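import Cfsg.Statements.S0877
import Cfsg.Agent.Helper15.BrauerSuzuki

set_option autoImplicit false
open Cfsg

namespace Cfsg.Agent.S0877

open Cfsg.Agent.Helper15 in
/-- Let H be a subgroup of the finite group G whose order is coprime to its index. Suppose that elements of H conjugate in G are conjugate in H, and that every subgroup E of G that is elementary for some prime (in the sense used for Brauer's characterisation of characters) and whose order divides the order of H is conjugate to a subgroup of H. Then there is a normal subgroup K with K ⊔ H = ⊤ and K ⊓ H trivial. -/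
theorem result {G : Type*} [Group G] [Finite G] (H : Subgroup G) (hHall : Nat.Coprime (Nat.card H) H.index) (hfus : ∀ x ∈ H, ∀ y ∈ H, IsConj x y → ∃ h ∈ H, h * x * h⁻¹ = y) (helem : ∀ (E : Subgroup G) (p : ℕ), p.Prime → Cfsg.IsElementary p E → Nat.card E ∣ Nat.card H → ∃ g : G, E.map (MulAut.conj g).toMonoidHom ≤ H) : ∃ K : Subgroup G, K.Normal ∧ K ⊔ H = ⊤ ∧ K ⊓ H = ⊥ := by
  classical
  letI : Fintype G := Fintype.ofFinite G
  letI : Fintype H := Fintype.ofFinite H
  letI : Fintype (IrrCharacter H) := Fintype.ofFinite _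
  have hcop' : IsCoprime (Nat.card H : ℤ) (H.index : ℤ) := Nat.isCoprime_iff_coprime.mpr hHall
  obtain ⟨s, t, hst⟩ := hcop'
  have hpow : ∀ x : G, (x ^ ((H.index : ℤ) * t)) ^ Nat.card H = 1 := by
    intro x
    rw [← zpow_natCast, ← zpow_mul]
    have h2 : (H.index : ℤ) * t * (Nat.card H : ℤ) = ((Nat.card H * H.index : ℕ) : ℤ) * t := by
      push_cast
      ring
    rw [h2, zpow_mul, zpow_natCast, Subgroup.card_mul_index, pow_card_eq_one', one_zpow]
  have hex : ∀ x : G, ∃ y : H, ∃ g : G, (y : G) = g * x ^ ((H.index : ℤ) * t) * g⁻¹ := by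
    intro x
    obtain ⟨g, hg⟩ := exists_conj_mem_of_pow_eq_one H helem _ (hpow x)
    exact ⟨⟨_, hg⟩, g, rfl⟩
  choose c hc using hex
  have hyp : BSHyp H H.index t c := ⟨hfus, rfl, ⟨s, by linarith⟩, hc, helem⟩
  exact hyp.exists_complement

end Cfsg.Agent.S0877
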