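import Mathlib
import Cfsg.Statements.S0879
import Cfsg.Agent.Helper15.Zassenhaus

set_option autoImplicit false
open Cfsg

namespace Cfsg.Agent.S0879

open MulAction Cfsg.Agent.Helper15

variable {G Ω : Type*} [Group G] [MulAction G Ω]

theorem mem_normalizer_of_perm {a b : Ω} (hab : a ≠ b) {g : G}
    (h : (g • a = a ∧ g • b = b) ∨ (g • a = b ∧ g • b = a)) :
    g ∈ Subgroup.normalizer ((stabilizer G a ⊓ stabilizer G b : Subgroup G) : Set G) := by
  rcases h with h | h
  · exact Subgroup.le_normalizer (show g ∈ (stabilizer G a ⊓ stabilizer G b : Subgroup G) from h)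
  · obtain ⟨h1, h2⟩ := h
    have h3 : g⁻¹ • a = b := by rw [← h2, inv_smul_smul]
    have h4 : g⁻¹ • b = a := by rw [← h1, inv_smul_smul]
    rw [Subgroup.mem_normalizer_iff]
    intro x
    simp only [Subgroup.mem_inf, mem_stabilizer_iff, mul_smul, h3, h4]
    constructor
    · rintro ⟨hx1, hx2⟩
      exact ⟨by rw [hx2, h2], by rw [hx1, h1]⟩
    · rintro ⟨hx1, hx2⟩
      refine ⟨?_, ?_⟩
      · have : x • a = g⁻¹ • b := by rw [← hx2, inv_smul_smul]
        rw [this, h4]
      · have : x • b = g⁻¹ • a := by rw [← hx1, inv_smul_smul]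
        rw [this, h3]

theorem perm_of_conj_mem (hZ : Cfsg.IsZassenhausGroup G Ω) {a b : Ω} (hab : a ≠ b) {g x : G}
    (hx : x ∈ (stabilizer G a ⊓ stabilizer G b : Subgroup G)) (hx1 : x ≠ 1)
    (hgx : g * x * g⁻¹ ∈ (stabilizer G a ⊓ stabilizer G b : Subgroup G)) :
    (g • a = a ∧ g • b = b) ∨ (g • a = b ∧ g • b = a) := by
  have hy1 : g * x * g⁻¹ ≠ 1 := by
    intro h
    apply hx1
    have : x = g⁻¹ * (g * x * g⁻¹) * g := by group
    rw [this, h]; group
  have hya : (g * x * g⁻¹) • a = a := hgx.1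
  have hyb : (g * x * g⁻¹) • b = b := hgx.2
  have hxa : x • a = a := hx.1
  have hxb : x • b = b := hx.2
  have hyga : (g * x * g⁻¹) • (g • a) = g • a := by
    rw [mul_smul, mul_smul, inv_smul_smul, hxa]
  have hygb : (g * x * g⁻¹) • (g • b) = g • b := by
    rw [mul_smul, mul_smul, inv_smul_smul, hxb]
  have hne : g • a ≠ g • b := fun h => hab (smul_left_cancel g h)
  have h1 : g • a = a ∨ g • a = b := by
    by_contra hcon
    push Not at hcon
    exact hy1 (zass_eq_one_of_fix_three hZ hab (Ne.symm hcon.2) (Ne.symm hcon.1) hya hyb hyga)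
  have h2 : g • b = a ∨ g • b = b := by
    by_contra hcon
    push Not at hcon
    exact hy1 (zass_eq_one_of_fix_three hZ hab (Ne.symm hcon.2) (Ne.symm hcon.1) hya hyb hygb)
  rcases h1 with h1 | h1
  · rcases h2 with h2 | h2
    · exact absurd (h1.trans h2.symm) hne
    · exact Or.inl ⟨h1, h2⟩
  · rcases h2 with h2 | h2
    · exact Or.inr ⟨h1, h2⟩
    · exact absurd (h1.trans h2.symm) hne

theorem result {G Ω : Type*} [Group G] [Finite G] [MulAction G Ω] [Fintype Ω] (hZ : Cfsg.IsZassenhausGroup G Ω) {a b : Ω} (hab : a ≠ b) : (∀ g : G, g ∉ Subgroup.normalizer ((MulAction.stabilizer G a ⊓ MulAction.stabilizer G b : Subgroup G) : Set G) → ∀ x ∈ (MulAction.stabilizer G a ⊓ MulAction.stabilizer G b : Subgroup G), g * x * g⁻¹ ∈ (MulAction.stabilizer G a ⊓ MulAction.stabilizer G b : Subgroup G) → x = 1) ∧ ((MulAction.stabilizer G a ⊓ MulAction.stabilizer G b : Subgroup G).subgroupOf (Subgroup.normalizer ((MulAction.stabilizer G a ⊓ MulAction.stabilizer G b : Subgroup G)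 : Set G))).index = 2 := by
  refine ⟨?_, ?_⟩
  · intro g hg x hx hgx
    by_contra hx1
    exact hg (mem_normalizer_of_perm hab (perm_of_conj_mem hZ hab hx hx1 hgx))
  · rw [Subgroup.index_eq_two_iff]
    obtain ⟨t, hta, htb⟩ := zass_two_trans hZ hab (Ne.symm hab)
    obtain ⟨x, hx1, hxa, hxb⟩ := zass_exists_stab_inf_ne_one hZ hab
    have hxE : x ∈ (stabilizer G a ⊓ stabilizer G b : Subgroup G) := ⟨hxa, hxb⟩
    refine ⟨⟨t, mem_normalizer_of_perm hab (Or.inr ⟨hta, htb⟩)⟩, ?_⟩
    rintro ⟨s, hs⟩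
    have hsx : s * x * s⁻¹ ∈ (stabilizer G a ⊓ stabilizer G b : Subgroup G) :=
      (Subgroup.mem_normalizer_iff.mp hs x).mp hxE
    simp only [Subgroup.mem_subgroupOf, Subgroup.coe_mul]
    rcases perm_of_conj_mem hZ hab hxE hx1 hsx with h | h
    · right
      refine ⟨h, ?_⟩
      intro hst
      have h1 : (s * t) • a = a := hst.1
      rw [mul_smul, hta, h.2] at h1
      exact hab h1.symm
    · left
      refine ⟨⟨?_, ?_⟩, ?_⟩
      · change (s * t) • a = a
        rw [mul_smul, hta, h.2]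
      · change (s * t) • b = b
        rw [mul_smul, htb, h.1]
      · intro hsE
        have h1 : s • a = a := hsE.1
        rw [h.1] at h1
        exact hab h1.symm

end Cfsg.Agent.S0879
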