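import Mathlib
import Cfsg.Statements.S0880
import Cfsg.Agent.Helper15.ZassenhausCount

set_option autoImplicit false
open Cfsg

namespace Cfsg.Agent.S0880

open MulAction Cfsg.Agent.Helper15

theorem arith_aux (m k F N : ℕ) (hm : 2 ≤ m) (hk : 1 ≤ k)
    (hN : N = (m + 1) * m * (2 * k + 1))
    (hF : 2 * F + 2 + (m + 1) * m = N + 2 * (m + 1)) (hdvd : F ∣ N) : False := by
  have hF' : F = m * (k * (m + 1) + 1) := by
    subst hN
    have : 2 * F = 2 * (m * (k * (m + 1) + 1)) := by linarith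
    omega
  subst hF' hN
  have h1 : (k * (m + 1) + 1) ∣ (m + 1) * (2 * k + 1) := by
    apply Nat.dvd_of_mul_dvd_mul_left (show 0 < m by omega)
    have : (m + 1) * m * (2 * k + 1) = m * ((m + 1) * (2 * k + 1)) := by ring
    rw [← this]
    exact hdvd
  have hcop : Nat.Coprime (k * (m + 1) + 1) (m + 1) := by
    rw [Nat.coprime_mul_right_add_left]
    exact Nat.coprime_one_left _
  have h2 : (k * (m + 1) + 1) ∣ (2 * k + 1) := hcop.dvd_of_dvd_mul_left h1
  have h3 := Nat.le_of_dvd (by omega) h2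
  nlinarith

theorem result {G Ω : Type*} [Group G] [Finite G] [MulAction G Ω] [Fintype Ω] (hZ : Cfsg.IsZassenhausGroup G Ω) {a b : Ω} (hab : a ≠ b) [IsSimpleGroup G] (hodd : Odd (Nat.card ↥(MulAction.stabilizer G a ⊓ MulAction.stabilizer G b : Subgroup G))) (hlt : Nat.card ↥(MulAction.stabilizer G a ⊓ MulAction.stabilizer G b : Subgroup G) < Fintype.card Ω - 2) : ∃ x y : G, (∀ c : Ω, x • c ≠ c) ∧ (∀ c : Ω, y • c ≠ c) ∧ ¬ IsConj x y := by
  by_contra hcon
  push Not at hcon
  have hn := zass_three_le_card hZ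
  have he := zass_two_le_card_stab_inf hZ hab
  have hN := zass_card_group hZ hab
  have hF := (zass_count hZ).1
  obtain ⟨k, hk⟩ := hodd
  obtain ⟨m, hm⟩ : ∃ m, Nat.card Ω = m + 1 := ⟨Nat.card Ω - 1, by omega⟩
  rw [hm, hk] at hN
  rw [hm] at hF
  simp only [Nat.add_sub_cancel] at hN hF
  -- the fixed-point-free elements form a single conjugacy class
  have hpos : 0 < Nat.card {g : G // ∀ c : Ω, g • c ≠ c} := by
    by_contra h0
    have h0' : Nat.card {g : G // ∀ c : Ω, g • c ≠ c} = 0 := by omega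
    rw [h0', hN] at hF
    have : 2 ≤ m := by omega
    have : 1 ≤ k := by omega
    nlinarith
  obtain ⟨⟨x0, hx0⟩⟩ := (Nat.card_pos_iff.mp hpos).1
  have hset : {g : G | ∀ c : Ω, g • c ≠ c} = orbit (ConjAct G) x0 := by
    ext g
    rw [ConjAct.mem_orbit_conjAct]
    constructor
    · intro hg
      exact (hcon x0 g hx0 hg).symm
    · intro hg c hc
      obtain ⟨t, ht⟩ := isConj_iff.mp hg
      apply hx0 (t • c)
      rw [← ht, mul_smul, mul_smul, inv_smul_smul, hc]
  have hdvd : Nat.card {g : G // ∀ c : Ω, g • c ≠ c} ∣ Nat.card G := by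
    have h1 : Nat.card {g : G // ∀ c : Ω, g • c ≠ c} = (orbit (ConjAct G) x0).ncard := by
      rw [← hset]
      exact Nat.card_coe_set_eq _
    rw [h1, ← MulAction.index_stabilizer]
    exact Subgroup.index_dvd_card _
  exact arith_aux m k _ _ (by omega) (by omega) hN hF hdvd

end Cfsg.Agent.S0880
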