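import Cfsg.Statements.S0882
import Cfsg.Agent.Helper59.ZassOdd

set_option autoImplicit false
open Cfsg

namespace Cfsg.Agent.S0882

/-- Let G be a finite simple Zassenhaus group on Ω with n = h + 1 points whose two-point stabilizer E has odd order e with 2e < h - 1. Then any two involutions of G are conjugate, and the number of involutions is e * (h + 1) if h is even and e * h if h is odd. -/
theorem result {G Ω : Type*} [Group G] [Finite G] [MulAction G Ω] [Fintype Ω] (hZ : Cfsg.IsZassenhausGroup G Ω) {a b : Ω} (hab : a ≠ b) [IsSimpleGroup G] (h e : ℕ) (hh : Fintype.card Ω = h + 1) (he : Nat.card ↥(MulAction.stabilizer G a ⊓ MulAction.stabilizer G b : Subgroup G) = e) (hodd : Odd e) (hlt : 2 * e < h - 1) : (∀ x y : G, orderOf x = 2 → orderOf y = 2 → IsConj x y) ∧ Nat.card {x : G // orderOf x = 2} = (if Even h then e * (h + 1) else e * h) := by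
  classical
  have hodd' : Odd (Nat.card ↥(MulAction.stabilizer G a ⊓ MulAction.stabilizer G b)) := by
    rw [he]; exact hodd
  refine ⟨fun x y hx hy => Cfsg.Agent.Helper59.zassOdd_isConj hZ hab hodd' hx hy, ?_⟩
  have hcount := Cfsg.Agent.Helper59.zassOdd_card_invol hZ hab hodd'
  rw [Nat.card_eq_fintype_card (α := Ω), hh, he] at hcount
  have h3 := Cfsg.Agent.Helper15.zass_three_le_card hZ
  rw [Nat.card_eq_fintype_card, hh] at h3
  have hsimp : h + 1 - 1 = h := Nat.add_sub_cancel h 1
  rw [hsimp] at hcount
  by_cases hE : Even h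
  · rw [if_pos hE]
    have hO : Odd (h + 1) := hE.add_one
    rw [if_pos hO] at hcount
    have hpos : 0 < h := by omega
    apply Nat.eq_of_mul_eq_mul_right hpos
    rw [hcount]
    ring
  · rw [if_neg hE]
    have hO : ¬ Odd (h + 1) := by
      intro hO
      apply hE
      rcases hO with ⟨k, hk⟩
      exact ⟨k, by omega⟩
    rw [if_neg hO] at hcount
    have hpos : 0 < h + 1 := by omega
    apply Nat.eq_of_mul_eq_mul_right hpos
    rw [hcount]
    ring

end Cfsg.Agent.S0882
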