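import Cfsg.Statements.S0890
import Cfsg.Agent.Helper15.QPrimMax

set_option autoImplicit false
open Cfsg

namespace Cfsg.Agent.S0890

open Cfsg.Agent.Helper15 in
/-- Let L ≤ H < G with L normal in G, H a maximal subgroup and G / L solvable. Let ϑ be an irreducible character of H whose restriction to L is irreducible and whose induction χ to G is irreducible. Then there is a normal subgroup M of G containing L such that the restriction of χ to M is not a natural-number multiple of a single irreducible character of M. -/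
theorem result {G : Type*} [Group G] [Fintype G] (L H : Subgroup G) [L.Normal] (hLH : L ≤ H) (hmax : IsCoatom H) (hsolv : Group.IsSolvable (G ⧸ L)) (ϑ : H → ℂ) (hϑ : Cfsg.IsIrrCharacter H ϑ) (hϑL : Cfsg.IsIrrCharacter L (fun x : L => ϑ ⟨(x : G), hLH x.2⟩)) (hind : Cfsg.IsIrrCharacter G (Cfsg.indFun H ϑ)) : ∃ M : Subgroup G, M.Normal ∧ L ≤ M ∧ ¬ ∃ (φ : M → ℂ) (e : ℕ), Cfsg.IsIrrCharacter M φ ∧ (fun m : M => Cfsg.indFun H ϑ m) = (e : ℂ) • φ := by
  classical
  by_contra hcon
  push Not at hcon
  have hLC : L ≤ H.normalCore := Subgroup.normal_le_normalCore.mpr hLH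
  have hsolv' : Group.IsSolvable (G ⧸ H.normalCore) := by
    have hle : L ≤ H.normalCore.comap (MonoidHom.id G) := hLC
    have := hsolv
    apply Group.isSolvable_of_surjective (f := QuotientGroup.map L H.normalCore (MonoidHom.id G) hle)
    intro x
    obtain ⟨g, rfl⟩ := QuotientGroup.mk_surjective x
    exact ⟨QuotientGroup.mk g, rfl⟩
  have hϑc : Cfsg.IsCharacter H ϑ := isChar_of_irr hϑ
  have hξ' : Cfsg.IsIrrCharacter H.normalCore
      (fun x : H.normalCore => ϑ ⟨(x : G), H.normalCore_le x.2⟩) := by
    apply isIrr_of_comp_isIrr (Subgroup.inclusion hLC) _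
      (Cfsg.Agent.Helper79.isCharacter_comp hϑc (Subgroup.inclusion H.normalCore_le))
    exact hϑL
  exact not_homog_of_max_core H hmax hsolv' ϑ hϑc hξ' hind
    (fun N hN hle => hcon N hN (hLC.trans hle))

end Cfsg.Agent.S0890
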