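import Cfsg.Statements.S0892
import Cfsg.Agent.Helper48.SchurA
import Cfsg.Agent.Helper48.SchurE

set_option autoImplicit false
open Cfsg

namespace Cfsg.Agent.S0892

/-- Let n ≥ 4 with n ≠ 6 and n ≠ 7, and let Γ be a finite group with a subgroup Z contained in both the centre and the commutator subgroup of Γ such that Γ / Z is isomorphic to the alternating group on n letters. Then Z has order at most 2. -/
theorem result (n : ℕ) (hn : 4 ≤ n) (h6 : n ≠ 6) (h7 : n ≠ 7) {Γ : Type*} [Group Γ] [Finite Γ] (Z : Subgroup Γ) [Z.Normal] (hZc : Z ≤ Subgroup.center Γ) (hZd : Z ≤ commutator Γ) (e : Γ ⧸ Z ≃* alternatingGroup (Fin n)) : Nat.card Z ≤ 2 := by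
  have hidx : Z.index = Nat.card (alternatingGroup (Fin n)) := by
    rw [Subgroup.index_eq_card]
    exact Nat.card_congr e.toEquiv
  have hcard : 2 * Nat.card (alternatingGroup (Fin n)) = n.factorial := by
    have : Nontrivial (Fin n) := Fin.nontrivial_iff_two_le.mpr (by omega)
    rw [two_mul_nat_card_alternatingGroup, Nat.card_perm, Nat.card_fin]
  by_cases h8 : 8 ≤ n
  · obtain ⟨m, rfl⟩ : ∃ m, n = m + 3 := ⟨n - 3, by omega⟩
    obtain ⟨π, hπdef⟩ : ∃ π : Γ →* Equiv.Perm (Fin (m + 3)),
        π = (alternatingGroup (Fin (m + 3))).subtype.comp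
          (e.toMonoidHom.comp (QuotientGroup.mk' Z)) := ⟨_, rfl⟩
    have hπ1 : ∀ g : Γ, π g = 1 ↔ g ∈ Z := by
      intro g
      rw [hπdef, MonoidHom.comp_apply, MonoidHom.comp_apply, Subgroup.coe_subtype,
        OneMemClass.coe_eq_one, MulEquiv.coe_toMonoidHom, MulEquiv.map_eq_one_iff,
        QuotientGroup.mk'_apply, QuotientGroup.eq_one_iff]
    have hker : π.ker = Z := by
      ext g
      rw [MonoidHom.mem_ker, hπ1]
    have hπ : Cfsg.Agent.Helper48.AltCover π := by
      refine ⟨by rw [hker]; exact hZc, ?_, ?_⟩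
      · intro g
        rw [hπdef]
        exact Equiv.Perm.mem_alternatingGroup.mp (e (QuotientGroup.mk' Z g)).2
      · intro σ hσ
        obtain ⟨g, hg⟩ := QuotientGroup.mk'_surjective Z
          (e.symm ⟨σ, Equiv.Perm.mem_alternatingGroup.mpr hσ⟩)
        refine ⟨g, ?_⟩
        rw [hπdef, MonoidHom.comp_apply, MonoidHom.comp_apply, hg, MulEquiv.coe_toMonoidHom,
          MulEquiv.apply_symm_apply, Subgroup.coe_subtype]
    have h := Cfsg.Agent.Helper48.card_ker_le_two_of_altCover m (by omega) π hπ
      (by rw [hker]; exact hZd)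
    rwa [hker] at h
  · have h45 : n = 4 ∨ n = 5 := by omega
    rcases h45 with rfl | rfl
    · have h24 : Nat.factorial 4 = 24 := rfl
      exact Cfsg.Agent.Helper48.card_le_two_of_center_commutator Z hZc hZd 3
        (by rw [hidx]; omega) (by decide) Nat.prime_three.squarefree
    · have h120 : Nat.factorial 5 = 120 := rfl
      have hsf : Squarefree 15 :=
        (Nat.squarefree_mul (by norm_num : Nat.Coprime 3 5)).mpr
          ⟨Nat.prime_three.squarefree, Nat.prime_five.squarefree⟩
      exact Cfsg.Agent.Helper48.card_le_two_of_center_commutator Z hZc hZd 15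
        (by rw [hidx]; omega) (by decide) hsf

end Cfsg.Agent.S0892
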