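import Cfsg.Statements.S0893
import Cfsg.Agent.Helper15.Extraspecial

set_option autoImplicit false
open Cfsg

namespace Cfsg.Agent.S0893

/-- Let P be an extraspecial p-group of order p ^ (2 * n + 1), A an abelian subgroup of order p ^ (n + 1), and λ a character of A of degree 1 that is not identically 1 on the elements of A lying in the centre of P. Then the function induced from λ to P is an irreducible character of P and vanishes at every element outside the centre. -/
theorem result {P : Type*} [Group P] [Fintype P] (p n : ℕ) [Fact p.Prime] (hP : Cfsg.IsExtraspecial p P) (hcard : Nat.card P = p ^ (2 * n + 1)) (A : Subgroup P) (hab : ∀ a ∈ A, ∀ b ∈ A, a * b = b * a) (hA : Nat.card A = p ^ (n + 1)) (lam : A → ℂ) (hlam : Cfsg.IsCharacter A lam ∧ lam 1 = 1) (hZ : ∃ a : A, (a : P) ∈ Subgroup.center P ∧ lam a ≠ 1) : Cfsg.IsIrrCharacter P (Cfsg.indFun A lam) ∧ ∀ x : P, x ∉ Subgroup.center P → Cfsg.indFun A lam x = 0 := by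
  classical
  obtain ⟨⟨hpg, hfrat, hcomm⟩, hZcard⟩ := hP
  obtain ⟨f, hf⟩ := Cfsg.Agent.Helper15.linChar_exists_hom lam hlam
  have hlamf : lam = fun u => (f u : ℂ) := funext hf
  obtain ⟨a₀, ha₀Z, ha₀⟩ := hZ
  have ha₀ne : (a₀ : P) ≠ 1 := by
    intro h
    apply ha₀
    have : a₀ = 1 := Subtype.ext h
    rw [this]
    exact hlam.2
  have hZA : Subgroup.center P ≤ A := by
    have h1 : Subgroup.zpowers (a₀ : P) ≤ Subgroup.center P := (Subgroup.zpowers_le).mpr ha₀Z
    have h2 : Nat.card (Subgroup.zpowers (a₀ : P)) ∣ p := hZcard ▸ Subgroup.card_dvd_of_le h1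
    rcases (Nat.dvd_prime (Fact.out : p.Prime)).mp h2 with h3 | h3
    · exfalso
      rw [Nat.card_zpowers] at h3
      exact ha₀ne (orderOf_eq_one_iff.mp h3)
    · have h4 : Subgroup.zpowers (a₀ : P) = Subgroup.center P :=
        Subgroup.eq_of_le_of_card_ge h1 (by rw [h3, hZcard])
      rw [← h4]
      exact (Subgroup.zpowers_le).mpr a₀.2
  have hvanish : ∀ x : P, x ∉ Subgroup.center P → Cfsg.indFun A lam x = 0 := by
    intro x hx
    obtain ⟨y, hy⟩ := Cfsg.Agent.Helper15.exists_conj_eq_mul_of_center hcomm hZcard hx ha₀Z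
    rw [hlamf]
    refine Cfsg.Agent.Helper15.indFun_eq_zero_of_conj_mul A f a₀.2 ha₀Z ?_ hy
    rw [← hf]
    exact ha₀
  refine ⟨?_, hvanish⟩
  apply Cfsg.Agent.Helper15.isIrr_of_inner_one
    (Cfsg.Agent.Helper3.isCharacter_indFun A lam hlam.1)
  unfold Cfsg.classInner
  have hval : ∀ x : P, Cfsg.indFun A lam x * (starRingEnd ℂ) (Cfsg.indFun A lam x) =
      if x ∈ Subgroup.center P then ((Nat.card A : ℂ)⁻¹ * (Nat.card P : ℂ)) ^ 2 else 0 := by
    intro x
    by_cases hx : x ∈ Subgroup.center P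
    · rw [if_pos hx, Cfsg.Agent.Helper15.indFun_apply_central A lam hx (hZA hx), map_mul, map_mul,
        map_inv₀, Complex.conj_natCast, Complex.conj_natCast]
      have : lam ⟨x, hZA hx⟩ * (starRingEnd ℂ) (lam ⟨x, hZA hx⟩) = 1 := by
        rw [hf, Complex.mul_conj, Complex.normSq_eq_norm_sq, Cfsg.Agent.Helper79.norm_hom_apply]
        simp
      linear_combination ((Nat.card A : ℂ)⁻¹ * (Nat.card P : ℂ)) ^ 2 * this
    · rw [if_neg hx, hvanish x hx, zero_mul]
  rw [Finset.sum_congr rfl (fun x _ => hval x), Finset.sum_ite, Finset.sum_const_zero, add_zero,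
    Finset.sum_const, nsmul_eq_mul]
  have hcardZ : (Finset.univ.filter (fun x : P => x ∈ Subgroup.center P)).card = p := by
    rw [← hZcard, Nat.card_eq_fintype_card, Fintype.card_subtype]
  rw [hcardZ, hA, hcard]
  have hp0 : (p : ℂ) ≠ 0 := Nat.cast_ne_zero.mpr (Fact.out : p.Prime).ne_zero
  push_cast
  field_simp
  ring

end Cfsg.Agent.S0893
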