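import Cfsg.Statements.S0894
import Cfsg.Agent.Helper15.Extraspecial2
import Cfsg.Agent.Helper80.CharKer

set_option autoImplicit false
open Cfsg

namespace Cfsg.Agent.S0894

/-- Let P be an extraspecial p-group of order p ^ (2 * n + 1). Then every irreducible character of P has degree 1 or p ^ n, and exactly p - 1 of them have degree p ^ n. -/
theorem result {P : Type*} [Group P] [Finite P] (p n : ℕ) [Fact p.Prime] (hP : Cfsg.IsExtraspecial p P) (hcard : Nat.card P = p ^ (2 * n + 1)) : (∀ χ : Cfsg.IrrCharacter P, (χ : P → ℂ) 1 = 1 ∨ (χ : P → ℂ) 1 = (p : ℂ) ^ n) ∧ Nat.card {χ : Cfsg.IrrCharacter P // (χ : P → ℂ) 1 = (p : ℂ) ^ n} = p - 1 := by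
  classical
  have := Fintype.ofFinite P
  have : Fintype (Cfsg.IrrCharacter P) := Fintype.ofFinite _
  obtain ⟨⟨hpg, hfrat, hcomm⟩, hZ⟩ := hP
  have hp : p.Prime := Fact.out
  have hp2 : 2 ≤ p := hp.two_le
  have hn : 1 ≤ n := by
    by_contra h
    have hn0 : n = 0 := by omega
    rw [hn0] at hcard
    simp only [mul_zero, zero_add, pow_one] at hcard
    have h1 : Subgroup.center P = ⊤ := Subgroup.eq_top_of_card_eq _ (by rw [hZ, hcard])
    have h2 : commutator P = ⊥ := (commutator_eq_bot_iff_center_eq_top (G := P)).mpr h1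
    rw [hcomm, h1] at h2
    have h3 : Nat.card P = 1 := by
      rw [← Subgroup.card_top (G := P), h2, Subgroup.card_bot]
    omega
  have key : ∀ χ : Cfsg.IrrCharacter P,
      ((∀ z ∈ Subgroup.center P, (χ : P → ℂ) z = (χ : P → ℂ) 1) → (χ : P → ℂ) 1 = 1) ∧
      (¬ (∀ z ∈ Subgroup.center P, (χ : P → ℂ) z = (χ : P → ℂ) 1) →
        (χ : P → ℂ) 1 = (p : ℂ) ^ n) := by
    intro χ
    obtain ⟨m, ρ, hρ, hχ⟩ := χ.2
    have h1 := Cfsg.Agent.Helper15.extraspecial_rep_degree hcomm hZ ρ hρ
    rw [hχ] at h1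
    have h2 : (χ : P → ℂ) 1 = (m : ℂ) := by
      rw [← hχ, Representation.char_one]; simp
    constructor
    · intro h
      rw [h2, h1.1 h]; simp
    · intro h
      have h3 := h1.2 h
      rw [hcard] at h3
      have h4 : m ^ 2 = (p ^ n) ^ 2 := by
        have : m ^ 2 * p = (p ^ n) ^ 2 * p := by rw [h3]; ring
        exact Nat.eq_of_mul_eq_mul_right hp.pos this
      have h5 : m = p ^ n := Nat.pow_left_injective (by norm_num : (2 : ℕ) ≠ 0) h4
      rw [h2, h5]; push_cast; rfl
  refine ⟨fun χ => ?_, ?_⟩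
  · by_cases h : ∀ z ∈ Subgroup.center P, (χ : P → ℂ) z = (χ : P → ℂ) 1
    · exact Or.inl ((key χ).1 h)
    · exact Or.inr ((key χ).2 h)
  · have hdeg : ∀ χ : Cfsg.IrrCharacter P,
        (χ : P → ℂ) 1 = (Cfsg.charDegree (χ : P → ℂ) : ℂ) := fun χ =>
      Cfsg.Agent.Helper80.irr_one_eq χ
    obtain ⟨L, hLdef⟩ : ∃ L : Finset (Cfsg.IrrCharacter P), ∀ χ, χ ∈ L ↔
        (∀ z ∈ Subgroup.center P, (χ : P → ℂ) z = (χ : P → ℂ) 1) :=
      ⟨Finset.univ.filter (fun χ : Cfsg.IrrCharacter P =>
        ∀ z ∈ Subgroup.center P, (χ : P → ℂ) z = (χ : P → ℂ) 1), fun χ => by simp⟩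
    have hL : ∑ χ ∈ L, Cfsg.charDegree (χ : P → ℂ) ^ 2 = (Subgroup.center P).index := by
      have h := Cfsg.Agent.Helper80.irr_sum_sq_of_le_ker (G := P) (Subgroup.center P)
      convert h using 2
      ext χ
      simp [hLdef]
    have hidx : (Subgroup.center P).index = p ^ (2 * n) := by
      have h1 := Subgroup.card_mul_index (Subgroup.center P)
      rw [hZ, hcard] at h1
      have : p * (Subgroup.center P).index = p * p ^ (2 * n) := by rw [h1]; ring
      exact Nat.eq_of_mul_eq_mul_left hp.pos this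
    rw [hidx] at hL
    have hL1 : ∀ χ ∈ L, Cfsg.charDegree (χ : P → ℂ) ^ 2 = 1 := by
      intro χ hχ
      have h1 := (key χ).1 ((hLdef χ).mp hχ)
      rw [hdeg χ] at h1
      have h2 : Cfsg.charDegree (χ : P → ℂ) = 1 := by exact_mod_cast h1
      rw [h2]; norm_num
    rw [Finset.sum_congr rfl hL1, Finset.sum_const, smul_eq_mul, mul_one] at hL
    have htot : ∑ χ : Cfsg.IrrCharacter P, Cfsg.charDegree (χ : P → ℂ) ^ 2 = Nat.card P := by
      have h := Cfsg.Agent.Helper80.irr_sum_charDegree_sq (G := P)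
      rw [Nat.card_eq_fintype_card]
      convert h
    rw [hcard, ← Finset.sum_sdiff (Finset.subset_univ L)] at htot
    rw [Finset.sum_congr rfl hL1 (s₁ := L), Finset.sum_const, smul_eq_mul, mul_one, hL] at htot
    have hNL : ∀ χ ∈ Finset.univ \ L, Cfsg.charDegree (χ : P → ℂ) ^ 2 = p ^ (2 * n) := by
      intro χ hχ
      have hχ' : ¬ ∀ z ∈ Subgroup.center P, (χ : P → ℂ) z = (χ : P → ℂ) 1 := by
        intro h
        exact (Finset.mem_sdiff.mp hχ).2 ((hLdef χ).mpr h)
      have h1 := (key χ).2 hχ'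
      rw [hdeg χ] at h1
      have h2 : Cfsg.charDegree (χ : P → ℂ) = p ^ n := by exact_mod_cast h1
      rw [h2]; ring
    rw [Finset.sum_congr rfl hNL, Finset.sum_const, smul_eq_mul] at htot
    have hcount : (Finset.univ \ L).card = p - 1 := by
      have hpos : 0 < p ^ (2 * n) := pow_pos hp.pos _
      have h1 : p ^ (2 * n) * ((Finset.univ \ L).card + 1) = p ^ (2 * n) * p := by
        rw [mul_add, mul_one, mul_comm (p ^ (2 * n)) (Finset.card _), htot]; ring
      have h2 := Nat.eq_of_mul_eq_mul_left hpos h1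
      omega
    rw [← hcount, Nat.card_eq_fintype_card]
    apply Fintype.card_of_subtype
    intro χ
    rw [Finset.mem_sdiff, hLdef]
    simp only [Finset.mem_univ, true_and]
    constructor
    · intro h
      exact (key χ).2 h
    · intro h hall
      have h1 := (key χ).1 hall
      rw [h1] at h
      have h2 : p ^ n = 1 := by exact_mod_cast h.symm
      have h3 : n = 0 := by
        rcases Nat.pow_eq_one.mp h2 with h4 | h4
        · omega
        · exact h4
      omega

end Cfsg.Agent.S0894
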