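import Cfsg.Statements.S0900
import Cfsg.Agent.Helper75.CliffordCorr

set_option autoImplicit false
open Cfsg

namespace Cfsg.Agent.S0900


open Cfsg.Agent.Helper75 in
theorem aux_R1 {G : Type*} [Group G] [Fintype G] (N : Subgroup G) [hN : N.Normal] [Fintype N]
    {χ : G → ℂ} (hχ : Cfsg.IsIrrCharacter G χ) {ϑ : N → ℂ} (hϑ : Cfsg.IsIrrCharacter N ϑ)
    (hcon : Cfsg.classInner (fun n : N => χ n) ϑ ≠ 0) (hinv : ∀ g : G, conjFun N g ϑ = ϑ) :
    ∃ e : ℕ, 0 < e ∧ (fun n : N => χ n) = (e : ℂ) • ϑ ∧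
      Cfsg.classInner (fun n : N => χ n) ϑ = (e : ℂ) := by
  have h1 := clifford_restrict N hχ hϑ hcon
  have hset : {ψ : N → ℂ | ∃ g : G, ψ = conjFun N g ϑ} = {ϑ} := by
    ext ψ
    constructor
    · rintro ⟨g, rfl⟩
      exact hinv g
    · intro h
      exact ⟨1, by rw [Set.mem_singleton_iff.mp h, conjFun_one]⟩
  rw [hset, finsum_mem_singleton] at h1
  obtain ⟨e, he⟩ := Cfsg.Agent.Helper3.classInner_isCharacter_nat
    (Cfsg.Agent.Helper79.isCharacter_restrict (Cfsg.Agent.Helper80.isCharacter_of_irr hχ) N)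
    (Cfsg.Agent.Helper80.isCharacter_of_irr hϑ)
  refine ⟨e, ?_, ?_, he⟩
  · rcases Nat.eq_zero_or_pos e with h0 | h
    · exfalso; apply hcon; rw [he, h0]; simp
    · exact h
  · rw [← he]; exact h1

theorem aux_normSq {K : Type*} [Group K] [Fintype K] {χ : K → ℂ} (hχ : Cfsg.IsIrrCharacter K χ) :
    ∑ g : K, ‖χ g‖ ^ 2 = (Fintype.card K : ℝ) := by
  have h := Cfsg.Agent.Helper80.irr_orthogonality_conj (⟨χ, hχ⟩ : Cfsg.IrrCharacter K) ⟨χ, hχ⟩
  rw [if_pos rfl] at h
  have h2 : ((∑ g : K, ‖χ g‖ ^ 2 : ℝ) : ℂ) = (Fintype.card K : ℂ) := by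
    rw [← h]
    push_cast
    apply Finset.sum_congr rfl
    intro g _
    rw [Complex.mul_conj, Complex.normSq_eq_norm_sq]
    push_cast
    rfl
  exact_mod_cast h2

open Cfsg.Agent.Helper75 in
/-- Degree bookkeeping for the character induced from `ϑ`. -/
theorem aux_ind {G : Type*} [Group G] [Fintype G] (N : Subgroup G) [hN : N.Normal] [Fintype N]
    [Fintype (Cfsg.IrrCharacter G)] {ϑ : N → ℂ} (hϑ : Cfsg.IsIrrCharacter N ϑ) :
    ∃ m : Cfsg.IrrCharacter G → ℕ,
      (∀ ψ : Cfsg.IrrCharacter G, Cfsg.classInner (Cfsg.indFun N ϑ) (ψ : G → ℂ) = (m ψ : ℂ)) ∧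
      (∀ ψ : Cfsg.IrrCharacter G, (starRingEnd ℂ) (Cfsg.classInner (fun n : N => (ψ : G → ℂ) n) ϑ) = (m ψ : ℂ)) ∧
      N.index * Cfsg.charDegree ϑ = ∑ ψ : Cfsg.IrrCharacter G, m ψ * Cfsg.charDegree (ψ : G → ℂ) := by
  classical
  have hϑc := Cfsg.Agent.Helper80.isCharacter_of_irr hϑ
  have hΦ : Cfsg.IsCharacter G (Cfsg.indFun N ϑ) := Cfsg.Agent.Helper3.isCharacter_indFun N ϑ hϑc
  obtain ⟨m, hm⟩ := exists_nat_mult hΦ
  refine ⟨m, hm, ?_, ?_⟩
  · intro ψ
    rw [← hm ψ, Cfsg.Agent.Helper3.frobenius_reciprocity N ϑ _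
      (isCharacter_isClassFunction' (Cfsg.Agent.Helper80.isCharacter_of_irr ψ.2)),
      classInner_conj_symm (fun n : N => (ψ : G → ℂ) n) ϑ]
  · have hsum := character_eq_sum_irr hΦ
    have h1 := congrFun hsum 1
    rw [Finset.sum_apply, indFun_one, Cfsg.Agent.Helper80.isCharacter_one_eq hϑc] at h1
    have hNne : (Nat.card N : ℂ) ≠ 0 := by exact_mod_cast (Nat.card_pos (α := N)).ne'
    have hquot : (Nat.card G : ℂ) / (Nat.card N : ℂ) = (N.index : ℂ) := by
      rw [← Subgroup.index_mul_card N]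
      push_cast
      field_simp
    rw [hquot] at h1
    have h2 : ((N.index * Cfsg.charDegree ϑ : ℕ) : ℂ) =
        ((∑ ψ : Cfsg.IrrCharacter G, m ψ * Cfsg.charDegree (ψ : G → ℂ) : ℕ) : ℂ) := by
      push_cast
      rw [h1]
      apply Finset.sum_congr rfl
      intro ψ _
      rw [Pi.smul_apply, smul_eq_mul, hm ψ, Cfsg.Agent.Helper80.irr_one_eq ψ]
    exact_mod_cast h2

/-- Let N be a normal subgroup of the finite group G, χ an irreducible character of G and ϑ an irreducible character of N having nonzero inner product with the restriction of χ. Consider: (a) the restriction of χ to N is e • ϑ for a natural number e with e ^ 2 equal to the index of N; (b) χ vanishes outside N and ϑ is invariant under conjugation by G; (c) ϑ is invariant and every irreducible character of G having nonzero inner product with the function induced from ϑ equals χ. Then (a) ↔ (b) and (a) ↔ (c). -/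
theorem result {G : Type*} [Group G] [Fintype G] (N : Subgroup G) [hN : N.Normal] [Fintype N] (χ : G → ℂ) (hχ : Cfsg.IsIrrCharacter G χ) (ϑ : N → ℂ) (hϑ : Cfsg.IsIrrCharacter N ϑ) (hcon : Cfsg.classInner (fun n : N => χ n) ϑ ≠ 0) : ((∃ e : ℕ, (fun n : N => χ n) = (e : ℂ) • ϑ ∧ e ^ 2 = N.index) ↔ ((∀ g : G, g ∉ N → χ g = 0) ∧ ∀ (g : G) (n : N), ϑ ⟨g * n * g⁻¹, hN.conj_mem (n : G) n.2 g⟩ = ϑ n)) ∧ ((∃ e : ℕ, (fun n : N => χ n) = (e : ℂ) • ϑ ∧ e ^ 2 = N.index) ↔ (∀ (g : G) (n : N), ϑ ⟨g * n * g⁻¹, hN.conj_mem (n : G) n.2 g⟩ = ϑ n ∧ ∀ ψ : G → ℂ, Cfsg.IsIrrCharacter G ψ → Cfsg.classInner (Cfsg.indFun N ϑ) ψ ≠ 0 → ψ = χ)) := by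
  classical
  let _ : Fintype (Cfsg.IrrCharacter G) := Fintype.ofFinite _
  have hχc := Cfsg.Agent.Helper80.isCharacter_of_irr hχ
  have hϑc := Cfsg.Agent.Helper80.isCharacter_of_irr hϑ
  have hχcl := Cfsg.Agent.Helper75.isCharacter_isClassFunction' hχc
  have hidx : N.index * Fintype.card N = Fintype.card G := by
    rw [← Nat.card_eq_fintype_card, ← Nat.card_eq_fintype_card]
    exact Subgroup.index_mul_card N
  have hidxpos : 0 < N.index := Nat.pos_of_ne_zero Subgroup.index_ne_zero_of_finite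
  have hdϑpos : 0 < Cfsg.charDegree ϑ := Cfsg.Agent.Helper80.irr_degree_pos ⟨ϑ, hϑ⟩
  -- norm sums
  have hnormG := aux_normSq hχ
  have hnormN := aux_normSq hϑ
  have hsplit : ∑ g : G, ‖χ g‖ ^ 2 = ∑ n : N, ‖χ n‖ ^ 2 +
      ∑ g ∈ Finset.univ.filter (fun g : G => g ∉ N), ‖χ g‖ ^ 2 := by
    rw [← Finset.sum_filter_add_sum_filter_not Finset.univ (fun g : G => g ∈ N)]
    congr 1
    exact Finset.sum_subtype (Finset.univ.filter (fun g : G => g ∈ N))
      (fun x => by simp) (fun g : G => ‖χ g‖ ^ 2)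
  have hsmul : ∀ e : ℕ, (fun n : N => χ n) = (e : ℂ) • ϑ →
      ∑ n : N, ‖χ n‖ ^ 2 = (e : ℝ) ^ 2 * (Fintype.card N : ℝ) := by
    intro e he
    rw [← hnormN, Finset.mul_sum]
    apply Finset.sum_congr rfl
    intro n _
    have := congrFun he n
    simp only [Pi.smul_apply, smul_eq_mul] at this
    rw [this, norm_mul, Complex.norm_natCast]
    ring
  -- invariance from (a)
  have hinv_of_a : (∃ e : ℕ, (fun n : N => χ n) = (e : ℂ) • ϑ ∧ e ^ 2 = N.index) →
      ∀ g : G, Cfsg.Agent.Helper75.conjFun N g ϑ = ϑ := by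
    rintro ⟨e, he, hidx2⟩ g
    have he0 : (e : ℂ) ≠ 0 := by
      have : e ≠ 0 := by
        rintro rfl
        simp at hidx2
        omega
      exact_mod_cast this
    have h1 := Cfsg.Agent.Helper75.conjFun_restrict N g χ hχcl
    rw [he] at h1
    have h2 : Cfsg.Agent.Helper75.conjFun N g ((e : ℂ) • ϑ) =
        (e : ℂ) • Cfsg.Agent.Helper75.conjFun N g ϑ := rfl
    rw [h2] at h1
    exact smul_right_injective _ he0 h1
  have hinv_conv : (∀ (g : G) (n : N), ϑ ⟨g * n * g⁻¹, hN.conj_mem (n : G) n.2 g⟩ = ϑ n) ↔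
      ∀ g : G, Cfsg.Agent.Helper75.conjFun N g ϑ = ϑ :=
    ⟨fun h g => funext (h g), fun h g n => congrFun (h g) n⟩
  -- degree of χ from χ_N = e • ϑ
  have hdeg : ∀ e : ℕ, (fun n : N => χ n) = (e : ℂ) • ϑ →
      Cfsg.charDegree χ = e * Cfsg.charDegree ϑ := by
    intro e he
    apply Cfsg.Agent.Helper75.charDegree_of_one_eq_nat
    have := congrFun he 1
    simp only [Pi.smul_apply, smul_eq_mul, OneMemClass.coe_one] at this
    rw [this, Cfsg.Agent.Helper80.isCharacter_one_eq hϑc]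
    push_cast
    rfl
  obtain ⟨m, hm1, hm2, hm3⟩ := aux_ind N hϑ
  constructor
  · constructor
    · intro ha
      refine ⟨?_, hinv_conv.mpr (hinv_of_a ha)⟩
      obtain ⟨e, he, hidx2⟩ := ha
      have h1 := hsmul e he
      have h2 : (e : ℝ) ^ 2 * (Fintype.card N : ℝ) = (Fintype.card G : ℝ) := by
        rw [← hidx, ← hidx2]
        push_cast
        ring
      have h3 : ∑ g ∈ Finset.univ.filter (fun g : G => g ∉ N), ‖χ g‖ ^ 2 = 0 := by
        linarith
      intro g hg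
      have h4 := (Finset.sum_eq_zero_iff_of_nonneg (fun x _ => by positivity)).mp h3 g
        (Finset.mem_filter.mpr ⟨Finset.mem_univ _, hg⟩)
      exact norm_eq_zero.mp (pow_eq_zero_iff (two_ne_zero) |>.mp h4)
    · rintro ⟨hvan, hinv⟩
      obtain ⟨e, hepos, he, -⟩ := aux_R1 N hχ hϑ hcon (hinv_conv.mp hinv)
      refine ⟨e, he, ?_⟩
      have h1 := hsmul e he
      have h3 : ∑ g ∈ Finset.univ.filter (fun g : G => g ∉ N), ‖χ g‖ ^ 2 = 0 := by
        apply Finset.sum_eq_zero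
        intro g hg
        rw [hvan g (Finset.mem_filter.mp hg).2]
        simp
      have h2 : (e : ℝ) ^ 2 * (Fintype.card N : ℝ) = (Fintype.card G : ℝ) := by linarith
      have h4 : e ^ 2 * Fintype.card N = N.index * Fintype.card N := by
        rw [hidx]
        exact_mod_cast h2
      exact Nat.eq_of_mul_eq_mul_right Fintype.card_pos h4
  · constructor
    · intro ha
      have hinv := hinv_of_a ha
      obtain ⟨e, he, hidx2⟩ := ha
      have hmχ : m ⟨χ, hχ⟩ = e := by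
        have h1 := hm2 ⟨χ, hχ⟩
        have h2 : Cfsg.classInner (fun n : N => χ n) ϑ = (e : ℂ) := by
          rw [he, Cfsg.Agent.Helper75.classInner_smul_left,
            Cfsg.Agent.Helper75.classInner_irr_self hϑ, mul_one]
        have h3 : (starRingEnd ℂ) (Cfsg.classInner (fun n : N => χ n) ϑ) = (m ⟨χ, hχ⟩ : ℂ) := h1
        rw [h2, Complex.conj_natCast] at h3
        exact_mod_cast h3.symm
      have hrest : ∑ ψ ∈ Finset.univ.erase (⟨χ, hχ⟩ : Cfsg.IrrCharacter G),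
          m ψ * Cfsg.charDegree (ψ : G → ℂ) = 0 := by
        rw [← Finset.add_sum_erase Finset.univ _ (Finset.mem_univ (⟨χ, hχ⟩ : Cfsg.IrrCharacter G)),
          hmχ, hdeg e he, ← hidx2] at hm3
        have : e ^ 2 * Cfsg.charDegree ϑ = e * (e * Cfsg.charDegree ϑ) := by ring
        omega
      intro g n
      refine ⟨congrFun (hinv g) n, ?_⟩
      intro ψ hψ hne
      by_contra hψχ
      have hψne : (⟨ψ, hψ⟩ : Cfsg.IrrCharacter G) ≠ ⟨χ, hχ⟩ := fun h => hψχ (congrArg Subtype.val h)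
      have h5 := (Finset.sum_eq_zero_iff.mp hrest) ⟨ψ, hψ⟩
        (Finset.mem_erase.mpr ⟨hψne, Finset.mem_univ _⟩)
      rcases Nat.mul_eq_zero.mp h5 with h | h
      · apply hne
        have := hm1 ⟨ψ, hψ⟩
        rw [h] at this
        simpa using this
      · exact absurd h (Cfsg.Agent.Helper80.irr_degree_pos ⟨ψ, hψ⟩).ne'
    · intro hc
      have hinv : ∀ g : G, Cfsg.Agent.Helper75.conjFun N g ϑ = ϑ :=
        fun g => funext (fun n => (hc g n).1)
      have huniq := (hc 1 1).2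
      obtain ⟨e, hepos, he, hee⟩ := aux_R1 N hχ hϑ hcon hinv
      refine ⟨e, he, ?_⟩
      have hmχ : m ⟨χ, hχ⟩ = e := by
        have h3 : (starRingEnd ℂ) (Cfsg.classInner (fun n : N => χ n) ϑ) = (m ⟨χ, hχ⟩ : ℂ) :=
          hm2 ⟨χ, hχ⟩
        rw [hee, Complex.conj_natCast] at h3
        exact_mod_cast h3.symm
      have hm0 : ∀ ψ : Cfsg.IrrCharacter G, ψ ≠ ⟨χ, hχ⟩ → m ψ = 0 := by
        intro ψ hψ
        by_contra h0
        apply hψ
        apply Subtype.ext
        apply huniq ψ ψ.2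
        rw [hm1 ψ]
        exact_mod_cast h0
      rw [Finset.sum_eq_single (⟨χ, hχ⟩ : Cfsg.IrrCharacter G)
        (fun ψ _ hψ => by rw [hm0 ψ hψ, zero_mul])
        (fun h => absurd (Finset.mem_univ _) h), hmχ, hdeg e he] at hm3
      have h6 : N.index * Cfsg.charDegree ϑ = e ^ 2 * Cfsg.charDegree ϑ := by
        rw [hm3]; ring
      exact (Nat.eq_of_mul_eq_mul_right hdϑpos h6).symm

end Cfsg.Agent.S0900
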