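import Mathlib
import Cfsg.Statements.S0901
import Cfsg.Agent.Helper15.AlgIntMod

set_option autoImplicit false
open Cfsg

namespace Cfsg.Agent.S0901

open Cfsg.Agent.Helper15

theorem result (p : ℕ) [Fact p.Prime] (M : Ideal Cfsg.AlgInt) (hM : Cfsg.IsPModular p M) : (∀ ε₁ ε₂ : Cfsg.AlgInt, (∃ m : ℕ, ¬ p ∣ m ∧ (ε₁ : ℂ) ^ m = 1) → (∃ m : ℕ, ¬ p ∣ m ∧ (ε₂ : ℂ) ^ m = 1) → ε₁ - ε₂ ∈ M → ε₁ = ε₂) ∧ (∀ a : Cfsg.AlgInt, a ∉ M → ∃ ε : Cfsg.AlgInt, (∃ m : ℕ, ¬ p ∣ m ∧ (ε : ℂ) ^ m = 1) ∧ a - ε ∈ M) := by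
  refine ⟨?_, ?_⟩
  · rintro ε₁ ε₂ ⟨m₁, hm₁, h1⟩ ⟨m₂, hm₂, h2⟩ hmem
    have hm : ¬ p ∣ m₁ * m₂ := by
      intro h
      rcases (Nat.Prime.dvd_mul hM.1).mp h with h | h
      · exact hm₁ h
      · exact hm₂ h
    apply algInt_root_inj p M hM ε₁ ε₂ (m₁ * m₂) hm _ _ hmem
    · apply Subtype.ext
      push_cast
      rw [pow_mul, h1, one_pow]
    · apply Subtype.ext
      push_cast
      rw [mul_comm, pow_mul, h2, one_pow]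
  · intro a ha
    obtain ⟨ε, n, hpn, hε, hmem⟩ := algInt_exists_root_congr p M hM a ha
    refine ⟨ε, ⟨n, hpn, ?_⟩, hmem⟩
    have := congrArg (fun x : Cfsg.AlgInt => (x : ℂ)) hε
    simpa using this

end Cfsg.Agent.S0901
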