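import Cfsg.Statements.S0903

set_option autoImplicit false
open Cfsg

namespace Cfsg.Agent.S0903

/-- The set of pairs. -/
def pairSet {G : Type*} [Group G] (c g h : G) : Set (G × G) :=
  {xy : G × G | IsConj g xy.1 ∧ IsConj h xy.2 ∧ xy.1 * xy.2 = c}

theorem conj_mem_pairSet {G : Type*} [Group G] (P : Subgroup G) (c : G)
    (hc : c ∈ Subgroup.centralizer (P : Set G)) (g h : G) (u : P) (xy : G × G)
    (hxy : xy ∈ pairSet c g h) :
    ((u : G) * xy.1 * (u : G)⁻¹, (u : G) * xy.2 * (u : G)⁻¹) ∈ pairSet c g h := by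
  obtain ⟨h1, h2, h3⟩ := hxy
  refine ⟨?_, ?_, ?_⟩
  · exact h1.trans (isConj_iff.mpr ⟨u, rfl⟩)
  · exact h2.trans (isConj_iff.mpr ⟨u, rfl⟩)
  · have hcu : (u : G) * c = c * (u : G) := hc (u : G) u.2
    calc (u : G) * xy.1 * (u : G)⁻¹ * ((u : G) * xy.2 * (u : G)⁻¹)
        = (u : G) * (xy.1 * xy.2) * (u : G)⁻¹ := by group
      _ = (u : G) * c * (u : G)⁻¹ := by rw [h3]
      _ = c := by rw [hcu]; group

/-- The conjugation action of `P` on the set of pairs. -/
noncomputable def pairAction {G : Type*} [Group G] (P : Subgroup G) (c : G)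
    (hc : c ∈ Subgroup.centralizer (P : Set G)) (g h : G) : MulAction P (pairSet c g h) where
  smul u xy := ⟨((u : G) * xy.1.1 * (u : G)⁻¹, (u : G) * xy.1.2 * (u : G)⁻¹),
    conj_mem_pairSet P c hc g h u xy.1 xy.2⟩
  one_smul xy := by
    apply Subtype.ext
    change (((1 : P) : G) * xy.1.1 * ((1 : P) : G)⁻¹, ((1 : P) : G) * xy.1.2 * ((1 : P) : G)⁻¹) = xy.1
    simp
  mul_smul u v xy := by
    apply Subtype.ext
    change (((u * v : P) : G) * xy.1.1 * ((u * v : P) : G)⁻¹,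
      ((u * v : P) : G) * xy.1.2 * ((u * v : P) : G)⁻¹) =
      ((u : G) * ((v : G) * xy.1.1 * (v : G)⁻¹) * (u : G)⁻¹,
       (u : G) * ((v : G) * xy.1.2 * (v : G)⁻¹) * (u : G)⁻¹)
    simp [mul_assoc]

theorem result {G : Type*} [Group G] [Finite G] (p : ℕ) [Fact p.Prime] (P : Subgroup G) (hP : IsPGroup p P) (c : G) (hc : c ∈ Subgroup.centralizer (P : Set G)) (g h : G) : Nat.card {xy : G × G // IsConj g xy.1 ∧ IsConj h xy.2 ∧ xy.1 * xy.2 = c} ≡ Nat.card {xy : G × G // IsConj g xy.1 ∧ IsConj h xy.2 ∧ xy.1 * xy.2 = c ∧ xy.1 ∈ Subgroup.centralizer (P : Set G) ∧ xy.2 ∈ Subgroup.centralizer (P : Set G)} [MOD p] := by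
  letI : MulAction P (pairSet c g h) := pairAction P c hc g h
  have key := hP.card_modEq_card_fixedPoints (pairSet c g h)
  have e : (MulAction.fixedPoints P (pairSet c g h)) ≃
      {xy : G × G // IsConj g xy.1 ∧ IsConj h xy.2 ∧ xy.1 * xy.2 = c ∧
        xy.1 ∈ Subgroup.centralizer (P : Set G) ∧ xy.2 ∈ Subgroup.centralizer (P : Set G)} :=
    { toFun := fun z => ⟨z.1.1, z.1.2.1, z.1.2.2.1, z.1.2.2.2, by
          intro u hu
          have := z.2 ⟨u, hu⟩
          have h1 : u * z.1.1.1 * u⁻¹ = z.1.1.1 := congrArg (fun w => w.1.1) this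
          calc u * z.1.1.1 = u * z.1.1.1 * u⁻¹ * u := by group
            _ = z.1.1.1 * u := by rw [h1], by
          intro u hu
          have := z.2 ⟨u, hu⟩
          have h1 : u * z.1.1.2 * u⁻¹ = z.1.1.2 := congrArg (fun w => w.1.2) this
          calc u * z.1.1.2 = u * z.1.1.2 * u⁻¹ * u := by group
            _ = z.1.1.2 * u := by rw [h1]⟩
      invFun := fun w => ⟨⟨w.1, w.2.1, w.2.2.1, w.2.2.2.1⟩, by
          intro u
          apply Subtype.ext
          change ((u : G) * w.1.1 * (u : G)⁻¹, (u : G) * w.1.2 * (u : G)⁻¹) = w.1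
          have h1 : (u : G) * w.1.1 = w.1.1 * (u : G) := w.2.2.2.2.1 (u : G) u.2
          have h2 : (u : G) * w.1.2 = w.1.2 * (u : G) := w.2.2.2.2.2 (u : G) u.2
          rw [h1, h2]
          simp⟩
      left_inv := fun z => rfl
      right_inv := fun w => rfl }
  have e2 : Nat.card {xy : G × G // IsConj g xy.1 ∧ IsConj h xy.2 ∧ xy.1 * xy.2 = c} =
      Nat.card (pairSet c g h) := rfl
  rw [e2, ← Nat.card_congr e]
  exact key

end Cfsg.Agent.S0903
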