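import Mathlib
import Cfsg.Statements.S0905
import Cfsg.Agent.Helper15.PGroupAlg

set_option autoImplicit false
open Cfsg

namespace Cfsg.Agent.S0905

open Cfsg.Agent.Helper15 MonoidAlgebra

theorem classSum_eq (F : Type*) [Field F] {G : Type*} [Group G] [Fintype G] (g : G)
    [DecidablePred (fun x : G => IsConj x g)] :
    (∑ᶠ x ∈ ConjClasses.carrier (ConjClasses.mk g), MonoidAlgebra.single x (1 : F) :
      MonoidAlgebra F G) = ∑ x : G, if IsConj x g then single x (1 : F) else 0 := by
  classical
  rw [finsum_eq_sum_of_fintype]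
  apply Finset.sum_congr rfl
  intro x _
  rw [finsum_eq_if]
  simp [ConjClasses.mem_carrier_iff_mk_eq, ConjClasses.mk_eq_mk_iff_isConj]

theorem isConj_conj_iff {G : Type*} [Group G] (x y g : G) :
    IsConj (y⁻¹ * x * y) g ↔ IsConj x g := by
  have h : IsConj (y⁻¹ * x * y) x := isConj_iff.mpr ⟨y, by group⟩
  exact ⟨fun h1 => h.symm.trans h1, fun h1 => h.trans h1⟩

theorem classSum_central (F : Type*) [Field F] {G : Type*} [Group G] [Fintype G] (g : G)
    [DecidablePred (fun x : G => IsConj x g)] (a : MonoidAlgebra F G) :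
    (∑ x : G, if IsConj x g then single x (1 : F) else 0) * a =
      a * ∑ x : G, if IsConj x g then single x (1 : F) else 0 := by
  induction a using MonoidAlgebra.induction_linear with
  | zero => simp
  | add x y hx hy => rw [mul_add, add_mul, hx, hy]
  | single y r =>
    rw [Finset.sum_mul, Finset.mul_sum]
    rw [← Equiv.sum_comp (MulAut.conj y⁻¹).toEquiv
      (fun x => single y r * if IsConj x g then single x (1 : F) else 0)]
    apply Finset.sum_congr rfl
    intro x _
    have h1 : (MulAut.conj y⁻¹).toEquiv x = y⁻¹ * x * y := by simp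
    rw [h1]
    by_cases h : IsConj x g
    · rw [if_pos h, if_pos ((isConj_conj_iff x y g).mpr h), single_mul_single,
        single_mul_single]
      congr 1
      · group
      · ring
    · rw [if_neg h, if_neg (fun h' => h ((isConj_conj_iff x y g).mp h')), zero_mul, mul_zero]

/-- The conjugation action of a normal subgroup on the part of a conjugacy class lying in a
coset. -/
def fibAction {G : Type*} [Group G] (N : Subgroup G) [hN : N.Normal] (g : G) (q : G ⧸ N) :
    MulAction N {x : G // IsConj x g ∧ (QuotientGroup.mk x : G ⧸ N) = q} where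
  smul u x := ⟨(u : G) * x.1 * (u : G)⁻¹,
    (isConj_iff.mpr ⟨(u : G)⁻¹, by group⟩ :
      IsConj ((u : G) * x.1 * (u : G)⁻¹) x.1).trans x.2.1, by
    rw [QuotientGroup.mk_mul, QuotientGroup.mk_mul, QuotientGroup.mk_inv,
      (QuotientGroup.eq_one_iff (u : G)).mpr u.2]
    simp [x.2.2]⟩
  one_smul x := by
    apply Subtype.ext
    change ((1 : N) : G) * x.1 * ((1 : N) : G)⁻¹ = x.1
    simp
  mul_smul u v x := by
    apply Subtype.ext
    change ((u * v : N) : G) * x.1 * ((u * v : N) : G)⁻¹ =
      (u : G) * ((v : G) * x.1 * (v : G)⁻¹) * (u : G)⁻¹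
    simp [mul_assoc]

theorem result {G : Type*} [Group G] [Finite G] (p : ℕ) [Fact p.Prime] (F : Type*) [Field F] [CharP F p] (g : G) (hg : ∀ x : G, IsConj g x → x ∉ Subgroup.centralizer (Cfsg.pCore p G : Set G)) : IsNilpotent (∑ᶠ x ∈ ConjClasses.carrier (ConjClasses.mk g), MonoidAlgebra.single x (1 : F) : MonoidAlgebra F G) := by
  classical
  haveI := Fintype.ofFinite G
  haveI hnorm : (Cfsg.pCore p G).Normal := Subgroup.sSup_normal _ (fun _ h => h.1)
  have hpg : IsPGroup p (Cfsg.pCore p G) :=
    Sylow.sSup_of_normal _ (fun _ h => h.2) (fun _ h => h.1)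
  rw [classSum_eq F g]
  apply isNilpotent_of_central_of_map_eq_zero p (Cfsg.pCore p G) hpg _ (classSum_central F g)
  change mapDomainRingHom F (QuotientGroup.mk' (Cfsg.pCore p G)) _ = 0
  rw [map_sum]
  rw [← coeff_inj]
  ext q
  rw [coeff_sum, Finsupp.finsetSum_apply]
  have h1 : ∀ x : G, ((mapDomainRingHom F (QuotientGroup.mk' (Cfsg.pCore p G)))
      (if IsConj x g then single x (1 : F) else 0)).coeff q =
      if (IsConj x g ∧ (QuotientGroup.mk x : G ⧸ Cfsg.pCore p G) = q) then (1 : F) else 0 := by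
    intro x
    by_cases h : IsConj x g
    · rw [if_pos h, mapDomainRingHom_apply, mapDomain_single, coeff_single, Finsupp.single_apply]
      by_cases hq : (QuotientGroup.mk x : G ⧸ Cfsg.pCore p G) = q
      · have e1 : (if IsConj x g ∧ (QuotientGroup.mk x : G ⧸ Cfsg.pCore p G) = q
            then (1 : F) else 0) = 1 := if_pos ⟨h, hq⟩
        rw [e1]; exact if_pos hq
      · have e1 : (if IsConj x g ∧ (QuotientGroup.mk x : G ⧸ Cfsg.pCore p G) = q
            then (1 : F) else 0) = 0 := if_neg (fun h' => hq h'.2)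
        rw [e1]; exact if_neg hq
    · rw [if_neg h, map_zero, if_neg (fun h' => h h'.1)]
      rfl
  rw [Finset.sum_congr rfl (fun x _ => h1 x), Finset.sum_boole]
  simp only [coeff_zero, Finsupp.coe_zero, Pi.zero_apply]
  rw [CharP.cast_eq_zero_iff F p]
  -- the count is divisible by p
  letI : MulAction (Cfsg.pCore p G)
      {x : G // IsConj x g ∧ (QuotientGroup.mk x : G ⧸ Cfsg.pCore p G) = q} :=
    fibAction (Cfsg.pCore p G) g q
  have hmod := hpg.card_modEq_card_fixedPoints
    {x : G // IsConj x g ∧ (QuotientGroup.mk x : G ⧸ Cfsg.pCore p G) = q}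
  have hempty : IsEmpty (MulAction.fixedPoints (Cfsg.pCore p G)
      {x : G // IsConj x g ∧ (QuotientGroup.mk x : G ⧸ Cfsg.pCore p G) = q}) := by
    constructor
    rintro ⟨x, hx⟩
    apply hg x.1 x.2.1.symm
    rw [Subgroup.mem_centralizer_iff]
    intro u hu
    have h2 := hx ⟨u, hu⟩
    have h3 : u * x.1 * u⁻¹ = x.1 := congrArg Subtype.val h2
    calc u * x.1 = u * x.1 * u⁻¹ * u := by group
      _ = x.1 * u := by rw [h3]
  rw [Nat.card_of_isEmpty (α := MulAction.fixedPoints _ _)] at hmod
  have h4 := (Nat.modEq_zero_iff_dvd.mp hmod)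
  rw [Nat.card_eq_fintype_card, Fintype.card_subtype] at h4
  exact h4

end Cfsg.Agent.S0905
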