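import Cfsg.Statements.S0908
-- import your own Cfsg.Agent.* helpers here
import Cfsg.Agent.Helper81.BlockDefect

set_option autoImplicit false
open Cfsg

namespace Cfsg.Agent.S0908

open Cfsg.Agent.Helper81 in
/-- Let B be a block of the finite group G relative to a maximal ideal M of the algebraic integers containing the prime p, and let D be a defect group of B. Then the order of D is p ^ d, where d is the exponent of p in the order of G minus the least exponent of p in the degrees of the members of B. -/
theorem result {G : Type*} [Group G] [Finite G] (p : ℕ) [Fact p.Prime] (M : Ideal Cfsg.AlgInt) (hM : Cfsg.IsPModular p M) (B : Set (Cfsg.IrrCharacter G)) (hB : Cfsg.IsPBlock M B) (D : Subgroup G) (hD : Cfsg.IsDefectGroup p M B D) : Nat.card D = p ^ Cfsg.blockDefect p B := by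
  classical
  have := Fintype.ofFinite G
  have hp : p.Prime := Fact.out
  have hP : M.IsPrime := isPrime_of_isPModular hM
  have hMtop := ne_top_of_isPModular hM
  obtain ⟨g, ⟨hg1, hg2, hg3⟩, P, rfl⟩ := hD
  obtain ⟨C, hC⟩ : ∃ C : Subgroup G, C = Subgroup.centralizer ({g} : Set G) := ⟨_, rfl⟩
  -- the order of the defect group
  have hcardD : Nat.card ((P : Subgroup (Subgroup.centralizer ({g} : Set G))).map
      (Subgroup.centralizer ({g} : Set G)).subtype)
      = p ^ (Nat.card (Subgroup.centralizer ({g} : Set G))).factorization p := by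
    rw [Subgroup.card_subtype]
    exact Sylow.card_eq_multiplicity P
  rw [hcardD, Cfsg.blockDefect]
  congr 1
  -- notation
  obtain ⟨S, hS⟩ : ∃ S : Set ℕ, S = (fun χ : Cfsg.IrrCharacter G =>
      (Cfsg.charDegree (χ : G → ℂ)).factorization p) '' B := ⟨_, rfl⟩
  rw [← hS]
  obtain ⟨χ₀, hχ₀⟩ := hB
  have hχ₀B : χ₀ ∈ B := by rw [hχ₀]; exact mem_blockOf_self χ₀
  have hSne : S.Nonempty := by rw [hS]; exact ⟨_, Set.mem_image_of_mem _ hχ₀B⟩
  have hmem := Nat.sInf_mem hSne
  have hle : ∀ χ ∈ B, sInf S ≤ (Cfsg.charDegree (χ : G → ℂ)).factorization p := by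
    intro χ hχ
    apply Nat.sInf_le
    rw [hS]
    exact Set.mem_image_of_mem _ hχ
  obtain ⟨m, hm⟩ : ∃ m : ℕ, m = sInf S := ⟨_, rfl⟩
  rw [← hm] at hmem hle ⊢
  rw [hS] at hmem
  obtain ⟨χ₁, hχ₁B, hχ₁⟩ := hmem
  -- the group order
  have hidx := Subgroup.card_mul_index (Subgroup.centralizer ({g} : Set G))
  have hC0 : Nat.card (Subgroup.centralizer ({g} : Set G)) ≠ 0 := Nat.card_pos.ne'
  have hk0 : (Subgroup.centralizer ({g} : Set G)).index ≠ 0 := Subgroup.index_ne_zero_of_finite
  have hfac : (Nat.card G).factorization p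
      = (Nat.card (Subgroup.centralizer ({g} : Set G))).factorization p
        + ((Subgroup.centralizer ({g} : Set G)).index).factorization p := by
    rw [← hidx, Nat.factorization_mul hC0 hk0]
    rfl
  -- lower bound
  have hlow : ((Subgroup.centralizer ({g} : Set G)).index).factorization p ≤ m := by
    by_contra hcon
    push Not at hcon
    apply hg3 χ₁ hχ₁B
    apply memLocalIdeal_centralChar_of_lt hM χ₁ g
    have hχ₁' : (Cfsg.charDegree (χ₁ : G → ℂ)).factorization p = m := hχ₁
    rw [hχ₁']
    exact hcon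
  -- upper bound
  have hup : (Nat.card (Subgroup.centralizer ({g} : Set G))).factorization p + m
      ≤ (Nat.card G).factorization p := by
    by_contra hcon
    push Not at hcon
    apply hg2
    refine memLocalIdeal_blockCoeff_of_lt hM ⟨χ₀, hχ₀⟩ g
      ((P : Subgroup (Subgroup.centralizer ({g} : Set G))).map
        (Subgroup.centralizer ({g} : Set G)).subtype) ?_ ?_ _ m hcardD ?_ hcon
    · exact P.isPGroup'.map _
    · intro u hu
      obtain ⟨v, -, rfl⟩ := Subgroup.mem_map.mp hu
      have := v.2
      rw [Subgroup.mem_centralizer_iff] at this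
      exact this g (Set.mem_singleton g)
    · intro χ hχ
      exact dvd_trans (pow_dvd_pow p (hle χ hχ)) (Nat.ordProj_dvd _ p)
  omega

end Cfsg.Agent.S0908
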