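import Cfsg.Statements.S0915
import Cfsg.Agent.Helper76.Fong
import Cfsg.Agent.Helper16.BlockCore
-- import your own Cfsg.Agent.* helpers here

set_option autoImplicit false
open Cfsg

namespace Cfsg.Agent.S0915

/-- Let G be a finite p-solvable group with trivial largest normal subgroup of order prime to p. Then any two irreducible characters of G lie in the same block relative to every maximal ideal M of the algebraic integers containing p: G has a single p-block. -/
theorem result {G : Type*} [Group G] [Finite G] (p : ℕ) [Fact p.Prime] (M : Ideal Cfsg.AlgInt) (hM : Cfsg.IsPModular p M) (hsolv : Cfsg.IsPSolvable p G) (hcore : Cfsg.pPrimeCore p G = ⊥) (χ ψ : Cfsg.IrrCharacter G) : Cfsg.SameBlock M (χ : G → ℂ) (ψ : G → ℂ) := by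
  classical
  have hs := Cfsg.Agent.Helper76.isPSolvableElt_of_isPSolvable hsolv
  have h1 : ∀ φ : Cfsg.IrrCharacter G, φ ∈ Cfsg.principalBlock M G := fun φ =>
    Cfsg.Agent.Helper76.mem_principalBlock_of_isPSolvableElt hM hs φ (by
      intro n hn
      rw [hcore] at hn
      rw [Subgroup.mem_bot.mp hn])
  exact Cfsg.Agent.Helper16.sameBlock_trans hM.2.1
    (Cfsg.Agent.Helper16.sameBlock_symm (h1 χ)) (h1 ψ)

end Cfsg.Agent.S0915
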