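import Cfsg.Statements.S0926
import Cfsg.Agent.Helper16.HeightZero
import Cfsg.Agent.Helper16.DefectGroup

set_option autoImplicit false
open Cfsg

namespace Cfsg.Agent.S0926

/-- Let B be a block of the finite group G with defect group D (relative to a maximal ideal M of the algebraic integers containing p), let χ ∈ B have height zero, and let x be a p-element. Then some conjugate of x lies in D if and only if χ does not vanish on the whole p-section of x (the elements whose p-part is conjugate to x). -/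
theorem result {G : Type*} [Group G] [Finite G] (p : ℕ) [Fact p.Prime] (M : Ideal Cfsg.AlgInt) (hM : Cfsg.IsPModular p M) (B : Set (Cfsg.IrrCharacter G)) (hB : Cfsg.IsPBlock M B) (D : Subgroup G) (hD : Cfsg.IsDefectGroup p M B D) (χ : Cfsg.IrrCharacter G) (hχ : χ ∈ B) (h0 : Cfsg.blockHeight p B (χ : G → ℂ) = 0) (x : G) (hx : ∃ k : ℕ, orderOf x = p ^ k) : (∃ g : G, g * x * g⁻¹ ∈ D) ↔ ∃ u : G, (∃ z : G, Cfsg.IsPPart p u z ∧ IsConj x z) ∧ (χ : G → ℂ) u ≠ 0 := by
  classical
  have := Fintype.ofFinite G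
  have hMm := hM.2.1
  constructor
  · rintro ⟨g, hg⟩
    obtain ⟨y, hy, P, rfl⟩ := hD
    obtain ⟨x'', hx'', hx''e⟩ := hg
    have hzord : ∃ k : ℕ, orderOf (g * x * g⁻¹) = p ^ k := by
      obtain ⟨k, hk⟩ := (IsPGroup.iff_orderOf.mp P.isPGroup') ⟨x'', hx''⟩
      refine ⟨k, ?_⟩
      rw [← hk, ← hx''e, ← Subgroup.orderOf_coe]
      exact (Subgroup.orderOf_coe x'')
    have hzy : Commute (g * x * g⁻¹) y := by
      rw [← hx''e]
      exact Subgroup.mem_centralizer_singleton_iff.mp x''.2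
    have hyreg : ¬ p ∣ orderOf y := by
      intro hdvd
      apply hy.2.1
      rw [Cfsg.Agent.Helper77.blockCoeff_eq_zero_of_dvd_orderOf hM hB hdvd]
      exact Cfsg.Agent.Helper77.memLocalIdeal_zero hMm
    refine ⟨g * x * g⁻¹ * y, ⟨g * x * g⁻¹, Cfsg.Agent.Helper16.isPPart_mul hzy hzord hyreg,
      isConj_iff.mpr ⟨g, rfl⟩⟩, ?_⟩
    intro h0'
    apply Cfsg.Agent.Helper16.height_zero_not_memLocalIdeal hM hB hy hzord hzy hχ h0
    rw [h0']
    exact Cfsg.Agent.Helper77.memLocalIdeal_zero hMm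
  · rintro ⟨u, ⟨z, hz, hxz⟩, hu⟩
    have hBeq := Cfsg.Agent.Helper16.eq_blockOf_of_mem hMm hB hχ
    by_contra hcon
    apply hu
    apply Cfsg.Agent.Helper16.irr_eq_zero_of_pPart_not_mem_defectGroup hM χ hz
    intro D' hD' hzD'
    rw [← hBeq] at hD'
    obtain ⟨c, hc⟩ := Cfsg.Agent.Helper16.isDefectGroup_conjLE hM hB hD' hD
    obtain ⟨a, ha⟩ := isConj_iff.mp hxz
    apply hcon
    refine ⟨c * a, ?_⟩
    have := hc z hzD'
    rw [← ha] at this
    have e : c * a * x * (c * a)⁻¹ = c * (a * x * a⁻¹) * c⁻¹ := by group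
    rw [e]
    exact this

end Cfsg.Agent.S0926
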