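import Cfsg.Statements.S0928
-- import your own Cfsg.Agent.* helpers here
import Cfsg.Agent.Helper16.BrauerCorr
import Cfsg.Agent.Helper77.Defect
import Cfsg.Agent.Helper78.Counting
import Cfsg.Agent.Helper81.BlockDefect

set_option autoImplicit false
open Cfsg

namespace Cfsg.Agent.S0928

/-- If `z` is a central element of prime order `p` of the finite group `H`, then for every `h`
the number of `x` with `x ^ p = 1` and `(x⁻¹ * h) ^ p = 1` is divisible by `p`. -/
theorem dvd_card_pow_eq_one {H : Type*} [Group H] [Fintype H] [DecidableEq H] (p : ℕ)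
    [Fact p.Prime] (z : H) (hz : orderOf z = p) (hzc : ∀ x : H, x * z = z * x) (h : H) :
    p ∣ Fintype.card {x : H // x ^ p = 1 ∧ (x⁻¹ * h) ^ p = 1} := by
  classical
  have hp : p.Prime := Fact.out
  have hzp : z ^ p = 1 := by rw [← hz]; exact pow_orderOf_eq_one z
  have hz1 : z ≠ 1 := by
    intro h1
    rw [h1, orderOf_one] at hz
    exact hp.one_lt.ne hz
  have hmem : ∀ x : {x : H // x ^ p = 1 ∧ (x⁻¹ * h) ^ p = 1},
      (x.1 * z) ^ p = 1 ∧ ((x.1 * z)⁻¹ * h) ^ p = 1 := by
    intro x
    constructor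
    · rw [(show Commute x.1 z from hzc x.1).mul_pow, x.2.1, hzp, one_mul]
    · have h1 : (x.1 * z)⁻¹ * h = (x.1⁻¹ * h) * z⁻¹ := by
        have h2 : z⁻¹ * (x.1⁻¹ * h) = (x.1⁻¹ * h) * z⁻¹ := by
          have h3 := hzc (x.1⁻¹ * h)
          calc z⁻¹ * (x.1⁻¹ * h) = z⁻¹ * ((x.1⁻¹ * h) * z) * z⁻¹ := by group
            _ = z⁻¹ * (z * (x.1⁻¹ * h)) * z⁻¹ := by rw [h3]
            _ = (x.1⁻¹ * h) * z⁻¹ := by group
        rw [mul_inv_rev, mul_assoc, h2]
      have h4 : Commute (x.1⁻¹ * h) z⁻¹ := (show Commute (x.1⁻¹ * h) z from hzc _).inv_right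
      rw [h1, h4.mul_pow, x.2.2, inv_pow, hzp, inv_one, one_mul]
  let f : Function.End {x : H // x ^ p = 1 ∧ (x⁻¹ * h) ^ p = 1} := fun x => ⟨x.1 * z, hmem x⟩
  have hiter : ∀ n : ℕ, ∀ x, ((f ^ n) x).1 = x.1 * z ^ n := by
    intro n
    induction n with
    | zero => intro x; rw [pow_zero, pow_zero, mul_one]; rfl
    | succ n ih =>
      intro x
      rw [pow_succ]
      show ((f ^ n) (f x)).1 = _
      rw [ih (f x)]
      show x.1 * z * z ^ n = _
      rw [mul_assoc, ← pow_succ']
  have hf : f ^ p ^ 1 = 1 := by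
    funext x
    apply Subtype.ext
    rw [pow_one, hiter, hzp, mul_one]
    rfl
  have h1 := Equiv.Perm.card_fixedPoints_modEq (p := p) (n := 1) hf
  have h2 : IsEmpty (Function.fixedPoints f) := by
    constructor
    rintro ⟨x, hx⟩
    have h3 : (f x).1 = x.1 := congrArg Subtype.val hx
    have h4 : x.1 * z = x.1 := h3
    exact hz1 (mul_eq_left.mp h4)
  have h3 : Fintype.card (Function.fixedPoints f) = 0 := Fintype.card_eq_zero_iff.mpr h2
  rw [h3] at h1
  exact (Nat.modEq_zero_iff_dvd).mp h1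

/-- Let χ be an irreducible character of the finite group G and p a prime. If χ g = 0 for every element g of order p, then the exponent of p in the degree χ(1) equals the exponent of p in the order of G (χ has p-defect zero). -/
theorem result {G : Type*} [Group G] [Finite G] (p : ℕ) [Fact p.Prime] (χ : Cfsg.IrrCharacter G) (hvan : ∀ g : G, orderOf g = p → (χ : G → ℂ) g = 0) : (Cfsg.charDegree (χ : G → ℂ)).factorization p = (Nat.card G).factorization p := by
  classical
  have := Fintype.ofFinite G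
  have hp : p.Prime := Fact.out
  obtain ⟨M, hM⟩ := Helper78.exists_isPModular p hp
  have hMm := hM.2.1
  have hPr : M.IsPrime := hMm.isPrime
  have hdvd := Helper81.charDegree_dvd_card χ
  have hG0 : Nat.card G ≠ 0 := Nat.card_pos.ne'
  have hle : (Cfsg.charDegree (χ : G → ℂ)).factorization p ≤ (Nat.card G).factorization p :=
    (Nat.factorization_le_iff_dvd (Helper81.charDegree_pos χ).ne' hG0).mpr hdvd p
  by_contra hne
  have hlt : (Cfsg.charDegree (χ : G → ℂ)).factorization p < (Nat.card G).factorization p :=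
    lt_of_le_of_ne hle hne
  obtain ⟨B, hBdef⟩ : ∃ B, B = Cfsg.blockOf M (χ : G → ℂ) := ⟨_, rfl⟩
  have hB : Cfsg.IsPBlock M B := ⟨χ, hBdef⟩
  have hχB : χ ∈ B := by rw [hBdef]; exact Helper81.mem_blockOf_self χ
  obtain ⟨y, hy⟩ := Helper77.exists_isDefectClass hMm hB
  have hdef : 0 < Cfsg.blockDefect p B := by
    unfold Cfsg.blockDefect
    have h1 : sInf ((fun χ : Cfsg.IrrCharacter G =>
        (Cfsg.charDegree (χ : G → ℂ)).factorization p) '' B)
        ≤ (Cfsg.charDegree (χ : G → ℂ)).factorization p := Nat.sInf_le ⟨χ, hχB, rfl⟩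
    omega
  have hcent := Helper77.blockDefect_le_factorization_centralizer hM hB (g := y)
    ⟨χ, hχB, hy.2.2 χ hχB⟩
  have hpC : p ∣ Nat.card (Subgroup.centralizer ({y} : Set G)) := by
    have h1 : 0 < (Nat.card (Subgroup.centralizer ({y} : Set G))).factorization p :=
      lt_of_lt_of_le hdef hcent
    exact Nat.dvd_of_factorization_pos h1.ne'
  obtain ⟨z0, hz0⟩ := exists_prime_orderOf_dvd_card' p hpC
  obtain ⟨z, hzdef⟩ : ∃ z : G, z = (z0 : G) := ⟨_, rfl⟩
  have hz : orderOf z = p := by rw [hzdef, Subgroup.orderOf_coe]; exact hz0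
  have hzy : y * z = z * y := by
    have h1 := z0.2
    rw [Subgroup.mem_centralizer_iff] at h1
    rw [hzdef]
    exact h1 y rfl
  obtain ⟨P, hPdef⟩ : ∃ P : Subgroup G, P = Subgroup.zpowers z := ⟨_, rfl⟩
  have hP : IsPGroup p P := by
    apply IsPGroup.of_card (n := 1)
    rw [hPdef, Nat.card_zpowers, hz, pow_one]
  obtain ⟨H, hHdef⟩ : ∃ H : Subgroup G, H = Subgroup.centralizer (P : Set G) := ⟨_, rfl⟩
  have hCH : Subgroup.centralizer (P : Set G) ≤ H := hHdef ▸ le_rfl
  have hHN : H ≤ Subgroup.normalizer (P : Set G) := by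
    rw [hHdef]; exact Subgroup.centralizer_le_normalizer _
  have hmemH : ∀ x : G, x * z = z * x → x ∈ Subgroup.centralizer (P : Set G) := by
    intro x hx
    rw [Subgroup.mem_centralizer_iff]
    intro g hg
    rw [hPdef] at hg
    obtain ⟨k, rfl⟩ := Subgroup.mem_zpowers_iff.mp hg
    exact ((show Commute z x from hx.symm).zpow_left k)
  have hyC : y ∈ Subgroup.centralizer (P : Set G) := hmemH y hzy
  have hzC : z ∈ Subgroup.centralizer (P : Set G) := hmemH z rfl
  have hHC : ∀ x : H, (x : G) ∈ Subgroup.centralizer (P : Set G) := fun x => hHdef ▸ x.2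
  have hzcentral : ∀ x : H, (x : G) * z = z * (x : G) := by
    intro x
    have h1 := hHC x
    rw [Subgroup.mem_centralizer_iff] at h1
    exact (h1 z (hPdef ▸ Subgroup.mem_zpowers z)).symm
  have : Fintype H := Fintype.ofFinite H
  -- the block idempotent and its Brauer image
  have he := Helper77.blockCoeff_isClassFunction B
  have heS : ∀ g, Cfsg.MemLocalRing M (Cfsg.blockCoeff B g) :=
    fun g => Helper77.blockCoeff_memLocalRing hMm hB g
  have hee := Helper77.conv_blockCoeff B
  have hf := Helper16.isClassFunction_brRes hHN (H := H) he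
  have hfS : ∀ h : H, Cfsg.MemLocalRing M (Helper16.brRes P H (Cfsg.blockCoeff B) h) := by
    intro h
    rw [Helper16.brRes_apply_of_mem _ (hHC h)]
    exact heS _
  have hidem : ∀ h : H, Cfsg.MemLocalIdeal M
      (Helper81.conv (Helper16.brRes P H (Cfsg.blockCoeff B))
        (Helper16.brRes P H (Cfsg.blockCoeff B)) h - Helper16.brRes P H (Cfsg.blockCoeff B) h) := by
    intro h
    have h1 := Helper16.brRes_conv_sub_memLocalIdeal hM P H hP hCH he heS he heS h
    rw [hee] at h1
    have h2 := Helper77.memLocalIdeal_neg h1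
    rwa [neg_sub] at h2
  have hnz : ∃ h : H, ¬ Cfsg.MemLocalIdeal M (Helper16.brRes P H (Cfsg.blockCoeff B) h) := by
    refine ⟨⟨y, hHdef ▸ hyC⟩, ?_⟩
    rw [Helper16.brRes_apply_of_mem _ (by exact hyC)]
    exact hy.2.1
  obtain ⟨ξ, hξ⟩ := Helper16.exists_irr_omega_sub_one_memLocalIdeal hMm hf hfS hidem hnz
  obtain ⟨χ', hχ'⟩ := Helper16.exists_irr_brauer hM P H hP hCH hHN ξ
  have h1 := hχ' _ he heS
  have hχ'B : χ' ∈ B := by
    by_contra hnot
    rw [Helper77.omega_blockCoeff_of_not_mem hnot, sub_zero] at h1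
    have h2 := Helper77.memLocalIdeal_sub hMm h1 hξ
    rw [sub_sub_cancel] at h2
    exact Helper77.not_memLocalIdeal_one hMm h2
  -- the sum of the elements of order dividing `p`
  obtain ⟨t, htdef⟩ : ∃ t : G → ℂ, t = fun g => if g ^ p = 1 then 1 else 0 := ⟨_, rfl⟩
  have ht : Cfsg.IsClassFunction G t := by
    intro g h
    rw [htdef]
    show (if (h * g * h⁻¹) ^ p = 1 then (1 : ℂ) else 0) = if g ^ p = 1 then 1 else 0
    rw [conj_pow]
    have h1 : h * g ^ p * h⁻¹ = 1 ↔ g ^ p = 1 := by
      constructor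
      · intro h2
        have h3 : g ^ p = h⁻¹ * (h * g ^ p * h⁻¹) * h := by group
        rw [h3, h2]; group
      · intro h2; rw [h2]; group
    simp only [h1]
  have htS : ∀ g, Cfsg.MemLocalRing M (t g) := by
    intro g
    rw [htdef]
    show Cfsg.MemLocalRing M (if g ^ p = 1 then (1 : ℂ) else 0)
    split_ifs
    · exact Helper77.memLocalRing_one hMm
    · exact Helper77.memLocalRing_zero hMm
  have hωχ : Helper81.omega (χ : G → ℂ) t = 1 := by
    unfold Helper81.omega
    have h2 : ∑ g : G, t g * (χ : G → ℂ) g = (χ : G → ℂ) 1 := by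
      rw [Finset.sum_eq_single (1 : G)]
      · rw [htdef]; simp
      · intro g _ hg1
        rw [htdef]
        show (if g ^ p = 1 then (1 : ℂ) else 0) * _ = 0
        split_ifs with hgp
        · rw [hvan g (orderOf_eq_prime hgp hg1), mul_zero]
        · rw [zero_mul]
      · intro h; exact absurd (Finset.mem_univ _) h
    rw [h2, div_self (Helper81.irr_one_ne_zero χ)]
  have h2 := hχ' t ht htS
  have h3 := Helper16.omega_sub_memLocalIdeal hMm χ χ' (by rw [hBdef] at hχ'B; exact hχ'B) ht htS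
  rw [hωχ] at h3
  -- `Ω_ξ` of the Brauer image of `t` lies in the local ideal
  have htH := Helper16.isClassFunction_brRes hHN (H := H) ht
  have htHS : ∀ h : H, Cfsg.MemLocalRing M (Helper16.brRes P H t h) := by
    intro h
    rw [Helper16.brRes_apply_of_mem _ (hHC h)]
    exact htS _
  have htHval : ∀ x : H, Helper16.brRes P H t x = if x ^ p = 1 then 1 else 0 := by
    intro x
    rw [Helper16.brRes_apply_of_mem _ (hHC x), htdef]
    show (if (x : G) ^ p = 1 then (1 : ℂ) else 0) = _
    have h4 : (x : G) ^ p = 1 ↔ x ^ p = 1 := by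
      rw [← Subgroup.coe_pow, OneMemClass.coe_eq_one]
    simp only [h4]
  have hzH : orderOf (⟨z, hHdef ▸ hzC⟩ : H) = p := by
    rw [← Subgroup.orderOf_coe]; exact hz
  have hconv : ∀ h : H, Cfsg.MemLocalIdeal M
      (Helper81.conv (Helper16.brRes P H t) (Helper16.brRes P H t) h) := by
    intro h
    have h5 : Helper81.conv (Helper16.brRes P H t) (Helper16.brRes P H t) h
        = ((Fintype.card {x : H // x ^ p = 1 ∧ (x⁻¹ * h) ^ p = 1} : ℕ) : ℂ) := by
      unfold Helper81.conv
      rw [Fintype.card_subtype, Finset.card_eq_sum_ones, Finset.sum_filter]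
      push_cast
      refine Finset.sum_congr rfl fun x _ => ?_
      rw [htHval, htHval]
      by_cases hx1 : x ^ p = 1 <;> by_cases hx2 : (x⁻¹ * h) ^ p = 1 <;> simp [hx1, hx2]
    rw [h5]
    apply Helper81.memLocalIdeal_natCast_of_dvd hM
    apply dvd_card_pow_eq_one p (⟨z, hHdef ▸ hzC⟩ : H) hzH
    intro x
    apply Subtype.ext
    exact hzcentral x
  have h6 := Helper16.omega_memLocalIdeal hMm ξ (Helper81.conv_isClassFunction htH htH) hconv
  rw [Helper81.omega_conv ξ htH htH, ← sq] at h6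
  have h7 := Helper16.memLocalIdeal_of_pow hMm (Helper16.omega_memLocalRing hMm ξ htH htHS) 2 h6
  -- contradiction: `1` lies in the local ideal
  have h8 := Helper77.memLocalIdeal_sub hMm h2 h7
  have h9 := Helper77.memLocalIdeal_sub hMm h3 h8
  have h10 : (1 - Helper81.omega (χ' : G → ℂ) t
      - (Helper81.omega (ξ : H → ℂ) (Helper16.brRes P H t) - Helper81.omega (χ' : G → ℂ) t
        - Helper81.omega (ξ : H → ℂ) (Helper16.brRes P H t))) = 1 := by ring
  rw [h10] at h9
  exact Helper77.not_memLocalIdeal_one hMm h9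

end Cfsg.Agent.S0928
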