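import Cfsg.Statements.S0931
import Cfsg.Agent.Helper16.DefectZero
import Cfsg.Agent.Helper16.BlockInd

set_option autoImplicit false
open Cfsg

namespace Cfsg.Agent.S0931

/-- Let H be a subgroup of the finite group G and fix a maximal ideal M of the algebraic integers containing the prime p. If the block b of H induces the block B of G, then b has defect 0 if and only if B has defect 0. -/
theorem result {G : Type*} [Group G] [Finite G] (p : ℕ) [Fact p.Prime] (M : Ideal Cfsg.AlgInt) (hM : Cfsg.IsPModular p M) (H : Subgroup G) (b : Set (Cfsg.IrrCharacter H)) (B : Set (Cfsg.IrrCharacter G)) (hind : Cfsg.IsInducedBlock M H b B) : Cfsg.blockDefect p b = 0 ↔ Cfsg.blockDefect p B = 0 := by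
  classical
  have := Fintype.ofFinite G
  have := Fintype.ofFinite H
  have hMm := hM.2.1
  have hp := hM.1
  have hb := hind.1
  have hB := hind.2.1
  constructor
  · intro hd
    by_contra hne
    obtain ⟨g, hg, hω⟩ :=
      Cfsg.Agent.Helper16.exists_singular_centralChar_not_memLocalIdeal hM hB hne
    obtain ⟨ξ, hξ⟩ := Cfsg.Agent.Helper16.exists_mem_of_isPBlock hMm hb
    obtain ⟨χ, hχ⟩ := Cfsg.Agent.Helper16.exists_mem_of_isPBlock hMm hB
    have h1 := hind.2.2 ξ hξ χ hχ g
    rw [Cfsg.Agent.Helper16.inducedCentralChar_eq_zero_of_blockDefect_zero hp H hd hξ hg,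
      zero_sub] at h1
    have h2 := Cfsg.Agent.Helper77.memLocalIdeal_neg h1
    rw [neg_neg] at h2
    exact hω χ hχ h2
  · intro hd
    obtain ⟨D, hD⟩ := Cfsg.Agent.Helper16.exists_isDefectGroup (p := p) hMm hb
    obtain ⟨E, hE⟩ := Cfsg.Agent.Helper16.exists_isDefectGroup (p := p) hMm hB
    have h1 := (Cfsg.Agent.Helper16.induced_defect_conjLE hM H hind hD hE).card_le
    rw [Subgroup.card_map_of_injective H.subtype_injective,
      Cfsg.Agent.Helper77.card_of_isDefectGroup hM hb hD,
      Cfsg.Agent.Helper77.card_of_isDefectGroup hM hB hE, hd, pow_zero] at h1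
    by_contra hne
    have := Nat.one_lt_pow hne hp.one_lt
    omega

end Cfsg.Agent.S0931
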