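import Cfsg.Statements.S0933
import Cfsg.Agent.Helper16.ClassSum

set_option autoImplicit false
open Cfsg

namespace Cfsg.Agent.S0933

/-- Let H be a subgroup of the finite group G and ξ an irreducible character of H such that the induced function ξ^G is an irreducible character of G. Then, relative to any maximal ideal M of the algebraic integers containing the prime p, the block of ξ induces the block of ξ^G. -/
theorem result {G : Type*} [Group G] [Fintype G] (p : ℕ) [Fact p.Prime] (M : Ideal Cfsg.AlgInt) (hM : Cfsg.IsPModular p M) (H : Subgroup G) (ξ : Cfsg.IrrCharacter H) (hind : Cfsg.IsIrrCharacter G (Cfsg.indFun H (ξ : H → ℂ))) : Cfsg.IsInducedBlock M H (Cfsg.blockOf M (ξ : H → ℂ)) (Cfsg.blockOf M (Cfsg.indFun H (ξ : H → ℂ))) := by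
  have hMax : M.IsMaximal := hM.2.1
  refine ⟨⟨ξ, rfl⟩, ⟨⟨Cfsg.indFun H (ξ : H → ℂ), hind⟩, rfl⟩, ?_⟩
  intro ξ' hξ' χ hχ g
  have h1 : Cfsg.MemLocalIdeal M
      (Cfsg.inducedCentralChar H (ξ' : H → ℂ) g - Cfsg.inducedCentralChar H (ξ : H → ℂ) g) := by
    have := Cfsg.Agent.Helper16.inducedCentralChar_sub_mem hMax H (ξ : H → ℂ) (ξ' : H → ℂ)
      (Cfsg.Agent.Helper16.character_conj _
        (Cfsg.Agent.Helper16.irrCharacter_isCharacter _ ξ.2))
      (Cfsg.Agent.Helper16.character_conj _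
        (Cfsg.Agent.Helper16.irrCharacter_isCharacter _ ξ'.2)) hξ' g
    have h2 := Cfsg.Agent.Helper16.memLocalIdeal_neg this
    rwa [neg_sub] at h2
  have h3 : Cfsg.MemLocalIdeal M
      (Cfsg.centralChar (Cfsg.indFun H (ξ : H → ℂ)) g - Cfsg.centralChar (χ : G → ℂ) g) := hχ g
  rw [← Cfsg.Agent.Helper16.inducedCentralChar_eq_centralChar_indFun] at h3
  have h4 := Cfsg.Agent.Helper16.memLocalIdeal_add hMax h1 h3
  rwa [sub_add_sub_cancel] at h4

end Cfsg.Agent.S0933
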