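import Cfsg.Statements.S0934
import Cfsg.Agent.Helper16.BlockInd

set_option autoImplicit false
open Cfsg

namespace Cfsg.Agent.S0934

/-- Let H be a subgroup of the finite group G and fix a maximal ideal M of the algebraic integers containing the prime p. If the block b of H induces the block B of G and ξ ∈ b, then there is χ ∈ B whose restriction to H has nonzero inner product with ξ. -/
theorem result {G : Type*} [Group G] [Fintype G] (p : ℕ) [Fact p.Prime] (M : Ideal Cfsg.AlgInt) (hM : Cfsg.IsPModular p M) (H : Subgroup G) [Fintype H] (b : Set (Cfsg.IrrCharacter H)) (B : Set (Cfsg.IrrCharacter G)) (hind : Cfsg.IsInducedBlock M H b B) (ξ : Cfsg.IrrCharacter H) (hξ : ξ ∈ b) : ∃ χ ∈ B, Cfsg.classInner (fun h : H => (χ : G → ℂ) h) (ξ : H → ℂ) ≠ 0 := by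
  classical
  have hMm := hM.2.1
  have hB := hind.2.1
  by_contra hcon
  have hcon' : ∀ χ ∈ B, Cfsg.classInner (fun h : H => (χ : G → ℂ) h) (ξ : H → ℂ) = 0 := by
    intro χ hχ
    by_contra h
    exact hcon ⟨χ, hχ, h⟩
  have h1 := Helper16.omega_res_blockCoeff_sub_one hMm H hind hξ
  have h2 : Helper81.omega (ξ : H → ℂ) (fun h : H => Cfsg.blockCoeff B h) = 0 := by
    haveI : Fintype (Cfsg.IrrCharacter G) := Fintype.ofFinite _
    rw [Helper81.omega]
    have h3 : ∑ h : H, Cfsg.blockCoeff B (h : G) * (ξ : H → ℂ) h = 0 := by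
      simp only [Helper77.blockCoeff_eq_sum, Finset.mul_sum, Finset.sum_mul]
      rw [Finset.sum_comm]
      apply Finset.sum_eq_zero
      intro χ _
      by_cases hχ : χ ∈ B
      · simp only [if_pos hχ]
        have h4 := hcon' χ hχ
        unfold Cfsg.classInner at h4
        have hH : (Nat.card H : ℂ) ≠ 0 := by
          exact_mod_cast Nat.card_pos.ne'
        have h5 : ∑ g : H, (χ : G → ℂ) (g : G) * (starRingEnd ℂ) ((ξ : H → ℂ) g) = 0 := by
          rcases mul_eq_zero.mp h4 with h6 | h6
          · exact absurd (inv_eq_zero.mp h6) hH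
          · exact h6
        have h6 : ∑ g : H, (χ : G → ℂ) (g : G)⁻¹ * (ξ : H → ℂ) g = 0 := by
          have h7 := congrArg (starRingEnd ℂ) h5
          rw [map_sum, map_zero] at h7
          rw [← h7]
          refine Finset.sum_congr rfl fun g _ => ?_
          rw [map_mul, Complex.conj_conj, Helper77.irr_inv]
        calc ∑ x : H, (Nat.card G : ℂ)⁻¹ * ((χ : G → ℂ) 1 * (χ : G → ℂ) (x : G)⁻¹) * (ξ : H → ℂ) x
            = (Nat.card G : ℂ)⁻¹ * (χ : G → ℂ) 1 *
                ∑ x : H, (χ : G → ℂ) (x : G)⁻¹ * (ξ : H → ℂ) x := by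
              rw [Finset.mul_sum]
              exact Finset.sum_congr rfl fun x _ => by ring
          _ = 0 := by rw [h6, mul_zero]
      · simp only [if_neg hχ, mul_zero, zero_mul, Finset.sum_const_zero]
    rw [h3, zero_div]
  rw [h2, zero_sub] at h1
  exact Helper77.not_memLocalIdeal_one hMm (by simpa using Helper77.memLocalIdeal_neg h1)

end Cfsg.Agent.S0934
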