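import Cfsg.Statements.S0935
import Cfsg.Agent.Helper73.HeightZeroInd

set_option autoImplicit false
open Cfsg

namespace Cfsg.Agent.S0935

/-- Let H be a subgroup of the finite group G and χ an irreducible character of G whose restriction to H is irreducible; fix a maximal ideal M of the algebraic integers containing the prime p and suppose χ and its restriction have height zero in their blocks B and b. If e is a block of H whose induced block is defined, then e induces B if and only if e = b. -/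
theorem result {G : Type*} [Group G] [Finite G] (p : ℕ) [Fact p.Prime] (M : Ideal Cfsg.AlgInt) (hM : Cfsg.IsPModular p M) (H : Subgroup G) (χ : Cfsg.IrrCharacter G) (hres : Cfsg.IsIrrCharacter H (fun h : H => (χ : G → ℂ) h)) (hχ0 : Cfsg.blockHeight p (Cfsg.blockOf M (χ : G → ℂ)) (χ : G → ℂ) = 0) (hψ0 : Cfsg.blockHeight p (Cfsg.blockOf M (fun h : H => (χ : G → ℂ) h)) (fun h : H => (χ : G → ℂ) h) = 0) (e : Set (Cfsg.IrrCharacter H)) (he : Cfsg.InducedBlockDefined M H e) : Cfsg.IsInducedBlock M H e (Cfsg.blockOf M (χ : G → ℂ)) ↔ e = Cfsg.blockOf M (fun h : H => (χ : G → ℂ) h) := by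
  classical
  have := Fintype.ofFinite G
  have := Fintype.ofFinite H
  have hMm := hM.2.1
  have : M.IsPrime := hMm.isPrime
  obtain ⟨θ, hθ⟩ : ∃ θ : Cfsg.IrrCharacter H, (θ : H → ℂ) = fun h : H => (χ : G → ℂ) h :=
    ⟨⟨_, hres⟩, rfl⟩
  rw [← hθ] at hψ0 ⊢
  have hBblock : Cfsg.IsPBlock M (Cfsg.blockOf M (χ : G → ℂ)) := ⟨χ, rfl⟩
  have hχB : χ ∈ Cfsg.blockOf M (χ : G → ℂ) := Cfsg.Agent.Helper81.mem_blockOf_self χ
  have hbblock : Cfsg.IsPBlock M (Cfsg.blockOf M (θ : H → ℂ)) := ⟨θ, rfl⟩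
  have hθb : θ ∈ Cfsg.blockOf M (θ : H → ℂ) := Cfsg.Agent.Helper81.mem_blockOf_self θ
  constructor
  · intro hind
    obtain ⟨ψ, hψ⟩ := Cfsg.Agent.Helper16.exists_mem_of_isPBlock hMm hind.1
    have h1 := Cfsg.Agent.Helper73.hzc_res_not_memLocalIdeal hM H hind hχB hχ0 hψ
    rw [← hθ] at h1
    have hθe : θ ∈ e := by
      by_contra hnot
      apply h1
      rw [Cfsg.Agent.Helper73.hzc_eq_zero_of_not_mem hM hind.1 hnot hψ]
      exact Cfsg.Agent.Helper77.memLocalIdeal_zero hMm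
    exact Cfsg.Agent.Helper16.eq_blockOf_of_mem hMm hind.1 hθe
  · intro hee
    obtain ⟨B₀, hB₀⟩ := he
    have hχB₀ : χ ∈ B₀ := by
      by_contra hnot
      have hθe : θ ∈ e := by rw [hee]; exact hθb
      have h1 := Cfsg.Agent.Helper73.hzc_res_memLocalIdeal hM H hB₀ hnot hθe
      rw [← hθ] at h1
      exact (Cfsg.Agent.Helper73.hzc_not_memLocalIdeal_iff hM hbblock hθb hθb).mpr hψ0 h1
    have := Cfsg.Agent.Helper16.eq_blockOf_of_mem hMm hB₀.2.1 hχB₀
    rw [← this]
    exact hB₀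

end Cfsg.Agent.S0935
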