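import Cfsg.Statements.S0937
import Cfsg.Agent.Helper73.HeightZeroInd

set_option autoImplicit false
open Cfsg

namespace Cfsg.Agent.S0937

/-- Let H be a subgroup of the finite group G and fix a maximal ideal M of the algebraic integers containing the prime p. If the block b of H induces the block B of G and χ ∈ B has height zero, then there is ξ ∈ b of height zero whose multiplicity in the restriction of χ to H is a natural number not divisible by p. -/
theorem result {G : Type*} [Group G] [Fintype G] (p : ℕ) [Fact p.Prime] (M : Ideal Cfsg.AlgInt) (hM : Cfsg.IsPModular p M) (H : Subgroup G) [Fintype H] (b : Set (Cfsg.IrrCharacter H)) (B : Set (Cfsg.IrrCharacter G)) (hind : Cfsg.IsInducedBlock M H b B) (χ : Cfsg.IrrCharacter G) (hχ : χ ∈ B) (h0 : Cfsg.blockHeight p B (χ : G → ℂ) = 0) : ∃ ξ ∈ b, Cfsg.blockHeight p b (ξ : H → ℂ) = 0 ∧ ∃ n : ℕ, Cfsg.classInner (fun h : H => (χ : G → ℂ) h) (ξ : H → ℂ) = (n : ℂ) ∧ ¬ p ∣ n := by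
  classical
  have := Fintype.ofFinite (Cfsg.IrrCharacter H)
  have hMm := hM.2.1
  have hθchar : Cfsg.IsCharacter H (fun h : H => (χ : G → ℂ) h) :=
    Cfsg.Agent.Helper79.isCharacter_restrict (Cfsg.Agent.Helper79.irr_isCharacter χ) H
  have hθcl := Cfsg.Agent.Helper79.isCharacter_isClassFunction hθchar
  obtain ⟨ψ₀, hψ₀, hψ₀0⟩ := Cfsg.Agent.Helper16.exists_height_zero (p := p) hMm hind.1
  have hunit := Cfsg.Agent.Helper73.hzc_res_not_memLocalIdeal hM H hind hχ h0 hψ₀
  by_contra hcon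
  apply hunit
  rw [Cfsg.Agent.Helper73.hzc_eq_sum_irr p hθcl]
  refine Cfsg.Agent.Helper77.memLocalIdeal_sum hMm _ _ fun ξ _ => ?_
  obtain ⟨n, hn⟩ := Cfsg.Agent.Helper3.classInner_isCharacter_nat hθchar
    (Cfsg.Agent.Helper79.irr_isCharacter ξ)
  rw [hn, Complex.conj_natCast]
  by_cases hξb : ξ ∈ b
  · by_cases hξ0 : Cfsg.blockHeight p b (ξ : H → ℂ) = 0
    · have hpn : p ∣ n := by
        by_contra hpn
        exact hcon ⟨ξ, hξb, hξ0, n, hn, hpn⟩
      exact Cfsg.Agent.Helper77.memLocalIdeal_mul' hMm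
        (Cfsg.Agent.Helper81.memLocalIdeal_natCast_of_dvd hM hpn)
        (Cfsg.Agent.Helper73.hzc_memLocalRing hMm p ξ ψ₀)
    · have hI : Cfsg.MemLocalIdeal M (Cfsg.Agent.Helper73.hzc p (ξ : H → ℂ) (ψ₀ : H → ℂ)) := by
        by_contra hI
        exact hξ0 ((Cfsg.Agent.Helper73.hzc_not_memLocalIdeal_iff hM hind.1 hξb hψ₀).mp hI)
      exact Cfsg.Agent.Helper77.memLocalIdeal_mul hMm
        (Cfsg.Agent.Helper81.memLocalRing_natCast hMm.ne_top n) hI
  · rw [Cfsg.Agent.Helper73.hzc_eq_zero_of_not_mem hM hind.1 hξb hψ₀, mul_zero]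
    exact Cfsg.Agent.Helper77.memLocalIdeal_zero hMm

end Cfsg.Agent.S0937
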