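import Cfsg.Statements.S0938
-- import your own Cfsg.Agent.* helpers here
import Cfsg.Agent.Helper81.BlockKer

set_option autoImplicit false
open Cfsg

namespace Cfsg.Agent.S0938

open Cfsg.Agent.Helper81 in
/-- Let B be a block of the finite group G relative to a maximal ideal M of the algebraic integers containing the prime p, and let χ ∈ B. Then the kernel of B (the elements on which every member of B takes its degree) is a normal subgroup of order prime to p, and it is the largest normal subgroup of order prime to p contained in the kernel of χ. -/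
theorem result {G : Type*} [Group G] [Finite G] (p : ℕ) [Fact p.Prime] (M : Ideal Cfsg.AlgInt) (hM : Cfsg.IsPModular p M) (B : Set (Cfsg.IrrCharacter G)) (hB : Cfsg.IsPBlock M B) (χ : Cfsg.IrrCharacter G) (hχ : χ ∈ B) : ∃ K : Subgroup G, K.Normal ∧ (K : Set G) = Cfsg.blockKer B ∧ ¬ p ∣ Nat.card K ∧ (∀ g ∈ K, (χ : G → ℂ) g = (χ : G → ℂ) 1) ∧ ∀ N : Subgroup G, N.Normal → ¬ p ∣ Nat.card N → (∀ g ∈ N, (χ : G → ℂ) g = (χ : G → ℂ) 1) → N ≤ K := by
  classical
  have := Fintype.ofFinite G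
  have hp : p.Prime := Fact.out
  have hP : M.IsPrime := isPrime_of_isPModular hM
  have := Fintype.ofFinite (Cfsg.IrrCharacter G)
  obtain ⟨K, hK⟩ : ∃ K : Subgroup G, K = ⨅ ψ : B,
      Cfsg.Agent.Helper79.charKer (Cfsg.Agent.Helper79.irr_isCharacter (ψ : Cfsg.IrrCharacter G)) :=
    ⟨_, rfl⟩
  have hmem : ∀ g : G, g ∈ K ↔ ∀ ψ ∈ B, (ψ : G → ℂ) g = (ψ : G → ℂ) 1 := by
    intro g
    rw [hK, Subgroup.mem_iInf]
    constructor
    · intro h ψ hψ
      exact h ⟨ψ, hψ⟩
    · intro h ψ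
      exact h ψ.1 ψ.2
  have hKn : K.Normal := by
    rw [hK]
    have : ∀ ψ : B, (Cfsg.Agent.Helper79.charKer
        (Cfsg.Agent.Helper79.irr_isCharacter (ψ : Cfsg.IrrCharacter G))).Normal :=
      fun ψ => Cfsg.Agent.Helper79.charKer_normal _
    exact Subgroup.normal_iInf_normal this
  refine ⟨K, hKn, ?_, ?_, ?_, ?_⟩
  · ext g
    exact hmem g
  · -- `K` has order prime to `p` by Osima's theorem
    intro hdvd
    obtain ⟨u, hu⟩ := exists_prime_orderOf_dvd_card' p hdvd
    have hu' : p ∣ orderOf (u : G) := by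
      rw [Subgroup.orderOf_coe, hu]
    have h0 := Cfsg.Agent.Helper77.blockCoeff_eq_zero_of_dvd_orderOf hM hB hu'
    have hconst : Cfsg.blockCoeff B (u : G) = Cfsg.blockCoeff B 1 := by
      simp only [Cfsg.blockCoeff]
      congr 1
      apply finsum_mem_congr rfl
      intro ψ hψ
      rw [(hmem (u : G)).mp u.2 ψ hψ]
    rw [hconst, Cfsg.Agent.Helper77.blockCoeff_eq_sum] at h0
    have hcard : (Nat.card G : ℂ) ≠ 0 := by
      simp [Nat.card_eq_fintype_card]
    have h1 : ∑ ψ : Cfsg.IrrCharacter G,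
        (if ψ ∈ B then (ψ : G → ℂ) 1 * (ψ : G → ℂ) (1 : G)⁻¹ else 0)
        = ((∑ ψ : Cfsg.IrrCharacter G,
            if ψ ∈ B then Cfsg.charDegree (ψ : G → ℂ) ^ 2 else 0 : ℕ) : ℂ) := by
      push_cast
      refine Finset.sum_congr rfl fun ψ _ => ?_
      by_cases hψ : ψ ∈ B
      · rw [if_pos hψ, if_pos hψ, inv_one, irr_one_eq_charDegree]
        ring
      · rw [if_neg hψ, if_neg hψ]
    rw [h1] at h0
    rcases mul_eq_zero.mp h0 with h2 | h2
    · exact hcard (inv_eq_zero.mp h2)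
    · have h3 : (∑ ψ : Cfsg.IrrCharacter G,
          if ψ ∈ B then Cfsg.charDegree (ψ : G → ℂ) ^ 2 else 0) = 0 := by
        exact_mod_cast h2
      have h4 := Finset.sum_eq_zero_iff.mp h3 χ (Finset.mem_univ χ)
      rw [if_pos hχ] at h4
      have := charDegree_pos χ
      have h5 : Cfsg.charDegree (χ : G → ℂ) = 0 := by
        exact pow_eq_zero_iff (n := 2) (by norm_num) |>.mp h4
      omega
  · intro g hg
    exact (hmem g).mp hg χ hχ
  · intro N hNn hN hNχ g hg
    rw [hmem]
    intro ψ hψ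
    have := Fintype.ofFinite N
    obtain ⟨χ₀, rfl⟩ := hB
    have hsame : Cfsg.SameBlock M (χ : G → ℂ) (ψ : G → ℂ) :=
      sameBlock_trans (sameBlock_symm hχ) hψ
    exact apply_eq_one_of_sameBlock hM N hN hsame hNχ g hg

end Cfsg.Agent.S0938
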