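import Cfsg.Statements.S0939
-- import your own Cfsg.Agent.* helpers here
import Cfsg.Agent.Helper81.BlockKer

set_option autoImplicit false
open Cfsg

namespace Cfsg.Agent.S0939

open Cfsg.Agent.Helper81 in
/-- Let G be a finite group with a normal p-complement: O_p'(G) has index a power of p. Then, relative to a maximal ideal M of the algebraic integers containing p, the principal block of G consists exactly of the irreducible characters whose kernel contains O_p'(G). -/
theorem result {G : Type*} [Group G] [Finite G] (p : ℕ) [Fact p.Prime] (M : Ideal Cfsg.AlgInt) (hM : Cfsg.IsPModular p M) (hnc : ∃ k : ℕ, (Cfsg.pPrimeCore p G).index = p ^ k) : Cfsg.principalBlock M G = {χ : Cfsg.IrrCharacter G | ∀ n ∈ Cfsg.pPrimeCore p G, (χ : G → ℂ) n = (χ : G → ℂ) 1} := by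
  classical
  have := Fintype.ofFinite G
  have hNn : (Cfsg.pPrimeCore p G).Normal := Subgroup.sSup_normal _ (fun _ h => h.1)
  have hp : p.Prime := Fact.out
  have hN : ¬ p ∣ Nat.card (Cfsg.pPrimeCore p G) := by
    have := Cfsg.Agent.Helper76.pPrimeCore_coprime (G := G) (p := p)
    exact (Nat.Prime.coprime_iff_not_dvd hp).mp this.symm
  have hP : M.IsPrime := isPrime_of_isPModular hM
  ext χ
  constructor
  · intro hχ
    have hχ' : Cfsg.SameBlock M (trivIrr G : G → ℂ) (χ : G → ℂ) := hχ
    exact apply_eq_one_of_sameBlock hM _ hN hχ' (fun n _ => rfl)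
  · intro hχ
    obtain ⟨χbar, hirr, hχbar⟩ := Cfsg.Agent.Helper79.exists_irr_deflation
      (Cfsg.pPrimeCore p G) χ.2 hχ
    obtain ⟨k, hk⟩ := hnc
    have hQ : IsPGroup p (G ⧸ Cfsg.pPrimeCore p G) := by
      apply IsPGroup.of_card (n := k)
      rw [← hk]
      rfl
    have := Fintype.ofFinite (G ⧸ Cfsg.pPrimeCore p G)
    have h1 := sameBlock_of_isPGroup hM hQ (trivIrr (G ⧸ Cfsg.pPrimeCore p G)) ⟨χbar, hirr⟩
    have h2 := sameBlock_comp_mk hM (Cfsg.pPrimeCore p G) h1
    have h3 : (fun g : G => χbar (g : G ⧸ Cfsg.pPrimeCore p G)) = (χ : G → ℂ) := funext hχbar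
    show Cfsg.SameBlock M (fun _ : G => (1 : ℂ)) (χ : G → ℂ)
    rw [← h3]
    exact h2

end Cfsg.Agent.S0939
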