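import Cfsg.Statements.S0941
-- import your own Cfsg.Agent.* helpers here
import Cfsg.Agent.Helper81.BlockKer
import Cfsg.Agent.Helper77.ClassPow
import Cfsg.Agent.S0905

set_option autoImplicit false
open Cfsg

namespace Cfsg.Agent.S0941

open Cfsg.Agent.Helper81 in
/-- Let P be a normal p-subgroup of the finite group G such that the index of C_G(P) is a power of p, and fix a maximal ideal M of the algebraic integers containing p. Then (i) two irreducible characters of G ⧸ P lie in the same block if and only if their inflations to G do, and (ii) every block of G contains the inflation of some irreducible character of G ⧸ P; so inflation induces a bijection between the blocks of G ⧸ P and the blocks of G. -/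
theorem result {G : Type*} [Group G] [Finite G] (p : ℕ) [Fact p.Prime] (M : Ideal Cfsg.AlgInt) (hM : Cfsg.IsPModular p M) (P : Subgroup G) [P.Normal] (hP : IsPGroup p P) (hC : ∃ k : ℕ, (Subgroup.centralizer (P : Set G)).index = p ^ k) : (∀ χ ψ : Cfsg.IrrCharacter (G ⧸ P), Cfsg.SameBlock M (χ : G ⧸ P → ℂ) (ψ : G ⧸ P → ℂ) ↔ Cfsg.SameBlock M ((χ : G ⧸ P → ℂ) ∘ QuotientGroup.mk) ((ψ : G ⧸ P → ℂ) ∘ QuotientGroup.mk)) ∧ ∀ B : Set (Cfsg.IrrCharacter G), Cfsg.IsPBlock M B → ∃ χ : Cfsg.IrrCharacter (G ⧸ P), ∃ θ ∈ B, (θ : G → ℂ) = (χ : G ⧸ P → ℂ) ∘ QuotientGroup.mk := by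
  classical
  have := Fintype.ofFinite G
  refine ⟨fun χ ψ => ⟨fun h => sameBlock_comp_mk hM P h, fun h => sameBlock_of_comp_mk hM P hP hC χ ψ h⟩, ?_⟩
  intro B hB
  have hnil : ∀ g : G, g ∉ Subgroup.centralizer (P : Set G) → ∀ ψ : Cfsg.IrrCharacter G,
      Cfsg.MemLocalIdeal M (Cfsg.centralChar (ψ : G → ℂ) g) := by
    intro g hg ψ
    refine Cfsg.Agent.Helper77.centralChar_memLocalIdeal_of_isNilpotent hM g
      (Cfsg.Agent.S0905.result p (ZMod p) g ?_) ψ
    intro x hx hxc
    apply hg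
    have hle : P ≤ Cfsg.pCore p G := le_sSup ⟨inferInstance, hP⟩
    have hxP : x ∈ Subgroup.centralizer (P : Set G) :=
      Subgroup.centralizer_le (by exact_mod_cast hle) hxc
    obtain ⟨c, hc⟩ := isConj_iff.mp hx.symm
    have hn : (Subgroup.centralizer (P : Set G)).Normal := Subgroup.normal_centralizer
    rw [← hc]
    exact hn.conj_mem x hxP c
  obtain ⟨θ, hθB, hθ⟩ := exists_mem_block_ker hM P hP hnil hB
  obtain ⟨χbar, hirr, hχbar⟩ := Cfsg.Agent.Helper79.exists_irr_deflation P θ.2 hθ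
  exact ⟨⟨χbar, hirr⟩, θ, hθB, funext fun g => (hχbar g).symm⟩

end Cfsg.Agent.S0941
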