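import Cfsg.Statements.S0943
import Cfsg.Agent.Helper16.Schur

set_option autoImplicit false
open Cfsg

namespace Cfsg.Agent.S0943

/-- Let χ be an irreducible character of the finite group G and u, v ∈ G. If χ (x * y) = χ (u * v) whenever x is conjugate to u and y is conjugate to v, then χ u * χ v = χ 1 * χ (u * v). (Multiply the class sums of u and v and apply the central character of χ.) -/
theorem result {G : Type*} [Group G] [Finite G] (χ : Cfsg.IrrCharacter G) (u v : G) (hc : ∀ x y : G, IsConj u x → IsConj v y → (χ : G → ℂ) (x * y) = (χ : G → ℂ) (u * v)) : (χ : G → ℂ) u * (χ : G → ℂ) v = (χ : G → ℂ) 1 * (χ : G → ℂ) (u * v) := by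
  obtain ⟨χ, n, ρ, hρ, rfl⟩ := χ
  haveI := Fintype.ofFinite G
  obtain ⟨c, hc1, hc2⟩ := Cfsg.Agent.Helper16.sum_conj_rep ρ hρ u
  have h1 : LinearMap.trace ℂ (Fin n → ℂ) ((∑ x : G, ρ (x * u * x⁻¹)) * ρ v)
      = c * ρ.character v := by
    rw [hc1]
    have : (c • (LinearMap.id : (Fin n → ℂ) →ₗ[ℂ] (Fin n → ℂ))) * ρ v = c • ρ v := by
      ext w
      simp
    rw [this, map_smul]
    rfl
  have h2 : LinearMap.trace ℂ (Fin n → ℂ) ((∑ x : G, ρ (x * u * x⁻¹)) * ρ v)
      = (Nat.card G : ℂ) * ρ.character (u * v) := by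
    rw [Finset.sum_mul, map_sum]
    have h3 : ∀ x : G, LinearMap.trace ℂ (Fin n → ℂ) (ρ (x * u * x⁻¹) * ρ v)
        = ρ.character (u * v) := by
      intro x
      rw [← map_mul]
      exact hc (x * u * x⁻¹) v (isConj_iff.mpr ⟨x, rfl⟩) (IsConj.refl v)
    rw [Finset.sum_congr rfl (fun x _ => h3 x), Finset.sum_const, Finset.card_univ,
      Nat.card_eq_fintype_card]
    simp
  have hG : (Nat.card G : ℂ) ≠ 0 := by
    exact_mod_cast Nat.card_pos.ne'
  have h4 : (Nat.card G : ℂ) * (ρ.character u * ρ.character v)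
      = (Nat.card G : ℂ) * (ρ.character 1 * ρ.character (u * v)) := by
    calc (Nat.card G : ℂ) * (ρ.character u * ρ.character v)
        = (c * ρ.character 1) * ρ.character v := by rw [hc2]; ring
      _ = ρ.character 1 * (c * ρ.character v) := by ring
      _ = ρ.character 1 * ((Nat.card G : ℂ) * ρ.character (u * v)) := by rw [← h1, h2]
      _ = (Nat.card G : ℂ) * (ρ.character 1 * ρ.character (u * v)) := by ring
  exact mul_left_cancel₀ hG h4

end Cfsg.Agent.S0943
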