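import Cfsg.Statements.S0946
import Cfsg.Agent.Helper16.Homocyclic2
import Mathlib.GroupTheory.Transfer

set_option autoImplicit false
open Cfsg

namespace Cfsg.Agent.S0946

open scoped Pointwise in
theorem exists_conj_mem_sylow {G : Type*} [Group G] [Finite G] (P : Sylow 2 G) (s : G)
    (hs : orderOf s = 2) :
    ∃ s' : G, IsConj s s' ∧ s' ∈ (P : Subgroup G) ∧ s' * s' = 1 ∧ s' ≠ 1 := by
  have hp2 : IsPGroup 2 (Subgroup.zpowers s) := by
    apply IsPGroup.of_card (n := 1)
    rw [Nat.card_zpowers, hs, pow_one]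
  obtain ⟨Q, hQ⟩ := hp2.exists_le_sylow
  obtain ⟨g, hg⟩ := MulAction.exists_smul_eq G Q P
  refine ⟨g * s * g⁻¹, isConj_iff.mpr ⟨g, rfl⟩, ?_, ?_, ?_⟩
  · have h1 : s ∈ (Q : Subgroup G) := hQ (Subgroup.mem_zpowers s)
    have h2 : (MulAut.conj g) • s ∈ (MulAut.conj g) • (Q : Subgroup G) :=
      Subgroup.smul_mem_pointwise_smul _ _ _ h1
    have h3 : ((g • Q : Sylow 2 G) : Subgroup G) = (MulAut.conj g) • (Q : Subgroup G) :=
      Sylow.coe_subgroup_smul
    rw [← h3, hg] at h2
    simpa [MulAut.smul_def] using h2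
  · have h1 : s * s = 1 := by rw [← pow_two, ← hs, pow_orderOf_eq_one]
    calc g * s * g⁻¹ * (g * s * g⁻¹) = g * (s * s) * g⁻¹ := by group
      _ = 1 := by rw [h1]; group
  · intro h
    have h1 : s = 1 := by
      calc s = g⁻¹ * (g * s * g⁻¹) * g := by group
        _ = 1 := by rw [h]; group
    rw [h1, orderOf_one] at hs
    exact absurd hs (by norm_num)

/-- Let P be a Sylow 2-subgroup of the finite group G isomorphic to Z/2^m × Z/2^m with m ≥ 1. Then either P has a normal complement in G, or all involutions of G are conjugate. -/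
theorem result {G : Type*} [Group G] [Finite G] (P : Sylow 2 G) (m : ℕ) (hm : 1 ≤ m) (e : (P : Subgroup G) ≃* Multiplicative (ZMod (2 ^ m) × ZMod (2 ^ m))) : (∃ N : Subgroup G, N.Normal ∧ Subgroup.IsComplement' N (P : Subgroup G)) ∨ ∀ s t : G, orderOf s = 2 → orderOf t = 2 → IsConj s t := by
  obtain ⟨h13, hii⟩ := Cfsg.Agent.Helper16.homocyclic_main P m hm e
  by_cases hr1 : (Subgroup.centralizer (P : Set G)).relIndex (Subgroup.normalizer (P : Set G)) = 1
  · left
    have hP : Subgroup.normalizer (P : Set G) ≤ Subgroup.centralizer (P : Set G) :=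
      Subgroup.relIndex_eq_one.mp hr1
    exact ⟨(MonoidHom.transferSylow P hP).ker, inferInstance,
      MonoidHom.ker_transferSylow_isComplement' P hP⟩
  · right
    have hfix := hii hr1
    -- an element of the normalizer outside the centralizer
    have hnot : ¬ Subgroup.normalizer (P : Set G) ≤ Subgroup.centralizer (P : Set G) := by
      intro h
      exact hr1 (Subgroup.relIndex_eq_one.mpr h)
    obtain ⟨n, hnN, hnC⟩ := SetLike.not_le_iff_exists.mp hnot
    have hmove : ∀ z ∈ (P : Subgroup G), z ≠ 1 → n * z * n⁻¹ ≠ z := by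
      intro z hz hz1 h
      apply hnC
      rw [← hfix z hz hz1]
      refine Subgroup.mem_inf.mpr ⟨?_, hnN⟩
      rw [Subgroup.mem_centralizer_iff]
      intro k hk
      rw [Set.mem_singleton_iff] at hk
      subst hk
      calc k * n = (n * k * n⁻¹) * n := by rw [h]
        _ = n * k := by group
    have hconjP : ∀ s t : G, s ∈ (P : Subgroup G) → t ∈ (P : Subgroup G) → s * s = 1 → s ≠ 1 →
        t * t = 1 → t ≠ 1 → IsConj s t := by
      intro s t hs ht hss hs1 htt ht1
      by_cases hst : s = t
      · rw [hst]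
      have hnsP : n * s * n⁻¹ ∈ (P : Subgroup G) :=
        (Subgroup.mem_normalizer_iff.mp hnN s).mp hs
      have hntP : n * t * n⁻¹ ∈ (P : Subgroup G) :=
        (Subgroup.mem_normalizer_iff.mp hnN t).mp ht
      have hns2 : (n * s * n⁻¹) * (n * s * n⁻¹) = 1 := by
        calc (n * s * n⁻¹) * (n * s * n⁻¹) = n * (s * s) * n⁻¹ := by group
          _ = 1 := by rw [hss]; group
      have hnt2 : (n * t * n⁻¹) * (n * t * n⁻¹) = 1 := by
        calc (n * t * n⁻¹) * (n * t * n⁻¹) = n * (t * t) * n⁻¹ := by group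
          _ = 1 := by rw [htt]; group
      have hns1 : n * s * n⁻¹ ≠ 1 := by
        intro h
        apply hs1
        calc s = n⁻¹ * (n * s * n⁻¹) * n := by group
          _ = 1 := by rw [h]; group
      have hnt1 : n * t * n⁻¹ ≠ 1 := by
        intro h
        apply ht1
        calc t = n⁻¹ * (n * t * n⁻¹) * n := by group
          _ = 1 := by rw [h]; group
      have key1 := Cfsg.Agent.Helper16.homocyclic_three hm e ⟨s, hs⟩ ⟨t, ht⟩
        ⟨n * s * n⁻¹, hnsP⟩
        (Subtype.ext hss) (fun h => hs1 (congrArg Subtype.val h))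
        (Subtype.ext htt) (fun h => ht1 (congrArg Subtype.val h))
        (Subtype.ext hns2) (fun h => hns1 (congrArg Subtype.val h))
        (fun h => hst (congrArg Subtype.val h).symm)
        (fun h => hmove s hs hs1 (congrArg Subtype.val h))
      rcases key1 with h | h
      · have h' : n * s * n⁻¹ = t := congrArg Subtype.val h
        exact isConj_iff.mpr ⟨n, h'⟩
      · have h' : n * s * n⁻¹ = s * t := congrArg Subtype.val h
        have key2 := Cfsg.Agent.Helper16.homocyclic_three hm e ⟨t, ht⟩ ⟨s, hs⟩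
          ⟨n * t * n⁻¹, hntP⟩
          (Subtype.ext htt) (fun h => ht1 (congrArg Subtype.val h))
          (Subtype.ext hss) (fun h => hs1 (congrArg Subtype.val h))
          (Subtype.ext hnt2) (fun h => hnt1 (congrArg Subtype.val h))
          (fun h => hst (congrArg Subtype.val h))
          (fun h => hmove t ht ht1 (congrArg Subtype.val h))
        rcases key2 with h2 | h2
        · have h2' : n * t * n⁻¹ = s := congrArg Subtype.val h2
          exact (isConj_iff.mpr ⟨n, h2'⟩).symm
        · have h2' : n * t * n⁻¹ = t * s := congrArg Subtype.val h2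
          exfalso
          apply hst
          have hcomm : s * t = t * s := Cfsg.Agent.Helper16.homocyclic_comm e s t hs ht
          have h3 : n * s * n⁻¹ = n * t * n⁻¹ := by rw [h', h2', hcomm]
          calc s = n⁻¹ * (n * s * n⁻¹) * n := by group
            _ = n⁻¹ * (n * t * n⁻¹) * n := by rw [h3]
            _ = t := by group
    intro s t hs ht
    obtain ⟨s', hss', hs'P, hs's', hs'1⟩ := exists_conj_mem_sylow P s hs
    obtain ⟨t', htt', ht'P, ht't', ht'1⟩ := exists_conj_mem_sylow P t ht
    exact hss'.trans ((hconjP s' t' hs'P ht'P hs's' hs'1 ht't' ht'1).trans htt'.symm)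

end Cfsg.Agent.S0946
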