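import Cfsg.Statements.S0949
-- import your own Cfsg.Agent.* helpers here
import Cfsg.Agent.Helper81.HomocyclicBlock
import Cfsg.Agent.Helper49.ZStarMin

set_option autoImplicit false
open Cfsg

namespace Cfsg.Agent.S0949

universe u

/-- A normal subgroup `K` of `G` (with `O(G) = 1`) containing the abelian Sylow `2`-subgroup `P`, in
which `P` is central in its normalizer, equals `P` (Burnside's transfer theorem). -/
theorem eq_of_normalizer_inf_le {G : Type u} [Group G] [Finite G] (P : Sylow 2 G)
    (h0 : Cfsg.pPrimeCore 2 G = ⊥) (K : Subgroup G) [hKn : K.Normal]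
    (hPK : (P : Subgroup G) ≤ K)
    (hNC : Subgroup.normalizer ((P : Subgroup G) : Set G) ⊓ K
      ≤ Subgroup.centralizer ((P : Subgroup G) : Set G)) : K = (P : Subgroup G) := by
  have : Fact (Nat.Prime 2) := ⟨Nat.prime_two⟩
  have hnc : Subgroup.normalizer (((P.subtype hPK : Sylow 2 K) : Subgroup K) : Set K)
      ≤ Subgroup.centralizer ((P.subtype hPK : Sylow 2 K) : Set K) := by
    intro h hh
    rw [Subgroup.mem_centralizer_iff]
    intro a ha
    have ha' : (a : G) ∈ (P : Subgroup G) := by
      have : a ∈ ((P.subtype hPK : Sylow 2 K) : Subgroup K) := ha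
      rw [Sylow.coe_subtype, Subgroup.mem_subgroupOf] at this
      exact this
    have hhN : (h : G) ∈ Subgroup.normalizer ((P : Subgroup G) : Set G) := by
      rw [Subgroup.mem_normalizer_iff]
      intro x
      have hh' := Subgroup.mem_normalizer_iff.mp hh
      constructor
      · intro hx
        have h1 := (hh' ⟨x, hPK hx⟩).mp (by
          show (⟨x, hPK hx⟩ : K) ∈ ((P.subtype hPK : Sylow 2 K) : Subgroup K)
          rw [Sylow.coe_subtype, Subgroup.mem_subgroupOf]
          exact hx)
        have h2 : (h * ⟨x, hPK hx⟩ * h⁻¹ : K) ∈ ((P.subtype hPK : Sylow 2 K) : Subgroup K) := h1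
        rw [Sylow.coe_subtype, Subgroup.mem_subgroupOf] at h2
        exact h2
      · intro hx
        have hxK : x ∈ K := by
          have h1 := hPK hx
          have h2 : x = (h : G)⁻¹ * ((h : G) * x * (h : G)⁻¹) * (h : G) := by group
          rw [h2]
          exact K.mul_mem (K.mul_mem (K.inv_mem h.2) h1) h.2
        have h1 := (hh' ⟨x, hxK⟩).mpr (by
          show (h * ⟨x, hxK⟩ * h⁻¹ : K) ∈ ((P.subtype hPK : Sylow 2 K) : Subgroup K)
          rw [Sylow.coe_subtype, Subgroup.mem_subgroupOf]
          exact hx)
        have h2 : (⟨x, hxK⟩ : K) ∈ ((P.subtype hPK : Sylow 2 K) : Subgroup K) := h1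
        rw [Sylow.coe_subtype, Subgroup.mem_subgroupOf] at h2
        exact h2
    have hhC : (h : G) ∈ Subgroup.centralizer ((P : Subgroup G) : Set G) :=
      hNC (Subgroup.mem_inf.mpr ⟨hhN, h.2⟩)
    exact Subtype.ext (Subgroup.mem_centralizer_iff.mp hhC (a : G) ha')
  have hc := MonoidHom.ker_transferSylow_isComplement' (P.subtype hPK) hnc
  have hnd := MonoidHom.not_dvd_card_ker_transferSylow (P.subtype hPK) hnc
  have hker : (MonoidHom.transferSylow (P.subtype hPK) hnc).ker = ⊥ := by
    have h1 : ((MonoidHom.transferSylow (P.subtype hPK) hnc).ker).map K.subtype = ⊥ := by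
      apply Helper49.eq_bot_of_normal_coprime h0 (N := K) (Subgroup.map_subtype_le _)
      · intro k hk
        have := Subgroup.le_normalizer_map K.subtype (H := (MonoidHom.transferSylow (P.subtype hPK) hnc).ker)
        apply this
        refine ⟨⟨k, hk⟩, ?_, rfl⟩
        rw [Subgroup.normalizer_eq_top]
        exact Subgroup.mem_top _
      · rw [Subgroup.card_map_of_injective K.subtype_injective]
        exact ((Nat.Prime.coprime_iff_not_dvd Nat.prime_two).mpr hnd).symm
    exact (Subgroup.map_eq_bot_iff_of_injective _ K.subtype_injective).mp h1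
  rw [hker, Subgroup.isComplement'_bot_left] at hc
  have h2 : (P : Subgroup G).subgroupOf K = ⊤ := by
    rw [← Sylow.coe_subtype P hPK]
    exact hc
  exact le_antisymm (Subgroup.subgroupOf_eq_top.mp h2) hPK

theorem aux : ∀ (n : ℕ) (G : Type u) [Group G] [Finite G], Nat.card G = n →
    ∀ (P : Sylow 2 G) (m : ℕ), 2 ≤ m →
      ((P : Subgroup G) ≃* Multiplicative (ZMod (2 ^ m) × ZMod (2 ^ m))) →
      (∀ N : Subgroup G, N.Normal → Odd (Nat.card N) → N = ⊥) →
      (P : Subgroup G).Normal ∧ Subgroup.centralizer (P : Set G) = (P : Subgroup G) ∧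
        ((P : Subgroup G).index = 1 ∨ (P : Subgroup G).index = 3) := by
  intro n
  induction n using Nat.strong_induction_on with
  | _ n ih =>
  intro G _ _ hn P m hm e hO
  have : Fact (Nat.Prime 2) := ⟨Nat.prime_two⟩
  have h0 : Cfsg.pPrimeCore 2 G = ⊥ := by
    apply hO _ (Cfsg.pPrimeCore_normal 2 G)
    exact Nat.coprime_two_right.mp (Helper49.pPrimeCore_coprime' 2)
  have hcomm : ∀ x ∈ (P : Subgroup G), ∀ y ∈ (P : Subgroup G), x * y = y * x :=
    fun x hx y hy => Helper16.homocyclic_comm e x y hx hy
  have hPC : (P : Subgroup G) ≤ Subgroup.centralizer ((P : Subgroup G) : Set G) := by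
    intro x hx
    rw [Subgroup.mem_centralizer_iff]
    intro y hy
    exact hcomm y hy x hx
  obtain ⟨h13, -⟩ := Helper16.homocyclic_main P m (by omega) e
  -- once `P` is normal, the rest follows
  have hfinish : (P : Subgroup G).Normal →
      (P : Subgroup G).Normal ∧ Subgroup.centralizer (P : Set G) = (P : Subgroup G) ∧
        ((P : Subgroup G).index = 1 ∨ (P : Subgroup G).index = 3) := by
    intro hPn
    have hCn : (Subgroup.centralizer ((P : Subgroup G) : Set G)).Normal :=
      Subgroup.normal_centralizer
    have hCP : Subgroup.centralizer ((P : Subgroup G) : Set G) = (P : Subgroup G) :=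
      eq_of_normalizer_inf_le P h0 _ hPC inf_le_right
    refine ⟨hPn, hCP, ?_⟩
    have hNtop : Subgroup.normalizer ((P : Subgroup G) : Set G) = ⊤ :=
      Subgroup.normalizer_eq_top (P : Subgroup G)
    have h13' : (Subgroup.centralizer ((P : Subgroup G) : Set G)).relIndex
          (Subgroup.normalizer ((P : Subgroup G) : Set G)) = 1 ∨
        (Subgroup.centralizer ((P : Subgroup G) : Set G)).relIndex
          (Subgroup.normalizer ((P : Subgroup G) : Set G)) = 3 := h13
    rw [hNtop, Subgroup.relIndex_top_right, hCP] at h13'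
    exact h13'
  by_cases hr1 : (Subgroup.centralizer ((P : Subgroup G) : Set G)).relIndex
      (Subgroup.normalizer ((P : Subgroup G) : Set G)) = 1
  · have hNC : Subgroup.normalizer ((P : Subgroup G) : Set G)
        ≤ Subgroup.centralizer ((P : Subgroup G) : Set G) := Subgroup.relIndex_eq_one.mp hr1
    have htop : (⊤ : Subgroup G) = (P : Subgroup G) :=
      eq_of_normalizer_inf_le P h0 ⊤ le_top (inf_le_left.trans hNC)
    apply hfinish
    rw [← htop]
    infer_instance
  · obtain ⟨K, hKn, hKtop, hPK⟩ := Helper81.exists_normal_of_homocyclic P m hm e hr1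
    have hcardK : Nat.card K < n := by
      rw [← hn]
      have h1 := Subgroup.card_mul_index K
      have h2 : K.index ≠ 1 := fun h => hKtop (Subgroup.index_eq_one.mp h)
      have h3 : K.index ≠ 0 := Subgroup.index_ne_zero_of_finite
      have h4 : 0 < Nat.card K := Nat.card_pos
      have h5 : 2 ≤ K.index := by omega
      have h6 : Nat.card K * 2 ≤ Nat.card K * K.index := Nat.mul_le_mul_left _ h5
      omega
    have hOK : ∀ N' : Subgroup K, N'.Normal → Odd (Nat.card N') → N' = ⊥ := by
      intro N' hN'n hN'odd
      have h1 : N'.map K.subtype = ⊥ := by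
        apply Helper49.eq_bot_of_normal_coprime h0 (N := K) (Subgroup.map_subtype_le _)
        · intro k hk
          have := Subgroup.le_normalizer_map K.subtype (H := N')
          apply this
          refine ⟨⟨k, hk⟩, ?_, rfl⟩
          rw [Subgroup.normalizer_eq_top]
          exact Subgroup.mem_top _
        · rw [Subgroup.card_map_of_injective K.subtype_injective]
          exact Nat.coprime_two_right.mpr hN'odd
      exact (Subgroup.map_eq_bot_iff_of_injective _ K.subtype_injective).mp h1
    have eK : (((P.subtype hPK : Sylow 2 K) : Subgroup K)) ≃*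
        Multiplicative (ZMod (2 ^ m) × ZMod (2 ^ m)) :=
      (Subgroup.subgroupOfEquivOfLe hPK).trans e
    obtain ⟨hPKn, -, -⟩ := ih (Nat.card K) hcardK K rfl (P.subtype hPK) m hm eK hOK
    have hchar : ((P.subtype hPK : Sylow 2 K) : Subgroup K).Characteristic :=
      Sylow.characteristic_of_normal _ hPKn
    have hmapn : (((P.subtype hPK : Sylow 2 K) : Subgroup K).map K.subtype).Normal :=
      ConjAct.normal_of_characteristic_of_normal
    have hmap : ((P.subtype hPK : Sylow 2 K) : Subgroup K).map K.subtype = (P : Subgroup G) := by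
      rw [Sylow.coe_subtype]
      exact Subgroup.map_subgroupOf_eq_of_le hPK
    apply hfinish
    rw [← hmap]
    exact hmapn

/-- Let the finite group G have a Sylow 2-subgroup P isomorphic to Z/2^m × Z/2^m with m ≥ 2, and suppose G has no nontrivial normal subgroup of odd order. Then P is normal in G, C_G(P) = P, and the index of P is 1 or 3. -/
theorem result {G : Type*} [Group G] [Finite G] (P : Sylow 2 G) (m : ℕ) (hm : 2 ≤ m) (e : (P : Subgroup G) ≃* Multiplicative (ZMod (2 ^ m) × ZMod (2 ^ m))) (hO : ∀ N : Subgroup G, N.Normal → Odd (Nat.card N) → N = ⊥) : (P : Subgroup G).Normal ∧ Subgroup.centralizer (P : Set G) = (P : Subgroup G) ∧ ((P : Subgroup G).index = 1 ∨ (P : Subgroup G).index = 3) := by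
  exact aux (Nat.card G) G rfl P m hm e hO

end Cfsg.Agent.S0949
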