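import Cfsg.Statements.S0951
-- import your own Cfsg.Agent.* helpers here
import Cfsg.Agent.Helper81.QuatBlock

set_option autoImplicit false
open Cfsg

namespace Cfsg.Agent.S0951

open scoped ComplexConjugate

/-- Let S be a Sylow 2-subgroup of the finite group G isomorphic to the quaternion group of order 8. Suppose G has no nontrivial normal subgroup of odd order and G ≠ S. Then, relative to any maximal ideal M of the algebraic integers containing 2, the principal block of G consists of exactly 7 irreducible characters. -/
theorem result {G : Type*} [Group G] [Finite G] (M : Ideal Cfsg.AlgInt) (hM : Cfsg.IsPModular 2 M) (S : Sylow 2 G) (e : (S : Subgroup G) ≃* QuaternionGroup 2) (hO : ∀ N : Subgroup G, N.Normal → Odd (Nat.card N) → N = ⊥) (hG : (S : Subgroup G) ≠ ⊤) : Nat.card (Cfsg.principalBlock M G) = 7 := by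
  classical
  have : Fact (Nat.Prime 2) := ⟨Nat.prime_two⟩
  have : Fintype G := Fintype.ofFinite G
  have : Fintype (G ⧸ Subgroup.center G) := Fintype.ofFinite _
  obtain ⟨z, u, hz, hu, hall, hK⟩ := Helper81.quat_sylow_data S e hO hG
  obtain ⟨ub, hub, hallb, hKb, hcardb⟩ := Helper81.quat_quotient_data M hM S e z u hz hu hall
  have hz1 : z ≠ 1 := by
    intro h
    rw [h, orderOf_one] at hz
    have := hz.2.1
    omega
  have hzz : z * z = 1 := by
    have := pow_orderOf_eq_one z
    rw [hz.2.1, pow_two] at this
    exact this
  -- the principal block of `G`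
  have h1 : Nat.card (Cfsg.principalBlock M G)
      = (({z} : Finset G).card + 1) * Cfsg.blockRank 2 (Cfsg.principalBlock M G) + 1 := by
    apply Helper81.card_principalBlock_of_sections hM ({z} : Finset G) u ?_ ?_ ?_ ?_ ?_ hK
    · intro x hx
      rw [Finset.mem_singleton] at hx
      subst hx
      exact ⟨hz1, ⟨1, by rw [hz.2.1, pow_one]⟩, fun g => (Subgroup.mem_center_iff.mp hz.1 g).symm⟩
    · intro x hx ζ _ g
      rw [Finset.mem_singleton] at hx
      subst hx
      obtain ⟨ε, hε, hεg⟩ := Helper39.irr_central_sign ζ hz.1 hzz
      rw [hεg g]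
      rcases hε with rfl | rfl
      · rw [one_mul]
      · simp
    · refine ⟨?_, 2, by rw [hu.1]; norm_num⟩
      intro h
      rw [h, orderOf_one] at hu
      have := hu.1
      omega
    · intro x hx1 hxk
      rcases hall x hx1 hxk with h | h
      · left; rw [Finset.mem_singleton]; exact h
      · right; exact h
    · intro x hx hxz
      rw [Finset.mem_singleton] at hxz
      obtain ⟨c, hc⟩ := isConj_iff.mp hx
      have h4 : orderOf x = 4 := by
        rw [← hc, Helper49.orderOf_conj_eq']; exact hu.1
      rw [hxz, hz.2.1] at h4
      omega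
  -- the principal block of `G ⧸ Z(G)`
  have h2 : Nat.card (Cfsg.principalBlock M (G ⧸ Subgroup.center G))
      = ((∅ : Finset (G ⧸ Subgroup.center G)).card + 1)
        * Cfsg.blockRank 2 (Cfsg.principalBlock M (G ⧸ Subgroup.center G)) + 1 := by
    apply Helper81.card_principalBlock_of_sections hM (∅ : Finset (G ⧸ Subgroup.center G)) ub
      ?_ ?_ hub ?_ ?_ hKb
    · intro x hx
      exact absurd hx (Finset.notMem_empty x)
    · intro x hx
      exact absurd hx (Finset.notMem_empty x)
    · intro x hx1 hxk
      exact Or.inr (hallb x hx1 hxk)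
    · intro x _
      exact Finset.notMem_empty x
  -- the ranks agree
  have hcen := Helper61.card_center_eq_two_of_sylow_q8 S e hO
  have h3 := Helper76.blockRank_principal_quotient hM (Subgroup.center G)
    (IsPGroup.of_card (n := 1) (by rw [hcen, pow_one]))
    (by rw [Subgroup.centralizer_eq_top_iff_subset.mpr (le_refl _), sup_top_eq])
  rw [hcardb, Finset.card_empty] at h2
  rw [h1, h3, Finset.card_singleton]
  omega

end Cfsg.Agent.S0951
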