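import Cfsg.Statements.S0952
import Cfsg.Agent.Helper77.PRegular

set_option autoImplicit false
open scoped ComplexConjugate
open Cfsg

namespace Cfsg.Agent.S0952

/-- Let χ and ψ be irreducible characters of the finite group G lying in different blocks relative to a maximal ideal M of the algebraic integers containing the prime p. Then the sum of χ x * conj (ψ x) over the elements x of order prime to p is zero. -/
theorem result {G : Type*} [Group G] [Finite G] (p : ℕ) [Fact p.Prime] (M : Ideal Cfsg.AlgInt) (hM : Cfsg.IsPModular p M) (χ ψ : Cfsg.IrrCharacter G) (h : ¬ Cfsg.SameBlock M (χ : G → ℂ) (ψ : G → ℂ)) : ∑ᶠ x ∈ {x : G | ¬ p ∣ orderOf x}, (χ : G → ℂ) x * conj ((ψ : G → ℂ) x) = 0 := by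
  classical
  have := Fintype.ofFinite G
  haveI hPr : M.IsPrime := hM.2.1.isPrime
  have hχB : χ ∈ Cfsg.blockOf M (χ : G → ℂ) := Cfsg.Agent.Helper81.mem_blockOf_self χ
  have hψB : ψ ∉ Cfsg.blockOf M (χ : G → ℂ) := h
  have h1 := Cfsg.Agent.Helper77.pregInner_eq_zero hM ⟨χ, rfl⟩ hψB hχB
  rw [finsum_mem_def, finsum_eq_sum_of_fintype]
  have h2 : ∑ x : G, Set.indicator {x : G | ¬ p ∣ orderOf x}
      (fun x => (χ : G → ℂ) x * (starRingEnd ℂ) ((ψ : G → ℂ) x)) x
      = (starRingEnd ℂ) (Cfsg.Agent.Helper77.pregInner p (ψ : G → ℂ) (χ : G → ℂ)) := by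
    rw [Cfsg.Agent.Helper77.conj_pregInner, Cfsg.Agent.Helper77.pregInner]
    refine Finset.sum_congr rfl fun x _ => ?_
    by_cases hx : p ∣ orderOf x
    · rw [Set.indicator_of_notMem (by simpa using hx)]
      simp [hx]
    · rw [Set.indicator_of_mem (by simpa using hx)]
      simp [hx]
  rw [h2, h1, map_zero]

end Cfsg.Agent.S0952
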