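import Cfsg.Statements.S0953
import Cfsg.Agent.Helper16.SylowCount
import Cfsg.Agent.S0920
import Cfsg.Agent.S0962
import Cfsg.Agent.Helper75.DefClass

set_option autoImplicit false
open Cfsg

namespace Cfsg.Agent.S0953

/-- Let P be a Sylow p-subgroup of the finite group G with normalizer N, and fix a maximal ideal M of the algebraic integers containing p. The number of blocks of G having P as a defect group equals the number of conjugacy classes of N consisting of elements of order prime to p that centralize P. -/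
theorem result {G : Type*} [Group G] [Finite G] (p : ℕ) [Fact p.Prime] (M : Ideal Cfsg.AlgInt) (hM : Cfsg.IsPModular p M) (P : Sylow p G) : Nat.card {B : Set (Cfsg.IrrCharacter G) // Cfsg.IsPBlock M B ∧ Cfsg.IsDefectGroup p M B (P : Subgroup G)} = Nat.card {C : ConjClasses (Subgroup.normalizer ((P : Subgroup G) : Set G)) // ∀ n : Subgroup.normalizer ((P : Subgroup G) : Set G), ConjClasses.mk n = C → ¬ p ∣ orderOf n ∧ (n : G) ∈ Subgroup.centralizer ((P : Subgroup G) : Set G)} := by
  classical
  have : Fintype G := Fintype.ofFinite G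
  have hp : p.Prime := Fact.out
  have hMm := hM.2.1
  have hPp : IsPGroup p (P : Subgroup G) := P.isPGroup'
  have hPN : (P : Subgroup G) ≤ Subgroup.normalizer ((P : Subgroup G) : Set G) :=
    Subgroup.le_normalizer
  have hP'n : ((P : Subgroup G).subgroupOf (Subgroup.normalizer ((P : Subgroup G) : Set G))).Normal :=
    Subgroup.normal_subgroupOf_of_le_normalizer le_rfl
  have hP'p : IsPGroup p ((P : Subgroup G).subgroupOf
      (Subgroup.normalizer ((P : Subgroup G) : Set G))) := hPp.comap_subtype
  have hP'idx : ¬ p ∣ ((P : Subgroup G).subgroupOf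
      (Subgroup.normalizer ((P : Subgroup G) : Set G))).index := by
    intro h
    exact P.not_dvd_index (h.trans (Subgroup.relIndex_dvd_index_of_le hPN))
  have : Fintype (Subgroup.normalizer ((P : Subgroup G) : Set G)) := Fintype.ofFinite _
  have hcent : ∀ n : Subgroup.normalizer ((P : Subgroup G) : Set G),
      n ∈ Subgroup.centralizer (((P : Subgroup G).subgroupOf
        (Subgroup.normalizer ((P : Subgroup G) : Set G)) : Subgroup _) : Set _)
      ↔ (n : G) ∈ Subgroup.centralizer ((P : Subgroup G) : Set G) := by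
    intro n
    rw [Subgroup.mem_centralizer_iff, Subgroup.mem_centralizer_iff]
    constructor
    · intro h y hy
      have := h ⟨y, hPN hy⟩ (by
        show (⟨y, hPN hy⟩ : Subgroup.normalizer ((P : Subgroup G) : Set G))
          ∈ (P : Subgroup G).subgroupOf _
        rw [Subgroup.mem_subgroupOf]; exact hy)
      exact congrArg Subtype.val this
    · intro h y hy
      have hy' : (y : G) ∈ (P : Subgroup G) := by
        have : y ∈ (P : Subgroup G).subgroupOf _ := hy
        rwa [Subgroup.mem_subgroupOf] at this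
      exact Subtype.ext (h (y : G) hy')
  -- Step I: First Main Theorem
  obtain ⟨h1, h2⟩ := Cfsg.Agent.S0920.result p M hM (P : Subgroup G) hPp
  have hI : Nat.card {b : Set (Cfsg.IrrCharacter (Subgroup.normalizer ((P : Subgroup G) : Set G)))
        // Cfsg.IsPBlock M b ∧ Cfsg.IsDefectGroup p M b ((P : Subgroup G).subgroupOf
          (Subgroup.normalizer ((P : Subgroup G) : Set G)))}
      = Nat.card {B : Set (Cfsg.IrrCharacter G) // Cfsg.IsPBlock M B ∧
          Cfsg.IsDefectGroup p M B (P : Subgroup G)} := by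
    refine Nat.card_eq_of_bijective
      (fun b => ⟨Classical.choose (h1 b.1 b.2.1 b.2.2),
        (Classical.choose_spec (h1 b.1 b.2.1 b.2.2)).1,
        (Classical.choose_spec (h1 b.1 b.2.1 b.2.2)).2.1⟩) ⟨?_, ?_⟩
    · intro b₁ b₂ h
      have hB : Classical.choose (h1 b₁.1 b₁.2.1 b₁.2.2)
          = Classical.choose (h1 b₂.1 b₂.2.1 b₂.2.2) := congrArg Subtype.val h
      have s1 := Classical.choose_spec (h1 b₁.1 b₁.2.1 b₁.2.2)
      have s2 := Classical.choose_spec (h1 b₂.1 b₂.2.1 b₂.2.2)
      rw [← hB] at s2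
      exact Subtype.ext ((h2 _ s1.1 s1.2.1).unique ⟨b₁.2.1, b₁.2.2, s1.2.2⟩
        ⟨b₂.2.1, b₂.2.2, s2.2.2⟩)
    · intro B
      obtain ⟨b, ⟨hb, hbD, hind⟩, -⟩ := h2 B.1 B.2.1 B.2.2
      refine ⟨⟨b, hb, hbD⟩, Subtype.ext ?_⟩
      exact Helper75.isInducedBlock_unique hMm _
        (Classical.choose_spec (h1 b hb hbD)).2.2 hind
  -- Step II: every block of the normalizer has defect group `P`
  have hII : Nat.card {b : Set (Cfsg.IrrCharacter (Subgroup.normalizer ((P : Subgroup G) : Set G)))
        // Cfsg.IsPBlock M b ∧ Cfsg.IsDefectGroup p M b ((P : Subgroup G).subgroupOf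
          (Subgroup.normalizer ((P : Subgroup G) : Set G)))}
      = Nat.card {b : Set (Cfsg.IrrCharacter (Subgroup.normalizer ((P : Subgroup G) : Set G)))
        // Cfsg.IsPBlock M b} :=
    Nat.card_congr (Equiv.subtypeEquivRight fun b => ⟨fun h => h.1, fun h =>
      ⟨h, (Helper16.sylowCount_isDefectGroup hM _ hP'p hP'idx h).1⟩⟩)
  -- Step III: at most as many blocks as classes
  obtain ⟨d₀, hd₀⟩ := IsPGroup.iff_card.mp hP'p
  have hIIIa : Nat.card {b : Set (Cfsg.IrrCharacter
        (Subgroup.normalizer ((P : Subgroup G) : Set G))) // Cfsg.IsPBlock M b}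
      = Nat.card {b : Set (Cfsg.IrrCharacter (Subgroup.normalizer ((P : Subgroup G) : Set G)))
        // Cfsg.IsPBlock M b ∧ d₀ ≤ Cfsg.blockDefect p b} :=
    Nat.card_congr (Equiv.subtypeEquivRight fun b => ⟨fun h => ⟨h, by
      have h3 := (Helper16.sylowCount_isDefectGroup hM _ hP'p hP'idx h).2
      rw [hd₀] at h3
      exact (Nat.pow_right_injective hp.two_le h3).le⟩, fun h => h.1⟩)
  have hIIIb := Cfsg.Agent.S0962.result (G := Subgroup.normalizer ((P : Subgroup G) : Set G))
    p M hM d₀
  have hIIIc : Nat.card {C : ConjClasses (Subgroup.normalizer ((P : Subgroup G) : Set G)) //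
        ∃ g : Subgroup.normalizer ((P : Subgroup G) : Set G), ConjClasses.mk g = C ∧
          Cfsg.IsPRegular p g ∧
          d₀ ≤ (Nat.card (Subgroup.centralizer ({g} : Set _))).factorization p}
      ≤ Nat.card {C : ConjClasses (Subgroup.normalizer ((P : Subgroup G) : Set G)) //
        ∀ n : Subgroup.normalizer ((P : Subgroup G) : Set G), ConjClasses.mk n = C →
          ¬ p ∣ orderOf n ∧ (n : G) ∈ Subgroup.centralizer ((P : Subgroup G) : Set G)} := by
    refine Nat.card_le_card_of_injective (fun C => ⟨C.1, ?_⟩) ?_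
    · obtain ⟨g, hg, hreg, hd⟩ := C.2
      have hgc : g ∈ Subgroup.centralizer (((P : Subgroup G).subgroupOf
          (Subgroup.normalizer ((P : Subgroup G) : Set G)) : Subgroup _) : Set _) := by
        apply Helper16.sylowCount_mem_centralizer _ hP'p hP'idx g
        rw [hd₀]
        exact (hp.pow_dvd_iff_le_factorization Nat.card_pos.ne').mpr hd
      intro n hn
      rw [← hg, ConjClasses.mk_eq_mk_iff_isConj, isConj_comm, isConj_iff] at hn
      obtain ⟨c, hc⟩ := hn
      constructor
      · rw [← hc]
        have : orderOf (c * g * c⁻¹) = orderOf g := (MulAut.conj c).orderOf_eq g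
        rw [this]
        exact hreg
      · rw [← hcent, ← hc]
        rw [Subgroup.mem_centralizer_iff] at hgc ⊢
        intro y hy
        have hy2 : c⁻¹ * y * c ∈ (P : Subgroup G).subgroupOf
            (Subgroup.normalizer ((P : Subgroup G) : Set G)) := by
          have := hP'n.conj_mem y hy c⁻¹
          rwa [inv_inv] at this
        have h3 := hgc _ hy2
        calc y * (c * g * c⁻¹) = c * ((c⁻¹ * y * c) * g) * c⁻¹ := by group
          _ = c * (g * (c⁻¹ * y * c)) * c⁻¹ := by rw [h3]
          _ = c * g * c⁻¹ * y := by group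
    · intro C C' h
      have h' := Subtype.ext_iff.mp h
      exact Subtype.ext h'
  -- Step IV: at most as many classes as blocks
  obtain ⟨K, hKn, hKp, hK⟩ := Helper16.sylowCount_exists_core _ hP'p hP'idx
  have hIV := Helper16.sylowCount_card_le hM K hKp
    {C : ConjClasses (Subgroup.normalizer ((P : Subgroup G) : Set G)) |
      ∀ n : Subgroup.normalizer ((P : Subgroup G) : Set G), ConjClasses.mk n = C →
        ¬ p ∣ orderOf n ∧ (n : G) ∈ Subgroup.centralizer ((P : Subgroup G) : Set G)}
    (by
      intro C hC x hx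
      obtain ⟨hx1, hx2⟩ := hC x hx
      exact hK x ((hcent x).mpr hx2) hx1)
  rw [← hI, hII]
  apply le_antisymm
  · rw [hIIIa]
    exact hIIIb.trans hIIIc
  · exact hIV

end Cfsg.Agent.S0953
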