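import Cfsg.Statements.S0954
import Cfsg.Agent.Helper76.Cover
-- import your own Cfsg.Agent.* helpers here

set_option autoImplicit false
open Cfsg

namespace Cfsg.Agent.S0954

/-- Let N be a normal subgroup of the finite group G of order prime to p and of p-power index (a normal p-complement), and fix a maximal ideal M of the algebraic integers containing p. Then two irreducible characters χ, ψ of G lie in the same block if and only if some irreducible character of N has nonzero inner product with both the restriction of χ and the restriction of ψ. -/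
theorem result {G : Type*} [Group G] [Fintype G] (p : ℕ) [Fact p.Prime] (M : Ideal Cfsg.AlgInt) (hM : Cfsg.IsPModular p M) (N : Subgroup G) [N.Normal] [Fintype N] (hN : ¬ p ∣ Nat.card N) (hidx : ∃ k : ℕ, N.index = p ^ k) (χ ψ : Cfsg.IrrCharacter G) : Cfsg.SameBlock M (χ : G → ℂ) (ψ : G → ℂ) ↔ ∃ θ : Cfsg.IrrCharacter N, Cfsg.classInner (fun n : N => (χ : G → ℂ) n) (θ : N → ℂ) ≠ 0 ∧ Cfsg.classInner (fun n : N => (ψ : G → ℂ) n) (θ : N → ℂ) ≠ 0 := by
  classical
  have hMm := hM.2.1
  constructor
  · intro h
    have hne : (fun n : N => (χ : G → ℂ) n) ≠ 0 := by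
      intro h0
      have h1 := congrFun h0 1
      exact Cfsg.Agent.Helper81.irr_one_ne_zero χ (by simpa using h1)
    obtain ⟨θ, hθ⟩ := Cfsg.Agent.Helper15.exists_constituent
      (Cfsg.Agent.Helper16.isClassFunction_res (Cfsg.Agent.Helper81.irr_isClassFunction χ) N) hne
    exact ⟨θ, hθ, Cfsg.Agent.Helper81.classInner_ne_zero_of_sameBlock hM N hN h θ hθ⟩
  · rintro ⟨θ, h1, h2⟩
    exact Cfsg.Agent.Helper76.sameBlock_of_constituents_sameBlock hM N hidx χ ψ θ θ
      (Cfsg.Agent.Helper16.sameBlock_refl hMm _) h1 h2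

end Cfsg.Agent.S0954
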