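import Cfsg.Statements.S0956
-- import your own Cfsg.Agent.* helpers here
import Cfsg.Agent.Helper81.Green

set_option autoImplicit false
open Cfsg

namespace Cfsg.Agent.S0956

/-- Let D be a defect group of a block of the finite group G (relative to a maximal ideal M of the algebraic integers containing the prime p) and P a Sylow p-subgroup containing D. Then there is an element x of order prime to p such that D is a Sylow p-subgroup of the centralizer of x and D = P ∩ x P x⁻¹. -/
theorem result {G : Type*} [Group G] [Finite G] (p : ℕ) [Fact p.Prime] (M : Ideal Cfsg.AlgInt) (hM : Cfsg.IsPModular p M) (B : Set (Cfsg.IrrCharacter G)) (hB : Cfsg.IsPBlock M B) (D : Subgroup G) (hD : Cfsg.IsDefectGroup p M B D) (P : Sylow p G) (hDP : D ≤ P) : ∃ x : G, ¬ p ∣ orderOf x ∧ (∃ S : Sylow p (Subgroup.centralizer ({x} : Set G)), (S : Subgroup (Subgroup.centralizer ({x} : Set G))).map (Subgroup.centralizer ({x} : Set G)).subtype = D) ∧ (P : Subgroup G) ⊓ (P : Subgroup G).map (MulAut.conj x).toMonoidHom = D := by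
  classical
  have hp : p.Prime := Fact.out
  have : Fintype G := Fintype.ofFinite G
  have : Fintype (Subgroup.normalizer (D : Set G)) := Fintype.ofFinite _
  -- First Main Theorem: a block `b` of `N_G(D)` with defect group `D` inducing `B`
  obtain ⟨b, hb, hDb, hind⟩ := Helper16.fmt_exists hM D hB hD
  have hDN : D ≤ Subgroup.normalizer (D : Set G) := Subgroup.le_normalizer
  have hnorm : (D.subgroupOf (Subgroup.normalizer (D : Set G))).Normal :=
    Subgroup.normal_subgroupOf_of_le_normalizer le_rfl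
  obtain ⟨-, -, -, -, hDp⟩ := Helper16.isDefectGroup_exists_data hD
  -- a Sylow subgroup of `N_G(D)` containing `P ∩ N_G(D)`
  have hPN : IsPGroup p (((P : Subgroup G) ⊓ Subgroup.normalizer (D : Set G)).subgroupOf
      (Subgroup.normalizer (D : Set G))) :=
    (P.2.to_le inf_le_left).comap_subtype
  obtain ⟨P₁, hP₁⟩ := hPN.exists_le_sylow
  obtain ⟨y, hyreg, hyD, hycard, hyQ⟩ := Helper81.green_normal hM hb hDb P₁
  have hyc : (y : G) ∈ Subgroup.centralizer (D : Set G) := by
    rw [Subgroup.mem_centralizer_iff]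
    intro d hd
    have h2 := Subgroup.mem_centralizer_iff.mp
      (hyD (show (⟨d, hDN hd⟩ : Subgroup.normalizer (D : Set G)) ∈ D.subgroupOf _ from by
        rw [Subgroup.mem_subgroupOf]; exact hd)) y rfl
    exact (congrArg Subtype.val h2).symm
  have hcard' : Nat.card D = p ^ (Nat.card (Subgroup.centralizer
      ({y} : Set (Subgroup.normalizer (D : Set G))))).factorization p := by
    rw [← hycard]
    exact (Nat.card_congr (Subgroup.subgroupOfEquivOfLe hDN).toEquiv).symm
  have hDR : D ≤ (P : Subgroup G) ⊓ (P : Subgroup G).map (MulAut.conj (y : G)).toMonoidHom := by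
    intro d hd
    refine Subgroup.mem_inf.mpr ⟨hDP hd, ?_⟩
    refine ⟨d, hDP hd, ?_⟩
    have h1 := Subgroup.mem_centralizer_iff.mp hyc d hd
    simp only [MulEquiv.coe_toMonoidHom, MulAut.conj_apply]
    rw [← h1]
    group
  refine ⟨(y : G), ?_, Helper16.exists_sylow_centralizer_of_normalizer D hDp y hyc hcard', ?_⟩
  · rw [Subgroup.orderOf_coe]
    exact hyreg
  · refine le_antisymm ?_ hDR
    apply Helper81.le_of_normalizer_inf_le (P.2.to_le inf_le_left) hDR
    intro r hr hrN
    obtain ⟨hrP, r', hr'P, hr'⟩ := Subgroup.mem_inf.mp hr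
    simp only [MulEquiv.coe_toMonoidHom, MulAut.conj_apply] at hr'
    have hr'e : r' = (y : G)⁻¹ * r * y := by
      rw [← hr']
      group
    have hr'N : r' ∈ Subgroup.normalizer (D : Set G) := by
      rw [hr'e]
      exact Subgroup.mul_mem _ (Subgroup.mul_mem _ (Subgroup.inv_mem _ y.2) hrN) y.2
    have h1 : (⟨r, hrN⟩ : Subgroup.normalizer (D : Set G)) ∈ (P₁ : Subgroup _) :=
      hP₁ (by rw [Subgroup.mem_subgroupOf]; exact Subgroup.mem_inf.mpr ⟨hrP, hrN⟩)
    have h2 : y⁻¹ * (⟨r, hrN⟩ : Subgroup.normalizer (D : Set G)) * y ∈ (P₁ : Subgroup _) := by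
      have h3 : y⁻¹ * (⟨r, hrN⟩ : Subgroup.normalizer (D : Set G)) * y = ⟨r', hr'N⟩ := by
        apply Subtype.ext
        simp only [Subgroup.coe_mul, Subgroup.coe_inv]
        exact hr'e.symm
      rw [h3]
      exact hP₁ (by rw [Subgroup.mem_subgroupOf]; exact Subgroup.mem_inf.mpr ⟨hr'P, hr'N⟩)
    have h3 := hyQ _ h1 h2
    rw [Subgroup.mem_subgroupOf] at h3
    exact h3

end Cfsg.Agent.S0956
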