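import Cfsg.Statements.S0957
import Cfsg.Agent.Helper16.OrbitCount

set_option autoImplicit false
open Cfsg

namespace Cfsg.Agent.S0957

/-- Simultaneous conjugation by elements of `P` on the pairs of the statement. -/
@[reducible] def pairAction {G : Type*} [Group G] (P : Subgroup G) (g h : G) :
    MulAction P {yz : G × G // IsConj g yz.1 ∧ IsConj h yz.2 ∧ yz.2 * yz.1⁻¹ ∈ P} where
  smul u yz := ⟨((u : G) * yz.1.1 * (u : G)⁻¹, (u : G) * yz.1.2 * (u : G)⁻¹), by
    obtain ⟨⟨y, z⟩, h1, h2, h3⟩ := yz
    refine ⟨h1.trans (isConj_iff.mpr ⟨u, rfl⟩), h2.trans (isConj_iff.mpr ⟨u, rfl⟩), ?_⟩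
    have e : (u : G) * z * (u : G)⁻¹ * ((u : G) * y * (u : G)⁻¹)⁻¹
        = (u : G) * (z * y⁻¹) * (u : G)⁻¹ := by group
    show (u : G) * z * (u : G)⁻¹ * ((u : G) * y * (u : G)⁻¹)⁻¹ ∈ P
    rw [e]
    exact P.mul_mem (P.mul_mem u.2 h3) (P.inv_mem u.2)⟩
  one_smul yz := by
    apply Subtype.ext
    show (((1 : P) : G) * yz.1.1 * ((1 : P) : G)⁻¹, ((1 : P) : G) * yz.1.2 * ((1 : P) : G)⁻¹) = yz.1
    simp
  mul_smul u v yz := by
    apply Subtype.ext
    show (((u * v : P) : G) * yz.1.1 * ((u * v : P) : G)⁻¹,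
        ((u * v : P) : G) * yz.1.2 * ((u * v : P) : G)⁻¹)
      = ((u : G) * ((v : G) * yz.1.1 * (v : G)⁻¹) * (u : G)⁻¹,
        (u : G) * ((v : G) * yz.1.2 * (v : G)⁻¹) * (u : G)⁻¹)
    refine Prod.ext ?_ ?_
    · show ((u * v : P) : G) * yz.1.1 * ((u * v : P) : G)⁻¹
        = (u : G) * ((v : G) * yz.1.1 * (v : G)⁻¹) * (u : G)⁻¹
      rw [Subgroup.coe_mul]
      group
    · show ((u * v : P) : G) * yz.1.2 * ((u * v : P) : G)⁻¹
        = (u : G) * ((v : G) * yz.1.2 * (v : G)⁻¹) * (u : G)⁻¹
      rw [Subgroup.coe_mul]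
      group

/-- Let P be a Sylow p-subgroup of the finite group G, let g, h ∈ G and let p ^ d be the order of a Sylow p-subgroup of the centralizer of g. Then the number of pairs (y, z) with y conjugate to g, z conjugate to h and z * y⁻¹ ∈ P is divisible by the order of P divided by p ^ d. -/
theorem result {G : Type*} [Group G] [Finite G] (p : ℕ) [Fact p.Prime] (P : Sylow p G) (g h : G) (S : Sylow p (Subgroup.centralizer ({g} : Set G))) : Nat.card P / Nat.card S ∣ Nat.card {yz : G × G // IsConj g yz.1 ∧ IsConj h yz.2 ∧ yz.2 * yz.1⁻¹ ∈ (P : Subgroup G)} := by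
  refine @Cfsg.Agent.Helper16.dvd_card_of_dvd_index_stabilizer (P : Subgroup G) _ _
    (pairAction (P : Subgroup G) g h) _ _ ?_
  letI := pairAction (P : Subgroup G) g h
  rintro ⟨⟨y, z⟩, hy, hz, hyz⟩
  have hp : p.Prime := Fact.out
  -- the stabilizer
  set St := MulAction.stabilizer (P : Subgroup G)
    (⟨(y, z), hy, hz, hyz⟩ : {yz : G × G // IsConj g yz.1 ∧ IsConj h yz.2 ∧ yz.2 * yz.1⁻¹ ∈ (P : Subgroup G)})
    with hSt
  have hPp : IsPGroup p (P : Subgroup G) := P.isPGroup'
  have hStp : IsPGroup p St := hPp.to_subgroup St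
  obtain ⟨e, he⟩ := IsPGroup.iff_card.mp hStp
  -- the stabilizer maps into the centralizer of y
  have hle : St.map (P : Subgroup G).subtype ≤ Subgroup.centralizer ({y} : Set G) := by
    rintro _ ⟨u, hu, rfl⟩
    replace hu := MulAction.mem_stabilizer_iff.mp (SetLike.mem_coe.mp hu)
    have h1 : (u : G) * y * (u : G)⁻¹ = y := by
      have := congrArg (fun t => t.1.1) hu
      exact this
    rw [Subgroup.mem_centralizer_iff]
    intro k hk
    rw [Set.mem_singleton_iff] at hk
    subst hk
    show k * (u : G) = (u : G) * k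
    calc k * (u : G) = (u : G) * k * (u : G)⁻¹ * (u : G) := by rw [h1]
      _ = (u : G) * k := by group
  have hcardmap : Nat.card (St.map (P : Subgroup G).subtype) = p ^ e := by
    rw [Subgroup.card_map_of_injective (Subgroup.subtype_injective _), he]
  have hdvd : p ^ e ∣ Nat.card (Subgroup.centralizer ({g} : Set G)) := by
    obtain ⟨c, rfl⟩ := isConj_iff.mp hy
    rw [← Cfsg.Agent.Helper16.card_centralizer_conj g c, ← hcardmap]
    exact Subgroup.card_dvd_of_le hle
  have hed : e ≤ (Nat.card (Subgroup.centralizer ({g} : Set G))).factorization p :=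
    (hp.pow_dvd_iff_le_factorization Nat.card_pos.ne').mp hdvd
  have hda : (Nat.card (Subgroup.centralizer ({g} : Set G))).factorization p
      ≤ (Nat.card G).factorization p := by
    have h2 : p ^ (Nat.card (Subgroup.centralizer ({g} : Set G))).factorization p ∣ Nat.card G :=
      (Nat.ordProj_dvd _ p).trans (Subgroup.card_subgroup_dvd_card _)
    exact (hp.pow_dvd_iff_le_factorization Nat.card_pos.ne').mp h2
  have hS : Nat.card S = p ^ (Nat.card (Subgroup.centralizer ({g} : Set G))).factorization p :=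
    S.card_eq_multiplicity
  have hPc : Nat.card P = p ^ (Nat.card G).factorization p := P.card_eq_multiplicity
  have hidx : St.index = p ^ ((Nat.card G).factorization p - e) := by
    have h3 := St.card_mul_index
    rw [he] at h3
    have h3' : p ^ e * St.index = p ^ (Nat.card G).factorization p := by
      rw [h3]; exact hPc
    have h4 : p ^ (Nat.card G).factorization p
        = p ^ e * p ^ ((Nat.card G).factorization p - e) := by
      rw [← pow_add, Nat.add_sub_cancel' (hed.trans hda)]
    rw [h4] at h3'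
    exact Nat.eq_of_mul_eq_mul_left (pow_pos hp.pos e) h3'
  have hPS : Nat.card P / Nat.card S
      = p ^ ((Nat.card G).factorization p
        - (Nat.card (Subgroup.centralizer ({g} : Set G))).factorization p) := by
    rw [hS]
    have : Nat.card (P : Subgroup G) = p ^ (Nat.card G).factorization p := hPc
    rw [show Nat.card P = p ^ (Nat.card G).factorization p from hPc, Nat.pow_div hda hp.pos]
  rw [hPS, hidx]
  exact pow_dvd_pow p (Nat.sub_le_sub_left hed _)

end Cfsg.Agent.S0957
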