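import Cfsg.Statements.S0959
import Cfsg.Agent.Helper77.Defect

set_option autoImplicit false
open Cfsg

namespace Cfsg.Agent.S0959

/-- Let B be a block of the finite group G with defect group D (relative to a maximal ideal M of the algebraic integers containing the prime p), and let P be a p-subgroup. Then there is an element g whose idempotent coefficient for B is a local integer outside the local ideal at M and which has a conjugate centralizing P, if and only if some conjugate of P is contained in D. -/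
theorem result {G : Type*} [Group G] [Finite G] (p : ℕ) [Fact p.Prime] (M : Ideal Cfsg.AlgInt) (hM : Cfsg.IsPModular p M) (B : Set (Cfsg.IrrCharacter G)) (hB : Cfsg.IsPBlock M B) (D : Subgroup G) (hD : Cfsg.IsDefectGroup p M B D) (P : Subgroup G) (hP : IsPGroup p P) : (∃ g : G, Cfsg.MemLocalRing M (Cfsg.blockCoeff B g) ∧ ¬ Cfsg.MemLocalIdeal M (Cfsg.blockCoeff B g) ∧ ∃ c : G, IsConj g c ∧ c ∈ Subgroup.centralizer (P : Set G)) ↔ ∃ x : G, P.map (MulAut.conj x).toMonoidHom ≤ D := by
  have := Fintype.ofFinite G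
  obtain ⟨g₀, hg₀, P₀, rfl⟩ := hD
  constructor
  · rintro ⟨g, -, hne, c, hc, hcP⟩
    have hec : Cfsg.blockCoeff B c = Cfsg.blockCoeff B g :=
      Cfsg.Agent.Helper77.isClassFunction_isConj
        (Cfsg.Agent.Helper77.blockCoeff_isClassFunction B) hc
    rw [← hec] at hne
    have hPc : P ≤ Subgroup.centralizer ({c} : Set G) := by
      intro u hu
      rw [Subgroup.mem_centralizer_iff] at hcP
      exact Cfsg.Agent.Helper77.mem_centralizer_singleton.mpr (hcP u hu)
    have h1 : IsPGroup p (P.subgroupOf (Subgroup.centralizer ({c} : Set G))) := hP.comap_subtype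
    obtain ⟨Q, hQ⟩ := h1.exists_le_sylow
    obtain ⟨x, hx⟩ := Cfsg.Agent.Helper77.min_max_left hM hB hg₀ P₀ c hne Q
    refine ⟨x⁻¹, ?_⟩
    rintro w ⟨u, hu, rfl⟩
    have h2 : u ∈ (Q : Subgroup (Subgroup.centralizer ({c} : Set G))).map
        (Subgroup.centralizer ({c} : Set G)).subtype :=
      ⟨⟨u, hPc hu⟩, hQ (by rw [Subgroup.mem_subgroupOf]; exact hu), rfl⟩
    obtain ⟨d, hd, hd2⟩ := hx h2
    simp only [MulEquiv.toMonoidHom_eq_coe, MonoidHom.coe_coe, MulAut.conj_apply, inv_inv]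
      at hd2 ⊢
    rw [← hd2]
    have : x⁻¹ * (x * d * x⁻¹) * x = d := by group
    rw [this]
    exact hd
  · rintro ⟨x, hx⟩
    refine ⟨g₀, hg₀.1, hg₀.2.1, x⁻¹ * g₀ * x, isConj_iff.mpr ⟨x⁻¹, by group⟩, ?_⟩
    rw [Subgroup.mem_centralizer_iff]
    intro u hu
    have h1 : x * u * x⁻¹ ∈ (P₀ : Subgroup (Subgroup.centralizer ({g₀} : Set G))).map
        (Subgroup.centralizer ({g₀} : Set G)).subtype := hx ⟨u, hu, by simp⟩
    obtain ⟨d, -, hd⟩ := h1
    have h2 : x * u * x⁻¹ * g₀ = g₀ * (x * u * x⁻¹) := by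
      rw [← hd]
      exact Cfsg.Agent.Helper77.mem_centralizer_singleton.mp d.2
    calc u * (x⁻¹ * g₀ * x) = x⁻¹ * (x * u * x⁻¹ * g₀) * x := by group
      _ = x⁻¹ * (g₀ * (x * u * x⁻¹)) * x := by rw [h2]
      _ = x⁻¹ * g₀ * x * u := by group

end Cfsg.Agent.S0959
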