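import Cfsg.Statements.S0973
import Cfsg.Agent.Helper16.ExtFMT

set_option autoImplicit false
open Cfsg

namespace Cfsg.Agent.S0973

/-- Let B be a block of the finite group G with defect group P (relative to a maximal ideal M of the algebraic integers containing p), and let L = P ⊔ C_G(P). Then (i) some block b of L with defect group P (viewed in L) induces B, and (ii) if b and b' are blocks of L both inducing B, there is n ∈ N_G(P) carrying b to b': for every θ ∈ b there is θ' ∈ b' with θ' x = θ (n x n⁻¹) for all x ∈ L. -/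
theorem result {G : Type*} [Group G] [Finite G] (p : ℕ) [Fact p.Prime] (M : Ideal Cfsg.AlgInt) (hM : Cfsg.IsPModular p M) (B : Set (Cfsg.IrrCharacter G)) (hB : Cfsg.IsPBlock M B) (P : Subgroup G) (hP : Cfsg.IsDefectGroup p M B P) : (∃ b : Set (Cfsg.IrrCharacter ↥(P ⊔ Subgroup.centralizer (P : Set G))), Cfsg.IsDefectGroup p M b (P.subgroupOf (P ⊔ Subgroup.centralizer (P : Set G))) ∧ Cfsg.IsInducedBlock M (P ⊔ Subgroup.centralizer (P : Set G)) b B) ∧ ∀ b b' : Set (Cfsg.IrrCharacter ↥(P ⊔ Subgroup.centralizer (P : Set G))), Cfsg.IsInducedBlock M (P ⊔ Subgroup.centralizer (P : Set G)) b B → Cfsg.IsInducedBlock M (P ⊔ Subgroup.centralizer (P : Set G)) b' B → ∃ n ∈ Subgroup.normalizer (P : Set G), ∀ θ ∈ b, ∃ θ' ∈ b', ∀ x : ↥(P ⊔ Subgroup.centralizer (P : Set G)), ∀ hx : n * (x : G) * n⁻¹ ∈ P ⊔ Subgroup.centralizer (P : Set G), (θ' : ↥(P ⊔ Subgroup.centralizer (P : Set G)) → ℂ) x = (θ : ↥(P ⊔ Subgroup.centralizer (P : Set G)) → ℂ) ⟨n * (x : G) * n⁻¹, hx⟩ := by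
  classical
  have := Fintype.ofFinite G
  have hPL : P ≤ P ⊔ Subgroup.centralizer (P : Set G) := le_sup_left
  have hCL : Subgroup.centralizer (P : Set G) ≤ P ⊔ Subgroup.centralizer (P : Set G) :=
    le_sup_right
  have hLN : P ⊔ Subgroup.centralizer (P : Set G) ≤ Subgroup.normalizer (P : Set G) :=
    sup_le Subgroup.le_normalizer (Subgroup.centralizer_le_normalizer _)
  have key : ∀ g ∈ Subgroup.normalizer (P : Set G), ∀ l ∈ P ⊔ Subgroup.centralizer (P : Set G),
      g * l * g⁻¹ ∈ P ⊔ Subgroup.centralizer (P : Set G) := by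
    intro g hg l hl
    have h1 : (P ⊔ Subgroup.centralizer (P : Set G)).map (MulAut.conj g).toMonoidHom
        ≤ P ⊔ Subgroup.centralizer (P : Set G) := by
      rw [Subgroup.map_sup]
      apply sup_le_sup
      · rintro _ ⟨u, hu, rfl⟩
        show g * u * g⁻¹ ∈ P
        exact (Subgroup.mem_normalizer_iff.mp hg u).mp hu
      · rintro _ ⟨c, hc, rfl⟩
        show g * c * g⁻¹ ∈ Subgroup.centralizer (P : Set G)
        exact (Cfsg.Agent.Helper16.conj_mem_centralizer_iff hg c).mpr hc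
    exact h1 ⟨l, hl, rfl⟩
  have hNL : Subgroup.normalizer (P : Set G)
      ≤ Subgroup.normalizer ((P ⊔ Subgroup.centralizer (P : Set G) : Subgroup G) : Set G) := by
    intro g hg
    rw [Subgroup.mem_normalizer_iff]
    intro h
    constructor
    · exact key g hg h
    · intro hh
      have h2 := key g⁻¹ (Subgroup.inv_mem _ hg) _ hh
      have e : g⁻¹ * (g * h * g⁻¹) * g⁻¹⁻¹ = h := by group
      rwa [e] at h2
  exact ⟨Cfsg.Agent.Helper16.extfmt_exists hM hB hP _ hPL hCL hLN, fun b b' hb hb' =>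
    Cfsg.Agent.Helper16.extfmt_conj hM hB hP _ hPL hCL hLN hNL hb hb'⟩

end Cfsg.Agent.S0973
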