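import Mathlib
import Cfsg.Statements.S0986

set_option autoImplicit false
open Cfsg

namespace Cfsg.Agent.S0986

/-- Let P and Q be distinct Sylow p-subgroups of a finite group G chosen so that the order of P ∩ Q is as large as possible among intersections of two distinct Sylow p-subgroups, and let N be the normalizer of P ∩ Q. Then N has more than one Sylow p-subgroup, any two distinct Sylow p-subgroups of N intersect exactly in P ∩ Q, and each Sylow p-subgroup of N lies in exactly one Sylow p-subgroup of G. -/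
theorem result {G : Type*} [Group G] [Finite G] (p : ℕ) [Fact p.Prime] (P Q : Sylow p G) (hPQ : P ≠ Q) (hmax : ∀ P' Q' : Sylow p G, P' ≠ Q' → Nat.card ↥((P' : Subgroup G) ⊓ (Q' : Subgroup G)) ≤ Nat.card ↥((P : Subgroup G) ⊓ (Q : Subgroup G))) : 1 < Nat.card (Sylow p ↥(Subgroup.normalizer (((P : Subgroup G) ⊓ (Q : Subgroup G) : Subgroup G) : Set G))) ∧ (∀ S T : Sylow p ↥(Subgroup.normalizer (((P : Subgroup G) ⊓ (Q : Subgroup G) : Subgroup G) : Set G)), S ≠ T → (S : Subgroup _) ⊓ (T : Subgroup _) = ((P : Subgroup G) ⊓ (Q : Subgroup G)).subgroupOf (Subgroup.normalizer (((P : Subgroup G) ⊓ (Q : Subgroup G) : Subgroup G) : Set G))) ∧ ∀ S : Sylow p ↥(Subgroup.normalizer (((P : Subgroup G) ⊓ (Q : Subgroup G) : Subgroup G) : Set G)), ∃! T : Sylow p G, (S : Subgroup _).map (Subgroup.normalizer (((P : Subgroup G) ⊓ (Q : Subgroup G) : Subgroup G) : Set G)).subtype ≤ (T : Subgroup G) := by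
  set D : Subgroup G := (P : Subgroup G) ⊓ (Q : Subgroup G) with hD
  set N : Subgroup G := Subgroup.normalizer (D : Set G) with hN
  have hDP : D ≤ (P : Subgroup G) := inf_le_left
  have hDQ : D ≤ (Q : Subgroup G) := inf_le_right
  have hDp : IsPGroup p ↥D := P.2.to_le hDP
  -- (A) normalizers grow
  have hA : ∀ T : Sylow p G, D ≤ (T : Subgroup G) → ∃ x, x ∈ (T : Subgroup G) ∧ x ∈ N ∧ x ∉ D := by
    intro T hDT
    have hne : D ≠ (T : Subgroup G) := by
      intro hDT'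
      have h1 : (P : Subgroup G) = T := T.is_maximal' P.2 (hDT' ▸ hDP)
      have h2 : (Q : Subgroup G) = T := T.is_maximal' Q.2 (hDT' ▸ hDQ)
      exact hPQ (Sylow.ext (h1.trans h2.symm))
    have hnil : Group.IsNilpotent ↥(T : Subgroup G) := T.2.isNilpotent
    have hnc : NormalizerCondition ↥(T : Subgroup G) := Group.normalizerCondition_of_isNilpotent
    have hlt : D.subgroupOf (T : Subgroup G) < ⊤ := by
      rw [lt_top_iff_ne_top]
      intro htop
      rw [Subgroup.subgroupOf_eq_top] at htop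
      exact hne (le_antisymm hDT htop)
    have h1 := hnc _ hlt
    obtain ⟨y, hyN, hyD⟩ := SetLike.exists_of_lt h1
    refine ⟨(y : G), y.2, ?_, fun hy => hyD (Subgroup.mem_subgroupOf.2 hy)⟩
    rw [hN, Subgroup.mem_normalizer_iff]
    rw [Subgroup.mem_normalizer_iff] at hyN
    intro n
    constructor
    · intro hn
      have := (hyN ⟨n, hDT hn⟩).1 (Subgroup.mem_subgroupOf.2 hn)
      exact Subgroup.mem_subgroupOf.1 this
    · intro hn
      have hnT : n ∈ (T : Subgroup G) := by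
        have h2 : n = (y : G)⁻¹ * ((y : G) * n * (y : G)⁻¹) * (y : G) := by group
        rw [h2]
        exact (T : Subgroup G).mul_mem ((T : Subgroup G).mul_mem ((T : Subgroup G).inv_mem y.2)
          (hDT hn)) y.2
      have := (hyN ⟨n, hnT⟩).2 (Subgroup.mem_subgroupOf.2 hn)
      exact Subgroup.mem_subgroupOf.1 this
  -- maximality
  have hM : ∀ T₁ T₂ : Sylow p G, T₁ ≠ T₂ → D ≤ (T₁ : Subgroup G) ⊓ (T₂ : Subgroup G) →
      (T₁ : Subgroup G) ⊓ (T₂ : Subgroup G) = D := by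
    intro T₁ T₂ hne hle
    exact (Subgroup.eq_of_le_of_card_ge hle (hmax T₁ T₂ hne)).symm
  have hDS : ∀ S : Sylow p ↥N, D.subgroupOf N ≤ (S : Subgroup ↥N) := by
    intro S
    have hnorm : (D.subgroupOf N).Normal := Subgroup.normal_in_normalizer
    have hp' : IsPGroup p ↥(D.subgroupOf N) := hDp.comap_subtype
    exact hp'.le_sylow_of_normal S
  have hDS' : ∀ S : Sylow p ↥N, D ≤ (S : Subgroup ↥N).map N.subtype := by
    intro S d hd
    exact ⟨⟨d, Subgroup.le_normalizer hd⟩, hDS S (Subgroup.mem_subgroupOf.2 hd), rfl⟩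
  -- uniqueness
  have hU : ∀ (S : Sylow p ↥N) (T₁ T₂ : Sylow p G),
      (S : Subgroup ↥N).map N.subtype ≤ (T₁ : Subgroup G) →
      (S : Subgroup ↥N).map N.subtype ≤ (T₂ : Subgroup G) → T₁ = T₂ := by
    intro S T₁ T₂ h1 h2
    by_contra hne
    have h3 := hM T₁ T₂ hne (le_inf ((hDS' S).trans h1) ((hDS' S).trans h2))
    have h4 : (S : Subgroup ↥N).map N.subtype ≤ D := h3 ▸ le_inf h1 h2
    obtain ⟨x, hxP, hxN, hxD⟩ := hA P hDP
    have h5 : (S : Subgroup ↥N) ≤ (P : Subgroup G).subgroupOf N := by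
      intro s hs
      exact Subgroup.mem_subgroupOf.2 (hDP (h4 ⟨s, hs, rfl⟩))
    have h6 := S.is_maximal' P.2.comap_subtype h5
    have h7 : (⟨x, hxN⟩ : ↥N) ∈ (S : Subgroup ↥N) := by
      rw [← h6]
      exact Subgroup.mem_subgroupOf.2 hxP
    exact hxD (h4 ⟨⟨x, hxN⟩, h7, rfl⟩)
  have hE : ∀ S : Sylow p ↥N, ∃ T : Sylow p G, (S : Subgroup ↥N).map N.subtype ≤ (T : Subgroup G) :=
    fun S => (S.2.map N.subtype).exists_le_sylow
  refine ⟨?_, ?_, ?_⟩
  · obtain ⟨SP, hSP⟩ := (P.2.comap_subtype (K := N)).exists_le_sylow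
    obtain ⟨SQ, hSQ⟩ := (Q.2.comap_subtype (K := N)).exists_le_sylow
    have hne : SP ≠ SQ := by
      intro heq
      obtain ⟨T, hT⟩ := hE SP
      obtain ⟨x, hxP, hxN, hxD⟩ := hA P hDP
      obtain ⟨y, hyQ, hyN, hyD⟩ := hA Q hDQ
      have hxT : x ∈ (T : Subgroup G) :=
        hT ⟨⟨x, hxN⟩, hSP (Subgroup.mem_subgroupOf.2 hxP), rfl⟩
      have hyT : y ∈ (T : Subgroup G) :=
        hT ⟨⟨y, hyN⟩, heq ▸ hSQ (Subgroup.mem_subgroupOf.2 hyQ), rfl⟩
      have hDT : D ≤ (T : Subgroup G) := (hDS' SP).trans hT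
      have hTP : T = P := by
        by_contra hTP
        have := hM T P hTP (le_inf hDT hDP)
        exact hxD (this ▸ ⟨hxT, hxP⟩)
      have hTQ : T = Q := by
        by_contra hTQ
        have := hM T Q hTQ (le_inf hDT hDQ)
        exact hyD (this ▸ ⟨hyT, hyQ⟩)
      exact hPQ (hTP.symm.trans hTQ)
    have : Nontrivial (Sylow p ↥N) := nontrivial_of_ne SP SQ hne
    exact Finite.one_lt_card
  · intro S T hST
    obtain ⟨T₁, hT₁⟩ := hE S
    obtain ⟨T₂, hT₂⟩ := hE T
    have hne : T₁ ≠ T₂ := by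
      intro heq
      subst heq
      have h1 : (S : Subgroup ↥N) ≤ (T₁ : Subgroup G).subgroupOf N := fun s hs =>
        Subgroup.mem_subgroupOf.2 (hT₁ ⟨s, hs, rfl⟩)
      have h2 : (T : Subgroup ↥N) ≤ (T₁ : Subgroup G).subgroupOf N := fun s hs =>
        Subgroup.mem_subgroupOf.2 (hT₂ ⟨s, hs, rfl⟩)
      have h3 := S.is_maximal' T₁.2.comap_subtype h1
      have h4 := T.is_maximal' T₁.2.comap_subtype h2
      exact hST (Sylow.ext (h3.symm.trans h4))
    have h3 := hM T₁ T₂ hne (le_inf ((hDS' S).trans hT₁) ((hDS' T).trans hT₂))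
    apply le_antisymm
    · intro s hs
      rw [Subgroup.mem_subgroupOf, ← h3]
      exact ⟨hT₁ ⟨s, hs.1, rfl⟩, hT₂ ⟨s, hs.2, rfl⟩⟩
    · exact le_inf (hDS S) (hDS T)
  · intro S
    obtain ⟨T, hT⟩ := hE S
    exact ⟨T, hT, fun T' hT' => hU S T' T hT' hT⟩

end Cfsg.Agent.S0986
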