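import Mathlib
import Cfsg.Statements.S0987

set_option autoImplicit false
open Cfsg

namespace Cfsg.Agent.S0987

/-- If a finite group has order pqr for primes p < q < r, then its Sylow r-subgroups are normal. -/
theorem result {G : Type*} [Group G] [Finite G] (p q r : ℕ) (hp : p.Prime) (hq : q.Prime) [Fact r.Prime] (hpq : p < q) (hqr : q < r) (hG : Nat.card G = p * q * r) (R : Sylow r G) : (R : Subgroup G).Normal := by
  have hr : r.Prime := Fact.out
  have hpq_cop : Nat.Coprime p q := (Nat.coprime_primes hp hq).2 hpq.ne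
  have hpr_cop : Nat.Coprime p r := (Nat.coprime_primes hp hr).2 (hpq.trans hqr).ne
  have hqr_cop : Nat.Coprime q r := (Nat.coprime_primes hq hr).2 hqr.ne
  have hsq : Squarefree (Nat.card G) := by
    rw [hG, Nat.squarefree_mul_iff, Nat.squarefree_mul_iff]
    exact ⟨Nat.Coprime.mul_left hpr_cop hqr_cop, ⟨hpq_cop, hp.squarefree, hq.squarefree⟩,
      hr.squarefree⟩
  have : IsZGroup G := IsZGroup.of_squarefree hsq
  have hDcyc : IsCyclic ↥(commutator G) := IsZGroup.isCyclic_commutator G
  set D : Subgroup G := commutator G with hD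
  set C : Subgroup G := Subgroup.centralizer (D : Set G) with hC
  have hCn : C.Normal := Subgroup.normal_centralizer
  -- D is abelian, so D ≤ C
  have hDC : D ≤ C := by
    intro x hx
    rw [hC, Subgroup.mem_centralizer_iff]
    intro h hh
    have hcomm : ∀ a b : ↥D, a * b = b * a := by
      obtain ⟨g, hg⟩ := hDcyc.exists_generator
      intro a b
      obtain ⟨m, rfl⟩ := Subgroup.mem_zpowers_iff.1 (hg a)
      obtain ⟨n, rfl⟩ := Subgroup.mem_zpowers_iff.1 (hg b)
      rw [← zpow_add, ← zpow_add, add_comm]
    have := hcomm ⟨h, hh⟩ ⟨x, hx⟩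
    exact congrArg Subtype.val this
  have hidx1 : C.index ∣ D.index := Subgroup.index_dvd_of_le hDC
  have hker : (MulAut.conjNormal : G →* MulAut ↥D).ker = C := by
    ext g
    rw [MonoidHom.mem_ker, hC, Subgroup.mem_centralizer_iff]
    constructor
    · intro hg h hh
      have h1 := congrArg (fun φ : MulAut ↥D => ((φ ⟨h, hh⟩ : ↥D) : G)) hg
      simp only [MulAut.conjNormal_apply, MulAut.one_apply] at h1
      calc h * g = (g * h * g⁻¹) * g := by rw [h1]
        _ = g * h := by group
    · intro hg
      ext ⟨h, hh⟩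
      rw [MulAut.conjNormal_apply, MulAut.one_apply]
      simp only
      rw [← hg h hh]; group
  have hidx2 : C.index ∣ (Nat.card ↥D).totient := by
    rw [← IsCyclic.card_mulAut, ← hker, Subgroup.index_ker]
    exact Subgroup.card_subgroup_dvd_card _
  have hrC : ¬ r ∣ C.index := by
    intro hdvd
    have h1 : r ∣ D.index := hdvd.trans hidx1
    have hcop : (Nat.card ↥D).Coprime D.index := IsZGroup.coprime_commutator_index G
    have h2 : ¬ r ∣ Nat.card ↥D := by
      intro h3
      have := Nat.dvd_gcd h3 h1
      rw [hcop] at this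
      exact hr.one_lt.ne' (Nat.dvd_one.1 this)
    have h3 : Nat.card ↥D ∣ p * q := by
      have h4 : Nat.card ↥D ∣ p * q * r := hG ▸ Subgroup.card_subgroup_dvd_card D
      have h5 : (Nat.card ↥D).Coprime r := ((Nat.Prime.coprime_iff_not_dvd hr).2 h2).symm
      exact h5.dvd_of_dvd_mul_right h4
    have h6 : r ∣ (p - 1) * (q - 1) := by
      have := (hdvd.trans hidx2).trans (Nat.totient_dvd_of_dvd h3)
      rwa [Nat.totient_mul hpq_cop, Nat.totient_prime hp, Nat.totient_prime hq] at this
    rcases (Nat.Prime.dvd_mul hr).1 h6 with h7 | h7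
    · have := Nat.le_of_dvd (by have := hp.two_le; omega) h7
      omega
    · have := Nat.le_of_dvd (by have := hq.two_le; omega) h7
      omega
  -- R ≤ C
  have hRC : (R : Subgroup G) ≤ C := by
    intro x hx
    obtain ⟨k, hk⟩ := R.2 ⟨x, hx⟩
    have hk' : x ^ r ^ k = 1 := by
      have := congrArg Subtype.val hk
      simpa using this
    have h1 : orderOf (QuotientGroup.mk' C x) ∣ r ^ k := by
      apply orderOf_dvd_of_pow_eq_one
      rw [← map_pow, hk', map_one]
    have h2 : orderOf (QuotientGroup.mk' C x) ∣ C.index := by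
      rw [Subgroup.index]
      exact orderOf_dvd_natCard _
    have hcop : Nat.Coprime (r ^ k) C.index :=
      Nat.Coprime.pow_left k ((Nat.Prime.coprime_iff_not_dvd hr).2 hrC)
    have h3 : orderOf (QuotientGroup.mk' C x) = 1 := by
      have := Nat.dvd_gcd h1 h2
      rw [hcop] at this
      exact Nat.dvd_one.1 this
    rw [orderOf_eq_one_iff] at h3
    exact (QuotientGroup.eq_one_iff x).1 h3
  -- C is abelian
  have hCab : ∀ a b : G, a ∈ C → b ∈ C → a * b = b * a := by
    have : IsCyclic (Abelianization G) := IsZGroup.isCyclic_abelianization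
    have hcen : ((Abelianization.of : G →* Abelianization G).comp C.subtype).ker
        ≤ Subgroup.center ↥C := by
      intro x hx
      rw [MonoidHom.mem_ker, MonoidHom.comp_apply] at hx
      have hxD : (x : G) ∈ D := by
        rw [hD, ← Abelianization.ker_of]
        exact hx
      rw [Subgroup.mem_center_iff]
      intro y
      have hy : (y : G) ∈ Subgroup.centralizer (D : Set G) := y.2
      rw [Subgroup.mem_centralizer_iff] at hy
      apply Subtype.ext
      simp only [Subgroup.coe_mul]
      exact (hy _ hxD).symm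
    have := MonoidHom.isMulCommutative_of_isCyclic_of_ker_le_center _ hcen
    intro a b ha hb
    have h1 := mul_comm' (⟨a, ha⟩ : ↥C) ⟨b, hb⟩
    exact congrArg Subtype.val h1
  -- the subgroup of elements of C of order dividing r
  let E : Subgroup G :=
    { carrier := {x | x ∈ C ∧ x ^ r = 1}
      mul_mem' := by
        rintro a b ⟨ha, ha'⟩ ⟨hb, hb'⟩
        refine ⟨C.mul_mem ha hb, ?_⟩
        have : Commute a b := hCab a b ha hb
        rw [this.mul_pow, ha', hb', one_mul]
      one_mem' := ⟨C.one_mem, one_pow _⟩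
      inv_mem' := by
        rintro a ⟨ha, ha'⟩
        exact ⟨C.inv_mem ha, by rw [inv_pow, ha', inv_one]⟩ }
  have hEn : E.Normal := by
    constructor
    rintro x ⟨hx, hx'⟩ g
    refine ⟨hCn.conj_mem x hx g, ?_⟩
    rw [conj_pow, hx', mul_one, mul_inv_cancel]
  have hEp : IsPGroup r ↥E := by
    rintro ⟨x, hx, hx'⟩
    refine ⟨1, ?_⟩
    apply Subtype.ext
    simp only [pow_one, Subgroup.coe_pow, Subgroup.coe_one]
    exact hx'
  have hRcard : Nat.card ↥(R : Subgroup G) = r := by
    rw [Sylow.card_eq_multiplicity, hG]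
    have h0 : p * q ≠ 0 := Nat.mul_ne_zero hp.ne_zero hq.ne_zero
    rw [Nat.factorization_mul h0 hr.ne_zero]
    have h1 : (p * q).factorization r = 0 := by
      apply Nat.factorization_eq_zero_of_not_dvd
      intro h
      rcases (Nat.Prime.dvd_mul hr).1 h with h | h
      · have := Nat.le_of_dvd hp.pos h; omega
      · have := Nat.le_of_dvd hq.pos h; omega
    simp [h1, hr.factorization_self]
  have hRE : (R : Subgroup G) ≤ E := by
    intro x hx
    refine ⟨hRC hx, ?_⟩
    have h1 : (⟨x, hx⟩ : ↥(R : Subgroup G)) ^ Nat.card ↥(R : Subgroup G) = 1 := pow_card_eq_one'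
    rw [hRcard] at h1
    have := congrArg Subtype.val h1
    simpa using this
  have hER : E = (R : Subgroup G) := R.is_maximal' hEp hRE
  rw [← hER]
  exact hEn

end Cfsg.Agent.S0987
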