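import Cfsg.Statements.S0989
import Mathlib
-- import your own Cfsg.Agent.* helpers here

set_option autoImplicit false
open Cfsg

namespace Cfsg.Agent.S0989

/-- In the symmetric group on p or p + 1 letters, p a prime, the normalizer of a Sylow p-subgroup has order p * (p - 1). -/
theorem result {α : Type*} [Fintype α] [DecidableEq α] (p : ℕ) [Fact p.Prime] (hα : Fintype.card α = p ∨ Fintype.card α = p + 1) (P : Sylow p (Equiv.Perm α)) : Nat.card ↥(Subgroup.normalizer ((P : Subgroup (Equiv.Perm α)) : Set (Equiv.Perm α))) = p * (p - 1) := by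
  have hp : p.Prime := Fact.out
  have hp2 := hp.two_le
  have hcardG : Nat.card (Equiv.Perm α) = (Fintype.card α).factorial := by
    rw [Nat.card_eq_fintype_card, Fintype.card_perm]
  have hpdvd : p ∣ Nat.card (Equiv.Perm α) := by
    rw [hcardG]; exact (hp.dvd_factorial).mpr (by rcases hα with h | h <;> omega)
  have hp2ndvd : ¬ p ^ 2 ∣ Nat.card (Equiv.Perm α) := by
    rw [hcardG]
    rcases hα with h | h
    · rw [h]
      obtain ⟨k, rfl⟩ : ∃ k, p = k + 1 := ⟨p - 1, by omega⟩
      rw [Nat.factorial_succ, pow_two]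
      intro hd
      have h1 := Nat.dvd_of_mul_dvd_mul_left (by omega) hd
      have h2 := (hp.dvd_factorial).mp h1
      omega
    · rw [h]
      obtain ⟨k, rfl⟩ : ∃ k, p = k + 1 := ⟨p - 1, by omega⟩
      rw [Nat.factorial_succ, Nat.factorial_succ, pow_two]
      intro hd
      have hd' : (k + 1) * (k + 1) ∣ (k + 1) * ((k + 2) * k.factorial) := by
        have e : (k + 1 + 1) * ((k + 1) * k.factorial) = (k + 1) * ((k + 2) * k.factorial) := by ring
        rw [e] at hd
        exact hd
      have h1 := Nat.dvd_of_mul_dvd_mul_left (by omega) hd'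
      rcases (Nat.Prime.dvd_mul hp).mp h1 with h2 | h2
      · have h3 : k + 1 ∣ 1 := (Nat.dvd_add_right (dvd_refl (k + 1))).mp h2
        have h4 := Nat.le_of_dvd one_pos h3
        omega
      · have h3 := (hp.dvd_factorial).mp h2
        omega
  have hPcard : Nat.card (P : Subgroup (Equiv.Perm α)) = p := by
    obtain ⟨k, hk⟩ := IsPGroup.iff_card.mp P.isPGroup'
    have hk' : Nat.card (P : Subgroup (Equiv.Perm α)) = p ^ k := hk
    have h1 : p ^ k ∣ Nat.card (Equiv.Perm α) := by
      rw [← hk']; exact (P : Subgroup (Equiv.Perm α)).card_subgroup_dvd_card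
    have hk1 : k ≤ 1 := by
      by_contra hk2
      exact hp2ndvd ((pow_dvd_pow p (by omega)).trans h1)
    have hk0 : k ≠ 0 := by
      rintro rfl
      have h2 := (P : Subgroup (Equiv.Perm α)).card_mul_index
      rw [hk', pow_zero, one_mul] at h2
      apply P.not_dvd_index
      rw [h2]; exact hpdvd
    have hk1' : k = 1 := by omega
    rw [hk', hk1', pow_one]
  have key : ∀ x ∈ (P : Subgroup (Equiv.Perm α)), x ≠ 1 →
      x.cycleType = {p} ∧ ∀ y ∈ (P : Subgroup (Equiv.Perm α)), y ∈ Subgroup.zpowers x := by
    intro x hxP hx1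
    have hxord : orderOf x = p := by
      have h1 : orderOf x ∣ p := by
        rw [← hPcard]
        have := orderOf_dvd_natCard (⟨x, hxP⟩ : (P : Subgroup (Equiv.Perm α)))
        rwa [Subgroup.orderOf_mk] at this
      rcases (Nat.dvd_prime hp).mp h1 with h | h
      · exact absurd (orderOf_eq_one_iff.mp h) hx1
      · exact h
    constructor
    · obtain ⟨n, hn⟩ := Equiv.Perm.cycleType_prime_order (σ := x) (by rw [hxord]; exact hp)
      rw [hxord] at hn
      have hsum : x.cycleType.sum ≤ Fintype.card α := by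
        rw [Equiv.Perm.sum_cycleType]; exact Finset.card_le_univ _
      rw [hn, Multiset.sum_replicate, smul_eq_mul] at hsum
      have hn0 : n = 0 := by
        by_contra hne
        have : 2 * p ≤ (n + 1) * p := Nat.mul_le_mul_right p (by omega)
        rcases hα with h | h <;> omega
      rw [hn, hn0]; rfl
    · have hle : Subgroup.zpowers x ≤ (P : Subgroup (Equiv.Perm α)) :=
        (Subgroup.zpowers_le).mpr hxP
      have hcard : Nat.card (P : Subgroup (Equiv.Perm α)) ≤ Nat.card (Subgroup.zpowers x) := by
        rw [Nat.card_zpowers, hxord, hPcard]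
      have := Subgroup.eq_of_le_of_card_ge hle hcard
      intro y hy
      rw [this]; exact hy
  obtain ⟨c, hcP, hc1⟩ : ∃ c ∈ (P : Subgroup (Equiv.Perm α)), c ≠ 1 := by
    by_contra hcon
    push Not at hcon
    have h1 : (P : Subgroup (Equiv.Perm α)) = ⊥ := (Subgroup.eq_bot_iff_forall _).mpr hcon
    rw [h1, Subgroup.card_bot] at hPcard
    omega
  obtain ⟨hct, hgen⟩ := key c hcP hc1
  have hcent : Nat.card (Subgroup.centralizer ({c} : Set (Equiv.Perm α))) = p := by
    rw [Equiv.Perm.nat_card_centralizer, hct]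
    have h0 : (Fintype.card α - p).factorial = 1 := by
      rcases hα with h | h
      · rw [h, Nat.sub_self]; rfl
      · rw [h, Nat.add_sub_cancel_left]; rfl
    simp [h0]
  set N := Subgroup.normalizer ((P : Subgroup (Equiv.Perm α)) : Set (Equiv.Perm α)) with hN
  letI : MulAction N (Equiv.Perm α) := MulAction.compHom (Equiv.Perm α)
    ((MulAut.conj : Equiv.Perm α →* MulAut (Equiv.Perm α)).comp N.subtype)
  have hsmul : ∀ (g : N) (x : Equiv.Perm α),
      g • x = (g : Equiv.Perm α) * x * (g : Equiv.Perm α)⁻¹ := fun g x => rfl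
  have hos : Nat.card (MulAction.orbit N c) * Nat.card (MulAction.stabilizer N c) = Nat.card N := by
    rw [← Nat.card_prod]
    exact Nat.card_congr (MulAction.orbitProdStabilizerEquivGroup N c)
  have hconjN : ∀ g : Equiv.Perm α, g * c * g⁻¹ ∈ (P : Subgroup (Equiv.Perm α)) → g ∈ N := by
    intro g hg
    have hx1 : g * c * g⁻¹ ≠ 1 := by
      intro h
      apply hc1
      have : c = g⁻¹ * (g * c * g⁻¹) * g := by group
      rw [this, h]; group
    obtain ⟨-, hgen'⟩ := key _ hg hx1
    rw [hN, Subgroup.mem_normalizer_iff]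
    intro h
    constructor
    · intro hh
      obtain ⟨i, rfl⟩ := Subgroup.mem_zpowers_iff.mp (hgen h hh)
      have : g * c ^ i * g⁻¹ = (g * c * g⁻¹) ^ i := (conj_zpow).symm
      rw [this]
      exact Subgroup.zpow_mem _ hg i
    · intro hh
      obtain ⟨i, hi⟩ := Subgroup.mem_zpowers_iff.mp (hgen' _ hh)
      have e : (g * c * g⁻¹) ^ i = g * c ^ i * g⁻¹ := conj_zpow
      rw [e] at hi
      have : h = c ^ i := by
        have h2 : g⁻¹ * (g * c ^ i * g⁻¹) * g = g⁻¹ * (g * h * g⁻¹) * g := by rw [hi]
        have h3 : g⁻¹ * (g * c ^ i * g⁻¹) * g = c ^ i := by group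
        have h4 : g⁻¹ * (g * h * g⁻¹) * g = h := by group
        rw [h3, h4] at h2
        exact h2.symm
      rw [this]
      exact Subgroup.zpow_mem _ hcP i
  have hstab : Nat.card (MulAction.stabilizer N c) = p := by
    rw [← hcent]
    have hmap : (MulAction.stabilizer N c).map N.subtype
        = Subgroup.centralizer ({c} : Set (Equiv.Perm α)) := by
      ext g
      rw [Subgroup.mem_map, Subgroup.mem_centralizer_iff]
      constructor
      · rintro ⟨n, hn, rfl⟩ h hh
        rw [Set.mem_singleton_iff] at hh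
        subst hh
        rw [MulAction.mem_stabilizer_iff, hsmul] at hn
        have : (n : Equiv.Perm α) * h = h * (n : Equiv.Perm α) := by
          have h2 := congrArg (fun z => z * (n : Equiv.Perm α)) hn
          simpa using h2
        exact this.symm
      · intro hg
        have hgc : c * g = g * c := hg c (Set.mem_singleton c)
        have hconj : g * c * g⁻¹ = c := by rw [← hgc]; group
        have hgN : g ∈ N := hconjN g (by rw [hconj]; exact hcP)
        refine ⟨⟨g, hgN⟩, ?_, rfl⟩
        rw [MulAction.mem_stabilizer_iff, hsmul]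
        exact hconj
    rw [← hmap]
    exact (Subgroup.card_map_of_injective N.subtype_injective).symm
  have horb : Nat.card (MulAction.orbit N c) = p - 1 := by
    have hset : MulAction.orbit N c = ((P : Subgroup (Equiv.Perm α)) : Set (Equiv.Perm α)) \ {1} := by
      ext x
      constructor
      · rintro ⟨n, rfl⟩
        change n • c ∈ _
        rw [hsmul]
        refine ⟨(Subgroup.mem_normalizer_iff.mp n.2 c).mp hcP, ?_⟩
        rw [Set.mem_singleton_iff]
        intro h
        apply hc1
        have : c = (n : Equiv.Perm α)⁻¹ * ((n : Equiv.Perm α) * c * (n : Equiv.Perm α)⁻¹) * (n : Equiv.Perm α) := by group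
        rw [this, h]; group
      · rintro ⟨hxP, hx1⟩
        rw [Set.mem_singleton_iff] at hx1
        obtain ⟨hctx, -⟩ := key x hxP hx1
        have hconj : IsConj c x := Equiv.Perm.isConj_iff_cycleType_eq.mpr (by rw [hct, hctx])
        obtain ⟨g, hg⟩ := isConj_iff.mp hconj
        have hgN : g ∈ N := hconjN g (by rw [hg]; exact hxP)
        exact ⟨⟨g, hgN⟩, hg⟩
    rw [hset, Nat.card_coe_set_eq, Set.ncard_sdiff_singleton_of_mem (one_mem _),
      ← Nat.card_coe_set_eq]
    have : Nat.card ↥((P : Subgroup (Equiv.Perm α)) : Set (Equiv.Perm α)) = p := hPcard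
    rw [this]
  rw [← hos, horb, hstab, mul_comm]

end Cfsg.Agent.S0989
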