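import Cfsg.Statements.S0990
-- import your own Cfsg.Agent.* helpers here

set_option autoImplicit false
open Cfsg

namespace Cfsg.Agent.S0990

/-- Let p be an odd prime and P a Sylow p-subgroup of the symmetric group on a finite set with at least two elements. Then P is contained in the alternating group, and twice the order of the normalizer of P inside the alternating group equals the order of the normalizer of P in the symmetric group. -/
theorem result {α : Type*} [Fintype α] [DecidableEq α] (hα : 2 ≤ Fintype.card α) (p : ℕ) [Fact p.Prime] (hp : p ≠ 2) (P : Sylow p (Equiv.Perm α)) : (P : Subgroup (Equiv.Perm α)) ≤ alternatingGroup α ∧ 2 * Nat.card ↥(Subgroup.normalizer ((((P : Subgroup (Equiv.Perm α)).subgroupOf (alternatingGroup α) : Subgroup ↥(alternatingGroup α)) : Set ↥(alternatingGroup α)))) = Nat.card ↥(Subgroup.normalizer ((P : Subgroup (Equiv.Perm α)) : Set (Equiv.Perm α))) := by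
  have hpp : p.Prime := Fact.out
  haveI : Nontrivial α := Fintype.one_lt_card_iff_nontrivial.mp (by omega)
  have hPA : (P : Subgroup (Equiv.Perm α)) ≤ alternatingGroup α := by
    intro g hg
    rw [Equiv.Perm.mem_alternatingGroup]
    obtain ⟨k, hk⟩ := P.isPGroup' ⟨g, hg⟩
    have hk' : g ^ (p ^ k) = 1 := by
      have := congrArg Subtype.val hk
      simpa using this
    rcases Int.units_eq_one_or (Equiv.Perm.sign g) with h | h
    · exact h
    · exfalso
      have h1 : Equiv.Perm.sign (g ^ (p ^ k)) = 1 := by rw [hk', map_one]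
      rw [map_pow, h] at h1
      have hodd : Odd (p ^ k) := (hpp.odd_of_ne_two hp).pow
      rw [hodd.neg_one_pow] at h1
      exact absurd h1 (by decide)
  refine ⟨hPA, ?_⟩
  set A := alternatingGroup α with hA
  set N := Subgroup.normalizer ((P : Subgroup (Equiv.Perm α)) : Set (Equiv.Perm α)) with hN
  have hFr : N ⊔ A = ⊤ := Sylow.normalizer_sup_eq_top' P hPA
  have hNA : Subgroup.normalizer ((((P : Subgroup (Equiv.Perm α)).subgroupOf A : Subgroup ↥A)) : Set ↥A)
      = N.subgroupOf A := by
    ext x
    rw [Subgroup.mem_subgroupOf, hN, Subgroup.mem_normalizer_iff, Subgroup.mem_normalizer_iff]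
    constructor
    · intro h y
      constructor
      · intro hy
        have := (h ⟨y, hPA hy⟩).mp (by rw [Subgroup.mem_subgroupOf]; exact hy)
        rw [Subgroup.mem_subgroupOf] at this
        exact this
      · intro hy
        have hyA : y ∈ A := by
          have h1 : (x : Equiv.Perm α)⁻¹ * ((x : Equiv.Perm α) * y * (x : Equiv.Perm α)⁻¹) * (x : Equiv.Perm α) ∈ A :=
            A.mul_mem (A.mul_mem (A.inv_mem x.2) (hPA hy)) x.2
          have h2 : (x : Equiv.Perm α)⁻¹ * ((x : Equiv.Perm α) * y * (x : Equiv.Perm α)⁻¹) * (x : Equiv.Perm α) = y := by group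
          rwa [h2] at h1
        have := (h ⟨y, hyA⟩).mpr (by rw [Subgroup.mem_subgroupOf]; exact hy)
        rw [Subgroup.mem_subgroupOf] at this
        exact this
    · intro h y
      rw [Subgroup.mem_subgroupOf, Subgroup.mem_subgroupOf]
      exact h y
  rw [hNA]
  have h1 : Nat.card (N.subgroupOf A) = Nat.card (A.subgroupOf N) := by
    have e1 : Nat.card (N.subgroupOf A) = Nat.card ((N ⊓ A : Subgroup (Equiv.Perm α))) := by
      rw [← Subgroup.inf_subgroupOf_right]
      exact Nat.card_congr (Subgroup.subgroupOfEquivOfLe inf_le_right).toEquiv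
    have e2 : Nat.card (A.subgroupOf N) = Nat.card ((A ⊓ N : Subgroup (Equiv.Perm α))) := by
      rw [← Subgroup.inf_subgroupOf_right]
      exact Nat.card_congr (Subgroup.subgroupOfEquivOfLe inf_le_right).toEquiv
    rw [e1, e2, inf_comm]
  have h2 : (A.subgroupOf N).index = 2 := by
    have : A.relIndex N = A.relIndex (N ⊔ A) := (Subgroup.relIndex_sup_right N A).symm
    rw [hFr, Subgroup.relIndex_top_right, alternatingGroup.index_eq_two] at this
    exact this
  have h3 := (A.subgroupOf N).index_mul_card
  rw [h2] at h3
  rw [h1, h3]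

end Cfsg.Agent.S0990
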