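import Mathlib
import Cfsg.Statements.S0995

set_option autoImplicit false
open Cfsg

namespace Cfsg.Agent.S0995

theorem fiber_count {α β : Type*} [Finite α] [Finite β] (f : α → β) (m : ℕ)
    (h : ∀ b, Nat.card {a // f a = b} = m) : Nat.card α = Nat.card β * m := by
  classical
  have := Fintype.ofFinite β
  rw [← Nat.card_congr (Equiv.sigmaFiberEquiv f), Nat.card_sigma]
  simp [h]

/-- In a cyclic group of prime order every nontrivial element is a generator. -/
theorem gen_of_ne_one {G : Type*} [Group G] {p : ℕ} [Fact p.Prime] {z w : G}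
    (hz : orderOf z = p) (hw : w ∈ Subgroup.zpowers z) (hw1 : w ≠ 1) :
    orderOf w = p ∧ Subgroup.zpowers w = Subgroup.zpowers z := by
  have hp : p.Prime := Fact.out
  have h1 : orderOf w ∣ p := by
    have := orderOf_dvd_natCard (⟨w, hw⟩ : Subgroup.zpowers z)
    rw [Nat.card_zpowers, hz, ← Subgroup.orderOf_coe] at this
    exact this
  have h2 : orderOf w = p := by
    rcases (Nat.dvd_prime hp).1 h1 with h | h
    · exact absurd (orderOf_eq_one_iff.1 h) hw1
    · exact h
  refine ⟨h2, ?_⟩
  have : Finite (Subgroup.zpowers z) :=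
    Nat.finite_of_card_ne_zero (by rw [Nat.card_zpowers, hz]; exact hp.ne_zero)
  exact Subgroup.eq_of_le_of_card_ge (Subgroup.zpowers_le.2 hw)
    (by rw [Nat.card_zpowers, Nat.card_zpowers, hz, h2])

/-- Let G be a finite perfect group containing an element z of prime order p whose centralizer is the cyclic group it generates. Let t be the number of conjugacy classes of elements of order p. Then t divides p - 1, the number of Sylow p-subgroups has the form 1 + n * p, and |G| * t = (p - 1) * p * (1 + n * p). -/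
theorem result {G : Type*} [Group G] [Finite G] (hperf : commutator G = ⊤) (p : ℕ) [Fact p.Prime] (z : G) (hz : orderOf z = p) (hC : Subgroup.centralizer ({z} : Set G) = Subgroup.zpowers z) : ∃ n t : ℕ, t = Nat.card {c : ConjClasses G // ∃ g : G, ConjClasses.mk g = c ∧ orderOf g = p} ∧ t ∣ p - 1 ∧ Nat.card (Sylow p G) = 1 + n * p ∧ Nat.card G * t = (p - 1) * p * (1 + n * p) := by
  classical
  have hp : p.Prime := Fact.out
  have hz1 : z ≠ 1 := by
    rintro rfl
    rw [orderOf_one] at hz
    exact hp.one_lt.ne hz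
  have hzp : IsPGroup p (Subgroup.zpowers z) :=
    IsPGroup.of_card (n := 1) (by rw [Nat.card_zpowers, hz, pow_one])
  obtain ⟨P, hP⟩ := hzp.exists_le_sylow
  have hzP : z ∈ (P : Subgroup G) := hP (Subgroup.mem_zpowers z)
  have hPz : (P : Subgroup G) = Subgroup.zpowers z := by
    apply le_antisymm _ hP
    have : Nontrivial ↥(P : Subgroup G) :=
      ⟨⟨⟨z, hzP⟩, 1, fun h => hz1 (congrArg Subtype.val h)⟩⟩
    have hcn := P.2.center_nontrivial
    obtain ⟨c, hc1⟩ := exists_ne (1 : Subgroup.center ↥(P : Subgroup G))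
    have hcc : ∀ s : ↥(P : Subgroup G), s * (c : ↥(P : Subgroup G)) = (c : ↥(P : Subgroup G)) * s :=
      fun s => (Subgroup.mem_center_iff.1 c.2 s)
    set c' : G := ((c : ↥(P : Subgroup G)) : G) with hc'
    have hc'1 : c' ≠ 1 := by
      intro h
      apply hc1
      apply Subtype.ext; apply Subtype.ext
      exact h
    have hc'z : c' ∈ Subgroup.zpowers z := by
      rw [← hC, Subgroup.mem_centralizer_singleton_iff]
      exact (congrArg Subtype.val (hcc ⟨z, hzP⟩)).symm
    obtain ⟨_, hgen⟩ := gen_of_ne_one hz hc'z hc'1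
    intro s hs
    rw [← hC, Subgroup.mem_centralizer_singleton_iff]
    have hzc : z ∈ Subgroup.zpowers c' := hgen ▸ Subgroup.mem_zpowers z
    obtain ⟨m, hm⟩ := Subgroup.mem_zpowers_iff.1 hzc
    rw [← hm]
    have hcs : Commute s c' := congrArg Subtype.val (hcc ⟨s, hs⟩)
    exact (hcs.zpow_right m).eq
  have hPcard : Nat.card ↥(P : Subgroup G) = p := by rw [hPz, Nat.card_zpowers, hz]
  have hScard : ∀ S : Sylow p G, Nat.card ↥(S : Subgroup G) = p := by
    intro S
    exact (S.card_eq_multiplicity).trans (P.card_eq_multiplicity.symm.trans hPcard)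
  have hord : ∀ (S : Sylow p G) (g : G), g ∈ (S : Subgroup G) → g ≠ 1 → orderOf g = p := by
    intro S g hg hg1
    have h1 := orderOf_dvd_natCard (⟨g, hg⟩ : ↥(S : Subgroup G))
    rw [hScard, ← Subgroup.orderOf_coe] at h1
    rcases (Nat.dvd_prime hp).1 h1 with h | h
    · exact absurd (orderOf_eq_one_iff.1 h) hg1
    · exact h
  have hSz : ∀ (S : Sylow p G) (g : G), g ∈ (S : Subgroup G) → g ≠ 1 →
      (S : Subgroup G) = Subgroup.zpowers g := by
    intro S g hg hg1
    exact (Subgroup.eq_of_le_of_card_ge (Subgroup.zpowers_le.2 hg)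
      (by rw [hScard, Nat.card_zpowers, hord S g hg hg1])).symm
  have hne1 : ∀ g : G, orderOf g = p → g ≠ 1 := by
    rintro g hg rfl
    rw [orderOf_one] at hg
    exact hp.one_lt.ne hg
  have hexS : ∀ g : G, orderOf g = p → ∃ S : Sylow p G, g ∈ (S : Subgroup G) := by
    intro g hg
    have hgp : IsPGroup p (Subgroup.zpowers g) :=
      IsPGroup.of_card (n := 1) (by rw [Nat.card_zpowers, hg, pow_one])
    obtain ⟨S, hS⟩ := hgp.exists_le_sylow
    exact ⟨S, hS (Subgroup.mem_zpowers g)⟩
  -- centralizers of elements of order p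
  have hcent : ∀ g : G, orderOf g = p →
      Subgroup.centralizer ({g} : Set G) = Subgroup.zpowers g := by
    intro g hg
    obtain ⟨S, hgS⟩ := hexS g hg
    obtain ⟨h, hh⟩ := MulAction.exists_smul_eq G P S
    rw [← hh, Sylow.coe_subgroup_smul, Subgroup.mem_pointwise_smul_iff_inv_smul_mem, hPz] at hgS
    set w := h⁻¹ * g * h with hw
    have hwz : w ∈ Subgroup.zpowers z := by simpa [MulAut.smul_def] using hgS
    have hgw : g = h * w * h⁻¹ := by rw [hw]; group
    have hw1 : w ≠ 1 := by
      intro h1
      apply hne1 g hg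
      rw [hgw, h1]; group
    obtain ⟨hwp, hgen⟩ := gen_of_ne_one hz hwz hw1
    have hzw : z ∈ Subgroup.zpowers w := hgen ▸ Subgroup.mem_zpowers z
    obtain ⟨m, hm⟩ := Subgroup.mem_zpowers_iff.1 hzw
    apply le_antisymm
    · intro c hc
      rw [Subgroup.mem_centralizer_singleton_iff] at hc
      have h2 : Commute (h⁻¹ * c * h) w := by
        show h⁻¹ * c * h * w = w * (h⁻¹ * c * h)
        rw [hw]
        calc h⁻¹ * c * h * (h⁻¹ * g * h) = h⁻¹ * (c * g) * h := by group
          _ = h⁻¹ * (g * c) * h := by rw [hc]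
          _ = h⁻¹ * g * h * (h⁻¹ * c * h) := by group
      have h3 : h⁻¹ * c * h ∈ Subgroup.centralizer ({z} : Set G) := by
        rw [Subgroup.mem_centralizer_singleton_iff, ← hm]
        exact (h2.zpow_right m).eq
      rw [hC, ← hgen] at h3
      obtain ⟨k, hk⟩ := Subgroup.mem_zpowers_iff.1 h3
      rw [Subgroup.mem_zpowers_iff]
      refine ⟨k, ?_⟩
      rw [hgw, conj_zpow, hk]; group
    · rw [Subgroup.zpowers_le, Subgroup.mem_centralizer_singleton_iff]
  have hpdvd : p ∣ Nat.card G := hz ▸ orderOf_dvd_natCard z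
  -- counting elements of order p by Sylow subgroups
  have hX1 : Nat.card {g : G // orderOf g = p} = Nat.card (Sylow p G) * (p - 1) := by
    have hS : ∀ g : {g : G // orderOf g = p}, ∃ S : Sylow p G, (g : G) ∈ (S : Subgroup G) :=
      fun g => hexS g g.2
    choose f hf using hS
    apply fiber_count f
    intro S
    have e : {g : {g : G // orderOf g = p} // f g = S} ≃
        ↥((((S : Subgroup G) : Set G)) \ {1}) :=
      { toFun := fun g => ⟨(g : {g : G // orderOf g = p}), by
          refine ⟨?_, hne1 _ g.1.2⟩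
          have := hf g.1
          rw [g.2] at this
          exact this⟩
        invFun := fun g => ⟨⟨(g : G), hord S g g.2.1 g.2.2⟩, by
          apply Sylow.ext
          exact (hSz _ g (hf ⟨(g : G), hord S g g.2.1 g.2.2⟩) g.2.2).trans
            (hSz S g g.2.1 g.2.2).symm⟩
        left_inv := fun g => rfl
        right_inv := fun g => rfl }
    rw [Nat.card_congr e, Nat.card_coe_set_eq, Set.ncard_sdiff_singleton_of_mem (S : Subgroup G).one_mem,
      ← Nat.card_coe_set_eq]
    exact congrArg (· - 1) (hScard S)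
  -- counting elements of order p by conjugacy classes
  have hX2 : Nat.card {g : G // orderOf g = p} =
      Nat.card {c : ConjClasses G // ∃ g : G, ConjClasses.mk g = c ∧ orderOf g = p} *
        (Nat.card G / p) := by
    apply fiber_count (fun g : {g : G // orderOf g = p} =>
      (⟨ConjClasses.mk (g : G), g, rfl, g.2⟩ :
        {c : ConjClasses G // ∃ g : G, ConjClasses.mk g = c ∧ orderOf g = p}))
    rintro ⟨c₀, g₀, rfl, hg₀⟩
    have e : {g : {g : G // orderOf g = p} // (⟨ConjClasses.mk (g : G), g, rfl, g.2⟩ :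
        {c : ConjClasses G // ∃ g : G, ConjClasses.mk g = c ∧ orderOf g = p}) =
          ⟨ConjClasses.mk g₀, g₀, rfl, hg₀⟩} ≃ ↥((ConjClasses.mk g₀).carrier) :=
      { toFun := fun g => ⟨(g : {g : G // orderOf g = p}),
          ConjClasses.mem_carrier_iff_mk_eq.2 (congrArg Subtype.val g.2)⟩
        invFun := fun g => ⟨⟨(g : G), by
          have h1 := ConjClasses.mem_carrier_iff_mk_eq.1 g.2
          rw [ConjClasses.mk_eq_mk_iff_isConj, isConj_iff] at h1
          obtain ⟨c, hc⟩ := h1
          have h2 := (MulAut.conj c).orderOf_eq (g : G)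
          rw [MulAut.conj_apply, hc] at h2
          rw [← h2, hg₀]⟩, Subtype.ext (ConjClasses.mem_carrier_iff_mk_eq.1 g.2)⟩
        left_inv := fun g => rfl
        right_inv := fun g => rfl }
    rw [Nat.card_congr e, Nat.card_coe_set_eq, ← ConjAct.orbit_eq_carrier_conjClasses,
      ← MulAction.index_stabilizer]
    have h1 := (MulAction.stabilizer (ConjAct G) g₀).card_mul_index
    rw [← Subgroup.nat_card_centralizer_nat_card_stabilizer, hcent g₀ hg₀, Nat.card_zpowers, hg₀] at h1
    have h2 : Nat.card (ConjAct G) = Nat.card G := rfl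
    rw [h2] at h1
    rw [← h1, Nat.mul_div_cancel_left _ hp.pos]
  -- conclusion
  have hmod := card_sylow_modEq_one p G
  have hnp : Nat.card (Sylow p G) = 1 + (Nat.card (Sylow p G) / p) * p := by
    have h1 := Nat.div_add_mod (Nat.card (Sylow p G)) p
    unfold Nat.ModEq at hmod
    rw [hmod, Nat.mod_eq_of_lt hp.one_lt] at h1
    rw [mul_comm] at h1
    omega
  have h4 : Nat.card G * Nat.card {c : ConjClasses G // ∃ g : G, ConjClasses.mk g = c ∧ orderOf g = p}
      = (p - 1) * p * Nat.card (Sylow p G) := by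
    have h1 := Nat.mul_div_cancel' hpdvd
    calc Nat.card G * Nat.card {c : ConjClasses G // ∃ g : G, ConjClasses.mk g = c ∧ orderOf g = p}
        = p * (Nat.card {c : ConjClasses G // ∃ g : G, ConjClasses.mk g = c ∧ orderOf g = p} *
            (Nat.card G / p)) := by rw [← h1]; simp only [Nat.mul_div_cancel_left _ hp.pos]; ring
      _ = p * (Nat.card (Sylow p G) * (p - 1)) := by rw [← hX2, hX1]
      _ = (p - 1) * p * Nat.card (Sylow p G) := by ring
  refine ⟨Nat.card (Sylow p G) / p, _, rfl, ?_, hnp, ?_⟩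
  · have h5 := (Subgroup.normalizer ((P : Subgroup G) : Set G)).card_mul_index
    have h6 : (Subgroup.normalizer ((P : Subgroup G) : Set G)).index = Nat.card (Sylow p G) :=
      (P.card_eq_index_normalizer).symm
    rw [h6] at h5
    have h7 : p ∣ Nat.card ↥(Subgroup.normalizer ((P : Subgroup G) : Set G)) := by
      have h8 := Subgroup.card_dvd_of_le (Subgroup.le_normalizer (H := (P : Subgroup G)))
      rwa [hPcard] at h8
    obtain ⟨e, he⟩ := h7
    rw [he] at h5
    rw [← h5] at h4
    have hnpos : 0 < Nat.card (Sylow p G) := Nat.card_pos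
    refine Dvd.intro_left e ?_
    have h8 : (p * Nat.card (Sylow p G)) * (e * Nat.card {c : ConjClasses G // ∃ g : G, ConjClasses.mk g = c ∧ orderOf g = p}) = (p * Nat.card (Sylow p G)) * (p - 1) := by
      generalize Nat.card {c : ConjClasses G // ∃ g : G, ConjClasses.mk g = c ∧ orderOf g = p} = t at *
      generalize Nat.card (Sylow p G) = n at *
      generalize p - 1 = q at *
      calc p * n * (e * t) = p * e * n * t := by ring
        _ = q * p * n := h4
        _ = p * n * q := by ring
    exact Nat.eq_of_mul_eq_mul_left (Nat.mul_pos hp.pos hnpos) h8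
  · rw [← hnp]
    exact h4

end Cfsg.Agent.S0995
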