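import Cfsg.Statements.S0997
import Cfsg.Agent.Helper79.S997Core
import Cfsg.Agent.Helper9.BRSimple
import Cfsg.Agent.Helper19.BRXNum
import Cfsg.Agent.Helper79.BRXCore

set_option autoImplicit false
open Cfsg

namespace Cfsg.Agent.S0997

/-- Let G be a non-cyclic finite simple group of order p * q^b * g₀, where p and q are distinct primes and g₀ < p - 1. Then either p has the form 2^m + 1 or 2^m - 1 and G is isomorphic to the projective special linear group of dimension 2 over the field with p elements, or p = 2^m + 1 > 3 and G is isomorphic to that group over the field with 2^m elements. -/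
theorem result {G : Type*} [Group G] [Finite G] [IsSimpleGroup G] (hG : ¬ IsCyclic G) (p q b g₀ : ℕ) (hp : p.Prime) (hq : q.Prime) (hpq : p ≠ q) (hG' : Nat.card G = p * q ^ b * g₀) (hg : g₀ < p - 1) : (∃ (m : ℕ) (F : Type) (_ : Field F) (_ : Fintype F), Fintype.card F = p ∧ (p = 2 ^ m + 1 ∨ p = 2 ^ m - 1) ∧ Nonempty (G ≃* Matrix.ProjectiveSpecialLinearGroup (Fin 2) F)) ∨ (∃ (m : ℕ) (F : Type) (_ : Field F) (_ : Fintype F), Fintype.card F = 2 ^ m ∧ p = 2 ^ m + 1 ∧ 3 < p ∧ Nonempty (G ≃* Matrix.ProjectiveSpecialLinearGroup (Fin 2) F)) := by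
  classical
  haveI : Fact p.Prime := ⟨hp⟩
  obtain ⟨P⟩ : Nonempty (Sylow p G) := inferInstance
  obtain ⟨hP, n, hSyl, ⟨m, hm⟩, hfew⟩ := Cfsg.Agent.Helper79.s997_core hG p q b g₀ hq hpq hG' hg P
  have hdvd : p ∣ Nat.card G := by
    rw [hG', mul_assoc]
    exact dvd_mul_right p _
  obtain ⟨hperf, hOp, -⟩ := Cfsg.Agent.Helper9.br_simple_facts hG p hdvd
  haveI : Fintype G := Fintype.ofFinite G
  have hnF := Cfsg.Agent.Helper19.brn_few p n hfew
  rcases Cfsg.Agent.Helper79.brn_core hperf p hOp P hP n hSyl hnF with ⟨F, iF, iF', hF, -, hiso⟩ | h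
  · left
    exact ⟨m, F, iF, iF', hF, hm, hiso⟩
  · right
    exact h

end Cfsg.Agent.S0997
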