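import Cfsg.Statements.S4501
import Cfsg.Agent.Helper82.SmallCofactor
import Cfsg.Agent.Helper41.Order60
import Cfsg.Agent.Helper9.PSL2Iso

set_option autoImplicit false
open Cfsg

namespace Cfsg.Agent.S4501

/-- Let G be a non-abelian finite simple group and p, q distinct primes. If the order of G is 4·p^a·q^b with a ≤ 2, then G is isomorphic to the alternating group of degree 5. If the order of G is 3·p^a·q^b with a ≤ 2, then G is isomorphic to the alternating group of degree 5 or to PSL(2,7). -/
theorem result {G : Type*} [Group G] [Finite G] [IsSimpleGroup G] (hna : ∃ x y : G, x * y ≠ y * x) (p q a b : ℕ) (hp : p.Prime) (hq : q.Prime) (hpq : p ≠ q) (ha : a ≤ 2) : (Nat.card G = 4 * p ^ a * q ^ b → Nonempty (G ≃* alternatingGroup (Fin 5))) ∧ (Nat.card G = 3 * p ^ a * q ^ b → Nonempty (G ≃* alternatingGroup (Fin 5)) ∨ Nonempty (G ≃* Matrix.ProjectiveSpecialLinearGroup (Fin 2) (ZMod 7))) := by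
  classical
  have hnc : ¬ ∀ a b : G, a * b = b * a := by
    obtain ⟨x, y, hxy⟩ := hna
    exact fun h => hxy (h x y)
  have : Fact (Nat.Prime 7) := ⟨by norm_num⟩
  refine ⟨fun hG => ?_, fun hG => ?_⟩
  · exact Helper41.simple_order_sixty (Helper82.sc_four hnc p q a b hp hq hpq hG)
  · rcases Helper82.sc_three hnc p q a b hp hq hpq ha hG with h | h
    · exact Or.inl (Helper41.simple_order_sixty h)
    · exact Or.inr (Helper9.PSLRec.iso_psl_7 h (ZMod.card 7))

end Cfsg.Agent.S4501
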