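import Cfsg.Statements.S0998
import Cfsg.Agent.Helper79.S998Core
import Cfsg.Agent.S4501
import Cfsg.Agent.S0253

set_option autoImplicit false
open Cfsg

namespace Cfsg.Agent.S0998

/-- A non-cyclic finite simple group whose order has the form p * r * q^b for distinct primes p, q, r is isomorphic to the projective special linear group of dimension 2 over the field with 5 or with 7 elements. -/
theorem result {G : Type*} [Group G] [Finite G] [IsSimpleGroup G] (hG : ¬ IsCyclic G) (p q r b : ℕ) (hp : p.Prime) (hq : q.Prime) (hr : r.Prime) (hpq : p ≠ q) (hpr : p ≠ r) (hqr : q ≠ r) (hG' : Nat.card G = p * r * q ^ b) : (∃ (F : Type) (_ : Field F) (_ : Fintype F), Fintype.card F = 5 ∧ Nonempty (G ≃* Matrix.ProjectiveSpecialLinearGroup (Fin 2) F)) ∨ (∃ (F : Type) (_ : Field F) (_ : Fintype F), Fintype.card F = 7 ∧ Nonempty (G ≃* Matrix.ProjectiveSpecialLinearGroup (Fin 2) F)) := by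
  classical
  have hna : ∃ x y : G, x * y ≠ y * x := by
    by_contra hcon
    push Not at hcon
    let _ : CommGroup G := { ‹Group G› with mul_comm := hcon }
    exact hG (IsSimpleGroup.isCyclic)
  have key : ∃ p' : ℕ, p'.Prime ∧ p' ≠ q ∧ Nat.card G = 3 * p' ^ 1 * q ^ b := by
    rcases lt_or_gt_of_ne hpr with h | h
    · have h3 := Cfsg.Agent.Helper79.s998_core hG r q p b hr hq hp (Ne.symm hqr) (Ne.symm hpr) (Ne.symm hpq) h
        (by rw [hG']; ring)
      exact ⟨r, hr, Ne.symm hqr, by rw [hG', h3]; ring⟩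
    · have h3 := Cfsg.Agent.Helper79.s998_core hG p q r b hp hq hr hpq hpr hqr h hG'
      exact ⟨p, hp, hpq, by rw [hG', h3]; ring⟩
  obtain ⟨p', hp', hp'q, hc⟩ := key
  have : Fact (Nat.Prime 5) := ⟨by norm_num⟩
  have : Fact (Nat.Prime 7) := ⟨by norm_num⟩
  rcases (Cfsg.Agent.S4501.result hna p' q 1 b hp' hq hp'q (by norm_num)).2 hc with hφ | hφ
  · obtain ⟨φ⟩ := hφ
    left
    obtain ⟨ψ⟩ := Cfsg.Agent.S0253.result (F := ZMod 5) (ZMod.card 5)
    exact ⟨ZMod 5, inferInstance, inferInstance, ZMod.card 5, ⟨φ.trans ψ.symm⟩⟩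
  · obtain ⟨φ⟩ := hφ
    right
    exact ⟨ZMod 7, inferInstance, inferInstance, ZMod.card 7, ⟨φ⟩⟩

end Cfsg.Agent.S0998
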