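import Cfsg.Statements.S1003
import Cfsg.Agent.Helper7.L168Syl

set_option autoImplicit false
open Cfsg

namespace Cfsg.Agent.S1003

/-- A simple group of order 168 has exactly 21 Sylow 2-subgroups, 28 Sylow 3-subgroups and 8 Sylow 7-subgroups. -/
theorem result {G : Type*} [Group G] [Finite G] [IsSimpleGroup G] (h : Nat.card G = 168) : Nat.card (Sylow 2 G) = 21 ∧ Nat.card (Sylow 3 G) = 28 ∧ Nat.card (Sylow 7 G) = 8 := by
  obtain ⟨C⟩ := Cfsg.Agent.Helper7.exists_coord168 h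
  haveI : Fact (Nat.Prime 2) := ⟨by norm_num⟩
  haveI : Fact (Nat.Prime 3) := ⟨by norm_num⟩
  haveI : Fact (Nat.Prime 7) := ⟨by norm_num⟩
  have h2 := C.card_sylow_mul (p := 2) Cfsg.Agent.Helper7.mT Cfsg.Agent.Helper7.mT_ok 3 21 8
    Cfsg.Agent.Helper7.mT_card (by norm_num) (by norm_num) Cfsg.Agent.Helper7.mT_norm
  have h3 := C.card_sylow_mul (p := 3) Cfsg.Agent.Helper7.mP3 Cfsg.Agent.Helper7.mP3_ok 1 56 6
    Cfsg.Agent.Helper7.mP3_card (by norm_num) (by norm_num) Cfsg.Agent.Helper7.mP3_norm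
  have h7 := C.card_sylow_mul (p := 7) Cfsg.Agent.Helper7.mP7 Cfsg.Agent.Helper7.mP7_ok 1 24 21
    Cfsg.Agent.Helper7.mP7_card (by norm_num) (by norm_num) Cfsg.Agent.Helper7.mP7_norm
  omega

end Cfsg.Agent.S1003
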