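import Cfsg.Statements.S1008
import Cfsg.Agent.Helper7.L168Max2

set_option autoImplicit false
open Cfsg

namespace Cfsg.Agent.S1008

/-- In a simple group of order 168 every maximal subgroup is either isomorphic to the symmetric group of degree 4 or non-abelian of order 21; the maximal subgroups of order 21 form one conjugacy class and those isomorphic to the symmetric group of degree 4 form exactly two conjugacy classes. -/
theorem result {G : Type*} [Group G] [Finite G] [IsSimpleGroup G] (h : Nat.card G = 168) : (∀ M : Subgroup G, IsCoatom M → Nonempty (↥M ≃* Equiv.Perm (Fin 4)) ∨ (Nat.card ↥M = 21 ∧ ¬ IsMulCommutative ↥M)) ∧ (∀ M M' : Subgroup G, IsCoatom M → IsCoatom M' → Nat.card ↥M = 21 → Nat.card ↥M' = 21 → ∃ g : G, M' = M.map (MulAut.conj g).toMonoidHom) ∧ ∃ M₁ M₂ : Subgroup G, IsCoatom M₁ ∧ IsCoatom M₂ ∧ Nonempty (↥M₁ ≃* Equiv.Perm (Fin 4)) ∧ Nonempty (↥M₂ ≃* Equiv.Perm (Fin 4)) ∧ (∀ g : G, M₂ ≠ M₁.map (MulAut.conj g).toMonoidHom) ∧ ∀ M :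 Subgroup G, IsCoatom M → Nonempty (↥M ≃* Equiv.Perm (Fin 4)) → ∃ g : G, M = M₁.map (MulAut.conj g).toMonoidHom ∨ M = M₂.map (MulAut.conj g).toMonoidHom := by
  obtain ⟨C⟩ := Cfsg.Agent.Helper7.exists_coord168 h
  exact C.maximal_subgroups

end Cfsg.Agent.S1008
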