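import Mathlib
import Cfsg.Statements.S1009

set_option autoImplicit false
open Cfsg

namespace Cfsg.Agent.S1009

theorem abelian_le_normalizer {G : Type*} [Group G] (A D : Subgroup G) (hA : IsMulCommutative ↥A)
    (hDA : D ≤ A) : A ≤ Subgroup.normalizer (D : Set G) := by
  have hc : ∀ s ∈ A, ∀ d ∈ A, s * d * s⁻¹ = d := by
    intro s hs d hd
    have h1 : (⟨s, hs⟩ : ↥A) * ⟨d, hd⟩ = ⟨d, hd⟩ * ⟨s, hs⟩ := mul_comm' _ _
    have h2 : s * d = d * s := congrArg Subtype.val h1
    rw [h2]; group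
  intro s hs
  rw [Subgroup.mem_normalizer_iff]
  intro d
  constructor
  · intro hd
    rw [hc s hs d (hDA hd)]; exact hd
  · intro hd
    have hdA : d ∈ A := by
      have h1 : s⁻¹ * (s * d * s⁻¹) * s ∈ A := A.mul_mem (A.mul_mem (A.inv_mem hs) (hDA hd)) hs
      have h2 : s⁻¹ * (s * d * s⁻¹) * s = d := by group
      rw [h2] at h1; exact h1
    rw [hc s hs d hdA] at hd; exact hd

/-- Brodkey's Theorem: if a finite group has abelian Sylow p-subgroups, then there are two Sylow p-subgroups whose intersection equals the intersection of all Sylow p-subgroups. -/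
theorem result {G : Type*} [Group G] [Finite G] (p : ℕ) [Fact p.Prime] (hab : ∀ P : Sylow p G, IsMulCommutative ↥(P : Subgroup G)) : ∃ P Q : Sylow p G, (P : Subgroup G) ⊓ (Q : Subgroup G) = ⨅ R : Sylow p G, (R : Subgroup G) := by
  classical
  obtain ⟨⟨S, T⟩, hmin⟩ := Finite.exists_min (fun ST : Sylow p G × Sylow p G =>
    Nat.card ↥((ST.1 : Subgroup G) ⊓ (ST.2 : Subgroup G)))
  refine ⟨S, T, le_antisymm ?_ (le_inf (iInf_le _ S) (iInf_le _ T))⟩
  rw [le_iInf_iff]
  intro P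
  have hSN : (S : Subgroup G) ≤ Subgroup.normalizer (((S : Subgroup G) ⊓ (T : Subgroup G) : Subgroup G) : Set G) :=
    abelian_le_normalizer _ _ (hab S) inf_le_left
  have hTN : (T : Subgroup G) ≤ Subgroup.normalizer (((S : Subgroup G) ⊓ (T : Subgroup G) : Subgroup G) : Set G) :=
    abelian_le_normalizer _ _ (hab T) inf_le_right
  obtain ⟨Q, hQ⟩ := IsPGroup.exists_le_sylow
    (P.isPGroup'.comap_subtype (K := Subgroup.normalizer (((S : Subgroup G) ⊓ (T : Subgroup G) : Subgroup G) : Set G)))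
  obtain ⟨x, hx⟩ := MulAction.exists_smul_eq
    (↥(Subgroup.normalizer (((S : Subgroup G) ⊓ (T : Subgroup G) : Subgroup G) : Set G))) (S.subtype hSN) Q
  have hconj : ∀ g ∈ (P : Subgroup G),
      g ∈ Subgroup.normalizer (((S : Subgroup G) ⊓ (T : Subgroup G) : Subgroup G) : Set G) →
      (x : G)⁻¹ * g * x ∈ (S : Subgroup G) := by
    intro g hgP hgN
    have h1 : (⟨g, hgN⟩ : ↥(Subgroup.normalizer (((S : Subgroup G) ⊓ (T : Subgroup G) : Subgroup G) : Set G))) ∈ (Q : Subgroup _) :=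
      hQ (by rw [Subgroup.mem_comap]; exact hgP)
    rw [← hx, Sylow.coe_subgroup_smul, Subgroup.mem_pointwise_smul_iff_inv_smul_mem,
      Sylow.coe_subtype, Subgroup.mem_subgroupOf] at h1
    simpa [MulAut.smul_def] using h1
  have hP' : ∀ y, y ∈ (((x : G)⁻¹ • P : Sylow p G) : Subgroup G) →
      (x : G) * y * (x : G)⁻¹ ∈ (P : Subgroup G) := by
    intro y hy
    rw [Sylow.coe_subgroup_smul, Subgroup.mem_pointwise_smul_iff_inv_smul_mem] at hy
    simpa [MulAut.smul_def] using hy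
  have hle : (((x : G)⁻¹ • P : Sylow p G) : Subgroup G) ⊓ (T : Subgroup G) ≤ (S : Subgroup G) ⊓ (T : Subgroup G) := by
    intro g hg
    rw [Subgroup.mem_inf] at hg ⊢
    obtain ⟨hg1, hg2⟩ := hg
    refine ⟨?_, hg2⟩
    have hg1' := hP' g hg1
    have h2 := hconj _ hg1' (Subgroup.mul_mem _ (Subgroup.mul_mem _ x.2 (hTN hg2)) (Subgroup.inv_mem _ x.2))
    have h3 : (x : G)⁻¹ * ((x : G) * g * (x : G)⁻¹) * x = g := by group
    rw [h3] at h2; exact h2
  have heq := Subgroup.eq_of_le_of_card_ge hle (hmin ((x : G)⁻¹ • P, T))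
  intro d hd
  have hxd : (x : G)⁻¹ * d * (x : G) ∈ (S : Subgroup G) ⊓ (T : Subgroup G) := by
    have hx' := Subgroup.inv_mem _ x.2
    rw [Subgroup.mem_normalizer_iff] at hx'
    have := (hx' d).mp hd
    simpa using this
  have hxd' := (SetLike.ext_iff.mp heq _).mpr hxd
  rw [Subgroup.mem_inf] at hxd'
  have h2 := hP' _ hxd'.1
  have h3 : (x : G) * ((x : G)⁻¹ * d * (x : G)) * (x : G)⁻¹ = d := by group
  rw [h3] at h2; exact h2

end Cfsg.Agent.S1009
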