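import Mathlib
import Cfsg.Statements.S1013
import Cfsg.Agent.Helper55.KleinFusion

set_option autoImplicit false
open Cfsg

namespace Cfsg.Agent.S1013

/-- A nontrivial normal subgroup of a faithful transitive group of prime degree is transitive. -/
theorem normal_pretransitive {H α : Type*} [Group H] [MulAction H α] [FaithfulSMul H α]
    [MulAction.IsPretransitive H α] (hp : (Nat.card α).Prime) (N : Subgroup H) [N.Normal]
    (hN : N ≠ ⊥) : MulAction.IsPretransitive N α := by
  have : MulAction.IsPreprimitive H α := MulAction.IsPreprimitive.of_prime_card hp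
  apply MulAction.IsQuasiPreprimitive.isPretransitive_of_normal (G := H)
  intro h
  apply hN
  rw [Subgroup.eq_bot_iff_forall]
  intro n hn
  apply FaithfulSMul.eq_of_smul_eq_smul (α := α)
  intro a
  have h1 : a ∈ MulAction.fixedPoints N α := by rw [h]; trivial
  have h2 := h1 ⟨n, hn⟩
  simpa using h2

theorem card_dvd_of_pretransitive {H α : Type*} [Group H] [MulAction H α]
    [MulAction.IsPretransitive H α] [Nonempty α] : Nat.card α ∣ Nat.card H := by
  obtain ⟨a⟩ := ‹Nonempty α›
  rw [← MulAction.index_stabilizer_of_transitive H a]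
  exact Subgroup.index_dvd_card _

theorem not_sq_dvd_factorial {p : ℕ} (hp : p.Prime) : ¬ p ^ 2 ∣ p.factorial := by
  intro h
  have h1 : p.factorial = p * (p - 1).factorial := by
    rw [Nat.mul_factorial_pred hp.ne_zero]
  rw [h1, pow_two] at h
  have h2 : p ∣ (p - 1).factorial := (Nat.mul_dvd_mul_iff_left hp.pos).mp h
  have h3 := (hp.dvd_factorial).mp h2
  have := hp.pos
  omega

/-- Let G be a transitive permutation group of prime degree p having more than one Sylow p-subgroup, and suppose a Sylow p-subgroup P has prime index in its normalizer. Then G is simple. -/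
theorem result {α : Type*} [Fintype α] [DecidableEq α] {p : ℕ} [Fact p.Prime] (hα : Fintype.card α = p) (G : Subgroup (Equiv.Perm α)) [MulAction.IsPretransitive ↥G α] (P : Sylow p ↥G) (hn : 1 < Nat.card (Sylow p ↥G)) (ht : (((P : Subgroup ↥G).subgroupOf (Subgroup.normalizer ((P : Subgroup ↥G) : Set ↥G))).index).Prime) : IsSimpleGroup ↥G := by
  have hp : p.Prime := Fact.out
  have hcα : Nat.card α = p := by rw [Nat.card_eq_fintype_card, hα]
  have hpα : (Nat.card α).Prime := by rw [hcα]; exact hp
  have : Nonempty α := by
    have : 0 < Fintype.card α := by rw [hα]; exact hp.pos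
    exact Fintype.card_pos_iff.mp this
  -- |P| = p
  have hGdvd : Nat.card ↥G ∣ p.factorial := by
    have := Subgroup.card_subgroup_dvd_card G
    rwa [Nat.card_perm, hcα] at this
  have hpG : p ∣ Nat.card ↥G := by
    have := card_dvd_of_pretransitive (H := ↥G) (α := α)
    rwa [hcα] at this
  have hPcard : Nat.card (P : Subgroup ↥G) = p := by
    obtain ⟨k, hk⟩ := IsPGroup.iff_card.mp P.isPGroup'
    have h1 : p ∣ Nat.card (P : Subgroup ↥G) := P.dvd_card_of_dvd_card hpG
    have h2 : p ^ k ∣ p.factorial := by
      rw [← hk]; exact (Subgroup.card_subgroup_dvd_card _).trans hGdvd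
    have hk1 : k ≠ 0 := by
      rintro rfl
      rw [hk, pow_zero] at h1
      exact hp.one_lt.ne' (Nat.dvd_one.mp h1)
    have hk2 : k < 2 := by
      by_contra hk2
      push Not at hk2
      exact not_sq_dvd_factorial hp ((pow_dvd_pow p hk2).trans h2)
    have : k = 1 := by omega
    rw [hk, this, pow_one]
  -- every nontrivial normal subgroup contains P
  have hPle : ∀ K : Subgroup ↥G, K.Normal → K ≠ ⊥ → (P : Subgroup ↥G) ≤ K := by
    intro K hK hKbot
    have := hK
    have : MulAction.IsPretransitive K α := normal_pretransitive hpα K hKbot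
    have hpK : p ∣ Nat.card K := by
      have := card_dvd_of_pretransitive (H := ↥K) (α := α)
      rwa [hcα] at this
    obtain ⟨x, hx⟩ := exists_prime_orderOf_dvd_card' p hpK
    have hx' : orderOf (x : ↥G) = p := by rw [Subgroup.orderOf_coe, hx]
    obtain ⟨g, hg⟩ := Cfsg.Agent.Helper55.exists_conj_mem_sylow_of_orderOf P (x : ↥G) hx'
    have hgK : g * (x : ↥G) * g⁻¹ ∈ K := hK.conj_mem _ x.2 g
    have hord : orderOf (g * (x : ↥G) * g⁻¹) = p := by
      rw [← hx']
      exact MulEquiv.orderOf_eq (MulAut.conj g) (x : ↥G)
    have hz : Subgroup.zpowers (g * (x : ↥G) * g⁻¹) = (P : Subgroup ↥G) := by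
      apply Subgroup.eq_of_le_of_card_ge
      · rw [Subgroup.zpowers_le]; exact hg
      · rw [hPcard, Nat.card_zpowers, hord]
    rw [← hz, Subgroup.zpowers_le]
    exact hgK
  refine @IsSimpleGroup.mk _ _ ?_ ?_
  · by_contra hnt
    rw [not_nontrivial_iff_subsingleton] at hnt
    have : Subsingleton (Sylow p ↥G) := by
      constructor
      intro Q R
      apply Sylow.ext
      ext x
      rw [Subsingleton.elim x 1]
      simp [one_mem]
    have := Finite.card_le_one_iff_subsingleton.mpr this
    omega
  · intro K hK
    by_cases hKbot : K = ⊥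
    · exact Or.inl hKbot
    right
    have := hK
    have hPK := hPle K hK hKbot
    have hfr : Subgroup.normalizer ((P : Subgroup ↥G) : Set ↥G) ⊔ K = ⊤ :=
      P.normalizer_sup_eq_top' hPK
    set NP := Subgroup.normalizer ((P : Subgroup ↥G) : Set ↥G) with hNP
    have hPNP : (P : Subgroup ↥G) ≤ NP := Subgroup.le_normalizer
    have hrel : (P : Subgroup ↥G).relIndex (K ⊓ NP) * (K ⊓ NP).relIndex NP
        = (P : Subgroup ↥G).relIndex NP :=
      Subgroup.relIndex_mul_relIndex _ _ _ (le_inf hPK hPNP) inf_le_right
    have ht' : ((P : Subgroup ↥G).relIndex NP).Prime := ht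
    rw [← hrel] at ht'
    rcases (Nat.prime_mul_iff.mp ht') with ⟨_, h1⟩ | ⟨_, h1⟩
    · -- NP ≤ K
      have : NP ≤ K ⊓ NP := Subgroup.relIndex_eq_one.mp h1
      have hle : NP ≤ K := this.trans inf_le_left
      rw [sup_eq_right.mpr hle] at hfr
      exact hfr
    · -- K ⊓ NP ≤ P: Burnside
      exfalso
      have hKNP : K ⊓ NP ≤ (P : Subgroup ↥G) := Subgroup.relIndex_eq_one.mp h1
      have : MulAction.IsPretransitive K α := normal_pretransitive hpα K hKbot
      set P' : Sylow p K := P.subtype hPK with hP'
      have hP'mem : ∀ y : K, y ∈ (P' : Subgroup K) ↔ (y : ↥G) ∈ (P : Subgroup ↥G) := by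
        intro y
        rw [hP', Sylow.coe_subtype, Subgroup.mem_subgroupOf]
      have hP'card : Nat.card (P' : Subgroup K) = p := by
        rw [hP', Sylow.coe_subtype, Nat.card_congr (Subgroup.subgroupOfEquivOfLe hPK).toEquiv,
          hPcard]
      have hcomm : ∀ a b : ↥G, a ∈ (P : Subgroup ↥G) → b ∈ (P : Subgroup ↥G) → a * b = b * a := by
        intro a b ha hb
        have : Fact (Nat.card (P : Subgroup ↥G)).Prime := ⟨by rw [hPcard]; exact hp⟩
        have : IsCyclic (P : Subgroup ↥G) := isCyclic_of_prime_card rfl
        have : IsMulCommutative (P : Subgroup ↥G) := IsCyclic.isMulCommutative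
        have := mul_comm' (⟨a, ha⟩ : (P : Subgroup ↥G)) ⟨b, hb⟩
        exact congrArg Subtype.val this
      have hNC : Subgroup.normalizer ((P' : Subgroup K) : Set K)
          ≤ Subgroup.centralizer ((P' : Subgroup K) : Set K) := by
        intro n hn
        have hnNP : (n : ↥G) ∈ NP := by
          rw [hNP, Subgroup.mem_normalizer_iff]
          intro h
          rw [Subgroup.mem_normalizer_iff] at hn
          constructor
          · intro hh
            have := (hn ⟨h, hPK hh⟩).mp ((hP'mem _).mpr hh)
            exact (hP'mem _).mp this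
          · intro hh
            have hhK : h ∈ K := by
              have h3 : (n : ↥G)⁻¹ * ((n : ↥G) * h * (n : ↥G)⁻¹) * (n : ↥G) ∈ K :=
                K.mul_mem (K.mul_mem (K.inv_mem n.2) (hPK hh)) n.2
              simpa [mul_assoc] using h3
            have := (hn ⟨h, hhK⟩).mpr ((hP'mem _).mpr hh)
            exact (hP'mem _).mp this
        have hnP : (n : ↥G) ∈ (P : Subgroup ↥G) := hKNP ⟨n.2, hnNP⟩
        rw [Subgroup.mem_centralizer_iff]
        intro y hy
        apply Subtype.ext
        exact hcomm _ _ ((hP'mem y).mp hy) hnP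
      have hcompl := MonoidHom.ker_transferSylow_isComplement' P' hNC
      have hnd := MonoidHom.not_dvd_card_ker_transferSylow P' hNC
      set M := (MonoidHom.transferSylow P' hNC).ker with hM
      have hMbot : M = ⊥ := by
        by_contra hMne
        have : MulAction.IsPretransitive M α := normal_pretransitive hpα M hMne
        have := card_dvd_of_pretransitive (H := ↥M) (α := α)
        rw [hcα] at this
        exact hnd this
      rw [hMbot, Subgroup.isComplement'_bot_left] at hcompl
      -- K ≤ P
      have hKP : K ≤ (P : Subgroup ↥G) := by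
        intro y hy
        have : (⟨y, hy⟩ : K) ∈ (P' : Subgroup K) := by rw [hcompl]; trivial
        exact (hP'mem _).mp this
      have hKeq : (P : Subgroup ↥G) = K := le_antisymm hPK hKP
      have hPn : (P : Subgroup ↥G).Normal := by rw [hKeq]; exact hK
      have := Sylow.unique_of_normal P hPn
      have := Nat.card_unique (α := Sylow p ↥G)
      omega

end Cfsg.Agent.S1013
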