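import Cfsg.Statements.S1014
import Cfsg.Agent.Helper58.SylowPlusOne

set_option autoImplicit false
open Cfsg

namespace Cfsg.Agent.S1014

/-- No finite simple group has order 1104 = 2^4 * 3 * 23. -/
theorem result {G : Type*} [Group G] [Finite G] [IsSimpleGroup G] : Nat.card G ≠ 1104 := by
  intro hcard
  classical
  have : Fact (Nat.Prime 23) := ⟨by norm_num⟩
  have hp23 : Nat.Prime 23 := by norm_num
  obtain ⟨P⟩ : Nonempty (Sylow 23 G) := inferInstance
  -- the order of `P`
  have hmul := (P : Subgroup G).card_mul_index
  rw [hcard] at hmul
  obtain ⟨k, hk⟩ := IsPGroup.iff_card.mp P.isPGroup'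
  have hnd := P.not_dvd_index
  have hPcard : Nat.card (P : Subgroup G) = 23 := by
    rw [hk] at hmul ⊢
    rcases k with _ | _ | k
    · exfalso
      rw [pow_zero, one_mul] at hmul
      exact hnd ⟨48, by rw [hmul]⟩
    · norm_num
    · exfalso
      have h1 : 529 ∣ 1104 := ⟨23 ^ k * (P : Subgroup G).index, by rw [← hmul]; ring⟩
      revert h1; decide
  have hindex : (P : Subgroup G).index = 48 := by
    rw [hPcard] at hmul; omega
  -- the number of Sylow 23-subgroups
  have hmod := card_sylow_modEq_one 23 G
  have hdvd := P.card_dvd_index
  rw [hindex] at hdvd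
  have hn : Nat.card (Sylow 23 G) = 1 ∨ Nat.card (Sylow 23 G) = 24 := by
    have hle := Nat.le_of_dvd (by norm_num) hdvd
    unfold Nat.ModEq at hmod
    generalize Nat.card (Sylow 23 G) = n at hmod hdvd hle
    interval_cases n <;> first | (left; rfl) | (right; rfl) | (exfalso; revert hmod; decide) | (exfalso; revert hdvd; decide)
  have hnorm := P.card_eq_index_normalizer
  rcases hn with hn | hn
  · -- `P` is normal
    rw [hn] at hnorm
    have htop : Subgroup.normalizer (P : Set G) = ⊤ := Subgroup.index_eq_one.mp hnorm.symm
    have hnormal : (P : Subgroup G).Normal := Subgroup.normalizer_eq_top_iff.mp htop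
    rcases hnormal.eq_bot_or_eq_top with h | h
    · rw [h, Subgroup.card_bot] at hPcard; omega
    · rw [h, Subgroup.card_top, hcard] at hPcard; omega
  · rw [hn] at hnorm
    have hNcard : Nat.card (Subgroup.normalizer (P : Set G)) = 46 := by
      have := (Subgroup.normalizer (P : Set G)).card_mul_index
      rw [← hnorm, hcard] at this; omega
    -- an involution in the normaliser
    obtain ⟨t', ht'⟩ := exists_prime_orderOf_dvd_card' (G := Subgroup.normalizer (P : Set G)) 2
      (by rw [hNcard]; norm_num)
    have htN : (t' : G) ∈ Subgroup.normalizer (P : Set G) := t'.2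
    have hot : orderOf (t' : G) = 2 := by rw [Subgroup.orderOf_coe]; exact ht'
    have htt : (t' : G) * (t' : G) = 1 := by
      have := pow_orderOf_eq_one (t' : G)
      rwa [hot, pow_two] at this
    by_cases hcent : ∀ x ∈ (P : Subgroup G), (t' : G) * x = x * (t' : G)
    · -- the normaliser centralises `P`: Burnside's transfer theorem
      have hPcomm : (P : Subgroup G) ≤ Subgroup.centralizer (P : Set G) := by
        have : Fact (Nat.Prime (Nat.card (P : Subgroup G))) := ⟨by rw [hPcard]; exact hp23⟩
        have : IsCyclic (P : Subgroup G) := isCyclic_of_prime_card rfl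
        exact Subgroup.le_centralizer_iff_isMulCommutative.mpr IsCyclic.isMulCommutative
      set C := Subgroup.normalizer (P : Set G) ⊓ Subgroup.centralizer (P : Set G) with hC
      have hPC : (P : Subgroup G) ≤ C := le_inf Subgroup.le_normalizer hPcomm
      have htC : (t' : G) ∈ C := by
        refine Subgroup.mem_inf.mpr ⟨htN, Subgroup.mem_centralizer_iff.mpr ?_⟩
        intro y hy
        exact (hcent y hy).symm
      have h23 : 23 ∣ Nat.card C := by
        have := Subgroup.card_dvd_of_le hPC
        rwa [hPcard] at this
      have h2 : 2 ∣ Nat.card C := by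
        have := orderOf_dvd_natCard (⟨(t' : G), htC⟩ : C)
        rwa [Subgroup.orderOf_mk, hot] at this
      have h46 : 46 ∣ Nat.card C :=
        (Nat.Coprime.mul_dvd_of_dvd_of_dvd (by norm_num : Nat.Coprime 2 23) h2 h23)
      have hCN : C = Subgroup.normalizer (P : Set G) :=
        Subgroup.eq_of_le_of_card_ge inf_le_left
          (by rw [hNcard]; exact Nat.le_of_dvd Nat.card_pos h46)
      have hNC : Subgroup.normalizer (P : Set G) ≤ Subgroup.centralizer (P : Set G) := by
        rw [← hCN]; exact inf_le_right
      have hcompl := MonoidHom.ker_transferSylow_isComplement' P hNC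
      have hkm := hcompl.card_mul_card
      rw [hPcard, hcard] at hkm
      rcases (MonoidHom.normal_ker (MonoidHom.transferSylow P hNC)).eq_bot_or_eq_top with h | h
      · rw [h, Subgroup.card_bot] at hkm; omega
      · rw [h, Subgroup.card_top, hcard] at hkm; omega
    · -- the involution acts as an odd permutation on the 24 Sylow subgroups
      push Not at hcent
      obtain ⟨x0, hx0, hne⟩ := hcent
      have : Fintype (Sylow 23 G) := Fintype.ofFinite _
      have hsign := Cfsg.Agent.Helper58.sylow_prime_sign 23 (by norm_num) P hPcard hn (t' : G) htt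
        htN x0 hx0 hne
      let s : G →* ℤˣ := Equiv.Perm.sign.comp (MulAction.toPermHom G (Sylow 23 G))
      have hst : s (t' : G) = -1 := by
        show Equiv.Perm.sign (MulAction.toPerm (t' : G) : Equiv.Perm (Sylow 23 G)) = -1
        rw [hsign]; decide
      rcases (MonoidHom.normal_ker s).eq_bot_or_eq_top with h | h
      · have hinj : Function.Injective s := (MonoidHom.ker_eq_bot_iff s).mp h
        have hle := Nat.card_le_card_of_injective s hinj
        rw [hcard, Nat.card_eq_fintype_card, Fintype.card_units_int] at hle
        omega
      · have : (t' : G) ∈ s.ker := by rw [h]; exact Subgroup.mem_top _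
        rw [MonoidHom.mem_ker, hst] at this
        exact absurd this (by decide)

end Cfsg.Agent.S1014
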