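-- Statement S1015: no simple group of order 1200.
import Mathlib
import Cfsg.Statements.S1015
import Cfsg.Agent.S0985

set_option autoImplicit false
open Cfsg

namespace Cfsg.Agent.S1015

open Nat in
/-- In a finite simple group, the order divides the factorial of the index of any proper
subgroup. -/
theorem card_dvd_factorial_index {G : Type*} [Group G] [Finite G] [IsSimpleGroup G]
    (H : Subgroup G) (hH : H ≠ ⊤) : Nat.card G ∣ (H.index)! := by
  classical
  let f := MulAction.toPermHom G (G ⧸ H)
  have hker : f.ker = ⊥ := by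
    have h1 : H.normalCore = f.ker := Subgroup.normalCore_eq_ker H
    rcases (Subgroup.Normal.eq_bot_or_eq_top (inferInstance : f.ker.Normal)) with h | h
    · exact h
    · exfalso
      apply hH
      rw [eq_top_iff, ← h, ← h1]
      exact Subgroup.normalCore_le H
  have hinj : Function.Injective f := (MonoidHom.ker_eq_bot_iff f).mp hker
  have h2 := Subgroup.card_dvd_of_injective f hinj
  rw [Nat.card_perm] at h2
  exact h2

/-- No finite simple group has order 1200 = 2^4 * 3 * 5^2. -/
theorem result {G : Type*} [Group G] [Finite G] [IsSimpleGroup G] : Nat.card G ≠ 1200 := by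
  classical
  intro hcard
  have hfact : Fact (Nat.Prime 5) := ⟨Nat.prime_five⟩
  -- proper subgroups have index at least 9
  have key : ∀ H : Subgroup G, H ≠ ⊤ → 9 ≤ H.index := by
    intro H hH
    by_contra hlt
    have h1 := card_dvd_factorial_index H hH
    rw [hcard] at h1
    have h2 : H.index ≤ 8 := by omega
    have h3 : Nat.factorial H.index ∣ Nat.factorial 8 := Nat.factorial_dvd_factorial h2
    have h4 : 1200 ∣ Nat.factorial 8 := h1.trans h3
    revert h4
    decide
  -- normal subgroups are trivial
  have hnorm : ∀ H : Subgroup G, H.Normal → Nat.card H ≠ 1 → Nat.card H ≠ 1200 → False := by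
    intro H hH h1 h2
    rcases hH.eq_bot_or_eq_top with h | h
    · apply h1
      rw [h]
      exact Subgroup.card_bot
    · apply h2
      rw [h, Subgroup.card_top]
      exact hcard
  -- Sylow 5-subgroups have order 25
  have hP25 : ∀ P : Sylow 5 G, Nat.card (P : Subgroup G) = 25 := by
    intro P
    obtain ⟨n, hn⟩ := IsPGroup.iff_card.mp P.isPGroup'
    have hidx : ¬ 5 ∣ (P : Subgroup G).index := P.not_dvd_index
    have hmul := (P : Subgroup G).card_mul_index
    rw [hcard, hn] at hmul
    rw [hn]
    have hn4 : n < 5 := by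
      by_contra hge
      have h5 : 5 ^ 5 ≤ 5 ^ n := Nat.pow_le_pow_right (by norm_num) (by omega)
      have h6 : 5 ^ n ≤ 1200 := Nat.le_of_dvd (by norm_num) ⟨_, hmul.symm⟩
      omega
    interval_cases n
    · exfalso; apply hidx; omega
    · exfalso; apply hidx; omega
    · rfl
    · exfalso; omega
    · exfalso; omega
  obtain ⟨P₀⟩ := (inferInstance : Nonempty (Sylow 5 G))
  -- number of Sylow 5-subgroups
  have hn5 : Nat.card (Sylow 5 G) = 16 := by
    have h1 : Nat.card (Sylow 5 G) ∣ (P₀ : Subgroup G).index := Sylow.card_dvd_index P₀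
    have h2 : Nat.card (Sylow 5 G) ≡ 1 [MOD 5] := card_sylow_modEq_one 5 G
    have h3 : (P₀ : Subgroup G).index = 48 := by
      have := (P₀ : Subgroup G).card_mul_index
      rw [hP25 P₀, hcard] at this
      omega
    have h4 : Nat.card (Sylow 5 G) = (Subgroup.normalizer ((P₀ : Subgroup G) : Set G)).index :=
      Sylow.card_eq_index_normalizer P₀
    rw [h3] at h1
    have h5 : Nat.card (Sylow 5 G) ≤ 48 := Nat.le_of_dvd (by norm_num) h1
    have h6 : 9 ≤ Nat.card (Sylow 5 G) := by
      rw [h4]
      apply key
      intro htop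
      have hN : (P₀ : Subgroup G).Normal := Subgroup.normalizer_eq_top_iff.mp htop
      exact hnorm _ hN (by rw [hP25]; norm_num) (by rw [hP25]; norm_num)
    unfold Nat.ModEq at h2
    generalize Nat.card (Sylow 5 G) = n at *
    interval_cases n <;> first | rfl | (exfalso; revert h1 h2; decide)
  obtain ⟨P, R, hPR, hidx⟩ := Cfsg.Agent.S0985.result (G := G) 5 2 (by rw [hn5]; decide)
  -- D = P ⊓ R
  have hDcard : Nat.card ((P : Subgroup G) ⊓ (R : Subgroup G) : Subgroup G) *
      ((R : Subgroup G).subgroupOf (P : Subgroup G)).index = 25 := by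
    have h1 := Subgroup.relIndex_mul_relIndex (⊥ : Subgroup G)
      ((P : Subgroup G) ⊓ (R : Subgroup G)) (P : Subgroup G) bot_le inf_le_left
    rw [Subgroup.relIndex_bot_left, Subgroup.relIndex_bot_left, Subgroup.inf_relIndex_left,
      hP25 P] at h1
    exact h1
  set D : Subgroup G := (P : Subgroup G) ⊓ (R : Subgroup G) with hD
  have hD1 : Nat.card D ≠ 1 := by
    intro h1
    rw [h1] at hDcard
    norm_num at hidx
    omega
  have hD25 : Nat.card D ≤ 25 := Nat.le_of_dvd (by norm_num) ⟨_, hDcard.symm⟩
  -- P and R are abelian, hence normalize D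
  have hle : ∀ Q : Sylow 5 G, D ≤ (Q : Subgroup G) →
      (Q : Subgroup G) ≤ Subgroup.normalizer (D : Set G) := by
    intro Q hDQ
    refine le_trans ?_ (Subgroup.centralizer_le_normalizer (D : Set G))
    intro x hx
    rw [Subgroup.mem_centralizer_iff]
    intro d hd
    have hcomm := IsPGroup.isMulCommutative_of_card_eq_prime_sq (p := 5) (G := (Q : Subgroup G))
      (by rw [hP25 Q]; norm_num)
    exact congrArg Subtype.val (hcomm.is_comm.comm ⟨d, hDQ hd⟩ ⟨x, hx⟩)
  have hPM := hle P inf_le_left
  have hRM := hle R inf_le_right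
  set M : Subgroup G := Subgroup.normalizer (D : Set G) with hM
  have hMtop : M ≠ ⊤ := by
    intro htop
    have hN : D.Normal := Subgroup.normalizer_eq_top_iff.mp htop
    exact hnorm D hN hD1 (by omega)
  have h9 := key M hMtop
  -- Sylow 5-subgroups of M
  have hne : P.subtype hPM ≠ R.subtype hRM := fun h => hPR (Sylow.subtype_injective h)
  have hmod : Nat.card (Sylow 5 M) ≡ 1 [MOD 5] := card_sylow_modEq_one 5 M
  have hdvd : Nat.card (Sylow 5 M) ∣ Nat.card M := by
    rw [Sylow.card_eq_index_normalizer (P.subtype hPM)]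
    exact Subgroup.index_dvd_card _
  have h25 : 25 ∣ Nat.card M := by
    have := Subgroup.card_dvd_of_le hPM
    rwa [hP25 P] at this
  have hMcard := M.card_mul_index
  rw [hcard] at hMcard
  have hn1 : Nat.card (Sylow 5 M) ≠ 1 := by
    intro h1
    have := (Nat.card_eq_one_iff_unique.mp h1).1
    exact hne (Subsingleton.elim _ _)
  unfold Nat.ModEq at hmod
  generalize Nat.card (Sylow 5 M) = n at *
  have hcop : Nat.Coprime 25 n := by
    have h5 : Nat.Coprime 5 n := by
      rw [Nat.Prime.coprime_iff_not_dvd Nat.prime_five]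
      omega
    exact Nat.Coprime.pow_left 2 h5
  have h150 : 25 * n ∣ Nat.card M := Nat.Coprime.mul_dvd_of_dvd_of_dvd hcop h25 hdvd
  have hMpos : 0 < Nat.card M := Nat.card_pos
  have hle150 : 25 * n ≤ Nat.card M := Nat.le_of_dvd hMpos h150
  have hn6 : 6 ≤ n := by omega
  have hM150 : 150 ≤ Nat.card M := by omega
  nlinarith

end Cfsg.Agent.S1015
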