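import Cfsg.Statements.S1016
import Cfsg.Agent.Helper8.Ord1440

set_option autoImplicit false
set_option maxHeartbeats 1000000
set_option linter.style.haveILetI false
open Cfsg

namespace Cfsg.Agent.S1016

/-- No finite simple group has order 1440 = 2^5 * 3^2 * 5. -/
theorem result {G : Type*} [Group G] [Finite G] [IsSimpleGroup G] : Nat.card G ≠ 1440 := by
  intro h
  haveI : Fact (Nat.Prime 5) := ⟨by norm_num⟩
  have hP5 : ∀ P : Sylow 5 G, Nat.card (P : Subgroup G) = 5 := by
    intro P
    have := Cfsg.Agent.Helper9.OrdTools.sylow_card 1 288 (h.trans (by norm_num))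
      (by norm_num) P
    simpa using this
  obtain ⟨P⟩ : Nonempty (Sylow 5 G) := inferInstance
  have hP := hP5 P
  obtain ⟨hd, hm, hne, hN⟩ := Cfsg.Agent.Helper9.OrdTools.sylow_num P (by rw [hP]; norm_num)
    (by rw [hP, h]; norm_num)
  have hidxP : (P : Subgroup G).index = 288 := by
    have := (P : Subgroup G).card_mul_index
    rw [hP, h] at this
    omega
  rw [hidxP] at hd
  have hNall : ∀ Q : Sylow 5 G,
      Nat.card (Subgroup.normalizer ((Q : Subgroup G) : Set G)) * Nat.card (Sylow 5 G) = 1440 := by
    intro Q
    have := (Cfsg.Agent.Helper9.OrdTools.sylow_num Q (by rw [hP5 Q]; norm_num)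
      (by rw [hP5 Q, h]; norm_num)).2.2.2
    rw [h] at this
    exact this
  obtain ⟨e, he, he1, hNe, ⟨c, hc⟩⟩ :=
    Cfsg.Agent.Helper9.OrdTools.normalizer_centralizer_prime P hP (by rw [h]; norm_num)
  have he4 : e ≤ 4 := Nat.le_of_dvd (by norm_num) he
  rw [h] at hN
  rcases Cfsg.Agent.Helper8.Ord1440.arith_sylow _ hd hm with h1 | h1 | h1 | h1 | h1
  · exact hne h1
  · -- `n_5 = 6`: `G` embeds in `S_6`
    rw [h1] at hN
    have hN240 : Nat.card (Subgroup.normalizer ((P : Subgroup G) : Set G)) = 240 := by omega
    have hidx : (Subgroup.normalizer ((P : Subgroup G) : Set G)).index = 6 := by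
      have := (Subgroup.normalizer ((P : Subgroup G) : Set G)).card_mul_index
      rw [hN240, h] at this
      omega
    have htop : Subgroup.normalizer ((P : Subgroup G) : Set G) ≠ ⊤ := by
      intro hh
      rw [hh, Subgroup.card_top, h] at hN240
      omega
    have := Cfsg.Agent.Helper9.OrdTools.card_dvd_factorial_index _ htop
    rw [hidx, h] at this
    norm_num [Nat.factorial] at this
  · -- `n_5 = 16`
    rw [h1] at hN
    have hN90 : Nat.card (Subgroup.normalizer ((P : Subgroup G) : Set G)) = 90 := by omega
    have hec : e * c = 18 := by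
      rw [hc] at hNe
      rw [hNe] at hN90
      nlinarith
    have he2 : e = 2 := by
      interval_cases e <;> omega
    have hC45 : Nat.card (Subgroup.centralizer ((P : Subgroup G) : Set G)) = 45 := by
      rw [he2] at hNe
      omega
    exact Cfsg.Agent.Helper8.Ord1440.ord1440_sixteen h1 P hC45
  · -- `n_5 = 36`
    rw [h1] at hN
    have hN40 : Nat.card (Subgroup.normalizer ((P : Subgroup G) : Set G)) = 40 := by omega
    have hec : e * c = 8 := by
      rw [hc] at hNe
      rw [hNe] at hN40
      nlinarith
    have he24 : e = 2 ∨ e = 4 := by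
      interval_cases e <;> omega
    rcases he24 with he2 | he4'
    · have hC20 : Nat.card (Subgroup.centralizer ((P : Subgroup G) : Set G)) = 20 := by
        rw [he2] at hNe
        omega
      exact Cfsg.Agent.Helper8.Ord1440.ord1440_two h P hP hN40 hC20
    · have hC10 : Nat.card (Subgroup.centralizer ((P : Subgroup G) : Set G)) = 10 := by
        rw [he4'] at hNe
        omega
      refine Cfsg.Agent.Helper8.Ord1440.ord1440_four h h1 hP5 ?_ ?_
      · intro Q
        have := hNall Q
        rw [h1] at this
        omega
      · intro Q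
        rw [← Cfsg.Agent.Helper9.OrdTools.card_centralizer_sylow_eq P Q]
        exact hC10
  · -- `n_5 = 96`: `|N(P)| = 15`
    rw [h1] at hN
    have hN15 : Nat.card (Subgroup.normalizer ((P : Subgroup G) : Set G)) = 15 := by omega
    have hec : e * c = 3 := by
      rw [hc] at hNe
      rw [hNe] at hN15
      nlinarith
    interval_cases e <;> omega

end Cfsg.Agent.S1016
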