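import Cfsg.Statements.S1017
import Cfsg.Agent.Helper8.Ord2016

set_option autoImplicit false
set_option maxHeartbeats 1000000
set_option linter.style.haveILetI false
open Cfsg

namespace Cfsg.Agent.S1017

/-- No finite simple group has order 2016 = 2^5 * 3^2 * 7. -/
theorem result {G : Type*} [Group G] [Finite G] [IsSimpleGroup G] : Nat.card G ≠ 2016 := by
  intro h
  haveI : Fact (Nat.Prime 7) := ⟨by norm_num⟩
  obtain ⟨P⟩ : Nonempty (Sylow 7 G) := inferInstance
  have hP : Nat.card (P : Subgroup G) = 7 := by
    have := Cfsg.Agent.Helper9.OrdTools.sylow_card 1 288 (h.trans (by norm_num))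
      (by norm_num) P
    simpa using this
  obtain ⟨hd, hm, hne, hN⟩ := Cfsg.Agent.Helper9.OrdTools.sylow_num P (by rw [hP]; norm_num)
    (by rw [hP, h]; norm_num)
  have hidxP : (P : Subgroup G).index = 288 := by
    have := (P : Subgroup G).card_mul_index
    rw [hP, h] at this
    omega
  rw [hidxP] at hd
  obtain ⟨e, he, he1, hNe, ⟨c, hc⟩⟩ :=
    Cfsg.Agent.Helper9.OrdTools.normalizer_centralizer_prime P hP (by rw [h]; norm_num)
  have he6 : e ≤ 6 := Nat.le_of_dvd (by norm_num) he
  rw [h] at hN
  rcases Cfsg.Agent.Helper8.Ord2016.arith_sylow _ hd hm with h1 | h1 | h1 | h1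
  · exact hne h1
  · -- `n_7 = 8`: an involution centralizes `P`
    rw [h1] at hN
    have h2 : 2 ∣ Nat.card (Subgroup.centralizer ((P : Subgroup G) : Set G)) := by
      rw [hc] at hNe ⊢
      rw [hNe] at hN
      have hec : e * c = 36 := by nlinarith
      have h2c : 2 ∣ c := by
        interval_cases e <;> omega
      exact Dvd.dvd.mul_left h2c 7
    haveI : Fact (Nat.Prime 2) := ⟨Nat.prime_two⟩
    obtain ⟨x, hx⟩ := exists_prime_orderOf_dvd_card' 2 h2
    refine Cfsg.Agent.Helper8.Ord459.no_commuting_prime (p := 7) (q := 2) (by norm_num)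
      (by norm_num) P hP (x : G) x.2 ?_ ?_ ?_
    · rw [Subgroup.orderOf_coe]; exact hx
    · rw [h1]; norm_num
    · rw [h1]; norm_num
  · -- `n_7 = 36`
    rw [h1] at hN
    have hN56 : Nat.card (Subgroup.normalizer ((P : Subgroup G) : Set G)) = 56 := by omega
    have hec : e * c = 8 := by
      rw [hc] at hNe
      rw [hNe] at hN56
      nlinarith
    have he2 : e = 2 := by
      interval_cases e <;> omega
    have hC28 : Nat.card (Subgroup.centralizer ((P : Subgroup G) : Set G)) = 28 := by
      rw [he2] at hNe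
      omega
    exact Cfsg.Agent.Helper8.Ord2016.ord2016_case h P hP hN56 hC28
  · -- `n_7 = 288`: `N(P) = P`
    rw [h1] at hN
    have hN7 : Nat.card (Subgroup.normalizer ((P : Subgroup G) : Set G)) = 7 := by omega
    have hec : e * c = 1 := by
      rw [hc] at hNe
      rw [hNe] at hN7
      nlinarith
    have : e = 1 := Nat.eq_one_of_mul_eq_one_right hec
    omega

end Cfsg.Agent.S1017
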