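import Cfsg.Statements.S1018


set_option autoImplicit false
open Cfsg

namespace Cfsg.Agent.S1018

/-- Let P be a Sylow p-subgroup of order p of a finite group G, and consider the action of G on the left cosets of the normalizer N of P. Then every element of order p fixes exactly one coset, and an element of N that does not centralize P fixes at most as many cosets as there are orbits of P. -/
theorem result {G : Type*} [Group G] [Finite G] (p : ℕ) [Fact p.Prime] (P : Sylow p G) (hP : Nat.card ↥(P : Subgroup G) = p) : (∀ y : G, orderOf y = p → Nat.card (MulAction.fixedBy (G ⧸ Subgroup.normalizer ((P : Subgroup G) : Set G)) y) = 1) ∧ ∀ x : G, x ∈ Subgroup.normalizer ((P : Subgroup G) : Set G) → x ∉ Subgroup.centralizer ((P : Subgroup G) : Set G) → Nat.card (MulAction.fixedBy (G ⧸ Subgroup.normalizer ((P : Subgroup G) : Set G)) x) ≤ Nat.card (MulAction.orbitRel.Quotient ↥(P : Subgroup G) (G ⧸ Subgroup.normalizer ((P : Subgroup G) : Set G))) := by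
  classical
  have hp : p.Prime := Fact.out
  -- a generator of `P`
  have hgen : ∀ w ∈ (P : Subgroup G), w ≠ 1 → ∀ v ∈ (P : Subgroup G), v ∈ Subgroup.zpowers w := by
    intro w hw hw1 v hv
    have hord : orderOf (⟨w, hw⟩ : (P : Subgroup G)) = p := by
      have h1 : orderOf (⟨w, hw⟩ : (P : Subgroup G)) ∣ p := by
        have h0 := orderOf_dvd_natCard (⟨w, hw⟩ : (P : Subgroup G))
        rwa [hP] at h0
      rcases (Nat.dvd_prime hp).mp h1 with h | h
      · exfalso
        apply hw1
        have := orderOf_eq_one_iff.mp h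
        exact congrArg Subtype.val this
      · exact h
    have htop : Subgroup.zpowers (⟨w, hw⟩ : (P : Subgroup G)) = ⊤ := by
      apply Subgroup.eq_top_of_card_eq
      rw [Nat.card_zpowers, hord, hP]
    have hmem : (⟨v, hv⟩ : (P : Subgroup G)) ∈ Subgroup.zpowers (⟨w, hw⟩ : (P : Subgroup G)) := by
      rw [htop]
      exact Subgroup.mem_top _
    obtain ⟨k, hk⟩ := Subgroup.mem_zpowers_iff.mp hmem
    refine Subgroup.mem_zpowers_iff.mpr ⟨k, ?_⟩
    have := congrArg Subtype.val hk
    simpa using this
  -- a `p`-element of the normaliser lies in `P`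
  have hA : ∀ w : G, w ∈ Subgroup.normalizer ((P : Subgroup G) : Set G) → w ^ p = 1 →
      w ∈ (P : Subgroup G) := by
    intro w hw hwp
    have h1 : IsPGroup p (Subgroup.zpowers w) := by
      intro z
      refine ⟨1, ?_⟩
      obtain ⟨z, hz⟩ := z
      obtain ⟨k, rfl⟩ := Subgroup.mem_zpowers_iff.mp hz
      apply Subtype.ext
      simp only [pow_one, Subgroup.coe_pow, Subgroup.coe_one]
      rw [← zpow_natCast, ← zpow_mul, mul_comm, zpow_mul, zpow_natCast, hwp, one_zpow]
    have h2 : Subgroup.zpowers w ≤ Subgroup.normalizer ((P : Subgroup G) : Set G) := by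
      rw [Subgroup.zpowers_le]
      exact hw
    have h3 := h1.to_sup_of_normal_right' P.isPGroup' h2
    have h4 := P.is_maximal' h3 le_sup_right
    have h5 : w ∈ Subgroup.zpowers w ⊔ (P : Subgroup G) :=
      (le_sup_left : Subgroup.zpowers w ≤ _) (Subgroup.mem_zpowers w)
    rw [h4] at h5
    exact h5
  -- if a generator is conjugated into `P`, the conjugating element normalises `P`
  have hB : ∀ (g w : G), w ∈ (P : Subgroup G) → w ≠ 1 → g * w * g⁻¹ ∈ (P : Subgroup G) →
      g ∈ Subgroup.normalizer ((P : Subgroup G) : Set G) := by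
    intro g w hw hw1 hgw
    apply Subgroup.mem_normalizer_fintype
    intro v hv
    obtain ⟨k, rfl⟩ := Subgroup.mem_zpowers_iff.mp (hgen w hw hw1 v hv)
    have : g * w ^ k * g⁻¹ = (g * w * g⁻¹) ^ k := by
      rw [conj_zpow]
    rw [this]
    exact (P : Subgroup G).zpow_mem hgw k
  constructor
  · intro y hy
    have hyp : y ^ p = 1 := by rw [← hy]; exact pow_orderOf_eq_one y
    have hy1 : y ≠ 1 := by
      intro h
      rw [h, orderOf_one] at hy
      exact hp.one_lt.ne hy
    -- existence
    have hex : ∃ g : G, g⁻¹ * y * g ∈ (P : Subgroup G) := by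
      have h1 : IsPGroup p (Subgroup.zpowers y) := by
        apply IsPGroup.of_card (n := 1)
        rw [Nat.card_zpowers, hy, pow_one]
      obtain ⟨Q, hQ⟩ := h1.exists_le_sylow
      obtain ⟨g, hg⟩ := MulAction.exists_smul_eq G P Q
      refine ⟨g, ?_⟩
      have h2 : y ∈ (Q : Subgroup G) := hQ (Subgroup.mem_zpowers y)
      rw [← hg, Sylow.coe_subgroup_smul, Subgroup.mem_pointwise_smul_iff_inv_smul_mem] at h2
      simpa [MulAut.smul_def] using h2
    obtain ⟨g₀, hg₀⟩ := hex
    have hfix : MulAction.fixedBy (G ⧸ Subgroup.normalizer ((P : Subgroup G) : Set G)) y =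
        {(g₀ : G ⧸ Subgroup.normalizer ((P : Subgroup G) : Set G))} := by
      ext q
      induction q using QuotientGroup.induction_on with
      | H g =>
        rw [MulAction.mem_fixedBy, Set.mem_singleton_iff, MulAction.Quotient.smul_mk,
          QuotientGroup.eq, QuotientGroup.eq]
        have e1 : (y • g)⁻¹ * g = g⁻¹ * y⁻¹ * g := by
          rw [smul_eq_mul]
          group
        rw [e1]
        constructor
        · intro h
          -- g⁻¹ y g ∈ N hence in P
          have h1 : g⁻¹ * y * g ∈ Subgroup.normalizer ((P : Subgroup G) : Set G) := by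
            have := Subgroup.inv_mem _ h
            have e2 : (g⁻¹ * y⁻¹ * g)⁻¹ = g⁻¹ * y * g := by group
            rwa [e2] at this
          have h2 : g⁻¹ * y * g ∈ (P : Subgroup G) := by
            apply hA _ h1
            have e3 : (g⁻¹ * y * g) ^ p = g⁻¹ * y ^ p * g := by
              have := conj_pow (a := g⁻¹) (b := y) (i := p)
              rw [inv_inv] at this
              exact this
            rw [e3, hyp]
            group
          -- g⁻¹ g₀ conjugates a generator of P into P
          have h3 : g₀⁻¹ * y * g₀ ≠ 1 := by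
            intro h'
            apply hy1
            have : y = g₀ * (g₀⁻¹ * y * g₀) * g₀⁻¹ := by group
            rw [this, h']
            group
          have h4 : (g⁻¹ * g₀) * (g₀⁻¹ * y * g₀) * (g⁻¹ * g₀)⁻¹ = g⁻¹ * y * g := by group
          exact hB (g⁻¹ * g₀) (g₀⁻¹ * y * g₀) hg₀ h3 (by rw [h4]; exact h2)
        · intro h
          have h1 : g⁻¹ * y * g ∈ (P : Subgroup G) := by
            have h2 := (Subgroup.mem_normalizer_iff.mp h (g₀⁻¹ * y * g₀)).mp hg₀
            have h4 : (g⁻¹ * g₀) * (g₀⁻¹ * y * g₀) * (g⁻¹ * g₀)⁻¹ = g⁻¹ * y * g := by group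
            rwa [h4] at h2
          have h5 := Subgroup.le_normalizer (Subgroup.inv_mem _ h1)
          have e2 : (g⁻¹ * y * g)⁻¹ = g⁻¹ * y⁻¹ * g := by group
          rwa [e2] at h5
    rw [hfix]
    simp
  · intro x hxN hxC
    apply Nat.card_le_card_of_injective
      (fun q : MulAction.fixedBy (G ⧸ Subgroup.normalizer ((P : Subgroup G) : Set G)) x =>
        (Quotient.mk'' (q : G ⧸ Subgroup.normalizer ((P : Subgroup G) : Set G)) :
          MulAction.orbitRel.Quotient ↥(P : Subgroup G)
            (G ⧸ Subgroup.normalizer ((P : Subgroup G) : Set G))))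
    rintro ⟨q₁, hq₁⟩ ⟨q₂, hq₂⟩ hq
    apply Subtype.ext
    change q₁ = q₂
    have hrel : q₁ ∈ MulAction.orbit ↥(P : Subgroup G) q₂ := Quotient.exact' hq
    obtain ⟨u, hu⟩ := hrel
    by_contra hne
    induction q₂ using QuotientGroup.induction_on with
    | H g =>
      have hu' : q₁ = ((u : G) * g : G) := by
        rw [← hu]
        rfl
      subst hu'
      rw [MulAction.mem_fixedBy, MulAction.Quotient.smul_mk, QuotientGroup.eq] at hq₁ hq₂
      have e1 : (x • g)⁻¹ * g = g⁻¹ * x⁻¹ * g := by
        rw [smul_eq_mul]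
        group
      have e2 : (x • ((u : G) * g))⁻¹ * ((u : G) * g) = g⁻¹ * (u : G)⁻¹ * x⁻¹ * (u : G) * g := by
        rw [smul_eq_mul]
        group
      rw [e1] at hq₂
      rw [e2] at hq₁
      -- w = x⁻¹ u⁻¹ x u ∈ P
      set w : G := x⁻¹ * (u : G)⁻¹ * x * (u : G) with hw
      have hwP : w ∈ (P : Subgroup G) := by
        have h1 : x⁻¹ * (u : G)⁻¹ * x⁻¹⁻¹ ∈ (P : Subgroup G) :=
          (Subgroup.mem_normalizer_iff.mp (Subgroup.inv_mem _ hxN) _).mp
            ((P : Subgroup G).inv_mem u.2)
        rw [inv_inv] at h1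
        exact (P : Subgroup G).mul_mem h1 u.2
      have hwN : g⁻¹ * w * g ∈ Subgroup.normalizer ((P : Subgroup G) : Set G) := by
        have h1 := Subgroup.mul_mem _ (Subgroup.inv_mem _ hq₂) hq₁
        have e3 : (g⁻¹ * x⁻¹ * g)⁻¹ * (g⁻¹ * (u : G)⁻¹ * x⁻¹ * (u : G) * g) =
            g⁻¹ * (x * (u : G)⁻¹ * x⁻¹ * (u : G)) * g := by group
        rw [e3] at h1
        -- this is the conjugate of x u⁻¹ x⁻¹ u; we want x⁻¹ u⁻¹ x u: use x-conjugation inside N
        have h2 : g⁻¹ * x⁻¹ * g ∈ Subgroup.normalizer ((P : Subgroup G) : Set G) := hq₂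
        have h3 := Subgroup.mul_mem _ (Subgroup.mul_mem _ h2 h1) (Subgroup.inv_mem _ h2)
        have e4 : g⁻¹ * x⁻¹ * g * (g⁻¹ * (x * (u : G)⁻¹ * x⁻¹ * (u : G)) * g) * (g⁻¹ * x⁻¹ * g)⁻¹ =
            g⁻¹ * ((u : G)⁻¹ * x⁻¹ * (u : G) * x) * g := by group
        rw [e4] at h3
        have h4 := Subgroup.inv_mem _ h3
        have e5 : (g⁻¹ * ((u : G)⁻¹ * x⁻¹ * (u : G) * x) * g)⁻¹ = g⁻¹ * w * g := by
          rw [hw]
          group
        rwa [e5] at h4
      by_cases hw1 : w = 1
      · -- x commutes with u, so with P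
        have hu1 : (u : G) ≠ 1 := by
          intro h
          apply hne
          rw [h, one_mul]
        apply hxC
        rw [Subgroup.mem_centralizer_iff]
        intro v hv
        obtain ⟨k, rfl⟩ := Subgroup.mem_zpowers_iff.mp (hgen (u : G) u.2 hu1 v hv)
        have hcomm : Commute x (u : G) := by
          have : x * (u : G) = (u : G) * x := by
            have h1 : x⁻¹ * (u : G)⁻¹ * x * (u : G) = 1 := hw1
            have : (u : G) * x * (x⁻¹ * (u : G)⁻¹ * x * (u : G)) = x * (u : G) := by group
            rw [← this, h1, mul_one]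
          exact this
        exact (hcomm.zpow_right k).eq.symm
      · -- g⁻¹ w g ∈ P, so g⁻¹ ∈ N
        have h1 : g⁻¹ * w * g ∈ (P : Subgroup G) := by
          apply hA _ hwN
          have e3 : (g⁻¹ * w * g) ^ p = g⁻¹ * w ^ p * g := by
            have := conj_pow (a := g⁻¹) (b := w) (i := p)
            rw [inv_inv] at this
            exact this
          have hwp : w ^ p = 1 := by
            have h2 : (⟨w, hwP⟩ : (P : Subgroup G)) ^ p = 1 := by
              have h0 := pow_card_eq_one' (x := (⟨w, hwP⟩ : (P : Subgroup G)))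
              rwa [hP] at h0
            exact congrArg Subtype.val h2
          rw [e3, hwp]
          group
        have h2 : g⁻¹ ∈ Subgroup.normalizer ((P : Subgroup G) : Set G) :=
          hB g⁻¹ w hwP hw1 (by rwa [inv_inv])
        have h3 : g ∈ Subgroup.normalizer ((P : Subgroup G) : Set G) := by
          have := Subgroup.inv_mem _ h2
          rwa [inv_inv] at this
        apply hne
        rw [QuotientGroup.eq]
        have h4 : ((u : G) * g)⁻¹ * g = g⁻¹ * (u : G)⁻¹ * g := by group
        rw [h4]
        exact Subgroup.mul_mem _ (Subgroup.mul_mem _ h2 (Subgroup.le_normalizer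
          ((P : Subgroup G).inv_mem u.2))) h3

end Cfsg.Agent.S1018
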