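import Cfsg.Statements.S1022
import Cfsg.Agent.Helper9.BrauerP
import Cfsg.Agent.Helper8.Ord459C

set_option autoImplicit false
set_option maxHeartbeats 1000000
set_option linter.style.haveILetI false
open Cfsg

namespace Cfsg.Agent.S1022

/-- No finite simple group has order 459648 = 2^7 * 3^3 * 7 * 19. -/
theorem result {G : Type*} [Group G] [Finite G] [IsSimpleGroup G] : Nat.card G ≠ 459648 := by
  intro h
  haveI : Fact (Nat.Prime 19) := ⟨by norm_num⟩
  obtain ⟨P⟩ : Nonempty (Sylow 19 G) := inferInstance
  have hP : Nat.card (P : Subgroup G) = 19 := by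
    have := Cfsg.Agent.Helper9.OrdTools.sylow_card 1 24192 (h.trans (by norm_num))
      (by norm_num) P
    simpa using this
  obtain ⟨hd, hm, hne, hN⟩ := Cfsg.Agent.Helper9.OrdTools.sylow_num P (by rw [hP]; norm_num)
    (by rw [hP, h]; norm_num)
  have hidxP : (P : Subgroup G).index = 24192 := by
    have := (P : Subgroup G).card_mul_index
    rw [hP, h] at this
    omega
  rw [hidxP] at hd
  obtain ⟨e, he, he1, hNe, ⟨c, hc⟩⟩ :=
    Cfsg.Agent.Helper9.OrdTools.normalizer_centralizer_prime P hP (by rw [h]; norm_num)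
  have he18 : e ≤ 18 := Nat.le_of_dvd (by norm_num) he
  rw [h] at hN
  rcases Cfsg.Agent.Helper8.Ord459.arith_sylow _ hd hm with h1 | h1 | h1
  · exact hne h1
  · -- `n_19 = 96`: an element of order 7 centralizes `P`
    rw [h1] at hN
    have h7 : 7 ∣ Nat.card (Subgroup.centralizer ((P : Subgroup G) : Set G)) := by
      rw [hc] at hNe ⊢
      rw [hNe] at hN
      have hec : e * c = 252 := by nlinarith
      have h7c : 7 ∣ c := by
        interval_cases e <;> omega
      exact Dvd.dvd.mul_left h7c 19
    haveI : Fact (Nat.Prime 7) := ⟨by norm_num⟩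
    obtain ⟨x, hx⟩ := exists_prime_orderOf_dvd_card' 7 h7
    refine Cfsg.Agent.Helper8.Ord459.no_commuting_prime (p := 19) (q := 7) (by norm_num)
      (by norm_num) P hP (x : G) x.2 ?_ ?_ ?_
    · rw [Subgroup.orderOf_coe]; exact hx
    · rw [h1]; norm_num
    · rw [h1]; norm_num
  · -- `n_19 = 1008`
    rw [h1] at hN
    have hN456 : Nat.card (Subgroup.normalizer ((P : Subgroup G) : Set G)) = 456 := by omega
    have hec : e * c = 24 := by
      rw [hc] at hNe
      rw [hNe] at hN456
      nlinarith
    have hecases : e = 2 ∨ e = 3 ∨ e = 6 := by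
      interval_cases e <;> omega
    rcases hecases with he2 | he3 | he6
    · -- Brauer, `e = 2`
      rw [he2] at hNe
      obtain ⟨f, D, hf2, hfd, hD2, hDd, hsq, hcases⟩ :=
        Cfsg.Agent.Helper9.BrauerP.brauer_two P hP (by rw [h]; norm_num) (by norm_num) hNe
      rw [h] at hfd hDd hsq
      norm_num at hsq
      have hf677 : f ≤ 677 := by nlinarith
      rcases hcases with ⟨h3, h4⟩ | ⟨h3, h4⟩
      · have hf := Cfsg.Agent.Helper8.Ord459.arith_deg1 f hf677 hf2 hfd h3
        subst hf
        exact Cfsg.Agent.Helper8.Ord459.not_dvd_list D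
          (by simp only [List.mem_cons, List.mem_nil_iff, or_false]; omega) hDd
      · have hf := Cfsg.Agent.Helper8.Ord459.arith_degm f hf677 hf2 hfd h3
        rcases hf with rfl | rfl | rfl <;>
          exact Cfsg.Agent.Helper8.Ord459.not_dvd_list D
            (by simp only [List.mem_cons, List.mem_nil_iff, or_false]; omega) hDd
    · -- Brauer, `e = 3`
      rw [he3] at hNe
      obtain ⟨f₂, f₃, D, hf2, hfd, hg2, hgd, hD2, hDd, hsq, hcases⟩ :=
        Cfsg.Agent.Helper9.BrauerP.brauer_three P hP (by rw [h]; norm_num) (by norm_num) hNe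
      rw [h] at hfd hgd hDd hsq
      norm_num at hsq
      have hf677 : f₂ ≤ 677 := by nlinarith
      have hg677 : f₃ ≤ 677 := by nlinarith
      rcases hcases with ⟨h3, h4, h5⟩ | ⟨h3, h4, h5⟩ | ⟨h3, h4, h5⟩ | ⟨h3, h4, h5⟩
      · have hf := Cfsg.Agent.Helper8.Ord459.arith_deg1 f₂ hf677 hf2 hfd h3
        have hg := Cfsg.Agent.Helper8.Ord459.arith_deg1 f₃ hg677 hg2 hgd h4
        subst hf hg
        exact Cfsg.Agent.Helper8.Ord459.not_dvd_list D
          (by simp only [List.mem_cons, List.mem_nil_iff, or_false]; omega) hDd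
      · have hf := Cfsg.Agent.Helper8.Ord459.arith_deg1 f₂ hf677 hf2 hfd h3
        have hg := Cfsg.Agent.Helper8.Ord459.arith_degm f₃ hg677 hg2 hgd h4
        subst hf
        rcases hg with rfl | rfl | rfl <;> rcases h5 with h5 | h5 <;>
          exact Cfsg.Agent.Helper8.Ord459.not_dvd_list D
            (by simp only [List.mem_cons, List.mem_nil_iff, or_false]; omega) hDd
      · have hf := Cfsg.Agent.Helper8.Ord459.arith_degm f₂ hf677 hf2 hfd h3
        have hg := Cfsg.Agent.Helper8.Ord459.arith_deg1 f₃ hg677 hg2 hgd h4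
        subst hg
        rcases hf with rfl | rfl | rfl <;> rcases h5 with h5 | h5 <;>
          exact Cfsg.Agent.Helper8.Ord459.not_dvd_list D
            (by simp only [List.mem_cons, List.mem_nil_iff, or_false]; omega) hDd
      · have hf := Cfsg.Agent.Helper8.Ord459.arith_degm f₂ hf677 hf2 hfd h3
        have hg := Cfsg.Agent.Helper8.Ord459.arith_degm f₃ hg677 hg2 hgd h4
        rcases hf with rfl | rfl | rfl <;> rcases hg with rfl | rfl | rfl <;>
          exact Cfsg.Agent.Helper8.Ord459.not_dvd_list D
            (by simp only [List.mem_cons, List.mem_nil_iff, or_false]; omega) hDd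
    · -- `e = 6`: the `2`-local argument
      have hC76 : Nat.card (Subgroup.centralizer ((P : Subgroup G) : Set G)) = 76 := by
        rw [he6] at hNe
        omega
      exact Cfsg.Agent.Helper8.Ord459.ord459_six h P hP hN456 hC76

end Cfsg.Agent.S1022
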