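import Cfsg.Statements.S1030
import Cfsg.Agent.Helper17.ChevSL2Hom
import Cfsg.Agent.Helper17.ChevH

set_option autoImplicit false
open Cfsg

namespace Cfsg.Agent.S1030

/-- There is a homomorphism `SL₂(F) → GL` with image `⟨X_r, X_{-r}⟩` sending `[[1,t],[0,1]]` to `x_r(t)` and `[[1,0],[t,1]]` to `x_{-r}(t)`. -/
theorem result {F : Type*} [Field F] (D : Cfsg.Lie.ChevalleyDatum) (hD : D ∈ [Cfsg.Lie.chevG2, Cfsg.Lie.chevB2, Cfsg.Lie.chevD4, Cfsg.Lie.chevF4, Cfsg.Lie.chevE6, Cfsg.Lie.chevE7, Cfsg.Lie.chevE8]) (r : ℕ) (hr : r < D.nroots) :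
    ∃ φ : Matrix.SpecialLinearGroup (Fin 2) F →* GL D.Idx F,
      φ.range = D.rootSubgroup F r ⊔ D.rootSubgroup F (D.neg r) ∧
      ∀ (g : Matrix.SpecialLinearGroup (Fin 2) F) (t : F),
        ((g : Matrix (Fin 2) (Fin 2) F) = !![1, t; 0, 1] → ((φ g : GL D.Idx F) : Matrix D.Idx D.Idx F) = D.x F r t) ∧
        ((g : Matrix (Fin 2) (Fin 2) F) = !![1, 0; t, 1] → ((φ g : GL D.Idx F) : Matrix D.Idx D.Idx F) = D.x F (D.neg r) t) := by
  classical
  have hC := Cfsg.Agent.Helper17.cartanFacts_of_mem hD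
  have hRr := Cfsg.Agent.Helper17.rankOne_of_mem hD hr
  have hRm := Cfsg.Agent.Helper17.rankOne_of_mem hD hRr.neg_lt
  have hnn : D.neg (D.neg r) = r := hRr.neg_neg
  have hne : r ≠ D.neg r := fun h => hRr.neg_ne h.symm
  obtain ⟨φ, hφ⟩ := Cfsg.Agent.Helper17.exists_sl2Hom (F := F) hRm hC
  -- the two families of elementary matrices
  have hL : ∀ (g : Matrix.SpecialLinearGroup (Fin 2) F) (t : F),
      (g : Matrix (Fin 2) (Fin 2) F) = !![1, t; 0, 1] →
        ((φ g : GL D.Idx F) : Matrix D.Idx D.Idx F) = D.x F r t := by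
    intro g t hg
    have h1 := hφ g [(r, t)] (by intro p hp; simp only [List.mem_singleton] at hp; rw [hp, hnn]; exact Or.inr rfl)
      (by
        unfold Cfsg.Agent.Helper17.sl2Word
        simp only [List.map_cons, List.map_nil, List.prod_cons, List.prod_nil, if_neg hne, mul_one]
        rw [hg]; rfl)
    rw [h1]
    unfold Cfsg.Lie.ChevalleyDatum.wordMat
    simp
  have hU : ∀ (g : Matrix.SpecialLinearGroup (Fin 2) F) (t : F),
      (g : Matrix (Fin 2) (Fin 2) F) = !![1, 0; t, 1] →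
        ((φ g : GL D.Idx F) : Matrix D.Idx D.Idx F) = D.x F (D.neg r) t := by
    intro g t hg
    have h1 := hφ g [(D.neg r, t)] (by intro p hp; simp only [List.mem_singleton] at hp; rw [hp]; exact Or.inl rfl)
      (by
        unfold Cfsg.Agent.Helper17.sl2Word
        simp only [List.map_cons, List.map_nil, List.prod_cons, List.prod_nil, if_true, mul_one]
        rw [hg]; rfl)
    rw [h1]
    unfold Cfsg.Lie.ChevalleyDatum.wordMat
    simp
  let eL : F → Matrix.SpecialLinearGroup (Fin 2) F := fun t =>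
    ⟨!![1, t; 0, 1], by simp [Matrix.det_fin_two]⟩
  let eU : F → Matrix.SpecialLinearGroup (Fin 2) F := fun t =>
    ⟨!![1, 0; t, 1], by simp [Matrix.det_fin_two]⟩
  refine ⟨φ, ?_, fun g t => ⟨hL g t, hU g t⟩⟩
  apply le_antisymm
  · -- every word lies in the join of the two root subgroups
    have key : ∀ (w : List (ℕ × F)), (∀ p ∈ w, p.1 = D.neg r ∨ p.1 = D.neg (D.neg r)) →
        ∀ x : GL D.Idx F, (x : Matrix D.Idx D.Idx F) = D.wordMat F w →
          x ∈ D.rootSubgroup F r ⊔ D.rootSubgroup F (D.neg r) := by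
      intro w
      induction w with
      | nil =>
        intro _ x hx
        have : x = 1 := by
          apply Units.ext
          rw [hx]; unfold Cfsg.Lie.ChevalleyDatum.wordMat; simp
        rw [this]; exact one_mem _
      | cons p w ih =>
        intro hw x hx
        have hx' : (x : Matrix D.Idx D.Idx F) = D.x F p.1 p.2 * D.wordMat F w := by
          rw [hx]; unfold Cfsg.Lie.ChevalleyDatum.wordMat; rw [List.map_cons, List.prod_cons]
        obtain ⟨y, hy, hymem⟩ : ∃ y : GL D.Idx F, (y : Matrix D.Idx D.Idx F) = D.x F p.1 p.2 ∧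
            y ∈ D.rootSubgroup F r ⊔ D.rootSubgroup F (D.neg r) := by
          rcases hw p List.mem_cons_self with hp | hp
          · refine ⟨φ (eU p.2), ?_, ?_⟩
            · rw [hp]; exact hU (eU p.2) p.2 rfl
            · exact Subgroup.mem_sup_right (Subgroup.subset_closure ⟨p.2, hU (eU p.2) p.2 rfl⟩)
          · refine ⟨φ (eL p.2), ?_, ?_⟩
            · rw [hp, hnn]; exact hL (eL p.2) p.2 rfl
            · exact Subgroup.mem_sup_left (Subgroup.subset_closure ⟨p.2, hL (eL p.2) p.2 rfl⟩)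
        have h2 : x = y * (y⁻¹ * x) := by group
        rw [h2]
        refine mul_mem hymem (ih (fun q hq => hw q (List.mem_cons_of_mem _ hq)) (y⁻¹ * x) ?_)
        have h3 : ((y⁻¹ * x : GL D.Idx F) : Matrix D.Idx D.Idx F) =
            ((y⁻¹ : GL D.Idx F) : Matrix D.Idx D.Idx F) * ((y : Matrix D.Idx D.Idx F) * D.wordMat F w) := by
          rw [Units.val_mul, hx', hy]
        rw [h3, ← Matrix.mul_assoc, ← Units.val_mul, inv_mul_cancel, Units.val_one, Matrix.one_mul]
    rintro x ⟨g, rfl⟩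
    obtain ⟨w, hw, hwg⟩ := Cfsg.Agent.Helper17.exists_sl2Word (m := D.neg r) (m' := D.neg (D.neg r))
      hRm.neg_ne (g : Matrix (Fin 2) (Fin 2) F) g.2
    exact key w hw (φ g) (hφ g w hw hwg)
  · apply sup_le
    · unfold Cfsg.Lie.ChevalleyDatum.rootSubgroup
      rw [Subgroup.closure_le]
      rintro x ⟨t, hx⟩
      have : x = φ (eL t) := Units.ext (by rw [hx]; exact (hL (eL t) t rfl).symm)
      rw [this]; exact ⟨eL t, rfl⟩
    · unfold Cfsg.Lie.ChevalleyDatum.rootSubgroup
      rw [Subgroup.closure_le]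
      rintro x ⟨t, hx⟩
      have : x = φ (eU t) := Units.ext (by rw [hx]; exact (hU (eU t) t rfl).symm)
      rw [this]; exact ⟨eU t, rfl⟩

end Cfsg.Agent.S1030
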