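import Cfsg.Statements.S1052
import Cfsg.Agent.Helper17.ChevPerfect
import Cfsg.Agent.Helper17.ChevUniMem
import Cfsg.Agent.S1025

set_option autoImplicit false
open Cfsg

namespace Cfsg.Agent.S1052

open Cfsg.Lie Cfsg.Agent.Helper17
open scoped commutatorElement

theorem gen_of_clean {F : Type*} [Field F] {D : ChevalleyDatum}
    (hD : D ∈ [chevG2, chevB2, chevD4, chevF4, chevE6, chevE7, chevE8]) {cert : List (ℕ × ℕ × ℤ)}
    (h : cleanOK D cert = true) :
    ∀ k, k < D.nroots → ∀ t0 : F, ∃ a b : GL D.Idx F, a ∈ D.group F ∧ b ∈ D.group F ∧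
      ((⁅a, b⁆ : GL D.Idx F) : Matrix D.Idx D.Idx F) = D.x F k t0 := by
  intro k hk t0
  obtain ⟨r, s, c, hr, hs, hsr, hsn, hct, hc⟩ := cleanOK_spec h hk
  have hc' : ((c : ℤ) : F) ≠ 0 := by
    rcases hc with rfl | rfl <;> simp
  exact x_comm_of_clean (rootElts_of_mem hD) hr hs hct hc'
    (fun t u => Cfsg.Agent.S1025.result D hD r s hr hs hsr hsn t u) t0

theorem gen_of_pairing_one {F : Type*} [Field F] {D : ChevalleyDatum}
    (hD : D ∈ [chevG2, chevB2, chevD4, chevF4, chevE6, chevE7, chevE8]) {a : F} (ha0 : a ≠ 0) (ha1 : a ≠ 1)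
    {k s : ℕ} (hk : k < D.nroots) (hs : s < D.nroots) (hp : D.pairing s k = 1 ∨ D.pairing s k = -1) (t0 : F) :
    ∃ a b : GL D.Idx F, a ∈ D.group F ∧ b ∈ D.group F ∧
      ((⁅a, b⁆ : GL D.Idx F) : Matrix D.Idx D.Idx F) = D.x F k t0 := by
  refine x_comm_of_pairing (torusFacts_of_mem hD) (hDiag_of_mem hD) (rootElts_of_mem hD) (wtFacts_of_mem hD)
    hk hs ha0 ?_ t0
  rcases hp with hp | hp <;> rw [hp]
  · rw [zpow_one]; exact ha1
  · rw [zpow_neg_one]; exact fun h => ha1 (inv_eq_one.mp h)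


/-- `G = G'` for every type G₂, B₂, D₄, F₄, E₆, E₇, E₈ over every field, except G₂ and B₂ over the field with two elements. -/
theorem result {F : Type*} [Field F] (D : Cfsg.Lie.ChevalleyDatum) (hD : D ∈ [Cfsg.Lie.chevG2, Cfsg.Lie.chevB2, Cfsg.Lie.chevD4, Cfsg.Lie.chevF4, Cfsg.Lie.chevE6, Cfsg.Lie.chevE7, Cfsg.Lie.chevE8]) (h2 : D = Cfsg.Lie.chevG2 ∨ D = Cfsg.Lie.chevB2 → ∃ a : F, a ≠ 0 ∧ a ≠ 1) :
    commutator ↥(D.group F) = ⊤ := by
  apply commutator_eq_top
  have hD' := hD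
  simp only [List.mem_cons, List.not_mem_nil, or_false] at hD'
  rcases hD' with rfl | rfl | rfl | rfl | rfl | rfl | rfl
  · obtain ⟨a, ha0, ha1⟩ := h2 (Or.inl rfl)
    intro k hk t0
    obtain ⟨s, hs, hp⟩ := pairOK_G2 k hk
    exact gen_of_pairing_one hD ha0 ha1 hk hs hp t0
  · obtain ⟨a, ha0, ha1⟩ := h2 (Or.inr rfl)
    intro k hk t0
    rcases pairOK_B2 k hk with ⟨s, hs, hp⟩ | ⟨⟨r, hr, s, hs, hcl⟩, ⟨s', hs', hp⟩⟩
    · exact gen_of_pairing_one hD ha0 ha1 hk hs hp t0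
    · by_cases h20 : (2 : F) = 0
      · refine x_comm_of_pairing (torusFacts_of_mem hD) (hDiag_of_mem hD) (rootElts_of_mem hD)
          (wtFacts_of_mem hD) hk hs' ha0 ?_ t0
        have ha2 : a ^ 2 ≠ 1 := by
          intro h
          have e : (a - 1) ^ 2 = a ^ 2 - 2 * a + 1 := by ring
          have e2 : (a - 1) ^ 2 = 0 := by
            rw [e, h, h20]; ring_nf; exact h20
          exact ha1 (sub_eq_zero.mp ((pow_eq_zero_iff (two_ne_zero)).mp e2))
        rcases hp with hp | hp <;> rw [hp]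
        · rw [show (2 : ℤ) = ((2 : ℕ) : ℤ) from rfl, zpow_natCast]; exact ha2
        · rw [zpow_neg, show (2 : ℤ) = ((2 : ℕ) : ℤ) from rfl, zpow_natCast]
          exact fun h => ha2 (inv_eq_one.mp h)
      · rcases hcl with hcl | hcl
        · obtain ⟨_, _, hsr, hsn, hct⟩ := cleanAt_spec hcl
          exact x_comm_of_clean (rootElts_of_mem hD) hr hs hct (by push_cast; exact h20)
            (fun t u => Cfsg.Agent.S1025.result chevB2 hD r s hr hs hsr hsn t u) t0
        · obtain ⟨_, _, hsr, hsn, hct⟩ := cleanAt_spec hcl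
          exact x_comm_of_clean (rootElts_of_mem hD) hr hs hct
            (by push_cast; exact neg_ne_zero.mpr h20)
            (fun t u => Cfsg.Agent.S1025.result chevB2 hD r s hr hs hsr hsn t u) t0
  · exact gen_of_clean hD cleanOK_D4
  · exact gen_of_clean hD cleanOK_F4
  · exact gen_of_clean hD cleanOK_E6
  · exact gen_of_clean hD cleanOK_E7
  · exact gen_of_clean hD cleanOK_E8

end Cfsg.Agent.S1052
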