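import Cfsg.Statements.S1054
import Cfsg.Agent.Helper17.ChevSimple
import Cfsg.Agent.Helper36.ChevRelAll
import Cfsg.Agent.S1050
import Cfsg.Agent.S1051
import Cfsg.Agent.S1052

set_option autoImplicit false
open Cfsg

namespace Cfsg.Agent.S1054

/-- The Chevalley groups of types D₄, F₄, E₆, E₇, E₈ are simple over every field. -/
theorem result {F : Type*} [Field F] (D : Cfsg.Lie.ChevalleyDatum)
    (hD : D ∈ [Cfsg.Lie.chevD4, Cfsg.Lie.chevF4, Cfsg.Lie.chevE6, Cfsg.Lie.chevE7, Cfsg.Lie.chevE8]) :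
    IsSimpleGroup ↥(D.group F) ∧ ¬ IsMulCommutative ↥(D.group F) := by
  have hD' : D ∈ [Cfsg.Lie.chevG2, Cfsg.Lie.chevB2, Cfsg.Lie.chevD4, Cfsg.Lie.chevF4, Cfsg.Lie.chevE6,
      Cfsg.Lie.chevE7, Cfsg.Lie.chevE8] := by
    simp only [List.mem_cons, List.not_mem_nil, or_false] at hD ⊢
    tauto
  have h2 : D = Cfsg.Lie.chevG2 ∨ D = Cfsg.Lie.chevB2 → ∃ a : F, a ≠ 0 ∧ a ≠ 1 := by
    intro h
    exfalso
    simp only [List.mem_cons, List.not_mem_nil, or_false] at hD
    rcases h with rfl | rfl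
    · rcases hD with h | h | h | h | h <;> exact absurd (congrArg Cfsg.Lie.ChevalleyDatum.rank h) (by decide)
    · rcases hD with h | h | h | h | h <;> exact absurd (congrArg Cfsg.Lie.ChevalleyDatum.rank h) (by decide)
  exact Cfsg.Agent.Helper17.simple_of_bRel (Cfsg.Agent.Helper36.bRel_of_mem hD')
    (Cfsg.Agent.Helper17.dynkinFacts_of_mem hD') (Cfsg.Agent.S1050.result D hD')
    (Cfsg.Agent.S1052.result D hD' h2) (Cfsg.Agent.S1051.result D hD')

end Cfsg.Agent.S1054
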