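import Cfsg.Statements.S1056
import Cfsg.Agent.Helper17.ChevSimple
import Cfsg.Agent.Helper36.ChevRelAll
import Cfsg.Agent.S1050
import Cfsg.Agent.S1051
import Cfsg.Agent.S1052

set_option autoImplicit false
open Cfsg

namespace Cfsg.Agent.S1056

/-- B₂(F) is simple for every field `F` other than the field with two elements. -/
theorem result {F : Type*} [Field F] (hF : ∃ a : F, a ≠ 0 ∧ a ≠ 1) : IsSimpleGroup ↥(Cfsg.Lie.chevB2.group F) ∧ ¬ IsMulCommutative ↥(Cfsg.Lie.chevB2.group F) := by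
  have hD' : Cfsg.Lie.chevB2 ∈ [Cfsg.Lie.chevG2, Cfsg.Lie.chevB2, Cfsg.Lie.chevD4, Cfsg.Lie.chevF4,
      Cfsg.Lie.chevE6, Cfsg.Lie.chevE7, Cfsg.Lie.chevE8] := by
    simp only [List.mem_cons, true_or, or_true]
  exact Cfsg.Agent.Helper17.simple_of_bRel (Cfsg.Agent.Helper36.bRel_of_mem hD')
    (Cfsg.Agent.Helper17.dynkinFacts_of_mem hD') (Cfsg.Agent.S1050.result _ hD')
    (Cfsg.Agent.S1052.result _ hD' (fun _ => hF)) (Cfsg.Agent.S1051.result _ hD')

end Cfsg.Agent.S1056
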