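import Cfsg.Statements.S1058
import Cfsg.Agent.Helper57.B2Data
import Cfsg.Agent.Helper57.ChevMap
import Cfsg.Agent.Helper57.OrbitIso

set_option autoImplicit false
open Cfsg

namespace Cfsg.Agent.S1058

open Cfsg.Agent.Helper57 Cfsg.Lie Matrix

/-- `GL(10, 2)` on the coordinates of the Lie algebra of type `B₂` -/
abbrev M2 : Type := GL chevB2.Idx (ZMod 2)
/-- the vectors -/
abbrev V2 : Type := chevB2.Idx → ZMod 2

/-- the action on vectors -/
def rho (m : M2) (w : V2) : V2 := (m : Matrix chevB2.Idx chevB2.Idx (ZMod 2)).mulVec w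

/-- the action of permutations on ordered pairs -/
def tau (a : Equiv.Perm (Fin 6)) (s : Fin 6 × Fin 6) : Fin 6 × Fin 6 := (a s.1, a s.2)

theorem hM (m : M2) (h : ∀ s, rho m (b2Vec s) = b2Vec s) : m = 1 := by
  have hsum : ∀ L : List (Fin 6 × Fin 6),
      (m : Matrix chevB2.Idx chevB2.Idx (ZMod 2)).mulVec ((L.map b2Vec).sum) = (L.map b2Vec).sum := by
    intro L
    induction L with
    | nil => simp
    | cons s L ih =>
      simp only [List.map_cons, List.sum_cons, Matrix.mulVec_add, ih]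
      congr 1
      exact h s
  apply Units.ext
  ext i k
  have hk : (m : Matrix chevB2.Idx chevB2.Idx (ZMod 2)).mulVec (Pi.single k 1) = Pi.single k 1 := by
    rw [← b2_comb k]
    exact hsum _
  have h2 := congrFun hk i
  rw [Matrix.mulVec_single_one] at h2
  show (m : Matrix chevB2.Idx chevB2.Idx (ZMod 2)) i k = (1 : Matrix chevB2.Idx chevB2.Idx (ZMod 2)) i k
  rw [Matrix.one_apply]
  simpa [Pi.single_apply] using h2

theorem hA (a : Equiv.Perm (Fin 6)) (h : ∀ s, b2Vec (tau a s) = b2Vec s) : a = 1 := by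
  have d : ∀ i : Fin 6, i ≠ i + 1 ∧ i ≠ i + 2 ∧ i + 1 ≠ i + 2 := by decide
  apply Equiv.ext
  intro i
  obtain ⟨d1, d2, d3⟩ := d i
  have h1 := b2_inj _ _ _ _ (h (i, i + 1))
  have h2 := b2_inj _ _ _ _ (h (i, i + 2))
  show a i = i
  rcases h1 with ⟨_, e⟩ | ⟨e, _⟩ | ⟨e, _⟩
  · exact absurd e d1
  · exact e
  · rcases h2 with ⟨_, e'⟩ | ⟨e', _⟩ | ⟨e', _⟩
    · exact absurd e' d2
    · exact e'
    · exact absurd (e.symm.trans e') d3

/-- the root element `x_r(1)` as a unit -/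
def xU (r : Fin 8) : M2 :=
  ⟨chevB2.xMat (ZMod 2) r 1, chevB2.xMat (ZMod 2) r 1, b2_sq r, b2_sq r⟩

theorem b2_iso2 : Nonempty (↥(chevB2.group (ZMod 2)) ≃* Equiv.Perm (Fin 6)) := by
  have ht : ∀ t : ZMod 2, t = 0 ∨ t = 1 := by decide
  have hgen : ∀ m ∈ {g : M2 | ∃ (r : Fin chevB2.nroots) (t : ZMod 2),
      (g : Matrix chevB2.Idx chevB2.Idx (ZMod 2)) = chevB2.xMat (ZMod 2) r t},
      ∃ a : Equiv.Perm (Fin 6), ∀ s, rho m (b2Vec s) = b2Vec (tau a s) := by
    rintro m ⟨r, t, hm⟩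
    rcases ht t with rfl | rfl
    · refine ⟨1, fun s => ?_⟩
      show (m : Matrix chevB2.Idx chevB2.Idx (ZMod 2)).mulVec (b2Vec s) = b2Vec s
      rw [hm, b2_zero r, Matrix.one_mulVec]
    · refine ⟨b2Sig r, fun s => ?_⟩
      show (m : Matrix chevB2.Idx chevB2.Idx (ZMod 2)).mulVec (b2Vec s) = _
      rw [hm]
      exact b2_act r s.1 s.2
  have hmem : ∀ r : Fin 8, b2Sig r ∈ {a : Equiv.Perm (Fin 6) | ∃ m ∈ {g : M2 |
      ∃ (r : Fin chevB2.nroots) (t : ZMod 2),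
      (g : Matrix chevB2.Idx chevB2.Idx (ZMod 2)) = chevB2.xMat (ZMod 2) r t},
      ∀ s, rho m (b2Vec s) = b2Vec (tau a s)} := by
    intro r
    exact ⟨xU r, ⟨r, 1, rfl⟩, fun s => b2_act r s.1 s.2⟩
  have hsurj : Subgroup.closure {a : Equiv.Perm (Fin 6) | ∃ m ∈ {g : M2 |
      ∃ (r : Fin chevB2.nroots) (t : ZMod 2),
      (g : Matrix chevB2.Idx chevB2.Idx (ZMod 2)) = chevB2.xMat (ZMod 2) r t},
      ∀ s, rho m (b2Vec s) = b2Vec (tau a s)} = ⊤ := by
    rw [eq_top_iff, ← Equiv.Perm.closure_isSwap, Subgroup.closure_le]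
    have key : ∀ i j : Fin 6, i < j → Equiv.swap i j ∈ Subgroup.closure {a : Equiv.Perm (Fin 6) |
        ∃ m ∈ {g : M2 | ∃ (r : Fin chevB2.nroots) (t : ZMod 2),
        (g : Matrix chevB2.Idx chevB2.Idx (ZMod 2)) = chevB2.xMat (ZMod 2) r t},
        ∀ s, rho m (b2Vec s) = b2Vec (tau a s)} := by
      intro i j hij
      obtain ⟨w, _, _, hw2⟩ := b2_words i j hij
      rw [← hw2]
      apply Subgroup.list_prod_mem
      intro x hx
      obtain ⟨r, _, rfl⟩ := List.mem_map.1 hx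
      exact Subgroup.subset_closure (hmem r)
    rintro σ ⟨i, j, hij, rfl⟩
    rcases lt_or_gt_of_ne hij with h | h
    · exact key i j h
    · rw [Equiv.swap_comm]
      exact key j i h
  exact iso_of_equivariant_family rho (fun w => by simp [rho])
    (fun m m' w => by simp [rho, Matrix.mulVec_mulVec]) tau (fun s => rfl) (fun a a' s => rfl) b2Vec
    hM hA _ hgen hsurj

/-- B₂(2) ≅ S₆. -/
theorem result {F : Type*} [Field F] [Fintype F] (hF : Fintype.card F = 2) :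
    Nonempty (↥(Cfsg.Lie.chevB2.group F) ≃* Equiv.Perm (Fin 6)) := by
  have : Fact (Nat.Prime 2) := ⟨Nat.prime_two⟩
  have e2 : ZMod 2 ≃+* F := ZMod.ringEquivOfPrime F Nat.prime_two hF
  obtain ⟨e⟩ := b2_iso2
  exact ⟨(chevGroupCongr chevB2 e2).symm.trans e⟩

end Cfsg.Agent.S1058
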