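import Cfsg.Statements.S1104
import Cfsg.Agent.Helper17.TwE6
import Cfsg.Agent.Helper17.TwPerfect
import Cfsg.Agent.Helper17.TwField

set_option autoImplicit false
open Cfsg

namespace Cfsg.Agent.S1104

open Cfsg.Lie Cfsg.Agent.Helper17 Cfsg.Agent.Helper36

/-- The certificates for the orbits `{p₂}`, `{p₄}`: `±p₂ = ±(p₂ + p₄) ∓ p₄`, `±p₄ = ±(p₂ + p₄) ∓ p₂`. -/
theorem fix_E6 : ∀ o ∈ orbsE6, o.length = 1 → ∀ i ∈ o,
    (∃ cert, fixCertOK chevE6 orbsE6 (chevE6.simple i) cert = true) ∧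
    (∃ cert, fixCertOK chevE6 orbsE6 (chevE6.neg (chevE6.simple i)) cert = true) := by
  intro o ho hlen i hi
  simp only [orbsE6, List.mem_cons, List.not_mem_nil, or_false] at ho
  rcases ho with rfl | rfl | rfl | rfl
  · simp only [List.mem_cons, List.not_mem_nil, or_false] at hi
    subst hi
    exact ⟨⟨(32, 47, 1, ([], 3, true), ([1], 1, false)), by decide +kernel⟩,
      ⟨(24, 39, 1, ([1], 1, true), ([], 3, false)), by decide +kernel⟩⟩
  · simp only [List.mem_cons, List.not_mem_nil, or_false] at hi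
    subst hi
    exact ⟨⟨(25, 47, -1, ([], 1, true), ([1], 1, false)), by decide +kernel⟩,
      ⟨(24, 46, -1, ([1], 1, true), ([], 1, false)), by decide +kernel⟩⟩
  · simp at hlen
  · simp at hlen

/-- ²E₆(q) equals its derived subgroup. -/
theorem result {K : Type*} [Field K] [Fintype K] {q : ℕ} (hq : IsPrimePow q) (hK : Fintype.card K = q ^ 2) : commutator ↥(Cfsg.Lie.twistedE6 K q) = ⊤ := by
  obtain ⟨φ, hφ⟩ := exists_frob hq (by norm_num) hK
  have R := bRel_of_mem (F := K) hD_E6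
  rw [twistedE6_eq q φ hφ R.xadd]
  refine twGroup_perfect R (torusFacts_of_mem hD_E6) (simpleOK_of_mem hD_E6) (hDiag_of_mem hD_E6) φ eE6 orbsE6
    orbOK_E6 fix_E6 (exists_sq_ne_one ?_)
  have h2 : 2 ≤ q := hq.two_le
  rw [hK]
  nlinarith

end Cfsg.Agent.S1104
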