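import Cfsg.Statements.S1105
import Cfsg.Agent.Helper17.TwCoreTab
import Cfsg.Agent.Helper17.TwField

set_option autoImplicit false
open Cfsg

namespace Cfsg.Agent.S1105

/-- The normal core of `B¹ = G¹ ∩ B` in ²E₆(q) is trivial. -/
theorem result {K : Type*} [Field K] [Fintype K] {q : ℕ} (hq : IsPrimePow q) (hK : Fintype.card K = q ^ 2) :
    ((Cfsg.Lie.chevE6.borelSubgroup K ⊓ Cfsg.Lie.twistedE6 K q).subgroupOf (Cfsg.Lie.twistedE6 K q)).normalCore = ⊥ := by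
  obtain ⟨φ, hφ⟩ := Cfsg.Agent.Helper17.exists_frob hq (by norm_num) hK
  rw [eq_bot_iff]
  intro x hx
  rw [Subgroup.mem_bot]
  apply Subtype.ext
  apply Cfsg.Agent.Helper17.twistedE6_core φ
  intro b hb
  rw [← Cfsg.Agent.Helper17.twistedE6_eq q φ hφ] at hb
  exact (hx ⟨b, hb⟩).1

end Cfsg.Agent.S1105
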