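import Cfsg.Statements.S1070
import Cfsg.Agent.Helper18.TwE6f
import Cfsg.Agent.S1086
import Cfsg.Agent.S1104
import Cfsg.Agent.S1105
-- import your own Cfsg.Agent.* helpers here

set_option autoImplicit false
open Cfsg

namespace Cfsg.Agent.S1070

/-- ²E₆(q) is simple for every `q`. -/
theorem result {K : Type*} [Field K] [Fintype K] {q : ℕ} (hq : IsPrimePow q) (hK : Fintype.card K = q ^ 2) :
    IsSimpleGroup ↥(Cfsg.Lie.twistedE6 K q) ∧ ¬ IsMulCommutative ↥(Cfsg.Lie.twistedE6 K q) := by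
  exact Cfsg.Agent.Helper18.simple_twistedE6 hq hK (Cfsg.Agent.S1086.result hq hK)
    (Cfsg.Agent.S1104.result hq hK) (Cfsg.Agent.S1105.result hq hK)

end Cfsg.Agent.S1070
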