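import Cfsg.Statements.S1108
import Cfsg.Agent.Helper17.TwD4
import Cfsg.Agent.Helper17.TwPerfect
import Cfsg.Agent.Helper17.TwField

set_option autoImplicit false
open Cfsg

namespace Cfsg.Agent.S1108

open Cfsg.Lie Cfsg.Agent.Helper17 Cfsg.Agent.Helper36

/-- The certificate for the orbit `{p₂}`: `±p₂ = ±(p₁ + 2p₂ + p₃ + p₄) ∓ (p₁ + p₂ + p₃ + p₄)`. -/
theorem fix_D4 : ∀ o ∈ orbsD4, o.length = 1 → ∀ i ∈ o,
    (∃ cert, fixCertOK chevD4 orbsD4 (chevD4.simple i) cert = true) ∧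
    (∃ cert, fixCertOK chevD4 orbsD4 (chevD4.neg (chevD4.simple i)) cert = true) := by
  intro o ho hlen i hi
  simp only [orbsD4, List.mem_cons, List.not_mem_nil, or_false] at ho
  rcases ho with rfl | rfl
  · simp only [List.mem_cons, List.not_mem_nil, or_false] at hi
    subst hi
    exact ⟨⟨(1, 23, -1, ([1], 1, true), ([0, 1], 1, false)), by decide +kernel⟩,
      ⟨(0, 22, -1, ([0, 1], 1, true), ([1], 1, false)), by decide +kernel⟩⟩
  · simp at hlen

/-- ³D₄(q) equals its derived subgroup. -/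
theorem result {K : Type*} [Field K] [Fintype K] {q : ℕ} (hq : IsPrimePow q) (hK : Fintype.card K = q ^ 3) : commutator ↥(Cfsg.Lie.twistedD4 K q) = ⊤ := by
  obtain ⟨φ, hφ⟩ := exists_frob hq (by norm_num) hK
  have R := bRel_of_mem (F := K) hD_D4
  rw [twistedD4_eq q φ hφ R.xadd]
  refine twGroup_perfect R (torusFacts_of_mem hD_D4) (simpleOK_of_mem hD_D4) (hDiag_of_mem hD_D4) φ eD4 orbsD4
    orbOK_D4 fix_D4 (exists_sq_ne_one ?_)
  have h2 : 2 ≤ q := hq.two_le
  rw [hK]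
  have h3 : q ^ 3 = q * q * q := by ring
  nlinarith [Nat.mul_le_mul h2 h2]

end Cfsg.Agent.S1108
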