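import Cfsg.Statements.S1074
import Cfsg.Agent.Helper56.Tits.Struct

set_option autoImplicit false
open Cfsg

namespace Cfsg.Agent.S1074

open Cfsg.Agent.Helper28 Cfsg.Agent.Helper56.J3 Cfsg.Agent.Helper56.Ru Cfsg.Agent.Helper56.Tits

/-- ²F₄(2)′ has index 2 in ²F₄(2), is simple, and has order `2¹¹ · 3³ · 5² · 13`. -/
theorem result : (commutator ↥(Cfsg.Lie.twistedF4 (ZMod 2) 1)).index = 2 ∧ IsSimpleGroup Cfsg.Lie.TitsGroup ∧ ¬ IsMulCommutative Cfsg.Lie.TitsGroup ∧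
    Nat.card Cfsg.Lie.TitsGroup = 2 ^ 11 * 3 ^ 3 * 5 ^ 2 * 13 := by
  obtain ⟨hidx, ⟨e⟩⟩ := tits_struct
  have hsimple := G4_simple
  refine ⟨hidx, MulEquiv.isSimpleGroup e, ?_, ?_⟩
  · intro hcomm
    apply G4_not_comm
    intro x y
    have h := hcomm.is_comm.comm (e.symm x) (e.symm y)
    have h' : e.symm (x * y) = e.symm (y * x) := by rw [map_mul, map_mul]; exact h
    exact e.symm.injective h'
  · have h := Nat.card_congr e.toEquiv
    rw [card_G4] at h
    rw [h]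
    norm_num

end Cfsg.Agent.S1074
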