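import Cfsg.Statements.S1075
import Cfsg.Agent.Helper57.ReeData
import Cfsg.Agent.Helper57.OrbitIso3
import Cfsg.Agent.Helper5.SLCard

set_option autoImplicit false
open Cfsg

namespace Cfsg.Agent.S1075

open Cfsg.Agent.Helper57 Cfsg.Lie Matrix
open scoped commutatorElement

/-- `GL(14, 3)` on the coordinates of the Lie algebra of type `G₂` -/
abbrev M3 : Type := GL chevG2.Idx (ZMod 3)
/-- the vectors -/
abbrev V3 : Type := chevG2.Idx → ZMod 3
/-- the special linear group over the concrete field with eight elements -/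
abbrev A8 : Type := SpecialLinearGroup (Fin 2) F8
/-- the matrices over the field with eight elements -/
abbrev S8 : Type := Matrix (Fin 2) (Fin 2) F8

/-- the action on vectors -/
def rho (m : M3) (w : V3) : V3 := (m : Matrix chevG2.Idx chevG2.Idx (ZMod 3)).mulVec w

/-- the action by conjugation -/
def tau (a : A8) (X : S8) : S8 :=
  (a : Matrix (Fin 2) (Fin 2) F8) * X * ((a⁻¹ : A8) : Matrix (Fin 2) (Fin 2) F8)

/-- the four entries of a matrix -/
def tup (X : S8) : F8 × F8 × F8 × F8 := (X 0 0, X 0 1, X 1 0, X 1 1)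

/-- the matrix with four given entries -/
def mat (m : F8 × F8 × F8 × F8) : S8 := !![m.1, m.2.1; m.2.2.1, m.2.2.2]

/-- the family of vectors -/
def fam (X : S8) : V3 := r3Tbl (r8IdxT (tup X))

theorem rho_one (w : V3) : rho 1 w = w := by simp [rho]

theorem rho_mul (m m' : M3) (w : V3) : rho (m * m') w = rho m (rho m' w) := by
  simp [rho, Matrix.mulVec_mulVec]

theorem tau_one (X : S8) : tau 1 X = X := by simp [tau]

theorem tau_mul (a a' : A8) (X : S8) : tau (a * a') X = tau a (tau a' X) := by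
  simp [tau, _root_.mul_inv_rev, Matrix.mul_assoc]

theorem mat_eq_one (M : Matrix chevG2.Idx chevG2.Idx (ZMod 3))
    (h : ∀ k, M.mulVec (Pi.single k 1) = Pi.single k 1) : M = 1 := by
  ext i k
  have h2 := congrFun (h k) i
  rw [Matrix.mulVec_single_one] at h2
  rw [Matrix.one_apply]
  simpa [Pi.single_apply] using h2

theorem faithful (m : M3) (h : ∀ p, rho m (r3Tbl p) = r3Tbl p) : m = 1 := by
  have hsum : ∀ L : List (Fin 64),
      (m : Matrix chevG2.Idx chevG2.Idx (ZMod 3)).mulVec ((L.map r3Tbl).sum) = (L.map r3Tbl).sum := by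
    intro L
    induction L with
    | nil => simp
    | cons s L ih =>
      have hs : (m : Matrix chevG2.Idx chevG2.Idx (ZMod 3)).mulVec (r3Tbl s) = r3Tbl s := h s
      simp only [List.map_cons, List.sum_cons, Matrix.mulVec_add, ih, hs]
  apply Units.ext
  apply mat_eq_one
  intro k
  rw [← r3_comb k]
  exact hsum _

theorem eq_of_act (m m' : M3) (h : ∀ p, rho m (r3Tbl p) = rho m' (r3Tbl p)) : m = m' := by
  have h1 : m'⁻¹ * m = 1 := by
    apply faithful
    intro p
    rw [rho_mul, h p, ← rho_mul, inv_mul_cancel, rho_one]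
  have h2 := congrArg (fun x => m' * x) h1
  simpa using h2

theorem act_inv (m : M3) (π π' : Fin 64 → Fin 64) (h : ∀ p, rho m (r3Tbl p) = r3Tbl (π p))
    (hπ : ∀ p, π (π' p) = p) (p : Fin 64) : rho m⁻¹ (r3Tbl p) = r3Tbl (π' p) := by
  have h1 := h (π' p)
  rw [hπ] at h1
  rw [← h1, ← rho_mul, inv_mul_cancel, rho_one]

/-! ### The root elements and the generators -/

theorem x_eq (r : ℕ) (hr : r < 12) (t : ZMod 3) :
    chevG2.x (ZMod 3) r t = r3Mat (r3SpN r t.val) := by
  have h : r < chevG2.nroots := hr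
  rw [ChevalleyDatum.x, dif_pos h]
  exact r3_xmat t ⟨r, hr⟩

theorem x_mulVec (r : ℕ) (hr : r < 12) (t : ZMod 3) (w : ℕ) :
    (chevG2.x (ZMod 3) r t).mulVec (r3Vec w) = r3Vec (r3MvK (r3SpN r t.val) w) := by
  rw [x_eq r hr, r3MvK_spec _ (r3Sp_lt t ⟨r, hr⟩)]

theorem x_mul_neg (r : ℕ) (t : ZMod 3) :
    chevG2.x (ZMod 3) r t * chevG2.x (ZMod 3) r (-t) = 1 := by
  by_cases hr : r < 12
  · apply mat_eq_one
    intro k
    rw [← Matrix.mulVec_mulVec, ← r3_unit k, x_mulVec r hr, x_mulVec r hr]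
    exact congrArg r3Vec (r3_inv t ⟨r, hr⟩ ⟨r3Num k, r3Num_lt k⟩)
  · have h : ¬ r < chevG2.nroots := hr
    rw [ChevalleyDatum.x, dif_neg h, ChevalleyDatum.x, dif_neg h, one_mul]

/-- the root element `x_r(t)` as a unit -/
def xUn (r : ℕ) (t : ZMod 3) : M3 :=
  ⟨chevG2.x (ZMod 3) r t, chevG2.x (ZMod 3) r (-t), x_mul_neg r t, by
    have h := x_mul_neg r (-t)
    rwa [neg_neg] at h⟩

/-- the product of a word in root elements as a unit -/
def wUn (w : List (ℕ × ZMod 3)) : M3 := (w.map fun p => xUn p.1 p.2).prod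

theorem wUn_cons (e : ℕ × ZMod 3) (w : List (ℕ × ZMod 3)) : wUn (e :: w) = xUn e.1 e.2 * wUn w := by
  simp [wUn]

theorem wUn_coe (w : List (ℕ × ZMod 3)) :
    ((wUn w : M3) : Matrix chevG2.Idx chevG2.Idx (ZMod 3)) = chevG2.wordMat (ZMod 3) w := by
  induction w with
  | nil => simp [wUn, ChevalleyDatum.wordMat]
  | cons e w ih =>
    rw [wUn_cons, Units.val_mul, ih]
    simp [ChevalleyDatum.wordMat, xUn]

theorem wUn_act (w : List (ℕ × ZMod 3)) (hw : ∀ e ∈ w, e.1 < 12) (z : ℕ) :
    rho (wUn w) (r3Vec z) = r3Vec (r3WordAct w z) := by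
  induction w with
  | nil => simp [wUn, rho, r3WordAct]
  | cons e w ih =>
    rw [wUn_cons, rho_mul, ih (fun e' he' => hw e' (List.mem_cons_of_mem _ he'))]
    show (chevG2.x (ZMod 3) e.1 e.2).mulVec (r3Vec (r3WordAct w z)) = r3Vec (r3WordAct (e :: w) z)
    rw [x_mulVec e.1 (hw e List.mem_cons_self)]
    rfl

/-- the generators of the twisted group -/
def gU (b : Bool) (t u v : ZMod 3) : M3 := wUn (r3Ree b t u v)

theorem gU_act (b : Bool) (t u v : ZMod 3) (p : Fin 64) :
    rho (gU b t u v) (r3Tbl p) = r3Tbl (r3Pi b t u v p) := by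
  rw [r3Tbl, gU, wUn_act _ (r3_ree_lt b t u v), r3_gen_act]
  rfl

theorem gU_mem (b : Bool) (t u v : ZMod 3) : gU b t u v ∈ twistedG2 (ZMod 3) 1 := by
  apply Subgroup.subset_closure
  refine ⟨r3Ree b t u v, ?_, wUn_coe _⟩
  cases b
  · exact ⟨t, u, v, Or.inr rfl⟩
  · exact ⟨t, u, v, Or.inl rfl⟩

/-- the first commutator -/
def c1 : M3 := ⁅gU true 0 0 1, gU false 0 0 1⁆
/-- the second commutator -/
def c2 : M3 := ⁅gU true 0 0 1, gU false 0 0 2⁆
/-- an element outside the commutator subgroup -/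
def t0 : M3 := gU true 0 1 0

theorem c1_act (p : Fin 64) : rho c1 (r3Tbl p) = r3Tbl (r3C1 p) := by
  rw [c1, commutatorElement_def, rho_mul, rho_mul, rho_mul,
    act_inv (gU false 0 0 1) (r3Pi false 0 0 1) (r3Pi false 0 0 2) (gU_act false 0 0 1)
      (fun q => (r3_pi_inv q).2.1),
    act_inv (gU true 0 0 1) (r3Pi true 0 0 1) (r3Pi true 0 0 2) (gU_act true 0 0 1)
      (fun q => (r3_pi_inv q).1),
    gU_act, gU_act, (r3_C_eq p).1]

theorem c2_act (p : Fin 64) : rho c2 (r3Tbl p) = r3Tbl (r3C2 p) := by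
  rw [c2, commutatorElement_def, rho_mul, rho_mul, rho_mul,
    act_inv (gU false 0 0 2) (r3Pi false 0 0 2) (r3Pi false 0 0 1) (gU_act false 0 0 2)
      (fun q => (r3_pi_inv q).2.2.1),
    act_inv (gU true 0 0 1) (r3Pi true 0 0 1) (r3Pi true 0 0 2) (gU_act true 0 0 1)
      (fun q => (r3_pi_inv q).1),
    gU_act, gU_act, (r3_C_eq p).2]

theorem t0_act (p : Fin 64) : rho t0 (r3Tbl p) = r3Tbl (r3Pi true 0 1 0 p) := gU_act true 0 1 0 p

theorem t0_inv_act (p : Fin 64) : rho t0⁻¹ (r3Tbl p) = r3Tbl (r3Pi true 0 2 0 p) :=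
  act_inv t0 (r3Pi true 0 1 0) (r3Pi true 0 2 0) t0_act (fun q => (r3_pi_inv q).2.2.2.1) p

/-- the product of a word in the two commutators -/
def wM (w : List Bool) : M3 := (w.map (fun b => if b then c1 else c2)).prod

theorem wM_act (w : List Bool) (p : Fin 64) : rho (wM w) (r3Tbl p) = r3Tbl (r3Wp w p) := by
  induction w with
  | nil => simp [wM, r3Wp, rho_one]
  | cons b w ih =>
    have h1 : wM (b :: w) = (if b then c1 else c2) * wM w := by simp [wM]
    have h2 : r3Wp (b :: w) p = if b then r3C1 (r3Wp w p) else r3C2 (r3Wp w p) := by simp [r3Wp]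
    rw [h1, rho_mul, ih, h2]
    cases b
    · simpa using c2_act _
    · simpa using c1_act _

theorem wM_mem (w : List Bool) : wM w ∈ Subgroup.closure ({c1, c2} : Set M3) := by
  apply Subgroup.list_prod_mem
  intro x hx
  obtain ⟨b, _, rfl⟩ := List.mem_map.1 hx
  cases b
  · exact Subgroup.subset_closure (by simp)
  · exact Subgroup.subset_closure (by simp)

/-! ### The special linear group -/

theorem tup_mat (m : F8 × F8 × F8 × F8) : tup (mat m) = m := rfl

theorem tup_mul (X Y : S8) : tup (X * Y) = r8m (tup X) (tup Y) := by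
  simp only [tup, r8m, Matrix.mul_apply, Fin.sum_univ_two]
  rfl

theorem tup_inv (a : A8) : tup ((a⁻¹ : A8) : S8) = r8Adj (tup (a : S8)) := by
  rw [Matrix.SpecialLinearGroup.coe_inv, Matrix.adjugate_fin_two]
  simp [tup, r8Adj, F8.neg_eq]

theorem tup_tau (a : A8) (X : S8) :
    tup (tau a X) = r8m (r8m (tup (a : S8)) (tup X)) (r8Adj (tup (a : S8))) := by
  rw [tau, tup_mul, tup_mul, tup_inv]

theorem det_mat (m : F8 × F8 × F8 × F8)
    (h : F8.add (F8.mul m.1 m.2.2.2) (F8.mul m.2.1 m.2.2.1) = 1) : (mat m).det = 1 := by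
  rw [mat, Matrix.det_fin_two_of]
  exact h

/-- the matrix of the first commutator -/
def a1 : A8 := ⟨mat r8A1, det_mat r8A1 r8_det.1⟩
/-- the matrix of the second commutator -/
def a2 : A8 := ⟨mat r8A2, det_mat r8A2 r8_det.2⟩

theorem c1_fam (X : S8) : rho c1 (fam X) = fam (tau a1 X) := by
  rw [fam, c1_act, fam, tup_tau]
  exact congrArg r3Tbl (r8_act1 (X 0 0) (X 0 1) (X 1 0) (X 1 1)).symm

theorem c2_fam (X : S8) : rho c2 (fam X) = fam (tau a2 X) := by
  rw [fam, c2_act, fam, tup_tau]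
  exact congrArg r3Tbl (r8_act2 (X 0 0) (X 0 1) (X 1 0) (X 1 1)).symm

theorem hM (m : M3) (h : ∀ X, rho m (fam X) = fam X) : m = 1 := by
  apply faithful
  intro p
  rcases r8_rep p with hp | hp
  · have h1 := h (mat (r8Rep p))
    rwa [fam, tup_mat, hp] at h1
  · have h0 : r3Tbl p = 0 := by rw [r3Tbl, hp, r3Vec_zero]
    rw [h0]
    simp [rho]

theorem hA (a : A8) (h : ∀ X, fam (tau a X) = fam X) : a = 1 := by
  have hdet : F8.add (F8.mul ((a : S8) 0 0) ((a : S8) 1 1)) (F8.mul ((a : S8) 0 1) ((a : S8) 1 0)) = 1 := by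
    have h1 : (a : S8).det = 1 := a.2
    rw [Matrix.det_fin_two] at h1
    exact h1
  have h1 := (r3Tbl_inj _).1 (h (mat r8X1))
  have h2 := (r3Tbl_inj _).2 (h (mat r8X2))
  rw [tup_tau, tup_mat] at h1 h2
  obtain ⟨e00, e01, e10, e11⟩ := r8_fix _ _ _ _ hdet h1 h2
  apply Subtype.ext
  ext i j
  fin_cases i <;> fin_cases j <;> simp [e00, e01, e10, e11]

/-- the product of a word in the two matrices, in the subgroup which they generate -/
def wA (w : List Bool) : ↥(Subgroup.closure ({a1, a2} : Set A8)) :=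
  (w.map (fun b => if b then (⟨a1, Subgroup.subset_closure (by simp)⟩ :
    ↥(Subgroup.closure ({a1, a2} : Set A8))) else ⟨a2, Subgroup.subset_closure (by simp)⟩)).prod

theorem wA_tup (w : List Bool) : tup (((wA w).1 : A8) : S8) = r8Wm w := by
  induction w with
  | nil =>
    simp only [wA, List.map_nil, List.prod_nil, Subgroup.coe_one, Matrix.SpecialLinearGroup.coe_one]
    simp [tup, r8Wm]
  | cons b w ih =>
    have h1 : wA (b :: w) = (if b then (⟨a1, Subgroup.subset_closure (by simp)⟩ :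
        ↥(Subgroup.closure ({a1, a2} : Set A8))) else ⟨a2, Subgroup.subset_closure (by simp)⟩) *
        wA w := by simp [wA]
    have h2 : r8Wm (b :: w) = r8m (if b then r8A1 else r8A2) (r8Wm w) := by simp [r8Wm]
    rw [h1, Subgroup.coe_mul, Matrix.SpecialLinearGroup.coe_mul, tup_mul, ih, h2]
    cases b <;> rfl

theorem f8_col : ∀ x x' : F8, F8.add (F8.mul x 1) (F8.mul x' 0) = x := by decide

theorem card_A8 : Nat.card A8 = 504 := by
  rw [Cfsg.Agent.Helper5.card_SL2, F8.card_eq]
  norm_num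

theorem closure_a_eq_top : Subgroup.closure ({a1, a2} : Set A8) = ⊤ := by
  apply Subgroup.eq_top_of_le_card
  rw [card_A8]
  have h := card_ge_of_lists (H := ↥(Subgroup.closure ({a1, a2} : Set A8)))
    (fun x => (tup ((x.1 : A8) : S8)).1.code + 8 * (tup ((x.1 : A8) : S8)).2.2.1.code)
    (fun x => (tup ((x.1 : A8) : S8)).2.1.code + 8 * (tup ((x.1 : A8) : S8)).2.2.2.code)
    (r8WordsO.map wA) (r8WordsS.map wA)
    (by
      intro x _ y hy
      obtain ⟨w, hw, rfl⟩ := List.mem_map.1 hy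
      obtain ⟨hs1, hs2⟩ := r8_stab w hw
      have h3 : tup (((x * wA w).1 : A8) : S8) = r8m (tup ((x.1 : A8) : S8)) (r8Wm w) := by
        rw [Subgroup.coe_mul, Matrix.SpecialLinearGroup.coe_mul, tup_mul, wA_tup]
      simp only [h3, r8m, hs1, hs2, f8_col])
    (by
      rw [List.map_map]
      have hf : ((fun x : ↥(Subgroup.closure ({a1, a2} : Set A8)) =>
          (tup ((x.1 : A8) : S8)).1.code + 8 * (tup ((x.1 : A8) : S8)).2.2.1.code) ∘ wA) =
          fun w => (r8Wm w).1.code + 8 * (r8Wm w).2.2.1.code := by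
        funext w
        simp only [Function.comp_apply, wA_tup]
      rw [hf]
      exact r8_orbit)
    (by
      rw [List.map_map]
      have hf : ((fun x : ↥(Subgroup.closure ({a1, a2} : Set A8)) =>
          (tup ((x.1 : A8) : S8)).2.1.code + 8 * (tup ((x.1 : A8) : S8)).2.2.2.code) ∘ wA) =
          fun w => (r8Wm w).2.1.code + 8 * (r8Wm w).2.2.2.code := by
        funext w
        simp only [Function.comp_apply, wA_tup]
      rw [hf]
      exact r8_stab_nodup)
  rw [List.length_map, List.length_map, r8WordsO_length, r8WordsS_length] at h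
  exact h

theorem iso_N : Nonempty (↥(Subgroup.closure ({c1, c2} : Set M3)) ≃* A8) := by
  have hgen : ∀ m ∈ ({c1, c2} : Set M3), ∃ a : A8, ∀ s, rho m (fam s) = fam (tau a s) := by
    intro m hm
    rcases hm with rfl | rfl
    · exact ⟨a1, c1_fam⟩
    · exact ⟨a2, c2_fam⟩
  have hsurj : Subgroup.closure {a : A8 | ∃ m ∈ ({c1, c2} : Set M3),
      ∀ s, rho m (fam s) = fam (tau a s)} = ⊤ := by
    rw [eq_top_iff, ← closure_a_eq_top]
    apply Subgroup.closure_mono
    intro a ha
    rcases ha with rfl | rfl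
    · exact ⟨c1, by simp, c1_fam⟩
    · exact ⟨c2, by simp, c2_fam⟩
  exact iso_of_equivariant_family rho rho_one rho_mul tau tau_one tau_mul fam hM hA _ hgen hsurj

/-! ### The commutator subgroup -/

theorem conj_mem (h : M3) (hh : h ∈ Subgroup.closure ({c1, c2} : Set M3)) :
    t0 * h * t0⁻¹ ∈ Subgroup.closure ({c1, c2} : Set M3) := by
  induction hh using Subgroup.closure_induction with
  | mem x hx =>
    rcases hx with rfl | rfl
    · have h1 : t0 * c1 * t0⁻¹ = wM (r3ConjW 0) := by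
        apply eq_of_act
        intro p
        rw [rho_mul, rho_mul, t0_inv_act, c1_act, t0_act, wM_act, (r3_conj p).1]
      rw [h1]
      exact wM_mem _
    · have h1 : t0 * c2 * t0⁻¹ = wM (r3ConjW 1) := by
        apply eq_of_act
        intro p
        rw [rho_mul, rho_mul, t0_inv_act, c2_act, t0_act, wM_act, (r3_conj p).2.1]
      rw [h1]
      exact wM_mem _
  | one => simp
  | mul x y _ _ hx hy =>
    have h1 : t0 * (x * y) * t0⁻¹ = (t0 * x * t0⁻¹) * (t0 * y * t0⁻¹) := by group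
    rw [h1]
    exact Subgroup.mul_mem _ hx hy
  | inv x _ hx =>
    have h1 : t0 * x⁻¹ * t0⁻¹ = (t0 * x * t0⁻¹)⁻¹ := by group
    rw [h1]
    exact Subgroup.inv_mem _ hx

theorem conj_mem' (h : M3) (hh : h ∈ Subgroup.closure ({c1, c2} : Set M3)) :
    t0⁻¹ * h * t0 ∈ Subgroup.closure ({c1, c2} : Set M3) := by
  induction hh using Subgroup.closure_induction with
  | mem x hx =>
    rcases hx with rfl | rfl
    · have h1 : t0⁻¹ * c1 * t0 = wM (r3ConjW 2) := by
        apply eq_of_act
        intro p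
        rw [rho_mul, rho_mul, t0_act, c1_act, t0_inv_act, wM_act, (r3_conj p).2.2.1]
      rw [h1]
      exact wM_mem _
    · have h1 : t0⁻¹ * c2 * t0 = wM (r3ConjW 3) := by
        apply eq_of_act
        intro p
        rw [rho_mul, rho_mul, t0_act, c2_act, t0_inv_act, wM_act, (r3_conj p).2.2.2]
      rw [h1]
      exact wM_mem _
  | one => simp
  | mul x y _ _ hx hy =>
    have h1 : t0⁻¹ * (x * y) * t0 = (t0⁻¹ * x * t0) * (t0⁻¹ * y * t0) := by group
    rw [h1]
    exact Subgroup.mul_mem _ hx hy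
  | inv x _ hx =>
    have h1 : t0⁻¹ * x⁻¹ * t0 = (t0⁻¹ * x * t0)⁻¹ := by group
    rw [h1]
    exact Subgroup.inv_mem _ hx

theorem gen_mem (b : Bool) (t u v : ZMod 3) :
    ∃ k : ℕ, t0 ^ k * gU b t u v ∈ Subgroup.closure ({c1, c2} : Set M3) := by
  have hw := r3_genw b t u v
  rcases r3_genK_cases b t u v with hk | hk | hk
  · refine ⟨0, ?_⟩
    have h2 : t0 ^ 0 * gU b t u v = wM (r3GenW b t u v) := by
      apply eq_of_act
      intro p
      rw [pow_zero, one_mul, gU_act, wM_act, hw p, hk]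
      rfl
    rw [h2]
    exact wM_mem _
  · refine ⟨1, ?_⟩
    have h2 : t0 ^ 1 * gU b t u v = wM (r3GenW b t u v) := by
      apply eq_of_act
      intro p
      rw [pow_one, rho_mul, gU_act, t0_act, wM_act, hw p, hk]
      rfl
    rw [h2]
    exact wM_mem _
  · refine ⟨2, ?_⟩
    have h2 : t0 ^ 2 * gU b t u v = wM (r3GenW b t u v) := by
      apply eq_of_act
      intro p
      rw [pow_two, rho_mul, rho_mul, gU_act, t0_act, t0_act, wM_act, hw p, hk]
      rfl
    rw [h2]
    exact wM_mem _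

theorem comm_eq : ⁅twistedG2 (ZMod 3) 1, twistedG2 (ZMod 3) 1⁆ =
    Subgroup.closure ({c1, c2} : Set M3) := by
  apply le_antisymm
  · have ht : t0 ∈ Subgroup.normalizer
        ((Subgroup.closure ({c1, c2} : Set M3) : Subgroup M3) : Set M3) := by
      rw [Subgroup.mem_normalizer_iff]
      intro h
      constructor
      · exact conj_mem h
      · intro hh
        have h1 := conj_mem' _ hh
        have h2 : t0⁻¹ * (t0 * h * t0⁻¹) * t0 = h := by group
        rw [h2] at h1
        exact h1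
    refine commutator_closure_le_pow _ t0 ht _ ?_
    intro x hx0
    obtain ⟨w, ⟨t, u, v, hw⟩, hx⟩ := hx0
    rcases hw with rfl | rfl
    · have h1 : x = gU true t u v := Units.ext (hx.trans (wUn_coe _).symm)
      rw [h1]
      exact gen_mem true t u v
    · have h1 : x = gU false t u v := Units.ext (hx.trans (wUn_coe _).symm)
      rw [h1]
      exact gen_mem false t u v
  · rw [Subgroup.closure_le]
    intro x hx
    rcases hx with rfl | rfl
    · exact Subgroup.commutator_mem_commutator (gU_mem true 0 0 1) (gU_mem false 0 0 1)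
    · exact Subgroup.commutator_mem_commutator (gU_mem true 0 0 1) (gU_mem false 0 0 2)

theorem ree_iso : Nonempty (↥(commutator ↥(twistedG2 (ZMod 3) 1)) ≃* A8) := by
  obtain ⟨e1⟩ := commutator_subgroup_equiv (twistedG2 (ZMod 3) 1)
  obtain ⟨e2⟩ := iso_N
  exact ⟨(e1.trans (MulEquiv.subgroupCongr comm_eq)).trans e2⟩

/-- `PSL(2, 8) ≃* SL(2, 8)` over the concrete field. -/
theorem psl_equiv : Nonempty (Matrix.ProjectiveSpecialLinearGroup (Fin 2) F8 ≃* A8) :=
  ⟨(QuotientGroup.quotientMulEquivOfEq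
    (Cfsg.Agent.Helper5.center_SL2_eq_bot F8.two_eq_zero)).trans QuotientGroup.quotientBot⟩

/-- The derived subgroup of ²G₂(3) (θ = identity over the field with three elements) has order 504 = 1512/3 and is isomorphic to PSL₂ over the field with eight elements. -/
theorem result {L : Type*} [Field L] [Fintype L] (hL : Fintype.card L = 8) :
    Nat.card ↥(commutator ↥(Cfsg.Lie.twistedG2 (ZMod 3) 1)) = 504 ∧
      Nonempty (↥(commutator ↥(Cfsg.Lie.twistedG2 (ZMod 3) 1)) ≃* Matrix.ProjectiveSpecialLinearGroup (Fin 2) L) := by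
  obtain ⟨e1⟩ := ree_iso
  obtain ⟨e2⟩ := psl_equiv
  have φ : F8 ≃+* L := FiniteField.ringEquivOfCardEq (by rw [F8.card_eq, hL])
  refine ⟨?_, ⟨(e1.trans e2.symm).trans (pslCongr φ)⟩⟩
  rw [Nat.card_congr e1.toEquiv, card_A8]

end Cfsg.Agent.S1075
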