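import Cfsg.Statements.S1079
import Cfsg.Agent.Helper17.StCen

set_option autoImplicit false
open Cfsg

namespace Cfsg.Agent.S1079

/-- `|Z(Ḡ)| = gcd(3, q-1)` for E₆ and `gcd(2, q-1)` for E₇ over a field with `q` elements (the centre is dual to the weight lattice modulo the root lattice). -/
theorem result {K : Type*} [Field K] [Fintype K] {q : ℕ} (hq : Fintype.card K = q)
    (p : Cfsg.Lie.ChevalleyDatum × ℕ) (hp : p ∈ [(Cfsg.Lie.chevE6, 3), (Cfsg.Lie.chevE7, 2)]) :
    Nat.card (Subgroup.center (p.1.SteinbergGroup K)) = Nat.gcd p.2 (q - 1) := by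
  subst hq
  simp only [List.mem_cons, List.not_mem_nil, or_false] at hp
  rcases hp with rfl | rfl
  · exact Cfsg.Agent.Helper17.st_center_card_E6
  · exact Cfsg.Agent.Helper17.st_center_card_E7

end Cfsg.Agent.S1079
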