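import Cfsg.Statements.S1080

set_option autoImplicit false
open Cfsg

namespace Cfsg.Agent.S1080

open Cfsg.Lie

theorem xMat_map {F : Type*} [Field F] (D : ChevalleyDatum) (f : F →+* F) (r : Fin D.nroots) (t : F) :
    (D.xMat F r t).map f = D.xMat F r (f t) := by
  ext row col
  simp only [Matrix.map_apply, ChevalleyDatum.xMat, Matrix.of_apply]
  rcases col with i | s
  · rcases row with i' | u
    · simp only [apply_ite f, map_one, map_zero]
    · simp only [apply_ite f, map_neg, map_mul, map_intCast, map_zero]
  · simp only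
    split_ifs with h1 h2
    · rcases row with i' | u
      · simp
      · simp only [apply_ite f, map_one, map_zero]
    · rcases row with i' | u
      · simp only [map_mul, map_intCast]
      · simp only [apply_ite f, map_one, map_zero, map_neg, map_pow]
    · rcases row with i' | u
      · simp
      · simp only [map_add, apply_ite f, map_one, map_zero, map_list_sum, List.map_map]
        congr 2
        apply List.map_congr_left
        intro km _
        simp only [Function.comp, map_mul, map_intCast, map_pow]

theorem x_map {F : Type*} [Field F] (D : ChevalleyDatum) (f : F →+* F) (r : ℕ) (t : F) :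
    (D.x F r t).map f = D.x F r (f t) := by
  unfold ChevalleyDatum.x
  split_ifs with h
  · exact xMat_map D f ⟨r, h⟩ t
  · ext i j
    simp [Matrix.map_apply, Matrix.one_apply, apply_ite f]

theorem map_mem {F : Type*} [Field F] (D : ChevalleyDatum) (f : F →+* F) (g : GL D.Idx F)
    (hg : g ∈ D.group F) : Matrix.GeneralLinearGroup.map f g ∈ D.group F := by
  have : (D.group F).map (Matrix.GeneralLinearGroup.map (n := D.Idx) f) ≤ D.group F := by
    unfold ChevalleyDatum.group
    rw [MonoidHom.map_closure, Subgroup.closure_le]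
    rintro _ ⟨g, ⟨r, t, hg⟩, rfl⟩
    apply Subgroup.subset_closure
    refine ⟨r, f t, ?_⟩
    rw [← xMat_map, ← hg]
    rfl
  exact this (Subgroup.mem_map_of_mem _ hg)

theorem map_map_symm {F : Type*} [Field F] (D : ChevalleyDatum) (f g : F →+* F)
    (h : ∀ x, g (f x) = x) (a : GL D.Idx F) :
    Matrix.GeneralLinearGroup.map g (Matrix.GeneralLinearGroup.map f a) = a := by
  apply Units.ext
  ext i j
  simp [h]

/-- Field automorphisms: for every field automorphism `f` there is a group automorphism sending each `x_r(t)` to `x_r(f t)`. -/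
theorem result {F : Type*} [Field F] (D : Cfsg.Lie.ChevalleyDatum) (hD : D ∈ [Cfsg.Lie.chevG2, Cfsg.Lie.chevB2, Cfsg.Lie.chevD4, Cfsg.Lie.chevF4, Cfsg.Lie.chevE6, Cfsg.Lie.chevE7, Cfsg.Lie.chevE8]) (f : F ≃+* F) :
    ∃ α : ↥(D.group F) ≃* ↥(D.group F), ∀ (g : ↥(D.group F)) (r : ℕ) (t : F), r < D.nroots →
      ((g : GL D.Idx F) : Matrix D.Idx D.Idx F) = D.x F r t → ((α g : GL D.Idx F) : Matrix D.Idx D.Idx F) = D.x F r (f t) := by
  refine ⟨
    { toFun := fun g => ⟨Matrix.GeneralLinearGroup.map (f : F →+* F) g.1, map_mem D _ g.1 g.2⟩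
      invFun := fun g => ⟨Matrix.GeneralLinearGroup.map (f.symm : F →+* F) g.1, map_mem D _ g.1 g.2⟩
      left_inv := fun g => Subtype.ext (map_map_symm D _ _ (fun x => by simp) g.1)
      right_inv := fun g => Subtype.ext (map_map_symm D _ _ (fun x => by simp) g.1)
      map_mul' := fun a b => Subtype.ext (by simp) }, ?_⟩
  intro g r t hr hg
  show (Matrix.GeneralLinearGroup.map (f : F →+* F) g.1 : Matrix D.Idx D.Idx F) = _
  have h := x_map D (f : F →+* F) r t
  rw [← hg] at h
  exact h

end Cfsg.Agent.S1080
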