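import Cfsg.Statements.S1081
import Cfsg.Agent.Helper18.GAutTab

set_option autoImplicit false
open Cfsg

namespace Cfsg.Agent.S1081

/-- Graph automorphisms: for E₆ with ρ = (p₁ p₆)(p₃ p₅) and for D₄ with ρ the 3-cycle on the outer nodes there is a group automorphism sending `x_p(t) ↦ x_{ρ(p)}(t)` and `x_{-p}(t) ↦ x_{-ρ(p)}(t)` for every fundamental root `p`. -/
theorem result {F : Type*} [Field F] (p : Cfsg.Lie.ChevalleyDatum × List ℕ)
    (hp : p ∈ [(Cfsg.Lie.chevE6, [5, 1, 4, 3, 2, 0]), (Cfsg.Lie.chevD4, [2, 1, 3, 0]), (Cfsg.Lie.chevD4, [3, 1, 0, 2])]) :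
    ∃ α : ↥(p.1.group F) ≃* ↥(p.1.group F), ∀ (g : ↥(p.1.group F)) (i : ℕ) (t : F), i < p.1.rank →
      (((g : GL p.1.Idx F) : Matrix p.1.Idx p.1.Idx F) = p.1.x F (p.1.simple i) t →
        ((α g : GL p.1.Idx F) : Matrix p.1.Idx p.1.Idx F) = p.1.x F (p.1.simple (p.2.getD i 0)) t) ∧
      (((g : GL p.1.Idx F) : Matrix p.1.Idx p.1.Idx F) = p.1.x F (p.1.neg (p.1.simple i)) t →
        ((α g : GL p.1.Idx F) : Matrix p.1.Idx p.1.Idx F) = p.1.x F (p.1.neg (p.1.simple (p.2.getD i 0))) t) := by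
  simp only [List.mem_cons, List.not_mem_nil, or_false] at hp
  rcases hp with rfl | rfl | rfl
  · exact Cfsg.Agent.Helper18.exists_graph_aut_of_checks (by simp) _ _ _ _
      Cfsg.Agent.Helper18.gaut_chk_E6
  · exact Cfsg.Agent.Helper18.exists_graph_aut_of_checks (by simp) _ _ _ _
      Cfsg.Agent.Helper18.gaut_chk_D4a
  · exact Cfsg.Agent.Helper18.exists_graph_aut_of_checks (by simp) _ _ _ _
      Cfsg.Agent.Helper18.gaut_chk_D4b

end Cfsg.Agent.S1081
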