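import Cfsg.Statements.S1082
import Cfsg.Agent.Helper17.D4Hom
import Cfsg.Agent.Helper29.B2B
import Cfsg.Agent.Helper29.D4E
import Cfsg.Agent.Helper29.D4A
import Cfsg.Agent.Helper29.D4D5
import Cfsg.Agent.Helper29.D4H
import Cfsg.Agent.Helper29.D4L1
import Cfsg.Agent.Helper29.D4L2
import Cfsg.Agent.Helper29.D4L3
import Cfsg.Agent.Helper29.D4D4
import Cfsg.Agent.Helper93.D4T1
import Cfsg.Agent.Helper93.D4T2
import Cfsg.Agent.Helper93.D4T3
import Cfsg.Agent.Helper39.D4P1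
import Cfsg.Agent.Helper39.D4P2
import Cfsg.Agent.Helper39.D4P3
import Cfsg.Agent.Helper64.D4N
import Cfsg.Agent.Helper64.D4S
import Cfsg.Agent.S1077
import Cfsg.Agent.S1054

set_option autoImplicit false
open Cfsg

namespace Cfsg.Agent.S1082

open Cfsg.Agent.Helper17.D4 in
/-- The group generated by the explicit root elements is the commutator subgroup of `O_8^+(F)`. -/
theorem g8_eq_commutator {F : Type*} [Field F] : G8 F = ⁅O8 F, O8 F⁆ := by
  apply le_antisymm G8_le_comm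
  rw [Subgroup.commutator_le]
  intro a ha b hb
  have hL1 := Cfsg.Agent.Helper29.d4_level1 (F := F) Cfsg.Agent.Helper93.d4_sing1 Cfsg.Agent.Helper39.d4_pair1
  have hL2 := Cfsg.Agent.Helper29.d4_level2 (F := F) Cfsg.Agent.Helper93.d4_sing2 Cfsg.Agent.Helper39.d4_pair2
  have hL3 := Cfsg.Agent.Helper29.d4_level3 (F := F) Cfsg.Agent.Helper93.d4_sing3 Cfsg.Agent.Helper39.d4_pair3
  have hdec := Cfsg.Agent.Helper29.d4_decomp_of (F := F) hL1 hL2 hL3 Cfsg.Agent.Helper29.d4_diag_of_fix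
  exact Cfsg.Agent.Helper29.d4_comm_mem_of hdec Cfsg.Agent.Helper64.d4_dg_conj Cfsg.Agent.Helper64.d4_sw_conj
    Cfsg.Agent.Helper29.d4_dg_mem a b ha hb

theorem quot_center_congr_of_eq {Γ : Type*} [Group Γ] {H K : Subgroup Γ} (h : H = K) :
    Nonempty ((↥H ⧸ Subgroup.center ↥H) ≃* (↥K ⧸ Subgroup.center ↥K)) := by
  subst h
  exact ⟨MulEquiv.refl _⟩

/-- D₄(F) ≅ PΩ₈⁺(F), the commutator subgroup of the orthogonal group of `Σ xᵢ yᵢ` modulo its centre. -/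
theorem result {F : Type*} [Field F] : Nonempty (↥(Cfsg.Lie.chevD4.group F) ≃* Cfsg.POmega F (Cfsg.quadFormPlus 4 F)) := by
  obtain ⟨θ, hθ, hker, -⟩ := Cfsg.Agent.S1077.result (K := F) Cfsg.Lie.chevD4 (by simp)
  obtain ⟨hS, hnc⟩ := Cfsg.Agent.S1054.result (F := F) Cfsg.Lie.chevD4 (by simp)
  have hnc' : ∃ x y : ↥(Cfsg.Lie.chevD4.group F), x * y ≠ y * x := by
    by_contra h
    push_neg at h
    exact hnc ⟨⟨h⟩⟩
  obtain ⟨e1⟩ := Cfsg.Agent.Helper29.b2_quot_iso θ hθ hker hS hnc'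
    (Cfsg.Agent.Helper17.D4.d4Hom F) Cfsg.Agent.Helper17.D4.d4Hom_noncomm
  obtain ⟨e2⟩ := Cfsg.Agent.Helper29.d4_pomega_transport (F := F)
  have hr : (Cfsg.Agent.Helper17.D4.d4Hom F).range =
      ⁅Cfsg.Agent.Helper17.D4.O8 F, Cfsg.Agent.Helper17.D4.O8 F⁆ := by
    rw [Cfsg.Agent.Helper17.D4.d4Hom_range, g8_eq_commutator]
  obtain ⟨e3⟩ := quot_center_congr_of_eq hr
  exact ⟨e1.symm.trans (e3.trans e2.symm)⟩

end Cfsg.Agent.S1082
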