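import Cfsg.Statements.S1083
import Cfsg.Agent.Helper64.B2Phi
import Cfsg.Agent.Helper29.B2B
import Cfsg.Agent.Helper29.B2E
import Cfsg.Agent.Helper80.B2C
import Cfsg.Agent.Helper80.B2N
import Cfsg.Agent.Helper39.B2D2
import Cfsg.Agent.Helper39.B2D3
import Cfsg.Agent.Helper74.B2D1
import Cfsg.Agent.Helper20.B2D4
import Cfsg.Agent.Helper20.B2D5
import Cfsg.Agent.S1077
import Cfsg.Agent.S1056

set_option autoImplicit false
open Cfsg

namespace Cfsg.Agent.S1083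

open Cfsg.Agent.Helper64.B2 in
/-- The group generated by the explicit root elements is the commutator subgroup of `O_5(F)`. -/
theorem g5_eq_commutator {F : Type*} [Field F] (hF : ∃ a : F, a ≠ 0 ∧ a ≠ 1) :
    G5 F = ⁅O5 F, O5 F⁆ := by
  apply le_antisymm
  · unfold G5
    rw [Subgroup.closure_le]
    rintro g ⟨r, hr, t, rfl⟩
    obtain ⟨a, ha, b, hb, hab⟩ := Cfsg.Agent.Helper80.b2_root_commutator hF r hr t
    rw [hab]
    exact Subgroup.commutator_mem_commutator ha hb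
  · rw [Subgroup.commutator_le]
    intro a ha b hb
    have hH : ∀ c : Fˣ, dg (1 : Fˣ) c⁻¹ c ∈ G5 F := by
      intro c
      rw [← Cfsg.Agent.Helper39.b2_hx_three c]
      exact hx_mem_G5 3 _
    exact Cfsg.Agent.Helper20.b2_comm_mem_of Cfsg.Agent.Helper74.b2_sing_trans
      Cfsg.Agent.Helper39.b2_pair_trans Cfsg.Agent.Helper39.b2_three_dim
      Cfsg.Agent.Helper20.b2_diag_of_fix Cfsg.Agent.Helper80.b2_dg_conj hH a b ha hb

theorem quot_center_congr_of_eq {Γ : Type*} [Group Γ] {H K : Subgroup Γ} (h : H = K) :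
    Nonempty ((↥H ⧸ Subgroup.center ↥H) ≃* (↥K ⧸ Subgroup.center ↥K)) := by
  subst h
  exact ⟨MulEquiv.refl _⟩

/-- B₂(F) ≅ PΩ₅(F) for the form `x₀² + x₁y₁ + x₂y₂`, over every field with more than two elements. -/
theorem result {F : Type*} [Field F] (hF : ∃ a : F, a ≠ 0 ∧ a ≠ 1) :
    Nonempty (↥(Cfsg.Lie.chevB2.group F) ≃* Cfsg.POmega F (Cfsg.quadFormOdd 2 F)) := by
  obtain ⟨θ, hθ, hker, -⟩ := Cfsg.Agent.S1077.result (K := F) Cfsg.Lie.chevB2 (by simp)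
  obtain ⟨hS, hnc⟩ := Cfsg.Agent.S1056.result hF
  have hnc' : ∃ x y : ↥(Cfsg.Lie.chevB2.group F), x * y ≠ y * x := by
    by_contra h
    push_neg at h
    exact hnc ⟨⟨h⟩⟩
  obtain ⟨e1⟩ := Cfsg.Agent.Helper29.b2_quot_iso θ hθ hker hS hnc'
    (Cfsg.Agent.Helper64.B2.b2Phi F) Cfsg.Agent.Helper64.B2.b2Phi_nonabelian
  obtain ⟨e2⟩ := Cfsg.Agent.Helper29.b2_pomega_transport (F := F)
  have hr : (Cfsg.Agent.Helper64.B2.b2Phi F).range =
      ⁅Cfsg.Agent.Helper64.B2.O5 F, Cfsg.Agent.Helper64.B2.O5 F⁆ := by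
    rw [Cfsg.Agent.Helper64.B2.b2Phi_range, g5_eq_commutator hF]
  obtain ⟨e3⟩ := quot_center_congr_of_eq hr
  exact ⟨e1.symm.trans (e3.trans e2.symm)⟩

end Cfsg.Agent.S1083
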