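import Cfsg.Statements.S1097
import Cfsg.Agent.Helper36.StPres

set_option autoImplicit false
open Cfsg

namespace Cfsg.Agent.S1097

/-- Any homomorphism from the presented group to the Chevalley group with `x̄_r(t) ↦ x_r(t)` has kernel contained in `H̄ = ⟨h̄_p(t) : p fundamental, t ≠ 0⟩`. -/
theorem result {K : Type*} [Field K] (D : Cfsg.Lie.ChevalleyDatum) (hD : D ∈ [Cfsg.Lie.chevG2, Cfsg.Lie.chevB2, Cfsg.Lie.chevD4, Cfsg.Lie.chevF4, Cfsg.Lie.chevE6, Cfsg.Lie.chevE7, Cfsg.Lie.chevE8]) (θ : D.SteinbergGroup K →* ↥(D.group K))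
    (hθ : ∀ (r : ℕ) (t : K), r < D.nroots → ((θ (D.stGen K r t) : GL D.Idx K) : Matrix D.Idx D.Idx K) = D.x K r t) :
    θ.ker ≤ Subgroup.closure {h | ∃ (i : ℕ) (t : K), i < D.rank ∧ t ≠ 0 ∧ h = PresentedGroup.mk (D.steinbergRels K) (D.stH (D.simple i) t)} := by
  obtain ⟨f₀, g, C⟩ := Cfsg.Agent.Helper36.sCtx_of_mem (F := K) hD
  have S := Cfsg.Agent.Helper36.sRel_steinberg D ((Subgroup.subtype (D.group K)).comp θ)
    (fun r t hr => hθ r t hr)
  intro a ha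
  have h1 : ((Subgroup.subtype (D.group K)).comp θ) a = 1 := by
    rw [MonoidHom.mem_ker] at ha
    rw [MonoidHom.comp_apply, ha, map_one]
  have h2 := (C.ker_le S a h1).1
  have h3 : Cfsg.Agent.Helper36.HS D (D.stGen K) ≤ Subgroup.closure {h | ∃ (i : ℕ) (t : K),
      i < D.rank ∧ t ≠ 0 ∧ h = PresentedGroup.mk (D.steinbergRels K) (D.stH (D.simple i) t)} := by
    apply Subgroup.closure_mono
    rintro h ⟨i, hi, c, hc, rfl⟩
    exact ⟨i, c, hi, hc, (Cfsg.Agent.Helper36.mk_stH D _ c).symm⟩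
  exact h3 h2

end Cfsg.Agent.S1097
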