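import Cfsg.Statements.S1099
import Cfsg.Agent.Helper36.GraphAutTab

set_option autoImplicit false
open Cfsg

namespace Cfsg.Agent.S1099

/-- Graph automorphism of G₂ in characteristic 3 (K perfect): `x_a(t) ↦ x_b(t³)`, `x_b(t) ↦ x_a(t)`, `x_{-a}(t) ↦ x_{-b}(t³)`, `x_{-b}(t) ↦ x_{-a}(t)` extend to an automorphism of the group. -/
theorem result {K : Type*} [Field K] [CharP K 3] (hperf : ∀ x : K, ∃ y : K, y ^ 3 = x) :
    ∃ α : ↥(Cfsg.Lie.chevG2.group K) ≃* ↥(Cfsg.Lie.chevG2.group K), ∀ (g : ↥(Cfsg.Lie.chevG2.group K)) (t : K),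
      (((g : GL Cfsg.Lie.chevG2.Idx K) : Matrix _ _ K) = Cfsg.Lie.chevG2.x K Cfsg.Lie.g2a t →
        ((α g : GL Cfsg.Lie.chevG2.Idx K) : Matrix _ _ K) = Cfsg.Lie.chevG2.x K Cfsg.Lie.g2b (t ^ 3)) ∧
      (((g : GL Cfsg.Lie.chevG2.Idx K) : Matrix _ _ K) = Cfsg.Lie.chevG2.x K Cfsg.Lie.g2b t →
        ((α g : GL Cfsg.Lie.chevG2.Idx K) : Matrix _ _ K) = Cfsg.Lie.chevG2.x K Cfsg.Lie.g2a t) ∧
      (((g : GL Cfsg.Lie.chevG2.Idx K) : Matrix _ _ K) = Cfsg.Lie.chevG2.x K Cfsg.Lie.g2ma t →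
        ((α g : GL Cfsg.Lie.chevG2.Idx K) : Matrix _ _ K) = Cfsg.Lie.chevG2.x K Cfsg.Lie.g2mb (t ^ 3)) ∧
      (((g : GL Cfsg.Lie.chevG2.Idx K) : Matrix _ _ K) = Cfsg.Lie.chevG2.x K Cfsg.Lie.g2mb t →
        ((α g : GL Cfsg.Lie.chevG2.Idx K) : Matrix _ _ K) = Cfsg.Lie.chevG2.x K Cfsg.Lie.g2ma t) := by
  obtain ⟨α, hα⟩ := Cfsg.Agent.Helper36.ga_main (D := Cfsg.Lie.chevG2) (K := K) 3 (by simp) hperf
    Cfsg.Agent.Helper36.gaRhoG2 Cfsg.Agent.Helper36.gaLamG2 Cfsg.Agent.Helper36.gaOK_G2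
  refine ⟨α, fun g t => ⟨fun hg => ?_, fun hg => ?_, fun hg => ?_, fun hg => ?_⟩⟩
  · have h := hα g Cfsg.Lie.g2a t (by decide) hg
    exact h
  · have h := hα g Cfsg.Lie.g2b t (by decide) hg
    have e : t ^ Cfsg.Agent.Helper36.gaLamG2 Cfsg.Lie.g2b = t := pow_one t
    rw [e] at h
    exact h
  · have h := hα g Cfsg.Lie.g2ma t (by decide) hg
    exact h
  · have h := hα g Cfsg.Lie.g2mb t (by decide) hg
    have e : t ^ Cfsg.Agent.Helper36.gaLamG2 Cfsg.Lie.g2mb = t := pow_one t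
    rw [e] at h
    exact h

end Cfsg.Agent.S1099
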