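import Cfsg.Statements.S1117
import Cfsg.Agent.Helper36.Ree13

set_option autoImplicit false
open Cfsg

namespace Cfsg.Agent.S1117

/-- The normal core of `B¹ = G¹ ∩ B` in ²G₂(3^(2m+1)) is trivial. -/
theorem result {K : Type*} [Field K] [Fintype K] {m : ℕ} (hK : Fintype.card K = 3 ^ (2 * m + 1)) :
    ((Cfsg.Lie.chevG2.borelSubgroup K ⊓ Cfsg.Lie.twistedG2 K (3 ^ m)).subgroupOf (Cfsg.Lie.twistedG2 K (3 ^ m))).normalCore = ⊥ := by
  haveI : CharP K 3 := Cfsg.Agent.Helper36.ree_charP hK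
  obtain ⟨σ, hσ⟩ := Cfsg.Agent.Helper36.exists_reeSig hK
  rw [Subgroup.eq_bot_iff_forall]
  intro x hx
  have h1 : (x : GL Cfsg.Lie.chevG2.Idx K) = 1 := by
    apply Cfsg.Agent.Helper36.ree_core hK hσ x.2
    intro b hb
    exact (Subgroup.mem_inf.mp (Subgroup.mem_subgroupOf.mp (hx ⟨b, hb⟩))).1
  exact Subtype.ext h1

end Cfsg.Agent.S1117
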