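import Cfsg.Statements.S1118
import Cfsg.Agent.Helper19.RankOne

set_option autoImplicit false
open Cfsg

namespace Cfsg.Agent.S1118

open Cfsg.Agent.Helper19 in
/-- In the rank-one set-up (`G` finite and doubly transitive on `Ω`, `t` an involution moving `a`, `Q` normal in `G_a` with `G_a = Q D`, `Q ⊓ D = 1` for the two-point stabiliser `D = G_a ⊓ G_{t • a}`, `|Q|` even, `|D|` odd), the normaliser of a subset of `Q` containing a non-identity element lies in `G_a`; consequently `N_G(Q) = N_G(G_a) = G_a`. -/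
theorem result {G Ω : Type*} [Group G] [Finite G] [MulAction G Ω] {a : Ω} {t : G} {Q : Subgroup G}
    (hS : Cfsg.IsRankOneSetup G Ω a t Q) :
    (∀ X : Set G, X ⊆ (Q : Set G) → (∃ x ∈ X, x ≠ 1) → Subgroup.normalizer X ≤ MulAction.stabilizer G a) ∧
      Subgroup.normalizer (Q : Set G) = MulAction.stabilizer G a ∧
      Subgroup.normalizer (MulAction.stabilizer G a : Set G) = MulAction.stabilizer G a := by
  have h1 : ∀ X : Set G, X ⊆ (Q : Set G) → (∃ x ∈ X, x ≠ 1) →
      Subgroup.normalizer X ≤ MulAction.stabilizer G a := by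
    intro X hXQ ⟨x, hxX, hx1⟩ g hg
    rw [Subgroup.mem_set_normalizer_iff] at hg
    have hgx : g * x * g⁻¹ ∈ X := (hg x).mp hxX
    have hne : g * x * g⁻¹ ≠ 1 := by
      intro h
      apply hx1
      calc x = g⁻¹ * (g * x * g⁻¹) * g := by group
        _ = 1 := by rw [h]; group
    have hfix : (g * x * g⁻¹) • g • a = g • a := by
      rw [mul_smul, inv_smul_smul, mul_smul, ro_Q_smul_a hS (hXQ hxX)]
    exact MulAction.mem_stabilizer_iff.mpr (ro_Q_fix hS (hXQ hgx) hne hfix)
  obtain ⟨s, hsQ, hs1, hs2⟩ := ro_exists_invol hS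
  refine ⟨h1, le_antisymm (h1 _ subset_rfl ⟨s, hsQ, hs1⟩) (ro_stab_le_normalizer hS), ?_⟩
  apply le_antisymm
  · intro g hg
    rw [Subgroup.mem_set_normalizer_iff] at hg
    have hgs : g * s * g⁻¹ ∈ MulAction.stabilizer G a := (hg s).mp (hS.le hsQ)
    rw [MulAction.mem_stabilizer_iff, mul_smul, mul_smul] at hgs
    have h3 : s • g⁻¹ • a = g⁻¹ • a := by
      rw [eq_inv_smul_iff]; exact hgs
    have h4 := ro_Q_fix hS hsQ hs1 h3
    rw [MulAction.mem_stabilizer_iff]
    rw [inv_smul_eq_iff] at h4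
    exact h4.symm
  · exact Subgroup.le_normalizer
end Cfsg.Agent.S1118
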