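import Cfsg.Statements.S1120
import Cfsg.Agent.Helper19.RankOne
import Cfsg.Agent.Helper19.Klein

set_option autoImplicit false
open Cfsg

namespace Cfsg.Agent.S1120

open Cfsg.Agent.Helper19 in
/-- In the rank-one set-up (`G` finite and doubly transitive on `Ω`, `t` an involution moving `a`, `Q` normal in `G_a` with `G_a = Q D`, `Q ⊓ D = 1` for the two-point stabiliser `D = G_a ⊓ G_{t • a}`, `|Q|` even, `|D|` odd), if `G` has 2-rank at least 2 then `O_{2'}(G)` equals the normal core of `G_a`. -/
theorem result {G Ω : Type*} [Group G] [Finite G] [MulAction G Ω] {a : Ω} {t : G} {Q : Subgroup G}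
    (hS : Cfsg.IsRankOneSetup G Ω a t Q)
    (h2 : ∃ x y : G, x ≠ 1 ∧ y ≠ 1 ∧ x ≠ y ∧ x * x = 1 ∧ y * y = 1 ∧ x * y = y * x) :
    Cfsg.pPrimeCore 2 G = (MulAction.stabilizer G a).normalCore := by
  apply le_antisymm
  · apply sSup_le
    rintro N ⟨hNn, hNc⟩
    rw [Subgroup.normal_le_normalCore]
    have hodd : Odd (Nat.card N) := Nat.coprime_two_right.mp hNc
    obtain ⟨x, y, hx1, hy1, hxy, hx2, hy2, hcomm⟩ := h2
    obtain ⟨c, hxc⟩ := ro_exists_fixed hS hx2
    have hyc : y • c = c := by
      apply ro_invol_fix_unique hS hx1 hx2 hxc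
      rw [← mul_smul, hcomm, mul_smul, hxc]
    have hxy1 : x * y ≠ 1 := by
      intro h
      apply hxy
      have : y = x⁻¹ := eq_inv_of_mul_eq_one_right h
      rw [this, inv_eq_self_of_mul_self hx2]
    have hxy2 : (x * y) * (x * y) = 1 := by
      calc (x * y) * (x * y) = x * (y * x) * y := by group
        _ = x * (x * y) * y := by rw [hcomm]
        _ = (x * x) * (y * y) := by group
        _ = 1 := by rw [hx2, hy2, one_mul]
    have hxyc : (x * y) • c = c := by rw [mul_smul, hyc, hxc]
    have hfix : ∀ v : G, v ≠ 1 → v * v = 1 → v • c = c → ∀ n : G, v * n * v⁻¹ = n → n • c = c := by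
      intro v hv1 hv2 hvc n hn
      apply ro_invol_fix_unique hS hv1 hv2 hvc
      have : v * n = n * v := by
        calc v * n = (v * n * v⁻¹) * v := by group
          _ = n * v := by rw [hn]
      rw [← mul_smul, this, mul_smul, hvc]
    have hNc : N ≤ MulAction.stabilizer G c := by
      intro n hn
      obtain ⟨c₁, d, k, hc₁, hd, hk, rfl⟩ := klein_decomp N hodd hx2 hy2 hcomm
        (fun n hn => hNn.conj_mem n hn x) (fun n hn => hNn.conj_mem n hn y) hn
      rw [MulAction.mem_stabilizer_iff, mul_smul, mul_smul, mul_smul, hfix y hy1 hy2 hyc d hd,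
        hfix (x * y) hxy1 hxy2 hxyc k hk, hfix y hy1 hy2 hyc d hd, hfix x hx1 hx2 hxc c₁ hc₁]
    obtain ⟨g, hg⟩ := ro_exists_smul_eq hS c a
    intro n hn
    rw [MulAction.mem_stabilizer_iff, ← hg]
    have h1 : g⁻¹ * n * g ∈ N := by
      have := hNn.conj_mem n hn g⁻¹
      rwa [inv_inv] at this
    have h2 := MulAction.mem_stabilizer_iff.mp (hNc h1)
    rw [mul_smul, mul_smul, inv_smul_eq_iff] at h2
    exact h2
  · apply le_sSup
    refine ⟨inferInstance, ?_⟩
    rw [Nat.coprime_two_right]
    by_contra hodd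
    rw [Nat.not_odd_iff_even] at hodd
    obtain ⟨w, hw⟩ := exists_prime_orderOf_dvd_card'
      (G := ↥(MulAction.stabilizer G a).normalCore) 2 hodd.two_dvd
    have hw1 : (w : G) ≠ 1 := by
      intro h
      have : w = 1 := Subtype.ext h
      rw [this, orderOf_one] at hw
      exact absurd hw (by norm_num)
    have hw2 : (w : G) * w = 1 := by
      have := pow_orderOf_eq_one w
      rw [hw, pow_two] at this
      exact congrArg Subtype.val this
    have hwa : (w : G) • a = a :=
      MulAction.mem_stabilizer_iff.mp ((Subgroup.normalCore_le _) w.2)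
    have hwb : (w : G) • t • a = t • a := by
      have h : t⁻¹ * (w : G) * t⁻¹⁻¹ ∈ MulAction.stabilizer G a := w.2 t⁻¹
      rw [MulAction.mem_stabilizer_iff, inv_inv, mul_smul, mul_smul, inv_smul_eq_iff] at h
      exact h
    exact ro_b_ne hS (ro_invol_fix_unique hS hw1 hw2 hwa hwb)

end Cfsg.Agent.S1120
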