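import Cfsg.Statements.S1125
import Cfsg.Agent.Helper19.RankOneF

set_option autoImplicit false
open Cfsg

namespace Cfsg.Agent.S1125

open Cfsg.Agent.Helper19 in
/-- In the rank-one set-up (`G` finite and doubly transitive on `Ω`, `t` an involution moving `a`, `Q` normal in `G_a` with `G_a = Q D`, `Q ⊓ D = 1` for the two-point stabiliser `D = G_a ⊓ G_{t • a}`, `|Q|` even, `|D|` odd), let `X ⊆ D` fix at least three points of `Ω`. Then `C_G(X)` is doubly transitive on the fixed-point set of `X`, `|C_Q(X)|` is even, and `C_{G_a}(X) = C_Q(X) C_D(X)`. -/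
theorem result {G Ω : Type*} [Group G] [Finite G] [MulAction G Ω] {a : Ω} {t : G} {Q : Subgroup G}
    (hS : Cfsg.IsRankOneSetup G Ω a t Q)
    (X : Set G) (hX : X ⊆ ((MulAction.stabilizer G a ⊓ MulAction.stabilizer G (t • a)) : Set G))
    (h3 : ∃ b c d : Ω, b ≠ c ∧ b ≠ d ∧ c ≠ d ∧ ∀ x ∈ X, x • b = b ∧ x • c = c ∧ x • d = d) :
    (∀ b₁ b₂ c₁ c₂ : Ω, (∀ x ∈ X, x • b₁ = b₁ ∧ x • b₂ = b₂ ∧ x • c₁ = c₁ ∧ x • c₂ = c₂) →
        b₁ ≠ b₂ → c₁ ≠ c₂ → ∃ g ∈ Subgroup.centralizer X, g • b₁ = c₁ ∧ g • b₂ = c₂) ∧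
      Even (Nat.card ↥(Subgroup.centralizer X ⊓ Q)) ∧
      (Subgroup.centralizer X ⊓ Q) ⊔ (Subgroup.centralizer X ⊓ (MulAction.stabilizer G a ⊓ MulAction.stabilizer G (t • a))) = Subgroup.centralizer X ⊓ MulAction.stabilizer G a := by
  have hXa : ∀ x ∈ X, x • a = a := fun x hx => (ro_mem_D.mp (hX hx)).1
  refine ⟨fun b₁ b₂ c₁ c₂ hfix hb hc => ro_cent_two_trans hS h3 hfix hb hc, ?_, ?_⟩
  · obtain ⟨s, hs, hs1, hs2⟩ := ro_cent_exists_invol_Q hS hXa h3
    have hord : orderOf (⟨s, hs⟩ : ↥(Subgroup.centralizer X ⊓ Q)) = 2 := by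
      apply orderOf_eq_prime
      · apply Subtype.ext
        show s ^ 2 = 1
        rw [pow_two, hs2]
      · intro h
        exact hs1 (congrArg Subtype.val h)
    have hdvd : 2 ∣ Nat.card ↥(Subgroup.centralizer X ⊓ Q) := by
      rw [← hord]; exact orderOf_dvd_natCard _
    exact (even_iff_two_dvd).mpr hdvd
  · apply le_antisymm
    · exact sup_le (inf_le_inf_left _ hS.le) (inf_le_inf_left _ inf_le_left)
    · exact ro_cent_stab_le hS hX

end Cfsg.Agent.S1125
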