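import Cfsg.Statements.S1127
import Cfsg.Agent.Helper19.RankOneC

set_option autoImplicit false
open Cfsg

namespace Cfsg.Agent.S1127

open Cfsg.Agent.Helper19 in
/-- In the rank-one set-up (`G` finite and doubly transitive on `Ω`, `t` an involution moving `a`, `Q` normal in `G_a` with `G_a = Q D`, `Q ⊓ D = 1` for the two-point stabiliser `D = G_a ⊓ G_{t • a}`, `|Q|` even, `|D|` odd): if `s` is an involution of `G_a` and `r ∈ Q` satisfy `t s t = r⁻¹ t r`, then `C_D(t) = C_D(s)`; moreover `C_D(t) ⊓ C_D(K) = C_D(I ∩ G_a)`, where `K` is the set of elements of `D` inverted by `t` and `I ∩ G_a` the set of involutions of `G_a`. -/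
theorem result {G Ω : Type*} [Group G] [Finite G] [MulAction G Ω] {a : Ω} {t : G} {Q : Subgroup G}
    (hS : Cfsg.IsRankOneSetup G Ω a t Q) :
    (∀ s r : G, s ∈ Cfsg.involutionsIn (MulAction.stabilizer G a : Set G) → r ∈ Q → t * s * t = r⁻¹ * t * r →
        (MulAction.stabilizer G a ⊓ MulAction.stabilizer G (t • a)) ⊓ Subgroup.centralizer {t} = (MulAction.stabilizer G a ⊓ MulAction.stabilizer G (t • a)) ⊓ Subgroup.centralizer {s}) ∧
      (MulAction.stabilizer G a ⊓ MulAction.stabilizer G (t • a)) ⊓ Subgroup.centralizer {t} ⊓ Subgroup.centralizer (Cfsg.invertedBy (MulAction.stabilizer G a ⊓ MulAction.stabilizer G (t • a)) t) =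
        (MulAction.stabilizer G a ⊓ MulAction.stabilizer G (t • a)) ⊓ Subgroup.centralizer (Cfsg.involutionsIn (MulAction.stabilizer G a : Set G)) := by
  refine ⟨fun s r hs hr heq => ro_cent_t_eq hS hs hr heq, ?_⟩
  obtain ⟨⟨s₀, r₀⟩, ⟨hs₀, hr₀, heq₀⟩, -⟩ := ro_structure_eq hS
  have hC := ro_cent_t_eq hS hs₀ hr₀ heq₀
  apply le_antisymm
  · intro d hd
    obtain ⟨⟨hdD, hdt⟩, hdK⟩ := hd
    refine ⟨hdD, ?_⟩
    have hds₀ : d ∈ (MulAction.stabilizer G a ⊓ MulAction.stabilizer G (t • a)) ⊓ Subgroup.centralizer {s₀} := by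
      rw [← hC]; exact ⟨hdD, hdt⟩
    refine Subgroup.mem_centralizer_iff.mpr ?_
    intro s' hs'
    obtain ⟨k, hk, hks⟩ := ro_K_surj hS hs₀ hs'
    have h1 : k * d = d * k := (Subgroup.mem_centralizer_iff.mp hdK) k hk
    have h1' : k⁻¹ * d = d * k⁻¹ := by
      calc k⁻¹ * d = k⁻¹ * (d * k) * k⁻¹ := by group
        _ = d * k⁻¹ := by rw [← h1]; group
    have h2 : s₀ * d = d * s₀ := mem_centralizer_singleton.mp hds₀.2
    rw [← hks]
    calc k⁻¹ * s₀ * k * d = k⁻¹ * s₀ * (k * d) := by group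
      _ = k⁻¹ * (s₀ * d) * k := by rw [h1]; group
      _ = (k⁻¹ * d) * s₀ * k := by rw [h2]; group
      _ = d * (k⁻¹ * s₀ * k) := by rw [h1']; group
  · intro d hd
    obtain ⟨hdD, hdI⟩ := hd
    have h2 : s₀ * d = d * s₀ := (Subgroup.mem_centralizer_iff.mp hdI) s₀ hs₀
    have hdt : d ∈ (MulAction.stabilizer G a ⊓ MulAction.stabilizer G (t • a)) ⊓ Subgroup.centralizer {t} := by
      rw [hC]; exact ⟨hdD, mem_centralizer_singleton.mpr h2⟩
    refine ⟨hdt, ?_⟩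
    refine Subgroup.mem_centralizer_iff.mpr ?_
    intro k hk
    have htd : t * d = d * t := mem_centralizer_singleton.mp hdt.2
    have hk' : d * k * d⁻¹ ∈ Cfsg.invertedBy (MulAction.stabilizer G a ⊓ MulAction.stabilizer G (t • a)) t := by
      refine ⟨Subgroup.mul_mem _ (Subgroup.mul_mem _ hdD hk.1) (Subgroup.inv_mem _ hdD), ?_⟩
      have e : t * (d * k * d⁻¹) * t⁻¹ = d * (t * k * t⁻¹) * d⁻¹ := by
        calc t * (d * k * d⁻¹) * t⁻¹ = (t * d) * k * (t * d)⁻¹ := by group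
          _ = d * (t * k * t⁻¹) * d⁻¹ := by rw [htd]; group
      rw [e, hk.2]; group
    have hsk : k⁻¹ * s₀ * k ∈ Cfsg.involutionsIn (MulAction.stabilizer G a : Set G) :=
      ro_invol_conj_mem hs₀ hk.1.1
    have h3 : (k⁻¹ * s₀ * k) * d = d * (k⁻¹ * s₀ * k) := (Subgroup.mem_centralizer_iff.mp hdI) _ hsk
    have h4 : (d * k * d⁻¹)⁻¹ * s₀ * (d * k * d⁻¹) = k⁻¹ * s₀ * k := by
      calc (d * k * d⁻¹)⁻¹ * s₀ * (d * k * d⁻¹) = d * k⁻¹ * (d⁻¹ * (s₀ * d)) * k * d⁻¹ := by group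
        _ = d * k⁻¹ * s₀ * k * d⁻¹ := by rw [h2]; group
        _ = (d * (k⁻¹ * s₀ * k)) * d⁻¹ := by group
        _ = k⁻¹ * s₀ * k := by rw [← h3]; group
    have h5 := ro_K_inj hS hs₀ hk' hk h4
    calc k * d = (d * k * d⁻¹) * d := by rw [h5]
      _ = d * k := by group

end Cfsg.Agent.S1127
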