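import Cfsg.Statements.S1128
import Cfsg.Agent.Helper19.RankOneF

set_option autoImplicit false
open Cfsg

namespace Cfsg.Agent.S1128

open Cfsg.Agent.Helper19 in
/-- In the rank-one set-up (`G` finite and doubly transitive on `Ω`, `t` an involution moving `a`, `Q` normal in `G_a` with `G_a = Q D`, `Q ⊓ D = 1` for the two-point stabiliser `D = G_a ⊓ G_{t • a}`, `|Q|` even, `|D|` odd), with the action faithful and `G` containing two distinct commuting involutions: every non-identity element of `D` inverted by `t` acts fixed-point-freely on `Q`. -/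
theorem result {G Ω : Type*} [Group G] [Finite G] [MulAction G Ω] [FaithfulSMul G Ω] {a : Ω} {t : G} {Q : Subgroup G}
    (hS : Cfsg.IsRankOneSetup G Ω a t Q)
    (h2 : ∃ x y : G, x ≠ 1 ∧ y ≠ 1 ∧ x ≠ y ∧ x * x = 1 ∧ y * y = 1 ∧ x * y = y * x)
    (x : G) (hx : x ∈ Cfsg.invertedBy (MulAction.stabilizer G a ⊓ MulAction.stabilizer G (t • a)) t) (hx1 : x ≠ 1) :
    Q ⊓ Subgroup.centralizer {x} = ⊥ := by
  rw [Subgroup.eq_bot_iff_forall]
  rintro q ⟨hqQ, hqx⟩
  by_contra hq1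
  have hxq : x * q = q * x := mem_centralizer_singleton.mp hqx
  have hxD := ro_mem_D.mp hx.1
  have hXa : ∀ y ∈ ({x} : Set G), y • a = a := by
    intro y hy; rw [Set.mem_singleton_iff] at hy; rw [hy]; exact hxD.1
  have h3 : ∃ b c d : Ω, b ≠ c ∧ b ≠ d ∧ c ≠ d ∧
      ∀ y ∈ ({x} : Set G), y • b = b ∧ y • c = c ∧ y • d = d := by
    refine ⟨a, t • a, q • t • a, (ro_b_ne hS).symm, (ro_Q_smul_ne hS hqQ (ro_b_ne hS)).symm, ?_, ?_⟩
    · intro h
      exact hq1 (ro_Q_free hS hqQ (ro_b_ne hS) h.symm)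
    · intro y hy
      rw [Set.mem_singleton_iff] at hy
      rw [hy]
      refine ⟨hxD.1, hxD.2, ?_⟩
      rw [← mul_smul, hxq, mul_smul, hxD.2]
  obtain ⟨s, hs, hs1, hs2⟩ := ro_cent_exists_invol_Q hS hXa h3
  have hsI : s ∈ Cfsg.involutionsIn (MulAction.stabilizer G a : Set G) := ⟨hS.le hs.2, hs1, hs2⟩
  have hxs : x * s = s * x := mem_centralizer_singleton.mp hs.1
  have heq : x⁻¹ * s * x = (1 : G)⁻¹ * s * 1 := by
    calc x⁻¹ * s * x = x⁻¹ * (s * x) := by group
      _ = x⁻¹ * (x * s) := by rw [hxs]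
      _ = (1 : G)⁻¹ * s * 1 := by group
  exact hx1 (ro_K_inj hS hsI hx one_mem_K heq)

end Cfsg.Agent.S1128
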