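import Cfsg.Statements.S1134
import Cfsg.Agent.Helper19.RankOneF

set_option autoImplicit false
open Cfsg

namespace Cfsg.Agent.S1134

open Cfsg.Agent.Helper19 in
/-- In the rank-one set-up (`G` finite and doubly transitive on `Ω`, `t` an involution moving `a`, `Q` normal in `G_a` with `G_a = Q D`, `Q ⊓ D = 1` for the two-point stabiliser `D = G_a ⊓ G_{t • a}`, `|Q|` even, `|D|` odd), with the action faithful and `G` containing two distinct commuting involutions, with `V = C_D(t)`: subsets of `V` conjugate in `G` are conjugate in `V`. -/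
theorem result {G Ω : Type*} [Group G] [Finite G] [MulAction G Ω] [FaithfulSMul G Ω] {a : Ω} {t : G} {Q : Subgroup G}
    (hS : Cfsg.IsRankOneSetup G Ω a t Q)
    (h2 : ∃ x y : G, x ≠ 1 ∧ y ≠ 1 ∧ x ≠ y ∧ x * x = 1 ∧ y * y = 1 ∧ x * y = y * x)
    (X : Set G) (hX : X ⊆ (((MulAction.stabilizer G a ⊓ MulAction.stabilizer G (t • a)) ⊓ Subgroup.centralizer {t} : Subgroup G) : Set G)) (g : G)
    (hY : (fun x => g * x * g⁻¹) '' X ⊆ (((MulAction.stabilizer G a ⊓ MulAction.stabilizer G (t • a)) ⊓ Subgroup.centralizer {t} : Subgroup G) : Set G)) :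
    ∃ v ∈ (MulAction.stabilizer G a ⊓ MulAction.stabilizer G (t • a)) ⊓ Subgroup.centralizer {t}, (fun x => v * x * v⁻¹) '' X = (fun x => g * x * g⁻¹) '' X := by
  have hti := ro_t_inv hS
  have hXD : ∀ x ∈ X, x • a = a ∧ x • t • a = t • a := fun x hx => ro_mem_D.mp (hX hx).1
  have hXt : ∀ x ∈ X, x * t = t * x := fun x hx => (mem_centralizer_singleton.mp (hX hx).2).symm
  have hYD : ∀ x ∈ X, (g * x * g⁻¹) • a = a ∧ (g * x * g⁻¹) • t • a = t • a :=
    fun x hx => ro_mem_D.mp (hY ⟨x, hx, rfl⟩).1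
  have hYt : ∀ x ∈ X, (g * x * g⁻¹) * t = t * (g * x * g⁻¹) :=
    fun x hx => (mem_centralizer_singleton.mp (hY ⟨x, hx, rfl⟩).2).symm
  -- three fixed points of `X`
  obtain ⟨c, hc, hca, hcb⟩ := ro_t_fixed hS
  have hXc : ∀ x ∈ X, x • c = c := by
    intro x hx
    apply ro_invol_fix_unique hS hS.ne_one hS.mul_self hc
    rw [← mul_smul, ← hXt x hx, mul_smul, hc]
  have h3 : ∃ b c d : Ω, b ≠ c ∧ b ≠ d ∧ c ≠ d ∧ ∀ x ∈ X, x • b = b ∧ x • c = c ∧ x • d = d :=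
    ⟨a, t • a, c, (ro_b_ne hS).symm, hca.symm, hcb.symm,
      fun x hx => ⟨(hXD x hx).1, (hXD x hx).2, hXc x hx⟩⟩
  -- `g⁻¹ • a` and `g⁻¹ • t • a` are fixed by `X`
  have hfa : ∀ x ∈ X, x • g⁻¹ • a = g⁻¹ • a := by
    intro x hx
    have := (hYD x hx).1
    rw [mul_smul, mul_smul] at this
    rw [eq_inv_smul_iff]; exact this
  have hfb : ∀ x ∈ X, x • g⁻¹ • t • a = g⁻¹ • t • a := by
    intro x hx
    have := (hYD x hx).2
    rw [mul_smul, mul_smul] at this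
    rw [eq_inv_smul_iff]; exact this
  obtain ⟨h, hh, hha, hhb⟩ := ro_cent_two_trans hS h3 (b₁ := a) (b₂ := t • a) (c₁ := g⁻¹ • a)
    (c₂ := g⁻¹ • t • a)
    (fun x hx => ⟨(hXD x hx).1, (hXD x hx).2, hfa x hx, hfb x hx⟩) (ro_b_ne hS).symm
    (fun e => (ro_b_ne hS).symm (smul_left_cancel g⁻¹ e))
  have hg'D : g * h ∈ MulAction.stabilizer G a ⊓ MulAction.stabilizer G (t • a) := by
    rw [ro_mem_D]
    constructor
    · rw [mul_smul, hha, smul_inv_smul]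
    · rw [mul_smul, hhb, smul_inv_smul]
  have hg'D' := ro_mem_D.mp hg'D
  have hg'x : ∀ x ∈ X, (g * h) * x * (g * h)⁻¹ = g * x * g⁻¹ := by
    intro x hx
    have hhx : x * h = h * x := (Subgroup.mem_centralizer_iff.mp hh) x hx
    calc (g * h) * x * (g * h)⁻¹ = g * (h * x) * h⁻¹ * g⁻¹ := by group
      _ = g * x * g⁻¹ := by rw [← hhx]; group
  -- the involution `u = g'⁻¹ t g'`
  have hu2 : ((g * h)⁻¹ * t * (g * h)) * ((g * h)⁻¹ * t * (g * h)) = 1 := by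
    have := conj_mul_self (g := (g * h)⁻¹) hS.mul_self
    rwa [inv_inv] at this
  have hua : ((g * h)⁻¹ * t * (g * h)) • a = t • a := by
    rw [mul_smul, mul_smul, hg'D'.1, inv_smul_eq_iff, hg'D'.2]
  have hXu : ∀ x ∈ X, x * ((g * h)⁻¹ * t * (g * h)) = ((g * h)⁻¹ * t * (g * h)) * x := by
    intro x hx
    have e := hYt x hx
    rw [← hg'x x hx] at e
    calc x * ((g * h)⁻¹ * t * (g * h))
        = (g * h)⁻¹ * (((g * h) * x * (g * h)⁻¹) * t) * (g * h) := by group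
      _ = (g * h)⁻¹ * (t * ((g * h) * x * (g * h)⁻¹)) * (g * h) := by rw [e]
      _ = ((g * h)⁻¹ * t * (g * h)) * x := by group
  obtain ⟨k, hk, hku⟩ := ro_swap_conj hS hu2 hua hXt hXu
  refine ⟨(g * h) * k⁻¹, ⟨Subgroup.mul_mem _ hg'D (Subgroup.inv_mem _ hk.1), ?_⟩, ?_⟩
  · refine mem_centralizer_singleton.mpr ?_
    have e : ((g * h) * k⁻¹) * t * ((g * h) * k⁻¹)⁻¹ = t := by
      calc ((g * h) * k⁻¹) * t * ((g * h) * k⁻¹)⁻¹ = (g * h) * (k⁻¹ * t * k) * (g * h)⁻¹ := by group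
        _ = t := by rw [hku]; group
    calc t * ((g * h) * k⁻¹) = (((g * h) * k⁻¹) * t * ((g * h) * k⁻¹)⁻¹) * ((g * h) * k⁻¹) := by
          rw [e]
      _ = ((g * h) * k⁻¹) * t := by group
  · apply Set.image_congr
    intro x hx
    have hkx : x * k = k * x := (Subgroup.mem_centralizer_iff.mp hk.2) x hx
    show (g * h) * k⁻¹ * x * ((g * h) * k⁻¹)⁻¹ = g * x * g⁻¹
    rw [← hg'x x hx]
    calc (g * h) * k⁻¹ * x * ((g * h) * k⁻¹)⁻¹ = (g * h) * k⁻¹ * (x * k) * (g * h)⁻¹ := by group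
      _ = (g * h) * x * (g * h)⁻¹ := by rw [hkx]; group

end Cfsg.Agent.S1134
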