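import Cfsg.Statements.S1141
import Cfsg.Agent.Helper43.SylowSU3

set_option autoImplicit false
open Cfsg

namespace Cfsg.Agent.S1141

/-- Let `q = 2^n ≥ 4` and `|F| = q²`. A Sylow 2-subgroup `S` of `PSU₃(q)` has order `q³`, its centre has order `q`, and `S` is a Suzuki 2-group. -/
theorem result {F : Type*} [Field F] [Fintype F] {n : ℕ} (hn : 2 ≤ n)
    (hF : Fintype.card F = (2 ^ n) ^ 2) (S : Sylow 2 (Cfsg.PSU 3 F (2 ^ n))) :
    Nat.card S = (2 ^ n) ^ 3 ∧ Nat.card (Subgroup.center ↥(S : Subgroup (Cfsg.PSU 3 F (2 ^ n)))) = 2 ^ n ∧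
      Cfsg.IsSuzukiTwoGroup ↥(S : Subgroup (Cfsg.PSU 3 F (2 ^ n))) := by
  have hchar : CharP F 2 := Cfsg.Agent.Helper43.HeisGroup.charP_two_of_card (by omega) hF
  obtain ⟨H⟩ := Cfsg.Agent.Helper43.SylowSU3.exists_param_sylow hF (k := n) (by omega) rfl S
  exact ⟨Cfsg.Agent.Helper43.HeisGroup.card_eq hF H,
    Cfsg.Agent.Helper43.HeisGroup.card_center hF H,
    Cfsg.Agent.Helper43.HeisGroup.isSuzuki hF H hn rfl⟩

end Cfsg.Agent.S1141
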