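-- Statement S1142 (Feit–Higman for rank 2 BN-pairs).  (B,N)-pair half: helper25 (chamber matrices,
-- `exists_heckeCfg`); linear-algebra half: helper3 and the S1142-LA piece-takers (`HeckeCfg.m_mem`).
import Cfsg.Statements.S1142
import Cfsg.Agent.Helper25.FHCfg
import Cfsg.Agent.Helper3.FHMain

set_option autoImplicit false
open Cfsg

namespace Cfsg.Agent.S1142

/-- Feit–Higman: if a finite group has a (B,N)-pair of rank 2, its Weyl group `N/(B ⊓ N)` has order 4, 6, 8, 12 or 16. -/
theorem result {G : Type*} [Group G] [Finite G] (P : Cfsg.BNPair G)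
    (h2 : P.rank = 2) :
    ((P.B ⊓ P.N).subgroupOf P.N).index ∈ ({4, 6, 8, 12, 16} : Set ℕ) := by
  classical
  have : Fintype (G ⧸ P.B) := Fintype.ofFinite _
  have : Nonempty (G ⧸ P.B) := ⟨QuotientGroup.mk 1⟩
  obtain ⟨C, hC⟩ := Cfsg.Agent.Helper25.FH.exists_heckeCfg P h2
  have h := C.m_mem
  rw [← hC]
  simp only [Set.mem_insert_iff, Set.mem_singleton_iff] at h ⊢
  omega

end Cfsg.Agent.S1142
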