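import Mathlib
import Cfsg.Statements.S1160
import Cfsg.Agent.S0126

set_option autoImplicit false
open Cfsg

namespace Cfsg.Agent.S1160

open Cfsg.Agent.S0126

section trace

variable {P E : Type*} [Group P] [AddCommGroup E] [DistribMulAction P E]

/-- the trace operator of a (cyclic) element -/
def tr (p : ℕ) (u : P) (a : E) : E := ∑ k ∈ Finset.range p, u ^ k • a

theorem tr_add (p : ℕ) (u : P) (a b : E) : tr p u (a + b) = tr p u a + tr p u b := by
  simp only [tr, smul_add, Finset.sum_add_distrib]

theorem tr_sub (p : ℕ) (u : P) (a b : E) : tr p u (a - b) = tr p u a - tr p u b := by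
  simp only [tr, smul_sub, Finset.sum_sub_distrib]

theorem pow_smul_fixed (u : P) (a : E) (h : u • a = a) (k : ℕ) : u ^ k • a = a := by
  induction k with
  | zero => simp
  | succ k ih => rw [pow_succ, mul_smul, h, ih]

theorem tr_fixed (p : ℕ) (u : P) (a : E) (h : u • a = a) : tr p u a = p • a := by
  simp only [tr, pow_smul_fixed u a h, Finset.sum_const, Finset.card_range]

theorem smul_tr (p : ℕ) (u : P) (hu : u ^ p = 1) (a : E) : u • tr p u a = tr p u a := by
  unfold tr
  rw [Finset.smul_sum]
  have h0 : ∀ k, u • u ^ k • a = u ^ (k + 1) • a := fun k => by rw [pow_succ', mul_smul]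
  simp only [h0]
  have h1 := Finset.sum_range_succ (fun k => u ^ k • a) p
  have h2 := Finset.sum_range_succ' (fun k => u ^ k • a) p
  rw [h2] at h1
  simp only [hu, pow_zero] at h1
  exact add_right_cancel h1

theorem tr_comm_smul (p : ℕ) (g u : P) (h : g * u = u * g) (a : E) :
    g • tr p u a = tr p u (g • a) := by
  unfold tr
  rw [Finset.smul_sum]
  apply Finset.sum_congr rfl
  intro k _
  rw [← mul_smul, ← mul_smul, (Commute.pow_right (show Commute g u from h) k).eq]

theorem tr_mul_central (p : ℕ) (w c : P) (hc : ∀ g : P, g * c = c * g) (a : E) (hw : w • a = a) :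
    tr p (w * c) a = tr p c a := by
  unfold tr
  apply Finset.sum_congr rfl
  intro k _
  rw [(show Commute w c from hc w).mul_pow, (Commute.pow_pow (show Commute w c from hc w) k k).eq,
    mul_smul, pow_smul_fixed w a hw]

end trace

theorem stab_eq {P E : Type*} [Group P] [Finite P] [AddCommGroup E] [DistribMulAction P E]
    (hconst : ∀ a b : E, a ≠ 0 → b ≠ 0 →
      Nat.card (MulAction.stabilizer P a) = Nat.card (MulAction.stabilizer P b))
    (a b : E) (ha : a ≠ 0) (hb : b ≠ 0) (hab : a + b ≠ 0)
    (h : ∀ g : P, g • (a + b) = a + b → g • a = a ∧ g • b = b) :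
    MulAction.stabilizer P a = MulAction.stabilizer P b := by
  have h1 : MulAction.stabilizer P (a + b) = MulAction.stabilizer P a :=
    Subgroup.eq_of_le_of_card_ge (fun g hg => (h g hg).1) (le_of_eq (hconst a (a + b) ha hab))
  have h2 : MulAction.stabilizer P (a + b) = MulAction.stabilizer P b :=
    Subgroup.eq_of_le_of_card_ge (fun g hg => (h g hg).2) (le_of_eq (hconst b (a + b) hb hab))
  rw [← h1, h2]

/-- Let `p ≠ 2` be prime and `P` a finite `p`-group acting faithfully by additive automorphisms on a finite elementary abelian `q`-group `E` (`q` prime), such that `|P_a|` is the same for all `a ≠ 0`. Then `P` is cyclic and every non-identity element of `P` fixes only `0`. -/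
theorem result {P E : Type*} [Group P] [Finite P]
    [AddCommGroup E] [Finite E] [DistribMulAction P E] [FaithfulSMul P E]
    {p q : ℕ} [Fact p.Prime] (hp2 : p ≠ 2) (hP : IsPGroup p P) (hq : q.Prime) (hE : ∀ e : E, q • e = 0)
    (hconst : ∀ a b : E, a ≠ 0 → b ≠ 0 →
      Nat.card (MulAction.stabilizer P a) = Nat.card (MulAction.stabilizer P b)) :
    IsCyclic P ∧ ∀ g : P, g ≠ 1 → ∀ a : E, g • a = a → a = 0 := by
  have hpp : p.Prime := Fact.out
  by_cases hqp : q = p
  · rw [hqp] at hE
    have htriv : ∀ g : P, g = 1 := by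
      by_cases hEs : Subsingleton E
      · intro g
        apply FaithfulSMul.eq_of_smul_eq_smul (α := E)
        intro a; exact Subsingleton.elim _ _
      · rw [not_subsingleton_iff_nontrivial] at hEs
        obtain ⟨e, he⟩ := exists_ne (0 : E)
        have hord : addOrderOf e = p := by
          have h1 : addOrderOf e ∣ p := addOrderOf_dvd_of_nsmul_eq_zero (hE e)
          rcases (Nat.dvd_prime hpp).mp h1 with h2 | h2
          · exact absurd (AddMonoid.addOrderOf_eq_one_iff.mp h2) he
          · exact h2
        have hdvd : p ∣ Nat.card E := hord ▸ addOrderOf_dvd_natCard e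
        have h0 : (0 : E) ∈ MulAction.fixedPoints P E := fun g => smul_zero g
        obtain ⟨b, hb, hb0⟩ := hP.exists_fixed_point_of_prime_dvd_card_of_fixed_point E hdvd h0
        have hstb : MulAction.stabilizer P b = ⊤ := by
          rw [eq_top_iff]; intro g _; exact hb g
        intro g
        apply FaithfulSMul.eq_of_smul_eq_smul (α := E)
        intro a
        rw [one_smul]
        by_cases ha : a = 0
        · rw [ha, smul_zero]
        · have hc := hconst a b ha (Ne.symm hb0)
          rw [hstb] at hc
          have : MulAction.stabilizer P a = ⊤ :=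
            (Subgroup.card_eq_iff_eq_top _).mp (hc.trans Subgroup.card_top)
          have hg : g ∈ MulAction.stabilizer P a := this ▸ Subgroup.mem_top g
          exact hg
    have : Subsingleton P := ⟨fun a b => (htriv a).trans (htriv b).symm⟩
    exact ⟨isCyclic_of_subsingleton, fun g hg => absurd (htriv g) hg⟩
  · have hcop : Nat.Coprime p q := (Nat.coprime_primes hpp hq).mpr (Ne.symm hqp)
    have hpq : ∀ a : E, p • a = 0 → a = 0 := by
      intro a ha
      obtain ⟨m, n, hmn⟩ := Nat.isCoprime_iff_coprime.mpr hcop
      have : a = (m * (p : ℤ) + n * (q : ℤ)) • a := by rw [hmn, one_zsmul]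
      rw [this, add_smul, mul_smul, mul_smul, natCast_zsmul, natCast_zsmul, ha, hE a, smul_zero,
        smul_zero, add_zero]
    have F2 : ∀ c : P, (∀ g : P, g * c = c * g) → c ≠ 1 → c ^ p = 1 → ∀ v : E, c • v = v → v = 0 := by
      intro c hcc hc1 hcp v₀ hv₀
      by_contra hv₀ne
      have hUW : ∀ v : E, c • (v - c • v) = v - c • v → v - c • v = 0 := by
        intro v hfix
        apply hpq
        rw [← tr_fixed p c _ hfix, tr_sub, ← tr_comm_smul p c c rfl, smul_tr p c hcp, sub_self]
      apply hc1
      apply FaithfulSMul.eq_of_smul_eq_smul (α := E)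
      intro v
      rw [one_smul]
      by_contra hne
      have hb : v - c • v ≠ 0 := fun h => hne (sub_eq_zero.mp h).symm
      have hab : v₀ + (v - c • v) ≠ 0 := by
        intro h
        have h1 : v - c • v = -v₀ := by rw [eq_neg_iff_add_eq_zero, add_comm]; exact h
        have h2 : c • (v - c • v) = v - c • v := by rw [h1, smul_neg, hv₀]
        exact hb (hUW v h2)
      have hst := stab_eq hconst v₀ (v - c • v) hv₀ne hb hab (by
        intro g hg
        have h2 : g • (v - c • v) = g • v - c • (g • v) := by
          rw [smul_sub, ← mul_smul, hcc g, mul_smul]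
        rw [smul_add, h2] at hg
        have h1 : g • v₀ - v₀ = (v - g • v) - c • (v - g • v) := by
          rw [eq_sub_of_add_eq hg, smul_sub]; abel
        have h3 : c • (g • v₀ - v₀) = g • v₀ - v₀ := by
          rw [smul_sub, hv₀, ← mul_smul, ← hcc g, mul_smul, hv₀]
        rw [h1] at h3
        have h4 := hUW (v - g • v) h3
        rw [← h1] at h4
        have h5 : g • v₀ = v₀ := sub_eq_zero.mp h4
        refine ⟨h5, ?_⟩
        rw [h5] at hg
        rw [h2]
        exact add_left_cancel hg)
      have hcb : c • (v - c • v) = v - c • v := by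
        have : c ∈ MulAction.stabilizer P v₀ := hv₀
        rw [hst] at this
        exact this
      exact hb (hUW v hcb)
    -- lemma K
    have K : ∀ (u c : P) (e : E), (∀ g : P, g * c = c * g) → c ≠ 1 → c ^ p = 1 →
        (c * u) • e = e → tr p u e = 0 := by
      intro u c e hcc hc1 hcp hfix
      have hci : ∀ g : P, g * c⁻¹ = c⁻¹ * g := by
        intro g
        have := hcc g
        calc g * c⁻¹ = c⁻¹ * (c * g) * c⁻¹ := by group
          _ = c⁻¹ * (g * c) * c⁻¹ := by rw [this]
          _ = c⁻¹ * g := by group
      have hu : u = (c * u) * c⁻¹ := by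
        rw [mul_assoc, hci u, ← mul_assoc, mul_inv_cancel, one_mul]
      rw [hu, tr_mul_central p (c * u) c⁻¹ hci e hfix]
      apply F2 c⁻¹ hci (by simpa using hc1) (by rw [inv_pow, hcp, inv_one])
      exact smul_tr p c⁻¹ (by rw [inv_pow, hcp, inv_one]) e
    have F4 : IsCyclic P := by
      by_contra hnc
      obtain ⟨A, hAn, ⟨hAc, hAp⟩, hAcard⟩ := Cfsg.Agent.S0126.result hp2 hP hnc
      have hAne : A ≠ ⊥ := by
        intro h
        rw [h, Subgroup.card_bot] at hAcard
        have := hpp.two_le
        nlinarith
      obtain ⟨z, hzA, hzc, hzo⟩ := exists_central_order_p hP A hAne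
      have hzc' : ∀ g : P, g * z = z * g := Subgroup.mem_center_iff.mp hzc
      have hz1 : z ≠ 1 := by
        intro h
        rw [h, orderOf_one] at hzo
        exact hpp.one_lt.ne hzo
      have hzp : z ^ p = 1 := hzo ▸ pow_orderOf_eq_one z
      have hZc : Subgroup.zpowers z ≤ Subgroup.center P := Subgroup.zpowers_le.mpr hzc
      have hZA : Subgroup.zpowers z ≤ A := Subgroup.zpowers_le.mpr hzA
      have hZn : (Subgroup.zpowers z).Normal := by
        constructor
        intro x hx g
        have := Subgroup.mem_center_iff.mp (hZc hx) g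
        rw [this]; simpa using hx
      have hZcard : Nat.card (Subgroup.zpowers z) = p := by rw [Nat.card_zpowers, hzo]
      -- [P, A] ≤ Z
      have hPA : ∀ x ∈ A, ∀ g : P, g * x * g⁻¹ * x⁻¹ ∈ Subgroup.zpowers z := by
        obtain ⟨Ab, hAb⟩ : ∃ Ab : Subgroup (P ⧸ Subgroup.zpowers z),
            Ab = A.map (QuotientGroup.mk' (Subgroup.zpowers z)) := ⟨_, rfl⟩
        have hAbn : Ab.Normal := by
          rw [hAb]; exact hAn.map _ (QuotientGroup.mk'_surjective _)
        have hAbc : Ab.comap (QuotientGroup.mk' (Subgroup.zpowers z)) = A := by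
          rw [hAb]
          apply Subgroup.comap_map_eq_self
          rw [QuotientGroup.ker_mk']; exact hZA
        have hAbcard : Nat.card Ab = p := by
          have h1 := card_comap_mk (Subgroup.zpowers z) Ab
          rw [hAbc, hAcard, hZcard] at h1
          have : p * p = Nat.card Ab * p := by rw [← h1]; ring
          exact (Nat.eq_of_mul_eq_mul_right hpp.pos this).symm
        have hAbne : Ab ≠ ⊥ := by
          intro h
          rw [h, Subgroup.card_bot] at hAbcard
          exact hpp.one_lt.ne hAbcard
        obtain ⟨w, hwA, hwc, hwo⟩ :=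
          exists_central_order_p (hP.to_quotient (Subgroup.zpowers z)) Ab hAbne
        have hwAb : Subgroup.zpowers w = Ab := by
          apply Subgroup.eq_of_le_of_card_ge (Subgroup.zpowers_le.mpr hwA)
          rw [hAbcard, Nat.card_zpowers, hwo]
        intro x hx g
        have hxb : QuotientGroup.mk' (Subgroup.zpowers z) x ∈ Subgroup.center (P ⧸ Subgroup.zpowers z) := by
          have : QuotientGroup.mk' (Subgroup.zpowers z) x ∈ Ab := by
            rw [hAb]; exact Subgroup.mem_map_of_mem _ hx
          rw [← hwAb] at this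
          exact (Subgroup.zpowers_le.mpr hwc) this
        have h1 := Subgroup.mem_center_iff.mp hxb (QuotientGroup.mk' (Subgroup.zpowers z) g)
        have h2 : QuotientGroup.mk' (Subgroup.zpowers z) (g * x * g⁻¹ * x⁻¹) = 1 := by
          rw [map_mul, map_mul, map_mul, map_inv, map_inv, h1]; group
        rw [QuotientGroup.mk'_apply, QuotientGroup.eq_one_iff] at h2
        exact h2
      have hcen : ∀ x ∈ A, ∀ g : P, (∀ h : P, h * (g * x * g⁻¹ * x⁻¹) = (g * x * g⁻¹ * x⁻¹) * h) ∧
          (g * x * g⁻¹ * x⁻¹) ^ p = 1 := by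
        intro x hx g
        refine ⟨Subgroup.mem_center_iff.mp (hZc (hPA x hx g)), ?_⟩
        exact hAp _ (hZA (hPA x hx g))
      obtain ⟨v, hv⟩ : ∃ v : E, v ≠ 0 := by
        by_contra h
        push Not at h
        apply hnc
        have : Subsingleton P := ⟨fun a b => FaithfulSMul.eq_of_smul_eq_smul (α := E)
          (fun e => by rw [h e, smul_zero, smul_zero])⟩
        exact isCyclic_of_subsingleton
      obtain ⟨x₀, hx₀A, hx₀Z⟩ : ∃ x₀ ∈ A, x₀ ∉ Subgroup.zpowers z := by
        by_contra h
        push Not at h
        have h1 : A ≤ Subgroup.zpowers z := h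
        have h2 := Subgroup.card_le_of_le h1
        rw [hAcard, hZcard] at h2
        have := hpp.two_le
        nlinarith
      have hid : ∑ i ∈ Finset.range p, tr p (x₀ * z ^ i) v = p • v := by
        have h1 : ∀ i k : ℕ, (x₀ * z ^ i) ^ k • v = x₀ ^ k • (z ^ k) ^ i • v := by
          intro i k
          have hcomm : Commute x₀ (z ^ i) := Commute.pow_right (show Commute x₀ z from hzc' x₀) i
          rw [hcomm.mul_pow, mul_smul, ← pow_mul, ← pow_mul, mul_comm i k]
        simp only [tr, h1]
        rw [Finset.sum_comm]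
        simp only [← Finset.smul_sum]
        rw [Finset.sum_eq_single_of_mem 0 (Finset.mem_range.mpr hpp.pos)]
        · simp
        · intro k hk hk0
          have hzk1 : z ^ k ≠ 1 := by
            intro h
            have h1 := orderOf_dvd_of_pow_eq_one h
            rw [hzo] at h1
            have h2 := Nat.le_of_dvd (Nat.pos_of_ne_zero hk0) h1
            have h3 := Finset.mem_range.mp hk
            omega
          have hzkp : (z ^ k) ^ p = 1 := by rw [← pow_mul, mul_comm, pow_mul, hzp, one_pow]
          have hzkc : ∀ g : P, g * z ^ k = z ^ k * g := fun g =>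
            (Commute.pow_right (show Commute g z from hzc' g) k).eq
          have htr : (∑ i ∈ Finset.range p, (z ^ k) ^ i • v) = 0 := by
            apply F2 (z ^ k) hzkc hzk1 hzkp
            exact smul_tr p (z ^ k) hzkp v
          rw [htr, smul_zero]
      obtain ⟨i, hi⟩ : ∃ i : ℕ, tr p (x₀ * z ^ i) v ≠ 0 := by
        by_contra h
        push Not at h
        apply hv
        apply hpq
        rw [← hid]
        exact Finset.sum_eq_zero (fun i _ => h i)
      obtain ⟨x, hxdef⟩ : ∃ x : P, x = x₀ * z ^ i := ⟨_, rfl⟩
      rw [← hxdef] at hi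
      have hxA : x ∈ A := by rw [hxdef]; exact A.mul_mem hx₀A (A.pow_mem hzA i)
      have hxp : x ^ p = 1 := hAp x hxA
      have hx1 : x ≠ 1 := by
        intro h
        apply hx₀Z
        have : x₀ = (z ^ i)⁻¹ := by
          rw [hxdef] at h
          exact eq_inv_of_mul_eq_one_left h
        rw [this]
        exact Subgroup.inv_mem _ (Subgroup.pow_mem _ (Subgroup.mem_zpowers z) i)
      obtain ⟨a, hadef⟩ : ∃ a : E, a = tr p x v := ⟨_, rfl⟩
      rw [← hadef] at hi
      have hxa : x • a = a := by rw [hadef]; exact smul_tr p x hxp v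
      obtain ⟨g, hg⟩ : ∃ g : P, g * x ≠ x * g := by
        by_contra h
        push Not at h
        exact hi (F2 x h hx1 hxp a hxa)
      obtain ⟨c₀, hc₀def⟩ : ∃ c₀ : P, c₀ = g * x * g⁻¹ * x⁻¹ := ⟨_, rfl⟩
      have hc₀c : ∀ h : P, h * c₀ = c₀ * h := by rw [hc₀def]; exact (hcen x hxA g).1
      have hc₀p : c₀ ^ p = 1 := by rw [hc₀def]; exact (hcen x hxA g).2
      have hc₀1 : c₀ ≠ 1 := by
        intro h
        apply hg
        rw [hc₀def] at h
        calc g * x = (g * x * g⁻¹ * x⁻¹) * x * g := by group
          _ = x * g := by rw [h, one_mul]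
      have hc₀x : c₀ * x = g * x * g⁻¹ := by rw [hc₀def]; group
      obtain ⟨b, hbdef⟩ : ∃ b : E, b = g • a := ⟨_, rfl⟩
      have hb0 : b ≠ 0 := by rw [hbdef]; exact fun h => hi ((smul_eq_zero_iff_eq g).mp h)
      have hyb : (c₀ * x) • b = b := by
        rw [hc₀x, hbdef, ← mul_smul, inv_mul_cancel_right, mul_smul, hxa]
      have hfix2 : ∀ (c : P) (d : E), (∀ h : P, h * c = c * h) → c ≠ 1 → c ^ p = 1 →
          x • d = d → (c * x) • d = d → d = 0 := by
        intro c d hcc hc1 hcp h1 h2
        apply F2 c hcc hc1 hcp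
        rw [mul_smul, h1] at h2
        exact h2
      have hab : a + b ≠ 0 := by
        intro h
        have h1 : b = -a := by rw [eq_neg_iff_add_eq_zero, add_comm]; exact h
        exact hb0 (hfix2 c₀ b hc₀c hc₀1 hc₀p (by rw [h1, smul_neg, hxa]) hyb)
      have hc₀sq : c₀ * c₀ ≠ 1 := by
        intro h
        apply hc₀1
        have h1 : orderOf c₀ ∣ 2 := orderOf_dvd_of_pow_eq_one (by rw [pow_two]; exact h)
        have h2 : orderOf c₀ ∣ p := orderOf_dvd_of_pow_eq_one hc₀p
        have h3 : orderOf c₀ ∣ Nat.gcd 2 p := Nat.dvd_gcd h1 h2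
        have h4 : Nat.gcd 2 p = 1 := by
          rw [Nat.coprime_primes Nat.prime_two hpp |>.mpr (Ne.symm hp2)]
        rw [h4, Nat.dvd_one, orderOf_eq_one_iff] at h3
        exact h3
      have hst := stab_eq hconst a b hi hb0 hab (by
        intro h hh
        obtain ⟨c₁, hc₁def⟩ : ∃ c₁ : P, c₁ = h * x * h⁻¹ * x⁻¹ := ⟨_, rfl⟩
        have hc₁c : ∀ k : P, k * c₁ = c₁ * k := by rw [hc₁def]; exact (hcen x hxA h).1
        have hc₁p : c₁ ^ p = 1 := by rw [hc₁def]; exact (hcen x hxA h).2
        have hc₁x : c₁ * x = h * x * h⁻¹ := by rw [hc₁def]; group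
        have ha' : (c₁ * x) • (h • a) = h • a := by
          rw [hc₁x, ← mul_smul, inv_mul_cancel_right, mul_smul, hxa]
        have hb' : (c₀ * c₁ * x) • (h • b) = h • b := by
          have e1 : c₀ * c₁ * x = h * (c₀ * x) * h⁻¹ := by
            rw [mul_assoc, hc₁x, ← mul_assoc h, hc₀c h]; group
          rw [e1, ← mul_smul, inv_mul_cancel_right, mul_smul, hyb]
        rw [smul_add] at hh
        by_cases hc₁1 : c₁ = 1
        · rw [hc₁1, one_mul] at ha'
          rw [hc₁1, mul_one] at hb'
          have hd : a - h • a = h • b - b := by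
            rw [sub_eq_sub_iff_add_eq_add, ← hh, add_comm]
          have hd0 : a - h • a = 0 := by
            apply hfix2 c₀ _ hc₀c hc₀1 hc₀p
            · rw [smul_sub, hxa, ha']
            · rw [hd, smul_sub, hb', hyb]
          have h1 : h • a = a := (sub_eq_zero.mp hd0).symm
          refine ⟨h1, ?_⟩
          rw [h1] at hh
          exact add_left_cancel hh
        · exfalso
          by_cases hcc1 : c₀ * c₁ = 1
          · -- b' fixed by x
            rw [hcc1, one_mul] at hb'
            have hc₁eq : c₁ = c₀⁻¹ := eq_inv_of_mul_eq_one_right hcc1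
            have hbe : b = h • a + h • b - a := by rw [hh]; abel
            have hci : ∀ k : P, k * c₀⁻¹ = c₀⁻¹ * k := by
              intro k
              have := hc₀c k
              calc k * c₀⁻¹ = c₀⁻¹ * (c₀ * k) * c₀⁻¹ := by group
                _ = c₀⁻¹ * (k * c₀) * c₀⁻¹ := by rw [this]
                _ = c₀⁻¹ * k := by group
            have hci1 : c₀⁻¹ ≠ 1 := by simpa using hc₀1
            have hcip : c₀⁻¹ ^ p = 1 := by rw [inv_pow, hc₀p, inv_one]
            have t1 : tr p (c₀ * x) b = p • b := tr_fixed p (c₀ * x) b hyb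
            have t2 : tr p (c₀ * x) a = 0 :=
              K (c₀ * x) c₀⁻¹ a hci hci1 hcip (by rw [inv_mul_cancel_left]; exact hxa)
            have t3 : tr p (c₀ * x) (h • b) = 0 :=
              K (c₀ * x) c₀⁻¹ (h • b) hci hci1 hcip (by rw [inv_mul_cancel_left]; exact hb')
            have t4 : tr p (c₀ * x) (h • a) = 0 := by
              apply K (c₀ * x) (c₀⁻¹ * c₀⁻¹) (h • a)
              · intro k
                rw [← mul_assoc, hci k, mul_assoc, hci k, ← mul_assoc]
              · intro hh2
                apply hc₀sq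
                have : (c₀ * c₀)⁻¹ = 1 := by rw [mul_inv_rev]; exact hh2
                exact inv_eq_one.mp this
              · rw [(show Commute c₀⁻¹ c₀⁻¹ from rfl).mul_pow, hcip, one_mul]
              · have e2 : c₀⁻¹ * c₀⁻¹ * (c₀ * x) = c₁ * x := by rw [hc₁eq]; group
                rw [e2]; exact ha'
            have : p • b = 0 := by
              rw [← t1]
              conv_lhs => rw [hbe]
              rw [tr_sub, tr_add, t2, t3, t4]; simp
            exact hb0 (hpq b this)
          · have hae : a = h • a + h • b - b := by rw [hh]; abel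
            have t1 : tr p x a = p • a := tr_fixed p x a hxa
            have t2 : tr p x (h • a) = 0 := K x c₁ (h • a) hc₁c hc₁1 hc₁p ha'
            have t3 : tr p x (h • b) = 0 := by
              apply K x (c₀ * c₁) (h • b) _ hcc1 _ hb'
              · intro k
                rw [← mul_assoc, hc₀c k, mul_assoc, hc₁c k, ← mul_assoc]
              · rw [(show Commute c₀ c₁ from hc₁c c₀).mul_pow, hc₀p, hc₁p, one_mul]
            have t4 : tr p x b = 0 := K x c₀ b hc₀c hc₀1 hc₀p hyb
            have : p • a = 0 := by
              rw [← t1]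
              conv_lhs => rw [hae]
              rw [tr_sub, tr_add, t2, t3, t4]; simp
            exact hi (hpq a this))
      have hxb : x • b = b := by
        have : x ∈ MulAction.stabilizer P a := hxa
        rw [hst] at this
        exact this
      exact hb0 (hfix2 c₀ b hc₀c hc₀1 hc₀p hxb hyb)
    refine ⟨F4, ?_⟩
    intro g hg1 a hga
    have hcomm : ∀ x y : P, x * y = y * x := fun x y =>
      (IsCyclic.isMulCommutative (α := P)).is_comm.comm x y
    have hne : Subgroup.zpowers g ≠ ⊥ := by
      intro h
      have : g ∈ Subgroup.zpowers g := Subgroup.mem_zpowers g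
      rw [h, Subgroup.mem_bot] at this
      exact hg1 this
    obtain ⟨u', hu'⟩ := exists_prime_orderOf_dvd_card' p (p_dvd_card_of_ne_bot hP _ hne)
    have huo : orderOf (u' : P) = p := by rw [Subgroup.orderOf_coe, hu']
    have hu1 : (u' : P) ≠ 1 := by
      intro h
      rw [h, orderOf_one] at huo
      exact hpp.one_lt.ne huo
    have hup : (u' : P) ^ p = 1 := by rw [← huo]; exact pow_orderOf_eq_one _
    have hua : (u' : P) • a = a := by
      have h1 : Subgroup.zpowers g ≤ MulAction.stabilizer P a := Subgroup.zpowers_le.mpr hga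
      exact h1 u'.2
    exact F2 (u' : P) (fun k => hcomm k _) hu1 hup a hua

end Cfsg.Agent.S1160
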