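import Cfsg.Statements.S1166
import Cfsg.Agent.Helper20.RankOne

set_option autoImplicit false
open Cfsg

namespace Cfsg.Agent.S1166

open Cfsg.Agent.Helper20 in
/-- In the rank-one set-up (`G` finite and doubly transitive on `Ω`, `t` an involution moving `a`, `Q` normal in `G_a` with `G_a = Q D`, `Q ⊓ D = 1` for the two-point stabiliser `D = G_a ⊓ G_{t • a}`, `|Q|` even, `|D|` odd), with `t x t = g_x h_x t f_x` and `t y t = g_y h_y t f_y` (`g, f ∈ Q`, `h ∈ D`) for `x, y ∈ Q ∖ 1` with `x y ≠ 1`: then `z = f_x g_y ≠ 1`, and if `t z t = g_z h_z t f_z` and `t (x y) t = g' h' t f'` then `f' = (t h_y t)⁻¹ f_z (t h_y t) f_y` and `h' = h_x h_z h_y` (H6). -/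
theorem result {G Ω : Type*} [Group G] [Finite G] [MulAction G Ω] {a : Ω} {t : G} {Q : Subgroup G}
    (hS : Cfsg.IsRankOneSetup G Ω a t Q)
    (x y gx hx fx gy hy fy : G) (hxQ : x ∈ Q) (hx1 : x ≠ 1) (hyQ : y ∈ Q) (hy1 : y ≠ 1) (hxy : x * y ≠ 1)
    (hgx : gx ∈ Q) (hhx : hx ∈ (MulAction.stabilizer G a ⊓ MulAction.stabilizer G (t • a))) (hfx : fx ∈ Q) (ex : t * x * t = gx * hx * t * fx)
    (hgy : gy ∈ Q) (hhy : hy ∈ (MulAction.stabilizer G a ⊓ MulAction.stabilizer G (t • a))) (hfy : fy ∈ Q) (ey : t * y * t = gy * hy * t * fy) :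
    fx * gy ≠ 1 ∧
      ∀ gz hz fz g' h' f' : G, gz ∈ Q → hz ∈ (MulAction.stabilizer G a ⊓ MulAction.stabilizer G (t • a)) → fz ∈ Q → t * (fx * gy) * t = gz * hz * t * fz →
        g' ∈ Q → h' ∈ (MulAction.stabilizer G a ⊓ MulAction.stabilizer G (t • a)) → f' ∈ Q → t * (x * y) * t = g' * h' * t * f' →
          f' = (t * hy * t)⁻¹ * fz * (t * hy * t) * fy ∧ h' = hx * hz * hy := by
  have htt := hS.mul_self
  have htinv := rankOne_t_inv hS
  have hDa : ∀ c ∈ MulAction.stabilizer G a ⊓ MulAction.stabilizer G (t • a),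
      c ∈ MulAction.stabilizer G a := fun c hc => (Subgroup.mem_inf.mp hc).1
  have hprod : t * (x * y) * t = gx * hx * t * (fx * gy) * hy * t * fy := by
    calc t * (x * y) * t = t * x * 1 * y * t := by group
      _ = t * x * (t * t) * y * t := by rw [htt]
      _ = (t * x * t) * (t * y * t) := by group
      _ = (gx * hx * t * fx) * (gy * hy * t * fy) := by rw [ex, ey]
      _ = gx * hx * t * (fx * gy) * hy * t * fy := by group
  constructor
  · intro h1
    apply hxy
    rw [h1, mul_one] at hprod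
    -- t (x y) t fixes a
    have hmem : t * (x * y) * t ∈ MulAction.stabilizer G a := by
      rw [hprod]
      have e : gx * hx * t * hy * t * fy = gx * hx * (t * hy * t) * fy := by group
      rw [e]
      exact Subgroup.mul_mem _ (Subgroup.mul_mem _ (Subgroup.mul_mem _ (hS.le hgx) (hDa hx hhx))
        (hDa _ (rankOne_conj_mem_D hS hhy))) (hS.le hfy)
    rw [MulAction.mem_stabilizer_iff] at hmem
    have h2 : (x * y) • t • a = t • a := by
      have : t • (t * (x * y) * t) • a = t • a := by rw [hmem]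
      rw [← mul_smul] at this
      have e : t * (t * (x * y) * t) = (t * t) * (x * y) * t := by group
      rw [e, htt, one_mul, mul_smul] at this
      exact this
    have h3 : x * y ∈ Q ⊓ MulAction.stabilizer G (t • a) :=
      Subgroup.mem_inf.mpr ⟨Q.mul_mem hxQ hyQ, MulAction.mem_stabilizer_iff.mpr h2⟩
    rw [hS.inf_eq_bot, Subgroup.mem_bot] at h3
    exact h3
  · intro gz hz fz g' h' f' hgz hhz hfz ez hg' hh' hf' e'
    have hd := rankOne_conj_mem_D hS hhy
    obtain ⟨d, hdd⟩ : ∃ d, d = t * hy * t := ⟨_, rfl⟩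
    rw [← hdd] at hd ⊢
    have e1 : t * (fx * gy) = gz * hz * t * fz * t := by
      calc t * (fx * gy) = (t * (fx * gy) * t) * t⁻¹ := by group
        _ = gz * hz * t * fz * t := by rw [ez, htinv]
    have e2 : t * (x * y) * t = (gx * (hx * gz * hx⁻¹)) * (hx * hz * hy) * t * (d⁻¹ * fz * d * fy) := by
      have e3 : t * d = hy * t := by
        rw [hdd]
        calc t * (t * hy * t) = (t * t) * hy * t := by group
          _ = hy * t := by rw [htt, one_mul]
      calc t * (x * y) * t = gx * hx * (t * (fx * gy)) * hy * t * fy := by rw [hprod]; group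
        _ = gx * hx * (gz * hz * t * fz * t) * hy * t * fy := by rw [e1]
        _ = gx * hx * gz * hz * t * fz * (t * hy * t) * fy := by group
        _ = gx * hx * gz * hz * (t * d) * (d⁻¹ * fz * d) * fy := by rw [← hdd]; group
        _ = gx * hx * gz * hz * (hy * t) * (d⁻¹ * fz * d) * fy := by rw [e3]
        _ = (gx * (hx * gz * hx⁻¹)) * (hx * hz * hy) * t * (d⁻¹ * fz * d * fy) := by group
    have hfz' : d⁻¹ * fz * d ∈ Q := by
      have := hS.conj_mem _ (Subgroup.inv_mem _ (hDa d hd)) _ hfz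
      rwa [inv_inv] at this
    exact rankOne_unique hS hg' hh' hf'
      (Q.mul_mem hgx (hS.conj_mem _ (hDa hx hhx) _ hgz))
      (Subgroup.mul_mem _ (Subgroup.mul_mem _ hhx hhz) hhy)
      (Q.mul_mem hfz' hfy) (e'.symm.trans e2)

end Cfsg.Agent.S1166
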