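import Cfsg.Statements.S1167
import Cfsg.Agent.Helper71.ZassBraid
import Cfsg.Agent.S0885

set_option autoImplicit false
open Cfsg

namespace Cfsg.Agent.S1167

/-- Let `G` be a finite simple Zassenhaus group on `Ω`, `U` a normal subgroup of `G_a` regular on `Ω` minus `a` which is an abelian 2-group, and `v` an involution with `v • a ≠ a`. Then there is a unique `u₀ ∈ U`, `u₀ ≠ 1`, with `v u₀ v = u₀ v u₀`. -/
theorem result {G Ω : Type*} [Group G] [Finite G] [MulAction G Ω] [Finite Ω]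
    (hZ : Cfsg.IsZassenhausGroup G Ω) [IsSimpleGroup G] {a : Ω}
    (U : Subgroup G) (hUle : U ≤ MulAction.stabilizer G a)
    (hUn : ∀ h ∈ MulAction.stabilizer G a, ∀ u ∈ U, h * u * h⁻¹ ∈ U)
    (hreg : ∀ c d : Ω, c ≠ a → d ≠ a → ∃! u : U, (u : G) • c = d)
    (hU2 : IsPGroup 2 U) (hUab : ∀ u ∈ U, ∀ u' ∈ U, u * u' = u' * u)
    (v : G) (hv1 : v ≠ 1) (hv2 : v * v = 1) (hva : v • a ≠ a) :
    ∃! u₀ : G, u₀ ∈ U ∧ u₀ ≠ 1 ∧ v * u₀ * v = u₀ * v * u₀ := by
  classical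
  have := Fintype.ofFinite Ω
  apply Cfsg.Agent.Helper71.ZassBraid.main hZ U hUle hUn hreg hU2 v hv1 hv2 hva
  have hab : a ≠ v • a := Ne.symm hva
  have hcard : Nat.card U + 1 = Nat.card Ω :=
    Cfsg.Agent.Helper71.ZassBraid.card_reg U hUle hreg hva
  have h3 := Cfsg.Agent.Helper15.zass_three_le_card hZ
  obtain ⟨k, hk⟩ := (IsPGroup.iff_card (p := 2) (G := U)).mp hU2
  have hk1 : k ≠ 0 := by
    rintro rfl
    rw [pow_zero] at hk
    omega
  have h2dvd : 2 ∣ Nat.card U := by rw [hk]; exact dvd_pow_self 2 hk1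
  have hedvd := Cfsg.Agent.Helper71.ZassBraid.card_stab_dvd hZ hab
  have hodd : Odd (Nat.card (MulAction.stabilizer G a ⊓ MulAction.stabilizer G (v • a) : Subgroup G)) := by
    rw [← Nat.not_even_iff_odd, even_iff_two_dvd]
    intro h
    have h5 : 2 ∣ Nat.card Ω - 2 := dvd_trans h hedvd
    have h6 : Nat.card Ω - 2 + 1 = Nat.card U := by omega
    have h7 : 2 ∣ Nat.card Ω - 2 + 1 := by rw [h6]; exact h2dvd
    omega
  have hfix : ∀ u ∈ U, u ≠ 1 → ∀ c : Ω, u • c = c → c = a := by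
    intro u hu hu1 c hc
    by_contra hca
    obtain ⟨w, -, hw⟩ := hreg c c hca hca
    have e1 := hw ⟨u, hu⟩ hc
    have e2 := hw 1 (one_smul G c)
    exact hu1 (congrArg Subtype.val (e1.trans e2.symm))
  have hh : Fintype.card Ω = Nat.card U + 1 := by
    rw [hcard, Nat.card_eq_fintype_card]
  have hHcard : Nat.card U + 1 = Fintype.card Ω := hh.symm
  rcases Cfsg.Agent.S0885.result hZ hab (Nat.card U) _ hh rfl hodd U hUle hHcard hfix
    with h | ⟨-, ⟨x, y, hxy⟩, -⟩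
  · exact h
  · exact absurd (Subtype.ext (hUab x x.2 y y.2)) hxy

end Cfsg.Agent.S1167
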