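import Cfsg.Statements.S1168

set_option autoImplicit false
open Cfsg

namespace Cfsg.Agent.S1168

open Polynomial in
theorem L_inj {F : Type*} [Field F] [Fintype F] (n : ℕ) (hn : Fintype.card F = 2 ^ n)
    (a b : Fin n → F)
    (h : ∀ x : F, ∑ i : Fin n, a i * x ^ (2 ^ (i : ℕ)) = ∑ i : Fin n, b i * x ^ (2 ^ (i : ℕ))) :
    a = b := by
  classical
  let P : F[X] := ∑ i : Fin n, C (a i - b i) * X ^ (2 ^ (i : ℕ))
  have heval : ∀ x : F, P.eval (id x) = 0 := by
    intro x
    simp only [P, id, eval_finsetSum, eval_mul, eval_C, eval_pow, eval_X, sub_mul,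
      Finset.sum_sub_distrib]
    rw [h x, sub_self]
  have hdeg : P.natDegree < Fintype.card F := by
    rw [hn]
    have h1 : P.natDegree ≤ 2 ^ n - 1 := by
      apply natDegree_sum_le_of_forall_le
      intro i _
      refine le_trans (natDegree_C_mul_X_pow_le _ _) ?_
      have : 2 ^ (i : ℕ) < 2 ^ n := Nat.pow_lt_pow_right (by norm_num) i.2
      omega
    have : 0 < 2 ^ n := by positivity
    omega
  have hP : P = 0 := eq_zero_of_natDegree_lt_card_of_eval_eq_zero P Function.injective_id heval hdeg
  funext j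
  have hc : P.coeff (2 ^ (j : ℕ)) = a j - b j := by
    simp only [P, finsetSum_coeff, coeff_C_mul_X_pow]
    rw [Finset.sum_eq_single j]
    · simp
    · intro i _ hij
      rw [if_neg]
      intro h2
      exact hij (Fin.ext (Nat.pow_right_injective (le_refl 2) h2).symm)
    · intro h2; exact absurd (Finset.mem_univ j) h2
  rw [hP, coeff_zero] at hc
  exact sub_eq_zero.mp hc.symm

/-- the additive map `x ↦ Σ a_i x^(2^i)` -/
noncomputable def Lmap {F : Type*} [Field F] [CharP F 2] (n : ℕ) (a : Fin n → F) : F →+ F where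
  toFun x := ∑ i : Fin n, a i * x ^ (2 ^ (i : ℕ))
  map_zero' := Finset.sum_eq_zero (fun i _ => by rw [zero_pow (by positivity), mul_zero])
  map_add' x y := by
    simp only [add_pow_char_pow, mul_add, Finset.sum_add_distrib]

/-- Lemma A: every additive map of a finite field of characteristic 2 is a combination of
Frobenius powers. -/
theorem exists_coeffs {F : Type*} [Field F] [Fintype F] [CharP F 2] (n : ℕ)
    (hn : Fintype.card F = 2 ^ n) (f : F → F) (hf : ∀ x y, f (x + y) = f x + f y) :
    ∃ a : Fin n → F, ∀ x, f x = ∑ i : Fin n, a i * x ^ (2 ^ (i : ℕ)) := by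
  classical
  letI : Algebra (ZMod 2) F := ZMod.algebra F 2
  have hfin : Fintype.card F = 2 ^ Module.finrank (ZMod 2) F := by
    rw [Module.card_eq_pow_finrank (K := ZMod 2) (V := F), ZMod.card]
  have hnn : n = Module.finrank (ZMod 2) F :=
    Nat.pow_right_injective (le_refl 2) (hn.symm.trans hfin)
  -- cardinality of F →+ F
  let e1 : (F →+ F) ≃ (F →ₗ[ZMod 2] F) := (AddMonoidHom.toZModLinearMapEquiv 2).toEquiv
  let e2 : (Fin (Module.finrank (ZMod 2) F) → F) ≃ (F →ₗ[ZMod 2] F) :=
    ((Module.finBasis (ZMod 2) F).constr (ZMod 2)).toEquiv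
  have hcard : Nat.card (F →+ F) = Nat.card (Fin n → F) := by
    rw [hnn]
    exact Nat.card_congr (e1.trans e2.symm)
  haveI : Finite (F →+ F) := Finite.of_equiv _ (e1.trans e2.symm).symm
  have hinj : Function.Injective (Lmap n : (Fin n → F) → (F →+ F)) := by
    intro a b hab
    apply L_inj n hn a b
    intro x
    have := congrArg (fun g : F →+ F => g x) hab
    exact this
  have hbij := hinj.bijective_of_nat_card_le hcard.le
  obtain ⟨a, ha⟩ := hbij.2 (AddMonoidHom.mk' f hf)
  refine ⟨a, fun x => ?_⟩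
  have := congrArg (fun g : F →+ F => g x) ha
  exact this.symm

/-- linear combinations of Frobenius powers -/
def InA {F : Type*} [Field F] (n : ℕ) (f : F → F) : Prop :=
  ∃ a : Fin n → F, ∀ x, f x = ∑ i : Fin n, a i * x ^ (2 ^ (i : ℕ))

/-- linear combinations of products of two Frobenius powers -/
def InQ {F : Type*} [Field F] (n : ℕ) (f : F → F) : Prop :=
  ∃ c : Fin n → Fin n → F, ∀ x,
    f x = ∑ i : Fin n, ∑ j : Fin n, c i j * (x ^ (2 ^ (i : ℕ)) * x ^ (2 ^ (j : ℕ)))

theorem InQ.zero {F : Type*} [Field F] (n : ℕ) : InQ n (fun _ : F => (0 : F)) :=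
  ⟨fun _ _ => 0, fun x => by simp⟩

theorem InQ.add {F : Type*} [Field F] {n : ℕ} {f g : F → F} (hf : InQ n f) (hg : InQ n g) :
    InQ n (fun x => f x + g x) := by
  obtain ⟨c, hc⟩ := hf
  obtain ⟨d, hd⟩ := hg
  refine ⟨fun i j => c i j + d i j, fun x => ?_⟩
  simp only [hc x, hd x, add_mul, Finset.sum_add_distrib]

theorem InQ.smul {F : Type*} [Field F] {n : ℕ} {f : F → F} (hf : InQ n f) (k : F) :
    InQ n (fun x => k * f x) := by
  obtain ⟨c, hc⟩ := hf
  refine ⟨fun i j => k * c i j, fun x => ?_⟩
  simp only [hc x, Finset.mul_sum, mul_assoc]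

theorem InA.mul {F : Type*} [Field F] {n : ℕ} {f g : F → F} (hf : InA n f) (hg : InA n g) :
    InQ n (fun x => f x * g x) := by
  obtain ⟨a, ha⟩ := hf
  obtain ⟨b, hb⟩ := hg
  refine ⟨fun i j => a i * b j, fun x => ?_⟩
  simp only [ha x, hb x, Finset.sum_mul_sum]
  refine Finset.sum_congr rfl (fun i _ => Finset.sum_congr rfl (fun j _ => ?_))
  ring

theorem main_InQ {F : Type*} [Field F] [Fintype F] [CharP F 2] (n : ℕ)
    (hn : Fintype.card F = 2 ^ n) (q : F → F)
    (hq : ∀ x y z : F, q (x + y + z) + q (x + y) + q (x + z) + q (y + z) + q x + q y + q z = 0) :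
    InQ n q := by
  classical
  letI : Algebra (ZMod 2) F := ZMod.algebra F 2
  have h2 : ∀ u : F, u + u = 0 := fun u => CharTwo.add_self_eq_zero u
  have hq0 : q 0 = 0 := by
    have := hq 0 0 0
    simp only [add_zero] at this
    linear_combination this - 3 * h2 (q 0)
  -- polar form
  obtain ⟨B, hB⟩ : ∃ B : F → F → F, ∀ x y, B x y = q (x + y) + q x + q y := ⟨_, fun _ _ => rfl⟩
  have hqadd : ∀ u y, q (u + y) = B u y + q u + q y := by
    intro u y
    rw [hB]
    linear_combination -(h2 (q u)) - h2 (q y)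
  have hBadd1 : ∀ x y z, B (x + y) z = B x z + B y z := by
    intro x y z
    have h := hq x y z
    rw [hB, hB, hB]
    linear_combination h - h2 (q (x + z)) - h2 (q (y + z)) - h2 (q x) - h2 (q y) - h2 (q z)
  have hBsymm : ∀ x y, B x y = B y x := by
    intro x y
    rw [hB, hB, add_comm x y]; ring
  have hBadd2 : ∀ x y z, B x (y + z) = B x y + B x z := by
    intro x y z
    rw [hBsymm, hBadd1, hBsymm y, hBsymm z]
  have hB0 : ∀ y, B 0 y = 0 := by
    intro y
    rw [hB, zero_add, hq0, add_zero, h2]
  -- coordinates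
  let b := Module.finBasis (ZMod 2) F
  obtain ⟨lam, hlam⟩ : ∃ lam : Fin (Module.finrank (ZMod 2) F) → F → F,
      ∀ k x, lam k x = algebraMap (ZMod 2) F (b.repr x k) := ⟨_, fun _ _ => rfl⟩
  have hlam_add : ∀ k x y, lam k (x + y) = lam k x + lam k y := by
    intro k x y
    rw [hlam, hlam, hlam, map_add, Finsupp.add_apply, map_add]
  have hlam01 : ∀ k x, lam k x = 0 ∨ lam k x = 1 := by
    intro k x
    rw [hlam]
    have : ∀ c : ZMod 2, c = 0 ∨ c = 1 := by decide
    rcases this (b.repr x k) with h | h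
    · left; rw [h, map_zero]
    · right; rw [h, map_one]
  have hsum : ∀ x, ∑ k, lam k x * b k = x := by
    intro x
    conv_rhs => rw [← b.sum_repr x]
    refine Finset.sum_congr rfl (fun k _ => ?_)
    rw [hlam, Algebra.smul_def]
  have hlamA : ∀ k, InA n (lam k) := fun k => exists_coeffs n hn (lam k) (hlam_add k)
  -- induction over finite sets of coordinates
  have key : ∀ S : Finset (Fin (Module.finrank (ZMod 2) F)),
      InQ n (fun x => q (∑ k ∈ S, lam k x * b k)) := by
    intro S
    induction S using Finset.induction_on with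
    | empty =>
      simp only [Finset.sum_empty, hq0]
      exact InQ.zero n
    | insert a S ha ih =>
      have hy_add : ∀ x y, (∑ k ∈ S, lam k (x + y) * b k)
          = (∑ k ∈ S, lam k x * b k) + (∑ k ∈ S, lam k y * b k) := by
        intro x y
        rw [← Finset.sum_add_distrib]
        refine Finset.sum_congr rfl (fun k _ => ?_)
        rw [hlam_add, add_mul]
      have hBA : InA n (fun x => B (b a) (∑ k ∈ S, lam k x * b k)) := by
        apply exists_coeffs n hn
        intro x y
        rw [hy_add, hBadd2]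
      have e : ∀ x, q (∑ k ∈ insert a S, lam k x * b k)
          = lam a x * B (b a) (∑ k ∈ S, lam k x * b k) + q (b a) * (lam a x * lam a x)
            + q (∑ k ∈ S, lam k x * b k) := by
        intro x
        rw [Finset.sum_insert ha, hqadd]
        rcases hlam01 a x with h | h
        · rw [h, zero_mul, hB0, hq0]; ring
        · rw [h, one_mul]; ring
      have : (fun x => q (∑ k ∈ insert a S, lam k x * b k))
          = fun x => (lam a x * B (b a) (∑ k ∈ S, lam k x * b k) + q (b a) * (lam a x * lam a x))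
            + q (∑ k ∈ S, lam k x * b k) := funext e
      rw [this]
      exact (((hlamA a).mul hBA).add (((hlamA a).mul (hlamA a)).smul (q (b a)))).add ih
  have := key Finset.univ
  simp only [hsum] at this
  exact this

/-- Frobenius powers as ring automorphisms -/
noncomputable def tau (F : Type*) [Field F] [Fintype F] [CharP F 2] : ℕ → (F ≃+* F)
  | 0 => RingEquiv.refl F
  | (i + 1) => (tau F i).trans (frobeniusEquiv F 2)

theorem tau_apply (F : Type*) [Field F] [Fintype F] [CharP F 2] (i : ℕ) (x : F) :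
    tau F i x = x ^ (2 ^ i) := by
  induction i with
  | zero => simp [tau]
  | succ i ih =>
    show (frobeniusEquiv F 2) (tau F i x) = x ^ (2 ^ (i + 1))
    rw [ih, coe_frobeniusEquiv, frobenius_def, ← pow_mul, ← pow_succ]

/-- For a finite field `F` of characteristic 2: if `q : F → F` is quadratic over the prime field, i.e. `(x, y) ↦ q (x + y) + q x + q y` is additive in each variable, then `q x = Σ c_{σ,τ} σ(x) τ(x)` for some coefficients indexed by pairs of field automorphisms. -/
theorem result {F : Type*} [Field F] [Fintype F] [CharP F 2]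
    (q : F → F)
    (hq : ∀ x y z : F, q (x + y + z) + q (x + y) + q (x + z) + q (y + z) + q x + q y + q z = 0) :
    ∃ (s : Finset ((F ≃+* F) × (F ≃+* F))) (c : (F ≃+* F) × (F ≃+* F) → F),
      ∀ x : F, q x = ∑ p ∈ s, c p * (p.1 x * p.2 x) := by
  classical
  obtain ⟨n, -, hn⟩ := FiniteField.card F 2
  obtain ⟨c, hc⟩ := main_InQ (n : ℕ) hn q hq
  let φ : Fin n × Fin n → (F ≃+* F) × (F ≃+* F) := fun ij => (tau F ij.1, tau F ij.2)
  refine ⟨Finset.univ.image φ,
    fun p => ∑ ij ∈ Finset.univ.filter (fun ij => φ ij = p), c ij.1 ij.2, fun x => ?_⟩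
  rw [hc x, ← Fintype.sum_prod_type']
  rw [← Finset.sum_fiberwise_of_maps_to (g := φ) (t := Finset.univ.image φ)
    (fun ij _ => Finset.mem_image_of_mem φ (Finset.mem_univ ij))]
  refine Finset.sum_congr rfl (fun p _ => ?_)
  rw [Finset.sum_mul]
  refine Finset.sum_congr rfl (fun ij hij => ?_)
  rw [Finset.mem_filter] at hij
  rw [← hij.2]
  simp only [φ, tau_apply]

end Cfsg.Agent.S1168
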