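import Cfsg.Statements.S1176
import Cfsg.Agent.Helper20.Isolated

set_option autoImplicit false
open Cfsg

namespace Cfsg.Agent.S1176

open scoped commutatorElement

/-- Let x₀ be an involution of the finite group G and D its conjugacy class. Assume (a) for each x ∈ D the subgroup W(x) generated by the members of D commuting with x is a 2-group of nilpotency class at most 2, and (b) the product of two distinct commuting members of D again lies in D. Then for all x, y ∈ D, if xy has even order greater than 2, its order is 4. -/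
theorem result {G : Type*} [Group G] [Finite G] (x₀ : G) (hx₀ : orderOf x₀ = 2) (ha : ∀ x : G, IsConj x₀ x → IsPGroup 2 ↥(Subgroup.closure {y : G | IsConj x₀ y ∧ Commute y x}) ∧ ⁅⁅Subgroup.closure {y : G | IsConj x₀ y ∧ Commute y x}, Subgroup.closure {y : G | IsConj x₀ y ∧ Commute y x}⁆, Subgroup.closure {y : G | IsConj x₀ y ∧ Commute y x}⁆ = ⊥) (hb : ∀ x y : G, IsConj x₀ x → IsConj x₀ y → x ≠ y → Commute x y → IsConj x₀ (x * y)) (x y : G) (hx : IsConj x₀ x) (hy : IsConj x₀ y) (heven : Even (orderOf (x * y))) (hgt : 2 < orderOf (x * y)) : orderOf (x * y) = 4 := by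
  have hx0sq : x₀ * x₀ = 1 := by
    have := pow_orderOf_eq_one x₀
    rwa [hx₀, pow_two] at this
  have sq_of_conj : ∀ w : G, IsConj x₀ w → w * w = 1 := by
    intro w hw
    obtain ⟨c, hc⟩ := isConj_iff.mp hw
    rw [← hc]
    exact Cfsg.Agent.Helper20.conj_sq hx0sq c
  have hxx := sq_of_conj x hx
  have hyy := sq_of_conj y hy
  have hxinv : x⁻¹ = x := inv_eq_of_mul_eq_one_left hxx
  have hyinv : y⁻¹ = y := inv_eq_of_mul_eq_one_left hyy
  obtain ⟨m, hm⟩ := heven
  have hm2 : 2 ≤ m := by omega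
  obtain ⟨u, hu⟩ : ∃ u, u = (x * y) ^ m := ⟨_, rfl⟩
  have hu1 : u ≠ 1 := by
    intro h
    rw [hu] at h
    have := Nat.le_of_dvd (by omega) (orderOf_dvd_of_pow_eq_one h)
    omega
  have hu2 : u * u = 1 := by
    rw [hu, ← pow_add, ← hm, pow_orderOf_eq_one]
  have huinv : u⁻¹ = u := inv_eq_of_mul_eq_one_left hu2
  have hxu : x * u = u * x := by
    have := Cfsg.Agent.Helper20.inv_mul_pow x y hxx hyy m
    rw [← hu, huinv] at this
    exact this
  -- y also commutes with u
  have hyu : y * u = u * y := by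
    -- y * (y * x)^m = ((y*x)^m)⁻¹ * y and (y*x)^m = u⁻¹
    have h1 := Cfsg.Agent.Helper20.inv_mul_pow y x hyy hxx m
    have h2 : (y * x) ^ m = u := by
      have : y * x = (x * y)⁻¹ := by rw [mul_inv_rev, hxinv, hyinv]
      rw [this, inv_pow, ← hu, huinv]
    rw [h2, huinv] at h1
    exact h1
  -- x * u is a conjugate of x₀
  have hconj : IsConj x₀ (x * u) := by
    obtain ⟨c, hc⟩ := Cfsg.Agent.Helper20.inv_mul_pow_conj x y hxx hyy m
    rw [← hu] at hc
    rcases hc with hc | hc
    · rw [hc]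
      exact hx.trans (isConj_iff.mpr ⟨c, rfl⟩)
    · rw [hc]
      exact hy.trans (isConj_iff.mpr ⟨c, rfl⟩)
  have hne : x ≠ x * u := by
    intro h
    exact hu1 (mul_left_cancel (((mul_one x).trans h).symm))
  have hcomm : Commute x (x * u) := by
    show x * (x * u) = x * u * x
    rw [mul_assoc, hxu]
  have huconj : IsConj x₀ u := by
    have := hb x (x * u) hx hconj hne hcomm
    rwa [← mul_assoc, hxx, one_mul] at this
  obtain ⟨-, hW⟩ := ha u huconj
  set W := Subgroup.closure {y : G | IsConj x₀ y ∧ Commute y u} with hWdef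
  have hxW : x ∈ W := Subgroup.subset_closure ⟨hx, hxu⟩
  have hyW : y ∈ W := Subgroup.subset_closure ⟨hy, hyu⟩
  have h1 : ⁅⁅x, y⁆, x⁆ ∈ ⁅⁅W, W⁆, W⁆ :=
    Subgroup.commutator_mem_commutator (Subgroup.commutator_mem_commutator hxW hyW) hxW
  rw [hW, Subgroup.mem_bot] at h1
  -- ⁅⁅x,y⁆,x⁆ = (x*y)^4
  have h2 : ⁅⁅x, y⁆, x⁆ = (x * y) ^ 4 := by
    rw [commutatorElement_def, commutatorElement_def, hxinv, hyinv]
    have e : (x * y * x * y)⁻¹ = y * x * y * x := by
      simp only [mul_inv_rev, hxinv, hyinv, mul_assoc]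
    rw [e]
    have e2 : x * y * x * y * x * (y * x * y * x) * x = x * y * x * y * x * y * x * y * (x * x) := by
      group
    rw [e2, hxx, mul_one]
    simp only [pow_succ, pow_zero, one_mul, mul_assoc]
  rw [h2] at h1
  have hdvd : orderOf (x * y) ∣ 4 := orderOf_dvd_of_pow_eq_one h1
  have hle : orderOf (x * y) ≤ 4 := Nat.le_of_dvd (by norm_num) hdvd
  have : orderOf (x * y) ≠ 3 := by
    intro h3
    rw [h3] at hdvd
    omega
  omega

end Cfsg.Agent.S1176
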