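import Cfsg.Statements.S1177
import Cfsg.Agent.Helper20.Basic

set_option autoImplicit false
open Cfsg

namespace Cfsg.Agent.S1177

open Cfsg.Agent.Helper20 in
/-- Let A be a nontrivial elementary abelian 2-subgroup of a finite group G which is a T.I. set (each conjugate of A meets A trivially or equals A) and which does not commute elementwise with any conjugate of A other than A itself. Then for every a ∈ A, a ≠ 1, every conjugate of A contained in C_G(a) is equal to A (A is weakly closed in C_G(a)). -/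
theorem result {G : Type*} [Group G] [Finite G] (A : Subgroup G) (hA : Cfsg.IsElementaryAbelian 2 A) (hA1 : A ≠ ⊥) (hTI : ∀ g : G, A.map (MulAut.conj g).toMonoidHom ⊓ A = ⊥ ∨ A.map (MulAut.conj g).toMonoidHom = A) (hb : ∀ g : G, (∀ a ∈ A, ∀ b ∈ A.map (MulAut.conj g).toMonoidHom, a * b = b * a) → A.map (MulAut.conj g).toMonoidHom = A) (a : G) (ha : a ∈ A) (ha1 : a ≠ 1) (g : G) (hg : A.map (MulAut.conj g).toMonoidHom ≤ Subgroup.centralizer ({a} : Set G)) : A.map (MulAut.conj g).toMonoidHom = A := by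
  obtain ⟨hAcomm, hAsq⟩ := hA
  have hAc : ∀ x ∈ A, ∀ y ∈ A, x * y = y * x := by
    intro x hx y hy
    have := hAcomm.is_comm.comm ⟨x, hx⟩ ⟨y, hy⟩
    exact congrArg Subtype.val this
  have hAinv : ∀ x ∈ A, x⁻¹ = x := by
    intro x hx
    have := hAsq x hx
    rw [pow_two] at this
    exact inv_eq_of_mul_eq_one_left this
  -- TI property of A in elementwise form
  have tiA : ∀ d : G, ∀ a₁ ∈ A, a₁ ≠ 1 → d * a₁ * d⁻¹ ∈ A → ∀ y ∈ A, d * y * d⁻¹ ∈ A := by
    intro d a₁ ha₁ hne hmem y hy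
    rcases hTI d with h | h
    · exfalso
      have : d * a₁ * d⁻¹ ∈ A.map (MulAut.conj d).toMonoidHom ⊓ A := by
        refine Subgroup.mem_inf.mpr ⟨?_, hmem⟩
        rw [mem_map_conj]
        have e : d⁻¹ * (d * a₁ * d⁻¹) * d = a₁ := by group
        rw [e]; exact ha₁
      rw [h, Subgroup.mem_bot] at this
      apply hne
      have e : a₁ = d⁻¹ * (d * a₁ * d⁻¹) * d := by group
      rw [e, this]; group
    · have := mem_map_conj A d (d * y * d⁻¹)
      rw [h] at this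
      rw [this]
      have e : d⁻¹ * (d * y * d⁻¹) * d = y := by group
      rw [e]; exact hy
  set B := A.map (MulAut.conj g).toMonoidHom with hB
  have hBmem : ∀ x, x ∈ B ↔ g⁻¹ * x * g ∈ A := fun x => mem_map_conj A g x
  by_contra hne
  have hBA : B ⊓ A = ⊥ := by
    rcases hTI g with h | h
    · exact h
    · exact absurd h hne
  -- elements of B are involutions or trivial
  have hBinv : ∀ x ∈ B, x⁻¹ = x := by
    intro x hx
    have h1 := hAinv _ ((hBmem x).mp hx)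
    have e : x⁻¹ = g * (g⁻¹ * x * g)⁻¹ * g⁻¹ := by group
    rw [e, h1]; group
  -- TI property of B
  have tiB : ∀ c : G, ∀ b ∈ B, b ≠ 1 → c * b * c⁻¹ ∈ B → ∀ y ∈ B, c * y * c⁻¹ ∈ B := by
    intro c b hb' hne' hmem y hy
    rw [hBmem] at hb' hmem hy ⊢
    have h1 : (g⁻¹ * c * g) * (g⁻¹ * b * g) * (g⁻¹ * c * g)⁻¹ ∈ A := by
      have e : (g⁻¹ * c * g) * (g⁻¹ * b * g) * (g⁻¹ * c * g)⁻¹ = g⁻¹ * (c * b * c⁻¹) * g := by group
      rw [e]; exact hmem
    have h2 : g⁻¹ * b * g ≠ 1 := by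
      intro h
      apply hne'
      have e : b = g * (g⁻¹ * b * g) * g⁻¹ := by group
      rw [e, h]; group
    have := tiA (g⁻¹ * c * g) (g⁻¹ * b * g) hb' h2 h1 _ hy
    have e : g⁻¹ * (c * y * c⁻¹) * g = (g⁻¹ * c * g) * (g⁻¹ * y * g) * (g⁻¹ * c * g)⁻¹ := by group
    rw [e]; exact this
  -- B normalizes A
  have hBnA : ∀ b ∈ B, ∀ y ∈ A, b * y * b⁻¹ ∈ A := by
    intro b hb' y hy
    have h1 := hg hb'
    rw [Subgroup.mem_centralizer_iff] at h1
    have h2 := h1 a (Set.mem_singleton a)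
    have h3 : b * a * b⁻¹ = a := by rw [← h2]; group
    exact tiA b a ha ha1 (by rw [h3]; exact ha) y hy
  -- an element of A commuting with a nontrivial element of B centralizes B
  have step3 : ∀ a' ∈ A, ∀ b ∈ B, b ≠ 1 → a' * b = b * a' → ∀ y ∈ B, a' * y = y * a' := by
    intro a' ha' b hb' hne' hcomm y hy
    have h1 : a' * b * a'⁻¹ ∈ B := by
      have e : a' * b * a'⁻¹ = b := by rw [hcomm]; group
      rw [e]; exact hb'
    have h2 := tiB a' b hb' hne' h1 y hy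
    have h3 : a' * y * a'⁻¹ * y⁻¹ ∈ B ⊓ A := by
      refine Subgroup.mem_inf.mpr ⟨B.mul_mem h2 (B.inv_mem hy), ?_⟩
      have e : a' * y * a'⁻¹ * y⁻¹ = a' * (y * a'⁻¹ * y⁻¹) := by group
      rw [e]
      exact A.mul_mem ha' (hBnA y hy _ (A.inv_mem ha'))
    rw [hBA, Subgroup.mem_bot] at h3
    have e : a' * y = (a' * y * a'⁻¹ * y⁻¹) * (y * a') := by group
    rw [e, h3, one_mul]
  -- so there is a' ∈ A, b₀ ∈ B not commuting
  have hex : ∃ a' ∈ A, ∃ b₀ ∈ B, a' * b₀ ≠ b₀ * a' := by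
    by_contra hcon
    push Not at hcon
    exact hne (hb g hcon)
  obtain ⟨a', ha', b₀, hb₀, hnc⟩ := hex
  have ha'inv := hAinv a' ha'
  -- the set A₀ = C_A(B)
  set A₀ : Set G := {x | x ∈ A ∧ ∀ y ∈ B, x * y = y * x} with hA₀
  have hA₀ss : A₀ ⊂ (A : Set G) := by
    refine ⟨fun x hx => hx.1, ?_⟩
    intro hsub
    have := hsub ha'
    exact hnc (this.2 b₀ hb₀)
  have hcard1 : A₀.ncard < (A : Set G).ncard := Set.ncard_lt_ncard hA₀ss (Set.toFinite _)
  have hcard2 : (B : Set G).ncard = (A : Set G).ncard := by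
    have : (B : Set G) = (MulAut.conj g) '' (A : Set G) := by
      rw [hB]; rfl
    rw [this]
    exact Set.ncard_image_of_injective _ (MulAut.conj g).injective
  have hmaps : ∀ b ∈ (B : Set G), a' * b * a'⁻¹ * b⁻¹ ∈ A₀ := by
    intro b hb'
    have hbinv := hBinv b hb'
    have hmemA : a' * b * a'⁻¹ * b⁻¹ ∈ A := by
      have e : a' * b * a'⁻¹ * b⁻¹ = a' * (b * a'⁻¹ * b⁻¹) := by group
      rw [e]; exact A.mul_mem ha' (hBnA b hb' _ (A.inv_mem ha'))
    by_cases hb1 : b = 1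
    · subst hb1
      refine ⟨hmemA, fun y _ => ?_⟩
      simp
    · refine ⟨hmemA, ?_⟩
      apply step3 _ hmemA b hb' hb1
      -- φ(b) commutes with b
      have hc := hAc a' ha' (b * a' * b⁻¹) (hBnA b hb' a' ha')
      rw [ha'inv, hbinv]
      rw [hbinv] at hc
      calc a' * b * a' * b * b = a' * (b * a' * b) * b := by group
        _ = (b * a' * b) * a' * b := by rw [hc]
        _ = b * (a' * b * a' * b) := by group
  have hinj : Set.InjOn (fun b => a' * b * a'⁻¹ * b⁻¹) (B : Set G) := by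
    intro b₁ hb₁ b₂ hb₂ heq
    simp only at heq
    by_contra hne12
    have h1 : a' * (b₂⁻¹ * b₁) = (b₂⁻¹ * b₁) * a' := by
      have e1 : b₁ * a'⁻¹ * b₁⁻¹ = b₂ * a'⁻¹ * b₂⁻¹ := by
        have : a' * (b₁ * a'⁻¹ * b₁⁻¹) = a' * (b₂ * a'⁻¹ * b₂⁻¹) := by
          calc a' * (b₁ * a'⁻¹ * b₁⁻¹) = a' * b₁ * a'⁻¹ * b₁⁻¹ := by group
            _ = a' * b₂ * a'⁻¹ * b₂⁻¹ := heq
            _ = a' * (b₂ * a'⁻¹ * b₂⁻¹) := by group
        exact mul_left_cancel this
      rw [ha'inv] at e1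
      calc a' * (b₂⁻¹ * b₁) = b₂⁻¹ * (b₂ * a' * b₂⁻¹) * b₁ := by group
        _ = b₂⁻¹ * (b₁ * a' * b₁⁻¹) * b₁ := by rw [e1]
        _ = (b₂⁻¹ * b₁) * a' := by group
    have h2 : b₂⁻¹ * b₁ ≠ 1 := by
      intro h
      apply hne12
      have := inv_mul_eq_one.mp h
      exact this.symm
    exact hnc (step3 a' ha' _ (B.mul_mem (B.inv_mem hb₂) hb₁) h2 h1 b₀ hb₀)
  have hcard3 : (B : Set G).ncard ≤ A₀.ncard :=
    Set.ncard_le_ncard_of_injOn _ hmaps hinj (Set.toFinite _)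
  omega

end Cfsg.Agent.S1177
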