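import Cfsg.Statements.S1178
import Cfsg.Agent.Helper20.Basic

set_option autoImplicit false
open Cfsg

namespace Cfsg.Agent.S1178

/-- Let A be a subgroup of a Sylow 2-subgroup S of the finite group G which is weakly closed in S. If a conjugate g A g⁻¹ commutes elementwise with A, then g A g⁻¹ = A. -/
theorem result {G : Type*} [Group G] [Finite G] (S : Sylow 2 G) (A : Subgroup G) (hW : Cfsg.IsWeaklyClosed A (S : Subgroup G)) (g : G) (hc : ∀ a ∈ A, ∀ b ∈ A.map (MulAut.conj g).toMonoidHom, a * b = b * a) : A.map (MulAut.conj g).toMonoidHom = A := by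
  haveI : Fact (Nat.Prime 2) := ⟨Nat.prime_two⟩
  obtain ⟨hAS, hwc⟩ := hW
  have hA2 : IsPGroup 2 A := S.isPGroup'.to_le hAS
  have hB2 : IsPGroup 2 (A.map (MulAut.conj g).toMonoidHom) := hA2.map _
  have hBA : A.map (MulAut.conj g).toMonoidHom ≤ Subgroup.normalizer (A : Set G) := by
    rw [Subgroup.le_normalizer_iff]
    intro b hb a ha
    have := hc a ha b hb
    have e : b * a * b⁻¹ = a := by rw [← this]; group
    rw [e]; exact ha
  have hsup : IsPGroup 2 (A.map (MulAut.conj g).toMonoidHom ⊔ A : Subgroup G) :=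
    hB2.to_sup_of_normal_right' hA2 hBA
  obtain ⟨Q, hQ⟩ := hsup.exists_le_sylow
  obtain ⟨h, hh⟩ := Cfsg.Agent.Helper20.sylow_conj_mem S Q
  have hAQ : A ≤ Q := le_trans le_sup_right hQ
  have hBQ : A.map (MulAut.conj g).toMonoidHom ≤ Q := le_trans le_sup_left hQ
  -- first: conj by h⁻¹ maps A into S
  have h1 : A.map (MulAut.conj h⁻¹).toMonoidHom = A := by
    apply hwc
    intro x hx
    rw [Cfsg.Agent.Helper20.mem_map_conj, inv_inv] at hx
    have := (hh _).mp (hAQ hx)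
    have e : h⁻¹ * (h * x * h⁻¹) * h = x := by group
    rwa [e] at this
  have h2 : A.map (MulAut.conj (h⁻¹ * g)).toMonoidHom = A := by
    apply hwc
    intro x hx
    rw [Cfsg.Agent.Helper20.mem_map_conj] at hx
    have hx' : h * x * h⁻¹ ∈ A.map (MulAut.conj g).toMonoidHom := by
      rw [Cfsg.Agent.Helper20.mem_map_conj]
      have e : g⁻¹ * (h * x * h⁻¹) * g = (h⁻¹ * g)⁻¹ * x * (h⁻¹ * g) := by group
      rw [e]; exact hx
    have := (hh _).mp (hBQ hx')
    have e : h⁻¹ * (h * x * h⁻¹) * h = x := by group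
    rwa [e] at this
  ext x
  rw [Cfsg.Agent.Helper20.mem_map_conj]
  have k1 : ∀ y, h * y * h⁻¹ ∈ A ↔ y ∈ A := by
    intro y
    have := Cfsg.Agent.Helper20.mem_map_conj A h⁻¹ y
    rw [h1, inv_inv] at this
    exact this.symm
  have k2 : ∀ y, (h⁻¹ * g)⁻¹ * y * (h⁻¹ * g) ∈ A ↔ y ∈ A := by
    intro y
    have := Cfsg.Agent.Helper20.mem_map_conj A (h⁻¹ * g) y
    rw [h2] at this
    exact this.symm
  have e : g⁻¹ * x * g = (h⁻¹ * g)⁻¹ * (h⁻¹ * x * h) * (h⁻¹ * g) := by group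
  rw [e, k2, ← k1]
  have e2 : h * (h⁻¹ * x * h) * h⁻¹ = x := by group
  rw [e2]

end Cfsg.Agent.S1178
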