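import Cfsg.Statements.S1181
import Cfsg.Agent.Helper20.Isolated

set_option autoImplicit false
open Cfsg

namespace Cfsg.Agent.S1181

/-- Let z be an isolated involution of the finite group G and N a normal subgroup with z ∉ N. Then the centralizer of zN in G/N is the image of C_G(z), and zN is an isolated involution of G/N. -/
theorem result {G : Type*} [Group G] [Finite G] (z : G) (hz : Cfsg.IsIsolatedInvolution z) (N : Subgroup G) [N.Normal] (hzN : z ∉ N) : Subgroup.centralizer ({(QuotientGroup.mk z : G ⧸ N)} : Set (G ⧸ N)) = (Subgroup.centralizer ({z} : Set G)).map (QuotientGroup.mk' N) ∧ Cfsg.IsIsolatedInvolution (QuotientGroup.mk z : G ⧸ N) := by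
  have hzz := Cfsg.Agent.Helper20.isolated_sq hz
  have hzinv := Cfsg.Agent.Helper20.isolated_inv hz
  constructor
  · ext x
    constructor
    · intro hx
      obtain ⟨g, rfl⟩ := QuotientGroup.mk_surjective x
      rw [Subgroup.mem_centralizer_iff] at hx
      have h1 := hx _ (Set.mem_singleton _)
      rw [← QuotientGroup.mk_mul, ← QuotientGroup.mk_mul, QuotientGroup.eq] at h1
      -- h1 : (z * g)⁻¹ * (g * z) ∈ N
      have h2 : g * z * g⁻¹ * z ∈ N := by
        have e : g * z * g⁻¹ * z = (z * g) * ((z * g)⁻¹ * (g * z)) * (z * g)⁻¹ := by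
          have : (z * g) * ((z * g)⁻¹ * (g * z)) * (z * g)⁻¹ = g * z * g⁻¹ * z⁻¹ := by group
          rw [this, hzinv]
        rw [e]
        exact ‹N.Normal›.conj_mem _ h1 _
      obtain ⟨n, -, -, h3⟩ := Cfsg.Agent.Helper20.isolated_exists_pow hz g
      set k := (g * z * g⁻¹ * z) ^ n with hk
      have hkN : k ∈ N := N.pow_mem h2 n
      rw [Subgroup.mem_map]
      refine ⟨k⁻¹ * g, ?_, ?_⟩
      · rw [Subgroup.mem_centralizer_iff]
        intro y hy
        rw [Set.mem_singleton_iff] at hy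
        subst hy
        calc y * (k⁻¹ * g) = k⁻¹ * (k * y * k⁻¹) * g := by group
          _ = k⁻¹ * (g * y * g⁻¹) * g := by rw [h3]
          _ = k⁻¹ * g * y := by group
      · show ((k⁻¹ * g : G) : G ⧸ N) = (g : G ⧸ N)
        rw [QuotientGroup.eq]
        have : (k⁻¹ * g)⁻¹ * g = g⁻¹ * k * g := by group
        rw [this]
        have := ‹N.Normal›.conj_mem k hkN g⁻¹
        simpa using this
    · intro hx
      rw [Subgroup.mem_map] at hx
      obtain ⟨c, hc, rfl⟩ := hx
      rw [Subgroup.mem_centralizer_iff] at hc ⊢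
      intro y hy
      rw [Set.mem_singleton_iff] at hy
      subst hy
      have := hc z (Set.mem_singleton z)
      show ((z : G) : G ⧸ N) * ((c : G) : G ⧸ N) = ((c : G) : G ⧸ N) * ((z : G) : G ⧸ N)
      rw [← QuotientGroup.mk_mul, ← QuotientGroup.mk_mul, this]
  · refine ⟨?_, ?_⟩
    · have : Fact (Nat.Prime 2) := ⟨Nat.prime_two⟩
      apply orderOf_eq_prime
      · rw [← QuotientGroup.mk_pow, pow_two, hzz]; rfl
      · intro h
        exact hzN ((QuotientGroup.eq_one_iff z).mp h)
    · intro x hx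
      obtain ⟨g, rfl⟩ := QuotientGroup.mk_surjective x
      have hx' : ((z : G) : G ⧸ N) * (((g : G) : G ⧸ N) * ((z : G) : G ⧸ N) * ((g : G) : G ⧸ N)⁻¹)
          = (((g : G) : G ⧸ N) * ((z : G) : G ⧸ N) * ((g : G) : G ⧸ N)⁻¹) * ((z : G) : G ⧸ N) := hx
      rw [← QuotientGroup.mk_inv, ← QuotientGroup.mk_mul, ← QuotientGroup.mk_mul,
        ← QuotientGroup.mk_mul, ← QuotientGroup.mk_mul, QuotientGroup.eq] at hx'
      have hwinv : (g * z * g⁻¹)⁻¹ = g * z * g⁻¹ :=
        inv_eq_of_mul_eq_one_left (Cfsg.Agent.Helper20.conj_sq hzz g)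
      have h2 : (g * z * g⁻¹ * z) ^ 2 ∈ N := by
        have e : (z * (g * z * g⁻¹))⁻¹ * (g * z * g⁻¹ * z) = (g * z * g⁻¹ * z) ^ 2 := by
          rw [mul_inv_rev, hzinv, hwinv, pow_two]
        rw [← e]; exact hx'
      have h3 := Cfsg.Agent.Helper20.mem_of_sq_mem_of_odd N _
        (Cfsg.Agent.Helper20.isolated_odd_order' hz g) h2
      rw [← QuotientGroup.mk_inv, ← QuotientGroup.mk_mul, ← QuotientGroup.mk_mul, QuotientGroup.eq]
      have e2 : (g * z * g⁻¹)⁻¹ * z = g * z * g⁻¹ * z := by rw [hwinv]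
      rw [e2]; exact h3

end Cfsg.Agent.S1181
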