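import Cfsg.Statements.S1182
import Cfsg.Agent.Helper20.Isolated

set_option autoImplicit false
open Cfsg

namespace Cfsg.Agent.S1182

/-- Let z be an isolated involution of the finite group G and H a subgroup normalized by z. If x, y ∈ H both commute with z and y = h x h⁻¹ for some h ∈ H, then y = c x c⁻¹ for some c ∈ H commuting with z. -/
theorem result {G : Type*} [Group G] [Finite G] (z : G) (hz : Cfsg.IsIsolatedInvolution z) (H : Subgroup G) (hzH : z ∈ Subgroup.normalizer (H : Set G)) (x y : G) (hx : x ∈ H) (hy : y ∈ H) (hxz : Commute x z) (hyz : Commute y z) (h : G) (hh : h ∈ H) (hconj : h * x * h⁻¹ = y) : ∃ c ∈ H, Commute c z ∧ c * x * c⁻¹ = y := by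
  have hzz := Cfsg.Agent.Helper20.isolated_sq hz
  have hzinv := Cfsg.Agent.Helper20.isolated_inv hz
  obtain ⟨n, -, -, h3⟩ := Cfsg.Agent.Helper20.isolated_exists_pow hz h⁻¹
  rw [inv_inv] at h3
  set r := h⁻¹ * z * h * z with hr
  -- r ∈ H
  have hrH : r ∈ H := by
    have h1 : z * h * z⁻¹ ∈ H := (Subgroup.mem_normalizer_iff.mp hzH h).mp hh
    rw [hzinv] at h1
    have : r = h⁻¹ * (z * h * z) := by rw [hr]; group
    rw [this]
    exact H.mul_mem (H.inv_mem hh) h1
  -- r commutes with x
  have hxz' : x * z = z * x := hxz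
  have hyz' : y * z = z * y := hyz
  have hrx : Commute r x := by
    have e1 : h * x = y * h := by rw [← hconj]; group
    have e2 : x * h⁻¹ = h⁻¹ * y := by rw [← hconj]; group
    show r * x = x * r
    calc r * x = h⁻¹ * z * h * (z * x) := by rw [hr]; group
      _ = h⁻¹ * z * (h * x) * z := by rw [← hxz']; group
      _ = h⁻¹ * (z * y) * h * z := by rw [e1]; group
      _ = (h⁻¹ * y) * z * h * z := by rw [← hyz']; group
      _ = x * r := by rw [← e2, hr]; group
  set k := r ^ n with hk
  have hkx : Commute k x := hrx.pow_left n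
  have hkx' : k * x = x * k := hkx
  refine ⟨h * k, H.mul_mem hh (H.pow_mem hrH n), ?_, ?_⟩
  · show h * k * z = z * (h * k)
    calc h * k * z = h * (k * z * k⁻¹) * k := by group
      _ = h * (h⁻¹ * z * h) * k := by rw [h3]
      _ = z * (h * k) := by group
  · calc h * k * x * (h * k)⁻¹ = h * (k * x) * k⁻¹ * h⁻¹ := by group
      _ = h * (x * k) * k⁻¹ * h⁻¹ := by rw [hkx']
      _ = h * x * h⁻¹ := by group
      _ = y := hconj

end Cfsg.Agent.S1182
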