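import Cfsg.Statements.S1183
import Cfsg.Agent.Helper20.IsolatedTransfer

set_option autoImplicit false
open Cfsg

namespace Cfsg.Agent.S1183

theorem pResidual_normal (p : ℕ) (G : Type*) [Group G] : (Cfsg.pResidual p G).Normal := by
  constructor
  intro n hn g
  have : (Cfsg.pResidual p G).map (MulAut.conj g).toMonoidHom ≤ Cfsg.pResidual p G := by
    unfold Cfsg.pResidual
    rw [MonoidHom.map_closure, Subgroup.closure_le]
    rintro _ ⟨x, hx, rfl⟩
    apply Subgroup.subset_closure
    show Nat.Coprime (orderOf (MulAut.conj g x)) p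
    rw [MulEquiv.orderOf_eq]; exact hx
  have h2 := this (Subgroup.mem_map_of_mem _ hn)
  simpa using h2

theorem quotient_isPGroup (G : Type*) [Group G] [Finite G] [(Cfsg.pResidual 2 G).Normal] :
    IsPGroup 2 (G ⧸ Cfsg.pResidual 2 G) := by
  intro q
  obtain ⟨c, rfl⟩ := QuotientGroup.mk_surjective q
  obtain ⟨k, m, hm, hkm⟩ := Nat.exists_eq_two_pow_mul_odd (orderOf_pos c).ne'
  refine ⟨k, ?_⟩
  rw [← QuotientGroup.mk_pow, QuotientGroup.eq_one_iff]
  apply Subgroup.subset_closure
  show Nat.Coprime (orderOf (c ^ 2 ^ k)) 2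
  have h1 : (c ^ 2 ^ k) ^ m = 1 := by
    rw [← pow_mul, ← hkm, pow_orderOf_eq_one]
  have h2 : orderOf (c ^ 2 ^ k) ∣ m := orderOf_dvd_of_pow_eq_one h1
  exact Nat.coprime_two_right.mpr (Odd.of_dvd_nat hm h2)

/-- Let z be an isolated involution of the finite group G and C = C_G(z). Then the subgroup of G generated by its elements of odd order is all of G if and only if the subgroup of C generated by its elements of odd order is all of C. -/
theorem result {G : Type*} [Group G] [Finite G] (z : G) (hz : Cfsg.IsIsolatedInvolution z) : Cfsg.pResidual 2 G = ⊤ ↔ Cfsg.pResidual 2 ↥(Subgroup.centralizer ({z} : Set G)) = ⊤ := by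
  have hp2 : Fact (Nat.Prime 2) := ⟨Nat.prime_two⟩
  constructor
  · intro hG
    by_contra hC
    haveI hN : (Cfsg.pResidual 2 ↥(Subgroup.centralizer ({z} : Set G))).Normal :=
      pResidual_normal 2 _
    have hQ2 := quotient_isPGroup ↥(Subgroup.centralizer ({z} : Set G))
    haveI : Nontrivial (↥(Subgroup.centralizer ({z} : Set G)) ⧸
        Cfsg.pResidual 2 ↥(Subgroup.centralizer ({z} : Set G))) :=
      QuotientGroup.nontrivial_iff.mpr hC
    haveI : Group.IsNilpotent (↥(Subgroup.centralizer ({z} : Set G)) ⧸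
        Cfsg.pResidual 2 ↥(Subgroup.centralizer ({z} : Set G))) := hQ2.isNilpotent
    have hlt := Group.IsSolvable.commutator_lt_top_of_nontrivial (↥(Subgroup.centralizer ({z} : Set G)) ⧸
        Cfsg.pResidual 2 ↥(Subgroup.centralizer ({z} : Set G)))
    have hA2 : IsPGroup 2 (Abelianization (↥(Subgroup.centralizer ({z} : Set G)) ⧸
        Cfsg.pResidual 2 ↥(Subgroup.centralizer ({z} : Set G)))) := hQ2.to_quotient _
    let ϕ : ↥(Subgroup.centralizer ({z} : Set G)) →* Abelianization (↥(Subgroup.centralizer ({z} : Set G)) ⧸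
        Cfsg.pResidual 2 ↥(Subgroup.centralizer ({z} : Set G))) :=
      Abelianization.of.comp (QuotientGroup.mk' _)
    -- the transfer is trivial
    have hV : ∀ g : G, MonoidHom.transfer ϕ g = 1 := by
      have hker : Cfsg.pResidual 2 G ≤ (MonoidHom.transfer ϕ).ker := by
        unfold Cfsg.pResidual
        rw [Subgroup.closure_le]
        intro g hg
        rw [SetLike.mem_coe, MonoidHom.mem_ker]
        obtain ⟨j, hj⟩ := hA2 (MonoidHom.transfer ϕ g)
        have h1 : orderOf (MonoidHom.transfer ϕ g) ∣ 2 ^ j := orderOf_dvd_of_pow_eq_one hj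
        have h2 : orderOf (MonoidHom.transfer ϕ g) ∣ orderOf g := by
          apply orderOf_dvd_of_pow_eq_one
          rw [← map_pow, pow_orderOf_eq_one, map_one]
        have hcop : Nat.Coprime (orderOf g) (2 ^ j) := Nat.Coprime.pow_right j hg
        have h3 : orderOf (MonoidHom.transfer ϕ g) ∣ 1 := by
          rw [← hcop.gcd_eq_one]
          exact Nat.dvd_gcd h2 h1
        exact orderOf_eq_one_iff.mp (Nat.dvd_one.mp h3)
      intro g
      have : g ∈ Cfsg.pResidual 2 G := by rw [hG]; trivial
      exact MonoidHom.mem_ker.mp (hker this)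
    have hϕ : ∀ c : ↥(Subgroup.centralizer ({z} : Set G)), ϕ c = 1 := by
      intro c
      have h1 := Cfsg.Agent.Helper20.transfer_isolated hz ϕ c
      rw [hV] at h1
      obtain ⟨j, hj⟩ := hA2 (ϕ c)
      have h2 : orderOf (ϕ c) ∣ 2 ^ j := orderOf_dvd_of_pow_eq_one hj
      have h3 : orderOf (ϕ c) ∣ (Subgroup.centralizer ({z} : Set G)).index :=
        orderOf_dvd_of_pow_eq_one h1.symm
      have hodd := Cfsg.Agent.Helper20.isolated_index_odd hz
      have hcop : Nat.Coprime ((Subgroup.centralizer ({z} : Set G)).index) (2 ^ j) :=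
        Nat.Coprime.pow_right j (Nat.coprime_two_right.mpr hodd)
      have h4 : orderOf (ϕ c) ∣ 1 := by
        rw [← hcop.gcd_eq_one]
        exact Nat.dvd_gcd h3 h2
      exact orderOf_eq_one_iff.mp (Nat.dvd_one.mp h4)
    apply hlt.ne
    rw [eq_top_iff]
    intro q _
    obtain ⟨c, rfl⟩ := QuotientGroup.mk_surjective q
    rw [← Abelianization.ker_of, MonoidHom.mem_ker]
    exact hϕ c
  · intro hC
    rw [eq_top_iff]
    intro g _
    have hle : Subgroup.centralizer ({z} : Set G) ≤ Cfsg.pResidual 2 G := by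
      have h1 : (Cfsg.pResidual 2 ↥(Subgroup.centralizer ({z} : Set G))).map
          (Subgroup.centralizer ({z} : Set G)).subtype ≤ Cfsg.pResidual 2 G := by
        unfold Cfsg.pResidual
        rw [MonoidHom.map_closure, Subgroup.closure_le]
        rintro _ ⟨x, hx, rfl⟩
        apply Subgroup.subset_closure
        show Nat.Coprime (orderOf ((x : G))) 2
        rw [Subgroup.orderOf_coe]; exact hx
      intro c hc
      apply h1
      rw [hC]
      exact ⟨⟨c, hc⟩, trivial, rfl⟩
    obtain ⟨k, hk, hgk⟩ := Cfsg.Agent.Helper20.exists_invSet_rep hz g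
    have hk' : k ∈ Cfsg.pResidual 2 G :=
      Subgroup.subset_closure (Nat.coprime_two_right.mpr hk.1)
    have e : g = k * (g⁻¹ * k)⁻¹ := by group
    rw [e]
    exact Subgroup.mul_mem _ hk' (Subgroup.inv_mem _ (hle hgk))

end Cfsg.Agent.S1183
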