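import Cfsg.Statements.S1184
import Cfsg.Agent.Helper20.Isolated

set_option autoImplicit false
open Cfsg

namespace Cfsg.Agent.S1184

theorem conj_pow_inv_or {G : Type*} [Group G] (r u : G) (h : r * u * r⁻¹ = u⁻¹) (n : ℕ) :
    r ^ n * u * (r ^ n)⁻¹ = u ∨ r ^ n * u * (r ^ n)⁻¹ = u⁻¹ := by
  have h' : r * u⁻¹ * r⁻¹ = u := by
    have : r * u⁻¹ * r⁻¹ = (r * u * r⁻¹)⁻¹ := by group
    rw [this, h, inv_inv]
  induction n with
  | zero => left; simp
  | succ n ih =>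
    have e : r ^ (n + 1) * u * (r ^ (n + 1))⁻¹ = r * (r ^ n * u * (r ^ n)⁻¹) * r⁻¹ := by
      rw [pow_succ', mul_inv_rev]; simp only [mul_assoc]
    rcases ih with ih | ih
    · right; rw [e, ih, h]
    · left; rw [e, ih, h']

theorem aux {G : Type*} [Group G] [Finite G] (z s t : G) (hzz : z * z = 1)
    (hss : s * s = 1) (htt : t * t = 1) (hcomm : Commute (s * t) z)
    (n : ℕ) (h3 : (s * z) ^ n * z * ((s * z) ^ n)⁻¹ = s) : s * t = t * s := by
  have hsinv : s⁻¹ = s := inv_eq_of_mul_eq_one_left hss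
  have htinv : t⁻¹ = t := inv_eq_of_mul_eq_one_left htt
  have huinv : (s * t)⁻¹ = t * s := by rw [mul_inv_rev, hsinv, htinv]
  obtain ⟨u, hu⟩ : ∃ u, u = s * t := ⟨_, rfl⟩
  rw [← hu] at hcomm huinv
  have huz : u * z = z * u := hcomm
  have hzu : z * u * z⁻¹ = u := by rw [← huz]; group
  have hsu : s * u * s⁻¹ = u⁻¹ := by
    rw [huinv, hsinv, hu]
    calc s * (s * t) * s = (s * s) * t * s := by group
      _ = t * s := by rw [hss, one_mul]
  have hszu : (s * z) * u * (s * z)⁻¹ = u⁻¹ := by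
    calc (s * z) * u * (s * z)⁻¹ = s * (z * u * z⁻¹) * s⁻¹ := by group
      _ = u⁻¹ := by rw [hzu, hsu]
  obtain ⟨k, hk⟩ : ∃ k, k = (s * z) ^ n := ⟨_, rfl⟩
  have key := conj_pow_inv_or (s * z) u hszu n
  rw [← hk] at key h3
  have h4 : s * (k * u * k⁻¹) * s⁻¹ = k * u * k⁻¹ := by
    calc s * (k * u * k⁻¹) * s⁻¹ = (k * z * k⁻¹) * (k * u * k⁻¹) * (k * z * k⁻¹)⁻¹ := by rw [h3]
      _ = k * (z * u * z⁻¹) * k⁻¹ := by group
      _ = k * u * k⁻¹ := by rw [hzu]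
  have h5 : s * u * s⁻¹ = u := by
    rcases key with h | h
    · rw [h] at h4; exact h4
    · rw [h] at h4
      have : s * u * s⁻¹ = (s * u⁻¹ * s⁻¹)⁻¹ := by group
      rw [this, h4, inv_inv]
  have h6 : u = u⁻¹ := h5.symm.trans hsu
  rw [← hu, ← huinv, ← h6]

/-- Let z be an isolated involution of the finite group G. If s and t are distinct conjugates of z, then st does not commute with z. -/
theorem result {G : Type*} [Group G] [Finite G] (z : G) (hz : Cfsg.IsIsolatedInvolution z) (g h : G) (hne : g * z * g⁻¹ ≠ h * z * h⁻¹) : ¬ Commute (g * z * g⁻¹ * (h * z * h⁻¹)) z := by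
  intro hcomm
  have hzz := Cfsg.Agent.Helper20.isolated_sq hz
  obtain ⟨n, -, -, h3⟩ := Cfsg.Agent.Helper20.isolated_exists_pow hz g
  have h7 := aux z (g * z * g⁻¹) (h * z * h⁻¹) hzz (Cfsg.Agent.Helper20.conj_sq hzz g)
    (Cfsg.Agent.Helper20.conj_sq hzz h) hcomm n h3
  have hsiso := Cfsg.Agent.Helper20.isolated_conj hz g
  have h8 : h * z * h⁻¹ = (h * g⁻¹) * (g * z * g⁻¹) * (h * g⁻¹)⁻¹ := by group
  have h9 : Commute (g * z * g⁻¹) ((h * g⁻¹) * (g * z * g⁻¹) * (h * g⁻¹)⁻¹) := by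
    rw [← h8]; exact h7
  have h10 := hsiso.2 _ h9
  exact hne (by rw [← h10, ← h8])

end Cfsg.Agent.S1184
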