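import Cfsg.Statements.S1185
import Cfsg.Agent.Helper20.Isolated

set_option autoImplicit false
open Cfsg

namespace Cfsg.Agent.S1185

/-- Let z be an isolated involution of the finite group G with centralizer C. Then for every g ∈ G there is exactly one element k in the coset gC that has odd order and is inverted by z. -/
theorem result {G : Type*} [Group G] [Finite G] (z : G) (hz : Cfsg.IsIsolatedInvolution z) (g : G) : ∃! k : G, (Odd (orderOf k) ∧ z * k * z⁻¹ = k⁻¹) ∧ g⁻¹ * k ∈ Subgroup.centralizer ({z} : Set G) := by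
  obtain ⟨n, h1, h2, h3⟩ := Cfsg.Agent.Helper20.isolated_exists_pow hz g
  refine ⟨(g * z * g⁻¹ * z) ^ n, ⟨⟨h1, h2⟩, ?_⟩, ?_⟩
  · rw [Subgroup.mem_centralizer_iff]
    intro x hx
    rw [Set.mem_singleton_iff] at hx
    subst hx
    set k := (g * x * g⁻¹ * x) ^ n with hk
    calc x * (g⁻¹ * k) = g⁻¹ * (g * x * g⁻¹) * k := by group
      _ = g⁻¹ * (k * x * k⁻¹) * k := by rw [h3]
      _ = g⁻¹ * k * x := by group
  · rintro k' ⟨⟨hk1, hk2⟩, hk3⟩
    rw [Subgroup.mem_centralizer_iff] at hk3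
    have hk3' := hk3 z (Set.mem_singleton z)
    have he : k' * z * k'⁻¹ = g * z * g⁻¹ := by
      calc k' * z * k'⁻¹ = g * (g⁻¹ * k' * z) * k'⁻¹ := by group
        _ = g * (z * (g⁻¹ * k')) * k'⁻¹ := by rw [hk3']
        _ = g * z * g⁻¹ := by group
    exact Cfsg.Agent.Helper20.odd_inv_unique z k' _ hk1 h1 hk2 h2 (he.trans h3.symm)

end Cfsg.Agent.S1185
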