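import Cfsg.Statements.S1186
import Cfsg.Agent.Helper20.IsolatedTransfer
import Cfsg.Agent.S1184

set_option autoImplicit false
open Cfsg

namespace Cfsg.Agent.S1186

open Cfsg.Agent.Helper20

variable {G : Type*} [Group G]

/-- M1: every conjugate of `z` is `k z k⁻¹` for some `k` in `invSet z`. -/
theorem exists_rep [Finite G] {z : G} (hz : Cfsg.IsIsolatedInvolution z) (g : G) :
    ∃ k ∈ invSet z, k * z * k⁻¹ = g * z * g⁻¹ := by
  obtain ⟨n, h1, h2, h3⟩ := isolated_exists_pow hz g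
  exact ⟨_, ⟨h1, h2⟩, h3⟩

/-- M2 -/
theorem rep_unique [Finite G] {z : G} (k k' : G) (hk : k ∈ invSet z)
    (hk' : k' ∈ invSet z) (h : k * z * k⁻¹ = k' * z * k'⁻¹) : k = k' :=
  odd_inv_unique z k k' hk.1 hk'.1 hk.2 hk'.2 h

/-- M3 -/
theorem invSet_conj' {z : G} (k c : G) (hk : k ∈ invSet z) (hc : c * z = z * c) :
    c * k * c⁻¹ ∈ invSet z := by
  have hc' : c⁻¹ ∈ Subgroup.centralizer ({z} : Set G) := by
    apply Subgroup.inv_mem
    rw [Subgroup.mem_centralizer_iff]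
    intro y hy
    rw [Set.mem_singleton_iff] at hy
    subst hy
    exact hc.symm
  have := invSet_conj k c⁻¹ hk hc'
  rwa [inv_inv] at this

/-- M4 -/
theorem commute_iff [Finite G] {z : G} (k c : G) (hk : k ∈ invSet z)
    (hc : c * z = z * c) (h : c * (k * z * k⁻¹) = (k * z * k⁻¹) * c) : Commute k c := by
  have h1 := invSet_conj' k c hk hc
  have h2 : (c * k * c⁻¹) * z * (c * k * c⁻¹)⁻¹ = k * z * k⁻¹ := by
    have hc3 : c⁻¹ * z * c = z := by rw [mul_assoc, ← hc]; group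
    calc (c * k * c⁻¹) * z * (c * k * c⁻¹)⁻¹ = c * k * (c⁻¹ * z * c) * k⁻¹ * c⁻¹ := by group
      _ = c * (k * z * k⁻¹) * c⁻¹ := by rw [hc3]; group
      _ = k * z * k⁻¹ := by rw [h]; group
  have h3 := rep_unique _ _ h1 hk h2
  show k * c = c * k
  calc k * c = (c * k * c⁻¹) * c := by rw [h3]
    _ = c * k := by group

/-- M5: existence of the midpoint. -/
theorem exists_midpoint [Finite G] {z : G} (hz : Cfsg.IsIsolatedInvolution z) (s : G)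
    (hss : s * s = 1) (g : G) :
    ∃ h : G, (h * z * h⁻¹) * s = s * (h * z * h⁻¹) ∧
      (h * z * h⁻¹) * (g * z * g⁻¹) * (h * z * h⁻¹)⁻¹ = s * (g * z * g⁻¹) * s⁻¹ := by
  have hsinv : s⁻¹ = s := inv_eq_of_mul_eq_one_left hss
  have hz' := isolated_conj hz g
  obtain ⟨y, hy⟩ : ∃ y, y = g * z * g⁻¹ := ⟨_, rfl⟩
  rw [← hy] at hz' ⊢
  have hyy := isolated_sq hz'
  have hyinv := isolated_inv hz'
  obtain ⟨n, h1, h2, h3⟩ := isolated_exists_pow hz' s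
  obtain ⟨k', hk'⟩ : ∃ k', k' = (s * y * s⁻¹ * y) ^ n := ⟨_, rfl⟩
  rw [← hk'] at h1 h2 h3
  obtain ⟨i, hi⟩ := h1
  -- square root of k'
  have hk'pow : k' ^ (2 * i + 1) = 1 := by rw [← hi]; exact pow_orderOf_eq_one _
  have hsq : (k' ^ (i + 1)) ^ 2 = k' := by
    rw [← pow_mul, show (i + 1) * 2 = 2 * i + 1 + 1 by ring, pow_succ, hk'pow, one_mul]
  have hinv2 : y * k' ^ (i + 1) * y⁻¹ = (k' ^ (i + 1))⁻¹ := by
    rw [← conj_pow, h2, inv_pow]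
  have hw : k' ^ (i + 1) * y * (k' ^ (i + 1))⁻¹ = k' * y := by
    rw [conj_eq_sq_mul y _ hinv2, hsq]
  refine ⟨k' ^ (i + 1) * g, ?_, ?_⟩
  · have e : k' ^ (i + 1) * g * z * (k' ^ (i + 1) * g)⁻¹ = k' * y := by
      rw [← hw, hy]; group
    rw [e]
    -- s k' s⁻¹ = k'⁻¹
    have hsk : s * k' * s⁻¹ = k'⁻¹ := by
      rw [hk', ← conj_pow, ← inv_pow]
      congr 1
      rw [mul_inv_rev, hyinv, hsinv]
      have : (s * y * s)⁻¹ = s * y * s := by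
        rw [mul_inv_rev, mul_inv_rev, hsinv, hyinv, mul_assoc]
      rw [this]
      calc s * (s * y * s * y) * s = (s * s) * y * (s * y * s) := by group
        _ = y * (s * y * s) := by rw [hss, one_mul]
    -- y k'⁻¹ = k' y
    have hyk : y * k'⁻¹ = k' * y := by
      have : y * k'⁻¹ * y⁻¹ = k' := by
        have e2 : y * k'⁻¹ * y⁻¹ = (y * k' * y⁻¹)⁻¹ := by group
        rw [e2, h2, inv_inv]
      calc y * k'⁻¹ = (y * k'⁻¹ * y⁻¹) * y := by group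
        _ = k' * y := by rw [this]
    calc k' * y * s = s * (s⁻¹ * k' * s) * (s⁻¹ * y * s) := by group
      _ = s * (s * k' * s⁻¹) * (s * y * s⁻¹) := by rw [hsinv]
      _ = s * k'⁻¹ * (k' * y * k'⁻¹) := by rw [hsk, h3]
      _ = s * (y * k'⁻¹) := by group
      _ = s * (k' * y) := by rw [hyk]
  · have e : k' ^ (i + 1) * g * z * (k' ^ (i + 1) * g)⁻¹ = k' * y := by
      rw [← hw, hy]; group
    rw [e, ← h3, mul_inv_rev, hyinv]
    calc k' * y * y * (y * k'⁻¹) = k' * (y * y) * y * k'⁻¹ := by group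
      _ = k' * y * k'⁻¹ := by rw [hyy, mul_one]

/-- M6: uniqueness of the midpoint. -/
theorem midpoint_unique [Finite G] {z : G} (hz : Cfsg.IsIsolatedInvolution z) (g h₁ h₂ t : G)
    (e₁ : (h₁ * z * h₁⁻¹) * (g * z * g⁻¹) * (h₁ * z * h₁⁻¹)⁻¹ = t)
    (e₂ : (h₂ * z * h₂⁻¹) * (g * z * g⁻¹) * (h₂ * z * h₂⁻¹)⁻¹ = t) :
    h₁ * z * h₁⁻¹ = h₂ * z * h₂⁻¹ := by
  by_contra hne
  have hz' := isolated_conj hz g
  have hzz := isolated_sq hz
  obtain ⟨y, hy⟩ : ∃ y, y = g * z * g⁻¹ := ⟨_, rfl⟩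
  have c1 : h₁ * z * h₁⁻¹ = (h₁ * g⁻¹) * y * (h₁ * g⁻¹)⁻¹ := by rw [hy]; group
  have c2 : h₂ * z * h₂⁻¹ = (h₂ * g⁻¹) * y * (h₂ * g⁻¹)⁻¹ := by rw [hy]; group
  rw [← hy] at hz' e₁ e₂
  have key := Cfsg.Agent.S1184.result y hz' (h₁ * g⁻¹) (h₂ * g⁻¹) (by rw [← c1, ← c2]; exact hne)
  rw [← c1, ← c2] at key
  apply key
  obtain ⟨w₁, hw₁⟩ : ∃ w, w = h₁ * z * h₁⁻¹ := ⟨_, rfl⟩
  obtain ⟨w₂, hw₂⟩ : ∃ w, w = h₂ * z * h₂⁻¹ := ⟨_, rfl⟩
  have hw1 : w₁ * w₁ = 1 := by rw [hw₁]; exact conj_sq hzz h₁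
  have hw2 : w₂ * w₂ = 1 := by rw [hw₂]; exact conj_sq hzz h₂
  have hw1inv : w₁⁻¹ = w₁ := inv_eq_of_mul_eq_one_left hw1
  have hw2inv : w₂⁻¹ = w₂ := inv_eq_of_mul_eq_one_left hw2
  rw [← hw₁] at e₁ ⊢
  rw [← hw₂] at e₂ ⊢
  rw [hw1inv] at e₁
  rw [hw2inv] at e₂
  show w₁ * w₂ * y = y * (w₁ * w₂)
  have e3 : w₂ * y = t * w₂ := by
    calc w₂ * y = (w₂ * y * w₂) * w₂⁻¹ := by group
      _ = t * w₂ := by rw [e₂, hw2inv]
  have e4 : w₁ * t = y * w₁ := by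
    calc w₁ * t = w₁ * (w₁ * y * w₁) := by rw [e₁]
      _ = (w₁ * w₁) * y * w₁ := by group
      _ = y * w₁ := by rw [hw1, one_mul]
  calc w₁ * w₂ * y = w₁ * (w₂ * y) := by group
    _ = (w₁ * t) * w₂ := by rw [e3]; group
    _ = y * (w₁ * w₂) := by rw [e4]; group

/-- the fibre computation: for `m` commuting with `s` and `l` commuting with `s*z`, the
conjugate `m z m⁻¹` is the midpoint of `(m l) z (m l)⁻¹`. -/
theorem fibre_eq {z s m l : G} (hzz : z * z = 1) (hss : s * s = 1) (hsz : s * z = z * s)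
    (hm : m * s = s * m) (hl : l * (s * z) = (s * z) * l) :
    (m * z * m⁻¹) * ((m * l) * z * (m * l)⁻¹) * (m * z * m⁻¹)⁻¹
      = s * ((m * l) * z * (m * l)⁻¹) * s⁻¹ := by
  have hzinv : z⁻¹ = z := inv_eq_of_mul_eq_one_left hzz
  have hsinv : s⁻¹ = s := inv_eq_of_mul_eq_one_left hss
  -- y = l z l⁻¹ commutes with s z
  obtain ⟨y, hy⟩ : ∃ y, y = l * z * l⁻¹ := ⟨_, rfl⟩
  have hszz : (s * z) * z = z * (s * z) := by rw [← mul_assoc z s z, ← hsz]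
  have h1 : (s * z) * y * (s * z)⁻¹ = y := by
    rw [hy]
    calc (s * z) * (l * z * l⁻¹) * (s * z)⁻¹ = ((s * z) * l) * z * l⁻¹ * (s * z)⁻¹ := by group
      _ = l * ((s * z) * z) * l⁻¹ * (s * z)⁻¹ := by rw [← hl]; group
      _ = l * z * ((s * z) * l⁻¹ * (s * z)⁻¹) := by rw [hszz]; group
      _ = l * z * (((s * z) * l) * (s * z)⁻¹)⁻¹ := by group
      _ = l * z * l⁻¹ := by rw [← hl]; group
  have h2 : z * y * z⁻¹ = s * y * s⁻¹ := by
    calc z * y * z⁻¹ = s⁻¹ * ((s * z) * y * (s * z)⁻¹) * s := by group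
      _ = s * y * s⁻¹ := by rw [h1, hsinv]
  have hm' : m⁻¹ * s = s * m⁻¹ := by
    calc m⁻¹ * s = m⁻¹ * (s * m) * m⁻¹ := by group
      _ = m⁻¹ * (m * s) * m⁻¹ := by rw [hm]
      _ = s * m⁻¹ := by group
  calc (m * z * m⁻¹) * ((m * l) * z * (m * l)⁻¹) * (m * z * m⁻¹)⁻¹
      = m * (z * (l * z * l⁻¹) * z⁻¹) * m⁻¹ := by group
    _ = m * (s * y * s⁻¹) * m⁻¹ := by rw [← hy, h2]
    _ = (m * s) * y * s⁻¹ * m⁻¹ := by group
    _ = s * m * y * (s * m⁻¹) := by rw [hm, hsinv]; group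
    _ = s * m * y * (m⁻¹ * s) := by rw [hm']
    _ = s * ((m * l) * z * (m * l)⁻¹) * s⁻¹ := by rw [hy, hsinv]; group

/-- Let z be an isolated involution of the finite group G, C = C_G(z), K the set of elements of odd order inverted by z, and s an involution of C. Then |G| = |C| · |C_K(sz)| · |C_K(s)|. -/
theorem result {G : Type*} [Group G] [Finite G] (z : G) (hz : Cfsg.IsIsolatedInvolution z) (s : G) (hs : orderOf s = 2) (hsz : Commute s z) : Nat.card G = Nat.card (Subgroup.centralizer ({z} : Set G)) * Nat.card {k : G // Odd (orderOf k) ∧ z * k * z⁻¹ = k⁻¹ ∧ Commute k (s * z)} * Nat.card {k : G // Odd (orderOf k) ∧ z * k * z⁻¹ = k⁻¹ ∧ Commute k s} := by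
  have hzz := isolated_sq hz
  have hzinv := isolated_inv hz
  have hss : s * s = 1 := by
    have := pow_orderOf_eq_one s
    rwa [hs, pow_two] at this
  have hsinv : s⁻¹ = s := inv_eq_of_mul_eq_one_left hss
  have hsz' : s * z = z * s := hsz
  have hszz : (s * z) * z = z * (s * z) := by rw [← mul_assoc z s z, ← hsz']
  -- the map Φ
  let Φ : {k : G // Odd (orderOf k) ∧ z * k * z⁻¹ = k⁻¹ ∧ Commute k s} ×
      {k : G // Odd (orderOf k) ∧ z * k * z⁻¹ = k⁻¹ ∧ Commute k (s * z)} → {k : G // k ∈ invSet z} :=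
    fun p => ⟨Classical.choose (exists_rep hz (p.1.1 * p.2.1)),
      (Classical.choose_spec (exists_rep hz (p.1.1 * p.2.1))).1⟩
  have hΦ : ∀ p, (Φ p : G) * z * (Φ p : G)⁻¹ = (p.1.1 * p.2.1) * z * (p.1.1 * p.2.1)⁻¹ :=
    fun p => (Classical.choose_spec (exists_rep hz (p.1.1 * p.2.1))).2
  have hinj : Function.Injective Φ := by
    rintro ⟨⟨m, hm1, hm2, hm3⟩, ⟨l, hl1, hl2, hl3⟩⟩ ⟨⟨m', hm1', hm2', hm3'⟩, ⟨l', hl1', hl2', hl3'⟩⟩ heq
    have h1 := hΦ ⟨⟨m, hm1, hm2, hm3⟩, ⟨l, hl1, hl2, hl3⟩⟩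
    have h2 := hΦ ⟨⟨m', hm1', hm2', hm3'⟩, ⟨l', hl1', hl2', hl3'⟩⟩
    rw [heq] at h1
    simp only at h1 h2
    have h3 : (m * l) * z * (m * l)⁻¹ = (m' * l') * z * (m' * l')⁻¹ := h1.symm.trans h2
    have f1 := fibre_eq hzz hss hsz' hm3 hl3
    have f2 := fibre_eq hzz hss hsz' hm3' hl3'
    rw [← h3] at f2
    have hmm : m * z * m⁻¹ = m' * z * m'⁻¹ := midpoint_unique hz (m * l) m m' _ f1 f2
    have hm_eq : m = m' := rep_unique m m' ⟨hm1, hm2⟩ ⟨hm1', hm2'⟩ hmm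
    subst hm_eq
    have hll : l * z * l⁻¹ = l' * z * l'⁻¹ := by
      calc l * z * l⁻¹ = m⁻¹ * ((m * l) * z * (m * l)⁻¹) * m := by group
        _ = m⁻¹ * ((m * l') * z * (m * l')⁻¹) * m := by rw [h3]
        _ = l' * z * l'⁻¹ := by group
    have hl_eq : l = l' := rep_unique l l' ⟨hl1, hl2⟩ ⟨hl1', hl2'⟩ hll
    subst hl_eq
    rfl
  have hsurj : Function.Surjective Φ := by
    rintro ⟨k, hk⟩
    obtain ⟨h, hw1, hw2⟩ := exists_midpoint hz s hss k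
    obtain ⟨m, hm, hmw⟩ := exists_rep hz h
    rw [← hmw] at hw1 hw2
    have hms : Commute m s := commute_iff m s hm hsz' hw1.symm
    have hms' : m * s = s * m := hms
    obtain ⟨l, hl, hlw⟩ := exists_rep hz (m⁻¹ * k)
    have hm' : m⁻¹ * s = s * m⁻¹ := by
      calc m⁻¹ * s = m⁻¹ * (s * m) * m⁻¹ := by group
        _ = m⁻¹ * (m * s) * m⁻¹ := by rw [hms']
        _ = s * m⁻¹ := by group
    have hlc : (s * z) * (l * z * l⁻¹) = (l * z * l⁻¹) * (s * z) := by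
      rw [hlw]
      -- y = m⁻¹ z' m with z' = k z k⁻¹
      have e1 : (s * z) * ((m⁻¹ * k) * z * (m⁻¹ * k)⁻¹) * (s * z)⁻¹ = (m⁻¹ * k) * z * (m⁻¹ * k)⁻¹ := by
        calc (s * z) * ((m⁻¹ * k) * z * (m⁻¹ * k)⁻¹) * (s * z)⁻¹
            = s * m⁻¹ * ((m * z * m⁻¹) * (k * z * k⁻¹) * (m * z * m⁻¹)⁻¹) * m * s⁻¹ := by group
          _ = (s * m⁻¹) * (s * (k * z * k⁻¹) * s⁻¹) * m * s⁻¹ := by rw [hw2]
          _ = (m⁻¹ * s) * (s * (k * z * k⁻¹) * s) * (m * s) := by rw [hm', hsinv]; group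
          _ = m⁻¹ * (s * s) * (k * z * k⁻¹) * (s * s) * m := by rw [hms']; group
          _ = (m⁻¹ * k) * z * (m⁻¹ * k)⁻¹ := by rw [hss]; group
      calc (s * z) * ((m⁻¹ * k) * z * (m⁻¹ * k)⁻¹)
          = ((s * z) * ((m⁻¹ * k) * z * (m⁻¹ * k)⁻¹) * (s * z)⁻¹) * (s * z) := by group
        _ = ((m⁻¹ * k) * z * (m⁻¹ * k)⁻¹) * (s * z) := by rw [e1]
    have hls : Commute l (s * z) := commute_iff l (s * z) hl hszz hlc
    refine ⟨⟨⟨m, hm.1, hm.2, hms⟩, ⟨l, hl.1, hl.2, hls⟩⟩, ?_⟩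
    apply Subtype.ext
    apply rep_unique _ _ (Φ ⟨⟨m, hm.1, hm.2, hms⟩, ⟨l, hl.1, hl.2, hls⟩⟩).2 hk
    rw [hΦ]
    show (m * l) * z * (m * l)⁻¹ = k * z * k⁻¹
    calc (m * l) * z * (m * l)⁻¹ = m * (l * z * l⁻¹) * m⁻¹ := by group
      _ = m * ((m⁻¹ * k) * z * (m⁻¹ * k)⁻¹) * m⁻¹ := by rw [hlw]
      _ = k * z * k⁻¹ := by group
  have hcardK : Nat.card {k : G // k ∈ invSet z} =
      Nat.card {k : G // Odd (orderOf k) ∧ z * k * z⁻¹ = k⁻¹ ∧ Commute k s} *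
      Nat.card {k : G // Odd (orderOf k) ∧ z * k * z⁻¹ = k⁻¹ ∧ Commute k (s * z)} := by
    rw [← Nat.card_prod]
    exact (Nat.card_congr (Equiv.ofBijective Φ ⟨hinj, hsurj⟩)).symm
  -- |G/C| = |K|
  have hquot : Nat.card (G ⧸ Subgroup.centralizer ({z} : Set G)) = Nat.card {k : G // k ∈ invSet z} := by
    apply Nat.card_congr
    refine ⟨fun q => ⟨invRep hz q, invRep_mem hz q⟩,
      fun k => ((k : G) : G ⧸ Subgroup.centralizer ({z} : Set G)), ?_, ?_⟩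
    · intro q
      exact invRep_coe hz q
    · rintro ⟨k, hk⟩
      apply Subtype.ext
      apply invSet_unique _ _ (invRep_mem hz _) hk
      rw [← QuotientGroup.eq, invRep_coe]
  rw [Subgroup.card_eq_card_quotient_mul_card_subgroup (Subgroup.centralizer ({z} : Set G)),
    hquot, hcardK]
  ring

end Cfsg.Agent.S1186
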