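import Cfsg.Statements.S1187
import Cfsg.Agent.Helper49.IsolSylow

set_option autoImplicit false
open Cfsg

namespace Cfsg.Agent.S1187

/-- Let z be an isolated involution of the finite group G and p a prime. If Q is a p-subgroup normalized by z that is maximal among p-subgroups normalized by z, then Q is a Sylow p-subgroup of G. -/
theorem result {G : Type*} [Group G] [Finite G] (z : G) (hz : Cfsg.IsIsolatedInvolution z) {p : ℕ} [Fact p.Prime] (Q : Subgroup G) (hQ : IsPGroup p Q) (hzQ : z ∈ Subgroup.normalizer (Q : Set G)) (hmax : ∀ R : Subgroup G, IsPGroup p R → z ∈ Subgroup.normalizer (R : Set G) → Q ≤ R → R = Q) : ∃ P : Sylow p G, (P : Subgroup G) = Q := by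
  by_cases hp : p = 2
  · subst hp
    have hzp : IsPGroup 2 (Subgroup.zpowers z) := by
      apply IsPGroup.of_card (n := 1); rw [Nat.card_zpowers, hz.1, pow_one]
    have hzQmem : z ∈ Q := by
      have h1 : IsPGroup 2 (Q ⊔ Subgroup.zpowers z : Subgroup G) :=
        IsPGroup.to_sup_of_normal_left' hQ hzp ((Subgroup.zpowers_le).mpr hzQ)
      have h2 := hmax (Q ⊔ Subgroup.zpowers z) h1
        (Subgroup.le_normalizer (le_sup_right (a := Q) (Subgroup.mem_zpowers z))) le_sup_left
      rw [← h2]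
      exact le_sup_right (a := Q) (Subgroup.mem_zpowers z)
    obtain ⟨P, hQP⟩ := hQ.exists_le_sylow
    exact ⟨P, hmax P P.isPGroup' (Subgroup.le_normalizer (hQP hzQmem)) hQP⟩
  · obtain ⟨N, hNn, hodd, hN⟩ := Cfsg.Agent.Helper49.isol_zstar z hz
    obtain ⟨P, hQP, hzP⟩ :=
      Cfsg.Agent.Helper49.isol_exists_invariant_sylow_ge hz.1 N hodd hN hp Q hQ hzQ
    exact ⟨P, hmax P P.isPGroup' hzP hQP⟩

end Cfsg.Agent.S1187
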