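import Cfsg.Statements.S1231
import Cfsg.Agent.Helper21.PRank

set_option autoImplicit false
open Cfsg

namespace Cfsg.Agent.S1231

open Cfsg.Agent.Helper21

/-- The hypothesis on subgroups of `P` extends to all `p`-subgroups of `H`. -/
theorem hyp_of_le {G : Type*} [Group G] [Finite G] {p : ℕ} [Fact p.Prime] {j : ℕ} {H : Subgroup G}
    (P : Sylow p ↥H)
    (hyp : ∀ X : Subgroup G, X ≤ (P : Subgroup ↥H).map H.subtype → ¬ Cfsg.PRankLE p j ↥X →
      Subgroup.normalizer (X : Set G) ≤ H)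
    {X : Subgroup G} (hXH : X ≤ H) (hX : IsPGroup p X) (hr : ¬ Cfsg.PRankLE p j ↥X) :
    Subgroup.normalizer (X : Set G) ≤ H := by
  obtain ⟨h, hh, hconj⟩ := exists_conj_mem_sylow_of_le P hX hXH
  have hle : X.map (MulAut.conj h).toMonoidHom ≤ (P : Subgroup ↥H).map H.subtype := by
    rintro y ⟨x, hx, rfl⟩
    simpa [MulAut.conj_apply] using hconj x hx
  have hN := hyp _ hle (not_pRankLE_conj h hr)
  intro n hn
  have h1 : h * n * h⁻¹ ∈ H := hN (conj_mem_normalizer_map hn h)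
  have e : n = h⁻¹ * (h * n * h⁻¹) * h := by group
  rw [e]
  exact H.mul_mem (H.mul_mem (H.inv_mem hh) h1) hh

/-- ... and to `p`-subgroups of a conjugate of `H`. -/
theorem hyp_of_le_conj {G : Type*} [Group G] [Finite G] {p : ℕ} [Fact p.Prime] {j : ℕ}
    {H : Subgroup G} (P : Sylow p ↥H)
    (hyp : ∀ X : Subgroup G, X ≤ (P : Subgroup ↥H).map H.subtype → ¬ Cfsg.PRankLE p j ↥X →
      Subgroup.normalizer (X : Set G) ≤ H)
    (g : G) {X : Subgroup G} (hXH : X ≤ H.map (MulAut.conj g).toMonoidHom) (hX : IsPGroup p X)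
    (hr : ¬ Cfsg.PRankLE p j ↥X) :
    Subgroup.normalizer (X : Set G) ≤ H.map (MulAut.conj g).toMonoidHom := by
  have hle : X.map (MulAut.conj g⁻¹).toMonoidHom ≤ H := by
    rintro y ⟨x, hx, rfl⟩
    have := (mem_map_conj_iff H g x).mp (hXH hx)
    simpa [MulAut.conj_apply] using this
  have hN := hyp_of_le P hyp hle (hX.map _) (not_pRankLE_conj g⁻¹ hr)
  intro n hn
  have h1 : g⁻¹ * n * g⁻¹⁻¹ ∈ H := hN (conj_mem_normalizer_map hn g⁻¹)
  rw [inv_inv] at h1
  exact (mem_map_conj_iff H g n).mpr h1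

theorem forward_aux {G : Type*} [Group G] [Finite G] {p : ℕ} [Fact p.Prime] {j : ℕ}
    {H : Subgroup G} (P : Sylow p ↥H) (hP : ¬ Cfsg.PRankLE p j ↥(P : Subgroup ↥H))
    (hyp : ∀ X : Subgroup G, X ≤ (P : Subgroup ↥H).map H.subtype → ¬ Cfsg.PRankLE p j ↥X →
      Subgroup.normalizer (X : Set G) ≤ H)
    (g : G) (hg : g ∉ H) (K : Subgroup G) (hK1 : K ≤ H)
    (hK2 : K ≤ H.map (MulAut.conj g).toMonoidHom)
    (hKN : ∀ X : Subgroup G, Subgroup.normalizer (X : Set G) ≤ H →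
      Subgroup.normalizer (X : Set G) ≤ H.map (MulAut.conj g).toMonoidHom →
      Subgroup.normalizer (X : Set G) ≤ K) :
    Cfsg.PRankLE p j ↥K := by
  by_contra hcon
  unfold Cfsg.PRankLE at hcon
  push Not at hcon
  obtain ⟨A, hAc, hAexp, hAcard⟩ := hcon
  -- a Sylow `p`-subgroup `S₀` of `K = H ∩ H^g` containing `A`
  have hAp : IsPGroup p A := by
    intro a
    refine ⟨1, ?_⟩
    rw [pow_one]
    exact Subtype.ext ((Subgroup.coe_pow _ _ _).trans (hAexp a.1 a.2))
  obtain ⟨S₀, hAS₀⟩ := hAp.exists_le_sylow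
  set S : Subgroup G := (S₀ : Subgroup K).map K.subtype with hS
  have hSK : S ≤ K := Subgroup.map_subtype_le _
  have hSp : IsPGroup p S := S₀.isPGroup'.map _
  have hSr : ¬ Cfsg.PRankLE p j ↥S := by
    apply not_pRankLE_map K.subtype K.subtype_injective
    exact not_pRankLE_of_elemAb hAS₀ hAc hAexp (not_le.mpr hAcard)
  have hN1 : Subgroup.normalizer (S : Set G) ≤ H :=
    hyp_of_le P hyp (hSK.trans hK1) hSp hSr
  have hN2 : Subgroup.normalizer (S : Set G) ≤ H.map (MulAut.conj g).toMonoidHom :=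
    hyp_of_le_conj P hyp g (hSK.trans hK2) hSp hSr
  -- conjugate `S` into `P`
  obtain ⟨h, hh, hconj⟩ := exists_conj_mem_sylow_of_le P hSp (hSK.trans hK1)
  set P' : Subgroup G := (P : Subgroup ↥H).map H.subtype with hP'
  have hP'p : IsPGroup p P' := P.isPGroup'.map _
  have hS1le : S.map (MulAut.conj h).toMonoidHom ≤ P' := by
    rintro y ⟨x, hx, rfl⟩
    simpa [MulAut.conj_apply] using hconj x hx
  -- `S^h = P'`
  have hS1eq : S.map (MulAut.conj h).toMonoidHom = P' := by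
    by_contra hne
    have hlt : S.map (MulAut.conj h).toMonoidHom < P' := lt_of_le_of_ne hS1le hne
    obtain ⟨x, hxP, hxS, hxN⟩ := exists_normalizing_of_lt hP'p hlt
    -- `y = h⁻¹ x h` normalizes `S`, is not in `S`
    have hyN : h⁻¹ * x * h ∈ Subgroup.normalizer (S : Set G) := by
      have := conj_mem_normalizer_map hxN h⁻¹
      rw [inv_inv] at this
      have e : (S.map (MulAut.conj h).toMonoidHom).map (MulAut.conj h⁻¹).toMonoidHom = S := by
        ext z
        rw [mem_map_conj_iff, mem_map_conj_iff]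
        have : h⁻¹ * (h⁻¹⁻¹ * z * h⁻¹) * h = z := by group
        rw [this]
      rwa [e] at this
    have hyS : h⁻¹ * x * h ∉ S := by
      intro hy
      apply hxS
      rw [mem_map_conj_iff]; exact hy
    have hyK : h⁻¹ * x * h ∈ K := hKN S hN1 hN2 hyN
    -- `S ⊔ ⟨y⟩` is a `p`-subgroup of `K`
    have hyp' : IsPGroup p (Subgroup.zpowers (h⁻¹ * x * h)) := by
      have h1 : IsPGroup p (P'.map (MulAut.conj h⁻¹).toMonoidHom) := hP'p.map _
      apply h1.to_le
      rw [Subgroup.zpowers_le, mem_map_conj_iff]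
      have : h⁻¹⁻¹ * (h⁻¹ * x * h) * h⁻¹ = x := by group
      rw [this]; exact hxP
    have hsup : IsPGroup p (Subgroup.zpowers (h⁻¹ * x * h) ⊔ S : Subgroup G) :=
      hyp'.to_sup_of_normal_right' hSp (by rw [Subgroup.zpowers_le]; exact hyN)
    have hsupK : (Subgroup.zpowers (h⁻¹ * x * h) ⊔ S : Subgroup G) ≤ K := by
      rw [sup_le_iff]
      exact ⟨by rw [Subgroup.zpowers_le]; exact hyK, hSK⟩
    have hmax := S₀.is_maximal' (Q := (Subgroup.zpowers (h⁻¹ * x * h) ⊔ S : Subgroup G).subgroupOf K)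
      hsup.comap_subtype (by
        intro s hs
        rw [Subgroup.mem_subgroupOf]
        exact le_sup_right (a := Subgroup.zpowers (h⁻¹ * x * h)) (Subgroup.mem_map_of_mem _ hs))
    apply hyS
    have hmem : (⟨h⁻¹ * x * h, hyK⟩ : K) ∈
        (Subgroup.zpowers (h⁻¹ * x * h) ⊔ S : Subgroup G).subgroupOf K := by
      rw [Subgroup.mem_subgroupOf]
      exact le_sup_left (b := S) (Subgroup.mem_zpowers _)
    rw [hmax] at hmem
    exact ⟨_, hmem, rfl⟩
  -- `N_G(P') ≤ H`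
  have hP'r : ¬ Cfsg.PRankLE p j ↥P' := not_pRankLE_map H.subtype H.subtype_injective hP
  have hNP : Subgroup.normalizer (P' : Set G) ≤ H := hyp P' le_rfl hP'r
  -- `g⁻¹ S g ≤ H`
  have hle2 : S.map (MulAut.conj g⁻¹).toMonoidHom ≤ H := by
    rintro y ⟨x, hx, rfl⟩
    have := (mem_map_conj_iff H g x).mp ((hSK.trans hK2) hx)
    simpa [MulAut.conj_apply] using this
  obtain ⟨h₂, hh₂, hconj₂⟩ := exists_conj_mem_sylow_of_le P (hSp.map _) hle2
  have hn : h₂ * g⁻¹ * h⁻¹ ∈ Subgroup.normalizer (P' : Set G) := by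
    apply mem_normalizer_of_conj_mem
    intro w hw
    rw [← hS1eq, mem_map_conj_iff] at hw
    have h3 := hconj₂ (g⁻¹ * (h⁻¹ * w * h) * g)
      ⟨h⁻¹ * w * h, hw, by simp⟩
    have e : h₂ * (g⁻¹ * (h⁻¹ * w * h) * g) * h₂⁻¹ = h₂ * g⁻¹ * h⁻¹ * w * (h₂ * g⁻¹ * h⁻¹)⁻¹ := by
      group
    rwa [e] at h3
  have h4 := hNP hn
  apply hg
  have e : g = h⁻¹ * (h₂ * g⁻¹ * h⁻¹)⁻¹ * h₂ := by group
  rw [e]
  exact H.mul_mem (H.mul_mem (H.inv_mem hh) (H.inv_mem h4)) hh₂

/-- Let H be a subgroup of the finite group G, p a prime, k ≥ 1, and P a Sylow p-subgroup of H whose p-rank is at least k. Then N_G(X) ≤ H for every subgroup X of P of p-rank at least k if and only if H ∩ gHg⁻¹ has p-rank less than k for every g ∉ H. -/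
theorem result {G : Type*} [Group G] [Finite G] {p : ℕ} [Fact p.Prime] (k : ℕ) (hk : 1 ≤ k) (H : Subgroup G) (P : Sylow p ↥H) (hP : ¬ Cfsg.PRankLE p (k - 1) ↥(P : Subgroup ↥H)) : (∀ X : Subgroup G, X ≤ (P : Subgroup ↥H).map H.subtype → ¬ Cfsg.PRankLE p (k - 1) ↥X → Subgroup.normalizer (X : Set G) ≤ H) ↔ (∀ g : G, g ∉ H → Cfsg.PRankLE p (k - 1) ↥(H ⊓ H.map (MulAut.conj g).toMonoidHom)) := by
  constructor
  · intro hyp g hg
    exact forward_aux P hP hyp g hg _ inf_le_left inf_le_right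
      (fun X h1 h2 => le_inf h1 h2)
  · intro hyp X hXP hXr g hg
    by_contra hgH
    apply hXr
    have hXH : X ≤ H := hXP.trans (Subgroup.map_subtype_le _)
    have hle : X ≤ H ⊓ H.map (MulAut.conj g).toMonoidHom := by
      intro x hx
      have h2 : x ∈ H.map (MulAut.conj g).toMonoidHom := by
        rw [mem_map_conj_iff]
        apply hXH
        have := (Subgroup.mem_normalizer_iff.mp ((Subgroup.normalizer _).inv_mem hg) x).mp hx
        simpa using this
      exact ⟨hXH hx, h2⟩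
    exact pRankLE_of_injective (Subgroup.inclusion hle) (Subgroup.inclusion_injective hle)
      (hyp g hgH)

end Cfsg.Agent.S1231
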