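import Cfsg.Statements.S1236
import Cfsg.Agent.Helper21.Dih
import Cfsg.Agent.Helper21.Four

set_option autoImplicit false
open Cfsg

namespace Cfsg.Agent.S1236

open Cfsg.Agent.Helper21

/-- In a group with a cyclic subgroup `C` of index 2 such that elements of `C` commuting with an
element outside `C` square to `1`, every subgroup of order 4 and exponent 2 is
self-centralizing. -/
theorem centralizer_le_of_cyclic_index_two {D : Type*} [Group D] [Finite D] (C : Subgroup D)
    (hcyc : IsCyclic ↥C) (hidx : C.index = 2)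
    (hC : ∀ w : D, w ∉ C → ∀ c ∈ C, c * w = w * c → c * c = 1) (A : Subgroup D)
    (hA4 : Nat.card A = 4) (hA2 : ∀ a ∈ A, a * a = 1) :
    Subgroup.centralizer (A : Set D) ≤ A := by
  have hU := Four.isKleinFour_of hA4 hA2
  have hcard_le : ∀ B : Subgroup D, (∀ b ∈ B ⊓ C, b * b = 1) → Nat.card ↥(B ⊓ C) ≤ 2 := by
    intro B hB
    have h1 : IsCyclic ↥((B ⊓ C).subgroupOf C) := inferInstance
    have hBC : IsCyclic ↥(B ⊓ C) :=
      isCyclic_of_surjective (Subgroup.subgroupOfEquivOfLe (inf_le_right : B ⊓ C ≤ C)).toMonoidHom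
        (Subgroup.subgroupOfEquivOfLe (inf_le_right : B ⊓ C ≤ C)).surjective
    rw [← IsCyclic.exponent_eq_card]
    apply Nat.le_of_dvd (by norm_num)
    apply Monoid.exponent_dvd_of_forall_pow_eq_one
    intro x
    apply Subtype.ext
    rw [sq]
    exact hB x.1 x.2
  -- an element of `A` outside `C`
  obtain ⟨w, hwA, hwC⟩ : ∃ w ∈ A, w ∉ C := by
    by_contra hcon
    push Not at hcon
    have h1 : A ⊓ C = A := inf_eq_left.mpr hcon
    have h2 := hcard_le A (fun b hb => hA2 b hb.1)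
    rw [h1, hA4] at h2
    omega
  -- the centralizer of `w` has order at most 4
  have hcw : Nat.card ↥(Subgroup.centralizer ({w} : Set D)) ≤ 4 := by
    have h1 : Nat.card ↥(Subgroup.centralizer ({w} : Set D) ⊓ C) ≤ 2 := by
      apply hcard_le
      rintro b ⟨hb1, hb2⟩
      apply hC w hwC b hb2
      exact ((Subgroup.mem_centralizer_iff.mp hb1) w rfl).symm
    have h2 : (Subgroup.centralizer ({w} : Set D) ⊓ C).relIndex
        (Subgroup.centralizer ({w} : Set D)) ≤ 2 := by
      rw [Subgroup.inf_relIndex_left, ← hidx, ← Subgroup.relIndex_top_right]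
      apply Subgroup.relIndex_le_of_le_right le_top
      rw [Subgroup.relIndex_top_right, hidx]
      norm_num
    have h3 := Subgroup.card_mul_index
      ((Subgroup.centralizer ({w} : Set D) ⊓ C).subgroupOf (Subgroup.centralizer ({w} : Set D)))
    have h4 : Nat.card ((Subgroup.centralizer ({w} : Set D) ⊓ C).subgroupOf
        (Subgroup.centralizer ({w} : Set D))) = Nat.card ↥(Subgroup.centralizer ({w} : Set D) ⊓ C) :=
      Nat.card_congr (Subgroup.subgroupOfEquivOfLe inf_le_left).toEquiv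
    rw [h4] at h3
    calc Nat.card ↥(Subgroup.centralizer ({w} : Set D))
        = Nat.card ↥(Subgroup.centralizer ({w} : Set D) ⊓ C) *
          ((Subgroup.centralizer ({w} : Set D) ⊓ C).subgroupOf
            (Subgroup.centralizer ({w} : Set D))).index := h3.symm
      _ ≤ 2 * 2 := Nat.mul_le_mul h1 h2
  have hAle : A ≤ Subgroup.centralizer ({w} : Set D) := by
    intro a ha
    rw [Subgroup.mem_centralizer_iff]
    rintro _ rfl
    exact Four.comm_of_isKleinFour hU hwA ha
  have hAeq : A = Subgroup.centralizer ({w} : Set D) :=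
    Subgroup.eq_of_le_of_card_ge hAle (by rw [hA4]; exact hcw)
  intro x hx
  rw [hAeq, Subgroup.mem_centralizer_iff]
  intro v hv
  rw [Set.mem_singleton_iff] at hv
  rw [hv]
  exact (Subgroup.mem_centralizer_iff.mp hx) w hwA

/-- The dihedral case. -/
theorem exists_cyclic_of_dihedral {D : Type*} [Group D] [Finite D] (m : ℕ) (hm : 2 ≤ m)
    (e : D ≃* DihedralGroup m) :
    ∃ C : Subgroup D, IsCyclic ↥C ∧ C.index = 2 ∧
      ∀ w : D, w ∉ C → ∀ c ∈ C, c * w = w * c → c * c = 1 := by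
  have hne : NeZero m := ⟨by omega⟩
  let e' : ↥(⊤ : Subgroup D) ≃* DihedralGroup m := Subgroup.topEquiv.trans e
  refine ⟨Dih.rot e', Dih.rot_isCyclic e', ?_, ?_⟩
  · rw [← Subgroup.relIndex_top_right]
    exact Dih.rot_relIndex e'
  · intro w hw c hc hcw
    have h1 := Dih.conj_rot e' (Subgroup.mem_top w) hw hc
    have h2 : w * c * w⁻¹ = c := by rw [← hcw, mul_inv_cancel_right]
    rw [h2] at h1
    calc c * c = c * c⁻¹ := by rw [← h1]
      _ = 1 := mul_inv_cancel c

/-- The quasi-dihedral case. -/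
theorem exists_cyclic_of_quasiDihedral {D : Type*} [Group D] [Finite D]
    (h : Cfsg.IsQuasiDihedral D) :
    ∃ C : Subgroup D, IsCyclic ↥C ∧ C.index = 2 ∧
      ∀ w : D, w ∉ C → ∀ c ∈ C, c * w = w * c → c * c = 1 := by
  obtain ⟨n, hn, hcard, x, y, hx, hy, hyx⟩ := h
  obtain ⟨k, rfl⟩ : ∃ k, n = k + 3 := ⟨n - 3, by omega⟩
  have he : 2 ^ (k + 3 - 1) - 1 = 4 * 2 ^ k - 1 := by
    have : k + 3 - 1 = k + 2 := by omega
    rw [this, pow_add]; ring_nf
  rw [he] at hyx
  have hM : 1 ≤ 2 ^ k := Nat.one_le_two_pow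
  have hord : orderOf x = 8 * 2 ^ k := by rw [hx, pow_add]; ring
  have hidx : (Subgroup.zpowers x).index = 2 := by
    have h1 := Subgroup.card_mul_index (Subgroup.zpowers x)
    rw [Nat.card_zpowers, hx, hcard, pow_succ] at h1
    exact Nat.eq_of_mul_eq_mul_left (by positivity) h1
  -- conjugation by `y` on powers of `x`
  have hconj : ∀ j : ℤ, y * x ^ j * y⁻¹ = x ^ (((4 * 2 ^ k - 1 : ℕ) : ℤ) * j) := by
    intro j
    have e1 : y * x ^ j * y⁻¹ = (y * x * y⁻¹) ^ j := by
      simp [conj_zpow]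
    rw [e1, hyx, zpow_mul, zpow_natCast]
  -- `y` is not a power of `x`
  have hyC : y ∉ Subgroup.zpowers x := by
    intro hy'
    obtain ⟨j, rfl⟩ := Subgroup.mem_zpowers_iff.mp hy'
    have h1 : x ^ j * x * (x ^ j)⁻¹ = x := by group
    rw [h1] at hyx
    have h2 : x ^ (4 * 2 ^ k - 2) = 1 := by
      have h3 : x ^ (4 * 2 ^ k - 1) = x ^ (4 * 2 ^ k - 2) * x := by
        rw [← pow_succ]
        congr 1
        omega
      rw [h3] at hyx
      have : 1 * x = x ^ (4 * 2 ^ k - 2) * x := by rw [one_mul]; exact hyx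
      exact (mul_right_cancel this).symm
    have h4 := orderOf_dvd_of_pow_eq_one h2
    rw [hord] at h4
    have h5 := Nat.le_of_dvd (by omega) h4
    omega
  refine ⟨Subgroup.zpowers x, inferInstance, hidx, ?_⟩
  intro w hw c hc hcw
  -- `w = y d` with `d` a power of `x`
  have hd : y⁻¹ * w ∈ Subgroup.zpowers x := by
    rw [Subgroup.mul_mem_iff_of_index_two hidx]
    constructor
    · intro h1
      exact absurd (inv_inv y ▸ Subgroup.inv_mem _ h1) hyC
    · intro h1
      exact absurd h1 hw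
  obtain ⟨i, hi⟩ := Subgroup.mem_zpowers_iff.mp hd
  obtain ⟨j, rfl⟩ := Subgroup.mem_zpowers_iff.mp hc
  have hw' : w = y * x ^ i := by rw [hi]; group
  -- `c` commutes with `y`
  have hcy : y * x ^ j * y⁻¹ = x ^ j := by
    rw [hw'] at hcw
    have e1 : x ^ j * (y * x ^ i) = y * x ^ j * x ^ i := by
      rw [hcw, mul_assoc, mul_assoc]
      congr 1
      rw [← zpow_add, ← zpow_add, add_comm]
    have e2 : x ^ j * y = y * x ^ j := by
      have : x ^ j * y * x ^ i = y * x ^ j * x ^ i := by rw [← e1]; group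
      exact mul_right_cancel this
    rw [← e2, mul_inv_cancel_right]
  rw [hconj j] at hcy
  -- arithmetic
  have h1 : x ^ ((((4 * 2 ^ k - 1 : ℕ) : ℤ) * j) - j) = 1 := by
    rw [zpow_sub, hcy, mul_inv_cancel]
  have h2 : ((orderOf x : ℕ) : ℤ) ∣ (((4 * 2 ^ k - 1 : ℕ) : ℤ) * j) - j :=
    orderOf_dvd_iff_zpow_eq_one.mpr h1
  rw [hord] at h2
  have hcast : ((4 * 2 ^ k - 1 : ℕ) : ℤ) = 4 * 2 ^ k - 1 := by
    have : 1 ≤ 4 * 2 ^ k := by omega
    rw [Nat.cast_sub this]
    push_cast
    ring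
  rw [hcast] at h2
  have h3 : ((4 * 2 ^ k : ℤ)) ∣ j * (2 * 2 ^ k - 1) := by
    obtain ⟨q, hq⟩ := h2
    refine ⟨q, ?_⟩
    push_cast at hq
    have : (2 : ℤ) * (j * (2 * 2 ^ k - 1)) = 2 * (4 * 2 ^ k * q) := by linarith
    exact mul_left_cancel₀ (by norm_num) this
  have hcop : IsCoprime ((4 * 2 ^ k : ℤ)) (2 * 2 ^ k - 1) := by
    have h2c : IsCoprime (2 : ℤ) (2 * 2 ^ k - 1) := ⟨2 ^ k, -1, by ring⟩
    have : (4 * 2 ^ k : ℤ) = 2 ^ (k + 2) := by ring
    rw [this]
    exact h2c.pow_left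
  have h4 : ((4 * 2 ^ k : ℤ)) ∣ j := hcop.dvd_of_dvd_mul_right h3
  have h5 : ((orderOf x : ℕ) : ℤ) ∣ j + j := by
    rw [hord]
    obtain ⟨q, hq⟩ := h4
    refine ⟨q, ?_⟩
    push_cast
    rw [hq]; ring
  rw [← zpow_add]
  exact orderOf_dvd_iff_zpow_eq_one.mp h5

/-- Let R be a finite group, t a central involution of R such that R ⧸ ⟨t⟩ is dihedral (of order ≥ 4) or quasi-dihedral, and A ≤ R an elementary abelian subgroup of order 8 containing t. Then C_R(A) = A. -/
theorem result {R : Type*} [Group R] [Finite R] (t : R) (ht : orderOf t = 2) (htz : t ∈ Subgroup.center R) [(Subgroup.zpowers t).Normal] (hq : (∃ m : ℕ, 2 ≤ m ∧ Nonempty (R ⧸ Subgroup.zpowers t ≃* DihedralGroup m)) ∨ Cfsg.IsQuasiDihedral (R ⧸ Subgroup.zpowers t)) (A : Subgroup R) (hA : Cfsg.IsElementaryAbelian 2 A) (hA8 : Nat.card A = 8) (htA : t ∈ A) : Subgroup.centralizer (A : Set R) = A := by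
  obtain ⟨hAc, hA2⟩ := hA
  have hker : (QuotientGroup.mk' (Subgroup.zpowers t)).ker = Subgroup.zpowers t :=
    QuotientGroup.ker_mk' _
  have hle : Subgroup.zpowers t ≤ A := by
    rw [Subgroup.zpowers_le]; exact htA
  -- the image of `A`
  have hcomap : (A.map (QuotientGroup.mk' (Subgroup.zpowers t))).comap
      (QuotientGroup.mk' (Subgroup.zpowers t)) = A := by
    rw [Subgroup.comap_map_eq, hker, sup_eq_left.mpr hle]
  have hidx : (A.map (QuotientGroup.mk' (Subgroup.zpowers t))).index = A.index := by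
    rw [← Subgroup.index_comap_of_surjective _ (QuotientGroup.mk'_surjective (Subgroup.zpowers t)),
      hcomap]
  have hA4 : Nat.card (A.map (QuotientGroup.mk' (Subgroup.zpowers t))) = 4 := by
    have h1 := Subgroup.card_mul_index A
    have h2 := Subgroup.card_mul_index (A.map (QuotientGroup.mk' (Subgroup.zpowers t)))
    have h3 := Subgroup.card_eq_card_quotient_mul_card_subgroup (Subgroup.zpowers t)
    rw [Nat.card_zpowers, ht] at h3
    rw [hidx] at h2
    rw [hA8] at h1
    have hpos : 0 < A.index := Nat.pos_of_ne_zero (Subgroup.index_ne_zero_of_finite)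
    have : Nat.card (A.map (QuotientGroup.mk' (Subgroup.zpowers t))) * A.index * 2 =
        4 * A.index * 2 := by
      rw [h2, ← h3, ← h1]; ring
    have h5 := Nat.eq_of_mul_eq_mul_right (by norm_num : 0 < 2) this
    exact Nat.eq_of_mul_eq_mul_right hpos h5
  have hA2' : ∀ a ∈ A.map (QuotientGroup.mk' (Subgroup.zpowers t)), a * a = 1 := by
    rintro _ ⟨a, ha, rfl⟩
    rw [← map_mul, ← sq, hA2 a ha, map_one]
  obtain ⟨C, hCc, hCi, hC⟩ : ∃ C : Subgroup (R ⧸ Subgroup.zpowers t), IsCyclic ↥C ∧ C.index = 2 ∧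
      ∀ w : R ⧸ Subgroup.zpowers t, w ∉ C → ∀ c ∈ C, c * w = w * c → c * c = 1 := by
    rcases hq with ⟨m, hm, ⟨e⟩⟩ | hq
    · exact exists_cyclic_of_dihedral m hm e
    · exact exists_cyclic_of_quasiDihedral hq
  have hcent := centralizer_le_of_cyclic_index_two C hCc hCi hC _ hA4 hA2'
  apply le_antisymm
  · intro x hx
    have hx' : QuotientGroup.mk' (Subgroup.zpowers t) x ∈
        Subgroup.centralizer ((A.map (QuotientGroup.mk' (Subgroup.zpowers t)) : Subgroup _) :
          Set (R ⧸ Subgroup.zpowers t)) := by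
      rw [Subgroup.mem_centralizer_iff]
      rintro _ ⟨a, ha, rfl⟩
      rw [← map_mul, ← map_mul, (Subgroup.mem_centralizer_iff.mp hx) a ha]
    have h1 := hcent hx'
    have h2 : x ∈ (A.map (QuotientGroup.mk' (Subgroup.zpowers t))).comap
        (QuotientGroup.mk' (Subgroup.zpowers t)) := h1
    rwa [hcomap] at h2
  · intro x hx
    rw [Subgroup.mem_centralizer_iff]
    intro a ha
    have := hAc.is_comm.comm (⟨a, ha⟩ : A) ⟨x, hx⟩
    exact congrArg Subtype.val this

end Cfsg.Agent.S1236
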