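import Cfsg.Statements.S1237
-- import your own Cfsg.Agent.* helpers here
import Cfsg.Agent.Helper50.R2c
import Cfsg.Agent.Helper50.U34
import Cfsg.Agent.S1137
import Cfsg.Agent.S1138

set_option autoImplicit false
open Cfsg

namespace Cfsg.Agent.S1237

open Cfsg.Agent.Helper50

/-- Let T be a finite 2-group of 2-rank exactly 2 (it has a Klein four-subgroup but no elementary abelian subgroup of order 8) admitting an automorphism φ such that any two involutions of T are carried to one another by a power of φ. Then T ≅ Z_{2^n} × Z_{2^n} for some n ≥ 1, or T is isomorphic to a Sylow 2-subgroup of PSU(3) over the field with 16 elements. -/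
theorem result {T : Type*} [Group T] [Finite T] (hT : IsPGroup 2 T) (h2 : Cfsg.PRankLE 2 2 T) (h1 : ¬ Cfsg.PRankLE 2 1 T) (φ : MulAut T) (htrans : ∀ s t : T, orderOf s = 2 → orderOf t = 2 → ∃ k : ℕ, (φ ^ k) s = t) {F : Type*} [Field F] [Fintype F] (hF : Fintype.card F = 16) (P : Sylow 2 (Cfsg.PSU 3 F 4)) : (∃ n : ℕ, 1 ≤ n ∧ Nonempty (T ≃* Multiplicative (ZMod (2 ^ n) × ZMod (2 ^ n)))) ∨ Nonempty (T ≃* (P : Subgroup (Cfsg.PSU 3 F 4))) := by
  classical
  have hp2 : Fact (Nat.Prime 2) := ⟨Nat.prime_two⟩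
  -- a four-group
  have h1' : ∃ A : Subgroup T, IsMulCommutative A ∧ (∀ a ∈ A, a ^ 2 = 1) ∧ 2 ^ 1 < Nat.card A := by
    unfold Cfsg.PRankLE at h1
    push Not at h1
    exact h1
  obtain ⟨A, hAc, hAe, hAcard⟩ := h1'
  have hAbot : A ≠ ⊥ := by
    rintro rfl
    rw [Subgroup.card_bot] at hAcard
    norm_num at hAcard
  obtain ⟨⟨a0, ha0A⟩, ha01⟩ := Subgroup.ne_bot_iff_exists_ne_one.1 hAbot
  have ha01' : a0 ≠ 1 := fun h => ha01 (Subtype.ext h)
  have hnt : Nontrivial T := ⟨⟨a0, 1, ha01'⟩⟩
  -- a central involution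
  have hcen : ∃ z0 : T, z0 ∈ Subgroup.center T ∧ orderOf z0 = 2 := by
    have hZnt : Nontrivial (Subgroup.center T) := hT.center_nontrivial
    obtain ⟨⟨z, hz⟩, hz1⟩ := exists_ne (1 : Subgroup.center T)
    have hz1' : z ≠ 1 := fun h => hz1 (Subtype.ext h)
    obtain ⟨k, hk⟩ := (IsPGroup.iff_orderOf.1 hT) z
    have hk0 : k ≠ 0 := by
      rintro rfl
      rw [pow_zero, orderOf_eq_one_iff] at hk
      exact hz1' hk
    obtain ⟨j, rfl⟩ := Nat.exists_eq_succ_of_ne_zero hk0
    refine ⟨z ^ 2 ^ j, Subgroup.pow_mem _ hz _, ?_⟩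
    rw [orderOf_pow' z (by positivity), hk, Nat.gcd_eq_right (pow_dvd_pow 2 (Nat.le_succ j)),
      pow_succ, Nat.mul_div_cancel_left _ (by positivity)]
  obtain ⟨z0, hz0c, hz0o⟩ := hcen
  have hord2 : ∀ s : T, s * s = 1 → s ≠ 1 → orderOf s = 2 := fun s hs hs1 =>
    orderOf_eq_prime (by rw [pow_two]; exact hs) hs1
  have hcent : ∀ s : T, s * s = 1 → s ∈ Subgroup.center T := by
    intro s hs
    by_cases hs1 : s = 1
    · rw [hs1]; exact Subgroup.one_mem _
    · obtain ⟨k, hk⟩ := htrans z0 s hz0o (hord2 s hs hs1)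
      rw [← hk]
      exact mulAut_mem_center (φ ^ k) hz0c
  -- exactly four elements of square one
  have hZ0le : Nat.card (invSub T hcent) ≤ 4 := by
    have := h2 (invSub T hcent)
      (Subgroup.le_centralizer_iff_isMulCommutative.1 (fun z hz =>
        Subgroup.mem_centralizer_iff.2 (fun g _ => Subgroup.mem_center_iff.1 (hcent z hz) g)))
      (fun a ha => by rw [pow_two]; exact ha)
    norm_num at this
    exact this
  have hAZ : A ≤ invSub T hcent := by
    intro a ha
    have := hAe a ha
    rw [pow_two] at this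
    exact this
  have hZ04 : Nat.card (invSub T hcent) = 4 := by
    obtain ⟨j, hj⟩ := IsPGroup.iff_card.1 (hT.to_subgroup (invSub T hcent))
    have hle : Nat.card A ≤ Nat.card (invSub T hcent) := Subgroup.card_le_of_le hAZ
    rw [hj] at hle hZ0le ⊢
    have hj3 : j < 3 := by
      by_contra hcon
      have : 2 ^ 3 ≤ 2 ^ j := Nat.pow_le_pow_right (by norm_num) (by omega)
      omega
    interval_cases j <;> omega
  have hcard4 : Nat.card {s : T // s * s = 1} = 4 := hZ04
  -- the action of `φ` on the involutions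
  have hφs : ∀ s : T, s * s = 1 → φ s * φ s = 1 := fun s hs => by rw [← map_mul, hs, map_one]
  have hφn1 : ∀ s : T, s ≠ 1 → φ s ≠ 1 := fun s hs h => hs (φ.injective (by rw [h, map_one]))
  have hφ1 : ∀ s : T, s * s = 1 → s ≠ 1 → φ s ≠ s := by
    intro s hs hs1 hfix
    have hall : ∀ k : ℕ, (φ ^ k) s = s := by
      intro k
      induction k with
      | zero => rfl
      | succ k ih => rw [pow_succ, MulAut.mul_apply, hfix, ih]
    have hsub : ∀ z : T, z * z = 1 → z = 1 ∨ z = s := by
      intro z hz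
      by_cases hz1 : z = 1
      · exact Or.inl hz1
      · obtain ⟨k, hk⟩ := htrans s z (hord2 s hs hs1) (hord2 z hz hz1)
        rw [hall] at hk
        exact Or.inr hk.symm
    have := card_le_two_of (fun z : T => z * z = 1) 1 s hsub
    omega
  have hφ2 : ∀ s : T, s * s = 1 → s ≠ 1 → φ (φ s) ≠ s := by
    intro s hs hs1 hfix
    have hall : ∀ k : ℕ, (φ ^ k) s = s ∨ (φ ^ k) s = φ s := by
      intro k
      induction k with
      | zero => exact Or.inl rfl
      | succ k ih =>
        rw [pow_succ', MulAut.mul_apply]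
        rcases ih with h | h
        · rw [h]; exact Or.inr rfl
        · rw [h, hfix]; exact Or.inl rfl
    have hsub : ∀ z : T, z * z = 1 → z = 1 ∨ z = s ∨ z = φ s := by
      intro z hz
      by_cases hz1 : z = 1
      · exact Or.inl hz1
      · obtain ⟨k, hk⟩ := htrans s z (hord2 s hs hs1) (hord2 z hz hz1)
        rcases hall k with h | h
        · rw [h] at hk; exact Or.inr (Or.inl hk.symm)
        · rw [h] at hk; exact Or.inr (Or.inr hk.symm)
    have := card_le_three_of (fun z : T => z * z = 1) 1 s (φ s) hsub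
    omega
  have hφ3 : ∀ s : T, s * s = 1 → s ≠ 1 → φ (φ (φ s)) = s := by
    intro s hs hs1
    have e := eq_of_card_four hZ04 (a := 1) (b := s) (c := φ s) (d := φ (φ s))
      (z := φ (φ (φ s)))
      (Subgroup.one_mem _) hs (hφs s hs) (hφs _ (hφs s hs))
      (Ne.symm hs1) (Ne.symm (hφn1 s hs1)) (Ne.symm (hφn1 _ (hφn1 s hs1)))
      (Ne.symm (hφ1 s hs hs1)) (Ne.symm (hφ2 s hs hs1))
      (Ne.symm (hφ1 (φ s) (hφs s hs) (hφn1 s hs1)))
      (hφs _ (hφs _ (hφs s hs)))
    rcases e with h | h | h | h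
    · exact absurd h (hφn1 _ (hφn1 _ (hφn1 s hs1)))
    · exact h
    · exact absurd (φ.injective h) (hφ2 s hs hs1)
    · exact absurd (φ.injective (φ.injective h)) (hφ1 s hs hs1)
  have hper : ∀ (j : ℕ) (s : T), s * s = 1 → s ≠ 1 → (φ ^ j) s = s → 3 ∣ j := by
    intro j s hs hs1 hj
    have h3 : Function.IsPeriodicPt φ 3 s := hφ3 s hs hs1
    have hjp : Function.IsPeriodicPt φ j s := by
      show (⇑φ)^[j] s = s
      rw [← mulAut_pow_apply]; exact hj
    have hmin := h3.minimalPeriod_dvd
    have hmin1 : Function.minimalPeriod φ s ≠ 1 := by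
      intro h
      have := Function.isPeriodicPt_minimalPeriod φ s
      rw [h] at this
      exact hφ1 s hs hs1 this
    have hmin3 : Function.minimalPeriod φ s = 3 := by
      rcases (Nat.dvd_prime Nat.prime_three).1 hmin with h | h
      · exact absurd h hmin1
      · exact h
    rw [← hmin3]
    exact hjp.minimalPeriod_dvd
  -- the 3-part of `φ`
  have hN0 : orderOf φ ≠ 0 := (orderOf_pos φ).ne'
  obtain ⟨a, m, hm3, hNm⟩ := Nat.exists_eq_pow_mul_and_not_dvd hN0 3 (by norm_num)
  obtain ⟨ψ, hψ⟩ : ∃ ψ : MulAut T, ψ = φ ^ m := ⟨_, rfl⟩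
  have hψpow : ψ ^ 3 ^ a = 1 := by
    rw [hψ, ← pow_mul, mul_comm, ← hNm, pow_orderOf_eq_one]
  have HR : R2 ψ := ⟨hT, hcent, hcard4, ⟨a, hψpow⟩, fun s hs hfix => by
    by_contra hs1
    rw [hψ] at hfix
    exact hm3 (hper m s hs hs1 hfix)⟩
  have hcube := HR.cube
  have hF3 : Fpf3 ψ := ⟨hcube, fun t ht => HR.fpf ht⟩
  by_cases hab : ∀ a b : T, a * b = b * a
  · left
    let _ : CommGroup T := { (inferInstance : Group T) with mul_comm := hab }
    exact R2.abelian HR
  · right
    push Not at hab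
    obtain ⟨x0, y0, hxy⟩ := hab
    obtain ⟨s, hs, hs1⟩ := HR.exists_invol
    have hSuz : Cfsg.IsSuzukiTwoGroup T := by
      refine ⟨inferInstance, hT, ⟨x0, y0, hxy⟩,
        ⟨s, ψ s, (HR.psi_ne hs hs1).symm, hs1, hs, HR.psi_ne_one hs1, HR.sq_psi hs⟩,
        Subgroup.zpowers ψ, inferInstance, ?_⟩
      have hK : ∀ k ∈ Subgroup.zpowers ψ, k = 1 ∨ k = ψ ∨ k = ψ * ψ := by
        intro k hk
        obtain ⟨i, rfl⟩ := Subgroup.mem_zpowers_iff.1 hk
        have hψ3 : ψ ^ (3 : ℤ) = 1 := by
          have h3 : ψ ^ (3 : ℕ) = 1 := by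
            ext t
            rw [pow_succ, pow_two]
            exact hcube t
          exact_mod_cast h3
        have hi : ψ ^ i = ψ ^ (i % 3) := by
          conv_lhs => rw [← Int.mul_ediv_add_emod i 3]
          rw [zpow_add, zpow_mul, hψ3, one_zpow, one_mul]
        have h0 : 0 ≤ i % 3 := Int.emod_nonneg i (by norm_num)
        have h3 : i % 3 < 3 := Int.emod_lt_of_pos i (by norm_num)
        rw [hi]
        obtain ⟨r, hr⟩ : ∃ r : ℤ, r = i % 3 := ⟨_, rfl⟩
        rw [← hr] at h0 h3 ⊢
        interval_cases r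
        · left; exact zpow_zero ψ
        · right; left; exact zpow_one ψ
        · right; right; exact zpow_two ψ
      intro x y hx1 hx hy1 hy
      have hψx : ψ x ≠ x := HR.psi_ne hx hx1
      have hψ2x : ψ (ψ x) ≠ x := HR.psi2_ne hx hx1
      have hex : ∃ k : Subgroup.zpowers ψ, (k : MulAut T) x = y := by
        rcases HR.inv_enum hx hx1 hy with h | h | h | h
        · exact absurd h hy1
        · exact ⟨⟨1, Subgroup.one_mem _⟩, h.symm⟩
        · exact ⟨⟨ψ, Subgroup.mem_zpowers ψ⟩, h.symm⟩
        · exact ⟨⟨ψ * ψ, Subgroup.mul_mem _ (Subgroup.mem_zpowers ψ) (Subgroup.mem_zpowers ψ)⟩,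
            h.symm⟩
      obtain ⟨k, hk⟩ := hex
      refine ⟨k, hk, ?_⟩
      intro k' hk'
      have e : (k' : MulAut T) x = (k : MulAut T) x := by rw [hk', hk]
      apply Subtype.ext
      rcases hK k'.1 k'.2 with h' | h' | h' <;> rcases hK k.1 k.2 with h | h | h <;>
        rw [h', h] at e ⊢ <;>
        first
          | exact absurd e.symm hψx
          | exact absurd e hψx
          | exact absurd e hψ2x
          | exact absurd e.symm hψ2x
          | exact absurd (ψ.injective e) hψx
          | exact absurd (ψ.injective e).symm hψx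
    obtain ⟨hinv, hexpZ⟩ := Cfsg.Agent.S1137.result hSuz
    obtain ⟨hsq, -, hcardT, -⟩ := Cfsg.Agent.S1138.result hSuz
    have hZeq : Subgroup.center T = invSub T hcent := by
      ext z
      constructor
      · intro hz; exact hexpZ z hz
      · intro hz; exact hcent z hz
    have hZ4 : Nat.card (Subgroup.center T) = 4 := by rw [hZeq]; exact hZ04
    rw [hZ4] at hcardT
    have h64 : Nat.card T = 64 := by
      rcases hcardT with h16 | h64
      · exfalso
        have hAcomm := fpfA_comm hF3 x0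
        have hAinv := fpfA_inv hF3 x0
        have hmod := fpf3_card_mod hF3 (fpfA ψ x0) hAinv
        have hdvd : Nat.card (fpfA ψ x0) ∣ 16 := by
          have := Subgroup.card_subgroup_dvd_card (fpfA ψ x0)
          rw [h16] at this
          norm_num at this
          exact this
        have hlt : 4 < Nat.card (fpfA ψ x0) := by
          have hle : Subgroup.center T ≤ fpfA ψ x0 := center_le_fpfA ψ x0
          have hne : Subgroup.center T ≠ fpfA ψ x0 := by
            intro h
            have hx0 : x0 ∈ Subgroup.center T := by rw [h]; exact fpfA_mem ψ x0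
            exact hxy ((Subgroup.mem_center_iff.1 hx0 y0).symm)
          have h1 := Subgroup.card_le_of_le hle
          rw [hZ4] at h1
          by_contra hcon
          exact hne (Subgroup.eq_of_le_of_card_ge hle (by rw [hZ4]; omega))
        have hAtop : fpfA ψ x0 = ⊤ := by
          apply Subgroup.eq_top_of_card_eq
          rw [h16]
          have hmem : Nat.card (fpfA ψ x0) ∈ Nat.divisors 16 :=
            Nat.mem_divisors.2 ⟨hdvd, by norm_num⟩
          have h4 : Nat.divisors 16 = {1, 2, 4, 8, 16} := by decide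
          rw [h4] at hmem
          simp only [Finset.mem_insert, Finset.mem_singleton] at hmem
          omega
        exact hxy (hAcomm x0 (fpfA_mem ψ x0) y0 (by rw [hAtop]; exact Subgroup.mem_top y0))
      · norm_num at h64
        exact h64
    have HF : Fpf64 ψ := ⟨hF3, h64, hZ4, hexpZ, hsq⟩
    exact nonempty_equiv_sylow_psu34 hF P HF hcent

end Cfsg.Agent.S1237
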