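import Cfsg.Statements.S1239
import Cfsg.Agent.S0215
import Cfsg.Agent.Helper53.FusCenter
import Cfsg.Agent.Helper53.ZStarGen
import Cfsg.Agent.Helper53.Isolated
import Cfsg.Agent.Helper49.PPrimeCore
import Cfsg.Agent.Helper61.WrFusion

set_option autoImplicit false
open Cfsg

namespace Cfsg.Agent.S1239

open Cfsg.Agent.Helper53 Cfsg.Agent.Helper61

/-- If `c` is central modulo the normal subgroup `N`, so are its powers. -/
theorem comm_zpow_mem {X : Type*} [Group X] (N : Subgroup X) [N.Normal] {c : X}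
    (h : ∀ g : X, g * c * g⁻¹ * c⁻¹ ∈ N) (i : ℤ) : ∀ g : X, g * c ^ i * g⁻¹ * (c ^ i)⁻¹ ∈ N := by
  intro g
  have h2 : QuotientGroup.mk' N g * QuotientGroup.mk' N c * (QuotientGroup.mk' N g)⁻¹ *
      (QuotientGroup.mk' N c)⁻¹ = 1 := by
    rw [← map_inv, ← map_inv, ← map_mul, ← map_mul, ← map_mul]
    exact (QuotientGroup.eq_one_iff (N := N) (g * c * g⁻¹ * c⁻¹)).mpr (h g)
  have h1 : Commute (QuotientGroup.mk' N g) (QuotientGroup.mk' N c) := by
    show _ * _ = _ * _
    calc QuotientGroup.mk' N g * QuotientGroup.mk' N c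
        = (QuotientGroup.mk' N g * QuotientGroup.mk' N c * (QuotientGroup.mk' N g)⁻¹ *
            (QuotientGroup.mk' N c)⁻¹) * QuotientGroup.mk' N c * QuotientGroup.mk' N g := by group
      _ = QuotientGroup.mk' N c * QuotientGroup.mk' N g := by rw [h2, one_mul]
  have h3 := h1.zpow_right i
  apply (QuotientGroup.eq_one_iff (N := N) _).mp
  show QuotientGroup.mk' N (g * c ^ i * g⁻¹ * (c ^ i)⁻¹) = 1
  rw [map_mul, map_mul, map_mul, map_inv, map_inv, map_zpow, h3.eq]
  group

/-- Let X be a finite group whose Sylow 2-subgroup S is quasi-dihedral or wreathed, and suppose some involution of S is isolated in X. Then the product of the largest normal odd-order subgroup O(X) with the centre of S is normal in X. -/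
theorem result {X : Type*} [Group X] [Finite X] (S : Sylow 2 X) (hS : Cfsg.IsQuasiDihedral (S : Subgroup X) ∨ Cfsg.IsWreathed (S : Subgroup X)) (z : X) (hzS : z ∈ S) (hz : Cfsg.IsIsolatedInvolution z) : (Cfsg.oddCore X ⊔ (Subgroup.center (S : Subgroup X)).map (S : Subgroup X).subtype).Normal := by
  have hF2 : Fact (Nat.Prime 2) := ⟨Nat.prime_two⟩
  have hON : (Cfsg.oddCore X).Normal := Cfsg.Agent.Helper49.pPrimeCore_normal' 2 X
  -- `Z*` for 2-elements of `S` that are alone among their conjugates in `S`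
  have hZ : ∀ x : X, x ∈ (S : Subgroup X) →
      (∀ g : X, g * x * g⁻¹ ∈ (S : Subgroup X) → g * x * g⁻¹ = x) →
      ∀ g : X, g * x * g⁻¹ * x⁻¹ ∈ Cfsg.oddCore X := by
    intro x hxS hwc
    have hiso : IsIsolated x := isIsolated_of_weakly_closed S x hxS hwc
    obtain ⟨k, hk⟩ := (IsPGroup.iff_orderOf.mp S.isPGroup') ⟨x, hxS⟩
    have hxk : x ^ 2 ^ k = 1 := by
      have h1 : (⟨x, hxS⟩ : (S : Subgroup X)) ^ 2 ^ k = 1 := by
        rw [← hk]; exact pow_orderOf_eq_one _
      exact congrArg Subtype.val h1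
    exact inZStar_of_isolated_two_element
      (fun H' _ _ P' t ht htP hiso' => Cfsg.Agent.S0215.result P' t ht htP hiso') k X x hxk hiso
  have hzwc := isolated_weakly_closed z hz S hzS
  have hzcen := isolated_central_sylow z hz S hzS
  have hz1 : z ≠ 1 := by
    intro h
    have h2 := hz.1
    rw [h, orderOf_one] at h2
    omega
  have hzz : z * z = 1 := by
    have h1 : z ^ 2 = 1 := by rw [← hz.1]; exact pow_orderOf_eq_one z
    rw [pow_two] at h1; exact h1
  -- every central element of `S` is central modulo `O(X)`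
  have key : ∀ w ∈ (Subgroup.center (S : Subgroup X)).map (S : Subgroup X).subtype,
      ∀ g : X, g * w * g⁻¹ * w⁻¹ ∈ Cfsg.oddCore X := by
    rintro _ ⟨w, hw, rfl⟩
    have hwS : (w : X) ∈ (S : Subgroup X) := w.2
    have hwcen : ∀ s ∈ (S : Subgroup X), s * (w : X) = (w : X) * s := by
      intro s hs
      have h1 := Subgroup.mem_center_iff.mp hw ⟨s, hs⟩
      exact congrArg Subtype.val h1
    show ∀ g : X, g * (w : X) * g⁻¹ * (w : X)⁻¹ ∈ Cfsg.oddCore X
    rcases hS with hQD | hWr
    · obtain ⟨z₀, hz₀⟩ := qd_center (S : Subgroup X) hQD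
      rcases hz₀ z hzS hzcen with h | h
      · exact absurd h hz1
      · rcases hz₀ (w : X) hwS hwcen with h' | h'
        · intro g
          rw [h']
          have e : g * (1 : X) * g⁻¹ * (1 : X)⁻¹ = 1 := by group
          rw [e]; exact Subgroup.one_mem _
        · have e : (w : X) = z := h'.trans h.symm
          rw [e]; exact hZ z hzS hzwc
    · obtain ⟨n, A, c, x', y', hF⟩ := exists_wrFrame (S : Subgroup X) hWr
      have hzc : z = c ^ 2 ^ (n - 1) := by
        have h1 := hF.center_le z hzS hzcen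
        rcases hF.invol_c h1 hzz with h | h
        · exact absurd h hz1
        · exact h
      have hcwc := wr_weakly_closed S hF (by rw [← hzc]; exact hzwc)
      have hcZ := hZ c (hF.A_le hF.c_mem) hcwc
      obtain ⟨i, hi⟩ := Subgroup.mem_zpowers_iff.mp (hF.center_le (w : X) hwS hwcen)
      rw [← hi]
      exact comm_zpow_mem (Cfsg.oddCore X) hcZ i
  obtain ⟨Z₀, hZ₀⟩ : ∃ Z₀ : Subgroup X,
      Z₀ = (Subgroup.center (S : Subgroup X)).map (S : Subgroup X).subtype := ⟨_, rfl⟩
  rw [← hZ₀] at key ⊢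
  refine ⟨fun a ha g => ?_⟩
  have hle : Cfsg.oddCore X ⊔ Z₀ ≤ (Cfsg.oddCore X ⊔ Z₀).comap (MulAut.conj g).toMonoidHom := by
    apply sup_le
    · intro b hb
      rw [Subgroup.mem_comap]
      exact (le_sup_left : Cfsg.oddCore X ≤ Cfsg.oddCore X ⊔ Z₀) (hON.conj_mem b hb g)
    · intro w hw
      rw [Subgroup.mem_comap]
      show g * w * g⁻¹ ∈ _
      have e : g * w * g⁻¹ = (g * w * g⁻¹ * w⁻¹) * w := by group
      rw [e]
      exact Subgroup.mul_mem _
        ((le_sup_left : Cfsg.oddCore X ≤ Cfsg.oddCore X ⊔ Z₀) (key w hw g))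
        ((le_sup_right : Z₀ ≤ Cfsg.oddCore X ⊔ Z₀) hw)
  exact hle ha

end Cfsg.Agent.S1239
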