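import Cfsg.Statements.S1241
import Cfsg.Agent.Helper21.Transfer

set_option autoImplicit false
open Cfsg

namespace Cfsg.Agent.S1241

/-- Let G be a finite group, p a prime, H a subgroup of index prime to p, K a subgroup of H normal in H with H/K commutative, and g ∈ H ∖ K an element of p-power order such that for all integers m and all a ∈ G with a g^m a⁻¹ ∈ H one has a g^m a⁻¹ ∈ g^m K. Then g ∉ G'. -/
theorem result {G : Type*} [Group G] [Finite G] {p : ℕ} [Fact p.Prime] (H K : Subgroup G) (hHK : K ≤ H) (hKn : (K.subgroupOf H).Normal) (hab : ∀ x ∈ H, ∀ y ∈ H, x * y * x⁻¹ * y⁻¹ ∈ K) (hidx : Nat.Coprime p H.index) (g : G) (hgH : g ∈ H) (hgK : g ∉ K) (hgp : ∃ k : ℕ, orderOf g = p ^ k) (hctrl : ∀ (m : ℤ) (a : G), a * g ^ m * a⁻¹ ∈ H → (a * g ^ m * a⁻¹) * (g ^ m)⁻¹ ∈ K) : g ∉ commutator G := by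
  intro hgc
  have := hKn
  let _instA : CommGroup (H ⧸ K.subgroupOf H) :=
    { (inferInstance : Group (H ⧸ K.subgroupOf H)) with
      mul_comm := by
        intro x y
        obtain ⟨x, rfl⟩ := QuotientGroup.mk_surjective x
        obtain ⟨y, rfl⟩ := QuotientGroup.mk_surjective y
        rw [← QuotientGroup.mk_mul, ← QuotientGroup.mk_mul, QuotientGroup.eq,
          Subgroup.mem_subgroupOf]
        have := hab (y⁻¹ : H) (y⁻¹ : H).2 (x⁻¹ : H) (x⁻¹ : H).2
        simpa [mul_assoc] using this }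
  let ϕ : H →* H ⧸ K.subgroupOf H := QuotientGroup.mk' _
  have hV : MonoidHom.transfer ϕ g = (ϕ ⟨g, hgH⟩) ^ H.index := by
    apply Cfsg.Agent.Helper21.transfer_eq_pow_of_key
    intro k g₀ h
    have h0 : g₀⁻¹ * g ^ (k : ℤ) * g₀⁻¹⁻¹ ∈ H := by simpa using h
    have h1 := hctrl (k : ℤ) g₀⁻¹ h0
    have h2 : ϕ (⟨g₀⁻¹ * g ^ k * g₀, h⟩ * (⟨g, hgH⟩ ^ k)⁻¹) = 1 := by
      apply (QuotientGroup.eq_one_iff _).mpr
      rw [Subgroup.mem_subgroupOf]
      simpa using h1
    rw [map_mul, map_inv, mul_inv_eq_one, map_pow] at h2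
    exact h2
  have h1 : MonoidHom.transfer ϕ g = 1 :=
    Abelianization.commutator_subset_ker (MonoidHom.transfer ϕ) hgc
  obtain ⟨k, hk⟩ := hgp
  have h2 : (ϕ ⟨g, hgH⟩) ^ (p ^ k) = 1 := by
    rw [← map_pow]
    have : (⟨g, hgH⟩ : H) ^ (p ^ k) = 1 := by
      apply Subtype.ext
      simp only [Subgroup.coe_pow, Subgroup.coe_one]
      rw [← hk]; exact pow_orderOf_eq_one g
    rw [this, map_one]
  have h3 : ϕ ⟨g, hgH⟩ = 1 := by
    have hco : Nat.Coprime (p ^ k) H.index := Nat.Coprime.pow_left k hidx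
    have d1 := orderOf_dvd_of_pow_eq_one h2
    have d2 := orderOf_dvd_of_pow_eq_one (hV ▸ h1)
    have := Nat.eq_one_of_dvd_coprimes hco d1 d2
    exact orderOf_eq_one_iff.mp this
  apply hgK
  have := (QuotientGroup.eq_one_iff _).mp h3
  simpa [Subgroup.mem_subgroupOf] using this

end Cfsg.Agent.S1241
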