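import Cfsg.Statements.S1242
import Cfsg.Agent.Helper21.Transfer

set_option autoImplicit false
open Cfsg

namespace Cfsg.Agent.S1242

theorem order_decomp {G : Type*} [Group G] [Finite G] (p : ℕ) [hp : Fact p.Prime] (x : G) :
    ∃ e m : ℕ, Nat.Coprime m p ∧ orderOf (x ^ (p ^ e)) = m ∧ orderOf (x ^ m) = p ^ e := by
  have hn : orderOf x ≠ 0 := (orderOf_pos x).ne'
  obtain ⟨e, m, hm, hx⟩ := Nat.exists_eq_pow_mul_and_not_dvd hn p hp.out.ne_one
  have hpe : p ^ e ≠ 0 := pow_ne_zero e hp.out.ne_zero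
  have hm0 : m ≠ 0 := by
    rintro rfl
    exact hm (dvd_zero p)
  refine ⟨e, m, ?_, ?_, ?_⟩
  · exact ((Nat.Prime.coprime_iff_not_dvd hp.out).mpr hm).symm
  · rw [orderOf_pow_of_dvd hpe (hx ▸ dvd_mul_right _ _), hx,
      Nat.mul_div_cancel_left _ (Nat.pos_of_ne_zero hpe)]
  · rw [orderOf_pow_of_dvd hm0 (hx ▸ dvd_mul_left _ _), hx,
      Nat.mul_div_cancel _ (Nat.pos_of_ne_zero hm0)]

/-- Let G be a finite group, p a prime and H a subgroup of index prime to p such that any two elements of H of p-power order that are conjugate in G are conjugate in H. Then (O^p(G)·G') ∩ H = O^p(H)·H', where O^p denotes the subgroup generated by the elements of order prime to p. -/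
theorem result {G : Type*} [Group G] [Finite G] {p : ℕ} [Fact p.Prime] (H : Subgroup G) (hidx : Nat.Coprime p H.index) (hfus : ∀ g ∈ H, (∃ k : ℕ, orderOf g = p ^ k) → ∀ a : G, a * g * a⁻¹ ∈ H → ∃ h ∈ H, h * g * h⁻¹ = a * g * a⁻¹) : (Cfsg.pResidual p G ⊔ commutator G) ⊓ H = (Cfsg.pResidual p ↥H ⊔ commutator ↥H).map H.subtype := by
  have hp : p.Prime := Fact.out
  set N : Subgroup H := Cfsg.pResidual p ↥H ⊔ commutator ↥H with hN
  have hcN : commutator ↥H ≤ N := le_sup_right
  have hrN : Cfsg.pResidual p ↥H ≤ N := le_sup_left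
  have hNn : N.Normal := Subgroup.Normal.of_commutator_le _ hcN
  have hcomm : IsMulCommutative (H ⧸ N) :=
    Subgroup.Normal.quotient_commutative_iff_commutator_le.mpr hcN
  let _instA : CommGroup (H ⧸ N) :=
    { (inferInstance : Group (H ⧸ N)) with mul_comm := hcomm.is_comm.comm }
  let ϕ : H →* H ⧸ N := QuotientGroup.mk' N
  -- the quotient is a p-group
  have hA : ∀ a : H ⧸ N, ∃ k : ℕ, a ^ (p ^ k) = 1 := by
    intro a
    obtain ⟨h, rfl⟩ := QuotientGroup.mk'_surjective N a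
    obtain ⟨e, m, hm, h1, _⟩ := order_decomp p h
    refine ⟨e, ?_⟩
    rw [← map_pow]
    apply (QuotientGroup.eq_one_iff _).mpr
    apply hrN
    apply Subgroup.subset_closure
    change Nat.Coprime (orderOf (h ^ p ^ e)) p
    rw [h1]; exact hm
  -- elements of ϕ-order dividing a number prime to p are trivial
  have hA1 : ∀ (a : H ⧸ N) (n : ℕ), Nat.Coprime n p → a ^ n = 1 → a = 1 := by
    intro a n hn han
    obtain ⟨k, hk⟩ := hA a
    have d1 := orderOf_dvd_of_pow_eq_one hk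
    have d2 := orderOf_dvd_of_pow_eq_one han
    have hco : Nat.Coprime (p ^ k) n := Nat.Coprime.pow_left k hn.symm
    exact orderOf_eq_one_iff.mp (Nat.eq_one_of_dvd_coprimes hco d1 d2)
  let V : G →* H ⧸ N := MonoidHom.transfer ϕ
  -- transfer of a p-element of H
  have hVp : ∀ x : G, ∀ hx : x ∈ H, (∃ k : ℕ, orderOf x = p ^ k) →
      V x = (ϕ ⟨x, hx⟩) ^ H.index := by
    intro x hx hxp
    apply Cfsg.Agent.Helper21.transfer_eq_pow_of_key
    intro k g₀ h
    obtain ⟨j, hj⟩ := hxp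
    have hxk : ∃ i : ℕ, orderOf (x ^ k) = p ^ i := by
      have : orderOf (x ^ k) ∣ p ^ j := hj ▸ orderOf_pow_dvd k
      obtain ⟨i, _, hi⟩ := (Nat.dvd_prime_pow hp).mp this
      exact ⟨i, hi⟩
    have hxkH : x ^ k ∈ H := H.pow_mem hx k
    obtain ⟨h', hh', he⟩ := hfus (x ^ k) hxkH hxk g₀⁻¹ (by simpa using h)
    have e1 : (⟨g₀⁻¹ * x ^ k * g₀, h⟩ : H) = ⟨h', hh'⟩ * ⟨x, hx⟩ ^ k * ⟨h', hh'⟩⁻¹ := by
      apply Subtype.ext
      simp only [Subgroup.coe_mul, Subgroup.coe_pow, Subgroup.coe_inv]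
      rw [he]; simp
    rw [e1, map_mul, map_mul, map_inv, map_pow, mul_comm, inv_mul_cancel_left]
  -- the kernel of the transfer contains O^p(G) G'
  have hker : Cfsg.pResidual p G ⊔ commutator G ≤ V.ker := by
    apply sup_le
    · unfold Cfsg.pResidual
      rw [Subgroup.closure_le]
      intro g hg
      have hg' : Nat.Coprime (orderOf g) p := hg
      rw [SetLike.mem_coe, MonoidHom.mem_ker]
      apply hA1 (V g) (orderOf g) hg'
      rw [← map_pow, pow_orderOf_eq_one, map_one]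
    · exact Abelianization.commutator_subset_ker V
  apply le_antisymm
  · rintro x ⟨hx1, hx2⟩
    have hxH : x ∈ H := hx2
    have hVx : V x = 1 := MonoidHom.mem_ker.mp (hker hx1)
    obtain ⟨e, m, hm, _, h2⟩ := order_decomp p x
    have h3 : V (x ^ m) = (ϕ ⟨x ^ m, H.pow_mem hxH m⟩) ^ H.index :=
      hVp (x ^ m) (H.pow_mem hxH m) ⟨e, h2⟩
    rw [map_pow, hVx, one_pow] at h3
    have h4 : (ϕ ⟨x, hxH⟩) ^ (m * H.index) = 1 := by
      rw [pow_mul, ← map_pow]
      exact h3.symm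
    have h5 : ϕ ⟨x, hxH⟩ = 1 :=
      hA1 _ _ (Nat.Coprime.mul_left hm hidx.symm) h4
    have h6 : (⟨x, hxH⟩ : H) ∈ N := (QuotientGroup.eq_one_iff _).mp h5
    exact ⟨⟨x, hxH⟩, h6, rfl⟩
  · apply le_inf
    · rw [Subgroup.map_sup]
      apply sup_le_sup
      · unfold Cfsg.pResidual
        rw [MonoidHom.map_closure]
        apply Subgroup.closure_mono
        rintro _ ⟨h, hh, rfl⟩
        have hh' : Nat.Coprime (orderOf h) p := hh
        change Nat.Coprime (orderOf (h : G)) p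
        rwa [Subgroup.orderOf_coe]
      · rw [Subgroup.map_subtype_commutator]
        exact Subgroup.commutator_mono le_top le_top
    · exact Subgroup.map_subtype_le _

end Cfsg.Agent.S1242
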