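import Cfsg.Statements.S1243
import Cfsg.Agent.Helper21.Basic

set_option autoImplicit false
open Cfsg

namespace Cfsg.Agent.S1243

/-- Let T be a Sylow p-subgroup of the finite group G and W ≤ T a subgroup weakly closed in T. If d and g d g⁻¹ both centralize W, then g d g⁻¹ = h d h⁻¹ for some h ∈ N_G(W). -/
theorem result {G : Type*} [Group G] [Finite G] {p : ℕ} [Fact p.Prime] (T : Sylow p G) (W : Subgroup G) (hW : Cfsg.IsWeaklyClosed W (T : Subgroup G)) (d g : G) (hd : d ∈ Subgroup.centralizer (W : Set G)) (hgd : g * d * g⁻¹ ∈ Subgroup.centralizer (W : Set G)) : ∃ h ∈ Subgroup.normalizer (W : Set G), h * d * h⁻¹ = g * d * g⁻¹ := by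
  obtain ⟨hWT, hwc⟩ := hW
  have hWp : IsPGroup p W := T.2.to_le hWT
  set C := Subgroup.centralizer ({d} : Set G) with hC
  have hdW : ∀ w ∈ W, w * d = d * w := fun w hw => Subgroup.mem_centralizer_iff.mp hd w hw
  have hgdW : ∀ w ∈ W, w * (g * d * g⁻¹) = g * d * g⁻¹ * w :=
    fun w hw => Subgroup.mem_centralizer_iff.mp hgd w hw
  have hmemC : ∀ y : G, y ∈ C ↔ d * y = y * d := by
    intro y
    rw [hC, Subgroup.mem_centralizer_iff]
    simp
  have hWC : W ≤ C := by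
    intro w hw
    rw [hmemC]; exact (hdW w hw).symm
  set W' := W.map (MulAut.conj g⁻¹).toMonoidHom with hW'
  have hW'mem : ∀ w ∈ W, g⁻¹ * w * g ∈ W' := by
    intro w hw
    exact ⟨w, hw, by simp⟩
  have hW'C : W' ≤ C := by
    rintro _ ⟨w, hw, rfl⟩
    rw [hmemC]
    have h1 := hgdW w hw
    simp only [MulEquiv.toMonoidHom_eq_coe, MonoidHom.coe_coe, MulAut.conj_apply, inv_inv]
    calc d * (g⁻¹ * w * g) = g⁻¹ * (g * d * g⁻¹ * w) * g := by group
      _ = g⁻¹ * (w * (g * d * g⁻¹)) * g := by rw [h1]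
      _ = g⁻¹ * w * g * d := by group
  have hW'p : IsPGroup p W' := hWp.map _
  obtain ⟨Q, hQ⟩ := (hWp.comap_subtype (K := C)).exists_le_sylow
  obtain ⟨c, hcC, hc⟩ := Cfsg.Agent.Helper21.exists_conj_mem_sylow_of_le Q hW'p hW'C
  have hRp : IsPGroup p ((Q : Subgroup C).map C.subtype) := Q.2.map _
  obtain ⟨x, hx⟩ := Cfsg.Agent.Helper21.exists_conj_mem_sylow T hRp
  have h1 : W.map (MulAut.conj x).toMonoidHom ≤ T := by
    rintro _ ⟨w, hw, rfl⟩
    have hwQ : w ∈ (Q : Subgroup C).map C.subtype :=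
      ⟨⟨w, hWC hw⟩, hQ (show (⟨w, hWC hw⟩ : C) ∈ W.subgroupOf C from
        Subgroup.mem_subgroupOf.mpr hw), rfl⟩
    simpa [MulAut.conj_apply] using hx w hwQ
  have h2 : W.map (MulAut.conj (x * c * g⁻¹)).toMonoidHom ≤ T := by
    rintro _ ⟨w, hw, rfl⟩
    have := hx _ (hc _ (hW'mem w hw))
    simpa [MulAut.conj_apply, mul_assoc] using this
  have e1 := hwc x h1
  have e2 := hwc (x * c * g⁻¹) h2
  have n1 : x ∈ Subgroup.normalizer (W : Set G) := by
    apply Cfsg.Agent.Helper21.mem_normalizer_of_conj_mem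
    intro w hw
    rw [← e1]
    exact ⟨w, hw, by simp [MulAut.conj_apply]⟩
  have n2 : x * c * g⁻¹ ∈ Subgroup.normalizer (W : Set G) := by
    apply Cfsg.Agent.Helper21.mem_normalizer_of_conj_mem
    intro w hw
    rw [← e2]
    exact ⟨w, hw, by simp [MulAut.conj_apply, mul_assoc]⟩
  refine ⟨g * c⁻¹, ?_, ?_⟩
  · have : g * c⁻¹ = (x * c * g⁻¹)⁻¹ * x := by group
    rw [this]; exact mul_mem (inv_mem n2) n1
  · have hcd : d * c = c * d := (hmemC c).mp hcC
    calc g * c⁻¹ * d * (g * c⁻¹)⁻¹ = g * (c⁻¹ * (d * c)) * g⁻¹ := by group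
      _ = g * (c⁻¹ * (c * d)) * g⁻¹ := by rw [hcd]
      _ = g * d * g⁻¹ := by group

end Cfsg.Agent.S1243
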