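import Cfsg.Statements.S1244
import Cfsg.Agent.Helper21.AbelSylow

set_option autoImplicit false
open Cfsg

namespace Cfsg.Agent.S1244

/-- `Ω₁(S)` for a commutative subgroup `S`. -/
def omega {G : Type*} [Group G] (S : Subgroup G) (hS : IsMulCommutative S) : Subgroup G where
  carrier := {x | x ∈ S ∧ x * x = 1}
  mul_mem' := by
    rintro a b ⟨ha, ha2⟩ ⟨hb, hb2⟩
    refine ⟨S.mul_mem ha hb, ?_⟩
    have hc : b * a = a * b := congrArg Subtype.val (hS.is_comm.comm ⟨b, hb⟩ ⟨a, ha⟩)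
    calc a * b * (a * b) = a * (b * a) * b := by group
      _ = a * (a * b) * b := by rw [hc]
      _ = (a * a) * (b * b) := by group
      _ = 1 := by rw [ha2, hb2, one_mul]
  one_mem' := ⟨S.one_mem, one_mul 1⟩
  inv_mem' := by
    rintro a ⟨ha, ha2⟩
    refine ⟨S.inv_mem ha, ?_⟩
    rw [← mul_inv_rev, ha2, inv_one]

theorem mem_omega {G : Type*} [Group G] (S : Subgroup G) (hS : IsMulCommutative S) (x : G) :
    x ∈ omega S hS ↔ x ∈ S ∧ x * x = 1 := Iff.rfl

/-- Let G be a finite group with no subgroup of index 2 whose Sylow 2-subgroup S is commutative, and let R ≤ S be a subgroup whose 2-rank is exactly one less than the 2-rank r of S. Then every involution of S is conjugate, by an element of N_G(S), to an element of R. -/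
theorem result {G : Type*} [Group G] [Finite G] (hG : ∀ H : Subgroup G, H.index ≠ 2) (S : Sylow 2 G) (hS : IsMulCommutative (S : Subgroup G)) (r : ℕ) (hr1 : 1 ≤ r) (hSr : Cfsg.PRankLE 2 r (S : Subgroup G) ∧ ¬ Cfsg.PRankLE 2 (r - 1) (S : Subgroup G)) (R : Subgroup G) (hRS : R ≤ S) (hRr : Cfsg.PRankLE 2 (r - 1) R ∧ (r = 1 ∨ ¬ Cfsg.PRankLE 2 (r - 2) R)) (t : G) (ht : orderOf t = 2) (htS : t ∈ S) : ∃ n ∈ Subgroup.normalizer ((S : Subgroup G) : Set G), n * t * n⁻¹ ∈ R := by
  by_contra hcon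
  push Not at hcon
  have : Fact (Nat.Prime 2) := ⟨Nat.prime_two⟩
  set Ω : Subgroup G := omega (S : Subgroup G) hS with hΩ
  have hΩS : Ω ≤ (S : Subgroup G) := fun x hx => hx.1
  set W : Subgroup G := Ω ⊓ R with hW
  have hWΩ : W ≤ Ω := inf_le_left
  have hWR : W ≤ R := inf_le_right
  have ht2 : t * t = 1 := by
    have := pow_orderOf_eq_one t
    rwa [ht, pow_two] at this
  have htΩ : t ∈ Ω := ⟨htS, ht2⟩
  -- cardinalities
  have hΩp : IsPGroup 2 Ω := S.isPGroup'.to_le hΩS
  have hWp : IsPGroup 2 W := hΩp.to_le hWΩ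
  obtain ⟨a, ha⟩ := IsPGroup.iff_card.mp hΩp
  obtain ⟨b, hb⟩ := IsPGroup.iff_card.mp hWp
  have hΩle : Nat.card Ω ≤ 2 ^ r := by
    have h1 : IsMulCommutative (Ω.subgroupOf (S : Subgroup G)) :=
      ⟨⟨fun x y => Subtype.ext (hS.is_comm.comm x.1 y.1)⟩⟩
    have h2 : ∀ x ∈ Ω.subgroupOf (S : Subgroup G), x ^ 2 = 1 := by
      intro x hx
      apply Subtype.ext
      have := (Subgroup.mem_subgroupOf.mp hx).2
      rw [Subgroup.coe_pow, pow_two]; exact this
    have h3 := hSr.1 _ h1 h2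
    rwa [Nat.card_congr (Subgroup.subgroupOfEquivOfLe hΩS).toEquiv] at h3
  have hΩlt : 2 ^ (r - 1) < Nat.card Ω := by
    have h1 := hSr.2
    unfold Cfsg.PRankLE at h1
    push Not at h1
    obtain ⟨A, hAc, hAexp, hAcard⟩ := h1
    have hle : A.map (S : Subgroup G).subtype ≤ Ω := by
      rintro x ⟨y, hy, rfl⟩
      refine ⟨y.2, ?_⟩
      have := hAexp y hy
      have h2 := congrArg Subtype.val this
      rw [Subgroup.coe_pow, pow_two] at h2
      exact h2
    have h3 := Subgroup.card_le_of_le hle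
    rw [Subgroup.card_map_of_injective (S : Subgroup G).subtype_injective] at h3
    omega
  have hWle : Nat.card W ≤ 2 ^ (r - 1) := by
    have h1 : IsMulCommutative (W.subgroupOf R) :=
      ⟨⟨fun x y => Subtype.ext (Subtype.ext (by
        have h := congrArg Subtype.val
          (hS.is_comm.comm ⟨x.1.1, hRS x.1.2⟩ ⟨y.1.1, hRS y.1.2⟩)
        exact h))⟩⟩
    have h2 : ∀ x ∈ W.subgroupOf R, x ^ 2 = 1 := by
      intro x hx
      apply Subtype.ext
      have := (hWΩ (Subgroup.mem_subgroupOf.mp hx)).2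
      rw [Subgroup.coe_pow, pow_two]; exact this
    have h3 := hRr.1 _ h1 h2
    rwa [Nat.card_congr (Subgroup.subgroupOfEquivOfLe hWR).toEquiv] at h3
  have hWlt : r = 1 ∨ 2 ^ (r - 2) < Nat.card W := by
    rcases hRr.2 with h1 | h1
    · exact Or.inl h1
    · right
      unfold Cfsg.PRankLE at h1
      push Not at h1
      obtain ⟨A, hAc, hAexp, hAcard⟩ := h1
      have hle : A.map R.subtype ≤ W := by
        rintro x ⟨y, hy, rfl⟩
        have := hAexp y hy
        have h2 := congrArg Subtype.val this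
        rw [Subgroup.coe_pow, pow_two] at h2
        exact ⟨⟨hRS y.2, h2⟩, y.2⟩
      have h3 := Subgroup.card_le_of_le hle
      rw [Subgroup.card_map_of_injective R.subtype_injective] at h3
      omega
  have har : a = r := by
    rw [ha] at hΩle hΩlt
    have h1 : a ≤ r := (Nat.pow_le_pow_iff_right (by norm_num)).mp hΩle
    have h2 : r - 1 < a := (Nat.pow_lt_pow_iff_right (by norm_num)).mp hΩlt
    omega
  have hbr : b = r - 1 := by
    rw [hb] at hWle hWlt
    have h1 : b ≤ r - 1 := (Nat.pow_le_pow_iff_right (by norm_num)).mp hWle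
    rcases hWlt with h2 | h2
    · omega
    · have h3 : r - 2 < b := (Nat.pow_lt_pow_iff_right (by norm_num)).mp h2
      omega
  have hidx2 : (W.subgroupOf Ω).index = 2 := by
    have h1 := (W.subgroupOf Ω).card_mul_index
    rw [Nat.card_congr (Subgroup.subgroupOfEquivOfLe hWΩ).toEquiv, hb, ha, har, hbr] at h1
    have h2 : 2 ^ r = 2 ^ (r - 1) * 2 := by
      rw [← pow_succ]; congr 1; omega
    rw [h2] at h1
    exact Nat.eq_of_mul_eq_mul_left (by positivity) h1
  have hidx : ∀ x ∈ Ω, ∀ y ∈ Ω, (x * y ∈ W ↔ (x ∈ W ↔ y ∈ W)) := by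
    intro x hx y hy
    have := Subgroup.mul_mem_iff_of_index_two hidx2 (a := (⟨x, hx⟩ : Ω)) (b := ⟨y, hy⟩)
    rw [Subgroup.mem_subgroupOf, Subgroup.mem_subgroupOf, Subgroup.mem_subgroupOf] at this
    exact this
  have hΩn : ∀ n ∈ Subgroup.normalizer ((S : Subgroup G) : Set G), ∀ x ∈ Ω, n * x * n⁻¹ ∈ Ω := by
    intro n hn x hx
    refine ⟨(Subgroup.mem_normalizer_iff.mp hn x).mp hx.1, ?_⟩
    calc n * x * n⁻¹ * (n * x * n⁻¹) = n * (x * x) * n⁻¹ := by group
      _ = 1 := by rw [hx.2]; group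
  obtain ⟨H, hH⟩ := Cfsg.Agent.Helper21.exists_index_two_of_conj_not_mem S hS Ω W hΩS hidx t htΩ
    ht2 hΩn (fun n hn hmem => hcon n hn (hWR hmem))
  exact hG H hH

end Cfsg.Agent.S1244
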