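import Cfsg.Statements.S1248
import Cfsg.Agent.Helper43.SylowSU3

set_option autoImplicit false
open Cfsg

namespace Cfsg.Agent.S1248

/-- Let F be a field with 16 elements and S a Sylow 2-subgroup of PSU(3) over F (the unitary group U₃(4)). Then |S| = 64; the centre Z(S) is a Klein four-group and coincides with the subgroup generated by the involutions of S and with the derived subgroup; and every element of S ⧸ Z(S) squares to the identity, S ⧸ Z(S) having order 16. -/
theorem result {F : Type*} [Field F] [Fintype F] (hF : Fintype.card F = 16) (S : Sylow 2 (Cfsg.PSU 3 F 4)) : Nat.card S = 64 ∧ IsKleinFour (Subgroup.center (S : Subgroup (Cfsg.PSU 3 F 4))) ∧ Subgroup.center (S : Subgroup (Cfsg.PSU 3 F 4)) = Subgroup.closure {x : (S : Subgroup (Cfsg.PSU 3 F 4)) | orderOf x = 2} ∧ Subgroup.center (S : Subgroup (Cfsg.PSU 3 F 4)) = commutator (S : Subgroup (Cfsg.PSU 3 F 4)) ∧ Nat.card ((S : Subgroup (Cfsg.PSU 3 F 4)) ⧸ Subgroup.center (S : Subgroup (Cfsg.PSU 3 F 4))) = 16 ∧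 ∀ x : (S : Subgroup (Cfsg.PSU 3 F 4)) ⧸ Subgroup.center (S : Subgroup (Cfsg.PSU 3 F 4)), x ^ 2 = 1 := by
  have hF' : Fintype.card F = 4 ^ 2 := by rw [hF]; norm_num
  have hF'' : Fintype.card F = (2 ^ 2) ^ 2 := by rw [hF]; norm_num
  have hchar : CharP F 2 := Cfsg.Agent.Helper43.HeisGroup.charP_two_of_card (by norm_num) hF''
  obtain ⟨H⟩ := Cfsg.Agent.Helper43.SylowSU3.exists_param_sylow hF' (k := 2) (by norm_num)
    (by norm_num) S
  have hcard : Nat.card ↥(S : Subgroup (Cfsg.PSU 3 F 4)) = 64 := by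
    rw [Cfsg.Agent.Helper43.HeisGroup.card_eq hF' H]; norm_num
  have hcz : Nat.card (Subgroup.center ↥(S : Subgroup (Cfsg.PSU 3 F 4))) = 4 :=
    Cfsg.Agent.Helper43.HeisGroup.card_center hF' H
  refine ⟨hcard, ?_, Cfsg.Agent.Helper43.HeisGroup.center_eq_closure_invol hF' H,
    (Cfsg.Agent.Helper43.HeisGroup.commutator_eq_center hF' H).symm, ?_, ?_⟩
  · refine ⟨hcz, ?_⟩
    have hdvd : Monoid.exponent (Subgroup.center ↥(S : Subgroup (Cfsg.PSU 3 F 4))) ∣ 2 := by
      apply Monoid.exponent_dvd_of_forall_pow_eq_one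
      intro x
      apply Subtype.ext
      rw [pow_two]
      exact Cfsg.Agent.Helper43.HeisGroup.center_mul_self hF' H x.1 x.2
    rcases (Nat.dvd_prime Nat.prime_two).1 hdvd with h1 | h2
    · exfalso
      rw [Monoid.exp_eq_one_iff] at h1
      have := Nat.card_eq_one_iff_unique.2 ⟨h1, ⟨1⟩⟩
      omega
    · exact h2
  · have h1 := Subgroup.card_eq_card_quotient_mul_card_subgroup
      (Subgroup.center ↥(S : Subgroup (Cfsg.PSU 3 F 4)))
    rw [hcard, hcz] at h1
    omega
  · intro x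
    induction x using QuotientGroup.induction_on with
    | H y =>
      rw [← QuotientGroup.mk_pow, QuotientGroup.eq_one_iff, pow_two]
      exact Cfsg.Agent.Helper43.HeisGroup.sq_mem_center hF' H y

end Cfsg.Agent.S1248
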