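import Cfsg.Statements.S1255
import Cfsg.Agent.Helper21.Basic
import Cfsg.Agent.Helper21.Dih
import Cfsg.Agent.Helper21.Four
import Cfsg.Agent.Helper2.ThompsonTransfer

set_option autoImplicit false
open Cfsg

namespace Cfsg.Agent.S1255

open Cfsg.Agent.Helper21

/-- Let X be a finite group whose Sylow 2-subgroup S is dihedral of order 2m ≥ 4. Then X has no subgroup of index 2 and no isolated involution if and only if either all involutions of X are conjugate, or for every Klein four-subgroup U ≤ S the index |N_X(U) : C_X(U)| equals 3 when |S| = 4 and equals 6 when |S| > 4. -/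
theorem result {X : Type*} [Group X] [Finite X] (S : Sylow 2 X) (m : ℕ) (hm : 2 ≤ m) (eS : (S : Subgroup X) ≃* DihedralGroup m) : ((∀ H : Subgroup X, H.index ≠ 2) ∧ (∀ z : X, ¬ Cfsg.IsIsolatedInvolution z)) ↔ ((∀ a b : X, orderOf a = 2 → orderOf b = 2 → IsConj a b) ∨ (∀ U : Subgroup X, U ≤ S → IsKleinFour U → (Subgroup.centralizer (U : Set X)).relIndex (Subgroup.normalizer (U : Set X)) = (if Nat.card S = 4 then 3 else 6))) := by
  have hne : NeZero m := ⟨by omega⟩
  have hcard : Nat.card (S : Subgroup X) = 2 * m := by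
    rw [Nat.card_congr eS.toEquiv, DihedralGroup.nat_card]
  have heven : Even m := by
    obtain ⟨k, hk⟩ := (IsPGroup.iff_card.mp S.2)
    rw [hcard] at hk
    rcases k with _ | _ | k
    · omega
    · omega
    · refine ⟨2 ^ k, ?_⟩
      have : 2 ^ (k + 1 + 1) = 2 * (2 ^ k + 2 ^ k) := by ring
      omega
  -- conjugating an involution into `S`
  have hinS : ∀ a : X, orderOf a = 2 → ∃ g : X, g * a * g⁻¹ ∈ (S : Subgroup X) := by
    intro a ha
    have hR : IsPGroup 2 (Subgroup.zpowers a) := by
      apply IsPGroup.of_card (n := 1)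
      rw [Nat.card_zpowers, ha, pow_one]
    obtain ⟨g, hg⟩ := exists_conj_mem_sylow S hR
    exact ⟨g, hg a (Subgroup.mem_zpowers a)⟩
  have hinv : ∀ a : X, orderOf a = 2 → a * a = 1 ∧ a ≠ 1 := by
    intro a ha
    refine ⟨?_, ?_⟩
    · have := pow_orderOf_eq_one a
      rwa [ha, sq] at this
    · rintro rfl
      rw [orderOf_one] at ha
      omega
  have hconjord : ∀ (g a : X), orderOf (g * a * g⁻¹) = orderOf a := fun g a =>
    orderOf_injective (MulAut.conj g).toMonoidHom (MulAut.conj g).injective a
  constructor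
  · rintro ⟨hidx, -⟩
    left
    have key : ∀ u : X, orderOf u = 2 → ∃ g : X, g * u * g⁻¹ ∈ Dih.rot eS := by
      intro u hu
      by_contra hcon
      push Not at hcon
      obtain ⟨M, -, hM, -⟩ := Cfsg.Agent.Helper2.thompson_transfer (S : Subgroup X)
        S.not_dvd_index (Dih.rot eS) (Dih.rot_relIndex eS) u hu hcon
      exact hidx M hM
    intro a b ha hb
    obtain ⟨g, hg⟩ := key a ha
    obtain ⟨g', hg'⟩ := key b hb
    have h1 := hinv _ ((hconjord g a).trans ha)
    have h2 := hinv _ ((hconjord g' b).trans hb)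
    have heq := Dih.rot_involution_unique eS hg hg' h1.1 h1.2 h2.1 h2.2
    rw [isConj_iff]
    refine ⟨g'⁻¹ * g, ?_⟩
    calc g'⁻¹ * g * a * (g'⁻¹ * g)⁻¹ = g'⁻¹ * (g * a * g⁻¹) * g' := by group
      _ = g'⁻¹ * (g' * b * g'⁻¹) * g' := by rw [heq]
      _ = b := by group
  · intro h
    obtain ⟨z, hzr, hz2, hzc⟩ := Dih.exists_central_involution eS heven hm
    have hzS : z ∈ (S : Subgroup X) := Dih.rot_le eS hzr
    have hz := hinv z hz2
    -- all involutions are conjugate
    have hall : ∀ a b : X, orderOf a = 2 → orderOf b = 2 → IsConj a b := by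
      rcases h with h | h
      · exact h
      · have hz' : ∀ a : X, orderOf a = 2 → IsConj a z := by
          intro a ha
          obtain ⟨g, hg⟩ := hinS a ha
          have ha' := hinv _ ((hconjord g a).trans ha)
          have hc1 : IsConj a (g * a * g⁻¹) := isConj_iff.mpr ⟨g, rfl⟩
          by_cases hza : z = g * a * g⁻¹
          · rw [hza]; exact hc1
          · have hcomm : z * (g * a * g⁻¹) = (g * a * g⁻¹) * z := (hzc _ hg).symm
            have hU := Four.isKleinFour_fourSub hz.1 ha'.1 hcomm hz.2 ha'.2 hza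
            have hUS : Four.fourSub z (g * a * g⁻¹) hz.1 ha'.1 hcomm ≤ (S : Subgroup X) := by
              intro x hx
              rcases hx with rfl | rfl | rfl | rfl
              · exact Subgroup.one_mem _
              · exact hzS
              · exact hg
              · exact Subgroup.mul_mem _ hzS hg
            have h3 : 3 ∣ (Subgroup.centralizer
                ((Four.fourSub z (g * a * g⁻¹) hz.1 ha'.1 hcomm : Subgroup X) : Set X)).relIndex
                (Subgroup.normalizer
                  ((Four.fourSub z (g * a * g⁻¹) hz.1 ha'.1 hcomm : Subgroup X) : Set X)) := by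
              rw [h _ hUS hU]
              split_ifs
              · exact dvd_rfl
              · exact ⟨2, rfl⟩
            obtain ⟨n, hn⟩ := Four.exists_conj_of_three_dvd hU h3
              (Four.left_mem hz.1 ha'.1 hcomm) (Four.right_mem hz.1 ha'.1 hcomm) hz.2 ha'.2 hza
            have hc2 : IsConj (g * a * g⁻¹) z := by
              rcases hn with hn | hn
              · exact (isConj_iff.mpr ⟨n, hn⟩).symm
              · exact isConj_iff.mpr ⟨n, hn⟩
            exact hc1.trans hc2
        intro a b ha hb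
        exact (hz' a ha).trans (hz' b hb).symm
    constructor
    · -- no subgroup of index 2
      intro H hH
      have hHn : H.Normal := Subgroup.normal_of_index_eq_two hH
      have : Fact (Nat.Prime 2) := ⟨Nat.prime_two⟩
      -- `H` has an involution
      have hXc : Nat.card X = Nat.card H * 2 := by
        rw [← hH, Subgroup.card_mul_index]
      have h4 : 4 ∣ Nat.card X := by
        have h1 : Nat.card (S : Subgroup X) ∣ Nat.card X := Subgroup.card_subgroup_dvd_card _
        rw [hcard] at h1
        obtain ⟨k, hk⟩ := heven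
        have : 4 ∣ 2 * m := ⟨k, by omega⟩
        exact this.trans h1
      have h2H : 2 ∣ Nat.card H := by
        rw [hXc] at h4
        obtain ⟨c, hc⟩ := h4
        exact ⟨c, by omega⟩
      obtain ⟨t, ht⟩ := exists_prime_orderOf_dvd_card' 2 h2H
      have ht' : orderOf (t : X) = 2 := by rw [Subgroup.orderOf_coe]; exact ht
      have hmem : ∀ a : X, orderOf a = 2 → a ∈ H := by
        intro a ha
        obtain ⟨c, hc⟩ := isConj_iff.mp (hall (t : X) a ht' ha)
        rw [← hc]
        exact hHn.conj_mem _ t.2 c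
      have hSH : (S : Subgroup X) ≤ H :=
        Dih.le_of_lift_sr_mem eS (hmem _ (Dih.orderOf_lift_sr eS 0))
          (hmem _ (Dih.orderOf_lift_sr eS 1))
      have := Subgroup.index_dvd_of_le hSH
      rw [hH] at this
      exact S.not_dvd_index this
    · -- no isolated involution
      rintro w ⟨hw2, hw⟩
      have ha2 := Dih.orderOf_lift_sr eS (0 : ZMod m)
      have haS : Dih.lift eS (DihedralGroup.sr 0) ∈ (S : Subgroup X) := Dih.lift_mem eS _
      have hne' : Dih.lift eS (DihedralGroup.sr 0) ≠ z := by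
        intro h
        exact Dih.lift_sr_not_mem eS 0 (h ▸ hzr)
      obtain ⟨g₁, hg₁⟩ := isConj_iff.mp (hall w (Dih.lift eS (DihedralGroup.sr 0)) hw2 ha2)
      obtain ⟨g₂, hg₂⟩ := isConj_iff.mp (hall w z hw2 hz2)
      have hcomm : Commute w ((g₂⁻¹ * g₁) * w * (g₂⁻¹ * g₁)⁻¹) := by
        have e1 : (g₂⁻¹ * g₁) * w * (g₂⁻¹ * g₁)⁻¹ = g₂⁻¹ * (g₁ * w * g₁⁻¹) * g₂ := by group
        have e2 : w = g₂⁻¹ * z * g₂ := by rw [← hg₂]; group
        rw [e1, hg₁]
        have hc := hzc _ haS
        show w * _ = _ * w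
        rw [e2]
        calc g₂⁻¹ * z * g₂ * (g₂⁻¹ * Dih.lift eS (DihedralGroup.sr 0) * g₂)
            = g₂⁻¹ * (z * Dih.lift eS (DihedralGroup.sr 0)) * g₂ := by group
          _ = g₂⁻¹ * (Dih.lift eS (DihedralGroup.sr 0) * z) * g₂ := by rw [hc]
          _ = g₂⁻¹ * Dih.lift eS (DihedralGroup.sr 0) * g₂ * (g₂⁻¹ * z * g₂) := by group
      have h1 := hw _ hcomm
      apply hne'
      have e1 : (g₂⁻¹ * g₁) * w * (g₂⁻¹ * g₁)⁻¹ = g₂⁻¹ * (g₁ * w * g₁⁻¹) * g₂ := by group
      rw [e1, hg₁] at h1
      calc Dih.lift eS (DihedralGroup.sr 0)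
          = g₂ * (g₂⁻¹ * Dih.lift eS (DihedralGroup.sr 0) * g₂) * g₂⁻¹ := by group
        _ = g₂ * w * g₂⁻¹ := by rw [h1]
        _ = z := hg₂

end Cfsg.Agent.S1255
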