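import Cfsg.Statements.S1256
import Cfsg.Agent.Helper20.DihFour

set_option autoImplicit false
open Cfsg

namespace Cfsg.Agent.S1256

open Cfsg.Agent.Helper20 Cfsg.Agent.Helper21 DihedralGroup

/-- Let X be a finite group whose Sylow 2-subgroup S is dihedral of order 2m ≥ 4. If |S| = 4, any two Klein four-subgroups of X are conjugate; if |S| > 4, there are Klein four-subgroups U₁, U₂ of X that are not conjugate, and every Klein four-subgroup of X is conjugate to U₁ or to U₂. -/
theorem result {X : Type*} [Group X] [Finite X] (S : Sylow 2 X) (m : ℕ) (hm : 2 ≤ m) (eS : (S : Subgroup X) ≃* DihedralGroup m) : (Nat.card S = 4 → ∀ U V : Subgroup X, IsKleinFour U → IsKleinFour V → (∃ x : X, U.map (MulAut.conj x).toMonoidHom = V)) ∧ (4 < Nat.card S → ∃ U₁ U₂ : Subgroup X, IsKleinFour U₁ ∧ IsKleinFour U₂ ∧ ¬ (∃ x : X, U₁.map (MulAut.conj x).toMonoidHom = U₂) ∧ ∀ V : Subgroup X, IsKleinFour V → (∃ x : X, V.map (MulAut.conj x).toMonoidHom = U₁) ∨ (∃ x : X, V.map (MulAut.conj x).toMonoidHom = U₂)) := by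
  have hne : NeZero m := ⟨by omega⟩
  have hcard : Nat.card (S : Subgroup X) = 2 * m := by
    rw [Nat.card_congr eS.toEquiv, DihedralGroup.nat_card]
  have hSc : ∀ W : Subgroup X, IsKleinFour W →
      ∃ g : X, W.map (MulAut.conj g).toMonoidHom ≤ (S : Subgroup X) := by
    intro W hW
    have hW2 : IsPGroup 2 W := IsPGroup.of_card (n := 2) (by rw [hW.card_four]; norm_num)
    obtain ⟨g, hg⟩ := exists_conj_mem_sylow S hW2
    refine ⟨g, fun y hy => ?_⟩
    rw [mem_map_conj_iff] at hy
    have := hg _ hy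
    have e1 : g * (g⁻¹ * y * g) * g⁻¹ = y := by group
    rwa [e1] at this
  constructor
  · intro h4 U V hU hV
    have key : ∀ W : Subgroup X, IsKleinFour W →
        ∃ g : X, ∀ y : X, y ∈ (S : Subgroup X) ↔ g⁻¹ * y * g ∈ W := by
      intro W hW
      obtain ⟨g, hg⟩ := hSc W hW
      refine ⟨g, fun y => ?_⟩
      have h1 : W.map (MulAut.conj g).toMonoidHom = (S : Subgroup X) := by
        apply Subgroup.eq_of_le_of_card_ge hg
        rw [(dihFour_isKleinFour_map_conj hW g).card_four]
        exact h4.le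
      rw [← h1, mem_map_conj_iff]
    obtain ⟨g, hg⟩ := key U hU
    obtain ⟨h, hh⟩ := key V hV
    refine ⟨h⁻¹ * g, ?_⟩
    ext y
    rw [mem_map_conj_iff]
    have h1 := hh (h * y * h⁻¹)
    have h2 := hg (h * y * h⁻¹)
    have e1 : h⁻¹ * (h * y * h⁻¹) * h = y := by group
    have e2 : g⁻¹ * (h * y * h⁻¹) * g = (h⁻¹ * g)⁻¹ * y * (h⁻¹ * g) := by group
    rw [e1] at h1
    rw [e2] at h2
    rw [← h2, h1]
  · intro h4
    have h4' : 4 < Nat.card (S : Subgroup X) := h4
    rw [hcard] at h4'
    have h4m : 4 ∣ m := by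
      obtain ⟨k, hk⟩ := (IsPGroup.iff_card.mp S.2)
      rw [hcard] at hk
      rcases k with _ | _ | _ | k
      · omega
      · omega
      · omega
      · refine ⟨2 ^ k, ?_⟩
        have : 2 ^ (k + 1 + 1 + 1) = 2 * (4 * 2 ^ k) := by ring
        omega
    have h2m : 2 ∣ m := (by norm_num : 2 ∣ 4).trans h4m
    have heven : Even m := even_iff_two_dvd.mpr h2m
    obtain ⟨z, hzdef⟩ : ∃ z : X, z = Dih.lift eS (r ((m / 2 : ℕ) : ZMod m)) := ⟨_, rfl⟩
    have hz2 : z * z = 1 := by rw [hzdef]; exact dihFour_half_mul_self eS heven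
    have hz1 : z ≠ 1 := by rw [hzdef]; exact dihFour_half_ne_one eS hm
    have hzr : z ∈ Dih.rot eS := by rw [hzdef]; exact Dih.lift_r_mem eS _
    have ht2 : ∀ i : ZMod m, Dih.lift eS (sr i) * Dih.lift eS (sr i) = 1 := fun i => by
      rw [← Dih.lift_mul, sr_mul_self, Dih.lift_one]
    have ht1 : ∀ i : ZMod m, Dih.lift eS (sr i) ≠ 1 := fun i h =>
      Dih.lift_sr_not_mem eS i (h ▸ Subgroup.one_mem _)
    have hzt : ∀ i : ZMod m, z ≠ Dih.lift eS (sr i) := fun i h =>
      Dih.lift_sr_not_mem eS i (h ▸ hzr)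
    have hzc : ∀ i : ZMod m, z * Dih.lift eS (sr i) = Dih.lift eS (sr i) * z := fun i => by
      rw [hzdef]; exact dihFour_half_comm_sr eS heven i
    obtain ⟨Uf, hUfdef⟩ : ∃ Uf : ZMod m → Subgroup X,
        ∀ i, Uf i = Four.fourSub z (Dih.lift eS (sr i)) hz2 (ht2 i) (hzc i) := ⟨_, fun i => rfl⟩
    have hUf : ∀ i, IsKleinFour (Uf i) := fun i => by
      rw [hUfdef i]
      exact Four.isKleinFour_fourSub hz2 (ht2 i) (hzc i) hz1 (ht1 i) (hzt i)
    have hUmem : ∀ i u, u ∈ Uf i ↔
        u = 1 ∨ u = z ∨ u = Dih.lift eS (sr i) ∨ u = z * Dih.lift eS (sr i) := fun i u => by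
      rw [hUfdef i]
      exact Four.mem_fourSub hz2 (ht2 i) (hzc i)
    have hzU : ∀ i, z ∈ Uf i := fun i => (hUmem i z).mpr (Or.inr (Or.inl rfl))
    have htU : ∀ i, Dih.lift eS (sr i) ∈ Uf i := fun i =>
      (hUmem i _).mpr (Or.inr (Or.inr (Or.inl rfl)))
    refine ⟨Uf 0, Uf 1, hUf 0, hUf 1, ?_, ?_⟩
    · rintro ⟨x, hx⟩
      have hxU : ∀ u ∈ Uf 0, x * u * x⁻¹ ∈ Uf 1 := by
        intro u hu
        rw [← hx, mem_map_conj_iff]
        have : x⁻¹ * (x * u * x⁻¹) * x = u := by group
        rw [this]; exact hu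
      have hxU' : ∀ v ∈ Uf 1, x⁻¹ * v * x ∈ Uf 0 := by
        intro v hv
        rw [← hx, mem_map_conj_iff] at hv
        exact hv
      obtain ⟨a, hadef⟩ : ∃ a : X, a = Dih.lift eS (r ((m / 4 : ℕ) : ZMod m)) := ⟨_, rfl⟩
      have haz : a * z * a⁻¹ = z := by
        have : a * z = z * a := by
          rw [hadef]
          exact Dih.rot_comm eS (Dih.lift_r_mem eS ((m / 4 : ℕ) : ZMod m)) hzr
        rw [this]; group
      have hat : ∀ i : ZMod m, a * Dih.lift eS (sr i) * a⁻¹ = z * Dih.lift eS (sr i) :=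
        fun i => by rw [hadef, hzdef]; exact dihFour_quarter_conj eS h4m i
      have hA : ∀ i : ZMod m, ∀ u ∈ Uf i, u ≠ 1 → u ≠ z → a * u * a⁻¹ = z * u := by
        intro i u hu hu1 huz
        rcases (hUmem i u).mp hu with h | h | h | h
        · exact absurd h hu1
        · exact absurd h huz
        · rw [h]; exact hat i
        · have : a * (z * Dih.lift eS (sr i)) * a⁻¹ =
              (a * z * a⁻¹) * (a * Dih.lift eS (sr i) * a⁻¹) := by group
          rw [h, this, haz, hat i]
      have haN : ∀ i : ZMod m, ∀ u ∈ Uf i, a * u * a⁻¹ ∈ Uf i := by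
        intro i u hu
        by_cases hu1 : u = 1
        · rw [hu1]
          have : a * 1 * a⁻¹ = 1 := by group
          rw [this]; exact Subgroup.one_mem _
        by_cases huz : u = z
        · rw [huz, haz]; exact hzU i
        · rw [hA i u hu hu1 huz]; exact (Uf i).mul_mem (hzU i) hu
      obtain ⟨x', hx'z, hx'U⟩ : ∃ x' : X, x' * z * x'⁻¹ = z ∧
          ∀ u ∈ Uf 0, x' * u * x'⁻¹ ∈ Uf 1 := by
        by_cases hzz : x * z * x⁻¹ = z
        · exact ⟨x, hzz, hxU⟩
        · obtain ⟨z', hz'⟩ : ∃ z' : X, z' = x * z * x⁻¹ := ⟨_, rfl⟩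
          rw [← hz'] at hzz
          have hz'U : z' ∈ Uf 1 := by rw [hz']; exact hxU z (hzU 0)
          have hz'1 : z' ≠ 1 := by
            intro h
            apply hz1
            have : z = x⁻¹ * z' * x := by rw [hz']; group
            rw [this, h]; group
          have hz'2 : z' * z' = 1 := Four.mul_self_of_isKleinFour (hUf 1) hz'U
          obtain ⟨b, hb⟩ : ∃ b : X, b = x * a * x⁻¹ := ⟨_, rfl⟩
          have hB : ∀ u ∈ Uf 1, u ≠ 1 → u ≠ z' → b * u * b⁻¹ = z' * u := by
            intro u hu hu1 huz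
            have h1 : x⁻¹ * u * x ≠ 1 := by
              intro h
              apply hu1
              have : u = x * (x⁻¹ * u * x) * x⁻¹ := by group
              rw [this, h]; group
            have h2 : x⁻¹ * u * x ≠ z := by
              intro h
              apply huz
              have : u = x * (x⁻¹ * u * x) * x⁻¹ := by group
              rw [this, h, hz']
            have h3 := hA 0 _ (hxU' u hu) h1 h2
            calc b * u * b⁻¹ = x * (a * (x⁻¹ * u * x) * a⁻¹) * x⁻¹ := by rw [hb]; group
              _ = x * (z * (x⁻¹ * u * x)) * x⁻¹ := by rw [h3]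
              _ = z' * u := by rw [hz']; group
          have hbz' : b * z' * b⁻¹ = z' := by
            calc b * z' * b⁻¹ = x * (a * z * a⁻¹) * x⁻¹ := by rw [hb, hz']; group
              _ = z' := by rw [haz, hz']
          have hbN : ∀ u ∈ Uf 1, b * u * b⁻¹ ∈ Uf 1 := by
            intro u hu
            by_cases hu1 : u = 1
            · rw [hu1]
              have : b * 1 * b⁻¹ = 1 := by group
              rw [this]; exact Subgroup.one_mem _
            by_cases huz : u = z'
            · rw [huz, hbz']; exact hz'U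
            · rw [hB u hu hu1 huz]; exact (Uf 1).mul_mem hz'U hu
          have h1 : a * z' * a⁻¹ = z * z' := hA 1 z' hz'U hz'1 hzz
          have hw1 : z * z' ≠ 1 := by
            intro h
            apply hzz
            exact mul_left_cancel (h.trans hz2.symm)
          have hw2 : z * z' ≠ z' := by
            intro h
            apply hz1
            exact mul_right_cancel (h.trans (one_mul z').symm)
          have h2 : b * (z * z') * b⁻¹ = z' * (z * z') :=
            hB _ ((Uf 1).mul_mem (hzU 1) hz'U) hw1 hw2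
          have h3 : z' * (z * z') = z := by
            have := Four.comm_of_isKleinFour (hUf 1) hz'U (hzU 1)
            rw [← mul_assoc, this, mul_assoc, hz'2, mul_one]
          refine ⟨b * a * x, ?_, ?_⟩
          · calc b * a * x * z * (b * a * x)⁻¹ = b * (a * (x * z * x⁻¹) * a⁻¹) * b⁻¹ := by group
              _ = z := by rw [← hz', h1, h2, h3]
          · intro u hu
            have : b * a * x * u * (b * a * x)⁻¹ = b * (a * (x * u * x⁻¹) * a⁻¹) * b⁻¹ := by group
            rw [this]
            exact hbN _ (haN 1 _ (hxU u hu))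
      -- work in the centralizer of `z`
      have hSC : (S : Subgroup X) ≤ Subgroup.centralizer ({z} : Set X) := by
        intro s hs
        rw [Subgroup.mem_centralizer_iff]
        intro h hh
        rw [Set.mem_singleton_iff.mp hh, hzdef]
        exact dihFour_half_comm eS heven hs
      have hx'C : x' ∈ Subgroup.centralizer ({z} : Set X) := by
        rw [Subgroup.mem_centralizer_iff]
        intro h hh
        rw [Set.mem_singleton_iff.mp hh]
        calc z * x' = (x' * z * x'⁻¹) * x' := by rw [hx'z]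
          _ = x' * z := by group
      obtain ⟨eT, heT⟩ : ∃ eT : ((S.subtype hSC : Sylow 2 ↥(Subgroup.centralizer ({z} : Set X))) :
          Subgroup ↥(Subgroup.centralizer ({z} : Set X))) ≃* DihedralGroup m,
          ∀ y : DihedralGroup m, ((Dih.lift eT y : ↥(Subgroup.centralizer ({z} : Set X))) : X) =
            Dih.lift eS y :=
        ⟨(Subgroup.subgroupOfEquivOfLe hSC).trans eS, fun y => rfl⟩
      have hcen : ∀ g : ↥(Subgroup.centralizer ({z} : Set X)),
          g * Dih.lift eT (r ((m / 2 : ℕ) : ZMod m)) =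
            Dih.lift eT (r ((m / 2 : ℕ) : ZMod m)) * g := by
        intro g
        apply Subtype.ext
        rw [Subgroup.coe_mul, Subgroup.coe_mul, heT, ← hzdef]
        exact ((Subgroup.mem_centralizer_iff.mp g.2) z rfl).symm
      have hpar : ∀ j : ZMod m, x' * Dih.lift eS (sr 0) * x'⁻¹ = Dih.lift eS (sr j) →
          ZMod.castHom h2m (ZMod 2) j = 0 := by
        intro j hj
        have := dihFour_central_parity (S.subtype hSC) m h4m (by omega) eT hcen h2m
          ⟨x', hx'C⟩ 0 j (by
            apply Subtype.ext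
            rw [Subgroup.coe_mul, Subgroup.coe_mul, Subgroup.coe_inv, heT, heT]
            exact hj)
        rw [this, map_zero]
      have hm2 : ((m / 2 : ℕ) : ZMod 2) = 0 := by
        rw [ZMod.natCast_eq_zero_iff]
        obtain ⟨c, hc⟩ := h4m
        exact ⟨c, by omega⟩
      rcases (hUmem 1 _).mp (hx'U _ (htU 0)) with h | h | h | h
      · apply ht1 0
        have : Dih.lift eS (sr 0) = x'⁻¹ * (x' * Dih.lift eS (sr 0) * x'⁻¹) * x' := by group
        rw [this, h]; group
      · apply hzt 0
        have : Dih.lift eS (sr 0) = x'⁻¹ * (x' * Dih.lift eS (sr 0) * x'⁻¹) * x' := by group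
        have h8 : x'⁻¹ * z * x' = z := by
          calc x'⁻¹ * z * x' = x'⁻¹ * (x' * z * x'⁻¹) * x' := by rw [hx'z]
            _ = z := by group
        rw [this, h, h8]
      · have := hpar 1 h
        rw [map_one] at this
        exact one_ne_zero this
      · have h5 : z * Dih.lift eS (sr 1) = Dih.lift eS (sr (1 - ((m / 2 : ℕ) : ZMod m))) := by
          rw [hzdef]; exact dihFour_half_mul_sr eS 1
        rw [h5] at h
        have := hpar _ h
        rw [map_sub, map_one, map_natCast, hm2, sub_zero] at this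
        exact one_ne_zero this
    · intro V hV
      obtain ⟨g, hV'S⟩ := hSc V hV
      have hV' := dihFour_isKleinFour_map_conj hV g
      obtain ⟨hzV, i, hiV⟩ := dihFour_mem_of_le eS heven hm hV'S hV'
      rw [mem_map_conj_iff] at hzV hiV
      rw [← hzdef] at hzV
      have hconj := dihFour_conj_r_sr eS ((i.val / 2 : ℕ) : ZMod m) i
      have hik : i - ((i.val / 2 : ℕ) : ZMod m) - ((i.val / 2 : ℕ) : ZMod m) =
          ((i.val % 2 : ℕ) : ZMod m) := by
        have h1 : ((i.val : ℕ) : ZMod m) = i := ZMod.natCast_zmod_val i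
        have h2 : (i.val : ℕ) = 2 * (i.val / 2) + i.val % 2 := (Nat.div_add_mod _ _).symm
        have h3 : ((i.val : ℕ) : ZMod m) =
            2 * ((i.val / 2 : ℕ) : ZMod m) + ((i.val % 2 : ℕ) : ZMod m) := by
          conv_lhs => rw [h2]
          push_cast
          ring
        linear_combination h3 - h1
      obtain ⟨c, hc⟩ : ∃ c : X, c = Dih.lift eS (r ((i.val / 2 : ℕ) : ZMod m)) := ⟨_, rfl⟩
      rw [← hc] at hconj
      have hcz : c⁻¹ * z * c = z := by
        have : z * c = c * z := by
          rw [hc]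
          exact Dih.rot_comm eS hzr (Dih.lift_r_mem eS ((i.val / 2 : ℕ) : ZMod m))
        rw [mul_assoc, this]; group
      have key : ∀ j : ZMod m,
          i - ((i.val / 2 : ℕ) : ZMod m) - ((i.val / 2 : ℕ) : ZMod m) = j →
          V.map (MulAut.conj (c * g)).toMonoidHom = Uf j := by
        intro j hj
        rw [hj] at hconj
        rw [hUfdef j]
        apply dihFour_map_conj_eq_fourSub hV hz2 (ht2 j) (hzc j) hz1 (ht1 j) (hzt j)
        · have : (c * g)⁻¹ * z * (c * g) = g⁻¹ * (c⁻¹ * z * c) * g := by group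
          rw [this, hcz]; exact hzV
        · have : (c * g)⁻¹ * Dih.lift eS (sr j) * (c * g) =
              g⁻¹ * (c⁻¹ * Dih.lift eS (sr j) * c) * g := by group
          rw [this, ← hconj]
          have : c⁻¹ * (c * Dih.lift eS (sr i) * c⁻¹) * c = Dih.lift eS (sr i) := by group
          rw [this]; exact hiV
      rcases Nat.mod_two_eq_zero_or_one i.val with h0 | h1
      · left; exact ⟨c * g, key 0 (by rw [hik, h0, Nat.cast_zero])⟩
      · right; exact ⟨c * g, key 1 (by rw [hik, h1, Nat.cast_one])⟩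

end Cfsg.Agent.S1256
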