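import Cfsg.Statements.S1258
import Cfsg.Agent.Helper22.Basic

set_option autoImplicit false
open Cfsg
open scoped commutatorElement

namespace Cfsg.Agent.S1258

/-- If the central quotient of a finite group X is non-abelian simple, then X = X' Z(X) and the commutator subgroup X' is quasisimple. -/
theorem result {X : Type*} [Group X] [Finite X] (hs : IsSimpleGroup (X ⧸ Subgroup.center X)) (hna : ¬ IsMulCommutative (X ⧸ Subgroup.center X)) : commutator X ⊔ Subgroup.center X = ⊤ ∧ Cfsg.IsQuasisimple ↥(commutator X) := by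
  set Z := Subgroup.center X with hZ
  set D := commutator X with hD
  have hDn : D.Normal := inferInstance
  have key : ∀ N : Subgroup X, N.Normal → N ≤ Z ∨ D ≤ N := by
    intro N hN
    have hmapn : (N.map (QuotientGroup.mk' Z)).Normal :=
      Subgroup.Normal.map hN _ (QuotientGroup.mk'_surjective _)
    rcases hmapn.eq_bot_or_eq_top with h | h
    · left
      rw [Subgroup.map_eq_bot_iff, QuotientGroup.ker_mk'] at h
      exact h
    · right
      have h2 : N ⊔ Z = ⊤ := by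
        have := congrArg (Subgroup.comap (QuotientGroup.mk' Z)) h
        rwa [Subgroup.comap_map_eq, QuotientGroup.ker_mk', Subgroup.comap_top] at this
      exact Subgroup.Normal.commutator_le_of_self_sup_commutative_eq_top h2 inferInstance
  have hDZ : ¬ D ≤ Z := fun h =>
    hna (Subgroup.Normal.quotient_commutative_iff_commutator_le.mpr h)
  have h1 : D ⊔ Z = ⊤ := by
    have hmapn : (D.map (QuotientGroup.mk' Z)).Normal :=
      Subgroup.Normal.map hDn _ (QuotientGroup.mk'_surjective _)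
    rcases hmapn.eq_bot_or_eq_top with h | h
    · exfalso
      rw [Subgroup.map_eq_bot_iff, QuotientGroup.ker_mk'] at h
      exact hDZ h
    · have := congrArg (Subgroup.comap (QuotientGroup.mk' Z)) h
      rwa [Subgroup.comap_map_eq, QuotientGroup.ker_mk', Subgroup.comap_top] at this
  refine ⟨h1, ?_⟩
  have hdecomp : ∀ g : X, ∃ d ∈ D, ∃ z ∈ Z, d * z = g := by
    intro g
    have hg : g ∈ D ⊔ Z := by rw [h1]; trivial
    exact Subgroup.mem_sup_of_normal_left.mp hg
  have hperf : ⁅D, D⁆ = D := by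
    apply le_antisymm (Subgroup.commutator_le_self D)
    have hDc : D = Subgroup.closure (commutatorSet X) := commutator_eq_closure X
    refine hDc.le.trans ?_
    rw [Subgroup.closure_le]
    rintro _ ⟨g₁, g₂, rfl⟩
    obtain ⟨d₁, hd₁, z₁, hz₁, rfl⟩ := hdecomp g₁
    obtain ⟨d₂, hd₂, z₂, hz₂, rfl⟩ := hdecomp g₂
    have hz₁' := Subgroup.mem_center_iff.mp hz₁
    have hz₂' := Subgroup.mem_center_iff.mp hz₂
    have e : ⁅d₁ * z₁, d₂ * z₂⁆ = ⁅d₁, d₂⁆ := by
      rw [commutatorElement_def, commutatorElement_def]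
      have a1 : (d₁ * z₁)⁻¹ = z₁⁻¹ * d₁⁻¹ := mul_inv_rev _ _
      have a2 : (d₂ * z₂)⁻¹ = z₂⁻¹ * d₂⁻¹ := mul_inv_rev _ _
      rw [a1, a2]
      calc d₁ * z₁ * (d₂ * z₂) * (z₁⁻¹ * d₁⁻¹) * (z₂⁻¹ * d₂⁻¹)
          = d₁ * (z₁ * d₂) * (z₂ * z₁⁻¹) * d₁⁻¹ * z₂⁻¹ * d₂⁻¹ := by group
        _ = d₁ * (d₂ * z₁) * (z₁⁻¹ * z₂) * d₁⁻¹ * z₂⁻¹ * d₂⁻¹ := by
            rw [hz₁' d₂, hz₂' z₁⁻¹]
        _ = d₁ * d₂ * (z₂ * d₁⁻¹) * z₂⁻¹ * d₂⁻¹ := by group
        _ = d₁ * d₂ * (d₁⁻¹ * z₂) * z₂⁻¹ * d₂⁻¹ := by rw [← hz₂' d₁⁻¹]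
        _ = d₁ * d₂ * d₁⁻¹ * d₂⁻¹ := by group
    rw [SetLike.mem_coe, e]
    exact Subgroup.commutator_mem_commutator hd₁ hd₂
  apply Cfsg.Agent.Helper22.isQuasisimple_of_forall_normal
  · exact Subgroup.isPerfect_iff.mpr hperf
  · by_contra hnt
    rw [not_nontrivial_iff_subsingleton] at hnt
    apply hDZ
    intro x hx
    have : (⟨x, hx⟩ : D) = 1 := Subsingleton.elim _ _
    have hx1 : x = 1 := congrArg Subtype.val this
    rw [hx1]; exact Z.one_mem
  · intro N hN
    -- the image of N in X is normal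
    have hNn : (N.map D.subtype).Normal := by
      refine ⟨fun n hn g => ?_⟩
      obtain ⟨m, hm, rfl⟩ := hn
      obtain ⟨d, hd, z, hz, rfl⟩ := hdecomp g
      have hz' := Subgroup.mem_center_iff.mp hz
      have e : d * z * D.subtype m * (d * z)⁻¹ = D.subtype (⟨d, hd⟩ * m * ⟨d, hd⟩⁻¹) := by
        have a1 : (d * z)⁻¹ = z⁻¹ * d⁻¹ := mul_inv_rev _ _
        rw [a1]
        simp only [Subgroup.subtype_apply, Subgroup.coe_mul, Subgroup.coe_inv]
        calc d * z * ↑m * (z⁻¹ * d⁻¹) = d * (z * ↑m) * z⁻¹ * d⁻¹ := by group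
          _ = d * (↑m * z) * z⁻¹ * d⁻¹ := by rw [hz' ↑m]
          _ = d * ↑m * d⁻¹ := by group
      rw [e]
      exact Subgroup.mem_map_of_mem _ (hN.conj_mem m hm ⟨d, hd⟩)
    rcases key _ hNn with h | h
    · right
      intro m hm
      rw [Subgroup.mem_center_iff]
      intro g
      have hmz : (m : X) ∈ Z := h (Subgroup.mem_map_of_mem D.subtype hm)
      have := Subgroup.mem_center_iff.mp hmz (g : X)
      apply Subtype.ext
      simpa using this
    · left
      rw [eq_top_iff]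
      intro m _
      obtain ⟨m', hm', he⟩ := h m.2
      have : m' = m := Subtype.ext (by simpa using he)
      rwa [← this]

end Cfsg.Agent.S1258
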