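import Cfsg.Statements.S1259
import Cfsg.Agent.Helper22.Basic

set_option autoImplicit false
open Cfsg

namespace Cfsg.Agent.S1259

/-- In a quasisimple group, every subnormal subgroup is either the whole group or central. -/
theorem result {X : Type*} [Group X] [Finite X] (hX : Cfsg.IsQuasisimple X) (H : Subgroup X) (hH : H.IsSubnormal) : H = ⊤ ∨ H ≤ Subgroup.center X := by
  induction hH with
  | top => exact Or.inl rfl
  | step H K hHK hK hN ih =>
    rcases ih with rfl | h
    · have hn : H.Normal := by
        rw [Subgroup.normal_subgroupOf_iff_le_normalizer hHK, top_le_iff,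
          Subgroup.normalizer_eq_top_iff] at hN
        exact hN
      exact Cfsg.Agent.Helper22.quasisimple_normal hX H hn
    · exact Or.inr (hHK.trans h)

end Cfsg.Agent.S1259
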