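import Cfsg.Statements.S1262
import Cfsg.Agent.Helper22.Basic

set_option autoImplicit false
open Cfsg

namespace Cfsg.Agent.S1262

/-- Let L be a component of the finite group G and H a solvable subgroup normalized by L. Then ⁅L, H⁆ = 1. -/
theorem result {G : Type*} [Group G] [Finite G] (L H : Subgroup G) (hL : Cfsg.IsComponent L) (hsolv : Group.IsSolvable ↥H) (hinv : L ≤ Subgroup.normalizer (H : Set G)) : ⁅L, H⁆ = ⊥ := by
  -- work inside M = L ⊔ H, in which H is normal
  set M : Subgroup G := L ⊔ H with hM
  have hLM : L ≤ M := le_sup_left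
  have hHM : H ≤ M := le_sup_right
  have hMn : M ≤ Subgroup.normalizer (H : Set G) := sup_le hinv Subgroup.le_normalizer
  have hn : (H.subgroupOf M).Normal := (Subgroup.normal_subgroupOf_iff_le_normalizer hHM).mpr hMn
  have hc : Cfsg.IsComponent (L.subgroupOf M) := Cfsg.Agent.Helper22.isComponent_subgroupOf hL hLM
  rcases Cfsg.Agent.Helper22.component_le_or_commutator_eq_bot_of_normal hc hn with h | h
  · exfalso
    have hLH : L ≤ H := by
      intro x hx
      have : (⟨x, hLM hx⟩ : M) ∈ H.subgroupOf M := h (by rw [Subgroup.mem_subgroupOf]; exact hx)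
      rwa [Subgroup.mem_subgroupOf] at this
    have hsL : Group.IsSolvable ↥L :=
      Group.isSolvable_of_isSolvable_injective (Subgroup.inclusion_injective hLH)
    have hp : Group.IsPerfect ↥L := hL.2.1
    have hnt : Nontrivial ↥L := Cfsg.Agent.Helper22.quasisimple_nontrivial hL.2
    exact Group.IsPerfect.not_isSolvable ↥L hsL
  · have := congrArg (Subgroup.map M.subtype) h
    rwa [Subgroup.map_commutator, Subgroup.map_subgroupOf_eq_of_le hLM,
      Subgroup.map_subgroupOf_eq_of_le hHM, Subgroup.map_bot] at this

end Cfsg.Agent.S1262
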