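import Cfsg.Statements.S1263
import Cfsg.Agent.Helper22.Basic

set_option autoImplicit false
open Cfsg

namespace Cfsg.Agent.S1263

/-- For a finite group G, Z(E(G)) is the subgroup generated by the centres Z(L) of the components L of G (all viewed as subgroups of G). -/
theorem result {G : Type*} [Group G] [Finite G] : (Subgroup.center ↥(Cfsg.layer G)).map (Cfsg.layer G).subtype = ⨆ L : {K : Subgroup G // Cfsg.IsComponent K}, (Subgroup.center ↥(L : Subgroup G)).map (L : Subgroup G).subtype := by
  classical
  let _inst : Fintype {K : Subgroup G // Cfsg.IsComponent K} := Fintype.ofFinite _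
  let H : {K : Subgroup G // Cfsg.IsComponent K} → Subgroup G := fun L => (L : Subgroup G)
  have hcomm : Pairwise fun i j : {K : Subgroup G // Cfsg.IsComponent K} =>
      ∀ x y : G, x ∈ H i → y ∈ H j → Commute x y := by
    intro i j hij x y hx hy
    have hb : ⁅(i : Subgroup G), (j : Subgroup G)⁆ = ⊥ :=
      Cfsg.Agent.Helper22.components_commute i.2 j.2 (fun h => hij (Subtype.ext h))
    have h1 := Subgroup.commutator_eq_bot_iff_le_centralizer.mp hb
    exact (Subgroup.mem_centralizer_iff.mp (h1 hx) y hy).symm
  have hlayer : Cfsg.layer G = ⨆ i, H i := by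
    unfold Cfsg.layer
    rw [sSup_eq_iSup']
    rfl
  have hrange : (Subgroup.noncommPiCoprod hcomm).range = Cfsg.layer G := by
    rw [hlayer]; exact Subgroup.noncommPiCoprod_range
  apply le_antisymm
  · rintro _ ⟨⟨z, hzE⟩, hzc, rfl⟩
    have hz : ∀ y ∈ Cfsg.layer G, y * z = z * y := by
      intro y hy
      have := Subgroup.mem_center_iff.mp hzc ⟨y, hy⟩
      exact congrArg Subtype.val this
    obtain ⟨f, rfl⟩ : ∃ f, Subgroup.noncommPiCoprod hcomm f = z := by
      rw [← hrange] at hzE; exact hzE
    have hfi : ∀ i, ((f i : H i) : G) ∈ (Subgroup.center ↥(H i)).map (H i).subtype := by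
      intro i
      refine ⟨f i, ?_, rfl⟩
      rw [SetLike.mem_coe, Subgroup.mem_center_iff]
      intro x
      apply Subtype.ext
      have hxE : (x : G) ∈ Cfsg.layer G := by
        rw [hlayer]; exact Subgroup.mem_iSup_of_mem i x.2
      have hdec : f = Pi.mulSingle i (f i) * Function.update f i 1 := by
        funext j
        by_cases hj : j = i
        · subst hj; simp
        · simp [hj]
      have hw : Commute (x : G) (Subgroup.noncommPiCoprod hcomm (Function.update f i 1)) := by
        rw [Subgroup.noncommPiCoprod_apply]
        apply Finset.noncommProd_commute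
        intro j _
        by_cases hj : j = i
        · subst hj; simp
        · simp only [Function.update_of_ne hj]
          exact hcomm (Ne.symm hj) _ _ x.2 (f j).2
      have h2 := hz x hxE
      rw [hdec, map_mul, Subgroup.noncommPiCoprod_mulSingle] at h2
      -- x * (f i * w) = (f i * w) * x, and x commutes with w
      set w := Subgroup.noncommPiCoprod hcomm (Function.update f i 1) with hwdef
      have h3 : (x : G) * (f i : G) * w = (f i : G) * (x : G) * w := by
        calc (x : G) * (f i : G) * w = (x : G) * ((f i : G) * w) := by group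
          _ = (f i : G) * w * x := h2
          _ = (f i : G) * (w * x) := by group
          _ = (f i : G) * (x * w) := by rw [hw.eq]
          _ = (f i : G) * (x : G) * w := by group
      exact mul_right_cancel h3
    change (Subgroup.noncommPiCoprod hcomm) f ∈ _
    rw [Subgroup.noncommPiCoprod_apply]
    apply Finset.noncommProd_induction
    · intro a b ha hb; exact Subgroup.mul_mem _ ha hb
    · exact Subgroup.one_mem _
    · intro i _
      exact Subgroup.mem_iSup_of_mem i (hfi i)
  · apply iSup_le
    rintro L _ ⟨⟨z, hzL⟩, hzc, rfl⟩
    have hzE : z ∈ Cfsg.layer G := Cfsg.Agent.Helper22.component_le_layer L.2 hzL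
    refine ⟨⟨z, hzE⟩, ?_, rfl⟩
    rw [SetLike.mem_coe, Subgroup.mem_center_iff]
    rintro ⟨y, hy⟩
    apply Subtype.ext
    change y * z = z * y
    have hle : Cfsg.layer G ≤ Subgroup.centralizer ({z} : Set G) := by
      apply sSup_le
      intro K hK
      by_cases hKL : K = (L : Subgroup G)
      · subst hKL
        intro y hy
        rw [Subgroup.mem_centralizer_iff]
        intro z' hz'
        rw [Set.mem_singleton_iff] at hz'
        subst hz'
        have := Subgroup.mem_center_iff.mp hzc ⟨y, hy⟩
        exact (congrArg Subtype.val this).symm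
      · have hb : ⁅K, (L : Subgroup G)⁆ = ⊥ :=
          Cfsg.Agent.Helper22.components_commute hK L.2 hKL
        have h1 := Subgroup.commutator_eq_bot_iff_le_centralizer.mp hb
        intro y hy
        rw [Subgroup.mem_centralizer_iff]
        intro z' hz'
        rw [Set.mem_singleton_iff] at hz'
        subst hz'
        exact Subgroup.mem_centralizer_iff.mp (h1 hy) _ hzL
    have := Subgroup.mem_centralizer_iff.mp (hle hy) z (Set.mem_singleton z)
    exact this.symm

end Cfsg.Agent.S1263
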