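import Cfsg.Statements.S1264
import Cfsg.Agent.Helper22.Fitting

set_option autoImplicit false
open Cfsg

namespace Cfsg.Agent.S1264

theorem normalizer_le_normalizer_commutator {G : Type*} [Group G] (N : Subgroup G) :
    Subgroup.normalizer (N : Set G) ≤ Subgroup.normalizer ((⁅N, N⁆ : Subgroup G) : Set G) := by
  intro g hg
  have hmap : N.map (MulAut.conj g).toMonoidHom = N := by
    ext x
    constructor
    · rintro ⟨y, hy, rfl⟩
      exact (Subgroup.mem_normalizer_iff.mp hg y).mp hy
    · intro hx
      refine ⟨g⁻¹ * x * g, ?_, by simp [MulAut.conj_apply, mul_assoc]⟩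
      have := (Subgroup.mem_normalizer_iff.mp ((Subgroup.normalizer _).inv_mem hg) x).mp hx
      simpa using this
  have hmap2 : (⁅N, N⁆ : Subgroup G).map (MulAut.conj g).toMonoidHom = ⁅N, N⁆ := by
    rw [Subgroup.map_commutator, hmap]
  have hconj : ∀ x ∈ (⁅N, N⁆ : Subgroup G), g * x * g⁻¹ ∈ (⁅N, N⁆ : Subgroup G) := by
    intro x hx
    have : (MulAut.conj g).toMonoidHom x ∈ (⁅N, N⁆ : Subgroup G).map (MulAut.conj g).toMonoidHom :=
      Subgroup.mem_map_of_mem _ hx
    rw [hmap2] at this
    simpa [MulAut.conj_apply] using this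
  have hconj' : ∀ x ∈ (⁅N, N⁆ : Subgroup G), g⁻¹ * x * g ∈ (⁅N, N⁆ : Subgroup G) := by
    intro x hx
    rw [← hmap2] at hx
    obtain ⟨y, hy, rfl⟩ := hx
    have : g⁻¹ * (MulAut.conj g).toMonoidHom y * g = y := by simp [MulAut.conj_apply, mul_assoc]
    rw [this]; exact hy
  rw [Subgroup.mem_normalizer_iff]
  intro x
  constructor
  · exact hconj x
  · intro hx
    have := hconj' _ hx
    have e : g⁻¹ * (g * x * g⁻¹) * g = x := by group
    rwa [e] at this

theorem key {G : Type*} [Group G] [Finite G] (N : Subgroup G) :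
    N ≤ Subgroup.centralizer (Cfsg.fittingSubgroup G : Set G) →
    Subgroup.centralizer (Cfsg.fittingSubgroup G : Set G) ≤ Subgroup.normalizer (N : Set G) →
    Group.IsSolvable ↥N →
    N ≤ (Subgroup.center ↥(Cfsg.fittingSubgroup G)).map (Cfsg.fittingSubgroup G).subtype := by
  induction N using WellFoundedLT.induction with
  | ind N ih =>
    intro hNC hnorm hsolv
    by_cases hbot : N = ⊥
    · rw [hbot]; exact bot_le
    have hle : ⁅N, N⁆ ≤ N := Subgroup.commutator_le_self N
    have hlt : ⁅N, N⁆ < N := by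
      refine lt_of_le_of_ne hle ?_
      intro heq
      have hnt : Nontrivial N := (Subgroup.nontrivial_iff_ne_bot N).mpr hbot
      have h1 := Group.IsSolvable.commutator_lt_top_of_nontrivial (G := N)
      have h2 : (commutator N).map N.subtype = ⁅N, N⁆ := by
        rw [commutator_def, Subgroup.map_commutator, ← MonoidHom.range_eq_map,
          Subgroup.range_subtype]
      have h3 : (commutator N).map N.subtype = (⊤ : Subgroup N).map N.subtype := by
        rw [h2, heq, ← MonoidHom.range_eq_map, Subgroup.range_subtype]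
      exact h1.ne (Subgroup.map_injective N.subtype_injective h3)
    have hsolv' : Group.IsSolvable ↥(⁅N, N⁆ : Subgroup G) :=
      Group.isSolvable_of_isSolvable_injective (f := Subgroup.inclusion hle)
        (Subgroup.inclusion_injective hle)
    have hD : ⁅N, N⁆ ≤ (Subgroup.center ↥(Cfsg.fittingSubgroup G)).map
        (Cfsg.fittingSubgroup G).subtype :=
      ih _ hlt (hle.trans hNC) (hnorm.trans (normalizer_le_normalizer_commutator N)) hsolv'
    have hDF : ⁅N, N⁆ ≤ Cfsg.fittingSubgroup G := by
      intro x hx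
      obtain ⟨y, _, rfl⟩ := hD hx
      exact y.2
    have hnil : Group.IsNilpotent N := by
      apply Subgroup.isNilpotent_of_lowerCentralSeries_eq_bot (n := 2)
      show ⁅⁅N, N⁆, N⁆ = ⊥
      rw [Subgroup.commutator_eq_bot_iff_le_centralizer]
      intro d hd
      rw [Subgroup.mem_centralizer_iff]
      intro x hx
      exact (Subgroup.mem_centralizer_iff.mp (hNC hx) d (hDF hd)).symm
    have hFn := Cfsg.Agent.Helper22.fittingSubgroup_normal G
    have hCn : (Subgroup.centralizer (Cfsg.fittingSubgroup G : Set G)).Normal := inferInstance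
    have hsn : N.IsSubnormal :=
      Subgroup.IsSubnormal.trans hNC
        (Subgroup.Normal.isSubnormal ((Subgroup.normal_subgroupOf_iff_le_normalizer hNC).mpr hnorm))
        hCn.isSubnormal
    have hNF : N ≤ Cfsg.fittingSubgroup G :=
      Cfsg.Agent.Helper22.le_fittingSubgroup_of_isSubnormal hsn hnil
    intro x hx
    refine ⟨⟨x, hNF hx⟩, ?_, rfl⟩
    rw [SetLike.mem_coe, Subgroup.mem_center_iff]
    intro f
    apply Subtype.ext
    exact (Subgroup.mem_centralizer_iff.mp (hNC hx) f.1 f.2)

/-- Let G be finite, C = C_G(F(G)) the centralizer of the Fitting subgroup, and N a solvable subgroup of C normalized by C. Then N ≤ Z(F(G)). -/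
theorem result {G : Type*} [Group G] [Finite G] (N : Subgroup G) (hN : N ≤ Subgroup.centralizer (Cfsg.fittingSubgroup G : Set G)) (hnorm : Subgroup.centralizer (Cfsg.fittingSubgroup G : Set G) ≤ Subgroup.normalizer (N : Set G)) (hsolv : Group.IsSolvable ↥N) : N ≤ (Subgroup.center ↥(Cfsg.fittingSubgroup G)).map (Cfsg.fittingSubgroup G).subtype := by
  exact key N hN hnorm hsolv

end Cfsg.Agent.S1264
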