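import Cfsg.Statements.S1271
import Cfsg.Agent.Helper31.LBalance5

set_option autoImplicit false
open Cfsg

namespace Cfsg.Agent.S1271

/-- Let G be finite with O_{p'}(G) = 1. Suppose that for every component L of G and every subgroup H ≥ L in which L is normal, the quotient H / C_H(L) is balanced for the prime p. Then G is balanced for p. -/
theorem result {G : Type*} [Group G] [Finite G] (p : ℕ) [Fact p.Prime] (hO : Cfsg.pPrimeCore p G = ⊥) (h : ∀ L : Subgroup G, Cfsg.IsComponent L → ∀ H : Subgroup G, L ≤ H → (L.subgroupOf H).Normal → ∀ [((Subgroup.centralizer (L : Set G)).subgroupOf H).Normal], Cfsg.IsBalancedFor p (↥H ⧸ (Subgroup.centralizer (L : Set G)).subgroupOf H)) : Cfsg.IsBalancedFor p G := by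
  exact Cfsg.Agent.Helper31.isBalancedFor_of_components hO h

end Cfsg.Agent.S1271
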