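-- Statement S1279: O_{p'}(C_G(a)) is a solvable signalizer functor when the C_G(a) are solvable.
import Cfsg.Statements.S1279
import Cfsg.Agent.Helper22.Balance
import Cfsg.Agent.Helper22.Signalizer

set_option autoImplicit false
open Cfsg

namespace Cfsg.Agent.S1279

theorem isPGroup_zpowers_of_pow {G : Type*} [Group G] {p : ℕ} {x : G} (hx : x ^ p = 1) :
    IsPGroup p (Subgroup.zpowers x) := by
  rintro ⟨g, hg⟩
  obtain ⟨k, rfl⟩ := Subgroup.mem_zpowers_iff.mp hg
  refine ⟨1, Subtype.ext ?_⟩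
  show (x ^ k) ^ p ^ 1 = 1
  rw [pow_one, ← zpow_natCast, ← zpow_mul, mul_comm, zpow_mul, zpow_natCast, hx, one_zpow]

/-- Let A be a noncyclic elementary abelian p-subgroup of the finite group G such that C_G(a) is solvable for every non-identity a ∈ A. Then a ↦ O_{p'}(C_G(a)) is a solvable A-signalizer functor on G. -/
theorem result {G : Type*} [Group G] [Finite G] (p : ℕ) [Fact p.Prime] (A : Subgroup G) (hA : Cfsg.IsElementaryAbelian p A) (hA2 : p ^ 2 ≤ Nat.card ↥A) (hsolv : ∀ a ∈ A, a ≠ 1 → Group.IsSolvable ↥(Subgroup.centralizer ({a} : Set G))) : Cfsg.IsSolvableSignalizerFunctor p A (fun a => Cfsg.centralizerPPrimeCore p a) := by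
  have hp : p.Prime := Fact.out
  refine ⟨⟨?_, ?_, ?_, ?_⟩, ?_⟩
  · intro a _ _
    exact Cfsg.Agent.Helper31.centralizerPPrimeCore_le p a
  · intro a _ _
    have h := Cfsg.Agent.Helper31.card_centralizerPPrimeCore_coprime p a
    exact (Nat.Prime.coprime_iff_not_dvd hp).mp h.symm
  · intro a ha _ b hb x hx
    refine Cfsg.Agent.Helper31.conj_mem_centralizerPPrimeCore ?_ hx
    rw [Subgroup.mem_centralizer_singleton_iff]
    exact Cfsg.Agent.Helper22.IsElementaryAbelian.comm' hA hb ha
  · intro a ha _ b hb hb1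
    exact Cfsg.Agent.Helper22.centralizerPPrimeCore_inf_le_of_isSolvable p
      (isPGroup_zpowers_of_pow (hA.2 a ha))
      (Cfsg.Agent.Helper22.IsElementaryAbelian.comm' hA ha hb) (hsolv b hb hb1)
  · intro a ha ha1
    exact Cfsg.Agent.Helper35.isSolvable_of_le
      (Cfsg.Agent.Helper31.centralizerPPrimeCore_le p a) (hsolv a ha ha1)

end Cfsg.Agent.S1279
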