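import Cfsg.Statements.S1280
import Cfsg.Agent.Helper21.Coprime

set_option autoImplicit false
open Cfsg

namespace Cfsg.Agent.S1280

/-- Let θ be a solvable A-signalizer functor (A a noncyclic elementary abelian p-subgroup of the finite group G), and X, Y members of its family with Y ≤ N_G(X). Then X ⊔ Y (= XY) is again in the family. -/
theorem result {G : Type*} [Group G] [Finite G] (p : ℕ) [Fact p.Prime] (A : Subgroup G) (hA : Cfsg.IsElementaryAbelian p A) (hA2 : p ^ 2 ≤ Nat.card ↥A) (θ : G → Subgroup G) (hθ : Cfsg.IsSolvableSignalizerFunctor p A θ) (X Y : Subgroup G) (hX : X ∈ Cfsg.signalizerFamily p A θ) (hY : Y ∈ Cfsg.signalizerFamily p A θ) (hn : Y ≤ Subgroup.normalizer (X : Set G)) : X ⊔ Y ∈ Cfsg.signalizerFamily p A θ := by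
  have hp : p.Prime := Fact.out
  obtain ⟨hXs, hXp, hXA, hXθ⟩ := hX
  obtain ⟨hYs, hYp, hYA, hYθ⟩ := hY
  refine ⟨Cfsg.Agent.Helper21.isSolvable_sup hn hXs hYs, ?_, ?_, ?_⟩
  · intro hdiv
    have := hdiv.trans (Cfsg.Agent.Helper21.card_sup_dvd hn)
    rcases (Nat.Prime.dvd_mul hp).mp this with h | h
    · exact hXp h
    · exact hYp h
  · intro b hb u hu
    obtain ⟨x, hx, y, hy, rfl⟩ := Cfsg.Agent.Helper21.exists_mul_of_mem_sup hn hu
    have : b * (x * y) * b⁻¹ = (b * x * b⁻¹) * (b * y * b⁻¹) := by group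
    rw [this]
    exact Subgroup.mul_mem _ (Subgroup.mem_sup_left (hXA b hb x hx))
      (Subgroup.mem_sup_right (hYA b hb y hy))
  · intro a ha ha1 g hg
    obtain ⟨hgM, hgC⟩ := hg
    have hga : a * g = g * a := by
      have := Subgroup.mem_centralizer_iff.mp hgC a (Set.mem_singleton a)
      exact this
    obtain ⟨y, hy, x, hx, hyx⟩ := Cfsg.Agent.Helper21.exists_mul_of_mem_sup' hn hgM
    -- the set of admissible `Y`-parts of `g`
    set s : Set G := {y' : G | y' ∈ Y ∧ y'⁻¹ * g ∈ X} with hs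
    have hs_eq : s = {y' : G | y⁻¹ * y' ∈ X ⊓ Y} := by
      ext y'
      simp only [hs, Set.mem_ofPred_eq, Subgroup.mem_inf]
      constructor
      · rintro ⟨h1, h2⟩
        refine ⟨?_, Y.mul_mem (Y.inv_mem hy) h1⟩
        have : y⁻¹ * y' = x * (y'⁻¹ * g)⁻¹ := by rw [← hyx]; group
        rw [this]
        exact X.mul_mem hx (X.inv_mem h2)
      · rintro ⟨h1, h2⟩
        refine ⟨?_, ?_⟩
        · have : y' = y * (y⁻¹ * y') := by group
          rw [this]; exact Y.mul_mem hy h2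
        · have : y'⁻¹ * g = (y⁻¹ * y')⁻¹ * x := by rw [← hyx]; group
          rw [this]
          exact X.mul_mem (X.inv_mem h1) hx
    have hcard : ¬ p ∣ Nat.card s := by
      rw [hs_eq, Cfsg.Agent.Helper21.card_leftCoset_set]
      intro hdiv
      exact hYp (hdiv.trans (Subgroup.card_dvd_of_le inf_le_right))
    have hinv : ∀ y' ∈ s, a * y' * a⁻¹ ∈ s := by
      rintro y' ⟨h1, h2⟩
      refine ⟨hYA a ha y' h1, ?_⟩
      have : (a * y' * a⁻¹)⁻¹ * g = a * (y'⁻¹ * g) * a⁻¹ := by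
        calc (a * y' * a⁻¹)⁻¹ * g = a * y'⁻¹ * a⁻¹ * g := by group
          _ = a * y'⁻¹ * (a⁻¹ * g * a) * a⁻¹ := by group
          _ = a * y'⁻¹ * (a⁻¹ * (a * g)) * a⁻¹ := by rw [hga, mul_assoc a⁻¹ g a]
          _ = a * (y'⁻¹ * g) * a⁻¹ := by group
      rw [this]
      exact hXA a ha _ h2
    have hap : a ^ (p ^ 1) = 1 := by rw [pow_one]; exact hA.2 a ha
    obtain ⟨y₀, ⟨hy₀Y, hy₀X⟩, hfix⟩ := Cfsg.Agent.Helper21.exists_fixed_of_conj a 1 hap s hinv hcard
    have hy₀a : a * y₀ = y₀ * a := by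
      have := congrArg (· * a) hfix
      simpa using this
    have hcent : ∀ z : G, a * z = z * a → z ∈ Subgroup.centralizer ({a} : Set G) := by
      intro z hz
      rw [Subgroup.mem_centralizer_iff]
      intro w hw
      rw [Set.mem_singleton_iff] at hw
      subst hw
      exact hz
    have hy₀θ : y₀ ∈ θ a := hYθ a ha ha1 (Subgroup.mem_inf.mpr ⟨hy₀Y, hcent _ hy₀a⟩)
    have hx₀a : a * (y₀⁻¹ * g) = y₀⁻¹ * g * a := by
      calc a * (y₀⁻¹ * g) = y₀⁻¹ * (y₀ * a) * y₀⁻¹ * g := by group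
        _ = y₀⁻¹ * (a * y₀) * y₀⁻¹ * g := by rw [hy₀a]
        _ = y₀⁻¹ * (a * g) := by group
        _ = y₀⁻¹ * (g * a) := by rw [hga]
        _ = y₀⁻¹ * g * a := by group
    have hx₀θ : y₀⁻¹ * g ∈ θ a := hXθ a ha ha1 (Subgroup.mem_inf.mpr ⟨hy₀X, hcent _ hx₀a⟩)
    have : g = y₀ * (y₀⁻¹ * g) := by group
    rw [this]
    exact Subgroup.mul_mem _ hy₀θ hx₀θ

end Cfsg.Agent.S1280
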