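import Cfsg.Statements.S1281
import Cfsg.Agent.Helper21.Coprime

set_option autoImplicit false
open Cfsg

namespace Cfsg.Agent.S1281

/-- Let θ be a solvable A-signalizer functor on the finite group G (A a noncyclic elementary abelian p-subgroup) and N a normal subgroup of order prime to p. Then for all non-identity a, b ∈ A, the image of θ a in G / N meets the centralizer of the image of b inside the image of θ b. -/
theorem result {G : Type*} [Group G] [Finite G] (p : ℕ) [Fact p.Prime] (A : Subgroup G) (hA : Cfsg.IsElementaryAbelian p A) (hA2 : p ^ 2 ≤ Nat.card ↥A) (θ : G → Subgroup G) (hθ : Cfsg.IsSolvableSignalizerFunctor p A θ) (N : Subgroup G) [N.Normal] (hN : ¬ p ∣ Nat.card ↥N) (a b : G) (ha : a ∈ A) (ha1 : a ≠ 1) (hb : b ∈ A) (hb1 : b ≠ 1) : (θ a).map (QuotientGroup.mk' N) ⊓ Subgroup.centralizer {QuotientGroup.mk' N b} ≤ (θ b).map (QuotientGroup.mk' N) := by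
  obtain ⟨⟨_, _, hinvA, hbal⟩, _⟩ := hθ
  intro q hq
  obtain ⟨hq1, hq2⟩ := Subgroup.mem_inf.mp hq
  obtain ⟨x, hx, rfl⟩ := hq1
  have hx' : x ∈ θ a := hx
  have hcomm : QuotientGroup.mk' N b * QuotientGroup.mk' N x
      = QuotientGroup.mk' N x * QuotientGroup.mk' N b :=
    Subgroup.mem_centralizer_iff.mp hq2 _ (Set.mem_singleton _)
  have hmemN : ∀ z : G, z ∈ N ↔ QuotientGroup.mk' N z = 1 := by
    intro z
    rw [← MonoidHom.mem_ker, QuotientGroup.ker_mk']
  set s : Set G := {x' : G | x' ∈ θ a ∧ x⁻¹ * x' ∈ N} with hs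
  have hs_eq : s = {x' : G | x⁻¹ * x' ∈ θ a ⊓ N} := by
    ext x'
    simp only [hs, Set.mem_ofPred_eq, Subgroup.mem_inf]
    constructor
    · rintro ⟨h1, h2⟩
      exact ⟨(θ a).mul_mem ((θ a).inv_mem hx') h1, h2⟩
    · rintro ⟨h1, h2⟩
      refine ⟨?_, h2⟩
      have : x' = x * (x⁻¹ * x') := by group
      rw [this]; exact (θ a).mul_mem hx' h1
  have hcard : ¬ p ∣ Nat.card s := by
    rw [hs_eq, Cfsg.Agent.Helper21.card_leftCoset_set]
    intro hdiv
    exact hN (hdiv.trans (Subgroup.card_dvd_of_le inf_le_right))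
  have hinv : ∀ x' ∈ s, b * x' * b⁻¹ ∈ s := by
    rintro x' ⟨h1, h2⟩
    refine ⟨hinvA a ha ha1 b hb x' h1, ?_⟩
    rw [hmemN] at h2 ⊢
    have h3 : QuotientGroup.mk' N x' = QuotientGroup.mk' N x := by
      rw [map_mul, map_inv, inv_mul_eq_one] at h2
      exact h2.symm
    rw [map_mul, map_mul, map_mul, map_inv, map_inv, h3, hcomm]
    group
  have hbp : b ^ (p ^ 1) = 1 := by rw [pow_one]; exact hA.2 b hb
  obtain ⟨x₀, ⟨hx₀θ, hx₀N⟩, hfix⟩ := Cfsg.Agent.Helper21.exists_fixed_of_conj b 1 hbp s hinv hcard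
  have hx₀b : b * x₀ = x₀ * b := by
    have := congrArg (· * b) hfix
    simpa using this
  have hx₀C : x₀ ∈ Subgroup.centralizer ({b} : Set G) := by
    rw [Subgroup.mem_centralizer_iff]
    intro w hw
    rw [Set.mem_singleton_iff] at hw
    subst hw
    exact hx₀b
  have hx₀θb : x₀ ∈ θ b := hbal a ha ha1 b hb hb1 (Subgroup.mem_inf.mpr ⟨hx₀θ, hx₀C⟩)
  refine ⟨x₀, hx₀θb, ?_⟩
  rw [hmemN, map_mul, map_inv, inv_mul_eq_one] at hx₀N
  exact hx₀N.symm

end Cfsg.Agent.S1281
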