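import Cfsg.Statements.S1286
import Mathlib

set_option autoImplicit false
open Cfsg

namespace Cfsg.Agent.S1286

open Subgroup Equiv

abbrev a01 : Perm (Fin 5) := swap 0 1
abbrev a23 : Perm (Fin 5) := swap 2 3
abbrev cx : Perm (Fin 5) := c[2, 3, 4]
abbrev cy : Perm (Fin 5) := c[0, 1, 4]

/-- The four-group `⟨(0 1), (2 3)⟩`. -/
def fourGroup : Subgroup (Perm (Fin 5)) where
  carrier := {x | x = 1 ∨ x = a01 ∨ x = a23 ∨ x = a01 * a23}
  one_mem' := Or.inl rfl
  mul_mem' := by
    rintro a b (rfl | rfl | rfl | rfl) (rfl | rfl | rfl | rfl) <;>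
      (show _ = _ ∨ _ = _ ∨ _ = _ ∨ _ = _) <;> decide
  inv_mem' := by
    rintro a (rfl | rfl | rfl | rfl) <;> (show _ = _ ∨ _ = _ ∨ _ = _ ∨ _ = _) <;> decide

theorem mem_fourGroup {x : Perm (Fin 5)} :
    x ∈ fourGroup ↔ x = 1 ∨ x = a01 ∨ x = a23 ∨ x = a01 * a23 := Iff.rfl

/-- The functor. -/
noncomputable def theta (x : Perm (Fin 5)) : Subgroup (Perm (Fin 5)) :=
  if x = a01 then zpowers cx else if x = a23 then zpowers cy else ⊥

theorem theta_a01 : theta a01 = zpowers cx := by
  unfold theta; rw [if_pos rfl]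

theorem theta_a23 : theta a23 = zpowers cy := by
  unfold theta; rw [if_neg (by decide), if_pos rfl]

theorem theta_a0123 : theta (a01 * a23) = ⊥ := by
  unfold theta; rw [if_neg (by decide), if_neg (by decide)]

theorem conj_mem_zpowers {G : Type*} [Group G] {b c : G} (h : b * c * b⁻¹ ∈ zpowers c) :
    ∀ x ∈ zpowers c, b * x * b⁻¹ ∈ zpowers c := by
  have h1 : zpowers c ≤ (zpowers c).comap (MulAut.conj b).toMonoidHom :=
    zpowers_le.mpr h
  exact fun x hx => h1 hx

theorem mem_zpowers_three {G : Type*} [Group G] {c : G} (h3 : c ^ 3 = 1) {x : G}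
    (hx : x ∈ zpowers c) : x = 1 ∨ x = c ∨ x = c ^ 2 := by
  obtain ⟨k, rfl⟩ := hx
  show c ^ k = 1 ∨ c ^ k = c ∨ c ^ k = c ^ 2
  have h3' : c ^ (3 : ℤ) = 1 := by exact_mod_cast h3
  rw [zpow_eq_zpow_emod k h3']
  have h1 : 0 ≤ k % 3 := Int.emod_nonneg k (by norm_num)
  have h2 : k % 3 < 3 := Int.emod_lt_of_pos k (by norm_num)
  obtain ⟨n, hn⟩ := Int.eq_ofNat_of_zero_le h1
  rw [hn] at h2 ⊢
  have hn3 : n < 3 := by exact_mod_cast h2
  rw [zpow_natCast]
  interval_cases n
  · left; simp
  · right; left; simp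
  · right; right; rfl

theorem inf_centralizer_eq_bot {G : Type*} [Group G] {c b : G} (h3 : c ^ 3 = 1)
    (h1 : ¬ (c * b = b * c)) (h2 : ¬ (c ^ 2 * b = b * c ^ 2)) :
    zpowers c ⊓ centralizer {b} ≤ ⊥ := by
  rintro x ⟨hx, hxb⟩
  rw [mem_bot]
  have hxb' := mem_centralizer_singleton_iff.mp hxb
  rcases mem_zpowers_three h3 hx with rfl | rfl | rfl
  · rfl
  · exact absurd hxb' h1
  · exact absurd hxb' h2

theorem card_zpowers_three {G : Type*} [Group G] {c : G} (h3 : c ^ 3 = 1) (h1 : c ≠ 1) :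
    Nat.card (zpowers c) = 3 := by
  rw [Nat.card_zpowers]
  exact orderOf_eq_prime h3 h1

theorem cx3 : cx ^ 3 = 1 := by decide
theorem cy3 : cy ^ 3 = 1 := by decide

theorem isSignalizer : Cfsg.IsSignalizerFunctor 2 fourGroup theta := by
  refine ⟨?_, ?_, ?_, ?_⟩
  · rintro a (rfl | rfl | rfl | rfl) ha1
    · exact absurd rfl ha1
    · rw [theta_a01]
      exact zpowers_le.mpr (mem_centralizer_singleton_iff.mpr (by decide))
    · rw [theta_a23]
      exact zpowers_le.mpr (mem_centralizer_singleton_iff.mpr (by decide))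
    · rw [theta_a0123]; exact bot_le
  · rintro a (rfl | rfl | rfl | rfl) ha1
    · exact absurd rfl ha1
    · rw [theta_a01, card_zpowers_three cx3 (by decide)]; decide
    · rw [theta_a23, card_zpowers_three cy3 (by decide)]; decide
    · rw [theta_a0123, Subgroup.card_bot]; decide
  · rintro a (rfl | rfl | rfl | rfl) ha1 b hb
    · exact absurd rfl ha1
    · rw [theta_a01]
      apply conj_mem_zpowers
      rcases hb with rfl | rfl | rfl | rfl
      · exact ⟨1, by decide⟩
      · exact ⟨1, by decide⟩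
      · exact ⟨2, by decide⟩
      · exact ⟨2, by decide⟩
    · rw [theta_a23]
      apply conj_mem_zpowers
      rcases hb with rfl | rfl | rfl | rfl
      · exact ⟨1, by decide⟩
      · exact ⟨2, by decide⟩
      · exact ⟨1, by decide⟩
      · exact ⟨2, by decide⟩
    · rw [theta_a0123]
      intro x hx
      rw [mem_bot] at hx ⊢
      rw [hx]; simp
  · rintro a (rfl | rfl | rfl | rfl) ha1 b (rfl | rfl | rfl | rfl) hb1
    · exact absurd rfl ha1
    · exact absurd rfl ha1
    · exact absurd rfl ha1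
    · exact absurd rfl ha1
    · exact absurd rfl hb1
    · exact inf_le_left
    · rw [theta_a01]
      exact (inf_centralizer_eq_bot cx3 (by decide) (by decide)).trans bot_le
    · rw [theta_a01]
      exact (inf_centralizer_eq_bot cx3 (by decide) (by decide)).trans bot_le
    · exact absurd rfl hb1
    · rw [theta_a23]
      exact (inf_centralizer_eq_bot cy3 (by decide) (by decide)).trans bot_le
    · exact inf_le_left
    · rw [theta_a23]
      exact (inf_centralizer_eq_bot cy3 (by decide) (by decide)).trans bot_le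
    · exact absurd rfl hb1
    · rw [theta_a0123]; exact inf_le_left.trans bot_le
    · rw [theta_a0123]; exact inf_le_left.trans bot_le
    · rw [theta_a0123]; exact inf_le_left.trans bot_le

theorem card_fourGroup : Nat.card fourGroup = 4 := by
  have h : (fourGroup : Set (Perm (Fin 5))) =
      ((({1, a01, a23, a01 * a23} : Finset (Perm (Fin 5))) : Finset (Perm (Fin 5))) :
        Set (Perm (Fin 5))) := by
    ext x
    simp only [Finset.coe_insert, Finset.coe_singleton, Set.mem_insert_iff,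
      Set.mem_singleton_iff]
    exact mem_fourGroup
  show Nat.card (fourGroup : Set (Perm (Fin 5))) = 4
  rw [h, Nat.card_coe_set_eq, Set.ncard_coe_finset]
  decide

/-- There exist a finite group X, an elementary abelian subgroup A of order 4 and a solvable A-signalizer functor θ on X for the prime 2 which is not complete. -/
theorem result : ∃ (X : Type) (_ : Group X) (_ : Finite X) (A : Subgroup X) (θ : X → Subgroup X), Cfsg.IsElementaryAbelian 2 A ∧ Nat.card ↥A = 4 ∧ Cfsg.IsSolvableSignalizerFunctor 2 A θ ∧ ¬ Cfsg.IsCompleteSignalizerFunctor 2 A θ := by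
  refine ⟨Perm (Fin 5), inferInstance, inferInstance, fourGroup, theta, ⟨?_, ?_⟩, card_fourGroup,
    ⟨isSignalizer, ?_⟩, ?_⟩
  · refine ⟨⟨fun x y => ?_⟩⟩
    apply Subtype.ext
    obtain ⟨x, hx⟩ := x
    obtain ⟨y, hy⟩ := y
    show x * y = y * x
    rcases hx with rfl | rfl | rfl | rfl <;> rcases hy with rfl | rfl | rfl | rfl <;> decide
  · rintro a (rfl | rfl | rfl | rfl) <;> decide
  · rintro a (rfl | rfl | rfl | rfl) ha1
    · exact absurd rfl ha1
    · rw [theta_a01]; infer_instance
    · rw [theta_a23]; infer_instance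
    · rw [theta_a0123]; infer_instance
  · rintro ⟨-, X₀, -, hodd, hX⟩
    have h1 := hX a01 (Or.inr (Or.inl rfl)) (by decide)
    have h2 := hX a23 (Or.inr (Or.inr (Or.inl rfl))) (by decide)
    rw [theta_a01] at h1
    rw [theta_a23] at h2
    have hx : cx ∈ X₀ := by
      have : cx ∈ X₀ ⊓ centralizer {a01} := by rw [h1]; exact mem_zpowers cx
      exact this.1
    have hy : cy ∈ X₀ := by
      have : cy ∈ X₀ ⊓ centralizer {a23} := by rw [h2]; exact mem_zpowers cy
      exact this.1
    have hw : cx * cy * cx * cy⁻¹ ∈ X₀ :=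
      X₀.mul_mem (X₀.mul_mem (X₀.mul_mem hx hy) hx) (X₀.inv_mem hy)
    have ho : orderOf (cx * cy * cx * cy⁻¹) = 2 :=
      orderOf_eq_prime (by decide) (by decide)
    apply hodd
    have := orderOf_dvd_natCard (⟨_, hw⟩ : ↥X₀)
    rwa [Subgroup.orderOf_mk, ho] at this

end Cfsg.Agent.S1286
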