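import Cfsg.Statements.S1287
import Cfsg.Agent.Helper22.Generation
import Cfsg.Agent.Helper22.Transitivity
import Cfsg.Agent.Helper35.CoprimeSylow
import Cfsg.Agent.Helper50.CD

set_option autoImplicit false
open scoped Pointwise
open Cfsg

namespace Cfsg.Agent.S1287

open Subgroup Cfsg.Agent.Helper22 Cfsg.Agent.Helper35

/-- The preimage in `Q` of the centre of `Q / N`. -/
def relCenter {H : Type*} [Group H] (Q N : Subgroup H) (hQN : Q ≤ normalizer (N : Set H)) :
    Subgroup H where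
  carrier := {x | x ∈ Q ∧ ∀ g ∈ Q, x * g * x⁻¹ * g⁻¹ ∈ N}
  one_mem' := ⟨one_mem _, fun g _ => by simp⟩
  mul_mem' := by
    rintro x y ⟨hx, hx'⟩ ⟨hy, hy'⟩
    refine ⟨mul_mem hx hy, fun g hg => ?_⟩
    have h1 : x * (y * g * y⁻¹ * g⁻¹) * x⁻¹ ∈ N :=
      (mem_normalizer_iff.mp (hQN hx) _).mp (hy' g hg)
    have h2 := N.mul_mem h1 (hx' g hg)
    have e : x * y * g * (x * y)⁻¹ * g⁻¹ = x * (y * g * y⁻¹ * g⁻¹) * x⁻¹ * (x * g * x⁻¹ * g⁻¹) := by
      group
    rw [e]; exact h2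
  inv_mem' := by
    rintro x ⟨hx, hx'⟩
    refine ⟨inv_mem hx, fun g hg => ?_⟩
    have h1 : x⁻¹ * (x * g * x⁻¹ * g⁻¹)⁻¹ * x⁻¹⁻¹ ∈ N :=
      (mem_normalizer_iff.mp (hQN (inv_mem hx)) _).mp (N.inv_mem (hx' g hg))
    have e : x⁻¹ * g * x⁻¹⁻¹ * g⁻¹ = x⁻¹ * (x * g * x⁻¹ * g⁻¹)⁻¹ * x⁻¹⁻¹ := by group
    rw [e]; exact h1

theorem relCenter_le {H : Type*} [Group H] (Q N : Subgroup H) (hQN : Q ≤ normalizer (N : Set H)) :
    relCenter Q N hQN ≤ Q := fun _ hx => hx.1

theorem mem_normalizer_relCenter {H : Type*} [Group H] (Q N : Subgroup H)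
    (hQN : Q ≤ normalizer (N : Set H)) {c : H} (hcQ : c ∈ normalizer (Q : Set H))
    (hcN : c ∈ normalizer (N : Set H)) : c ∈ normalizer (relCenter Q N hQN : Set H) := by
  have key : ∀ d : H, d ∈ normalizer (Q : Set H) → d ∈ normalizer (N : Set H) →
      ∀ x ∈ relCenter Q N hQN, d * x * d⁻¹ ∈ relCenter Q N hQN := by
    rintro d hdQ hdN x ⟨hx, hx'⟩
    refine ⟨(mem_normalizer_iff.mp hdQ x).mp hx, fun g hg => ?_⟩
    have hg' : d⁻¹ * g * d⁻¹⁻¹ ∈ Q := (mem_normalizer_iff.mp (inv_mem hdQ) g).mp hg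
    have h1 := (mem_normalizer_iff.mp hdN _).mp (hx' _ hg')
    have e : d * x * d⁻¹ * g * (d * x * d⁻¹)⁻¹ * g⁻¹ =
        d * (x * (d⁻¹ * g * d⁻¹⁻¹) * x⁻¹ * (d⁻¹ * g * d⁻¹⁻¹)⁻¹) * d⁻¹ := by group
    rw [e]; exact h1
  rw [mem_normalizer_iff]
  intro x
  refine ⟨key c hcQ hcN x, fun h => ?_⟩
  have := key c⁻¹ (inv_mem hcQ) (inv_mem hcN) _ h
  have e : c⁻¹ * (c * x * c⁻¹) * c⁻¹⁻¹ = x := by group
  rwa [e] at this

/-- If `N < Q` and `Q` is a `q`-group, the preimage of the centre of `Q / N` is not inside `N`. -/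
theorem relCenter_not_le {H : Type*} [Group H] [Finite H] (q : ℕ) [Fact q.Prime]
    (Q N : Subgroup H) (hQq : IsPGroup q Q) (hQN : Q ≤ normalizer (N : Set H)) (hNQ : N ≤ Q)
    (hne : N ≠ Q) : ¬ relCenter Q N hQN ≤ N := by
  intro hle
  have hNn : (N.subgroupOf Q).Normal := Subgroup.normal_subgroupOf_of_le_normalizer hQN
  have hqq : IsPGroup q (↥Q ⧸ N.subgroupOf Q) := hQq.to_quotient _
  have hnt : Nontrivial (↥Q ⧸ N.subgroupOf Q) := by
    rw [QuotientGroup.nontrivial_iff]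
    intro h
    rw [Subgroup.subgroupOf_eq_top] at h
    exact hne (le_antisymm hNQ h)
  have := hnt
  have hc : Nontrivial (center (↥Q ⧸ N.subgroupOf Q)) := hqq.center_nontrivial
  obtain ⟨⟨zb, hzb⟩, hz1⟩ := exists_ne (1 : center (↥Q ⧸ N.subgroupOf Q))
  obtain ⟨z, rfl⟩ := QuotientGroup.mk_surjective zb
  have hzN : (z : H) ∉ N := by
    intro h
    apply hz1
    apply Subtype.ext
    show (QuotientGroup.mk z : ↥Q ⧸ N.subgroupOf Q) = 1
    rw [QuotientGroup.eq_one_iff]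
    exact h
  apply hzN
  apply hle
  refine ⟨z.2, fun g hg => ?_⟩
  have h1 : (QuotientGroup.mk (z * ⟨g, hg⟩ * z⁻¹ * ⟨g, hg⟩⁻¹) : ↥Q ⧸ N.subgroupOf Q) = 1 := by
    have h2 := Subgroup.mem_center_iff.mp hzb (QuotientGroup.mk (⟨g, hg⟩ : ↥Q))
    rw [QuotientGroup.mk_mul, QuotientGroup.mk_mul, QuotientGroup.mk_mul, QuotientGroup.mk_inv,
      QuotientGroup.mk_inv, ← h2]
    group
  rw [QuotientGroup.eq_one_iff] at h1
  exact h1

/-- The factorisation statement for `q`-groups, relative to a normal subgroup `N ≤ X ⊓ Y`. -/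
theorem qgroup_factor {H : Type*} [Group H] [Finite H] (p q : ℕ) [Fact p.Prime] [Fact q.Prime]
    (a b : H) (hab : a * b = b * a) (ha : a ^ p = 1) (hb : b ^ p = 1)
    (Q : Subgroup H) (hQq : IsPGroup q Q) (hQp : ¬ p ∣ Nat.card Q)
    (haQ : a ∈ normalizer (Q : Set H)) (hbQ : b ∈ normalizer (Q : Set H)) :
    ∀ (m : ℕ) (N X Y : Subgroup H), Nat.card Q - Nat.card N ≤ m → N ≤ X → N ≤ Y → X ≤ Q → Y ≤ Q →
      Q ≤ normalizer (N : Set H) → a ∈ normalizer (N : Set H) → b ∈ normalizer (N : Set H) →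
      (∀ c : H, (c = a ∨ ∃ k : ℕ, c = a ^ k * b) → ∀ g ∈ Q ⊓ centralizer {c},
        ∃ x ∈ X ⊓ centralizer {c}, ∃ y ∈ Y ⊓ centralizer {c}, ∃ n ∈ N, g = x * y * n) →
      ∀ g ∈ Q, ∃ x ∈ X, ∃ y ∈ Y, g = x * y := by
  have hp : p.Prime := Fact.out
  intro m
  induction m with
  | zero =>
    intro N X Y hm hNX hNY hXQ hYQ hQN haN hbN hfac g hg
    have hle : Nat.card Q ≤ Nat.card N := by omega
    have hNQ : N = Q := Subgroup.eq_of_le_of_card_ge (hNX.trans hXQ) hle
    exact ⟨g, hNX (hNQ ▸ hg), 1, one_mem _, by simp⟩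
  | succ m ih =>
    intro N X Y hm hNX hNY hXQ hYQ hQN haN hbN hfac g hg
    by_cases hNQ : N = Q
    · exact ⟨g, hNX (hNQ ▸ hg), 1, one_mem _, by simp⟩
    have hNleQ : N ≤ Q := hNX.trans hXQ
    set Z := relCenter Q N hQN with hZ
    have hZQ : Z ≤ Q := relCenter_le Q N hQN
    have hZnot : ¬ Z ≤ N := relCenter_not_le q Q N hQq hQN hNleQ hNQ
    have haZ : a ∈ normalizer (Z : Set H) := mem_normalizer_relCenter Q N hQN haQ haN
    have hbZ : b ∈ normalizer (Z : Set H) := mem_normalizer_relCenter Q N hQN hbQ hbN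
    have hZsolv : Group.IsSolvable Z := by
      have : Group.IsNilpotent Z := (hQq.to_le hZQ).isNilpotent
      infer_instance
    have hZp : ¬ p ∣ Nat.card Z := fun h => hQp (h.trans (Subgroup.card_dvd_of_le hZQ))
    -- some `c` with `C_Z(c)` not inside `N`
    obtain ⟨c, hc, hcZ⟩ : ∃ c : H, (c = a ∨ ∃ k : ℕ, c = a ^ k * b) ∧
        ¬ Z ⊓ centralizer {c} ≤ N := by
      by_contra hcon
      push Not at hcon
      exact hZnot (le_of_centralizer_le_of_commuting p a b hab ha hb N (Nat.card Z) Z le_rfl hZsolv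
        hZp haZ hbZ (hcon a (Or.inl rfl)) (fun k => hcon _ (Or.inr ⟨k, rfl⟩)))
    have hca : a * c = c * a := by
      rcases hc with rfl | ⟨k, rfl⟩
      · rfl
      · have h1 : a * a ^ k = a ^ k * a := (pow_succ' a k).symm.trans (pow_succ a k)
        rw [← mul_assoc, h1, mul_assoc, hab, mul_assoc]
    have hcb : b * c = c * b := by
      rcases hc with rfl | ⟨k, rfl⟩
      · exact hab.symm
      · have h1 : b * a ^ k = a ^ k * b := ((Commute.pow_right (show Commute b a from hab.symm)) k).eq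
        rw [← mul_assoc, h1, mul_assoc]
    -- invariance of `Z ⊓ C(c)`
    have hinv : ∀ d : H, d ∈ normalizer (Z : Set H) → d * c = c * d →
        d ∈ normalizer ((Z ⊓ centralizer {c} : Subgroup H) : Set H) := by
      intro d hd hdc
      have hdc' : d ∈ centralizer ({c} : Set H) :=
        Subgroup.mem_centralizer_singleton_iff.mpr hdc
      exact Subgroup.inf_normalizer_le_normalizer_inf
        (Subgroup.mem_inf.mpr ⟨hd, Subgroup.le_normalizer hdc'⟩)
    set N₁ := (Z ⊓ centralizer {c}) ⊔ N with hN₁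
    have hNN₁ : N ≤ N₁ := le_sup_right
    have hN₁Q : N₁ ≤ Q := sup_le (inf_le_left.trans hZQ) hNleQ
    have hCN : Z ⊓ centralizer {c} ≤ normalizer (N : Set H) := (inf_le_left.trans hZQ).trans hQN
    have hN₁lt : Nat.card N < Nat.card N₁ := by
      apply card_lt_of_lt
      refine lt_of_le_of_ne hNN₁ ?_
      intro h
      apply hcZ
      have : Z ⊓ centralizer {c} ≤ N₁ := le_sup_left
      rwa [← h] at this
    have hQN₁ : Q ≤ normalizer (N₁ : Set H) := by
      apply le_normalizer_of_conj_mem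
      intro g hg y hy
      obtain ⟨z, hz, n, hn, rfl⟩ := exists_mul_of_mem_sup' hCN hy
      have h1 : g * z * g⁻¹ * z⁻¹ ∈ N := by
        have h2 := N.inv_mem (hz.1.2 g hg)
        have e : (z * g * z⁻¹ * g⁻¹)⁻¹ = g * z * g⁻¹ * z⁻¹ := by group
        rwa [e] at h2
      have h3 : g * n * g⁻¹ ∈ N := (mem_normalizer_iff.mp (hQN hg) n).mp hn
      have e : g * (z * n) * g⁻¹ = (g * z * g⁻¹ * z⁻¹) * z * (g * n * g⁻¹) := by group
      rw [e]
      exact mul_mem (mul_mem (hNN₁ h1) (mem_sup_left hz)) (hNN₁ h3)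
    have hsupnorm : ∀ d : H, d ∈ normalizer (Z : Set H) → d * c = c * d →
        d ∈ normalizer (N : Set H) → d ∈ normalizer (N₁ : Set H) := by
      intro d hdZ hdc hdN
      rw [mem_normalizer_iff_conj_smul_eq, hN₁, Subgroup.smul_sup,
        conj_smul_eq_self_of_mem_normalizer (hinv d hdZ hdc),
        conj_smul_eq_self_of_mem_normalizer hdN]
    have haN₁ : a ∈ normalizer (N₁ : Set H) := hsupnorm a haZ hca haN
    have hbN₁ : b ∈ normalizer (N₁ : Set H) := hsupnorm b hbZ hcb hbN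
    -- apply the induction hypothesis to `X ⊔ N₁`, `Y ⊔ N₁`
    have hXN₁ : X ≤ normalizer (N₁ : Set H) := hXQ.trans hQN₁
    have hYN₁ : Y ≤ normalizer (N₁ : Set H) := hYQ.trans hQN₁
    have hcard : Nat.card Q - Nat.card N₁ ≤ m := by omega
    obtain ⟨x₁, hx₁, y₁, hy₁, rfl⟩ := ih N₁ (X ⊔ N₁) (Y ⊔ N₁) hcard le_sup_right le_sup_right
      (sup_le hXQ hN₁Q) (sup_le hYQ hN₁Q) hQN₁ haN₁ hbN₁
      (by
        intro c' hc' g' hg'
        obtain ⟨x, hx, y, hy, n, hn, rfl⟩ := hfac c' hc' g' hg'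
        exact ⟨x, ⟨mem_sup_left hx.1, hx.2⟩, y, ⟨mem_sup_left hy.1, hy.2⟩, n, hNN₁ hn, rfl⟩)
      g hg
    obtain ⟨x, hx, n₁, hn₁, rfl⟩ := exists_mul_of_mem_sup' hXN₁ hx₁
    obtain ⟨y', hy', n₂, hn₂, hy₁e⟩ := exists_mul_of_mem_sup' hYN₁ (inv_mem hy₁)
    have hy₁e' : y₁ = n₂⁻¹ * y'⁻¹ := by
      rw [← mul_inv_rev, ← hy₁e, inv_inv]
    have hmid : n₁ * n₂⁻¹ ∈ N₁ := mul_mem hn₁ (inv_mem hn₂)
    obtain ⟨z, hz, n, hn, hzn⟩ := exists_mul_of_mem_sup' hCN hmid
    obtain ⟨x₀, hx₀, y₀, hy₀, n₀, hn₀, hz0⟩ := hfac c hc z ⟨hZQ hz.1, hz.2⟩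
    refine ⟨x * x₀, mul_mem hx hx₀.1, y₀ * n₀ * n * y'⁻¹,
      mul_mem (mul_mem (mul_mem hy₀.1 (hNY hn₀)) (hNY hn)) (inv_mem hy'), ?_⟩
    rw [hy₁e']
    have e : x * n₁ * (n₂⁻¹ * y'⁻¹) = x * (n₁ * n₂⁻¹) * y'⁻¹ := by group
    rw [e, hzn, hz0]
    group

/-- Under coprime action of an abelian group `A`, the centraliser of `c ∈ A` in an `A`-invariant
Sylow subgroup of `K` is a Sylow subgroup of `C_K(c)`. -/
theorem inf_centralizer_mem_sylowSet' {H : Type*} [Group H] [Finite H] (q : ℕ) [Fact q.Prime]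
    {A K Q : Subgroup H} (hAc : ∀ x ∈ A, ∀ y ∈ A, x * y = y * x) (hAsolv : Group.IsSolvable A)
    (hAK : A ≤ normalizer (K : Set H)) (hcop : (Nat.card A).Coprime (Nat.card K))
    (hQ : Q ∈ sylowSet q K) (hAQ : A ≤ normalizer (Q : Set H)) {c : H} (hc : c ∈ A) :
    Q ⊓ centralizer {c} ∈ sylowSet q (K ⊓ centralizer {c}) := by
  have hAC : A ≤ normalizer ((centralizer {c} : Subgroup H) : Set H) := fun x hx =>
    Subgroup.le_normalizer (Subgroup.mem_centralizer_singleton_iff.mpr (hAc x hx c hc))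
  have hAKc : A ≤ normalizer ((K ⊓ centralizer {c} : Subgroup H) : Set H) :=
    (le_inf hAK hAC).trans Subgroup.inf_normalizer_le_normalizer_inf
  have hcop' : (Nat.card A).Coprime (Nat.card (K ⊓ centralizer {c} : Subgroup H)) :=
    Nat.Coprime.coprime_dvd_right (Subgroup.card_dvd_of_le inf_le_left) hcop
  obtain ⟨T, hT, hAT⟩ := exists_invariant_sylow hAKc hcop' (Or.inl hAsolv) q
  obtain ⟨Q', hQ', hTQ', hAQ'⟩ := exists_invariant_sylow_ge hAK hcop (Or.inl hAsolv)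
    (hT.1.trans inf_le_left) (isPGroup_of_mem_sylowSet hT) hAT
  obtain ⟨d, hd, hdQ⟩ := exists_conj_invariant_sylow hAK hcop (Or.inl hAsolv) hQ' hQ hAQ' hAQ
  have h1 : Q' ⊓ centralizer {c} = T :=
    eq_of_mem_sylowSet_of_le hT (inf_le_inf_right _ hQ'.1)
      ((isPGroup_of_mem_sylowSet hQ').to_le inf_le_left) (le_inf hTQ' (hT.1.trans inf_le_right))
  have hdc : d ∈ centralizer ({c} : Set H) :=
    Subgroup.centralizer_le (Set.singleton_subset_iff.mpr hc) hd.2
  have hdn : d ∈ normalizer ((K ⊓ centralizer {c} : Subgroup H) : Set H) :=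
    Subgroup.le_normalizer ⟨hd.1, hdc⟩
  have h2 := conj_mem_sylowSet hdn hT
  have h3 : MulAut.conj d • T = Q ⊓ centralizer {c} := by
    rw [← h1, ← hdQ]
    ext x
    rw [mem_conj_smul, Subgroup.mem_inf, Subgroup.mem_inf, mem_conj_smul]
    constructor
    · rintro ⟨h, h'⟩
      refine ⟨h, ?_⟩
      have := mul_mem (mul_mem hdc h') (inv_mem hdc)
      have e : d * (d⁻¹ * x * d) * d⁻¹ = x := by group
      rwa [e] at this
    · rintro ⟨h, h'⟩
      exact ⟨h, mul_mem (mul_mem (inv_mem hdc) h') hdc⟩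
  rwa [h3] at h2

/-- Let A be a noncyclic elementary abelian p-subgroup of a finite group H normalizing a subgroup K of order prime to p, and X, Y ≤ K subgroups normalized by A with C_K(a) = C_X(a) C_Y(a) (as sets) for every non-identity a ∈ A, where X is also normalized by C_K(A). Then K = XY as sets. -/
theorem result {H : Type*} [Group H] [Finite H] (p : ℕ) [Fact p.Prime] (A K X Y : Subgroup H) (hA : Cfsg.IsElementaryAbelian p A) (hA2 : p ^ 2 ≤ Nat.card ↥A) (hK : ¬ p ∣ Nat.card ↥K) (hAK : A ≤ Subgroup.normalizer (K : Set H)) (hX : X ≤ K) (hY : Y ≤ K) (hAX : A ≤ Subgroup.normalizer (X : Set H)) (hAY : A ≤ Subgroup.normalizer (Y : Set H)) (hCX : K ⊓ Subgroup.centralizer (A : Set H) ≤ Subgroup.normalizer (X : Set H)) (hfac : ∀ a ∈ A, a ≠ 1 → ((K ⊓ Subgroup.centralizer {a} : Subgroup H) : Set H) = ((X ⊓ Subgroup.centralizer {a} : Subgroup H) : Set H) * ((Y ⊓ Subgroup.centralizer {a} : Subgroup H) : Set H)) : (K : Set H) = (X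 : Set H) * (Y : Set H) := by
  have hp : p.Prime := Fact.out
  have hAc : ∀ x ∈ A, ∀ y ∈ A, x * y = y * x := fun x hx y hy => Cfsg.Agent.Helper22.IsElementaryAbelian.comm' hA hx hy
  have hAsolv : Group.IsSolvable A := Cfsg.Agent.Helper22.IsElementaryAbelian.isSolvable' hA
  have hApg : IsPGroup p A := Cfsg.Agent.Helper22.IsElementaryAbelian.isPGroup' hA
  have hcopK : (Nat.card A).Coprime (Nat.card K) := by
    obtain ⟨n, hn⟩ := IsPGroup.iff_card.mp hApg
    rw [hn]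
    exact Nat.Coprime.pow_left _ ((Nat.Prime.coprime_iff_not_dvd hp).mpr hK)
  have hcopX : (Nat.card A).Coprime (Nat.card X) :=
    Nat.Coprime.coprime_dvd_right (Subgroup.card_dvd_of_le hX) hcopK
  have hcopY : (Nat.card A).Coprime (Nat.card Y) :=
    Nat.Coprime.coprime_dvd_right (Subgroup.card_dvd_of_le hY) hcopK
  have hcopXY : (Nat.card A).Coprime (Nat.card (X ⊓ Y : Subgroup H)) :=
    Nat.Coprime.coprime_dvd_right (Subgroup.card_dvd_of_le inf_le_left) hcopX
  have hAXY : A ≤ normalizer ((X ⊓ Y : Subgroup H) : Set H) :=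
    (le_inf hAX hAY).trans Subgroup.inf_normalizer_le_normalizer_inf
  -- choose independent `a`, `b`
  obtain ⟨a, haA, ha1⟩ : ∃ a ∈ A, a ≠ 1 := by
    by_contra hcon
    push Not at hcon
    have hbot : A = ⊥ := (Subgroup.eq_bot_iff_forall A).mpr hcon
    rw [hbot, Subgroup.card_bot] at hA2
    have := hp.two_le
    nlinarith
  obtain ⟨b, hbA, hbn⟩ : ∃ b ∈ A, b ∉ Subgroup.zpowers a := by
    by_contra hcon
    push Not at hcon
    have hle : A ≤ Subgroup.zpowers a := hcon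
    have h1 := Subgroup.card_le_of_le hle
    have h2 : Nat.card (Subgroup.zpowers a) = orderOf a := Nat.card_zpowers a
    have h3 : orderOf a ∣ p := orderOf_dvd_of_pow_eq_one (hA.2 a haA)
    have h4 : orderOf a ≤ p := Nat.le_of_dvd hp.pos h3
    have := hp.two_le
    nlinarith
  have hab : a * b = b * a := hAc a haA b hbA
  have hapow : a ^ p = 1 := hA.2 a haA
  have hbpow : b ^ p = 1 := hA.2 b hbA
  have hmemA : ∀ c : H, (c = a ∨ ∃ k : ℕ, c = a ^ k * b) → c ∈ A ∧ c ≠ 1 := by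
    rintro c (rfl | ⟨k, rfl⟩)
    · exact ⟨haA, ha1⟩
    · refine ⟨mul_mem (pow_mem haA k) hbA, fun h => hbn ?_⟩
      have e : b = (a ^ k)⁻¹ := eq_inv_of_mul_eq_one_right h
      rw [e]
      exact inv_mem (pow_mem (Subgroup.mem_zpowers a) k)
  -- the key count, prime by prime
  have key : ∀ q : ℕ, q.Prime → (Nat.card K).factorization q +
      (Nat.card (X ⊓ Y : Subgroup H)).factorization q =
      (Nat.card X).factorization q + (Nat.card Y).factorization q := by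
    intro q hq
    have : Fact q.Prime := ⟨hq⟩
    obtain ⟨D, hD, hAD⟩ := exists_invariant_sylow hAXY hcopXY (Or.inl hAsolv) q
    obtain ⟨Yq, hYq, hDYq, hAYq⟩ := exists_invariant_sylow_ge hAY hcopY (Or.inl hAsolv)
      (hD.1.trans inf_le_right) (isPGroup_of_mem_sylowSet hD) hAD
    obtain ⟨Q, hQ, hYqQ, hAQ⟩ := exists_invariant_sylow_ge hAK hcopK (Or.inl hAsolv)
      (hYq.1.trans hY) (isPGroup_of_mem_sylowSet hYq) hAYq
    obtain ⟨Xq, hXq, hAXq⟩ := exists_invariant_sylow hAX hcopX (Or.inl hAsolv) q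
    obtain ⟨Q0, hQ0, hXqQ0, hAQ0⟩ := exists_invariant_sylow_ge hAK hcopK (Or.inl hAsolv)
      (hXq.1.trans hX) (isPGroup_of_mem_sylowSet hXq) hAXq
    obtain ⟨d, hd, hdQ⟩ := exists_conj_invariant_sylow hAK hcopK (Or.inl hAsolv) hQ0 hQ hAQ0 hAQ
    have hQpg : IsPGroup q Q := isPGroup_of_mem_sylowSet hQ
    have hQX : Q ⊓ X ∈ sylowSet q X := by
      have h1 : MulAut.conj d • Xq ∈ sylowSet q X := conj_mem_sylowSet (hCX hd) hXq
      have h2 : MulAut.conj d • Xq ≤ Q ⊓ X :=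
        le_inf (hdQ ▸ conj_smul_le_conj_smul hXqQ0) h1.1
      have h3 := eq_of_mem_sylowSet_of_le h1 inf_le_right (hQpg.to_le inf_le_left) h2
      rw [h3]; exact h1
    have hQY : Q ⊓ Y ∈ sylowSet q Y := by
      have h3 := eq_of_mem_sylowSet_of_le hYq inf_le_right (hQpg.to_le inf_le_left)
        (le_inf hYqQ hYq.1)
      rw [h3]; exact hYq
    have hQXY : Q ⊓ (X ⊓ Y) ∈ sylowSet q (X ⊓ Y) := by
      have h3 := eq_of_mem_sylowSet_of_le hD inf_le_right (hQpg.to_le inf_le_left)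
        (le_inf (hDYq.trans hYqQ) hD.1)
      rw [h3]; exact hD
    have hAQX : A ≤ normalizer ((Q ⊓ X : Subgroup H) : Set H) :=
      (le_inf hAQ hAX).trans Subgroup.inf_normalizer_le_normalizer_inf
    have hAQY : A ≤ normalizer ((Q ⊓ Y : Subgroup H) : Set H) :=
      (le_inf hAQ hAY).trans Subgroup.inf_normalizer_le_normalizer_inf
    have hAQXY : A ≤ normalizer ((Q ⊓ (X ⊓ Y) : Subgroup H) : Set H) :=
      (le_inf hAQ hAXY).trans Subgroup.inf_normalizer_le_normalizer_inf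
    -- the centralisers in `Q` factorise
    have step2 : ∀ c ∈ A, c ≠ 1 → ∀ g ∈ Q ⊓ centralizer {c},
        ∃ x ∈ (Q ⊓ X) ⊓ centralizer {c}, ∃ y ∈ (Q ⊓ Y) ⊓ centralizer {c},
          ∃ n ∈ (⊥ : Subgroup H), g = x * y * n := by
      intro c hcA hc1 g hg
      have s1 := inf_centralizer_mem_sylowSet' q hAc hAsolv hAK hcopK hQ hAQ hcA
      have s2 := inf_centralizer_mem_sylowSet' q hAc hAsolv hAX hcopX hQX hAQX hcA
      have s3 := inf_centralizer_mem_sylowSet' q hAc hAsolv hAY hcopY hQY hAQY hcA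
      have s4 := inf_centralizer_mem_sylowSet' q hAc hAsolv hAXY hcopXY hQXY hAQXY hcA
      have e1 := Helper50.card_mul_card_eq_card_mulSet (X ⊓ centralizer {c}) (Y ⊓ centralizer {c})
      have e2 : Nat.card (((X ⊓ centralizer {c} : Subgroup H) : Set H) *
          ((Y ⊓ centralizer {c} : Subgroup H) : Set H) : Set H) =
          Nat.card (K ⊓ centralizer {c} : Subgroup H) := by
        rw [← hfac c hcA hc1]; rfl
      have e3 : (X ⊓ centralizer {c}) ⊓ (Y ⊓ centralizer {c}) = (X ⊓ Y) ⊓ centralizer {c} := by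
        ext z
        simp only [Subgroup.mem_inf]
        tauto
      rw [e2, e3] at e1
      have e4 : (Nat.card (X ⊓ centralizer {c} : Subgroup H)).factorization q +
          (Nat.card (Y ⊓ centralizer {c} : Subgroup H)).factorization q =
          (Nat.card (K ⊓ centralizer {c} : Subgroup H)).factorization q +
          (Nat.card ((X ⊓ Y) ⊓ centralizer {c} : Subgroup H)).factorization q := by
        have h := congrArg (fun n => n.factorization q) e1
        rw [Nat.factorization_mul Nat.card_pos.ne' Nat.card_pos.ne',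
          Nat.factorization_mul Nat.card_pos.ne' Nat.card_pos.ne'] at h
        simpa using h
      have f1 := Helper50.card_mul_card_eq_card_mulSet ((Q ⊓ X) ⊓ centralizer {c})
        ((Q ⊓ Y) ⊓ centralizer {c})
      have f3 : ((Q ⊓ X) ⊓ centralizer {c}) ⊓ ((Q ⊓ Y) ⊓ centralizer {c}) =
          (Q ⊓ (X ⊓ Y)) ⊓ centralizer {c} := by
        ext z
        simp only [Subgroup.mem_inf]
        tauto
      rw [f3, s2.2, s3.2, s4.2, ← pow_add, e4, pow_add] at f1
      have f4 := Nat.eq_of_mul_eq_mul_right (pow_pos hq.pos _) f1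
      have hsub : (((Q ⊓ X) ⊓ centralizer {c} : Subgroup H) : Set H) *
          (((Q ⊓ Y) ⊓ centralizer {c} : Subgroup H) : Set H) ⊆
          ((Q ⊓ centralizer {c} : Subgroup H) : Set H) := by
        rintro _ ⟨x, hx, y, hy, rfl⟩
        exact mul_mem ⟨hx.1.1, hx.2⟩ ⟨hy.1.1, hy.2⟩
      have heq := Set.Finite.eq_of_subset_of_card_le (Set.toFinite _) hsub
        (by rw [← f4]; exact s1.2.le)
      have hg' : g ∈ (((Q ⊓ X) ⊓ centralizer {c} : Subgroup H) : Set H) *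
          (((Q ⊓ Y) ⊓ centralizer {c} : Subgroup H) : Set H) := by
        rw [heq]; exact hg
      obtain ⟨x, hx, y, hy, rfl⟩ := hg'
      exact ⟨x, hx, y, hy, 1, Subgroup.mem_bot.mpr rfl, by simp⟩
    have hQp : ¬ p ∣ Nat.card Q := fun h => hK (h.trans (Subgroup.card_dvd_of_le hQ.1))
    have hbotn : ∀ g : H, g ∈ normalizer (((⊥ : Subgroup H) : Subgroup H) : Set H) := by
      intro g
      rw [mem_normalizer_iff]
      intro x
      simp [Subgroup.mem_bot]
    have step3 := qgroup_factor p q a b hab hapow hbpow Q hQpg hQp (hAQ haA) (hAQ hbA)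
      (Nat.card Q) ⊥ (Q ⊓ X) (Q ⊓ Y) (Nat.sub_le _ _) bot_le bot_le inf_le_left inf_le_left
      (fun g _ => hbotn g) (hbotn a) (hbotn b)
      (fun c hc => step2 c (hmemA c hc).1 (hmemA c hc).2)
    have g1 := Helper50.card_mul_card_eq_card_mulSet (Q ⊓ X) (Q ⊓ Y)
    have g2 : ((Q ⊓ X : Subgroup H) : Set H) * ((Q ⊓ Y : Subgroup H) : Set H) = (Q : Set H) := by
      ext g
      constructor
      · rintro ⟨x, hx, y, hy, rfl⟩
        exact mul_mem hx.1 hy.1
      · intro hg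
        obtain ⟨x, hx, y, hy, rfl⟩ := step3 g hg
        exact ⟨x, hx, y, hy, rfl⟩
    have g3 : (Q ⊓ X) ⊓ (Q ⊓ Y) = Q ⊓ (X ⊓ Y) := by
      ext z
      simp only [Subgroup.mem_inf]
      tauto
    have g4 : Nat.card ((Q : Set H)) = q ^ (Nat.card K).factorization q := hQ.2
    rw [g2, g3, hQX.2, hQY.2, hQXY.2, g4, ← pow_add, ← pow_add] at g1
    exact (Nat.pow_right_injective hq.two_le g1).symm
  have hcard : Nat.card K * Nat.card (X ⊓ Y : Subgroup H) = Nat.card X * Nat.card Y := by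
    apply Nat.eq_of_factorization_eq (Nat.mul_ne_zero Nat.card_pos.ne' Nat.card_pos.ne')
      (Nat.mul_ne_zero Nat.card_pos.ne' Nat.card_pos.ne')
    intro q
    by_cases hq : q.Prime
    · rw [Nat.factorization_mul Nat.card_pos.ne' Nat.card_pos.ne',
        Nat.factorization_mul Nat.card_pos.ne' Nat.card_pos.ne']
      simpa using key q hq
    · simp [Nat.factorization_eq_zero_of_not_prime _ hq]
  have h5 := Helper50.card_mul_card_eq_card_mulSet X Y
  have hsub : (X : Set H) * (Y : Set H) ⊆ (K : Set H) := by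
    rintro _ ⟨x, hx, y, hy, rfl⟩
    exact mul_mem (hX hx) (hY hy)
  have hle : Nat.card K ≤ Nat.card ((X : Set H) * (Y : Set H) : Set H) :=
    (Nat.eq_of_mul_eq_mul_right Nat.card_pos (hcard.trans h5)).le
  exact (Set.Finite.eq_of_subset_of_card_le (Set.toFinite _) hsub hle).symm

end Cfsg.Agent.S1287
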