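import Cfsg.Statements.S1288
import Cfsg.Agent.Helper22.SolvableCore
import Cfsg.Agent.Helper22.ExtLayer
import Cfsg.Agent.Helper32.PConstrained
-- import your own Cfsg.Agent.* helpers here

set_option autoImplicit false
open Cfsg

namespace Cfsg.Agent.S1288

/-- Let A be a noncyclic elementary abelian p-subgroup of a finite group H normalizing a solvable subgroup K of order prime to p, q a prime dividing |K|, and U ≤ K a subgroup of order prime to q such that ⁅U, C_K(B)⁆ has order prime to q for every subgroup B of index p in A. Then U ≤ O_{q'}(K). -/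
theorem result {H : Type*} [Group H] [Finite H] (p : ℕ) [Fact p.Prime] (A K : Subgroup H) (hA : Cfsg.IsElementaryAbelian p A) (hA2 : p ^ 2 ≤ Nat.card ↥A) (hK : ¬ p ∣ Nat.card ↥K) (hKs : Group.IsSolvable ↥K) (hAK : A ≤ Subgroup.normalizer (K : Set H)) (q : ℕ) [Fact q.Prime] (hqK : q ∣ Nat.card ↥K) (U : Subgroup H) (hU : U ≤ K) (hUq : ¬ q ∣ Nat.card ↥U) (hcomm : ∀ B : Subgroup H, B ≤ A → B.relIndex A = p → ¬ q ∣ Nat.card ↥⁅U, K ⊓ Subgroup.centralizer (B : Set H)⁆) : U ≤ (Cfsg.pPrimeCore q ↥K).map K.subtype := by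
  have hp : p.Prime := Fact.out
  have hq : q.Prime := Fact.out
  have hred : Cfsg.pPrimeCore q (↥K ⧸ Cfsg.pPrimeCore q ↥K) = ⊥ :=
    Helper32.pPrimeCore_quotient_eq_bot' q ↥K
  have hHH := Helper22.centralizer_pCore_le_of_isSolvable (G := ↥K ⧸ Cfsg.pPrimeCore q ↥K) q hred
  have hOq : IsPGroup q (Cfsg.pCore q (↥K ⧸ Cfsg.pPrimeCore q ↥K)) := Helper22.pCore_isPGroup q _
  -- a `q'`-element of `O_{q',q}(K)` lies in `O_{q'}(K)`
  have hqprime_in_M : ∀ g : ↥K, g ∈ Cfsg.pPrimePCore q ↥K → (orderOf g).Coprime q →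
      g ∈ Cfsg.pPrimeCore q ↥K := by
    intro g hg hcop
    have h1 : QuotientGroup.mk' (Cfsg.pPrimeCore q ↥K) g ∈
        Cfsg.pCore q (↥K ⧸ Cfsg.pPrimeCore q ↥K) := hg
    obtain ⟨k, hk⟩ := hOq ⟨_, h1⟩
    have h2 : (QuotientGroup.mk' (Cfsg.pPrimeCore q ↥K) g) ^ (q ^ k) = 1 :=
      congrArg Subtype.val hk
    have h3 : (QuotientGroup.mk' (Cfsg.pPrimeCore q ↥K) g) ^ (orderOf g) = 1 := by
      rw [← map_pow, pow_orderOf_eq_one, map_one]
    have h4 : QuotientGroup.mk' (Cfsg.pPrimeCore q ↥K) g = 1 := by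
      have d1 := orderOf_dvd_of_pow_eq_one h2
      have d2 := orderOf_dvd_of_pow_eq_one h3
      have h5 : orderOf (QuotientGroup.mk' (Cfsg.pPrimeCore q ↥K) g) ∣
          Nat.gcd (q ^ k) (orderOf g) := Nat.dvd_gcd d1 d2
      have hg1 : Nat.gcd (q ^ k) (orderOf g) = 1 := Nat.Coprime.pow_left k hcop.symm
      rw [hg1, Nat.dvd_one] at h5
      exact orderOf_eq_one_iff.mp h5
    exact (QuotientGroup.eq_one_iff g).mp h4
  -- an `A`-invariant Sylow `q`-subgroup of `O_{q',q}(K)`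
  have hMchar : (Cfsg.pPrimePCore q ↥K).Characteristic := Helper22.pPrimePCore_characteristic q ↥K
  have hMn : (Cfsg.pPrimePCore q ↥K).Normal := Subgroup.normal_of_characteristic _
  have hAM : A ≤ Subgroup.normalizer
      (((Cfsg.pPrimePCore q ↥K).map K.subtype : Subgroup H) : Set H) :=
    hAK.trans (Helper22.normalizer_le_normalizer_map_subtype K (Cfsg.pPrimePCore q ↥K))
  have hMK : (Cfsg.pPrimePCore q ↥K).map K.subtype ≤ K := Subgroup.map_subtype_le _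
  have hcopA : (Nat.card A).Coprime (Nat.card ((Cfsg.pPrimePCore q ↥K).map K.subtype)) := by
    obtain ⟨k, hk⟩ := (Helper22.IsElementaryAbelian.isPGroup' hA).exists_card_eq
    rw [hk]
    exact Nat.Coprime.pow_left k ((Nat.Prime.coprime_iff_not_dvd hp).mpr
      (fun h => hK (h.trans (Subgroup.card_dvd_of_le hMK))))
  obtain ⟨Q, hQ, hQA⟩ := Helper35.exists_invariant_sylow hAM hcopA
    (Or.inl (Helper22.IsElementaryAbelian.isSolvable' hA)) q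
  have hQK : Q ≤ K := hQ.1.trans hMK
  have hA1 : A ≠ ⊥ := by
    rintro rfl
    rw [Subgroup.card_bot] at hA2
    have : 1 < p ^ 2 := Nat.one_lt_pow (by norm_num) hp.one_lt
    omega
  have hpQ : ¬ p ∣ Nat.card Q := fun h => hK (h.trans (Subgroup.card_dvd_of_le hQK))
  have hQGM : Q.subgroupOf K ≤ Cfsg.pPrimePCore q ↥K := by
    intro g hg
    obtain ⟨m, hm, hmx⟩ := hQ.1 (show (g : H) ∈ Q from hg)
    have : m = g := Subtype.ext hmx
    rwa [← this]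
  -- `Q` centralizes the image of `U` modulo `O_{q'}(K)`
  have hQS : Q ≤ ((Subgroup.centralizer (((U.subgroupOf K).map
      (QuotientGroup.mk' (Cfsg.pPrimeCore q ↥K)) : Subgroup (↥K ⧸ Cfsg.pPrimeCore q ↥K)) :
        Set (↥K ⧸ Cfsg.pPrimeCore q ↥K))).comap
          (QuotientGroup.mk' (Cfsg.pPrimeCore q ↥K))).map K.subtype := by
    apply Helper22.le_of_index_p_centralizers_le p A Q hA hA1 hpQ hQA
    intro B hB hBi x hx
    obtain ⟨hxQ, hxB⟩ := hx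
    have hxK : x ∈ K := hQK hxQ
    have hxM : (⟨x, hxK⟩ : ↥K) ∈ Cfsg.pPrimePCore q ↥K := hQGM hxQ
    refine ⟨⟨x, hxK⟩, ?_, rfl⟩
    show QuotientGroup.mk' (Cfsg.pPrimeCore q ↥K) ⟨x, hxK⟩ ∈ Subgroup.centralizer _
    rw [Subgroup.mem_centralizer_iff]
    rintro _ ⟨u, hu, rfl⟩
    have hcM : u * ⟨x, hxK⟩ * u⁻¹ * (⟨x, hxK⟩ : ↥K)⁻¹ ∈ Cfsg.pPrimePCore q ↥K :=
      (Cfsg.pPrimePCore q ↥K).mul_mem (hMn.conj_mem _ hxM u) ((Cfsg.pPrimePCore q ↥K).inv_mem hxM)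
    have hcW : ((u * ⟨x, hxK⟩ * u⁻¹ * (⟨x, hxK⟩ : ↥K)⁻¹ : ↥K) : H) ∈
        ⁅U, K ⊓ Subgroup.centralizer (B : Set H)⁆ :=
      Subgroup.commutator_mem_commutator (show (u : H) ∈ U from hu) ⟨hxK, hxB⟩
    have hcop : (orderOf (u * ⟨x, hxK⟩ * u⁻¹ * (⟨x, hxK⟩ : ↥K)⁻¹)).Coprime q := by
      have h1 : orderOf ((u * ⟨x, hxK⟩ * u⁻¹ * (⟨x, hxK⟩ : ↥K)⁻¹ : ↥K) : H) ∣
          Nat.card ↥⁅U, K ⊓ Subgroup.centralizer (B : Set H)⁆ := by
        have := orderOf_dvd_natCard (⟨_, hcW⟩ : ↥⁅U, K ⊓ Subgroup.centralizer (B : Set H)⁆)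
        rwa [Subgroup.orderOf_mk] at this
      rw [← Subgroup.orderOf_coe]
      exact Nat.Coprime.coprime_dvd_left h1
        ((Nat.Prime.coprime_iff_not_dvd hq).mpr (hcomm B hB hBi)).symm
    have hcN := hqprime_in_M _ hcM hcop
    have h1 : QuotientGroup.mk' (Cfsg.pPrimeCore q ↥K)
        (u * ⟨x, hxK⟩ * u⁻¹ * (⟨x, hxK⟩ : ↥K)⁻¹) = 1 := (QuotientGroup.eq_one_iff _).mpr hcN
    rw [map_mul, map_mul, map_mul, map_inv, map_inv] at h1
    calc QuotientGroup.mk' (Cfsg.pPrimeCore q ↥K) u *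
          QuotientGroup.mk' (Cfsg.pPrimeCore q ↥K) ⟨x, hxK⟩
        = (QuotientGroup.mk' (Cfsg.pPrimeCore q ↥K) u *
            QuotientGroup.mk' (Cfsg.pPrimeCore q ↥K) ⟨x, hxK⟩ *
            (QuotientGroup.mk' (Cfsg.pPrimeCore q ↥K) u)⁻¹ *
            (QuotientGroup.mk' (Cfsg.pPrimeCore q ↥K) ⟨x, hxK⟩)⁻¹) *
            (QuotientGroup.mk' (Cfsg.pPrimeCore q ↥K) ⟨x, hxK⟩ *
              QuotientGroup.mk' (Cfsg.pPrimeCore q ↥K) u) := by group
      _ = _ := by rw [h1, one_mul]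
  -- `O_{q',q}(K) = O_{q'}(K) Q`
  have hcardQG : Nat.card ((Q.subgroupOf K).subgroupOf (Cfsg.pPrimePCore q ↥K)) =
      q ^ (Nat.card (Cfsg.pPrimePCore q ↥K)).factorization q := by
    rw [Helper35.card_subgroupOf_of_le hQGM, Helper35.card_subgroupOf_of_le hQK, hQ.2,
      Subgroup.card_map_of_injective K.subtype_injective]
  have hT : ((Sylow.ofCard ((Q.subgroupOf K).subgroupOf (Cfsg.pPrimePCore q ↥K)) hcardQG :
      Sylow q ↥(Cfsg.pPrimePCore q ↥K)) : Subgroup ↥(Cfsg.pPrimePCore q ↥K)).map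
        (Cfsg.pPrimePCore q ↥K).subtype = Q.subgroupOf K := by
    rw [Sylow.coe_ofCard, Subgroup.map_subgroupOf_eq_of_le hQGM]
  have hMle : Cfsg.pPrimePCore q ↥K ≤ Cfsg.pPrimeCore q ↥K ⊔ Q.subgroupOf K := by
    have := Helper22.pPrimePCore_le_sup_sylow (p := q) (G := ↥K) (Cfsg.pPrimePCore q ↥K) le_rfl
      (Sylow.ofCard ((Q.subgroupOf K).subgroupOf (Cfsg.pPrimePCore q ↥K)) hcardQG)
    rwa [hT] at this
  -- the image of `U` centralizes `O_q(K / O_{q'}(K))`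
  have hUcent : (U.subgroupOf K).map (QuotientGroup.mk' (Cfsg.pPrimeCore q ↥K)) ≤
      Subgroup.centralizer ((Cfsg.pCore q (↥K ⧸ Cfsg.pPrimeCore q ↥K) :
        Subgroup (↥K ⧸ Cfsg.pPrimeCore q ↥K)) : Set (↥K ⧸ Cfsg.pPrimeCore q ↥K)) := by
    intro ubar hubar
    rw [Subgroup.mem_centralizer_iff]
    intro z hz
    obtain ⟨m, rfl⟩ := QuotientGroup.mk'_surjective (Cfsg.pPrimeCore q ↥K) z
    have hm : m ∈ Cfsg.pPrimePCore q ↥K := hz
    have h1 : QuotientGroup.mk' (Cfsg.pPrimeCore q ↥K) m ∈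
        (Cfsg.pPrimeCore q ↥K ⊔ Q.subgroupOf K).map (QuotientGroup.mk' (Cfsg.pPrimeCore q ↥K)) :=
      Subgroup.mem_map_of_mem _ (hMle hm)
    rw [Subgroup.map_sup, QuotientGroup.map_mk'_self, bot_sup_eq] at h1
    obtain ⟨g, hg, hgm⟩ := h1
    obtain ⟨g', hg', hgg'⟩ := hQS (show (g : H) ∈ Q from hg)
    have hgeq : g' = g := Subtype.ext hgg'
    rw [hgeq] at hg'
    have hg'' : QuotientGroup.mk' (Cfsg.pPrimeCore q ↥K) g ∈ Subgroup.centralizer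
        (((U.subgroupOf K).map (QuotientGroup.mk' (Cfsg.pPrimeCore q ↥K)) :
          Subgroup (↥K ⧸ Cfsg.pPrimeCore q ↥K)) : Set (↥K ⧸ Cfsg.pPrimeCore q ↥K)) := hg'
    rw [← hgm]
    exact (Subgroup.mem_centralizer_iff.mp hg'' ubar hubar).symm
  intro u hu
  have hubar : QuotientGroup.mk' (Cfsg.pPrimeCore q ↥K) ⟨u, hU hu⟩ ∈
      Cfsg.pCore q (↥K ⧸ Cfsg.pPrimeCore q ↥K) :=
    hHH (hUcent (Subgroup.mem_map_of_mem _ (show ((⟨u, hU hu⟩ : ↥K) : H) ∈ U from hu)))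
  have hcop : (orderOf (⟨u, hU hu⟩ : ↥K)).Coprime q := by
    have h1 : orderOf u ∣ Nat.card U := by
      have := orderOf_dvd_natCard (⟨u, hu⟩ : ↥U)
      rwa [Subgroup.orderOf_mk] at this
    rw [Subgroup.orderOf_mk]
    exact Nat.Coprime.coprime_dvd_left h1 ((Nat.Prime.coprime_iff_not_dvd hq).mpr hUq).symm
  exact ⟨⟨u, hU hu⟩, hqprime_in_M _ hubar hcop, rfl⟩

end Cfsg.Agent.S1288
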