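import Cfsg.Statements.S1289
import Cfsg.Agent.Helper22.Fitting

set_option autoImplicit false
open Cfsg

namespace Cfsg.Agent.S1289

open Subgroup Cfsg.Agent.Helper22

/-- Let K be a p-component of the finite group X. Then K is subnormal in X, perfect, of order divisible by p, and any perfect subnormal subgroup of X contained in K whose order is divisible by p equals K. -/
theorem result {X : Type*} [Group X] [Finite X] (p : ℕ) [Fact p.Prime] (K : Subgroup X) (hK : Cfsg.IsPComponent p K) : K.IsSubnormal ∧ ⁅K, K⁆ = K ∧ p ∣ Nat.card ↥K ∧ ∀ H : Subgroup X, H ≤ K → H.IsSubnormal → ⁅H, H⁆ = H → p ∣ Nat.card ↥H → H = K := by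
  obtain ⟨hKsn, hKbar, hmin⟩ := hK
  have hp : p.Prime := Fact.out
  have hperfbar := quasisimple_commutator_eq hKbar.2
  refine ⟨hKsn, ?_, ?_, ?_⟩
  · -- perfect
    apply hmin
    · refine IsSubnormal.trans (Subgroup.commutator_le_self K) ?_ hKsn
      exact Normal.isSubnormal ((normal_subgroupOf_iff_le_normalizer
        (Subgroup.commutator_le_self K)).mpr (normalizer_commutator_ge_left K K))
    · exact Subgroup.commutator_le_self K
    · rw [map_commutator, hperfbar]
  · -- order divisible by p
    by_contra hnd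
    have hcop : (Nat.card K).Coprime p := ((Nat.Prime.coprime_iff_not_dvd hp).mpr hnd).symm
    have hle := le_pPrimeCore_of_isSubnormal p hKsn hcop
    have hbot : K.map (QuotientGroup.mk' (Cfsg.pPrimeCore p X)) = ⊥ := by
      rw [Subgroup.map_eq_bot_iff, QuotientGroup.ker_mk']
      exact hle
    exact quasisimple_ne_bot hKbar.2 hbot
  · intro H hHK hHsn hHperf hpH
    apply hmin H hHsn hHK
    have hHbar : (H.map (QuotientGroup.mk' (Cfsg.pPrimeCore p X))).IsSubnormal :=
      hHsn.map (QuotientGroup.mk'_surjective _)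
    rcases component_le_or_commutator_eq_bot hKbar hHbar with h | h
    · exact le_antisymm (Subgroup.map_mono hHK) h
    · exfalso
      have h1 : ⁅H.map (QuotientGroup.mk' (Cfsg.pPrimeCore p X)),
          H.map (QuotientGroup.mk' (Cfsg.pPrimeCore p X))⁆ = ⊥ := by
        rw [eq_bot_iff, ← h]
        exact commutator_mono (Subgroup.map_mono hHK) le_rfl
      rw [← map_commutator, hHperf, Subgroup.map_eq_bot_iff, QuotientGroup.ker_mk'] at h1
      have h2 : Nat.card H ∣ Nat.card (Cfsg.pPrimeCore p X) := Subgroup.card_dvd_of_le h1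
      have h3 := card_pPrimeCore_coprime p X
      have h4 : p ∣ Nat.card (Cfsg.pPrimeCore p X) := hpH.trans h2
      have h5 : p ∣ Nat.gcd (Nat.card (Cfsg.pPrimeCore p X)) p := Nat.dvd_gcd h4 dvd_rfl
      rw [h3] at h5
      exact hp.one_lt.ne' (Nat.dvd_one.mp h5)

end Cfsg.Agent.S1289
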