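import Cfsg.Statements.S1297
import Cfsg.Agent.Helper31.LBalance8

set_option autoImplicit false
open Cfsg

namespace Cfsg.Agent.S1297

/-- Let G be finite. Suppose that for every involution x, writing C = C_G(x), every component K of C / O(C) has K / Z(K) locally balanced. Then G is balanced. -/
theorem result {G : Type*} [Group G] [Finite G] (h : ∀ x : G, orderOf x = 2 → ∀ K : Subgroup (↥(Subgroup.centralizer ({x} : Set G)) ⧸ Cfsg.oddCore ↥(Subgroup.centralizer ({x} : Set G))), Cfsg.IsComponent K → Cfsg.IsLocallyBalanced (↥K ⧸ Subgroup.center ↥K)) : Cfsg.IsBalanced G := by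
  have key : ∀ x y : G, orderOf x = 2 → orderOf y = 2 → x * y = y * x →
      Cfsg.centralizerPPrimeCore 2 x ⊓ Subgroup.centralizer {y} ≤
        Cfsg.centralizerPPrimeCore 2 y := by
    intro x y hx hy hxy d hd
    obtain ⟨hd1, hd2⟩ := Subgroup.mem_inf.1 hd
    have hA : Cfsg.IsElementaryAbelian 2 (Subgroup.zpowers x) := by
      refine ⟨inferInstance, ?_⟩
      intro a ha
      obtain ⟨i, rfl⟩ := Subgroup.mem_zpowers_iff.1 ha
      have hx2 : x ^ 2 = 1 := by
        have h2 := pow_orderOf_eq_one x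
        rwa [hx] at h2
      rw [← zpow_natCast, ← zpow_mul, mul_comm, zpow_mul, zpow_natCast, hx2, one_zpow]
    have hAC : Subgroup.zpowers x ≤ Subgroup.centralizer ({y} : Set G) := by
      rw [Subgroup.zpowers_le]
      exact Subgroup.mem_centralizer_singleton_iff.2 hxy
    have hcard : 2 ^ 1 ≤ Nat.card ↥(Subgroup.zpowers x) := by
      rw [Nat.card_zpowers, hx, pow_one]
    have hdΔ : d ∈ Cfsg.signalizerDelta 2 (Subgroup.zpowers x) := by
      rw [Cfsg.Agent.Helper31.mem_signalizerDelta_iff]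
      intro a ha ha1
      obtain ⟨i, rfl⟩ := Subgroup.mem_zpowers_iff.1 ha
      have e1 : x ^ i = x ^ (i % 2) := by
        have h2 := zpow_mod_orderOf x i
        rw [hx] at h2
        exact h2.symm
      rcases Int.emod_two_eq_zero_or_one i with h0 | h0
      · exfalso
        apply ha1
        rw [e1, h0, zpow_zero]
      · rw [e1, h0, zpow_one]
        exact hd1
    have hOX : Cfsg.pPrimeCore 2 (↥(Subgroup.centralizer ({y} : Set G)) ⧸
        Cfsg.pPrimeCore 2 ↥(Subgroup.centralizer ({y} : Set G))) = ⊥ :=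
      Cfsg.Agent.Helper34.pPrimeCore_quotient_eq_bot 2 _
    have h1 := Cfsg.Agent.Helper31.mem_pPrimeCore_of_mem_signalizerDelta_of (p := 2)
      (Subgroup.centralizer ({y} : Set G)) hA hAC (k := 1) hcard
      (fun B₀ hB₀ hB₀c =>
        Cfsg.Agent.Helper31.signalizerDelta_eq_bot_of_locallyBalanced_center hOX hB₀
          (Cfsg.Agent.Helper31.exists_ne_one_of_card_eq_pow le_rfl hB₀c) (h y hy))
      (d := ⟨d, hd2⟩) hdΔ
    exact ⟨⟨d, hd2⟩, h1, rfl⟩
  intro x y hx hy hxy
  apply le_antisymm
  · exact le_inf (key x y hx hy hxy)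
      (inf_le_left.trans (Cfsg.Agent.Helper31.centralizerPPrimeCore_le 2 x))
  · exact le_inf (key y x hy hx hxy.symm)
      (inf_le_left.trans (Cfsg.Agent.Helper31.centralizerPPrimeCore_le 2 y))

end Cfsg.Agent.S1297
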