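import Cfsg.Statements.S1298
import Cfsg.Agent.Helper31.LBalance8

set_option autoImplicit false
open Cfsg

namespace Cfsg.Agent.S1298

/-- Let G be finite and k ≥ 1. Suppose that for every x of order p, writing C = C_G(x), every component K of C / O_{p'}(C) has K / Z(K) locally k-balanced for p. Then G is k-balanced for p. -/
theorem result {G : Type*} [Group G] [Finite G] (p k : ℕ) [Fact p.Prime] (hk : 1 ≤ k) (h : ∀ x : G, orderOf x = p → ∀ K : Subgroup (↥(Subgroup.centralizer ({x} : Set G)) ⧸ Cfsg.pPrimeCore p ↥(Subgroup.centralizer ({x} : Set G))), Cfsg.IsComponent K → Cfsg.IsLocallyKBalanced p k (↥K ⧸ Subgroup.center ↥K)) : Cfsg.IsKBalanced p k G := by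
  intro A hA hcard b hb hAb d hd
  obtain ⟨hd1, hd2⟩ := Subgroup.mem_inf.1 hd
  have hAC : A ≤ Subgroup.centralizer ({b} : Set G) :=
    fun a ha => Subgroup.mem_centralizer_singleton_iff.2 (hAb a ha)
  have hOX : Cfsg.pPrimeCore p (↥(Subgroup.centralizer ({b} : Set G)) ⧸
      Cfsg.pPrimeCore p ↥(Subgroup.centralizer ({b} : Set G))) = ⊥ :=
    Cfsg.Agent.Helper34.pPrimeCore_quotient_eq_bot p _
  have h1 := Cfsg.Agent.Helper31.mem_pPrimeCore_of_mem_signalizerDelta_of
    (Subgroup.centralizer ({b} : Set G)) hA hAC (k := k) (le_of_eq hcard.symm)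
    (fun B₀ hB₀ hB₀c =>
      Cfsg.Agent.Helper31.signalizerDelta_eq_bot_of_locallyKBalanced_center hOX hB₀ hk hB₀c
        (h b hb))
    (d := ⟨d, hd2⟩) hd1
  exact ⟨⟨d, hd2⟩, h1, rfl⟩

end Cfsg.Agent.S1298
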