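-- Statement S1299: the k-balanced functor is a signalizer functor (solvable cores).
import Cfsg.Statements.S1299
import Cfsg.Agent.Helper22.Closed
import Cfsg.Agent.Helper31.Signalizer

set_option autoImplicit false
open Cfsg

namespace Cfsg.Agent.S1299

open Subgroup Cfsg.Agent.Helper22

variable {G : Type*} [Group G]

/-- A subgroup of an elementary abelian `p`-group has a complement. -/
theorem exists_complement [Finite G] {p : ℕ} [Fact p.Prime] {A : Subgroup G}
    (hA : IsElementaryAbelian p A) {T : Subgroup G} (hT : T ≤ A) :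
    ∃ A₁ : Subgroup G, A₁ ≤ A ∧ T ⊓ A₁ = ⊥ ∧ T ⊔ A₁ = A := by
  have hp : p.Prime := Fact.out
  obtain ⟨A₁, ⟨hA₁, hTA₁⟩, hmax⟩ := Set.exists_max_image
    {B : Subgroup G | B ≤ A ∧ T ⊓ B = ⊥} (fun B => Nat.card B) (Set.toFinite _)
    ⟨⊥, bot_le, inf_bot_eq _⟩
  refine ⟨A₁, hA₁, hTA₁, ?_⟩
  by_contra hne
  have hlt : T ⊔ A₁ < A := lt_of_le_of_ne (sup_le hT hA₁) hne
  obtain ⟨x, hxA, hx⟩ := SetLike.exists_of_lt hlt
  have hx1 : x ≠ 1 := fun h => hx (by rw [h]; exact one_mem _)
  have hxp : x ^ p = 1 := hA.2 x hxA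
  have hnorm : A₁ ≤ normalizer ((zpowers x : Subgroup G) : Set G) := by
    intro a ha
    apply centralizer_le_normalizer
    rw [mem_centralizer_iff]
    intro y hy
    exact IsElementaryAbelian.comm' hA ((zpowers_le.mpr hxA) hy) (hA₁ ha)
  have hbot : T ⊓ (A₁ ⊔ zpowers x) = ⊥ := by
    rw [eq_bot_iff]
    intro y hy
    obtain ⟨hyT, hy2⟩ := mem_inf.mp hy
    obtain ⟨a₁, ha₁, z, hz, rfl⟩ := exists_mul_of_mem_sup' hnorm hy2
    by_cases hz1 : z = 1
    · rw [hz1, mul_one] at hyT ⊢
      have h0 : a₁ ∈ T ⊓ A₁ := ⟨hyT, ha₁⟩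
      rw [hTA₁] at h0
      exact h0
    · exfalso
      apply hx
      have hzTA : z ∈ T ⊔ A₁ := by
        have e : z = a₁⁻¹ * (a₁ * z) := by group
        rw [e]
        exact mul_mem (mem_sup_right (inv_mem ha₁)) (mem_sup_left hyT)
      obtain ⟨n, rfl⟩ := (Submonoid.mem_powers_iff _ _).mp (mem_powers_iff_mem_zpowers.mpr hz)
      have hn : ¬ p ∣ n := by
        rintro ⟨m, rfl⟩
        apply hz1
        rw [pow_mul, hxp, one_pow]
      have hcop : n.Coprime (orderOf x) := by
        rw [orderOf_eq_prime hxp hx1]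
        exact ((Nat.Prime.coprime_iff_not_dvd hp).mpr hn).symm
      obtain ⟨m, hm⟩ := exists_pow_eq_self_of_coprime hcop
      rw [← hm]
      exact pow_mem hzTA m
  have hle : A₁ ⊔ zpowers x ≤ A := sup_le hA₁ (zpowers_le.mpr hxA)
  have h1 := hmax (A₁ ⊔ zpowers x) ⟨hle, hbot⟩
  have h2 : A₁ < A₁ ⊔ zpowers x := by
    refine lt_of_le_of_ne le_sup_left ?_
    intro heq
    apply hx
    apply mem_sup_right
    rw [heq]
    exact mem_sup_right (mem_zpowers x)
  have h3 := card_lt_of_lt h2
  omega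

/-- A `p`-group of order at least `p ^ k` has a subgroup of order `p ^ k`. -/
theorem exists_le_card_eq [Finite G] {p : ℕ} [Fact p.Prime] {F : Subgroup G} (hF : IsPGroup p F)
    {k : ℕ} (hk : p ^ k ≤ Nat.card F) : ∃ D ≤ F, Nat.card D = p ^ k := by
  have hp : p.Prime := Fact.out
  obtain ⟨j, hj⟩ := hF.exists_card_eq
  have hkj : k ≤ j := by
    rw [hj] at hk
    exact (Nat.pow_le_pow_iff_right hp.one_lt).mp hk
  obtain ⟨K, hK⟩ := Sylow.exists_subgroup_card_pow_prime p (G := ↥F) (n := k)
    (by rw [hj]; exact pow_dvd_pow p hkj)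
  exact ⟨K.map F.subtype, map_subtype_le K, by
    rw [card_map_of_injective F.subtype_injective, hK]⟩

section Main

variable [Finite G] {p k : ℕ} [Fact p.Prime] {A : Subgroup G}

/-- `Θ(T)`: the subgroup generated by the `Δ(F)`, `T ≤ F ≤ A`, `|F| ≥ p ^ k`. -/
def Th (p k : ℕ) (A T : Subgroup G) : Subgroup G :=
  ⨆ F : {F : Subgroup G // T ≤ F ∧ F ≤ A ∧ p ^ k ≤ Nat.card ↥F},
    signalizerDelta p (F : Subgroup G)

omit [Finite G] [Fact p.Prime] in
theorem delta_le_Th {T F : Subgroup G} (hTF : T ≤ F) (hFA : F ≤ A) (hF : p ^ k ≤ Nat.card F) :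
    signalizerDelta p F ≤ Th p k A T :=
  le_iSup (fun F : {F : Subgroup G // T ≤ F ∧ F ≤ A ∧ p ^ k ≤ Nat.card ↥F} =>
    signalizerDelta p (F : Subgroup G)) ⟨F, hTF, hFA, hF⟩

omit [Finite G] [Fact p.Prime] in
theorem Th_anti {T₁ T₂ : Subgroup G} (h : T₁ ≤ T₂) : Th p k A T₂ ≤ Th p k A T₁ := by
  apply iSup_le
  rintro ⟨F, hTF, hFA, hF⟩
  exact delta_le_Th (h.trans hTF) hFA hF

omit [Finite G] [Fact p.Prime] in
theorem Th_le_core {T : Subgroup G} {t : G} (ht : t ∈ T) (ht1 : t ≠ 1) :
    Th p k A T ≤ centralizerPPrimeCore p t := by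
  apply iSup_le
  rintro ⟨F, hTF, hFA, hF⟩
  exact Cfsg.Agent.Helper31.signalizerDelta_le_of_mem (hTF ht) ht1

omit [Finite G] [Fact p.Prime] in
theorem Th_conj (hA : IsElementaryAbelian p A) {T : Subgroup G} {b : G} (hb : b ∈ A) :
    ∀ x ∈ Th p k A T, b * x * b⁻¹ ∈ Th p k A T := by
  apply conj_mem_iSup
  rintro ⟨F, hTF, hFA, hF⟩ x hx
  exact delta_le_Th hTF hFA hF (Cfsg.Agent.Helper31.conj_mem_signalizerDelta
    (fun a ha => IsElementaryAbelian.comm' hA hb (hFA ha)) hx)

omit [Finite G] [Fact p.Prime] in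
theorem Th_eq_delta {T : Subgroup G} (hT : T ≤ A) (hTk : p ^ k ≤ Nat.card T) :
    Th p k A T = signalizerDelta p T := by
  apply le_antisymm
  · apply iSup_le
    rintro ⟨F, hTF, hFA, hF⟩
    exact Cfsg.Agent.Helper31.signalizerDelta_anti hTF
  · exact delta_le_Th le_rfl hT hTk

omit [Finite G] [Fact p.Prime] in
theorem delta_le_centralizer (F : Subgroup G) :
    signalizerDelta p F ≤ centralizer (F : Set G) := by
  intro x hx
  rw [mem_centralizer_iff]
  intro f hf
  by_cases hf1 : f = 1
  · rw [hf1]; simp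
  · have h1 := Cfsg.Agent.Helper31.centralizerPPrimeCore_le p f
      (Cfsg.Agent.Helper31.signalizerDelta_le_of_mem hf hf1 hx)
    exact (mem_centralizer_singleton_iff.mp h1).symm

theorem delta_inf_le_core (hA : IsElementaryAbelian p A) (hbal : IsKBalanced p k G)
    {F : Subgroup G} (hFA : F ≤ A) (hF : p ^ k ≤ Nat.card F) {e : G} (he : e ∈ A)
    (he1 : e ≠ 1) :
    signalizerDelta p F ⊓ centralizer {e} ≤ centralizerPPrimeCore p e := by
  obtain ⟨D, hDF, hD⟩ := exists_le_card_eq
    (IsElementaryAbelian.isPGroup' (isElementaryAbelian_of_le hA hFA)) hF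
  refine le_trans (inf_le_inf_right _ (Cfsg.Agent.Helper31.signalizerDelta_anti hDF)) ?_
  exact hbal D (isElementaryAbelian_of_le hA (hDF.trans hFA)) hD e
    (orderOf_eq_prime (hA.2 e he) he1)
    (fun a ha => IsElementaryAbelian.comm' hA (hFA (hDF ha)) he)

theorem delta_inf_centralizer_le (hA : IsElementaryAbelian p A) (hbal : IsKBalanced p k G)
    {F E : Subgroup G} (hFA : F ≤ A) (hF : p ^ k ≤ Nat.card F) (hEA : E ≤ A) :
    signalizerDelta p F ⊓ centralizer (E : Set G) ≤ signalizerDelta p (F ⊔ E) := by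
  intro x hx
  rw [Cfsg.Agent.Helper31.mem_signalizerDelta_iff]
  intro f' hf' hf'1
  apply delta_inf_le_core hA hbal hFA hF (sup_le hFA hEA hf') hf'1
  refine ⟨hx.1, ?_⟩
  have h1 : F ⊔ E ≤ centralizer ({x} : Set G) := by
    apply sup_le
    · intro f hf
      rw [mem_centralizer_singleton_iff]
      exact mem_centralizer_iff.mp (delta_le_centralizer F hx.1) f hf
    · intro e he
      rw [mem_centralizer_singleton_iff]
      exact mem_centralizer_iff.mp hx.2 e he
  have h2 := h1 hf'
  show x ∈ centralizer {f'}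
  rw [mem_centralizer_singleton_iff] at h2 ⊢
  exact h2.symm

omit [Finite G] [Fact p.Prime] in
theorem centralizer_zpowers_eq (a : G) :
    centralizer ((zpowers a : Subgroup G) : Set G) = centralizer ({a} : Set G) := by
  rw [zpowers_eq_closure, centralizer_closure]

theorem theta_eq_Th (hA : IsElementaryAbelian p A) (hbal : IsKBalanced p k G) {a : G}
    (ha : a ∈ A) (ha1 : a ≠ 1) :
    (⨆ D : {D : Subgroup G // D ≤ A ∧ Nat.card ↥D = p ^ k},
      signalizerDelta p (D : Subgroup G) ⊓ centralizer {a}) = Th p k A (zpowers a) := by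
  have hza : zpowers a ≤ A := zpowers_le.mpr ha
  apply le_antisymm
  · apply iSup_le
    rintro ⟨D, hDA, hD⟩
    show signalizerDelta p D ⊓ centralizer {a} ≤ _
    rw [← centralizer_zpowers_eq]
    refine (delta_inf_centralizer_le hA hbal hDA hD.ge hza).trans ?_
    refine delta_le_Th le_sup_right (sup_le hDA hza) ?_
    rw [← hD]
    exact Subgroup.card_le_of_le le_sup_left
  · apply iSup_le
    rintro ⟨F, hTF, hFA, hF⟩
    show signalizerDelta p F ≤ _
    obtain ⟨D, hDF, hD⟩ := exists_le_card_eq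
      (IsElementaryAbelian.isPGroup' (isElementaryAbelian_of_le hA hFA)) hF
    refine le_trans ?_ (le_iSup (fun D : {D : Subgroup G // D ≤ A ∧ Nat.card ↥D = p ^ k} =>
      signalizerDelta p (D : Subgroup G) ⊓ centralizer {a}) ⟨D, hDF.trans hFA, hD⟩)
    exact le_inf (Cfsg.Agent.Helper31.signalizerDelta_anti hDF)
      ((Cfsg.Agent.Helper31.signalizerDelta_le_of_mem (hTF (mem_zpowers a)) ha1).trans
        (Cfsg.Agent.Helper31.centralizerPPrimeCore_le p a))

theorem key_step (hbal : IsKBalanced p k G) (hA : IsElementaryAbelian p A)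
    (hAk : p ^ (k + 2) ≤ Nat.card A)
    (hsolv : ∀ a ∈ A, a ≠ 1 → Group.IsSolvable ↥(centralizerPPrimeCore p a))
    {T : Subgroup G} (hT : T ≤ A) (hT1 : T ≠ ⊥)
    (ih : ∀ T' : Subgroup G, T' ≤ A → T < T' → ∀ b ∈ A, b ≠ 1 →
      Th p k A T' ⊓ centralizer {b} ≤ Th p k A (T' ⊔ zpowers b)) :
    ∀ b ∈ A, b ≠ 1 → Th p k A T ⊓ centralizer {b} ≤ Th p k A (T ⊔ zpowers b) := by
  have hp : p.Prime := Fact.out
  intro b hb hb1
  have hzb : zpowers b ≤ A := zpowers_le.mpr hb
  by_cases hTk : p ^ k ≤ Nat.card T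
  · rw [Th_eq_delta hT hTk,
      Th_eq_delta (sup_le hT hzb) (hTk.trans (Subgroup.card_le_of_le le_sup_left)),
      ← centralizer_zpowers_eq]
    exact delta_inf_centralizer_le hA hbal hT hTk hzb
  · push Not at hTk
    obtain ⟨A₁, hA₁, hTA₁, hsup⟩ := exists_complement hA hT
    have hA₁el := isElementaryAbelian_of_le hA hA₁
    have hnormTA : T ≤ normalizer ((A₁ : Subgroup G) : Set G) := by
      intro t ht
      apply centralizer_le_normalizer
      rw [mem_centralizer_iff]
      intro a ha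
      exact IsElementaryAbelian.comm' hA (hA₁ ha) (hT ht)
    have hA₁3 : p ^ 3 ≤ Nat.card A₁ := by
      have h1 : Nat.card A ≤ Nat.card T * Nat.card A₁ := by
        rw [← hsup]
        exact card_sup_le_of_le_normalizer T A₁ (by
          intro a ha
          apply centralizer_le_normalizer
          rw [mem_centralizer_iff]
          intro t ht
          exact IsElementaryAbelian.comm' hA (hT ht) (hA₁ ha))
      obtain ⟨j, hj⟩ :=
        (IsElementaryAbelian.isPGroup' (isElementaryAbelian_of_le hA hT)).exists_card_eq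
      obtain ⟨i, hi⟩ := (IsElementaryAbelian.isPGroup' hA₁el).exists_card_eq
      rw [hj] at hTk h1
      rw [hi] at h1 ⊢
      have hjk : j < k := (Nat.pow_lt_pow_iff_right hp.one_lt).mp hTk
      have h2 : p ^ (k + 2) ≤ p ^ (j + i) := by rw [pow_add p j i]; exact hAk.trans h1
      have h3 : k + 2 ≤ j + i := (Nat.pow_le_pow_iff_right hp.one_lt).mp h2
      exact Nat.pow_le_pow_right hp.pos (by omega)
    obtain ⟨t, ht, ht1⟩ : ∃ t ∈ T, t ≠ 1 := by
      by_contra hcon
      push Not at hcon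
      exact hT1 (eq_bot_iff.mpr (fun y hy => mem_bot.mpr (hcon y hy)))
    have hφ : IsSolvableSignalizerFunctor p A₁ (fun c => Th p k A (T ⊔ zpowers c)) := by
      refine ⟨⟨?_, ?_, ?_, ?_⟩, ?_⟩
      · intro c hc hc1
        exact (Th_le_core (mem_sup_right (mem_zpowers c)) hc1).trans
          (Cfsg.Agent.Helper31.centralizerPPrimeCore_le p c)
      · intro c hc hc1 h
        have h0 := Cfsg.Agent.Helper31.card_centralizerPPrimeCore_coprime (G := G) p c
        exact (Nat.Prime.coprime_iff_not_dvd hp).mp h0.symm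
          (h.trans (Subgroup.card_dvd_of_le (Th_le_core (mem_sup_right (mem_zpowers c)) hc1)))
      · intro c hc hc1 b' hb' x hx
        exact Th_conj hA (hA₁ hb') x hx
      · intro c hc hc1 b' hb' hb'1
        have hcT : c ∉ T := fun h => hc1 (by
          have h0 : c ∈ T ⊓ A₁ := ⟨h, hc⟩
          rw [hTA₁] at h0
          exact h0)
        have hlt : T < T ⊔ zpowers c := lt_of_le_of_ne le_sup_left
          (fun heq => hcT (by rw [heq]; exact mem_sup_right (mem_zpowers c)))
        refine (ih (T ⊔ zpowers c) (sup_le hT (zpowers_le.mpr (hA₁ hc))) hlt b' (hA₁ hb')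
          hb'1).trans ?_
        exact Th_anti (sup_le (le_sup_left.trans le_sup_left) le_sup_right)
      · intro c hc hc1
        exact Cfsg.Agent.Helper35.isSolvable_of_le
          (Th_le_core (mem_sup_right (mem_zpowers c)) hc1) (hsolv c (hA₁ hc) hc1)
    have hcl : signalizerClosure A₁ (fun c => Th p k A (T ⊔ zpowers c)) = Th p k A T := by
      apply le_antisymm
      · apply iSup_le
        rintro ⟨c, hc, hc1⟩
        exact Th_anti le_sup_left
      · apply iSup_le
        rintro ⟨F, hTF, hFA, hF⟩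
        show signalizerDelta p F ≤ _
        have hne : ∃ c ∈ F ⊓ A₁, c ≠ 1 := by
          by_contra hcon
          push Not at hcon
          have hFT : F ≤ T := by
            intro f hf
            have hfs : f ∈ T ⊔ A₁ := by rw [hsup]; exact hFA hf
            obtain ⟨t₀, ht₀, a₀, ha₀, rfl⟩ := exists_mul_of_mem_sup' hnormTA hfs
            have ha₀F : a₀ ∈ F := by
              have h := mul_mem (inv_mem (hTF ht₀)) hf
              rwa [inv_mul_cancel_left] at h
            rw [hcon a₀ ⟨ha₀F, ha₀⟩, mul_one]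
            exact ht₀
          have := Subgroup.card_le_of_le hFT
          omega
        obtain ⟨c, hc, hc1⟩ := hne
        refine le_trans ?_ (le_iSup (fun c : {c : G // c ∈ A₁ ∧ c ≠ 1} =>
          Th p k A (T ⊔ zpowers (c : G))) ⟨c, hc.2, hc1⟩)
        exact delta_le_Th (sup_le hTF (zpowers_le.mpr hc.1)) hFA hF
    have hWp : ¬ p ∣ Nat.card ↥(signalizerClosure A₁ (fun c => Th p k A (T ⊔ zpowers c))) := by
      rw [hcl]
      intro h
      have h0 := Cfsg.Agent.Helper31.card_centralizerPPrimeCore_coprime (G := G) p t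
      exact (Nat.Prime.coprime_iff_not_dvd hp).mp h0.symm
        (h.trans (Subgroup.card_dvd_of_le (Th_le_core ht ht1)))
    have hWs : Group.IsSolvable
        ↥(signalizerClosure A₁ (fun c => Th p k A (T ⊔ zpowers c))) := by
      rw [hcl]
      exact Cfsg.Agent.Helper35.isSolvable_of_le (Th_le_core ht ht1) (hsolv t (hT ht) ht1)
    have hfam := closure_mem_family hA₁el hA₁3 hφ hWp hWs
    rw [hcl] at hfam
    have hbsup : b ∈ T ⊔ A₁ := by rw [hsup]; exact hb
    obtain ⟨t', ht', c, hc, rfl⟩ := exists_mul_of_mem_sup' hnormTA hbsup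
    by_cases hc1 : c = 1
    · rw [hc1, mul_one]
      have h0 : T ⊔ zpowers t' = T := sup_eq_left.mpr (zpowers_le.mpr ht')
      rw [h0]
      exact inf_le_left
    · have hzeq : T ⊔ zpowers (t' * c) = T ⊔ zpowers c := by
        apply le_antisymm
        · apply sup_le le_sup_left
          rw [zpowers_le]
          exact mul_mem (mem_sup_left ht') (mem_sup_right (mem_zpowers c))
        · apply sup_le le_sup_left
          rw [zpowers_le]
          have h : t'⁻¹ * (t' * c) ∈ T ⊔ zpowers (t' * c) :=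
            mul_mem (mem_sup_left (inv_mem ht')) (mem_sup_right (mem_zpowers (t' * c)))
          rwa [inv_mul_cancel_left] at h
      rw [hzeq]
      intro x hx
      apply hfam.2.2.2 c hc hc1
      refine ⟨hx.1, ?_⟩
      have hxt : x * t' = t' * x := by
        by_cases ht'1 : t' = 1
        · rw [ht'1]; simp
        · have h0 := Cfsg.Agent.Helper31.centralizerPPrimeCore_le p t'
            (Th_le_core ht' ht'1 hx.1)
          exact mem_centralizer_singleton_iff.mp h0
      have hxb : x * (t' * c) = (t' * c) * x := mem_centralizer_singleton_iff.mp hx.2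
      show x ∈ centralizer {c}
      rw [mem_centralizer_singleton_iff]
      have h0 : t' * (x * c) = t' * (c * x) := by
        calc t' * (x * c) = (t' * x) * c := by rw [mul_assoc]
          _ = (x * t') * c := by rw [hxt]
          _ = x * (t' * c) := by rw [mul_assoc]
          _ = (t' * c) * x := hxb
          _ = t' * (c * x) := by rw [mul_assoc]
      exact mul_left_cancel h0

theorem main_claim (hbal : IsKBalanced p k G) (hA : IsElementaryAbelian p A)
    (hAk : p ^ (k + 2) ≤ Nat.card A)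
    (hsolv : ∀ a ∈ A, a ≠ 1 → Group.IsSolvable ↥(centralizerPPrimeCore p a)) :
    ∀ (m : ℕ) (T : Subgroup G), T ≤ A → T ≠ ⊥ → Nat.card A - Nat.card T ≤ m →
      ∀ b ∈ A, b ≠ 1 → Th p k A T ⊓ centralizer {b} ≤ Th p k A (T ⊔ zpowers b) := by
  intro m
  induction m with
  | zero =>
    intro T hT hT1 hm
    apply key_step hbal hA hAk hsolv hT hT1
    intro T' hT' hlt
    have h1 := card_lt_of_lt hlt
    have h2 := Subgroup.card_le_of_le hT'
    omega
  | succ m ih =>
    intro T hT hT1 hm
    apply key_step hbal hA hAk hsolv hT hT1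
    intro T' hT' hlt
    have h1 := card_lt_of_lt hlt
    have h2 := Subgroup.card_le_of_le hT'
    exact ih T' hT' (fun h => not_lt_bot (h ▸ hlt)) (by omega)

end Main

/-- Let G be finite and k-balanced for the prime p (k ≥ 1), A an elementary abelian p-subgroup of order at least p^(k+2) such that O_{p'}(C_G(a)) is solvable for every non-identity a ∈ A. For a ∈ A put θ a = the subgroup generated by the Δ_G(D) ∩ C_G(a) over the subgroups D ≤ A of order p^k. Then θ is an A-signalizer functor. -/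
theorem result {G : Type*} [Group G] [Finite G] (p k : ℕ) [Fact p.Prime] (hk : 1 ≤ k) (hbal : Cfsg.IsKBalanced p k G) (A : Subgroup G) (hA : Cfsg.IsElementaryAbelian p A) (hAk : p ^ (k + 2) ≤ Nat.card ↥A) (hsolv : ∀ a ∈ A, a ≠ 1 → Group.IsSolvable ↥(Cfsg.centralizerPPrimeCore p a)) : Cfsg.IsSignalizerFunctor p A (fun a => ⨆ D : {D : Subgroup G // D ≤ A ∧ Nat.card ↥D = p ^ k}, Cfsg.signalizerDelta p (D : Subgroup G) ⊓ Subgroup.centralizer {a}) := by
  have hp : p.Prime := Fact.out
  have hθ := fun (a : G) (ha : a ∈ A) (ha1 : a ≠ 1) => theta_eq_Th hA hbal ha ha1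
  refine ⟨?_, ?_, ?_, ?_⟩
  · intro a ha ha1
    beta_reduce
    rw [hθ a ha ha1]
    exact (Th_le_core (mem_zpowers a) ha1).trans
      (Cfsg.Agent.Helper31.centralizerPPrimeCore_le p a)
  · intro a ha ha1
    beta_reduce
    rw [hθ a ha ha1]
    intro h
    have h0 := Cfsg.Agent.Helper31.card_centralizerPPrimeCore_coprime (G := G) p a
    exact (Nat.Prime.coprime_iff_not_dvd hp).mp h0.symm
      (h.trans (Subgroup.card_dvd_of_le (Th_le_core (mem_zpowers a) ha1)))
  · intro a ha ha1 b hb x hx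
    beta_reduce at hx ⊢
    rw [hθ a ha ha1] at hx ⊢
    exact Th_conj hA hb x hx
  · intro a ha ha1 b hb hb1
    beta_reduce
    rw [hθ a ha ha1, hθ b hb hb1]
    refine (main_claim hbal hA hAk hsolv _ (zpowers a) (zpowers_le.mpr ha)
      (by rw [Ne, zpowers_eq_bot]; exact ha1) le_rfl b hb hb1).trans ?_
    exact Th_anti le_sup_right

end Cfsg.Agent.S1299
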