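import Cfsg.Statements.S1300
import Mathlib

set_option autoImplicit false
open Cfsg

namespace Cfsg.Agent.S1300

theorem cppc_le_centralizer {G : Type*} [Group G] (p : ℕ) (x : G) :
    Cfsg.centralizerPPrimeCore p x ≤ Subgroup.centralizer {x} := by
  unfold Cfsg.centralizerPPrimeCore
  exact Subgroup.map_subtype_le _

theorem mem_zpowers_of_orderOf_two {G : Type*} [Group G] {x a : G} (hx : orderOf x = 2)
    (ha : a ∈ Subgroup.zpowers x) : a = 1 ∨ a = x := by
  obtain ⟨k, rfl⟩ := Subgroup.mem_zpowers_iff.mp ha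
  have hx2 : x ^ (2 : ℤ) = 1 := by
    have := pow_orderOf_eq_one x
    rw [hx] at this
    exact_mod_cast this
  rcases Int.emod_two_eq_zero_or_one k with h | h
  · left
    have : k = 2 * (k / 2) := by omega
    rw [this, zpow_mul, hx2, one_zpow]
  · right
    have : k = 2 * (k / 2) + 1 := by omega
    rw [this, zpow_add, zpow_mul, hx2, one_zpow, one_mul, zpow_one]

theorem half {G : Type*} [Group G] (h : Cfsg.IsKBalanced 2 1 G) (x y : G)
    (hx : orderOf x = 2) (hy : orderOf y = 2) (hxy : x * y = y * x) :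
    Cfsg.centralizerPPrimeCore 2 x ⊓ Subgroup.centralizer {y} ≤
      Cfsg.centralizerPPrimeCore 2 y ⊓ Subgroup.centralizer {x} := by
  have hel : Cfsg.IsElementaryAbelian 2 (Subgroup.zpowers x) := by
    refine ⟨inferInstance, ?_⟩
    intro a ha
    rcases mem_zpowers_of_orderOf_two hx ha with rfl | rfl
    · simp
    · rw [← hx]; exact pow_orderOf_eq_one a
  have hcard : Nat.card (Subgroup.zpowers x) = 2 ^ 1 := by
    rw [Nat.card_zpowers, hx]; rfl
  have hcomm : ∀ a ∈ Subgroup.zpowers x, a * y = y * a := by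
    intro a ha
    rcases mem_zpowers_of_orderOf_two hx ha with rfl | rfl
    · simp
    · exact hxy
  have key := h (Subgroup.zpowers x) hel hcard y hy hcomm
  have hΔ : Cfsg.centralizerPPrimeCore 2 x ≤ Cfsg.signalizerDelta 2 (Subgroup.zpowers x) := by
    unfold Cfsg.signalizerDelta
    refine le_iInf ?_
    rintro ⟨a, ha, ha1⟩
    rcases mem_zpowers_of_orderOf_two hx ha with rfl | rfl
    · exact absurd rfl ha1
    · exact le_rfl
  refine le_inf ?_ ?_
  · exact le_trans (inf_le_inf_right _ hΔ) key
  · exact le_trans inf_le_left (cppc_le_centralizer 2 x)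

/-- A finite group is balanced if and only if it is 1-balanced for the prime 2. -/
theorem result {G : Type*} [Group G] [Finite G] : Cfsg.IsBalanced G ↔ Cfsg.IsKBalanced 2 1 G := by
  constructor
  · intro h A hA hcard b hb hcomm
    -- `A` has order 2, so it has a non-identity element `x`, of order 2
    have hnt : Nontrivial A := by
      have : 1 < Nat.card A := by rw [hcard]; norm_num
      exact (Finite.one_lt_card_iff_nontrivial).mp this
    obtain ⟨⟨x, hxA⟩, hx1⟩ := exists_ne (1 : A)
    have hx1' : x ≠ 1 := fun h => hx1 (Subtype.ext h)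
    have hx2 : x ^ 2 = 1 := hA.2 x hxA
    have hox : orderOf x = 2 := orderOf_eq_prime hx2 hx1'
    have hxb : x * b = b * x := hcomm x hxA
    have hΔ : Cfsg.signalizerDelta 2 A ≤ Cfsg.centralizerPPrimeCore 2 x := by
      unfold Cfsg.signalizerDelta
      exact iInf_le (fun a : {a : G // a ∈ A ∧ a ≠ 1} => Cfsg.centralizerPPrimeCore 2 (a : G))
        ⟨x, hxA, hx1'⟩
    have e := h x b hox hb hxb
    calc Cfsg.signalizerDelta 2 A ⊓ Subgroup.centralizer {b}
        ≤ Cfsg.centralizerPPrimeCore 2 x ⊓ Subgroup.centralizer {b} := inf_le_inf_right _ hΔ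
      _ = Cfsg.centralizerPPrimeCore 2 b ⊓ Subgroup.centralizer {x} := e
      _ ≤ Cfsg.centralizerPPrimeCore 2 b := inf_le_left
  · intro h x y hx hy hxy
    exact le_antisymm (half h x y hx hy hxy) (half h y x hy hx hxy.symm)

end Cfsg.Agent.S1300
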