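import Cfsg.Statements.S1301
import Mathlib
import Cfsg.Agent.Helper54.LBMain

set_option autoImplicit false
open Cfsg

namespace Cfsg.Agent.S1301

/-- L-balance: for a finite group X and a 2-subgroup T ≤ X, L_{2'}(C_X(T)) ≤ L_{2'}(X). -/
theorem result {X : Type*} [Group X] [Finite X] (T : Subgroup X) (hT : IsPGroup 2 ↥T) : (Cfsg.pLayer 2 ↥(Subgroup.centralizer (T : Set X))).map (Subgroup.centralizer (T : Set X)).subtype ≤ Cfsg.pLayer 2 X := by
  have hp : (2 : ℕ).Prime := Nat.prime_two
  have hgoal : Cfsg.pLayerOf 2 (Subgroup.centralizer (T : Set X)) ≤ Cfsg.pLayer 2 X := by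
    apply Cfsg.Agent.Helper54.lbpc_pLayerOf_le
    intro J hJ
    have hn : ((Subgroup.centralizer (T : Set X)).subgroupOf
        (Subgroup.normalizer (T : Set X))).Normal := by
      apply Cfsg.Agent.Helper34.normal_subgroupOf_of_conj_mem
      intro k hk m hm
      rw [Subgroup.mem_centralizer_iff] at hm ⊢
      intro t ht
      have hkt : k⁻¹ * t * k ∈ T := by
        have := (Subgroup.mem_normalizer_iff.1
          ((Subgroup.normalizer (T : Set X)).inv_mem hk) t).1 ht
        simpa using this
      have := hm _ hkt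
      calc t * (k * m * k⁻¹) = k * ((k⁻¹ * t * k) * m) * k⁻¹ := by group
        _ = k * (m * (k⁻¹ * t * k)) * k⁻¹ := by rw [this]
        _ = k * m * k⁻¹ * t := by group
    have hJ' : Cfsg.IsPComponentOf 2 J (Subgroup.normalizer (T : Set X)) :=
      Cfsg.Agent.Helper54.lbpc_pcOf_of_subnormal hp hJ (Subgroup.centralizer_le_normalizer _)
        hn.isSubnormal
    exact Cfsg.Agent.Helper54.lbm_main (Nat.card X) X le_rfl T J hT hJ'
  exact hgoal

end Cfsg.Agent.S1301
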