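import Cfsg.Statements.S1303
import Mathlib

set_option autoImplicit false
open Cfsg

namespace Cfsg.Agent.S1303

open Subgroup Matrix

abbrev G23 : Type := Matrix.SpecialLinearGroup (Fin 2) (ZMod 3)

set_option maxRecDepth 100000 in
theorem pow_24 : ∀ x : G23, x ^ 24 = 1 := by decide

set_option maxRecDepth 100000 in
theorem invol_central : ∀ t : G23, t ^ 2 = 1 → t ≠ 1 → ∀ g : G23, g * t = t * g := by decide

set_option maxRecDepth 100000 in
theorem q8_mul : ∀ a b : G23, a ^ 4 = 1 → b ^ 4 = 1 → (a * b) ^ 4 = 1 := by decide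

set_option maxRecDepth 100000 in
theorem q8_self_centralizing :
    ∀ g : G23, (∀ x : G23, x ^ 4 = 1 → x * g = g * x) → g ^ 4 = 1 := by decide

set_option maxRecDepth 100000 in
theorem exists_even :
    ∀ x : G23, x ≠ 1 → x ^ 3 ≠ 1 ∨ ∃ g : G23, (x * (g * x * g⁻¹)) ^ 3 ≠ 1 := by decide

/-- A unipotent element. -/
def uElt : Matrix.SpecialLinearGroup (Fin 2) (ZMod 3) := ⟨!![1, 1; 0, 1], by decide⟩

theorem uElt_pow : uElt ^ 3 = 1 := by decide

theorem uElt_ne : uElt ≠ 1 := by decide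

/-- The quaternion subgroup. -/
def q8 : Subgroup G23 where
  carrier := {x | x ^ 4 = 1}
  one_mem' := one_pow 4
  mul_mem' := fun {a b} ha hb => q8_mul a b ha hb
  inv_mem' := fun {a} ha => by
    show a⁻¹ ^ 4 = 1
    rw [inv_pow, show a ^ 4 = 1 from ha, inv_one]

theorem q8_normal : q8.Normal := by
  constructor
  intro a ha g
  show (g * a * g⁻¹) ^ 4 = 1
  rw [conj_pow, show a ^ 4 = 1 from ha, mul_one, mul_inv_cancel]

theorem q8_isPGroup : IsPGroup 2 q8 := by
  intro x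
  refine ⟨2, ?_⟩
  apply Subtype.ext
  exact x.2

theorem even_of_pow_three_ne {y : G23} (h : y ^ 3 ≠ 1) : 2 ∣ orderOf y := by
  by_contra hodd
  have h1 : orderOf y ∣ 24 := orderOf_dvd_of_pow_eq_one (pow_24 y)
  have hcop : (orderOf y).Coprime 8 := by
    have : (orderOf y).Coprime 2 := (Nat.Prime.coprime_iff_not_dvd Nat.prime_two).mpr hodd |>.symm
    exact Nat.Coprime.pow_right 3 this
  have h2 : orderOf y ∣ 3 := by
    have h24 : (24 : ℕ) = 8 * 3 := by norm_num
    rw [h24] at h1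
    exact hcop.dvd_of_dvd_mul_left h1
  exact h (orderOf_dvd_iff_pow_eq_one.mp h2)

theorem pPrimeCore_eq_bot : Cfsg.pPrimeCore 2 G23 = ⊥ := by
  rw [eq_bot_iff]
  apply sSup_le
  rintro N ⟨hN, hcop⟩
  intro x hx
  rw [mem_bot]
  by_contra hx1
  have key : ∃ y ∈ N, y ^ 3 ≠ 1 := by
    rcases exists_even x hx1 with h | ⟨g, h⟩
    · exact ⟨x, hx, h⟩
    · exact ⟨_, N.mul_mem hx (hN.conj_mem x hx g), h⟩
  obtain ⟨y, hy, hy3⟩ := key
  have h2 : 2 ∣ Nat.card N := by
    have := orderOf_dvd_natCard (⟨y, hy⟩ : ↥N)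
    rw [Subgroup.orderOf_mk] at this
    exact (even_of_pow_three_ne hy3).trans this
  have : (2 : ℕ) ∣ 1 := by
    have h3 := Nat.dvd_gcd h2 (dvd_refl 2)
    rwa [Nat.Coprime.gcd_eq_one hcop] at h3
  omega

theorem q8_le : q8 ≤ Cfsg.pPrimePCore 2 G23 := by
  intro g hg
  unfold Cfsg.pPrimePCore
  rw [mem_comap]
  have hn := q8_normal
  have h1 : (q8.map (QuotientGroup.mk' (Cfsg.pPrimeCore 2 G23))).Normal :=
    Subgroup.Normal.map hn _ (QuotientGroup.mk'_surjective _)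
  have h2 : IsPGroup 2 (q8.map (QuotientGroup.mk' (Cfsg.pPrimeCore 2 G23))) := q8_isPGroup.map _
  have h3 : q8.map (QuotientGroup.mk' (Cfsg.pPrimeCore 2 G23)) ≤
      Cfsg.pCore 2 (G23 ⧸ Cfsg.pPrimeCore 2 G23) := le_sSup ⟨h1, h2⟩
  exact h3 (mem_map_of_mem _ hg)

/-- The group X = SL(2, 3): it is 2-constrained, O_{2'}(X) = 1, its centre A = Z(X) contains every involution of X = C_X(A), and X has a subgroup of order 3 (normalized by A) not contained in O_{2'}(X). -/
theorem result : Cfsg.IsPConstrained 2 (Matrix.SpecialLinearGroup (Fin 2) (ZMod 3)) ∧ Cfsg.pPrimeCore 2 (Matrix.SpecialLinearGroup (Fin 2) (ZMod 3)) = ⊥ ∧ (∀ t : Matrix.SpecialLinearGroup (Fin 2) (ZMod 3), orderOf t = 2 → t ∈ Subgroup.center (Matrix.SpecialLinearGroup (Fin 2) (ZMod 3))) ∧ ∃ Q : Subgroup (Matrix.SpecialLinearGroup (Fin 2) (ZMod 3)), Nat.card ↥Q = 3 ∧ ¬ (Q ≤ Cfsg.pPrimeCore 2 (Matrix.SpecialLinearGroup (Fin 2) (ZMod 3))) := by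
  refine ⟨?_, pPrimeCore_eq_bot, ?_, ?_⟩
  · intro P
    -- `q8` lies in every Sylow 2-subgroup of `O_{2',2}`
    have hQP : q8 ≤ (P : Subgroup ↥(Cfsg.pPrimePCore 2 G23)).map (Cfsg.pPrimePCore 2 G23).subtype := by
      have hn := q8_normal
      have h1 : (q8.subgroupOf (Cfsg.pPrimePCore 2 G23)).Normal := inferInstance
      have h2 : IsPGroup 2 (q8.subgroupOf (Cfsg.pPrimePCore 2 G23)) :=
        q8_isPGroup.comap_subtype
      have h3 : q8.subgroupOf (Cfsg.pPrimePCore 2 G23) ≤ P := by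
        have h4 : IsPGroup 2 ↥(q8.subgroupOf (Cfsg.pPrimePCore 2 G23) ⊔ P : Subgroup _) :=
          IsPGroup.to_sup_of_normal_left h2 P.2
        have h5 := P.3 h4 le_sup_right
        rw [← h5]
        exact le_sup_left
      intro g hg
      exact ⟨⟨g, q8_le hg⟩, h3 hg, rfl⟩
    intro g hg
    apply q8_le
    apply q8_self_centralizing
    intro x hx
    exact mem_centralizer_iff.mp hg x (hQP hx)
  · intro t ht
    rw [mem_center_iff]
    intro g
    have h1 : t ^ 2 = 1 := by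
      have h := pow_orderOf_eq_one t
      rw [ht] at h
      exact h
    have h2 : t ≠ 1 := by
      rintro rfl
      rw [orderOf_one] at ht
      omega
    exact invol_central t h1 h2 g
  · refine ⟨zpowers uElt, ?_, ?_⟩
    · rw [Nat.card_zpowers]
      exact orderOf_eq_prime uElt_pow uElt_ne
    · rw [pPrimeCore_eq_bot]
      intro h
      exact uElt_ne (mem_bot.mp (h (mem_zpowers _)))

end Cfsg.Agent.S1303
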