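import Cfsg.Statements.S1304
import Mathlib

set_option autoImplicit false
open Cfsg

namespace Cfsg.Agent.S1304

/-- the map `x ↦ α x * x⁻¹` as a homomorphism into the centre -/
noncomputable def toCenter {X : Type*} [Group X] (α : X ≃* X)
    (h : ∀ x : X, α x * x⁻¹ ∈ Subgroup.center X) : X →* Subgroup.center X where
  toFun := fun x => ⟨α x * x⁻¹, h x⟩
  map_one' := by
    apply Subtype.ext
    simp
  map_mul' := by
    intro x y
    apply Subtype.ext
    have hy := Subgroup.mem_center_iff.mp (h y)
    show α (x * y) * (x * y)⁻¹ = α x * x⁻¹ * (α y * y⁻¹)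
    rw [map_mul, mul_inv_rev]
    have : x⁻¹ * (α y * y⁻¹) = (α y * y⁻¹) * x⁻¹ := hy x⁻¹
    calc α x * α y * (y⁻¹ * x⁻¹) = α x * ((α y * y⁻¹) * x⁻¹) := by group
      _ = α x * (x⁻¹ * (α y * y⁻¹)) := by rw [this]
      _ = α x * x⁻¹ * (α y * y⁻¹) := by group

/-- An automorphism of a perfect group that induces the identity on the quotient by the centre is the identity. -/
theorem result {X : Type*} [Group X] (hperf : commutator X = ⊤) (α : X ≃* X) (h : ∀ x : X, α x * x⁻¹ ∈ Subgroup.center X) : ∀ x : X, α x = x := by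
  have hker : commutator X ≤ (toCenter α h).ker := by
    rw [commutator_def, Subgroup.commutator_le]
    intro g₁ _ g₂ _
    rw [MonoidHom.mem_ker, map_commutatorElement, commutatorElement_eq_one_iff_mul_comm]
    apply Subtype.ext
    have := Subgroup.mem_center_iff.mp (toCenter α h g₂).2 (toCenter α h g₁).1
    exact this
  intro x
  have hx : x ∈ (toCenter α h).ker := hker (hperf ▸ Subgroup.mem_top x)
  have h1 : toCenter α h x = 1 := MonoidHom.mem_ker.mp hx
  have h2 : α x * x⁻¹ = 1 := congrArg Subtype.val h1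
  exact mul_inv_eq_one.mp h2

end Cfsg.Agent.S1304
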