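import Cfsg.Statements.S1305
import Cfsg.Agent.Helper54.MC3

set_option autoImplicit false
open Cfsg

namespace Cfsg.Agent.S1305

/-- Let G be a finite group of component type with the B-property and no nontrivial normal subgroup of odd order. Let a be an involution and K a component of C_G(a) such that (a) |K| is maximal among the orders of components of centralizers of involutions of G, (b) subject to (a) the 2-rank of the centralizer of K in C_G(a) is as large as possible, and (c) K has 2-rank at least 2. If B is an elementary abelian 2-subgroup of that centralizer of the largest possible order, then K is a component of C_G(b) for every non-identity b ∈ B. -/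
theorem result {G : Type*} [Group G] [Finite G] (hO : Cfsg.oddCore G = ⊥) (hB : Cfsg.HasBProperty G) (hct : Cfsg.IsComponentType G) (a : G) (ha : orderOf a = 2) (K : Subgroup G) (hKa : K ≤ Subgroup.centralizer ({a} : Set G)) (hK : Cfsg.IsComponent (K.subgroupOf (Subgroup.centralizer ({a} : Set G)))) (hmax : ∀ y : G, orderOf y = 2 → ∀ K' : Subgroup G, K' ≤ Subgroup.centralizer ({y} : Set G) → Cfsg.IsComponent (K'.subgroupOf (Subgroup.centralizer ({y} : Set G))) → Nat.card ↥K' ≤ Nat.card ↥K ∧ (Nat.card ↥K' = Nat.card ↥K → ∀ k : ℕ, Cfsg.PRankLE 2 k ↥(Subgroup.centralizer ({a} : Set G) ⊓ Subgroup.centralizer (K : Set G)) → Cfsg.PRankLE 2 k ↥(Subgroup.centralizer ({y} : Set G) ⊓ Subgroup.centralizer (K' : Set G)))) (hrk : ¬ Cfsg.PRankLE 2 1 ↥K) (B : Subgroup G) (hBle : B ≤ Subgroup.centralizer ({a} : Set G) ⊓ Subgroup.centralizer (K : Set G)) (hBel : Cfsg.IsElementaryAbelian 2 B) (hBmax : ∀ B' : Subgroup G, B' ≤ Subgroup.centralizer ({a} : Set G) ⊓ Subgroup.centralizer (K : Set G) → Cfsg.IsElementaryAbelian 2 B' → Nat.card ↥B' ≤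 Nat.card ↥B) (b : G) (hb : b ∈ B) (hb1 : b ≠ 1) : K ≤ Subgroup.centralizer ({b} : Set G) ∧ Cfsg.IsComponent (K.subgroupOf (Subgroup.centralizer ({b} : Set G))) := by
  exact Cfsg.Agent.Helper54.mc_main hO hB a ha K hKa hK hmax hrk B hBle hBel hBmax b hb hb1

end Cfsg.Agent.S1305
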