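import Cfsg.Statements.S1306
import Cfsg.Agent.Helper22.Basic

set_option autoImplicit false
open Cfsg

namespace Cfsg.Agent.S1306

open Subgroup Cfsg.Agent.Helper22

/-- Conjugate elements have the same order. -/
theorem orderOf_conj_eq {G : Type*} [Group G] (g c : G) : orderOf (g * c * g⁻¹) = orderOf c :=
  orderOf_injective (MulAut.conj g).toMonoidHom (MulAut.conj g).injective c

/-- Transport of a relative component along an automorphism. -/
theorem isComponent_map_subgroupOf {G : Type*} [Group G] {K H : Subgroup G} (e : G ≃* G)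
    (h : Cfsg.IsComponent (K.subgroupOf H)) :
    Cfsg.IsComponent ((K.map (e : G →* G)).subgroupOf (H.map (e : G →* G))) := by
  have h1 := isComponent_map_equiv (e.subgroupMap H) h
  convert h1 using 1
  ext ⟨z, hz⟩
  rw [mem_subgroupOf]
  constructor
  · rintro ⟨k, hk, hkz⟩
    obtain ⟨w, hw, hwz⟩ := hz
    have hkw : k = w := e.injective (by
      have h1 : e k = z := hkz
      have h2 : e w = z := hwz
      rw [h1, h2])
    subst hkw
    refine ⟨⟨k, hw⟩, ?_, ?_⟩
    · rw [SetLike.mem_coe, mem_subgroupOf]; exact hk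
    · apply Subtype.ext
      exact hkz
  · rintro ⟨w, hw, hwz⟩
    rw [SetLike.mem_coe, mem_subgroupOf] at hw
    refine ⟨w, hw, ?_⟩
    have := congrArg Subtype.val hwz
    exact this

/-- The image of the centraliser of an element under conjugation. -/
theorem map_conj_centralizer_singleton {G : Type*} [Group G] (g c : G) :
    (centralizer ({c} : Set G)).map (MulAut.conj g).toMonoidHom = centralizer {g * c * g⁻¹} := by
  ext z
  constructor
  · rintro ⟨w, hw, rfl⟩
    rw [SetLike.mem_coe, mem_centralizer_singleton_iff] at hw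
    rw [mem_centralizer_singleton_iff]
    show (g * w * g⁻¹) * (g * c * g⁻¹) = (g * c * g⁻¹) * (g * w * g⁻¹)
    calc (g * w * g⁻¹) * (g * c * g⁻¹) = g * (w * c) * g⁻¹ := by group
      _ = g * (c * w) * g⁻¹ := by rw [hw]
      _ = _ := by group
  · intro hz
    rw [mem_centralizer_singleton_iff] at hz
    refine ⟨g⁻¹ * z * g, ?_, ?_⟩
    · rw [SetLike.mem_coe, mem_centralizer_singleton_iff]
      calc (g⁻¹ * z * g) * c = g⁻¹ * (z * (g * c * g⁻¹)) * g := by group
        _ = g⁻¹ * ((g * c * g⁻¹) * z) * g := by rw [hz]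
        _ = _ := by group
    · show g * (g⁻¹ * z * g) * g⁻¹ = z
      group

/-- Conjugating a component of `C(c)` by `g` gives a component of `C(g c g⁻¹)`. -/
theorem isComponent_conj_centralizer {G : Type*} [Group G] {L : Subgroup G} (g c : G)
    (h : Cfsg.IsComponent (L.subgroupOf (centralizer ({c} : Set G)))) :
    Cfsg.IsComponent ((L.map (MulAut.conj g).toMonoidHom).subgroupOf
      (centralizer ({g * c * g⁻¹} : Set G))) := by
  have h1 := isComponent_map_subgroupOf (MulAut.conj g) h
  have h2 := map_conj_centralizer_singleton g c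
  have h3 : (centralizer ({c} : Set G)).map ((MulAut.conj g : G ≃* G) : G →* G) =
      centralizer {g * c * g⁻¹} := h2
  rw [h3] at h1
  exact h1

/-- Two relative components of the same subgroup are equal or commute. -/
theorem relative_components {G : Type*} [Group G] {L M C : Subgroup G} (hL : L ≤ C) (hM : M ≤ C)
    (h1 : Cfsg.IsComponent (L.subgroupOf C)) (h2 : Cfsg.IsComponent (M.subgroupOf C)) :
    L = M ∨ ⁅L, M⁆ = ⊥ := by
  by_cases h : L.subgroupOf C = M.subgroupOf C
  · left
    rw [subgroupOf_inj, inf_of_le_left hL, inf_of_le_left hM] at h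
    exact h
  · right
    have := congrArg (Subgroup.map C.subtype) (components_commute h1 h2 h)
    rwa [map_commutator, map_subgroupOf_eq_of_le hL, map_subgroupOf_eq_of_le hM,
      Subgroup.map_bot] at this

/-- `g y g⁻¹` centralises `L^g` when `y` centralises `L`. -/
theorem conj_mem_centralizer_map {G : Type*} [Group G] {L : Subgroup G} (g : G) {y : G}
    (hy : y ∈ centralizer (L : Set G)) :
    g * y * g⁻¹ ∈ centralizer ((L.map (MulAut.conj g).toMonoidHom : Subgroup G) : Set G) := by
  rw [mem_centralizer_iff]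
  rintro _ ⟨l, hl, rfl⟩
  have := (mem_centralizer_iff.mp hy) l hl
  show (g * l * g⁻¹) * (g * y * g⁻¹) = (g * y * g⁻¹) * (g * l * g⁻¹)
  calc (g * l * g⁻¹) * (g * y * g⁻¹) = g * (l * y) * g⁻¹ := by group
    _ = g * (y * l) * g⁻¹ := by rw [this]
    _ = _ := by group

/-- Let x be an involution of the finite group G and L a component of C_G(x). Suppose L is a component of C_G(y) for every involution y centralizing L, and L commutes elementwise with no conjugate of L other than itself. Then L is a standard subgroup of G. -/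
theorem result {G : Type*} [Group G] [Finite G] (x : G) (hx : orderOf x = 2) (L : Subgroup G) (hLx : L ≤ Subgroup.centralizer ({x} : Set G)) (hL : Cfsg.IsComponent (L.subgroupOf (Subgroup.centralizer ({x} : Set G)))) (hne : ∀ y : G, orderOf y = 2 → y ∈ Subgroup.centralizer (L : Set G) → L ≤ Subgroup.centralizer ({y} : Set G) ∧ Cfsg.IsComponent (L.subgroupOf (Subgroup.centralizer ({y} : Set G)))) (hnc : ∀ g : G, L.map (MulAut.conj g).toMonoidHom ≠ L → ⁅L, L.map (MulAut.conj g).toMonoidHom⁆ ≠ ⊥) : Cfsg.IsStandardSubgroup L := by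
  have hxL : x ∈ centralizer (L : Set G) := by
    rw [mem_centralizer_iff]
    intro l hl
    have := mem_centralizer_singleton_iff.mp (hLx hl)
    exact this
  -- key: if `c` is an involution centralising `L` and `g c g⁻¹` centralises `L` then `g` normalises `L`
  have key : ∀ g c : G, orderOf c = 2 → c ∈ centralizer (L : Set G) →
      g * c * g⁻¹ ∈ centralizer (L : Set G) → g ∈ normalizer (L : Set G) := by
    intro g c hc hcL hgc
    have ho : orderOf (g * c * g⁻¹) = 2 := by
      rw [← hc]
      exact orderOf_conj_eq g c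
    obtain ⟨h1, h2⟩ := hne _ ho hgc
    obtain ⟨h3, h4⟩ := hne c hc hcL
    have h5 := isComponent_conj_centralizer g c h4
    have h6 : L.map (MulAut.conj g).toMonoidHom ≤ centralizer ({g * c * g⁻¹} : Set G) := by
      rw [← map_conj_centralizer_singleton]
      exact Subgroup.map_mono h3
    rw [mem_normalizer_iff_map_conj_eq]
    by_contra hne'
    rcases relative_components h1 h6 h2 h5 with h | h
    · exact hne' h.symm
    · exact hnc g hne' h
  have hNle : normalizer (L : Set G) ≤ normalizer ((centralizer (L : Set G) : Subgroup G) : Set G) := by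
    intro g hg
    rw [mem_normalizer_iff]
    intro c
    have hg' := mem_normalizer_iff.mp hg
    have hginv : g⁻¹ ∈ normalizer (L : Set G) := inv_mem hg
    have hginv' := mem_normalizer_iff.mp hginv
    constructor
    · intro hc
      rw [mem_centralizer_iff] at hc ⊢
      intro l hl
      have hl' : g⁻¹ * l * g⁻¹⁻¹ ∈ L := (hginv' l).mp hl
      have := hc _ hl'
      calc l * (g * c * g⁻¹) = g * ((g⁻¹ * l * g⁻¹⁻¹) * c) * g⁻¹ := by group
        _ = g * (c * (g⁻¹ * l * g⁻¹⁻¹)) * g⁻¹ := by rw [this]
        _ = _ := by group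
    · intro hc
      rw [mem_centralizer_iff] at hc ⊢
      intro l hl
      have hl' : g * l * g⁻¹ ∈ L := (hg' l).mp hl
      have := hc _ hl'
      calc l * c = g⁻¹ * ((g * l * g⁻¹) * (g * c * g⁻¹)) * g := by group
        _ = g⁻¹ * ((g * c * g⁻¹) * (g * l * g⁻¹)) * g := by rw [this]
        _ = _ := by group
  refine ⟨?_, ⟨?_, ?_⟩, hnc, le_antisymm hNle ?_⟩
  · exact isQuasisimple_of_equiv (subgroupOfEquivOfLe hLx) hL.2
  · -- even order
    rw [even_iff_two_dvd, ← hx]
    exact Subgroup.orderOf_dvd_natCard _ hxL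
  · intro g hg
    rw [Nat.odd_iff, ← Nat.not_even_iff, even_iff_two_dvd]
    intro h2
    have : Fact (Nat.Prime 2) := ⟨Nat.prime_two⟩
    obtain ⟨⟨y, hy⟩, hyo⟩ := exists_prime_orderOf_dvd_card' (G := ↥(centralizer (L : Set G) ⊓
      (centralizer (L : Set G)).map (MulAut.conj g).toMonoidHom)) 2 h2
    have hyo' : orderOf y = 2 := by
      rw [← hyo]
      exact (Subgroup.orderOf_mk y hy).symm
    obtain ⟨hy1, c, hc, hcy⟩ := hy
    have hcy' : g * c * g⁻¹ = y := hcy
    have hco : orderOf c = 2 := by
      rw [← hyo', ← hcy']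
      exact (orderOf_conj_eq g c).symm
    apply hg
    apply hNle
    apply key g c hco hc
    rw [hcy']
    exact hy1
  · -- `N(C(L)) ≤ N(L)`
    intro g hg
    have hgx : g * x * g⁻¹ ∈ centralizer (L : Set G) := (mem_normalizer_iff.mp hg x).mp hxL
    exact key g x hx hxL hgx

end Cfsg.Agent.S1306
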