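import Cfsg.Statements.S1307
import Mathlib
import Cfsg.Agent.S0016
import Cfsg.Agent.S0219
import Cfsg.Agent.Helper22.Basic
import Cfsg.Agent.Helper52.Standard
import Cfsg.Agent.Helper49.RankOne

set_option autoImplicit false
open Cfsg

namespace Cfsg.Agent.S1307

open scoped commutatorElement in
/-- a perfect finite group has no subgroup of index two -/
theorem no_index_two {L : Type*} [Group L] (hperf : Group.IsPerfect L) (H : Subgroup L)
    (hH : H.index = 2) : False := by
  haveI hn : H.Normal := Subgroup.normal_of_index_eq_two hH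
  have hle : commutator L ≤ H := by
    rw [commutator_eq_closure, Subgroup.closure_le]
    rintro _ ⟨a, b, rfl⟩
    show ⁅a, b⁆ ∈ H
    rw [commutatorElement_def, Subgroup.mul_mem_iff_of_index_two hH]
    constructor
    · intro _
      by_contra hb
      have hb' : b ∉ H := fun h => hb (H.inv_mem h)
      have h1 : a * b * a⁻¹ ∈ H := ‹_›
      have h2 : b ∈ H := by
        have := hn.conj_mem _ h1 a⁻¹
        convert this using 1; group
      exact hb' h2
    · intro hb
      exact hn.conj_mem b (by simpa using hb) a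
  rw [hperf.commutator_eq_top] at hle
  have : H = ⊤ := top_le_iff.mp hle
  rw [this, Subgroup.index_top] at hH
  omega

/-- Let G be finite, x an involution and L ≤ C_G(x) a component of C_G(x) of even order and 2-rank 1, such that L is a component of C_G(y) for every involution y ∈ C_G(L). Then some involution of L is a classical involution of G. -/
theorem result {G : Type*} [Group G] [Finite G] (x : G) (hx : orderOf x = 2) (L : Subgroup G) (hLx : L ≤ Subgroup.centralizer ({x} : Set G)) (hL : Cfsg.IsComponent (L.subgroupOf (Subgroup.centralizer ({x} : Set G)))) (heven : Even (Nat.card ↥L)) (hrk : Cfsg.PRankLE 2 1 ↥L) (hne : ∀ y : G, orderOf y = 2 → y ∈ Subgroup.centralizer (L : Set G) → L ≤ Subgroup.centralizer ({y} : Set G) ∧ Cfsg.IsComponent (L.subgroupOf (Subgroup.centralizer ({y} : Set G)))) : ∃ t ∈ L, Cfsg.IsClassicalInvolution t := by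
  haveI : Fact (Nat.Prime 2) := ⟨Nat.prime_two⟩
  have hLq : IsQuasisimple ↥L :=
    Cfsg.Agent.Helper22.isQuasisimple_of_equiv (Subgroup.subgroupOfEquivOfLe hLx) hL.2
  have hperf : Group.IsPerfect ↥L := hLq.1
  obtain ⟨S⟩ : Nonempty (Sylow 2 ↥L) := inferInstance
  have hSpg : IsPGroup 2 ↥(S : Subgroup ↥L) := S.2
  have h2L : 2 ∣ Nat.card ↥L := even_iff_two_dvd.mp heven
  have hSbot : (S : Subgroup ↥L) ≠ ⊥ := S.ne_bot_of_dvd_card h2L
  have h2S : 2 ∣ Nat.card ↥(S : Subgroup ↥L) := by
    rcases hSpg.card_eq_or_dvd with h | h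
    · exact absurd (Subgroup.card_eq_one.mp h) hSbot
    · exact h
  obtain ⟨t₀, ht₀⟩ := exists_prime_orderOf_dvd_card' 2 h2S
  -- `t : ↥L` the involution
  obtain ⟨t, htdef⟩ : ∃ t : ↥L, t = (t₀ : ↥L) := ⟨_, rfl⟩
  have htS : t ∈ (S : Subgroup ↥L) := htdef ▸ t₀.2
  have hto : orderOf t = 2 := by rw [htdef, Subgroup.orderOf_coe]; exact ht₀
  have ht1 : t ≠ 1 := by
    intro h; rw [h, orderOf_one] at hto; omega
  have ht2 : t * t = 1 := by
    rw [← sq, ← hto]; exact pow_orderOf_eq_one t
  have huniqS : ∀ s ∈ (S : Subgroup ↥L), s * s = 1 → s ≠ 1 → s = t := fun s hs hs2 hs1 =>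
    Cfsg.Agent.Helper52.unique_inv hrk (S : Subgroup ↥L) hSpg t s htS hs ht2 ht1 hs2 hs1
  -- unique subgroup of order 2 in `S`
  have hkey : ∀ H : Subgroup ↥(S : Subgroup ↥L), Nat.card H = 2 → H = Subgroup.zpowers t₀ := by
    intro H hH
    symm
    apply Subgroup.eq_of_le_of_card_ge
    · rw [Subgroup.zpowers_le]
      have hHbot : H ≠ ⊥ := by
        intro h
        rw [h, Subgroup.card_bot] at hH
        omega
      obtain ⟨⟨h, hhH⟩, hh1'⟩ := (Subgroup.ne_bot_iff_exists_ne_one (H := H)).mp hHbot
      have hh1 : h ≠ 1 := fun h0 => hh1' (Subtype.ext h0)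
      have hh2 : h ^ 2 = 1 := by
        have := pow_card_eq_one' (G := ↥H) (x := ⟨h, hhH⟩)
        rw [hH] at this
        have h3 := congrArg Subtype.val this
        simpa using h3
      have h4 : (h : ↥L) = t := by
        apply huniqS _ h.2
        · have := congrArg Subtype.val hh2
          rw [sq] at this
          simpa using this
        · intro h5
          apply hh1
          apply Subtype.ext
          simpa using h5
      have h5 : h = t₀ := Subtype.ext (h4.trans htdef)
      rw [← h5]; exact hhH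
    · rw [hH, Nat.card_zpowers, ht₀]
  have huniq : ∀ H K : Subgroup ↥(S : Subgroup ↥L), Nat.card H = 2 → Nat.card K = 2 → H = K :=
    fun H K hH hK => (hkey H hH).trans (hkey K hK).symm
  have hnc : ¬ IsCyclic ↥(S : Subgroup ↥L) := by
    intro hcyc
    obtain ⟨H, hH⟩ := Cfsg.Agent.S0219.result heven S hcyc
    exact no_index_two hperf H hH
  rcases Cfsg.Agent.S0016.result 2 hSpg huniq with hcyc | ⟨-, n, ⟨e⟩⟩
  · exact absurd hcyc hnc
  obtain ⟨n', rfl⟩ : ∃ n', n = n' + 1 := by
    rcases Nat.eq_zero_or_pos n with h | h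
    · exfalso
      subst h
      apply hnc
      haveI := QuaternionGroup.quaternionGroup_one_isCyclic
      exact isCyclic_of_surjective e.symm.toMonoidHom e.symm.surjective
    · exact ⟨n - 1, by omega⟩
  -- rank one Z*
  obtain ⟨N, hNn, hNodd, hN⟩ := Cfsg.Agent.Helper49.rank_one_zstar S t hto htS (by
    intro s hs hso
    apply huniqS s hs
    · rw [← sq, ← hso]; exact pow_orderOf_eq_one s
    · intro h; rw [h, orderOf_one] at hso; omega)
  have hNc : N ≤ Subgroup.center ↥L := by
    rcases Cfsg.Agent.Helper22.quasisimple_normal hLq N hNn with h | h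
    · exfalso
      rw [h, Subgroup.card_top] at hNodd
      exact (Nat.not_even_iff_odd.mpr hNodd) heven
    · exact h
  have hcent : ∀ x : ↥L, t * x * t⁻¹ = x := by
    have := Cfsg.Agent.Helper52.perfect_central_hom hperf (MulAut.conj t).toMonoidHom (by
      intro x
      show x⁻¹ * (t * x * t⁻¹) ∈ Subgroup.center ↥L
      have h1 := hNc (hN x)
      have h2 := (inferInstance : (Subgroup.center ↥L).Normal).conj_mem _ h1 x⁻¹
      convert h2 using 1; group)
    exact this
  -- back to `G`
  have hu : orderOf (t : G) = 2 := by rw [Subgroup.orderOf_coe]; exact hto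
  have huc : (t : G) ∈ Subgroup.centralizer (L : Set G) := by
    rw [Subgroup.mem_centralizer_iff]
    intro y hy
    have h1 := congrArg Subtype.val (hcent ⟨y, hy⟩)
    have h2 : (t : G) * y * (t : G)⁻¹ = y := by simpa using h1
    calc y * (t : G) = ((t : G) * y * (t : G)⁻¹) * (t : G) := by rw [h2]
      _ = (t : G) * y := by group
  obtain ⟨hLt, hLcomp⟩ := hne (t : G) hu huc
  exact ⟨(t : G), t.2, hu, L, hLt, t.2, hLcomp.1, S, n', ⟨e⟩⟩

end Cfsg.Agent.S1307
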