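import Cfsg.Statements.S1314
import Mathlib

set_option autoImplicit false
open Cfsg

namespace Cfsg.Agent.S1314

open Subgroup
open scoped commutatorElement

theorem comm_mul_central_left {G : Type*} [Group G] (a z b : G) (hzb : z * b = b * z) :
    ⁅a * z, b⁆ = ⁅a, b⁆ := by
  simp only [commutatorElement_def]
  calc a * z * b * (a * z)⁻¹ * b⁻¹ = a * (z * b) * z⁻¹ * a⁻¹ * b⁻¹ := by group
    _ = a * (b * z) * z⁻¹ * a⁻¹ * b⁻¹ := by rw [hzb]
    _ = a * b * a⁻¹ * b⁻¹ := by group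

theorem comm_mul_central_right {G : Type*} [Group G] (a b z : G) (hza : z * a = a * z) :
    ⁅a, b * z⁆ = ⁅a, b⁆ := by
  simp only [commutatorElement_def]
  have h : z * a⁻¹ = a⁻¹ * z := by
    calc z * a⁻¹ = a⁻¹ * (a * z) * a⁻¹ := by group
      _ = a⁻¹ * (z * a) * a⁻¹ := by rw [hza]
      _ = a⁻¹ * z := by group
  calc a * (b * z) * a⁻¹ * (b * z)⁻¹ = a * b * (z * a⁻¹) * z⁻¹ * b⁻¹ := by group
    _ = a * b * (a⁻¹ * z) * z⁻¹ * b⁻¹ := by rw [h]
    _ = a * b * a⁻¹ * b⁻¹ := by group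

/-- Let L be a perfect subgroup of the finite group G and x an involution of G such that L commutes elementwise with its conjugate L^x. Then the map π : L → G, l ↦ l · l^x, is a group homomorphism whose kernel lies in Z(L), its image D lies in C_G(x), and D is exactly the derived subgroup of C_{LL^x}(x). -/
theorem result {G : Type*} [Group G] [Finite G] (x : G) (hx : orderOf x = 2) (L : Subgroup G) (hperf : ⁅L, L⁆ = L) (hcomm : ⁅L, L.map (MulAut.conj x).toMonoidHom⁆ = ⊥) : ∃ π : ↥L →* G, (∀ l : ↥L, π l = (l : G) * (x * (l : G) * x⁻¹)) ∧ π.ker ≤ Subgroup.center ↥L ∧ π.range ≤ Subgroup.centralizer ({x} : Set G) ∧ ⁅(L ⊔ L.map (MulAut.conj x).toMonoidHom) ⊓ Subgroup.centralizer ({x} : Set G), (L ⊔ L.map (MulAut.conj x).toMonoidHom) ⊓ Subgroup.centralizer ({x} : Set G)⁆ = π.range := by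
  have hxx : x * x = 1 := by
    have := pow_orderOf_eq_one x
    rw [hx, pow_two] at this
    exact this
  have hxinv : x⁻¹ = x := inv_eq_of_mul_eq_one_left hxx
  -- elements of `L` commute with elements of `L^x`
  have hc : ∀ l ∈ L, ∀ m ∈ L.map (MulAut.conj x).toMonoidHom, l * m = m * l := by
    intro l hl m hm
    have h1 : L ≤ centralizer ((L.map (MulAut.conj x).toMonoidHom : Subgroup G) : Set G) :=
      commutator_eq_bot_iff_le_centralizer.mp hcomm
    exact ((mem_centralizer_iff.mp (h1 hl)) m hm).symm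
  have hconj : ∀ l ∈ L, x * l * x⁻¹ ∈ L.map (MulAut.conj x).toMonoidHom :=
    fun l hl => ⟨l, hl, rfl⟩
  let π : ↥L →* G :=
    { toFun := fun l => (l : G) * (x * (l : G) * x⁻¹)
      map_one' := by simp
      map_mul' := by
        intro l m
        have h1 := hc (m : G) m.2 (x * (l : G) * x⁻¹) (hconj l l.2)
        show ((l : G) * (m : G)) * (x * ((l : G) * (m : G)) * x⁻¹) =
          (l : G) * (x * (l : G) * x⁻¹) * ((m : G) * (x * (m : G) * x⁻¹))
        calc ((l : G) * (m : G)) * (x * ((l : G) * (m : G)) * x⁻¹)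
            = (l : G) * ((m : G) * (x * (l : G) * x⁻¹)) * (x * (m : G) * x⁻¹) := by group
          _ = (l : G) * ((x * (l : G) * x⁻¹) * (m : G)) * (x * (m : G) * x⁻¹) := by rw [h1]
          _ = _ := by group }
  have hπ : ∀ l : ↥L, π l = (l : G) * (x * (l : G) * x⁻¹) := fun l => rfl
  have hrange_cent : π.range ≤ centralizer ({x} : Set G) := by
    rintro _ ⟨l, rfl⟩
    rw [mem_centralizer_singleton_iff, hπ]
    have h1 := hc (l : G) l.2 (x * (l : G) * x⁻¹) (hconj l l.2)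
    symm
    calc x * ((l : G) * (x * (l : G) * x⁻¹))
        = (x * (l : G) * x⁻¹) * (x * x) * (l : G) * x⁻¹ := by group
      _ = (x * (l : G) * x⁻¹) * (l : G) * x⁻¹ := by rw [hxx, mul_one]
      _ = ((l : G) * (x * (l : G) * x⁻¹)) * x⁻¹ := by rw [h1]
      _ = (l : G) * (x * (l : G) * x⁻¹) * x := by rw [hxinv]
  have hrange_le : π.range ≤ L ⊔ L.map (MulAut.conj x).toMonoidHom := by
    rintro _ ⟨l, rfl⟩
    rw [hπ]
    exact mul_mem (mem_sup_left l.2) (mem_sup_right (hconj l l.2))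
  -- elements of `L ⊓ L^x` are central in `L ⊔ L^x`
  have hcentral : ∀ z ∈ L, z ∈ L.map (MulAut.conj x).toMonoidHom →
      ∀ g ∈ L ⊔ L.map (MulAut.conj x).toMonoidHom, z * g = g * z := by
    intro z hzL hzLx g hg
    have h1 : L ⊔ L.map (MulAut.conj x).toMonoidHom ≤ centralizer ({z} : Set G) := by
      apply sup_le
      · intro l hl
        rw [mem_centralizer_singleton_iff]
        exact hc l hl z hzLx
      · intro m hm
        rw [mem_centralizer_singleton_iff]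
        exact (hc z hzL m hm).symm
    exact (mem_centralizer_singleton_iff.mp (h1 hg)).symm
  refine ⟨π, hπ, ?_, hrange_cent, ?_⟩
  · -- kernel is central
    intro l hl
    rw [MonoidHom.mem_ker, hπ] at hl
    have h1 : (l : G) = (x * (l : G) * x⁻¹)⁻¹ := eq_inv_of_mul_eq_one_left hl
    have h2 : (l : G) ∈ L.map (MulAut.conj x).toMonoidHom := by
      rw [h1]
      exact inv_mem (hconj l l.2)
    rw [Subgroup.mem_center_iff]
    intro m
    apply Subtype.ext
    exact hc (m : G) m.2 (l : G) h2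
  · apply le_antisymm
    · -- every element of `C` is `d * z` with `d ∈ D`, `z` central
      have hdecomp : ∀ c ∈ (L ⊔ L.map (MulAut.conj x).toMonoidHom) ⊓ centralizer ({x} : Set G),
          ∃ d ∈ π.range, ∃ z ∈ L, z ∈ L.map (MulAut.conj x).toMonoidHom ∧ c = d * z := by
        rintro c ⟨hc1, hc2⟩
        have hnorm : L ≤ normalizer ((L.map (MulAut.conj x).toMonoidHom : Subgroup G) : Set G) :=
          (commutator_eq_bot_iff_le_centralizer.mp hcomm).trans (centralizer_le_normalizer _)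
        have hc1' : c ∈ ((L ⊔ L.map (MulAut.conj x).toMonoidHom : Subgroup G) : Set G) := hc1
        rw [coe_mul_of_left_le_normalizer_right _ _ hnorm] at hc1'
        obtain ⟨l₁, hl₁, m, hm, hcm⟩ := hc1'
        obtain ⟨l₂, hl₂, hm'⟩ := hm
        have hm'' : m = x * l₂ * x⁻¹ := hm'.symm
        have hcm' : c = l₁ * (x * l₂ * x⁻¹) := by rw [← hm'']; exact hcm.symm
        subst hcm'
        have hc2' : l₁ * (x * l₂ * x⁻¹) ∈ centralizer ({x} : Set G) := hc2
        rw [mem_centralizer_singleton_iff] at hc2'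
        have hc2 : x * (l₁ * (x * l₂ * x⁻¹)) = (l₁ * (x * l₂ * x⁻¹)) * x := hc2'.symm
        have hl₁ : l₁ ∈ L := hl₁
        have hl₂ : l₂ ∈ L := hl₂
        -- `x c x⁻¹ = c` gives `l₂ (x l₁ x⁻¹) = l₁ (x l₂ x⁻¹)`
        have h3 : (x * l₁ * x⁻¹) * l₂ = l₁ * (x * l₂ * x⁻¹) := by
          calc (x * l₁ * x⁻¹) * l₂ = (x * l₁ * x) * l₂ := by rw [hxinv]
            _ = (x * (l₁ * (x * l₂ * x⁻¹))) * x := by group
            _ = ((l₁ * (x * l₂ * x⁻¹)) * x) * x := by rw [hc2]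
            _ = l₁ * (x * l₂ * x⁻¹) * (x * x) := by group
            _ = l₁ * (x * l₂ * x⁻¹) := by rw [hxx, mul_one]
        have h4 : l₂ * (x * l₁ * x⁻¹) = l₁ * (x * l₂ * x⁻¹) := by
          rw [hc l₂ hl₂ _ (hconj l₁ hl₁)]; exact h3
        -- `z = l₂⁻¹ l₁ = (x l₁ x⁻¹)(x l₂ x⁻¹)⁻¹`
        have hzL : l₂⁻¹ * l₁ ∈ L := mul_mem (inv_mem hl₂) hl₁
        have hzeq : l₂⁻¹ * l₁ = (x * l₁ * x⁻¹) * (x * l₂ * x⁻¹)⁻¹ := by
          have : l₁ = l₂ * (x * l₁ * x⁻¹) * (x * l₂ * x⁻¹)⁻¹ := by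
            rw [h4]; group
          calc l₂⁻¹ * l₁ = l₂⁻¹ * (l₂ * (x * l₁ * x⁻¹) * (x * l₂ * x⁻¹)⁻¹) := by rw [← this]
            _ = _ := by group
        have hzLx : l₂⁻¹ * l₁ ∈ L.map (MulAut.conj x).toMonoidHom := by
          rw [hzeq]
          exact mul_mem (hconj l₁ hl₁) (inv_mem (hconj l₂ hl₂))
        refine ⟨π ⟨l₂, hl₂⟩, ⟨⟨l₂, hl₂⟩, rfl⟩, l₂⁻¹ * l₁, hzL, hzLx, ?_⟩
        rw [hπ]
        show l₁ * (x * l₂ * x⁻¹) = l₂ * (x * l₂ * x⁻¹) * (l₂⁻¹ * l₁)
        have h5 := hc (l₂⁻¹ * l₁) hzL _ (hconj l₂ hl₂)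
        calc l₁ * (x * l₂ * x⁻¹) = l₂ * ((l₂⁻¹ * l₁) * (x * l₂ * x⁻¹)) := by group
          _ = l₂ * ((x * l₂ * x⁻¹) * (l₂⁻¹ * l₁)) := by rw [h5]
          _ = _ := by group
      rw [commutator_le]
      intro c₁ hc₁ c₂ hc₂
      obtain ⟨d₁, hd₁, z₁, hz₁L, hz₁Lx, rfl⟩ := hdecomp c₁ hc₁
      obtain ⟨d₂, hd₂, z₂, hz₂L, hz₂Lx, rfl⟩ := hdecomp c₂ hc₂
      have e1 := hcentral z₁ hz₁L hz₁Lx d₂ (hrange_le hd₂)
      have e2 := hcentral z₁ hz₁L hz₁Lx z₂ (mem_sup_left hz₂L)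
      have e3 := hcentral z₂ hz₂L hz₂Lx d₁ (hrange_le hd₁)
      have e4 := hcentral z₁ hz₁L hz₁Lx d₁ (hrange_le hd₁)
      have e5 := hcentral z₂ hz₂L hz₂Lx d₂ (hrange_le hd₂)
      have key : ⁅d₁ * z₁, d₂ * z₂⁆ = ⁅d₁, d₂⁆ := by
        have e6 : z₁ * (d₂ * z₂) = (d₂ * z₂) * z₁ := by
          calc z₁ * (d₂ * z₂) = (z₁ * d₂) * z₂ := by group
            _ = (d₂ * z₁) * z₂ := by rw [e1]
            _ = d₂ * (z₁ * z₂) := by group
            _ = d₂ * (z₂ * z₁) := by rw [e2]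
            _ = _ := by group
        rw [comm_mul_central_left d₁ z₁ (d₂ * z₂) e6, comm_mul_central_right d₁ d₂ z₂ e3]
      rw [key]
      exact (Subgroup.commutator_le_self π.range) (commutator_mem_commutator hd₁ hd₂)
    · -- `D` is perfect and contained in `C`
      have hD : ⁅π.range, π.range⁆ = π.range := by
        have h1 : (⁅(⊤ : Subgroup L), ⊤⁆ : Subgroup L) = ⊤ := by
          have : Group.IsPerfect L := Subgroup.isPerfect_iff.mpr hperf
          rw [← _root_.commutator_def]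
          exact Group.IsPerfect.commutator_eq_top
        have h2 := congrArg (Subgroup.map π) h1
        rw [map_commutator, ← MonoidHom.range_eq_map] at h2
        exact h2
      calc π.range = ⁅π.range, π.range⁆ := hD.symm
        _ ≤ _ := commutator_mono (le_inf hrange_le hrange_cent) (le_inf hrange_le hrange_cent)

end Cfsg.Agent.S1314
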