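import Cfsg.Statements.S1316
import Cfsg.Agent.Helper22.Bender

set_option autoImplicit false
open Cfsg

namespace Cfsg.Agent.S1316

open Subgroup Cfsg.Agent.Helper22

/-- For a finite group X, the layer E(X) is the last term of the derived series of F*(X). -/
theorem result {X : Type*} [Group X] [Finite X] : (⨅ n : ℕ, (derivedSeries ↥(Cfsg.generalizedFittingSubgroup X) n).map (Cfsg.generalizedFittingSubgroup X).subtype) = Cfsg.layer X := by
  have hEn := layer_normal X
  have hFn := fittingSubgroup_normal X
  have hEle : Cfsg.layer X ≤ Cfsg.generalizedFittingSubgroup X := layer_le_generalizedFittingSubgroup X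
  have hFle : Cfsg.fittingSubgroup X ≤ Cfsg.generalizedFittingSubgroup X :=
    fittingSubgroup_le_generalizedFittingSubgroup X
  have hE'n : ((Cfsg.layer X).subgroupOf (Cfsg.generalizedFittingSubgroup X)).Normal := inferInstance
  apply le_antisymm
  · -- the quotient `F* / E` is solvable
    have hnil := fittingSubgroup_isNilpotent X
    have hsolvF : Group.IsSolvable (Cfsg.fittingSubgroup X) := inferInstance
    let ψ : Cfsg.fittingSubgroup X →* (Cfsg.generalizedFittingSubgroup X) ⧸
        ((Cfsg.layer X).subgroupOf (Cfsg.generalizedFittingSubgroup X)) :=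
      (QuotientGroup.mk' _).comp (Subgroup.inclusion hFle)
    have hψ : Function.Surjective ψ := by
      intro y
      obtain ⟨⟨x, hx⟩, rfl⟩ := QuotientGroup.mk'_surjective _ y
      have hx' : x ∈ ((Cfsg.layer X ⊔ Cfsg.fittingSubgroup X : Subgroup X) : Set X) := hx
      rw [mul_normal] at hx'
      obtain ⟨e, he, f, hf, rfl⟩ := hx'
      refine ⟨⟨f, hf⟩, ?_⟩
      show ((Subgroup.inclusion hFle ⟨f, hf⟩ : Cfsg.generalizedFittingSubgroup X) :
        (Cfsg.generalizedFittingSubgroup X) ⧸
          ((Cfsg.layer X).subgroupOf (Cfsg.generalizedFittingSubgroup X))) =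
        ((⟨e * f, hx⟩ : Cfsg.generalizedFittingSubgroup X) : _ ⧸ _)
      rw [QuotientGroup.eq, mem_subgroupOf]
      show f⁻¹ * (e * f) ∈ Cfsg.layer X
      have := hEn.conj_mem e he f⁻¹
      simpa [mul_assoc] using this
    have hsolv : Group.IsSolvable ((Cfsg.generalizedFittingSubgroup X) ⧸
        ((Cfsg.layer X).subgroupOf (Cfsg.generalizedFittingSubgroup X))) :=
      Group.isSolvable_of_surjective hψ
    obtain ⟨n, hn⟩ := hsolv.solvable
    refine (iInf_le _ n).trans ?_
    have h1 := map_derivedSeries_le_derivedSeries (QuotientGroup.mk'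
      ((Cfsg.layer X).subgroupOf (Cfsg.generalizedFittingSubgroup X))) n
    rw [hn, le_bot_iff, Subgroup.map_eq_bot_iff, QuotientGroup.ker_mk'] at h1
    calc _ ≤ ((Cfsg.layer X).subgroupOf (Cfsg.generalizedFittingSubgroup X)).map
          (Cfsg.generalizedFittingSubgroup X).subtype := map_mono h1
      _ = _ := map_subgroupOf_eq_of_le hEle
  · apply le_iInf
    intro n
    have hperf : ⁅(Cfsg.layer X).subgroupOf (Cfsg.generalizedFittingSubgroup X),
        (Cfsg.layer X).subgroupOf (Cfsg.generalizedFittingSubgroup X)⁆ =
        (Cfsg.layer X).subgroupOf (Cfsg.generalizedFittingSubgroup X) := by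
      apply Subgroup.map_injective (Cfsg.generalizedFittingSubgroup X).subtype_injective
      rw [map_commutator, map_subgroupOf_eq_of_le hEle, layer_commutator_eq]
    have hle : ∀ n : ℕ, (Cfsg.layer X).subgroupOf (Cfsg.generalizedFittingSubgroup X) ≤
        derivedSeries ↥(Cfsg.generalizedFittingSubgroup X) n := by
      intro n
      induction n with
      | zero => exact le_top
      | succ n ih =>
        rw [derivedSeries_succ]
        calc _ = _ := hperf.symm
          _ ≤ _ := commutator_mono ih ih
    calc Cfsg.layer X = ((Cfsg.layer X).subgroupOf (Cfsg.generalizedFittingSubgroup X)).map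
          (Cfsg.generalizedFittingSubgroup X).subtype := (map_subgroupOf_eq_of_le hEle).symm
      _ ≤ _ := map_mono (hle n)

end Cfsg.Agent.S1316
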