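import Cfsg.Statements.S1317
import Cfsg.Agent.Helper22.Bender

set_option autoImplicit false
open Cfsg

namespace Cfsg.Agent.S1317

open Subgroup Cfsg.Agent.Helper22

/-- For a finite group X: Z(E(X)) = F(X) ∩ E(X). -/
theorem result {X : Type*} [Group X] [Finite X] : (Subgroup.center ↥(Cfsg.layer X)).map (Cfsg.layer X).subtype = Cfsg.fittingSubgroup X ⊓ Cfsg.layer X := by
  have hEn := layer_normal X
  apply le_antisymm
  · apply le_inf
    · apply le_sSup
      refine ⟨normal_map_subtype_of_characteristic (Cfsg.layer X) (center (Cfsg.layer X)), ?_⟩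
      apply isNilpotent_of_lowerCentralSeries_eq_bot (n := 1)
      show ⁅(center (Cfsg.layer X)).map (Cfsg.layer X).subtype,
        (center (Cfsg.layer X)).map (Cfsg.layer X).subtype⁆ = ⊥
      rw [commutator_eq_bot_iff_le_centralizer]
      rintro _ ⟨a, ha, rfl⟩
      rw [mem_centralizer_iff]
      rintro _ ⟨b, hb, rfl⟩
      have := Subgroup.mem_center_iff.mp ha b
      exact congrArg Subtype.val this
    · exact map_subtype_le _
  · rintro x ⟨hxF, hxE⟩
    refine ⟨⟨x, hxE⟩, ?_, rfl⟩
    rw [SetLike.mem_coe, Subgroup.mem_center_iff]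
    intro e
    apply Subtype.ext
    have h1 : Cfsg.layer X ≤ centralizer (Cfsg.fittingSubgroup X : Set X) :=
      commutator_eq_bot_iff_le_centralizer.mp (layer_commutator_fitting X)
    exact ((mem_centralizer_iff.mp (h1 e.2)) x hxF).symm

end Cfsg.Agent.S1317
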