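import Cfsg.Statements.S1318
import Cfsg.Agent.Helper22.FStar

set_option autoImplicit false
open Cfsg

namespace Cfsg.Agent.S1318

open Subgroup Cfsg.Agent.Helper22

/-- If S is a subnormal subgroup of F*(X), X finite, then F(S) = F(X) ∩ S and S = F(S)E(S). -/
theorem result {X : Type*} [Group X] [Finite X] (S : Subgroup X) (hS : S ≤ Cfsg.generalizedFittingSubgroup X) (hsn : (S.subgroupOf (Cfsg.generalizedFittingSubgroup X)).IsSubnormal) : (Cfsg.fittingSubgroup ↥S).map S.subtype = Cfsg.fittingSubgroup X ⊓ S ∧ Cfsg.fittingSubgroup ↥S ⊔ Cfsg.layer ↥S = ⊤ := by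
  have hSsn : S.IsSubnormal :=
    IsSubnormal.trans hS hsn (generalizedFittingSubgroup_normal X).isSubnormal
  refine ⟨fittingSubgroup_map_subtype_eq hSsn, ?_⟩
  have := generalizedFittingSubgroup_eq_top_of_le hSsn hS
  unfold Cfsg.generalizedFittingSubgroup at this
  rw [sup_comm]
  exact this

end Cfsg.Agent.S1318
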