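import Cfsg.Statements.S1319
import Cfsg.Agent.Helper22.Basic

set_option autoImplicit false
open Cfsg

namespace Cfsg.Agent.S1319

open Subgroup Cfsg.Agent.Helper22

/-- A subnormal subgroup A of a finite group X with E(A) = A is contained in E(X) and is normal in E(X). -/
theorem result {X : Type*} [Group X] [Finite X] (A : Subgroup X) (hsn : A.IsSubnormal) (hA : Cfsg.layer ↥A = ⊤) : A ≤ Cfsg.layer X ∧ (A.subgroupOf (Cfsg.layer X)).Normal := by
  have h1 : A ≤ Cfsg.layer X := by
    have := layer_map_subtype_le hsn
    rwa [hA, ← MonoidHom.range_eq_map, range_subtype] at this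
  refine ⟨h1, (normal_subgroupOf_iff_le_normalizer h1).mpr ?_⟩
  apply sSup_le
  intro K hK
  rcases component_le_or_le_centralizer hK hsn with h | h
  · exact h.trans le_normalizer
  · exact h.trans (centralizer_le_normalizer _)

end Cfsg.Agent.S1319
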