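import Cfsg.Statements.S1321
import Cfsg.Agent.Helper22.Basic

set_option autoImplicit false
open Cfsg

namespace Cfsg.Agent.S1321

open Subgroup Cfsg.Agent.Helper22
open scoped commutatorElement

/-- For every subgroup U of the finite group X: E(X) = C_{E(X)}(U) · [E(X), U], and [E(X), U] ≤ E(X). -/
theorem result {X : Type*} [Group X] [Finite X] (U : Subgroup X) : Cfsg.layer X = (Cfsg.layer X ⊓ Subgroup.centralizer (U : Set X)) ⊔ ⁅Cfsg.layer X, U⁆ ∧ ⁅Cfsg.layer X, U⁆ ≤ Cfsg.layer X := by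
  have hEn := layer_normal X
  have h2 : ⁅Cfsg.layer X, U⁆ ≤ Cfsg.layer X := commutator_le_left _ _
  refine ⟨le_antisymm ?_ (sup_le inf_le_left h2), h2⟩
  apply sSup_le
  intro K hK
  have hK' : Cfsg.IsComponent K := hK
  by_cases hU : U ≤ normalizer (K : Set X)
  · have h3 : ⁅K, U⁆ ≤ K := le_normalizer_iff_commutator_le_left.mp hU
    have h4 : K ≤ normalizer ((⁅K, U⁆ : Subgroup X) : Set X) := normalizer_commutator_ge_left _ _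
    rcases quasisimple_le_or_commutator_eq_bot hK'.2 h3 h4 with h | h
    · exact (h.trans (commutator_mono (component_le_layer hK') le_rfl)).trans le_sup_right
    · have h5 : ⁅⁅K, U⁆, K⁆ = ⊥ := by rw [commutator_comm]; exact h
      have h6 : ⁅⁅U, K⁆, K⁆ = ⊥ := by rw [commutator_comm U K]; exact h5
      have h7 := commutator_commutator_eq_bot_of_rotate h5 h6
      rw [quasisimple_commutator_eq hK'.2] at h7
      exact (le_inf (component_le_layer hK')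
        (commutator_eq_bot_iff_le_centralizer.mp h7)).trans le_sup_left
  · obtain ⟨u, huU, huK⟩ := SetLike.not_le_iff_exists.mp hU
    have hne : K.map (MulAut.conj u).toMonoidHom ≠ K := by
      intro h
      exact huK (mem_normalizer_iff_map_conj_eq.mpr h)
    have hc : ⁅K, K.map (MulAut.conj u).toMonoidHom⁆ = ⊥ :=
      components_commute hK' (isComponent_conj hK' u) (Ne.symm hne)
    have hcent : K ≤ centralizer ((K.map (MulAut.conj u).toMonoidHom : Subgroup X) : Set X) :=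
      commutator_eq_bot_iff_le_centralizer.mp hc
    -- `K = ⁅K, K⁆ ≤ ⁅E, U⁆`
    have hW : K ≤ normalizer ((⁅Cfsg.layer X, U⁆ : Subgroup X) : Set X) :=
      (component_le_layer hK').trans (normalizer_commutator_ge_left _ _)
    have hKK : ⁅K, K⁆ ≤ ⁅Cfsg.layer X, U⁆ := by
      rw [commutator_le]
      intro k₂ hk₂ k₁ hk₁
      -- `⁅k₁, u⁆ ∈ W`
      have hw : ⁅k₁, u⁆ ∈ ⁅Cfsg.layer X, U⁆ :=
        commutator_mem_commutator (component_le_layer hK' hk₁) huU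
      -- `⁅k₂, ⁅k₁, u⁆⁆ ∈ W`
      have hw2 : ⁅k₂, ⁅k₁, u⁆⁆ ∈ ⁅Cfsg.layer X, U⁆ := by
        have hn := (mem_normalizer_iff.mp (hW hk₂) ⁅k₁, u⁆).mp hw
        have : ⁅k₂, ⁅k₁, u⁆⁆ = k₂ * ⁅k₁, u⁆ * k₂⁻¹ * ⁅k₁, u⁆⁻¹ := rfl
        rw [this]
        exact mul_mem hn (inv_mem hw)
      -- `c = u k₁⁻¹ u⁻¹` commutes with `k₂`
      have hcmem : u * k₁⁻¹ * u⁻¹ ∈ K.map (MulAut.conj u).toMonoidHom :=
        ⟨k₁⁻¹, inv_mem hk₁, by simp⟩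
      have hcomm : (u * k₁⁻¹ * u⁻¹) * k₂ = k₂ * (u * k₁⁻¹ * u⁻¹) :=
        (mem_centralizer_iff.mp (hcent hk₂)) _ hcmem
      have hcomm' : (u * k₁⁻¹ * u⁻¹) * k₂⁻¹ = k₂⁻¹ * (u * k₁⁻¹ * u⁻¹) := by
        have h9 : k₂⁻¹ * (u * k₁⁻¹ * u⁻¹ * k₂) * k₂⁻¹ = k₂⁻¹ * (k₂ * (u * k₁⁻¹ * u⁻¹)) * k₂⁻¹ := by
          rw [hcomm]
        rw [show k₂⁻¹ * (u * k₁⁻¹ * u⁻¹ * k₂) * k₂⁻¹ = k₂⁻¹ * (u * k₁⁻¹ * u⁻¹) by group,
          show k₂⁻¹ * (k₂ * (u * k₁⁻¹ * u⁻¹)) * k₂⁻¹ = (u * k₁⁻¹ * u⁻¹) * k₂⁻¹ by group] at h9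
        exact h9.symm
      have key : ⁅k₂, ⁅k₁, u⁆⁆ = ⁅k₂, k₁⁆ := by
        simp only [commutatorElement_def]
        have e1 : k₁ * u * k₁⁻¹ * u⁻¹ = k₁ * (u * k₁⁻¹ * u⁻¹) := by group
        rw [e1]
        calc k₂ * (k₁ * (u * k₁⁻¹ * u⁻¹)) * k₂⁻¹ * (k₁ * (u * k₁⁻¹ * u⁻¹))⁻¹
            = k₂ * k₁ * ((u * k₁⁻¹ * u⁻¹) * k₂⁻¹) * (u * k₁⁻¹ * u⁻¹)⁻¹ * k₁⁻¹ := by group
          _ = k₂ * k₁ * (k₂⁻¹ * (u * k₁⁻¹ * u⁻¹)) * (u * k₁⁻¹ * u⁻¹)⁻¹ * k₁⁻¹ := by rw [hcomm']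
          _ = k₂ * k₁ * k₂⁻¹ * k₁⁻¹ := by group
      rw [← key]
      exact hw2
    rw [quasisimple_commutator_eq hK'.2] at hKK
    exact hKK.trans le_sup_right

end Cfsg.Agent.S1321
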