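import Cfsg.Statements.S1326
import Cfsg.Agent.Helper22.Bender

set_option autoImplicit false
open Cfsg

namespace Cfsg.Agent.S1326

open Subgroup Cfsg.Agent.Helper22

/-- For a finite group X: C_X(F(X)) ≤ F(X) if and only if E(X) = 1. -/
theorem result {X : Type*} [Group X] [Finite X] : Subgroup.centralizer (Cfsg.fittingSubgroup X : Set X) ≤ Cfsg.fittingSubgroup X ↔ Cfsg.layer X = ⊥ := by
  constructor
  · intro h
    rw [eq_bot_iff]
    apply sSup_le
    intro K hK
    have hK' : Cfsg.IsComponent K := hK
    exfalso
    have h1 : K ≤ centralizer (Cfsg.fittingSubgroup X : Set X) :=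
      commutator_eq_bot_iff_le_centralizer.mp (component_commutator_fitting hK')
    exact component_not_le_of_isNilpotent hK'.2 (fittingSubgroup_isNilpotent X) (h1.trans h)
  · intro h
    have h1 := centralizer_generalizedFittingSubgroup_le X
    have h2 : Cfsg.generalizedFittingSubgroup X = Cfsg.fittingSubgroup X := by
      unfold Cfsg.generalizedFittingSubgroup
      rw [h, bot_sup_eq]
    rw [h2] at h1
    exact h1

end Cfsg.Agent.S1326
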