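import Cfsg.Statements.S1328
import Cfsg.Agent.Helper31.LBalance9

set_option autoImplicit false
open Cfsg

namespace Cfsg.Agent.S1328

/-- Let G be finite, H ≤ G with O(H) = 1, t an involution of G normalizing H, and Y a nontrivial subgroup of O(C_H(t)). Then some component E of H is normalized by t and by Y and centralized by neither t nor Y. -/
theorem result {G : Type*} [Group G] [Finite G] (H : Subgroup G) (hO : Cfsg.oddCore ↥H = ⊥) (t : G) (ht : orderOf t = 2) (htH : t ∈ Subgroup.normalizer (H : Set G)) (Y : Subgroup G) (hY1 : Y ≠ ⊥) (hY : Y ≤ (Cfsg.oddCore ↥(H ⊓ Subgroup.centralizer ({t} : Set G))).map (H ⊓ Subgroup.centralizer ({t} : Set G)).subtype) : ∃ E : Subgroup ↥H, Cfsg.IsComponent E ∧ (E.map H.subtype).map (MulAut.conj t).toMonoidHom = E.map H.subtype ∧ Y ≤ Subgroup.normalizer ((E.map H.subtype : Subgroup G) : Set G) ∧ ¬ (t ∈ Subgroup.centralizer ((E.map H.subtype : Subgroup G) : Set G)) ∧ ¬ (Y ≤ Subgroup.centralizer ((E.map H.subtype : Subgroup G) : Set G)) := by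
  exact Cfsg.Agent.Helper31.exists_component_of_le_pPrimeCore_centralizer (p := 2) H hO t ht htH Y
    hY1 hY

end Cfsg.Agent.S1328
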