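import Cfsg.Statements.S1331
import Cfsg.Agent.Helper22.Signalizer
-- import your own Cfsg.Agent.* helpers here

set_option autoImplicit false
open Cfsg

namespace Cfsg.Agent.S1331

/-- Let θ be a solvable A-signalizer functor on the finite group G for the prime p, A elementary abelian of rank at least 3, X a member of the family of θ, and B ≤ A with |B| ≥ p². Then X is generated by the subgroups X ∩ ⋂_{d ∈ D, d ≠ 1} θ d, D ranging over the subgroups of index p in B. -/
theorem result {G : Type*} [Group G] [Finite G] (p : ℕ) [Fact p.Prime] (A : Subgroup G) (hA : Cfsg.IsElementaryAbelian p A) (hA3 : p ^ 3 ≤ Nat.card ↥A) (θ : G → Subgroup G) (hθ : Cfsg.IsSolvableSignalizerFunctor p A θ) (X : Subgroup G) (hX : X ∈ Cfsg.signalizerFamily p A θ) (B : Subgroup G) (hB : B ≤ A) (hB2 : p ^ 2 ≤ Nat.card ↥B) : X = ⨆ D : {D : Subgroup G // D ≤ B ∧ D.relIndex B = p}, X ⊓ Cfsg.signalizerInf (D : Subgroup G) θ := by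
  have hp : p.Prime := Fact.out
  have hBel : Cfsg.IsElementaryAbelian p B := Helper22.isElementaryAbelian_of_le hA hB
  have hBp : IsPGroup p B := Helper22.IsElementaryAbelian.isPGroup' hBel
  have hBX : B ≤ Subgroup.normalizer (X : Set G) :=
    hB.trans (Helper22.le_normalizer_of_mem_signalizerFamily hX)
  have hBne : B ≠ ⊥ := by
    rintro rfl
    rw [Subgroup.card_bot] at hB2
    have : 1 < p ^ 2 := Nat.one_lt_pow (by norm_num) hp.one_lt
    omega
  apply le_antisymm
  · apply Helper22.le_of_hyperplane_centralizers_le p B X hBel hX.2.1 hBX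
    intro D hD hDi
    -- a subgroup `D'` of index exactly `p` with `C(D) ≤ C(D')`
    have hex : ∃ D' : Subgroup G, D' ≤ B ∧ D'.relIndex B = p ∧ D' ≤ D := by
      rcases Helper22.relIndex_eq_one_or_prime p hBp hDi with h1 | h1
      · obtain ⟨D', hD', hi⟩ := Helper22.exists_le_relIndex_eq_prime p B hBp hBne
        exact ⟨D', hD', hi, hD'.trans (Subgroup.relIndex_eq_one.mp h1)⟩
      · exact ⟨D, hD, h1, le_rfl⟩
    obtain ⟨D', hD', hi, hle⟩ := hex
    have h1 : X ⊓ Subgroup.centralizer (D : Set G) ≤ X ⊓ Cfsg.signalizerInf D' θ := by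
      refine le_inf inf_le_left ?_
      refine le_trans (inf_le_inf_left _ (Subgroup.centralizer_le hle)) ?_
      exact Helper22.inf_centralizer_le_signalizerInf hX (hD'.trans hB)
    exact h1.trans (le_iSup (fun D : {D : Subgroup G // D ≤ B ∧ D.relIndex B = p} =>
      X ⊓ Cfsg.signalizerInf (D : Subgroup G) θ) ⟨D', hD', hi⟩)
  · exact iSup_le (fun D => inf_le_left)

end Cfsg.Agent.S1331
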