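import Cfsg.Statements.S1335
import Mathlib

set_option autoImplicit false
open Cfsg

namespace Cfsg.Agent.S1335

open Subgroup

/-- `PRankLE` transfers along an isomorphism. -/
theorem pRankLE_of_equiv {A B : Type*} [Group A] [Group B] (e : A ≃* B) (p k : ℕ)
    (h : Cfsg.PRankLE p k B) : Cfsg.PRankLE p k A := by
  intro S hS hexp
  have h1 : IsMulCommutative (S.map (e : A →* B)) := inferInstance
  have h2 : ∀ b ∈ S.map (e : A →* B), b ^ p = 1 := by
    rintro _ ⟨a, ha, rfl⟩
    show e a ^ p = 1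
    rw [← map_pow, hexp a ha, map_one]
  have h3 := h _ h1 h2
  rwa [Subgroup.card_map_of_injective e.injective] at h3

/-- Let H be a subgroup of the finite group G, p a prime, k ≥ 1 and P a Sylow p-subgroup of H of p-rank at least k. If N_G(X) ≤ H for every subgroup X of P of p-rank at least k, then P is a Sylow p-subgroup of G. -/
theorem result {G : Type*} [Group G] [Finite G] {p : ℕ} [Fact p.Prime] (k : ℕ) (hk : 1 ≤ k) (H : Subgroup G) (P : Sylow p ↥H) (hP : ¬ Cfsg.PRankLE p (k - 1) ↥(P : Subgroup ↥H)) (hΓ : (∀ X : Subgroup G, X ≤ (P : Subgroup ↥H).map H.subtype → ¬ Cfsg.PRankLE p (k - 1) ↥X → Subgroup.normalizer (X : Set G) ≤ H)) : ∃ Q : Sylow p G, (Q : Subgroup G) = (P : Subgroup ↥H).map H.subtype := by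
  have hP'rank : ¬ Cfsg.PRankLE p (k - 1) ↥((P : Subgroup ↥H).map H.subtype) := by
    intro h
    exact hP (pRankLE_of_equiv ((P : Subgroup ↥H).equivMapOfInjective H.subtype
      H.subtype_injective) p (k - 1) h)
  have hN : normalizer (((P : Subgroup ↥H).map H.subtype : Subgroup G) : Set G) ≤ H :=
    hΓ _ le_rfl hP'rank
  have hP'p : IsPGroup p ((P : Subgroup ↥H).map H.subtype) := P.isPGroup'.map _
  obtain ⟨Q, hQ⟩ := hP'p.exists_le_sylow
  refine ⟨Q, ?_⟩
  by_contra hne
  have hlt : (P : Subgroup ↥H).map H.subtype < (Q : Subgroup G) := lt_of_le_of_ne hQ (Ne.symm hne)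
  -- normaliser growth inside the `p`-group `Q`
  have hnil : Group.IsNilpotent (Q : Subgroup G) := Q.isPGroup'.isNilpotent
  have hnc : NormalizerCondition (Q : Subgroup G) := Group.normalizerCondition_of_isNilpotent
  have hlt' : ((P : Subgroup ↥H).map H.subtype).subgroupOf (Q : Subgroup G) < ⊤ := by
    rw [lt_top_iff_ne_top, Ne, subgroupOf_eq_top]
    exact not_le_of_gt hlt
  have h1 := hnc _ hlt'
  rw [← subgroupOf_normalizer_eq hQ] at h1
  obtain ⟨x, hx1, hx2⟩ := SetLike.exists_of_lt h1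
  rw [mem_subgroupOf] at hx1 hx2
  -- `R = N_Q(P')` is a `p`-subgroup of `H` properly containing `P'`
  have hR : IsPGroup p ↥((Q : Subgroup G) ⊓
      normalizer (((P : Subgroup ↥H).map H.subtype : Subgroup G) : Set G)) :=
    Q.isPGroup'.to_le inf_le_left
  have hRH : (Q : Subgroup G) ⊓
      normalizer (((P : Subgroup ↥H).map H.subtype : Subgroup G) : Set G) ≤ H :=
    inf_le_right.trans hN
  have hPR : (P : Subgroup ↥H) ≤ ((Q : Subgroup G) ⊓
      normalizer (((P : Subgroup ↥H).map H.subtype : Subgroup G) : Set G)).subgroupOf H := by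
    intro y hy
    rw [mem_subgroupOf]
    have hy' : (y : G) ∈ (P : Subgroup ↥H).map H.subtype := ⟨y, hy, rfl⟩
    exact ⟨hQ hy', le_normalizer hy'⟩
  have heq : ((Q : Subgroup G) ⊓
      normalizer (((P : Subgroup ↥H).map H.subtype : Subgroup G) : Set G)).subgroupOf H =
      (P : Subgroup ↥H) := P.3 (hR.comap_subtype (K := H)) hPR
  have hxmem : (x : G) ∈ (Q : Subgroup G) ⊓
      normalizer (((P : Subgroup ↥H).map H.subtype : Subgroup G) : Set G) :=
    Subgroup.mem_inf.mpr ⟨x.2, hx1⟩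
  have hxR : (⟨(x : G), hRH hxmem⟩ : H) ∈ ((Q : Subgroup G) ⊓
      normalizer (((P : Subgroup ↥H).map H.subtype : Subgroup G) : Set G)).subgroupOf H := by
    rw [mem_subgroupOf]
    exact hxmem
  rw [heq] at hxR
  exact hx2 ⟨_, hxR, rfl⟩

end Cfsg.Agent.S1335
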