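import Cfsg.Statements.S1337
import Cfsg.Agent.Helper50.NormalESq

set_option autoImplicit false
open Cfsg

namespace Cfsg.Agent.S1337

/-- Let P be a finite p-group of p-rank greater than 2. Then P has a normal elementary abelian subgroup U of order p², and for every elementary abelian X ≤ P with |X| ≥ p²: X is joined to U by a chain of pairwise commuting elementary abelian subgroups of order ≥ p² if and only if C_P(X) has p-rank greater than 2. -/
theorem result {P : Type*} [Group P] [Finite P] (p : ℕ) [Fact p.Prime] (hP : IsPGroup p P) (hrk : ¬ Cfsg.PRankLE p 2 P) : ∃ U : Subgroup P, U.Normal ∧ Cfsg.IsElementaryAbelian p U ∧ Nat.card ↥U = p ^ 2 ∧ ∀ X : Subgroup P, Cfsg.IsElementaryAbelian p X → p ^ 2 ≤ Nat.card ↥X → (Relation.ReflTransGen (fun A B : Subgroup P => Cfsg.IsElementaryAbelian p A ∧ p ^ 2 ≤ Nat.card ↥A ∧ Cfsg.IsElementaryAbelian p B ∧ p ^ 2 ≤ Nat.card ↥B ∧ ∀ a ∈ A, ∀ b ∈ B, a * b = b * a) X U ↔ ¬ Cfsg.PRankLE p 2 ↥(Subgroup.centralizer (X : Set P))) := by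
  have hp := (Fact.out : p.Prime)
  obtain ⟨z, u, h⟩ := Cfsg.Agent.Helper50.exists_goodPair hP hrk
  have hUel : IsElementaryAbelian p (Subgroup.zpowers z ⊔ Subgroup.zpowers u) :=
    h.isElementaryAbelian
  have hUcard : Nat.card ↥(Subgroup.zpowers z ⊔ Subgroup.zpowers u) = p ^ 2 := h.card
  obtain ⟨U, hU⟩ : ∃ U : Subgroup P, U = Subgroup.zpowers z ⊔ Subgroup.zpowers u := ⟨_, rfl⟩
  rw [← hU] at hUel hUcard
  have hUn : U.Normal := hU ▸ h.normal
  have hcl : ∀ F : Subgroup P,
      Nat.card ↥F ≤ p * Nat.card ↥(F ⊓ Subgroup.centralizer (U : Set P)) := by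
    intro F; rw [hU]; exact h.card_le F
  refine ⟨U, hUn, hUel, hUcard, ?_⟩
  have hself : ∀ A : Subgroup P, IsElementaryAbelian p A →
      A ≤ Subgroup.centralizer (A : Set P) := by
    intro A hA x hx
    rw [Subgroup.mem_centralizer_iff]
    intro y hy
    exact congrArg Subtype.val (hA.1.is_comm.comm ⟨y, hy⟩ ⟨x, hx⟩)
  have hpp : p < p ^ 2 := by
    have := hp.one_lt
    nlinarith
  -- `C(U)` has rank `> 2`
  have hCU : ¬ PRankLE p 2 ↥(Subgroup.centralizer (U : Set P)) := by
    intro hR
    rw [Cfsg.Agent.Helper50.pRankLE_subgroup_iff] at hR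
    unfold PRankLE at hrk
    push Not at hrk
    obtain ⟨E, hEc, hEexp, hEcard⟩ := hrk
    have hE : IsElementaryAbelian p E := ⟨hEc, hEexp⟩
    have hDcard : p ^ 2 ≤ Nat.card ↥(E ⊓ Subgroup.centralizer (U : Set P)) := by
      apply Cfsg.Agent.Helper50.sq_le_card_of_lt hP
      have h1 := hcl E
      by_contra hle
      rw [not_lt] at hle
      have h2 : p * Nat.card ↥(E ⊓ Subgroup.centralizer (U : Set P)) ≤ p * p :=
        Nat.mul_le_mul_left p hle
      nlinarith
    have hDel : IsElementaryAbelian p (E ⊓ Subgroup.centralizer (U : Set P)) :=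
      Cfsg.Agent.Helper50.isElementaryAbelian_of_le hE inf_le_left
    have hDU : ∀ a ∈ E ⊓ Subgroup.centralizer (U : Set P), ∀ b ∈ U, a * b = b * a := by
      intro a ha b hb
      exact (Subgroup.mem_centralizer_iff.mp ha.2 b hb).symm
    have hV : IsElementaryAbelian p (E ⊓ Subgroup.centralizer (U : Set P) ⊔ U) :=
      Cfsg.Agent.Helper50.isElementaryAbelian_sup hDel hUel hDU
    have hVle : E ⊓ Subgroup.centralizer (U : Set P) ⊔ U ≤ Subgroup.centralizer (U : Set P) :=
      sup_le inf_le_right (hself U hUel)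
    have hVcard := hR _ hVle hV
    have hVU : U = E ⊓ Subgroup.centralizer (U : Set P) ⊔ U :=
      Subgroup.eq_of_le_of_card_ge le_sup_right (by rw [hUcard]; exact hVcard)
    have hDleU : E ⊓ Subgroup.centralizer (U : Set P) ≤ U := by
      intro x hx
      rw [hVU]; exact Subgroup.mem_sup_left hx
    have hDeqU : E ⊓ Subgroup.centralizer (U : Set P) = U :=
      Subgroup.eq_of_le_of_card_ge hDleU (by rw [hUcard]; exact hDcard)
    have hUE : U ≤ E := by
      intro x hx
      have : x ∈ E ⊓ Subgroup.centralizer (U : Set P) := by rw [hDeqU]; exact hx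
      exact this.1
    have hEle : E ≤ Subgroup.centralizer (U : Set P) := by
      intro x hx
      rw [Subgroup.mem_centralizer_iff]
      intro y hy
      exact congrArg Subtype.val (hEc.is_comm.comm ⟨y, hUE hy⟩ ⟨x, hx⟩)
    have := hR E hEle hE
    omega
  intro X hX hXcard
  constructor
  · intro hchain hR
    have key : ∀ A : Subgroup P, Relation.ReflTransGen (fun A B : Subgroup P =>
        Cfsg.IsElementaryAbelian p A ∧ p ^ 2 ≤ Nat.card ↥A ∧ Cfsg.IsElementaryAbelian p B ∧
          p ^ 2 ≤ Nat.card ↥B ∧ ∀ a ∈ A, ∀ b ∈ B, a * b = b * a) A U →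
        PRankLE p 2 ↥(Subgroup.centralizer (A : Set P)) → A = U := by
      intro A hA
      induction hA using Relation.ReflTransGen.head_induction_on with
      | refl => intro _; rfl
      | @head A B h' _ ih =>
        intro hRA
        obtain ⟨hAel, hAcard, hBel, hBcard, hAB⟩ := h'
        have hRA' := (Cfsg.Agent.Helper50.pRankLE_subgroup_iff _).mp hRA
        have hS : IsElementaryAbelian p (A ⊔ B) :=
          Cfsg.Agent.Helper50.isElementaryAbelian_sup hAel hBel hAB
        have hSle : A ⊔ B ≤ Subgroup.centralizer (A : Set P) := by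
          apply sup_le (hself A hAel)
          intro b hb
          rw [Subgroup.mem_centralizer_iff]
          intro a ha
          exact hAB a ha b hb
        have hScard := hRA' (A ⊔ B) hSle hS
        have hA' : A = A ⊔ B :=
          Subgroup.eq_of_le_of_card_ge le_sup_left (le_trans hScard hAcard)
        have hB' : B = A ⊔ B :=
          Subgroup.eq_of_le_of_card_ge le_sup_right (le_trans hScard hBcard)
        have hAB' : A = B := hA'.trans hB'.symm
        rw [hAB'] at hRA ⊢
        exact ih hRA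
    have hXU := key X hchain hR
    rw [hXU] at hR
    exact hCU hR
  · intro hR
    rw [Cfsg.Agent.Helper50.pRankLE_subgroup_iff] at hR
    push Not at hR
    obtain ⟨E', hE'le, hE'el, hE'card⟩ := hR
    have hXE' : ∀ a ∈ X, ∀ b ∈ E', a * b = b * a := by
      intro a ha b hb
      exact (Subgroup.mem_centralizer_iff.mp (hE'le hb) a ha)
    have hF : IsElementaryAbelian p (X ⊔ E') :=
      Cfsg.Agent.Helper50.isElementaryAbelian_sup hX hE'el hXE'
    have hFcard : p ^ 2 < Nat.card ↥(X ⊔ E') :=
      lt_of_lt_of_le hE'card (Subgroup.card_le_of_le le_sup_right)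
    have hFc : ∀ x ∈ X ⊔ E', ∀ y ∈ X ⊔ E', x * y = y * x := fun x hx y hy =>
      congrArg Subtype.val (hF.1.is_comm.comm ⟨x, hx⟩ ⟨y, hy⟩)
    have hDcard : p ^ 2 ≤ Nat.card ↥((X ⊔ E') ⊓ Subgroup.centralizer (U : Set P)) := by
      apply Cfsg.Agent.Helper50.sq_le_card_of_lt hP
      have h1 := hcl (X ⊔ E')
      by_contra hle
      rw [not_lt] at hle
      have h2 : p * Nat.card ↥((X ⊔ E') ⊓ Subgroup.centralizer (U : Set P)) ≤ p * p :=
        Nat.mul_le_mul_left p hle
      nlinarith
    have hDel : IsElementaryAbelian p ((X ⊔ E') ⊓ Subgroup.centralizer (U : Set P)) :=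
      Cfsg.Agent.Helper50.isElementaryAbelian_of_le hF inf_le_left
    refine Relation.ReflTransGen.head (b := X ⊔ E') ?_
      (Relation.ReflTransGen.head (b := (X ⊔ E') ⊓ Subgroup.centralizer (U : Set P)) ?_
        (Relation.ReflTransGen.single ?_))
    · exact ⟨hX, hXcard, hF, hFcard.le, fun a ha b hb => hFc a (Subgroup.mem_sup_left ha) b hb⟩
    · exact ⟨hF, hFcard.le, hDel, hDcard, fun a ha b hb => hFc a ha b hb.1⟩
    · exact ⟨hDel, hDcard, hUel, hUcard.ge, fun a ha b hb =>
        (Subgroup.mem_centralizer_iff.mp ha.2 b hb).symm⟩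

end Cfsg.Agent.S1337
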