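import Cfsg.Statements.S1338
import Cfsg.Agent.S0122

set_option autoImplicit false
open Cfsg

namespace Cfsg.Agent.S1338

open Subgroup Cfsg.Agent.Helper22

/-- Fibre bound: if the fibres of `f` on `S` lie in cosets of `K`, then `|S| ≤ |T| |K|` for any
set `T` containing `f '' S`. -/
theorem card_le_card_mul_of_fiber {G : Type*} [Group G] [Finite G] (S T : Set G) (f : G → G)
    (K : Subgroup G) (hT : ∀ s ∈ S, f s ∈ T)
    (h : ∀ s ∈ S, ∀ s' ∈ S, f s = f s' → s⁻¹ * s' ∈ K) :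
    Nat.card S ≤ Nat.card T * Nat.card K := by
  classical
  have hex : ∀ t : T, ∃ r : G, (∃ s ∈ S, f s = t) → (r ∈ S ∧ f r = t) := by
    intro t
    by_cases ht : ∃ s ∈ S, f s = t
    · obtain ⟨s, hs, hst⟩ := ht
      exact ⟨s, fun _ => ⟨hs, hst⟩⟩
    · exact ⟨1, fun h => absurd h ht⟩
  choose r hr using hex
  have hmem : ∀ s : S, (r ⟨f s, hT s s.2⟩)⁻¹ * (s : G) ∈ K := by
    intro s
    obtain ⟨h1, h2⟩ := hr ⟨f s, hT s s.2⟩ ⟨s, s.2, rfl⟩
    exact h _ h1 _ s.2 h2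
  rw [← Nat.card_prod]
  apply Nat.card_le_card_of_injective (fun s : S =>
    ((⟨f s, hT s s.2⟩ : T), (⟨(r ⟨f s, hT s s.2⟩)⁻¹ * (s : G), hmem s⟩ : K)))
  intro s s' hss
  have h1 : (⟨f s, hT s s.2⟩ : T) = ⟨f s', hT s' s'.2⟩ := congrArg Prod.fst hss
  have h2 := congrArg (fun z => (z.2 : G)) hss
  simp only at h2
  rw [h1] at h2
  exact Subtype.ext (mul_left_cancel h2)

theorem comm_aux {C : Type*} [CommGroup C] (u v w : C) (hv : v ^ 3 = 1) (hw : w ^ 3 = 1) :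
    u * w⁻¹ * v * w⁻¹ = w * v⁻¹ * u * v⁻¹ := by
  have hw3 : w * w * w = 1 := by rw [← hw]; simp [pow_succ]
  have hv3 : v * v * v = 1 := by rw [← hv]; simp [pow_succ]
  have hw' : w⁻¹ = w * w := inv_eq_of_mul_eq_one_right (by rw [← mul_assoc]; exact hw3)
  have hv' : v⁻¹ = v * v := inv_eq_of_mul_eq_one_right (by rw [← mul_assoc]; exact hv3)
  rw [hw', hv']
  have h1 : u * (w * w) * v * (w * w) = (u * v * w) * (w * w * w) := by ac_rfl
  have h2 : w * (v * v) * u * (v * v) = (u * v * w) * (v * v * v) := by ac_rfl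
  rw [h1, h2, hw3, hv3]

open scoped IsMulCommutative in
/-- An element of order dividing `3` has at least `9` fixed points on a normal elementary
abelian `3`-subgroup of order `81`: its Jordan blocks have size at most `3`. -/
theorem nine_le {P : Type*} [Group P] [Finite P] (hP : IsPGroup 3 P) (B : Subgroup P)
    [hBn : B.Normal] (hB : Cfsg.IsElementaryAbelian 3 B) (hB4 : Nat.card B = 3 ^ 4) (x : P)
    (hx : x ^ 3 = 1) : 3 ^ 2 ≤ Nat.card (B ⊓ centralizer {x} : Subgroup P) := by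
  have : Fact (Nat.Prime 3) := ⟨Nat.prime_three⟩
  have hfB : ∀ b ∈ B, x * b * x⁻¹ * b⁻¹ ∈ B := fun b hb =>
    B.mul_mem (hBn.conj_mem b hb x) (B.inv_mem hb)
  have hfib : ∀ b b' : P, x * b * x⁻¹ * b⁻¹ = x * b' * x⁻¹ * b'⁻¹ →
      b⁻¹ * b' ∈ centralizer {x} := by
    intro b b' h
    rw [Subgroup.mem_centralizer_singleton_iff]
    have e : x * (b⁻¹ * b') * x⁻¹ =
        b⁻¹ * ((x * b * x⁻¹ * b⁻¹)⁻¹ * (x * b' * x⁻¹ * b'⁻¹)) * b' := by group
    rw [h, inv_mul_cancel, mul_one] at e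
    exact (mul_inv_eq_iff_eq_mul.mp e).symm
  have hff : ∀ b ∈ B, x * (x * b * x⁻¹ * b⁻¹) * x⁻¹ * (x * b * x⁻¹ * b⁻¹)⁻¹ ∈
      B ⊓ centralizer {x} := by
    intro b hb
    have hb₁ : x * b * x⁻¹ ∈ B := hBn.conj_mem b hb x
    have hb₂ : x * (x * b * x⁻¹) * x⁻¹ ∈ B := hBn.conj_mem _ hb₁ x
    refine Subgroup.mem_inf.mpr ⟨hfB _ (hfB b hb), ?_⟩
    rw [Subgroup.mem_centralizer_singleton_iff]
    have := hB.1
    have hc := comm_aux (C := ↥B) ⟨b, hb⟩ ⟨x * b * x⁻¹, hb₁⟩ ⟨x * (x * b * x⁻¹) * x⁻¹, hb₂⟩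
      (Subtype.ext (hB.2 _ hb₁)) (Subtype.ext (hB.2 _ hb₂))
    have hc' : b * (x * (x * b * x⁻¹) * x⁻¹)⁻¹ * (x * b * x⁻¹) * (x * (x * b * x⁻¹) * x⁻¹)⁻¹ =
        (x * (x * b * x⁻¹) * x⁻¹) * (x * b * x⁻¹)⁻¹ * b * (x * b * x⁻¹)⁻¹ :=
      congrArg Subtype.val hc
    have hb₃ : x * (x * (x * b * x⁻¹) * x⁻¹) * x⁻¹ = b := by
      have hx' : x * x * x = 1 := by rw [← hx]; simp [pow_succ]
      have e : x * (x * (x * b * x⁻¹) * x⁻¹) * x⁻¹ = (x * x * x) * b * (x * x * x)⁻¹ := by group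
      rw [e, hx', one_mul, inv_one, mul_one]
    have e1 : x * (x * (x * b * x⁻¹ * b⁻¹) * x⁻¹ * (x * b * x⁻¹ * b⁻¹)⁻¹) * x⁻¹ =
        (x * (x * (x * b * x⁻¹) * x⁻¹) * x⁻¹) * (x * (x * b * x⁻¹) * x⁻¹)⁻¹ * (x * b * x⁻¹) *
          (x * (x * b * x⁻¹) * x⁻¹)⁻¹ := by group
    have e2 : x * (x * b * x⁻¹ * b⁻¹) * x⁻¹ * (x * b * x⁻¹ * b⁻¹)⁻¹ =
        (x * (x * b * x⁻¹) * x⁻¹) * (x * b * x⁻¹)⁻¹ * b * (x * b * x⁻¹)⁻¹ := by group
    rw [hb₃, hc', ← e2] at e1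
    exact (mul_inv_eq_iff_eq_mul.mp e1).symm
  have c1 := card_le_card_mul_of_fiber (B : Set P)
    ((fun b => x * b * x⁻¹ * b⁻¹) '' (B : Set P)) (fun b => x * b * x⁻¹ * b⁻¹)
    (B ⊓ centralizer {x}) (fun s hs => Set.mem_image_of_mem _ hs)
    (fun s hs s' hs' h => Subgroup.mem_inf.mpr ⟨B.mul_mem (B.inv_mem hs) hs', hfib s s' h⟩)
  have c2 := card_le_card_mul_of_fiber ((fun b => x * b * x⁻¹ * b⁻¹) '' (B : Set P))
    ((B ⊓ centralizer {x} : Subgroup P) : Set P) (fun b => x * b * x⁻¹ * b⁻¹)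
    (B ⊓ centralizer {x})
    (by rintro _ ⟨b, hb, rfl⟩; exact hff b hb)
    (by
      rintro _ ⟨b, hb, rfl⟩ _ ⟨b', hb', rfl⟩ h
      exact Subgroup.mem_inf.mpr ⟨B.mul_mem (B.inv_mem (hfB b hb)) (hfB b' hb'), hfib _ _ h⟩)
  obtain ⟨j, hj⟩ := IsPGroup.iff_card.mp (hP.to_subgroup (B ⊓ centralizer {x}))
  have e1 : Nat.card ((B : Set P)) = 3 ^ 4 := hB4
  have e2 : Nat.card (((B ⊓ centralizer {x} : Subgroup P) : Set P)) = 3 ^ j := hj
  rw [e1, hj] at c1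
  rw [e2, hj] at c2
  have h3 : 3 ^ 4 ≤ 3 ^ j * 3 ^ j * 3 ^ j := c1.trans (Nat.mul_le_mul_right _ c2)
  rw [hj]
  apply Nat.pow_le_pow_right (by norm_num)
  by_contra hlt
  push Not at hlt
  have hj1 : j ≤ 1 := by omega
  have h4 : 3 ^ j ≤ 3 ^ 1 := Nat.pow_le_pow_right (by norm_num) hj1
  have h5 : 3 ^ j * 3 ^ j * 3 ^ j ≤ 3 * 3 * 3 :=
    Nat.mul_le_mul (Nat.mul_le_mul (by simpa using h4) (by simpa using h4)) (by simpa using h4)
  omega

/-- A finite 3-group of 3-rank at least 4 is 2-connected for the prime 3: its commuting graph on elementary abelian subgroups of order ≥ 9 is connected. -/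
theorem result {P : Type*} [Group P] [Finite P] (hP : IsPGroup 3 P) (hrk : ¬ Cfsg.PRankLE 3 3 P) : Cfsg.IsKConnected 3 2 P := by
  have : Fact (Nat.Prime 3) := ⟨Nat.prime_three⟩
  unfold Cfsg.PRankLE at hrk
  push Not at hrk
  obtain ⟨A₀, hA₀c, hA₀e, hA₀card⟩ := hrk
  obtain ⟨n, hn⟩ := IsPGroup.iff_card.mp (hP.to_subgroup A₀)
  have hn4 : 4 ≤ n := by
    by_contra h
    push Not at h
    have h1 : 3 ^ n ≤ 3 ^ 3 := Nat.pow_le_pow_right (by norm_num) (by omega)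
    omega
  obtain ⟨K, hK⟩ := Sylow.exists_subgroup_card_pow_prime 3
    (show 3 ^ 4 ∣ Nat.card A₀ by rw [hn]; exact pow_dvd_pow 3 hn4)
  have hF : Cfsg.IsElementaryAbelian 3 (K.map A₀.subtype) :=
    isElementaryAbelian_of_le ⟨hA₀c, hA₀e⟩ (Subgroup.map_subtype_le K)
  have hF4 : Nat.card (K.map A₀.subtype) = 3 ^ 4 := by
    rw [Subgroup.card_map_of_injective A₀.subtype_injective]; exact hK
  obtain ⟨B, hBn, hB, hB4⟩ := Cfsg.Agent.S0122.result (by norm_num) hP _ hF hF4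
  have := hBn
  have hB2 : 3 ^ 2 ≤ Nat.card B := by rw [hB4]; norm_num
  have hBc : ∀ a ∈ B, ∀ b ∈ B, a * b = b * a := fun a ha b hb =>
    Cfsg.Agent.Helper22.IsElementaryAbelian.comm' hB ha hb
  have hBbot : B ≠ ⊥ := by
    intro h
    rw [h, Subgroup.card_bot] at hB4
    norm_num at hB4
  obtain ⟨z, hzB, hzc, hzo⟩ := Cfsg.Agent.S0126.exists_central_order_p hP B hBbot
  have hzcomm : ∀ g : P, g * z = z * g := fun g => Subgroup.mem_center_iff.mp hzc g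
  have hzV : Cfsg.IsElementaryAbelian 3 (Subgroup.zpowers z) :=
    isElementaryAbelian_of_le hB (Subgroup.zpowers_le.mpr hzB)
  -- every vertex is joined to `B`
  have hXB : ∀ X : Subgroup P, Cfsg.IsElementaryAbelian 3 X → 3 ^ 2 ≤ Nat.card X →
      Relation.ReflTransGen (fun A B : Subgroup P => Cfsg.IsElementaryAbelian 3 A ∧
        3 ^ 2 ≤ Nat.card ↥A ∧ Cfsg.IsElementaryAbelian 3 B ∧ 3 ^ 2 ≤ Nat.card ↥B ∧
        ∀ a ∈ A, ∀ b ∈ B, a * b = b * a) X B := by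
    intro X hX hX2
    by_cases hXleB : X ≤ B
    · exact Relation.ReflTransGen.single
        ⟨hX, hX2, hB, hB2, fun a ha b hb => hBc a (hXleB ha) b hb⟩
    · obtain ⟨x, hxX, hxB⟩ : ∃ x ∈ X, x ∉ B := by
        by_contra h
        push Not at h
        exact hXleB h
      have hx3 : x ^ 3 = 1 := hX.2 x hxX
      have hxz : x ∉ Subgroup.zpowers z := fun h => hxB (Subgroup.zpowers_le.mpr hzB h)
      obtain ⟨hY₁, hY₁c⟩ := elemAb_sup_zpowers' (Subgroup.zpowers z) hzV x hxz hx3 (by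
        intro v hv
        obtain ⟨k, rfl⟩ := Subgroup.mem_zpowers_iff.mp hv
        exact (Commute.zpow_right (show Commute x z from hzcomm x) k).eq)
      have hY₁9 : 3 ^ 2 ≤ Nat.card (Subgroup.zpowers z ⊔ Subgroup.zpowers x : Subgroup P) := by
        rw [hY₁c, Nat.card_zpowers, hzo]; norm_num
      have hY₂ : Cfsg.IsElementaryAbelian 3 (B ⊓ centralizer {x} : Subgroup P) :=
        isElementaryAbelian_of_le hB inf_le_left
      have hY₂9 := nine_le hP B hB hB4 x hx3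
      have hXc : ∀ a ∈ X, ∀ b ∈ X, a * b = b * a := fun a ha b hb =>
        Cfsg.Agent.Helper22.IsElementaryAbelian.comm' hX ha hb
      refine Relation.ReflTransGen.head (b := Subgroup.zpowers z ⊔ Subgroup.zpowers x)
        ⟨hX, hX2, hY₁, hY₁9, ?_⟩ (Relation.ReflTransGen.head (b := B ⊓ centralizer {x})
        ⟨hY₁, hY₁9, hY₂, hY₂9, ?_⟩ (Relation.ReflTransGen.single
        ⟨hY₂, hY₂9, hB, hB2, fun a ha b hb => hBc a (Subgroup.mem_inf.mp ha).1 b hb⟩))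
      · intro a ha b hb
        have hle : Subgroup.zpowers z ⊔ Subgroup.zpowers x ≤ centralizer {a} :=
          sup_le (Subgroup.zpowers_le.mpr (Subgroup.mem_centralizer_singleton_iff.mpr
            (hzcomm a).symm))
            (Subgroup.zpowers_le.mpr (Subgroup.mem_centralizer_singleton_iff.mpr
              (hXc x hxX a ha)))
        exact (Subgroup.mem_centralizer_singleton_iff.mp (hle hb)).symm
      · intro a ha b hb
        have hle : Subgroup.zpowers z ⊔ Subgroup.zpowers x ≤ centralizer {b} :=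
          sup_le (Subgroup.zpowers_le.mpr (Subgroup.mem_centralizer_singleton_iff.mpr
            (hzcomm b).symm))
            (Subgroup.zpowers_le.mpr (Subgroup.mem_centralizer_singleton_iff.mpr
              (Subgroup.mem_centralizer_singleton_iff.mp (Subgroup.mem_inf.mp hb).2).symm))
        exact Subgroup.mem_centralizer_singleton_iff.mp (hle ha)
  have hrev : ∀ X Y : Subgroup P,
      Relation.ReflTransGen (fun A B : Subgroup P => Cfsg.IsElementaryAbelian 3 A ∧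
        3 ^ 2 ≤ Nat.card ↥A ∧ Cfsg.IsElementaryAbelian 3 B ∧ 3 ^ 2 ≤ Nat.card ↥B ∧
        ∀ a ∈ A, ∀ b ∈ B, a * b = b * a) X Y →
      Relation.ReflTransGen (fun A B : Subgroup P => Cfsg.IsElementaryAbelian 3 A ∧
        3 ^ 2 ≤ Nat.card ↥A ∧ Cfsg.IsElementaryAbelian 3 B ∧ 3 ^ 2 ≤ Nat.card ↥B ∧
        ∀ a ∈ A, ∀ b ∈ B, a * b = b * a) Y X := by
    intro X Y h
    induction h with
    | refl => exact Relation.ReflTransGen.refl
    | tail _ hbc ih =>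
      obtain ⟨h1, h2, h3, h4, h5⟩ := hbc
      exact Relation.ReflTransGen.head
        ⟨h3, h4, h1, h2, fun a ha b hb => (h5 b hb a ha).symm⟩ ih
  intro E E' hE hE2 hE' hE'2
  exact (hXB E hE hE2).trans (hrev _ _ (hXB E' hE' hE'2))

end Cfsg.Agent.S1338
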