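import Cfsg.Statements.S1341
import Cfsg.Agent.Helper22.ExtLayer

set_option autoImplicit false
open Cfsg

namespace Cfsg.Agent.S1341

open Subgroup Cfsg.Agent.Helper22

/-- For a finite group X and any Sylow 2-subgroup T of L_{2'}(X)O_{2',2}(X): the extended 2-layer L*_{2'}(X) equals L_{2'}(X) · O(X) · O(C_X(T)). In particular the product on the right does not depend on the choice of T. -/
theorem result {X : Type*} [Group X] [Finite X] (T : Sylow 2 ↥(Cfsg.pLayer 2 X ⊔ Cfsg.pPrimePCore 2 X)) : Cfsg.extendedTwoLayer X = Cfsg.pLayer 2 X ⊔ Cfsg.oddCore X ⊔ ((Cfsg.oddCore ↥(Subgroup.centralizer (((T : Subgroup ↥(Cfsg.pLayer 2 X ⊔ Cfsg.pPrimePCore 2 X)).map (Cfsg.pLayer 2 X ⊔ Cfsg.pPrimePCore 2 X).subtype : Subgroup X) : Set X))).map (Subgroup.centralizer (((T : Subgroup ↥(Cfsg.pLayer 2 X ⊔ Cfsg.pPrimePCore 2 X)).map (Cfsg.pLayer 2 X ⊔ Cfsg.pPrimePCore 2 X).subtype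 : Subgroup X) : Set X)).subtype) := by
  have hL := pLayer_normal 2 X
  have hQ := pPrimePCore_normal 2 X
  have : Fact (Nat.Prime 2) := ⟨Nat.prime_two⟩
  show Cfsg.pLayer 2 X ⊔ Cfsg.oddCore X ⊔
      (⨆ T₁ : Sylow 2 ↥(Cfsg.pLayer 2 X ⊔ Cfsg.pPrimePCore 2 X),
        pPrimeCoreCentralizer 2 ((T₁ : Subgroup ↥(Cfsg.pLayer 2 X ⊔ Cfsg.pPrimePCore 2 X)).map
          (Cfsg.pLayer 2 X ⊔ Cfsg.pPrimePCore 2 X).subtype)) =
    Cfsg.pLayer 2 X ⊔ Cfsg.oddCore X ⊔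
      pPrimeCoreCentralizer 2 ((T : Subgroup ↥(Cfsg.pLayer 2 X ⊔ Cfsg.pPrimePCore 2 X)).map
          (Cfsg.pLayer 2 X ⊔ Cfsg.pPrimePCore 2 X).subtype)
  apply le_antisymm
  · apply sup_le le_sup_left
    apply iSup_le
    intro T₁
    obtain ⟨n, hnN, hn⟩ := sylow_conj_of_subgroup _ T T₁
    rw [hn]
    have h5 := pPrimeCoreCentralizer_map_equiv 2 (MulAut.conj n)
      ((T : Subgroup ↥(Cfsg.pLayer 2 X ⊔ Cfsg.pPrimePCore 2 X)).map
          (Cfsg.pLayer 2 X ⊔ Cfsg.pPrimePCore 2 X).subtype)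
    have h6 : pPrimeCoreCentralizer 2 (((T : Subgroup ↥(Cfsg.pLayer 2 X ⊔ Cfsg.pPrimePCore 2 X)).map
          (Cfsg.pLayer 2 X ⊔ Cfsg.pPrimePCore 2 X).subtype).map (MulAut.conj n).toMonoidHom) =
        (pPrimeCoreCentralizer 2 ((T : Subgroup ↥(Cfsg.pLayer 2 X ⊔ Cfsg.pPrimePCore 2 X)).map
          (Cfsg.pLayer 2 X ⊔ Cfsg.pPrimePCore 2 X).subtype)).map (MulAut.conj n).toMonoidHom := h5
    rw [h6]
    rintro _ ⟨w, hw, rfl⟩
    have hn' : n ∈ ((Cfsg.pLayer 2 X ⊔ Cfsg.pPrimePCore 2 X : Subgroup X) : Set X) := hnN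
    rw [normal_mul] at hn'
    obtain ⟨l, hl, q, hq, rfl⟩ := hn'
    have hq' := pPrimePCore_le_sup_sylow (Cfsg.pLayer 2 X ⊔ Cfsg.pPrimePCore 2 X) le_sup_right T hq
    have hq'' : q ∈ ((Cfsg.pPrimeCore 2 X ⊔
        (T : Subgroup ↥(Cfsg.pLayer 2 X ⊔ Cfsg.pPrimePCore 2 X)).map
          (Cfsg.pLayer 2 X ⊔ Cfsg.pPrimePCore 2 X).subtype : Subgroup X) : Set X) := hq'
    rw [normal_mul] at hq''
    obtain ⟨o, ho, t, ht, rfl⟩ := hq''
    have hwc := pPrimeCoreCentralizer_le_centralizer 2 _ hw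
    have htw : t * w = w * t := (mem_centralizer_iff.mp hwc) t ht
    have hconj : (MulAut.conj (l * (o * t))).toMonoidHom w = (l * o) * w * (l * o)⁻¹ := by
      show l * (o * t) * w * (l * (o * t))⁻¹ = (l * o) * w * (l * o)⁻¹
      calc l * (o * t) * w * (l * (o * t))⁻¹ = l * o * (t * w) * t⁻¹ * o⁻¹ * l⁻¹ := by group
        _ = l * o * (w * t) * t⁻¹ * o⁻¹ * l⁻¹ := by rw [htw]
        _ = _ := by group
    rw [hconj]
    have hlo : l * o ∈ Cfsg.pLayer 2 X ⊔ Cfsg.oddCore X ⊔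
        pPrimeCoreCentralizer 2 ((T : Subgroup ↥(Cfsg.pLayer 2 X ⊔ Cfsg.pPrimePCore 2 X)).map
          (Cfsg.pLayer 2 X ⊔ Cfsg.pPrimePCore 2 X).subtype) :=
      mem_sup_left (mul_mem (mem_sup_left hl) (mem_sup_right ho))
    exact mul_mem (mul_mem hlo (mem_sup_right hw)) (inv_mem hlo)
  · apply sup_le le_sup_left
    exact le_trans (le_iSup (fun T₁ : Sylow 2 ↥(Cfsg.pLayer 2 X ⊔ Cfsg.pPrimePCore 2 X) =>
      pPrimeCoreCentralizer 2 ((T₁ : Subgroup ↥(Cfsg.pLayer 2 X ⊔ Cfsg.pPrimePCore 2 X)).map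
          (Cfsg.pLayer 2 X ⊔ Cfsg.pPrimePCore 2 X).subtype)) T) le_sup_right

end Cfsg.Agent.S1341
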