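import Cfsg.Statements.S1342
import Cfsg.Agent.Helper22.ExtLayer

set_option autoImplicit false
open Cfsg

namespace Cfsg.Agent.S1342

open Subgroup Cfsg.Agent.Helper22

/-- The extended 2-layer of a finite group is a normal subgroup. -/
theorem result {X : Type*} [Group X] [Finite X] : (Cfsg.extendedTwoLayer X).Normal := by
  have h1 := pLayer_normal 2 X
  have h2 := pPrimePCore_normal 2 X
  have hN : (Cfsg.pLayer 2 X ⊔ Cfsg.pPrimePCore 2 X).Normal := inferInstance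
  have h3 : (⨆ T : Sylow 2 ↥(Cfsg.pLayer 2 X ⊔ Cfsg.pPrimePCore 2 X),
      pPrimeCoreCentralizer 2 ((T : Subgroup ↥(Cfsg.pLayer 2 X ⊔ Cfsg.pPrimePCore 2 X)).map
        (Cfsg.pLayer 2 X ⊔ Cfsg.pPrimePCore 2 X).subtype)).Normal := by
    rw [← sSup_range]
    apply sSup_normal_of_conj_mem
    rintro _ ⟨T, rfl⟩ g
    obtain ⟨T', hT'⟩ := exists_sylow_map_conj (Cfsg.pLayer 2 X ⊔ Cfsg.pPrimePCore 2 X) T g
    refine ⟨T', ?_⟩
    show pPrimeCoreCentralizer 2 _ = (pPrimeCoreCentralizer 2 _).map _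
    rw [hT']
    exact pPrimeCoreCentralizer_map_equiv 2 (MulAut.conj g) _
  have h4 : (Cfsg.pLayer 2 X ⊔ Cfsg.oddCore X).Normal := inferInstance
  exact @Subgroup.sup_normal _ _ _ _ h4 h3

end Cfsg.Agent.S1342
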