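import Cfsg.Statements.S1344
import Cfsg.Agent.Helper23.ExtLayer

set_option autoImplicit false
open Cfsg

namespace Cfsg.Agent.S1344

/-- Let K be a 2-component of the finite group X. Then K ≤ L*_{2'}(X) and K is normal in L*_{2'}(X). -/
theorem result {X : Type*} [Group X] [Finite X] (K : Subgroup X) (hK : Cfsg.IsPComponent 2 K) : K ≤ Cfsg.extendedTwoLayer X ∧ (K.subgroupOf (Cfsg.extendedTwoLayer X)).Normal := by
  have h1 : K ≤ Cfsg.extendedTwoLayer X := by
    unfold Cfsg.extendedTwoLayer
    exact (Cfsg.Agent.Helper34.pc_le_pLayer hK).trans (le_sup_left.trans le_sup_left)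
  exact ⟨h1, (Subgroup.normal_subgroupOf_iff_le_normalizer h1).mpr
    (Cfsg.Agent.Helper23.extendedTwoLayer_le_normalizer_pc hK)⟩

end Cfsg.Agent.S1344
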