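import Cfsg.Statements.S1348
import Cfsg.Agent.Helper38.StdSL

set_option autoImplicit false
open Cfsg

namespace Cfsg.Agent.S1348

/-- Let F be a finite field of odd order, n ≥ 7 odd, and t ∈ SL(n, F) the diagonal matrix with entries −1, …, −1, 1. Then E(C(t)) is a standard subgroup of SL(n, F). -/
theorem result {F : Type*} [Field F] [Fintype F] [DecidableEq F] (hF : Odd (Fintype.card F)) (n : ℕ) (hn : 7 ≤ n) (hodd : Odd n) (t : Matrix.SpecialLinearGroup (Fin n) F) (ht : (t : Matrix (Fin n) (Fin n) F) = Matrix.diagonal (fun i : Fin n => if (i : ℕ) + 1 = n then (1 : F) else -1)) : Cfsg.IsStandardSubgroup ((Cfsg.layer ↥(Subgroup.centralizer ({t} : Set (Matrix.SpecialLinearGroup (Fin n) F)))).map (Subgroup.centralizer ({t} : Set (Matrix.SpecialLinearGroup (Fin n) F))).subtype) := by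
  have h2 : (2 : F) ≠ 0 := Ring.two_ne_zero (fun h => by
    have h' := FiniteField.even_card_of_char_two h
    rcases hF with ⟨k, hk⟩
    omega)
  obtain ⟨o, ho⟩ : ∃ o : Fin n, (o : ℕ) = n - 1 := ⟨⟨n - 1, by omega⟩, rfl⟩
  have hio : ∀ i : Fin n, ((i : ℕ) + 1 = n) ↔ i = o := fun i =>
    ⟨fun h => Fin.ext (by omega), fun h => by rw [h]; omega⟩
  have ht' : t.1 = Helper38.tmat o := by
    rw [ht]
    unfold Helper38.tmat
    congr 1
    funext i
    by_cases h : i = o
    · rw [if_pos h, if_pos ((hio i).2 h)]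
    · rw [if_neg h, if_neg (fun h' => h ((hio i).1 h'))]
  have h4 : 4 ≤ Fintype.card (Fin n) := by
    rw [Fintype.card_fin]
    omega
  have hodd' : Odd (Fintype.card (Fin n)) := by
    rw [Fintype.card_fin]
    exact hodd
  rw [Helper38.layer_map_eq o t h2 ht' h4]
  exact Helper38.isStandard_range o t h2 ht' h4 hodd'

end Cfsg.Agent.S1348
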