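import Cfsg.Statements.S1386
-- import your own Cfsg.Agent.* helpers here

set_option autoImplicit false
open Cfsg

namespace Cfsg.Agent.S1386

/-- In a finite cyclic group, an element killed by the order of `b` is a power of `b`. -/
theorem mem_zpowers_of_pow_orderOf {C : Type*} [Group C] [Finite C] [IsCyclic C] (b w : C)
    (h : w ^ orderOf b = 1) : w ∈ Subgroup.zpowers b := by
  classical
  have := Fintype.ofFinite C
  have hk : 0 < orderOf b := orderOf_pos b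
  have hle := IsCyclic.card_pow_eq_one_le (α := C) hk
  let T : Finset C := (Finset.univ : Finset C).filter (fun a => a ∈ Subgroup.zpowers b)
  have hTS : T ⊆ (Finset.univ : Finset C).filter (fun a => a ^ orderOf b = 1) := by
    intro a ha
    simp only [T, Finset.mem_filter, Finset.mem_univ, true_and] at ha ⊢
    obtain ⟨n, rfl⟩ := ha
    rw [← zpow_natCast, ← zpow_mul, mul_comm, zpow_mul, zpow_natCast, pow_orderOf_eq_one, one_zpow]
  have hT : T.card = orderOf b := by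
    rw [← Nat.card_zpowers b, Nat.card_eq_fintype_card, Fintype.card_subtype]
  have hEq := Finset.eq_of_subset_of_card_le hTS (by rw [hT]; exact hle)
  have hw : w ∈ (Finset.univ : Finset C).filter (fun a => a ^ orderOf b = 1) := by
    simp [h]
  rw [← hEq] at hw
  simpa [T] using hw

/-- Key step: if `V ≤ W₁ ⊔ V'` elementwise as products, the join is cyclic, and `W₁` meets both trivially,
then `V ≤ V'`. -/
theorem le_of_cyclic_sup {G : Type*} [Group G] [Finite G] (W₁ V V' : Subgroup G)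
    (hcyc : IsCyclic ↥(W₁ ⊔ V')) (hinf' : W₁ ⊓ V' = ⊥) (hinf : W₁ ⊓ V = ⊥)
    (hdec : ∀ b ∈ V, ∃ a ∈ V', ∃ w ∈ W₁, b = a * w) : V ≤ V' := by
  intro b hb
  obtain ⟨a, ha, w, hw, rfl⟩ := hdec b hb
  have haC : a ∈ W₁ ⊔ V' := (le_sup_right : V' ≤ W₁ ⊔ V') ha
  have hwC : w ∈ W₁ ⊔ V' := (le_sup_left : W₁ ≤ W₁ ⊔ V') hw
  have hcomm : a * w = w * a := by
    have := hcyc
    have h1 : (⟨a, haC⟩ : ↥(W₁ ⊔ V')) * ⟨w, hwC⟩ = ⟨w, hwC⟩ * ⟨a, haC⟩ := by
      let _ := IsCyclic.commGroup (α := ↥(W₁ ⊔ V'))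
      exact mul_comm _ _
    exact congrArg Subtype.val h1
  set k := orderOf (a * w) with hk
  have hpow : a ^ k * w ^ k = 1 := by
    rw [← (Commute.mul_pow (show Commute a w from hcomm) k), hk, pow_orderOf_eq_one]
  have hwk : w ^ k = 1 := by
    have h1 : w ^ k ∈ W₁ ⊓ V' := by
      refine Subgroup.mem_inf.2 ⟨pow_mem hw k, ?_⟩
      have : w ^ k = (a ^ k)⁻¹ := eq_inv_of_mul_eq_one_right hpow
      rw [this]
      exact inv_mem (pow_mem ha k)
    rw [hinf'] at h1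
    exact (Subgroup.mem_bot).1 h1
  -- now `w` is a power of `a * w` inside the cyclic group
  have hmem : (⟨w, hwC⟩ : ↥(W₁ ⊔ V')) ∈ Subgroup.zpowers (⟨a * w, mul_mem haC hwC⟩ : ↥(W₁ ⊔ V')) := by
    apply mem_zpowers_of_pow_orderOf
    have : orderOf (⟨a * w, mul_mem haC hwC⟩ : ↥(W₁ ⊔ V')) = k := by
      rw [hk]; exact Subgroup.orderOf_mk _ _
    rw [this]
    ext
    simpa using hwk
  obtain ⟨n, hn⟩ := hmem
  have hn' : (a * w) ^ n = w := by
    have := congrArg Subtype.val hn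
    simpa using this
  have hwV : w ∈ V := by
    rw [← hn']; exact zpow_mem hb n
  have hw1 : w = 1 := by
    have : w ∈ W₁ ⊓ V := Subgroup.mem_inf.2 ⟨hw, hwV⟩
    rw [hinf] at this
    exact (Subgroup.mem_bot).1 this
  rw [hw1, mul_one]
  exact ha

/-- Let G be a finite group, W₁, W₂ subgroups forming a self-normalizing cyclic pair, S a subgroup with W₂ ≤ S and W₁ a complement to S' in S, and (W₁, U, W₂') type-P data for S. Then W₂' = W₂ (that is, C_{S'}(W₁) = W₂). -/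
theorem result {G : Type*} [Group G] [Finite G] (W₁ W₂ S U W₂' : Subgroup G) (hW : Cfsg.IsSelfNormalizingCyclic W₁ W₂)
    (hSW : Cfsg.IsComplIn ⁅S, S⁆ W₁ S) (hW₂S : W₂ ≤ S) (hP : Cfsg.IsTypePWith S W₁ U W₂') :
    W₂' = W₂ := by
  obtain ⟨hW1ne, hW2ne, hinf, hcomm, hcyc, hnorm⟩ := hW
  obtain ⟨hS'S, hW1S, hS'W1, hprod⟩ := hSW
  have hcent := hP.W₂_centralizer
  obtain ⟨-, hW2'ne, hinf', hcomm', hcyc', hnorm'⟩ := hP.selfNormalizing
  obtain ⟨⟨x, hxW⟩, hx1'⟩ := (Subgroup.ne_bot_iff_exists_ne_one).1 hW1ne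
  have hx1 : x ≠ 1 := fun h => hx1' (Subtype.ext h)
  have hW1comm : ∀ u ∈ W₁, ∀ v ∈ W₁, u * v = v * u := by
    intro u hu v hv
    have h1 : (⟨u, hu⟩ : ↥W₁) * ⟨v, hv⟩ = ⟨v, hv⟩ * ⟨u, hu⟩ := by
      have := hP.W₁_cyclic
      let _ := IsCyclic.commGroup (α := ↥W₁)
      exact mul_comm _ _
    exact congrArg Subtype.val h1
  -- Step 1: decomposition of elements of W₂
  have hdec : ∀ b ∈ W₂, ∃ a ∈ W₂', ∃ w ∈ W₁, b = a * w := by
    intro b hb
    obtain ⟨a, ha, w, hw, rfl⟩ := hprod b (hW₂S hb)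
    refine ⟨a, ?_, w, hw, rfl⟩
    rw [← hcent x hxW hx1]
    refine Subgroup.mem_inf.2 ⟨ha, ?_⟩
    rw [Subgroup.mem_centralizer_iff]
    intro y hy
    rw [Set.mem_singleton_iff] at hy
    subst hy
    have h1 : y * (a * w) = (a * w) * y := hcomm y hxW (a * w) hb
    have h2 : y * w = w * y := hW1comm y hxW w hw
    calc y * a = y * (a * w) * w⁻¹ := by group
      _ = (a * w) * y * w⁻¹ := by rw [h1]
      _ = a * (w * y) * w⁻¹ := by group
      _ = a * (y * w) * w⁻¹ := by rw [h2]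
      _ = a * y := by group
  have hW2le : W₂ ≤ W₁ ⊔ W₂' := by
    intro b hb
    obtain ⟨a, ha, w, hw, rfl⟩ := hdec b hb
    exact mul_mem ((le_sup_right : W₂' ≤ W₁ ⊔ W₂') ha) ((le_sup_left : W₁ ≤ W₁ ⊔ W₂') hw)
  have hle : W₁ ⊔ W₂ ≤ W₁ ⊔ W₂' := sup_le le_sup_left hW2le
  -- Step 2: W₁ ⊔ W₂' normalizes X
  have hC'comm : ∀ u ∈ W₁ ⊔ W₂', ∀ v ∈ W₁ ⊔ W₂', u * v = v * u := by
    intro u hu v hv
    have h1 : (⟨u, hu⟩ : ↥(W₁ ⊔ W₂')) * ⟨v, hv⟩ = ⟨v, hv⟩ * ⟨u, hu⟩ := by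
      have := hcyc'
      let _ := IsCyclic.commGroup (α := ↥(W₁ ⊔ W₂'))
      exact mul_comm _ _
    exact congrArg Subtype.val h1
  obtain ⟨⟨y, hyW⟩, hy1'⟩ := (Subgroup.ne_bot_iff_exists_ne_one).1 hW2ne
  have hy1 : y ≠ 1 := fun h => hy1' (Subtype.ext h)
  have hXne : (((↑(W₁ ⊔ W₂) : Set G) \ (↑W₁ ∪ ↑W₂)) : Set G).Nonempty := by
    refine ⟨x * y, ?_, ?_⟩
    · exact mul_mem ((le_sup_left : W₁ ≤ W₁ ⊔ W₂) hxW) ((le_sup_right : W₂ ≤ W₁ ⊔ W₂) hyW)
    · rintro (h | h)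
      · have : y ∈ W₁ ⊓ W₂ := Subgroup.mem_inf.2 ⟨by simpa using (W₁.mul_mem_cancel_left hxW).1 h, hyW⟩
        rw [hinf] at this
        exact hy1 ((Subgroup.mem_bot).1 this)
      · have : x ∈ W₁ ⊓ W₂ := Subgroup.mem_inf.2 ⟨hxW, by simpa using (W₂.mul_mem_cancel_right hyW).1 h⟩
        rw [hinf] at this
        exact hx1 ((Subgroup.mem_bot).1 this)
  have hN := hnorm _ (le_refl _) hXne
  have hge : W₁ ⊔ W₂' ≤ W₁ ⊔ W₂ := by
    rw [← hN]
    intro g hg
    rw [Subgroup.mem_set_normalizer_iff]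
    intro n
    constructor
    · intro hn
      have hnC : n ∈ W₁ ⊔ W₂' := hle hn.1
      have : g * n * g⁻¹ = n := by
        rw [hC'comm g hg n hnC]; group
      rw [this]; exact hn
    · intro hn
      have hnC : g * n * g⁻¹ ∈ W₁ ⊔ W₂' := hle hn.1
      have hn' : n ∈ W₁ ⊔ W₂' := by
        have : n = g⁻¹ * (g * n * g⁻¹) * g := by group
        rw [this]
        exact mul_mem (mul_mem (inv_mem hg) hnC) hg
      have : g * n * g⁻¹ = n := by
        rw [hC'comm g hg n hn']; group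
      rw [this] at hn; exact hn
  have hEq : W₁ ⊔ W₂' = W₁ ⊔ W₂ := le_antisymm hge hle
  -- Step 3
  have h1 : W₂ ≤ W₂' := le_of_cyclic_sup W₁ W₂ W₂' hcyc' hinf' hinf hdec
  have hdec' : ∀ b ∈ W₂', ∃ a ∈ W₂, ∃ w ∈ W₁, b = a * w := by
    intro b hb
    have hb' : b ∈ W₁ ⊔ W₂ := hge ((le_sup_right : W₂' ≤ W₁ ⊔ W₂') hb)
    have hnorm1 : W₂ ≤ Subgroup.normalizer (W₁ : Set G) := by
      intro v hv
      rw [Subgroup.mem_normalizer_iff]
      intro n
      constructor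
      · intro hn
        have : v * n * v⁻¹ = n := by
          rw [← hcomm n hn v hv]; group
        rw [this]; exact hn
      · intro hn
        have h2 := hcomm _ hn v hv
        have : n = v * n * v⁻¹ := by
          have h3 : v * n * v⁻¹ * v = v * (v * n * v⁻¹) := h2
          have h4 : v * n = v * (v * n * v⁻¹) := by simpa using h3
          exact mul_left_cancel h4
        rw [this]; exact hn
    have hset := Subgroup.coe_mul_of_left_le_normalizer_right W₂ W₁ hnorm1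
    have hb'' : b ∈ (↑(W₂ ⊔ W₁) : Set G) := by
      rw [sup_comm]; exact hb'
    rw [hset] at hb''
    obtain ⟨a, ha, w, hw, rfl⟩ := hb''
    exact ⟨a, ha, w, hw, rfl⟩
  have h2 : W₂' ≤ W₂ := le_of_cyclic_sup W₁ W₂' W₂ hcyc hinf hinf' hdec'
  exact le_antisymm h2 h1

end Cfsg.Agent.S1386
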