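import Cfsg.Statements.S1387
import Cfsg.Agent.Helper23.FittingHall

set_option autoImplicit false
open Cfsg

namespace Cfsg.Agent.S1387

/-- Let M be a subgroup of a finite group G with type-P data (W₁, U, W₂) and H = M_F. Then the Fitting subgroup F(M) is generated by H and the centralizer of H in U. -/
theorem result {G : Type*} [Group G] [Finite G] (M W₁ U W₂ : Subgroup G) (hP : Cfsg.IsTypePWith M W₁ U W₂) :
    Cfsg.fittingOf M = Cfsg.fittingHallOf M ⊔ (U ⊓ Subgroup.centralizer (Cfsg.fittingHallOf M : Set G)) := by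
  exact Cfsg.Agent.Helper23.typeP_fittingOf_eq M W₁ U W₂ hP

end Cfsg.Agent.S1387
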