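import Cfsg.Statements.S1392
import Cfsg.Agent.Helper23.Trans

set_option autoImplicit false
open Cfsg

namespace Cfsg.Agent.S1392

/-- Let G be a minimal simple group of odd order, A a subgroup satisfying the transitivity hypothesis, K = O_{π(A)'}(C_G(A)), and q a prime not dividing the order of A. If Q₁, Q₂ are maximal among the A-invariant q-subgroups of G and some proper subgroup H ≥ A meets both Q₁ and Q₂ nontrivially, then Q₂ = kQ₁k⁻¹ for some k ∈ K. -/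
theorem result {G : Type*} [Group G] [Finite G] (hG : Cfsg.IsMinSimpleOddOrder G)
    (A : Subgroup G) (hA : Cfsg.TransitivityHypothesis A) (q : ℕ) (hq : q.Prime) (hqA : ¬ q ∣ Nat.card A)
    (Q₁ Q₂ : Subgroup G) (h₁ : Q₁ ∈ Cfsg.maxInvSubgroups ⊤ A {q}) (h₂ : Q₂ ∈ Cfsg.maxInvSubgroups ⊤ A {q})
    (H : Subgroup G) (hH : H ≠ ⊤) (hAH : A ≤ H) (hH₁ : H ⊓ Q₁ ≠ ⊥) (hH₂ : H ⊓ Q₂ ≠ ⊥) :
    ∃ k ∈ Cfsg.piCoreOf (Cfsg.primesNotDvd (Nat.card A)) (Subgroup.centralizer (A : Set G)), Q₂ = Q₁.map (MulAut.conj k).toMonoidHom := by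
  exact Cfsg.Agent.Helper23.conj_of_common_overgroup hG hA hq hqA h₁ h₂ hH hAH hH₁ hH₂

end Cfsg.Agent.S1392
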