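import Cfsg.Statements.S1441

set_option autoImplicit false
open Cfsg
open scoped commutatorElement

namespace Cfsg.Agent.S1441

/-- An element `a` of `A` whose order is coprime to `#H` commutes with every member of a chain
from `H` down to `⊥` on whose factors `A` acts trivially. -/
theorem comm_of_chain {G : Type*} [Group G] [Finite G] (H A : Subgroup G)
    (n : ℕ) (c : Fin (n + 1) → Subgroup G) (hc0 : c 0 = H) (hcn : c (Fin.last n) = ⊥) (hanti : Antitone c)
    (htriv : ∀ i : Fin n, ⁅c i.castSucc, A⁆ ≤ c i.succ)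
    (a : G) (ha : a ∈ A) (hcop : (orderOf a).Coprime (Nat.card H)) :
    ∀ i : Fin (n + 1), ∀ x ∈ c i, x * a = a * x := by
  intro i
  induction i using Fin.reverseInduction with
  | last =>
    intro x hx
    rw [hcn, Subgroup.mem_bot] at hx
    subst hx
    simp
  | cast i ih =>
    intro x hx
    have hz : ⁅x, a⁆ ∈ c i.succ := htriv i (Subgroup.commutator_mem_commutator hx ha)
    have hzc : ⁅x, a⁆ * a = a * ⁅x, a⁆ := ih _ hz
    have h1 : x * a * x⁻¹ = ⁅x, a⁆ * a := by simp [commutatorElement_def]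
    have h2 : (⁅x, a⁆ * a) ^ (orderOf a) = ⁅x, a⁆ ^ (orderOf a) * a ^ (orderOf a) :=
      Commute.mul_pow hzc _
    have h3 : (x * a * x⁻¹) ^ (orderOf a) = 1 := by
      rw [conj_pow, pow_orderOf_eq_one]; simp
    have h4 : ⁅x, a⁆ ^ (orderOf a) = 1 := by
      rw [h1, h2, pow_orderOf_eq_one, mul_one] at h3; exact h3
    have hzH : ⁅x, a⁆ ∈ H := by
      rw [← hc0]; exact hanti (Fin.zero_le _) hz
    have h5 : orderOf ⁅x, a⁆ ∣ Nat.card H := by
      have := orderOf_dvd_natCard (⟨⁅x, a⁆, hzH⟩ : H)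
      rwa [← Subgroup.orderOf_coe] at this
    have h6 : orderOf ⁅x, a⁆ ∣ orderOf a := orderOf_dvd_of_pow_eq_one h4
    have h7 : orderOf ⁅x, a⁆ = 1 := Nat.eq_one_of_dvd_coprimes hcop h6 h5
    have h8 : ⁅x, a⁆ = 1 := orderOf_eq_one_iff.mp h7
    rw [commutatorElement_eq_one_iff_mul_comm] at h8
    exact h8

theorem result {G : Type*} [Group G] [Finite G] (H A : Subgroup G) (hH : Group.IsSolvable H) (hA : (A ≤ Subgroup.normalizer (H : Set G)))
    (n : ℕ) (c : Fin (n + 1) → Subgroup G) (hc0 : c 0 = H) (hcn : c (Fin.last n) = ⊥) (hanti : Antitone c)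
    (hcN : ∀ i, H ≤ Subgroup.normalizer ((c i : Subgroup G) : Set G)) (hcA : ∀ i, A ≤ Subgroup.normalizer ((c i : Subgroup G) : Set G))
    (htriv : ∀ i : Fin n, ⁅c i.castSucc, A⁆ ≤ c i.succ) :
    ∀ p : ℕ, p.Prime → p ∣ (A ⊓ Subgroup.centralizer (H : Set G)).relIndex A → p ∣ Nat.card H := by
  intro p hp hdvd
  by_contra hnd
  have : Fact p.Prime := ⟨hp⟩
  obtain ⟨P⟩ : Nonempty (Sylow p A) := inferInstance
  have hPle : (P : Subgroup A) ≤ (A ⊓ Subgroup.centralizer (H : Set G)).subgroupOf A := by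
    intro a haP
    rw [Subgroup.mem_subgroupOf, Subgroup.mem_inf]
    refine ⟨a.2, ?_⟩
    obtain ⟨k, hk⟩ := (IsPGroup.iff_orderOf.mp P.isPGroup') ⟨a, haP⟩
    have hord : orderOf (a : G) = p ^ k := by
      rw [Subgroup.orderOf_coe, ← hk, ← Subgroup.orderOf_coe (⟨a, haP⟩ : (P : Subgroup A))]
    have hcop : (orderOf (a : G)).Coprime (Nat.card H) := by
      rw [hord]; exact Nat.Coprime.pow_left k ((Nat.Prime.coprime_iff_not_dvd hp).mpr hnd)
    rw [Subgroup.mem_centralizer_iff]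
    intro h hh
    exact comm_of_chain H A n c hc0 hcn hanti htriv a a.2 hcop 0 h (by rw [hc0]; exact hh)
  have h1 : ((A ⊓ Subgroup.centralizer (H : Set G)).subgroupOf A).index ∣ (P : Subgroup A).index :=
    Subgroup.index_dvd_of_le hPle
  have h2 : ¬ p ∣ (P : Subgroup A).index := P.not_dvd_index
  exact h2 (dvd_trans hdvd h1)

end Cfsg.Agent.S1441
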