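import Cfsg.Statements.S1447
import Cfsg.Agent.Helper22.MetaCoprime

set_option autoImplicit false
open Cfsg

namespace Cfsg.Agent.S1447

open Subgroup
open scoped commutatorElement

/-- Subgroups of a metacyclic subgroup are metacyclic (ambient form). -/
theorem isMetacyclic_of_le {G : Type*} [Group G] {K R : Subgroup G} (hKR : K ≤ R)
    (hRm : Cfsg.IsMetacyclic ↥R) : Cfsg.IsMetacyclic ↥K := by
  obtain ⟨N, hNn, hNc, hQc⟩ := hRm
  have hι : Function.Injective (Subgroup.inclusion hKR) := Subgroup.inclusion_injective hKR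
  refine ⟨N.comap (Subgroup.inclusion hKR), inferInstance, ?_, ?_⟩
  · let f : ↥(N.comap (Subgroup.inclusion hKR)) →* ↥N :=
      { toFun := fun x => ⟨Subgroup.inclusion hKR (x : ↥K), x.2⟩
        map_one' := rfl
        map_mul' := fun _ _ => rfl }
    apply isCyclic_of_injective f
    intro x y h
    have h' : Subgroup.inclusion hKR (x : ↥K) = Subgroup.inclusion hKR (y : ↥K) :=
      congrArg Subtype.val h
    exact Subtype.ext (hι h')
  · let f : ↥K ⧸ N.comap (Subgroup.inclusion hKR) →* ↥R ⧸ N :=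
      QuotientGroup.map (N.comap (Subgroup.inclusion hKR)) N (Subgroup.inclusion hKR) le_rfl
    apply isCyclic_of_injective f
    rw [injective_iff_map_eq_one]
    intro x hx
    obtain ⟨y, rfl⟩ := QuotientGroup.mk_surjective x
    have hx' : ((Subgroup.inclusion hKR y : ↥R) : ↥R ⧸ N) = 1 := hx
    rw [QuotientGroup.eq_one_iff] at hx'
    exact (QuotientGroup.eq_one_iff y).mpr hx'

/-- `R` normalises `⁅R, A⁆`. -/
theorem le_normalizer_commutator_left {G : Type*} [Group G] (R A : Subgroup G) :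
    R ≤ normalizer ((⁅R, A⁆ : Subgroup G) : Set G) := by
  apply Helper22.le_normalizer_of_conj_mem
  intro r hr u hu
  have h : ⁅R, A⁆ ≤ (⁅R, A⁆ : Subgroup G).comap (MulAut.conj r).toMonoidHom := by
    rw [Subgroup.commutator_le]
    intro x hx a ha
    rw [Subgroup.mem_comap]
    have e : (MulAut.conj r).toMonoidHom ⁅x, a⁆ = ⁅r * x, a⁆ * ⁅r, a⁆⁻¹ := by
      simp only [MulEquiv.coe_toMonoidHom, MulAut.conj_apply, commutatorElement_def]; group
    rw [e]
    exact mul_mem (Subgroup.commutator_mem_commutator (R.mul_mem hr hx) ha)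
      (inv_mem (Subgroup.commutator_mem_commutator hr ha))
  exact h hu

/-- Let G be a finite group, p an odd prime, R a metacyclic p-subgroup and A a subgroup of order coprime to p normalizing R. Then [R, A] is abelian; R is generated by [R, A] and R ∩ C_G(A), which meet trivially; and if R is non-abelian and A does not centralize R, then [R, A] and R ∩ C_G(A) are nontrivial cyclic groups and [R, R] ≤ [R, A]. -/
theorem result {G : Type*} [Group G] [Finite G] (p : ℕ) [Fact p.Prime] (hp : p ≠ 2) (R A : Subgroup G) (hR : IsPGroup p R) (hRm : Cfsg.IsMetacyclic R)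
    (hA : (A ≤ Subgroup.normalizer (R : Set G))) (hcop : (Nat.card A).Coprime p) :
    IsMulCommutative ↥⁅R, A⁆ ∧ ⁅R, A⁆ ⊔ (R ⊓ Subgroup.centralizer (A : Set G)) = R ∧ ⁅R, A⁆ ⊓ (R ⊓ Subgroup.centralizer (A : Set G)) = ⊥ ∧
      (¬ IsMulCommutative R → ¬ A ≤ Subgroup.centralizer (R : Set G) →
        ⁅R, A⁆ ≠ ⊥ ∧ IsCyclic ↥⁅R, A⁆ ∧ (R ⊓ Subgroup.centralizer (A : Set G)) ≠ ⊥ ∧ IsCyclic ↥(R ⊓ Subgroup.centralizer (A : Set G)) ∧ ⁅R, R⁆ ≤ ⁅R, A⁆) := by
  classical
  have hpp : p.Prime := Fact.out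
  obtain ⟨r, hr⟩ := IsPGroup.iff_card.mp hR
  have hcopR : (Nat.card A).Coprime (Nat.card R) := by
    rw [hr]
    exact Nat.Coprime.pow_right r hcop
  have hsolv : Group.IsSolvable A ∨ Group.IsSolvable R := by
    right
    have := hR.isNilpotent
    infer_instance
  have hKR : ⁅R, A⁆ ≤ R := Helper35.commutator_le_of_le_normalizer hA
  have hAK : A ≤ normalizer ((⁅R, A⁆ : Subgroup G) : Set G) := Helper35.le_normalizer_commutator hA
  have hKK : ⁅⁅R, A⁆, A⁆ = ⁅R, A⁆ := Helper35.commutator_commutator_eq_of_coprime hA hcopR hsolv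
  have hKp : IsPGroup p ↥⁅R, A⁆ := hR.to_le hKR
  have hKm : Cfsg.IsMetacyclic ↥⁅R, A⁆ := isMetacyclic_of_le hKR hRm
  have hKab : ∀ x ∈ ⁅R, A⁆, ∀ y ∈ ⁅R, A⁆, x * y = y * x :=
    Helper22.metaCop_abelian p hp ⁅R, A⁆ A hKp hKm hAK hcop hKK
  have hcopK : (Nat.card A).Coprime (Nat.card ↥⁅R, A⁆) :=
    Nat.Coprime.coprime_dvd_right (Subgroup.card_dvd_of_le hKR) hcopR
  have hKC : ⁅R, A⁆ ⊓ centralizer (A : Set G) = ⊥ := by
    have h := Helper35.commutator_inf_centralizer_eq_bot_of_comm hAK hcopK hKab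
    rwa [hKK] at h
  have h1 : IsMulCommutative ↥⁅R, A⁆ := ⟨⟨fun x y => Subtype.ext (hKab x x.2 y y.2)⟩⟩
  have h2 : ⁅R, A⁆ ⊔ (R ⊓ centralizer (A : Set G)) = R := by
    apply le_antisymm
    · exact sup_le hKR inf_le_left
    · intro x hx
      obtain ⟨n, hn, c, hc, rfl⟩ := Helper35.exists_commutator_mul_fixed hA hcopR hsolv hx
      exact Subgroup.mul_mem _ (Subgroup.mem_sup_left hn) (Subgroup.mem_sup_right hc)
  have h3 : ⁅R, A⁆ ⊓ (R ⊓ centralizer (A : Set G)) = ⊥ := by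
    apply le_antisymm _ bot_le
    rw [← hKC]
    exact inf_le_inf_left _ inf_le_right
  refine ⟨h1, h2, h3, ?_⟩
  intro hRnab hAR
  have hK1 : ⁅R, A⁆ ≠ ⊥ := by
    intro h
    apply hAR
    rw [Subgroup.commutator_eq_bot_iff_le_centralizer] at h
    exact Subgroup.le_centralizer_iff.mp h
  have hC1 : R ⊓ centralizer (A : Set G) ≠ ⊥ := by
    intro h
    apply hRnab
    rw [h, sup_bot_eq] at h2
    refine ⟨⟨fun x y => Subtype.ext ?_⟩⟩
    exact hKab x (by rw [h2]; exact x.2) y (by rw [h2]; exact y.2)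
  obtain ⟨-, -, hOm, hOmcard, -⟩ := Helper87.metacyclic_odd_structure hp R hR hRm
  have hcount : ∀ E : Subgroup G, E ≤ R → (∀ e ∈ E, e ^ p = 1) → Nat.card E = p ^ 2 →
      ∀ z ∈ R, z ^ p = 1 → z ∈ E := by
    intro E hER hEp hEcard z hz hzp
    have hEO : E ≤ Cfsg.omegaOne p R := fun e he => (hOm e).mpr ⟨hER he, hEp e he⟩
    have hzO : z ∈ Cfsg.omegaOne p R := (hOm z).mpr ⟨hz, hzp⟩
    have hEq : E = Cfsg.omegaOne p R :=
      Subgroup.eq_of_le_of_card_ge hEO (by rw [hEcard]; exact hOmcard)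
    rw [hEq]
    exact hzO
  have hE : ∀ H : Subgroup G, H ≤ R → ¬ IsCyclic ↥H →
      ∃ E : Subgroup G, E ≤ H ∧ (∀ e ∈ E, e ^ p = 1) ∧ Nat.card E = p ^ 2 := by
    intro H hHR hnc
    obtain ⟨E, -, ⟨-, hEp⟩, hEcard⟩ := Cfsg.Agent.S0126.result hp (hR.to_le hHR) hnc
    refine ⟨E.map H.subtype, Subgroup.map_subtype_le E, ?_, ?_⟩
    · rintro _ ⟨e, he, rfl⟩
      have h4 := hEp e he
      simpa using congrArg Subtype.val h4
    · rw [Subgroup.card_map_of_injective H.subtype_injective]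
      exact hEcard
  have hordp : ∀ H : Subgroup G, H ≤ R → H ≠ ⊥ → ∃ z ∈ H, z ^ p = 1 ∧ z ≠ 1 := by
    intro H hHR hH1
    have hHp : IsPGroup p ↥H := hR.to_le hHR
    have hcard : p ∣ Nat.card ↥H := by
      obtain ⟨n, hn⟩ := IsPGroup.iff_card.mp hHp
      rcases Nat.eq_zero_or_pos n with h0 | hpos
      · exfalso
        apply hH1
        rw [h0, pow_zero] at hn
        exact Subgroup.card_eq_one.mp hn
      · rw [hn]
        exact dvd_pow_self p hpos.ne'
    obtain ⟨z, hz⟩ := exists_prime_orderOf_dvd_card' p hcard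
    refine ⟨(z : G), z.2, ?_, ?_⟩
    · have h4 : z ^ p = 1 := by rw [← hz]; exact pow_orderOf_eq_one z
      simpa using congrArg Subtype.val h4
    · intro h
      have h4 : z = 1 := Subtype.ext h
      rw [h4, orderOf_one] at hz
      exact hpp.one_lt.ne hz
  have hKcyc : IsCyclic ↥⁅R, A⁆ := by
    by_contra hnc
    obtain ⟨E, hEK, hEp, hEcard⟩ := hE ⁅R, A⁆ hKR hnc
    obtain ⟨z, hzC, hzp, hz1⟩ := hordp (R ⊓ centralizer (A : Set G)) inf_le_left hC1
    have hzE := hcount E (hEK.trans hKR) hEp hEcard z hzC.1 hzp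
    have h4 : z ∈ ⁅R, A⁆ ⊓ (R ⊓ centralizer (A : Set G)) := ⟨hEK hzE, hzC⟩
    rw [h3, Subgroup.mem_bot] at h4
    exact hz1 h4
  have hCcyc : IsCyclic ↥(R ⊓ centralizer (A : Set G)) := by
    by_contra hnc
    obtain ⟨E, hEC, hEp, hEcard⟩ := hE (R ⊓ centralizer (A : Set G)) inf_le_left hnc
    obtain ⟨z, hzK, hzp, hz1⟩ := hordp ⁅R, A⁆ hKR hK1
    have hzE := hcount E (hEC.trans inf_le_left) hEp hEcard z (hKR hzK) hzp
    have h4 : z ∈ ⁅R, A⁆ ⊓ (R ⊓ centralizer (A : Set G)) := ⟨hzK, hEC hzE⟩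
    rw [h3, Subgroup.mem_bot] at h4
    exact hz1 h4
  refine ⟨hK1, hKcyc, hC1, hCcyc, ?_⟩
  have hRK : R ≤ normalizer ((⁅R, A⁆ : Subgroup G) : Set G) := le_normalizer_commutator_left R A
  have hCcomm : ∀ x ∈ R ⊓ centralizer (A : Set G), ∀ y ∈ R ⊓ centralizer (A : Set G),
      x * y = y * x := by
    intro x hx y hy
    have h4 := Helper87.mul_comm_of_isCyclic (⟨x, hx⟩ : ↥(R ⊓ centralizer (A : Set G))) ⟨y, hy⟩
    exact congrArg Subtype.val h4
  rw [Subgroup.commutator_le]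
  intro x hx y hy
  obtain ⟨k, hk, c, hc, rfl⟩ := Helper35.exists_commutator_mul_fixed hA hcopR hsolv hx
  obtain ⟨k', hk', c', hc', rfl⟩ := Helper35.exists_commutator_mul_fixed hA hcopR hsolv hy
  have hcc' : c * c' = c' * c := hCcomm c hc c' hc'
  have e : ⁅k * c, k' * c'⁆ = k * (c * k' * c⁻¹) * (c' * k⁻¹ * c'⁻¹) * k'⁻¹ := by
    rw [commutatorElement_def]
    have e1 : k * c * (k' * c') * (k * c)⁻¹ * (k' * c')⁻¹ =
        k * (c * k' * c⁻¹) * (c * c') * c⁻¹ * k⁻¹ * c'⁻¹ * k'⁻¹ := by group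
    rw [e1, hcc']
    group
  rw [e]
  exact mul_mem (mul_mem (mul_mem hk ((mem_normalizer_iff.mp (hRK hc.1) k').mp hk'))
    ((mem_normalizer_iff.mp (hRK hc'.1) k⁻¹).mp (inv_mem hk))) (inv_mem hk')

end Cfsg.Agent.S1447
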