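import Cfsg.Statements.S1449
import Cfsg.Agent.Helper23.Rank2

set_option autoImplicit false
open Cfsg

namespace Cfsg.Agent.S1449

/-- Let G be a finite group, p an odd prime, R a p-subgroup with no elementary abelian subgroup of order p ^ 3, and A a solvable subgroup of odd order normalizing R with A ∩ C_G(R) = 1. Then the derived subgroup [A, A] is a p-group. -/
theorem result {G : Type*} [Group G] [Finite G] (p : ℕ) [Fact p.Prime] (hp : p ≠ 2) (R A : Subgroup G) (hR : IsPGroup p R) (hr : Cfsg.PRankLE p 2 R)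
    (hA : (A ≤ Subgroup.normalizer (R : Set G))) (hAs : Group.IsSolvable A) (hAodd : Odd (Nat.card A)) (hfaith : A ⊓ Subgroup.centralizer (R : Set G) = ⊥) :
    IsPGroup p ↥⁅A, A⁆ := by
  have hp' : p.Prime := Fact.out
  obtain ⟨h1, -⟩ := Cfsg.Agent.Helper23.rank2_core p hp R A hR hr hA hAodd
  have hAA : ⁅A, A⁆ ≤ A := Subgroup.commutator_le_self A
  have key : ∀ q : ℕ, q.Prime → q ∣ Nat.card ↥⁅A, A⁆ → q = p := by
    intro q hq hdvd
    by_contra hne
    haveI : Fact q.Prime := ⟨hq⟩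
    obtain ⟨g, hg⟩ := exists_prime_orderOf_dvd_card' (G := ↥⁅A, A⁆) q hdvd
    have hcop : (Nat.card (Subgroup.zpowers (g : G))).Coprime p := by
      rw [Nat.card_zpowers, Subgroup.orderOf_coe, hg]
      exact (Nat.coprime_primes hq hp').mpr hne
    have h2 := h1 (Subgroup.zpowers (g : G)) (Subgroup.zpowers_le.mpr g.2) hcop
    have h3 : (g : G) ∈ A ⊓ Subgroup.centralizer (R : Set G) :=
      Subgroup.mem_inf.mpr ⟨hAA g.2, h2 (Subgroup.mem_zpowers _)⟩
    rw [hfaith, Subgroup.mem_bot] at h3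
    have h4 : g = 1 := Subtype.ext h3
    rw [h4, orderOf_one] at hg
    exact hq.one_lt.ne hg
  have hcard := Nat.eq_prime_pow_of_unique_prime_dvd (Nat.card_pos (α := ↥⁅A, A⁆)).ne'
    (fun {d} hd hdvd => key d hd hdvd)
  exact IsPGroup.of_card hcard

end Cfsg.Agent.S1449
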