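import Cfsg.Statements.S1451
import Cfsg.Agent.Helper23.Rank2Fit
import Cfsg.Agent.Helper35.HallCoprime

set_option autoImplicit false
open Cfsg

namespace Cfsg.Agent.S1451

/-- Let G be a solvable group of odd order such that G, or its Fitting subgroup, has no elementary abelian subgroup of order q ^ 3 for any prime q. Then G' is nilpotent; for every Sylow subgroup S of G, every characteristic subgroup T of S with T ≤ [S, S] is normal in G; and for every prime p, G has a characteristic subgroup that is a Hall subgroup for the set of primes greater than p. -/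
theorem result {G : Type*} [Group G] [Finite G] [Group.IsSolvable G] (hodd : Odd (Nat.card G)) (hr : Cfsg.RankLE 2 G ∨ Cfsg.RankLE 2 (Cfsg.fittingSubgroup G)) :
    Group.IsNilpotent ↥(commutator G) ∧
      (∀ (q : ℕ) [Fact q.Prime] (S : Sylow q G) (T : Subgroup ↥(S : Subgroup G)), T.Characteristic → T.map (S : Subgroup G).subtype ≤ ⁅(S : Subgroup G), (S : Subgroup G)⁆ →
        (T.map (S : Subgroup G).subtype).Normal) ∧
      ∀ p : ℕ, ∃ N : Subgroup G, N.Characteristic ∧ Cfsg.IsPiHall {q | q.Prime ∧ p < q} N := by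
  classical
  have hFn : (fittingSubgroup G).Normal := Cfsg.Agent.Helper22.fittingSubgroup_normal G
  have hFeq : fittingSubgroup G = ⨆ p : Nat.Primes, pCore (p : ℕ) G :=
    Cfsg.Agent.Helper22.fittingSubgroup_eq_iSup_pCore G
  have hrF : ∀ q : ℕ, q.Prime → PRankLE q 2 ↥(fittingSubgroup G) := by
    rcases hr with h | h
    · exact fun q hq => Cfsg.Agent.Helper23.pRankLE_subgroup (h q hq) _
    · exact h
  have hcoreF : ∀ (q : ℕ) [Fact q.Prime], pCore q G ≤ fittingSubgroup G := by
    intro q _
    exact le_sSup ⟨inferInstance, (Cfsg.Agent.Helper24.isPGroup_pCore q G).isNilpotent⟩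
  have hrq : ∀ (q : ℕ) [Fact q.Prime], PRankLE q 2 ↥(pCore q G) := by
    intro q _
    exact Cfsg.Agent.Helper23.pRankLE_of_le (hcoreF q) (hrF q Fact.out)
  have hKF : commutator G ≤ fittingSubgroup G :=
    Cfsg.Agent.Helper23.commutator_le_fittingSubgroup_of_rank2 hodd hrq
  refine ⟨?_, ?_, ?_⟩
  · have hnil : Group.IsNilpotent ↥(fittingSubgroup G) :=
      Cfsg.Agent.Helper22.fittingSubgroup_isNilpotent G
    have h1 : Group.IsNilpotent ↥((commutator G).subgroupOf (fittingSubgroup G)) := inferInstance
    exact (Group.isNilpotent_congr (Subgroup.subgroupOfEquivOfLe hKF)).mp h1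
  · intro q _ S T hT hTS
    have hq : q.Prime := Fact.out
    have hT₀S : T.map (S : Subgroup G).subtype ≤ S := Subgroup.map_subtype_le _
    have hT₀F : T.map (S : Subgroup G).subtype ≤ fittingSubgroup G := by
      refine hTS.trans ((Subgroup.commutator_mono le_top le_top).trans ?_)
      rw [← commutator_def]; exact hKF
    have hT₀p : IsPGroup q (T.map (S : Subgroup G).subtype) := S.2.to_le hT₀S
    have hT₀R : T.map (S : Subgroup G).subtype ≤ pCore q G :=
      Cfsg.Agent.Helper23.le_pCore_of_le_fittingSubgroup q hT₀F hT₀p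
    have hNS : Subgroup.normalizer ((S : Subgroup G) : Set G) ≤
        Subgroup.normalizer ((T.map (S : Subgroup G).subtype : Subgroup G) : Set G) :=
      Cfsg.Agent.Helper22.normalizer_le_normalizer_map_subtype (S : Subgroup G) T
    have hST : (S : Subgroup G) ≤
        Subgroup.normalizer ((T.map (S : Subgroup G).subtype : Subgroup G) : Set G) :=
      Subgroup.le_normalizer.trans hNS
    have hFT : fittingSubgroup G ≤
        Subgroup.normalizer ((T.map (S : Subgroup G).subtype : Subgroup G) : Set G) := by
      rw [hFeq]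
      refine iSup_le (fun r => ?_)
      haveI : Fact (r : ℕ).Prime := ⟨r.2⟩
      by_cases hrq' : (r : ℕ) = q
      · rw [hrq']
        exact (Cfsg.Agent.Helper24.normal_isPGroup_le_sylow inferInstance
          (Cfsg.Agent.Helper24.isPGroup_pCore q G) S).trans hST
      · exact ((Cfsg.Agent.Helper23.pCore_le_centralizer_pCore hrq').trans
          (Subgroup.centralizer_le hT₀R)).trans (Subgroup.centralizer_le_normalizer _)
    have hNn : ((S : Subgroup G) ⊔ fittingSubgroup G).Normal :=
      Cfsg.Agent.Helper23.normal_of_commutator_le (hKF.trans le_sup_right)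
    have hfr := Sylow.normalizer_sup_eq_top' S
      (le_sup_left : (S : Subgroup G) ≤ (S : Subgroup G) ⊔ fittingSubgroup G)
    rw [← Subgroup.normalizer_eq_top_iff, eq_top_iff, ← hfr]
    exact sup_le hNS (sup_le hST hFT)
  · intro p
    obtain ⟨m, n, hG, hmn, hm, hn⟩ := Cfsg.Agent.Helper35.exists_pi_factorization
      {q | q.Prime ∧ p < q} (Nat.card G) Nat.card_pos.ne'
    obtain ⟨H, hH⟩ := Cfsg.Agent.Helper1.hall_exists_aux (Nat.card G) G m n rfl hG hmn
    have hHidx : H.index = n := Cfsg.Agent.Helper1.hall_index hG H hH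
    have hpowH : ∀ h ∈ H, h ^ m = 1 := by
      intro h hh
      have h1 : (⟨h, hh⟩ : ↥H) ^ Nat.card ↥H = 1 := pow_card_eq_one'
      rw [hH] at h1
      have h2 := congrArg Subtype.val h1
      simpa using h2
    have hFH : fittingSubgroup G ≤ Subgroup.normalizer (H : Set G) := by
      rw [hFeq]
      refine iSup_le (fun r => ?_)
      haveI : Fact (r : ℕ).Prime := ⟨r.2⟩
      by_cases hrp : p < (r : ℕ)
      · have h1 : Nat.card (H ⊔ pCore (r : ℕ) G : Subgroup G) ∣ m := by
          have h2 := Cfsg.Agent.Helper22.card_sup_dvd_of_normal H (pCore (r : ℕ) G)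
          rw [hH] at h2
          have h3 : Nat.card (H ⊔ pCore (r : ℕ) G : Subgroup G) ∣ m * n :=
            hG ▸ Subgroup.card_subgroup_dvd_card _
          obtain ⟨k, hk⟩ := IsPGroup.iff_card.mp (Cfsg.Agent.Helper24.isPGroup_pCore (r : ℕ) G)
          rw [hk] at h2
          have h4 : ((r : ℕ) ^ k).Coprime n :=
            Nat.Coprime.pow_left k ((Nat.Prime.coprime_iff_not_dvd r.2).mpr
              (hn r r.2 ⟨r.2, hrp⟩))
          have h5 := Nat.dvd_gcd h2 h3
          rwa [Nat.gcd_mul_left, h4.gcd_eq_one, mul_one] at h5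
        have h6 : H = H ⊔ pCore (r : ℕ) G := by
          apply Subgroup.eq_of_le_of_card_ge le_sup_left
          rw [hH]
          exact Nat.le_of_dvd (by rw [← hH]; exact Nat.card_pos) h1
        exact (le_sup_right.trans h6.ge).trans Subgroup.le_normalizer
      · have h1 : H ≤ Subgroup.centralizer (pCore (r : ℕ) G : Set G) := by
          refine Cfsg.Agent.Helper23.le_centralizer_of_primes_gt hodd r (pCore (r : ℕ) G) H
            (Cfsg.Agent.Helper24.isPGroup_pCore _ G) (hrq r) ?_ ?_
          · rw [Subgroup.normalizer_eq_top_iff.mpr inferInstance]; exact le_top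
          · intro q hq hqd
            rw [hH] at hqd
            have := (hm q hq hqd).2
            omega
        exact (Subgroup.le_centralizer_iff.mp h1).trans (Subgroup.centralizer_le_normalizer _)
    have hNn : (H ⊔ fittingSubgroup G).Normal :=
      Cfsg.Agent.Helper23.normal_of_commutator_le (hKF.trans le_sup_right)
    have hNH : H ⊔ fittingSubgroup G ≤ Subgroup.normalizer (H : Set G) :=
      sup_le Subgroup.le_normalizer hFH
    have hHN : H ≤ H ⊔ fittingSubgroup G := le_sup_left
    have hrel : H.relIndex (H ⊔ fittingSubgroup G) ∣ n := by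
      rw [← hHidx]; exact Subgroup.relIndex_dvd_index_of_le hHN
    have hmem : ∀ x : G, x ∈ H ⊔ fittingSubgroup G → x ^ m = 1 → x ∈ H := by
      intro x hx hxm
      exact Cfsg.Agent.Helper23.mem_of_coprime_relIndex hNH hx hxm
        (Nat.Coprime.coprime_dvd_right hrel hmn)
    have hHn : H.Normal := by
      refine ⟨fun h hh g => ?_⟩
      apply hmem _ (hNn.conj_mem h (hHN hh) g)
      rw [conj_pow, hpowH h hh]
      group
    have hmem' : ∀ x : G, x ^ m = 1 → x ∈ H := by
      intro x hxm
      refine Cfsg.Agent.Helper23.mem_of_coprime_relIndex (H := H) (M := ⊤) ?_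
        (Subgroup.mem_top x) hxm ?_
      · rw [Subgroup.normalizer_eq_top_iff.mpr hHn]
      · rw [Subgroup.relIndex_top_right, hHidx]; exact hmn
    refine ⟨H, ?_, ?_, ?_⟩
    · rw [Subgroup.characteristic_iff_map_le]
      intro φ
      rintro _ ⟨h, hh, rfl⟩
      apply hmem'
      rw [← map_pow, hpowH h hh, map_one]
    · intro q hq hqd
      rw [hH] at hqd
      exact hm q hq hqd
    · intro q hq hqπ
      rw [hHidx]
      exact hn q hq hqπ

end Cfsg.Agent.S1451
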