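import Cfsg.Statements.S1452
import Cfsg.Agent.S0100
import Cfsg.Agent.Helper51.Basic

set_option autoImplicit false
open Cfsg

namespace Cfsg.Agent.S1452

/-- Let p be an odd prime and R a finite p-group containing an elementary abelian subgroup of order p ^ 3. If E is a normal elementary abelian subgroup of R of order p ^ 2, then E ≤ A for some normal subgroup A of R with C_R(A) = A that contains an elementary abelian subgroup of order p ^ 3. -/
theorem result {R : Type*} [Group R] [Finite R] (p : ℕ) [Fact p.Prime] (hp : p ≠ 2) (hR : IsPGroup p R) (hr : ¬ Cfsg.PRankLE p 2 R)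
    (E : Subgroup R) [E.Normal] (hE : Cfsg.IsElementaryAbelian p E) (hE2 : Nat.card E = p ^ 2) :
    ∃ A : Subgroup R, E ≤ A ∧ A.Normal ∧ Subgroup.centralizer (A : Set R) = A ∧ ¬ Cfsg.PRankLE p 2 A := by
  classical
  have hpp : p.Prime := Fact.out
  unfold Cfsg.PRankLE at hr
  push Not at hr
  obtain ⟨E₁, hE₁c, hE₁e, hE₁card⟩ := hr
  obtain ⟨T₀, hT₀, hT₀c, hET₀⟩ :=
    Cfsg.Agent.S0100.exists_elemAb_cube_ge hR E hE hE2 E₁ hE₁c hE₁e hE₁card
  obtain ⟨T, hTn, hT, hTc, hET⟩ :=
    Cfsg.Agent.S0100.exists_normal_elemAb_cube hp hR E hE hE2 T₀ hT₀ hT₀c hET₀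
  obtain ⟨B, ⟨hBn, hBc, hTB⟩, hmax⟩ := Set.exists_max_image
    {B : Subgroup R | B.Normal ∧ IsMulCommutative B ∧ T ≤ B}
    (fun B => Nat.card B) (Set.toFinite _) ⟨T, hTn, hT.1, le_rfl⟩
  haveI hnil : Group.IsNilpotent R := hR.isNilpotent
  have hmax' : ∀ B' : Subgroup R, B'.Normal → IsMulCommutative B' → B ≤ B' → B' = B := by
    intro B' hn hc hle
    exact (Subgroup.eq_of_le_of_card_ge hle (hmax B' ⟨hn, hc, hTB.trans hle⟩)).symm
  have hcen := Cfsg.Agent.Helper51.centralizer_le_of_maximal_normal_abelian B hBn hBc hmax'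
  refine ⟨B, hET.trans hTB, hBn, le_antisymm hcen ?_, ?_⟩
  · intro b hb
    rw [Subgroup.mem_centralizer_iff]
    intro c hc
    exact congrArg Subtype.val (mul_comm' (⟨c, hc⟩ : B) ⟨b, hb⟩)
  · intro hrank
    have h1 := hrank (T.subgroupOf B)
      ⟨⟨fun a b => Subtype.ext (Subtype.ext (by
        haveI := hT.1
        show (((a : B) : R)) * (((b : B) : R)) = (((b : B) : R)) * (((a : B) : R))
        exact congrArg Subtype.val (mul_comm' (⟨((a : B) : R), a.2⟩ : T) ⟨((b : B) : R), b.2⟩)))⟩⟩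
      (fun a ha => Subtype.ext (by
        have := hT.2 (a : R) ha
        simpa using this))
    rw [Nat.card_congr (Subgroup.subgroupOfEquivOfLe hTB).toEquiv, hTc] at h1
    have h2 : p ^ 2 < p ^ 3 := Nat.pow_lt_pow_right hpp.one_lt (by norm_num)
    omega

end Cfsg.Agent.S1452
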