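import Cfsg.Statements.S1457
-- import your own Cfsg.Agent.* helpers here
import Cfsg.Agent.Helper24.HallHigman

set_option autoImplicit false
open Cfsg

namespace Cfsg.Agent.S1457

open scoped commutatorElement in
/-- Let G be a solvable group of odd order, p a prime, S a Sylow p-subgroup of G and A an abelian subgroup of S normal in S. Then A ≤ O_{p',p}(G). -/
theorem result {G : Type*} [Group G] [Finite G] [Group.IsSolvable G] (hodd : Odd (Nat.card G)) (p : ℕ) [Fact p.Prime] (S : Sylow p G) (A : Subgroup G) (hA : A ≤ (S : Subgroup G)) (hAc : IsMulCommutative A)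
    (hAn : (S : Subgroup G) ≤ Subgroup.normalizer (A : Set G)) :
    A ≤ Cfsg.pPrimePCore p G := by
  intro a haA
  change QuotientGroup.mk' (pPrimeCore p G) a ∈ pCore p (G ⧸ pPrimeCore p G)
  have hcore : ∀ D : Subgroup (G ⧸ pPrimeCore p G), D.Normal → (Nat.card D).Coprime p → D = ⊥ :=
    Cfsg.Agent.Helper24.eq_bot_of_normal_coprime_quotient_pPrimeCore p
  have hHH := Cfsg.Agent.Helper24.centralizer_pCore_le (G := G ⧸ pPrimeCore p G) p hcore
  have hodd' : Odd (Nat.card (G ⧸ pPrimeCore p G)) :=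
    Odd.of_dvd_nat hodd (Subgroup.card_quotient_dvd_card _)
  have hRS : pCore p (G ⧸ pPrimeCore p G) ≤
      (S : Subgroup G).map (QuotientGroup.mk' (pPrimeCore p G)) :=
    Cfsg.Agent.Helper24.normal_isPGroup_le_sylow
      (inferInstance : (pCore p (G ⧸ pPrimeCore p G)).Normal)
      (Cfsg.Agent.Helper24.isPGroup_pCore p _)
      (S.mapSurjective (QuotientGroup.mk'_surjective (pPrimeCore p G)))
  have hq : ∀ x ∈ pCore p (G ⧸ pPrimeCore p G),
      Commute (QuotientGroup.mk' (pPrimeCore p G) a) ⁅x, QuotientGroup.mk' (pPrimeCore p G) a⁆ := by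
    intro x hx
    obtain ⟨s, hs, rfl⟩ := hRS hx
    rw [← map_commutatorElement]
    apply Commute.map
    have h1 : ⁅s, a⁆ ∈ A := by
      have h0 : s * a * s⁻¹ ∈ A := (Subgroup.mem_normalizer_iff.1 (hAn hs) a).1 haA
      have h2 : ⁅s, a⁆ = (s * a * s⁻¹) * a⁻¹ := by simp [commutatorElement_def]
      rw [h2]; exact A.mul_mem h0 (A.inv_mem haA)
    have h3 := hAc.is_comm.comm (⟨a, haA⟩ : A) ⟨⁅s, a⁆, h1⟩
    exact congrArg Subtype.val h3
  haveI : (Subgroup.centralizer (pCore p (G ⧸ pPrimeCore p G) : Set (G ⧸ pPrimeCore p G))).Normal :=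
    Subgroup.normal_centralizer
  have hmem := Cfsg.Agent.Helper24.mk_mem_pCore_of_quadratic hodd' p
    (pCore p (G ⧸ pPrimeCore p G)) (Cfsg.Agent.Helper24.isPGroup_pCore p _)
    (Subgroup.centralizer (pCore p (G ⧸ pPrimeCore p G) : Set (G ⧸ pPrimeCore p G)))
    (fun x hx => Subgroup.mem_centralizer_iff.2 hx) (QuotientGroup.mk' (pPrimeCore p G) a) hq
  have hTp : IsPGroup p ((pCore p ((G ⧸ pPrimeCore p G) ⧸
      Subgroup.centralizer (pCore p (G ⧸ pPrimeCore p G) : Set (G ⧸ pPrimeCore p G)))).comap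
      (QuotientGroup.mk' (Subgroup.centralizer
        (pCore p (G ⧸ pPrimeCore p G) : Set (G ⧸ pPrimeCore p G))))) :=
    (Cfsg.Agent.Helper24.isPGroup_pCore p _).comap_of_ker_isPGroup _ (by
      rw [QuotientGroup.ker_mk']
      exact (Cfsg.Agent.Helper24.isPGroup_pCore p _).to_le hHH)
  have hTn : ((pCore p ((G ⧸ pPrimeCore p G) ⧸
      Subgroup.centralizer (pCore p (G ⧸ pPrimeCore p G) : Set (G ⧸ pPrimeCore p G)))).comap
      (QuotientGroup.mk' (Subgroup.centralizer
        (pCore p (G ⧸ pPrimeCore p G) : Set (G ⧸ pPrimeCore p G))))).Normal :=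
    Subgroup.Normal.comap inferInstance _
  exact Cfsg.Agent.Helper24.le_pCore hTn hTp hmem

end Cfsg.Agent.S1457
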