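-- Statement S1459 (row 1459).
import Cfsg.Statements.S1459

set_option autoImplicit false
open Cfsg
open scoped commutatorElement

namespace Cfsg.Agent.S1459

universe u

theorem part1a {G : Type*} [Group G] [Finite G] [Group.IsSolvable G] (H K : Subgroup G) (hHn : H.Normal)
    (hcop : (Nat.card H).Coprime H.index) (hc : Subgroup.IsComplement' H K) (hle : H ≤ commutator G) :
    H = ⁅H, K⁆ := by
  classical
  have hsup : H ⊔ K = ⊤ := hc.sup_eq_top
  have hcardK : Nat.card K = H.index := by
    have h1 := hc.card_mul_card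
    have h2 := H.card_mul_index
    have hpos : 0 < Nat.card H := Nat.card_pos
    exact Nat.eq_of_mul_eq_mul_left hpos (h1.trans h2.symm)
  have hcopHK : (Nat.card H).Coprime (Nat.card K) := by rw [hcardK]; exact hcop
  -- Step 2: H ≤ ⁅H, ⊤⁆
  have step2 : H ≤ ⁅H, (⊤ : Subgroup G)⁆ := by
    set A : Subgroup G := ⁅H, (⊤ : Subgroup G)⁆ with hA
    let π := QuotientGroup.mk' A
    have hπ : Function.Surjective π := QuotientGroup.mk'_surjective A
    set X := H.map π with hX
    set Y := K.map π with hY
    have hXc : X ≤ Subgroup.center (G ⧸ A) := by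
      rw [← Subgroup.commutator_top_right_eq_bot_iff_le_center, hX,
        ← Subgroup.map_top_of_surjective π hπ, ← Subgroup.map_commutator, Subgroup.map_eq_bot_iff,
        QuotientGroup.ker_mk']
    have hXY : Y ⊔ X = ⊤ := by
      rw [hX, hY, ← Subgroup.map_sup, sup_comm, hsup, Subgroup.map_top_of_surjective π hπ]
    have hYn : Y.Normal := by
      rw [← Subgroup.normalizer_eq_top_iff, ← top_le_iff, ← hXY]
      exact sup_le Subgroup.le_normalizer (hXc.trans (Subgroup.center_le_normalizer _))
    have hXcomm : IsMulCommutative X := by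
      rw [← Subgroup.commutator_self_eq_bot_iff, ← le_bot_iff]
      calc ⁅X, X⁆ ≤ ⁅X, ⊤⁆ := Subgroup.commutator_mono le_rfl le_top
        _ = ⊥ := Subgroup.commutator_top_right_eq_bot_iff_le_center.mpr hXc
    have hcommQ : commutator (G ⧸ A) ≤ Y :=
      Subgroup.Normal.commutator_le_of_self_sup_commutative_eq_top hXY hXcomm
    have hXle : X ≤ Y := by
      calc X ≤ (commutator G).map π := Subgroup.map_mono hle
        _ = commutator (G ⧸ A) := by
          rw [map_commutator_eq, MonoidHom.range_eq_top.mpr hπ, commutator_def]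
        _ ≤ Y := hcommQ
    have hXYbot : X ⊓ Y = ⊥ := by
      apply Disjoint.eq_bot
      apply Subgroup.disjoint_of_coprime_natCard
      exact Nat.Coprime.coprime_dvd_left (Subgroup.card_map_dvd H π)
        (Nat.Coprime.coprime_dvd_right (Subgroup.card_map_dvd K π) hcopHK)
    have hXbot : X = ⊥ := by
      rw [← le_bot_iff, ← hXYbot]; exact le_inf le_rfl hXle
    rw [hX, Subgroup.map_eq_bot_iff, QuotientGroup.ker_mk'] at hXbot
    exact hXbot
  have hMn : (⁅H, K⁆).Normal := by
    rw [← Subgroup.normalizer_eq_top_iff, ← top_le_iff, ← hsup]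
    exact sup_le (Subgroup.normalizer_commutator_ge_left H K) (Subgroup.normalizer_commutator_ge_right H K)
  have step1 : ⁅H, (⊤ : Subgroup G)⁆ ≤ ⁅H, H⁆ ⊔ ⁅H, K⁆ := by
    rw [Subgroup.commutator_le]
    intro h hh g _
    obtain ⟨h2, hh2, k2, hk2, rfl⟩ : ∃ y ∈ H, ∃ z ∈ K, y * z = g := by
      have : g ∈ H ⊔ K := by rw [hsup]; trivial
      exact Subgroup.mem_sup_of_normal_left.mp this
    rw [commutatorElement_mul_right_eq_mul_conj]
    have a1 : ⁅h, h2⁆ ∈ ⁅H, H⁆ ⊔ ⁅H, K⁆ :=
      Subgroup.mem_sup_left (Subgroup.commutator_mem_commutator hh hh2)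
    have a2 : h2 * ⁅h, k2⁆ * h2⁻¹ ∈ ⁅H, H⁆ ⊔ ⁅H, K⁆ :=
      Subgroup.mem_sup_right (hMn.conj_mem _ (Subgroup.commutator_mem_commutator hh hk2) h2)
    have e : ⁅h, h2⁆ * h2 * ⁅h, k2⁆ * h2⁻¹ = ⁅h, h2⁆ * (h2 * ⁅h, k2⁆ * h2⁻¹) := by group
    rw [e]; exact Subgroup.mul_mem _ a1 a2
  have hHM : H ≤ ⁅H, K⁆ := by
    set M : Subgroup G := ⁅H, K⁆ with hM
    let π := QuotientGroup.mk' M
    have hπ : Function.Surjective π := QuotientGroup.mk'_surjective M
    set X := H.map π with hX
    have hXle : X ≤ ⁅X, X⁆ := by
      calc X ≤ (⁅H, H⁆ ⊔ M).map π := Subgroup.map_mono (step2.trans step1)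
        _ = ⁅X, X⁆ := by
          rw [Subgroup.map_sup, Subgroup.map_commutator,
            (Subgroup.map_eq_bot_iff M).mpr (by rw [QuotientGroup.ker_mk']), sup_bot_eq]
    have hXbot : X = ⊥ := by
      by_contra hne
      exact (lt_irrefl _) (lt_of_le_of_lt hXle (Group.IsSolvable.commutator_lt_of_ne_bot hne))
    rw [hX, Subgroup.map_eq_bot_iff, QuotientGroup.ker_mk'] at hXbot
    exact hXbot
  exact le_antisymm hHM (Subgroup.commutator_le_left H K)

theorem part1b {G : Type*} [Group G] [Finite G] (H K : Subgroup G) (hHn : H.Normal)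
    (hcopHK : (Nat.card H).Coprime (Nat.card K)) (hHK : H = ⁅H, K⁆) :
    H ⊓ Subgroup.centralizer (K : Set G) ≤ ⁅H, H⁆ := by
  classical
  have : Fintype K := Fintype.ofFinite K
  let φ : K → (H →* Abelianization H) := fun k =>
    (Abelianization.of).comp (MulAut.conjNormal (k : G) : MulAut H).toMonoidHom
  let T : H →* Abelianization H := ∏ k : K, φ k
  have hT : ∀ h : H, T h = ∏ k : K, Abelianization.of ((MulAut.conjNormal (k : G) : MulAut H) h) := by
    intro h; simp [T, φ]
  have hTinv : ∀ (k' : K) (h : H), T ((MulAut.conjNormal (k' : G) : MulAut H) h) = T h := by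
    intro k' h
    rw [hT, hT]
    refine Fintype.prod_equiv (Equiv.mulRight k') _ _ ?_
    intro k
    simp [map_mul]
  have hTcomm : ∀ h ∈ H, ∀ k ∈ K, ∀ (hm : ⁅h, k⁆ ∈ H), T ⟨⁅h, k⁆, hm⟩ = 1 := by
    intro h hh k hk hm
    have : (⟨⁅h, k⁆, hm⟩ : H) = ⟨h, hh⟩ * (MulAut.conjNormal (k : G) : MulAut H) (⟨h, hh⟩⁻¹) := by
      ext; simp [commutatorElement_def, mul_assoc]
    rw [this, map_mul, hTinv ⟨k, hk⟩, map_inv, mul_inv_cancel]
  have hTall : ∀ h : H, T h = 1 := by
    intro h
    have hmem : (h : G) ∈ ⁅H, K⁆ := by rw [← hHK]; exact h.2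
    have hle : ⁅H, K⁆ ≤ (T.ker).map H.subtype := by
      rw [Subgroup.commutator_le]
      intro a ha b hb
      have hm : ⁅a, b⁆ ∈ H := hHK ▸ Subgroup.commutator_mem_commutator ha hb
      exact ⟨⟨⁅a, b⁆, hm⟩, hTcomm a ha b hb hm, rfl⟩
    obtain ⟨h', hh', e⟩ := hle hmem
    have : h' = h := Subtype.ext e
    rw [← this]; exact hh'
  intro x hx
  obtain ⟨hxH, hxC⟩ := Subgroup.mem_inf.mp hx
  have hfix : ∀ k : K, (MulAut.conjNormal (k : G) : MulAut H) ⟨x, hxH⟩ = ⟨x, hxH⟩ := by
    intro k
    ext
    have := (Subgroup.mem_centralizer_iff.mp hxC) k k.2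
    simp [this]
  have h1 : (Abelianization.of (⟨x, hxH⟩ : H)) ^ (Nat.card K) = 1 := by
    have := hTall ⟨x, hxH⟩
    rw [hT] at this
    simp only [hfix] at this
    rw [Finset.prod_const, Finset.card_univ, ← Nat.card_eq_fintype_card] at this
    exact this
  have h2 : orderOf (Abelianization.of (⟨x, hxH⟩ : H)) ∣ Nat.card K := orderOf_dvd_of_pow_eq_one h1
  have h3 : orderOf (Abelianization.of (⟨x, hxH⟩ : H)) ∣ Nat.card H :=
    (orderOf_map_dvd _ _).trans (orderOf_dvd_natCard _)
  have h4 : orderOf (Abelianization.of (⟨x, hxH⟩ : H)) = 1 := Nat.eq_one_of_dvd_coprimes hcopHK h3 h2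
  have h5 : Abelianization.of (⟨x, hxH⟩ : H) = 1 := orderOf_eq_one_iff.mp h4
  have h6 : (⟨x, hxH⟩ : H) ∈ commutator H := by
    rw [← Abelianization.ker_of]; exact h5
  rw [← Subgroup.map_subtype_commutator]
  exact ⟨⟨x, hxH⟩, h6, rfl⟩

theorem commutator_eq_bot_of_isCyclic_quotient {P : Type*} [Group P] [Group.IsNilpotent P]
    (hcyc : IsCyclic (P ⧸ commutator P)) : commutator P = ⊥ := by
  set D := commutator P with hD
  set E : Subgroup P := ⁅D, ⊤⁆ with hE
  have hED : E ≤ D := Subgroup.commutator_le_left D ⊤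
  have hcomm : IsMulCommutative (P ⧸ E) := by
    let f : P ⧸ E →* P ⧸ D := QuotientGroup.map E D (MonoidHom.id P) (by simpa using hED)
    apply MonoidHom.isMulCommutative_of_isCyclic_of_ker_le_center f
    intro x hx
    obtain ⟨y, rfl⟩ := QuotientGroup.mk_surjective x
    have hy : y ∈ D := by
      have : f (QuotientGroup.mk y) = 1 := hx
      simpa [f, QuotientGroup.eq_one_iff] using this
    rw [Subgroup.mem_center_iff]
    intro z
    obtain ⟨w, rfl⟩ := QuotientGroup.mk_surjective z
    have hc : ⁅y⁻¹, w⁻¹⁆ ∈ E :=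
      Subgroup.commutator_mem_commutator (D.inv_mem hy) (Subgroup.mem_top _)
    rw [← QuotientGroup.mk_mul, ← QuotientGroup.mk_mul, QuotientGroup.eq]
    have e : (w * y)⁻¹ * (y * w) = ⁅y⁻¹, w⁻¹⁆ := by
      simp [commutatorElement_def, mul_assoc]
    rw [e]; exact hc
  have hDE : D ≤ E := Subgroup.Normal.quotient_commutative_iff_commutator_le.mp hcomm
  have hlcs : ∀ n, D ≤ (⊤ : Subgroup P).lowerCentralSeries (n + 1) := by
    intro n
    induction n with
    | zero => rw [zero_add, Subgroup.top_lowerCentralSeries_one]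
    | succ n ih =>
      rw [Subgroup.lowerCentralSeries_succ]
      exact hDE.trans (Subgroup.commutator_mono ih le_rfl)
  obtain ⟨n, hn⟩ := Subgroup.nilpotent_iff_lowerCentralSeries.mp (inferInstance : Group.IsNilpotent P)
  rw [← le_bot_iff]
  rcases n with _ | n
  · rw [← hn]; exact le_top
  · rw [← hn]; exact hlcs n

theorem part2a_aux : ∀ (n : ℕ) (G : Type u) [Group G] [Finite G], Nat.card G = n →
    Group.IsNilpotent (commutator G) → (commutator G).index.Prime →
    (Nat.card (commutator G)).Coprime (commutator G).index := by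
  intro n
  induction n using Nat.strong_induction_on with
  | _ n ih =>
    intro G _ _ hn hnil hq
    set D := commutator G with hD
    set q := D.index with hqdef
    have hcardG : Nat.card D * q = Nat.card G := D.card_mul_index
    by_cases hex : ∃ ℓ : ℕ, ℓ.Prime ∧ ℓ ≠ q ∧ ℓ ∣ Nat.card D
    · obtain ⟨ℓ, hℓ, hne, hdvd⟩ := hex
      have : Fact ℓ.Prime := ⟨hℓ⟩
      obtain ⟨P⟩ : Nonempty (Sylow ℓ D) := inferInstance
      have hPn : (P : Subgroup D).Normal := inferInstance
      have hPc : (P : Subgroup D).Characteristic := Sylow.characteristic_of_normal P hPn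
      set N : Subgroup G := (P : Subgroup D).map D.subtype with hN
      have hNn : N.Normal := ConjAct.normal_of_characteristic_of_normal
      have hND : N ≤ D := Subgroup.map_subtype_le _
      have hcardN : Nat.card N = ℓ ^ (Nat.card D).factorization ℓ := by
        rw [hN, Subgroup.card_map_of_injective D.subtype_injective, Sylow.card_eq_multiplicity]
      have hNcop : (Nat.card N).Coprime q := by
        rw [hcardN]
        exact Nat.Coprime.pow_left _ ((Nat.coprime_primes hℓ hq).mpr hne)
      have hNgt : 1 < Nat.card N := by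
        rw [hcardN]
        apply Nat.one_lt_pow _ hℓ.one_lt
        have : 0 < (Nat.card D).factorization ℓ :=
          hℓ.factorization_pos_of_dvd Nat.card_pos.ne' hdvd
        omega
      let π := QuotientGroup.mk' N
      have hπ : Function.Surjective π := QuotientGroup.mk'_surjective N
      have hDmap : commutator (G ⧸ N) = D.map π := by
        rw [hD, map_commutator_eq, MonoidHom.range_eq_top.mpr hπ, commutator_def]
      have hidx : (D.map π).index = q :=
        Subgroup.index_map_eq D hπ (by rw [QuotientGroup.ker_mk']; exact hND)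
      have hcardQ : Nat.card (G ⧸ N) * Nat.card N = Nat.card G :=
        (Subgroup.card_eq_card_quotient_mul_card_subgroup N).symm
      have hlt : Nat.card (G ⧸ N) < n := by
        rw [← hn, ← hcardQ]
        have hpos : 0 < Nat.card (G ⧸ N) := Nat.card_pos
        nlinarith
      have hnil' : Group.IsNilpotent (commutator (G ⧸ N)) := by
        rw [hDmap]
        exact Group.nilpotent_of_surjective (π.subgroupMap D) (π.subgroupMap_surjective D)
      have hq' : (commutator (G ⧸ N)).index.Prime := by rw [hDmap, hidx]; exact hq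
      have key := ih _ hlt (G ⧸ N) rfl hnil' hq'
      rw [hDmap, hidx] at key
      -- card D = card (D.map π) * card N
      have h1 : Nat.card (D.map π) * q = Nat.card (G ⧸ N) := by
        rw [← hidx]; exact (D.map π).card_mul_index
      have h2 : Nat.card D = Nat.card (D.map π) * Nat.card N := by
        have hqpos : 0 < q := hq.pos
        apply Nat.eq_of_mul_eq_mul_right hqpos
        rw [hcardG, ← hcardQ, ← h1]; ring
      rw [h2]
      exact Nat.Coprime.mul_left key hNcop
    · -- D is a q-group
      simp only [not_exists, not_and] at hex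
      have hDpow : Nat.card D = q ^ (Nat.card D).primeFactorsList.length := by
        apply Nat.eq_prime_pow_of_unique_prime_dvd Nat.card_pos.ne'
        intro d hd hdd
        by_contra hdq
        exact hex d hd hdq hdd
      have hGpow : Nat.card G = q ^ ((Nat.card D).primeFactorsList.length + 1) := by
        rw [← hcardG, pow_succ, ← hDpow]
      have : Fact q.Prime := ⟨hq⟩
      have hGp : IsPGroup q G := IsPGroup.of_card hGpow
      have : Group.IsNilpotent G := hGp.isNilpotent
      have hcyc : IsCyclic (G ⧸ commutator G) := by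
        apply isCyclic_of_prime_card (p := q)
        rw [← Subgroup.index_eq_card]
      have hbot := commutator_eq_bot_of_isCyclic_quotient hcyc
      have : Nat.card D = 1 := by
        rw [hD, hbot]; exact Subgroup.card_bot
      rw [this]; exact Nat.coprime_one_left _

/-- Let G be a finite solvable group. (a) If H is a normal subgroup of order coprime to its index, K is a complement to H, and H ≤ G', then H = [H, K] and H ∩ C_G(K) ≤ [H, H]. (b) If G' is nilpotent and has prime index in G, then the order of G' is coprime to its index and G' = [G, K] (the subgroup generated by commutators of elements of G with elements of K) for every complement K of G'. -/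
theorem result {G : Type*} [Group G] [Finite G] [Group.IsSolvable G] :
    (∀ (H K : Subgroup G), H.Normal → (Nat.card H).Coprime H.index → Subgroup.IsComplement' H K → H ≤ commutator G →
        H = ⁅H, K⁆ ∧ H ⊓ Subgroup.centralizer (K : Set G) ≤ ⁅H, H⁆) ∧
      (Group.IsNilpotent ↥(commutator G) → (commutator G).index.Prime →
        (Nat.card ↥(commutator G)).Coprime (commutator G).index ∧
        ∀ K : Subgroup G, Subgroup.IsComplement' (commutator G) K → commutator G = ⁅(⊤ : Subgroup G), K⁆) := by
  have P1 : ∀ (H K : Subgroup G), H.Normal → (Nat.card H).Coprime H.index →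
      Subgroup.IsComplement' H K → H ≤ commutator G →
      H = ⁅H, K⁆ ∧ H ⊓ Subgroup.centralizer (K : Set G) ≤ ⁅H, H⁆ := by
    intro H K hHn hcop hc hle
    have h1 := part1a H K hHn hcop hc hle
    have hcardK : Nat.card K = H.index := by
      have e1 := hc.card_mul_card
      have e2 := H.card_mul_index
      have hpos : 0 < Nat.card H := Nat.card_pos
      exact Nat.eq_of_mul_eq_mul_left hpos (e1.trans e2.symm)
    have hcopHK : (Nat.card H).Coprime (Nat.card K) := by rw [hcardK]; exact hcop
    exact ⟨h1, part1b H K hHn hcopHK h1⟩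
  refine ⟨P1, ?_⟩
  intro hnil hq
  have hc := part2a_aux _ G rfl hnil hq
  refine ⟨hc, ?_⟩
  intro K hK
  have hDn : (commutator G).Normal := inferInstance
  have h := (P1 (commutator G) K hDn hc hK le_rfl).1
  apply le_antisymm
  · calc commutator G = ⁅commutator G, K⁆ := h
      _ ≤ ⁅⊤, K⁆ := Subgroup.commutator_mono le_top le_rfl
  · rw [commutator_def]; exact Subgroup.commutator_mono le_top le_top

end Cfsg.Agent.S1459
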