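-- Statement S1460 (row 1460).
import Cfsg.Statements.S1460
import Cfsg.Agent.Helper24.PLen
import Cfsg.Agent.Helper35.SZ

set_option autoImplicit false
open Cfsg
open scoped commutatorElement Pointwise

namespace Cfsg.Agent.S1460

open Cfsg.Agent.Helper24 Cfsg.Agent.Helper35

/-- The factorisation `g = u * c`. -/
theorem factor {G : Type*} [Group G] [Finite G] [Group.IsSolvable G] (K U H : Subgroup G)
    [hKn : K.Normal] (hKU : K ⊔ U = ⊤) (hH : H ≤ U) (hcop : (Nat.card H).Coprime (Nat.card K)) :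
    ∀ g : G, H.map (MulAut.conj g).toMonoidHom ≤ U →
      ∃ u ∈ U, ∃ c ∈ K ⊓ Subgroup.centralizer (H : Set G), g = u * c := by
  intro g hg
  obtain ⟨u, hu, k, hk, rfl⟩ := Subgroup.mem_sup_of_normal_right.mp
    (show g ∈ U ⊔ K by rw [sup_comm, hKU]; trivial)
  have hKH : K ⊓ H = ⊥ := by
    apply Disjoint.eq_bot; apply Subgroup.disjoint_of_coprime_natCard; exact hcop.symm
  have hkH : ∀ h ∈ H, k * h * k⁻¹ ∈ U := by
    intro h hh
    have h1 : (u * k) * h * (u * k)⁻¹ ∈ U := hg ⟨h, hh, by simp [mul_assoc]⟩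
    have h2 : k * h * k⁻¹ = u⁻¹ * ((u * k) * h * (u * k)⁻¹) * u := by group
    rw [h2]; exact U.mul_mem (U.mul_mem (U.inv_mem hu) h1) hu
  set N : Subgroup G := K ⊓ U with hN
  set X : Subgroup G := N ⊔ H with hX
  set H2 : Subgroup G := MulAut.conj k • H with hH2
  have hNX : N ≤ X := le_sup_left
  have hHX : H ≤ X := le_sup_right
  have hXU : X ≤ U := sup_le inf_le_right hH
  have hXN : X ≤ Subgroup.normalizer (N : Set G) := by
    refine hXU.trans ?_
    intro v hv
    rw [Subgroup.mem_normalizer_iff]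
    intro n
    constructor
    · intro hn
      exact ⟨hKn.conj_mem n hn.1 v, U.mul_mem (U.mul_mem hv hn.2) (U.inv_mem hv)⟩
    · intro hn
      have h1 : v⁻¹ * (v * n * v⁻¹) * v⁻¹⁻¹ ∈ K := hKn.conj_mem _ hn.1 v⁻¹
      have h2 : v⁻¹ * (v * n * v⁻¹) * v ∈ U := U.mul_mem (U.mul_mem (U.inv_mem hv) hn.2) hv
      have e1 : v⁻¹ * (v * n * v⁻¹) * v⁻¹⁻¹ = n := by group
      have e2 : v⁻¹ * (v * n * v⁻¹) * v = n := by group
      rw [e1] at h1; rw [e2] at h2
      exact ⟨h1, h2⟩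
  have hNH : N ⊓ H = ⊥ := by
    apply Disjoint.eq_bot; apply Subgroup.disjoint_of_coprime_natCard
    exact Nat.Coprime.coprime_dvd_left (Subgroup.card_dvd_of_le inf_le_left) hcop.symm
  have hH2X : H2 ≤ X := by
    intro y hy
    rw [hH2, mem_conj_smul] at hy
    have hy' : y = k * (k⁻¹ * y * k) * k⁻¹ := by group
    have hyU : y ∈ U := by rw [hy']; exact hkH _ hy
    have hcK : y * (k⁻¹ * y * k)⁻¹ ∈ K := by
      have : y * (k⁻¹ * y * k)⁻¹ = (y * k⁻¹ * y⁻¹) * k := by group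
      rw [this]; exact K.mul_mem (hKn.conj_mem _ (K.inv_mem hk) y) hk
    have hcU : y * (k⁻¹ * y * k)⁻¹ ∈ U := U.mul_mem hyU (U.inv_mem (hH hy))
    have e : y = (y * (k⁻¹ * y * k)⁻¹) * (k⁻¹ * y * k) := by group
    rw [e]
    exact Subgroup.mul_mem _ (Subgroup.mem_sup_left ⟨hcK, hcU⟩) (Subgroup.mem_sup_right hy)
  have hNXn : (N.subgroupOf X).Normal := Subgroup.normal_subgroupOf_of_le_normalizer hXN
  have hc1 : (N.subgroupOf X).IsComplement' (H.subgroupOf X) := by
    refine isComplement'_of_normal ?_ ?_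
    · rw [eq_bot_iff]
      rintro ⟨x, hxX⟩ ⟨hx1, hx2⟩
      have : x ∈ N ⊓ H := ⟨hx1, hx2⟩
      rw [hNH, Subgroup.mem_bot] at this
      rw [Subgroup.mem_bot]
      exact Subtype.ext this
    · rw [← Subgroup.subgroupOf_sup hNX hHX, ← hX, Subgroup.subgroupOf_self]
  have hcardH2 : Nat.card (H2.subgroupOf X) = Nat.card (H.subgroupOf X) := by
    rw [card_subgroupOf_of_le hH2X, card_subgroupOf_of_le hHX, hH2, card_conj_smul]
  have hcopX : (Nat.card (N.subgroupOf X)).Coprime (Nat.card (H.subgroupOf X)) := by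
    rw [card_subgroupOf_of_le hNX, card_subgroupOf_of_le hHX]
    exact Nat.Coprime.coprime_dvd_left (Subgroup.card_dvd_of_le inf_le_left) hcop.symm
  have hc2 : (N.subgroupOf X).IsComplement' (H2.subgroupOf X) := by
    apply Subgroup.isComplement'_of_coprime
    · rw [hcardH2]; exact hc1.card_mul_card
    · rw [hcardH2]; exact hcopX
  have hidx : (Nat.card (N.subgroupOf X)).Coprime (N.subgroupOf X).index := by
    rw [hc1.symm.index_eq_card]; exact hcopX
  obtain ⟨n, hn, hconj⟩ := sz_conj (N.subgroupOf X) hidx (Or.inl inferInstance)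
    (H.subgroupOf X) (H2.subgroupOf X) hc1 hc2
  have hconj' : MulAut.conj (n : G) • H = MulAut.conj k • H :=
    conj_smul_eq_of_subgroupOf hHX hH2X n hconj
  have hnN : (n : G) ∈ N := hn
  -- c = n⁻¹ * k normalizes H
  have hcH : MulAut.conj ((n : G)⁻¹ * k) • H = H := by
    rw [← conj_smul_conj_smul, ← hconj', conj_smul_conj_smul, inv_mul_cancel]
    simp
  have hcK : (n : G)⁻¹ * k ∈ K := K.mul_mem (K.inv_mem hnN.1) hk
  refine ⟨u * n, U.mul_mem hu hnN.2, (n : G)⁻¹ * k, Subgroup.mem_inf.mpr ⟨hcK, ?_⟩, by group⟩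
  rw [Subgroup.mem_centralizer_iff]
  intro h hh
  set c := (n : G)⁻¹ * k with hc
  have h1 : c * h * c⁻¹ ∈ H := by
    have := conj_mem_conj_smul (g := c) hh
    rwa [hcH] at this
  have h2 : c * h * c⁻¹ * h⁻¹ ∈ K ⊓ H := by
    refine ⟨?_, H.mul_mem h1 (H.inv_mem hh)⟩
    have : c * h * c⁻¹ * h⁻¹ = c * (h * c⁻¹ * h⁻¹) := by group
    rw [this]; exact K.mul_mem hcK (hKn.conj_mem _ (K.inv_mem hcK) h)
  rw [hKH, Subgroup.mem_bot] at h2
  calc h * c = (c * h * c⁻¹ * h⁻¹)⁻¹ * (c * h) := by group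
    _ = c * h := by rw [h2]; simp

/-- Let G = K U be a finite solvable group with K normal, and let H ≤ U have order coprime to the order of K. Then H ∩ G' = H ∩ U', N_G(H) = C_K(H) N_U(H), and every g ∈ G with g H g⁻¹ ≤ U can be written as g = u c with u ∈ U and c ∈ C_K(H). -/
theorem result {G : Type*} [Group G] [Finite G] [Group.IsSolvable G] (K U H : Subgroup G) [K.Normal] (hKU : K ⊔ U = ⊤) (hH : H ≤ U) (hcop : (Nat.card H).Coprime (Nat.card K)) :
    H ⊓ commutator G = H ⊓ ⁅U, U⁆ ∧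
      Subgroup.normalizer (H : Set G) = (K ⊓ Subgroup.centralizer (H : Set G)) ⊔ (U ⊓ Subgroup.normalizer (H : Set G)) ∧
      ∀ g : G, H.map (MulAut.conj g).toMonoidHom ≤ U → ∃ u ∈ U, ∃ c ∈ K ⊓ Subgroup.centralizer (H : Set G), g = u * c := by
  have hf := factor K U H hKU hH hcop
  refine ⟨inf_commutator_eq_of_sup_eq_top K U H hKU hH hcop, ?_, hf⟩
  apply le_antisymm
  · intro g hg
    have hgH : H.map (MulAut.conj g).toMonoidHom ≤ U := by
      rintro _ ⟨h, hh, rfl⟩
      apply hH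
      have := (Subgroup.mem_normalizer_iff.mp hg) h
      simpa using this.mp hh
    obtain ⟨u, hu, c, hc, rfl⟩ := hf g hgH
    have hcN : c ∈ Subgroup.normalizer (H : Set G) := Subgroup.centralizer_le_normalizer (H : Set G) hc.2
    have huN : u ∈ Subgroup.normalizer (H : Set G) := by
      have := Subgroup.mul_mem _ hg (Subgroup.inv_mem _ hcN)
      simpa using this
    rw [sup_comm]
    exact Subgroup.mul_mem _ (Subgroup.mem_sup_left ⟨hu, huN⟩) (Subgroup.mem_sup_right hc)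
  · exact sup_le (inf_le_right.trans (Subgroup.centralizer_le_normalizer _)) inf_le_right

end Cfsg.Agent.S1460
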