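-- Statement S1461 (row 1461).
import Cfsg.Statements.S1461
import Cfsg.Agent.Helper24.PLen

set_option autoImplicit false
open Cfsg
open scoped commutatorElement Pointwise

namespace Cfsg.Agent.S1461

open Cfsg.Agent.Helper24

/-- Let G be a finite solvable group of p-length at most one and S a Sylow p-subgroup of G. (a) If S ≤ G' then S ≤ N_G(S)'. (b) If Y ⊆ S and x Y x⁻¹ ⊆ S, then x = g c with g ∈ N_G(S) and c ∈ C_G(Y). (c) Every p-subgroup Q of G is conjugated into S by some element centralizing Q ∩ S. -/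
theorem result {G : Type*} [Group G] [Finite G] [Group.IsSolvable G] (p : ℕ) [Fact p.Prime] (hpl : Cfsg.PLengthLE p 1 G) (S : Sylow p G) :
    ((S : Subgroup G) ≤ commutator G → (S : Subgroup G) ≤ ⁅Subgroup.normalizer ((S : Subgroup G) : Set G), Subgroup.normalizer ((S : Subgroup G) : Set G)⁆) ∧
      (∀ (Y : Set G) (x : G), Y ⊆ (S : Subgroup G) → (fun y => x * y * x⁻¹) '' Y ⊆ (S : Subgroup G) →
        ∃ g ∈ Subgroup.normalizer ((S : Subgroup G) : Set G), ∃ c ∈ Subgroup.centralizer Y, g * c = x) ∧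
      ∀ Q : Subgroup G, IsPGroup p Q → ∃ x ∈ Subgroup.centralizer ((Q ⊓ (S : Subgroup G) : Subgroup G) : Set G), Q.map (MulAut.conj x).toMonoidHom ≤ (S : Subgroup G) := by
  set K : Subgroup G := pPrimeCore p G with hK
  set N : Subgroup G := Subgroup.normalizer ((S : Subgroup G) : Set G) with hN
  have hNK : N ⊔ K = ⊤ := normalizer_sup_pPrimeCore_eq_top p hpl S
  have hKcop : (Nat.card K).Coprime p := coprime_card_pPrimeCore p
  have hSK : (S : Subgroup G) ⊓ K = ⊥ := inf_eq_bot_of_isPGroup_of_coprime S.isPGroup' hKcop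
  have hKn : K.Normal := inferInstance
  -- key: if `k ∈ K`, `y ∈ S` and `k * y * k⁻¹ ∈ S` then `k` and `y` commute
  have key : ∀ k ∈ K, ∀ y ∈ (S : Subgroup G), k * y * k⁻¹ ∈ (S : Subgroup G) → k * y = y * k := by
    intro k hk y hy hky
    have h1 : k * y * k⁻¹ * y⁻¹ ∈ (S : Subgroup G) := Subgroup.mul_mem _ hky (Subgroup.inv_mem _ hy)
    have h2 : k * y * k⁻¹ * y⁻¹ ∈ K := by
      have : k * y * k⁻¹ * y⁻¹ = k * (y * k⁻¹ * y⁻¹) := by group
      rw [this]
      exact K.mul_mem hk (hKn.conj_mem _ (K.inv_mem hk) y)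
    have h3 : k * y * k⁻¹ * y⁻¹ ∈ (S : Subgroup G) ⊓ K := Subgroup.mem_inf.mpr ⟨h1, h2⟩
    rw [hSK, Subgroup.mem_bot] at h3
    calc k * y = (k * y * k⁻¹ * y⁻¹) * (y * k) := by group
      _ = y * k := by rw [h3, one_mul]
  refine ⟨?_, ?_, ?_⟩
  · intro hS
    have hcop : (Nat.card (S : Subgroup G)).Coprime (Nat.card K) := by
      obtain ⟨n, hn⟩ := IsPGroup.iff_card.mp S.isPGroup'
      rw [hn]; exact Nat.Coprime.pow_left n hKcop.symm
    have h := inf_commutator_eq_of_sup_eq_top K N (S : Subgroup G) (by rw [sup_comm]; exact hNK)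
      Subgroup.le_normalizer hcop
    have h2 : (S : Subgroup G) ≤ (S : Subgroup G) ⊓ commutator G := le_inf le_rfl hS
    rw [h] at h2
    exact h2.trans inf_le_right
  · intro Y x hY hx
    obtain ⟨g, hg, k, hk, hgk⟩ := Subgroup.mem_sup_of_normal_right.mp
      (show x ∈ N ⊔ K by rw [hNK]; trivial)
    refine ⟨g, hg, k, ?_, hgk⟩
    rw [Subgroup.mem_centralizer_iff]
    intro y hy
    have hyS : y ∈ (S : Subgroup G) := hY hy
    have h1 : x * y * x⁻¹ ∈ (S : Subgroup G) := hx ⟨y, hy, rfl⟩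
    have h2 : k * y * k⁻¹ ∈ (S : Subgroup G) := by
      have hg' := (Subgroup.mem_normalizer_iff.mp hg) (k * y * k⁻¹)
      rw [hg']
      have : g * (k * y * k⁻¹) * g⁻¹ = x * y * x⁻¹ := by rw [← hgk]; group
      rw [this]; exact h1
    exact (key k hk y hyS h2).symm
  · intro Q hQ
    obtain ⟨P, hP⟩ := hQ.exists_le_sylow
    obtain ⟨g, hg⟩ := MulAction.exists_smul_eq G S P
    obtain ⟨k, hk, n, hn, hkn⟩ := Subgroup.mem_sup_of_normal_left.mp
      (show g ∈ K ⊔ N by rw [sup_comm, hNK]; trivial)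
    -- every element of `Q` is `k * s * k⁻¹` with `s ∈ S`
    have hQS : ∀ q ∈ Q, k⁻¹ * q * k ∈ (S : Subgroup G) := by
      intro q hq
      have h1 : q ∈ ((g • S : Sylow p G) : Subgroup G) := by rw [hg]; exact hP hq
      rw [Sylow.coe_subgroup_smul, Subgroup.mem_pointwise_smul_iff_inv_smul_mem] at h1
      have h2 : g⁻¹ * q * g ∈ (S : Subgroup G) := by
        simpa [MulAut.smul_def, mul_assoc] using h1
      have h3 := (Subgroup.mem_normalizer_iff.mp hn) (g⁻¹ * q * g)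
      have h4 : n * (g⁻¹ * q * g) * n⁻¹ = k⁻¹ * q * k := by rw [← hkn]; group
      rw [h4] at h3
      exact h3.mp h2
    refine ⟨k⁻¹, ?_, ?_⟩
    · rw [Subgroup.mem_centralizer_iff]
      intro y hy
      obtain ⟨hyQ, hyS⟩ := Subgroup.mem_inf.mp hy
      have h1 : k⁻¹ * y * k⁻¹⁻¹ ∈ (S : Subgroup G) := by
        rw [inv_inv]; exact hQS y hyQ
      exact (key k⁻¹ (K.inv_mem hk) y hyS h1).symm
    · rintro _ ⟨q, hq, rfl⟩
      have := hQS q hq
      simpa using this

end Cfsg.Agent.S1461
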