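import Cfsg.Statements.S1463
import Cfsg.Agent.Helper24.GL2

set_option autoImplicit false
open scoped MatrixGroups
open Cfsg

namespace Cfsg.Agent.S1463

open Matrix in
/-- Let F be a field of odd characteristic p and H a finite subgroup of odd order of GL(2, F) that leaves no 1-dimensional subspace of F² invariant. Then p does not divide the order of H. -/
theorem result {F : Type*} [Field F] (p : ℕ) [Fact p.Prime] [CharP F p] (hp : p ≠ 2)
    (H : Subgroup (GL (Fin 2) F)) [Finite H] (hodd : Odd (Nat.card H))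
    (hirr : ∀ v : Fin 2 → F, v ≠ 0 → ∃ g ∈ H, (g : Matrix (Fin 2) (Fin 2) F).mulVec v ∉ Submodule.span F {v}) :
    ¬ p ∣ Nat.card H := by
  intro hdvd
  obtain ⟨g, hg⟩ := exists_prime_orderOf_dvd_card' p hdvd
  have hιinj : Function.Injective (algebraMap F (AlgebraicClosure F)) :=
    (algebraMap F (AlgebraicClosure F)).injective
  haveI : CharP (AlgebraicClosure F) p := charP_of_injective_algebraMap hιinj p
  let ρ : H →* Matrix (Fin 2) (Fin 2) (AlgebraicClosure F) :=
    { toFun := fun h => ((h : GL (Fin 2) F) : Matrix (Fin 2) (Fin 2) F).map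
        (algebraMap F (AlgebraicClosure F))
      map_one' := by simp
      map_mul' := fun a b => by simp [Matrix.map_mul] }
  have hρ : ∀ h : H, ρ h = ((h : GL (Fin 2) F) : Matrix (Fin 2) (Fin 2) F).map
        (algebraMap F (AlgebraicClosure F)) := fun h => rfl
  obtain ⟨w, hw, hw'⟩ := Cfsg.Agent.Helper24.exists_common_eigenvector_of_odd hodd ρ
  obtain ⟨c, hc⟩ := hw' g
  -- the eigenvalue of `g` on `w` is `1`
  have hc1 : c = 1 := by
    have hpow : ∀ k : ℕ, ρ (g ^ k) *ᵥ w = c ^ k • w := by
      intro k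
      induction k with
      | zero => simp
      | succ k ih =>
        rw [pow_succ, map_mul, ← Matrix.mulVec_mulVec, hc, Matrix.mulVec_smul, ih, smul_smul,
          pow_succ, mul_comm]
    have h1 := hpow p
    have h2 : g ^ p = 1 := by rw [← hg]; exact pow_orderOf_eq_one g
    rw [h2, map_one, Matrix.one_mulVec] at h1
    have h3 : c ^ p = 1 := by
      by_contra hne
      have : (c ^ p - 1) • w = 0 := by rw [sub_smul, one_smul, ← h1, sub_self]
      rcases smul_eq_zero.1 this with h | h
      · exact hne (sub_eq_zero.1 h)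
      · exact hw h
    have h4 : (c - 1) ^ p = 0 := by rw [sub_pow_char, h3, one_pow, sub_self]
    exact sub_eq_zero.1 (pow_eq_zero_iff (Fact.out : p.Prime).ne_zero |>.1 h4)
  rw [hc1, one_smul] at hc
  -- a fixed vector of `g` over `F`
  have hdet : (((g : GL (Fin 2) F) : Matrix (Fin 2) (Fin 2) F) - 1).det = 0 := by
    apply hιinj
    rw [RingHom.map_det, map_zero]
    apply Matrix.exists_mulVec_eq_zero_iff.1
    refine ⟨w, hw, ?_⟩
    have : (algebraMap F (AlgebraicClosure F)).mapMatrix
        (((g : GL (Fin 2) F) : Matrix (Fin 2) (Fin 2) F) - 1) = ρ g - 1 := by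
      rw [map_sub, map_one]; rfl
    rw [this, Matrix.sub_mulVec, hc, Matrix.one_mulVec, sub_self]
  obtain ⟨v, hv, hv'⟩ := Matrix.exists_mulVec_eq_zero_iff.2 hdet
  have hgv : ((g : GL (Fin 2) F) : Matrix (Fin 2) (Fin 2) F) *ᵥ v = v := by
    rw [Matrix.sub_mulVec, Matrix.one_mulVec] at hv'
    exact sub_eq_zero.1 hv'
  -- the image of `v` over the algebraic closure
  have hmap : ∀ (h : H), ρ h *ᵥ (algebraMap F (AlgebraicClosure F) ∘ v) =
      algebraMap F (AlgebraicClosure F) ∘
        (((h : GL (Fin 2) F) : Matrix (Fin 2) (Fin 2) F) *ᵥ v) := by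
    intro h
    funext i
    rw [hρ, Function.comp_apply, RingHom.map_mulVec]
  have hιv : (algebraMap F (AlgebraicClosure F) ∘ v) ≠ 0 := by
    intro h0
    apply hv
    funext i
    have := congrFun h0 i
    simp only [Function.comp_apply, Pi.zero_apply] at this
    exact hιinj (by rw [this, Pi.zero_apply, map_zero])
  -- `w` is proportional to the image of `v`
  have hprop : ∃ t : AlgebraicClosure F, t • (algebraMap F (AlgebraicClosure F) ∘ v) = w := by
    by_contra hcon
    push Not at hcon
    have h1 : ρ g = 1 := by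
      apply Cfsg.Agent.Helper24.eq_of_mulVec_eq hιv hcon
      · rw [hmap, hgv, Matrix.one_mulVec]
      · rw [hc, Matrix.one_mulVec]
    have h2 : ((g : GL (Fin 2) F) : Matrix (Fin 2) (Fin 2) F) = 1 := by
      apply Matrix.map_injective hιinj
      change ρ g = _
      rw [h1]; simp
    have h3 : g = 1 := by
      apply Subtype.ext
      apply Units.ext
      simpa using h2
    rw [h3, orderOf_one] at hg
    exact (Fact.out : p.Prime).one_lt.ne hg
  obtain ⟨t, ht⟩ := hprop
  have ht0 : t ≠ 0 := by
    rintro rfl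
    rw [zero_smul] at ht
    exact hw ht.symm
  -- contradiction with irreducibility
  obtain ⟨h, hh, hnot⟩ := hirr v hv
  apply hnot
  obtain ⟨d, hd⟩ := hw' ⟨h, hh⟩
  have hd' : ρ ⟨h, hh⟩ *ᵥ (algebraMap F (AlgebraicClosure F) ∘ v) =
      d • (algebraMap F (AlgebraicClosure F) ∘ v) := by
    rw [← ht, Matrix.mulVec_smul, smul_smul, mul_comm, ← smul_smul] at hd
    exact smul_right_injective _ ht0 hd
  rw [hmap] at hd'
  have hcoord : ∀ i, algebraMap F (AlgebraicClosure F)
      (((h : Matrix (Fin 2) (Fin 2) F) *ᵥ v) i) = d * algebraMap F (AlgebraicClosure F) (v i) := by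
    intro i
    have := congrFun hd' i
    simpa using this
  obtain ⟨i₀, hi₀⟩ : ∃ i, v i ≠ 0 := by
    by_contra hcon
    push Not at hcon
    exact hv (funext hcon)
  have hd0 : d = algebraMap F (AlgebraicClosure F)
      (((h : Matrix (Fin 2) (Fin 2) F) *ᵥ v) i₀ / v i₀) := by
    rw [map_div₀, hcoord i₀]
    have : algebraMap F (AlgebraicClosure F) (v i₀) ≠ 0 := by
      intro h0
      exact hi₀ (hιinj (by rw [h0, map_zero]))
    field_simp
  rw [Submodule.mem_span_singleton]
  refine ⟨((h : Matrix (Fin 2) (Fin 2) F) *ᵥ v) i₀ / v i₀, ?_⟩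
  funext i
  apply hιinj
  rw [hcoord i, hd0, Pi.smul_apply, smul_eq_mul, map_mul]

end Cfsg.Agent.S1463
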