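import Cfsg.Statements.S1464
import Cfsg.Agent.Helper24.PStable

set_option autoImplicit false
open Cfsg

namespace Cfsg.Agent.S1464

open scoped commutatorElement in
/-- Let p be an odd prime and G a solvable group of odd order, P a p-subgroup with O_{p'}(G)P normal in G, and A a p-subgroup of N_G(P) with [[P, A], A] = 1. Then the image of A in the quotient N_G(P)/C_G(P) is contained in the p-core of that quotient. -/
theorem result {G : Type*} [Group G] [Finite G] [Group.IsSolvable G] (hodd : Odd (Nat.card G)) (p : ℕ) [Fact p.Prime] (hp : p ≠ 2) (P A : Subgroup G) (hP : IsPGroup p P) (hPn : (Cfsg.pPrimeCore p G ⊔ P).Normal)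
    (hA : IsPGroup p A) (hAN : A ≤ Subgroup.normalizer (P : Set G)) (hquad : ⁅⁅P, A⁆, A⁆ = ⊥) :
    (A.subgroupOf (Subgroup.normalizer (P : Set G))).map
        (QuotientGroup.mk' ((Subgroup.centralizer (P : Set G)).subgroupOf (Subgroup.normalizer (P : Set G))))
      ≤ Cfsg.pCore p _ := by
  rintro _ ⟨a, ha, rfl⟩
  have hodd' : Odd (Nat.card (Subgroup.normalizer (P : Set G))) :=
    Odd.of_dvd_nat hodd (Subgroup.card_subgroup_dvd_card _)
  have hP' : IsPGroup p (P.subgroupOf (Subgroup.normalizer (P : Set G))) := hP.comap_subtype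
  haveI : (P.subgroupOf (Subgroup.normalizer (P : Set G))).Normal :=
    Subgroup.normal_subgroupOf_of_le_normalizer le_rfl
  apply Cfsg.Agent.Helper24.mk_mem_pCore_of_quadratic hodd' p
    (P.subgroupOf (Subgroup.normalizer (P : Set G))) hP'
  · intro x hx
    rw [Subgroup.mem_subgroupOf, Subgroup.mem_centralizer_iff]
    intro g hg
    have h1 := hx ⟨g, Subgroup.le_normalizer hg⟩ (Subgroup.mem_subgroupOf.2 hg)
    exact congrArg Subtype.val h1
  · intro x hx
    have hxP : (x : G) ∈ P := Subgroup.mem_subgroupOf.1 hx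
    have haA : (a : G) ∈ A := Subgroup.mem_subgroupOf.1 ha
    have h1 : ⁅⁅(x : G), (a : G)⁆, (a : G)⁆ ∈ ⁅⁅P, A⁆, A⁆ :=
      Subgroup.commutator_mem_commutator (Subgroup.commutator_mem_commutator hxP haA) haA
    rw [hquad, Subgroup.mem_bot, commutatorElement_eq_one_iff_mul_comm] at h1
    apply Subtype.ext
    exact h1.symm

end Cfsg.Agent.S1464
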