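import Cfsg.Statements.S1466
import Cfsg.Agent.Helper25.Puig

set_option autoImplicit false
open Cfsg

namespace Cfsg.Agent.S1466

/-- Let p be a prime and R a nontrivial finite p-group. Then for every i > 0, Z(R) ≤ C_R(L_i(R)) ≤ L_i(R); likewise Z(R) ≤ C_R(L_*(R)) ≤ L_*(R) and Z(R) ≤ C_R(L(R)) ≤ L(R); and L(R) ≠ 1, L_*(R) ≠ 1. -/
theorem result {R : Type*} [Group R] [Finite R] (p : ℕ) [Fact p.Prime] (hR : IsPGroup p R) [Nontrivial R] :
    (∀ i : ℕ, 0 < i → Subgroup.center R ≤ Subgroup.centralizer ((Cfsg.puigSeq R i : Subgroup R) : Set R) ∧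
        Subgroup.centralizer ((Cfsg.puigSeq R i : Subgroup R) : Set R) ≤ Cfsg.puigSeq R i) ∧
      (Subgroup.center R ≤ Subgroup.centralizer ((Cfsg.puigLower R : Subgroup R) : Set R) ∧ Subgroup.centralizer ((Cfsg.puigLower R : Subgroup R) : Set R) ≤ Cfsg.puigLower R) ∧
      (Subgroup.center R ≤ Subgroup.centralizer ((Cfsg.puigSubgroup R : Subgroup R) : Set R) ∧ Subgroup.centralizer ((Cfsg.puigSubgroup R : Subgroup R) : Set R) ≤ Cfsg.puigSubgroup R) ∧
      Cfsg.puigSubgroup R ≠ ⊥ ∧ Cfsg.puigLower R ≠ ⊥ := by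
  obtain ⟨k, hk⟩ := Cfsg.Agent.Helper25.puig_stabilizes (G := R)
  have hk1 := hk (k + 1) (Nat.le_succ k)
  have hc : ∀ i : ℕ, 0 < i → Subgroup.centralizer ((Cfsg.puigSeq R i : Subgroup R) : Set R) ≤ Cfsg.puigSeq R i :=
    fun i hi => Cfsg.Agent.Helper25.centralizer_puigSeq_le hR i hi
  have hL : Subgroup.centralizer ((Cfsg.puigLower R : Subgroup R) : Set R) ≤ Cfsg.puigLower R := by
    rw [← hk1.1]; exact hc _ (by omega)
  have hU : Subgroup.centralizer ((Cfsg.puigSubgroup R : Subgroup R) : Set R) ≤ Cfsg.puigSubgroup R := by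
    rw [← hk1.2]; exact hc _ (by omega)
  have hne : ∀ X : Subgroup R, Subgroup.centralizer (X : Set R) ≤ X → X ≠ ⊥ := by
    intro X hX h
    rw [h] at hX
    have h2 : (⊤ : Subgroup R) ≤ ⊥ := by
      intro x _
      apply hX
      rw [Subgroup.mem_centralizer_iff]
      intro y hy
      have : y = 1 := by simpa using hy
      subst this
      simp
    exact top_ne_bot (le_bot_iff.mp h2)
  refine ⟨fun i hi => ⟨Subgroup.center_le_centralizer _, hc i hi⟩,
    ⟨Subgroup.center_le_centralizer _, hL⟩, ⟨Subgroup.center_le_centralizer _, hU⟩,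
    hne _ hU, hne _ hL⟩

end Cfsg.Agent.S1466
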