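import Cfsg.Statements.S1470
import Mathlib

set_option autoImplicit false
open Cfsg

namespace Cfsg.Agent.S1470

/-- Let p and q be odd primes with (p^q − 1)/(p − 1) coprime to p − 1, and let E be the set of elements a of the field with p ^ q elements whose norm to the prime field is 1 and for which 2 − a also has norm 1. If a⁻¹ ∈ E for every a ∈ E and E has at least two elements, then p ≤ q. -/
theorem result (p q : ℕ) [Fact p.Prime] [Fact q.Prime] (hp : p ≠ 2) (hq : q ≠ 2) (hA : Nat.Coprime ((p ^ q - 1) / (p - 1)) (p - 1))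
    (hinv : ∀ a ∈ {a : GaloisField p q | Algebra.norm (ZMod p) a = 1 ∧ Algebra.norm (ZMod p) (2 - a) = 1}, a⁻¹ ∈ {a : GaloisField p q | Algebra.norm (ZMod p) a = 1 ∧ Algebra.norm (ZMod p) (2 - a) = 1})
    (h2 : 2 ≤ Set.ncard {a : GaloisField p q | Algebra.norm (ZMod p) a = 1 ∧ Algebra.norm (ZMod p) (2 - a) = 1}) :
    p ≤ q := by
  classical
  have hq0 : q ≠ 0 := (Fact.out : q.Prime).ne_zero
  obtain ⟨a, haE, ha1⟩ := Set.exists_ne_of_one_lt_ncard (show 1 < _ from h2) (1 : GaloisField p q)
  set b : GaloisField p q := a - 1 with hb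
  have hb0 : b ≠ 0 := sub_ne_zero.mpr ha1
  have hN0 : ∀ y : GaloisField p q, Algebra.norm (ZMod p) y = 1 → y ≠ 0 := by
    intro y hy h0
    rw [h0, Algebra.norm_zero] at hy
    exact zero_ne_one hy
  -- the sequence
  have key : ∀ n : ℕ, ∃ y : GaloisField p q, (Algebra.norm (ZMod p) y = 1 ∧ Algebra.norm (ZMod p) (2 - y) = 1) ∧
      (1 + (n : GaloisField p q) * b) ≠ 0 ∧ y * (1 + (n : GaloisField p q) * b) = 1 + ((n : GaloisField p q) + 1) * b := by
    intro n
    induction n with
    | zero =>
      refine ⟨a, haE, by simp, ?_⟩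
      simp [hb]
    | succ n ih =>
      obtain ⟨y, hyE, hne, hy⟩ := ih
      have hy0 : y ≠ 0 := hN0 y hyE.1
      have hyinv := hinv y hyE
      refine ⟨2 - y⁻¹, ⟨hyinv.2, by simpa using hyinv.1⟩, ?_, ?_⟩
      · push_cast
        rw [← hy]
        exact mul_ne_zero hy0 hne
      · push_cast
        have : y⁻¹ * (1 + ((n : GaloisField p q) + 1) * b) = 1 + (n : GaloisField p q) * b := by
          rw [← hy, ← mul_assoc, inv_mul_cancel₀ hy0, one_mul]
        rw [sub_mul, this]
        ring
  have hnorm : ∀ n : ℕ, Algebra.norm (ZMod p) (1 + (n : GaloisField p q) * b) = 1 := by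
    intro n
    induction n with
    | zero => simp
    | succ n ih =>
      obtain ⟨y, hyE, hne, hy⟩ := key n
      push_cast
      rw [← hy, map_mul, hyE.1, ih, one_mul]
  -- polynomial argument
  set c : GaloisField p q := b⁻¹ with hc
  have hnc : ∀ t : ZMod p, Algebra.norm (ZMod p) (c + algebraMap (ZMod p) (GaloisField p q) t) = Algebra.norm (ZMod p) c := by
    intro t
    obtain ⟨n, rfl⟩ : ∃ n : ℕ, (n : ZMod p) = t := ⟨t.val, ZMod.natCast_zmod_val t⟩
    have : c + algebraMap (ZMod p) (GaloisField p q) (n : ZMod p) = c * (1 + (n : GaloisField p q) * b) := by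
      rw [map_natCast, mul_add, mul_one, mul_comm (n : GaloisField p q) b, ← mul_assoc, hc, inv_mul_cancel₀ hb0, one_mul]
    rw [this, map_mul, hnorm n, mul_one]
  let bas := Module.finBasis (ZMod p) (GaloisField p q)
  have hfr : Module.finrank (ZMod p) (GaloisField p q) = q := GaloisField.finrank p hq0
  set M := Algebra.leftMulMatrix bas c with hM
  set g : Polynomial (ZMod p) := (-M).charpoly - Polynomial.C (Algebra.norm (ZMod p) c) with hg
  have hdeg : (-M).charpoly.natDegree = q := by
    rw [Matrix.charpoly_natDegree_eq_dim, Fintype.card_fin, hfr]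
  have hgdeg : g.natDegree = q := by
    rw [hg, Polynomial.natDegree_sub_C, hdeg]
  have hg0 : g ≠ 0 := by
    intro h
    rw [h] at hgdeg
    simp at hgdeg
    exact hq0 hgdeg.symm
  have hroot : ∀ t : ZMod p, g.eval t = 0 := by
    intro t
    rw [hg, Polynomial.eval_sub, Polynomial.eval_C, Matrix.eval_charpoly, sub_eq_zero, ← hnc t,
      Algebra.norm_eq_matrix_det bas, map_add]
    congr 1
    rw [sub_neg_eq_add, add_comm, hM]
    congr 1
    rw [AlgHom.commutes]
    rfl
  have hsub : (Finset.univ : Finset (ZMod p)) ⊆ g.roots.toFinset := by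
    intro t _
    rw [Multiset.mem_toFinset, Polynomial.mem_roots hg0]
    exact hroot t
  have := Polynomial.card_le_degree_of_subset_roots (p := g) (Z := Finset.univ) (by
    intro t ht
    rw [Polynomial.mem_roots hg0]
    exact hroot t)
  rw [Finset.card_univ, ZMod.card, hgdeg] at this
  exact this

end Cfsg.Agent.S1470
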