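import Cfsg.Statements.S1471
import Cfsg.Agent.Helper95.NormPair

set_option autoImplicit false
open Cfsg

namespace Cfsg.Agent.S1471

/-- Let p and q be odd primes with (p^q − 1)/(p − 1) coprime to p − 1. Then there are at least two elements a of the field with p ^ q elements such that both a and 2 − a have norm 1 to the prime field. -/
theorem result (p q : ℕ) [Fact p.Prime] [Fact q.Prime] (hp : p ≠ 2) (hq : q ≠ 2) (hA : Nat.Coprime ((p ^ q - 1) / (p - 1)) (p - 1)) :
    2 ≤ Set.ncard {a : GaloisField p q | Algebra.norm (ZMod p) a = 1 ∧ Algebra.norm (ZMod p) (2 - a) = 1} := by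
  have hqp : q.Prime := Fact.out
  have key : ∃ a : GaloisField p q, a ≠ 1 ∧ Algebra.norm (ZMod p) a = 1 ∧
      Algebra.norm (ZMod p) (2 - a) = 1 := by
    by_cases h3 : q = 3
    · subst h3
      exact Cfsg.Agent.Helper95.exists_norm_pair_three p
    · have hq4 : 4 ≤ q := by
        have := hqp.two_le
        omega
      have : Fintype (GaloisField p q) := Fintype.ofFinite _
      apply Cfsg.Agent.Helper95.exists_norm_pair_of_card hp
      rw [← Nat.card_eq_fintype_card, GaloisField.card p q hqp.ne_zero]
      exact Nat.pow_le_pow_right (Fact.out : p.Prime).pos hq4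
  obtain ⟨a, ha1, ha2, ha3⟩ := key
  have hsub : ({1, a} : Set (GaloisField p q)) ⊆
      {a : GaloisField p q | Algebra.norm (ZMod p) a = 1 ∧ Algebra.norm (ZMod p) (2 - a) = 1} := by
    intro x hx
    rcases hx with rfl | rfl
    · refine ⟨map_one _, ?_⟩
      have : (2 : GaloisField p q) - 1 = 1 := by norm_num
      rw [this, map_one]
    · exact ⟨ha2, ha3⟩
  calc 2 = ({1, a} : Set (GaloisField p q)).ncard := (Set.ncard_pair (Ne.symm ha1)).symm
    _ ≤ _ := Set.ncard_le_ncard hsub (Set.toFinite _)

end Cfsg.Agent.S1471
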