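import Cfsg.Statements.S1474
import Cfsg.Agent.Helper25.Frob

set_option autoImplicit false
open Cfsg
open Cfsg.Agent.Helper25
set_option linter.style.haveILetI false
set_option linter.unusedVariables false
set_option maxHeartbeats 1000000

namespace Cfsg.Agent.S1474

theorem core {G : Type*} [Group G] [Finite G] (hCN : Cfsg.IsCNGroup G) (hnn : ¬ Group.IsNilpotent G) (p : ℕ) [Fact p.Prime] (P : Sylow p G)
    (hP1 : (P : Subgroup G) ≠ ⊥) (hPn : (P : Subgroup G).Normal) :
    ∃ C : Subgroup G, C.Normal ∧ Cfsg.fittingHall G = C ∧ C ≠ ⊥ ∧ C ≠ ⊤ ∧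
      (∃ E : Subgroup G, Subgroup.IsComplement' C E ∧ Cfsg.IsFrobeniusComplement E ∧
        (∀ e ∈ E, e ≠ 1 → C ⊓ Subgroup.centralizer ({e} : Set G) = ⊥) ∧ Group.IsNilpotent E ∧
        ∀ g : G, ∃ c ∈ C, ∃ e ∈ E, g = c * e) := by
  classical
  have hp : p.Prime := Fact.out
  haveI := hPn
  haveI : Nontrivial (P : Subgroup G) := (Subgroup.nontrivial_iff_ne_bot _).mpr hP1
  haveI := P.isPGroup'.center_nontrivial
  obtain ⟨w, hw⟩ := exists_ne (1 : Subgroup.center (P : Subgroup G))
  set v₀ : G := ((w : (P : Subgroup G)) : G) with hv₀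
  have hv₀P : v₀ ∈ (P : Subgroup G) := (w : (P : Subgroup G)).2
  have hv₀1 : v₀ ≠ 1 := by
    intro h
    apply hw
    ext
    exact h
  have hv₀c : ∀ x ∈ (P : Subgroup G), v₀ * x = x * v₀ := by
    intro x hx
    have := Subgroup.mem_center_iff.mp w.2 ⟨x, hx⟩
    exact (congrArg Subtype.val this).symm
  have hPelt : ∀ k : G, (∃ n, orderOf k = p ^ n) → k ∈ (P : Subgroup G) :=
    fun k hk => mem_of_normal_sylow P hPn hk
  have hmaxz : ∀ z : G, z ∈ (P : Subgroup G) → z ≠ 1 → (∀ x ∈ (P : Subgroup G), z * x = x * z) →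
      IsMaxNilp (Subgroup.centralizer ({z} : Set G)) := by
    intro z hzP hz1 hzc
    refine ⟨hCN z hz1, ?_⟩
    intro L hL hle
    apply le_antisymm _ hle
    have hzL : z ∈ L := hle (mem_centralizer_singleton_iff'.mpr rfl)
    have hzq := orderOf_of_mem_isPGroup P.isPGroup' hzP
    have hcen := central_of_commute_pElts L hL p hp hzL hzq (fun k _ hkq => hzc k (hPelt k hkq))
    intro k hk
    rw [mem_centralizer_singleton_iff']
    exact (hcen k hk).eq
  set C := Subgroup.centralizer ({v₀} : Set G) with hC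
  have hCm : IsMaxNilp C := hmaxz v₀ hv₀P hv₀1 hv₀c
  have hPC : (P : Subgroup G) ≤ C := fun x hx => mem_centralizer_singleton_iff'.mpr (hv₀c x hx)
  have hCz : ∀ z : G, z ∈ (P : Subgroup G) → z ≠ 1 → (∀ x ∈ (P : Subgroup G), z * x = x * z) →
      Subgroup.centralizer ({z} : Set G) = C := by
    intro z hzP hz1 hzc
    apply hCm.2 _ (hCN z hz1)
    have hzC : z ∈ C := hPC hzP
    have hzq := orderOf_of_mem_isPGroup P.isPGroup' hzP
    have hcen := central_of_commute_pElts C hCm.1 p hp hzC hzq (fun k _ hkq => hzc k (hPelt k hkq))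
    intro k hk
    rw [mem_centralizer_singleton_iff']
    exact (hcen k hk).eq
  have hCn : C.Normal := by
    constructor
    intro c hc g
    have hz1 : g * v₀ * g⁻¹ ≠ 1 := by
      intro h
      apply hv₀1
      have e : v₀ = g⁻¹ * (g * v₀ * g⁻¹) * g := by group
      rw [e, h]
      group
    have hzc : ∀ x ∈ (P : Subgroup G), g * v₀ * g⁻¹ * x = x * (g * v₀ * g⁻¹) := by
      intro x hx
      have hx' : g⁻¹ * x * g ∈ (P : Subgroup G) := by
        have := hPn.conj_mem x hx g⁻¹
        simpa using this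
      have := hv₀c _ hx'
      have e1 : g * v₀ * g⁻¹ * x = g * (v₀ * (g⁻¹ * x * g)) * g⁻¹ := by group
      rw [e1, this]
      group
    have hz := hCz (g * v₀ * g⁻¹) (hPn.conj_mem v₀ hv₀P g) hz1 hzc
    rw [← hz, mem_centralizer_conj_iff]
    have e : g⁻¹ * (g * c * g⁻¹) * g = c := by group
    rw [e]
    exact hc
  have hHall : (Nat.card C).Coprime C.index := (Cfsg.Agent.S1477.result hCN C hCm.1 hCm.2).1
  have hC1 : C ≠ ⊥ := by
    intro h
    have := hPC hv₀P
    rw [h, Subgroup.mem_bot] at this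
    exact hv₀1 this
  have hCtop : C ≠ ⊤ := by
    intro h
    apply hnn
    have := hCm.1
    rw [h] at this
    exact Group.isNilpotent_top.mp this
  have hF : Cfsg.fittingHall G = C := by
    apply le_antisymm
    · apply sSup_le
      rintro N ⟨hNn, hNnil, -⟩
      apply le_of_forall_primePow_mem
      intro n hn q j hq hnq
      by_cases hqp : q = p
      · subst hqp
        exact hPC (hPelt n ⟨j, hnq⟩)
      · set c := n * v₀ * n⁻¹ * v₀⁻¹ with hc
        have hcN : c ∈ N := by
          have e : c = n * (v₀ * n⁻¹ * v₀⁻¹) := by rw [hc]; group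
          rw [e]
          exact N.mul_mem hn (hNn.conj_mem _ (N.inv_mem hn) v₀)
        have hcP : c ∈ (P : Subgroup G) := by
          rw [hc]
          exact (P : Subgroup G).mul_mem (hPn.conj_mem v₀ hv₀P n) ((P : Subgroup G).inv_mem hv₀P)
        obtain ⟨i, hci⟩ := orderOf_of_mem_isPGroup P.isPGroup' hcP
        have hcomm : Commute n c := by
          apply commute_of_coprime_of_mem_nilpotent N hNnil hn hcN
          rw [hnq, hci]
          exact Nat.Coprime.pow _ _ ((Nat.coprime_primes hq hp).mpr hqp)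
        have h2 : n * v₀ * n⁻¹ = c * v₀ := by rw [hc]; group
        have hpow : ∀ k : ℕ, n ^ k * v₀ * (n ^ k)⁻¹ = c ^ k * v₀ := by
          intro k
          induction k with
          | zero => simp
          | succ k ih =>
            have e : n ^ (k + 1) * v₀ * (n ^ (k + 1))⁻¹ = n * (n ^ k * v₀ * (n ^ k)⁻¹) * n⁻¹ := by
              rw [pow_succ']; group
            rw [e, ih]
            have h1 : n * c ^ k = c ^ k * n := (hcomm.pow_right k).eq
            calc n * (c ^ k * v₀) * n⁻¹ = (n * c ^ k) * v₀ * n⁻¹ := by group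
              _ = c ^ k * (n * v₀ * n⁻¹) := by rw [h1]; group
              _ = c ^ (k + 1) * v₀ := by rw [h2, pow_succ]; group
        have hn1 : n ^ (q ^ j) = 1 := by rw [← hnq]; exact pow_orderOf_eq_one n
        have hck : c ^ (q ^ j) = 1 := by
          have := hpow (q ^ j)
          rw [hn1] at this
          simpa using this.symm
        have hc1 : c = 1 := by
          have hd : p ^ i ∣ q ^ j := by rw [← hci]; exact orderOf_dvd_of_pow_eq_one hck
          rcases Nat.eq_zero_or_pos i with h0 | h0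
          · rw [h0, pow_zero] at hci
            exact orderOf_eq_one_iff.mp hci
          · exfalso
            have : p ∣ q ^ j := dvd_trans (dvd_pow_self p h0.ne') hd
            exact hqp ((Nat.prime_dvd_prime_iff_eq hp hq).mp (hp.dvd_of_dvd_pow this)).symm
        rw [mem_centralizer_singleton_iff']
        rw [hc1, one_mul] at h2
        exact (mul_inv_eq_iff_eq_mul.mp h2).symm
    · apply le_sSup
      exact ⟨hCn, hCm.1, hHall⟩
  haveI := hCn
  obtain ⟨E, hE⟩ := Subgroup.exists_right_complement'_of_coprime hHall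
  have hdisj : ∀ x, x ∈ C → x ∈ E → x = 1 := by
    intro x hxC hxE
    have := hE.disjoint
    rw [Subgroup.disjoint_def] at this
    exact this hxC hxE
  have hdec : ∀ g : G, ∃ c ∈ C, ∃ e ∈ E, g = c * e := by
    intro g
    obtain ⟨⟨c, e⟩, h, -⟩ := hE.existsUnique g
    exact ⟨c, c.2, e, e.2, h.symm⟩
  have hfpf : ∀ e ∈ E, e ≠ 1 → C ⊓ Subgroup.centralizer ({e} : Set G) = ⊥ := by
    intro e he he1
    rw [Subgroup.eq_bot_iff_forall]
    intro f hf
    obtain ⟨hfC, hfe⟩ := Subgroup.mem_inf.mp hf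
    by_contra hf1
    have hTI : ∀ g : G, C.map (MulAut.conj g).toMonoidHom ≠ C →
        C ⊓ C.map (MulAut.conj g).toMonoidHom = ⊥ := by
      intro g hne
      exfalso
      apply hne
      ext x
      rw [mem_map_conj_iff']
      constructor
      · intro h
        have := hCn.conj_mem _ h g
        have e : g * (g⁻¹ * x * g) * g⁻¹ = x := by group
        rw [e] at this
        exact this
      · intro h
        have := hCn.conj_mem _ h g⁻¹
        simpa using this
    have hcent := (Cfsg.Agent.S1477.result hCN C hCm.1 hCm.2).2.2 hTI f hfC hf1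
    have heC : e ∈ C :=
      hcent (mem_centralizer_singleton_iff'.mpr ((mem_centralizer_singleton_iff'.mp hfe).symm))
    exact he1 (hdisj e heC he)
  have hE1 : E ≠ ⊥ := by
    intro h
    rw [h] at hE
    exact hCtop (Subgroup.isComplement'_bot_right.mp hE)
  have hEtop : E ≠ ⊤ := by
    intro h
    rw [h] at hE
    exact hC1 (Subgroup.isComplement'_top_right.mp hE)
  have hFr : Cfsg.IsFrobeniusComplement E := by
    refine ⟨hE1, hEtop, ?_⟩
    intro g hg
    rw [Subgroup.eq_bot_iff_forall]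
    intro x hx
    obtain ⟨hxE, hxg⟩ := Subgroup.mem_inf.mp hx
    rw [mem_conj_smul_iff] at hxg
    by_contra hx1
    obtain ⟨c, hc, e₁, he₁, rfl⟩ := hdec g
    have h1 : c⁻¹ * x * c ∈ E := by
      have : c⁻¹ * x * c = e₁ * ((c * e₁)⁻¹ * x * (c * e₁)) * e₁⁻¹ := by group
      rw [this]
      exact E.mul_mem (E.mul_mem he₁ hxg) (E.inv_mem he₁)
    have h2 : c⁻¹ * x * c * x⁻¹ = 1 := by
      apply hdisj
      · have e : c⁻¹ * x * c * x⁻¹ = c⁻¹ * (x * c * x⁻¹) := by group
        rw [e]
        exact C.mul_mem (C.inv_mem hc) (hCn.conj_mem c hc x)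
      · exact E.mul_mem h1 (E.inv_mem hxE)
    have h3 : c ∈ C ⊓ Subgroup.centralizer ({x} : Set G) := by
      refine Subgroup.mem_inf.mpr ⟨hc, ?_⟩
      rw [mem_centralizer_singleton_iff']
      have h4 : c⁻¹ * x * c = x := mul_inv_eq_one.mp h2
      calc x * c = c * (c⁻¹ * x * c) := by group
        _ = c * x := by rw [h4]
    rw [hfpf x hxE hx1, Subgroup.mem_bot] at h3
    apply hg
    rw [h3, one_mul]
    exact he₁
  have hCNE : Cfsg.IsCNGroup E := isCNGroup_subgroup hCN E
  let V : Subgroup G :=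
    { carrier := {z | z ∈ (P : Subgroup G) ∧ ∀ x ∈ (P : Subgroup G), z * x = x * z}
      one_mem' := ⟨Subgroup.one_mem _, by intro x _; simp⟩
      mul_mem' := by
        rintro a b ⟨ha, hac⟩ ⟨hb, hbc⟩
        refine ⟨Subgroup.mul_mem _ ha hb, ?_⟩
        intro x hx
        rw [mul_assoc, hbc x hx, ← mul_assoc, hac x hx, mul_assoc]
      inv_mem' := by
        rintro a ⟨ha, hac⟩
        refine ⟨Subgroup.inv_mem _ ha, ?_⟩
        intro x hx
        have := hac x hx
        rw [inv_mul_eq_iff_eq_mul, ← mul_assoc, this, mul_assoc, mul_inv_cancel, mul_one] }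
  have hVn : V.Normal := by
    constructor
    rintro z ⟨hz, hzc⟩ g
    refine ⟨hPn.conj_mem z hz g, ?_⟩
    intro x hx
    have hx' : g⁻¹ * x * g ∈ (P : Subgroup G) := by
      have := hPn.conj_mem x hx g⁻¹
      simpa using this
    have := hzc _ hx'
    have e1 : g * z * g⁻¹ * x = g * (z * (g⁻¹ * x * g)) * g⁻¹ := by group
    rw [e1, this]
    group
  haveI := hVn
  have hVab : ∀ a ∈ V, ∀ b ∈ V, a * b = b * a := fun a ha b hb => ha.2 b hb.1
  have hV1 : V ≠ ⊥ := by
    intro h
    have : v₀ ∈ V := ⟨hv₀P, hv₀c⟩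
    rw [h, Subgroup.mem_bot] at this
    exact hv₀1 this
  have hVC : V ≤ C := fun z hz => hPC hz.1
  have hNFE : NoFrobSub E := by
    intro q r hq hr hqr b hb R hRq hR1 hnorm
    haveI : Fact q.Prime := ⟨hq⟩
    have hb1 : (b : G) ≠ 1 := by
      intro h
      have : b = 1 := Subtype.ext h
      rw [this, orderOf_one] at hb
      exact hr.ne_one hb.symm
    have hfp : ∀ x ∈ E, x ≠ 1 → ∀ v ∈ V, x * v = v * x → v = 1 := by
      intro x hx hx1 v hv hxv
      have : v ∈ C ⊓ Subgroup.centralizer ({x} : Set G) :=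
        Subgroup.mem_inf.mpr ⟨hVC hv, mem_centralizer_singleton_iff'.mpr hxv⟩
      rw [hfpf x hx hx1, Subgroup.mem_bot] at this
      exact this
    have hqp : q ≠ p := by
      intro hqp
      subst hqp
      obtain ⟨⟨x, hx⟩, hx1⟩ := Subgroup.ne_bot_iff_exists_ne_one.mp hR1
      obtain ⟨n, hn⟩ := (IsPGroup.iff_orderOf.mp hRq) ⟨x, hx⟩
      have hxo : ∃ n, orderOf ((x : E) : G) = q ^ n := ⟨n, by rw [← hn]; simp⟩
      have hxP := hPelt _ hxo
      have := hdisj _ (hPC hxP) x.2
      apply hx1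
      apply Subtype.ext
      apply Subtype.ext
      exact this
    obtain ⟨d, hdR, hd1, hbd⟩ := exists_commute_of_fpf V hVab (R.map E.subtype) (b : G) r hr
      (by rw [← hb]; simp)
      (by
        rintro x ⟨x', hx', rfl⟩
        exact ⟨b * x' * b⁻¹, hnorm x' hx', rfl⟩)
      (by
        rintro x ⟨x', hx', rfl⟩ hx1 v hv hxv
        exact hfp _ x'.2 hx1 v hv hxv)
      (by
        rintro x ⟨x', hx', rfl⟩ v hv hxv
        refine hfp _ (E.mul_mem (E.mul_mem x'.2 b.2) (E.inv_mem x'.2)) ?_ v hv hxv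
        intro h
        apply hb1
        have e : (b : G) = (x' : G)⁻¹ * ((x' : G) * b * (x' : G)⁻¹) * x' := by group
        rw [e, h]
        group)
      (by
        rw [Ne, Subgroup.map_eq_bot_iff_of_injective _ E.subtype_injective]
        exact hR1)
      (by
        intro v hv hvpow
        obtain ⟨j, hj⟩ := hRq.exists_card_eq
        rw [Subgroup.card_map_of_injective E.subtype_injective, hj] at hvpow
        obtain ⟨i, hi⟩ := orderOf_of_mem_isPGroup P.isPGroup' hv.1
        have hd : p ^ i ∣ q ^ j := by rw [← hi]; exact orderOf_dvd_of_pow_eq_one hvpow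
        rcases Nat.eq_zero_or_pos i with h0 | h0
        · rw [h0, pow_zero] at hi
          exact orderOf_eq_one_iff.mp hi
        · exfalso
          have : p ∣ q ^ j := dvd_trans (dvd_pow_self p h0.ne') hd
          exact hqp ((Nat.prime_dvd_prime_iff_eq hp hq).mp (hp.dvd_of_dvd_pow this)).symm)
      hV1
    obtain ⟨d', hd'R, rfl⟩ := hdR
    refine ⟨d', hd'R, ?_, ?_⟩
    · intro h
      apply hd1
      rw [h]
      rfl
    · apply Subtype.ext
      exact hbd
  have hEn : Group.IsNilpotent E := isNilpotent_of_CN_of_noFrobSub hCNE hNFE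
  exact ⟨C, hCn, hF, hC1, hCtop, E, hE, hFr, hfpf, hEn, hdec⟩

/-- Let G be a finite group in which every non-identity element has nilpotent centralizer, not itself nilpotent, and having a nontrivial normal Sylow p-subgroup for some prime p. Let H be the largest normal nilpotent Hall subgroup of G. Then H is a nontrivial proper normal subgroup with a complement E that is a Frobenius complement in G (no non-identity element of E centralizes a non-identity element of H), and G/H is nilpotent. -/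
theorem result {G : Type*} [Group G] [Finite G] (hCN : Cfsg.IsCNGroup G) (hnn : ¬ Group.IsNilpotent G) (p : ℕ) [Fact p.Prime] (P : Sylow p G)
    (hP1 : (P : Subgroup G) ≠ ⊥) (hPn : (P : Subgroup G).Normal) :
    Cfsg.fittingHall G ≠ ⊥ ∧ Cfsg.fittingHall G ≠ ⊤ ∧
      (∃ E : Subgroup G, Subgroup.IsComplement' (Cfsg.fittingHall G) E ∧ Cfsg.IsFrobeniusComplement E ∧
        ∀ e ∈ E, e ≠ 1 → Cfsg.fittingHall G ⊓ Subgroup.centralizer ({e} : Set G) = ⊥) ∧
      Group.IsNilpotent (G ⧸ Cfsg.fittingHall G) := by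
  obtain ⟨C, hCn, hF, h1, h2, E, hE, hFr, hfpf, hEn, hdec⟩ := core hCN hnn p P hP1 hPn
  have key : ∀ (F : Subgroup G) [F.Normal], F = C → (F ≠ ⊥ ∧ F ≠ ⊤ ∧
      (∃ E : Subgroup G, Subgroup.IsComplement' F E ∧ Cfsg.IsFrobeniusComplement E ∧
        ∀ e ∈ E, e ≠ 1 → F ⊓ Subgroup.centralizer ({e} : Set G) = ⊥) ∧
      Group.IsNilpotent (G ⧸ F)) := by
    intro F hFn hFC
    subst hFC
    refine ⟨h1, h2, ⟨E, hE, hFr, hfpf⟩, ?_⟩
    have hsurj : Function.Surjective ((QuotientGroup.mk' F).comp E.subtype) := by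
      intro y
      obtain ⟨g, rfl⟩ := QuotientGroup.mk_surjective y
      obtain ⟨c, hc, e, he, rfl⟩ := hdec g
      refine ⟨⟨e, he⟩, ?_⟩
      show ((e : G) : G ⧸ F) = ((c * e : G) : G ⧸ F)
      rw [QuotientGroup.mk_mul, (QuotientGroup.eq_one_iff c).mpr hc, one_mul]
    haveI := hEn
    exact Group.nilpotent_of_surjective _ hsurj
  exact key (Cfsg.fittingHall G) hF

end Cfsg.Agent.S1474
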