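import Cfsg.Statements.S1475
import Cfsg.Agent.Helper25.Fpf

set_option autoImplicit false
open Cfsg
open Cfsg.Agent.Helper25
set_option linter.style.haveILetI false
set_option linter.unusedVariables false
set_option maxHeartbeats 1000000

universe u

namespace Cfsg.Agent.S1475

/-- A nontrivial finite solvable group has a nontrivial normal abelian `p`-subgroup. -/
theorem exists_normal_abelian_pGroup (G : Type*) [Group G] [Finite G] [Group.IsSolvable G]
    [Nontrivial G] : ∃ p : ℕ, p.Prime ∧ ∃ N : Subgroup G, N.Normal ∧ N ≠ ⊥ ∧ IsPGroup p N ∧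
      ∀ a ∈ N, ∀ b ∈ N, a * b = b * a := by
  classical
  have hex : ∃ n, derivedSeries G n = ⊥ := Group.IsSolvable.solvable
  have hm := Nat.find_spec hex
  have hm0 : Nat.find hex ≠ 0 := by
    intro h0
    rw [h0, derivedSeries_zero] at hm
    exact top_ne_bot hm
  obtain ⟨k, hk⟩ := Nat.exists_eq_succ_of_ne_zero hm0
  have hD1 : derivedSeries G k ≠ ⊥ := by
    intro h
    exact Nat.find_min hex (by omega : k < Nat.find hex) h
  have hDD : ⁅derivedSeries G k, derivedSeries G k⁆ = ⊥ := by
    have := hm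
    rw [hk] at this
    exact this
  set D := derivedSeries G k with hD
  have hDn : D.Normal := derivedSeries_normal G k
  have hab : ∀ a ∈ D, ∀ b ∈ D, a * b = b * a := by
    intro a ha b hb
    have := Subgroup.commutator_eq_bot_iff_le_centralizer.mp hDD ha
    rw [Subgroup.mem_centralizer_iff] at this
    exact (this b hb).symm
  have hc1 : Nat.card D ≠ 1 := fun h => hD1 (Subgroup.card_eq_one.mp h)
  obtain ⟨p, hp, hpd⟩ := Nat.exists_prime_and_dvd hc1
  haveI : Fact p.Prime := ⟨hp⟩
  let A : Subgroup G :=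
    { carrier := {h | h ∈ D ∧ h ^ p = 1}
      one_mem' := ⟨D.one_mem, one_pow _⟩
      mul_mem' := by
        rintro a b ⟨ha, hap⟩ ⟨hb, hbp⟩
        refine ⟨D.mul_mem ha hb, ?_⟩
        have hcm : Commute a b := hab a ha b hb
        rw [hcm.mul_pow, hap, hbp, one_mul]
      inv_mem' := by
        rintro a ⟨ha, hap⟩
        exact ⟨D.inv_mem ha, by rw [inv_pow, hap, inv_one]⟩ }
  refine ⟨p, hp, A, ?_, ?_, ?_, ?_⟩
  · constructor
    rintro a ⟨ha, hap⟩ g
    exact ⟨hDn.conj_mem a ha g, by rw [conj_pow, hap]; group⟩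
  · obtain ⟨k, hk⟩ := exists_prime_orderOf_dvd_card' (G := D) p hpd
    rw [Subgroup.ne_bot_iff_exists_ne_one]
    have hkG : orderOf (k : G) = p := by rw [← hk]; simp
    refine ⟨⟨(k : G), k.2, by rw [← hkG]; exact pow_orderOf_eq_one _⟩, ?_⟩
    intro h
    have h0 : (k : G) = 1 := congrArg Subtype.val h
    rw [h0, orderOf_one] at hkG
    exact hp.ne_one hkG.symm
  · rintro ⟨h, hh⟩
    refine ⟨1, ?_⟩
    apply Subtype.ext
    simpa using hh.2
  · intro a ha b hb
    exact hab a ha.1 b hb.1

/-- In a group whose elements have prime power order, commuting nontrivial elements cannot have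
orders that are powers of distinct primes. -/
theorem eppo_contra {G : Type*} [Group G] (h : ∀ g : G, IsPrimePow (orderOf g) ∨ g = 1)
    {y v : G} (hc : Commute y v) {q p a b : ℕ} (hq : q.Prime) (hp : p.Prime) (hqp : q ≠ p)
    (hy : orderOf y = q ^ a) (hv : orderOf v = p ^ b) (hy1 : y ≠ 1) (hv1 : v ≠ 1) : False := by
  have ha : a ≠ 0 := by
    intro h0
    rw [h0, pow_zero] at hy
    exact hy1 (orderOf_eq_one_iff.mp hy)
  have hb : b ≠ 0 := by
    intro h0
    rw [h0, pow_zero] at hv
    exact hv1 (orderOf_eq_one_iff.mp hv)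
  have hcop : (orderOf y).Coprime (orderOf v) := by
    rw [hy, hv]
    exact Nat.Coprime.pow _ _ ((Nat.coprime_primes hq hp).mpr hqp)
  have ho : orderOf (y * v) = q ^ a * p ^ b := by
    rw [hc.orderOf_mul_eq_mul_orderOf_of_coprime hcop, hy, hv]
  rcases h (y * v) with hpp | h1
  · rw [ho, isPrimePow_nat_iff] at hpp
    obtain ⟨t, k, ht, hk, htk⟩ := hpp
    have h1 : q ∣ t ^ k := by rw [htk]; exact dvd_mul_of_dvd_left (dvd_pow_self q ha) _
    have h2 : p ∣ t ^ k := by rw [htk]; exact dvd_mul_of_dvd_right (dvd_pow_self p hb) _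
    have e1 := (Nat.prime_dvd_prime_iff_eq hq ht).mp (hq.dvd_of_dvd_pow h1)
    have e2 := (Nat.prime_dvd_prime_iff_eq hp ht).mp (hp.dvd_of_dvd_pow h2)
    exact hqp (e1.trans e2.symm)
  · rw [h1, orderOf_one] at ho
    have : q ^ a = 1 := Nat.eq_one_of_mul_eq_one_right ho.symm
    rw [← hy] at this
    exact hy1 (orderOf_eq_one_iff.mp this)

theorem eppo_aux : ∀ n : ℕ, ∀ (G : Type u) [Group G] [Finite G] [Group.IsSolvable G],
    (∀ g : G, IsPrimePow (orderOf g) ∨ g = 1) → Nat.card G = n →
    (Nat.card G).primeFactors.card ≤ 2 := by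
  intro n
  induction n using Nat.strong_induction_on with
  | _ n ih =>
    intro G _ _ _ h hn
    classical
    rcases subsingleton_or_nontrivial G with hsub | hnt
    · have : Nat.card G = 1 := Nat.card_unique
      rw [this]
      simp
    obtain ⟨p, hp, N, hNn, hN1, hNp, hNab⟩ := exists_normal_abelian_pGroup G
    haveI := hNn
    haveI : Fact p.Prime := ⟨hp⟩
    have hcardG : Nat.card G = Nat.card (G ⧸ N) * Nat.card N :=
      Subgroup.card_eq_card_quotient_mul_card_subgroup N
    obtain ⟨k, hk⟩ := hNp.exists_card_eq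
    have hk0 : k ≠ 0 := by
      intro h0
      rw [h0, pow_zero] at hk
      exact hN1 (Subgroup.card_eq_one.mp hk)
    have hQpos : 0 < Nat.card (G ⧸ N) := Nat.card_pos
    have hlt : Nat.card (G ⧸ N) < n := by
      rw [← hn, hcardG, hk]
      have : 2 ≤ p ^ k := by
        calc 2 ≤ p := hp.two_le
          _ = p ^ 1 := (pow_one p).symm
          _ ≤ p ^ k := Nat.pow_le_pow_right hp.pos (Nat.one_le_iff_ne_zero.mpr hk0)
      nlinarith
    have hQ : ∀ g : G ⧸ N, IsPrimePow (orderOf g) ∨ g = 1 := by
      intro gb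
      obtain ⟨g, rfl⟩ := QuotientGroup.mk_surjective gb
      have hd : orderOf (g : G ⧸ N) ∣ orderOf g :=
        orderOf_dvd_of_pow_eq_one (by rw [← QuotientGroup.mk_pow, pow_orderOf_eq_one]; rfl)
      rcases h g with hpp | h1
      · rw [isPrimePow_nat_iff] at hpp
        obtain ⟨t, j, ht, hj, htj⟩ := hpp
        rw [← htj] at hd
        obtain ⟨i, -, hi⟩ := (Nat.dvd_prime_pow ht).mp hd
        rcases Nat.eq_zero_or_pos i with h0 | h0
        · right
          rw [h0, pow_zero] at hi
          exact orderOf_eq_one_iff.mp hi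
        · left
          rw [isPrimePow_nat_iff]
          exact ⟨t, i, ht, h0, hi.symm⟩
      · right
        rw [h1]
        rfl
    have ihQ := ih _ hlt (G ⧸ N) hQ rfl
    have hpf : (Nat.card G).primeFactors = (Nat.card (G ⧸ N)).primeFactors ∪ {p} := by
      rw [hcardG, Nat.primeFactors_mul hQpos.ne' Nat.card_pos.ne', hk,
        Nat.primeFactors_prime_pow hk0 hp]
    rw [hpf]
    by_cases hpT : p ∈ (Nat.card (G ⧸ N)).primeFactors
    · have : (Nat.card (G ⧸ N)).primeFactors ∪ {p} = (Nat.card (G ⧸ N)).primeFactors := by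
        rw [Finset.union_eq_left]
        exact Finset.singleton_subset_iff.mpr hpT
      rw [this]
      exact ihQ
    by_cases hT1 : (Nat.card (G ⧸ N)).primeFactors.card ≤ 1
    · calc ((Nat.card (G ⧸ N)).primeFactors ∪ {p}).card
          ≤ (Nat.card (G ⧸ N)).primeFactors.card + ({p} : Finset ℕ).card := Finset.card_union_le _ _
        _ ≤ 1 + 1 := by
          have : ({p} : Finset ℕ).card = 1 := Finset.card_singleton p
          omega
    exfalso
    have hT2 : (Nat.card (G ⧸ N)).primeFactors.card = 2 := by omega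
    -- complement
    have hpQ : ¬ p ∣ Nat.card (G ⧸ N) := by
      intro hd
      exact hpT (Nat.mem_primeFactors.mpr ⟨hp, hd, hQpos.ne'⟩)
    have hcop : (Nat.card N).Coprime N.index := by
      rw [hk, Subgroup.index_eq_card]
      exact Nat.Coprime.pow_left k ((Nat.Prime.coprime_iff_not_dvd hp).mpr hpQ)
    obtain ⟨K, hK⟩ := Subgroup.exists_right_complement'_of_coprime hcop
    have hcardK : Nat.card K = Nat.card (G ⧸ N) := by
      have h1 := hK.card_mul_card
      rw [hcardG, mul_comm] at h1
      exact Nat.eq_of_mul_eq_mul_right Nat.card_pos h1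
    haveI : Nontrivial K := by
      rw [← Finite.one_lt_card_iff_nontrivial, hcardK]
      by_contra hle
      have : Nat.card (G ⧸ N) = 1 := by omega
      rw [this] at hT2
      simp at hT2
    obtain ⟨q, hq, S₁, hS₁n, hS₁1, hS₁q, -⟩ := exists_normal_abelian_pGroup K
    haveI : Fact q.Prime := ⟨hq⟩
    obtain ⟨j, hj⟩ := hS₁q.exists_card_eq
    have hj0 : j ≠ 0 := by
      intro h0
      rw [h0, pow_zero] at hj
      exact hS₁1 (Subgroup.card_eq_one.mp hj)
    have hqK : q ∣ Nat.card K := by
      have h1 : Nat.card S₁ ∣ Nat.card K := Subgroup.card_subgroup_dvd_card S₁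
      rw [hj] at h1
      exact dvd_trans (dvd_pow_self q hj0) h1
    have hqT : q ∈ (Nat.card (G ⧸ N)).primeFactors := by
      rw [← hcardK]
      exact Nat.mem_primeFactors.mpr ⟨hq, hqK, Nat.card_pos.ne'⟩
    obtain ⟨t₁, t₂, ht12, hT⟩ := Finset.card_eq_two.mp hT2
    obtain ⟨q', hq'T, hq'q⟩ : ∃ q' ∈ (Nat.card (G ⧸ N)).primeFactors, q' ≠ q := by
      rw [hT] at hqT ⊢
      rw [Finset.mem_insert, Finset.mem_singleton] at hqT
      rcases hqT with rfl | rfl
      · exact ⟨t₂, by simp, Ne.symm ht12⟩
      · exact ⟨t₁, by simp, ht12⟩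
    have hq' : q'.Prime := (Nat.mem_primeFactors.mp hq'T).1
    haveI : Fact q'.Prime := ⟨hq'⟩
    have hq'K : q' ∣ Nat.card K := by
      rw [hcardK]
      exact (Nat.mem_primeFactors.mp hq'T).2.1
    obtain ⟨x, hx⟩ := exists_prime_orderOf_dvd_card' (G := K) q' hq'K
    have hxo : orderOf (x : G) = q' := by rw [← hx]; simp
    have hx1 : (x : G) ≠ 1 := by
      intro h1
      rw [h1, orderOf_one] at hxo
      exact hq'.ne_one hxo.symm
    have hqp : q ≠ p := by
      rintro rfl
      exact hpT hqT
    have hq'p : q' ≠ p := by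
      rintro rfl
      exact hpT hq'T
    have hSelt : ∀ y ∈ S₁.map K.subtype, ∃ a, orderOf y = q ^ a := by
      rintro y ⟨y', hy', rfl⟩
      obtain ⟨a, ha⟩ := (IsPGroup.iff_orderOf.mp hS₁q) ⟨y', hy'⟩
      exact ⟨a, by rw [← ha]; simp⟩
    obtain ⟨d, hdR, hd1, hbd⟩ := exists_commute_of_fpf N hNab (S₁.map K.subtype) (x : G) q' hq' hxo
      (by
        rintro y ⟨y', hy', rfl⟩
        exact ⟨x * y' * x⁻¹, hS₁n.conj_mem y' hy' x, rfl⟩)
      (by
        intro y hy hy1 v hv hyv
        by_contra hv1
        obtain ⟨a, ha⟩ := hSelt y hy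
        obtain ⟨b, hb⟩ := orderOf_of_mem_isPGroup hNp hv
        exact eppo_contra h (show Commute y v from hyv) hq hp hqp ha hb hy1 hv1)
      (by
        intro y hy v hv hyv
        by_contra hv1
        obtain ⟨b, hb⟩ := orderOf_of_mem_isPGroup hNp hv
        have ho : orderOf (y * (x : G) * y⁻¹) = q' ^ 1 := by rw [orderOf_conj', hxo, pow_one]
        have hne : y * (x : G) * y⁻¹ ≠ 1 := by
          intro h1
          apply hx1
          have e : (x : G) = y⁻¹ * (y * (x : G) * y⁻¹) * y := by group
          rw [e, h1]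
          group
        exact eppo_contra h (show Commute (y * (x : G) * y⁻¹) v from hyv) hq' hp hq'p ho hb hne hv1)
      (by
        rw [Ne, Subgroup.map_eq_bot_iff_of_injective _ K.subtype_injective]
        exact hS₁1)
      (by
        intro v hv hvpow
        rw [Subgroup.card_map_of_injective K.subtype_injective, hj] at hvpow
        obtain ⟨i, hi⟩ := orderOf_of_mem_isPGroup hNp hv
        have hd : p ^ i ∣ q ^ j := by rw [← hi]; exact orderOf_dvd_of_pow_eq_one hvpow
        rcases Nat.eq_zero_or_pos i with h0 | h0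
        · rw [h0, pow_zero] at hi
          exact orderOf_eq_one_iff.mp hi
        · exfalso
          have : p ∣ q ^ j := dvd_trans (dvd_pow_self p h0.ne') hd
          exact hqp ((Nat.prime_dvd_prime_iff_eq hp hq).mp (hp.dvd_of_dvd_pow this)).symm)
      hN1
    obtain ⟨a, ha⟩ := hSelt d hdR
    have ho : orderOf (x : G) = q' ^ 1 := by rw [hxo, pow_one]
    exact eppo_contra h (show Commute (x : G) d from hbd) hq' hq hq'q ho ha hx1 hd1

/-- Let G be a finite solvable group such that the order of every element is a prime power (1 included). Then at most two distinct primes divide the order of G. -/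
theorem result {G : Type*} [Group G] [Finite G] [Group.IsSolvable G] (h : ∀ g : G, IsPrimePow (orderOf g) ∨ g = 1) :
    (Nat.card G).primeFactors.card ≤ 2 := by
  exact eppo_aux _ G h rfl

end Cfsg.Agent.S1475
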