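import Cfsg.Statements.S1476
import Cfsg.Agent.Helper1.CNSolv
import Cfsg.Agent.S1474

set_option autoImplicit false
open Cfsg

namespace Cfsg.Agent.S1476

/-- Let G be a finite solvable group in which every non-identity element has nilpotent centralizer. Then either G is nilpotent; or G has a normal subgroup K with a Frobenius complement E (K E = G, K ∩ E = 1, E meets its conjugates by outside elements trivially) such that E is cyclic or E is generated by two elementwise-commuting subgroups, one cyclic of odd order and one isomorphic to a generalized quaternion group; or G is a three-step group with respect to some prime p. -/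
theorem result {G : Type*} [Group G] [Finite G] [Group.IsSolvable G] (hCN : Cfsg.IsCNGroup G) :
    Group.IsNilpotent G ∨
      (∃ K E : Subgroup G, K.Normal ∧ Subgroup.IsComplement' K E ∧ Cfsg.IsFrobeniusComplement E ∧
        (IsCyclic E ∨ ∃ C Q : Subgroup G, C ⊔ Q = E ∧ (∀ a ∈ C, ∀ b ∈ Q, a * b = b * a) ∧ IsCyclic C ∧ Odd (Nat.card C) ∧
          ∃ n : ℕ, Nonempty (↥Q ≃* QuaternionGroup (2 ^ n)))) ∨
      ∃ p : ℕ, p.Prime ∧ Cfsg.IsThreeStepGroup p G := by
  by_cases hnil : Group.IsNilpotent G
  · exact Or.inl hnil
  right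
  by_cases hsyl : ∃ (q : ℕ) (_ : Fact q.Prime) (S : Sylow q G),
      (S : Subgroup G).Normal ∧ (S : Subgroup G) ≠ ⊥
  · left
    obtain ⟨q, hq, S, hSn, hS1⟩ := hsyl
    obtain ⟨C, hCn, -, hC1, -, E, hCE, hEF, hfpf, hEnil, -⟩ :=
      Cfsg.Agent.S1474.core hCN hnil q S hS1 hSn
    haveI := hCn
    exact ⟨C, E, hCn, hCE, hEF, Cfsg.Agent.Helper1.fpf_nilpotent_structure C E hC1
      (by rw [Subgroup.normalizer_eq_top]; exact le_top) hfpf hEnil⟩
  · right
    have hnt : Nontrivial G := by
      by_contra h
      rw [not_nontrivial_iff_subsingleton] at h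
      exact hnil Group.isNilpotent_of_subsingleton
    apply Cfsg.Agent.Helper1.cn_three_step hCN
    intro q hq S hSn
    by_contra h
    exact hsyl ⟨q, hq, S, hSn, h⟩

end Cfsg.Agent.S1476
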