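import Cfsg.Statements.S1481
import Cfsg.Agent.Helper1.BGUniqD
import Cfsg.Agent.Helper35.CoprimeSylow

set_option autoImplicit false
open Cfsg

namespace Cfsg.Agent.S1481

/-- Let G be a finite group and H a local subgroup (the normalizer of a nontrivial subgroup of prime-power order) not properly contained in any local subgroup; let F = F(H), suppose at least two primes divide #F, put X = H ∩ C_G(F), let M ≤ F with F ∩ C_G(M) ≤ M, and let R be a solvable subgroup normalized by M and by X. Then for every prime q not dividing #F there is exactly one maximal M-invariant q-subgroup of R, and it is a Sylow q-subgroup of the largest normal subgroup of R of order coprime to #F. -/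
theorem result {G : Type*} [Group G] [Finite G] (H : Subgroup G) (hH : Cfsg.IsLocalSubgroup H) (hHmax : ∀ L : Subgroup G, Cfsg.IsLocalSubgroup L → H ≤ L → L = H)
    (hF2 : 2 ≤ (Nat.card (Cfsg.fittingOf H)).primeFactors.card)
    (M : Subgroup G) (hM : M ≤ Cfsg.fittingOf H) (hCM : Cfsg.fittingOf H ⊓ Subgroup.centralizer (M : Set G) ≤ M)
    (R : Subgroup G) (hR : Group.IsSolvable R) (hMR : M ≤ Subgroup.normalizer (R : Set G))
    (hXR : H ⊓ Subgroup.centralizer (Cfsg.fittingOf H : Set G) ≤ Subgroup.normalizer (R : Set G))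
    (q : ℕ) [Fact q.Prime] (hq : ¬ q ∣ Nat.card (Cfsg.fittingOf H)) :
    ∃! Q : Subgroup G, Q ∈ Cfsg.maxInvSubgroups R M {q} ∧
      (∀ Q' : Subgroup G, Q' ∈ Cfsg.maxInvSubgroups R M {q} →
        Q' ≤ Cfsg.piCoreOf (Cfsg.primesNotDvd (Nat.card (Cfsg.fittingOf H))) R ∧
        ¬ q ∣ Q'.relIndex (Cfsg.piCoreOf (Cfsg.primesNotDvd (Nat.card (Cfsg.fittingOf H))) R)) := by
  classical
  have hqp : q.Prime := Fact.out
  set F := Cfsg.fittingOf H with hFdef
  -- two primes
  have hF2' : ∀ r : ℕ, ∃ p : ℕ, p.Prime ∧ p ∣ Nat.card F ∧ p ≠ r := by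
    intro r
    by_contra hcon
    push Not at hcon
    have hsub : (Nat.card F).primeFactors ⊆ {r} := by
      intro p hp
      rw [Finset.mem_singleton]
      exact hcon p (Nat.prime_of_mem_primeFactors hp) (Nat.dvd_of_mem_primeFactors hp)
    have h1 := Finset.card_le_card hsub
    rw [Finset.card_singleton] at h1
    omega
  have hFnil : Group.IsNilpotent F := Cfsg.Agent.Helper1.bgu_fittingOf_isNilpotent H
  have hloc : ∀ p : ℕ, p.Prime → p ∣ Nat.card F →
      Subgroup.centralizer (Cfsg.Agent.Helper1.bguZ F p : Set G) ≤ H := by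
    intro p hp hpF
    have hne := Cfsg.Agent.Helper1.bguZ_ne_bot hFnil hp hpF
    have hHN : H ≤ Subgroup.normalizer (Cfsg.Agent.Helper1.bguZ F p : Set G) :=
      (Cfsg.Agent.Helper1.bgu_le_normalizer_fittingOf H).trans
        (Cfsg.Agent.Helper1.bguZ_normalizer F p)
    have hloc' : Cfsg.IsLocalSubgroup (Subgroup.normalizer (Cfsg.Agent.Helper1.bguZ F p : Set G)) :=
      ⟨p, Cfsg.Agent.Helper1.bguZ F p, hp, Cfsg.Agent.Helper1.bguZ_isPGroup F p, hne, rfl⟩
    have h2 := hHmax _ hloc' hHN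
    rw [← h2]
    exact Subgroup.centralizer_le_normalizer _
  set K := Cfsg.piCoreOf (Cfsg.primesNotDvd (Nat.card F)) R with hKdef
  have hKR : K ≤ R := Cfsg.Agent.Helper23.piCoreOf_le _ R
  have hMK : M ≤ Subgroup.normalizer (K : Set G) :=
    hMR.trans (Cfsg.Agent.Helper1.bgu_normalizer_le_normalizer_piCoreOf _ R)
  have hcop : (Nat.card M).Coprime (Nat.card K) := by
    apply Nat.coprime_of_dvd
    intro p hp h1 h2
    exact (Cfsg.Agent.Helper23.mem_of_dvd_card_piCoreOf _ R hp h2).2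
      (dvd_trans h1 (Subgroup.card_dvd_of_le hM))
  have hsolvK : Group.IsSolvable M ∨ Group.IsSolvable K :=
    Or.inr (Cfsg.Agent.Helper35.isSolvable_of_le hKR hR)
  have hinvK : ∀ Y ∈ Cfsg.invSubgroups R M {q}, Y ≤ K ∧ IsPGroup q Y := by
    intro Y hY
    have hYq : IsPGroup q Y := Cfsg.Agent.Helper23.isPGroup_of_primes hY.2.1
    exact ⟨Cfsg.Agent.Helper1.bgu_inv_le_piCoreOf hloc hF2' hM hCM hR hMR hXR hqp hq hY.1 hYq
      hY.2.2, hYq⟩
  obtain ⟨p₀, hp₀, hp₀F, -⟩ := hF2' 0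
  have hCKM : K ⊓ Subgroup.centralizer (M : Set G) = ⊥ := by
    apply Cfsg.Agent.Helper1.bgu_N3 hM hCM hR hXR ?_ (inf_le_left.trans hKR) ?_ ?_
    · refine inf_le_right.trans (le_trans ?_ (hloc p₀ hp₀ hp₀F))
      exact Subgroup.centralizer_le (Cfsg.Agent.Helper1.bguZ_le_of_self_centralizing hM hCM p₀)
    · refine le_trans ?_ Subgroup.inf_normalizer_le_normalizer_inf
      exact le_inf hMK (Subgroup.le_normalizer.trans
        (Cfsg.Agent.Helper49.normalizer_le_normalizer_centralizer M))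
    · intro p hp hdvd hpF
      exact (Cfsg.Agent.Helper23.mem_of_dvd_card_piCoreOf _ R hp
        (dvd_trans hdvd (Subgroup.card_dvd_of_le inf_le_left))).2 hpF
  obtain ⟨Qs, hQs, hMQs⟩ := Cfsg.Agent.Helper35.exists_invariant_sylow hMK hcop hsolvK q
  have hQsq : IsPGroup q Qs := Cfsg.Agent.Helper35.isPGroup_of_mem_sylowSet hQs
  have huniq : ∀ P ∈ Cfsg.Agent.Helper35.sylowSet q K,
      M ≤ Subgroup.normalizer (P : Set G) → P = Qs := by
    intro P hP hMP
    obtain ⟨c, hc, hcPQ⟩ :=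
      Cfsg.Agent.Helper35.exists_conj_invariant_sylow hMK hcop hsolvK hP hQs hMP hMQs
    rw [hCKM, Subgroup.mem_bot] at hc
    rw [hc] at hcPQ
    simpa using hcPQ
  have hle : ∀ Y ∈ Cfsg.invSubgroups R M {q}, Y ≤ Qs := by
    intro Y hY
    obtain ⟨hYK, hYq⟩ := hinvK Y hY
    obtain ⟨P, hP, hYP, hMP⟩ :=
      Cfsg.Agent.Helper35.exists_invariant_sylow_ge hMK hcop hsolvK hYK hYq hY.2.2
    rw [huniq P hP hMP] at hYP
    exact hYP
  have hQsinv : Qs ∈ Cfsg.invSubgroups R M {q} :=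
    ⟨hQs.1.trans hKR, Cfsg.Agent.Helper23.primes_of_isPGroup hqp hQsq, hMQs⟩
  have hQsmax : Qs ∈ Cfsg.maxInvSubgroups R M {q} :=
    ⟨hQsinv, fun Y hY hQY => le_antisymm (hle Y hY) hQY⟩
  have hall : ∀ Q' ∈ Cfsg.maxInvSubgroups R M {q}, Q' = Qs := by
    intro Q' hQ'
    exact (hQ'.2 Qs hQsinv (hle Q' hQ'.1)).symm
  refine ⟨Qs, ⟨hQsmax, ?_⟩, fun Q₂ hQ₂ => hall Q₂ hQ₂.1⟩
  intro Q' hQ'
  rw [hall Q' hQ']
  refine ⟨hQs.1, ?_⟩
  have h1 : Nat.card Qs * Qs.relIndex K = Nat.card K :=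
    Cfsg.Agent.Helper71.card_mul_relIndex_of_le hQs.1
  rw [hQs.2] at h1
  intro hdvd
  have h2 : q ^ ((Nat.card K).factorization q + 1) ∣ Nat.card K := by
    have h3 := Nat.mul_dvd_mul_left (q ^ (Nat.card K).factorization q) hdvd
    rw [h1, ← pow_succ] at h3
    exact h3
  exact Nat.pow_succ_factorization_not_dvd Nat.card_pos.ne' hqp h2

end Cfsg.Agent.S1481
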