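import Cfsg.Statements.S1482
import Cfsg.Agent.Helper1.BGUniqF

set_option autoImplicit false
open Cfsg

namespace Cfsg.Agent.S1482

universe u

open Cfsg.Agent.Helper1 in
open scoped commutatorElement in
theorem main {G : Type u} [Group G] [Finite G] (hG : Cfsg.IsMinSimpleOddOrder G) (H : Subgroup G)
    (hH : IsCoatom H) (hF2 : 2 ≤ (Nat.card (Cfsg.fittingOf H)).primeFactors.card)
    (M : Subgroup G) (hM : M ≤ Cfsg.fittingOf H)
    (hZM : Cfsg.fittingOf H ⊓ Subgroup.centralizer (Cfsg.fittingOf H : Set G) ≤ M)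
    (hinv : ∀ Y ∈ Cfsg.invSubgroups ⊤ M (Cfsg.primesNotDvd (Nat.card (Cfsg.fittingOf H))), Y = ⊥)
    (L : Subgroup G) (hL : IsCoatom L) (hML : M ≤ L) : L = H := by
  obtain ⟨hodd, hsimple, -, hsolv⟩ := hG
  haveI := hsimple
  have hHs : Group.IsSolvable H := hsolv H hH.1
  have hLs : Group.IsSolvable L := hsolv L hL.1
  have hLodd : Odd (Nat.card L) := Odd.of_dvd_nat hodd (Subgroup.card_subgroup_dvd_card L)
  set F : Subgroup G := Cfsg.fittingOf H with hFdef
  set D : Subgroup G := Cfsg.fittingOf L with hDdef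
  have hFnil : Group.IsNilpotent F := bgu_fittingOf_isNilpotent H
  have hDnil : Group.IsNilpotent D := bgu_fittingOf_isNilpotent L
  have hFH : F ≤ H := bgu_fittingOf_le H
  have hDL : D ≤ L := bgu_fittingOf_le L
  have hHNF : H ≤ Subgroup.normalizer (F : Set G) := bgu_le_normalizer_fittingOf H
  have hLND : L ≤ Subgroup.normalizer (D : Set G) := bgu_le_normalizer_fittingOf L
  -- two primes
  have hπ2 : ∀ p : ℕ, ∃ q : ℕ, q.Prime ∧ q ∣ Nat.card F ∧ q ≠ p := by
    intro p
    by_contra hcon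
    push_neg at hcon
    have hsub : (Nat.card F).primeFactors ⊆ {p} := by
      intro q hq
      rw [Finset.mem_singleton]
      exact hcon q (Nat.prime_of_mem_primeFactors hq) (Nat.dvd_of_mem_primeFactors hq)
    have := Finset.card_le_card hsub
    rw [Finset.card_singleton] at this
    omega
  -- Step A
  have hZ : ∀ p : ℕ, p.Prime → p ∣ Nat.card F →
      bguZ F p ≠ ⊥ ∧ Subgroup.normalizer (bguZ F p : Set G) = H ∧
      Subgroup.centralizer (bguZ F p : Set G) ≤ H ∧ bguZ F p ≤ M := by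
    intro p hp hdvd
    have h1 : bguZ F p ≠ ⊥ := bguZ_ne_bot hFnil hp hdvd
    have h2 : Subgroup.normalizer (bguZ F p : Set G) = H :=
      bgu_coatom_normalizer_eq hH h1 ((bguZ_le F p).trans hFH) (hHNF.trans (bguZ_normalizer F p))
    exact ⟨h1, h2, (Subgroup.centralizer_le_normalizer _).trans h2.le,
      (le_inf (bguZ_le F p) (bguZ_le_centralizer F p)).trans hZM⟩
  -- Step B
  have hS1 : ∀ r : ℕ, r.Prime → r ∣ Nat.card F → ∀ S : Subgroup G, IsPGroup r S →
      M ≤ Subgroup.normalizer (S : Set G) → ∀ p : ℕ, p.Prime → p ≠ r → ∀ x ∈ M,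
      (∃ n, orderOf x = p ^ n) → x ∈ Subgroup.centralizer (S : Set G) := by
    intro r hr hrd S hS hMS p hp hpr x hxM hx
    obtain ⟨-, -, hloc, hZA⟩ := hZ r hr hrd
    exact bgu_S1 hM hr hloc hZA hS hMS hp hpr hxM hx
  have hSH : ∀ r : ℕ, r.Prime → r ∣ Nat.card F → ∀ S : Subgroup G, IsPGroup r S →
      M ≤ Subgroup.normalizer (S : Set G) → S ≤ H := by
    intro r hr hrd S hS hMS
    obtain ⟨p, hp, hpd, hpr⟩ := hπ2 r
    obtain ⟨-, -, hloc, hZA⟩ := hZ p hp hpd
    refine le_trans ?_ hloc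
    intro s hs
    rw [Subgroup.mem_centralizer_iff]
    intro z hz
    haveI : Fact p.Prime := ⟨hp⟩
    have h1 := hS1 r hr hrd S hS hMS p hp hpr z (hZA hz)
      (Cfsg.Agent.Helper25.orderOf_of_mem_isPGroup (bguZ_isPGroup F p) hz)
    exact (Subgroup.mem_centralizer_iff.mp h1 s hs).symm
  -- Step C
  have hSbot : ∀ r : ℕ, r.Prime → ¬ r ∣ Nat.card F → ∀ S : Subgroup G, IsPGroup r S →
      M ≤ Subgroup.normalizer (S : Set G) → S = ⊥ := by
    intro r hr hrd S hS hMS
    apply hinv S
    refine ⟨le_top, ?_, hMS⟩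
    intro p hp hpd
    haveI : Fact r.Prime := ⟨hr⟩
    obtain ⟨n, hn⟩ := IsPGroup.iff_card.mp hS
    rw [hn] at hpd
    have hpr : p = r := (Nat.prime_dvd_prime_iff_eq hp hr).mp (hp.dvd_of_dvd_pow hpd)
    rw [hpr]
    exact ⟨hr, hrd⟩
  have hMND : ∀ r : ℕ, r.Prime → M ≤ Subgroup.normalizer (bguP D r : Set G) := fun r hr =>
    (hML.trans hLND).trans (bguP_normalizer hDnil hr)
  -- Step D
  have hDH : D ≤ H := by
    apply Cfsg.Agent.Helper25.le_of_forall_primePow_mem
    intro c hc q n hq hcq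
    have hcq' : c ∈ bguP D q := ((bguP_spec hDnil hq).2 c).mpr ⟨hc, n, hcq⟩
    by_cases hqd : q ∣ Nat.card F
    · exact hSH q hq hqd _ (bguP_spec hDnil hq).1 (hMND q hq) hcq'
    · have hbot := hSbot q hq hqd _ (bguP_spec hDnil hq).1 (hMND q hq)
      rw [hbot, Subgroup.mem_bot] at hcq'
      rw [hcq']; exact H.one_mem
  -- Step E
  have hZD : ∀ p : ℕ, p.Prime → p ∣ Nat.card F → bguZ F p ≤ D := by
    intro p hp hpd z hz
    obtain ⟨-, hN, hloc, hZA⟩ := hZ p hp hpd
    haveI : Fact p.Prime := ⟨hp⟩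
    have hzo := Cfsg.Agent.Helper25.orderOf_of_mem_isPGroup (bguZ_isPGroup F p) hz
    apply bgu_pstable_mem_fittingOf hLs hLodd hp (hML (hZA hz))
    · intro d hd hdo
      refine bgu_commute_of_coprime (D := D) ?_ hd hdo
      intro c hc q n hq hqp hcq
      have hcq' : c ∈ bguP D q := ((bguP_spec hDnil hq).2 c).mpr ⟨hc, n, hcq⟩
      by_cases hqd : q ∣ Nat.card F
      · have h1 := hS1 q hq hqd _ (bguP_spec hDnil hq).1 (hMND q hq) p hp hqp.symm z (hZA hz) hzo
        exact (Subgroup.mem_centralizer_iff.mp h1 c hcq').symm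
      · have hbot := hSbot q hq hqd _ (bguP_spec hDnil hq).1 (hMND q hq)
        rw [hbot, Subgroup.mem_bot] at hcq'
        rw [hcq']; exact Commute.one_right z
    · intro x hx _
      have hxH : x ∈ H := hDH hx
      have hxN : x ∈ Subgroup.normalizer (bguZ F p : Set G) := by rw [hN]; exact hxH
      have h1 : x * z * x⁻¹ ∈ bguZ F p := (Subgroup.mem_normalizer_iff.mp hxN z).mp hz
      have h2 : ⁅x, z⁆ ∈ bguZ F p := by
        rw [commutatorElement_def]
        exact (bguZ F p).mul_mem h1 ((bguZ F p).inv_mem hz)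
      exact (bguZ_mem.mp hz).2.1 _ (bguZ_le F p h2)
  -- Step F
  have hZDq : ∀ q : ℕ, q.Prime → q ∣ Nat.card F → bguZ F q ≤ bguP D q := by
    intro q hq hqd z hz
    rw [(bguP_spec hDnil hq).2]
    exact ⟨hZD q hq hqd hz, (((bguP_spec hFnil hq).2 z).mp (bguZ_le_bguP hFnil hq hz)).2⟩
  have hDq : ∀ q : ℕ, q.Prime → q ∣ Nat.card F →
      bguP D q ≠ ⊥ ∧ Subgroup.normalizer (bguP D q : Set G) = L ∧
      Subgroup.centralizer (bguP D q : Set G) ≤ H := by
    intro q hq hqd
    obtain ⟨hne, -, hloc, -⟩ := hZ q hq hqd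
    have h1 : bguP D q ≠ ⊥ := fun h => hne (le_bot_iff.mp (by rw [← h]; exact hZDq q hq hqd))
    refine ⟨h1, bgu_coatom_normalizer_eq hL h1 ((bguP_le D q).trans hDL)
      (hLND.trans (bguP_normalizer hDnil hq)), ?_⟩
    exact (Subgroup.centralizer_le (SetLike.coe_subset_coe.mpr (hZDq q hq hqd))).trans hloc
  -- Steps G, H
  have hFD : ∀ p : ℕ, p.Prime → p ∣ Nat.card F → bguP F p ≤ bguP D p := by
    intro p hp hpd
    obtain ⟨q, hq, hqd, hqp⟩ := hπ2 p
    obtain ⟨hDqne, hDqN, hDqC⟩ := hDq q hq hqd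
    obtain ⟨hDpne, hDpN, -⟩ := hDq p hp hpd
    have hFpP := (bguP_spec hFnil hp).1
    have hDpP := (bguP_spec hDnil hp).1
    have hDqP := (bguP_spec hDnil hq).1
    apply bgu_le_of_inf_normalizer_le hp hFpP hDpP
    · exact (((bguP_le D p).trans hDH).trans hHNF).trans (bguP_normalizer hFnil hp)
    · rw [hDpN]
      intro x hx
      rw [Subgroup.mem_inf] at hx
      obtain ⟨hxF, hxL⟩ := hx
      have hxY : x ∈ Subgroup.centralizer (bguP D q : Set G) := by
        rw [Subgroup.mem_centralizer_iff]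
        intro d hd
        have hdH : d ∈ H := hDH (bguP_le D q hd)
        have hdN : d ∈ Subgroup.normalizer (bguP F p : Set G) :=
          (hHNF.trans (bguP_normalizer hFnil hp)) hdH
        have hxN : x ∈ Subgroup.normalizer (bguP D q : Set G) := by rw [hDqN]; exact hxL
        have h1 : ⁅x, d⁆ ∈ bguP F p := by
          have h2 : d * x⁻¹ * d⁻¹ ∈ bguP F p :=
            (Subgroup.mem_normalizer_iff.mp hdN _).mp ((bguP F p).inv_mem hxF)
          have h3 : ⁅x, d⁆ = x * (d * x⁻¹ * d⁻¹) := by rw [commutatorElement_def]; group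
          rw [h3]; exact (bguP F p).mul_mem hxF h2
        have h4 : ⁅x, d⁆ ∈ bguP D q := by
          rw [commutatorElement_def]
          exact (bguP D q).mul_mem ((Subgroup.mem_normalizer_iff.mp hxN d).mp hd)
            ((bguP D q).inv_mem hd)
        haveI : Fact p.Prime := ⟨hp⟩
        haveI : Fact q.Prime := ⟨hq⟩
        have h5 : ⁅x, d⁆ = 1 := by
          have hdis := IsPGroup.disjoint_of_ne p q hqp.symm _ _ hFpP hDqP
          exact Subgroup.disjoint_def.mp hdis h1 h4
        have h6 : x * d * x⁻¹ * d⁻¹ = 1 := by rw [← commutatorElement_def]; exact h5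
        calc d * x = (x * d * x⁻¹ * d⁻¹)⁻¹ * (x * d) := by group
          _ = x * d := by rw [h6]; simp
      have hY_L : Subgroup.centralizer (bguP D q : Set G) ≤ L :=
        (Subgroup.centralizer_le_normalizer _).trans hDqN.le
      have hL_NY : L ≤ Subgroup.normalizer
          ((Subgroup.centralizer (bguP D q : Set G) : Subgroup G) : Set G) :=
        hDqN.ge.trans (Cfsg.Agent.Helper49.normalizer_le_normalizer_centralizer _)
      have hU : bguP F p ⊓ Subgroup.centralizer (bguP D q : Set G) ≤ D := by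
        apply bgu_le_fittingOf_chain (C := Subgroup.centralizer (bguP D q : Set G)) inf_le_right
          ?_ ?_ hY_L hL_NY
        · refine le_trans ?_ Subgroup.inf_normalizer_le_normalizer_inf
          exact le_inf ((hDqC.trans hHNF).trans (bguP_normalizer hFnil hp)) Subgroup.le_normalizer
        · exact Cfsg.Agent.Helper25.isNilpotent_of_le ((inf_le_left).trans (bguP_le F p)) hFnil
      rw [(bguP_spec hDnil hp).2]
      exact ⟨hU (Subgroup.mem_inf.mpr ⟨hxF, hxY⟩), (((bguP_spec hFnil hp).2 x).mp hxF).2⟩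
  -- Step I
  have hFleD : F ≤ D := by
    apply Cfsg.Agent.Helper25.le_of_forall_primePow_mem
    intro c hc q n hq hcq
    by_cases hn : n = 0
    · have hc1 : c = 1 := by rw [← orderOf_eq_one_iff, hcq, hn, pow_zero]
      rw [hc1]; exact D.one_mem
    · have hqd : q ∣ Nat.card F := by
        have h1 : q ∣ orderOf c := by rw [hcq]; exact dvd_pow_self q hn
        have h2 : orderOf c ∣ Nat.card F := by
          have h3 := orderOf_dvd_natCard (⟨c, hc⟩ : F)
          rwa [Subgroup.orderOf_mk] at h3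
        exact h1.trans h2
      exact bguP_le D q (hFD q hq hqd (((bguP_spec hFnil hq).2 c).mpr ⟨hc, n, hcq⟩))
  -- Step J
  have hV : ∀ q : ℕ, q.Prime → q ∣ Nat.card F →
      Subgroup.normalizer (bguZ D q : Set G) = L ∧
      Subgroup.centralizer (bguZ D q : Set G) ≤ L ∧ bguZ D q ≤ bguP F q := by
    intro q hq hqd
    have hqD : q ∣ Nat.card D := hqd.trans (Subgroup.card_dvd_of_le hFleD)
    have h1 : bguZ D q ≠ ⊥ := bguZ_ne_bot hDnil hq hqD
    have h2 : Subgroup.normalizer (bguZ D q : Set G) = L :=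
      bgu_coatom_normalizer_eq hL h1 ((bguZ_le D q).trans hDL) (hLND.trans (bguZ_normalizer D q))
    refine ⟨h2, (Subgroup.centralizer_le_normalizer _).trans h2.le, ?_⟩
    intro v hv
    rw [(bguP_spec hFnil hq).2]
    have hvF : v ∈ F := by
      apply bgu_centralizer_fittingOf_le hHs
      refine Subgroup.mem_inf.mpr ⟨hDH (bguZ_le D q hv), ?_⟩
      rw [Subgroup.mem_centralizer_iff]
      intro f hf
      exact ((bguZ_mem.mp hv).2.1 f (hFleD hf)).eq.symm
    exact ⟨hvF, (((bguP_spec hDnil hq).2 v).mp (bguZ_le_bguP hDnil hq hv)).2⟩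
  -- Step K
  have hDleF : D ≤ F := by
    apply Cfsg.Agent.Helper25.le_of_forall_primePow_mem
    intro c hc p n hp hcp
    have hcp' : c ∈ bguP D p := ((bguP_spec hDnil hp).2 c).mpr ⟨hc, n, hcp⟩
    by_cases hpd : p ∣ Nat.card F
    · obtain ⟨q, hq, hqd, hqp⟩ := hπ2 p
      obtain ⟨-, -, hlocq, -⟩ := hZ q hq hqd
      obtain ⟨hVN, hVC, hVF⟩ := hV q hq hqd
      have hC_H : Subgroup.centralizer (bguP F q : Set G) ≤ H :=
        (Subgroup.centralizer_le (SetLike.coe_subset_coe.mpr (bguZ_le_bguP hFnil hq))).trans hlocq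
      have hC_L : Subgroup.centralizer (bguP F q : Set G) ≤ L :=
        (Subgroup.centralizer_le (SetLike.coe_subset_coe.mpr hVF)).trans hVC
      have hH_NC : H ≤ Subgroup.normalizer
          ((Subgroup.centralizer (bguP F q : Set G) : Subgroup G) : Set G) :=
        (hHNF.trans (bguP_normalizer hFnil hq)).trans
          (Cfsg.Agent.Helper49.normalizer_le_normalizer_centralizer _)
      have hcC : c ∈ Subgroup.centralizer (bguP F q : Set G) := by
        rw [Subgroup.mem_centralizer_iff]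
        intro f hf
        obtain ⟨m, hm⟩ := (((bguP_spec hFnil hq).2 f).mp hf).2
        have hcop : (orderOf f).Coprime (orderOf c) := by
          rw [hm, hcp]
          exact Nat.coprime_pow_primes _ _ hq hp hqp
        exact (Cfsg.Agent.Helper25.commute_of_coprime_of_mem_nilpotent D hDnil
          (hFleD (bguP_le F q hf)) hc hcop).eq
      have hU : bguP D p ⊓ Subgroup.centralizer (bguP F q : Set G) ≤ F := by
        apply bgu_le_fittingOf_chain (C := Subgroup.centralizer (bguP F q : Set G)) inf_le_right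
          ?_ ?_ hC_H hH_NC
        · refine le_trans ?_ Subgroup.inf_normalizer_le_normalizer_inf
          exact le_inf ((hC_L.trans hLND).trans (bguP_normalizer hDnil hp)) Subgroup.le_normalizer
        · exact Cfsg.Agent.Helper25.isNilpotent_of_le ((inf_le_left).trans (bguP_le D p)) hDnil
      exact hU (Subgroup.mem_inf.mpr ⟨hcp', hcC⟩)
    · have hbot := hSbot p hp hpd _ (bguP_spec hDnil hp).1 (hMND p hp)
      rw [hbot, Subgroup.mem_bot] at hcp'
      rw [hcp']; exact F.one_mem
  -- Step L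
  have hDF : D = F := le_antisymm hDleF hFleD
  obtain ⟨q, hq, hqd, -⟩ := hπ2 0
  obtain ⟨-, hN, -, -⟩ := hZ q hq hqd
  obtain ⟨hVN, -, -⟩ := hV q hq hqd
  calc L = Subgroup.normalizer (bguZ D q : Set G) := hVN.symm
    _ = Subgroup.normalizer (bguZ F q : Set G) := by rw [hDF]
    _ = H := hN

/-- Let G be a minimal simple group of odd order, H a maximal subgroup whose Fitting subgroup F has at least two prime divisors, and M a subgroup of F containing the centre of F such that the only M-invariant subgroup of G of order coprime to #F is the trivial one. Then H is the only maximal subgroup of G containing M. -/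
theorem result {G : Type*} [Group G] [Finite G] (hG : Cfsg.IsMinSimpleOddOrder G) (H : Subgroup G) (hH : IsCoatom H) (hF2 : 2 ≤ (Nat.card (Cfsg.fittingOf H)).primeFactors.card)
    (M : Subgroup G) (hM : M ≤ Cfsg.fittingOf H) (hZM : Cfsg.fittingOf H ⊓ Subgroup.centralizer (Cfsg.fittingOf H : Set G) ≤ M)
    (hinv : ∀ Y ∈ Cfsg.invSubgroups ⊤ M (Cfsg.primesNotDvd (Nat.card (Cfsg.fittingOf H))), Y = ⊥) :
    ∀ L : Subgroup G, IsCoatom L → M ≤ L → L = H := by
  intro L hL hML
  exact main hG H hH hF2 M hM hZM hinv L hL hML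

end Cfsg.Agent.S1482
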