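import Cfsg.Statements.S1483
import Cfsg.Agent.Helper25.CN2

set_option autoImplicit false
open Cfsg
open Cfsg.Agent.Helper25
set_option linter.style.haveILetI false
set_option linter.unusedVariables false

namespace Cfsg.Agent.S1483

/-- Let G be a minimal simple group of odd order in which every non-identity element has nilpotent centralizer. Then any two nilpotent subgroups each contained in no larger nilpotent subgroup are either conjugate or of coprime orders; and for primes p, q, r: if some elements x, y ≠ 1 of p-power and q-power order commute, and some elements y', z ≠ 1 of q-power and r-power order commute, then some elements of p-power and r-power order, both ≠ 1, commute. -/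
theorem result {G : Type*} [Group G] [Finite G] (hG : Cfsg.IsMinSimpleOddOrder G) (hCN : Cfsg.IsCNGroup G) :
    (∀ H₁ H₂ : Subgroup G, (Group.IsNilpotent ↥H₁ ∧ ∀ L : Subgroup G, Group.IsNilpotent L → H₁ ≤ L → L = H₁) → (Group.IsNilpotent ↥H₂ ∧ ∀ L : Subgroup G, Group.IsNilpotent L → H₂ ≤ L → L = H₂) → (∃ g : G, H₂ = H₁.map (MulAut.conj g).toMonoidHom) ∨ (Nat.card H₁).Coprime (Nat.card H₂)) ∧
      ∀ (p q r : ℕ), p.Prime → q.Prime → r.Prime → ∀ (x y y' z : G), x ≠ 1 → y ≠ 1 → y' ≠ 1 → z ≠ 1 →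
        IsPGroup p (Subgroup.zpowers x) → IsPGroup q (Subgroup.zpowers y) → IsPGroup q (Subgroup.zpowers y') → IsPGroup r (Subgroup.zpowers z) →
        x * y = y * x → y' * z = z * y' →
        ∃ x' z' : G, x' ≠ 1 ∧ z' ≠ 1 ∧ IsPGroup p (Subgroup.zpowers x') ∧ IsPGroup r (Subgroup.zpowers z') ∧ x' * z' = z' * x' := by
  classical
  have part1 : ∀ H₁ H₂ : Subgroup G, (Group.IsNilpotent ↥H₁ ∧ ∀ L : Subgroup G, Group.IsNilpotent L → H₁ ≤ L → L = H₁) → (Group.IsNilpotent ↥H₂ ∧ ∀ L : Subgroup G, Group.IsNilpotent L → H₂ ≤ L → L = H₂) → (∃ g : G, H₂ = H₁.map (MulAut.conj g).toMonoidHom) ∨ (Nat.card H₁).Coprime (Nat.card H₂) :=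
    fun H₁ H₂ h1 h2 => isMaxNilp_conj_or_coprime hCN H₁ H₂ h1 h2
  refine ⟨part1, ?_⟩
  intro p q r hp hq hr x y y' z hx hy hy' hz hxp hyq hy'q hzr hxy hy'z
  by_cases hpr : p = r
  · subst hpr
    exact ⟨x, x, hx, hx, hxp, hxp, rfl⟩
  by_cases hqp : q = p
  · subst hqp
    exact ⟨y', z, hy', hz, hy'q, hzr, hy'z⟩
  by_cases hqr : q = r
  · subst hqr
    exact ⟨x, y, hx, hy, hxp, hyq, hxy⟩
  -- main case
  have memC : ∀ {a c : G}, c ∈ Subgroup.centralizer ({a} : Set G) ↔ a * c = c * a := by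
    intro a c
    rw [Subgroup.mem_centralizer_iff]
    simp
  obtain ⟨H₁, hC₁, hH₁⟩ := exists_isMaxNilp_ge (Subgroup.centralizer ({y} : Set G)) (hCN y hy)
  obtain ⟨H₂, hC₂, hH₂⟩ := exists_isMaxNilp_ge (Subgroup.centralizer ({y'} : Set G)) (hCN y' hy')
  have hxH₁ : x ∈ H₁ := hC₁ (memC.mpr hxy.symm)
  have hyH₁ : y ∈ H₁ := hC₁ (memC.mpr rfl)
  have hy'H₂ : y' ∈ H₂ := hC₂ (memC.mpr rfl)
  have hzH₂ : z ∈ H₂ := hC₂ (memC.mpr hy'z)
  obtain ⟨a, ha⟩ := (isPElt_iff_isPGroup_zpowers p hp x).mp hxp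
  obtain ⟨b, hb⟩ := (isPElt_iff_isPGroup_zpowers q hq y).mp hyq
  obtain ⟨b', hb'⟩ := (isPElt_iff_isPGroup_zpowers q hq y').mp hy'q
  obtain ⟨c, hc⟩ := (isPElt_iff_isPGroup_zpowers r hr z).mp hzr
  have hqd : ∀ (H : Subgroup G) (u : G) (n : ℕ), u ∈ H → u ≠ 1 → orderOf u = q ^ n → q ∣ Nat.card H := by
    intro H u n hu hu1 hn
    have h1 : orderOf u ∣ Nat.card H := Subgroup.orderOf_dvd_natCard _ hu
    have hn0 : n ≠ 0 := by
      intro h0
      rw [h0, pow_zero] at hn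
      exact hu1 (orderOf_eq_one_iff.mp hn)
    rw [hn] at h1
    exact dvd_trans (dvd_pow_self q hn0) h1
  rcases part1 H₁ H₂ hH₁ hH₂ with ⟨g, hg⟩ | hcop
  · have hgx : g * x * g⁻¹ ∈ H₂ := by
      rw [hg]; exact conj_mem_map_conj' g hxH₁
    have hgxo : orderOf (g * x * g⁻¹) = p ^ a := by rw [orderOf_conj', ha]
    have hcomm : Commute (g * x * g⁻¹) z := by
      apply commute_of_coprime_of_mem_nilpotent H₂ hH₂.1 hgx hzH₂
      rw [hgxo, hc]
      exact Nat.Coprime.pow _ _ ((Nat.coprime_primes hp hr).mpr hpr)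
    refine ⟨g * x * g⁻¹, z, ?_, hz, ?_, hzr, hcomm.eq⟩
    · intro h
      apply hx
      have : x = g⁻¹ * (g * x * g⁻¹) * g := by group
      rw [this, h]; group
    · exact (isPElt_iff_isPGroup_zpowers p hp _).mpr ⟨a, hgxo⟩
  · exfalso
    have h1 := hqd H₁ y b hyH₁ hy hb
    have h2 := hqd H₂ y' b' hy'H₂ hy' hb'
    have h3 := Nat.dvd_gcd h1 h2
    rw [Nat.Coprime] at hcop
    rw [hcop] at h3
    exact hq.ne_one (Nat.dvd_one.mp h3)

end Cfsg.Agent.S1483
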