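import Cfsg.Statements.S1486
import Cfsg.Agent.Helper75.ConjFun
import Cfsg.Agent.Helper75.InnerLin

set_option autoImplicit false
open Cfsg

namespace Cfsg.Agent.S1486

/-- Let H be a normal subgroup of the finite group G and θ, φ irreducible characters of H. If φ is a G-conjugate of θ then the functions induced from θ and φ coincide; if φ is not a G-conjugate of θ then the induced functions are orthogonal. -/
theorem result {G : Type*} [Group G] [Fintype G] (H : Subgroup G) [hN : H.Normal] (θ φ : H → ℂ) (hθ : Cfsg.IsIrrCharacter H θ) (hφ : Cfsg.IsIrrCharacter H φ) : ((∃ g : G, φ = fun h : H => θ ⟨g * h * g⁻¹, hN.conj_mem h h.2 g⟩) → Cfsg.indFun H φ = Cfsg.indFun H θ) ∧ ((¬ ∃ g : G, φ = fun h : H => θ ⟨g * h * g⁻¹, hN.conj_mem h h.2 g⟩) → Cfsg.classInner (Cfsg.indFun H φ) (Cfsg.indFun H θ) = 0) := by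
  classical
  let _ : Fintype H := Fintype.ofFinite H
  constructor
  · rintro ⟨g, rfl⟩
    exact Cfsg.Agent.Helper75.indFun_conjFun H g θ
  · intro hnot
    rw [Cfsg.Agent.Helper3.frobenius_reciprocity H φ _ (Cfsg.Agent.Helper3.indFun_isClassFunction H θ)]
    have h1 : (fun h : H => Cfsg.indFun H θ h) =
        (Nat.card H : ℂ)⁻¹ • ∑ x : G, Cfsg.Agent.Helper75.conjFun H x θ := by
      funext h
      rw [Cfsg.Agent.Helper75.indFun_apply_mem, Pi.smul_apply, Finset.sum_apply, smul_eq_mul]
    rw [h1, Cfsg.Agent.Helper75.classInner_smul_right, Cfsg.Agent.Helper75.classInner_sum_right]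
    rw [Finset.sum_eq_zero, mul_zero]
    intro x _
    apply Cfsg.Agent.Helper75.classInner_irr_of_ne hφ
      (Cfsg.Agent.Helper75.isIrrCharacter_conjFun H x hθ)
    intro h
    exact hnot ⟨x, h⟩

end Cfsg.Agent.S1486
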