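import Cfsg.Statements.S1487
import Cfsg.Agent.Helper75.ConjFun
import Cfsg.Agent.Helper75.InnerLin

set_option autoImplicit false
open Cfsg

namespace Cfsg.Agent.S1487

/-- Let A ≤ H be normal subgroups of the finite group G and θ an irreducible character of H. Then θ takes the value θ 1 on all of A if and only if the function induced from θ to G takes its value at 1 on all of A. -/
theorem result {G : Type*} [Group G] [Fintype G] (A H : Subgroup G) [A.Normal] [H.Normal] (hAH : A ≤ H) (θ : H → ℂ) (hθ : Cfsg.IsIrrCharacter H θ) : (∀ a : H, (a : G) ∈ A → θ a = θ 1) ↔ (∀ a : G, a ∈ A → Cfsg.indFun H θ a = Cfsg.indFun H θ 1) := by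
  classical
  have hθc : Cfsg.IsCharacter H θ := Cfsg.Agent.Helper80.isCharacter_of_irr hθ
  have hone : ∀ x : G, Cfsg.Agent.Helper75.conjFun H x θ 1 = θ 1 := by
    intro x
    rw [Cfsg.Agent.Helper75.conjFun_apply]
    congr 1
    apply Subtype.ext
    simp
  have hind1 : Cfsg.indFun H θ 1 = (Nat.card H : ℂ)⁻¹ * ∑ _x : G, θ 1 := by
    have := Cfsg.Agent.Helper75.indFun_apply_mem H θ (1 : H)
    rw [OneMemClass.coe_one] at this
    rw [this]
    simp only [hone]
  have hHne : (Nat.card H : ℂ) ≠ 0 := by exact_mod_cast (Nat.card_pos (α := H)).ne'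
  constructor
  · intro h a ha
    have haH : a ∈ H := hAH ha
    have h2 := Cfsg.Agent.Helper75.indFun_apply_mem H θ ⟨a, haH⟩
    rw [Subgroup.coe_mk] at h2
    rw [h2, hind1]
    congr 1
    apply Finset.sum_congr rfl
    intro x _
    rw [Cfsg.Agent.Helper75.conjFun_apply]
    apply h
    exact ‹A.Normal›.conj_mem a ha x
  · intro h a ha
    have h2 := Cfsg.Agent.Helper75.indFun_apply_mem H θ a
    rw [h (a : G) ha, hind1] at h2
    have h3 : ∑ _x : G, θ 1 = ∑ x : G, Cfsg.Agent.Helper75.conjFun H x θ a :=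
      mul_left_cancel₀ (inv_ne_zero hHne) h2
    have hd := Cfsg.Agent.Helper80.isCharacter_one_eq hθc
    have hnorm : ∀ y : H, ‖θ y‖ ≤ (Cfsg.charDegree θ : ℝ) :=
      fun y => Cfsg.Agent.Helper80.isCharacter_norm_le hθc y
    have hre : ∀ x : G, (Cfsg.Agent.Helper75.conjFun H x θ a).re ≤ (Cfsg.charDegree θ : ℝ) :=
      fun x => (Complex.re_le_norm _).trans (hnorm _)
    have h4 : ∑ x : G, ((Cfsg.charDegree θ : ℝ) - (Cfsg.Agent.Helper75.conjFun H x θ a).re) = 0 := by
      have h5 := congrArg Complex.re h3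
      rw [Complex.re_sum, Complex.re_sum, hd] at h5
      simp only [Complex.natCast_re] at h5
      rw [Finset.sum_sub_distrib, h5, sub_self]
    have h6 := (Finset.sum_eq_zero_iff_of_nonneg (fun x _ => sub_nonneg.mpr (hre x))).mp h4 1
      (Finset.mem_univ _)
    rw [Cfsg.Agent.Helper75.conjFun_one] at h6
    have hre1 : (θ a).re = (Cfsg.charDegree θ : ℝ) := by linarith
    have him : (θ a).im = 0 := by
      have h7 := hnorm a
      have h8 : ‖θ a‖ ^ 2 = (θ a).re ^ 2 + (θ a).im ^ 2 := by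
        rw [← Complex.normSq_eq_norm_sq, Complex.normSq_apply]; ring
      have h9 : ‖θ a‖ ^ 2 ≤ (Cfsg.charDegree θ : ℝ) ^ 2 :=
        pow_le_pow_left₀ (norm_nonneg _) h7 2
      rw [h8, hre1] at h9
      have : (θ a).im ^ 2 ≤ 0 := by linarith
      have h10 : (θ a).im ^ 2 = 0 := le_antisymm this (sq_nonneg _)
      exact pow_eq_zero_iff (two_ne_zero) |>.mp h10
    rw [hd]
    apply Complex.ext
    · rw [hre1]; simp
    · rw [him]; simp

end Cfsg.Agent.S1487
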