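import Cfsg.Statements.S1488
import Mathlib
import Cfsg.Agent.Helper3.CenterDvd
import Cfsg.Agent.Helper3.IndFun

set_option autoImplicit false
open Cfsg

namespace Cfsg.Agent.S1488

/-- Let A be a normal subgroup of the finite group G contained in the subgroup H, let θ be a function on H and θ₁ a function on the image of H in G ⧸ A whose composite with the projection is θ. Then the function induced from θ₁ to G ⧸ A, composed with the projection G → G ⧸ A, equals the function induced from θ to G. -/
theorem result {G : Type*} [Group G] [Fintype G] (A H : Subgroup G) [A.Normal] (hAH : A ≤ H) [Fintype (G ⧸ A)] [Fintype ↥(H.map (QuotientGroup.mk' A))] (θ : H → ℂ) (θ₁ : ↥(H.map (QuotientGroup.mk' A)) → ℂ) (hθ : ∀ x : H, θ₁ ⟨QuotientGroup.mk' A x, Subgroup.mem_map_of_mem _ x.2⟩ = θ x) (g : G) : Cfsg.indFun (H.map (QuotientGroup.mk' A)) θ₁ (QuotientGroup.mk' A g) = Cfsg.indFun H θ g := by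
  classical
  -- extension by zero commutes with the projection
  have hext : ∀ y : G, Cfsg.extendByZero (H.map (QuotientGroup.mk' A)) θ₁ (QuotientGroup.mk' A y) =
      Cfsg.extendByZero H θ y := by
    intro y
    by_cases hy : y ∈ H
    · have hy' : QuotientGroup.mk' A y ∈ H.map (QuotientGroup.mk' A) :=
        Subgroup.mem_map_of_mem _ hy
      rw [Cfsg.Agent.Helper3.extendByZero_of_mem _ _ hy', Cfsg.Agent.Helper3.extendByZero_of_mem _ _ hy]
      exact hθ ⟨y, hy⟩
    · have hy' : QuotientGroup.mk' A y ∉ H.map (QuotientGroup.mk' A) := by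
        rintro ⟨h, hh, hhy⟩
        apply hy
        have h1 : h⁻¹ * y ∈ A := by
          rw [← QuotientGroup.eq]
          exact hhy
        have h2 : y = h * (h⁻¹ * y) := by group
        rw [h2]
        exact H.mul_mem hh (hAH h1)
      rw [Cfsg.Agent.Helper3.extendByZero_of_not_mem _ _ hy',
        Cfsg.Agent.Helper3.extendByZero_of_not_mem _ _ hy]
  -- cardinalities
  have hcard : Nat.card H = Nat.card A * Nat.card ↥(H.map (QuotientGroup.mk' A)) := by
    have h1 : (H.map (QuotientGroup.mk' A)).index = H.index := by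
      rw [← Subgroup.index_comap_of_surjective (H.map (QuotientGroup.mk' A))
        (QuotientGroup.mk'_surjective A), QuotientGroup.comap_map_mk', sup_eq_right.mpr hAH]
    have h2 := Subgroup.index_mul_card H
    have h3 := Subgroup.index_mul_card (H.map (QuotientGroup.mk' A))
    have h4 := Subgroup.card_eq_card_quotient_mul_card_subgroup A
    have hpos : 0 < H.index := Nat.pos_of_ne_zero Subgroup.index_ne_zero_of_finite
    rw [h1] at h3
    have h5 : H.index * Nat.card H =
        H.index * (Nat.card A * Nat.card ↥(H.map (QuotientGroup.mk' A))) := by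
      rw [h2, h4, ← h3]
      ring
    exact Nat.eq_of_mul_eq_mul_left hpos h5
  unfold Cfsg.indFun
  set F : G ⧸ A → ℂ := fun q => Cfsg.extendByZero (H.map (QuotientGroup.mk' A)) θ₁
    (q⁻¹ * QuotientGroup.mk' A g * q) with hF
  have hsum : ∑ x : G, Cfsg.extendByZero H θ (x⁻¹ * g * x) = Nat.card A • ∑ q : G ⧸ A, F q := by
    have h1 : ∀ x : G, Cfsg.extendByZero H θ (x⁻¹ * g * x) = F (QuotientGroup.mk' A x) := by
      intro x
      rw [hF, ← hext]
      simp
    simp only [h1]
    rw [Cfsg.Agent.Helper3.sum_eq_card_smul_sum_out A (fun x : G => F (QuotientGroup.mk' A x))]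
    · congr 1
      apply Finset.sum_congr rfl
      intro q _
      show F (QuotientGroup.mk' A q.out) = F q
      congr 1
      exact QuotientGroup.out_eq' q
    · intro x z hz
      show F (QuotientGroup.mk' A (x * z)) = F (QuotientGroup.mk' A x)
      congr 1
      rw [QuotientGroup.mk'_apply, QuotientGroup.mk'_apply]
      exact QuotientGroup.mk_mul_of_mem x hz
  rw [hsum, hcard]
  have hA0 : (Nat.card A : ℂ) ≠ 0 := by exact_mod_cast (Nat.card_pos (α := A)).ne'
  have hH0 : (Nat.card ↥(H.map (QuotientGroup.mk' A)) : ℂ) ≠ 0 := by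
    exact_mod_cast (Nat.card_pos (α := ↥(H.map (QuotientGroup.mk' A)))).ne'
  rw [nsmul_eq_mul]
  push_cast
  field_simp

end Cfsg.Agent.S1488
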