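import Cfsg.Statements.S1489
import Cfsg.Agent.Helper75.CliffordCorr

set_option autoImplicit false
open Cfsg

namespace Cfsg.Agent.S1489


open Cfsg.Agent.Helper75 in
/-- From the hypothesis of the statement (in terms of induction from `H.subgroupOf T`) to the
multiplicity of `θ` in the restriction. -/
theorem over_aux {G : Type*} [Group G] {H T : Subgroup G} [Fintype T] [Fintype H]
    (hHT : H ≤ T) (θ : H → ℂ) (ψ : T → ℂ) (hψ : Cfsg.IsIrrCharacter T ψ)
    (hc : Cfsg.classInner (Cfsg.indFun (H.subgroupOf T)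
      (fun x => θ ⟨(x : T), Subgroup.mem_subgroupOf.mp x.2⟩)) ψ ≠ 0) :
    Cfsg.classInner (resTo hHT ψ) θ ≠ 0 := by
  classical
  have : Finite ↥(H.subgroupOf T) :=
    Finite.of_equiv H (Subgroup.subgroupOfEquivOfLe hHT).symm.toEquiv
  let _ : Fintype ↥(H.subgroupOf T) := Fintype.ofFinite _
  have hψc : Cfsg.IsCharacter T ψ := Cfsg.Agent.Helper80.isCharacter_of_irr hψ
  rw [Cfsg.Agent.Helper3.frobenius_reciprocity (H.subgroupOf T) _ ψ
    (isCharacter_isClassFunction' hψc)] at hc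
  rw [classInner_conj_symm (fun h : ↥(H.subgroupOf T) => ψ h)] at hc
  have h1 := classInner_subgroupOf hHT ψ θ
  intro h0
  apply hc
  have h2 : Cfsg.classInner (fun h : ↥(H.subgroupOf T) => ψ h)
      (fun x => θ ⟨(x : T), Subgroup.mem_subgroupOf.mp x.2⟩) = 0 := by
    rw [← h0, ← h1]
    rfl
  rw [h2, map_zero]

/-- Let H be a normal subgroup of the finite group G, θ an irreducible character of H, and T the inertia group of θ (the elements g with θ(g h g⁻¹) = θ(h) for all h ∈ H). If ψ and ψ' are irreducible characters of T having nonzero inner product with the function induced from θ to T, then the function induced from ψ to G is an irreducible character of G, and it equals the one induced from ψ' only if ψ = ψ'. -/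
theorem result {G : Type*} [Group G] [Fintype G] (H T : Subgroup G) [hN : H.Normal] [Fintype T] (θ : H → ℂ) (hθ : Cfsg.IsIrrCharacter H θ) (hT : ∀ g : G, g ∈ T ↔ ∀ h : H, θ ⟨g * h * g⁻¹, hN.conj_mem h h.2 g⟩ = θ h) (hHT : H ≤ T) (ψ ψ' : T → ℂ) (hψ : Cfsg.IsIrrCharacter T ψ) (hψ' : Cfsg.IsIrrCharacter T ψ') (hc : Cfsg.classInner (Cfsg.indFun (H.subgroupOf T) (fun x => θ ⟨(x : T), Subgroup.mem_subgroupOf.mp x.2⟩)) ψ ≠ 0) (hc' : Cfsg.classInner (Cfsg.indFun (H.subgroupOf T) (fun x => θ ⟨(x : T), Subgroup.mem_subgroupOf.mp x.2⟩)) ψ' ≠ 0) : Cfsg.IsIrrCharacter G (Cfsg.indFun T ψ) ∧ (Cfsg.indFun T ψ = Cfsg.indFun T ψ' → ψ = ψ') := by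
  classical
  let _ : Fintype H := Fintype.ofFinite H
  have hT' : ∀ g : G, g ∈ T ↔ Cfsg.Agent.Helper75.conjFun H g θ = θ :=
    fun g => (hT g).trans funext_iff.symm
  have hθc : Cfsg.IsCharacter H θ := Cfsg.Agent.Helper80.isCharacter_of_irr hθ
  have hψc : Cfsg.IsCharacter T ψ := Cfsg.Agent.Helper80.isCharacter_of_irr hψ
  have hψ'c : Cfsg.IsCharacter T ψ' := Cfsg.Agent.Helper80.isCharacter_of_irr hψ'
  have hf := over_aux hHT θ ψ hψ hc
  have hf' := over_aux hHT θ ψ' hψ' hc'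
  have hindc : Cfsg.IsCharacter G (Cfsg.indFun T ψ) :=
    Cfsg.Agent.Helper3.isCharacter_indFun T ψ hψc
  have hind1 : Cfsg.indFun T ψ 1 ≠ 0 := by
    rw [Cfsg.Agent.Helper75.indFun_one]
    have h1 : (Nat.card G : ℂ) ≠ 0 := by exact_mod_cast (Nat.card_pos (α := G)).ne'
    have h2 : (Nat.card T : ℂ) ≠ 0 := by exact_mod_cast (Nat.card_pos (α := T)).ne'
    exact mul_ne_zero (div_ne_zero h1 h2) (Cfsg.Agent.Helper80.irr_one_ne_zero ⟨ψ, hψ⟩)
  obtain ⟨χ, hχ, hχne⟩ := Cfsg.Agent.Helper75.exists_irr_constituent hindc hind1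
  have hχc : Cfsg.IsCharacter G χ := Cfsg.Agent.Helper80.isCharacter_of_irr hχ
  have hχcl := Cfsg.Agent.Helper75.isCharacter_isClassFunction' hχc
  have hover : Cfsg.classInner (fun t : T => χ t) ψ ≠ 0 := by
    rw [Cfsg.Agent.Helper3.frobenius_reciprocity T ψ χ hχcl,
      Cfsg.Agent.Helper75.classInner_conj_symm (fun t : T => χ t) ψ] at hχne
    intro h0
    apply hχne
    rw [h0, map_zero]
  obtain ⟨hEq, hmult⟩ := Cfsg.Agent.Helper75.clifford_correspondence hHT hθ hT' hψ hχ hf hover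
  refine ⟨by rw [hEq]; exact hχ, ?_⟩
  intro hsame
  by_contra hne
  have hover' : Cfsg.classInner (fun t : T => χ t) ψ' ≠ 0 := by
    intro h0
    have h1 : Cfsg.classInner (Cfsg.indFun T ψ') χ = 1 := by
      rw [← hsame, hEq]
      exact Cfsg.Agent.Helper75.classInner_irr_self hχ
    rw [Cfsg.Agent.Helper3.frobenius_reciprocity T ψ' χ hχcl,
      Cfsg.Agent.Helper75.classInner_conj_symm (fun t : T => χ t) ψ', h0, map_zero] at h1
    exact zero_ne_one h1
  obtain ⟨-, hmult'⟩ := Cfsg.Agent.Helper75.clifford_correspondence hHT hθ hT' hψ' hχ hf' hover'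
  obtain ⟨e, f, f', he, hfN, hfN', hle⟩ := Cfsg.Agent.Helper75.restrict_mult_add_le hHT hθc hχc
    hψ hψ' hne hover hover'
  have h1 : (e : ℂ) = (f : ℂ) := by rw [← he, ← hfN, hmult]
  have h2 : (e : ℂ) = (f' : ℂ) := by rw [← he, ← hfN', hmult']
  have h1' : e = f := by exact_mod_cast h1
  have h2' : e = f' := by exact_mod_cast h2
  have h3 : f ≠ 0 := by
    intro h0
    apply hf
    rw [hfN, h0]
    simp
  omega

end Cfsg.Agent.S1489
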