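import Cfsg.Statements.S1490
import Cfsg.Agent.Helper75.AbelianQuot
import Cfsg.Agent.Helper75.Ito

set_option autoImplicit false
open Cfsg

namespace Cfsg.Agent.S1490

/-- Let H be a normal subgroup of the finite group G, θ an irreducible character of H with inertia group T, and suppose the commutator of any two elements of T lies in H (T/H abelian). Then there are a positive integer e and a finite set C of irreducible characters of G with e ^ 2 * |C| * |H| = |T|, such that the function induced from θ is e times the sum of the members of C and every member of C has degree [G:T] * e * θ(1). -/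
theorem result {G : Type*} [Group G] [Fintype G] (H T : Subgroup G) [hN : H.Normal] (θ : H → ℂ) (hθ : Cfsg.IsIrrCharacter H θ) (hT : ∀ g : G, g ∈ T ↔ ∀ h : H, θ ⟨g * h * g⁻¹, hN.conj_mem h h.2 g⟩ = θ h) (hab : ∀ x ∈ T, ∀ y ∈ T, x * y * x⁻¹ * y⁻¹ ∈ H) : ∃ (e : ℕ) (C : Finset (G → ℂ)), 0 < e ∧ (∀ χ ∈ C, Cfsg.IsIrrCharacter G χ) ∧ e ^ 2 * C.card * Nat.card H = Nat.card T ∧ Cfsg.indFun H θ = (e : ℂ) • ∑ χ ∈ C, χ ∧ ∀ χ ∈ C, χ 1 = (T.index : ℂ) * e * θ 1 := by
  classical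
  let _ : Fintype H := Fintype.ofFinite H
  let _ : Fintype T := Fintype.ofFinite T
  let _ : Fintype (Cfsg.IrrCharacter G) := Fintype.ofFinite _
  have hT' : ∀ g : G, g ∈ T ↔ Cfsg.Agent.Helper75.conjFun H g θ = θ :=
    fun g => (hT g).trans funext_iff.symm
  have hθc := Cfsg.Agent.Helper80.isCharacter_of_irr hθ
  have hHT : H ≤ T := by
    intro h hh
    rw [hT']
    exact (Cfsg.Agent.Helper75.mem_inertia H θ h).mp
      (Cfsg.Agent.Helper75.le_inertia H θ (Cfsg.Agent.Helper75.isCharacter_isClassFunction' hθc) hh)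
  have hinv : ∀ t ∈ T, Cfsg.Agent.Helper75.conjFun H t θ = θ := fun t ht => (hT' t).mp ht
  have hΦ : Cfsg.IsCharacter G (Cfsg.indFun H θ) := Cfsg.Agent.Helper3.isCharacter_indFun H θ hθc
  have hΦsum := Cfsg.Agent.Helper75.character_eq_sum_irr hΦ
  have hfrob : ∀ χ : Cfsg.IrrCharacter G, Cfsg.classInner (Cfsg.indFun H θ) (χ : G → ℂ) =
      (starRingEnd ℂ) (Cfsg.classInner (fun n : H => (χ : G → ℂ) n) θ) := by
    intro χ
    rw [Cfsg.Agent.Helper3.frobenius_reciprocity H θ _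
      (Cfsg.Agent.Helper75.isCharacter_isClassFunction' (Cfsg.Agent.Helper80.isCharacter_of_irr χ.2)),
      Cfsg.Agent.Helper75.classInner_conj_symm (fun n : H => (χ : G → ℂ) n) θ]
  have hkey : ∀ χ : Cfsg.IrrCharacter G, Cfsg.classInner (fun n : H => (χ : G → ℂ) n) θ ≠ 0 →
      ∃ ψ : T → ℂ, Cfsg.IsIrrCharacter T ψ ∧
        Cfsg.classInner (Cfsg.Agent.Helper75.resTo hHT ψ) θ ≠ 0 ∧
        Cfsg.indFun T ψ = (χ : G → ℂ) ∧
        Cfsg.classInner (fun n : H => (χ : G → ℂ) n) θ =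
          Cfsg.classInner (Cfsg.Agent.Helper75.resTo hHT ψ) θ := by
    intro χ hχ
    obtain ⟨ψ, hψ, h1, h2⟩ := Cfsg.Agent.Helper75.exists_irr_over hHT hθc
      (Cfsg.Agent.Helper80.isCharacter_of_irr χ.2) hχ
    obtain ⟨h3, h4⟩ := Cfsg.Agent.Helper75.clifford_correspondence hHT hθ hT' hψ χ.2 h2 h1
    exact ⟨ψ, hψ, h2, h3, h4⟩
  have hG0 : (Nat.card G : ℂ) ≠ 0 := by exact_mod_cast (Nat.card_pos (α := G)).ne'
  have hH0 : (Nat.card H : ℂ) ≠ 0 := by exact_mod_cast (Nat.card_pos (α := H)).ne'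
  have hT0 : (Nat.card T : ℂ) ≠ 0 := by exact_mod_cast (Nat.card_pos (α := T)).ne'
  have hθ1 : θ 1 ≠ 0 := Cfsg.Agent.Helper80.irr_one_ne_zero ⟨θ, hθ⟩
  have hΦ1 : Cfsg.indFun H θ 1 ≠ 0 := by
    rw [Cfsg.Agent.Helper75.indFun_one]
    exact mul_ne_zero (div_ne_zero hG0 hH0) hθ1
  obtain ⟨χ₀, hχ₀, hχ₀ne⟩ := Cfsg.Agent.Helper75.exists_irr_constituent hΦ hΦ1
  have hχ₀over : Cfsg.classInner (fun n : H => χ₀ n) θ ≠ 0 := by
    have h1 := hfrob ⟨χ₀, hχ₀⟩
    intro h0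
    apply hχ₀ne
    have h2 : Cfsg.classInner (Cfsg.indFun H θ) χ₀ =
        (starRingEnd ℂ) (Cfsg.classInner (fun n : H => χ₀ n) θ) := h1
    rw [h2, h0, map_zero]
  obtain ⟨e, he⟩ := Cfsg.Agent.Helper3.classInner_isCharacter_nat
    (Cfsg.Agent.Helper79.isCharacter_restrict (Cfsg.Agent.Helper80.isCharacter_of_irr hχ₀) H) hθc
  have hepos : 0 < e := by
    rcases Nat.eq_zero_or_pos e with h0 | h
    · exfalso; apply hχ₀over; rw [he, h0]; simp
    · exact h
  have hall : ∀ χ : Cfsg.IrrCharacter G, Cfsg.classInner (fun n : H => (χ : G → ℂ) n) θ ≠ 0 →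
      Cfsg.classInner (fun n : H => (χ : G → ℂ) n) θ = (e : ℂ) := by
    intro χ hχ
    obtain ⟨ψ, hψ, hψ1, -, hψ3⟩ := hkey χ hχ
    obtain ⟨ψ₀, hψ₀, hψ₀1, -, hψ₀3⟩ := hkey ⟨χ₀, hχ₀⟩ hχ₀over
    rw [hψ3, Cfsg.Agent.Helper75.mult_eq_of_abelian_quotient hHT hθ hinv hab hψ hψ₀ hψ1 hψ₀1,
      ← hψ₀3]
    exact he
  set F : Finset (Cfsg.IrrCharacter G) := Finset.univ.filter
    (fun χ => Cfsg.classInner (fun n : H => (χ : G → ℂ) n) θ ≠ 0) with hF
  have hquotT : (Nat.card G : ℂ) / (Nat.card T : ℂ) = (T.index : ℂ) := by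
    rw [← Subgroup.index_mul_card T]
    push_cast
    field_simp
  have hsumeq : Cfsg.indFun H θ = (e : ℂ) • ∑ χ ∈ F.image Subtype.val, χ := by
    rw [Finset.sum_image (fun x _ y _ h => Subtype.ext h), Finset.smul_sum]
    conv_lhs => rw [hΦsum]
    rw [hF, Finset.sum_filter]
    apply Finset.sum_congr rfl
    intro χ _
    by_cases hχ : Cfsg.classInner (fun n : H => (χ : G → ℂ) n) θ = 0
    · rw [if_neg (not_not.mpr hχ), hfrob, hχ, map_zero, zero_smul]
    · rw [if_pos hχ, hfrob, hall χ hχ, Complex.conj_natCast]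
  have hdegs : ∀ χ ∈ F.image Subtype.val, χ 1 = (T.index : ℂ) * e * θ 1 := by
    intro χ hχ
    obtain ⟨χ', hχ', rfl⟩ := Finset.mem_image.mp hχ
    have hχ'' := (Finset.mem_filter.mp hχ').2
    obtain ⟨ψ, hψ, hψ1, hψ2, hψ3⟩ := hkey χ' hχ''
    have hA := Cfsg.Agent.Helper75.restrict_eq_smul_of_invariant hHT hψ hθ hinv hψ1
    rw [← hψ3, hall χ' hχ''] at hA
    have hψone : ψ 1 = (e : ℂ) * θ 1 := by
      have h1 := congrFun hA 1
      rw [Cfsg.Agent.Helper75.resTo_apply, Pi.smul_apply, smul_eq_mul] at h1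
      have h2 : (⟨((1 : H) : G), hHT (1 : H).2⟩ : T) = 1 := Subtype.ext rfl
      rw [h2] at h1
      exact h1
    rw [← hψ2, Cfsg.Agent.Helper75.indFun_one, hquotT, hψone]
    ring
  refine ⟨e, F.image Subtype.val, hepos, ?_, ?_, hsumeq, hdegs⟩
  · intro χ hχ
    obtain ⟨χ', -, rfl⟩ := Finset.mem_image.mp hχ
    exact χ'.2
  · have h1 := congrFun hsumeq 1
    rw [Cfsg.Agent.Helper75.indFun_one, Pi.smul_apply, Finset.sum_apply,
      Finset.sum_congr rfl hdegs, Finset.sum_const, smul_eq_mul, nsmul_eq_mul] at h1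
    have h2 : (Nat.card G : ℂ) = (e : ℂ) ^ 2 * ((F.image Subtype.val).card : ℂ) * (T.index : ℂ) *
        (Nat.card H : ℂ) := by
      have h3 : (Nat.card G : ℂ) / (Nat.card H : ℂ) =
          (e : ℂ) * (((F.image Subtype.val).card : ℂ) * ((T.index : ℂ) * e)) := by
        apply mul_right_cancel₀ hθ1
        rw [h1]
        ring
      rw [div_eq_iff hH0] at h3
      rw [h3]
      ring
    have h4 : Nat.card G = e ^ 2 * (F.image Subtype.val).card * T.index * Nat.card H := by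
      exact_mod_cast h2
    have h5 := Subgroup.index_mul_card T
    have hidxpos : 0 < T.index := Nat.pos_of_ne_zero Subgroup.index_ne_zero_of_finite
    have h6 : T.index * (e ^ 2 * (F.image Subtype.val).card * Nat.card H) =
        T.index * Nat.card T := by
      rw [h5, h4]
      ring
    exact Nat.eq_of_mul_eq_mul_left hidxpos h6

end Cfsg.Agent.S1490
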