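import Cfsg.Statements.S1491
import Cfsg.Agent.S1490
import Cfsg.Agent.S0867
import Cfsg.Agent.Helper79.Quotient
import Cfsg.Agent.Helper15.LinExt

set_option linter.style.haveILetI false
set_option linter.unusedVariables false
set_option maxHeartbeats 1000000

set_option autoImplicit false
open Cfsg

namespace Cfsg.Agent.S1491

/-- Let H be a normal subgroup of the finite group G and θ an irreducible character of H with inertia group T, where T/H is abelian (commutators of T lie in H) and the index of H in T is coprime to the order of H. Then the function induced from θ is the sum of a set of exactly [T:H] irreducible characters of G, each of degree [G:T] * θ(1). -/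
theorem result {G : Type*} [Group G] [Fintype G] (H T : Subgroup G) [hN : H.Normal] (θ : H → ℂ) (hθ : Cfsg.IsIrrCharacter H θ) (hT : ∀ g : G, g ∈ T ↔ ∀ h : H, θ ⟨g * h * g⁻¹, hN.conj_mem h h.2 g⟩ = θ h) (hab : ∀ x ∈ T, ∀ y ∈ T, x * y * x⁻¹ * y⁻¹ ∈ H) (hcop : Nat.Coprime (Nat.card H) (H.relIndex T)) : ∃ C : Finset (G → ℂ), (∀ χ ∈ C, Cfsg.IsIrrCharacter G χ) ∧ C.card = H.relIndex T ∧ Cfsg.indFun H θ = ∑ χ ∈ C, χ ∧ ∀ χ ∈ C, χ 1 = (T.index : ℂ) * θ 1 := by
  classical
  let _ : Fintype H := Fintype.ofFinite H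
  let _ : Fintype T := Fintype.ofFinite T
  let _ : Fintype (Cfsg.IrrCharacter G) := Fintype.ofFinite _
  have hT' : ∀ g : G, g ∈ T ↔ Cfsg.Agent.Helper75.conjFun H g θ = θ :=
    fun g => (hT g).trans funext_iff.symm
  have hθc := Cfsg.Agent.Helper80.isCharacter_of_irr hθ
  have hHT : H ≤ T := by
    intro h hh
    rw [hT']
    exact (Cfsg.Agent.Helper75.mem_inertia H θ h).mp
      (Cfsg.Agent.Helper75.le_inertia H θ (Cfsg.Agent.Helper75.isCharacter_isClassFunction' hθc) hh)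
  obtain ⟨e, C, hepos, hirr, hcard, hsum, hdeg⟩ := Cfsg.Agent.S1490.result H T θ hθ hT hab
  have hG0 : (Nat.card G : ℂ) ≠ 0 := by exact_mod_cast (Nat.card_pos (α := G)).ne'
  have hH0 : (Nat.card H : ℂ) ≠ 0 := by exact_mod_cast (Nat.card_pos (α := H)).ne'
  have hT0 : (Nat.card T : ℂ) ≠ 0 := by exact_mod_cast (Nat.card_pos (α := T)).ne'
  -- the extension of θ to T
  have hext : ∃ ψ₀ : T → ℂ, Cfsg.IsIrrCharacter T ψ₀ ∧ Cfsg.Agent.Helper75.resTo hHT ψ₀ = θ := by
    haveI hNT : (H.subgroupOf T).Normal := inferInstance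
    let eqv : (H.subgroupOf T) ≃* H := Subgroup.subgroupOfEquivOfLe hHT
    let ϑ : (H.subgroupOf T) → ℂ := fun x => θ (eqv x)
    have hϑ : Cfsg.IsIrrCharacter (H.subgroupOf T) ϑ :=
      (Cfsg.Agent.Helper79.isIrrCharacter_mulEquiv eqv).mpr hθ
    have hϑc := Cfsg.Agent.Helper80.isCharacter_of_irr hϑ
    have hinv : ∀ (g : T) (n : H.subgroupOf T),
        ϑ ⟨g * n * g⁻¹, hNT.conj_mem (n : T) n.2 g⟩ = ϑ n := by
      intro g n
      have h1 := (hT g).mp g.2 (eqv n)
      have h2 : eqv ⟨g * n * g⁻¹, hNT.conj_mem (n : T) n.2 g⟩ =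
          ⟨(g : G) * (eqv n : G) * (g : G)⁻¹, hN.conj_mem (eqv n) (eqv n).2 g⟩ := Subtype.ext rfl
      show θ (eqv _) = θ (eqv n)
      rw [h2]
      exact h1
    obtain ⟨d, hd, hdvd⟩ : ∃ d : ℕ, θ 1 = d ∧ d ∣ Nat.card H := by
      obtain ⟨n, ρ, hρ, rfl⟩ := hθ
      have _i : ρ.IsIrreducible := hρ
      have h1 := Cfsg.Agent.Helper3.finrank_dvd_card ρ
      rw [Module.finrank_fin_fun] at h1
      refine ⟨n, ?_, h1⟩
      rw [Representation.char_one, Module.finrank_fin_fun]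
    have hcardN : Nat.card (H.subgroupOf T) = Nat.card H := Nat.card_congr eqv.toEquiv
    have hdet : Cfsg.detOrder ϑ ∣ Nat.card H := by
      obtain ⟨l, hl⟩ := Cfsg.Agent.Helper15.detChar_exists_hom ϑ hϑc
      have hlfun : Cfsg.detChar ϑ = fun n => (l n : ℂ) := funext hl
      have hol : Cfsg.detOrder ϑ = orderOf l := by
        unfold Cfsg.detOrder
        rw [hlfun, Cfsg.Agent.Helper15.orderOf_homToFun]
      rw [hol, ← hcardN]
      apply orderOf_dvd_of_pow_eq_one
      ext n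
      rw [MonoidHom.pow_apply, ← map_pow, pow_card_eq_one', map_one, MonoidHom.one_apply]
    have hcop' : Nat.Coprime (H.subgroupOf T).index (Cfsg.detOrder ϑ * d) := by
      have hc : Nat.Coprime (H.subgroupOf T).index (Nat.card H) := hcop.symm
      exact Nat.Coprime.mul_right (Nat.Coprime.coprime_dvd_right hdet hc)
        (Nat.Coprime.coprime_dvd_right hdvd hc)
    have hd' : ϑ 1 = d := by
      show θ (eqv 1) = d
      rw [map_one, hd]
    obtain ⟨ψ₀, ⟨hψ₀, hres, -⟩, -⟩ :=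
      Cfsg.Agent.S0867.result (H.subgroupOf T) ϑ hϑ hinv d hd' hcop'
    refine ⟨ψ₀, hψ₀, ?_⟩
    funext n
    have h1 := hres (eqv.symm n)
    have h2 : ((eqv.symm n : H.subgroupOf T) : T) = ⟨(n : G), hHT n.2⟩ := by
      apply Subtype.ext
      have h3 : ((eqv (eqv.symm n) : H) : G) = (((eqv.symm n : H.subgroupOf T) : T) : G) := rfl
      rw [← h3, MulEquiv.apply_symm_apply]
    rw [Cfsg.Agent.Helper75.resTo_apply, ← h2, h1]
    show θ (eqv (eqv.symm n)) = θ n
    rw [MulEquiv.apply_symm_apply]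
  obtain ⟨ψ₀, hψ₀, hres⟩ := hext
  have hψ₀c := Cfsg.Agent.Helper80.isCharacter_of_irr hψ₀
  have hΨ : Cfsg.IsCharacter G (Cfsg.indFun T ψ₀) := Cfsg.Agent.Helper3.isCharacter_indFun T ψ₀ hψ₀c
  have hΨ1 : Cfsg.indFun T ψ₀ 1 ≠ 0 := by
    rw [Cfsg.Agent.Helper75.indFun_one]
    exact mul_ne_zero (div_ne_zero hG0 hT0) (Cfsg.Agent.Helper80.irr_one_ne_zero ⟨ψ₀, hψ₀⟩)
  obtain ⟨χ, hχ, hχne⟩ := Cfsg.Agent.Helper75.exists_irr_constituent hΨ hΨ1
  have hχc := Cfsg.Agent.Helper80.isCharacter_of_irr hχ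
  have hc : Cfsg.classInner (fun t : T => χ t) ψ₀ ≠ 0 := by
    intro h0
    apply hχne
    rw [Cfsg.Agent.Helper3.frobenius_reciprocity T ψ₀ χ
      (Cfsg.Agent.Helper75.isCharacter_isClassFunction' hχc),
      Cfsg.Agent.Helper75.classInner_conj_symm, h0, map_zero]
  have hf : Cfsg.classInner (Cfsg.Agent.Helper75.resTo hHT ψ₀) θ ≠ 0 := by
    rw [hres, Cfsg.Agent.Helper75.classInner_irr_self hθ]
    exact one_ne_zero
  obtain ⟨h3, h4⟩ := Cfsg.Agent.Helper75.clifford_correspondence hHT hθ hT' hψ₀ hχ hf hc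
  rw [hres, Cfsg.Agent.Helper75.classInner_irr_self hθ] at h4
  have h5 : Cfsg.classInner (Cfsg.indFun H θ) χ = 1 := by
    rw [Cfsg.Agent.Helper3.frobenius_reciprocity H θ χ
      (Cfsg.Agent.Helper75.isCharacter_isClassFunction' hχc),
      Cfsg.Agent.Helper75.classInner_conj_symm, h4, map_one]
  have he1 : e = 1 := by
    rw [hsum, Cfsg.Agent.Helper75.classInner_smul_left, Cfsg.Agent.Helper75.classInner_sum_left] at h5
    by_cases hmem : χ ∈ C
    · rw [Finset.sum_eq_single_of_mem χ hmem (fun b hb hne =>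
        Cfsg.Agent.Helper75.classInner_irr_of_ne (hirr b hb) hχ hne),
        Cfsg.Agent.Helper75.classInner_irr_self hχ, mul_one] at h5
      exact_mod_cast h5
    · rw [Finset.sum_eq_zero (fun b hb =>
        Cfsg.Agent.Helper75.classInner_irr_of_ne (hirr b hb) hχ (fun h => hmem (h ▸ hb))),
        mul_zero] at h5
      exact absurd h5 zero_ne_one
  subst he1
  refine ⟨C, hirr, ?_, ?_, ?_⟩
  · have h6 : H.relIndex T * Nat.card H = Nat.card T := by
      have h7 := Subgroup.index_mul_card (H.subgroupOf T)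
      have h8 : Nat.card (H.subgroupOf T) = Nat.card H :=
        Nat.card_congr (Subgroup.subgroupOfEquivOfLe hHT).toEquiv
      rw [h8] at h7
      exact h7
    have h9 : C.card * Nat.card H = H.relIndex T * Nat.card H := by
      rw [h6, ← hcard]; ring
    exact Nat.eq_of_mul_eq_mul_right Nat.card_pos h9
  · rw [hsum]; simp
  · intro χ' hχ'
    rw [hdeg χ' hχ']; simp

end Cfsg.Agent.S1491
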