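import Cfsg.Statements.S1495
import Mathlib
import Cfsg.Agent.Helper75.Galois

set_option autoImplicit false
open Cfsg

namespace Cfsg.Agent.S1495

/-- Let p be a prime, ε = exp(2πi/p), and n an integer such that n = (1 − ε) * ω for some algebraic integer ω. Then p divides n. -/
theorem result (p : ℕ) (hp : p.Prime) (n : ℤ) (ω : ℂ) (hω : IsIntegral ℤ ω) (h : (n : ℂ) = (1 - Complex.exp (2 * Real.pi * Complex.I / p)) * ω) : (p : ℤ) ∣ n := by
  obtain ⟨m, rfl⟩ : ∃ m, p = m + 1 := ⟨p - 1, by have := hp.pos; omega⟩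
  have hε := Complex.isPrimitiveRoot_exp (m + 1) (Nat.succ_ne_zero m)
  set ε : ℂ := Complex.exp (2 * Real.pi * Complex.I / ((m + 1 : ℕ) : ℂ)) with hεdef
  have hprod := hε.prod_one_sub_pow_eq_order
  -- for each k < m, an automorphism with σ ε = ε ^ (k+1)
  have hσ : ∀ k ∈ Finset.range m, ∃ c : ℂ, IsIntegral ℤ c ∧ (n : ℂ) = (1 - ε ^ (k + 1)) * c := by
    intro k hk
    rw [Finset.mem_range] at hk
    have hcop : Nat.Coprime (k + 1) (m + 1) := by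
      rw [Nat.coprime_comm, Nat.Prime.coprime_iff_not_dvd hp]
      intro hd
      have := Nat.le_of_dvd (Nat.succ_pos k) hd
      omega
    obtain ⟨σ, hσ⟩ := Cfsg.Agent.Helper75.exists_ringEquiv_pow (m + 1) (Nat.succ_ne_zero m) (k + 1) hcop
    refine ⟨σ ω, ?_, ?_⟩
    · exact hω.map (σ : ℂ ≃+* ℂ).toRingHom.toIntAlgHom
    · have h1 := congrArg σ h
      rw [map_mul, map_sub, map_one, hσ ε hε.pow_eq_one, map_intCast] at h1
      exact h1
  choose! c hc1 hc2 using hσ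
  have hpow : (n : ℂ) ^ m = ((m + 1 : ℕ) : ℂ) * ∏ k ∈ Finset.range m, c k := by
    have h1 : ((m + 1 : ℕ) : ℂ) = ∏ k ∈ Finset.range m, (1 - ε ^ (k + 1)) := by
      rw [hprod]; push_cast; rfl
    rw [h1, ← Finset.prod_mul_distrib]
    have h2 : (n : ℂ) ^ m = ∏ _k ∈ Finset.range m, (n : ℂ) := by
      rw [Finset.prod_const, Finset.card_range]
    rw [h2]
    apply Finset.prod_congr rfl
    intro k hk
    exact hc2 k hk
  have hΩ : IsIntegral ℤ (∏ k ∈ Finset.range m, c k) := IsIntegral.prod _ hc1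
  have hp0 : ((m + 1 : ℕ) : ℂ) ≠ 0 := by exact_mod_cast Nat.succ_ne_zero m
  have hΩeq : (∏ k ∈ Finset.range m, c k) = algebraMap ℚ ℂ ((n : ℚ) ^ m / ((m + 1 : ℕ) : ℚ)) := by
    have h3 : (∏ k ∈ Finset.range m, c k) = (n : ℂ) ^ m / ((m + 1 : ℕ) : ℂ) := by
      rw [eq_div_iff hp0, mul_comm]; exact hpow.symm
    rw [h3]
    push_cast
    rfl
  rw [hΩeq] at hΩ
  have hΩ' : IsIntegral ℤ ((n : ℚ) ^ m / ((m + 1 : ℕ) : ℚ)) :=
    (isIntegral_algebraMap_iff (algebraMap ℚ ℂ).injective).mp hΩ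
  obtain ⟨y, hy⟩ := IsIntegrallyClosed.isIntegral_iff.mp hΩ'
  have hq0 : ((m + 1 : ℕ) : ℚ) ≠ 0 := by exact_mod_cast Nat.succ_ne_zero m
  have hdvd : ((m + 1 : ℕ) : ℤ) ∣ n ^ m := by
    refine ⟨y, ?_⟩
    have h2 : (n : ℚ) ^ m = ((m + 1 : ℕ) : ℚ) * (y : ℚ) := by
      have : (y : ℚ) = (n : ℚ) ^ m / ((m + 1 : ℕ) : ℚ) := by simpa using hy
      rw [this]; field_simp
    exact_mod_cast h2
  exact Int.Prime.dvd_pow' hp hdvd

end Cfsg.Agent.S1495
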