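import Cfsg.Statements.S1496
import Cfsg.Agent.Helper35.Coprime

set_option autoImplicit false
open Cfsg

namespace Cfsg.Agent.S1496

open scoped Pointwise
open Cfsg.Agent.Helper35

/-- If `g` normalises `H` then `(h g) ^ k ∈ H g ^ k`. -/
theorem pow_mul_inv_mem {G : Type*} [Group G] (H : Subgroup G) (g : G)
    (hg : g ∈ Subgroup.normalizer (H : Set G)) (h : G) (hh : h ∈ H) (k : ℕ) :
    (h * g) ^ k * (g ^ k)⁻¹ ∈ H := by
  induction k with
  | zero => simp
  | succ k ih =>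
    have hgk : g ^ k ∈ Subgroup.normalizer (H : Set G) := Subgroup.pow_mem _ hg k
    have h1 : g ^ k * h * (g ^ k)⁻¹ ∈ H := (Subgroup.mem_normalizer_iff.mp hgk h).mp hh
    have h2 : (h * g) ^ (k + 1) * (g ^ (k + 1))⁻¹ =
        ((h * g) ^ k * (g ^ k)⁻¹) * (g ^ k * h * (g ^ k)⁻¹) := by
      rw [pow_succ, pow_succ]; group
    rw [h2]; exact H.mul_mem ih h1

/-- Let H be a subgroup of the finite group G and g an element normalising H whose order is coprime to the order of H. Then for every h ∈ H there are x ∈ H and c ∈ H commuting with g such that x * (h * g) * x⁻¹ = c * g. -/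
theorem result {G : Type*} [Group G] [Finite G] (H : Subgroup G) (g : G) (hg : g ∈ Subgroup.normalizer (H : Set G)) (hcop : Nat.Coprime (orderOf g) (Nat.card H)) (h : G) (hh : h ∈ H) : ∃ x ∈ H, ∃ c ∈ H, c * g = g * c ∧ x * (h * g) * x⁻¹ = c * g := by
  by_cases hg1 : g = 1
  · subst hg1
    exact ⟨1, H.one_mem, h, hh, by simp, by simp⟩
  have hapos : 1 < orderOf g := by
    have h0 : 0 < orderOf g := orderOf_pos g
    have h1 : orderOf g ≠ 1 := fun h => hg1 (orderOf_eq_one_iff.mp h)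
    omega
  have hzn : Subgroup.zpowers g ≤ Subgroup.normalizer (H : Set G) := Subgroup.zpowers_le.mpr hg
  have hcop' : (Nat.card (Subgroup.zpowers g)).Coprime (Nat.card H) := by
    rw [Nat.card_zpowers]; exact hcop
  have hinf : Subgroup.zpowers g ⊓ H = ⊥ :=
    disjoint_iff.mp (Subgroup.disjoint_of_coprime_natCard hcop')
  have hsolv : Group.IsSolvable (Subgroup.zpowers g) :=
    Group.isSolvable_of_comm (fun a b => by
      obtain ⟨a, ha⟩ := a
      obtain ⟨b, hb⟩ := b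
      obtain ⟨i, rfl⟩ := Subgroup.mem_zpowers_iff.mp ha
      obtain ⟨j, rfl⟩ := Subgroup.mem_zpowers_iff.mp hb
      exact Subtype.ext (zpow_mul_comm g i j))
  obtain ⟨t, -, ht⟩ := Nat.exists_mul_mod_eq_one_of_coprime hcop.symm hapos
  have hNt : Nat.card H * t = orderOf g * (Nat.card H * t / orderOf g) + 1 := by
    have := Nat.div_add_mod (Nat.card H * t) (orderOf g)
    rw [ht] at this
    exact this.symm
  -- `y = h g`, `u = (y ^ a) ^ q ∈ H`, `a₀ = y ^ (N t) = u y`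
  have hya : (h * g) ^ orderOf g ∈ H := by
    have := pow_mul_inv_mem H g hg h hh (orderOf g)
    rwa [pow_orderOf_eq_one, inv_one, mul_one] at this
  have hu : ((h * g) ^ orderOf g) ^ (Nat.card H * t / orderOf g) ∈ H := H.pow_mem hya _
  have ha₀ : (h * g) ^ (Nat.card H * t) =
      ((h * g) ^ orderOf g) ^ (Nat.card H * t / orderOf g) * (h * g) := by
    conv_lhs => rw [hNt]
    rw [pow_succ, pow_mul]
  have hgNt : g ^ (Nat.card H * t) = g := by
    rw [hNt, pow_succ, pow_mul, pow_orderOf_eq_one, one_pow, one_mul]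
  -- `a₀ = h' g` with `h' ∈ H`
  have hh' : (h * g) ^ (Nat.card H * t) * g⁻¹ ∈ H := by
    have := pow_mul_inv_mem H g hg h hh (Nat.card H * t)
    rwa [hgNt] at this
  have ha₀eq : (h * g) ^ (Nat.card H * t) = ((h * g) ^ (Nat.card H * t) * g⁻¹) * g := by group
  -- the order of `a₀`
  have hpow : ((h * g) ^ (Nat.card H * t)) ^ orderOf g = 1 := by
    rw [← pow_mul, mul_comm (Nat.card H) t, mul_assoc, mul_comm (Nat.card H), mul_comm t, pow_mul,
      pow_mul]
    have h1 : ((h * g) ^ orderOf g) ^ Nat.card H = 1 := by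
      have := Subgroup.orderOf_dvd_natCard H hya
      exact orderOf_dvd_iff_pow_eq_one.mp this
    rw [h1, one_pow]
  have hord : orderOf ((h * g) ^ (Nat.card H * t)) = orderOf g := by
    apply Nat.dvd_antisymm (orderOf_dvd_of_pow_eq_one hpow)
    have h1 := pow_mul_inv_mem H g hg _ hh' (orderOf ((h * g) ^ (Nat.card H * t)))
    rw [← ha₀eq, pow_orderOf_eq_one, one_mul] at h1
    have h2 : g ^ orderOf ((h * g) ^ (Nat.card H * t)) ∈ Subgroup.zpowers g ⊓ H :=
      ⟨Subgroup.pow_mem _ (Subgroup.mem_zpowers g) _, by simpa using H.inv_mem h1⟩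
    rw [hinf, Subgroup.mem_bot] at h2
    exact orderOf_dvd_of_pow_eq_one h2
  have hB : Subgroup.zpowers ((h * g) ^ (Nat.card H * t)) ≤ H ⊔ Subgroup.zpowers g := by
    rw [Subgroup.zpowers_le, ha₀eq]
    exact Subgroup.mul_mem _ (Subgroup.mem_sup_left hh') (Subgroup.mem_sup_right (Subgroup.mem_zpowers g))
  obtain ⟨n, hn, hconj⟩ := isz hzn hcop' (Or.inl hsolv) hB (by rw [Nat.card_zpowers, Nat.card_zpowers, hord])
  have h3 : n⁻¹ * (h * g) ^ (Nat.card H * t) * n ∈ Subgroup.zpowers g := by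
    rw [← mem_conj_smul, hconj]; exact Subgroup.mem_zpowers _
  have h4 : n⁻¹ * (h * g) ^ (Nat.card H * t) * n = g := by
    have hgn : g * n * g⁻¹ ∈ H := (Subgroup.mem_normalizer_iff.mp hg n).mp hn
    have h5 : n⁻¹ * (h * g) ^ (Nat.card H * t) * n * g⁻¹ ∈ Subgroup.zpowers g ⊓ H := by
      refine ⟨Subgroup.mul_mem _ h3 (Subgroup.inv_mem _ (Subgroup.mem_zpowers g)), ?_⟩
      have h6 : n⁻¹ * (h * g) ^ (Nat.card H * t) * n * g⁻¹ =
          n⁻¹ * ((h * g) ^ (Nat.card H * t) * g⁻¹) * (g * n * g⁻¹) := by group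
      rw [h6]
      exact H.mul_mem (H.mul_mem (H.inv_mem hn) hh') hgn
    rw [hinf, Subgroup.mem_bot] at h5
    calc n⁻¹ * (h * g) ^ (Nat.card H * t) * n = (n⁻¹ * (h * g) ^ (Nat.card H * t) * n * g⁻¹) * g := by group
      _ = g := by rw [h5, one_mul]
  -- `y = u⁻¹ a₀`, and `u` commutes with `a₀`
  have hcomm : ((h * g) ^ orderOf g) ^ (Nat.card H * t / orderOf g) * (h * g) ^ (Nat.card H * t) =
      (h * g) ^ (Nat.card H * t) * ((h * g) ^ orderOf g) ^ (Nat.card H * t / orderOf g) := by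
    rw [← pow_mul, ← pow_add, ← pow_add, add_comm]
  generalize ((h * g) ^ orderOf g) ^ (Nat.card H * t / orderOf g) = u at hu ha₀ hcomm
  generalize (h * g) ^ (Nat.card H * t) = a₀ at ha₀ hcomm h4
  have hy : h * g = u⁻¹ * a₀ := by rw [ha₀]; group
  have hcomm' : u⁻¹ * a₀ = a₀ * u⁻¹ := by
    have := congrArg (fun z => u⁻¹ * z * u⁻¹) hcomm
    simp only [mul_assoc, inv_mul_cancel_left, mul_inv_cancel, mul_one] at this
    exact this.symm
  refine ⟨n⁻¹, H.inv_mem hn, n⁻¹ * u⁻¹ * n,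
    H.mul_mem (H.mul_mem (H.inv_mem hn) (H.inv_mem hu)) hn, ?_, ?_⟩
  · calc n⁻¹ * u⁻¹ * n * g = n⁻¹ * u⁻¹ * n * (n⁻¹ * a₀ * n) := by rw [h4]
      _ = n⁻¹ * (u⁻¹ * a₀) * n := by group
      _ = n⁻¹ * (a₀ * u⁻¹) * n := by rw [hcomm']
      _ = (n⁻¹ * a₀ * n) * (n⁻¹ * u⁻¹ * n) := by group
      _ = g * (n⁻¹ * u⁻¹ * n) := by rw [h4]
  · calc n⁻¹ * (h * g) * n⁻¹⁻¹ = n⁻¹ * (u⁻¹ * a₀) * n⁻¹⁻¹ := by rw [hy]
      _ = (n⁻¹ * u⁻¹ * n) * (n⁻¹ * a₀ * n) := by group
      _ = (n⁻¹ * u⁻¹ * n) * g := by rw [h4]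

end Cfsg.Agent.S1496
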