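import Cfsg.Statements.S1497
import Mathlib.Tactic.Group

set_option autoImplicit false
open Cfsg

namespace Cfsg.Agent.S1497

/-- Let A be a nonempty subset of the finite group G not containing 1 and L a subgroup. Then A is a TI-subset whose normaliser is L if and only if the Dade hypothesis holds for A, L and the constant choice H(a) = ⊥. -/
theorem result {G : Type*} [Group G] [Finite G] (A : Set G) (hA : A.Nonempty) (h1 : (1 : G) ∉ A) (L : Subgroup G) : (Cfsg.IsTISubset A ∧ Subgroup.normalizer A = L) ↔ Cfsg.DadeHypothesis A L (fun _ => ⊥) := by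
  constructor
  · rintro ⟨hTI, hN⟩
    have key : ∀ g : G, ∀ x ∈ A, g * x * g⁻¹ ∈ A → g ∈ L := by
      intro g x hx hgx
      by_contra hg
      rw [← hN] at hg
      exact h1 (hTI g hg x hx hgx ▸ hx)
    refine ⟨h1, ?_, ?_, ?_, ?_, ?_, ?_, ?_, ?_⟩
    · intro a ha
      exact key a a ha (by simpa using ha)
    · intro x hx a ha
      rw [← hN] at hx
      exact (Subgroup.mem_set_normalizer_iff.mp hx a).mp ha
    · intro a ha g hg
      exact ⟨g, key g a ha hg, rfl⟩
    · intro a _
      exact bot_le
    · intro a _ c _ u hu
      rw [Subgroup.mem_bot] at hu ⊢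
      subst hu
      simp
    · intro a _
      simp
    · intro a ha
      rw [bot_sup_eq]
      apply le_antisymm inf_le_right
      intro c hc
      refine ⟨?_, hc⟩
      apply key c a ha
      have := Subgroup.mem_centralizer_iff.mp hc a rfl
      have h2 : c * a * c⁻¹ = a := by rw [← this]; simp
      rw [h2]; exact ha
    · intro a _ b _
      simp
  · intro hD
    have hCL : ∀ a ∈ A, Subgroup.centralizer ({a} : Set G) ≤ L := by
      intro a ha
      have := hD.sup_eq a ha
      rw [bot_sup_eq] at this
      intro c hc
      rw [← this] at hc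
      exact hc.1
    have hNL : Subgroup.normalizer A = L := by
      apply le_antisymm
      · intro g hg
        obtain ⟨a, ha⟩ := hA
        have hga : g * a * g⁻¹ ∈ A := (Subgroup.mem_set_normalizer_iff.mp hg a).mp ha
        obtain ⟨x, hx, hxa⟩ := hD.fusion a ha g hga
        have hc : x⁻¹ * g ∈ Subgroup.centralizer ({a} : Set G) := by
          rw [Subgroup.mem_centralizer_iff]
          intro h hh
          rw [Set.mem_singleton_iff] at hh
          subst hh
          have : h = x⁻¹ * (g * h * g⁻¹) * x := by rw [← hxa]; group
          calc h * (x⁻¹ * g) = x⁻¹ * (g * h * g⁻¹) * x * (x⁻¹ * g) := by rw [← this]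
            _ = x⁻¹ * g * h := by group
        have := L.mul_mem hx (hCL a ha hc)
        simpa using this
      · intro x hx
        rw [Subgroup.mem_set_normalizer_iff]
        intro n
        constructor
        · intro hn
          exact hD.conj_mem x hx n hn
        · intro hn
          have := hD.conj_mem x⁻¹ (L.inv_mem hx) _ hn
          simpa [mul_assoc] using this
    refine ⟨?_, hNL⟩
    intro g hg x hx hgx
    exfalso
    apply hg
    rw [hNL]
    obtain ⟨y, hy, hyx⟩ := hD.fusion x hx g hgx
    have hc : y⁻¹ * g ∈ Subgroup.centralizer ({x} : Set G) := by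
      rw [Subgroup.mem_centralizer_iff]
      intro h hh
      rw [Set.mem_singleton_iff] at hh
      subst hh
      have : h = y⁻¹ * (g * h * g⁻¹) * y := by rw [← hyx]; group
      calc h * (y⁻¹ * g) = y⁻¹ * (g * h * g⁻¹) * y * (y⁻¹ * g) := by rw [← this]
        _ = y⁻¹ * g * h := by group
    have := L.mul_mem hy (hCL x hx hc)
    simpa using this

end Cfsg.Agent.S1497
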