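import Cfsg.Statements.S1499
import Cfsg.Agent.Helper25.Dade

set_option autoImplicit false
open Cfsg

namespace Cfsg.Agent.S1499

/-- Under the Dade hypothesis for (A, L, H), let a, b ∈ A. If an element of the coset a·H(a) is conjugate in G to an element of b·H(b), then a and b are conjugate by an element of L. Moreover the set normaliser of the coset a·H(a) is the centraliser of a. -/
theorem result {G : Type*} [Group G] [Finite G] (A : Set G) (L : Subgroup G) (H : G → Subgroup G) (hD : Cfsg.DadeHypothesis A L H) (a b : G) (ha : a ∈ A) (hb : b ∈ A) : ((∃ u ∈ H a, ∃ v ∈ H b, ∃ g : G, g * (a * u) * g⁻¹ = b * v) → ∃ x ∈ L, x * a * x⁻¹ = b) ∧ Subgroup.normalizer ((fun u : G => a * u) '' (H a : Set G)) = Subgroup.centralizer ({a} : Set G) := by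
  constructor
  · rintro ⟨u, hu, v, hv, g, hg⟩
    have h := (Cfsg.Agent.Helper25.dade_conj_eq hD ha hb hu hv hg).1
    obtain ⟨x, hx, hxa⟩ := hD.fusion a ha g (h ▸ hb)
    exact ⟨x, hx, hxa.trans h⟩
  · ext g
    rw [Subgroup.mem_set_normalizer_iff, Subgroup.mem_centralizer_iff]
    constructor
    · intro hg y hy
      rw [Set.mem_singleton_iff] at hy
      subst hy
      have h1 : y * 1 ∈ (fun u : G => y * u) '' (H y : Set G) := ⟨1, (H y).one_mem, rfl⟩
      obtain ⟨u', hu', e⟩ := (hg (y * 1)).mp h1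
      have e' : g * (y * 1) * g⁻¹ = y * u' := e.symm
      have h2 := (Cfsg.Agent.Helper25.dade_conj_eq hD ha ha (H y).one_mem hu' e').1
      calc y * g = g * y * g⁻¹ * g := by rw [h2]
        _ = g * y := by group
    · intro hg n
      have hgc : g ∈ Subgroup.centralizer ({a} : Set G) := Subgroup.mem_centralizer_iff.mpr hg
      have hga : g * a * g⁻¹ = a := by
        have := hg a rfl
        calc g * a * g⁻¹ = a * g * g⁻¹ := by rw [this]
          _ = a := by group
      have hga' : g⁻¹ * a * g = a := by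
        have := hg a rfl
        calc g⁻¹ * a * g = g⁻¹ * (a * g) := by group
          _ = g⁻¹ * (g * a) := by rw [this]
          _ = a := by group
      constructor
      · rintro ⟨u, hu, rfl⟩
        refine ⟨g * u * g⁻¹, hD.conj_mem_H a ha g hgc u hu, ?_⟩
        show a * (g * u * g⁻¹) = g * (a * u) * g⁻¹
        calc a * (g * u * g⁻¹) = (g * a * g⁻¹) * (g * u * g⁻¹) := by rw [hga]
          _ = g * (a * u) * g⁻¹ := by group
      · rintro ⟨u, hu, e⟩
        have e' : a * u = g * n * g⁻¹ := e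
        refine ⟨g⁻¹ * u * g⁻¹⁻¹, hD.conj_mem_H a ha g⁻¹ (Subgroup.inv_mem _ hgc) u hu, ?_⟩
        show a * (g⁻¹ * u * g⁻¹⁻¹) = n
        calc a * (g⁻¹ * u * g⁻¹⁻¹) = (g⁻¹ * a * g) * (g⁻¹ * u * g⁻¹⁻¹) := by rw [hga']
          _ = g⁻¹ * (a * u) * g := by group
          _ = g⁻¹ * (g * n * g⁻¹) * g := by rw [e']
          _ = n := by group

end Cfsg.Agent.S1499
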