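import Cfsg.Statements.S1503
import Cfsg.Agent.Helper25.CyclicTI3
import Cfsg.Agent.Helper80.CharOrtho
import Cfsg.Agent.Helper75.InnerLin

set_option autoImplicit false
set_option linter.style.haveILetI false
set_option linter.unusedVariables false
set_option maxHeartbeats 1000000
open Cfsg
open Cfsg.Agent.Helper25

namespace Cfsg.Agent.S1503

/-- Let W₁, W₂ ≤ G with W = W₁ ⊔ W₂ and let χ an orthonormal family of irreducible characters of G up to sign, indexed by the linear characters ω of W, with χ_1 = 1, χ_ω = ω on W outside W₁ ∪ W₂, and the induction identity for (1 − φ)(1 − ψ). If θ is an irreducible character of G orthogonal to χ ω for every linear character ω of W, then θ vanishes at every element of W lying outside W₁ ∪ W₂. -/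
theorem result {G : Type*} [Group G] [Fintype G] (W₁ W₂ : Subgroup G) (hW : Cfsg.IsSelfNormalizingCyclic W₁ W₂) (χ : (↥(W₁ ⊔ W₂) →* ℂˣ) → (G → ℂ)) (hχ : Cfsg.IsCyclicTIFamily W₁ W₂ χ) (θ : G → ℂ) (hθ : Cfsg.IsIrrCharacter G θ) (horth : ∀ ω, Cfsg.classInner θ (χ ω) = 0) (w : ↥(W₁ ⊔ W₂)) (hw₁ : (w : G) ∉ W₁) (hw₂ : (w : G) ∉ W₂) : θ w = 0 := by
  classical
  obtain ⟨hW₁, hW₂, hdisj, hcomm, hcyc, hnorm⟩ := hW
  haveI : Fintype (IrrCharacter G) := Fintype.ofFinite _
  haveI : Fintype (↥(W₁ ⊔ W₂) →* ℂˣ) := Fintype.ofFinite _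
  obtain ⟨g, hg⟩ : ∃ g : G, g = (w : G) := ⟨_, rfl⟩
  rw [← hg]
  have hV : ({g} : Set G) ⊆ (↑(W₁ ⊔ W₂) : Set G) \ (↑W₁ ∪ ↑W₂) := by
    intro x hx
    rw [Set.mem_singleton_iff] at hx
    subst hx
    rw [hg]
    exact ⟨w.2, fun h => h.elim hw₁ hw₂⟩
  have hN := hnorm {g} hV (Set.singleton_nonempty g)
  have hC : Subgroup.centralizer ({g} : Set G) = W₁ ⊔ W₂ := by
    rw [← hN]
    ext x
    rw [Subgroup.mem_centralizer_iff, Subgroup.mem_set_normalizer_iff]
    constructor
    · intro h n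
      have hx : x * g * x⁻¹ = g := by
        have := h g rfl
        calc x * g * x⁻¹ = g * x * x⁻¹ := by rw [this]
          _ = g := by group
      have hx' : x⁻¹ * g * x = g := by
        have := h g rfl
        calc x⁻¹ * g * x = x⁻¹ * (g * x) := by group
          _ = x⁻¹ * (x * g) := by rw [this]
          _ = g := by group
      simp only [Set.mem_singleton_iff]
      constructor
      · rintro rfl; exact hx
      · intro h2
        calc n = x⁻¹ * (x * n * x⁻¹) * x := by group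
          _ = x⁻¹ * g * x := by rw [h2]
          _ = g := hx'
    · intro h y hy
      rw [Set.mem_singleton_iff] at hy
      subst hy
      have := (h y).mp rfl
      rw [Set.mem_singleton_iff] at this
      calc y * x = x * y * x⁻¹ * x := by rw [this]
        _ = x * y := by group
  have hcol := Cfsg.Agent.Helper80.irr_column_orthogonality_of_isConj (IsConj.refl g)
  rw [hC] at hcol
  have hcolR : ∑ ξ : IrrCharacter G, ‖(ξ : G → ℂ) g‖ ^ 2 = (Nat.card ↥(W₁ ⊔ W₂) : ℝ) := by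
    apply Complex.ofReal_injective
    push_cast
    rw [← hcol]
    refine Finset.sum_congr rfl fun ξ _ => ?_
    rw [Complex.mul_conj']
  -- the irreducible characters ± χ ω
  have hex : ∀ ω : ↥(W₁ ⊔ W₂) →* ℂˣ, ∃ ξ : IrrCharacter G,
      (ξ : G → ℂ) = χ ω ∨ (ξ : G → ℂ) = -χ ω := by
    intro ω
    rcases hχ.irr_or_neg ω with h | h
    · exact ⟨⟨χ ω, h⟩, Or.inl rfl⟩
    · exact ⟨⟨-χ ω, h⟩, Or.inr rfl⟩
  choose ξ hξ using hex
  have hWcomm : ∀ x y : ↥(W₁ ⊔ W₂), x * y = y * x := by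
    intro x y
    obtain ⟨g, hg⟩ := hcyc.exists_generator
    obtain ⟨i, rfl⟩ := Subgroup.mem_zpowers_iff.mp (hg x)
    obtain ⟨j, rfl⟩ := Subgroup.mem_zpowers_iff.mp (hg y)
    exact (Commute.refl g).zpow_zpow i j
  have hcardW : Fintype.card (↥(W₁ ⊔ W₂) →* ℂˣ) = Nat.card ↥(W₁ ⊔ W₂) := by
    rw [← Nat.card_eq_fintype_card]
    exact card_monoidHom_of_commute hWcomm
  have hinner : ∀ ω ω', Cfsg.classInner ((ξ ω : G → ℂ)) (χ ω') ≠ 0 → ω = ω' := by
    intro ω ω' h
    by_contra hne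
    apply h
    have h0 := hχ.orthonormal ω ω'
    rw [if_neg hne] at h0
    rcases hξ ω with e | e
    · rw [e, h0]
    · rw [e, Cfsg.Agent.Helper75.classInner_neg_left, h0, neg_zero]
  have hself : ∀ ω, Cfsg.classInner ((ξ ω : G → ℂ)) (χ ω) ≠ 0 := by
    intro ω
    have h0 := hχ.orthonormal ω ω
    rw [if_pos rfl] at h0
    rcases hξ ω with e | e
    · rw [e, h0]; exact one_ne_zero
    · rw [e, Cfsg.Agent.Helper75.classInner_neg_left, h0]; norm_num
  have hinj : Function.Injective ξ := by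
    intro ω ω' h
    apply hinner ω ω'
    rw [h]
    exact hself ω'
  have hθnot : (⟨θ, hθ⟩ : IrrCharacter G) ∉ Finset.univ.image ξ := by
    intro hmem
    rw [Finset.mem_image] at hmem
    obtain ⟨ω, -, e⟩ := hmem
    apply hself ω
    rw [e]
    exact horth ω
  have hval : ∀ ω, ‖(ξ ω : G → ℂ) g‖ ^ 2 = 1 := by
    intro ω
    have h1 : χ ω g = (ω w : ℂ) := by rw [hg]; exact hχ.eq_on ω w hw₁ hw₂
    have h2 : ‖(ω w : ℂ)‖ = 1 := by
      have hpow : (ω w : ℂ) ^ orderOf w = 1 := by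
        rw [← Units.val_pow_eq_pow_val, ← map_pow, pow_orderOf_eq_one, map_one, Units.val_one]
      exact Complex.norm_eq_one_of_pow_eq_one hpow (orderOf_pos w).ne'
    rcases hξ ω with e | e
    · rw [e, h1, h2]; norm_num
    · rw [e, Pi.neg_apply, norm_neg, h1, h2]; norm_num
  have hsub : insert (⟨θ, hθ⟩ : IrrCharacter G) (Finset.univ.image ξ) ⊆ Finset.univ :=
    Finset.subset_univ _
  have hle := Finset.sum_le_sum_of_subset_of_nonneg (f := fun ξ : IrrCharacter G =>
    ‖(ξ : G → ℂ) g‖ ^ 2) hsub (fun ξ _ _ => by positivity)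
  rw [Finset.sum_insert hθnot, Finset.sum_image (fun a _ b _ h => hinj h), hcolR,
    Finset.sum_congr rfl (fun ω _ => hval ω), Finset.sum_const, Finset.card_univ, hcardW] at hle
  simp only [nsmul_eq_mul, mul_one] at hle
  have h0 : ‖θ g‖ ^ 2 ≤ 0 := by linarith
  have h1 : ‖θ g‖ = 0 := by
    have := sq_nonneg ‖θ g‖
    have h2 : ‖θ g‖ ^ 2 = 0 := le_antisymm h0 this
    exact pow_eq_zero_iff (two_ne_zero) |>.mp h2
  exact norm_eq_zero.mp h1

end Cfsg.Agent.S1503
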