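import Cfsg.Statements.S1504
import Cfsg.Agent.Helper25.CyclicTI

set_option autoImplicit false
set_option linter.style.haveILetI false
set_option linter.unusedVariables false
set_option maxHeartbeats 1000000
open Cfsg
open Cfsg.Agent.Helper25

namespace Cfsg.Agent.S1504

/-- Let W₁, W₂ be subgroups of a finite group with W₁ ⊓ W₂ = ⊥ whose elements commute, and W = W₁ ⊔ W₂. For linear characters φ, ψ of W with φ trivial on W₂ and ψ trivial on W₁, the function (1 − φ)(1 − ψ) vanishes on W₁ ∪ W₂; and the family of these functions, indexed by pairs (φ, ψ) with φ ≠ 1 ≠ ψ, is linearly independent over ℂ. -/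
theorem result {G : Type*} [Group G] [Finite G] (W₁ W₂ : Subgroup G) (hdisj : W₁ ⊓ W₂ = ⊥) (hcomm : ∀ a ∈ W₁, ∀ b ∈ W₂, a * b = b * a) : (∀ φ ψ : ↥(W₁ ⊔ W₂) →* ℂˣ, (∀ w : ↥(W₁ ⊔ W₂), (w : G) ∈ W₂ → φ w = 1) → (∀ w : ↥(W₁ ⊔ W₂), (w : G) ∈ W₁ → ψ w = 1) → ∀ w : ↥(W₁ ⊔ W₂), ((w : G) ∈ W₁ ∨ (w : G) ∈ W₂) → (1 - (φ w : ℂ) - (ψ w : ℂ) + (φ w : ℂ) * (ψ w : ℂ)) = 0) ∧ LinearIndependent ℂ (fun p : {p : (↥(W₁ ⊔ W₂) →* ℂˣ) × (↥(W₁ ⊔ W₂) →* ℂˣ) // p.1 ≠ 1 ∧ p.2 ≠ 1 ∧ (∀ w : ↥(W₁ ⊔ W₂), (w : G) ∈ W₂ → p.1 w = 1) ∧ (∀ w : ↥(W₁ ⊔ W₂), (w : G) ∈ W₁ → p.2 w = 1)} => fun w : ↥(W₁ ⊔ W₂) => 1 - (p.1.1 w : ℂ) - (p.1.2 w : ℂ) + (p.1.1 w : ℂ) * (p.1.2 w : ℂ)) := by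
  classical
  constructor
  · intro φ ψ hφ hψ w hw
    rcases hw with hw | hw
    · rw [hψ w hw]; simp
    · rw [hφ w hw]; simp
  · rw [linearIndependent_iff']
    intro s c hsum q hq
    obtain ⟨e, he_def⟩ : ∃ e : (↥(W₁ ⊔ W₂) →* ℂˣ) → (↥(W₁ ⊔ W₂) →* ℂ),
        e = fun φ => (Units.coeHom ℂ).comp φ := ⟨_, rfl⟩
    have he_apply : ∀ (φ : ↥(W₁ ⊔ W₂) →* ℂˣ) (w : ↥(W₁ ⊔ W₂)), e φ w = (φ w : ℂ) := by
      intro φ w; rw [he_def]; rfl
    have he : Function.Injective e := by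
      intro φ φ' h
      ext w
      have := DFunLike.congr_fun h w
      rw [he_apply, he_apply] at this
      exact this
    have hli := linearIndependent_monoidHom ↥(W₁ ⊔ W₂) ℂ
    rw [linearIndependent_iff] at hli
    obtain ⟨l, hl_def⟩ : ∃ l : (↥(W₁ ⊔ W₂) →* ℂ) →₀ ℂ, l = ∑ p ∈ s,
        c p • (Finsupp.single (e 1) (1 : ℂ) - Finsupp.single (e p.1.1) 1
          - Finsupp.single (e p.1.2) 1 + Finsupp.single (e (p.1.1 * p.1.2)) 1) := ⟨_, rfl⟩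
    have hl : Finsupp.linearCombination ℂ
        (fun f : ↥(W₁ ⊔ W₂) →* ℂ => (f : ↥(W₁ ⊔ W₂) → ℂ)) l = 0 := by
      rw [hl_def]
      simp only [map_sum, map_smul, map_add, map_sub, Finsupp.linearCombination_single, one_smul]
      rw [← hsum]
      refine Finset.sum_congr rfl fun p _ => ?_
      congr 1
      ext w
      simp only [Pi.add_apply, Pi.sub_apply, he_apply, MonoidHom.mul_apply, Units.val_mul,
        map_one, Units.val_one, MonoidHom.one_apply, Pi.mul_apply, Pi.one_apply]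
    have hl0 := hli l hl
    have h0 := DFunLike.congr_fun hl0 (e (q.1.1 * q.1.2))
    rw [Finsupp.zero_apply, hl_def, Finsupp.finsetSum_apply] at h0
    have hq1 := q.2.1
    have hq2 := q.2.2.1
    have hq3 := q.2.2.2.1
    have hq4 := q.2.2.2.2
    have hone2 : ∀ w : ↥(W₁ ⊔ W₂), (w : G) ∈ W₂ → (1 : ↥(W₁ ⊔ W₂) →* ℂˣ) w = 1 :=
      fun _ _ => rfl
    have hone1 : ∀ w : ↥(W₁ ⊔ W₂), (w : G) ∈ W₁ → (1 : ↥(W₁ ⊔ W₂) →* ℂˣ) w = 1 :=
      fun _ _ => rfl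
    have key : ∀ p ∈ s, (c p • ((Finsupp.single (e 1) (1 : ℂ) - Finsupp.single (e p.1.1) 1
          - Finsupp.single (e p.1.2) 1 + Finsupp.single (e (p.1.1 * p.1.2)) 1 :
            (↥(W₁ ⊔ W₂) →* ℂ) →₀ ℂ)))
          (e (q.1.1 * q.1.2)) = if p = q then c q else 0 := by
      intro p hp
      have n1 : e 1 ≠ e (q.1.1 * q.1.2) := by
        intro h
        have h'' : (1 : ↥(W₁ ⊔ W₂) →* ℂˣ) = q.1.1 * q.1.2 := he h
        have h' : (1 : ↥(W₁ ⊔ W₂) →* ℂˣ) * 1 = q.1.1 * q.1.2 := by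
          rw [← h'']; ext w; simp
        exact hq1 (hom_eq_of_mul_eq hcomm hone2 hone1 hq3 hq4 h').1.symm
      have n2 : e p.1.1 ≠ e (q.1.1 * q.1.2) := by
        intro h
        have h'' : p.1.1 = q.1.1 * q.1.2 := he h
        have h' : p.1.1 * 1 = q.1.1 * q.1.2 := by
          rw [← h'']; ext w; simp
        exact hq2 (hom_eq_of_mul_eq hcomm p.2.2.2.1 hone1 hq3 hq4 h').2.symm
      have n3 : e p.1.2 ≠ e (q.1.1 * q.1.2) := by
        intro h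
        have h'' : p.1.2 = q.1.1 * q.1.2 := he h
        have h' : 1 * p.1.2 = q.1.1 * q.1.2 := by
          rw [← h'']; ext w; simp
        exact hq1 (hom_eq_of_mul_eq hcomm hone2 p.2.2.2.2 hq3 hq4 h').1.symm
      have n4 : e (p.1.1 * p.1.2) = e (q.1.1 * q.1.2) ↔ p = q := by
        constructor
        · intro h
          have := hom_eq_of_mul_eq hcomm p.2.2.2.1 p.2.2.2.2 hq3 hq4 (he h)
          exact Subtype.ext (Prod.ext this.1 this.2)
        · rintro rfl; rfl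
      simp only [Finsupp.smul_apply, Finsupp.add_apply, Finsupp.sub_apply, Finsupp.single_apply,
        if_neg n1, if_neg n2, if_neg n3, n4, smul_eq_mul]
      split_ifs with h
      · subst h; ring
      · ring
    rw [Finset.sum_congr rfl key] at h0
    simpa [hq] using h0

end Cfsg.Agent.S1504
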