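import Cfsg.Statements.S1505
import Cfsg.Agent.Helper25.CyclicTI4

set_option autoImplicit false
set_option linter.style.haveILetI false
set_option linter.unusedVariables false
set_option maxHeartbeats 1000000
open Cfsg
open Cfsg.Agent.Helper25

namespace Cfsg.Agent.S1505

open Classical in
/-- Let W₁, W₂ ≤ G form a self-normalising cyclic subgroup W = W₁ ⊔ W₂. For nontrivial linear characters φ, φ' of W trivial on W₂ and ψ, ψ' trivial on W₁, put α = (1 − φ)(1 − ψ) and α' = (1 − φ')(1 − ψ'). Then the function induced from α to G has inner product 1 with the principal character, and the inner product of the functions induced from α and α' is 1 + a + b + ab where a = 1 if φ = φ' (else 0) and b = 1 if ψ = ψ' (else 0). -/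
theorem result {G : Type*} [Group G] [Fintype G] (W₁ W₂ : Subgroup G) (hW : Cfsg.IsSelfNormalizingCyclic W₁ W₂) (φ φ' ψ ψ' : ↥(W₁ ⊔ W₂) →* ℂˣ) (hφ : φ ≠ 1) (hφ' : φ' ≠ 1) (hψ : ψ ≠ 1) (hψ' : ψ' ≠ 1) (hφ₂ : ∀ w : ↥(W₁ ⊔ W₂), (w : G) ∈ W₂ → φ w = 1 ∧ φ' w = 1) (hψ₁ : ∀ w : ↥(W₁ ⊔ W₂), (w : G) ∈ W₁ → ψ w = 1 ∧ ψ' w = 1) : Cfsg.classInner (Cfsg.indFun (W₁ ⊔ W₂) (fun w => 1 - (φ w : ℂ) - (ψ w : ℂ) + (φ w : ℂ) * (ψ w : ℂ))) (fun _ => 1) = 1 ∧ Cfsg.classInner (Cfsg.indFun (W₁ ⊔ W₂) (fun w => 1 - (φ w : ℂ) - (ψ w : ℂ) + (φ w : ℂ) * (ψ w : ℂ))) (Cfsg.indFun (W₁ ⊔ W₂) (fun w => 1 - (φ' w : ℂ) - (ψ' w : ℂ) + (φ' w : ℂ) * (ψ' w : ℂ))) = 1 + (if φ = φ' then 1 else 0) + (if ψ = ψ' then 1 else 0) + (if φ = φ' then 1 else 0) * (if ψ = ψ' then 1 else 0) := by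
  classical
  have hW' := hW
  obtain ⟨hW₁, hW₂, hdisj, hcomm, hcyc, hnorm⟩ := hW
  haveI : Fintype ↥(W₁ ⊔ W₂) := Fintype.ofFinite _
  have hWcomm : ∀ x y : ↥(W₁ ⊔ W₂), x * y = y * x := by
    intro x y
    obtain ⟨g, hg⟩ := hcyc.exists_generator
    obtain ⟨i, rfl⟩ := Subgroup.mem_zpowers_iff.mp (hg x)
    obtain ⟨j, rfl⟩ := Subgroup.mem_zpowers_iff.mp (hg y)
    exact (Commute.refl g).zpow_zpow i j
  obtain ⟨e, he⟩ : ∃ e : (↥(W₁ ⊔ W₂) →* ℂˣ) → (↥(W₁ ⊔ W₂) → ℂ), e = fun ω w => (ω w : ℂ) :=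
    ⟨_, rfl⟩
  have hα : ∀ φ ψ : ↥(W₁ ⊔ W₂) →* ℂˣ, (fun w : ↥(W₁ ⊔ W₂) =>
      1 - (φ w : ℂ) - (ψ w : ℂ) + (φ w : ℂ) * (ψ w : ℂ)) = e 1 - e φ - e ψ + e (φ * ψ) := by
    intro φ ψ; funext w; simp [he]
  have horth : ∀ ω ω', classInner (e ω) (e ω') = if ω = ω' then 1 else 0 := by
    intro ω ω'
    rw [he]
    have := classInner_monoidHom ω ω'
    convert this
  have hone : (fun _ : ↥(W₁ ⊔ W₂) => (1 : ℂ)) = e 1 := by funext w; simp [he]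
  have hφ2 : ∀ w : ↥(W₁ ⊔ W₂), (w : G) ∈ W₂ → φ w = 1 := fun w hw => (hφ₂ w hw).1
  have hφ'2 : ∀ w : ↥(W₁ ⊔ W₂), (w : G) ∈ W₂ → φ' w = 1 := fun w hw => (hφ₂ w hw).2
  have hψ1 : ∀ w : ↥(W₁ ⊔ W₂), (w : G) ∈ W₁ → ψ w = 1 := fun w hw => (hψ₁ w hw).1
  have hψ'1 : ∀ w : ↥(W₁ ⊔ W₂), (w : G) ∈ W₁ → ψ' w = 1 := fun w hw => (hψ₁ w hw).2
  have hone2 : ∀ w : ↥(W₁ ⊔ W₂), (w : G) ∈ W₂ → (1 : ↥(W₁ ⊔ W₂) →* ℂˣ) w = 1 :=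
    fun _ _ => rfl
  have hone1 : ∀ w : ↥(W₁ ⊔ W₂), (w : G) ∈ W₁ → (1 : ↥(W₁ ⊔ W₂) →* ℂˣ) w = 1 :=
    fun _ _ => rfl
  have m1 : ∀ ω : ↥(W₁ ⊔ W₂) →* ℂˣ, ω * 1 = ω := fun ω => by ext w; simp
  have m2 : ∀ ω : ↥(W₁ ⊔ W₂) →* ℂˣ, 1 * ω = ω := fun ω => by ext w; simp
  have n1 : (1 : ↥(W₁ ⊔ W₂) →* ℂˣ) ≠ φ' := fun h => hφ' h.symm
  have n2 : (1 : ↥(W₁ ⊔ W₂) →* ℂˣ) ≠ ψ' := fun h => hψ' h.symm
  have n3 : (1 : ↥(W₁ ⊔ W₂) →* ℂˣ) ≠ φ' * ψ' := by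
    intro h
    have h' : (1 : ↥(W₁ ⊔ W₂) →* ℂˣ) * 1 = φ' * ψ' := by rw [m1]; exact h
    exact hφ' (hom_eq_of_mul_eq hcomm hone2 hone1 hφ'2 hψ'1 h').1.symm
  have n4 : φ ≠ ψ' := by
    intro h
    have h' : φ * 1 = 1 * ψ' := by rw [m1, m2]; exact h
    exact hφ (hom_eq_of_mul_eq hcomm hφ2 hone1 hone2 hψ'1 h').1
  have n5 : φ ≠ φ' * ψ' := by
    intro h
    have h' : φ * 1 = φ' * ψ' := by rw [m1]; exact h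
    exact hψ' (hom_eq_of_mul_eq hcomm hφ2 hone1 hφ'2 hψ'1 h').2.symm
  have n6 : ψ ≠ φ' := by
    intro h
    have h' : 1 * ψ = φ' * 1 := by rw [m1, m2]; exact h
    exact hφ' (hom_eq_of_mul_eq hcomm hone2 hψ1 hφ'2 hone1 h').1.symm
  have n7 : ψ ≠ φ' * ψ' := by
    intro h
    have h' : 1 * ψ = φ' * ψ' := by rw [m2]; exact h
    exact hφ' (hom_eq_of_mul_eq hcomm hone2 hψ1 hφ'2 hψ'1 h').1.symm
  have n8 : φ * ψ ≠ 1 := by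
    intro h
    have h' : φ * ψ = 1 * 1 := by rw [m1]; exact h
    exact hφ (hom_eq_of_mul_eq hcomm hφ2 hψ1 hone2 hone1 h').1
  have n9 : φ * ψ ≠ φ' := by
    intro h
    have h' : φ * ψ = φ' * 1 := by rw [m1]; exact h
    exact hψ (hom_eq_of_mul_eq hcomm hφ2 hψ1 hφ'2 hone1 h').2
  have n10 : φ * ψ ≠ ψ' := by
    intro h
    have h' : φ * ψ = 1 * ψ' := by rw [m2]; exact h
    exact hφ (hom_eq_of_mul_eq hcomm hφ2 hψ1 hone2 hψ'1 h').1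
  have n11 : φ * ψ = φ' * ψ' ↔ (φ = φ' ∧ ψ = ψ') := by
    constructor
    · intro h
      exact hom_eq_of_mul_eq hcomm hφ2 hψ1 hφ'2 hψ'1 h
    · rintro ⟨rfl, rfl⟩; rfl
  constructor
  · rw [Cfsg.Agent.Helper3.frobenius_reciprocity (W₁ ⊔ W₂) _ (fun _ => 1) (fun _ _ => rfl)]
    show classInner (fun w : ↥(W₁ ⊔ W₂) =>
      1 - (φ w : ℂ) - (ψ w : ℂ) + (φ w : ℂ) * (ψ w : ℂ)) (fun _ => (1 : ℂ)) = 1
    rw [hα, hone]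
    simp only [Cfsg.Agent.Helper75.classInner_add_left, Cfsg.Agent.Helper75.classInner_sub_left,
      horth, hφ, hψ, n8, if_true, if_false]
    ring
  · have hTI : ∀ g : G, ∀ t ∈ (↑(W₁ ⊔ W₂) : Set G) \ (↑W₁ ∪ ↑W₂),
        g * t * g⁻¹ ∈ (↑(W₁ ⊔ W₂) : Set G) \ (↑W₁ ∪ ↑W₂) → g ∈ W₁ ⊔ W₂ :=
      fun g t ht hgt => selfNormalizingCyclic_TI hW' ht hgt
    have hclass : ∀ f : ↥(W₁ ⊔ W₂) → ℂ, IsClassFunction ↥(W₁ ⊔ W₂) f := by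
      intro f g h
      have : h * g * h⁻¹ = g := by rw [hWcomm h g]; group
      rw [this]
    have hsupp : ∀ φ ψ : ↥(W₁ ⊔ W₂) →* ℂˣ, (∀ w : ↥(W₁ ⊔ W₂), (w : G) ∈ W₂ → φ w = 1) →
        (∀ w : ↥(W₁ ⊔ W₂), (w : G) ∈ W₁ → ψ w = 1) → ∀ x : ↥(W₁ ⊔ W₂),
        (x : G) ∉ (↑(W₁ ⊔ W₂) : Set G) \ (↑W₁ ∪ ↑W₂) →
        1 - (φ x : ℂ) - (ψ x : ℂ) + (φ x : ℂ) * (ψ x : ℂ) = 0 := by
      intro φ ψ h2 h1 x hx
      have hx' : (x : G) ∈ W₁ ∨ (x : G) ∈ W₂ := by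
        by_contra hcon
        exact hx ⟨x.2, hcon⟩
      rcases hx' with hx' | hx'
      · rw [h1 x hx']; simp
      · rw [h2 x hx']; simp
    rw [classInner_indFun_TI' (W₁ ⊔ W₂) ((↑(W₁ ⊔ W₂) : Set G) \ (↑W₁ ∪ ↑W₂)) hTI _ _
      (hclass _) (hsupp φ ψ hφ2 hψ1) (hsupp φ' ψ' hφ'2 hψ'1)]
    rw [hα, hα]
    simp only [Cfsg.Agent.Helper75.classInner_add_left, Cfsg.Agent.Helper75.classInner_sub_left,
      Cfsg.Agent.Helper75.classInner_add_right, Cfsg.Agent.Helper75.classInner_sub_right,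
      horth, hφ, hψ, n1, n2, n3, n4, n5, n6, n7, n8, n9, n10, n11, if_true, if_false]
    by_cases h1 : φ = φ' <;> by_cases h2 : ψ = ψ' <;> simp [h1, h2]

end Cfsg.Agent.S1505
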