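import Cfsg.Statements.S1507
import Cfsg.Agent.Helper25.CyclicTI2
import Cfsg.Agent.Helper25.CyclicTI3

set_option autoImplicit false
set_option linter.style.haveILetI false
set_option linter.unusedVariables false
set_option maxHeartbeats 1000000
open Cfsg
open Cfsg.Agent.Helper25

namespace Cfsg.Agent.S1507

open Classical in
/-- Let W₁, W₂ ≤ G form a self-normalising cyclic subgroup W = W₁ ⊔ W₂ of odd order with Nat.card W₁ < Nat.card W₂, and χ an orthonormal family of irreducible characters of G up to sign, indexed by the linear characters ω of W, with χ_1 = 1, χ_ω = ω on W outside W₁ ∪ W₂, and the induction identity for (1 − φ)(1 − ψ). Let θ be a class function of G vanishing on W outside W₁ ∪ W₂, and suppose fewer than 2 · Nat.card W₁ linear characters ω of W have ⟨θ, χ ω⟩ ≠ 0. Then one of: all ⟨θ, χ ω⟩ vanish; or there are ψ₀ and a with ⟨θ, χ ω⟩ = a when ω ψ₀⁻¹ is trivial on W₂ and 0 otherwise;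 or there are φ₀ and a with ⟨θ, χ ω⟩ = a when ω φ₀⁻¹ is trivial on W₁ and 0 otherwise. -/
theorem result {G : Type*} [Group G] [Fintype G] (W₁ W₂ : Subgroup G) (hW : Cfsg.IsSelfNormalizingCyclic W₁ W₂) (hodd : Odd (Nat.card ↥(W₁ ⊔ W₂))) (χ : (↥(W₁ ⊔ W₂) →* ℂˣ) → (G → ℂ)) (hχ : Cfsg.IsCyclicTIFamily W₁ W₂ χ) (hlt : Nat.card W₁ < Nat.card W₂) (θ : G → ℂ) (hθ : Cfsg.IsClassFunction G θ) (hθV : ∀ w : ↥(W₁ ⊔ W₂), (w : G) ∉ W₁ → (w : G) ∉ W₂ → θ w = 0) (hfew : Nat.card {ω : ↥(W₁ ⊔ W₂) →* ℂˣ // Cfsg.classInner θ (χ ω) ≠ 0} < 2 * Nat.card W₁) : (∀ ω, Cfsg.classInner θ (χ ω) = 0) ∨ (∃ (ψ₀ : ↥(W₁ ⊔ W₂) →* ℂˣ) (a : ℂ), ∀ ω, Cfsg.classInner θ (χ ω) = if (∀ w : ↥(W₁ ⊔ W₂), (w : G) ∈ W₂ → (ω * ψ₀⁻¹) w = 1) then a else 0) ∨ (∃ (φ₀ : ↥(W₁ ⊔ W₂) →* ℂˣ) (a : ℂ), ∀ ω, Cfsg.classInner θ (χ ω) = if (∀ w : ↥(W₁ ⊔ W₂), (w : G) ∈ W₁ → (ω * φ₀⁻¹) w = 1) then a else 0) := by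
  classical
  obtain ⟨hW₁, hW₂, hdisj, hcomm, hcyc, -⟩ := hW
  have hWcomm : ∀ x y : ↥(W₁ ⊔ W₂), x * y = y * x := by
    intro x y
    obtain ⟨g, hg⟩ := hcyc.exists_generator
    obtain ⟨i, rfl⟩ := Subgroup.mem_zpowers_iff.mp (hg x)
    obtain ⟨j, rfl⟩ := Subgroup.mem_zpowers_iff.mp (hg y)
    exact (Commute.refl g).zpow_zpow i j
  have hc1 : ∀ a b : W₁, a * b = b * a := by
    intro a b
    have := hWcomm ⟨a, Subgroup.mem_sup_left a.2⟩ ⟨b, Subgroup.mem_sup_left b.2⟩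
    have h' : (a : G) * (b : G) = (b : G) * (a : G) := congrArg Subtype.val this
    exact Subtype.ext h'
  have hc2 : ∀ a b : W₂, a * b = b * a := by
    intro a b
    have := hWcomm ⟨a, Subgroup.mem_sup_right a.2⟩ ⟨b, Subgroup.mem_sup_right b.2⟩
    have h' : (a : G) * (b : G) = (b : G) * (a : G) := congrArg Subtype.val this
    exact Subtype.ext h'
  have hcardI : Nat.card (W₁ →* ℂˣ) = Nat.card W₁ := card_monoidHom_of_commute hc1
  have hcardJ : Nat.card (W₂ →* ℂˣ) = Nat.card W₂ := card_monoidHom_of_commute hc2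
  have hodd1 : Odd (Nat.card W₁) :=
    Odd.of_dvd_nat hodd (Subgroup.card_dvd_of_le le_sup_left)
  have hodd2 : Odd (Nat.card W₂) :=
    Odd.of_dvd_nat hodd (Subgroup.card_dvd_of_le le_sup_right)
  have hw2 : Nat.card W₁ + 2 ≤ Nat.card W₂ := by
    obtain ⟨k1, hk1⟩ := hodd1
    obtain ⟨k2, hk2⟩ := hodd2
    omega
  haveI : Fintype (W₁ →* ℂˣ) := Fintype.ofFinite _
  haveI : Fintype (W₂ →* ℂˣ) := Fintype.ofFinite _
  obtain ⟨a, ha⟩ : ∃ a : (↥(W₁ ⊔ W₂) →* ℂˣ) → ℂ, a = fun ω => classInner θ (χ ω) := ⟨_, rfl⟩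
  have ha' : ∀ ω, classInner θ (χ ω) = a ω := fun ω => by rw [ha]
  have hΘbij := extLeft_mul_extRight_bijective hdisj hcomm
  obtain ⟨r, hr⟩ : ∃ r : (W₁ →* ℂˣ) → ℂ, r = fun α => a (extLeft hdisj hcomm α) - a 1 :=
    ⟨_, rfl⟩
  obtain ⟨c, hc⟩ : ∃ c : (W₂ →* ℂˣ) → ℂ, c = fun β => a (extRight hdisj hcomm β) := ⟨_, rfl⟩
  have hrel : ∀ α β, a (extLeft hdisj hcomm α * extRight hdisj hcomm β) = r α + c β := by
    intro α β
    have := cyclicTI_rel hχ hθ hθV (extLeft hdisj hcomm α) (extRight hdisj hcomm β)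
      (extLeft_trivial hdisj hcomm α) (extRight_trivial hdisj hcomm β)
    rw [hr, hc, ha]
    simp only
    rw [this]; ring
  have hcount : (Finset.univ.filter
      (fun p : (W₁ →* ℂˣ) × (W₂ →* ℂˣ) => r p.1 + c p.2 ≠ 0)).card < 2 * Nat.card W₁ := by
    have e : {p : (W₁ →* ℂˣ) × (W₂ →* ℂˣ) // r p.1 + c p.2 ≠ 0} ≃
        {ω : ↥(W₁ ⊔ W₂) →* ℂˣ // Cfsg.classInner θ (χ ω) ≠ 0} :=
      (Equiv.ofBijective _ hΘbij).subtypeEquiv (fun p => by
        show r p.1 + c p.2 ≠ 0 ↔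
          classInner θ (χ (extLeft hdisj hcomm p.1 * extRight hdisj hcomm p.2)) ≠ 0
        rw [ha', hrel p.1 p.2])
    rw [← Fintype.card_subtype, ← Nat.card_eq_fintype_card, Nat.card_congr e]
    exact hfew
  have hI : Nat.card W₁ ≤ Fintype.card (W₁ →* ℂˣ) := by
    rw [← Nat.card_eq_fintype_card, hcardI]
  have hJ : Nat.card W₁ + 2 ≤ Fintype.card (W₂ →* ℂˣ) := by
    rw [← Nat.card_eq_fintype_card, hcardJ]; exact hw2
  rcases grid_sum_few r c (Nat.card W₁) hI hJ hcount with h | ⟨β₁, a₀, h⟩ | ⟨α₁, a₀, h⟩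
  · left
    intro ω
    obtain ⟨⟨α, β⟩, rfl⟩ := hΘbij.2 ω
    show classInner θ (χ (extLeft hdisj hcomm α * extRight hdisj hcomm β)) = 0
    rw [ha', hrel]; exact h α β
  · right; left
    refine ⟨extRight hdisj hcomm β₁, a₀, ?_⟩
    intro ω
    obtain ⟨⟨α, β⟩, rfl⟩ := hΘbij.2 ω
    show classInner θ (χ (extLeft hdisj hcomm α * extRight hdisj hcomm β)) =
      if (∀ w : ↥(W₁ ⊔ W₂), (w : G) ∈ W₂ →
        (extLeft hdisj hcomm α * extRight hdisj hcomm β * (extRight hdisj hcomm β₁)⁻¹) w = 1)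
      then a₀ else 0
    rw [ha', hrel, h α β]
    have hiff : (∀ w : ↥(W₁ ⊔ W₂), (w : G) ∈ W₂ →
        (extLeft hdisj hcomm α * extRight hdisj hcomm β * (extRight hdisj hcomm β₁)⁻¹) w = 1)
        ↔ β = β₁ := by
      constructor
      · intro hall
        ext b
        have h1 := hall ⟨b, Subgroup.mem_sup_right b.2⟩ b.2
        rw [MonoidHom.mul_apply, MonoidHom.inv_apply,
          extLeft_mul_extRight_apply hdisj hcomm α β 1 b _ (by simp),
          extRight_apply hdisj hcomm β₁ 1 b _ (by simp), map_one, one_mul,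
          mul_inv_eq_one] at h1
        rw [h1]
      · rintro rfl w hw
        rw [MonoidHom.mul_apply, MonoidHom.inv_apply,
          extLeft_mul_extRight_apply hdisj hcomm α β 1 ⟨w, hw⟩ w (by simp),
          extRight_apply hdisj hcomm β 1 ⟨w, hw⟩ w (by simp), map_one, one_mul,
          mul_inv_cancel]
    by_cases hb : β = β₁
    · rw [if_pos hb, if_pos (hiff.mpr hb)]
    · rw [if_neg hb, if_neg (fun h' => hb (hiff.mp h'))]
  · right; right
    refine ⟨extLeft hdisj hcomm α₁, a₀, ?_⟩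
    intro ω
    obtain ⟨⟨α, β⟩, rfl⟩ := hΘbij.2 ω
    show classInner θ (χ (extLeft hdisj hcomm α * extRight hdisj hcomm β)) =
      if (∀ w : ↥(W₁ ⊔ W₂), (w : G) ∈ W₁ →
        (extLeft hdisj hcomm α * extRight hdisj hcomm β * (extLeft hdisj hcomm α₁)⁻¹) w = 1)
      then a₀ else 0
    rw [ha', hrel, h α β]
    have hiff : (∀ w : ↥(W₁ ⊔ W₂), (w : G) ∈ W₁ →
        (extLeft hdisj hcomm α * extRight hdisj hcomm β * (extLeft hdisj hcomm α₁)⁻¹) w = 1)
        ↔ α = α₁ := by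
      constructor
      · intro hall
        ext b
        have h1 := hall ⟨b, Subgroup.mem_sup_left b.2⟩ b.2
        rw [MonoidHom.mul_apply, MonoidHom.inv_apply,
          extLeft_mul_extRight_apply hdisj hcomm α β b 1 _ (by simp),
          extLeft_apply hdisj hcomm α₁ b 1 _ (by simp), map_one, mul_one,
          mul_inv_eq_one] at h1
        rw [h1]
      · rintro rfl w hw
        rw [MonoidHom.mul_apply, MonoidHom.inv_apply,
          extLeft_mul_extRight_apply hdisj hcomm α β ⟨w, hw⟩ 1 w (by simp),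
          extLeft_apply hdisj hcomm α ⟨w, hw⟩ 1 w (by simp), map_one, mul_one,
          mul_inv_cancel]
    by_cases hb : α = α₁
    · rw [if_pos hb, if_pos (hiff.mpr hb)]
    · rw [if_neg hb, if_neg (fun h' => hb (hiff.mp h'))]

end Cfsg.Agent.S1507
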