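import Cfsg.Statements.S1508
import Cfsg.Agent.Helper25.CyclicGal2
import Cfsg.Agent.Helper75.RationalChar

set_option linter.style.haveILetI false
set_option linter.unusedVariables false
set_option maxHeartbeats 1000000

set_option autoImplicit false
open Cfsg

namespace Cfsg.Agent.S1508

/-- Let W₁, W₂ ≤ G form a self-normalising cyclic subgroup W = W₁ ⊔ W₂ of odd order and χ an orthonormal family of irreducible characters of G up to sign, indexed by the linear characters ω of W, with χ_1 = 1, χ_ω = ω on W outside W₁ ∪ W₂, and the induction identity for (1 − φ)(1 − ψ). Let ω be a linear character of W and g an element of G whose order is coprime to the order of ω. Then χ ω g is an integer. -/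
theorem result {G : Type*} [Group G] [Fintype G] (W₁ W₂ : Subgroup G) (hW : Cfsg.IsSelfNormalizingCyclic W₁ W₂) (hodd : Odd (Nat.card ↥(W₁ ⊔ W₂))) (χ : (↥(W₁ ⊔ W₂) →* ℂˣ) → (G → ℂ)) (hχ : Cfsg.IsCyclicTIFamily W₁ W₂ χ) (ω : ↥(W₁ ⊔ W₂) →* ℂˣ) (g : G) (hg : Nat.Coprime (orderOf g) (orderOf ω)) : ∃ n : ℤ, χ ω g = n := by
  classical
  have hN : Nat.card G ≠ 0 := Nat.card_pos.ne'
  have hval : χ ω g ∈ Cfsg.Agent.Helper75.cycField (Nat.card G) ∧ IsIntegral ℤ (χ ω g) := by
    rcases hχ.irr_or_neg ω with h | h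
    · obtain ⟨n, ρ, -, hρ⟩ := h
      rw [← hρ]
      exact ⟨Cfsg.Agent.Helper75.character_mem_cycField ρ g,
        Cfsg.Agent.Helper75.character_isIntegral ρ g⟩
    · obtain ⟨n, ρ, -, hρ⟩ := h
      have e : χ ω g = -(ρ.character g) := by
        have := congrFun hρ g
        rw [this]
        simp
      rw [e]
      exact ⟨neg_mem (Cfsg.Agent.Helper75.character_mem_cycField ρ g),
        (Cfsg.Agent.Helper75.character_isIntegral ρ g).neg⟩
  have hfix : ∀ σ : ℂ ≃+* ℂ, σ (χ ω g) = χ ω g := by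
    intro σ
    obtain ⟨k, hkcop, hσ⟩ := Cfsg.Agent.Helper75.exists_pow_of_ringEquiv σ (Nat.card G) hN
    have h1 : σ (χ ω g) = χ ω (g ^ k) := by
      rcases hχ.irr_or_neg ω with h | h
      · obtain ⟨n, ρ, -, hρ⟩ := h
        rw [← hρ]
        exact (Cfsg.Agent.Helper75.character_pow_eq ρ σ k hσ g).symm
      · obtain ⟨n, ρ, -, hρ⟩ := h
        have e : ∀ x, χ ω x = -(ρ.character x) := fun x => by
          have := congrFun hρ x
          rw [this]
          simp
        rw [e, e, map_neg, Cfsg.Agent.Helper75.character_pow_eq ρ σ k hσ g]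
    have hb : orderOf ω ∣ Nat.card G := by
      apply orderOf_dvd_of_pow_eq_one
      ext w
      rw [MonoidHom.pow_apply, ← map_pow]
      have h3 : w ^ Nat.card G = 1 :=
        orderOf_dvd_iff_pow_eq_one.mp
          ((orderOf_dvd_natCard w).trans (Subgroup.card_subgroup_dvd_card (W₁ ⊔ W₂)))
      rw [h3, map_one, MonoidHom.one_apply]
    obtain ⟨k', hk'cop, hk'1, hk'2⟩ := Cfsg.Agent.Helper25.exists_coprime_modEq (Nat.card G)
      (orderOf g) (orderOf ω) k hN (orderOf_dvd_natCard g) hb hg hkcop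
    have h2 : g ^ k = g ^ k' := (pow_eq_pow_iff_modEq.mpr hk'1).symm
    have h3 : ω ^ k' = ω := by
      ext w
      have hx : (ω w) ^ orderOf ω = 1 := by
        have h5 := DFunLike.congr_fun (pow_orderOf_eq_one ω) w
        rw [MonoidHom.pow_apply, MonoidHom.one_apply] at h5
        exact h5
      have h6 : k' % orderOf ω = 1 % orderOf ω := hk'2
      rw [MonoidHom.pow_apply, pow_eq_pow_mod k' hx, h6, ← pow_eq_pow_mod 1 hx, pow_one]
    have h4 := congrFun (Cfsg.Agent.Helper25.cyclicTI_pow hW hodd hχ k' hk'cop ω) g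
    have h4' : χ ω (g ^ k') = χ (ω ^ k') g := h4
    rw [h1, h2, h4', h3]
  obtain ⟨m, hm⟩ := Cfsg.Agent.Helper75.int_of_fixed (Nat.card G) hN (χ ω g) hval.1 hval.2 hfix
  exact ⟨m, hm⟩

end Cfsg.Agent.S1508
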