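import Cfsg.Statements.S1509
import Cfsg.Agent.Helper75.InnerLin
import Cfsg.Agent.Helper3.CharBasic

set_option autoImplicit false
set_option linter.style.haveILetI false
set_option linter.unusedVariables false
set_option maxHeartbeats 1000000
open Cfsg
open Cfsg.Agent.Helper75

namespace Cfsg.Agent.S1509

theorem pm_irr_inner {X : Type*} [Group X] [Fintype X] (f g : X → ℂ)
    (hf : Cfsg.IsIrrCharacter X f ∨ Cfsg.IsIrrCharacter X (-f))
    (hg : Cfsg.IsIrrCharacter X g ∨ Cfsg.IsIrrCharacter X (-g)) :
    Cfsg.classInner f g = 0 ∨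
      ∃ s : ℂ, (s = 1 ∨ s = -1) ∧ g = s • f ∧ Cfsg.classInner f g = s := by
  rcases hf with hf | hf <;> rcases hg with hg | hg
  · by_cases h : f = g
    · subst h
      exact Or.inr ⟨1, Or.inl rfl, by simp, classInner_irr_self hf⟩
    · exact Or.inl (classInner_irr_of_ne hf hg h)
  · by_cases h : f = -g
    · right
      have hg' : g = -f := by rw [h]; simp
      refine ⟨-1, Or.inr rfl, by rw [hg']; simp, ?_⟩
      rw [hg', classInner_neg_right, classInner_irr_self hf]
    · left
      have := classInner_irr_of_ne hf hg h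
      rw [classInner_neg_right] at this
      exact neg_eq_zero.mp this
  · by_cases h : -f = g
    · right
      have h1 := classInner_irr_self hf
      rw [classInner_neg_left, classInner_neg_right, neg_neg] at h1
      refine ⟨-1, Or.inr rfl, by rw [← h]; simp, ?_⟩
      rw [← h, classInner_neg_right, h1]
    · left
      have := classInner_irr_of_ne hf hg h
      rw [classInner_neg_left] at this
      exact neg_eq_zero.mp this
  · by_cases h : -f = -g
    · right
      have hfg : f = g := neg_injective h
      subst hfg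
      have h1 := classInner_irr_self hf
      rw [classInner_neg_left, classInner_neg_right, neg_neg] at h1
      exact ⟨1, Or.inl rfl, by simp, h1⟩
    · left
      have := classInner_irr_of_ne hf hg h
      rw [classInner_neg_left, classInner_neg_right, neg_neg] at this
      exact this

theorem pm_irr_one_ne_zero {X : Type*} [Group X] (f : X → ℂ)
    (hf : Cfsg.IsIrrCharacter X f ∨ Cfsg.IsIrrCharacter X (-f)) : f 1 ≠ 0 := by
  rcases hf with hf | hf
  · exact Cfsg.Agent.Helper3.irr_apply_one_ne_zero hf
  · have := Cfsg.Agent.Helper3.irr_apply_one_ne_zero hf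
    simpa using this

/-- Let α, β, γ, δ be functions on a finite group X each of which is an irreducible character or the negative of one, and u, v nonzero real numbers. Suppose ⟨α, β⟩ = ⟨γ, δ⟩ = 0, ⟨α − β, uγ − vδ⟩ = 0, α 1 = β 1 and u γ 1 = v δ 1. Then also ⟨α, γ⟩ = ⟨α, δ⟩ = ⟨β, γ⟩ = ⟨β, δ⟩ = 0. -/
theorem result {X : Type*} [Group X] [Fintype X] (α β γ δ : X → ℂ) (hα : Cfsg.IsIrrCharacter X α ∨ Cfsg.IsIrrCharacter X (-α)) (hβ : Cfsg.IsIrrCharacter X β ∨ Cfsg.IsIrrCharacter X (-β)) (hγ : Cfsg.IsIrrCharacter X γ ∨ Cfsg.IsIrrCharacter X (-γ)) (hδ : Cfsg.IsIrrCharacter X δ ∨ Cfsg.IsIrrCharacter X (-δ)) (u v : ℝ) (hu : u ≠ 0) (hv : v ≠ 0) (hab : Cfsg.classInner α β = 0) (hcd : Cfsg.classInner γ δ = 0) (hmix : Cfsg.classInner (α - β) ((u : ℂ) • γ - (v : ℂ) • δ) = 0) (h1 : α 1 = β 1) (h2 : (u : ℂ) * γ 1 = (v : ℂ) * δ 1) : Cfsg.classInner α γ = 0 ∧ Cfsg.classInner α δ = 0 ∧ Cfsg.classInner β γ = 0 ∧ Cfsg.classInner β δ = 0 := by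
  have hba : classInner β α = 0 := by rw [classInner_conj_symm α β, hab, map_zero]
  have hdc : classInner δ γ = 0 := by rw [classInner_conj_symm γ δ, hcd, map_zero]
  have hmix' : (u : ℂ) * classInner α γ - (v : ℂ) * classInner α δ
      - ((u : ℂ) * classInner β γ - (v : ℂ) * classInner β δ) = 0 := by
    simp only [classInner_sub_left, classInner_sub_right, classInner_smul_right,
      Complex.conj_ofReal] at hmix
    linear_combination hmix
  have huC : (u : ℂ) ≠ 0 := by exact_mod_cast hu
  have hvC : (v : ℂ) ≠ 0 := by exact_mod_cast hv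
  have hα1 := pm_irr_one_ne_zero α hα
  have hβ1 := pm_irr_one_ne_zero β hβ
  have hpm : ∀ s : ℂ, (s = 1 ∨ s = -1) → s ≠ 0 := by
    rintro s (rfl | rfl) <;> norm_num
  have hx1 : classInner α γ = 0 := by
    rcases pm_irr_inner α γ hα hγ with h | ⟨s, hs, hγs, hx1⟩
    · exact h
    · exfalso
      have hs0 := hpm s hs
      have hx3 : classInner β γ = 0 := by
        rw [hγs, classInner_smul_right, hba, mul_zero]
      have hx2 : classInner α δ = 0 := by
        have := hcd
        rw [hγs, classInner_smul_left] at this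
        exact (mul_eq_zero.mp this).resolve_left hs0
      rcases pm_irr_inner β δ hβ hδ with h4 | ⟨t, ht, hδt, hx4⟩
      · rw [hx1, hx2, hx3, h4] at hmix'
        have e5 : (u : ℂ) * s = 0 := by linear_combination hmix'
        rcases mul_eq_zero.mp e5 with h | h
        · exact huC h
        · exact hs0 h
      · rw [hx1, hx2, hx3, hx4] at hmix'
        have e1 : (u : ℂ) * s + (v : ℂ) * t = 0 := by linear_combination hmix'
        have e2 : (u : ℂ) * (s * α 1) = (v : ℂ) * (t * β 1) := by
          have := h2
          rw [hγs, hδt] at this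
          simpa [Pi.smul_apply, smul_eq_mul] using this
        rw [← h1] at e2
        have e3 : ((u : ℂ) * s - (v : ℂ) * t) * α 1 = 0 := by linear_combination e2
        have e4 : (u : ℂ) * s - (v : ℂ) * t = 0 := (mul_eq_zero.mp e3).resolve_right hα1
        have e5 : (u : ℂ) * s = 0 := by linear_combination (e1 + e4) / 2
        rcases mul_eq_zero.mp e5 with h | h
        · exact huC h
        · exact hs0 h
  have hx2 : classInner α δ = 0 := by
    rcases pm_irr_inner α δ hα hδ with h | ⟨t, ht, hδt, hx2⟩
    · exact h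
    · exfalso
      have ht0 := hpm t ht
      have hx4 : classInner β δ = 0 := by
        rw [hδt, classInner_smul_right, hba, mul_zero]
      rcases pm_irr_inner β γ hβ hγ with h3 | ⟨s, hs, hγs, hx3⟩
      · rw [hx1, hx2, h3, hx4] at hmix'
        have e5 : (v : ℂ) * t = 0 := by linear_combination -hmix'
        rcases mul_eq_zero.mp e5 with h | h
        · exact hvC h
        · exact ht0 h
      · have hs0 := hpm s hs
        rw [hx1, hx2, hx3, hx4] at hmix'
        have e1 : (u : ℂ) * s + (v : ℂ) * t = 0 := by linear_combination -hmix'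
        have e2 : (u : ℂ) * (s * β 1) = (v : ℂ) * (t * α 1) := by
          have := h2
          rw [hγs, hδt] at this
          simpa [Pi.smul_apply, smul_eq_mul] using this
        rw [h1] at e2
        have e3 : ((u : ℂ) * s - (v : ℂ) * t) * β 1 = 0 := by linear_combination e2
        have e4 : (u : ℂ) * s - (v : ℂ) * t = 0 := (mul_eq_zero.mp e3).resolve_right hβ1
        have e5 : (u : ℂ) * s = 0 := by linear_combination (e1 + e4) / 2
        rcases mul_eq_zero.mp e5 with h | h
        · exact huC h
        · exact hs0 h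
  have hx3 : classInner β γ = 0 := by
    rcases pm_irr_inner β γ hβ hγ with h | ⟨s, hs, hγs, hx3⟩
    · exact h
    · exfalso
      have hs0 := hpm s hs
      have hx4 : classInner β δ = 0 := by
        have := hcd
        rw [hγs, classInner_smul_left] at this
        exact (mul_eq_zero.mp this).resolve_left hs0
      rw [hx1, hx2, hx3, hx4] at hmix'
      have e5 : (u : ℂ) * s = 0 := by linear_combination -hmix'
      rcases mul_eq_zero.mp e5 with h | h
      · exact huC h
      · exact hs0 h
  have hx4 : classInner β δ = 0 := by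
    rw [hx1, hx2, hx3] at hmix'
    have : (v : ℂ) * classInner β δ = 0 := by linear_combination hmix'
    exact (mul_eq_zero.mp this).resolve_left hvC
  exact ⟨hx1, hx2, hx3, hx4⟩

end Cfsg.Agent.S1509
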