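import Cfsg.Statements.S1510
import Cfsg.Agent.Helper25.Dade

set_option autoImplicit false
set_option linter.style.haveILetI false
set_option linter.unusedVariables false
set_option maxHeartbeats 1000000
open Cfsg
open Cfsg.Agent.Helper25
open scoped Pointwise

namespace Cfsg.Agent.S1510

/-- Let L be a finite group with a normal subgroup K and a nontrivial cyclic subgroup W₁ of order coprime to its index, K ⊓ W₁ = ⊥ and K ⊔ W₁ = ⊤; let W₂ ≠ ⊥ be a cyclic subgroup of K with K ⊓ C_L(x) = W₂ for every non-identity x ∈ W₁, and suppose W₁ ⊔ W₂ has odd order. Then (W₁, W₂) is a self-normalising cyclic pair in L. -/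
theorem result {L : Type*} [Group L] [Fintype L] (K W₁ W₂ : Subgroup L) [hK : K.Normal] (hKW₁ : K ⊓ W₁ = ⊥) (hKW₁' : K ⊔ W₁ = ⊤) (hW₁ : W₁ ≠ ⊥) (hW₁c : IsCyclic W₁) (hHall : Nat.Coprime (Nat.card W₁) W₁.index) (hW₂ : W₂ ≠ ⊥) (hW₂c : IsCyclic W₂) (hW₂K : W₂ ≤ K) (hC : ∀ x ∈ W₁, x ≠ 1 → K ⊓ Subgroup.centralizer ({x} : Set L) = W₂) (hodd : Odd (Nat.card ↥(W₁ ⊔ W₂))) : Cfsg.IsSelfNormalizingCyclic W₁ W₂ := by
  classical
  have hdisj : Disjoint K W₁ := disjoint_iff.mpr hKW₁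
  have hmul : (K : Set L) * (W₁ : Set L) = Set.univ := by
    rw [← Subgroup.normal_mul, hKW₁', Subgroup.coe_top]
  have hcompl : Subgroup.IsComplement' K W₁ :=
    Subgroup.isComplement'_of_disjoint_and_mul_eq_univ hdisj hmul
  have hKcard : Nat.card K = W₁.index := by
    have h1 := hcompl.card_mul_card
    have h2 := W₁.card_mul_index
    have hpos : 0 < Nat.card W₁ := Nat.card_pos
    have h3 : Nat.card W₁ * Nat.card K = Nat.card W₁ * W₁.index := by
      rw [h2, ← h1, mul_comm]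
    exact Nat.eq_of_mul_eq_mul_left hpos h3
  have hcop : Nat.Coprime (Nat.card W₁) (Nat.card W₂) := by
    have : Nat.card W₂ ∣ Nat.card K := Subgroup.card_dvd_of_le hW₂K
    exact Nat.Coprime.coprime_dvd_right (hKcard ▸ this) hHall
  have hW12 : W₁ ⊓ W₂ = ⊥ := by
    rw [eq_bot_iff]
    intro x hx
    rw [← hKW₁]
    exact ⟨hW₂K hx.2, hx.1⟩
  have hcomm : ∀ a ∈ W₁, ∀ b ∈ W₂, a * b = b * a := by
    intro a ha b hb
    by_cases h1 : a = 1
    · subst h1; simp
    · have hb' : b ∈ K ⊓ Subgroup.centralizer ({a} : Set L) := by rw [hC a ha h1]; exact hb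
      have := (Subgroup.mem_inf.mp hb').2
      rw [Subgroup.mem_centralizer_iff] at this
      exact this a rfl
  -- power tricks
  obtain ⟨⟨m, hm1, hm0⟩⟩ : Nonempty {k // k ≡ 1 [MOD Nat.card W₁] ∧ k ≡ 0 [MOD Nat.card W₂]} :=
    ⟨Nat.chineseRemainder hcop 1 0⟩
  obtain ⟨⟨m', hm'0, hm'1⟩⟩ : Nonempty {k // k ≡ 0 [MOD Nat.card W₁] ∧ k ≡ 1 [MOD Nat.card W₂]} :=
    ⟨Nat.chineseRemainder hcop 0 1⟩
  have pow1 : ∀ (W : Subgroup L) (k : ℕ), k ≡ 1 [MOD Nat.card W] → ∀ a ∈ W, a ^ k = a := by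
    intro W k hk a ha
    have h1 : k ≡ 1 [MOD orderOf a] := hk.of_dvd (Subgroup.orderOf_dvd_natCard _ ha)
    have := (pow_eq_pow_iff_modEq (x := a) (n := k) (m := 1)).mpr h1
    simpa using this
  have pow0 : ∀ (W : Subgroup L) (k : ℕ), k ≡ 0 [MOD Nat.card W] → ∀ a ∈ W, a ^ k = 1 := by
    intro W k hk a ha
    have h1 : k ≡ 0 [MOD orderOf a] := hk.of_dvd (Subgroup.orderOf_dvd_natCard _ ha)
    have := (pow_eq_pow_iff_modEq (x := a) (n := k) (m := 0)).mpr h1
    simpa using this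
  obtain ⟨⟨w₁, hw₁⟩, hgen₁⟩ := hW₁c.exists_generator
  obtain ⟨⟨w₂, hw₂⟩, hgen₂⟩ := hW₂c.exists_generator
  have hw12 : Commute w₁ w₂ := hcomm w₁ hw₁ w₂ hw₂
  have hWeq : W₁ ⊔ W₂ = Subgroup.zpowers (w₁ * w₂) := by
    apply le_antisymm
    · refine sup_le ?_ ?_
      · intro a ha
        have h1 : w₁ ∈ Subgroup.zpowers (w₁ * w₂) := by
          have : (w₁ * w₂) ^ m = w₁ := by
            rw [hw12.mul_pow, pow1 W₁ m hm1 w₁ hw₁, pow0 W₂ m hm0 w₂ hw₂, mul_one]
          have h := Subgroup.pow_mem _ (Subgroup.mem_zpowers (w₁ * w₂)) m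
          rwa [this] at h
        obtain ⟨n, hn⟩ := Subgroup.mem_zpowers_iff.mp (hgen₁ ⟨a, ha⟩)
        have : a = w₁ ^ n := by
          have := congrArg Subtype.val hn
          simpa using this.symm
        rw [this]
        exact Subgroup.zpow_mem _ h1 _
      · intro a ha
        have h1 : w₂ ∈ Subgroup.zpowers (w₁ * w₂) := by
          have : (w₁ * w₂) ^ m' = w₂ := by
            rw [hw12.mul_pow, pow0 W₁ m' hm'0 w₁ hw₁, pow1 W₂ m' hm'1 w₂ hw₂, one_mul]
          have h := Subgroup.pow_mem _ (Subgroup.mem_zpowers (w₁ * w₂)) m'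
          rwa [this] at h
        obtain ⟨n, hn⟩ := Subgroup.mem_zpowers_iff.mp (hgen₂ ⟨a, ha⟩)
        have : a = w₂ ^ n := by
          have := congrArg Subtype.val hn
          simpa using this.symm
        rw [this]
        exact Subgroup.zpow_mem _ h1 _
    · rw [Subgroup.zpowers_le]
      exact Subgroup.mul_mem _ (Subgroup.mem_sup_left hw₁) (Subgroup.mem_sup_right hw₂)
  have hWcomm : ∀ x ∈ W₁ ⊔ W₂, ∀ y ∈ W₁ ⊔ W₂, x * y = y * x := by
    intro x hx y hy
    rw [hWeq] at hx hy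
    obtain ⟨i, rfl⟩ := Subgroup.mem_zpowers_iff.mp hx
    obtain ⟨j, rfl⟩ := Subgroup.mem_zpowers_iff.mp hy
    exact (Commute.refl (w₁ * w₂)).zpow_zpow i j
  have hcyc : IsCyclic ↥(W₁ ⊔ W₂) := by
    rw [hWeq]
    infer_instance
  refine ⟨hW₁, hW₂, hW12, hcomm, hcyc, ?_⟩
  intro X hX hXne
  ext g
  rw [Subgroup.mem_set_normalizer_iff]
  constructor
  · intro hg
    obtain ⟨x, hx⟩ := hXne
    have hxW := (hX hx).1
    have hxn := (hX hx).2
    have hy : g * x * g⁻¹ ∈ X := (hg x).mp hx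
    have hyW := (hX hy).1
    have hnormW : ∀ k ∈ W₂, ∀ n ∈ W₁, k * n * k⁻¹ ∈ W₁ := by
      intro k hk n hn
      have : k * n * k⁻¹ = n := by
        rw [← hcomm n hn k hk]; group
      rw [this]; exact hn
    obtain ⟨a, ha, b, hb, hxab⟩ := exists_mul_of_mem_sup_of_normalizes hnormW hxW
    obtain ⟨a', ha', b', hb', hyab⟩ := exists_mul_of_mem_sup_of_normalizes hnormW hyW
    have ha1 : a ≠ 1 := by
      rintro rfl
      apply hxn
      right
      rw [hxab, one_mul]; exact hb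
    have hnormK : ∀ k ∈ W₁, ∀ n ∈ K, k * n * k⁻¹ ∈ K := fun k _ n hn => hK.conj_mem n hn k
    have hgtop : g ∈ K ⊔ W₁ := by rw [hKW₁']; exact Subgroup.mem_top g
    obtain ⟨k, hk, v, hv, hgkv⟩ := exists_mul_of_mem_sup_of_normalizes hnormK hgtop
    have hvx : v * x * v⁻¹ = x := by
      rw [hWcomm v (Subgroup.mem_sup_left hv) x hxW]; group
    have hykx : g * x * g⁻¹ = k * x * k⁻¹ := by
      rw [hgkv]
      calc k * v * x * (k * v)⁻¹ = k * (v * x * v⁻¹) * k⁻¹ := by group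
        _ = k * x * k⁻¹ := by rw [hvx]
    have hxm : x ^ m = a := by
      rw [hxab, (show Commute a b from hcomm a ha b hb).mul_pow, pow1 W₁ m hm1 a ha,
        pow0 W₂ m hm0 b hb, mul_one]
    have hym : (g * x * g⁻¹) ^ m = a' := by
      rw [hyab, (show Commute a' b' from hcomm a' ha' b' hb').mul_pow, pow1 W₁ m hm1 a' ha',
        pow0 W₂ m hm0 b' hb', mul_one]
    have hka : k * a * k⁻¹ = a' := by
      rw [← hym, hykx, conj_pow, hxm]
    have haa : a' = a := by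
      have h1 : a' * a⁻¹ ∈ K ⊓ W₁ := by
        refine ⟨?_, W₁.mul_mem ha' (W₁.inv_mem ha)⟩
        rw [← hka]
        have : k * a * k⁻¹ * a⁻¹ = k * (a * k⁻¹ * a⁻¹) := by group
        rw [this]
        exact K.mul_mem hk (hK.conj_mem _ (K.inv_mem hk) a)
      rw [hKW₁, Subgroup.mem_bot] at h1
      exact mul_inv_eq_one.mp h1
    rw [haa] at hka
    have hkW₂ : k ∈ W₂ := by
      rw [← hC a ha ha1]
      refine Subgroup.mem_inf.mpr ⟨hk, ?_⟩
      rw [Subgroup.mem_centralizer_iff]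
      intro z hz
      rw [Set.mem_singleton_iff] at hz
      subst hz
      calc z * k = k * z * k⁻¹ * k := by rw [hka]
        _ = k * z := by group
    rw [hgkv]
    exact Subgroup.mul_mem _ (Subgroup.mem_sup_right hkW₂) (Subgroup.mem_sup_left hv)
  · intro hg n
    constructor
    · intro hn
      have : g * n * g⁻¹ = n := by
        rw [hWcomm g hg n (hX hn).1]; group
      rw [this]; exact hn
    · intro hn
      have h1 := (hX hn).1
      have : g * n * g⁻¹ = n := by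
        have h2 := hWcomm g⁻¹ (Subgroup.inv_mem _ hg) (g * n * g⁻¹) h1
        calc g * n * g⁻¹ = (g * n * g⁻¹ * g⁻¹) * g := by group
          _ = (g⁻¹ * (g * n * g⁻¹)) * g := by rw [h2]
          _ = n := by group
      rw [this] at hn; exact hn

end Cfsg.Agent.S1510
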