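import Cfsg.Statements.S1512
import Cfsg.Agent.Helper35.Glauberman

set_option autoImplicit false
open Cfsg

namespace Cfsg.Agent.S1512

open scoped Pointwise
open Cfsg.Agent.Helper35

/-- Conjugation action of a group on itself. -/
@[instance_reducible] def conjAct (L : Type*) [Group L] : MulAction L L where
  smul g y := g * y * g⁻¹
  one_smul y := by change 1 * y * 1⁻¹ = y; simp
  mul_smul g h y := by change g * h * y * (g * h)⁻¹ = g * (h * y * h⁻¹) * g⁻¹; group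

theorem exists_fixed_rep {L : Type*} [Group L] [Finite L] (K : Subgroup L) [hK : K.Normal] (x : L)
    (hx : Nat.Coprime (orderOf x) (Nat.card K)) (C : ConjClasses K)
    (hC : ConjClasses.map (MulEquiv.toMonoidHom ((MulAut.conjNormal x : MulAut K))) C = C) :
    ∃ w : L, ∃ hw : w ∈ K, w ∈ Subgroup.centralizer ({x} : Set L) ∧ ConjClasses.mk (⟨w, hw⟩ : K) = C := by
  obtain ⟨k₀, rfl⟩ := ConjClasses.mk_surjective C
  have h1 : IsConj ((MulAut.conjNormal x : MulAut K) k₀) k₀ :=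
    ConjClasses.mk_eq_mk_iff_isConj.mp hC
  obtain ⟨c, hc⟩ := isConj_iff.mp h1
  have hc' : (c : L) * (x * k₀ * x⁻¹) * (c : L)⁻¹ = k₀ := by
    have := congrArg Subtype.val hc
    simpa using this
  have hnormK : ∀ g : L, ∀ k ∈ K, g * k * g⁻¹ ∈ K := fun g k hk => hK.conj_mem k hk g
  -- the class of `k₀`
  have hxS : x ∈ Subgroup.normalizer {y : L | ∃ k ∈ K, y = k * k₀ * k⁻¹} := by
    have hfwd : ∀ y ∈ {y : L | ∃ k ∈ K, y = k * k₀ * k⁻¹}, x * y * x⁻¹ ∈ {y : L | ∃ k ∈ K, y = k * k₀ * k⁻¹} := by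
      rintro y ⟨k, hk, rfl⟩
      refine ⟨(x * k * x⁻¹) * (c : L)⁻¹, K.mul_mem (hnormK x k hk) (K.inv_mem c.2), ?_⟩
      have e1 : x * k₀ * x⁻¹ = (c : L)⁻¹ * k₀ * c := by
        calc x * ↑k₀ * x⁻¹ = (c : L)⁻¹ * (↑c * (x * ↑k₀ * x⁻¹) * (↑c)⁻¹) * c := by group
          _ = (c : L)⁻¹ * ↑k₀ * c := by rw [hc']
      calc x * (k * k₀ * k⁻¹) * x⁻¹ = (x * k * x⁻¹) * (x * k₀ * x⁻¹) * (x * k * x⁻¹)⁻¹ := by group
        _ = (x * k * x⁻¹) * ((c : L)⁻¹ * k₀ * c) * (x * k * x⁻¹)⁻¹ := by rw [e1]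
        _ = _ := by group
    have hbwd : ∀ y ∈ {y : L | ∃ k ∈ K, y = k * k₀ * k⁻¹}, x⁻¹ * y * x ∈ {y : L | ∃ k ∈ K, y = k * k₀ * k⁻¹} := by
      rintro y ⟨k, hk, rfl⟩
      refine ⟨(x⁻¹ * k * x) * (x⁻¹ * c * x), K.mul_mem ?_ ?_, ?_⟩
      · have := hnormK x⁻¹ k hk
        simpa using this
      · have := hnormK x⁻¹ c c.2
        simpa using this
      · have e1 : x⁻¹ * k₀ * x = (x⁻¹ * c * x) * k₀ * (x⁻¹ * c * x)⁻¹ := by
          calc x⁻¹ * ↑k₀ * x = x⁻¹ * (↑c * (x * ↑k₀ * x⁻¹) * (↑c)⁻¹) * x := by rw [hc']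
            _ = (x⁻¹ * c * x) * k₀ * (x⁻¹ * c * x)⁻¹ := by group
        calc x⁻¹ * (k * k₀ * k⁻¹) * x = (x⁻¹ * k * x) * (x⁻¹ * k₀ * x) * (x⁻¹ * k * x)⁻¹ := by group
          _ = (x⁻¹ * k * x) * ((x⁻¹ * c * x) * k₀ * (x⁻¹ * c * x)⁻¹) * (x⁻¹ * k * x)⁻¹ := by rw [e1]
          _ = _ := by group
    rw [Subgroup.mem_set_normalizer_iff]
    intro y
    refine ⟨hfwd y, fun hy => ?_⟩
    have := hbwd _ hy
    have e : x⁻¹ * (x * y * x⁻¹) * x = y := by group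
    rwa [e] at this
  have hAK : Subgroup.zpowers x ≤ Subgroup.normalizer (K : Set L) := by
    rw [Subgroup.normalizer_eq_top_iff.mpr hK]; exact le_top
  have hcop : (Nat.card (Subgroup.zpowers x)).Coprime (Nat.card K) := by
    rw [Nat.card_zpowers]; exact hx
  have hsolv : Group.IsSolvable (Subgroup.zpowers x) :=
    Group.isSolvable_of_comm (fun a b => by
      obtain ⟨a, ha⟩ := a
      obtain ⟨b, hb⟩ := b
      obtain ⟨i, rfl⟩ := Subgroup.mem_zpowers_iff.mp ha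
      obtain ⟨j, rfl⟩ := Subgroup.mem_zpowers_iff.mp hb
      exact Subtype.ext (zpow_mul_comm x i j))
  obtain ⟨s, ⟨k, hk, rfl⟩, hfix⟩ := @glauberman L _ _ L (conjAct L) _ _ hAK hcop (Or.inl hsolv)
    {y : L | ∃ k ∈ K, y = k * k₀ * k⁻¹} ⟨k₀, 1, K.one_mem, by simp⟩
    (fun a ha s hs => by
      change a * s * a⁻¹ ∈ _
      exact (Subgroup.mem_set_normalizer_iff.mp ((Subgroup.zpowers_le.mpr hxS) ha) s).mp hs)
    (fun k hk s hs => by
      change k * s * k⁻¹ ∈ _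
      obtain ⟨k', hk', rfl⟩ := hs
      exact ⟨k * k', K.mul_mem hk hk', by group⟩)
    (fun s hs t ht => by
      obtain ⟨k, hk, rfl⟩ := hs
      obtain ⟨k', hk', rfl⟩ := ht
      refine ⟨k' * k⁻¹, K.mul_mem hk' (K.inv_mem hk), ?_⟩
      change (k' * k⁻¹) * (k * ↑k₀ * k⁻¹) * (k' * k⁻¹)⁻¹ = _
      group)
  have hmem : k * (k₀ : L) * k⁻¹ ∈ K := K.mul_mem (K.mul_mem hk k₀.2) (K.inv_mem hk)
  refine ⟨k * k₀ * k⁻¹, hmem, ?_, ?_⟩
  · rw [Subgroup.mem_centralizer_iff]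
    intro h hh
    rw [Set.mem_singleton_iff] at hh
    subst hh
    have h2 : h * (k * ↑k₀ * k⁻¹) * h⁻¹ = k * ↑k₀ * k⁻¹ := hfix h (Subgroup.mem_zpowers h)
    calc h * (k * ↑k₀ * k⁻¹) = h * (k * ↑k₀ * k⁻¹) * h⁻¹ * h := by group
      _ = k * ↑k₀ * k⁻¹ * h := by rw [h2]
  · rw [ConjClasses.mk_eq_mk_iff_isConj, isConj_iff]
    exact ⟨⟨k, hk⟩⁻¹, Subtype.ext (by simp [mul_assoc])⟩

/-- Let K be a normal subgroup of the finite group L and x a non-identity element whose order is coprime to the order of K, such that K ⊓ C_L(y) = W₂ for every non-identity element y of the cyclic group generated by x. Then the number of conjugacy classes of K mapped to themselves by conjugation by x is at most Nat.card W₂. -/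
theorem result {L : Type*} [Group L] [Finite L] (K W₂ : Subgroup L) [hK : K.Normal] (x : L) (hx1 : x ≠ 1) (hx : Nat.Coprime (orderOf x) (Nat.card K)) (hC : ∀ y ∈ Subgroup.zpowers x, y ≠ 1 → K ⊓ Subgroup.centralizer ({y} : Set L) = W₂) : Nat.card {C : ConjClasses K // ConjClasses.map (MulEquiv.toMonoidHom ((MulAut.conjNormal x : MulAut K))) C = C} ≤ Nat.card W₂ := by
  classical
  have hW : K ⊓ Subgroup.centralizer ({x} : Set L) = W₂ := hC x (Subgroup.mem_zpowers x) hx1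
  have hex : ∀ C : {C : ConjClasses K // ConjClasses.map (MulEquiv.toMonoidHom ((MulAut.conjNormal x : MulAut K))) C = C},
      ∃ w : W₂, ∃ hw : (w : L) ∈ K, ConjClasses.mk (⟨w, hw⟩ : K) = C.1 := by
    intro C
    obtain ⟨w, hw, hwc, hwC⟩ := exists_fixed_rep K x hx C.1 C.2
    exact ⟨⟨w, hW ▸ (⟨hw, hwc⟩ : w ∈ K ⊓ Subgroup.centralizer ({x} : Set L))⟩, hw, hwC⟩
  choose f hf using hex
  apply Nat.card_le_card_of_injective f
  intro C C' hCC'
  obtain ⟨h1, h2⟩ := hf C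
  obtain ⟨h1', h2'⟩ := hf C'
  apply Subtype.ext
  rw [← h2, ← h2']
  have e : ((f C : W₂) : L) = ((f C' : W₂) : L) := by rw [hCC']
  congr 1
  exact Subtype.ext e

end Cfsg.Agent.S1512
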