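import Cfsg.Statements.S1513
import Cfsg.Agent.S1491
import Cfsg.Agent.S1512
import Cfsg.Agent.Helper3.BrauerPerm
import Cfsg.Agent.Helper75.Ito

set_option linter.style.haveILetI false
set_option linter.unusedVariables false
set_option maxHeartbeats 1000000

set_option autoImplicit false
open Cfsg

namespace Cfsg.Agent.S1513

open Cfsg.Agent.Helper75 in
/-- conjugation of irreducible characters of a normal subgroup. -/
noncomputable def conjIrr {L : Type*} [Group L] (K : Subgroup L) [hK : K.Normal] (x : L)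
    (θ : Cfsg.IrrCharacter K) : Cfsg.IrrCharacter K :=
  ⟨Cfsg.Agent.Helper75.conjFun K x θ, isIrrCharacter_conjFun K x θ.2⟩

open Cfsg.Agent.Helper75 in
/-- Brauer's permutation lemma for conjugation by `x` on a normal subgroup. -/
theorem card_fixed_irr {L : Type*} [Group L] [Finite L] (K : Subgroup L) [hK : K.Normal] (x : L) :
    Nat.card {θ : Cfsg.IrrCharacter K // Cfsg.Agent.Helper75.conjFun K x θ = θ} =
    Nat.card {C : ConjClasses K //
      ConjClasses.map (MulEquiv.toMonoidHom ((MulAut.conjNormal x : MulAut K))) C = C} := by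
  have h := Cfsg.Agent.Helper3.brauer_perm (G := K) (fun k => (MulAut.conjNormal x : MulAut K) k)
    (conjIrr K x) (fun χ g => by
      show Cfsg.Agent.Helper75.conjFun K x χ g = _
      rw [conjFun_eq_comp])
    (fun C => ConjClasses.map (MulEquiv.toMonoidHom ((MulAut.conjNormal x : MulAut K))) C = C)
    (fun g => by
      show IsConj g _ ↔ ConjClasses.mk ((MulAut.conjNormal x : MulAut K) g) = ConjClasses.mk g
      rw [ConjClasses.mk_eq_mk_iff_isConj, isConj_comm])
  rw [← h]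
  apply Nat.card_congr
  exact Equiv.subtypeEquivRight (fun θ => by
    constructor
    · intro h1
      exact Subtype.ext h1
    · intro h1
      exact congrArg Subtype.val h1)

/-- Let L be a finite group with K normal with complement W₁ ≠ 1 a cyclic Hall subgroup, and W₂ ≠ 1 a cyclic subgroup of K equal to C_K(x) for every non-identity x ∈ W₁, with W₁W₂ of odd order. For an irreducible character θ of K: if θ is not fixed under conjugation by some element of W₁, then the function induced from θ to L is an irreducible character of L; and the irreducible characters of K fixed by all of W₁ are exactly Nat.card W₂ in number, each inducing to the sum of Nat.card W₁ pairwise distinct irreducible characters of L. -/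
theorem result {L : Type*} [Group L] [Fintype L] (K W₁ W₂ : Subgroup L) [hK : K.Normal] (hKW₁ : K ⊓ W₁ = ⊥) (hKW₁' : K ⊔ W₁ = ⊤) (hW₁ : W₁ ≠ ⊥) (hW₁c : IsCyclic W₁) (hHall : Nat.Coprime (Nat.card W₁) W₁.index) (hW₂ : W₂ ≠ ⊥) (hW₂c : IsCyclic W₂) (hW₂K : W₂ ≤ K) (hC : ∀ x ∈ W₁, x ≠ 1 → K ⊓ Subgroup.centralizer ({x} : Set L) = W₂) (hodd : Odd (Nat.card ↥(W₁ ⊔ W₂))) : (∀ θ : K → ℂ, Cfsg.IsIrrCharacter K θ → (∃ x ∈ W₁, (fun k : K => θ ⟨x * k * x⁻¹, hK.conj_mem (k : L) k.2 x⟩) ≠ θ) → Cfsg.IsIrrCharacter L (Cfsg.indFun K θ)) ∧ Nat.card {θ : Cfsg.IrrCharacter K // ∀ x ∈ W₁, (fun k : K => (θ : K → ℂ) ⟨x * k * x⁻¹, hK.conj_mem (k : L) k.2 x⟩) = θ} = Nat.card W₂ ∧ (∀ θ : K → ℂ, Cfsg.IsIrrCharacter K θ → (∀ x ∈ W₁, (fun k : K => θ ⟨x * k * x⁻¹, hK.conj_mem (k : L) k.2 x⟩) = θ) → ∃ C : Finset (L → ℂ), C.card = Nat.card W₁ ∧ (∀ μ ∈ C, Cfsg.IsIrrCharacter L μ) ∧ Cfsg.indFun K θ = ∑ μ ∈ C, μ) := by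
  classical
  have hfinIrr : Finite (Cfsg.IrrCharacter K) := inferInstance
  -- cardinalities
  have hKidx : K.index = Nat.card W₁ := by
    have h1 : K.relIndex (W₁ ⊔ K) = K.relIndex W₁ := Subgroup.relIndex_sup_right W₁ K
    rw [sup_comm, hKW₁', Subgroup.relIndex_top_right, ← Subgroup.inf_relIndex_right, hKW₁,
      Subgroup.relIndex_bot_left] at h1
    exact h1
  have hKcard : Nat.card K = W₁.index := by
    have h1 := Subgroup.index_mul_card K
    have h2 := Subgroup.index_mul_card W₁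
    rw [hKidx, ← h2, mul_comm] at h1
    exact Nat.eq_of_mul_eq_mul_right Nat.card_pos h1
  have hcopKW : Nat.Coprime (Nat.card W₁) (Nat.card K) := hKcard ▸ hHall
  obtain ⟨g, hg⟩ := hW₁c
  have hg1 : (g : L) ≠ 1 := by
    intro h
    apply hW₁
    rw [Subgroup.eq_bot_iff_forall]
    intro x hx
    obtain ⟨n, hn⟩ := Subgroup.mem_zpowers_iff.mp (hg ⟨x, hx⟩)
    have e : (g : L) ^ n = x := by
      have := congrArg Subtype.val hn
      simpa using this
    rw [← e, h, one_zpow]
  have hWg : K ⊓ Subgroup.centralizer ({(g : L)} : Set L) = W₂ := hC g g.2 hg1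
  have hdecomp : ∀ l : L, ∃ k ∈ K, ∃ w ∈ W₁, l = k * w := by
    intro l
    have h1 : l ∈ ((K ⊔ W₁ : Subgroup L) : Set L) := by rw [hKW₁']; trivial
    rw [Subgroup.normal_mul] at h1
    obtain ⟨k, hk, w, hw, rfl⟩ := Set.mem_mul.mp h1
    exact ⟨k, hk, w, hw, rfl⟩
  have hW₁comm : ∀ a ∈ W₁, ∀ b ∈ W₁, a * b = b * a := by
    intro a ha b hb
    obtain ⟨n, hn⟩ := Subgroup.mem_zpowers_iff.mp (hg ⟨a, ha⟩)
    obtain ⟨m, hm⟩ := Subgroup.mem_zpowers_iff.mp (hg ⟨b, hb⟩)
    have e1 : (g : L) ^ n = a := by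
      have := congrArg Subtype.val hn
      simpa using this
    have e2 : (g : L) ^ m = b := by
      have := congrArg Subtype.val hm
      simpa using this
    rw [← e1, ← e2]
    exact zpow_mul_comm (g : L) n m
  have hW₂comm : ∀ a ∈ W₂, ∀ b ∈ W₂, a * b = b * a := by
    obtain ⟨g₂, hg₂⟩ := hW₂c
    intro a ha b hb
    obtain ⟨n, hn⟩ := Subgroup.mem_zpowers_iff.mp (hg₂ ⟨a, ha⟩)
    obtain ⟨m, hm⟩ := Subgroup.mem_zpowers_iff.mp (hg₂ ⟨b, hb⟩)
    have e1 : (g₂ : L) ^ n = a := by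
      have := congrArg Subtype.val hn
      simpa using this
    have e2 : (g₂ : L) ^ m = b := by
      have := congrArg Subtype.val hm
      simpa using this
    rw [← e1, ← e2]
    exact zpow_mul_comm (g₂ : L) n m
  -- fixed by g ⇒ fixed by all of W₁
  have hgen : ∀ θ : K → ℂ, Cfsg.Agent.Helper75.conjFun K (g : L) θ = θ →
      ∀ x ∈ W₁, Cfsg.Agent.Helper75.conjFun K x θ = θ := by
    intro θ h x hx
    obtain ⟨n, hn⟩ := Subgroup.mem_zpowers_iff.mp (hg ⟨x, hx⟩)
    have e : (g : L) ^ n = x := by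
      have := congrArg Subtype.val hn
      simpa using this
    have h1 : (g : L) ∈ Cfsg.Agent.Helper75.inertia K θ := h
    have h2 : x ∈ Cfsg.Agent.Helper75.inertia K θ := by
      rw [← e]
      exact (Cfsg.Agent.Helper75.inertia K θ).zpow_mem h1 n
    exact h2
  have hcopx : ∀ x ∈ W₁, Nat.Coprime (orderOf x) (Nat.card K) := fun x hx =>
    Nat.Coprime.coprime_dvd_left (Subgroup.orderOf_dvd_natCard W₁ hx) hcopKW
  have hcount_x : ∀ x ∈ W₁, x ≠ 1 →
      Nat.card {θ : Cfsg.IrrCharacter K // Cfsg.Agent.Helper75.conjFun K x θ = θ} ≤ Nat.card W₂ := by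
    intro x hx hx1
    rw [card_fixed_irr]
    exact Cfsg.Agent.S1512.result K W₂ x hx1 (hcopx x hx)
      (fun y hy hy1 => hC y ((Subgroup.zpowers_le.mpr hx) hy) hy1)
  have hcount_g : Nat.card {θ : Cfsg.IrrCharacter K //
      Cfsg.Agent.Helper75.conjFun K (g : L) θ = θ} = Nat.card W₂ := by
    apply le_antisymm (hcount_x g g.2 hg1)
    rw [card_fixed_irr]
    have hcentg : ∀ w ∈ W₂, (g : L) * w * (g : L)⁻¹ = w := by
      intro w hw
      rw [← hWg] at hw
      have h1 := Subgroup.mem_centralizer_iff.mp (Subgroup.mem_inf.mp hw).2 (g : L)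
        (Set.mem_singleton _)
      rw [h1, mul_inv_cancel_right]
    let F : W₂ → {C : ConjClasses K //
        ConjClasses.map (MulEquiv.toMonoidHom ((MulAut.conjNormal (g : L) : MulAut K))) C = C} :=
      fun w => ⟨ConjClasses.mk ⟨w, hW₂K w.2⟩, by
        show ConjClasses.mk ((MulAut.conjNormal (g : L) : MulAut K) ⟨w, hW₂K w.2⟩) = _
        congr 1
        apply Subtype.ext
        rw [MulAut.conjNormal_apply]
        exact hcentg w w.2⟩
    apply Nat.card_le_card_of_injective F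
    intro w w' hww'
    have h1 : ConjClasses.mk (⟨w, hW₂K w.2⟩ : K) = ConjClasses.mk ⟨w', hW₂K w'.2⟩ :=
      congrArg Subtype.val hww'
    rw [ConjClasses.mk_eq_mk_iff_isConj, isConj_iff] at h1
    obtain ⟨c, hc⟩ := h1
    have hc' : (c : L) * w * (c : L)⁻¹ = w' := by
      have := congrArg Subtype.val hc
      simpa using this
    have hAK : Subgroup.zpowers (g : L) ≤ Subgroup.normalizer (K : Set L) := by
      rw [Subgroup.normalizer_eq_top_iff.mpr hK]; exact le_top
    have hcop : (Nat.card (Subgroup.zpowers (g : L))).Coprime (Nat.card K) := by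
      rw [Nat.card_zpowers]; exact hcopx g g.2
    have hsolv : Group.IsSolvable (Subgroup.zpowers (g : L)) :=
      Group.isSolvable_of_comm (fun a b => by
        obtain ⟨a, ha⟩ := a
        obtain ⟨b, hb⟩ := b
        obtain ⟨i, rfl⟩ := Subgroup.mem_zpowers_iff.mp ha
        obtain ⟨j, rfl⟩ := Subgroup.mem_zpowers_iff.mp hb
        exact Subtype.ext (zpow_mul_comm (g : L) i j))
    have hfixW : ∀ v ∈ W₂, ∀ a ∈ Subgroup.zpowers (g : L), a * v * a⁻¹ = v := by
      intro v hv a ha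
      have h2 : (g : L) ∈ Subgroup.centralizer ({v} : Set L) := by
        rw [Subgroup.mem_centralizer_iff]
        intro h hh
        rw [Set.mem_singleton_iff] at hh
        subst hh
        have h3 := hcentg h hv
        calc h * (g : L) = (g : L) * h * (g : L)⁻¹ * (g : L) := by rw [h3]
          _ = (g : L) * h := by group
      have h4 := Subgroup.mem_centralizer_iff.mp ((Subgroup.zpowers_le.mpr h2) ha) v
        (Set.mem_singleton _)
      rw [← h4, mul_inv_cancel_right]
    obtain ⟨c', hc'mem, hc'w⟩ := @Cfsg.Agent.Helper35.glauberman_conj L _ _ L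
      (Cfsg.Agent.S1512.conjAct L) (Subgroup.zpowers (g : L)) K hAK hcop (Or.inl hsolv)
      (w : L) (w' : L) (hfixW w w.2) (hfixW w' w'.2) (c : L) c.2 hc'
    have hc'w' : c' * (w : L) * c'⁻¹ = w' := hc'w
    have hc'W₂ : c' ∈ W₂ := by
      rw [← hWg]
      refine Subgroup.mem_inf.mpr ⟨(Subgroup.mem_inf.mp hc'mem).1, ?_⟩
      exact Subgroup.centralizer_le (Set.singleton_subset_iff.mpr (Subgroup.mem_zpowers (g : L)))
        (Subgroup.mem_inf.mp hc'mem).2
    apply Subtype.ext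
    rw [← hc'w', hW₂comm c' hc'W₂ w w.2, mul_inv_cancel_right]
  -- key: fixed by a non-identity element of W₁ ⇒ fixed by g
  have hkey : ∀ x ∈ W₁, x ≠ 1 → ∀ θ : Cfsg.IrrCharacter K,
      Cfsg.Agent.Helper75.conjFun K x θ = θ → Cfsg.Agent.Helper75.conjFun K (g : L) θ = θ := by
    intro x hx hx1 θ hθx
    let f : {θ : Cfsg.IrrCharacter K // Cfsg.Agent.Helper75.conjFun K (g : L) θ = θ} →
        {θ : Cfsg.IrrCharacter K // Cfsg.Agent.Helper75.conjFun K x θ = θ} :=
      fun θ => ⟨θ.1, hgen θ.1 θ.2 x hx⟩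
    have hinj : Function.Injective f := by
      intro a b hab
      have h := congrArg Subtype.val hab
      exact Subtype.ext h
    have hbij := hinj.bijective_of_nat_card_le (by rw [hcount_g]; exact hcount_x x hx hx1)
    obtain ⟨θ', hθ'⟩ := hbij.2 ⟨θ, hθx⟩
    have e : θ'.1 = θ := congrArg Subtype.val hθ'
    rw [← e]
    exact θ'.2
  refine ⟨?_, ?_, ?_⟩
  · intro θ hθ hex
    obtain ⟨x, hx, hne⟩ := hex
    have hθcf := Cfsg.Agent.Helper75.isCharacter_isClassFunction'
      (Cfsg.Agent.Helper80.isCharacter_of_irr hθ)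
    have hT : ∀ g : L, g ∈ Cfsg.Agent.Helper75.inertia K θ ↔
        ∀ h : K, θ ⟨g * h * g⁻¹, hK.conj_mem h h.2 g⟩ = θ h :=
      fun g => (Cfsg.Agent.Helper75.mem_inertia K θ g).trans funext_iff
    have hTK : Cfsg.Agent.Helper75.inertia K θ = K := by
      apply le_antisymm _ (Cfsg.Agent.Helper75.le_inertia K θ hθcf)
      intro t ht
      obtain ⟨k, hk, w, hw, rfl⟩ := hdecomp t
      have hwT : w ∈ Cfsg.Agent.Helper75.inertia K θ := by
        have := (Cfsg.Agent.Helper75.inertia K θ).mul_mem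
          ((Cfsg.Agent.Helper75.inertia K θ).inv_mem (Cfsg.Agent.Helper75.le_inertia K θ hθcf hk)) ht
        simpa using this
      by_cases hw1 : w = 1
      · subst hw1
        simpa using hk
      · exfalso
        have h1 := hkey w hw hw1 ⟨θ, hθ⟩ hwT
        exact hne (hgen θ h1 x hx)
    obtain ⟨C, hCirr, hCcard, hCsum, -⟩ := Cfsg.Agent.S1491.result K
      (Cfsg.Agent.Helper75.inertia K θ) θ hθ hT
      (fun x hx y hy => by
        rw [hTK] at hx hy
        exact K.mul_mem (K.mul_mem (K.mul_mem hx hy) (K.inv_mem hx)) (K.inv_mem hy))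
      (by rw [hTK, Subgroup.relIndex_self]; exact Nat.coprime_one_right _)
    rw [hTK, Subgroup.relIndex_self] at hCcard
    obtain ⟨μ, rfl⟩ := Finset.card_eq_one.mp hCcard
    rw [hCsum, Finset.sum_singleton]
    exact hCirr μ (Finset.mem_singleton_self μ)
  · rw [← hcount_g]
    apply Nat.card_congr
    exact Equiv.subtypeEquivRight (fun θ => ⟨fun h => h g g.2, fun h x hx => hgen θ h x hx⟩)
  · intro θ hθ hfix
    have hθcf := Cfsg.Agent.Helper75.isCharacter_isClassFunction'
      (Cfsg.Agent.Helper80.isCharacter_of_irr hθ)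
    have hT : ∀ g : L, g ∈ (⊤ : Subgroup L) ↔
        ∀ h : K, θ ⟨g * h * g⁻¹, hK.conj_mem h h.2 g⟩ = θ h := by
      intro l
      simp only [Subgroup.mem_top, true_iff]
      obtain ⟨k, hk, w, hw, rfl⟩ := hdecomp l
      have h1 : k * w ∈ Cfsg.Agent.Helper75.inertia K θ :=
        (Cfsg.Agent.Helper75.inertia K θ).mul_mem (Cfsg.Agent.Helper75.le_inertia K θ hθcf hk)
          (hfix w hw)
      exact funext_iff.mp h1
    have hab : ∀ x ∈ (⊤ : Subgroup L), ∀ y ∈ (⊤ : Subgroup L), x * y * x⁻¹ * y⁻¹ ∈ K := by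
      intro x _ y _
      obtain ⟨k₁, hk₁, w₁, hw₁, rfl⟩ := hdecomp x
      obtain ⟨k₂, hk₂, w₂, hw₂, rfl⟩ := hdecomp y
      rw [← QuotientGroup.eq_one_iff (N := K)]
      have e1 : ((k₁ : L) : L ⧸ K) = 1 := (QuotientGroup.eq_one_iff _).mpr hk₁
      have e2 : ((k₂ : L) : L ⧸ K) = 1 := (QuotientGroup.eq_one_iff _).mpr hk₂
      have e3 : ((w₁ : L) : L ⧸ K) * ((w₂ : L) : L ⧸ K) = ((w₂ : L) : L ⧸ K) * ((w₁ : L) : L ⧸ K) := by
        rw [← QuotientGroup.mk_mul, hW₁comm w₁ hw₁ w₂ hw₂, QuotientGroup.mk_mul]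
      simp only [QuotientGroup.mk_mul, QuotientGroup.mk_inv, e1, e2, one_mul]
      rw [e3]
      group
    obtain ⟨C, hCirr, hCcard, hCsum, -⟩ := Cfsg.Agent.S1491.result K ⊤ θ hθ hT hab
      (by rw [Subgroup.relIndex_top_right, hKidx]; exact hcopKW.symm)
    refine ⟨C, ?_, hCirr, hCsum⟩
    rw [hCcard, Subgroup.relIndex_top_right, hKidx]

end Cfsg.Agent.S1513
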