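import Cfsg.Statements.S1514
import Cfsg.Agent.S1509
import Cfsg.Agent.Helper4.GenChar
import Cfsg.Agent.Helper75.InnerLin
import Cfsg.Agent.Helper79.Basic
import Cfsg.Agent.Helper3.CharBasic

set_option autoImplicit false
set_option linter.style.haveILetI false
set_option linter.unusedVariables false
set_option maxHeartbeats 1000000
open Cfsg
open Cfsg.Agent.Helper75

namespace Cfsg.Agent.S1514

/-- Let S be a nonempty set of irreducible characters of the finite group L, closed under complex conjugation and containing no real-valued member, and τ a linear isometry on the integer combinations of S vanishing at 1, with values virtual characters of G vanishing at 1. Then there is a choice R making (S, τ, R) a coherence system. -/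
theorem result {L : Type*} [Group L] [Fintype L] {G : Type*} [Group G] [Fintype G] (S : Set (L → ℂ)) (hS : S.Nonempty) (hirr : ∀ χ ∈ S, Cfsg.IsIrrCharacter L χ) (hconj : ∀ χ ∈ S, Cfsg.conjFun χ ∈ S ∧ Cfsg.conjFun χ ≠ χ) (τ : (L → ℂ) → (G → ℂ)) (hτ : Cfsg.IsLinearIsometryOn (Cfsg.zspanOn S {1}ᶜ) τ) (hτ1 : ∀ α ∈ Cfsg.zspanOn S {1}ᶜ, τ α 1 = 0) : ∃ R : (L → ℂ) → Finset (G → ℂ), Cfsg.IsCoherenceSystem S τ R := by
  classical
  obtain ⟨hadd, hsmul, hiso, hgen⟩ := hτ
  have hmemE : ∀ χ ∈ S, χ - conjFun χ ∈ zspanOn S {1}ᶜ := by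
    intro χ hχ
    refine ⟨Submodule.sub_mem _ (Submodule.subset_span hχ)
      (Submodule.subset_span (hconj χ hχ).1), ?_⟩
    intro x hx
    have hx1 : x = 1 := by simpa using hx
    subst hx1
    obtain ⟨n, -, hn⟩ := Cfsg.Agent.Helper3.irr_apply_one_eq_nat (hirr χ hχ)
    simp [conjFun, hn]
  have hconjInner : ∀ f g : L → ℂ,
      classInner (conjFun f) (conjFun g) = (starRingEnd ℂ) (classInner f g) := by
    intro f g
    unfold classInner conjFun
    rw [map_mul, map_sum, map_inv₀, Complex.conj_natCast]
    congr 1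
    refine Finset.sum_congr rfl fun x _ => ?_
    rw [map_mul]
  have hconjconj : ∀ f : L → ℂ, conjFun (conjFun f) = f := by
    intro f; funext x; simp [conjFun]
  have hSorth : ∀ χ ∈ S, ∀ φ ∈ S, χ ≠ φ → classInner χ φ = 0 :=
    fun χ hχ φ hφ h => classInner_irr_of_ne (hirr χ hχ) (hirr φ hφ) h
  have hSself : ∀ χ ∈ S, classInner χ χ = 1 := fun χ hχ => classInner_irr_self (hirr χ hχ)
  have hnorm2 : ∀ χ ∈ S, classInner (τ (χ - conjFun χ)) (τ (χ - conjFun χ)) = 2 := by
    intro χ hχ
    rw [hiso _ (hmemE χ hχ) _ (hmemE χ hχ)]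
    have hc := (hconj χ hχ)
    rw [classInner_sub_left, classInner_sub_right, classInner_sub_right, hSself χ hχ,
      hSself _ hc.1, hSorth χ hχ _ hc.1 hc.2.symm, hSorth _ hc.1 χ hχ hc.2]
    norm_num
  have key : ∀ χ, χ ∈ S → ∃ a b : IrrCharacter G,
      a ≠ b ∧ τ (χ - conjFun χ) = (a : G → ℂ) - (b : G → ℂ) := by
    intro χ hχ
    exact Cfsg.Agent.Helper4.genChar_norm_two (hgen _ (hmemE χ hχ)) (hnorm2 χ hχ)
      (hτ1 _ (hmemE χ hχ))
  obtain ⟨χ₀, hχ₀⟩ := hS
  obtain ⟨a₀, -, -, -⟩ := key χ₀ hχ₀
  haveI : Nonempty (IrrCharacter G) := ⟨a₀⟩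
  choose! a b hab using key
  refine ⟨fun χ => {(a χ : G → ℂ), -(b χ : G → ℂ)}, ?_⟩
  have hirrinner : ∀ x y : IrrCharacter G,
      classInner (x : G → ℂ) (y : G → ℂ) = if x = y then 1 else 0 := by
    intro x y
    have := classInner_irr x y
    convert this
  have hane : ∀ χ ∈ S, (a χ : G → ℂ) ≠ -(b χ : G → ℂ) := by
    intro χ hχ h
    have h1 := classInner_irr_self (a χ).2
    have h2 : classInner (a χ : G → ℂ) (-(b χ : G → ℂ)) = 0 := by
      rw [classInner_neg_right, hirrinner, if_neg (hab χ hχ).1, neg_zero]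
    rw [← h] at h2
    rw [h2] at h1
    exact zero_ne_one h1
  exact
    { nonempty := ⟨χ₀, hχ₀⟩
      isCharacter := fun χ hχ => Cfsg.Agent.Helper79.isCharacter_of_irr (hirr χ hχ)
      conj_mem := fun χ hχ => (hconj χ hχ).1
      conj_ne := fun χ hχ => (hconj χ hχ).2
      isometry := ⟨hadd, hsmul, hiso, hgen⟩
      map_one := hτ1
      orthogonal := hSorth
      orthonormal := by
        intro χ hχ α hα β hβ
        simp only [Finset.mem_insert, Finset.mem_singleton] at hα hβ
        have hne := hane χ hχ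
        have habne := (hab χ hχ).1
        rcases hα with rfl | rfl <;> rcases hβ with rfl | rfl
        · rw [if_pos rfl]; exact classInner_irr_self (a χ).2
        · rw [if_neg hne, classInner_neg_right, hirrinner, if_neg habne, neg_zero]
        · rw [if_neg (Ne.symm hne), classInner_neg_left, hirrinner, if_neg (Ne.symm habne),
            neg_zero]
        · rw [if_pos rfl, classInner_neg_left, classInner_neg_right, neg_neg]
          exact classInner_irr_self (b χ).2
      virtual := by
        intro χ hχ α hα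
        simp only [Finset.mem_insert, Finset.mem_singleton] at hα
        rcases hα with rfl | rfl
        · exact ⟨a χ, 0, Cfsg.Agent.Helper79.isCharacter_of_irr (a χ).2,
            Cfsg.Agent.Helper79.isCharacter_zero, by simp⟩
        · exact ⟨0, b χ, Cfsg.Agent.Helper79.isCharacter_zero,
            Cfsg.Agent.Helper79.isCharacter_of_irr (b χ).2, by simp⟩
      sum_eq := by
        intro χ hχ
        rw [Finset.sum_pair (hane χ hχ), (hab χ hχ).2, sub_eq_add_neg]
      disjoint := by
        intro χ hχ φ hφ h1 h2 α hα β hβ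
        simp only [Finset.mem_insert, Finset.mem_singleton] at hα hβ
        have hmix : classInner ((a φ : G → ℂ) - (b φ : G → ℂ))
            (((1 : ℝ) : ℂ) • (a χ : G → ℂ) - ((1 : ℝ) : ℂ) • (b χ : G → ℂ)) = 0 := by
          simp only [Complex.ofReal_one, one_smul]
          rw [← (hab φ hφ).2, ← (hab χ hχ).2, hiso _ (hmemE φ hφ) _ (hmemE χ hχ)]
          rw [classInner_sub_left, classInner_sub_right, classInner_sub_right, h1, h2]
          have h3 : classInner (conjFun φ) χ = 0 := by
            have := hconjInner φ (conjFun χ)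
            rw [hconjconj, h2, map_zero] at this
            exact this
          have h4 : classInner (conjFun φ) (conjFun χ) = 0 := by
            rw [hconjInner, h1, map_zero]
          rw [h3, h4]; ring
        have hdeg : ∀ ξ ∈ S, (a ξ : G → ℂ) 1 = (b ξ : G → ℂ) 1 := by
          intro ξ hξ
          have := hτ1 _ (hmemE ξ hξ)
          rw [(hab ξ hξ).2] at this
          exact sub_eq_zero.mp this
        have res := Cfsg.Agent.S1509.result (a φ : G → ℂ) (b φ) (a χ) (b χ)
          (Or.inl (a φ).2) (Or.inl (b φ).2) (Or.inl (a χ).2) (Or.inl (b χ).2) 1 1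
          one_ne_zero one_ne_zero (by rw [hirrinner, if_neg (hab φ hφ).1])
          (by rw [hirrinner, if_neg (hab χ hχ).1]) hmix (hdeg φ hφ)
          (by simp [hdeg χ hχ])
        obtain ⟨r1, r2, r3, r4⟩ := res
        rcases hα with rfl | rfl <;> rcases hβ with rfl | rfl
        · exact r1
        · rw [classInner_neg_right, r2, neg_zero]
        · rw [classInner_neg_left, r3, neg_zero]
        · rw [classInner_neg_left, classInner_neg_right, r4]; simp }

end Cfsg.Agent.S1514
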