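import Cfsg.Statements.S1515
import Cfsg.Agent.Helper75.InnerLin
import Cfsg.Agent.Helper15.CharInner

set_option autoImplicit false
set_option linter.style.haveILetI false
set_option linter.unusedVariables false
set_option maxHeartbeats 1000000
open Cfsg
open Cfsg.Agent.Helper75

namespace Cfsg.Agent.S1515

theorem genChar_inner_int {G : Type*} [Group G] [Fintype G] {X α : G → ℂ}
    (hX : Cfsg.IsGeneralizedCharacter G X) (hα : Cfsg.IsGeneralizedCharacter G α) :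
    ∃ m : ℤ, Cfsg.classInner X α = (m : ℂ) := by
  obtain ⟨c₁, c₂, hc₁, hc₂, rfl⟩ := hX
  obtain ⟨d₁, d₂, hd₁, hd₂, rfl⟩ := hα
  obtain ⟨n11, h11⟩ := Cfsg.Agent.Helper15.inner_nat hc₁ hd₁
  obtain ⟨n12, h12⟩ := Cfsg.Agent.Helper15.inner_nat hc₁ hd₂
  obtain ⟨n21, h21⟩ := Cfsg.Agent.Helper15.inner_nat hc₂ hd₁
  obtain ⟨n22, h22⟩ := Cfsg.Agent.Helper15.inner_nat hc₂ hd₂
  refine ⟨(n11 : ℤ) - n12 - (n21 - n22), ?_⟩
  rw [classInner_sub_left, classInner_sub_right, classInner_sub_right, h11, h12, h21, h22]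
  push_cast
  ring

/-- Let (S, τ, R) be a coherence system from L to G, χ ∈ S, and ψ an integer combination of S with ⟨χ, ψ⟩ = ⟨conj χ, ψ⟩ = 0. Let τ₁ be a linear isometry on the integer combinations of χ − ψ and χ − conj χ, with virtual-character values, agreeing with τ on integer multiples of χ − conj χ. Then the sum over α ∈ R χ of the squared absolute values of ⟨τ₁(χ − ψ), α⟩ is at least ⟨χ, χ⟩; and if ⟨τ₁(χ − ψ), τ₁(χ − ψ)⟩ minus that sum is at least ⟨ψ, ψ⟩, then the sum equals ⟨χ, χ⟩ and every ⟨τ₁(χ − ψ), α⟩ with α ∈ R χ is 0 or 1. -/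
theorem result {L : Type*} [Group L] [Fintype L] {G : Type*} [Group G] [Fintype G] (S : Set (L → ℂ)) (τ : (L → ℂ) → (G → ℂ)) (R : (L → ℂ) → Finset (G → ℂ)) (hS : Cfsg.IsCoherenceSystem S τ R) (χ : L → ℂ) (hχ : χ ∈ S) (ψ : L → ℂ) (hψ : ψ ∈ Cfsg.zspan S) (h1 : Cfsg.classInner χ ψ = 0) (h2 : Cfsg.classInner (Cfsg.conjFun χ) ψ = 0) (τ₁ : (L → ℂ) → (G → ℂ)) (hτ₁ : Cfsg.IsLinearIsometryOn (Cfsg.zspan {χ - ψ, χ - Cfsg.conjFun χ}) τ₁) (hagree : ∀ n : ℤ, τ₁ (n • (χ - Cfsg.conjFun χ)) = τ (n • (χ - Cfsg.conjFun χ))) : (Cfsg.classInner χ χ).re ≤ ∑ α ∈ R χ, ‖Cfsg.classInner (τ₁ (χ - ψ)) α‖ ^ 2 ∧ ((Cfsg.classInner ψ ψ).re ≤ (Cfsg.classInner (τ₁ (χ - ψ)) (τ₁ (χ - ψ))).re - ∑ α ∈ R χ, ‖Cfsg.classInner (τ₁ (χ - ψ)) α‖ ^ 2 → (∑ α ∈ R χ, ‖Cfsg.classInner (τ₁ (χ - ψ)) α‖ ^ 2 = (Cfsg.classInner χ χ).re ∧ ∀ α ∈ R χ, Cfsg.classInner (τ₁ (χ - ψ)) α = 0 ∨ Cfsg.classInner (τ₁ (χ - ψ)) α = 1)) := by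
  classical
  obtain ⟨hadd, hsmul, hiso, hgen⟩ := hτ₁
  have hE1 : χ - ψ ∈ Cfsg.zspan {χ - ψ, χ - Cfsg.conjFun χ} :=
    Submodule.subset_span (by simp)
  have hE2 : χ - Cfsg.conjFun χ ∈ Cfsg.zspan {χ - ψ, χ - Cfsg.conjFun χ} :=
    Submodule.subset_span (by simp)
  have hag : τ₁ (χ - Cfsg.conjFun χ) = ∑ α ∈ R χ, α := by
    have := hagree 1
    rw [one_smul] at this
    rw [this, hS.sum_eq χ hχ]
  have hψχ : classInner ψ χ = 0 := by rw [classInner_conj_symm χ ψ, h1, map_zero]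
  have hψχbar : classInner ψ (conjFun χ) = 0 := by
    rw [classInner_conj_symm (conjFun χ) ψ, h2, map_zero]
  have hχχbar : classInner χ (conjFun χ) = 0 :=
    hS.orthogonal χ hχ _ (hS.conj_mem χ hχ) (Ne.symm (hS.conj_ne χ hχ))
  have hsum : ∑ α ∈ R χ, classInner (τ₁ (χ - ψ)) α = classInner χ χ := by
    rw [← classInner_sum_right, ← hag, hiso _ hE1 _ hE2, classInner_sub_left,
      classInner_sub_right, classInner_sub_right, hχχbar, hψχ, hψχbar]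
    ring
  have hint : ∀ α ∈ R χ, ∃ m : ℤ, classInner (τ₁ (χ - ψ)) α = (m : ℂ) :=
    fun α hα => genChar_inner_int (hgen _ hE1) (hS.virtual χ hχ α hα)
  choose! m hm using hint
  have hsum' : classInner χ χ = ((∑ α ∈ R χ, m α : ℤ) : ℂ) := by
    rw [← hsum]
    push_cast
    exact Finset.sum_congr rfl hm
  have hre : (classInner χ χ).re = ∑ α ∈ R χ, (m α : ℝ) := by
    rw [hsum']
    simp
  have hnormsq : ∀ α ∈ R χ, ‖classInner (τ₁ (χ - ψ)) α‖ ^ 2 = ((m α : ℝ)) ^ 2 := by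
    intro α hα
    rw [hm α hα, Complex.norm_intCast, sq_abs]
  have hle : ∀ α ∈ R χ, (m α : ℝ) ≤ (m α : ℝ) ^ 2 := by
    intro α _
    exact_mod_cast Int.le_self_sq (m α)
  rw [Finset.sum_congr rfl hnormsq, hre]
  refine ⟨Finset.sum_le_sum hle, ?_⟩
  intro hB
  have hXX : classInner (τ₁ (χ - ψ)) (τ₁ (χ - ψ)) = classInner χ χ + classInner ψ ψ := by
    rw [hiso _ hE1 _ hE1, classInner_sub_left, classInner_sub_right, classInner_sub_right, h1,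
      hψχ]
    ring
  rw [hXX, Complex.add_re, hre] at hB
  have hge : ∑ α ∈ R χ, (m α : ℝ) ^ 2 ≤ ∑ α ∈ R χ, (m α : ℝ) := by linarith
  have heq : ∑ α ∈ R χ, (m α : ℝ) = ∑ α ∈ R χ, (m α : ℝ) ^ 2 :=
    le_antisymm (Finset.sum_le_sum hle) hge
  refine ⟨heq.symm, ?_⟩
  intro α hα
  have h3 := (Finset.sum_eq_sum_iff_of_le hle).mp heq α hα
  have h4 : (m α : ℝ) * ((m α : ℝ) - 1) = 0 := by
    have : (m α : ℝ) ^ 2 - (m α : ℝ) = 0 := by linarith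
    linear_combination this
  rcases mul_eq_zero.mp h4 with h5 | h5
  · left
    rw [hm α hα]
    have : m α = 0 := by exact_mod_cast h5
    rw [this]; simp
  · right
    rw [hm α hα]
    have : m α = 1 := by
      have h6 : (m α : ℝ) = 1 := by linarith
      exact_mod_cast h6
    rw [this]; simp

end Cfsg.Agent.S1515
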