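import Cfsg.Statements.S1518
import Cfsg.Agent.Helper3.DadeZ3
import Cfsg.Agent.Helper3.Exceptional
import Cfsg.Agent.Helper75.InnerLin

set_option autoImplicit false
open Cfsg

namespace Cfsg.Agent.S1518

/-- Under the Dade hypothesis for (A, L, H): if χ is an irreducible character of L vanishing at every non-identity element of L outside A, then the Dade image of χ − conj χ equals μ − conj μ for some irreducible character μ of G. -/
theorem result {G : Type*} [Group G] [Fintype G] (A : Set G) (L : Subgroup G) [Fintype L] (H : G → Subgroup G) (hD : Cfsg.DadeHypothesis A L H) (χ : L → ℂ) (hχ : Cfsg.IsIrrCharacter L χ) (hsupp : ∀ x : L, x ≠ 1 → (x : G) ∉ A → χ x = 0) : ∃ μ : G → ℂ, Cfsg.IsIrrCharacter G μ ∧ Cfsg.dadeIsometry A L H (χ - Cfsg.conjFun χ) = μ - Cfsg.conjFun μ := by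
  classical
  have hχc : Cfsg.IsCharacter L χ := Cfsg.Agent.Helper79.isCharacter_of_irr hχ
  have hχb : Cfsg.IsIrrCharacter L (Cfsg.conjFun χ) := Cfsg.Agent.Helper79.isIrrCharacter_conj hχ
  by_cases hreal : Cfsg.conjFun χ = χ
  · refine ⟨fun _ => 1, Cfsg.Agent.Helper79.isIrrCharacter_one, ?_⟩
    have h0 : χ - Cfsg.conjFun χ = 0 := by rw [hreal]; exact sub_self χ
    rw [h0]
    funext g
    unfold Cfsg.dadeIsometry Cfsg.conjFun
    split_ifs <;> simp
  · set α : L → ℂ := χ - Cfsg.conjFun χ with hαdef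
    have hα : Cfsg.IsGeneralizedCharacter L α :=
      ⟨χ, Cfsg.conjFun χ, hχc, Cfsg.Agent.Helper79.isCharacter_of_irr hχb, rfl⟩
    have hαA : ∀ x : L, (x : G) ∉ A → α x = 0 := by
      intro x hx
      have hαx : α x = χ x - (starRingEnd ℂ) (χ x) := rfl
      by_cases hx1 : x = 1
      · obtain ⟨n, hn⟩ := Cfsg.Agent.Helper79.isCharacter_exists_one_eq hχc
        rw [hαx, hx1, hn]
        simp
      · rw [hαx, hsupp x hx1 hx]
        simp
    have hθ := Cfsg.Agent.Helper3.dade_isGeneralizedCharacter hD α hα hαA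
    have hαcl := Cfsg.Agent.Helper3.isClassFunction_of_isGeneralizedCharacter hα
    have hθcl := Cfsg.Agent.Helper3.isClassFunction_of_isGeneralizedCharacter hθ
    have hne1 : χ ≠ Cfsg.conjFun χ := fun h => hreal h.symm
    have hnorm : Cfsg.classInner (Cfsg.dadeIsometry A L H α) (Cfsg.dadeIsometry A L H α) = 2 := by
      rw [(Cfsg.Agent.S1500.result A L H hD α hαcl hαA).1 α hαcl hαA, hαdef,
        Cfsg.Agent.Helper75.classInner_sub_left, Cfsg.Agent.Helper75.classInner_sub_right,
        Cfsg.Agent.Helper75.classInner_sub_right,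
        Cfsg.Agent.Helper75.classInner_irr_self hχ, Cfsg.Agent.Helper75.classInner_irr_self hχb,
        Cfsg.Agent.Helper75.classInner_irr_of_ne hχ hχb hne1,
        Cfsg.Agent.Helper75.classInner_irr_of_ne hχb hχ hreal]
      norm_num
    have h1 : Cfsg.dadeIsometry A L H α 1 = 0 := by
      apply Cfsg.Agent.Helper25.dadeIsometry_eq_zero
      rintro ⟨a, ha, x, u, hu, hx⟩
      have hau : (a : G) * u = 1 := by rw [← hx]; group
      have hu2 : u = (a : G)⁻¹ := eq_inv_of_mul_eq_one_right hau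
      have haH : (a : G) ∈ H (a : G) := by
        have := (H (a : G)).inv_mem hu
        rwa [hu2, inv_inv] at this
      have hmem : (a : G) ∈ H (a : G) ⊓ (L ⊓ Subgroup.centralizer ({(a : G)} : Set G)) :=
        ⟨haH, Cfsg.Agent.Helper25.dade_mem_inf hD ha⟩
      rw [hD.inf_eq_bot _ ha, Subgroup.mem_bot] at hmem
      rw [hmem] at ha
      exact hD.one_not_mem ha
    have hconj : ∀ g : G, (starRingEnd ℂ) (Cfsg.dadeIsometry A L H α g)
        = - Cfsg.dadeIsometry A L H α g := by
      intro g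
      unfold Cfsg.dadeIsometry
      split_ifs with h
      · rw [hαdef]
        simp [Cfsg.conjFun]
      · simp
    obtain ⟨X, Y, hXY, hdec⟩ := Cfsg.Agent.Helper3.exists_irr_sub_of_norm_two
      (Cfsg.dadeIsometry A L H α) hθcl
      (fun θ => Cfsg.Agent.Helper3.dade_classInner_int hD α hα hαA
        (Cfsg.Agent.Helper79.irr_isCharacter θ)) hnorm h1
    have hXb : Cfsg.IsIrrCharacter G (Cfsg.conjFun (X : G → ℂ)) :=
      Cfsg.Agent.Helper79.isIrrCharacter_conj X.2
    have hYb : Cfsg.IsIrrCharacter G (Cfsg.conjFun (Y : G → ℂ)) :=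
      Cfsg.Agent.Helper79.isIrrCharacter_conj Y.2
    have hsum : Cfsg.conjFun (X : G → ℂ) + (X : G → ℂ)
        = (Y : G → ℂ) + Cfsg.conjFun (Y : G → ℂ) := by
      funext g
      have h2 := hconj g
      rw [hdec] at h2
      simp only [Pi.sub_apply, map_sub] at h2
      simp only [Pi.add_apply, Cfsg.conjFun]
      linear_combination h2
    have hY : (Y : G → ℂ) = Cfsg.conjFun (X : G → ℂ) := by
      by_contra hne
      have e : Cfsg.classInner (Cfsg.conjFun (X : G → ℂ) + (X : G → ℂ)) (Y : G → ℂ)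
          = Cfsg.classInner ((Y : G → ℂ) + Cfsg.conjFun (Y : G → ℂ)) (Y : G → ℂ) := by rw [hsum]
      rw [Cfsg.Agent.Helper75.classInner_add_left, Cfsg.Agent.Helper75.classInner_add_left,
        Cfsg.Agent.Helper75.classInner_irr_of_ne hXb Y.2 (fun h => hne h.symm),
        Cfsg.Agent.Helper75.classInner_irr_of_ne X.2 Y.2
          (fun h => hXY (Subtype.ext h)),
        Cfsg.Agent.Helper75.classInner_irr_self Y.2] at e
      by_cases hYY : Cfsg.conjFun (Y : G → ℂ) = (Y : G → ℂ)
      · rw [hYY, Cfsg.Agent.Helper75.classInner_irr_self Y.2] at e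
        norm_num at e
      · rw [Cfsg.Agent.Helper75.classInner_irr_of_ne hYb Y.2 hYY] at e
        norm_num at e
    exact ⟨X, X.2, by rw [hdec, hY]⟩

end Cfsg.Agent.S1518
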