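import Cfsg.Statements.S1519
import Cfsg.Agent.Helper25.Coh5
import Cfsg.Agent.S1492

set_option linter.style.haveILetI false
set_option linter.unusedVariables false
set_option maxHeartbeats 1000000

set_option autoImplicit false
open Cfsg

namespace Cfsg.Agent.S1519

/-- Let K be a solvable normal subgroup of the finite group L and (S, τ, R) a coherence system from L to G where S is the set of functions induced from non-principal irreducible characters of K; write S(A) for those induced from characters whose kernel contains A. Let A, B, C, D be normal subgroups of L with A < K, B < K, B ≤ D ≤ C ≤ K and every commutator of D with C in B. If S(A) is coherent and 4 * [L:C]^2 * [C:D] < ([K:A] − 1)^2, then S(B) is coherent. -/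
theorem result {L : Type*} [Group L] [Fintype L] {G : Type*} [Group G] [Fintype G] (K : Subgroup L) [hK : K.Normal] (hsolv : Group.IsSolvable K) (τ : (L → ℂ) → (G → ℂ)) (R : (L → ℂ) → Finset (G → ℂ)) (hS : Cfsg.IsCoherenceSystem (Cfsg.inducedIrrAbove K ⊥) τ R) (A B C D : Subgroup L) [A.Normal] [B.Normal] [C.Normal] [D.Normal] (hAK : A < K) (hBK : B < K) (hBD : B ≤ D) (hDC : D ≤ C) (hCK : C ≤ K) (hcent : ∀ x ∈ D, ∀ y ∈ C, x * y * x⁻¹ * y⁻¹ ∈ B) (hA : Cfsg.IsCoherent (Cfsg.inducedIrrAbove K A) {1}ᶜ τ) (hlt : 4 * C.index ^ 2 * D.relIndex C < (A.relIndex K - 1) ^ 2) : Cfsg.IsCoherent (Cfsg.inducedIrrAbove K B) {1}ᶜ τ := by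
  classical
  refine Cfsg.Agent.Helper25.coherent_inducedIrrAbove_of_bound K hsolv τ R hS A B hAK hBK hA ?_
  intro θ hθ hθker t ht
  have hBn : (B : Subgroup L).Normal := inferInstance
  have h1 := Cfsg.Agent.S1492.result θ hθ (B.subgroupOf K) (C.subgroupOf K) (D.subgroupOf K)
    (fun x hx => Subgroup.mem_subgroupOf.mpr (hBD (Subgroup.mem_subgroupOf.mp hx)))
    (fun x hx => Subgroup.mem_subgroupOf.mpr (hDC (Subgroup.mem_subgroupOf.mp hx)))
    (fun c _ b hb => Subgroup.mem_subgroupOf.mpr (by
      have := hBn.conj_mem _ (Subgroup.mem_subgroupOf.mp hb) (c : L)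
      simpa using this))
    (fun d hd c hc => Subgroup.mem_subgroupOf.mpr (by
      have := hcent _ (Subgroup.mem_subgroupOf.mp hd) _ (Subgroup.mem_subgroupOf.mp hc)
      simpa using this))
    (fun b hb => hθker b (Subgroup.mem_subgroupOf.mp hb))
  rw [ht, Complex.norm_natCast] at h1
  have hcC : Nat.card (C.subgroupOf K) = Nat.card C :=
    Nat.card_congr (Subgroup.subgroupOfEquivOfLe hCK).toEquiv
  have hcD : Nat.card (D.subgroupOf K) = Nat.card D :=
    Nat.card_congr (Subgroup.subgroupOfEquivOfLe (hDC.trans hCK)).toEquiv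
  rw [hcC, hcD] at h1
  have h2 : t ^ 2 * Nat.card C * Nat.card D ≤ Nat.card K ^ 2 := by exact_mod_cast h1
  have hKC : Nat.card K = Nat.card C * C.relIndex K := by
    have := Subgroup.relIndex_mul_relIndex (⊥ : Subgroup L) C K bot_le hCK
    rw [Subgroup.relIndex_bot_left, Subgroup.relIndex_bot_left] at this
    exact this.symm
  have hCD : Nat.card C = Nat.card D * D.relIndex C := by
    have := Subgroup.relIndex_mul_relIndex (⊥ : Subgroup L) D C bot_le hDC
    rw [Subgroup.relIndex_bot_left, Subgroup.relIndex_bot_left] at this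
    exact this.symm
  have hCidx : C.index = C.relIndex K * K.index := (Subgroup.relIndex_mul_index hCK).symm
  have hCpos : 0 < Nat.card C := Nat.card_pos
  have hDpos : 0 < Nat.card D := Nat.card_pos
  have h3 : t ^ 2 ≤ C.relIndex K ^ 2 * D.relIndex C := by
    have h4 : t ^ 2 * (Nat.card C * Nat.card D) ≤
        (C.relIndex K ^ 2 * D.relIndex C) * (Nat.card C * Nat.card D) := by
      calc t ^ 2 * (Nat.card C * Nat.card D) = t ^ 2 * Nat.card C * Nat.card D := by ring
        _ ≤ Nat.card K ^ 2 := h2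
        _ = (Nat.card C * C.relIndex K) * (Nat.card C * C.relIndex K) := by rw [hKC]; ring
        _ = (Nat.card C * C.relIndex K) * ((Nat.card D * D.relIndex C) * C.relIndex K) := by
            rw [← hCD]
        _ = (C.relIndex K ^ 2 * D.relIndex C) * (Nat.card C * Nat.card D) := by ring
    exact Nat.le_of_mul_le_mul_right h4 (Nat.mul_pos hCpos hDpos)
  have h5 : (2 * K.index * t) ^ 2 < (A.relIndex K - 1) ^ 2 := by
    calc (2 * K.index * t) ^ 2 = 4 * K.index ^ 2 * t ^ 2 := by ring
      _ ≤ 4 * K.index ^ 2 * (C.relIndex K ^ 2 * D.relIndex C) := Nat.mul_le_mul_left _ h3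
      _ = 4 * C.index ^ 2 * D.relIndex C := by rw [hCidx]; ring
      _ < (A.relIndex K - 1) ^ 2 := hlt
  have h6 : 2 * K.index * t < A.relIndex K - 1 := lt_of_pow_lt_pow_left₀ 2 (Nat.zero_le _) h5
  generalize 2 * K.index * t = m at h6 ⊢
  omega

end Cfsg.Agent.S1519
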