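import Cfsg.Statements.S1520
import Cfsg.Agent.S1519

set_option linter.style.haveILetI false
set_option linter.unusedVariables false
set_option maxHeartbeats 1000000
open scoped commutatorElement

set_option autoImplicit false
open Cfsg

namespace Cfsg.Agent.S1520

/-- Let K be a solvable normal subgroup of the finite group L and (S, τ, R) a coherence system from L to G with S the functions induced from non-principal irreducible characters of K; S(A) the members of S induced from characters whose kernel contains A. Let M ≤ H₁ ≤ H ≤ K be normal subgroups of L such that every term of the lower central series of H eventually lies in M (H/M nilpotent), S(H₁) is coherent and [H:H₁] > 4 * [L:K]^2 + 1. Then S(M) is coherent. -/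
theorem result {L : Type*} [Group L] [Fintype L] {G : Type*} [Group G] [Fintype G] (K : Subgroup L) [hK : K.Normal] (hsolv : Group.IsSolvable K) (τ : (L → ℂ) → (G → ℂ)) (R : (L → ℂ) → Finset (G → ℂ)) (hS : Cfsg.IsCoherenceSystem (Cfsg.inducedIrrAbove K ⊥) τ R) (M H₁ H : Subgroup L) [M.Normal] [H₁.Normal] [H.Normal] (hMH₁ : M ≤ H₁) (hH₁H : H₁ ≤ H) (hHK : H ≤ K) [(M.subgroupOf H).Normal] (hnil : Group.IsNilpotent (↥H ⧸ M.subgroupOf H)) (hcoh : Cfsg.IsCoherent (Cfsg.inducedIrrAbove K H₁) {1}ᶜ τ) (hbig : 4 * K.index ^ 2 + 1 < H₁.relIndex H) : Cfsg.IsCoherent (Cfsg.inducedIrrAbove K M) {1}ᶜ τ := by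
  classical
  obtain ⟨n, hn⟩ := Subgroup.nilpotent_iff_lowerCentralSeries.mp hnil
  have hl : 0 < K.index := Nat.pos_of_ne_zero Subgroup.index_ne_zero_of_finite
  have hH₁K : H₁ < K := by
    refine lt_of_le_of_ne (hH₁H.trans hHK) ?_
    intro h
    have h1 : H = H₁ := le_antisymm (h ▸ hHK) hH₁H
    rw [h1, Subgroup.relIndex_self] at hbig
    omega
  have key : ∀ k i : ℕ, i + k = n → ∀ X : Subgroup L, X.Normal → M ≤ X → X ≤ H₁ →
      (∀ x (hx : x ∈ X) (hxH : x ∈ H),
        (QuotientGroup.mk' (M.subgroupOf H) (⟨x, hxH⟩ : H)) ∈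
          (⊤ : Subgroup (↥H ⧸ M.subgroupOf H)).lowerCentralSeries i) →
      Cfsg.IsCoherent (Cfsg.inducedIrrAbove K X) {1}ᶜ τ →
      Cfsg.IsCoherent (Cfsg.inducedIrrAbove K M) {1}ᶜ τ := by
    intro k
    induction k with
    | zero =>
      intro i hi X hXn hMX hXH₁ hXi hXcoh
      have hin : i = n := by omega
      subst hin
      have hXM : X = M := by
        apply le_antisymm _ hMX
        intro x hx
        have hxH : x ∈ H := hH₁H (hXH₁ hx)
        have h1 := hXi x hx hxH
        rw [hn, Subgroup.mem_bot, QuotientGroup.mk'_apply, QuotientGroup.eq_one_iff] at h1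
        exact Subgroup.mem_subgroupOf.mp h1
      rw [← hXM]; exact hXcoh
    | succ k ih =>
      intro i hi X hXn hMX hXH₁ hXi hXcoh
      haveI := hXn
      set Y : Subgroup L := ⁅H, X⁆ ⊔ M with hY
      haveI hYn : Y.Normal := by rw [hY]; infer_instance
      have hXH : X ≤ H := hXH₁.trans hH₁H
      have hcomm : ⁅H, X⁆ ≤ X := Subgroup.commutator_le_right H X
      have hYX : Y ≤ X := sup_le hcomm hMX
      apply ih (i + 1) (by omega) Y hYn le_sup_right (hYX.trans hXH₁)
      · intro y hy hyH
        have hZ : Y ≤ (((⊤ : Subgroup (↥H ⧸ M.subgroupOf H)).lowerCentralSeries (i + 1)).comap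
            (QuotientGroup.mk' (M.subgroupOf H))).map H.subtype := by
          rw [hY]
          apply sup_le
          · rw [Subgroup.commutator_le]
            intro g₁ hg₁ g₂ hg₂
            rw [Subgroup.mem_map]
            refine ⟨⁅(⟨g₁, hg₁⟩ : H), (⟨g₂, hXH hg₂⟩ : H)⁆, ?_, ?_⟩
            · rw [Subgroup.mem_comap, map_commutatorElement, Subgroup.lowerCentralSeries_succ,
                Subgroup.commutator_comm]
              exact Subgroup.commutator_mem_commutator (Subgroup.mem_top _)
                (hXi g₂ hg₂ (hXH hg₂))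
            · rw [map_commutatorElement]; rfl
          · intro m hm
            rw [Subgroup.mem_map]
            refine ⟨⟨m, hH₁H (hMH₁ hm)⟩, ?_, rfl⟩
            rw [Subgroup.mem_comap]
            have h1 : (QuotientGroup.mk' (M.subgroupOf H)) ⟨m, hH₁H (hMH₁ hm)⟩ = 1 := by
              rw [QuotientGroup.mk'_apply, QuotientGroup.eq_one_iff]
              exact Subgroup.mem_subgroupOf.mpr hm
            rw [h1]; exact Subgroup.one_mem _
        obtain ⟨z, hz, hzy⟩ := Subgroup.mem_map.mp (hZ hy)
        have h2 : z = ⟨y, hyH⟩ := Subtype.ext hzy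
        rw [← h2]; exact hz
      · apply Cfsg.Agent.S1519.result K hsolv τ R hS X Y H X (lt_of_le_of_lt hXH₁ hH₁K)
          (lt_of_le_of_lt (hYX.trans hXH₁) hH₁K) hYX hXH hHK ?_ hXcoh ?_
        · intro x hx y hy
          have h1 : ⁅x, y⁆ ∈ ⁅X, H⁆ := Subgroup.commutator_mem_commutator hx hy
          rw [Subgroup.commutator_comm, commutatorElement_def] at h1
          exact Subgroup.mem_sup_left h1
        · have e1 : H.index = H.relIndex K * K.index := (Subgroup.relIndex_mul_index hHK).symm
          have e2 : X.relIndex K = X.relIndex H * H.relIndex K :=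
            (Subgroup.relIndex_mul_relIndex X H K hXH hHK).symm
          have hXne : X.relIndex H ≠ 0 := by
            rw [Subgroup.relIndex]; exact Subgroup.index_ne_zero_of_finite
          have e3 : H₁.relIndex H ≤ X.relIndex H := Subgroup.relIndex_le_of_le_left hXH₁ hXne
          have hkpos : 0 < H.relIndex K := by
            rw [Subgroup.relIndex]; exact Nat.pos_of_ne_zero Subgroup.index_ne_zero_of_finite
          rw [e1, e2]
          have hh : 4 * K.index ^ 2 + 2 ≤ X.relIndex H := by omega
          generalize X.relIndex H = h at hh ⊢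
          generalize H.relIndex K = c at hkpos ⊢
          generalize K.index = l at hh ⊢
          obtain ⟨e, rfl⟩ := Nat.exists_eq_add_of_le hh
          have hw : 4 * l ^ 2 * (4 * l ^ 2 + 2 + e) < (4 * l ^ 2 + 1 + e) ^ 2 := by nlinarith
          have hm : c * (4 * l ^ 2 + 1 + e) ≤ (4 * l ^ 2 + 2 + e) * c - 1 := by
            have : c * (4 * l ^ 2 + 1 + e) + c = (4 * l ^ 2 + 2 + e) * c := by ring
            omega
          calc 4 * (c * l) ^ 2 * (4 * l ^ 2 + 2 + e)
              = c ^ 2 * (4 * l ^ 2 * (4 * l ^ 2 + 2 + e)) := by ring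
            _ < c ^ 2 * (4 * l ^ 2 + 1 + e) ^ 2 :=
                Nat.mul_lt_mul_of_pos_left hw (by positivity)
            _ = (c * (4 * l ^ 2 + 1 + e)) ^ 2 := by ring
            _ ≤ ((4 * l ^ 2 + 2 + e) * c - 1) ^ 2 := Nat.pow_le_pow_left hm 2
  exact key n 0 (by omega) H₁ inferInstance hMH₁ le_rfl
    (fun x hx hxH => by rw [Subgroup.lowerCentralSeries_zero]; exact Subgroup.mem_top _) hcoh

end Cfsg.Agent.S1520
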