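import Cfsg.Statements.S1521
import Cfsg.Agent.Helper25.Coh6
import Cfsg.Agent.S1520

set_option linter.style.haveILetI false
set_option linter.unusedVariables false
set_option maxHeartbeats 1000000
open scoped commutatorElement

set_option autoImplicit false
open Cfsg

namespace Cfsg.Agent.S1521

/-- Let K be a solvable normal subgroup of the finite group L of odd order and (S, τ, R) a coherence system from L to G with S the functions induced from non-principal irreducible characters of K; S(A) as before. Let M ≤ K be normal in L with K/M nilpotent, H₁ = [K, K] ⊔ M, H₁ < K < L, and suppose every element of K outside H₁ is centralised modulo H₁ only from inside K (L/H₁ is a Frobenius group with kernel K/H₁). Suppose one of the following: some normal subgroup of L lies strictly between H₁ and K; or [K:H₁] > 4[L:K]^2 + 1; or [K:M] is not a prime power; or [K,K] ≤ M; or [K:M] is a power of a prime p with [L:K] dividing p − 1. Then S(M) is coherent. -/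
theorem result {L : Type*} [Group L] [Fintype L] {G : Type*} [Group G] [Fintype G] (K : Subgroup L) [hK : K.Normal] (hsolv : Group.IsSolvable K) (τ : (L → ℂ) → (G → ℂ)) (R : (L → ℂ) → Finset (G → ℂ)) (hS : Cfsg.IsCoherenceSystem (Cfsg.inducedIrrAbove K ⊥) τ R) (hodd : Odd (Nat.card L)) (M : Subgroup L) [M.Normal] (hMK : M ≤ K) [(M.subgroupOf K).Normal] (hnil : Group.IsNilpotent (↥K ⧸ M.subgroupOf K)) (H₁ : Subgroup L) (hH₁ : H₁ = ⁅K, K⁆ ⊔ M) (hH₁K : H₁ < K) (hKL : K < ⊤) (hfrob : ∀ k ∈ K, k ∉ H₁ → ∀ x : L, x * k * x⁻¹ * k⁻¹ ∈ H₁ → x ∈ K) (hgood : (∃ N : Subgroup L, N.Normal ∧ H₁ < N ∧ N < K) ∨ 4 * K.index ^ 2 + 1 < H₁.relIndex K ∨ (¬ ∃ p m : ℕ, p.Prime ∧ M.relIndex K = p ^ m) ∨ ⁅K, K⁆ ≤ M ∨ (∃ p m : ℕ, p.Prime ∧ M.relIndex K = p ^ m ∧ K.index ∣ p - 1)) : Cfsg.IsCoherent (Cfsg.inducedIrrAbove K M) {1}ᶜ τ := by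
  classical
  haveI hH₁n : H₁.Normal := by rw [hH₁]; infer_instance
  have hab : ⁅K, K⁆ ≤ H₁ := by rw [hH₁]; exact le_sup_left
  have hMH₁ : M ≤ H₁ := by rw [hH₁]; exact le_sup_right
  have hcohH₁ := Cfsg.Agent.Helper25.coherent_inducedIrrAbove_abelian K hsolv τ R hS H₁ hab hH₁K
  have caseB : 4 * K.index ^ 2 + 1 < H₁.relIndex K →
      Cfsg.IsCoherent (Cfsg.inducedIrrAbove K M) {1}ᶜ τ :=
    fun hbig => Cfsg.Agent.S1520.result K hsolv τ R hS M H₁ K hMH₁ hH₁K.le le_rfl hnil hcohH₁ hbig
  have hdvdL : ∀ X Y : Subgroup L, X.relIndex Y ∣ Nat.card L := fun X Y =>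
    (Subgroup.relIndex_dvd_card X Y).trans (Subgroup.card_subgroup_dvd_card Y)
  have hoddrel : ∀ X Y : Subgroup L, Odd (X.relIndex Y) := fun X Y =>
    Odd.of_dvd_nat hodd (hdvdL X Y)
  have hoddK : Odd K.index := Odd.of_dvd_nat hodd (Subgroup.index_dvd_card K)
  have hKpos : 0 < K.index := Nat.pos_of_ne_zero Subgroup.index_ne_zero_of_finite
  have hrel0 : ∀ X Y : Subgroup L, X.relIndex Y ≠ 0 := fun X Y => by
    rw [Subgroup.relIndex]; exact Subgroup.index_ne_zero_of_finite
  have hge : ∀ a : ℕ, Odd a → 1 < a → K.index ∣ a - 1 → 2 * K.index + 1 ≤ a := by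
    intro a ha ha1 hdvd
    obtain ⟨j, hj⟩ := hdvd
    have hj0 : j ≠ 0 := by
      rintro rfl
      omega
    have hjeven : Even j := by
      by_contra hjo
      rw [Nat.not_even_iff_odd] at hjo
      have h1 : Odd (K.index * j) := hoddK.mul hjo
      have h2 : Even (a - 1) := by
        obtain ⟨t, ht⟩ := ha
        exact ⟨t, by omega⟩
      rw [hj] at h2
      exact (Nat.not_even_iff_odd.mpr h1) h2
    obtain ⟨t, ht⟩ := hjeven
    have ht0 : 1 ≤ t := by omega
    have h3 : 2 * K.index ≤ K.index * j := by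
      rw [ht]
      nlinarith
    omega
  have caseA : (∃ N : Subgroup L, N.Normal ∧ H₁ < N ∧ N < K) →
      4 * K.index ^ 2 + 1 < H₁.relIndex K := by
    rintro ⟨N, hNn, hH₁N, hNK⟩
    haveI := hNn
    have h1 := Cfsg.Agent.Helper25.frob_index_dvd K H₁ N hH₁N.le hNK.le hab hfrob
    have h2 := Cfsg.Agent.Helper25.frob_index_dvd K H₁ K hH₁K.le le_rfl hab hfrob
    have h3 : H₁.relIndex N * N.relIndex K = H₁.relIndex K :=
      Subgroup.relIndex_mul_relIndex H₁ N K hH₁N.le hNK.le
    have ha1 : H₁.relIndex N ≠ 1 := by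
      rw [Ne, Subgroup.relIndex_eq_one]; exact not_le_of_gt hH₁N
    have hb1 : N.relIndex K ≠ 1 := by
      rw [Ne, Subgroup.relIndex_eq_one]; exact not_le_of_gt hNK
    have ha0 := hrel0 H₁ N
    have hb0 := hrel0 N K
    have hc0 := hrel0 H₁ K
    have hA := hge _ (hoddrel H₁ N) (by omega) h1
    have h4 : K.index ∣ N.relIndex K - 1 := by
      have m1 : 1 ≡ H₁.relIndex N [MOD K.index] := (Nat.modEq_iff_dvd' (by omega)).mpr h1
      have m2 : 1 ≡ H₁.relIndex K [MOD K.index] := (Nat.modEq_iff_dvd' (by omega)).mpr h2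
      have m3 : 1 ≡ N.relIndex K [MOD K.index] := by
        have h5 := m1.mul_right (N.relIndex K)
        rw [one_mul, h3] at h5
        exact m2.trans h5.symm
      exact (Nat.modEq_iff_dvd' (by omega)).mp m3
    have hB := hge _ (hoddrel N K) (by omega) h4
    rw [← h3]
    nlinarith
  have hcommK : (⁅K, K⁆ : Subgroup L).subgroupOf K = commutator ↥K := by
    rw [← Subgroup.map_subtype_commutator, Subgroup.subgroupOf,
      Subgroup.comap_map_eq_self_of_injective K.subtype_injective]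
  have hHsub : H₁.subgroupOf K = M.subgroupOf K ⊔ commutator ↥K := by
    rw [hH₁, Subgroup.subgroupOf_sup (Subgroup.commutator_le_left K K) hMK, hcommK, sup_comm]
  rcases hgood with hA | hB | hC | hD | hE
  · exact caseB (caseA hA)
  · exact caseB hB
  · apply caseB
    apply caseA
    apply Cfsg.Agent.Helper25.exists_normal_between K H₁ hH₁K.le hab
    rintro ⟨p, a, hp, hpa⟩
    apply hC
    have hcomm : (commutator (↥K ⧸ M.subgroupOf K)).index = H₁.relIndex K := by
      have h2 : Subgroup.map (QuotientGroup.mk' (M.subgroupOf K)) (commutator ↥K) =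
          commutator (↥K ⧸ M.subgroupOf K) := by
        rw [commutator_def, commutator_def, Subgroup.map_commutator]
        rw [← MonoidHom.range_eq_map,
          MonoidHom.range_eq_top.mpr (QuotientGroup.mk'_surjective (M.subgroupOf K))]
      rw [← h2, Subgroup.index_map, QuotientGroup.ker_mk',
        MonoidHom.range_eq_top.mpr (QuotientGroup.mk'_surjective _), Subgroup.index_top, mul_one,
        sup_comm, ← hHsub]
      rfl
    obtain ⟨b, hb⟩ := Cfsg.Agent.Helper25.nilpotent_card_pow hnil p a hp (hcomm.trans hpa)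
    exact ⟨p, b, hp, hb⟩
  · have h1 : H₁ = M := by rw [hH₁]; exact sup_eq_right.mpr hD
    rw [← h1]; exact hcohH₁
  · obtain ⟨p, m, hp, hpm, hdvd⟩ := hE
    have h3 : M.relIndex H₁ * H₁.relIndex K = M.relIndex K :=
      Subgroup.relIndex_mul_relIndex M H₁ K hMH₁ hH₁K.le
    have h4 : H₁.relIndex K ∣ p ^ m := hpm ▸ Dvd.intro_left _ h3
    obtain ⟨j, -, hj⟩ := (Nat.dvd_prime_pow hp).mp h4
    have hj0 : j ≠ 0 := by
      rintro rfl
      rw [pow_zero, Subgroup.relIndex_eq_one] at hj
      exact (not_le_of_gt hH₁K) hj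
    have hpodd : Odd p := by
      have h5 : p ∣ H₁.relIndex K := hj ▸ dvd_pow_self p hj0
      exact Odd.of_dvd_nat (hoddrel H₁ K) h5
    have hpge := hge p hpodd hp.one_lt hdvd
    by_cases hj1 : j = 1
    · subst hj1
      rw [pow_one] at hj
      haveI : (H₁.subgroupOf K).Normal := inferInstance
      have hm1 := Cfsg.Agent.Helper25.index_eq_prime_of_sup_commutator (M.subgroupOf K)
        (H₁.subgroupOf K) hHsub p m hp hpm hj
      subst hm1
      rw [pow_one] at hpm
      rw [hj, hpm] at h3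
      have h5 : M.relIndex H₁ = 1 :=
        Nat.eq_of_mul_eq_mul_right hp.pos (by rw [h3, one_mul])
      have h6 : H₁ ≤ M := Subgroup.relIndex_eq_one.mp h5
      have h7 : H₁ = M := le_antisymm h6 hMH₁
      rw [← h7]; exact hcohH₁
    · apply caseB
      rw [hj]
      have h2 : 2 ≤ j := by omega
      calc 4 * K.index ^ 2 + 1 < (2 * K.index + 1) ^ 2 := by nlinarith
        _ ≤ p ^ 2 := Nat.pow_le_pow_left hpge 2
        _ ≤ p ^ j := Nat.pow_le_pow_right hp.pos h2

end Cfsg.Agent.S1521
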