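import Cfsg.Statements.S1522
import Cfsg.Agent.Helper25.Coh7
import Cfsg.Agent.S1521

set_option linter.style.haveILetI false
set_option linter.unusedVariables false
set_option maxHeartbeats 1000000

set_option autoImplicit false
open Cfsg

namespace Cfsg.Agent.S1522

/-- Let K be a nilpotent normal subgroup of the finite group L of odd order with [K,K] < K < L and L/[K,K] a Frobenius group with kernel K/[K,K] (elements of K outside [K,K] are centralised modulo [K,K] only from inside K); let (S, τ, R) be a coherence system from L to G with S the functions induced from non-principal irreducible characters of K. Let Z be a nontrivial normal subgroup of L contained in the centre of K, and suppose every member of S outside S(Z) is an irreducible character of L. Then S minus S(Z) is the set of irreducible characters χ of L with χ z ≠ χ 1 for some z ∈ Z, and it is coherent. -/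
theorem result {L : Type*} [Group L] [Fintype L] {G : Type*} [Group G] [Fintype G] (K : Subgroup L) [hK : K.Normal] (hsolv : Group.IsSolvable K) (τ : (L → ℂ) → (G → ℂ)) (R : (L → ℂ) → Finset (G → ℂ)) (hS : Cfsg.IsCoherenceSystem (Cfsg.inducedIrrAbove K ⊥) τ R) (hodd : Odd (Nat.card L)) (hnil : Group.IsNilpotent K) (hH₁K : ⁅K, K⁆ < K) (hKL : K < ⊤) (hfrob : ∀ k ∈ K, k ∉ ⁅K, K⁆ → ∀ x : L, x * k * x⁻¹ * k⁻¹ ∈ ⁅K, K⁆ → x ∈ K) (Z : Subgroup L) [Z.Normal] (hZ1 : Z ≠ ⊥) (hZK : Z ≤ K) (hZc : ∀ z ∈ Z, ∀ k ∈ K, z * k = k * z) (hirr : ∀ χ ∈ Cfsg.inducedIrrAbove K ⊥ \ Cfsg.inducedIrrAbove K Z, Cfsg.IsIrrCharacter L χ) : Cfsg.inducedIrrAbove K ⊥ \ Cfsg.inducedIrrAbove K Z = {χ | Cfsg.IsIrrCharacter L χ ∧ ∃ z ∈ Z, χ z ≠ χ 1} ∧ Cfsg.IsCoherent (Cfsg.inducedIrrAbove K ⊥ \ Cfsg.inducedIrrAbove K Z) {1}ᶜ τ := by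
  classical
  have hpart1 := Cfsg.Agent.Helper25.sdiff_inducedIrrAbove_eq_irr K Z hZK hirr
  refine ⟨hpart1, ?_⟩
  have hne := Cfsg.Agent.Helper25.sdiff_inducedIrrAbove_nonempty K Z hZK hZ1
  by_cases hpp : ∃ p m : ℕ, p.Prime ∧ Nat.card K = p ^ m
  · obtain ⟨p, m, hp, hKcard⟩ := hpp
    have hKne : Nat.card K ≠ 1 := by
      intro h
      have hKbot : K = ⊥ := (Subgroup.card_eq_one).mp h
      rw [hKbot] at hH₁K
      exact not_lt_bot hH₁K
    have hm0 : m ≠ 0 := by
      rintro rfl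
      exact hKne (by rw [hKcard, pow_zero])
    have hpK : p ∣ Nat.card K := hKcard ▸ dvd_pow_self p hm0
    have hpL : p ∣ Nat.card L := hpK.trans (Subgroup.card_subgroup_dvd_card K)
    have hpodd : Odd p := Odd.of_dvd_nat hodd hpL
    have hp3 : 3 ≤ p := by
      have := hp.two_le
      rcases hpodd with ⟨t, ht⟩
      omega
    haveI : (⁅K, K⁆ : Subgroup L).Normal := inferInstance
    have hdvd := Cfsg.Agent.Helper25.frob_index_dvd K ⁅K, K⁆ K hH₁K.le le_rfl le_rfl hfrob
    have hrel : (⁅K, K⁆ : Subgroup L).relIndex K ∣ p ^ m :=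
      hKcard ▸ Subgroup.relIndex_dvd_card _ K
    obtain ⟨a, -, ha⟩ := (Nat.dvd_prime_pow hp).mp hrel
    have ha0 : a ≠ 0 := by
      rintro rfl
      rw [pow_zero, Subgroup.relIndex_eq_one] at ha
      exact (not_le_of_gt hH₁K) ha
    have hcop : Nat.Coprime K.index p := by
      apply Nat.Coprime.symm
      rw [Nat.Prime.coprime_iff_not_dvd hp]
      intro hpe
      have h1 : p ∣ p ^ a - 1 := ha ▸ hpe.trans hdvd
      have h2 : p ∣ p ^ a := dvd_pow_self p ha0
      have h3 : 1 ≤ p ^ a := Nat.one_le_pow _ _ hp.pos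
      have h4 : p ∣ 1 := by
        have h5 := Nat.dvd_sub h2 h1
        rwa [Nat.sub_sub_self h3] at h5
      exact hp.one_lt.ne' (Nat.dvd_one.mp h4)
    exact Cfsg.Agent.Helper25.coherent_sdiff_pgroup K τ R hS Z hZ1 hZK hZc hirr p m hp hp3
      hKcard hcop
  · haveI := hnil
    have hcoh : Cfsg.IsCoherent (Cfsg.inducedIrrAbove K ⊥) {1}ᶜ τ := by
      apply Cfsg.Agent.S1521.result K hsolv τ R hS hodd ⊥ bot_le inferInstance (⁅K, K⁆ ⊔ ⊥) rfl
        (by rw [sup_bot_eq]; exact hH₁K) hKL (by rw [sup_bot_eq]; exact hfrob)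
      right; right; left
      rintro ⟨p, m, hp, hpm⟩
      rw [Subgroup.relIndex_bot_left] at hpm
      exact hpp ⟨p, m, hp, hpm⟩
    apply Cfsg.Agent.Helper25.isCoherent_mono Set.sdiff_subset hcoh
    obtain ⟨χ, hχ⟩ := hne
    refine ⟨χ - Cfsg.conjFun χ, ?_, ?_⟩
    · rw [Cfsg.Agent.Helper25.mem_zspanOn_iff]
      refine ⟨Submodule.sub_mem _ (Submodule.subset_span hχ) (Submodule.subset_span
        (Cfsg.Agent.Helper25.sdiff_inducedIrrAbove_conj_mem K Z hχ)), ?_⟩
      rw [Pi.sub_apply, Cfsg.Agent.Helper25.cohSys_conj_one hS hχ.1, sub_self]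
    · intro h
      exact hS.conj_ne _ hχ.1 (sub_eq_zero.mp h).symm

end Cfsg.Agent.S1522
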