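import Cfsg.Statements.S1524
import Cfsg.Agent.Helper25.Sib7
import Cfsg.Agent.S1533
import Cfsg.Agent.S1521

set_option linter.style.haveILetI false
set_option linter.unusedVariables false
set_option maxHeartbeats 1000000

set_option autoImplicit false
open Cfsg

namespace Cfsg.Agent.S1524

/-- Let G be a finite group and H ≤ L subgroups with L of odd order, H ≠ ⊥ nilpotent and normal in L with a nontrivial complement W₁ in L (H ⊓ W₁ = ⊥, H ⊔ W₁ = L) acting on H without non-identity fixed points (L is a Frobenius group with kernel H), and suppose the underlying set of H is a TI-subset of G whose normaliser is L. Let S be the set of functions on L induced from the non-principal irreducible characters of H. Then (S, L minus 1, induction to G) is coherent. -/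
theorem result {G : Type*} [Group G] [Fintype G] (H L W₁ : Subgroup G) [Fintype L] (hodd : Odd (Nat.card L)) (hHL : H ≤ L) (hW₁L : W₁ ≤ L) (hH1 : H ≠ ⊥) (hW1 : W₁ ≠ ⊥) (hnil : Group.IsNilpotent H) (hHn : ∀ x ∈ L, ∀ h ∈ H, x * h * x⁻¹ ∈ H) (hinf : H ⊓ W₁ = ⊥) (hsup : H ⊔ W₁ = L) (hfpf : ∀ w ∈ W₁, w ≠ 1 → ∀ h ∈ H, w * h = h * w → h = 1) (hTI : Cfsg.IsTISubset (H : Set G)) (hN : Subgroup.normalizer (H : Set G) = L) : Cfsg.IsCoherent (Cfsg.inducedIrrAbove (H.subgroupOf L) ⊥) {1}ᶜ (fun α : L → ℂ => Cfsg.indFun L α) := by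
  classical
  subst hN
  have hle : H ≤ Subgroup.normalizer (H : Set G) := Subgroup.le_normalizer
  haveI hKn : (H.subgroupOf (Subgroup.normalizer (H : Set G))).Normal :=
    Subgroup.normal_in_normalizer
  have hCL : ∀ k ∈ H, k ≠ 1 → ∀ x ∈ Subgroup.normalizer (H : Set G), x * k = k * x → x ∈ H := by
    intro k hk hk1 x hx hxk
    haveI : Finite H := Finite.of_injective (fun h : H => (h : G)) Subtype.val_injective
    exact Cfsg.Agent.Helper25.frob_centralizer_le_of_fpf H W₁
      (fun w hw h hh => hHn w (hW₁L hw) h hh) hfpf hk hk1 (hsup ▸ hx) hxk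
  have hCG := Cfsg.Agent.Helper25.ti_frob_centralizer_le H hTI hCL
  have hCK := Cfsg.Agent.Helper25.centralizer_subgroupOf_normalizer_le H hCG
  obtain ⟨x₀, hx₀H, hx₀1⟩ : ∃ x₀ ∈ H, x₀ ≠ 1 := by
    by_contra hcon
    push Not at hcon
    exact hH1 ((Subgroup.eq_bot_iff_forall _).mpr hcon)
  have hK1 : H.subgroupOf (Subgroup.normalizer (H : Set G)) ≠ ⊥ := by
    intro h
    have h1 : (⟨x₀, hle hx₀H⟩ : (Subgroup.normalizer (H : Set G))) ∈
        H.subgroupOf (Subgroup.normalizer (H : Set G)) := hx₀H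
    rw [h, Subgroup.mem_bot] at h1
    exact hx₀1 (congrArg Subtype.val h1)
  obtain ⟨w₀, hw₀, hw₀1⟩ : ∃ w₀ ∈ W₁, w₀ ≠ 1 := by
    by_contra hcon
    push Not at hcon
    exact hW1 ((Subgroup.eq_bot_iff_forall _).mpr hcon)
  have hw₀H : w₀ ∉ H := by
    intro h
    have h1 : w₀ ∈ H ⊓ W₁ := ⟨h, hw₀⟩
    rw [hinf, Subgroup.mem_bot] at h1
    exact hw₀1 h1
  have hKtop : H.subgroupOf (Subgroup.normalizer (H : Set G)) ≠ ⊤ := by
    intro h
    have h1 : (⟨w₀, hW₁L hw₀⟩ : (Subgroup.normalizer (H : Set G))) ∈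
        H.subgroupOf (Subgroup.normalizer (H : Set G)) := by
      rw [h]
      exact Subgroup.mem_top _
    exact hw₀H h1
  have hlt : H < Subgroup.normalizer (H : Set G) :=
    lt_of_le_of_ne hle (fun h => hw₀H (h ▸ hW₁L hw₀))
  obtain ⟨hiso, hone⟩ := Cfsg.Agent.Helper25.isLinearIsometryOn_indFun_TI (H : Set G) hTI
    (Cfsg.inducedIrrAbove (H.subgroupOf (Subgroup.normalizer (H : Set G))) ⊥)
    (fun χ hχ => Cfsg.Agent.Helper25.inducedIrrAbove_isCharacter _ _ hχ)
    (fun χ hχ x hx => Cfsg.Agent.Helper25.inducedIrrAbove_apply_eq_zero _ _ hχ hx)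
  have hKcard0 : Nat.card (H.subgroupOf (Subgroup.normalizer (H : Set G))) = Nat.card H :=
    Nat.card_congr (Subgroup.subgroupOfEquivOfLe hle).toEquiv
  have hHdvd : Nat.card H ∣ Nat.card (Subgroup.normalizer (H : Set G)) :=
    Subgroup.card_dvd_of_le hle
  by_cases hpp : ∃ p m : ℕ, p.Prime ∧ Nat.card H = p ^ m
  · obtain ⟨p, m, hp, hpm⟩ := hpp
    haveI : Fact p.Prime := ⟨hp⟩
    have hHp : IsPGroup p H := IsPGroup.of_card hpm
    have hm0 : m ≠ 0 := by
      intro h0
      rw [h0, pow_zero] at hpm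
      exact hH1 (Subgroup.card_eq_one.mp hpm)
    have hp2 : p ≠ 2 := by
      intro h2
      have h1 : p ∣ Nat.card (Subgroup.normalizer (H : Set G)) :=
        (dvd_pow_self p hm0).trans (hpm ▸ hHdvd)
      rw [h2] at h1
      exact (Nat.not_even_iff_odd.mpr hodd) (even_iff_two_dvd.mpr h1)
    obtain ⟨P, hP⟩ : ∃ P : Sylow p G, (P : Subgroup G) = H :=
      ⟨⟨H, hHp, fun {Q} hQ hHQ =>
        Cfsg.Agent.Helper25.ti_frob_sylow_max H hH1 hCG p hQ hHQ⟩, rfl⟩
    subst hP
    rcases Cfsg.Agent.S1533.result p hp2 P hH1 hTI hlt hCG with ⟨-, -, h3⟩ | h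
    · exfalso
      have ho1 : Odd (Nat.card (P : Subgroup G)) := Odd.of_dvd_nat hodd hHdvd
      have ho2 : Odd ((P : Subgroup G).subgroupOf
          (Subgroup.normalizer ((P : Subgroup G) : Set G))).index :=
        Odd.of_dvd_nat hodd (Subgroup.index_dvd_card _)
      rw [h3] at ho1
      exact (Nat.not_even_iff_odd.mpr ho1) ho2.add_one
    · rw [Cfsg.Agent.Helper25.frob_inducedIrrAbove_bot_eq _ hCK]
      exact h
  · obtain ⟨R, hS⟩ := Cfsg.Agent.Helper25.exists_cohSys_inducedIrrAbove_of_frob _ hCK hK1 hKtop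
      hodd hiso hone
    haveI hnilK : Group.IsNilpotent (H.subgroupOf (Subgroup.normalizer (H : Set G))) := by
      haveI := hnil
      exact Group.nilpotent_of_mulEquiv (Subgroup.subgroupOfEquivOfLe hle).symm
    have hsolv : Group.IsSolvable (H.subgroupOf (Subgroup.normalizer (H : Set G))) :=
      inferInstance
    haveI hH₁n : (⁅H.subgroupOf (Subgroup.normalizer (H : Set G)),
        H.subgroupOf (Subgroup.normalizer (H : Set G))⁆ ⊔
        (⊥ : Subgroup (Subgroup.normalizer (H : Set G)))).Normal := inferInstance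
    have hcommK : (⁅H.subgroupOf (Subgroup.normalizer (H : Set G)),
        H.subgroupOf (Subgroup.normalizer (H : Set G))⁆ :
          Subgroup (Subgroup.normalizer (H : Set G))).subgroupOf
          (H.subgroupOf (Subgroup.normalizer (H : Set G)))
        = commutator ↥(H.subgroupOf (Subgroup.normalizer (H : Set G))) := by
      have hgen : ∀ K : Subgroup (Subgroup.normalizer (H : Set G)),
          (⁅K, K⁆ : Subgroup (Subgroup.normalizer (H : Set G))).subgroupOf K = commutator ↥K := by
        intro K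
        rw [← Subgroup.map_subtype_commutator, Subgroup.subgroupOf,
          Subgroup.comap_map_eq_self_of_injective K.subtype_injective]
      exact hgen _
    have hcle : (⁅H.subgroupOf (Subgroup.normalizer (H : Set G)),
        H.subgroupOf (Subgroup.normalizer (H : Set G))⁆ ⊔
        (⊥ : Subgroup (Subgroup.normalizer (H : Set G)))) ≤
        H.subgroupOf (Subgroup.normalizer (H : Set G)) := by
      rw [sup_bot_eq]
      exact Subgroup.commutator_le_left _ _
    have hH₁K : (⁅H.subgroupOf (Subgroup.normalizer (H : Set G)),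
        H.subgroupOf (Subgroup.normalizer (H : Set G))⁆ ⊔
        (⊥ : Subgroup (Subgroup.normalizer (H : Set G)))) <
        H.subgroupOf (Subgroup.normalizer (H : Set G)) := by
      refine lt_of_le_of_ne hcle ?_
      intro h
      rw [sup_bot_eq] at h
      haveI : Nontrivial (H.subgroupOf (Subgroup.normalizer (H : Set G))) := by
        rw [Subgroup.nontrivial_iff_ne_bot]
        exact hK1
      have h1 := Group.IsSolvable.commutator_lt_top_of_nontrivial
        ↥(H.subgroupOf (Subgroup.normalizer (H : Set G)))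
      rw [← hcommK, h, Subgroup.subgroupOf_self] at h1
      exact lt_irrefl _ h1
    have hfrob := Cfsg.Agent.Helper25.frob_commutator_fixed
      (H.subgroupOf (Subgroup.normalizer (H : Set G))) hCK
      (⁅H.subgroupOf (Subgroup.normalizer (H : Set G)),
        H.subgroupOf (Subgroup.normalizer (H : Set G))⁆ ⊔
        (⊥ : Subgroup (Subgroup.normalizer (H : Set G)))) hcle
    exact Cfsg.Agent.S1521.result (H.subgroupOf (Subgroup.normalizer (H : Set G))) hsolv
      (fun α => Cfsg.indFun (Subgroup.normalizer (H : Set G)) α) R hS hodd ⊥ bot_le inferInstance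
      _ rfl hH₁K (lt_top_iff_ne_top.mpr hKtop) hfrob (Or.inr (Or.inr (Or.inl (by
        rintro ⟨p, m, hp, hpm⟩
        apply hpp
        refine ⟨p, m, hp, ?_⟩
        rw [Subgroup.relIndex_bot_left, hKcard0] at hpm
        exact hpm))))

end Cfsg.Agent.S1524
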