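import Cfsg.Statements.S1525
import Cfsg.Agent.Helper25.DadeCount

set_option autoImplicit false
set_option linter.style.haveILetI false
set_option linter.unusedVariables false
set_option maxHeartbeats 1000000
open Cfsg
open Cfsg.Agent.Helper25

namespace Cfsg.Agent.S1525

/-- Under the Dade hypothesis for (A, L, H), let χ be a class function of G and let ψ be a function on L whose value at each a ∈ A is the average of χ over the coset a·H(a). Then (1/|G|) Σ |χ g|² over the elements g of G conjugate into some coset a·H(a) with a ∈ A is at least (1/|L|) Σ_{a ∈ A ∩ L} |ψ a|². -/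
theorem result {G : Type*} [Group G] [Fintype G] (A : Set G) (L : Subgroup G) [Fintype L] (H : G → Subgroup G) (hD : Cfsg.DadeHypothesis A L H) (χ : G → ℂ) (hχ : Cfsg.IsClassFunction G χ) (ψ : L → ℂ) (hψ : ∀ a : L, (a : G) ∈ A → ψ a = (Nat.card (H a) : ℂ)⁻¹ * ∑ᶠ u ∈ (H a : Set G), χ (a * u)) : (Nat.card L : ℝ)⁻¹ * ∑ᶠ a ∈ {a : L | (a : G) ∈ A}, ‖ψ a‖ ^ 2 ≤ (Nat.card G : ℝ)⁻¹ * ∑ᶠ g ∈ {g : G | ∃ a ∈ A, ∃ u ∈ H a, ∃ x : G, x * g * x⁻¹ = a * u}, ‖χ g‖ ^ 2 := by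
  classical
  have hcG : (Nat.card G : ℝ) ≠ 0 := Nat.cast_ne_zero.mpr Nat.card_pos.ne'
  have hcL : (0 : ℝ) < (Nat.card L : ℝ) := Nat.cast_pos.mpr Nat.card_pos
  have e1 : ∑ᶠ a ∈ {a : L | (a : G) ∈ A}, ‖ψ a‖ ^ 2
      = ∑ a ∈ (Finset.univ : Finset L).filter (fun a : L => (a : G) ∈ A), ‖ψ a‖ ^ 2 :=
    finsum_mem_eq_sum_univ_filter _ _
  have e2 : ∑ᶠ g ∈ {g : G | ∃ a ∈ A, ∃ u ∈ H a, ∃ x : G, x * g * x⁻¹ = a * u}, ‖χ g‖ ^ 2
      = ∑ g ∈ Finset.univ.filter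
        (fun g : G => ∃ a ∈ A, ∃ u ∈ H a, ∃ x : G, x * g * x⁻¹ = a * u), ‖χ g‖ ^ 2 := by
    rw [finsum_mem_eq_sum_univ_filter]
    refine Finset.sum_congr ?_ (fun _ _ => rfl)
    ext g
    simp only [Finset.mem_filter, Finset.mem_univ, true_and, Set.mem_ofPred_eq]
  rw [e1, e2]
  have hFc : ∀ g h : G, ‖χ (h * g * h⁻¹)‖ ^ 2 = ‖χ g‖ ^ 2 := by
    intro g h
    rw [hχ g h]
  have h1 := dade_sum_supp (K := ℝ) hD (fun g => ‖χ g‖ ^ 2) hFc
  have h2 : ∀ a ∈ (Finset.univ : Finset L).filter (fun a : L => (a : G) ∈ A),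
      ‖ψ a‖ ^ 2 ≤ (Nat.card (H a) : ℝ)⁻¹ *
        ∑ u ∈ Finset.univ.filter (fun u : G => u ∈ H a), ‖χ (a * u)‖ ^ 2 := by
    intro a ha
    simp only [Finset.mem_filter, Finset.mem_univ, true_and] at ha
    have e : ∑ᶠ u ∈ (H a : Set G), χ (a * u)
        = ∑ u ∈ Finset.univ.filter (fun u : G => u ∈ H a), χ (a * u) :=
      finsum_mem_eq_sum_univ_filter _ _
    have hcH : (0 : ℝ) < (Nat.card (H a) : ℝ) := Nat.cast_pos.mpr Nat.card_pos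
    rw [hψ a ha, e, norm_mul, norm_inv, Complex.norm_natCast, mul_pow]
    have h3 : ‖∑ u ∈ Finset.univ.filter (fun u : G => u ∈ H a), χ (a * u)‖
        ≤ ∑ u ∈ Finset.univ.filter (fun u : G => u ∈ H a), ‖χ (a * u)‖ := norm_sum_le _ _
    have h4 : (∑ u ∈ Finset.univ.filter (fun u : G => u ∈ H a), ‖χ (a * u)‖) ^ 2
        ≤ ((Finset.univ.filter (fun u : G => u ∈ H a)).card : ℝ) *
          ∑ u ∈ Finset.univ.filter (fun u : G => u ∈ H a), ‖χ (a * u)‖ ^ 2 :=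
      sq_sum_le_card_mul_sum_sq
    rw [card_filter_mem_subgroup] at h4
    have h5 : ‖∑ u ∈ Finset.univ.filter (fun u : G => u ∈ H a), χ (a * u)‖ ^ 2
        ≤ (Nat.card (H a) : ℝ) *
          ∑ u ∈ Finset.univ.filter (fun u : G => u ∈ H a), ‖χ (a * u)‖ ^ 2 :=
      le_trans (pow_le_pow_left₀ (norm_nonneg _) h3 2) h4
    calc ((Nat.card (H a) : ℝ)⁻¹) ^ 2 *
          ‖∑ u ∈ Finset.univ.filter (fun u : G => u ∈ H a), χ (a * u)‖ ^ 2
        ≤ ((Nat.card (H a) : ℝ)⁻¹) ^ 2 * ((Nat.card (H a) : ℝ) *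
          ∑ u ∈ Finset.univ.filter (fun u : G => u ∈ H a), ‖χ (a * u)‖ ^ 2) :=
          mul_le_mul_of_nonneg_left h5 (by positivity)
      _ = (Nat.card (H a) : ℝ)⁻¹ *
          ∑ u ∈ Finset.univ.filter (fun u : G => u ∈ H a), ‖χ (a * u)‖ ^ 2 := by
          field_simp
  have h6 := Finset.sum_le_sum h2
  have h7 : (Nat.card G : ℝ)⁻¹ * ∑ g ∈ Finset.univ.filter
        (fun g : G => ∃ a ∈ A, ∃ u ∈ H a, ∃ x : G, x * g * x⁻¹ = a * u), ‖χ g‖ ^ 2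
      = (Nat.card L : ℝ)⁻¹ * ∑ a ∈ (Finset.univ : Finset L).filter (fun a : L => (a : G) ∈ A),
          (Nat.card (H a) : ℝ)⁻¹ *
            ∑ u ∈ Finset.univ.filter (fun u : G => u ∈ H a), ‖χ (a * u)‖ ^ 2 := by
    rw [inv_mul_eq_div, inv_mul_eq_div, div_eq_div_iff hcG hcL.ne']
    linear_combination h1
  rw [h7]
  exact mul_le_mul_of_nonneg_left h6 (by positivity)

end Cfsg.Agent.S1525
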