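import Cfsg.Statements.S1529
import Mathlib
import Cfsg.Agent.Helper4.GenChar1
import Cfsg.Agent.Helper75.InnerLin

set_option autoImplicit false
open Cfsg

namespace Cfsg.Agent.S1529

open scoped ComplexConjugate

/-- Let N be a subgroup of the finite group G, S a set of irreducible characters of N with at least two members, and τ₁ a linear isometry on the integer combinations of S with virtual-character values such that τ₁ α vanishes at 1 whenever α ∈ ℤ[S] does. Then there is ε ∈ {1, −1} such that ε • τ₁ χ is an irreducible character of G for every χ ∈ S, and distinct members of S give distinct characters. -/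
theorem result {G : Type*} [Group G] [Fintype G] (N : Subgroup G) [Fintype N] (S : Set (N → ℂ)) (hirr : ∀ χ ∈ S, Cfsg.IsIrrCharacter N χ) (htwo : ∃ χ ∈ S, ∃ ψ ∈ S, χ ≠ ψ) (τ₁ : (N → ℂ) → (G → ℂ)) (hτ₁ : Cfsg.IsLinearIsometryOn (Cfsg.zspan S) τ₁) (h0 : ∀ α ∈ Cfsg.zspan S, α 1 = 0 → τ₁ α 1 = 0) : ∃ ε : ℂ, (ε = 1 ∨ ε = -1) ∧ (∀ χ ∈ S, Cfsg.IsIrrCharacter G (ε • τ₁ χ)) ∧ (∀ χ ∈ S, ∀ ψ ∈ S, τ₁ χ = τ₁ ψ → χ = ψ) := by
  classical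
  obtain ⟨hadd, hsmul, hiso, hgen⟩ := hτ₁
  have hmem : ∀ χ ∈ S, χ ∈ Cfsg.zspan S := fun χ hχ => Submodule.subset_span hχ
  have hpm : ∀ χ ∈ S, ∃ ξ : IrrCharacter G, τ₁ χ = (ξ : G → ℂ) ∨ τ₁ χ = -(ξ : G → ℂ) := by
    intro χ hχ
    apply Cfsg.Agent.Helper4.genChar_norm_one (hgen χ (hmem χ hχ))
    rw [hiso χ (hmem χ hχ) χ (hmem χ hχ)]
    exact Cfsg.Agent.Helper75.classInner_irr_self (hirr χ hχ)
  -- sign lemma
  have hsign : ∀ χ ∈ S, ∀ ψ ∈ S, ∀ ξ ξ' : IrrCharacter G, τ₁ χ = (ξ : G → ℂ) →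
      τ₁ ψ = -(ξ' : G → ℂ) → False := by
    intro χ hχ ψ hψ ξ ξ' h1 h2
    obtain ⟨nχ, hnχ, hχ1⟩ := Cfsg.Agent.Helper81.irr_one_eq (⟨χ, hirr χ hχ⟩ : IrrCharacter N)
    obtain ⟨nψ, hnψ, hψ1⟩ := Cfsg.Agent.Helper81.irr_one_eq (⟨ψ, hirr ψ hψ⟩ : IrrCharacter N)
    obtain ⟨m, hm, hξ1⟩ := Cfsg.Agent.Helper81.irr_one_eq ξ
    obtain ⟨m', hm', hξ'1⟩ := Cfsg.Agent.Helper81.irr_one_eq ξ'
    have hχ1' : χ 1 = (nχ : ℂ) := hχ1
    have hψ1' : ψ 1 = (nψ : ℂ) := hψ1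
    have ha : ((nψ : ℤ) • χ) ∈ Cfsg.zspan S :=
      Submodule.smul_mem (Submodule.span ℤ S) _ (Submodule.subset_span hχ)
    have hb : ((-(nχ : ℤ)) • ψ) ∈ Cfsg.zspan S :=
      Submodule.smul_mem (Submodule.span ℤ S) _ (Submodule.subset_span hψ)
    have hab : ((nψ : ℤ) • χ + (-(nχ : ℤ)) • ψ) ∈ Cfsg.zspan S :=
      Submodule.add_mem (Submodule.span ℤ S) ha hb
    have hα1 : ((nψ : ℤ) • χ + (-(nχ : ℤ)) • ψ) 1 = 0 := by
      rw [Pi.add_apply, Pi.smul_apply, Pi.smul_apply, hχ1', hψ1']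
      simp only [zsmul_eq_mul]
      push_cast
      ring
    have h3 := h0 _ hab hα1
    rw [hadd _ ha _ hb, hsmul χ (hmem χ hχ), hsmul ψ (hmem ψ hψ), h1, h2] at h3
    rw [Pi.add_apply, Pi.smul_apply, Pi.smul_apply, Pi.neg_apply, hξ1, hξ'1] at h3
    simp only [zsmul_eq_mul] at h3
    push_cast at h3
    have h4 : ((nψ * m + nχ * m' : ℕ) : ℂ) = 0 := by
      push_cast
      linear_combination h3
    have h5 : nψ * m + nχ * m' = 0 := by exact_mod_cast h4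
    have : 0 < nψ * m := Nat.mul_pos hnψ hm
    omega
  have hinj : ∀ χ ∈ S, ∀ ψ ∈ S, τ₁ χ = τ₁ ψ → χ = ψ := by
    intro χ hχ ψ hψ heq
    by_contra hne
    have h1 := hiso χ (hmem χ hχ) ψ (hmem ψ hψ)
    rw [← heq, hiso χ (hmem χ hχ) χ (hmem χ hχ),
      Cfsg.Agent.Helper75.classInner_irr_self (hirr χ hχ),
      Cfsg.Agent.Helper75.classInner_irr_of_ne (hirr χ hχ) (hirr ψ hψ) hne] at h1
    exact one_ne_zero h1
  by_cases hP : ∃ χ₀ ∈ S, ∃ ξ₀ : IrrCharacter G, τ₁ χ₀ = (ξ₀ : G → ℂ)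
  · obtain ⟨χ₀, hχ₀, ξ₀, hξ₀⟩ := hP
    refine ⟨1, Or.inl rfl, ?_, hinj⟩
    intro χ hχ
    rw [one_smul]
    obtain ⟨ξ, hξ | hξ⟩ := hpm χ hχ
    · rw [hξ]; exact ξ.2
    · exact (hsign χ₀ hχ₀ χ hχ ξ₀ ξ hξ₀ hξ).elim
  · refine ⟨-1, Or.inr rfl, ?_, hinj⟩
    intro χ hχ
    obtain ⟨ξ, hξ | hξ⟩ := hpm χ hχ
    · exact (hP ⟨χ, hχ, ξ, hξ⟩).elim
    · rw [hξ, neg_one_smul, neg_neg]; exact ξ.2

end Cfsg.Agent.S1529
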