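import Cfsg.Statements.S1530
import Mathlib
import Cfsg.Agent.Helper14.ZSpan

set_option autoImplicit false
open Cfsg

namespace Cfsg.Agent.S1530

/-- Let N be a subgroup of the finite group G and S₀ a finite set of irreducible characters of N, χ an irreducible character of N not in S₀, with degrees ξ 1 = d ξ. Let τ be a linear isometry on the integer combinations of S₀ ∪ {χ} vanishing at 1, with values virtual characters of G vanishing at 1, such that (S₀, N minus 1, τ) is coherent. If some ψ ∈ S₀ has d ψ dividing d χ and 2 · d ψ · d χ < Σ_{ξ ∈ S₀} (d ξ)², then (S₀ ∪ {χ}, N minus 1, τ) is coherent. -/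
theorem result {G : Type*} [Group G] [Fintype G] (N : Subgroup G) [Fintype N] (S₀ : Finset (N → ℂ)) (χ : N → ℂ) (hirr : ∀ ξ ∈ S₀, Cfsg.IsIrrCharacter N ξ) (hχ : Cfsg.IsIrrCharacter N χ) (hχS : χ ∉ S₀) (d : (N → ℂ) → ℕ) (hd : ∀ ξ ∈ insert χ S₀, ξ 1 = (d ξ : ℂ)) (τ : (N → ℂ) → (G → ℂ)) (hτ : Cfsg.IsLinearIsometryOn (Cfsg.zspanOn (↑(insert χ S₀) : Set (N → ℂ)) {1}ᶜ) τ) (hτ1 : ∀ α ∈ Cfsg.zspanOn (↑(insert χ S₀) : Set (N → ℂ)) {1}ᶜ, τ α 1 = 0) (hcoh : Cfsg.IsCoherent (↑S₀ : Set (N → ℂ)) {1}ᶜ τ) (ψ : N → ℂ) (hψ : ψ ∈ S₀) (hdvd : d ψ ∣ d χ) (hlt : 2 * d ψ * d χ < ∑ ξ ∈ S₀, d ξ ^ 2) : Cfsg.IsCoherent (↑(insert χ S₀) : Set (N → ℂ)) {1}ᶜ τ := by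
  classical
  obtain ⟨⟨α₀, hα₀, hα₀ne⟩, τ₁, hτ₁, hτ₁τ⟩ := hcoh
  have hsub : (↑S₀ : Set (N → ℂ)) ⊆ (↑(insert χ S₀) : Set (N → ℂ)) := by
    intro x hx
    exact Finset.mem_coe.mpr (Finset.mem_insert_of_mem (Finset.mem_coe.mp hx))
  have hirr' : ∀ ξ ∈ insert χ S₀, IsIrrCharacter N ξ := by
    intro ξ hξ
    rcases Finset.mem_insert.mp hξ with rfl | h
    · exact hχ
    · exact hirr ξ h
  have hdpos : ∀ ξ ∈ insert χ S₀, 0 < d ξ := by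
    intro ξ hξ
    have h1 := hd ξ hξ
    have h2 := Cfsg.Agent.Helper80.irr_one_eq (⟨ξ, hirr' ξ hξ⟩ : IrrCharacter N)
    have h3 := Cfsg.Agent.Helper80.irr_degree_pos (⟨ξ, hirr' ξ hξ⟩ : IrrCharacter N)
    have h4 : (d ξ : ℂ) = (charDegree ξ : ℂ) := by
      rw [← h1]
      exact h2
    have h5 : d ξ = charDegree ξ := by exact_mod_cast h4
    rw [h5]
    exact h3
  have hψT : ψ ∈ insert χ S₀ := Finset.mem_insert_of_mem hψ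
  have hχI : χ ∈ insert χ S₀ := Finset.mem_insert_self χ S₀
  have hψ1 : ψ 1 = (d ψ : ℂ) := hd ψ hψT
  have hχ1 : χ 1 = (d χ : ℂ) := hd χ hχI
  have hψne : ψ ≠ χ := fun h => hχS (h ▸ hψ)
  obtain ⟨a, ha⟩ := hdvd
  have hSsp : ∀ ξ ∈ S₀, ξ ∈ zspan (↑S₀ : Set (N → ℂ)) := fun ξ h =>
    Submodule.subset_span (Finset.mem_coe.mpr h)
  have hTsp : ∀ ξ ∈ insert χ S₀, ξ ∈ zspan (↑(insert χ S₀) : Set (N → ℂ)) := fun ξ h =>
    Submodule.subset_span (Finset.mem_coe.mpr h)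
  obtain ⟨β, hβ⟩ : ∃ β : N → ℂ, β = χ - (a : ℤ) • ψ := ⟨_, rfl⟩
  have hβT : β ∈ zspanOn (↑(insert χ S₀) : Set (N → ℂ)) ({1}ᶜ : Set N) := by
    rw [hβ]
    refine ⟨Submodule.sub_mem _ (hTsp χ hχI) (Submodule.smul_mem _ _ (hTsp ψ hψT)),
      fun z hz => ?_⟩
    have hz1 : z = 1 := by simpa using hz
    subst hz1
    rw [Pi.sub_apply, Pi.smul_apply, hχ1, hψ1, zsmul_eq_mul, ha]
    push_cast
    ring
  have hγ : ∀ ξ ∈ S₀, (d ψ : ℤ) • ξ - (d ξ : ℤ) • ψ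
      ∈ zspanOn (↑S₀ : Set (N → ℂ)) ({1}ᶜ : Set N) := by
    intro ξ hξ
    refine ⟨Submodule.sub_mem _ (Submodule.smul_mem _ _ (hSsp ξ hξ))
      (Submodule.smul_mem _ _ (hSsp ψ hψ)), fun z hz => ?_⟩
    have hz1 : z = 1 := by simpa using hz
    subst hz1
    rw [Pi.sub_apply, Pi.smul_apply, Pi.smul_apply, hd ξ (Finset.mem_insert_of_mem hξ), hψ1,
      zsmul_eq_mul, zsmul_eq_mul]
    push_cast
    ring
  have hτ₁γ : ∀ ξ ∈ S₀, τ ((d ψ : ℤ) • ξ - (d ξ : ℤ) • ψ)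
      = (d ψ : ℤ) • τ₁ ξ - (d ξ : ℤ) • τ₁ ψ := by
    intro ξ hξ
    rw [← hτ₁τ _ (hγ ξ hξ), Cfsg.Agent.Helper14.ZS.iso_sub hτ₁
      (Submodule.smul_mem _ _ (hSsp ξ hξ)) (Submodule.smul_mem _ _ (hSsp ψ hψ)),
      hτ₁.2.1 ξ (hSsp ξ hξ), hτ₁.2.1 ψ (hSsp ψ hψ)]
  have hon : ∀ ξ ∈ S₀, ∀ ξ' ∈ S₀, classInner (τ₁ ξ) (τ₁ ξ') = if ξ = ξ' then 1 else 0 := by
    intro ξ hξ ξ' hξ'
    rw [hτ₁.2.2.1 ξ (hSsp ξ hξ) ξ' (hSsp ξ' hξ')]
    by_cases h : ξ = ξ'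
    · subst h
      rw [if_pos rfl]
      exact Cfsg.Agent.Helper15.irr_inner_self (hirr ξ hξ)
    · rw [if_neg h]
      exact Cfsg.Agent.Helper15.irr_inner_ne (hirr ξ hξ) (hirr ξ' hξ') h
  have hgenβ : IsGeneralizedCharacter G (τ β) := hτ.2.2.2 β hβT
  have hgen₁ : ∀ ξ ∈ S₀, IsGeneralizedCharacter G (τ₁ ξ) := fun ξ h => hτ₁.2.2.2 ξ (hSsp ξ h)
  have hcz : ∀ ξ, ∃ z : ℤ, ξ ∈ S₀ → classInner (τ β) (τ₁ ξ) = z := by
    intro ξ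
    by_cases h : ξ ∈ S₀
    · obtain ⟨z, hz⟩ := Cfsg.Agent.Helper14.ZS.genChar_inner_genChar_int hgenβ (hgen₁ ξ h)
      exact ⟨z, fun _ => hz⟩
    · exact ⟨0, fun h' => absurd h' h⟩
  choose cz hcz using hcz
  have hχχ := Cfsg.Agent.Helper15.irr_inner_self hχ
  have hψψ := Cfsg.Agent.Helper15.irr_inner_self (hirr ψ hψ)
  have hχψ := Cfsg.Agent.Helper15.irr_inner_ne hχ (hirr ψ hψ) (Ne.symm hψne)
  have hψχ := Cfsg.Agent.Helper15.irr_inner_ne (hirr ψ hψ) hχ hψne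
  have hrel : ∀ ξ ∈ S₀, ξ ≠ ψ → (d ψ : ℤ) * cz ξ = (cz ψ + a) * d ξ := by
    intro ξ hξ hne
    have h1 := hτ.2.2.1 β hβT _ (Cfsg.Agent.Helper14.ZS.zspanOn_mono hsub (hγ ξ hξ))
    rw [hτ₁γ ξ hξ] at h1
    rw [Cfsg.Agent.Helper75.classInner_sub_right, Cfsg.Agent.Helper14.ZS.classInner_zsmul_right,
      Cfsg.Agent.Helper14.ZS.classInner_zsmul_right, hcz ξ hξ, hcz ψ hψ] at h1
    have hχξ := Cfsg.Agent.Helper15.irr_inner_ne hχ (hirr ξ hξ) (fun h => hχS (h ▸ hξ))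
    have hψξ := Cfsg.Agent.Helper15.irr_inner_ne (hirr ψ hψ) (hirr ξ hξ) (Ne.symm hne)
    have h2 : classInner β ((d ψ : ℤ) • ξ - (d ξ : ℤ) • ψ) = (a : ℂ) * (d ξ : ℂ) := by
      rw [hβ]
      simp only [Cfsg.Agent.Helper3.classInner_sub_left, Cfsg.Agent.Helper75.classInner_sub_right,
        Cfsg.Agent.Helper14.Coh.classInner_zsmul_left,
        Cfsg.Agent.Helper14.ZS.classInner_zsmul_right, hχξ, hψξ, hχψ, hψψ]
      push_cast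
      ring
    rw [h2] at h1
    have h3 : (((d ψ : ℤ) * cz ξ : ℤ) : ℂ) = (((cz ψ + a) * d ξ : ℤ) : ℂ) := by
      push_cast
      push_cast at h1
      linear_combination h1
    exact_mod_cast h3
  obtain ⟨P, hP⟩ : ∃ P : G → ℂ, P = ∑ ξ ∈ S₀, cz ξ • τ₁ ξ := ⟨_, rfl⟩
  obtain ⟨Δ, hΔ⟩ : ∃ Δ : G → ℂ, Δ = τ β - P := ⟨_, rfl⟩
  have hgenP : IsGeneralizedCharacter G P := by
    rw [hP]
    exact Cfsg.Agent.Helper14.ZS.genChar_sum _ _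
      (fun ξ hξ => Cfsg.Agent.Helper14.ZS.genChar_zsmul (hgen₁ ξ hξ) _)
  have hgenΔ : IsGeneralizedCharacter G Δ := by
    rw [hΔ]
    exact Cfsg.Agent.Helper14.ZS.genChar_sub hgenβ hgenP
  have hPin : ∀ ξ ∈ S₀, classInner P (τ₁ ξ) = cz ξ := by
    intro ξ hξ
    rw [hP, Cfsg.Agent.Helper15.classInner_sum_left, Finset.sum_eq_single ξ]
    · rw [Cfsg.Agent.Helper14.Coh.classInner_zsmul_left, hon ξ hξ ξ hξ, if_pos rfl, mul_one]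
    · intro ξ' hξ' hne
      rw [Cfsg.Agent.Helper14.Coh.classInner_zsmul_left, hon ξ' hξ' ξ hξ, if_neg hne, mul_zero]
    · intro h
      exact absurd hξ h
  have hΔorth : ∀ ξ ∈ S₀, classInner Δ (τ₁ ξ) = 0 := by
    intro ξ hξ
    rw [hΔ, Cfsg.Agent.Helper3.classInner_sub_left, hcz ξ hξ, hPin ξ hξ, sub_self]
  have hΔP : classInner Δ P = 0 := by
    rw [hP, Cfsg.Agent.Helper15.classInner_sum_right]
    apply Finset.sum_eq_zero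
    intro ξ hξ
    rw [Cfsg.Agent.Helper14.ZS.classInner_zsmul_right, hΔorth ξ hξ, mul_zero]
  have hnormβ : classInner (τ β) (τ β) = 1 + (a : ℂ) ^ 2 := by
    rw [hτ.2.2.1 β hβT β hβT, hβ]
    simp only [Cfsg.Agent.Helper3.classInner_sub_left, Cfsg.Agent.Helper75.classInner_sub_right,
      Cfsg.Agent.Helper14.Coh.classInner_zsmul_left,
      Cfsg.Agent.Helper14.ZS.classInner_zsmul_right, hχχ, hψψ, hχψ, hψχ]
    push_cast
    ring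
  have hΔnorm : classInner Δ Δ = 1 + (a : ℂ) ^ 2 - ∑ ξ ∈ S₀, (cz ξ : ℂ) ^ 2 := by
    have h1 : classInner Δ Δ = classInner Δ (τ β) := by
      have h := Cfsg.Agent.Helper75.classInner_sub_right Δ (τ β) P
      rw [← hΔ, hΔP, sub_zero] at h
      exact h
    have h2 : classInner Δ (τ β) = classInner (τ β) (τ β) - classInner P (τ β) := by
      rw [hΔ]
      exact Cfsg.Agent.Helper3.classInner_sub_left _ _ _
    have h3 : classInner P (τ β) = ∑ ξ ∈ S₀, (cz ξ : ℂ) ^ 2 := by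
      rw [hP, Cfsg.Agent.Helper15.classInner_sum_left]
      apply Finset.sum_congr rfl
      intro ξ hξ
      rw [Cfsg.Agent.Helper14.Coh.classInner_zsmul_left, Cfsg.Agent.Helper15.classInner_conj_symm,
        hcz ξ hξ]
      simp [sq]
    rw [h1, h2, hnormβ, h3]
  obtain ⟨zΔ, hzΔ⟩ := Cfsg.Agent.Helper14.ZS.genChar_inner_genChar_int hgenΔ hgenΔ
  have hzΔ0 : 0 ≤ zΔ := by
    obtain ⟨r, hr0, hr⟩ := Cfsg.Agent.Helper14.ZS.classInner_self_nonneg Δ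
    rw [hzΔ] at hr
    have h1 := congrArg Complex.re hr
    simp only [Complex.intCast_re, Complex.ofReal_re] at h1
    have h2 : (0 : ℝ) ≤ (zΔ : ℝ) := by
      rw [h1]
      exact hr0
    exact_mod_cast h2
  have hnormZ : zΔ = 1 + (a : ℤ) ^ 2 - ∑ ξ ∈ S₀, (cz ξ) ^ 2 := by
    have h1 : ((zΔ : ℤ) : ℂ) = ((1 + (a : ℤ) ^ 2 - ∑ ξ ∈ S₀, (cz ξ) ^ 2 : ℤ) : ℂ) := by
      rw [← hzΔ, hΔnorm]
      push_cast
      rfl
    exact_mod_cast h1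
  obtain ⟨y, hy⟩ : ∃ y : ℤ, y = cz ψ + a := ⟨_, rfl⟩
  have hdχZ : (d χ : ℤ) = d ψ * a := by exact_mod_cast ha
  have hczψ : (d ψ : ℤ) * cz ψ = y * d ψ - d χ := by
    rw [hy, hdχZ]
    ring
  have hsumd : ∑ ξ ∈ S₀, (d ξ : ℤ) ^ 2
      = (d ψ : ℤ) ^ 2 + ∑ ξ ∈ S₀.erase ψ, (d ξ : ℤ) ^ 2 :=
    (Finset.add_sum_erase S₀ _ hψ).symm
  have hsumc : ∑ ξ ∈ S₀, ((d ψ : ℤ) * cz ξ) ^ 2
      = ((d ψ : ℤ) * cz ψ) ^ 2 + y ^ 2 * ∑ ξ ∈ S₀.erase ψ, (d ξ : ℤ) ^ 2 := by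
    rw [← Finset.add_sum_erase S₀ _ hψ, Finset.mul_sum]
    congr 1
    apply Finset.sum_congr rfl
    intro ξ hξ
    rw [hrel ξ (Finset.mem_of_mem_erase hξ) (Finset.ne_of_mem_erase hξ), ← hy]
    ring
  have hkey : (d ψ : ℤ) ^ 2 * (1 - zΔ)
      = y * (y * ∑ ξ ∈ S₀, (d ξ : ℤ) ^ 2 - 2 * d ψ * d χ) := by
    have h1 : (d ψ : ℤ) ^ 2 * ∑ ξ ∈ S₀, (cz ξ) ^ 2 = ∑ ξ ∈ S₀, ((d ψ : ℤ) * cz ξ) ^ 2 := by
      rw [Finset.mul_sum]
      apply Finset.sum_congr rfl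
      intro ξ _
      ring
    have h4 : (d ψ : ℤ) ^ 2 * zΔ
        = (d ψ : ℤ) ^ 2 + (d χ : ℤ) ^ 2 - ∑ ξ ∈ S₀, ((d ψ : ℤ) * cz ξ) ^ 2 := by
      rw [← h1, hnormZ, hdχZ]
      ring
    rw [hsumc, hczψ] at h4
    rw [hsumd]
    linear_combination (-1 : ℤ) * h4
  have hdψpos : (0 : ℤ) < d ψ := by exact_mod_cast hdpos ψ hψT
  have hdχpos : (0 : ℤ) < d χ := by exact_mod_cast hdpos χ hχI
  have hdd : (0 : ℤ) < d ψ * d χ := mul_pos hdψpos hdχpos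
  have hltZ : 2 * (d ψ : ℤ) * d χ < ∑ ξ ∈ S₀, (d ξ : ℤ) ^ 2 := by exact_mod_cast hlt
  have hSgpos : (0 : ℤ) < ∑ ξ ∈ S₀, (d ξ : ℤ) ^ 2 := by linarith
  have hτ₁one : ∀ ξ ∈ S₀, (d ψ : ℂ) * τ₁ ξ 1 = (d ξ : ℂ) * τ₁ ψ 1 := by
    intro ξ hξ
    have h := hτ1 _ (Cfsg.Agent.Helper14.ZS.zspanOn_mono hsub (hγ ξ hξ))
    rw [hτ₁γ ξ hξ, Pi.sub_apply, Pi.smul_apply, Pi.smul_apply, zsmul_eq_mul, zsmul_eq_mul] at h
    push_cast at h
    linear_combination h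
  have hτ₁ψ1 : τ₁ ψ 1 ≠ 0 := Cfsg.Agent.Helper14.ZS.genChar_norm_one_apply_one_ne_zero
    (hgen₁ ψ hψ) (by rw [hon ψ hψ ψ hψ, if_pos rfl])
  have hy0 : y = 0 := by
    by_contra hyne
    have hpos : 0 < y * (y * ∑ ξ ∈ S₀, (d ξ : ℤ) ^ 2 - 2 * d ψ * d χ) := by
      rcases lt_or_gt_of_ne hyne with h | h
      · apply mul_pos_of_neg_of_neg h
        have h1 : y * ∑ ξ ∈ S₀, (d ξ : ℤ) ^ 2 < 0 := mul_neg_of_neg_of_pos h hSgpos
        linarith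
      · apply mul_pos h
        have h1 : 1 * ∑ ξ ∈ S₀, (d ξ : ℤ) ^ 2 ≤ y * ∑ ξ ∈ S₀, (d ξ : ℤ) ^ 2 :=
          mul_le_mul_of_nonneg_right (by omega) hSgpos.le
        linarith
    rw [← hkey] at hpos
    have hzΔeq : zΔ = 0 := by
      by_contra hne0
      have h1 : 1 ≤ zΔ := by omega
      have h2 : (d ψ : ℤ) ^ 2 * (1 - zΔ) ≤ 0 :=
        mul_nonpos_of_nonneg_of_nonpos (sq_nonneg _) (by omega)
      linarith
    have hΔ0 : Δ = 0 := Cfsg.Agent.Helper14.ZS.classInner_self_eq_zero (by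
      rw [hzΔ, hzΔeq]
      simp)
    have hτβP : τ β = P := by
      rw [hΔ] at hΔ0
      exact sub_eq_zero.mp hΔ0
    have h1 : τ β 1 = 0 := hτ1 β hβT
    rw [hτβP, hP, Finset.sum_apply] at h1
    have h2 : ∑ ξ ∈ S₀, (cz ξ : ℂ) * (d ξ : ℂ) = 0 := by
      have h3 : (d ψ : ℂ) * ∑ ξ ∈ S₀, (cz ξ • τ₁ ξ) 1
          = τ₁ ψ 1 * ∑ ξ ∈ S₀, (cz ξ : ℂ) * (d ξ : ℂ) := by
        rw [Finset.mul_sum, Finset.mul_sum]
        apply Finset.sum_congr rfl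
        intro ξ hξ
        rw [Pi.smul_apply, zsmul_eq_mul]
        linear_combination (cz ξ : ℂ) * hτ₁one ξ hξ
      rw [h1, mul_zero] at h3
      exact (mul_eq_zero.mp h3.symm).resolve_left hτ₁ψ1
    have h2Z : ∑ ξ ∈ S₀, cz ξ * (d ξ : ℤ) = 0 := by exact_mod_cast h2
    have h4 : y * ∑ ξ ∈ S₀, (d ξ : ℤ) ^ 2 = d ψ * d χ := by
      have h5 : ∑ ξ ∈ S₀, ((d ψ : ℤ) * cz ξ) * (d ξ : ℤ) = 0 := by
        have : ∑ ξ ∈ S₀, ((d ψ : ℤ) * cz ξ) * (d ξ : ℤ)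
            = (d ψ : ℤ) * ∑ ξ ∈ S₀, cz ξ * (d ξ : ℤ) := by
          rw [Finset.mul_sum]
          apply Finset.sum_congr rfl
          intro ξ _
          ring
        rw [this, h2Z, mul_zero]
      rw [← Finset.add_sum_erase S₀ _ hψ] at h5
      have h6 : ∑ ξ ∈ S₀.erase ψ, ((d ψ : ℤ) * cz ξ) * (d ξ : ℤ)
          = y * ∑ ξ ∈ S₀.erase ψ, (d ξ : ℤ) ^ 2 := by
        rw [Finset.mul_sum]
        apply Finset.sum_congr rfl
        intro ξ hξ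
        rw [hrel ξ (Finset.mem_of_mem_erase hξ) (Finset.ne_of_mem_erase hξ), ← hy]
        ring
      rw [h6, hczψ] at h5
      rw [hsumd]
      linear_combination h5
    have hA : (d ψ : ℤ) ^ 2 = -(y * (d ψ * d χ)) := by
      have h := hkey
      rw [hzΔeq, h4] at h
      linear_combination h
    have hyneg : y < 0 := by
      by_contra hge
      push Not at hge
      have h1 : 0 ≤ y * ((d ψ : ℤ) * d χ) := mul_nonneg hge hdd.le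
      have h2 : (0 : ℤ) < (d ψ : ℤ) ^ 2 := pow_pos hdψpos 2
      linarith
    have h8 : y * ∑ ξ ∈ S₀, (d ξ : ℤ) ^ 2 < 0 := mul_neg_of_neg_of_pos hyneg hSgpos
    linarith
  have hczψ0 : cz ψ = -(a : ℤ) := by
    rw [hy0] at hy
    linarith
  have hcz0 : ∀ ξ ∈ S₀, ξ ≠ ψ → cz ξ = 0 := by
    intro ξ hξ hne
    have h := hrel ξ hξ hne
    rw [← hy, hy0, zero_mul] at h
    rcases mul_eq_zero.mp h with h' | h'
    · exact absurd h' hdψpos.ne'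
    · exact h'
  have hzΔ1 : zΔ = 1 := by
    have h := hkey
    rw [hy0, zero_mul] at h
    rcases mul_eq_zero.mp h with h' | h'
    · exact absurd (pow_eq_zero_iff two_ne_zero |>.mp h') hdψpos.ne'
    · omega
  have hPeq : P = (-(a : ℤ)) • τ₁ ψ := by
    rw [hP, Finset.sum_eq_single ψ]
    · rw [hczψ0]
    · intro ξ hξ hne
      rw [hcz0 ξ hξ hne, zero_smul]
    · intro h
      exact absurd hψ h
  have hτβ : τ β = Δ - (a : ℤ) • τ₁ ψ := by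
    rw [hΔ, hPeq, neg_smul]
    abel
  have hΔnorm1 : classInner Δ Δ = 1 := by
    rw [hzΔ, hzΔ1]
    simp
  have hχorth : ∀ z ∈ zspan (↑S₀ : Set (N → ℂ)), classInner z χ = 0 := by
    intro z hz
    exact Cfsg.Agent.Helper14.ZS.zspan_orth (X := (↑S₀ : Set (N → ℂ))) (Y := {χ}) (by
      intro x hx y hy
      rw [Set.mem_singleton_iff] at hy
      subst hy
      exact Cfsg.Agent.Helper15.irr_inner_ne (hirr x (Finset.mem_coe.mp hx)) hχ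
        (fun h => hχS (h ▸ Finset.mem_coe.mp hx))) z hz χ
      (Submodule.subset_span (Set.mem_singleton χ))
  have hχorth' : ∀ z ∈ zspan (↑S₀ : Set (N → ℂ)), classInner χ z = 0 := by
    intro z hz
    rw [Cfsg.Agent.Helper15.classInner_conj_symm, hχorth z hz, map_zero]
  have hΔorth₁ : ∀ z ∈ zspan (↑S₀ : Set (N → ℂ)), classInner Δ (τ₁ z) = 0 :=
    Cfsg.Agent.Helper14.ZS.iso_orth_left hτ₁ Δ (fun x hx => hΔorth x (Finset.mem_coe.mp hx))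
  have hΔorth₁' : ∀ z ∈ zspan (↑S₀ : Set (N → ℂ)), classInner (τ₁ z) Δ = 0 := by
    intro z hz
    rw [Cfsg.Agent.Helper15.classInner_conj_symm, hΔorth₁ z hz, map_zero]
  have huniq : ∀ (n n' : ℤ) (z z' : N → ℂ), z ∈ zspan (↑S₀ : Set (N → ℂ)) →
      z' ∈ zspan (↑S₀ : Set (N → ℂ)) → n • χ + z = n' • χ + z' → n = n' ∧ z = z' := by
    intro n n' z z' hz hz' h
    have h1 := congrArg (fun f => classInner f χ) h
    simp only [Cfsg.Agent.Helper15.classInner_add_left,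
      Cfsg.Agent.Helper14.Coh.classInner_zsmul_left, hχorth z hz, hχorth z' hz', hχχ] at h1
    have hn : n = n' := by
      have h2 : (n : ℂ) = n' := by linear_combination h1
      exact_mod_cast h2
    subst hn
    exact ⟨rfl, add_left_cancel h⟩
  obtain ⟨τ₂, hτ₂⟩ : ∃ τ₂ : (N → ℂ) → (G → ℂ), ∀ (n : ℤ) (z : N → ℂ),
      z ∈ zspan (↑S₀ : Set (N → ℂ)) → τ₂ (n • χ + z) = n • Δ + τ₁ z := by
    refine ⟨fun θ => if h : ∃ n : ℤ, ∃ z ∈ zspan (↑S₀ : Set (N → ℂ)), θ = n • χ + z then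
      h.choose • Δ + τ₁ h.choose_spec.choose else 0, ?_⟩
    intro n z hz
    have h : ∃ n' : ℤ, ∃ z' ∈ zspan (↑S₀ : Set (N → ℂ)), n • χ + z = n' • χ + z' :=
      ⟨n, z, hz, rfl⟩
    simp only [dif_pos h]
    obtain ⟨h1, h2⟩ := huniq n _ z _ hz h.choose_spec.choose_spec.1 h.choose_spec.choose_spec.2
    exact congrArg₂ (· + ·) (congrArg (· • Δ) h1.symm) (congrArg τ₁ h2.symm)
  have hdec : ∀ θ ∈ zspan (↑(insert χ S₀) : Set (N → ℂ)),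
      ∃ n : ℤ, ∃ z ∈ zspan (↑S₀ : Set (N → ℂ)), θ = n • χ + z := by
    intro θ hθ
    unfold zspan at hθ
    rw [Finset.coe_insert] at hθ
    exact Submodule.mem_span_insert.mp hθ
  refine ⟨⟨α₀, Cfsg.Agent.Helper14.ZS.zspanOn_mono hsub hα₀, hα₀ne⟩, τ₂, ⟨?_, ?_, ?_, ?_⟩, ?_⟩
  · intro θ hθ θ' hθ'
    obtain ⟨n, z, hz, rfl⟩ := hdec θ hθ
    obtain ⟨n', z', hz', rfl⟩ := hdec θ' hθ'
    have e : n • χ + z + (n' • χ + z') = (n + n') • χ + (z + z') := by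
      rw [add_smul]
      abel
    rw [e, hτ₂ _ _ (Submodule.add_mem _ hz hz'), hτ₂ n z hz, hτ₂ n' z' hz', hτ₁.1 z hz z' hz',
      add_smul]
    abel
  · intro θ hθ k
    obtain ⟨n, z, hz, rfl⟩ := hdec θ hθ
    have e : k • (n • χ + z) = (k * n) • χ + k • z := by
      rw [smul_add, mul_smul]
    rw [e, hτ₂ _ _ (Submodule.smul_mem _ k hz), hτ₂ n z hz, hτ₁.2.1 z hz k, smul_add, mul_smul]
  · intro θ hθ θ' hθ'
    obtain ⟨n, z, hz, rfl⟩ := hdec θ hθ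
    obtain ⟨n', z', hz', rfl⟩ := hdec θ' hθ'
    rw [hτ₂ n z hz, hτ₂ n' z' hz']
    simp only [Cfsg.Agent.Helper15.classInner_add_left, Cfsg.Agent.Helper15.classInner_add_right,
      Cfsg.Agent.Helper14.Coh.classInner_zsmul_left,
      Cfsg.Agent.Helper14.ZS.classInner_zsmul_right]
    rw [hΔnorm1, hΔorth₁ z' hz', hΔorth₁' z hz, hτ₁.2.2.1 z hz z' hz', hχχ, hχorth' z' hz',
      hχorth z hz]
  · intro θ hθ
    obtain ⟨n, z, hz, rfl⟩ := hdec θ hθ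
    rw [hτ₂ n z hz]
    exact Cfsg.Agent.Helper14.ZS.genChar_add (Cfsg.Agent.Helper14.ZS.genChar_zsmul hgenΔ n)
      (hτ₁.2.2.2 z hz)
  · intro θ hθ
    obtain ⟨n, z, hz, rfl⟩ := hdec θ hθ.1
    rw [hτ₂ n z hz]
    have h1 : (n • χ + z) 1 = 0 := hθ.2 1 (by simp)
    have hz' : z + (n * a) • ψ ∈ zspanOn (↑S₀ : Set (N → ℂ)) ({1}ᶜ : Set N) := by
      refine ⟨Submodule.add_mem _ hz (Submodule.smul_mem _ _ (hSsp ψ hψ)), fun w hw => ?_⟩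
      have hw1 : w = 1 := by simpa using hw
      subst hw1
      rw [Pi.add_apply, Pi.smul_apply, zsmul_eq_mul, hψ1]
      rw [Pi.add_apply, Pi.smul_apply, zsmul_eq_mul, hχ1, ha] at h1
      push_cast at h1 ⊢
      linear_combination h1
    have hnβ : n • β ∈ zspanOn (↑(insert χ S₀) : Set (N → ℂ)) ({1}ᶜ : Set N) :=
      Cfsg.Agent.Helper14.ZS.zspanOn_zsmul hβT n
    have hz'T := Cfsg.Agent.Helper14.ZS.zspanOn_mono hsub hz'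
    have e : n • χ + z = (z + (n * a) • ψ) + n • β := by
      rw [hβ, smul_sub, smul_smul]
      abel
    rw [e, hτ.1 _ hz'T _ hnβ, hτ.2.1 β hβT n, ← hτ₁τ _ hz',
      hτ₁.1 z hz _ (Submodule.smul_mem _ _ (hSsp ψ hψ)), hτ₁.2.1 ψ (hSsp ψ hψ), hτβ, smul_sub,
      smul_smul]
    abel

end Cfsg.Agent.S1530
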