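import Cfsg.Statements.S1531
import Mathlib
import Cfsg.Agent.Helper14.ZSpan

set_option autoImplicit false
open Cfsg

namespace Cfsg.Agent.S1531

/-- Let N be a subgroup of the finite group G, S a set of irreducible characters of N, and α a linear isometry on the integer combinations of S vanishing at 1 with values virtual characters of G vanishing at 1. Let X, Y ⊆ S be disjoint, each with at least two members, and σ, τ linear isometries on ℤ[X], ℤ[Y] into virtual characters agreeing with α on the members vanishing at 1. Then ⟨σ χ, τ η⟩ = 0 for χ ∈ X, η ∈ Y; and if for some χ₀ ∈ X, η₀ ∈ Y with degrees c = χ₀ 1, e = η₀ 1 one has α (c • η₀ − e • χ₀) = c • τ η₀ − e • σ χ₀, then (X ∪ Y, N minus 1, α) is coherent. -/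
theorem result {G : Type*} [Group G] [Fintype G] (N : Subgroup G) [Fintype N] (S X Y : Set (N → ℂ)) (hirr : ∀ ξ ∈ S, Cfsg.IsIrrCharacter N ξ) (hXS : X ⊆ S) (hYS : Y ⊆ S) (hXY : Disjoint X Y) (hX2 : ∃ a ∈ X, ∃ b ∈ X, a ≠ b) (hY2 : ∃ a ∈ Y, ∃ b ∈ Y, a ≠ b) (α : (N → ℂ) → (G → ℂ)) (hα : Cfsg.IsLinearIsometryOn (Cfsg.zspanOn S {1}ᶜ) α) (hα1 : ∀ θ ∈ Cfsg.zspanOn S {1}ᶜ, α θ 1 = 0) (σ τ : (N → ℂ) → (G → ℂ)) (hσ : Cfsg.IsLinearIsometryOn (Cfsg.zspan X) σ) (hσα : ∀ θ ∈ Cfsg.zspanOn X {1}ᶜ, σ θ = α θ) (hτ : Cfsg.IsLinearIsometryOn (Cfsg.zspan Y) τ) (hτα : ∀ θ ∈ Cfsg.zspanOn Y {1}ᶜ, τ θ = α θ) : (∀ χ ∈ X, ∀ η ∈ Y, Cfsg.classInner (σ χ) (τ η) = 0) ∧ ((∃ χ₀ ∈ X, ∃ η₀ ∈ Y, α (χ₀ 1 • η₀ - η₀ 1 • χ₀) = χ₀ 1 • τ η₀ - η₀ 1 • σ χ₀) → Cfsg.IsCoherent (X ∪ Y) {1}ᶜ α) := by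
  classical
  have hirrX : ∀ ξ ∈ X, IsIrrCharacter N ξ := fun ξ h => hirr ξ (hXS h)
  have hirrY : ∀ ξ ∈ Y, IsIrrCharacter N ξ := fun ξ h => hirr ξ (hYS h)
  have hdisj : ∀ x ∈ X, ∀ y ∈ Y, x ≠ y := fun x hx y hy h =>
    Set.disjoint_left.mp hXY hx (h ▸ hy)
  have horthXY : ∀ x ∈ X, ∀ y ∈ Y, classInner x y = 0 := fun x hx y hy =>
    Cfsg.Agent.Helper15.irr_inner_ne (hirrX x hx) (hirrY y hy) (hdisj x hx y hy)
  have hchar : ∀ ξ ∈ S, IsCharacter N ξ := fun ξ h =>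
    Cfsg.Agent.Helper79.isCharacter_of_irr (hirr ξ h)
  have hdeg : ∀ ξ ∈ S, ξ 1 = (charDegree ξ : ℂ) := fun ξ h =>
    Cfsg.Agent.Helper80.isCharacter_one_eq (hchar ξ h)
  have hdpos : ∀ ξ ∈ S, 0 < charDegree ξ := fun ξ h =>
    Cfsg.Agent.Helper80.irr_degree_pos ⟨ξ, hirr ξ h⟩
  have hdne : ∀ ξ ∈ S, (charDegree ξ : ℂ) ≠ 0 := by
    intro ξ h
    have := hdpos ξ h
    exact_mod_cast this.ne'
  have hXsp : ∀ x ∈ X, x ∈ zspan X := fun x h => Submodule.subset_span h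
  have hYsp : ∀ y ∈ Y, y ∈ zspan Y := fun y h => Submodule.subset_span h
  have hσnorm : ∀ x ∈ X, classInner (σ x) (σ x) = 1 := by
    intro x hx
    rw [hσ.2.2.1 x (hXsp x hx) x (hXsp x hx)]
    exact Cfsg.Agent.Helper15.irr_inner_self (hirrX x hx)
  have hτnorm : ∀ y ∈ Y, classInner (τ y) (τ y) = 1 := by
    intro y hy
    rw [hτ.2.2.1 y (hYsp y hy) y (hYsp y hy)]
    exact Cfsg.Agent.Helper15.irr_inner_self (hirrY y hy)
  have hσorth : ∀ x ∈ X, ∀ x' ∈ X, x ≠ x' → classInner (σ x) (σ x') = 0 := by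
    intro x hx x' hx' hne
    rw [hσ.2.2.1 x (hXsp x hx) x' (hXsp x' hx')]
    exact Cfsg.Agent.Helper15.irr_inner_ne (hirrX x hx) (hirrX x' hx') hne
  have hτorth : ∀ y ∈ Y, ∀ y' ∈ Y, y ≠ y' → classInner (τ y) (τ y') = 0 := by
    intro y hy y' hy' hne
    rw [hτ.2.2.1 y (hYsp y hy) y' (hYsp y' hy')]
    exact Cfsg.Agent.Helper15.irr_inner_ne (hirrY y hy) (hirrY y' hy') hne
  have hcombX : ∀ x ∈ X, ∀ x' ∈ X,
      Cfsg.Agent.Helper14.Coh.comb x x' ∈ zspanOn X ({1}ᶜ : Set N) := by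
    intro x hx x' hx'
    refine ⟨Cfsg.Agent.Helper14.Coh.comb_mem_zspan X hx hx', fun z hz => ?_⟩
    have hz1 : z = 1 := by simpa using hz
    subst hz1
    exact Cfsg.Agent.Helper14.Coh.comb_one (hchar x (hXS hx)) (hchar x' (hXS hx'))
  have hcombY : ∀ y ∈ Y, ∀ y' ∈ Y,
      Cfsg.Agent.Helper14.Coh.comb y y' ∈ zspanOn Y ({1}ᶜ : Set N) := by
    intro y hy y' hy'
    refine ⟨Cfsg.Agent.Helper14.Coh.comb_mem_zspan Y hy hy', fun z hz => ?_⟩
    have hz1 : z = 1 := by simpa using hz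
    subst hz1
    exact Cfsg.Agent.Helper14.Coh.comb_one (hchar y (hYS hy)) (hchar y' (hYS hy'))
  have hmonoX : ∀ θ, θ ∈ zspanOn X ({1}ᶜ : Set N) → θ ∈ zspanOn S ({1}ᶜ : Set N) :=
    fun θ h => Cfsg.Agent.Helper14.ZS.zspanOn_mono hXS h
  have hmonoY : ∀ θ, θ ∈ zspanOn Y ({1}ᶜ : Set N) → θ ∈ zspanOn S ({1}ᶜ : Set N) :=
    fun θ h => Cfsg.Agent.Helper14.ZS.zspanOn_mono hYS h
  -- Claim 1
  have claim1 : ∀ χ ∈ X, ∀ η ∈ Y, classInner (σ χ) (τ η) = 0 := by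
    intro χ hχ η hη
    by_contra hne
    obtain ⟨ε, hε, hAB, hinner⟩ := Cfsg.Agent.Helper14.ZS.genChar_pair
      (hσ.2.2.2 χ (hXsp χ hχ)) (hτ.2.2.2 η (hYsp η hη)) (hσnorm χ hχ) (hτnorm η hη) hne
    have hε0 : ε ≠ 0 := by rcases hε with rfl | rfl <;> norm_num
    obtain ⟨χ', hχ', hχne⟩ : ∃ χ' ∈ X, χ' ≠ χ := by
      obtain ⟨a, ha, b, hb, hab⟩ := hX2
      by_cases h : a = χ
      · exact ⟨b, hb, fun h' => hab (h.trans h'.symm)⟩
      · exact ⟨a, ha, h⟩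
    obtain ⟨η', hη', hηne⟩ : ∃ η' ∈ Y, η' ≠ η := by
      obtain ⟨a, ha, b, hb, hab⟩ := hY2
      by_cases h : a = η
      · exact ⟨b, hb, fun h' => hab (h.trans h'.symm)⟩
      · exact ⟨a, ha, h⟩
    have hA := hcombX χ hχ χ' hχ'
    have hB := hcombY η hη η' hη'
    have h1 := hα.2.2.1 _ (hmonoX _ hA) _ (hmonoY _ hB)
    have hrhs : classInner (Cfsg.Agent.Helper14.Coh.comb χ χ')
        (Cfsg.Agent.Helper14.Coh.comb η η') = 0 :=
      Cfsg.Agent.Helper14.ZS.zspan_orth horthXY _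
        (Cfsg.Agent.Helper14.Coh.comb_mem_zspan X hχ hχ') _
        (Cfsg.Agent.Helper14.Coh.comb_mem_zspan Y hη hη')
    rw [hrhs, ← hσα _ hA, ← hτα _ hB, Cfsg.Agent.Helper14.Coh.star_comb X σ hσ hχ hχ',
      Cfsg.Agent.Helper14.Coh.star_comb Y τ hτ hη hη'] at h1
    simp only [Cfsg.Agent.Helper3.classInner_sub_left, Cfsg.Agent.Helper75.classInner_sub_right,
      Cfsg.Agent.Helper14.Coh.classInner_zsmul_left,
      Cfsg.Agent.Helper14.ZS.classInner_zsmul_right, Int.cast_natCast] at h1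
    have e1 : classInner (σ χ) (τ η') = 0 := by
      rw [hAB, Cfsg.Agent.Helper15.classInner_smul_left, hτorth η hη η' hη' (Ne.symm hηne),
        mul_zero]
    have hτη : τ η = ε • σ χ := by
      rw [hAB, smul_smul]
      rcases hε with rfl | rfl <;> simp
    have e2 : classInner (σ χ') (τ η) = 0 := by
      rw [hτη, Cfsg.Agent.Helper15.classInner_smul_right, hσorth χ' hχ' χ hχ hχne, mul_zero]
    rw [e1, e2, hinner] at h1
    have hw0 : classInner (σ χ') (τ η') ≠ 0 := by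
      intro h0
      rw [h0] at h1
      have h2 : (charDegree χ' : ℂ) * (charDegree η' : ℂ) * ε = 0 := by
        linear_combination h1
      rcases mul_eq_zero.mp h2 with h3 | h3
      · rcases mul_eq_zero.mp h3 with h4 | h4
        · exact hdne χ' (hXS hχ') h4
        · exact hdne η' (hYS hη') h4
      · exact hε0 h3
    obtain ⟨ε', hε', hAB', hinner'⟩ := Cfsg.Agent.Helper14.ZS.genChar_pair
      (hσ.2.2.2 χ' (hXsp χ' hχ')) (hτ.2.2.2 η' (hYsp η' hη')) (hσnorm χ' hχ') (hτnorm η' hη') hw0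
    rw [hinner'] at h1
    have v1 : (charDegree χ' : ℂ) * σ χ 1 = (charDegree χ : ℂ) * σ χ' 1 := by
      have h := hα1 _ (hmonoX _ hA)
      rw [← hσα _ hA, Cfsg.Agent.Helper14.Coh.star_comb X σ hσ hχ hχ'] at h
      simp only [Pi.sub_apply, Pi.smul_apply] at h
      simp only [zsmul_eq_mul, Int.cast_natCast] at h
      linear_combination h
    have v2 : (charDegree η' : ℂ) * τ η 1 = (charDegree η : ℂ) * τ η' 1 := by
      have h := hα1 _ (hmonoY _ hB)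
      rw [← hτα _ hB, Cfsg.Agent.Helper14.Coh.star_comb Y τ hτ hη hη'] at h
      simp only [Pi.sub_apply, Pi.smul_apply] at h
      simp only [zsmul_eq_mul, Int.cast_natCast] at h
      linear_combination h
    have v3 : σ χ 1 = ε * τ η 1 := by
      rw [hAB]
      rfl
    have v4 : σ χ' 1 = ε' * τ η' 1 := by
      rw [hAB']
      rfl
    have v5 : σ χ 1 ≠ 0 := Cfsg.Agent.Helper14.ZS.genChar_norm_one_apply_one_ne_zero
      (hσ.2.2.2 χ (hXsp χ hχ)) (hσnorm χ hχ)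
    have ht : τ η 1 ≠ 0 := by
      intro h0
      apply v5
      rw [v3, h0, mul_zero]
    rw [v3, v4] at v1
    have h4 : ((charDegree χ' : ℂ) * (charDegree η : ℂ) * ε
        - (charDegree χ : ℂ) * (charDegree η' : ℂ) * ε') * τ η 1 = 0 := by
      linear_combination (charDegree η : ℂ) * v1 - ((charDegree χ : ℂ) * ε') * v2
    have h5 : (charDegree χ' : ℂ) * (charDegree η : ℂ) * ε
        - (charDegree χ : ℂ) * (charDegree η' : ℂ) * ε' = 0 :=
      (mul_eq_zero.mp h4).resolve_right ht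
    have h6 : (charDegree χ' : ℂ) * ε *
        ((charDegree η : ℂ) ^ 2 + (charDegree η' : ℂ) ^ 2) = 0 := by
      linear_combination (charDegree η : ℂ) * h5 + (charDegree η' : ℂ) * h1
    have h7 : (charDegree η : ℂ) ^ 2 + (charDegree η' : ℂ) ^ 2 = 0 := by
      rcases mul_eq_zero.mp h6 with h | h
      · rcases mul_eq_zero.mp h with h' | h'
        · exact absurd h' (hdne χ' (hXS hχ'))
        · exact absurd h' hε0
      · exact h
    have h8 : charDegree η ^ 2 + charDegree η' ^ 2 = 0 := by exact_mod_cast h7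
    have h9 := hdpos η (hYS hη)
    have h10 : 0 < charDegree η ^ 2 := by positivity
    omega
  refine ⟨claim1, ?_⟩
  rintro ⟨χ₀, hχ₀, η₀, hη₀, hlink⟩
  have horthsp : ∀ a ∈ zspan X, ∀ b ∈ zspan Y, classInner a b = 0 :=
    Cfsg.Agent.Helper14.ZS.zspan_orth horthXY
  have horthsp' : ∀ b ∈ zspan Y, ∀ a ∈ zspan X, classInner b a = 0 := by
    intro b hb a ha
    rw [Cfsg.Agent.Helper15.classInner_conj_symm, horthsp a ha b hb, map_zero]
  have horthστ : ∀ a ∈ zspan X, ∀ b ∈ zspan Y, classInner (σ a) (τ b) = 0 :=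
    Cfsg.Agent.Helper14.ZS.iso_orth hσ hτ claim1
  have horthτσ : ∀ b ∈ zspan Y, ∀ a ∈ zspan X, classInner (τ b) (σ a) = 0 := by
    intro b hb a ha
    rw [Cfsg.Agent.Helper15.classInner_conj_symm, horthστ a ha b hb, map_zero]
  have huniq : ∀ a ∈ zspan X, ∀ b ∈ zspan Y, ∀ a' ∈ zspan X, ∀ b' ∈ zspan Y,
      a + b = a' + b' → a = a' ∧ b = b' := by
    intro a ha b hb a' ha' b' hb' h
    have hd : a - a' = b' - b := by
      rw [sub_eq_sub_iff_add_eq_add, h, add_comm]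
    have hdX : a - a' ∈ zspan X := Submodule.sub_mem _ ha ha'
    have hdY : a - a' ∈ zspan Y := by
      rw [hd]
      exact Submodule.sub_mem _ hb' hb
    have h0 : a - a' = 0 := Cfsg.Agent.Helper14.ZS.classInner_self_eq_zero (horthsp _ hdX _ hdY)
    have haa : a = a' := sub_eq_zero.mp h0
    subst haa
    exact ⟨rfl, add_left_cancel h⟩
  obtain ⟨τ₁, hτ₁⟩ : ∃ τ₁ : (N → ℂ) → (G → ℂ),
      ∀ a ∈ zspan X, ∀ b ∈ zspan Y, τ₁ (a + b) = σ a + τ b := by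
    refine ⟨fun θ => if h : ∃ a ∈ zspan X, ∃ b ∈ zspan Y, θ = a + b then
      σ h.choose + τ h.choose_spec.2.choose else 0, ?_⟩
    intro a ha b hb
    have h : ∃ a' ∈ zspan X, ∃ b' ∈ zspan Y, a + b = a' + b' := ⟨a, ha, b, hb, rfl⟩
    simp only [dif_pos h]
    obtain ⟨h1, h2⟩ := huniq a ha b hb _ h.choose_spec.1 _ h.choose_spec.2.choose_spec.1
      h.choose_spec.2.choose_spec.2
    exact congrArg₂ (· + ·) (congrArg σ h1.symm) (congrArg τ h2.symm)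
  have hdec : ∀ θ ∈ zspan (X ∪ Y), ∃ a ∈ zspan X, ∃ b ∈ zspan Y, θ = a + b := by
    intro θ hθ
    unfold zspan at hθ
    rw [Submodule.span_union] at hθ
    obtain ⟨a, ha, b, hb, rfl⟩ := Submodule.mem_sup.mp hθ
    exact ⟨a, ha, b, hb, rfl⟩
  refine ⟨?_, τ₁, ⟨?_, ?_, ?_, ?_⟩, ?_⟩
  · obtain ⟨a, ha, b, hb, hab⟩ := hX2
    refine ⟨Cfsg.Agent.Helper14.Coh.comb a b,
      ⟨Submodule.span_mono Set.subset_union_left
        (Cfsg.Agent.Helper14.Coh.comb_mem_zspan X ha hb), (hcombX a ha b hb).2⟩, ?_⟩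
    intro h0
    have h1 : classInner (Cfsg.Agent.Helper14.Coh.comb a b) a = 0 := by
      rw [h0]
      exact Cfsg.Agent.Helper15.classInner_zero_left _
    rw [Cfsg.Agent.Helper14.Coh.comb_inner, Cfsg.Agent.Helper15.irr_inner_self (hirrX a ha),
      Cfsg.Agent.Helper15.irr_inner_ne (hirrX b hb) (hirrX a ha) (Ne.symm hab)] at h1
    apply hdne b (hXS hb)
    linear_combination h1
  · intro θ hθ θ' hθ'
    obtain ⟨a, ha, b, hb, rfl⟩ := hdec θ hθ
    obtain ⟨a', ha', b', hb', rfl⟩ := hdec θ' hθ'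
    have e : a + b + (a' + b') = (a + a') + (b + b') := by abel
    rw [e, hτ₁ _ (Submodule.add_mem _ ha ha') _ (Submodule.add_mem _ hb hb'), hτ₁ a ha b hb,
      hτ₁ a' ha' b' hb', hσ.1 a ha a' ha', hτ.1 b hb b' hb']
    abel
  · intro θ hθ n
    obtain ⟨a, ha, b, hb, rfl⟩ := hdec θ hθ
    rw [smul_add, hτ₁ _ (Submodule.smul_mem _ n ha) _ (Submodule.smul_mem _ n hb),
      hτ₁ a ha b hb, hσ.2.1 a ha n, hτ.2.1 b hb n, smul_add]
  · intro θ hθ θ' hθ'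
    obtain ⟨a, ha, b, hb, rfl⟩ := hdec θ hθ
    obtain ⟨a', ha', b', hb', rfl⟩ := hdec θ' hθ'
    rw [hτ₁ a ha b hb, hτ₁ a' ha' b' hb']
    simp only [Cfsg.Agent.Helper15.classInner_add_left, Cfsg.Agent.Helper15.classInner_add_right]
    rw [hσ.2.2.1 a ha a' ha', hτ.2.2.1 b hb b' hb', horthστ a ha b' hb', horthτσ b hb a' ha',
      horthsp a ha b' hb', horthsp' b hb a' ha']
  · intro θ hθ
    obtain ⟨a, ha, b, hb, rfl⟩ := hdec θ hθ
    rw [hτ₁ a ha b hb]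
    exact Cfsg.Agent.Helper14.ZS.genChar_add (hσ.2.2.2 a ha) (hτ.2.2.2 b hb)
  · intro θ hθ
    obtain ⟨a, ha, b, hb, rfl⟩ := hdec θ hθ.1
    rw [hτ₁ a ha b hb]
    have h1 : (a + b) 1 = 0 := hθ.2 1 (by simp)
    obtain ⟨m, hm⟩ := Cfsg.Agent.Helper14.ZS.zspan_apply_one_int hirrX a ha
    have hb1 : b 1 = -(m : ℂ) := by
      rw [Pi.add_apply, hm] at h1
      linear_combination h1
    obtain ⟨c, hc⟩ : ∃ c : ℤ, c = (charDegree χ₀ : ℤ) := ⟨_, rfl⟩
    obtain ⟨e, he⟩ : ∃ e : ℤ, e = (charDegree η₀ : ℤ) := ⟨_, rfl⟩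
    have hχ₀1 : χ₀ 1 = (c : ℂ) := by rw [hdeg χ₀ (hXS hχ₀), hc]; simp
    have hη₀1 : η₀ 1 = (e : ℂ) := by rw [hdeg η₀ (hYS hη₀), he]; simp
    have hu : (e * c) • a - (m * e) • χ₀ ∈ zspanOn X ({1}ᶜ : Set N) := by
      refine ⟨Submodule.sub_mem _ (Submodule.smul_mem _ _ ha)
        (Submodule.smul_mem _ _ (hXsp χ₀ hχ₀)), fun z hz => ?_⟩
      have hz1 : z = 1 := by simpa using hz
      subst hz1
      simp only [Pi.sub_apply, Pi.smul_apply]
      simp only [zsmul_eq_mul, hm, hχ₀1]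
      push_cast
      ring
    have hv : (c * e) • b + (m * c) • η₀ ∈ zspanOn Y ({1}ᶜ : Set N) := by
      refine ⟨Submodule.add_mem _ (Submodule.smul_mem _ _ hb)
        (Submodule.smul_mem _ _ (hYsp η₀ hη₀)), fun z hz => ?_⟩
      have hz1 : z = 1 := by simpa using hz
      subst hz1
      simp only [Pi.add_apply, Pi.smul_apply]
      simp only [zsmul_eq_mul, hb1, hη₀1]
      push_cast
      ring
    have hρ : c • η₀ - e • χ₀ ∈ zspanOn S ({1}ᶜ : Set N) := by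
      refine ⟨Submodule.sub_mem _ (Submodule.smul_mem _ _ (Submodule.subset_span (hYS hη₀)))
        (Submodule.smul_mem _ _ (Submodule.subset_span (hXS hχ₀))), fun z hz => ?_⟩
      have hz1 : z = 1 := by simpa using hz
      subst hz1
      simp only [Pi.sub_apply, Pi.smul_apply]
      simp only [zsmul_eq_mul, hχ₀1, hη₀1]
      ring
    have hlink' : α (c • η₀ - e • χ₀) = c • τ η₀ - e • σ χ₀ := by
      have e1 : χ₀ 1 • η₀ - η₀ 1 • χ₀ = c • η₀ - e • χ₀ := by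
        rw [hχ₀1, hη₀1, Int.cast_smul_eq_zsmul, Int.cast_smul_eq_zsmul]
      have e2 : χ₀ 1 • τ η₀ - η₀ 1 • σ χ₀ = c • τ η₀ - e • σ χ₀ := by
        rw [hχ₀1, hη₀1, Int.cast_smul_eq_zsmul, Int.cast_smul_eq_zsmul]
      rw [← e1, hlink, e2]
    have hsum : (c * e) • (a + b)
        = ((e * c) • a - (m * e) • χ₀) + ((c * e) • b + (m * c) • η₀)
          + (-m) • (c • η₀ - e • χ₀) := by
      funext z
      simp only [Pi.add_apply, Pi.sub_apply, Pi.smul_apply]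
      simp only [zsmul_eq_mul]
      push_cast
      ring
    have hθS : a + b ∈ zspanOn S ({1}ᶜ : Set N) :=
      Cfsg.Agent.Helper14.ZS.zspanOn_mono (Set.union_subset hXS hYS) hθ
    have huS := hmonoX _ hu
    have hvS := hmonoY _ hv
    have hmρ := Cfsg.Agent.Helper14.ZS.zspanOn_zsmul hρ (-m)
    have huv := Cfsg.Agent.Helper14.ZS.zspanOn_add huS hvS
    have hσu : σ ((e * c) • a - (m * e) • χ₀) = (e * c) • σ a - (m * e) • σ χ₀ := by
      rw [Cfsg.Agent.Helper14.ZS.iso_sub hσ (Submodule.smul_mem _ _ ha)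
        (Submodule.smul_mem _ _ (hXsp χ₀ hχ₀)), hσ.2.1 a ha, hσ.2.1 χ₀ (hXsp χ₀ hχ₀)]
    have hτv : τ ((c * e) • b + (m * c) • η₀) = (c * e) • τ b + (m * c) • τ η₀ := by
      rw [hτ.1 _ (Submodule.smul_mem _ _ hb) _ (Submodule.smul_mem _ _ (hYsp η₀ hη₀)),
        hτ.2.1 b hb, hτ.2.1 η₀ (hYsp η₀ hη₀)]
    have key : (c * e) • α (a + b) = (c * e) • (σ a + τ b) := by
      rw [← hα.2.1 _ hθS (c * e), hsum, hα.1 _ huv _ hmρ, hα.1 _ huS _ hvS, hα.2.1 _ hρ (-m),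
        ← hσα _ hu, ← hτα _ hv, hlink', hσu, hτv]
      funext z
      simp only [Pi.add_apply, Pi.sub_apply, Pi.smul_apply]
      simp only [zsmul_eq_mul]
      push_cast
      ring
    have hce : ((c * e : ℤ) : ℂ) ≠ 0 := by
      rw [hc, he]
      push_cast
      exact mul_ne_zero (hdne χ₀ (hXS hχ₀)) (hdne η₀ (hYS hη₀))
    funext z
    have hz := congrFun key z
    simp only [Pi.smul_apply] at hz
    simp only [zsmul_eq_mul] at hz
    exact (mul_left_cancel₀ hce hz).symm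

end Cfsg.Agent.S1531
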