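import Cfsg.Statements.S1536
import Mathlib
import Cfsg.Agent.Helper3.BrauerPerm
import Cfsg.Agent.Helper75.ConjFun
import Cfsg.Agent.Helper80.CharIrr

set_option autoImplicit false
open Cfsg

namespace Cfsg.Agent.S1536

open Cfsg.Agent.Helper75

/-- Let H be a normal subgroup of the finite group M whose order is coprime to its index. For x ∈ M: some non-principal irreducible character of H is unchanged under h ↦ θ(x h x⁻¹) if and only if some non-identity element of H commutes with x. -/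
theorem result {M : Type*} [Group M] [Finite M] (H : Subgroup M) [hN : H.Normal] (hHall : Nat.Coprime (Nat.card H) H.index) (x : M) : (∃ θ : H → ℂ, Cfsg.IsIrrCharacter H θ ∧ θ ≠ (fun _ => 1) ∧ (fun h : H => θ ⟨x * h * x⁻¹, hN.conj_mem h h.2 x⟩) = θ) ↔ ∃ h ∈ H, h ≠ 1 ∧ x * h = h * x := by
  classical
  letI : Fintype ↥H := Fintype.ofFinite _
  -- the automorphism
  let τ : ↥H → ↥H := fun h => ⟨x * h * x⁻¹, hN.conj_mem h h.2 x⟩
  have hτmul : ∀ a b : ↥H, τ (a * b) = τ a * τ b := by
    intro a b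
    apply Subtype.ext
    show x * ((a : M) * (b : M)) * x⁻¹ = (x * (a : M) * x⁻¹) * (x * (b : M) * x⁻¹)
    group
  have hτinv : ∀ a : ↥H, τ a⁻¹ = (τ a)⁻¹ := by
    intro a
    apply Subtype.ext
    show x * ((a : M))⁻¹ * x⁻¹ = (x * (a : M) * x⁻¹)⁻¹
    group
  let T : IrrCharacter ↥H → IrrCharacter ↥H := fun χ =>
    ⟨Cfsg.Agent.Helper75.conjFun H x (χ : ↥H → ℂ), isIrrCharacter_conjFun H x χ.2⟩
  have hT : ∀ (χ : IrrCharacter ↥H) (g : ↥H), (T χ : ↥H → ℂ) g = (χ : ↥H → ℂ) (τ g) :=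
    fun χ g => rfl
  let P : ConjClasses ↥H → Prop := fun C => ∀ h : ↥H, ConjClasses.mk h = C → IsConj h (τ h)
  have hP : ∀ g : ↥H, IsConj g (τ g) ↔ P (ConjClasses.mk g) := by
    intro g
    constructor
    · intro hg h hh
      have h1 : IsConj h g := ConjClasses.mk_eq_mk_iff_isConj.1 hh
      obtain ⟨a, ha⟩ := isConj_iff.1 h1
      have h2 : IsConj (τ g) (τ h) := by
        rw [isConj_iff]
        refine ⟨(τ a)⁻¹, ?_⟩
        rw [← ha, hτmul, hτmul, hτinv]
        group
      exact h1.trans (hg.trans h2)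
    · intro h
      exact h g rfl
  have hcard := Cfsg.Agent.Helper3.brauer_perm τ T hT P hP
  have hfin1 : Finite {χ : IrrCharacter ↥H // T χ = χ} := inferInstance
  have hfin2 : Finite {C : ConjClasses ↥H // P C} := inferInstance
  have htriv : T (Cfsg.Agent.Helper80.trivIrr ↥H) = Cfsg.Agent.Helper80.trivIrr ↥H := by
    apply Subtype.ext
    funext g
    rfl
  have hP1 : P (ConjClasses.mk (1 : ↥H)) := by
    apply (hP 1).1
    have : τ 1 = 1 := by
      apply Subtype.ext
      show x * (1 : M) * x⁻¹ = 1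
      group
    rw [this]
  constructor
  · rintro ⟨θ, hθ, hne, hfix⟩
    by_contra hcon
    push Not at hcon
    -- two fixed characters
    have h2 : 1 < Nat.card {χ : IrrCharacter ↥H // T χ = χ} := by
      rw [Finite.one_lt_card_iff_nontrivial]
      refine ⟨⟨⟨Cfsg.Agent.Helper80.trivIrr ↥H, htriv⟩, ⟨⟨θ, hθ⟩, Subtype.ext hfix⟩, ?_⟩⟩
      intro h
      apply hne
      have := congrArg (fun z : {χ : IrrCharacter ↥H // T χ = χ} => ((z : IrrCharacter ↥H) : ↥H → ℂ)) h
      exact this.symm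
    rw [hcard, Finite.one_lt_card_iff_nontrivial] at h2
    obtain ⟨⟨C, hC⟩, hC1⟩ := exists_ne (⟨ConjClasses.mk (1 : ↥H), hP1⟩ : {C : ConjClasses ↥H // P C})
    obtain ⟨c, rfl⟩ := ConjClasses.exists_rep C
    have hc1 : c ≠ 1 := by
      rintro rfl
      exact hC1 rfl
    obtain ⟨k, hk⟩ := isConj_iff.1 (hC c rfl)
    -- injectivity of h ↦ h⁻¹ * τ h
    have hfixed : ∀ a : ↥H, τ a = a → a = 1 := by
      intro a ha
      by_contra ha1
      have h3 : x * (a : M) = (a : M) * x := by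
        have := congrArg Subtype.val ha
        have h4 : x * (a : M) * x⁻¹ = (a : M) := this
        calc x * (a : M) = x * (a : M) * x⁻¹ * x := by group
          _ = (a : M) * x := by rw [h4]
      exact hcon (a : M) a.2 (fun h => ha1 (Subtype.ext h)) h3
    have hinj : Function.Injective (fun h : ↥H => h⁻¹ * τ h) := by
      intro a b hab
      have hab' : a⁻¹ * τ a = b⁻¹ * τ b := hab
      have h5 : τ (b * a⁻¹) = b * a⁻¹ := by
        rw [hτmul, hτinv]
        have : τ b = b * (a⁻¹ * τ a) := by rw [hab']; group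
        rw [this]
        group
      have h6 := hfixed _ h5
      have : b = a := by
        calc b = b * a⁻¹ * a := by group
          _ = a := by rw [h6, one_mul]
      exact this.symm
    have hsurj : Function.Surjective (fun h : ↥H => h⁻¹ * τ h) := Finite.surjective_of_injective hinj
    obtain ⟨h, hh⟩ := hsurj k⁻¹
    have hh' : h⁻¹ * τ h = k⁻¹ := hh
    have h7 : τ (h * c * h⁻¹) = h * c * h⁻¹ := by
      rw [hτmul, hτmul, hτinv, ← hk]
      have : τ h = h * k⁻¹ := by rw [← hh']; group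
      rw [this]
      group
    have h8 := hfixed _ h7
    apply hc1
    calc c = h⁻¹ * (h * c * h⁻¹) * h := by group
      _ = 1 := by rw [h8]; group
  · rintro ⟨h, hh, hh1, hcomm⟩
    have hτh : τ ⟨h, hh⟩ = ⟨h, hh⟩ := by
      apply Subtype.ext
      show x * h * x⁻¹ = h
      rw [hcomm]
      group
    have hPh : P (ConjClasses.mk (⟨h, hh⟩ : ↥H)) := by
      apply (hP _).1
      rw [hτh]
    have h2 : 1 < Nat.card {C : ConjClasses ↥H // P C} := by
      rw [Finite.one_lt_card_iff_nontrivial]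
      refine ⟨⟨⟨ConjClasses.mk (1 : ↥H), hP1⟩, ⟨ConjClasses.mk (⟨h, hh⟩ : ↥H), hPh⟩, ?_⟩⟩
      intro heq
      have h3 : ConjClasses.mk (1 : ↥H) = ConjClasses.mk (⟨h, hh⟩ : ↥H) := congrArg Subtype.val heq
      have h4 : IsConj (1 : ↥H) (⟨h, hh⟩ : ↥H) := ConjClasses.mk_eq_mk_iff_isConj.1 h3
      have h5 : (⟨h, hh⟩ : ↥H) = 1 := (isConj_one_right.1 h4)
      exact hh1 (congrArg Subtype.val h5)
    rw [← hcard, Finite.one_lt_card_iff_nontrivial] at h2
    obtain ⟨⟨χ, hχ⟩, hχ1⟩ := exists_ne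
      (⟨Cfsg.Agent.Helper80.trivIrr ↥H, htriv⟩ : {χ : IrrCharacter ↥H // T χ = χ})
    refine ⟨(χ : ↥H → ℂ), χ.2, ?_, ?_⟩
    · intro heq
      apply hχ1
      apply Subtype.ext
      apply Subtype.ext
      exact heq
    · exact congrArg Subtype.val hχ

end Cfsg.Agent.S1536
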