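import Cfsg.Statements.S1546

set_option autoImplicit false
open Cfsg

namespace Cfsg.Agent.S1546

open Finset in
theorem geom (p q : ℕ) (hp : 2 ≤ p) : (p ^ q - 1) / (p - 1) = ∑ k ∈ range q, p ^ k :=
  (Nat.geomSum_eq hp q).symm

open Finset in
/-- if `p ≡ 1 (mod r)` then the geometric sum is `≡ q (mod r)`. -/
theorem geom_mod (p q r : ℕ) (h : p ≡ 1 [MOD r]) : (∑ k ∈ range q, p ^ k) ≡ q [MOD r] := by
  have h1 : ∀ k, p ^ k ≡ 1 [MOD r] := fun k => by
    simpa using h.pow k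
  have : (∑ k ∈ range q, p ^ k) ≡ ∑ _k ∈ range q, 1 [MOD r] := by
    unfold Nat.ModEq
    rw [Finset.sum_nat_mod, Finset.sum_nat_mod (f := fun _ => 1)]
    congr 1
    apply Finset.sum_congr rfl
    intro k _
    exact h1 k
  simpa using this

theorem prime_dvd_case (p q r : ℕ) (hp : p.Prime) (hq : q.Prime) (hr : r.Prime)
    (hpq : p % q ≠ 1) (hrN : r ∣ (p ^ q - 1) / (p - 1)) : r % q = 1 ∧ ¬ r ∣ p - 1 := by
  have hp2 : 2 ≤ p := hp.two_le
  have hgeom := geom p q hp2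
  have hN : (p - 1) * ((p ^ q - 1) / (p - 1)) = p ^ q - 1 := by
    apply Nat.mul_div_cancel'
    exact Nat.sub_one_dvd_pow_sub_one p q
  -- if p ≡ 1 mod r then contradiction
  have hne : ¬ p ≡ 1 [MOD r] := by
    intro h
    have h2 := geom_mod p q r h
    rw [← hgeom] at h2
    have h3 : r ∣ q := by
      have : (p ^ q - 1) / (p - 1) ≡ 0 [MOD r] := (Nat.modEq_zero_iff_dvd).2 hrN
      exact (Nat.modEq_zero_iff_dvd).1 (h2.symm.trans this)
    have h4 : r = q := (Nat.prime_dvd_prime_iff_eq hr hq).1 h3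
    subst h4
    apply hpq
    have : p % r = 1 % r := h
    rw [this]
    exact Nat.mod_eq_of_lt hr.one_lt
  have hnd : ¬ r ∣ p - 1 := by
    intro h
    apply hne
    exact ((Nat.modEq_iff_dvd' (by omega)).2 h).symm
  refine ⟨?_, hnd⟩
  haveI := Fact.mk hr
  have hpow : (p : ZMod r) ^ q = 1 := by
    have h1 : r ∣ p ^ q - 1 := by
      rw [← hN]; exact Dvd.dvd.mul_left hrN _
    have h2 : ((p ^ q - 1 : ℕ) : ZMod r) = 0 := (ZMod.natCast_eq_zero_iff _ _).2 h1
    have h3 : 1 ≤ p ^ q := Nat.one_le_pow _ _ (by omega)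
    rw [Nat.cast_sub h3] at h2
    push_cast at h2
    exact sub_eq_zero.1 h2
  have hp1 : (p : ZMod r) ≠ 1 := by
    intro h
    apply hne
    have : ((p : ℕ) : ZMod r) = ((1 : ℕ) : ZMod r) := by simpa using h
    exact (ZMod.natCast_eq_natCast_iff _ _ _).1 this
  have hord : orderOf (p : ZMod r) = q := by
    have hd : orderOf (p : ZMod r) ∣ q := orderOf_dvd_of_pow_eq_one hpow
    rcases (Nat.dvd_prime hq).1 hd with h | h
    · exact absurd (orderOf_eq_one_iff.1 h) hp1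
    · exact h
  have hp0 : (p : ZMod r) ≠ 0 := by
    intro h
    rw [h, zero_pow hq.ne_zero] at hpow
    exact zero_ne_one hpow
  have hdvd : q ∣ r - 1 := by
    rw [← hord]
    apply orderOf_dvd_of_pow_eq_one
    exact ZMod.pow_card_sub_one_eq_one hp0
  obtain ⟨k, hk⟩ := hdvd
  have hr1 : r = q * k + 1 := by have := hr.one_lt; omega
  rw [hr1, Nat.mul_add_mod]
  exact Nat.mod_eq_of_lt hq.one_lt

theorem all_dvd (p q : ℕ) (hp : p.Prime) (hq : q.Prime) (hpq : p % q ≠ 1) :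
    ∀ x : ℕ, x ∣ (p ^ q - 1) / (p - 1) → x % q = 1 := by
  intro x
  induction x using Nat.recOnMul with
  | zero =>
    intro h
    exfalso
    have h0 : (p ^ q - 1) / (p - 1) = 0 := Nat.eq_zero_of_zero_dvd h
    have hp2 : 2 ≤ p := hp.two_le
    rw [geom p q hp2] at h0
    have : 0 < ∑ k ∈ Finset.range q, p ^ k := by
      apply Finset.sum_pos
      · intro i _; exact Nat.pos_of_ne_zero (by positivity)
      · exact ⟨0, Finset.mem_range.2 hq.pos⟩
    omega
  | one => intro _; exact Nat.mod_eq_of_lt hq.one_lt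
  | prime r hr =>
    intro h
    exact (prime_dvd_case p q r hp hq hr hpq h).1
  | mul a b ha hb =>
    intro h
    have h1 := ha (Dvd.dvd.trans (Dvd.intro _ rfl) h)
    have h2 := hb (Dvd.dvd.trans (Dvd.intro_left _ rfl) h)
    rw [Nat.mul_mod, h1, h2]
    simpa using Nat.mod_eq_of_lt hq.one_lt

/-- Let p and q be odd primes and N = (p ^ q − 1) / (p − 1) = 1 + p + ⋯ + p^(q−1). Then N is odd; if p ≡ 1 (mod q) then q ∣ N; and if p is not ≡ 1 (mod q) then N is coprime to p − 1 and every divisor of N is ≡ 1 (mod q). -/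
theorem result (p q : ℕ) (hp : p.Prime) (hq : q.Prime) (hp2 : p ≠ 2) (hq2 : q ≠ 2) : Odd ((p ^ q - 1) / (p - 1)) ∧ (p % q = 1 → q ∣ (p ^ q - 1) / (p - 1)) ∧ (p % q ≠ 1 → Nat.Coprime ((p ^ q - 1) / (p - 1)) (p - 1) ∧ ∀ x : ℕ, x ∣ (p ^ q - 1) / (p - 1) → x % q = 1) := by
  have hp2' : 2 ≤ p := hp.two_le
  have hpodd : p % 2 = 1 := (hp.eq_two_or_odd).resolve_left hp2
  have hqodd : q % 2 = 1 := (hq.eq_two_or_odd).resolve_left hq2
  refine ⟨?_, ?_, ?_⟩
  · rw [geom p q hp2']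
    have h := geom_mod p q 2 (by unfold Nat.ModEq; rw [hpodd])
    rw [Nat.odd_iff]
    have h' : (∑ k ∈ Finset.range q, p ^ k) % 2 = q % 2 := h
    rw [h', hqodd]
  · intro h
    rw [geom p q hp2']
    have h1 : p ≡ 1 [MOD q] := by
      unfold Nat.ModEq; rw [h]; exact (Nat.mod_eq_of_lt hq.one_lt).symm
    have h2 := geom_mod p q q h1
    exact (Nat.modEq_zero_iff_dvd).1 (h2.trans (by simp [Nat.ModEq]))
  · intro hpq
    refine ⟨?_, all_dvd p q hp hq hpq⟩
    rw [Nat.coprime_iff_gcd_eq_one]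
    by_contra hg
    obtain ⟨r, hr, hrd⟩ := Nat.exists_prime_and_dvd hg
    have h1 : r ∣ (p ^ q - 1) / (p - 1) := hrd.trans (Nat.gcd_dvd_left _ _)
    have h2 : r ∣ p - 1 := hrd.trans (Nat.gcd_dvd_right _ _)
    exact (prime_dvd_case p q r hp hq hr hpq h1).2 h2

end Cfsg.Agent.S1546
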