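import Cfsg.Statements.S1554
import Cfsg.Agent.Helper7.OctStab

set_option autoImplicit false
open scoped Pointwise
open Cfsg

namespace Cfsg.Agent.S1554

open Cfsg.Agent.Helper7

/-- Every element of the octad stabiliser is the product of an element fixing the octad pointwise
and one fixing the outside point `p`. -/
theorem factor {o : Finset GolayPt} (ho : o ∈ octads) {p : GolayPt} (hp : p ∉ o)
    {g : Equiv.Perm GolayPt} (hg : g ∈ M24 ⊓ MulAction.stabilizer (Equiv.Perm GolayPt) o) :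
    ∃ e ∈ M24 ⊓ fixingSubgroup (Equiv.Perm GolayPt) (o : Set GolayPt),
      e * g ∈ M24 ⊓ MulAction.stabilizer (Equiv.Perm GolayPt) o ⊓
        MulAction.stabilizer (Equiv.Perm GolayPt) p := by
  have hgp : g p ∉ o := by
    intro h
    exact hp ((MulAction.mem_stabilizer_finset.mp hg.2 p).mp h)
  obtain ⟨e, he, hep⟩ := octad_fix_trans ho hgp hp
  refine ⟨e, he, ⟨?_, ?_⟩⟩
  · exact Subgroup.mul_mem _ ⟨he.1, fixing_le_stabilizer o he.2⟩ hg
  · show (e * g) • p = p
    rw [Equiv.Perm.smul_def, Equiv.Perm.mul_apply, hep]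

/-- Restriction of the complement to the octad. -/
noncomputable def resC (o : Finset GolayPt) (p : GolayPt) :
    ↥(M24 ⊓ MulAction.stabilizer (Equiv.Perm GolayPt) o ⊓
        MulAction.stabilizer (Equiv.Perm GolayPt) p) →* Equiv.Perm ↥o :=
  (resSub M24 o).comp (Subgroup.inclusion inf_le_left)

theorem resC_injective {o : Finset GolayPt} (ho : o ∈ octads) {p : GolayPt} (hp : p ∉ o) :
    Function.Injective (resC o p) := by
  rw [injective_iff_map_eq_one]
  intro c hc
  have h1 : (Subgroup.inclusion inf_le_left c :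
      ↥(M24 ⊓ MulAction.stabilizer (Equiv.Perm GolayPt) o)) ∈ (resSub M24 o).ker := hc
  rw [mem_ker_resSub] at h1
  have h2 : (c : Equiv.Perm GolayPt) = 1 :=
    octad_fix_free ho hp ⟨c.2.1.1, h1⟩ (by
      have h3 : (c : Equiv.Perm GolayPt) • p = p := c.2.2
      rw [Equiv.Perm.smul_def] at h3
      exact h3)
  exact Subtype.ext h2

theorem resC_range {o : Finset GolayPt} (ho : o ∈ octads) {p : GolayPt} (hp : p ∉ o) :
    (resC o p).range = alternatingGroup ↥o := by
  rw [← range_resM24 ho]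
  apply le_antisymm
  · rintro _ ⟨c, rfl⟩
    exact ⟨_, rfl⟩
  · rintro _ ⟨g, rfl⟩
    obtain ⟨e, he, heg⟩ := factor ho hp g.2
    refine ⟨⟨e * g.1, heg⟩, ?_⟩
    have h1 : (⟨e, ⟨he.1, fixing_le_stabilizer o he.2⟩⟩ :
        ↥(M24 ⊓ MulAction.stabilizer (Equiv.Perm GolayPt) o)) ∈ (resSub M24 o).ker := by
      rw [mem_ker_resSub]
      exact he.2
    have h2 : resC o p ⟨e * g.1, heg⟩ =
        resSub M24 o (⟨e, ⟨he.1, fixing_le_stabilizer o he.2⟩⟩ * g) := rfl
    rw [h2, map_mul, MonoidHom.mem_ker.mp h1, one_mul]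

/-- An octad stabiliser is a split extension: the joint stabiliser of the octad and a point outside it is a complement to the pointwise stabiliser of the octad, and is isomorphic to the alternating group of degree 8. -/
theorem result (o : Finset Cfsg.GolayPt) (ho : o ∈ Cfsg.octads) (p : Cfsg.GolayPt) (hp : p ∉ o) : (Cfsg.M24 ⊓ fixingSubgroup (Equiv.Perm Cfsg.GolayPt) (o : Set Cfsg.GolayPt)) ⊓ (Cfsg.M24 ⊓ MulAction.stabilizer (Equiv.Perm Cfsg.GolayPt) o ⊓ MulAction.stabilizer (Equiv.Perm Cfsg.GolayPt) p) = ⊥ ∧ (Cfsg.M24 ⊓ fixingSubgroup (Equiv.Perm Cfsg.GolayPt) (o : Set Cfsg.GolayPt)) ⊔ (Cfsg.M24 ⊓ MulAction.stabilizer (Equiv.Perm Cfsg.GolayPt) o ⊓ MulAction.stabilizer (Equiv.Perm Cfsg.GolayPt) p) = (Cfsg.M24 ⊓ MulAction.stabilizer (Equiv.Perm Cfsg.GolayPt) o) ∧ Nonempty (↥(Cfsg.M24 ⊓ MulAction.stabilizer (Equiv.Perm Cfsg.GolayPt) o ⊓ MulAction.stabilizer (Equiv.Perm Cfsg.GolayPt) p) ≃* alternatingGroup (Fin 8)) := by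
  refine ⟨?_, ?_, ?_⟩
  · rw [eq_bot_iff]
    rintro g ⟨hg1, hg2⟩
    rw [Subgroup.mem_bot]
    have h : g • p = p := hg2.2
    rw [Equiv.Perm.smul_def] at h
    exact octad_fix_free ho hp hg1 h
  · apply le_antisymm
    · exact sup_le (inf_le_inf_left _ (fixing_le_stabilizer o)) inf_le_left
    · intro g hg
      obtain ⟨e, he, heg⟩ := factor ho hp hg
      have h1 : g = e⁻¹ * (e * g) := by group
      rw [h1]
      exact Subgroup.mul_mem_sup (Subgroup.inv_mem _ he) heg
  · have hcard : Fintype.card ↥o = 8 := by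
      rw [Fintype.card_coe]
      exact ho.2
    exact ⟨((MonoidHom.ofInjective (resC_injective ho hp)).trans
      (MulEquiv.subgroupCongr (resC_range ho hp))).trans
      (Equiv.altCongrHom (Fintype.equivFinOfCardEq hcard))⟩

end Cfsg.Agent.S1554
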