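import Cfsg.Statements.S1556
import Cfsg.Agent.Helper91.OctTrans

set_option autoImplicit false
open scoped Pointwise
open Cfsg

namespace Cfsg.Agent.S1556

open Cfsg.Agent.Helper91

/-- Two octads meeting a fixed octad in equally many points are in the same orbit of its stabiliser. -/
theorem result (o o' o'' : Finset Cfsg.GolayPt) (ho : o ∈ Cfsg.octads) (ho' : o' ∈ Cfsg.octads) (ho'' : o'' ∈ Cfsg.octads) (h : (o ∩ o').card = (o ∩ o'').card) : ∃ g : Equiv.Perm Cfsg.GolayPt, g ∈ Cfsg.M24 ∧ g • o = o ∧ g • o' = o'' := by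
  obtain ⟨u, hu, rfl⟩ := exists_m24_oct0 ho
  have hui := inv_mem hu
  obtain ⟨g, hg, hg0, hgs⟩ := octStab_trans (smul_mem_octads hui ho') (smul_mem_octads hui ho'')
    (by rw [card_inter_inv_smul, card_inter_inv_smul, h])
  refine ⟨u * g * u⁻¹, mul_mem (mul_mem hu hg) hui, ?_, ?_⟩
  · rw [conj_smul, hg0]
  · rw [mul_smul, mul_smul, hgs, smul_inv_smul]

end Cfsg.Agent.S1556
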