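import Cfsg.Statements.S1560
import Cfsg.Agent.Helper26.GolayDodecad

set_option autoImplicit false
open scoped Pointwise
open Cfsg

namespace Cfsg.Agent.S1560

/-- Intersection numbers of dodecads: a dodecad meets every other dodecad in 0, 4, 6 or 8 points, meeting 495 of them in 4 points, 1584 in 6 points and 495 in 8 points. -/
theorem result (d : Finset Cfsg.GolayPt) (hd : d ∈ Cfsg.dodecads) : (∀ d' ∈ Cfsg.dodecads, d' ≠ d → (d ∩ d').card = 0 ∨ (d ∩ d').card = 4 ∨ (d ∩ d').card = 6 ∨ (d ∩ d').card = 8) ∧ {d' : Finset Cfsg.GolayPt | d' ∈ Cfsg.dodecads ∧ (d ∩ d').card = 4}.ncard = 495 ∧ {d' : Finset Cfsg.GolayPt | d' ∈ Cfsg.dodecads ∧ (d ∩ d').card = 6}.ncard = 1584 ∧ {d' : Finset Cfsg.GolayPt | d' ∈ Cfsg.dodecads ∧ (d ∩ d').card = 8}.ncard = 495 := by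
  have hset : ∀ n : ℕ, {d' : Finset Cfsg.GolayPt | d' ∈ Cfsg.dodecads ∧ (d ∩ d').card = n} =
      ((Cfsg.Agent.Helper26.dodF.filter (fun d' => (d ∩ d').card = n) :
        Finset (Finset GolayPt)) : Set (Finset GolayPt)) := by
    intro n
    ext d'
    simp only [Set.mem_ofPred_eq, Finset.coe_filter, Cfsg.Agent.Helper26.mem_dodF]
  rw [hset 4, hset 6, hset 8, Set.ncard_coe_finset, Set.ncard_coe_finset, Set.ncard_coe_finset]
  refine ⟨?_, Cfsg.Agent.Helper26.card_dod_inter_four d hd,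
    Cfsg.Agent.Helper26.card_dod_inter_six d hd, Cfsg.Agent.Helper26.card_dod_inter_eight d hd⟩
  intro d' hd' hne
  rcases Cfsg.Agent.Helper26.dodecads_inter hd hd' with h | h
  · exact absurd h.symm hne
  · exact h

end Cfsg.Agent.S1560
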