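import Cfsg.Statements.S1561
import Cfsg.Agent.Helper91.DodTrans

set_option autoImplicit false
open scoped Pointwise
open Cfsg

namespace Cfsg.Agent.S1561

open Cfsg.Agent.Helper91

/-- Two dodecads meeting a fixed dodecad in equally many points lie in one orbit of its stabiliser. -/
theorem result (d d' d'' : Finset Cfsg.GolayPt) (hd : d ∈ Cfsg.dodecads) (hd' : d' ∈ Cfsg.dodecads) (hd'' : d'' ∈ Cfsg.dodecads) (h : (d ∩ d').card = (d ∩ d'').card) : ∃ g : Equiv.Perm Cfsg.GolayPt, g ∈ Cfsg.M24 ∧ g • d = d ∧ g • d' = d'' := by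
  obtain ⟨u, hu, rfl⟩ := exists_m24_dod0 hd
  have hui := inv_mem hu
  obtain ⟨g, hg, hg0, hgs⟩ := dodStab_trans (smul_mem_dodecads hui hd') (smul_mem_dodecads hui hd'')
    (by rw [card_inter_inv_smul, card_inter_inv_smul, h])
  refine ⟨u * g * u⁻¹, mul_mem (mul_mem hu hg) hui, ?_, ?_⟩
  · rw [conj_smul, hg0]
  · rw [mul_smul, mul_smul, hgs, smul_inv_smul]

end Cfsg.Agent.S1561
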