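import Cfsg.Statements.S1562
import Cfsg.Agent.Helper7.M24Six

set_option autoImplicit false
open scoped Pointwise
open Cfsg

namespace Cfsg.Agent.S1562

open Cfsg.Agent.Helper7

/-- The standard triple of points. -/
def T0 : Finset GolayPt := {pt 0, pt 1, pt 2}

/-- The masks of the 21 octads through the standard triple. -/
def oct21 : List ℕ := [0x149f, 0xb067, 0x22387, 0x70447, 0x86c07, 0x9810f, 0xc0237, 0x104157, 0x1108a7, 0x215207, 0x228817, 0x34200f, 0x400a4f, 0x44c087, 0x5a1007, 0x600527, 0x82402f, 0x841907, 0x908607, 0xa800c7, 0xc12017]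

/-- Decidable form of "the standard triple and `U` lie in a common octad". -/
def InOct (U : Finset GolayPt) : Prop := ∃ m ∈ oct21, ∀ x ∈ U, m.testBit (idx x) = true

instance : DecidablePred InOct := fun U => by unfold InOct; infer_instance

theorem oct21_ok : oct21.all (fun m => inCode m && Nat.beq (wt m) 8 &&
    (m.testBit 0 && m.testBit 1 && m.testBit 2)) = true := by decide +kernel

/-- Bool test on a mask: an octad through the points 0, 1, 2 is in the list. -/
def through3 (m : ℕ) : Bool :=
  !(Nat.beq (wt m) 8 && (m.testBit 0 && m.testBit 1 && m.testBit 2)) || oct21.contains m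

theorem through3_all : allRange (fun c => through3 (enc c)) 12 0 = true := by decide +kernel

theorem mem_T0 {x : GolayPt} : x ∈ T0 ↔ x = pt 0 ∨ x = pt 1 ∨ x = pt 2 := by
  simp [T0]

theorem inOct_iff (U : Finset GolayPt) : (∃ o ∈ octads, T0 ∪ U ⊆ o) ↔ InOct U := by
  constructor
  · rintro ⟨o, ho, hsub⟩
    obtain ⟨w, hw, rfl, hc⟩ := mem_wordsOfWeight.mp ho
    obtain ⟨m, rfl, hm⟩ := forall_code through3 through3_all hw
    rw [support_wordOf] at hc hsub
    rw [card_setOf] at hc
    have hbit : ∀ j, j < 24 → pt j ∈ T0 → m.testBit j = true := by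
      intro j hj hjT
      have := hsub (Finset.mem_union_left U hjT)
      rwa [mem_setOf, idx_pt hj] at this
    have h0 := hbit 0 (by norm_num) (mem_T0.mpr (Or.inl rfl))
    have h1 := hbit 1 (by norm_num) (mem_T0.mpr (Or.inr (Or.inl rfl)))
    have h2 := hbit 2 (by norm_num) (mem_T0.mpr (Or.inr (Or.inr rfl)))
    unfold through3 at hm
    rw [hc, h0, h1, h2] at hm
    have hm' : oct21.contains m = true := by simpa using hm
    refine ⟨m, List.contains_iff_mem.mp hm', ?_⟩
    intro x hx
    exact mem_setOf.mp (hsub (Finset.mem_union_right T0 hx))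
  · rintro ⟨m, hm, hall⟩
    have hok := List.all_eq_true.mp oct21_ok m hm
    simp only [Bool.and_eq_true] at hok
    obtain ⟨⟨hin, hwt⟩, ⟨h0, h1⟩, h2⟩ := hok
    refine ⟨setOf m, ?_, ?_⟩
    · have := setOf_mem_wordsOfWeight hin
      rw [Nat.eq_of_beq_eq_true hwt] at this
      exact this
    · intro x hx
      rw [Finset.mem_union] at hx
      rw [mem_setOf]
      rcases hx with hx | hx
      · rcases mem_T0.mp hx with rfl | rfl | rfl
        · rw [idx_pt (by norm_num)]; exact h0
        · rw [idx_pt (by norm_num)]; exact h1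
        · rw [idx_pt (by norm_num)]; exact h2
      · exact hall x hx

theorem count_in : (((Finset.univ : Finset GolayPt).powersetCard 3).filter
    (fun U => Disjoint T0 U ∧ InOct U)).card = 210 := by decide +kernel

theorem count_out : (((Finset.univ : Finset GolayPt).powersetCard 3).filter
    (fun U => Disjoint T0 U ∧ ¬ InOct U)).card = 1120 := by decide +kernel

theorem ncard_in0 : {U : Finset GolayPt | U.card = 3 ∧ Disjoint T0 U ∧
    (∃ o ∈ octads, T0 ∪ U ⊆ o)}.ncard = 210 := by
  have hset : {U : Finset GolayPt | U.card = 3 ∧ Disjoint T0 U ∧ (∃ o ∈ octads, T0 ∪ U ⊆ o)}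
      = ((((Finset.univ : Finset GolayPt).powersetCard 3).filter
          (fun U => Disjoint T0 U ∧ InOct U) : Finset (Finset GolayPt)) : Set (Finset GolayPt)) := by
    ext U
    simp [Finset.mem_powersetCard, inOct_iff]
  rw [hset, Set.ncard_coe_finset, count_in]

theorem ncard_out0 : {U : Finset GolayPt | U.card = 3 ∧ Disjoint T0 U ∧
    ¬ (∃ o ∈ octads, T0 ∪ U ⊆ o)}.ncard = 1120 := by
  have hset : {U : Finset GolayPt | U.card = 3 ∧ Disjoint T0 U ∧ ¬ (∃ o ∈ octads, T0 ∪ U ⊆ o)}
      = ((((Finset.univ : Finset GolayPt).powersetCard 3).filter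
          (fun U => Disjoint T0 U ∧ ¬ InOct U) : Finset (Finset GolayPt)) : Set (Finset GolayPt)) := by
    ext U
    simp [Finset.mem_powersetCard, inOct_iff]
  rw [hset, Set.ncard_coe_finset, count_out]

/-- Transport of a count along an element of the group. -/
theorem ncard_smul {P : Finset GolayPt → Finset GolayPt → Prop} (h : Equiv.Perm GolayPt)
    (hP : ∀ T U, P (h • T) (h • U) ↔ P T U) (T : Finset GolayPt) :
    {U | P (h • T) U}.ncard = {U | P T U}.ncard := by
  have hset : {U | P (h • T) U} = (fun U => h • U) '' {U | P T U} := by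
    ext U
    constructor
    · intro hU
      refine ⟨h⁻¹ • U, ?_, smul_inv_smul h U⟩
      show P T (h⁻¹ • U)
      rw [← hP, smul_inv_smul]
      exact hU
    · rintro ⟨V, hV, rfl⟩
      exact (hP T V).mpr hV
  rw [hset, Set.ncard_image_of_injective _ (MulAction.injective h)]

theorem disjoint_smul (h : Equiv.Perm GolayPt) (T U : Finset GolayPt) :
    Disjoint (h • T) (h • U) ↔ Disjoint T U := by
  rw [Finset.disjoint_left, Finset.disjoint_left]
  constructor
  · intro hd x hx hx'
    exact hd (Finset.smul_mem_smul_finset hx) (Finset.smul_mem_smul_finset hx')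
  · intro hd x hx hx'
    rw [← Finset.inv_smul_mem_iff] at hx hx'
    exact hd hx hx'

theorem octcond_smul {h : Equiv.Perm GolayPt} (hh : h ∈ M24) (T U : Finset GolayPt) :
    (∃ o ∈ octads, h • T ∪ h • U ⊆ o) ↔ (∃ o ∈ octads, T ∪ U ⊆ o) := by
  constructor
  · rintro ⟨o, ho, hsub⟩
    refine ⟨h⁻¹ • o, smul_mem_wordsOfWeight (M24.inv_mem hh) ho, ?_⟩
    rw [← Finset.smul_finset_union] at hsub
    intro x hx
    rw [Finset.mem_inv_smul_finset_iff]
    exact hsub (Finset.smul_mem_smul_finset hx)
  · rintro ⟨o, ho, hsub⟩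
    refine ⟨h • o, smul_mem_wordsOfWeight hh ho, ?_⟩
    rw [← Finset.smul_finset_union]
    exact Finset.smul_finset_subset_smul_finset hsub

theorem exists_smul_T0 {T : Finset GolayPt} (hT : T.card = 3) : ∃ h ∈ M24, h • T0 = T := by
  obtain ⟨g, hg, h1, _⟩ := m24_finset_pair (s := T0) (y := T0) (s' := T) (y' := T)
    (by rw [Finset.inter_self, Finset.inter_self, hT]; decide)
    (by rw [Finset.sdiff_self, Finset.sdiff_self]) (by rw [Finset.sdiff_self, Finset.sdiff_self])
    (by rw [Finset.union_self]; decide)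
  exact ⟨g, hg, h1⟩

/-- Triads disjoint from a triad `T`: 210 lie with `T` in an octad, 1120 do not, and the
stabiliser of `T` is transitive on each family. -/
theorem result (T : Finset Cfsg.GolayPt) (hT : T.card = 3) : {U : Finset Cfsg.GolayPt | U.card = 3 ∧ Disjoint T U ∧ (∃ o ∈ Cfsg.octads, T ∪ U ⊆ o)}.ncard = 210 ∧ {U : Finset Cfsg.GolayPt | U.card = 3 ∧ Disjoint T U ∧ ¬ (∃ o ∈ Cfsg.octads, T ∪ U ⊆ o)}.ncard = 1120 ∧ ∀ U U' : Finset Cfsg.GolayPt, U.card = 3 → U'.card = 3 → Disjoint T U → Disjoint T U' → ((∃ o ∈ Cfsg.octads, T ∪ U ⊆ o) ↔ (∃ o ∈ Cfsg.octads, T ∪ U' ⊆ o)) → ∃ g : Equiv.Perm Cfsg.GolayPt, g ∈ Cfsg.M24 ∧ g • T = T ∧ g • U = U' := by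
  refine ⟨?_, ?_, ?_⟩
  · obtain ⟨h, hh, rfl⟩ := exists_smul_T0 hT
    rw [← ncard_in0]
    exact ncard_smul (P := fun T U => U.card = 3 ∧ Disjoint T U ∧ (∃ o ∈ octads, T ∪ U ⊆ o)) h
      (fun T U => by rw [Finset.card_smul_finset, disjoint_smul, octcond_smul hh]) T0
  · obtain ⟨h, hh, rfl⟩ := exists_smul_T0 hT
    rw [← ncard_out0]
    exact ncard_smul (P := fun T U => U.card = 3 ∧ Disjoint T U ∧ ¬ (∃ o ∈ octads, T ∪ U ⊆ o)) h
      (fun T U => by rw [Finset.card_smul_finset, disjoint_smul, octcond_smul hh]) T0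
  · intro U U' hU hU' hd hd' hiff
    have hnd : ∀ V : Finset GolayPt, Disjoint T V → (T.toList ++ V.toList).Nodup := by
      intro V hV
      rw [List.nodup_append]
      refine ⟨Finset.nodup_toList _, Finset.nodup_toList _, ?_⟩
      intro x hx y hy hxy
      rw [Finset.mem_toList] at hx hy
      exact Finset.disjoint_left.mp hV hx (hxy ▸ hy)
    have hlen : ∀ V : Finset GolayPt, V.card = 3 → (T.toList ++ V.toList).length = 6 := by
      intro V hV
      rw [List.length_append, Finset.length_toList, Finset.length_toList, hT, hV]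
    have hoct : ∀ V : Finset GolayPt, (∃ o ∈ octads, T ∪ V ⊆ o) ↔
        (∃ o ∈ octads, ∀ x ∈ T.toList ++ V.toList, x ∈ o) := by
      intro V
      apply exists_congr
      intro o
      apply and_congr_right
      intro _
      constructor
      · intro hsub x hx
        rw [List.mem_append, Finset.mem_toList, Finset.mem_toList] at hx
        exact hsub (Finset.mem_union.mpr hx)
      · intro hall x hx
        rw [Finset.mem_union] at hx
        exact hall x (by rw [List.mem_append, Finset.mem_toList, Finset.mem_toList]; exact hx)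
    have hfin : ∀ g : Equiv.Perm GolayPt, (T.toList ++ U.toList).map g = T.toList ++ U'.toList →
        g • T = T ∧ g • U = U' := by
      intro g hmap
      rw [List.map_append] at hmap
      obtain ⟨e1, e2⟩ := List.append_inj hmap (by simp)
      exact ⟨smul_finset_eq_of_map_toList e1, smul_finset_eq_of_map_toList e2⟩
    by_cases hcase : ∃ o ∈ octads, T ∪ U ⊆ o
    · obtain ⟨g, hg, hmap⟩ := m24_six_in (hlen U hU) (hlen U' hU') (hnd U hd) (hnd U' hd')
        ((hoct U).mp hcase) ((hoct U').mp (hiff.mp hcase))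
      exact ⟨g, hg, hfin g hmap⟩
    · obtain ⟨g, hg, hmap⟩ := m24_six_out (hlen U hU) (hlen U' hU') (hnd U hd) (hnd U' hd')
        (fun h => hcase ((hoct U).mpr h)) (fun h => hcase (hiff.mpr ((hoct U').mpr h)))
      exact ⟨g, hg, hfin g hmap⟩

end Cfsg.Agent.S1562
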