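import Cfsg.Statements.S1563
import Cfsg.Agent.Helper7.Maximal
import Cfsg.Agent.Helper7.M24Sets

set_option autoImplicit false
open scoped Pointwise
open Cfsg

namespace Cfsg.Agent.S1563

open Cfsg.Agent.Helper7

/-- The standard pair of points. -/
def s0 : Finset GolayPt := {pt 0, pt 1}

/-- Class sizes: pairs meeting the standard pair in 0, 1, 2 points. -/
def msz (i : ℕ) : ℕ := if i = 0 then 231 else if i = 1 then 44 else if i = 2 then 1 else 0

theorem orbit_s0 : MulAction.orbit (↥M24) s0 = {y : Finset GolayPt | y.card = 2} := by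
  ext y
  constructor
  · rintro ⟨g, rfl⟩
    show (g.1 • s0).card = 2
    rw [Finset.card_smul_finset]
    decide
  · intro hy
    obtain ⟨g, hg, h1, _⟩ := m24_finset_pair (s := s0) (y := s0) (s' := y) (y' := y)
      (by rw [Finset.inter_self, Finset.inter_self, hy]; decide)
      (by rw [Finset.sdiff_self, Finset.sdiff_self]) (by rw [Finset.sdiff_self, Finset.sdiff_self])
      (by rw [Finset.union_self]; decide)
    exact ⟨⟨g, hg⟩, h1⟩

theorem count_s0 (i : ℕ) :
    {y : Finset GolayPt | y ∈ MulAction.orbit (↥M24) s0 ∧ (s0 ∩ y).card = i}.ncard = msz i := by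
  have hset : {y : Finset GolayPt | y ∈ MulAction.orbit (↥M24) s0 ∧ (s0 ∩ y).card = i}
      = ((((Finset.univ : Finset GolayPt).powersetCard 2).filter
          (fun y => (s0 ∩ y).card = i) : Finset (Finset GolayPt)) : Set (Finset GolayPt)) := by
    ext y
    rw [orbit_s0]
    simp [Finset.mem_powersetCard]
  rw [hset, Set.ncard_coe_finset]
  by_cases h0 : i = 0
  · subst h0; decide +kernel
  by_cases h1 : i = 1
  · subst h1; decide +kernel
  by_cases h2 : i = 2
  · subst h2; decide +kernel
  have hm : msz i = 0 := by simp [msz, h0, h1, h2]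
  rw [hm, Finset.card_eq_zero, Finset.filter_eq_empty_iff]
  intro y _ hyi
  have hle : (s0 ∩ y).card ≤ 2 := (Finset.card_le_card Finset.inter_subset_left).trans (by decide)
  omega

theorem maximal_s0 : IsCoatom (MulAction.stabilizer (↥M24) s0) := by
  apply isCoatom_stabilizer_of_suborbits (G := ↥M24) s0 (fun y => (s0 ∩ y).card) {0, 1, 2} msz
    ?_ count_s0 ?_ 2 (by decide) (by decide) ⟨0, by decide, by decide⟩ (by decide)
  · intro y _
    have hle : (s0 ∩ y).card ≤ 2 := (Finset.card_le_card Finset.inter_subset_left).trans (by decide)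
    simp only [Finset.mem_insert, Finset.mem_singleton]
    omega
  · intro y hy z hz hyz
    rw [orbit_s0] at hy hz
    have hy2 : y.card = 2 := hy
    have hz2 : z.card = 2 := hz
    have hyz' : (s0 ∩ y).card = (s0 ∩ z).card := hyz
    have hs2 : s0.card = 2 := by decide
    have e1 := Finset.card_sdiff_add_card_inter s0 y
    have e2 := Finset.card_sdiff_add_card_inter s0 z
    have e3 := Finset.card_sdiff_add_card_inter y s0
    have e4 := Finset.card_sdiff_add_card_inter z s0
    rw [Finset.inter_comm y s0] at e3
    rw [Finset.inter_comm z s0] at e4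
    have e5 := Finset.card_union_add_card_inter s0 y
    obtain ⟨g, hg, h1, h2⟩ := m24_finset_pair (s := s0) (y := y) (s' := s0) (y' := z) hyz'
      (by omega) (by omega) (by omega)
    exact ⟨⟨g, hg⟩, h1, h2⟩

/-- The stabiliser of a pair of points is a maximal subgroup of the group of the length-24 code. -/
theorem result (s : Finset Cfsg.GolayPt) (hs : s.card = 2) : IsCoatom (MulAction.stabilizer Cfsg.M24 s) := by
  have hmem : s ∈ MulAction.orbit (↥M24) s0 := by rw [orbit_s0]; exact hs
  obtain ⟨g, rfl⟩ := hmem
  exact (isCoatom_stabilizer_smul g s0).mpr maximal_s0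

end Cfsg.Agent.S1563
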