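import Cfsg.Statements.S1564
import Cfsg.Agent.Helper7.Maximal
import Cfsg.Agent.S1562

set_option autoImplicit false
open scoped Pointwise
open Cfsg

namespace Cfsg.Agent.S1564

open Cfsg.Agent.Helper7 Cfsg.Agent.S1562

open Classical in
/-- Label of a triad relative to the standard triad: the size of the intersection, and for
disjoint triads `10` or `11` according as the six points lie in an octad or not. -/
noncomputable def lab (U : Finset GolayPt) : ℕ :=
  if (T0 ∩ U).card = 0 then (if ∃ o ∈ octads, T0 ∪ U ⊆ o then 10 else 11) else (T0 ∩ U).card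

/-- Class sizes. -/
def msz (i : ℕ) : ℕ :=
  if i = 3 then 1 else if i = 2 then 63 else if i = 1 then 630 else if i = 10 then 210
  else if i = 11 then 1120 else 0

theorem card_T0 : T0.card = 3 := by decide

theorem orbit_T0 : MulAction.orbit (↥M24) T0 = {y : Finset GolayPt | y.card = 3} := by
  ext y
  constructor
  · rintro ⟨g, rfl⟩
    show (g.1 • T0).card = 3
    rw [Finset.card_smul_finset, card_T0]
  · intro hy
    obtain ⟨g, hg, h1⟩ := exists_smul_T0 hy
    exact ⟨⟨g, hg⟩, h1⟩

theorem inter_le (U : Finset GolayPt) : (T0 ∩ U).card ≤ 3 :=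
  (Finset.card_le_card Finset.inter_subset_left).trans card_T0.le

theorem disjoint_iff (U : Finset GolayPt) : Disjoint T0 U ↔ (T0 ∩ U).card = 0 := by
  rw [Finset.card_eq_zero, Finset.disjoint_iff_inter_eq_empty]

theorem lab_eq_inter {U : Finset GolayPt} {i : ℕ} (hi : i ≠ 0) (hi10 : i ≠ 10) (hi11 : i ≠ 11) :
    lab U = i ↔ (T0 ∩ U).card = i := by
  unfold lab
  by_cases h0 : (T0 ∩ U).card = 0
  · rw [if_pos h0, h0]
    constructor
    · intro h
      split_ifs at h <;> omega
    · intro h
      exact absurd h.symm hi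
  · rw [if_neg h0]

theorem lab_eq_ten {U : Finset GolayPt} :
    lab U = 10 ↔ Disjoint T0 U ∧ ∃ o ∈ octads, T0 ∪ U ⊆ o := by
  unfold lab
  rw [disjoint_iff]
  have := inter_le U
  by_cases h0 : (T0 ∩ U).card = 0
  · rw [if_pos h0]
    by_cases h1 : ∃ o ∈ octads, T0 ∪ U ⊆ o
    · rw [if_pos h1]; exact ⟨fun _ => ⟨h0, h1⟩, fun _ => rfl⟩
    · rw [if_neg h1]; exact ⟨fun h => by omega, fun h => absurd h.2 h1⟩
  · rw [if_neg h0]
    exact ⟨fun h => by omega, fun h => absurd h.1 h0⟩

theorem lab_eq_eleven {U : Finset GolayPt} :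
    lab U = 11 ↔ Disjoint T0 U ∧ ¬ ∃ o ∈ octads, T0 ∪ U ⊆ o := by
  unfold lab
  rw [disjoint_iff]
  have := inter_le U
  by_cases h0 : (T0 ∩ U).card = 0
  · rw [if_pos h0]
    by_cases h1 : ∃ o ∈ octads, T0 ∪ U ⊆ o
    · rw [if_pos h1]; exact ⟨fun h => by omega, fun h => absurd h1 h.2⟩
    · rw [if_neg h1]; exact ⟨fun _ => ⟨h0, h1⟩, fun _ => rfl⟩
  · rw [if_neg h0]
    exact ⟨fun h => by omega, fun h => absurd h.1 h0⟩

theorem count_small (i : ℕ) (hi : i ≠ 0) (hi10 : i ≠ 10) (hi11 : i ≠ 11) :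
    {U : Finset GolayPt | U ∈ MulAction.orbit (↥M24) T0 ∧ lab U = i}.ncard = msz i := by
  have hset : {U : Finset GolayPt | U ∈ MulAction.orbit (↥M24) T0 ∧ lab U = i}
      = ((((Finset.univ : Finset GolayPt).powersetCard 3).filter
          (fun U => (T0 ∩ U).card = i) : Finset (Finset GolayPt)) : Set (Finset GolayPt)) := by
    ext U
    rw [orbit_T0]
    simp only [Set.mem_ofPred_eq, Finset.coe_filter, Finset.mem_powersetCard, Finset.subset_univ,
      true_and]
    rw [lab_eq_inter hi hi10 hi11]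
  rw [hset, Set.ncard_coe_finset]
  by_cases h1 : i = 1
  · subst h1; decide +kernel
  by_cases h2 : i = 2
  · subst h2; decide +kernel
  by_cases h3 : i = 3
  · subst h3; decide +kernel
  have hm : msz i = 0 := by simp [msz, h1, h2, h3, hi10, hi11]
  rw [hm, Finset.card_eq_zero, Finset.filter_eq_empty_iff]
  intro U _ hUi
  have := inter_le U
  omega

theorem count_T0 (i : ℕ) :
    {U : Finset GolayPt | U ∈ MulAction.orbit (↥M24) T0 ∧ lab U = i}.ncard = msz i := by
  by_cases h10 : i = 10
  · subst h10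
    have h := (Cfsg.Agent.S1562.result T0 card_T0).1
    have hset : {U : Finset GolayPt | U ∈ MulAction.orbit (↥M24) T0 ∧ lab U = 10}
        = {U : Finset GolayPt | U.card = 3 ∧ Disjoint T0 U ∧ (∃ o ∈ octads, T0 ∪ U ⊆ o)} := by
      ext U
      rw [orbit_T0]
      simp only [Set.mem_ofPred_eq]
      rw [lab_eq_ten]
    rw [hset, h]; rfl
  by_cases h11 : i = 11
  · subst h11
    have h := (Cfsg.Agent.S1562.result T0 card_T0).2.1
    have hset : {U : Finset GolayPt | U ∈ MulAction.orbit (↥M24) T0 ∧ lab U = 11}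
        = {U : Finset GolayPt | U.card = 3 ∧ Disjoint T0 U ∧ ¬ (∃ o ∈ octads, T0 ∪ U ⊆ o)} := by
      ext U
      rw [orbit_T0]
      simp only [Set.mem_ofPred_eq]
      rw [lab_eq_eleven]
    rw [hset, h]; rfl
  by_cases h0 : i = 0
  · subst h0
    have hempty : {U : Finset GolayPt | U ∈ MulAction.orbit (↥M24) T0 ∧ lab U = 0} = ∅ := by
      ext U
      simp only [Set.mem_ofPred_eq, Set.mem_empty_iff_false, iff_false]
      rintro ⟨_, hl⟩
      unfold lab at hl
      split_ifs at hl <;> omega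
    rw [hempty, Set.ncard_empty]; rfl
  exact count_small i h0 h10 h11

theorem lab_cases (U : Finset GolayPt) :
    ((T0 ∩ U).card = 0 ∧ (lab U = 10 ∨ lab U = 11)) ∨ ((T0 ∩ U).card ≠ 0 ∧ lab U = (T0 ∩ U).card) := by
  unfold lab
  by_cases h0 : (T0 ∩ U).card = 0
  · left
    rw [if_pos h0]
    refine ⟨h0, ?_⟩
    split_ifs
    · exact Or.inl rfl
    · exact Or.inr rfl
  · right
    rw [if_neg h0]
    exact ⟨h0, rfl⟩

theorem maximal_T0 : IsCoatom (MulAction.stabilizer (↥M24) T0) := by
  apply isCoatom_stabilizer_of_suborbits (G := ↥M24) T0 lab {1, 2, 3, 10, 11} msz ?_ count_T0 ?_ 3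
    ?_ (by decide) ⟨1, by decide, by decide⟩ (by decide)
  · intro U _
    have h3 := inter_le U
    simp only [Finset.mem_insert, Finset.mem_singleton]
    rcases lab_cases U with ⟨_, h | h⟩ | ⟨h0, h⟩ <;> omega
  · intro U hU V hV hUV
    rw [orbit_T0] at hU hV
    have hU3 : U.card = 3 := hU
    have hV3 : V.card = 3 := hV
    have hUV' : lab U = lab V := hUV
    have iU := inter_le U
    have iV := inter_le V
    rcases lab_cases U with ⟨hU0, hUl⟩ | ⟨hU0, hUl⟩
    · rcases lab_cases V with ⟨hV0, hVl⟩ | ⟨hV0, hVl⟩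
      · have hiff : (∃ o ∈ octads, T0 ∪ U ⊆ o) ↔ (∃ o ∈ octads, T0 ∪ V ⊆ o) := by
          rcases hUl with hUl | hUl
          · have hVl' : lab V = 10 := by rw [← hUV', hUl]
            exact ⟨fun _ => (lab_eq_ten.mp hVl').2, fun _ => (lab_eq_ten.mp hUl).2⟩
          · have hVl' : lab V = 11 := by rw [← hUV', hUl]
            exact ⟨fun h => absurd h (lab_eq_eleven.mp hUl).2,
              fun h => absurd h (lab_eq_eleven.mp hVl').2⟩
        obtain ⟨g, hg, h1, h2⟩ := (Cfsg.Agent.S1562.result T0 card_T0).2.2 U V hU3 hV3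
          ((disjoint_iff U).mpr hU0) ((disjoint_iff V).mpr hV0) hiff
        exact ⟨⟨g, hg⟩, h1, h2⟩
      · exfalso
        rcases hUl with hUl | hUl <;> omega
    · rcases lab_cases V with ⟨hV0, hVl⟩ | ⟨hV0, hVl⟩
      · exfalso
        rcases hVl with hVl | hVl <;> omega
      · have hcard : (T0 ∩ U).card = (T0 ∩ V).card := by omega
        have hs := card_T0
        have e1 := Finset.card_sdiff_add_card_inter T0 U
        have e2 := Finset.card_sdiff_add_card_inter T0 V
        have e3 := Finset.card_sdiff_add_card_inter U T0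
        have e4 := Finset.card_sdiff_add_card_inter V T0
        rw [Finset.inter_comm U T0] at e3
        rw [Finset.inter_comm V T0] at e4
        have e5 := Finset.card_union_add_card_inter T0 U
        obtain ⟨g, hg, h1, h2⟩ := m24_finset_pair (s := T0) (y := U) (s' := T0) (y' := V) hcard
          (by omega) (by omega) (by omega)
        exact ⟨⟨g, hg⟩, h1, h2⟩
  · unfold lab
    rw [Finset.inter_self, card_T0]
    rfl

/-- The stabiliser of a set of three points is a maximal subgroup of the group of the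
length-24 code. -/
theorem result (s : Finset Cfsg.GolayPt) (hs : s.card = 3) : IsCoatom (MulAction.stabilizer Cfsg.M24 s) := by
  have hmem : s ∈ MulAction.orbit (↥M24) T0 := by rw [orbit_T0]; exact hs
  obtain ⟨g, rfl⟩ := hmem
  exact (isCoatom_stabilizer_smul g T0).mpr maximal_T0

end Cfsg.Agent.S1564
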