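import Cfsg.Statements.S1565
import Cfsg.Agent.Helper7.Maximal
import Cfsg.Agent.Helper7.Count
import Cfsg.Agent.Helper7.M24Trans
import Cfsg.Agent.S1556

set_option autoImplicit false
open scoped Pointwise
open Cfsg

namespace Cfsg.Agent.S1565

open Cfsg.Agent.Helper7

/-- Class sizes: octads meeting the standard octad in 0, 2, 4, 8 points. -/
def msz (i : ℕ) : ℕ :=
  if i = 0 then 30 else if i = 2 then 448 else if i = 4 then 280 else if i = 8 then 1 else 0

theorem orbit_O0 : MulAction.orbit (↥M24) (setOf O0) = octads := by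
  ext y
  constructor
  · rintro ⟨g, rfl⟩
    exact smul_mem_wordsOfWeight g.2 setOf_O0_mem
  · intro hy
    obtain ⟨g, hg, rfl⟩ := octad_eq_smul_O0 hy
    exact ⟨⟨g, hg⟩, rfl⟩

/-- Bool test on a mask: if it has weight 8 then it meets `O0` in 0, 2, 4 or 8 points. -/
def interOK (m : ℕ) : Bool :=
  !(Nat.beq (wt m) 8) || (Nat.beq (wt (Nat.land O0 m)) 0 || Nat.beq (wt (Nat.land O0 m)) 2
    || Nat.beq (wt (Nat.land O0 m)) 4 || Nat.beq (wt (Nat.land O0 m)) 8)

theorem interOK_all : allRange (fun c => interOK (enc c)) 12 0 = true := by decide +kernel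

theorem inter_O0 {y : Finset GolayPt} (hy : y ∈ octads) :
    (setOf O0 ∩ y).card ∈ ({0, 2, 4, 8} : Finset ℕ) := by
  obtain ⟨w, hw, rfl, hc⟩ := mem_wordsOfWeight.mp hy
  obtain ⟨m, rfl, hm⟩ := forall_code interOK interOK_all hw
  rw [support_wordOf] at hc ⊢
  rw [card_setOf] at hc
  rw [← setOf_and, card_setOf]
  unfold interOK at hm
  rw [hc] at hm
  have h8 : Nat.beq 8 8 = true := rfl
  rw [h8] at hm
  simp only [Bool.not_true, Bool.false_or, Bool.or_eq_true] at hm
  have hm' : wt (O0 &&& m) = 0 ∨ wt (O0 &&& m) = 2 ∨ wt (O0 &&& m) = 4 ∨ wt (O0 &&& m) = 8 := by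
    rcases hm with ((hm | hm) | hm) | hm
    · exact Or.inl (Nat.eq_of_beq_eq_true hm)
    · exact Or.inr (Or.inl (Nat.eq_of_beq_eq_true hm))
    · exact Or.inr (Or.inr (Or.inl (Nat.eq_of_beq_eq_true hm)))
    · exact Or.inr (Or.inr (Or.inr (Nat.eq_of_beq_eq_true hm)))
  simp only [Finset.mem_insert, Finset.mem_singleton]
  exact hm'

/-- Bool test on a coefficient vector: weight 8 and intersection with `O0` of size `i`. -/
def interPred (i c : ℕ) : Bool :=
  Nat.beq (wt (enc c)) 8 && Nat.beq (wt (Nat.land O0 (enc c))) i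

theorem count0 : countRange (interPred 0) 12 0 = 30 := by decide +kernel
theorem count2 : countRange (interPred 2) 12 0 = 448 := by decide +kernel
theorem count4 : countRange (interPred 4) 12 0 = 280 := by decide +kernel
theorem count8 : countRange (interPred 8) 12 0 = 1 := by decide +kernel

theorem count_O0 (i : ℕ) :
    {y : Finset GolayPt | y ∈ MulAction.orbit (↥M24) (setOf O0) ∧ (setOf O0 ∩ y).card = i}.ncard
      = msz i := by
  rw [orbit_O0]
  have h := ncard_supports (fun o => o.card = 8 ∧ (setOf O0 ∩ o).card = i) (interPred i) (by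
    intro c _
    unfold interPred
    rw [Bool.and_eq_true, ← setOf_and, card_setOf, card_setOf]
    constructor
    · rintro ⟨h1, h2⟩
      exact ⟨Nat.eq_of_beq_eq_true h1, Nat.eq_of_beq_eq_true h2⟩
    · rintro ⟨h1, h2⟩
      have h2' : wt (Nat.land O0 (enc c)) = i := h2
      rw [h1, h2']
      exact ⟨Nat.beq_refl 8, Nat.beq_refl i⟩)
  have hset : {y : Finset GolayPt | y ∈ octads ∧ (setOf O0 ∩ y).card = i}
      = {o | o ∈ supports (golayCode : Set (GolayPt → ZMod 2)) ∧
          (o.card = 8 ∧ (setOf O0 ∩ o).card = i)} := by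
    ext y
    constructor
    · rintro ⟨⟨h1, h2⟩, h3⟩
      exact ⟨h1, h2, h3⟩
    · rintro ⟨h1, h2, h3⟩
      exact ⟨⟨h1, h2⟩, h3⟩
  rw [hset, h]
  by_cases h0 : i = 0
  · subst h0; exact count0
  by_cases h2 : i = 2
  · subst h2; exact count2
  by_cases h4 : i = 4
  · subst h4; exact count4
  by_cases h8 : i = 8
  · subst h8; exact count8
  have hm : msz i = 0 := by simp [msz, h0, h2, h4, h8]
  rw [hm, ← h, ← hset]
  have hempty : {y : Finset GolayPt | y ∈ octads ∧ (setOf O0 ∩ y).card = i} = ∅ := by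
    ext y
    simp only [Set.mem_ofPred_eq, Set.mem_empty_iff_false, iff_false]
    rintro ⟨hy, hyi⟩
    have := inter_O0 hy
    rw [hyi] at this
    simp only [Finset.mem_insert, Finset.mem_singleton] at this
    omega
  rw [hempty, Set.ncard_empty]

theorem maximal_O0 : IsCoatom (MulAction.stabilizer (↥M24) (setOf O0)) := by
  apply isCoatom_stabilizer_of_suborbits (G := ↥M24) (setOf O0) (fun y => (setOf O0 ∩ y).card)
    {0, 2, 4, 8} msz ?_ count_O0 ?_ 8 ?_ (by decide) ⟨0, by decide, by decide⟩ (by decide)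
  · intro y hy
    rw [orbit_O0] at hy
    exact inter_O0 hy
  · intro y hy z hz hyz
    rw [orbit_O0] at hy hz
    obtain ⟨g, hg, h1, h2⟩ := Cfsg.Agent.S1556.result (setOf O0) y z setOf_O0_mem hy hz hyz
    exact ⟨⟨g, hg⟩, h1, h2⟩
  · show (setOf O0 ∩ setOf O0).card = 8
    rw [Finset.inter_self, card_setOf]
    exact O0_wt

/-- The stabiliser of an octad is a maximal subgroup of the group of the length-24 code. -/
theorem result (o : Finset Cfsg.GolayPt) (ho : o ∈ Cfsg.octads) : IsCoatom (MulAction.stabilizer Cfsg.M24 o) := by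
  have hmem : o ∈ MulAction.orbit (↥M24) (setOf O0) := by rw [orbit_O0]; exact ho
  obtain ⟨g, rfl⟩ := hmem
  exact (isCoatom_stabilizer_smul g (setOf O0)).mpr maximal_O0

end Cfsg.Agent.S1565
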