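import Cfsg.Statements.S1566
import Cfsg.Agent.Helper7.Maximal
import Cfsg.Agent.Helper7.M12Trans
import Cfsg.Agent.S1561

set_option autoImplicit false
open scoped Pointwise
open Cfsg

namespace Cfsg.Agent.S1566

open Cfsg.Agent.Helper7

/-- The pair formed by a set and its complement. -/
def pr (d : Finset GolayPt) : Finset (Finset GolayPt) := {d, dᶜ}

/-- The standard pair of complementary dodecads. -/
def x0 : Finset (Finset GolayPt) := pr (setOf D1)

/-- Label of a pair: the largest intersection with the standard dodecad. -/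
def lab (P : Finset (Finset GolayPt)) : ℕ := P.sup (fun d => (setOf D1 ∩ d).card)

/-- Class sizes. -/
def msz (i : ℕ) : ℕ := if i = 12 then 1 else if i = 8 then 495 else if i = 6 then 792 else 0

theorem card_D1 : (setOf D1).card = 12 := by rw [card_setOf]; decide +kernel

theorem inter_compl (d : Finset GolayPt) :
    (setOf D1 ∩ dᶜ).card = 12 - (setOf D1 ∩ d).card := by
  have h := Finset.card_sdiff_add_card_inter (setOf D1) d
  rw [card_D1] at h
  have h' : setOf D1 ∩ dᶜ = setOf D1 \ d := by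
    ext x
    simp [Finset.mem_sdiff]
  rw [h']
  omega

theorem lab_pr (d : Finset GolayPt) :
    lab (pr d) = max (setOf D1 ∩ d).card (12 - (setOf D1 ∩ d).card) := by
  unfold lab pr
  rw [Finset.sup_insert, Finset.sup_singleton, inter_compl]

theorem smul_compl (g : Equiv.Perm GolayPt) (d : Finset GolayPt) : g • dᶜ = (g • d)ᶜ := by
  ext x
  rw [Finset.mem_compl, ← Finset.inv_smul_mem_iff, ← Finset.inv_smul_mem_iff, Finset.mem_compl]

theorem smul_pr (g : Equiv.Perm GolayPt) (d : Finset GolayPt) : g • pr d = pr (g • d) := by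
  unfold pr
  rw [Finset.smul_finset_insert, Finset.smul_finset_singleton, smul_compl]

theorem pr_compl (d : Finset GolayPt) : pr dᶜ = pr d := by
  unfold pr
  rw [compl_compl, Finset.pair_comm]

theorem compl_mem_dodecads {d : Finset GolayPt} (hd : d ∈ dodecads) : dᶜ ∈ dodecads := by
  obtain ⟨w, hw, rfl, hc⟩ := mem_wordsOfWeight.mp hd
  apply mem_wordsOfWeight.mpr
  refine ⟨w + 1, golayCode.add_mem hw (Submodule.subset_span (Or.inr rfl)), ?_, ?_⟩
  · ext x
    simp only [support₂, Finset.mem_filter, Finset.mem_univ, true_and, Finset.mem_compl,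
      Pi.add_apply, Pi.one_apply]
    have key : ∀ a : ZMod 2, a + 1 ≠ 0 ↔ ¬ a ≠ 0 := by decide
    exact key (w x)
  · rw [Finset.card_compl, hc]
    decide

theorem orbit_x0 : MulAction.orbit (↥M24) x0 = {P | ∃ d ∈ dodecads, P = pr d} := by
  ext P
  constructor
  · rintro ⟨g, rfl⟩
    exact ⟨g.1 • setOf D1, smul_mem_wordsOfWeight g.2 setOf_D1_mem, smul_pr g.1 (setOf D1)⟩
  · rintro ⟨d, hd, rfl⟩
    obtain ⟨g, hg, rfl⟩ := dodecad_eq_smul_D1 hd
    exact ⟨⟨g, hg⟩, smul_pr g (setOf D1)⟩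

/-- Bool test on a mask: a dodecad meets `D1` in 0, 4, 6, 8 or 12 points. -/
def interOK (m : ℕ) : Bool :=
  !(Nat.beq (wt m) 12) || (Nat.beq (wt (Nat.land D1 m)) 0 || Nat.beq (wt (Nat.land D1 m)) 4
    || Nat.beq (wt (Nat.land D1 m)) 6 || Nat.beq (wt (Nat.land D1 m)) 8
    || Nat.beq (wt (Nat.land D1 m)) 12)

theorem interOK_all : allRange (fun c => interOK (enc c)) 12 0 = true := by decide +kernel

theorem inter_D1 {d : Finset GolayPt} (hd : d ∈ dodecads) :
    (setOf D1 ∩ d).card = 0 ∨ (setOf D1 ∩ d).card = 4 ∨ (setOf D1 ∩ d).card = 6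
      ∨ (setOf D1 ∩ d).card = 8 ∨ (setOf D1 ∩ d).card = 12 := by
  obtain ⟨w, hw, rfl, hc⟩ := mem_wordsOfWeight.mp hd
  obtain ⟨m, rfl, hm⟩ := forall_code interOK interOK_all hw
  rw [support_wordOf] at hc ⊢
  rw [card_setOf] at hc
  rw [← setOf_and, card_setOf]
  unfold interOK at hm
  rw [hc] at hm
  have h12 : Nat.beq 12 12 = true := rfl
  rw [h12] at hm
  simp only [Bool.not_true, Bool.false_or, Bool.or_eq_true] at hm
  rcases hm with (((hm | hm) | hm) | hm) | hm
  · exact Or.inl (Nat.eq_of_beq_eq_true hm)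
  · exact Or.inr (Or.inl (Nat.eq_of_beq_eq_true hm))
  · exact Or.inr (Or.inr (Or.inl (Nat.eq_of_beq_eq_true hm)))
  · exact Or.inr (Or.inr (Or.inr (Or.inl (Nat.eq_of_beq_eq_true hm))))
  · exact Or.inr (Or.inr (Or.inr (Or.inr (Nat.eq_of_beq_eq_true hm))))

/-- Bool test on a coefficient vector: a dodecad through the point of index 0 whose pair has
label `i`. -/
def labPred (i c : ℕ) : Bool :=
  Nat.beq (wt (enc c)) 12 && (Nat.testBit (enc c) 0 &&
    Nat.beq (Nat.max (wt (Nat.land D1 (enc c))) (Nat.sub 12 (wt (Nat.land D1 (enc c))))) i)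

theorem count12 : countRange (labPred 12) 12 0 = 1 := by decide +kernel
theorem count8 : countRange (labPred 8) 12 0 = 495 := by decide +kernel
theorem count6 : countRange (labPred 6) 12 0 = 792 := by decide +kernel

theorem pr_injOn {d e : Finset GolayPt} (hd : pt 0 ∈ d) (he : pt 0 ∈ e) (h : pr d = pr e) :
    d = e := by
  have hmem : d ∈ pr e := by rw [← h]; exact Finset.mem_insert_self _ _
  unfold pr at hmem
  rw [Finset.mem_insert, Finset.mem_singleton] at hmem
  rcases hmem with h1 | h1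
  · exact h1
  · exfalso
    rw [h1, Finset.mem_compl] at hd
    exact hd he

theorem count_x0 (i : ℕ) :
    {P : Finset (Finset GolayPt) | P ∈ MulAction.orbit (↥M24) x0 ∧ lab P = i}.ncard = msz i := by
  rw [orbit_x0]
  have h := ncard_supports (fun d => d.card = 12 ∧ pt 0 ∈ d ∧
      max (setOf D1 ∩ d).card (12 - (setOf D1 ∩ d).card) = i) (labPred i) (by
    intro c _
    unfold labPred
    rw [Bool.and_eq_true, Bool.and_eq_true, ← setOf_and, card_setOf, card_setOf, mem_setOf,
      idx_pt (by norm_num)]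
    constructor
    · rintro ⟨h1, h2, h3⟩
      exact ⟨Nat.eq_of_beq_eq_true h1, h2, Nat.eq_of_beq_eq_true h3⟩
    · rintro ⟨h1, h2, h3⟩
      refine ⟨by rw [h1]; rfl, h2, ?_⟩
      have h3' : Nat.max (wt (Nat.land D1 (enc c))) (Nat.sub 12 (wt (Nat.land D1 (enc c)))) = i := h3
      rw [h3']
      exact Nat.beq_refl i)
  have hset : {P : Finset (Finset GolayPt) | P ∈ {P | ∃ d ∈ dodecads, P = pr d} ∧ lab P = i}
      = pr '' {d | d ∈ supports (golayCode : Set (GolayPt → ZMod 2)) ∧ (d.card = 12 ∧ pt 0 ∈ d ∧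
          max (setOf D1 ∩ d).card (12 - (setOf D1 ∩ d).card) = i)} := by
    ext P
    constructor
    · rintro ⟨⟨d, hd, rfl⟩, hl⟩
      by_cases h0 : pt 0 ∈ d
      · refine ⟨d, ⟨hd.1, hd.2, h0, ?_⟩, rfl⟩
        rw [← lab_pr]; exact hl
      · have hdc := compl_mem_dodecads hd
        refine ⟨dᶜ, ⟨hdc.1, hdc.2, Finset.mem_compl.mpr h0, ?_⟩, pr_compl d⟩
        rw [← lab_pr, pr_compl]; exact hl
    · rintro ⟨d, ⟨h1, h2, h3, h4⟩, rfl⟩
      exact ⟨⟨d, ⟨h1, h2⟩, rfl⟩, by rw [lab_pr]; exact h4⟩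
  rw [hset, Set.InjOn.ncard_image, h]
  · by_cases h12 : i = 12
    · subst h12; exact count12
    by_cases h8 : i = 8
    · subst h8; exact count8
    by_cases h6 : i = 6
    · subst h6; exact count6
    have hm : msz i = 0 := by simp [msz, h12, h8, h6]
    rw [hm, ← h]
    have hempty : {d | d ∈ supports (golayCode : Set (GolayPt → ZMod 2)) ∧ (d.card = 12 ∧ pt 0 ∈ d ∧
          max (setOf D1 ∩ d).card (12 - (setOf D1 ∩ d).card) = i)} = ∅ := by
      ext d
      simp only [Set.mem_ofPred_eq, Set.mem_empty_iff_false, iff_false]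
      rintro ⟨h1, h2, _, h4⟩
      have := inter_D1 (d := d) ⟨h1, h2⟩
      omega
    rw [hempty, Set.ncard_empty]
  · intro d hd e he hde
    exact pr_injOn hd.2.2.1 he.2.2.1 hde

theorem lab_x0 : lab x0 = 12 := by
  unfold x0
  rw [lab_pr, Finset.inter_self, card_D1]
  rfl

theorem maximal_x0 : IsCoatom (MulAction.stabilizer (↥M24) x0) := by
  apply isCoatom_stabilizer_of_suborbits (G := ↥M24) x0 lab {6, 8, 12} msz ?_ count_x0 ?_ 12 lab_x0
    (by decide) ⟨6, by decide, by decide⟩ (by decide)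
  · intro P hP
    rw [orbit_x0] at hP
    obtain ⟨d, hd, rfl⟩ := hP
    rw [lab_pr]
    have := inter_D1 hd
    simp only [Finset.mem_insert, Finset.mem_singleton]
    omega
  · intro P hP Q hQ hPQ
    rw [orbit_x0] at hP hQ
    obtain ⟨d, hd, rfl⟩ := hP
    obtain ⟨e, he, rfl⟩ := hQ
    have hPQ' : lab (pr d) = lab (pr e) := hPQ
    rw [lab_pr, lab_pr] at hPQ'
    -- choose representatives with equal intersections
    have key : ∀ d' e' : Finset GolayPt, d' ∈ dodecads → e' ∈ dodecads →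
        (setOf D1 ∩ d').card = (setOf D1 ∩ e').card →
        ∃ k : ↥M24, k • x0 = x0 ∧ k • pr d' = pr e' := by
      intro d' e' hd' he' hcard
      obtain ⟨g, hg, h1, h2⟩ := Cfsg.Agent.S1561.result (setOf D1) d' e' setOf_D1_mem hd' he' hcard
      refine ⟨⟨g, hg⟩, ?_, ?_⟩
      · show g • x0 = x0
        unfold x0
        rw [smul_pr, h1]
      · show g • pr d' = pr e'
        rw [smul_pr, h2]
    have hd4 := inter_D1 hd
    have he4 := inter_D1 he
    by_cases hcase : (setOf D1 ∩ d).card = (setOf D1 ∩ e).card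
    · exact key d e hd he hcase
    · have hc2 : (setOf D1 ∩ dᶜ).card = (setOf D1 ∩ e).card := by
        rw [inter_compl]
        omega
      obtain ⟨k, hk1, hk2⟩ := key dᶜ e (compl_mem_dodecads hd) he hc2
      rw [pr_compl] at hk2
      exact ⟨k, hk1, hk2⟩

/-- The stabiliser of a complementary pair of dodecads is a maximal subgroup. -/
theorem result (d : Finset Cfsg.GolayPt) (hd : d ∈ Cfsg.dodecads) : IsCoatom (MulAction.stabilizer Cfsg.M24 ({d, dᶜ} : Finset (Finset Cfsg.GolayPt))) := by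
  have hmem : pr d ∈ MulAction.orbit (↥M24) x0 := by rw [orbit_x0]; exact ⟨d, hd, rfl⟩
  obtain ⟨g, hg⟩ := hmem
  have h := (isCoatom_stabilizer_smul g x0).mpr maximal_x0
  have hg' : g • x0 = pr d := hg
  rw [hg'] at h
  exact h

end Cfsg.Agent.S1566
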