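import Cfsg.Statements.S1567
import Cfsg.Agent.Helper92.LeechCong
-- import your own Cfsg.Agent.* helpers here

set_option autoImplicit false
open Cfsg

namespace Cfsg.Agent.S1567

open Cfsg.Agent.Helper92

theorem sqNorm_basis : ∀ b ∈ Cfsg.Agent.Helper7.basis,
    sqNorm (twoVec (Cfsg.Agent.Helper7.setOf b)) = 32 := by decide

theorem sqNorm_P {i j : GolayPt} (hij : i ≠ j) :
    sqNorm ((P i j : leechLattice) : GolayPt → ℤ) = 32 := by
  revert i j; decide

theorem sqNorm_Pm {i j : GolayPt} (hij : i ≠ j) :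
    sqNorm ((P i j - P j j : leechLattice) : GolayPt → ℤ) = 32 := by
  revert i j; decide

theorem gens_le : gens ⊆
    (AddSubgroup.closure {x : Cfsg.GolayPt → ℤ | x ∈ Cfsg.leechLattice ∧ Cfsg.sqNorm x = 32} :
      Set (GolayPt → ℤ)) := by
  rintro g ((⟨i, rfl⟩ | hg) | ⟨b, hb, rfl⟩)
  · by_cases hi : i = none
    · subst hi
      have h1 : ((P none (some 0) : leechLattice) : GolayPt → ℤ) ∈
          AddSubgroup.closure {x : Cfsg.GolayPt → ℤ | x ∈ Cfsg.leechLattice ∧ Cfsg.sqNorm x = 32} :=
        AddSubgroup.subset_closure ⟨(P none (some 0)).2, sqNorm_P (by decide)⟩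
      have h2 : ((P none (some 0) - P (some 0) (some 0) : leechLattice) : GolayPt → ℤ) ∈
          AddSubgroup.closure {x : Cfsg.GolayPt → ℤ | x ∈ Cfsg.leechLattice ∧ Cfsg.sqNorm x = 32} :=
        AddSubgroup.subset_closure ⟨(P none (some 0) - P (some 0) (some 0)).2, sqNorm_Pm (by decide)⟩
      have h3 : e4 none + e4 none = ((P none (some 0) : leechLattice) : GolayPt → ℤ) +
          ((P none (some 0) - P (some 0) (some 0) : leechLattice) : GolayPt → ℤ) := by
        decide
      show e4 none + e4 none ∈ AddSubgroup.closure _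
      rw [h3]
      exact add_mem h1 h2
    · exact AddSubgroup.subset_closure ⟨(P i none).2, sqNorm_P hi⟩
  · rw [Set.mem_singleton_iff] at hg
    subst hg
    have h1 : ((O2 : leechLattice) : GolayPt → ℤ) ∈
        AddSubgroup.closure {x : Cfsg.GolayPt → ℤ | x ∈ Cfsg.leechLattice ∧ Cfsg.sqNorm x = 32} :=
      AddSubgroup.subset_closure ⟨O2.2, sqNorm_O2⟩
    have h2 : ((P none (some 0) : leechLattice) : GolayPt → ℤ) ∈
        AddSubgroup.closure {x : Cfsg.GolayPt → ℤ | x ∈ Cfsg.leechLattice ∧ Cfsg.sqNorm x = 32} :=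
      AddSubgroup.subset_closure ⟨(P none (some 0)).2, sqNorm_P (by decide)⟩
    have h3 : ((P none (some 0) - P (some 0) (some 0) : leechLattice) : GolayPt → ℤ) ∈
        AddSubgroup.closure {x : Cfsg.GolayPt → ℤ | x ∈ Cfsg.leechLattice ∧ Cfsg.sqNorm x = 32} :=
      AddSubgroup.subset_closure ⟨(P none (some 0) - P (some 0) (some 0)).2, sqNorm_Pm (by decide)⟩
    have h4 : Cfsg.Spor.vecV = -((O2 : leechLattice) : GolayPt → ℤ) -
        ((P none (some 0) : leechLattice) : GolayPt → ℤ) -
        ((P none (some 0) - P (some 0) (some 0) : leechLattice) : GolayPt → ℤ) := by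
      decide
    show Cfsg.Spor.vecV ∈ AddSubgroup.closure _
    rw [h4]
    exact sub_mem (sub_mem (neg_mem h1) h2) h3
  · exact AddSubgroup.subset_closure ⟨twoVec_mem (setOf_basis_mem hb), sqNorm_basis b hb⟩

/-- The rank-24 lattice is the additive subgroup generated by its 196560 minimal vectors. -/
theorem result : AddSubgroup.closure {x : Cfsg.GolayPt → ℤ | x ∈ Cfsg.leechLattice ∧ Cfsg.sqNorm x = 32} = Cfsg.leechLattice := by
  apply le_antisymm
  · rw [AddSubgroup.closure_le]
    rintro x ⟨hx, -⟩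
    exact hx
  · have h := closure_gens_eq
    intro x hx
    rw [← h] at hx
    exact (AddSubgroup.closure_le _).2 gens_le hx

end Cfsg.Agent.S1567
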