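import Cfsg.Statements.S1570
import Cfsg.Agent.Helper92.LeechCong
-- import your own Cfsg.Agent.* helpers here

set_option autoImplicit false
open Cfsg

namespace Cfsg.Agent.S1570

open Cfsg.Agent.Helper92 in
theorem aux (X u : leechLattice) (h : Orb X u) (hu : sqNorm (u : GolayPt → ℤ) ≤ 64) :
    ∃ y ∈ Cfsg.leechLattice, Cfsg.sqNorm y ≤ 64 ∧ ∃ z ∈ Cfsg.leechLattice,
      (X : GolayPt → ℤ) - y = 2 • z := by
  obtain ⟨g, z, hz⟩ := h
  refine ⟨((g⁻¹ • u : leechLattice) : GolayPt → ℤ), (g⁻¹ • u : leechLattice).2, ?_,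
    ((g⁻¹ • z : leechLattice) : GolayPt → ℤ), (g⁻¹ • z : leechLattice).2, ?_⟩
  · rw [co0_sqNorm]; exact hu
  · have h1 : X = g⁻¹ • u + (g⁻¹ • z + g⁻¹ • z) := by
      rw [← co0_add, ← co0_add, ← hz, inv_smul_smul]
    have h2 : (X : GolayPt → ℤ) = ((g⁻¹ • u : leechLattice) : GolayPt → ℤ) +
        (((g⁻¹ • z : leechLattice) : GolayPt → ℤ) + ((g⁻¹ • z : leechLattice) : GolayPt → ℤ)) := by
      conv_lhs => rw [h1]
      rfl
    rw [h2, two_smul]
    abel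

/-- Every congruence class of the lattice modulo twice the lattice contains a vector of customary norm at most 8. -/
theorem result (x : Cfsg.GolayPt → ℤ) (hx : x ∈ Cfsg.leechLattice) : ∃ y ∈ Cfsg.leechLattice, Cfsg.sqNorm y ≤ 64 ∧ ∃ z ∈ Cfsg.leechLattice, x - y = 2 • z := by
  rcases Cfsg.Agent.Helper92.orb_cases ⟨x, hx⟩ with h | h | h | h
  · exact aux ⟨x, hx⟩ _ h (by rw [Cfsg.Agent.Helper92.sqNorm_zero']; norm_num)
  · exact aux ⟨x, hx⟩ _ h (by rw [Cfsg.Agent.Helper92.sqNorm_leechU]; norm_num)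
  · exact aux ⟨x, hx⟩ _ h (by rw [Cfsg.Agent.Helper92.sqNorm_leechV]; norm_num)
  · exact aux ⟨x, hx⟩ _ h (by rw [Cfsg.Agent.Helper92.sqNorm_U4])

end Cfsg.Agent.S1570
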