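import Cfsg.Statements.S1574
import Cfsg.Agent.Helper26.Co2Trans
import Cfsg.Agent.Helper92.LeechIrr
-- import your own Cfsg.Agent.* helpers here

set_option autoImplicit false
open Cfsg

namespace Cfsg.Agent.S1574

/-- The stabiliser of a minimal vector is transitive on the minimal vectors of customary inner product −2 with it. -/
theorem result (v w w' : ↥Cfsg.leechLattice) (hv : Cfsg.sqNorm (v : Cfsg.GolayPt → ℤ) = 32) (hw : Cfsg.sqNorm (w : Cfsg.GolayPt → ℤ) = 32) (hw' : Cfsg.sqNorm (w' : Cfsg.GolayPt → ℤ) = 32) (hd : Cfsg.dotInt (v : Cfsg.GolayPt → ℤ) (w : Cfsg.GolayPt → ℤ) = -16) (hd' : Cfsg.dotInt (v : Cfsg.GolayPt → ℤ) (w' : Cfsg.GolayPt → ℤ) = -16) : ∃ g : ↥Cfsg.Co0, g • v = v ∧ g • w = w' := by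
  obtain ⟨h, hh⟩ := Cfsg.Agent.Helper92.exists_smul_eq_of_norm32 v Cfsg.Spor.leechU hv
    Cfsg.Agent.Helper26.sqNorm_leechU32
  have e1 : Cfsg.dotInt (Cfsg.Spor.leechU : Cfsg.GolayPt → ℤ)
      ((h • w : Cfsg.leechLattice) : Cfsg.GolayPt → ℤ) = -16 := by
    rw [← hh, Cfsg.Agent.Helper26.co0_dot]
    exact hd
  have e2 : Cfsg.dotInt (Cfsg.Spor.leechU : Cfsg.GolayPt → ℤ)
      ((h • w' : Cfsg.leechLattice) : Cfsg.GolayPt → ℤ) = -16 := by
    rw [← hh, Cfsg.Agent.Helper26.co0_dot]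
    exact hd'
  obtain ⟨g, hg1, hg2⟩ := Cfsg.Agent.Helper26.co2_trans16 (h • w) (h • w')
    (by rw [Cfsg.Agent.Helper26.co0_norm]; exact hw)
    (by rw [Cfsg.Agent.Helper26.co0_norm]; exact hw') e1 e2
  refine ⟨h⁻¹ * g * h, ?_, ?_⟩
  · rw [mul_smul, mul_smul, hh, hg1, ← hh, inv_smul_smul]
  · rw [mul_smul, mul_smul, hg2, inv_smul_smul]

end Cfsg.Agent.S1574
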