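import Cfsg.Statements.S1577
import Cfsg.Agent.Helper26.U62Leech

set_option autoImplicit false
open Cfsg

namespace Cfsg.Agent.S1577

/-- The joint stabiliser of two minimal vectors of customary inner product −2 is isomorphic to PSU(6, 2). -/
theorem result (v w : ↥Cfsg.leechLattice) (hv : Cfsg.sqNorm (v : Cfsg.GolayPt → ℤ) = 32) (hw : Cfsg.sqNorm (w : Cfsg.GolayPt → ℤ) = 32) (hd : Cfsg.dotInt (v : Cfsg.GolayPt → ℤ) (w : Cfsg.GolayPt → ℤ) = -16) (F : Type) [Field F] [Fintype F] (hF : Fintype.card F = 4) : Nonempty (↥(MulAction.stabilizer ↥Cfsg.Co0 v ⊓ MulAction.stabilizer ↥Cfsg.Co0 w) ≃* Cfsg.PSU 6 F 2) := by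
  obtain ⟨h, hh⟩ := Cfsg.Agent.Helper92.exists_smul_eq_of_norm32 v Cfsg.Spor.leechU hv
    Cfsg.Agent.Helper26.sqNorm_leechU32
  have e1 : Cfsg.dotInt (Cfsg.Spor.leechU : Cfsg.GolayPt → ℤ)
      ((h • w : Cfsg.leechLattice) : Cfsg.GolayPt → ℤ) = -16 := by
    rw [← hh, Cfsg.Agent.Helper26.co0_dot]
    exact hd
  obtain ⟨g, hg1, hg2⟩ := Cfsg.Agent.Helper26.co2_trans16 (h • w) Cfsg.Agent.Helper26.leechX
    (by rw [Cfsg.Agent.Helper26.co0_norm]; exact hw) Cfsg.Agent.Helper26.sqNorm_leechX e1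
    Cfsg.Agent.Helper26.u62_dotUX
  obtain ⟨δ, hδ⟩ : ∃ δ : Co0, δ = g * h := ⟨_, rfl⟩
  have du : δ • v = Spor.leechU := by rw [hδ, mul_smul, hh, hg1]
  have dw : δ • w = Cfsg.Agent.Helper26.leechX := by rw [hδ, mul_smul, hg2]
  have key : ∀ k : Co0, k ∈ MulAction.stabilizer Co0 v ⊓ MulAction.stabilizer Co0 w ↔
      δ * k * δ⁻¹ ∈ Cfsg.Agent.Helper26.u62H := by
    intro k
    rw [Cfsg.Agent.Helper26.mem_u62H, Subgroup.mem_inf, MulAction.mem_stabilizer_iff,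
      MulAction.mem_stabilizer_iff]
    have e : ∀ a : leechLattice, (δ * k * δ⁻¹) • (δ • a) = δ • (k • a) := fun a => by
      rw [mul_smul, mul_smul, inv_smul_smul]
    rw [← du, ← dw, e, e]
    constructor
    · rintro ⟨p, q⟩
      exact ⟨by rw [p], by rw [q]⟩
    · rintro ⟨p, q⟩
      exact ⟨MulAction.injective δ p, MulAction.injective δ q⟩
  obtain ⟨e⟩ := Cfsg.Agent.Helper26.u62_stab_psu F hF
  exact ⟨(Cfsg.Agent.Helper92.conjEquiv δ _ _ key).trans e⟩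

end Cfsg.Agent.S1577
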