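import Cfsg.Statements.S1579
import Cfsg.Agent.S1575
-- import your own Cfsg.Agent.* helpers here

set_option autoImplicit false
open Cfsg

namespace Cfsg.Agent.S1579

/-- The stabiliser of a vector of customary norm 6 is transitive on the 552 minimal vectors that complete it to a sum of two minimal vectors. -/
theorem result (u v v' : ↥Cfsg.leechLattice) (hu : Cfsg.sqNorm (u : Cfsg.GolayPt → ℤ) = 48) (hv : Cfsg.sqNorm (v : Cfsg.GolayPt → ℤ) = 32 ∧ Cfsg.sqNorm ((u - v) : Cfsg.GolayPt → ℤ) = 32) (hv' : Cfsg.sqNorm (v' : Cfsg.GolayPt → ℤ) = 32 ∧ Cfsg.sqNorm ((u - v') : Cfsg.GolayPt → ℤ) = 32) : ∃ g : ↥Cfsg.Co0, g • u = u ∧ g • v = v' := by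
  obtain ⟨hv1, hv2⟩ := hv
  obtain ⟨hv1', hv2'⟩ := hv'
  have key : ∀ a : Cfsg.leechLattice, Cfsg.sqNorm (a : Cfsg.GolayPt → ℤ) = 32 →
      Cfsg.sqNorm ((u - a : Cfsg.leechLattice) : Cfsg.GolayPt → ℤ) = 32 →
      Cfsg.dotInt (a : Cfsg.GolayPt → ℤ) ((u - a : Cfsg.leechLattice) : Cfsg.GolayPt → ℤ) = -8 := by
    intro a h1 h2
    have h3 : (u : Cfsg.GolayPt → ℤ) =
        (a : Cfsg.GolayPt → ℤ) + ((u - a : Cfsg.leechLattice) : Cfsg.GolayPt → ℤ) := by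
      show _ = (a : Cfsg.GolayPt → ℤ) + ((u : Cfsg.GolayPt → ℤ) - (a : Cfsg.GolayPt → ℤ))
      abel
    have h4 := Cfsg.Agent.Helper92.sqNorm_add (a : Cfsg.GolayPt → ℤ)
      ((u - a : Cfsg.leechLattice) : Cfsg.GolayPt → ℤ)
    rw [← h3, hu, h1, h2] at h4
    linarith
  obtain ⟨h, hh⟩ := Cfsg.Agent.Helper92.exists_smul_eq_of_norm32 v v' hv1 hv1'
  have e1 : Cfsg.dotInt (v' : Cfsg.GolayPt → ℤ)
      ((h • (u - v) : Cfsg.leechLattice) : Cfsg.GolayPt → ℤ) = -8 := by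
    rw [← hh, Cfsg.Agent.Helper26.co0_dot]
    exact key v hv1 hv2
  obtain ⟨g, hg1, hg2⟩ := Cfsg.Agent.S1575.result v' (h • (u - v)) (u - v') hv1'
    (by rw [Cfsg.Agent.Helper26.co0_norm]; exact hv2) hv2' e1 (key v' hv1' hv2')
  refine ⟨g * h, ?_, ?_⟩
  · calc (g * h) • u = (g * h) • (v + (u - v)) := by rw [add_sub_cancel]
      _ = g • (h • v + h • (u - v)) := by rw [mul_smul, Cfsg.Agent.Helper26.co0_add]
      _ = g • (h • v) + g • (h • (u - v)) := by rw [Cfsg.Agent.Helper26.co0_add]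
      _ = v' + (u - v') := by rw [hh, hg1, hg2]
      _ = u := by rw [add_sub_cancel]
  · rw [mul_smul, hh, hg1]

end Cfsg.Agent.S1579
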