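import Cfsg.Statements.S1581
import Cfsg.Agent.Helper26.McLRank

set_option autoImplicit false
open Cfsg

namespace Cfsg.Agent.S1581

/-- The McLaughlin group acts with rank 3 and subdegrees 1, 112, 162 on its 275 points: the point stabiliser has two orbits on the remaining points, distinguished by customary inner product 1 or 2 with the fixed point. -/
theorem result (u v x : ↥Cfsg.leechLattice) (hu : Cfsg.sqNorm (u : Cfsg.GolayPt → ℤ) = 48) (hv : Cfsg.sqNorm (v : Cfsg.GolayPt → ℤ) = 32 ∧ Cfsg.sqNorm ((u - v) : Cfsg.GolayPt → ℤ) = 32) (hx : x ∈ {x : ↥Cfsg.leechLattice | Cfsg.sqNorm (x : Cfsg.GolayPt → ℤ) = 32 ∧ Cfsg.sqNorm ((u - x) : Cfsg.GolayPt → ℤ) = 32 ∧ Cfsg.dotInt (v : Cfsg.GolayPt → ℤ) (x : Cfsg.GolayPt → ℤ) = 16}) : {y : ↥Cfsg.leechLattice | y ∈ {x : ↥Cfsg.leechLattice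 | Cfsg.sqNorm (x : Cfsg.GolayPt → ℤ) = 32 ∧ Cfsg.sqNorm ((u - x) : Cfsg.GolayPt → ℤ) = 32 ∧ Cfsg.dotInt (v : Cfsg.GolayPt → ℤ) (x : Cfsg.GolayPt → ℤ) = 16} ∧ Cfsg.dotInt (x : Cfsg.GolayPt → ℤ) (y : Cfsg.GolayPt → ℤ) = 8}.ncard = 112 ∧ {y : ↥Cfsg.leechLattice | y ∈ {x : ↥Cfsg.leechLattice | Cfsg.sqNorm (x : Cfsg.GolayPt → ℤ) = 32 ∧ Cfsg.sqNorm ((u - x) : Cfsg.GolayPt → ℤ) = 32 ∧ Cfsg.dotInt (v : Cfsg.GolayPt → ℤ) (x : Cfsg.GolayPt → ℤ) = 16} ∧ y ≠ x ∧ Cfsg.dotInt (x : Cfsg.GolayPt → ℤ) (y : Cfsg.GolayPt → ℤ) = 16}.ncard = 162 ∧ ∀ y ∈ {x : ↥Cfsg.leechLattice | Cfsg.sqNorm (x : Cfsg.GolayPt → ℤ) = 32 ∧ Cfsg.sqNorm ((u - x) : Cfsg.GolayPt → ℤ) = 32 ∧ Cfsg.dotInt (v : Cfsg.GolayPt → ℤ) (x : Cfsg.GolayPt → ℤ) = 16}, ∀ y' ∈ {x : ↥Cfsg.leechLattice | Cfsg.sqNorm (x : Cfsg.GolayPt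 → ℤ) = 32 ∧ Cfsg.sqNorm ((u - x) : Cfsg.GolayPt → ℤ) = 32 ∧ Cfsg.dotInt (v : Cfsg.GolayPt → ℤ) (x : Cfsg.GolayPt → ℤ) = 16}, y ≠ x → y' ≠ x → Cfsg.dotInt (x : Cfsg.GolayPt → ℤ) (y : Cfsg.GolayPt → ℤ) = Cfsg.dotInt (x : Cfsg.GolayPt → ℤ) (y' : Cfsg.GolayPt → ℤ) → ∃ g : ↥Cfsg.Co0, g • u = u ∧ g • v = v ∧ g • x = x ∧ g • y = y' := by
  exact Cfsg.Agent.Helper26.mcl_rank3 u v x hu hv hx

end Cfsg.Agent.S1581
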