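import Cfsg.Statements.S1582
import Cfsg.Agent.Helper26.U43Leech

set_option autoImplicit false
open Cfsg

namespace Cfsg.Agent.S1582

/-- The point stabiliser in the rank-3 action of the McLaughlin group on 275 points is isomorphic to PSU(4, 3). -/
theorem result (u v x : ↥Cfsg.leechLattice) (hu : Cfsg.sqNorm (u : Cfsg.GolayPt → ℤ) = 48) (hv : Cfsg.sqNorm (v : Cfsg.GolayPt → ℤ) = 32 ∧ Cfsg.sqNorm ((u - v) : Cfsg.GolayPt → ℤ) = 32) (hx : x ∈ {x : ↥Cfsg.leechLattice | Cfsg.sqNorm (x : Cfsg.GolayPt → ℤ) = 32 ∧ Cfsg.sqNorm ((u - x) : Cfsg.GolayPt → ℤ) = 32 ∧ Cfsg.dotInt (v : Cfsg.GolayPt → ℤ) (x : Cfsg.GolayPt → ℤ) = 16}) (F : Type) [Field F] [Fintype F] (hF : Fintype.card F = 9) : Nonempty (↥(MulAction.stabilizer ↥Cfsg.Co0 u ⊓ MulAction.stabilizer ↥Cfsg.Co0 v ⊓ MulAction.stabilizer ↥Cfsg.Co0 x) ≃* Cfsg.PSU 4 F 3) := by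
  obtain ⟨a, b, c⟩ := hx
  obtain ⟨g, h1, h2⟩ := Cfsg.Agent.Helper26.pairMcL u v hu hv.1
    ((Cfsg.Agent.Helper26.dot_of_sub hu hv.1).1 hv.2)
  have hn : sqNorm ((g • x : leechLattice) : GolayPt → ℤ) = 32 := by
    rw [Cfsg.Agent.Helper26.co0_norm]; exact a
  have e1 : dotInt (Spor.leechV : GolayPt → ℤ) ((g • x : leechLattice) : GolayPt → ℤ) = 24 := by
    rw [Cfsg.Agent.Helper26.dot_map g u _ h1]
    exact (Cfsg.Agent.Helper26.dot_of_sub hu a).1 b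
  have e2 : dotInt (Spor.leechU : GolayPt → ℤ) ((g • x : leechLattice) : GolayPt → ℤ) = -16 := by
    have h3 := Cfsg.Agent.Helper26.dot_map g v _ h2 x
    rw [Cfsg.Agent.Helper26.dot_negU] at h3
    omega
  have hc : Cfsg.Agent.Helper26.clsL (Cfsg.Agent.Helper26.pk
      ((g • x : leechLattice) : GolayPt → ℤ)) = 1 := by
    rw [Cfsg.Agent.Helper26.clsL_spec _ (g • x).2 hn, if_pos e1, if_pos e2]
  obtain ⟨h, p, q, r⟩ := Cfsg.Agent.Helper26.mcl_trans 0 (g • x) Cfsg.Agent.Helper26.leechX hn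
    Cfsg.Agent.Helper26.sqNorm_leechX hc Cfsg.Agent.Helper26.clsL_X
  obtain ⟨δ, hδ⟩ : ∃ δ : Co0, δ = h * g := ⟨_, rfl⟩
  have du : δ • u = Spor.leechV := by rw [hδ, mul_smul, h1, p]
  have dv : δ • (-v) = Spor.leechU := by
    rw [hδ, mul_smul, Cfsg.Agent.Helper26.co0_neg, h2, neg_neg, q]
  have dx : δ • x = Cfsg.Agent.Helper26.leechX := by
    rw [hδ, mul_smul]
    exact r
  have key2 : ∀ k : Co0, k ∈ MulAction.stabilizer Co0 u ⊓ MulAction.stabilizer Co0 v ⊓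
      MulAction.stabilizer Co0 x ↔ δ * k * δ⁻¹ ∈ Cfsg.Agent.Helper26.u43H := by
    intro k
    rw [Cfsg.Agent.Helper26.mem_u43H, Subgroup.mem_inf, Subgroup.mem_inf,
      MulAction.mem_stabilizer_iff, MulAction.mem_stabilizer_iff, MulAction.mem_stabilizer_iff]
    have e : ∀ a : leechLattice, (δ * k * δ⁻¹) • (δ • a) = δ • (k • a) := fun a => by
      rw [mul_smul, mul_smul, inv_smul_smul]
    rw [← du, ← dv, ← dx, e, e, e]
    constructor
    · rintro ⟨⟨p, q⟩, r⟩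
      refine ⟨?_, ?_, ?_⟩
      · rw [p]
      · rw [Cfsg.Agent.Helper26.co0_neg, q]
      · rw [r]
    · rintro ⟨p, q, r⟩
      have q' : k • v = v := by
        have h3 := MulAction.injective δ q
        rw [Cfsg.Agent.Helper26.co0_neg, neg_inj] at h3
        exact h3
      exact ⟨⟨MulAction.injective δ p, q'⟩, MulAction.injective δ r⟩
  obtain ⟨e⟩ := Cfsg.Agent.Helper26.u43_stab_psu F hF
  exact ⟨(Cfsg.Agent.Helper92.conjEquiv δ _ _ key2).trans e⟩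

end Cfsg.Agent.S1582
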