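import Cfsg.Statements.S1584
import Cfsg.Agent.Helper26.HSRank

set_option autoImplicit false
open Cfsg

namespace Cfsg.Agent.S1584

/-- The Higman–Sims group acts with rank 3 and subdegrees 1, 22, 77 on its 100 points, the orbits of a point stabiliser being distinguished by customary inner product 1 with the fixed point. -/
theorem result (v w x : ↥Cfsg.leechLattice) (hv : Cfsg.sqNorm (v : Cfsg.GolayPt → ℤ) = 48) (hw : Cfsg.sqNorm (w : Cfsg.GolayPt → ℤ) = 48) (hvw : Cfsg.dotInt (v : Cfsg.GolayPt → ℤ) (w : Cfsg.GolayPt → ℤ) = -32) (hx : x ∈ {x : ↥Cfsg.leechLattice | Cfsg.sqNorm (x : Cfsg.GolayPt → ℤ) = 32 ∧ Cfsg.dotInt (v : Cfsg.GolayPt → ℤ) (x : Cfsg.GolayPt → ℤ) = 24 ∧ Cfsg.dotInt (w : Cfsg.GolayPt → ℤ) (x : Cfsg.GolayPt → ℤ) = -24}) : {y : ↥Cfsg.leechLattice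 | y ∈ {x : ↥Cfsg.leechLattice | Cfsg.sqNorm (x : Cfsg.GolayPt → ℤ) = 32 ∧ Cfsg.dotInt (v : Cfsg.GolayPt → ℤ) (x : Cfsg.GolayPt → ℤ) = 24 ∧ Cfsg.dotInt (w : Cfsg.GolayPt → ℤ) (x : Cfsg.GolayPt → ℤ) = -24} ∧ Cfsg.dotInt (x : Cfsg.GolayPt → ℤ) (y : Cfsg.GolayPt → ℤ) = 8}.ncard = 22 ∧ {y : ↥Cfsg.leechLattice | y ∈ {x : ↥Cfsg.leechLattice | Cfsg.sqNorm (x : Cfsg.GolayPt → ℤ) = 32 ∧ Cfsg.dotInt (v : Cfsg.GolayPt → ℤ) (x : Cfsg.GolayPt → ℤ) = 24 ∧ Cfsg.dotInt (w : Cfsg.GolayPt → ℤ) (x : Cfsg.GolayPt → ℤ) = -24} ∧ y ≠ x ∧ Cfsg.dotInt (x : Cfsg.GolayPt → ℤ) (y : Cfsg.GolayPt → ℤ) ≠ 8}.ncard = 77 ∧ ∀ y ∈ {x : ↥Cfsg.leechLattice | Cfsg.sqNorm (x : Cfsg.GolayPt → ℤ) = 32 ∧ Cfsg.dotInt (v : Cfsg.GolayPt → ℤ) (x : Cfsg.GolayPt → ℤ) = 24 ∧ Cfsg.dotInt (w : Cfsg.GolayPt →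 ℤ) (x : Cfsg.GolayPt → ℤ) = -24}, ∀ y' ∈ {x : ↥Cfsg.leechLattice | Cfsg.sqNorm (x : Cfsg.GolayPt → ℤ) = 32 ∧ Cfsg.dotInt (v : Cfsg.GolayPt → ℤ) (x : Cfsg.GolayPt → ℤ) = 24 ∧ Cfsg.dotInt (w : Cfsg.GolayPt → ℤ) (x : Cfsg.GolayPt → ℤ) = -24}, y ≠ x → y' ≠ x → (Cfsg.dotInt (x : Cfsg.GolayPt → ℤ) (y : Cfsg.GolayPt → ℤ) = 8 ↔ Cfsg.dotInt (x : Cfsg.GolayPt → ℤ) (y' : Cfsg.GolayPt → ℤ) = 8) → ∃ g : ↥Cfsg.Co0, g • v = v ∧ g • w = w ∧ g • x = x ∧ g • y = y' := by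
  exact Cfsg.Agent.Helper26.hs_rank3 v w x hv hw hvw hx

end Cfsg.Agent.S1584
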