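import Cfsg.Statements.S1588
import Cfsg.Agent.Helper27.LatticeCount

set_option autoImplicit false
open Matrix
open Cfsg

namespace Cfsg.Agent.S1588

open Cfsg.Agent.Helper27

/-- Second step of the characterisation: under the vector counts of the rank-24 lattice, the norm-8 vectors fall into congruence classes of exactly 48 modulo twice the lattice. -/
theorem result (B : Matrix (Fin 24) (Fin 24) ℤ) (hsymm : B.IsSymm) (hpos : ∀ x : Fin 24 → ℤ, x ≠ 0 → 0 < x ⬝ᵥ (B *ᵥ x)) (heven : ∀ x : Fin 24 → ℤ, (2 : ℤ) ∣ x ⬝ᵥ (B *ᵥ x)) (h2 : ∀ x : Fin 24 → ℤ, x ⬝ᵥ (B *ᵥ x) ≠ 2) (h4 : {x : Fin 24 → ℤ | x ⬝ᵥ (B *ᵥ x) = 4}.ncard = 196560) (h6 : {x : Fin 24 → ℤ | x ⬝ᵥ (B *ᵥ x) = 6}.ncard = 16773120) (h8 : {x : Fin 24 → ℤ | x ⬝ᵥ (B *ᵥ x) = 8}.ncard = 398034000) (x : Fin 24 → ℤ) (hx : x ⬝ᵥ (B *ᵥ x) = 8) : {y : Fin 24 → ℤ | y ⬝ᵥ (B *ᵥ y) = 8 ∧ ∀ i, (2 : ℤ) ∣ (x - y) i}.ncard = 48 := by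
  classical
  have hf4 : {x : Fin 24 → ℤ | x ⬝ᵥ (B *ᵥ x) = 4}.Finite :=
    Set.finite_of_ncard_ne_zero (by rw [h4]; norm_num)
  have hf6 : {x : Fin 24 → ℤ | x ⬝ᵥ (B *ᵥ x) = 6}.Finite :=
    Set.finite_of_ncard_ne_zero (by rw [h6]; norm_num)
  have hf8 : {x : Fin 24 → ℤ | x ⬝ᵥ (B *ᵥ x) = 8}.Finite :=
    Set.finite_of_ncard_ne_zero (by rw [h8]; norm_num)
  obtain ⟨S4, hS4⟩ : ∃ S : Finset (Fin 24 → ℤ), (S : Set (Fin 24 → ℤ)) = {x : Fin 24 → ℤ | x ⬝ᵥ (B *ᵥ x) = 4} :=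
    ⟨hf4.toFinset, hf4.coe_toFinset⟩
  obtain ⟨S6, hS6⟩ : ∃ S : Finset (Fin 24 → ℤ), (S : Set (Fin 24 → ℤ)) = {x : Fin 24 → ℤ | x ⬝ᵥ (B *ᵥ x) = 6} :=
    ⟨hf6.toFinset, hf6.coe_toFinset⟩
  obtain ⟨S8, hS8⟩ : ∃ S : Finset (Fin 24 → ℤ), (S : Set (Fin 24 → ℤ)) = {x : Fin 24 → ℤ | x ⬝ᵥ (B *ᵥ x) = 8} :=
    ⟨hf8.toFinset, hf8.coe_toFinset⟩
  have m4 : ∀ y, y ∈ S4 ↔ y ⬝ᵥ (B *ᵥ y) = 4 := fun y => by
    rw [← Finset.mem_coe, hS4]; rfl
  have m6 : ∀ y, y ∈ S6 ↔ y ⬝ᵥ (B *ᵥ y) = 6 := fun y => by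
    rw [← Finset.mem_coe, hS6]; rfl
  have m8 : ∀ y, y ∈ S8 ↔ y ⬝ᵥ (B *ᵥ y) = 8 := fun y => by
    rw [← Finset.mem_coe, hS8]; rfl
  have c4 : S4.card = 196560 := by rw [← h4, ← hS4, Set.ncard_coe_finset]
  have c6 : S6.card = 16773120 := by rw [← h6, ← hS6, Set.ncard_coe_finset]
  have c8 : S8.card = 398034000 := by rw [← h8, ← hS8, Set.ncard_coe_finset]
  -- the classes
  have k4 := card_eq_two_mul_image B hsymm hpos heven h2 4 (by norm_num) (by norm_num) S4 m4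
  have k6 := card_eq_two_mul_image B hsymm hpos heven h2 6 (by norm_num) (by norm_num) S6 m6
  have hS0 : ∀ y ∈ ({0} : Finset (Fin 24 → ℤ)), y ⬝ᵥ (B *ᵥ y) = 0 := by
    intro y hy
    rw [Finset.mem_singleton] at hy
    rw [hy]
    exact norm_zero' B
  have d04 := disjoint_image_red2 B hsymm hpos heven h2 0 4 (by norm_num) (by norm_num)
    (by norm_num) {0} S4 hS0 (fun y hy => (m4 y).mp hy)
  have d06 := disjoint_image_red2 B hsymm hpos heven h2 0 6 (by norm_num) (by norm_num)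
    (by norm_num) {0} S6 hS0 (fun y hy => (m6 y).mp hy)
  have d08 := disjoint_image_red2 B hsymm hpos heven h2 0 8 (by norm_num) (by norm_num)
    (by norm_num) {0} S8 hS0 (fun y hy => (m8 y).mp hy)
  have d46 := disjoint_image_red2 B hsymm hpos heven h2 4 6 (by norm_num) (by norm_num)
    (by norm_num) S4 S6 (fun y hy => (m4 y).mp hy) (fun y hy => (m6 y).mp hy)
  have d48 := disjoint_image_red2 B hsymm hpos heven h2 4 8 (by norm_num) (by norm_num)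
    (by norm_num) S4 S8 (fun y hy => (m4 y).mp hy) (fun y hy => (m8 y).mp hy)
  have d68 := disjoint_image_red2 B hsymm hpos heven h2 6 8 (by norm_num) (by norm_num)
    (by norm_num) S6 S8 (fun y hy => (m6 y).mp hy) (fun y hy => (m8 y).mp hy)
  set K0 := (({0} : Finset (Fin 24 → ℤ)).image red2) with hK0
  set K4 := S4.image (red2 (n := Fin 24)) with hK4
  set K6 := S6.image (red2 (n := Fin 24)) with hK6
  set K8 := S8.image (red2 (n := Fin 24)) with hK8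
  have cK0 : K0.card = 1 := by
    rw [hK0, Finset.image_singleton, Finset.card_singleton]
  have hunion : (K0 ∪ K4 ∪ K6 ∪ K8).card = K0.card + K4.card + K6.card + K8.card := by
    rw [Finset.card_union_of_disjoint, Finset.card_union_of_disjoint,
      Finset.card_union_of_disjoint d04]
    · rw [Finset.disjoint_union_left]
      exact ⟨d06, d46⟩
    · rw [Finset.disjoint_union_left, Finset.disjoint_union_left]
      exact ⟨⟨d08, d48⟩, d68⟩
  have huniv : (K0 ∪ K4 ∪ K6 ∪ K8).card ≤ 16777216 := by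
    have h1 := Finset.card_le_univ (K0 ∪ K4 ∪ K6 ∪ K8)
    have h3 : Fintype.card (Fin 24 → ZMod 2) = 16777216 := by
      rw [Fintype.card_fun, ZMod.card, Fintype.card_fin]
      norm_num
    omega
  have hK8le : K8.card ≤ 8292375 := by omega
  -- fibres of the norm-8 vectors
  have hfib : ∀ b ∈ K8, (S8.filter (fun a => red2 a = b)).card ≤ 48 := by
    intro b _
    have := fiber8_card_le B hsymm hpos heven h2 S8 (fun y hy => (m8 y).mp hy) b
    rw [Fintype.card_fin] at this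
    omega
  have hsum : S8.card = ∑ b ∈ K8, (S8.filter (fun a => red2 a = b)).card :=
    Finset.card_eq_sum_card_image red2 S8
  have hxS : x ∈ S8 := (m8 x).mpr hx
  have hxK : red2 x ∈ K8 := Finset.mem_image_of_mem _ hxS
  have hmain : (S8.filter (fun a => red2 a = red2 x)).card = 48 := by
    by_contra hne
    have hlt : (S8.filter (fun a => red2 a = red2 x)).card < 48 :=
      lt_of_le_of_ne (hfib _ hxK) hne
    have hs : ∑ b ∈ K8, (S8.filter (fun a => red2 a = b)).card < ∑ _b ∈ K8, 48 :=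
      Finset.sum_lt_sum hfib ⟨red2 x, hxK, hlt⟩
    rw [Finset.sum_const, smul_eq_mul] at hs
    omega
  have hset : {y : Fin 24 → ℤ | y ⬝ᵥ (B *ᵥ y) = 8 ∧ ∀ i, (2 : ℤ) ∣ (x - y) i}
      = ((S8.filter (fun a => red2 a = red2 x) : Finset (Fin 24 → ℤ)) : Set (Fin 24 → ℤ)) := by
    ext y
    simp only [Set.mem_ofPred_eq, Finset.coe_filter, m8]
    constructor
    · rintro ⟨h1, h2'⟩
      exact ⟨h1, ((red2_eq_iff x y).mpr h2').symm⟩
    · rintro ⟨h1, h2'⟩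
      exact ⟨h1, (red2_eq_iff x y).mp h2'.symm⟩
  rw [hset, Set.ncard_coe_finset, hmain]

end Cfsg.Agent.S1588
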