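import Cfsg.Statements.S1589
import Cfsg.Agent.Helper91.Idx24i

set_option autoImplicit false
open scoped Pointwise
open Cfsg

namespace Cfsg.Agent.S1589

/-- Subgroups of the group of the length-24 code of index 759, 276 and 1771 are exactly the octad, duad and sextet stabilisers, and no subgroup has index 253. -/
theorem result : (∀ H : Subgroup ↥Cfsg.M24, H.index = 759 → ∃ o ∈ Cfsg.octads, H = MulAction.stabilizer Cfsg.M24 o) ∧ (∀ H : Subgroup ↥Cfsg.M24, H.index = 276 → ∃ s : Finset Cfsg.GolayPt, s.card = 2 ∧ H = MulAction.stabilizer Cfsg.M24 s) ∧ (∀ H : Subgroup ↥Cfsg.M24, H.index = 1771 → ∃ S ∈ Cfsg.sextets, H = MulAction.stabilizer Cfsg.M24 S) ∧ ∀ H : Subgroup ↥Cfsg.M24, H.index ≠ 253 := by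
  refine ⟨?_, ?_, ?_, ?_⟩
  · intro H hH
    have hcard : Nat.card H = 322560 := by
      have hmul := Subgroup.card_mul_index H
      rw [hH, Cfsg.Agent.Helper7.card_M24] at hmul
      omega
    obtain ⟨o, ho, hfix⟩ := Cfsg.Agent.Helper91.Idx24.idx759 (Subgroup.map_subtype_le H)
      ((Cfsg.Agent.Helper91.Idx24.card_map_M24 H).trans hcard)
    exact ⟨o, ho, Cfsg.Agent.Helper91.Idx24.eq_stab_set H o hcard
      (Cfsg.Agent.Helper91.card_stabilizer_octad ho) hfix⟩
  · intro H hH
    have hcard : Nat.card H = 887040 := by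
      have hmul := Subgroup.card_mul_index H
      rw [hH, Cfsg.Agent.Helper7.card_M24] at hmul
      omega
    obtain ⟨s, hs, hfix⟩ := Cfsg.Agent.Helper91.Idx24.idx276 (Subgroup.map_subtype_le H)
      ((Cfsg.Agent.Helper91.Idx24.card_map_M24 H).trans hcard)
    exact ⟨s, hs, Cfsg.Agent.Helper91.Idx24.eq_stab_set H s hcard
      (Cfsg.Agent.Helper91.Idx24.card_stabilizer_duad hs) hfix⟩
  · intro H hH
    have hcard : Nat.card H = 138240 := by
      have hmul := Subgroup.card_mul_index H
      rw [hH, Cfsg.Agent.Helper7.card_M24] at hmul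
      omega
    obtain ⟨S, hS, hfix⟩ := Cfsg.Agent.Helper91.Idx24.idx1771 (Subgroup.map_subtype_le H)
      ((Cfsg.Agent.Helper91.Idx24.card_map_M24 H).trans hcard)
    exact ⟨S, hS, Cfsg.Agent.Helper91.Idx24.eq_stab_set2 H S hcard
      (Cfsg.Agent.Helper27.Sextet.card_stab hS) hfix⟩
  · intro H hH
    have hcard : Nat.card H = 967680 := by
      have hmul := Subgroup.card_mul_index H
      rw [hH, Cfsg.Agent.Helper7.card_M24] at hmul
      omega
    exact Cfsg.Agent.Helper91.Idx24.idx253 (Subgroup.map_subtype_le H)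
      ((Cfsg.Agent.Helper91.Idx24.card_map_M24 H).trans hcard)

end Cfsg.Agent.S1589
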