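import Cfsg.Statements.S1595
import Cfsg.Agent.Helper93.Steiner

set_option autoImplicit false
open Cfsg

namespace Cfsg.Agent.S1595

/-- number of blocks meeting a fixed block exactly in a given subset of size `k`. -/
def g : ℕ → ℕ
  | 0 => 1
  | 1 => 0
  | 2 => 3
  | 3 => 2
  | 4 => 3
  | 5 => 0
  | 6 => 1
  | _ => 0

/-- number of blocks through `k` points. -/
def lam : ℕ → ℕ
  | 0 => 132
  | 1 => 66
  | 2 => 30
  | 3 => 12
  | 4 => 4
  | 5 => 1
  | _ => 0

theorem num_check : ∀ k ≤ 5, ∑ m ∈ Finset.range (6 - k + 1), (6 - k).choose m • g (k + m) = lam k := by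
  decide

open Classical in
theorem card_through {α : Type*} [Fintype α] [DecidableEq α] (hα : Fintype.card α = 12)
    {B : Set (Finset α)} (hB : Cfsg.IsSteinerSystem 5 6 B) (s : Finset α) (hs : s.card ≤ 5) :
    (Finset.univ.filter (fun c : Finset α => c ∈ B ∧ s ⊆ c)).card = lam s.card := by
  have key := Cfsg.Agent.Helper93.steiner_lambda 5 6 B hB s hs
  rw [hα] at key
  generalize hk : s.card = k at key hs ⊢
  generalize (Finset.univ.filter (fun c : Finset α => c ∈ B ∧ s ⊆ c)).card = N at key ⊢
  interval_cases k <;> simp [Nat.choose, lam] at key ⊢ <;> omega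

open Classical in
theorem inter_count {α : Type*} [Fintype α] [DecidableEq α] (hα : Fintype.card α = 12)
    {B : Set (Finset α)} (hB : Cfsg.IsSteinerSystem 5 6 B) (b : Finset α) (hb : b ∈ B) :
    ∀ n : ℕ, ∀ s ⊆ b, s.card + n = 6 →
      (Finset.univ.filter (fun c : Finset α => c ∈ B ∧ b ∩ c = s)).card = g s.card := by
  have hb6 : b.card = 6 := hB.1 b hb
  intro n
  induction n using Nat.strong_induction_on with
  | _ n ih =>
    intro s hs hn
    rcases Nat.eq_zero_or_pos n with h0 | hpos
    · -- s = b
      have hsb : s = b := Finset.eq_of_subset_of_card_le hs (by omega)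
      subst hsb
      have h6 : s.card = 6 := hb6
      rw [h6]
      show _ = 1
      rw [Finset.card_eq_one]
      refine ⟨s, ?_⟩
      ext c
      simp only [Finset.mem_filter, Finset.mem_univ, true_and, Finset.mem_singleton]
      constructor
      · rintro ⟨hcB, hc⟩
        have hsub : s ⊆ c := by
          rw [← hc]; exact Finset.inter_subset_right
        exact (Finset.eq_of_subset_of_card_le hsub (by rw [hB.1 c hcB, h6])).symm
      · rintro rfl
        exact ⟨hb, Finset.inter_self _⟩
    · have hk5 : s.card ≤ 5 := by omega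
      have hpart : (Finset.univ.filter (fun c : Finset α => c ∈ B ∧ s ⊆ c)).card =
          ∑ r ∈ (b \ s).powerset,
            (Finset.univ.filter (fun c : Finset α => c ∈ B ∧ b ∩ c = s ∪ r)).card := by
        rw [Finset.card_eq_sum_card_fiberwise (f := fun c => (b ∩ c) \ s) (t := (b \ s).powerset)]
        · apply Finset.sum_congr rfl
          intro r hr
          rw [Finset.mem_powerset] at hr
          congr 1
          ext c
          simp only [Finset.mem_filter, Finset.mem_univ, true_and]
          constructor
          · rintro ⟨⟨hcB, hsc⟩, hr'⟩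
            refine ⟨hcB, ?_⟩
            rw [← hr', Finset.union_sdiff_of_subset (Finset.subset_inter hs hsc)]
          · rintro ⟨hcB, hbc⟩
            refine ⟨⟨hcB, ?_⟩, ?_⟩
            · have : s ⊆ b ∩ c := by rw [hbc]; exact Finset.subset_union_left
              exact this.trans Finset.inter_subset_right
            · rw [hbc, Finset.union_sdiff_left]
              exact Finset.sdiff_eq_self_of_disjoint
                (Finset.disjoint_of_subset_left hr Finset.sdiff_disjoint)
        · intro c _
          rw [Finset.mem_coe, Finset.mem_powerset]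
          exact Finset.sdiff_subset_sdiff Finset.inter_subset_left (le_refl _)
      have hN := card_through hα hB s hk5
      have hmem : (∅ : Finset α) ∈ (b \ s).powerset := Finset.empty_mem_powerset _
      have hE := Finset.add_sum_erase (b \ s).powerset
        (fun r => (Finset.univ.filter (fun c : Finset α => c ∈ B ∧ b ∩ c = s ∪ r)).card) hmem
      have hG := Finset.add_sum_erase (b \ s).powerset (fun r => g (s.card + r.card)) hmem
      have hcongr : ∑ r ∈ ((b \ s).powerset).erase ∅,
            (Finset.univ.filter (fun c : Finset α => c ∈ B ∧ b ∩ c = s ∪ r)).card =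
          ∑ r ∈ ((b \ s).powerset).erase ∅, g (s.card + r.card) := by
        apply Finset.sum_congr rfl
        intro r hr
        rw [Finset.mem_erase, Finset.mem_powerset] at hr
        have hdisj : Disjoint s r := (Finset.disjoint_of_subset_left hr.2 Finset.sdiff_disjoint).symm
        have hcard : (s ∪ r).card = s.card + r.card := Finset.card_union_of_disjoint hdisj
        have hrpos : 0 < r.card := Finset.card_pos.mpr (Finset.nonempty_iff_ne_empty.mpr hr.1)
        have hsub : s ∪ r ⊆ b := Finset.union_subset hs (hr.2.trans Finset.sdiff_subset)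
        have hle : (s ∪ r).card ≤ 6 := by rw [← hb6]; exact Finset.card_le_card hsub
        have := ih (n - r.card) (by omega) (s ∪ r) hsub (by omega)
        rw [this, hcard]
      have hsum : ∑ r ∈ (b \ s).powerset, g (s.card + r.card) = lam s.card := by
        rw [Finset.sum_powerset_apply_card (fun m => g (s.card + m))]
        have hc : (b \ s).card = 6 - s.card := by
          rw [Finset.card_sdiff_of_subset hs, hb6]
        rw [hc]
        exact num_check s.card hk5
      simp only [Finset.union_empty, Finset.card_empty, Nat.add_zero] at hE hG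
      rw [hcongr] at hE
      rw [hsum] at hG
      rw [← hpart, hN] at hE
      omega

/-- Leech triangle of S(5, 6, 12): blocks meet in 0, 2, 3 or 4 points, and a block is met exactly in a given 2-, 3- or 4-subset by 3, 2, 3 blocks respectively. -/
theorem result {α : Type*} [Fintype α] [DecidableEq α] (hα : Fintype.card α = 12) {B : Set (Finset α)} (hB : Cfsg.IsSteinerSystem 5 6 B) (b : Finset α) (hb : b ∈ B) : (∀ c ∈ B, c ≠ b → (b ∩ c).card = 0 ∨ (b ∩ c).card = 2 ∨ (b ∩ c).card = 3 ∨ (b ∩ c).card = 4) ∧ ∀ s ⊆ b, (s.card = 2 → {c : Finset α | c ∈ B ∧ b ∩ c = s}.ncard = 3) ∧ (s.card = 3 → {c : Finset α | c ∈ B ∧ b ∩ c = s}.ncard = 2) ∧ (s.card = 4 → {c : Finset α | c ∈ B ∧ b ∩ c = s}.ncard = 3) := by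
  classical
  have hb6 : b.card = 6 := hB.1 b hb
  have hE : ∀ s ⊆ b, (Finset.univ.filter (fun c : Finset α => c ∈ B ∧ b ∩ c = s)).card = g s.card := by
    intro s hs
    have hle : s.card ≤ 6 := by rw [← hb6]; exact Finset.card_le_card hs
    exact inter_count hα hB b hb (6 - s.card) s hs (by omega)
  have hset : ∀ s : Finset α, {c : Finset α | c ∈ B ∧ b ∩ c = s} =
      ((Finset.univ.filter (fun c : Finset α => c ∈ B ∧ b ∩ c = s) : Finset (Finset α)) :
        Set (Finset α)) := by
    intro s
    ext c
    simp
  refine ⟨?_, ?_⟩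
  · intro c hc hne
    have hsub : b ∩ c ⊆ b := Finset.inter_subset_left
    have h := hE (b ∩ c) hsub
    have hpos : 0 < (Finset.univ.filter (fun c' : Finset α => c' ∈ B ∧ b ∩ c' = b ∩ c)).card := by
      apply Finset.card_pos.mpr
      exact ⟨c, by simp [hc]⟩
    have hle : (b ∩ c).card ≤ 6 := by rw [← hb6]; exact Finset.card_le_card hsub
    have h6 : (b ∩ c).card ≠ 6 := by
      intro h6
      have hbc : b ∩ c = b := Finset.eq_of_subset_of_card_le hsub (by omega)
      have hbsub : b ⊆ c := by rw [← hbc]; exact Finset.inter_subset_right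
      exact hne (Finset.eq_of_subset_of_card_le hbsub (by rw [hB.1 c hc, hb6])).symm
    rw [h] at hpos
    generalize (b ∩ c).card = k at hpos hle h6 ⊢
    interval_cases k <;> simp [g] at hpos h6 ⊢
  · intro s hs
    rw [hset s, Set.ncard_coe_finset, hE s hs]
    refine ⟨?_, ?_, ?_⟩ <;> intro h <;> rw [h] <;> rfl

end Cfsg.Agent.S1595
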