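import Cfsg.Statements.S1600
import Cfsg.Agent.Helper27.M12Tab

set_option autoImplicit false
open scoped Pointwise
open Cfsg

namespace Cfsg.Agent.S1600

/-- The pointwise stabiliser of three points of a dodecad inside the dodecad stabiliser (order 72) is transitive on the complementary dodecad. -/
theorem result (d : Finset Cfsg.GolayPt) (hd : d ∈ Cfsg.dodecads) (p q r : Cfsg.GolayPt) (hp : p ∈ d) (hq : q ∈ d) (hr : r ∈ d) (hpq : p ≠ q) (hpr : p ≠ r) (hqr : q ≠ r) : Nat.card ↥(MulAction.stabilizer Cfsg.M24 d ⊓ MulAction.stabilizer Cfsg.M24 p ⊓ MulAction.stabilizer Cfsg.M24 q ⊓ MulAction.stabilizer Cfsg.M24 r) = 72 ∧ ∀ x ∉ d, ∀ y ∉ d, ∃ g ∈ (MulAction.stabilizer Cfsg.M24 d ⊓ MulAction.stabilizer Cfsg.M24 p ⊓ MulAction.stabilizer Cfsg.M24 q ⊓ MulAction.stabilizer Cfsg.M24 r), ((g : ↥Cfsg.M24) : Equiv.Perm Cfsg.GolayPt) x = y := by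
  classical
  obtain ⟨h, hh, rfl, rfl, rfl, rfl⟩ := Cfsg.Agent.Helper27.M12Tab.dodecad_flag3 hd hp hq hr hpq hpr hqr
  -- the conjugation bijection with the base group
  have toK : ∀ g : Equiv.Perm Cfsg.GolayPt, g ∈ Cfsg.M24 → g • (h • Cfsg.Agent.Helper7.setOf Cfsg.Agent.Helper7.D1) = h • Cfsg.Agent.Helper7.setOf Cfsg.Agent.Helper7.D1 →
      g (h (Cfsg.Agent.Helper7.pt 0)) = h (Cfsg.Agent.Helper7.pt 0) →
      g (h (Cfsg.Agent.Helper7.pt 1)) = h (Cfsg.Agent.Helper7.pt 1) →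
      g (h (Cfsg.Agent.Helper7.pt 2)) = h (Cfsg.Agent.Helper7.pt 2) →
      h⁻¹ * g * h ∈ Cfsg.Agent.Helper7.M12grp ⊓ Cfsg.Agent.Helper7.fixL [0, 1, 2] := by
    intro g hg hgd h0 h1 h2
    refine ⟨Cfsg.Agent.Helper7.conj_mem_M12grp hh hg hgd, ?_⟩
    intro j hj
    simp only [List.mem_cons, List.not_mem_nil, or_false] at hj
    rcases hj with rfl | rfl | rfl
    · rw [Equiv.Perm.mul_apply, Equiv.Perm.mul_apply, h0]; simp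
    · rw [Equiv.Perm.mul_apply, Equiv.Perm.mul_apply, h1]; simp
    · rw [Equiv.Perm.mul_apply, Equiv.Perm.mul_apply, h2]; simp
  have ofK : ∀ k : Equiv.Perm Cfsg.GolayPt, k ∈ Cfsg.Agent.Helper7.M12grp ⊓ Cfsg.Agent.Helper7.fixL [0, 1, 2] →
      h * k * h⁻¹ ∈ Cfsg.M24 ∧
      (h * k * h⁻¹) • (h • Cfsg.Agent.Helper7.setOf Cfsg.Agent.Helper7.D1) = h • Cfsg.Agent.Helper7.setOf Cfsg.Agent.Helper7.D1 ∧
      (h * k * h⁻¹) (h (Cfsg.Agent.Helper7.pt 0)) = h (Cfsg.Agent.Helper7.pt 0) ∧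
      (h * k * h⁻¹) (h (Cfsg.Agent.Helper7.pt 1)) = h (Cfsg.Agent.Helper7.pt 1) ∧
      (h * k * h⁻¹) (h (Cfsg.Agent.Helper7.pt 2)) = h (Cfsg.Agent.Helper7.pt 2) := by
    intro k hk
    refine ⟨Cfsg.M24.mul_mem (Cfsg.M24.mul_mem hh hk.1.1) (Cfsg.M24.inv_mem hh),
      Cfsg.Agent.Helper7.conj_M12grp_smul hk.1, ?_, ?_, ?_⟩
    · have e := hk.2 0 (by simp)
      simp only [Equiv.Perm.mul_apply]
      rw [show h⁻¹ (h (Cfsg.Agent.Helper7.pt 0)) = Cfsg.Agent.Helper7.pt 0 by simp, e]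
    · have e := hk.2 1 (by simp)
      simp only [Equiv.Perm.mul_apply]
      rw [show h⁻¹ (h (Cfsg.Agent.Helper7.pt 1)) = Cfsg.Agent.Helper7.pt 1 by simp, e]
    · have e := hk.2 2 (by simp)
      simp only [Equiv.Perm.mul_apply]
      rw [show h⁻¹ (h (Cfsg.Agent.Helper7.pt 2)) = Cfsg.Agent.Helper7.pt 2 by simp, e]
  constructor
  · rw [← Cfsg.Agent.Helper27.M12Tab.card_M9]
    apply Nat.card_congr
    exact
      { toFun := fun g => ⟨h⁻¹ * g.1.1 * h, toK g.1.1 g.1.2 g.2.1.1.1 g.2.1.1.2 g.2.1.2 g.2.2⟩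
        invFun := fun k => ⟨⟨h * k.1 * h⁻¹, (ofK k.1 k.2).1⟩,
          ⟨⟨⟨(ofK k.1 k.2).2.1, (ofK k.1 k.2).2.2.1⟩, (ofK k.1 k.2).2.2.2.1⟩, (ofK k.1 k.2).2.2.2.2⟩⟩
        left_inv := fun g => Subtype.ext (Subtype.ext (by simp [mul_assoc]))
        right_inv := fun k => Subtype.ext (by simp [mul_assoc]) }
  · intro x hx y hy
    have hx' : h⁻¹ x ∉ Cfsg.Agent.Helper7.setOf Cfsg.Agent.Helper7.D1 := fun hmem =>
      hx (Finset.inv_smul_mem_iff.mp hmem)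
    have hy' : h⁻¹ y ∉ Cfsg.Agent.Helper7.setOf Cfsg.Agent.Helper7.D1 := fun hmem =>
      hy (Finset.inv_smul_mem_iff.mp hmem)
    obtain ⟨k₁, hk₁, e₁⟩ := Cfsg.Agent.Helper27.M12Tab.m9_trans hx'
    obtain ⟨k₂, hk₂, e₂⟩ := Cfsg.Agent.Helper27.M12Tab.m9_trans hy'
    have hk : k₂ * k₁⁻¹ ∈ Cfsg.Agent.Helper7.M12grp ⊓ Cfsg.Agent.Helper7.fixL [0, 1, 2] :=
      Subgroup.mul_mem _ hk₂ (Subgroup.inv_mem _ hk₁)
    refine ⟨⟨h * (k₂ * k₁⁻¹) * h⁻¹, (ofK _ hk).1⟩,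
      ⟨⟨⟨(ofK _ hk).2.1, (ofK _ hk).2.2.1⟩, (ofK _ hk).2.2.2.1⟩, (ofK _ hk).2.2.2.2⟩, ?_⟩
    show (h * (k₂ * k₁⁻¹) * h⁻¹) x = y
    simp only [Equiv.Perm.mul_apply]
    rw [← e₁]
    simp [e₂]

end Cfsg.Agent.S1600
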