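import Cfsg.Statements.S1604
import Cfsg.Agent.Helper91.OrbitLib2

set_option autoImplicit false
open scoped Pointwise
open Cfsg

namespace Cfsg.Agent.S1604

open Cfsg.Agent.Helper91

/-- The stabilizer of `oct0` and of its points 0, 1 on the octads through these points. Generators. -/
def sGens : List (List Nat) :=
  [[0, 1, 3, 17, 11, 14, 18, 13, 10, 8, 16, 4, 12, 6, 5, 19, 9, 23, 7, 21, 15, 20, 22, 2],
   [0, 1, 2, 5, 15, 17, 9, 6, 20, 4, 12, 18, 13, 8, 23, 7, 16, 14, 21, 11, 10, 22, 19, 3]]

/-- The stabilizer of `oct0` and of its points 0, 1 on the octads through these points. Orbit certificates (sizes 16, 60, 1). -/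
def sCerts : List OrbCert := [
  ⟨2, 69395,
    [2, 1, 1, 1, 2, 2, 2, 0, 0, 0, 0, 2, 1, 1, 0, 0, 2, 0, 0, 0, 2, 1, 0, 0, 0, 2, 1],
    4728825271786158716812514079020801148296350842238020040259595103452163873940421549203401003905338923979625220701100234604512533273923383220340288256030158982449688814514452081507147818499047840081059844743699439857069093606820312871347868746154502824397447925816774005927204905307810681724473607958885705959108610191291619434039762642649730491069486561500981601483170294593723693745011609683056200225342519909532138262112660533972246928850684311784355043012726927882097524948222583374061820286893390434438860286176485185799324375846188973438896963738165420151852869306564129639185640075819924586208135213778529429644093516985259831852370959762271516933435747254031020478888178718869509778438968877255914370209850806102918210779543149035645588241078528792754495796004047177237000079440826991417899844264723301992239070003786743698041397649027600121136134366318121267381872843731504622110061151471835432957827418504878194544946534113000234090356572916233460052580606670951630435110804044057781297516171668704770634142041877440010571200132982059090335836316388507841328819448504871026240353251623546207668587015818747862588896520949922197609290351363616330461216768⟩,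
  ⟨4, 5279,
    [1, 1, 1, 2, 1, 1, 0, 2, 0, 0, 2, 0, 0, 0, 2, 2, 1, 1, 2, 0, 0, 0, 0, 0, 0, 2, 1, 1, 1, 0, 2, 2, 0, 0, 0,
     2, 1, 0, 0, 0, 2, 1, 2, 0, 0, 2, 1, 0, 0, 0, 0, 0, 2, 1, 1, 1, 2, 2, 0, 0, 0, 2, 1, 2, 0, 0, 2, 1, 2, 0,
     0, 2, 2, 0, 0, 0, 0, 0, 2, 0, 0, 2, 1, 1, 1, 2, 1, 0, 0, 0, 2, 0, 0, 2, 2, 1, 0, 2, 0, 0, 0, 0, 2, 1, 1,
     1, 0, 0, 2, 0, 0, 2, 1],
    15815251831860511949233811569805541480918205500601604140058607755136805492395314804223436511598265930078900770013372449466332725346648406182339778117509099175633648547736624036941244179156208931790611375072431156120576504563683227012433713413282463572859308157323112306296697960607144978221427208366747954564062425969078963201696911220175791254611443456367520042384050536702138898861590607494125970500523020707568743477530936211701596383147468080839759043902556858396269218209012191208064119745511087271809206362274926079023493842804688430306833108498300728227750623898527956134762382089186140061190445558303276615988631922429500447472953830674909002290002443602658482312431950123336853209687976204955526065333198320735588633317312870398084518804480694243794224496494471460276690875480889576074432140809226148041078586736948301766639674652733296458010809995404386556654247767881232452842044674765201146393883052070777344713832231785568807555952897719837838255622280⟩,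
  ⟨8, 8536111,
    [],
    140737488355328⟩]

theorem sGens_ok : sGens.all (tabOK 3 [oct0]) = true := by decide +kernel

theorem sCerts_ok : sCerts.all (OrbCert.ok sGens) = true := by decide +kernel

theorem sCover :
    coverOK sCerts (fun m => Helper26.pc24 (Nat.land oct0 m)) (fun m => m.testBit 0 && m.testBit 1) Helper26.octL = true := by
  decide +kernel

theorem count2 : Helper26.countL (fun m => (m.testBit 0 && m.testBit 1) && Nat.beq (Helper26.pc24 (Nat.land oct0 m)) 2) Helper26.octL = 16 := by
  decide +kernel

theorem count4 : Helper26.countL (fun m => (m.testBit 0 && m.testBit 1) && Nat.beq (Helper26.pc24 (Nat.land oct0 m)) 4) Helper26.octL = 60 := by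
  decide +kernel

theorem std_count (k : Nat) :
    {s : Finset GolayPt | s ∈ octads ∧ pt 0 ∈ s ∧ pt 1 ∈ s ∧ (setM oct0 ∩ s).card = k}.ncard =
      Helper26.countL (fun m => (m.testBit 0 && m.testBit 1) &&
        Nat.beq (Helper26.pc24 (Nat.land oct0 m)) k) Helper26.octL := by
  apply ncard_octads_filter
  intro s
  rw [pt_mem_iff_testBit (by norm_num), pt_mem_iff_testBit (by norm_num), card_inter_setM oct0_lt,
    Bool.and_eq_true, Bool.and_eq_true, Nat.beq_eq, and_assoc]

theorem std_trans {s s' : Finset GolayPt} (hs : s ∈ octads) (hs' : s' ∈ octads) (h0 : pt 0 ∈ s)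
    (h1 : pt 1 ∈ s) (h0' : pt 0 ∈ s') (h1' : pt 1 ∈ s')
    (h : (setM oct0 ∩ s).card = (setM oct0 ∩ s').card) :
    ∃ g ∈ M24, g (pt 0) = pt 0 ∧ g (pt 1) = pt 1 ∧ g • setM oct0 = setM oct0 ∧ g • s = s' := by
  obtain ⟨g, hg, e⟩ := trans_of_certs sGens_ok sCerts_ok sCover hs.1 hs'.1
    ((Helper26.mem_octL_iff s).2 hs) ((Helper26.mem_octL_iff s').2 hs')
    (by
      show ((Helper26.enc s).testBit 0 && (Helper26.enc s).testBit 1) = true
      rw [(pt_mem_iff_testBit (by norm_num) s).1 h0, (pt_mem_iff_testBit (by norm_num) s).1 h1]; rfl)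
    (by
      show ((Helper26.enc s').testBit 0 && (Helper26.enc s').testBit 1) = true
      rw [(pt_mem_iff_testBit (by norm_num) s').1 h0', (pt_mem_iff_testBit (by norm_num) s').1 h1']; rfl)
    (by
      show Helper26.pc24 (Nat.land oct0 (Helper26.enc s)) = Helper26.pc24 (Nat.land oct0 (Helper26.enc s'))
      rw [← card_inter_setM oct0_lt, ← card_inter_setM oct0_lt, h])
  rw [mem_stabSub_single] at hg
  exact ⟨g, hg.1, hg.2.1.apply_pt (by norm_num) (by decide), hg.2.1.apply_pt (by norm_num) (by decide),
    hg.2.2, e⟩

/-- A hexad stabiliser in the two-point stabiliser has orbits of sizes 1, 16, 60 on the 77 hexads: the 16 hexads disjoint from it and the 60 meeting it in two points. -/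
theorem result (p q : Cfsg.GolayPt) (hpq : p ≠ q) (o o' o'' : Finset Cfsg.GolayPt) (ho : o ∈ Cfsg.octads) (ho' : o' ∈ Cfsg.octads) (ho'' : o'' ∈ Cfsg.octads) (hp : p ∈ o ∧ p ∈ o' ∧ p ∈ o'') (hq : q ∈ o ∧ q ∈ o' ∧ q ∈ o'') (h : (o ∩ o').card = (o ∩ o'').card) : {x : Finset Cfsg.GolayPt | x ∈ Cfsg.octads ∧ p ∈ x ∧ q ∈ x ∧ (o ∩ x).card = 2}.ncard = 16 ∧ {x : Finset Cfsg.GolayPt | x ∈ Cfsg.octads ∧ p ∈ x ∧ q ∈ x ∧ (o ∩ x).card = 4}.ncard = 60 ∧ ∃ g : Equiv.Perm Cfsg.GolayPt, g ∈ Cfsg.M24 ∧ g p = p ∧ g q = q ∧ g • o = o ∧ g • o' = o'' := by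
  obtain ⟨u, hu, rfl, rfl, rfl⟩ := exists_oct_flag2 ho hp.1 hq.1 hpq
  have hui := inv_mem hu
  have tr : ∀ k, {x : Finset GolayPt | x ∈ octads ∧ u (pt 0) ∈ x ∧ u (pt 1) ∈ x ∧
        (u • setM oct0 ∩ x).card = k}.ncard =
      {s : Finset GolayPt | s ∈ octads ∧ pt 0 ∈ s ∧ pt 1 ∈ s ∧ (setM oct0 ∩ s).card = k}.ncard := by
    intro k
    exact ncard_smul_set u _ _ (fun s => by
      rw [smul_mem_octads_iff hu, card_smul_inter, apply_mem_smul_iff, apply_mem_smul_iff])
  refine ⟨?_, ?_, ?_⟩
  · rw [tr, std_count, count2]
  · rw [tr, std_count, count4]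
  · obtain ⟨g, hg, hg0, hg1, hgo, hgs⟩ := std_trans (smul_mem_octads hui ho') (smul_mem_octads hui ho'')
      ((mem_inv_smul_iff u _ _).2 hp.2.1) ((mem_inv_smul_iff u _ _).2 hq.2.1)
      ((mem_inv_smul_iff u _ _).2 hp.2.2) ((mem_inv_smul_iff u _ _).2 hq.2.2)
      (by rw [card_inter_inv_smul, card_inter_inv_smul, h])
    exact ⟨u * g * u⁻¹, conj_mem hu hg, conj_fix hg0, conj_fix hg1, conj_stab hgo, conj_map hgs⟩

end Cfsg.Agent.S1604
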