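import Cfsg.Statements.S1605
import Cfsg.Agent.Helper91.PtTrans

set_option autoImplicit false
open scoped Pointwise
open Cfsg

namespace Cfsg.Agent.S1605

open Cfsg.Agent.Helper91

/-- The stabilizer of the points 0, 4 on the octads through 0 avoiding 4. Generators. -/
def aGens : List (List Nat) :=
  [[0, 19, 6, 7, 4, 22, 8, 12, 16, 15, 5, 13, 20, 21, 18, 3, 11, 17, 1, 10, 23, 2, 14, 9],
   [0, 21, 3, 12, 4, 23, 7, 17, 19, 9, 14, 6, 20, 10, 15, 5, 11, 1, 8, 2, 18, 16, 13, 22]]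

/-- The stabilizer of the points 0, 4 on the octads through 0 avoiding 4. Orbit certificates (sizes 176). -/
def aCerts : List OrbCert := [
  ⟨0, 15777,
    [1, 1, 1, 1, 2, 2, 1, 2, 0, 0, 0, 0, 0, 2, 1, 1, 1, 0, 2, 1, 0, 2, 1, 0, 0, 0, 0, 2, 1, 1, 1, 2, 0, 0, 0,
     2, 0, 0, 2, 1, 1, 0, 0, 0, 0, 0, 2, 1, 2, 1, 2, 0, 0, 2, 1, 0, 0, 0, 0, 2, 1, 1, 0, 0, 2, 0, 0, 0, 0, 0,
     2, 1, 1, 1, 1, 1, 0, 2, 0, 0, 2, 1, 2, 0, 0, 0, 0, 2, 1, 0, 2, 2, 2, 0, 0, 0, 0, 0, 2, 1, 1, 1, 0, 0, 2,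
     0, 0, 2, 2, 2, 0, 0, 0, 0, 0, 2, 1, 2, 1, 1, 0, 0, 0, 0, 2, 1, 1, 2, 0, 0, 0, 2, 1, 0, 2, 2, 0, 0, 0, 0,
     0, 0, 0, 2, 2, 1, 1, 1, 1, 1, 2, 0, 0, 2, 0, 0, 2, 1, 2, 0, 0, 0, 0, 0, 2, 1, 2, 1, 0, 0, 0, 2, 0, 0, 0,
     2, 2, 1, 1, 2, 0, 0, 2, 0, 0, 2, 1, 0, 0, 0, 0, 0, 0, 0, 2, 1, 1, 1, 1, 1, 1, 2, 2, 0, 0, 0, 2, 2, 0, 0,
     0, 2, 1, 1, 1, 0, 0, 2, 0, 0, 0, 0, 2, 1, 1, 1, 0, 0, 0, 2, 0, 0, 0, 2, 1, 1, 1, 2, 0, 0, 2, 2, 0, 0, 0,
     0, 2, 2, 0, 0, 0, 0, 2, 1, 1, 1, 1, 1, 0, 2, 0, 0, 0, 2, 0, 0, 2, 1, 1, 0, 0, 0, 0, 2, 1, 1, 0, 2, 1, 1,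
     0, 2, 0, 0, 2, 0, 0, 0, 2, 1, 1, 2, 0, 0, 0, 2, 2, 0, 0, 0, 0, 0, 0, 2, 1, 2, 1, 1, 2, 2, 0, 0, 0, 2, 0,
     0, 2, 2, 1, 0, 2, 0, 0, 0, 0, 0, 2, 2, 1, 1, 2, 0, 0, 2, 0, 0, 2, 1, 1, 0, 2, 1],
    848191435701034229765597175550253726156024897659510903341710330460616331982451287763032090157397061720318001330243795856759385164272544086443141510038649734952217564005783178470446449557674449647619055762314013512486319376275861772015116116791277470232614501568660852537577570232267959369406947943430166338970821898319680974862939647865919893031301817517283996298725111975763801647544119097368929876507248641899080927519277662367304280562654646114357093337620845025557323514533360803731535259221905773682744608901324469088812740741180548066925320392546491440163736274718903289758784603557127651813841668103342423928172074280368076827014101437061969196653445644716297896378561609913129531705647107199090671283767155978470100183637371458569587789315199657123337344954456928871825638569768923495973383886360806736357662937275534912331886853872306973526305780180149512183847548287070565517384337668327798765714709515814266210792784870199970449453929592782000200761469237484630331610587987483811335396679687458720611013390419181979026784859862865820458854462567499546144463596208580049821316926029944000022881695170895579818⟩]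

theorem aGens_ok : aGens.all (tabOK 17 []) = true := by decide +kernel

theorem aCerts_ok : aCerts.all (OrbCert.ok aGens) = true := by decide +kernel

theorem aCover :
    coverOK aCerts (fun _ => 0) (fun m => m.testBit 0 && !m.testBit 4) Helper26.octL = true := by
  decide +kernel

/-- The stabilizer of `oct0` and of the points 0, 4 on the octads through 0 avoiding 4. Generators. -/
def bGens : List (List Nat) :=
  [[0, 14, 1, 2, 4, 17, 22, 20, 12, 7, 8, 18, 6, 13, 5, 21, 9, 23, 19, 16, 11, 10, 15, 3],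
   [0, 1, 2, 5, 4, 14, 22, 19, 16, 8, 9, 10, 18, 15, 23, 7, 11, 3, 6, 20, 13, 12, 21, 17]]

/-- The stabilizer of `oct0` and of the points 0, 4 on the octads through 0 avoiding 4. Orbit certificates (sizes 70, 105, 1). -/
def bCerts : List OrbCert := [
  ⟨2, 15777,
    [1, 1, 1, 1, 1, 0, 2, 0, 0, 2, 1, 2, 0, 0, 2, 0, 0, 0, 2, 2, 1, 1, 1, 0, 0, 2, 0, 0, 2, 1, 2, 0, 0, 0, 0,
     0, 0, 2, 1, 1, 1, 2, 0, 0, 0, 2, 1, 0, 0, 0, 2, 1, 2, 1, 0, 2, 1, 0, 0, 0, 0, 2, 2, 0, 0, 0, 0, 0, 2, 1,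
     1, 1, 1, 0, 2, 0, 0, 2, 1, 1, 0, 2, 0, 0, 0, 0, 2, 1, 1, 0, 2, 0, 0, 2, 1, 0, 2, 1, 1, 0, 0, 2, 0, 0, 0,
     0, 0, 2, 1, 1, 2, 2, 0, 0, 0, 2, 2, 0, 0, 0, 2, 1, 1, 2, 0, 0, 2, 0, 0, 2, 1, 2],
    848191435701034229765597175550253726116143128016214453414281872245239129481656983357248483772249525862630915192308681847157121889011986896415049153510695187620486957844766233469356865869822513427483520213026190130114994059400182913315942562159506028177979543960986024320489549678973331663609051805612662160441056561364948774954128382986674765613860357874523241306116485442610333060849520823464942723202880229088220223779484074202495481299554422511250823494642791852897739965938336725238501744400071750699312708222617896463342104120700625341412702148445835814589795716725707271017483796620342118668447912791986434885426175402585133031849746670024909650914736078143681247449337883886694685398581465373800120901112940268599984110282350333857097034538212611148415777924474211168816812409273613972114159861596897214947191705014562660228465900130362847484913883219833708067671627729661840754730175599639624722966470876043837229856687686333983903427775881837232469532119274956748757490837919471272892579956738637223514751196665408776658201091019395910229813795132308022964341630787720588015957070802187563275546237486917222400⟩,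
  ⟨4, 18147,
    [1, 1, 1, 1, 1, 1, 0, 0, 2, 1, 1, 0, 0, 2, 0, 0, 0, 2, 1, 1, 0, 2, 2, 0, 0, 0, 2, 1, 2, 0, 0, 2, 1, 2, 0,
     0, 2, 1, 0, 0, 0, 0, 0, 0, 2, 1, 1, 0, 2, 1, 0, 2, 0, 0, 0, 2, 1, 1, 0, 0, 2, 1, 2, 0, 0, 2, 0, 0, 0, 0,
     0, 2, 1, 1, 1, 1, 0, 2, 0, 0, 2, 1, 0, 2, 0, 0, 0, 2, 1, 2, 1, 0, 0, 0, 0, 0, 2, 1, 1, 1, 0, 2, 1, 0, 2,
     0, 0, 0, 2, 0, 0, 2, 1, 1, 2, 0, 0, 0, 2, 0, 0, 0, 0, 0, 2, 1, 1, 1, 1, 1, 2, 0, 0, 0, 0, 2, 2, 2, 1, 0,
     2, 0, 0, 0, 0, 0, 2, 1, 2, 1, 0, 0, 0, 2, 1, 2, 0, 0, 2, 1, 1, 0, 0, 2, 1, 0, 0, 0, 0, 0, 0, 2, 1, 1, 1,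
     1, 0, 2, 1, 0, 0, 0, 0, 2, 1, 2, 0, 0, 0, 0, 2, 1, 1, 1, 2, 0, 0, 0, 2, 1, 0, 0, 0, 2],
    39881769643296449927428458215377202500794304405783606385147535857687086137935114009602263275260557190028092356527954547331730606161016945001089583687851936220135535549287823382371325316875678858699173554631771442054634957607674828217088020553294627705797896137817504178529765336954732199908811264879245127417441459642760754992608626533153468586694598273903987153304368412810860703739793588164808799263100223603106269842978053172659583548595024078493033514821834022983431900678706572625470636620479922725512618244100655625573940557993196018741300806936785533145393755311355989042745898877782943795164354767037059545738709566572616648929223726026434846307065641825290550382654215709870116073355021124712490754776987045974921567029982717703008826160495309523859224024763909521410471232260972252103420953741944126041391896960315804116175920557408724762654162068688174042748238639770428980936097183865986546026153710944767731229349962527881574119750068012538442816722948821497096262193753773202368583768843469910229040667435191523180121965420859461805359855227756436747335316946490002090⟩,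
  ⟨8, 8536111,
    [],
    140737488355328⟩]

theorem bGens_ok : bGens.all (tabOK 17 [oct0]) = true := by decide +kernel

theorem bCerts_ok : bCerts.all (OrbCert.ok bGens) = true := by decide +kernel

theorem bCover :
    coverOK bCerts (fun m => Helper26.pc24 (Nat.land oct0 m)) (fun m => m.testBit 0 && !m.testBit 4) Helper26.octL = true := by
  decide +kernel

theorem countA : Helper26.countL (fun m => m.testBit 0 && !m.testBit 4) Helper26.octL = 176 := by
  decide +kernel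

theorem count2 : Helper26.countL (fun m => (m.testBit 0 && !m.testBit 4) && Nat.beq (Helper26.pc24 (Nat.land oct0 m)) 2) Helper26.octL = 70 := by
  decide +kernel

theorem count4 : Helper26.countL (fun m => (m.testBit 0 && !m.testBit 4) && Nat.beq (Helper26.pc24 (Nat.land oct0 m)) 4) Helper26.octL = 105 := by
  decide +kernel

theorem Q_iff (s : Finset GolayPt) :
    (pt 0 ∈ s ∧ pt 4 ∉ s) ↔ ((Helper26.enc s).testBit 0 && !(Helper26.enc s).testBit 4) = true := by
  rw [pt_mem_iff_testBit (by norm_num), pt_not_mem_iff_testBit (by norm_num), Bool.and_eq_true]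

theorem std_countA :
    {s : Finset GolayPt | s ∈ octads ∧ pt 0 ∈ s ∧ pt 4 ∉ s}.ncard = 176 := by
  rw [← countA]
  apply ncard_octads_filter
  intro s
  exact Q_iff s

theorem std_count (k : Nat) :
    {s : Finset GolayPt | (s ∈ octads ∧ pt 0 ∈ s ∧ pt 4 ∉ s) ∧ (setM oct0 ∩ s).card = k}.ncard =
      Helper26.countL (fun m => (m.testBit 0 && !m.testBit 4) &&
        Nat.beq (Helper26.pc24 (Nat.land oct0 m)) k) Helper26.octL := by
  have e : {s : Finset GolayPt | (s ∈ octads ∧ pt 0 ∈ s ∧ pt 4 ∉ s) ∧ (setM oct0 ∩ s).card = k} =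
      {s : Finset GolayPt | s ∈ octads ∧ ((pt 0 ∈ s ∧ pt 4 ∉ s) ∧ (setM oct0 ∩ s).card = k)} := by
    ext s
    simp only [Set.mem_ofPred_eq, and_assoc]
  rw [e]
  apply ncard_octads_filter
  intro s
  rw [Q_iff, card_inter_setM oct0_lt]
  simp only [Bool.and_eq_true, Nat.beq_eq]

theorem std_transA {s s' : Finset GolayPt} (hs : s ∈ octads ∧ pt 0 ∈ s ∧ pt 4 ∉ s)
    (hs' : s' ∈ octads ∧ pt 0 ∈ s' ∧ pt 4 ∉ s') :
    ∃ g ∈ M24, g (pt 0) = pt 0 ∧ g (pt 4) = pt 4 ∧ g • s = s' := by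
  obtain ⟨g, hg, e⟩ := trans_of_certs aGens_ok aCerts_ok aCover hs.1.1 hs'.1.1
    ((Helper26.mem_octL_iff s).2 hs.1) ((Helper26.mem_octL_iff s').2 hs'.1)
    ((Q_iff s).1 hs.2) ((Q_iff s').1 hs'.2) rfl
  rw [mem_stabSub_nil] at hg
  exact ⟨g, hg.1, hg.2.apply_pt (by norm_num) (by decide), hg.2.apply_pt (by norm_num) (by decide), e⟩

theorem std_transB {s s' : Finset GolayPt} (hs : s ∈ octads ∧ pt 0 ∈ s ∧ pt 4 ∉ s)
    (hs' : s' ∈ octads ∧ pt 0 ∈ s' ∧ pt 4 ∉ s')
    (h : (setM oct0 ∩ s).card = (setM oct0 ∩ s').card) :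
    ∃ g ∈ M24, g (pt 0) = pt 0 ∧ g (pt 4) = pt 4 ∧ g • setM oct0 = setM oct0 ∧ g • s = s' := by
  obtain ⟨g, hg, e⟩ := trans_of_certs bGens_ok bCerts_ok bCover hs.1.1 hs'.1.1
    ((Helper26.mem_octL_iff s).2 hs.1) ((Helper26.mem_octL_iff s').2 hs'.1)
    ((Q_iff s).1 hs.2) ((Q_iff s').1 hs'.2)
    (by
      show Helper26.pc24 (Nat.land oct0 (Helper26.enc s)) = Helper26.pc24 (Nat.land oct0 (Helper26.enc s'))
      rw [← card_inter_setM oct0_lt, ← card_inter_setM oct0_lt, h])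
  rw [mem_stabSub_single] at hg
  exact ⟨g, hg.1, hg.2.1.apply_pt (by norm_num) (by decide), hg.2.1.apply_pt (by norm_num) (by decide),
    hg.2.2, e⟩

/-- Transport of the membership conditions. -/
theorem cond_smul {u : Equiv.Perm GolayPt} (hu : u ∈ M24) (s : Finset GolayPt) :
    (u • s ∈ octads ∧ u (pt 0) ∈ u • s ∧ u (pt 4) ∉ u • s) ↔ (s ∈ octads ∧ pt 0 ∈ s ∧ pt 4 ∉ s) := by
  rw [smul_mem_octads_iff hu, apply_mem_smul_iff, apply_mem_smul_iff]

theorem cond_inv_smul {u : Equiv.Perm GolayPt} (hu : u ∈ M24) {s : Finset GolayPt}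
    (h : s ∈ octads ∧ u (pt 0) ∈ s ∧ u (pt 4) ∉ s) :
    u⁻¹ • s ∈ octads ∧ pt 0 ∈ u⁻¹ • s ∧ pt 4 ∉ u⁻¹ • s := by
  rw [← cond_smul hu, smul_inv_smul]; exact h

theorem partA (p q : GolayPt) (hpq : p ≠ q) :
    {x : Finset GolayPt | (x ∈ octads ∧ p ∈ x ∧ q ∉ x)}.ncard = 176 ∧
    (∀ o o' : Finset GolayPt, (o ∈ octads ∧ p ∈ o ∧ q ∉ o) → (o' ∈ octads ∧ p ∈ o' ∧ q ∉ o') →
      ∃ g : Equiv.Perm GolayPt, g ∈ M24 ∧ g p = p ∧ g q = q ∧ g • o = o') := by
  obtain ⟨u, hu, rfl, rfl⟩ := exists_m24_two_pts hpq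
  constructor
  · rw [← std_countA]
    exact ncard_smul_set u _ _ (cond_smul hu)
  · intro o o' ho ho'
    obtain ⟨g, hg, hg0, hg4, hgs⟩ := std_transA (cond_inv_smul hu ho) (cond_inv_smul hu ho')
    exact ⟨u * g * u⁻¹, conj_mem hu hg, conj_fix hg0, conj_fix hg4, conj_map hgs⟩

theorem partB (p q : GolayPt) (o : Finset GolayPt) (ho : o ∈ octads ∧ p ∈ o ∧ q ∉ o) :
    {x : Finset GolayPt | (x ∈ octads ∧ p ∈ x ∧ q ∉ x) ∧ (o ∩ x).card = 2}.ncard = 70 ∧
    {x : Finset GolayPt | (x ∈ octads ∧ p ∈ x ∧ q ∉ x) ∧ (o ∩ x).card = 4}.ncard = 105 ∧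
    ∀ o' o'' : Finset GolayPt, (o' ∈ octads ∧ p ∈ o' ∧ q ∉ o') → (o'' ∈ octads ∧ p ∈ o'' ∧ q ∉ o'') →
      (o ∩ o').card = (o ∩ o'').card →
      ∃ g : Equiv.Perm GolayPt, g ∈ M24 ∧ g p = p ∧ g q = q ∧ g • o = o ∧ g • o' = o'' := by
  obtain ⟨u, hu, rfl, rfl, rfl⟩ := exists_oct_in_out ho.1 ho.2.1 ho.2.2
  have tr : ∀ k, {x : Finset GolayPt | (x ∈ octads ∧ u (pt 0) ∈ x ∧ u (pt 4) ∉ x) ∧
        (u • setM oct0 ∩ x).card = k}.ncard =
      {s : Finset GolayPt | (s ∈ octads ∧ pt 0 ∈ s ∧ pt 4 ∉ s) ∧ (setM oct0 ∩ s).card = k}.ncard := by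
    intro k
    exact ncard_smul_set u _ _ (fun s => by rw [cond_smul hu, card_smul_inter])
  refine ⟨?_, ?_, ?_⟩
  · rw [tr, std_count, count2]
  · rw [tr, std_count, count4]
  · intro o' o'' ho' ho'' h
    obtain ⟨g, hg, hg0, hg4, hgo, hgs⟩ := std_transB (cond_inv_smul hu ho') (cond_inv_smul hu ho'')
      (by rw [card_inter_inv_smul, card_inter_inv_smul, h])
    exact ⟨u * g * u⁻¹, conj_mem hu hg, conj_fix hg0, conj_fix hg4, conj_stab hgo, conj_map hgs⟩

/-- The two-point stabiliser acts on the 176 octads through the first point avoiding the second with rank 3 and subdegrees 1, 70, 105 (intersections 8, 2, 4). -/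
theorem result (p q : Cfsg.GolayPt) (hpq : p ≠ q) : {x : Finset Cfsg.GolayPt | (x ∈ Cfsg.octads ∧ p ∈ x ∧ q ∉ x)}.ncard = 176 ∧ (∀ o o' : Finset Cfsg.GolayPt, (o ∈ Cfsg.octads ∧ p ∈ o ∧ q ∉ o) → (o' ∈ Cfsg.octads ∧ p ∈ o' ∧ q ∉ o') → ∃ g : Equiv.Perm Cfsg.GolayPt, g ∈ Cfsg.M24 ∧ g p = p ∧ g q = q ∧ g • o = o') ∧ ∀ o : Finset Cfsg.GolayPt, (o ∈ Cfsg.octads ∧ p ∈ o ∧ q ∉ o) → {x : Finset Cfsg.GolayPt | (x ∈ Cfsg.octads ∧ p ∈ x ∧ q ∉ x) ∧ (o ∩ x).card = 2}.ncard = 70 ∧ {x : Finset Cfsg.GolayPt | (x ∈ Cfsg.octads ∧ p ∈ x ∧ q ∉ x) ∧ (o ∩ x).card = 4}.ncard = 105 ∧ ∀ o' o'' : Finset Cfsg.GolayPt, (o' ∈ Cfsg.octads ∧ p ∈ o' ∧ q ∉ o') → (o'' ∈ Cfsg.octads ∧ p ∈ o'' ∧ q ∉ o'') → (o ∩ o').card = (o ∩ o'').card → ∃ g : Equiv.Perm Cfsg.GolayPt, g ∈ Cfsg.M24 ∧ g p = p ∧ g q = q ∧ g • o = o ∧ g • o' = o'' := by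
  exact ⟨(partA p q hpq).1, (partA p q hpq).2, fun o ho => partB p q o ho⟩

end Cfsg.Agent.S1605
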