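import Cfsg.Statements.S1606
import Cfsg.Agent.Helper91.Idx22b
import Cfsg.Agent.Helper7.M24Trans
import Cfsg.Agent.S0378

set_option autoImplicit false
open scoped Pointwise
open Cfsg

namespace Cfsg.Agent.S1606

/-- The stabiliser of two points in the group of the length-24 code has no subgroups of index 56 or 210. -/
theorem result (p q : Cfsg.GolayPt) (hpq : p ≠ q) (H : Subgroup ↥(MulAction.stabilizer Cfsg.M24 p ⊓ MulAction.stabilizer Cfsg.M24 q)) : H.index ≠ 56 ∧ H.index ≠ 210 := by
  obtain ⟨g0, hg0, hg0p, hg0q⟩ := Cfsg.Agent.Helper7.m24_trans2 hpq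
    (show (none : GolayPt) ≠ some 0 by decide)
  have hcardS := Cfsg.Agent.S0378.result p q hpq
  let f : ↥(MulAction.stabilizer Cfsg.M24 p ⊓ MulAction.stabilizer Cfsg.M24 q) →*
      Equiv.Perm GolayPt := (Subgroup.subtype M24).comp (Subgroup.subtype _)
  have hf : Function.Injective f := fun a b h => Subtype.ext (Subtype.ext h)
  let K : Subgroup (Equiv.Perm GolayPt) := (H.map f).map (MulAut.conj g0).toMonoidHom
  have hKM : K ≤ Cfsg.Agent.Helper91.Idx22.M := by
    rintro _ ⟨_, ⟨x, hx, rfl⟩, rfl⟩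
    have hxp : ((x : ↥M24) : Equiv.Perm GolayPt) p = p := by
      have h1 : (x : ↥M24) ∈ MulAction.stabilizer Cfsg.M24 p := x.2.1
      rw [MulAction.mem_stabilizer_iff] at h1
      exact h1
    have hxq : ((x : ↥M24) : Equiv.Perm GolayPt) q = q := by
      have h1 : (x : ↥M24) ∈ MulAction.stabilizer Cfsg.M24 q := x.2.2
      rw [MulAction.mem_stabilizer_iff] at h1
      exact h1
    have hip : g0⁻¹ none = p := by rw [← hg0p]; simp
    have hiq : g0⁻¹ (some 0) = q := by rw [← hg0q]; simp
    show g0 * ((x : ↥M24) : Equiv.Perm GolayPt) * g0⁻¹ ∈ _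
    apply Cfsg.Agent.Helper91.Idx22.mem_M
    · exact mul_mem (mul_mem hg0 (x : ↥M24).2) (inv_mem hg0)
    · rw [Equiv.Perm.mul_apply, Equiv.Perm.mul_apply, hip, hxp, hg0p]
    · rw [Equiv.Perm.mul_apply, Equiv.Perm.mul_apply, hiq, hxq, hg0q]
  have hcardK : Nat.card K = Nat.card H := by
    rw [Subgroup.card_map_of_injective (MulEquiv.injective _), Subgroup.card_map_of_injective hf]
  have hno := Cfsg.Agent.Helper91.Idx22.no_sub hKM
  rw [hcardK] at hno
  have hmul := Subgroup.card_mul_index H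
  rw [hcardS] at hmul
  constructor
  · intro h
    rw [h] at hmul
    exact hno.1 (by omega)
  · intro h
    rw [h] at hmul
    exact hno.2 (by omega)

end Cfsg.Agent.S1606
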