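import Cfsg.Statements.S1607
import Cfsg.Agent.Helper91.OrbitLib2

set_option autoImplicit false
open scoped Pointwise
open Cfsg

namespace Cfsg.Agent.S1607

open Cfsg.Agent.Helper91

/-- The stabilizer of `oct0` and of its point 0 on the octads through that point. Generators. -/
def sGens : List (List Nat) :=
  [[0, 23, 2, 5, 12, 17, 15, 7, 19, 21, 9, 18, 22, 6, 14, 8, 20, 1, 10, 13, 4, 11, 16, 3],
   [0, 2, 23, 5, 16, 3, 9, 15, 19, 12, 18, 7, 21, 4, 17, 8, 13, 14, 6, 20, 11, 10, 22, 1]]

/-- The stabilizer of `oct0` and of its point 0 on the octads through that point. Orbit certificates (sizes 112, 140, 1). -/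
def sCerts : List OrbCert := [
  ⟨2, 15777,
    [1, 1, 1, 1, 2, 1, 1, 2, 0, 0, 0, 2, 1, 2, 0, 0, 2, 2, 1, 0, 0, 0, 0, 0, 0, 2, 1, 1, 0, 2, 0, 0, 0, 0, 2,
     1, 1, 1, 1, 0, 0, 0, 2, 1, 1, 1, 1, 0, 0, 0, 2, 1, 0, 0, 0, 2, 0, 0, 0, 2, 1, 1, 1, 0, 2, 2, 0, 0, 0, 2,
     1, 0, 2, 0, 0, 0, 0, 0, 0, 0, 2, 1, 1, 1, 1, 2, 2, 0, 0, 0, 2, 1, 2, 1, 1, 0, 0, 0, 0, 2, 1, 0, 2, 0, 0,
     0, 0, 0, 2, 1, 1, 1, 1, 0, 2, 2, 0, 0, 0, 2, 1, 2, 0, 0, 0, 0, 2, 1, 2, 1, 1, 0, 0, 0, 0, 2, 0, 0, 0, 0,
     0, 2, 1, 1, 1, 1, 2, 0, 0, 2, 1, 1, 0, 2, 1, 0, 0, 0, 2, 1, 0, 2, 0, 0, 0, 0, 2, 2, 0, 0, 0, 2, 1, 1, 0,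
     2, 1, 1, 0, 0, 2, 0, 0, 0, 0, 0, 2, 1, 1, 1, 1, 2, 0, 0, 0, 2, 1, 2, 0, 0, 2, 0, 0, 0, 2, 1, 0, 2, 0, 0,
     0, 2, 1, 2, 2],
    4728825271786158716812514079020801148296351690429455741293824869049339424194147665346529020119792338261497465940229716261495890522407155469866150886945351291131535971636341093494044233548201351035364551243859912399548473539607988405342404577202452410192687466175523586820700995690157804886320969808813752999717184697562252125489955004737389879115192697040050881136780814362786475647354057233836748457066427228189966474711880604758196106763627597221852193678727748554799246924053743349257442462104444975736612184395656583629545371700300289080905174537305381389416855873555494536970582679915861192093785814909383325384393892823201149420863743377050375926742265790969498996353856322292570535326577237600370845747739459248380297036181375252056765535435659735994024702668102662327630916876135022403238510355639681335825163957663640889587937132570013145695374458348817556459110014583742441531486836384732239900831778673426679960069671780245987423845693548842897798883493455149477163095831197797085056913962808714883587631486602841813453899905944134209444562846042997889431243530298176859954782792340547667752379573643773251063707721554547495577876692594595223086694400⟩,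
  ⟨4, 5279,
    [1, 1, 1, 1, 2, 1, 2, 1, 0, 2, 0, 0, 0, 2, 1, 1, 0, 0, 2, 1, 0, 2, 0, 0, 0, 0, 0, 2, 1, 1, 1, 1, 0, 0, 2,
     0, 0, 2, 1, 0, 0, 0, 2, 1, 1, 1, 0, 0, 2, 1, 0, 0, 0, 2, 1, 0, 0, 0, 0, 0, 2, 2, 1, 1, 1, 0, 2, 0, 0, 2,
     2, 1, 0, 0, 0, 0, 0, 0, 0, 2, 1, 1, 2, 2, 1, 0, 0, 0, 0, 2, 1, 1, 1, 0, 2, 0, 0, 2, 2, 0, 0, 0, 2, 2, 1,
     1, 0, 0, 2, 0, 0, 0, 0, 0, 2, 1, 1, 1, 2, 2, 0, 0, 0, 2, 0, 0, 2, 1, 1, 1, 0, 2, 0, 0, 2, 0, 0, 2, 0, 0,
     0, 2, 1, 1, 0, 0, 2, 1, 1, 0, 0, 2, 1, 0, 0, 0, 0, 0, 0, 0, 2, 1, 1, 1, 1, 2, 0, 0, 2, 1, 1, 0, 0, 2, 2,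
     2, 0, 0, 0, 0, 0, 2, 1, 2, 2, 0, 0, 0, 2, 1, 0, 2, 2, 2, 0, 0, 0, 0, 0, 0, 2, 1, 1, 1, 1, 0, 2, 0, 0, 0,
     2, 1, 2, 1, 0, 0, 0, 2, 1, 0, 2, 0, 0, 0, 0, 2, 1, 1, 0, 0, 2, 0, 0, 0, 0, 2, 1, 1, 1, 1, 0, 0, 2, 0, 0,
     0, 2, 1, 1, 0, 2, 1, 1, 0, 0, 2, 0, 0, 0, 2, 1, 1, 1, 2, 0, 0, 2, 0, 0, 2, 2],
    39881769643296449927428458215377202500794304405783606385147535857687086137935114009602263275260557190028092356527954547332695892527707650076116061441679066757398909906038689509772822245663931105327079378243244024561770242324127096138555124278376643358897063191927313259147574457697209827850194048029527786031258363613393934306114066495682651558775909455275466354371159176938332191221276108599152210379896323860657626563475375824375456895470465610691823171246864714098465886307925186809421777290396442250919215249101433566932654162069764054959788913280162981366175470857034572767373767151409081383410157589291093296136118563032028695194851190867423095609349986264872123761599649019367152269178051053552366091633295624407480707482446913441611452606664011431031768196444620734996750385025387728357169312171982927447284063041268440375972600173792588447546529763389007143284858824241415149489380720363834268670978096117571268835845585147118001231493485276420449175495535577058843940742388917907679960488443184922557033649823858115614711170918982959251119576239055489391270022450346232490⟩,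
  ⟨8, 8536111,
    [],
    140737488355328⟩]

theorem sGens_ok : sGens.all (tabOK 1 [oct0]) = true := by decide +kernel

theorem sCerts_ok : sCerts.all (OrbCert.ok sGens) = true := by decide +kernel

theorem sCover :
    coverOK sCerts (fun m => Helper26.pc24 (Nat.land oct0 m)) (fun m => m.testBit 0) Helper26.octL = true := by
  decide +kernel

theorem count2 : Helper26.countL (fun m => m.testBit 0 && Nat.beq (Helper26.pc24 (Nat.land oct0 m)) 2) Helper26.octL = 112 := by
  decide +kernel

theorem count4 : Helper26.countL (fun m => m.testBit 0 && Nat.beq (Helper26.pc24 (Nat.land oct0 m)) 4) Helper26.octL = 140 := by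
  decide +kernel

theorem std_count (k : Nat) :
    {s : Finset GolayPt | s ∈ octads ∧ pt 0 ∈ s ∧ (setM oct0 ∩ s).card = k}.ncard =
      Helper26.countL (fun m => m.testBit 0 && Nat.beq (Helper26.pc24 (Nat.land oct0 m)) k) Helper26.octL := by
  apply ncard_octads_filter
  intro s
  rw [pt_mem_iff_testBit (by norm_num), card_inter_setM oct0_lt, Bool.and_eq_true, Nat.beq_eq]

theorem std_trans {s s' : Finset GolayPt} (hs : s ∈ octads) (hs' : s' ∈ octads) (h0 : pt 0 ∈ s)
    (h0' : pt 0 ∈ s') (h : (setM oct0 ∩ s).card = (setM oct0 ∩ s').card) :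
    ∃ g ∈ M24, g (pt 0) = pt 0 ∧ g • setM oct0 = setM oct0 ∧ g • s = s' := by
  obtain ⟨g, hg, e⟩ := trans_of_certs sGens_ok sCerts_ok sCover hs.1 hs'.1
    ((Helper26.mem_octL_iff s).2 hs) ((Helper26.mem_octL_iff s').2 hs')
    ((pt_mem_iff_testBit (by norm_num) s).1 h0) ((pt_mem_iff_testBit (by norm_num) s').1 h0')
    (by
      show Helper26.pc24 (Nat.land oct0 (Helper26.enc s)) = Helper26.pc24 (Nat.land oct0 (Helper26.enc s'))
      rw [← card_inter_setM oct0_lt, ← card_inter_setM oct0_lt, h])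
  rw [mem_stabSub_single] at hg
  exact ⟨g, hg.1, hg.2.1.apply_pt (by norm_num) (by decide), hg.2.2, e⟩

/-- The point stabiliser acts on the 253 heptads of its S(4, 7, 23) with rank 3 and subdegrees 1, 112, 140 (intersections 8, 2, 4). -/
theorem result (x : Cfsg.GolayPt) (o : Finset Cfsg.GolayPt) (ho : o ∈ Cfsg.octads) (hx : x ∈ o) : {o' : Finset Cfsg.GolayPt | o' ∈ Cfsg.octads ∧ x ∈ o' ∧ (o ∩ o').card = 2}.ncard = 112 ∧ {o' : Finset Cfsg.GolayPt | o' ∈ Cfsg.octads ∧ x ∈ o' ∧ (o ∩ o').card = 4}.ncard = 140 ∧ ∀ o' o'' : Finset Cfsg.GolayPt, o' ∈ Cfsg.octads → o'' ∈ Cfsg.octads → x ∈ o' → x ∈ o'' → (o ∩ o').card = (o ∩ o'').card → ∃ g : Equiv.Perm Cfsg.GolayPt, g ∈ Cfsg.M24 ∧ g x = x ∧ g • o = o ∧ g • o' = o'' := by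
  obtain ⟨u, hu, rfl, rfl⟩ := exists_oct_flag ho hx
  have hui := inv_mem hu
  have tr : ∀ k, {o' : Finset GolayPt | o' ∈ octads ∧ u (pt 0) ∈ o' ∧ (u • setM oct0 ∩ o').card = k}.ncard =
      {s : Finset GolayPt | s ∈ octads ∧ pt 0 ∈ s ∧ (setM oct0 ∩ s).card = k}.ncard := by
    intro k
    exact ncard_smul_set u _ _ (fun s => by
      rw [smul_mem_octads_iff hu, card_smul_inter, apply_mem_smul_iff])
  refine ⟨?_, ?_, ?_⟩
  · rw [tr, std_count, count2]
  · rw [tr, std_count, count4]
  · intro o' o'' ho' ho'' hx' hx'' h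
    obtain ⟨g, hg, hg0, hgo, hgs⟩ := std_trans (smul_mem_octads hui ho') (smul_mem_octads hui ho'')
      ((mem_inv_smul_iff u _ _).2 hx') ((mem_inv_smul_iff u _ _).2 hx'')
      (by rw [card_inter_inv_smul, card_inter_inv_smul, h])
    exact ⟨u * g * u⁻¹, conj_mem hu hg, conj_fix hg0, conj_stab hgo, conj_map hgs⟩

end Cfsg.Agent.S1607
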