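import Cfsg.Statements.S1609
import Cfsg.Agent.Helper91.Idx23c
import Cfsg.Agent.S0376

set_option autoImplicit false
open scoped Pointwise
open Cfsg

namespace Cfsg.Agent.S1609

/-- Subgroups of index 253 in the Mathieu group of degree 23 are exactly the duad stabilisers and the heptad stabilisers. -/
theorem result (x : Cfsg.GolayPt) (H : Subgroup ↥(MulAction.stabilizer Cfsg.M24 x)) (hH : H.index = 253) : (∃ s : Finset Cfsg.GolayPt, s.card = 2 ∧ x ∉ s ∧ H = (MulAction.stabilizer Cfsg.M24 s).subgroupOf (MulAction.stabilizer Cfsg.M24 x)) ∨ ∃ o ∈ Cfsg.octads, x ∈ o ∧ H = (MulAction.stabilizer Cfsg.M24 o).subgroupOf (MulAction.stabilizer Cfsg.M24 x) := by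
  have hcardS := Cfsg.Agent.S0376.result x
  have hcardH : Nat.card H = 40320 := by
    have hmul := Subgroup.card_mul_index H
    rw [hcardS, hH] at hmul
    omega
  let f : ↥(MulAction.stabilizer Cfsg.M24 x) →* Equiv.Perm GolayPt :=
    (Subgroup.subtype M24).comp (Subgroup.subtype _)
  have hf : Function.Injective f := fun a b h => Subtype.ext (Subtype.ext h)
  have hfx : ∀ h : ↥(MulAction.stabilizer Cfsg.M24 x), f h ∈ M24 ∧ f h x = x := by
    intro h
    refine ⟨(h : ↥M24).2, ?_⟩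
    have h1 : (h : ↥M24) ∈ MulAction.stabilizer Cfsg.M24 x := h.2
    rw [MulAction.mem_stabilizer_iff] at h1
    exact h1
  have hKM : ∀ k ∈ H.map f, k ∈ M24 ∧ k x = x := by
    rintro _ ⟨h, -, rfl⟩
    exact hfx h
  have hcardK : Nat.card (H.map f) = 40320 := by
    rw [Subgroup.card_map_of_injective hf, hcardH]
  rcases Cfsg.Agent.Helper91.Idx23.main hKM hcardK with ⟨s, hs2, hxs, hiff⟩ | ⟨o, ho, hxo, hiff⟩
  · left
    refine ⟨s, hs2, hxs, ?_⟩
    ext h
    rw [Subgroup.mem_subgroupOf, MulAction.mem_stabilizer_iff, ← Subgroup.mem_map_iff_mem hf (K := H)]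
    exact hiff (f h) (hfx h).1 (hfx h).2
  · right
    refine ⟨o, ho, hxo, ?_⟩
    ext h
    rw [Subgroup.mem_subgroupOf, MulAction.mem_stabilizer_iff, ← Subgroup.mem_map_iff_mem hf (K := H)]
    exact hiff (f h) (hfx h).1 (hfx h).2

end Cfsg.Agent.S1609
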