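import Cfsg.Statements.S1610
import Cfsg.Agent.Helper27.Hexacode

set_option autoImplicit false
open Cfsg

namespace Cfsg.Agent.S1610

open Cfsg.Agent.Helper27

/-- The hexacode has 64 words, minimum weight 4, and weight distribution 0^1 4^45 6^18. -/
theorem result (F : Type*) [Field F] [Fintype F] [DecidableEq F] (hF : Fintype.card F = 4) (ω : F) (hω : ω ^ 2 + ω + 1 = 0) : Nat.card ↥(Cfsg.hexacode F ω) = 64 ∧ (∀ x ∈ Cfsg.hexacode F ω, x ≠ 0 → (Finset.univ.filter fun i => x i ≠ 0).card = 4 ∨ (Finset.univ.filter fun i => x i ≠ 0).card = 6) ∧ {x : Fin 6 → F | x ∈ Cfsg.hexacode F ω ∧ (Finset.univ.filter fun i => x i ≠ 0).card = 4}.ncard = 45 ∧ {x : Fin 6 → F | x ∈ Cfsg.hexacode F ω ∧ (Finset.univ.filter fun i => x i ≠ 0).card = 6}.ncard = 18 := by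
  refine ⟨hex_card hF ω hω, ?_, ?_, ?_⟩
  · intro x hx hx0
    obtain ⟨t, rfl⟩ := (mem_hexacode_iff hF ω hω x).mp hx
    rw [hexEnc_wt ω hω]
    rcases hexWt_cases t with h | h | h
    · exfalso
      apply hx0
      funext i
      have h1 : (Finset.univ.filter fun i => hexEnc ω t i ≠ 0).card = 0 := by
        rw [hexEnc_wt ω hω]; exact h
      rw [Finset.card_eq_zero, Finset.filter_eq_empty_iff] at h1
      have := h1 (Finset.mem_univ i)
      simpa using this
    · exact Or.inl h
    · exact Or.inr h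
  · rw [hex_ncard hF ω hω]
    exact hexWt_count4
  · rw [hex_ncard hF ω hω]
    exact hexWt_count6

end Cfsg.Agent.S1610
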