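import Cfsg.Statements.S1618
import Cfsg.Agent.Helper53.InvolPProd
import Cfsg.Agent.S0215

set_option autoImplicit false
open Cfsg

namespace Cfsg.Agent.S1618

/-- A group generated by a class of involutions whose pairwise products (of distinct members) have p-power order for a fixed odd prime p has nilpotent derived subgroup. -/
theorem result {G : Type*} [Group G] [Finite G] (p : ℕ) (hp : p.Prime) (hodd : p ≠ 2) {D : Set G} (hinv : ∀ d ∈ D, orderOf d = 2) (hconj : ∃ d ∈ D, D = conjugatesOf d) (hgen : Subgroup.closure D = ⊤) (hprod : ∀ x ∈ D, ∀ y ∈ D, x ≠ y → ∃ k : ℕ, orderOf (x * y) = p ^ k) : Group.IsNilpotent ↥(commutator G) := by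
  obtain ⟨d, hdD, rfl⟩ := hconj
  have hd : orderOf d = 2 := hinv d hdD
  have hpF : Fact p.Prime := ⟨hp⟩
  have hprod' : ∀ a ∈ conjugatesOf d, ∀ b ∈ conjugatesOf d, ∃ k : ℕ, orderOf (a * b) = p ^ k := by
    intro a ha b hb
    by_cases hab : a = b
    · refine ⟨0, ?_⟩
      have h0 := pow_orderOf_eq_one a
      rw [hinv a ha, pow_two] at h0
      rw [← hab, h0, orderOf_one, pow_zero]
    · exact hprod a ha b hb hab
  have hiso := Cfsg.Agent.Helper53.isolated_of_prod_ppow hp hodd d hd hprod'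
  obtain ⟨P, hdP⟩ := Cfsg.Agent.Helper53.exists_sylow_two_mem d hd
  have hZ := Cfsg.Agent.S0215.result P d hd hdP
    (Cfsg.Agent.Helper53.isolated_weakly_closed d hiso P hdP)
  obtain ⟨Q, hQn, hQp, hQ⟩ := Cfsg.Agent.Helper53.pgroup_of_prod_ppow hp d hd hprod' hZ
  have hle := Cfsg.Agent.Helper53.commutator_le_of_prod_mem d hgen Q hQn hQ
  exact (hQp.to_le hle).isNilpotent

end Cfsg.Agent.S1618
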