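import Cfsg.Statements.S1623
import Cfsg.Agent.Helper57.J2CentB
import Cfsg.Agent.Helper57.IcoJ2d

set_option autoImplicit false
open Quaternion
open Cfsg

namespace Cfsg.Agent.S1623

/-- A reflection centraliser in the Hall–Janko group is an extension of an extraspecial group of order 32 by the alternating group of degree 5. -/
theorem result (f : Equiv.Perm ↥Cfsg.Spor.icoLeech) (hf : Cfsg.Spor.IsIcoReflection f) (hfm : f ∈ Cfsg.Spor.twoJ2) : ∃ (Q : Subgroup ↥(Subgroup.centralizer {(QuotientGroup.mk ⟨f, hfm⟩ : Cfsg.Spor.J2)})) (_ : Q.Normal), Nat.card Q = 32 ∧ Cfsg.IsExtraspecial 2 Q ∧ Nonempty (↥(Subgroup.centralizer {(QuotientGroup.mk ⟨f, hfm⟩ : Cfsg.Spor.J2)}) ⧸ Q ≃* alternatingGroup (Fin 5)) := by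
  classical
  obtain ⟨e, he⟩ := Cfsg.Agent.Helper57.ico_refl_image f hf hfm
  let gK : ↥Cfsg.Agent.S0423.K0 :=
    ⟨Cfsg.Agent.Helper57.pcWord Cfsg.Agent.Helper57.j2G0 Cfsg.Agent.Helper57.jcWc,
      Cfsg.Agent.Helper57.pcWord_mem Cfsg.Agent.Helper57.j2G0 Cfsg.Agent.Helper57.jcWc⟩
  let e' : Cfsg.Spor.J2 ≃* ↥Cfsg.Agent.S0423.K0 := e.trans (MulAut.conj gK)
  have he' : e' (QuotientGroup.mk ⟨f, hfm⟩) =
      ⟨Cfsg.Agent.Helper86.jfA 0,
        Cfsg.Agent.Helper86.jfS0_leK (Cfsg.Agent.Helper86.jfA_mem 0)⟩ := by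
    show MulAut.conj gK (e (QuotientGroup.mk ⟨f, hfm⟩)) = _
    rw [he, MulAut.conj_apply]
    exact Subtype.ext Cfsg.Agent.Helper57.jc_conj
  obtain ⟨ε1⟩ := Cfsg.Agent.Helper57.jc_cent_mulEquiv e' (QuotientGroup.mk ⟨f, hfm⟩) _ he'
  obtain ⟨ε2⟩ := Cfsg.Agent.Helper57.jc_cent_K0
  exact Cfsg.Agent.Helper57.jc_transport (ε1.trans ε2) Cfsg.Agent.Helper57.jc_struct

end Cfsg.Agent.S1623
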