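import Cfsg.Statements.S1631
import Cfsg.Agent.Helper13.UnitTv2

set_option autoImplicit false
open scoped MatrixGroups
open Cfsg

namespace Cfsg.Agent.S1631

theorem braid_cube {G : Type*} [Group G] (d e : G) (hd : d * d = 1) (he : e * e = 1)
    (hb : d * e * d = e * d * e) : (d * e) ^ 3 = 1 := by
  have h1 : (d * e) ^ 3 = (d * e * d) * (e * d * e) := by
    simp only [pow_succ, pow_zero, one_mul, mul_assoc]
  rw [h1, hb]
  calc e * d * e * (e * d * e) = e * d * (e * e) * d * e := by simp only [mul_assoc]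
    _ = e * (d * d) * e := by rw [he]; simp only [mul_one, mul_assoc]
    _ = 1 := by rw [hd, mul_one, he]

open Cfsg.Agent.Helper13 in
open Cfsg.Agent.Helper5 (frobQ frobQ_apply frobQ_frobQ) in

/-- The unitary transvections of SU(n, 2), n ≥ 4, form a generating conjugacy class of 3-transpositions. -/
theorem result (F : Type) [Field F] [Fintype F] [DecidableEq F] (hF : Fintype.card F = 4) (n : ℕ) (hn : 4 ≤ n) : Cfsg.IsThreeTranspositionClass {g : ↥(Cfsg.SU n F 2) | (((g : Matrix.SpecialLinearGroup (Fin n) F) : Matrix (Fin n) (Fin n) F) - 1).rank = 1} := by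
  classical
  have hF' : Fintype.card F = 2 ^ 2 := by rw [hF]; norm_num
  have hF2 := ufld2_two hF'
  have hc1 : frobQ hF' (1 : F) = -1 := by rw [map_one]; linear_combination hF2
  have h11 : (1 : F) + 1 = 0 := by linear_combination hF2
  have hchar : ∀ g : ↥(Cfsg.SU n F 2),
      (((g : Matrix.SpecialLinearGroup (Fin n) F) : Matrix (Fin n) (Fin n) F) - 1).rank = 1 ↔
      ∃ v : Fin n → F, v ≠ 0 ∧ Cfsg.hermForm n F 2 v v = 0 ∧ g = utv hF' v 1 := by
    intro g
    constructor
    · intro hg
      obtain ⟨v, c, hv0, hc0, hv, hc, rfl⟩ := su_rank_one hF' g hg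
      refine ⟨v, hv0, hv, ?_⟩
      have hc' : c = 1 := by
        rw [frobQ_apply] at hc
        have h : c * (c - 1) = 0 := by linear_combination hc - c * hF2
        rcases mul_eq_zero.1 h with h | h
        · exact absurd h hc0
        · linear_combination h
      rw [hc']
    · rintro ⟨v, hv0, hv, rfl⟩
      exact utv_rank hF' v 1 hv0 one_ne_zero hv hc1
  have hsq : ∀ v : Fin n → F, Cfsg.hermForm n F 2 v v = 0 → utv hF' v 1 * utv hF' v 1 = 1 := by
    intro v hv
    rw [utv_mul hF' v 1 1 hv hc1 hc1, h11, utv_zero_right]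
  refine ⟨⟨?_, ?_⟩, ?_, ?_⟩
  · intro d hd
    obtain ⟨v, hv0, hv, rfl⟩ := (hchar d).1 hd
    apply orderOf_eq_prime
    · rw [pow_two]; exact hsq v hv
    · exact utv_ne_one hF' v 1 hv0 one_ne_zero hv hc1
  · intro d hd e he
    obtain ⟨u, hu0, hu, rfl⟩ := (hchar d).1 hd
    obtain ⟨v, hv0, hv, rfl⟩ := (hchar e).1 he
    have hdd := hsq u hu
    have hee := hsq v hv
    have hdinv : (utv hF' u 1)⁻¹ = utv hF' u 1 := inv_eq_of_mul_eq_one_left hdd
    have heinv : (utv hF' v 1)⁻¹ = utv hF' v 1 := inv_eq_of_mul_eq_one_left hee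
    have hvu : Cfsg.hermForm n F 2 v u = frobQ hF' (Cfsg.hermForm n F 2 u v) :=
      (uh_conj hF' u v).symm
    by_cases hα : Cfsg.hermForm n F 2 u v = 0
    · left
      have h1 := utv_conj hF' (utv hF' u 1) v 1
      rw [uact_utv hF' u 1 hu hc1, hvu, hα, map_zero, mul_zero, zero_smul, add_zero, hdinv] at h1
      calc (utv hF' u 1 * utv hF' v 1) ^ 2
          = (utv hF' u 1 * utv hF' v 1 * utv hF' u 1) * utv hF' v 1 := by
            rw [pow_two]; simp only [mul_assoc]
        _ = utv hF' v 1 * utv hF' v 1 := by rw [h1]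
        _ = 1 := hee
    · right
      obtain ⟨α, hαdef⟩ : ∃ α : F, α = Cfsg.hermForm n F 2 u v := ⟨_, rfl⟩
      rw [← hαdef] at hα hvu
      have hNα : α * frobQ hF' α = 1 := ufld2_norm hF' α hα
      have h1 := utv_conj hF' (utv hF' u 1) v 1
      rw [uact_utv hF' u 1 hu hc1, hvu, one_mul, hdinv] at h1
      have h2 := utv_conj hF' (utv hF' v 1) u 1
      rw [uact_utv hF' v 1 hv hc1, ← hαdef, one_mul, heinv] at h2
      have h3 : u + α • v = α • (v + frobQ hF' α • u) := by
        rw [smul_add, smul_smul, hNα, one_smul, add_comm]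
      have h4 : utv hF' (u + α • v) 1 = utv hF' (v + frobQ hF' α • u) 1 := by
        rw [h3, utv_smul hF' α hα, hNα, mul_one]
      have hb : utv hF' u 1 * utv hF' v 1 * utv hF' u 1 =
          utv hF' v 1 * utv hF' u 1 * utv hF' v 1 := by rw [h1, h2, h4]
      exact braid_cube _ _ hdd hee hb
  · have hμ : (1 : F) * frobQ hF' 1 = -1 := by rw [map_one]; linear_combination hF2
    have h0n : 0 < n := by omega
    have h1n : 1 < n := by omega
    obtain ⟨v0, hv0def⟩ : ∃ v0 : Fin n → F, v0 =
        Pi.single (⟨0, h0n⟩ : Fin n) (1 : F) + (1 : F) • Pi.single (⟨1, h1n⟩ : Fin n) (1 : F) :=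
      ⟨_, rfl⟩
    have hne : (⟨0, h0n⟩ : Fin n) ≠ ⟨1, h1n⟩ := by
      intro h; have := congrArg Fin.val h; simp at this
    have hv00 : v0 ≠ 0 := by
      intro h
      have := congrFun h ⟨0, h0n⟩
      rw [hv0def] at this
      simp [Pi.single_apply, hne] at this
    have hv0i : Cfsg.hermForm n F 2 v0 v0 = 0 := by
      rw [hv0def]
      simp only [uh_add_left, uh_add_right hF', uh_smul_left, uh_smul_right hF',
        uh_single_single hF', if_neg hne, if_neg hne.symm, if_true, map_one]
      linear_combination hF2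
    refine ⟨utv hF' v0 1, (hchar _).2 ⟨v0, hv00, hv0i, rfl⟩, ?_⟩
    ext g
    change _ ↔ IsConj (utv hF' v0 1) g
    rw [isConj_iff]
    constructor
    · intro hg
      obtain ⟨v, hv0, hv, rfl⟩ := (hchar g).1 hg
      obtain ⟨k, -, hk⟩ := su_trans_iso hF' (by omega) (by omega) 1 hμ v hv0 hv
      refine ⟨k⁻¹, ?_⟩
      rw [utv_conj, hv0def, ← hk, uact_inv_uact]
    · rintro ⟨c, rfl⟩
      rw [utv_conj]
      refine (hchar _).2 ⟨uact c v0, ?_, ?_, rfl⟩
      · intro h
        apply hv00
        have := congrArg (uact c⁻¹) h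
        rwa [uact_inv_uact, uact_zero] at this
      · rw [uact_herm]; exact hv0i
  · rw [eq_top_iff, ← su_eq_utT hF' n (by omega) (by omega)]
    unfold utT
    rw [Subgroup.closure_le]
    intro A hA
    rcases utGen_cases A hA with h | h
    · rw [h]; exact Subgroup.one_mem _
    · exact Subgroup.subset_closure h

end Cfsg.Agent.S1631
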