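import Cfsg.Statements.S1633
import Cfsg.Agent.Helper26.U35Leech

set_option autoImplicit false
open Cfsg

namespace Cfsg.Agent.S1633

open Cfsg.Agent.Helper26 in
/-- the 352 points of the standard pair, in terms of the class function (after negation). -/
theorem hs352_iff (y : leechLattice) :
    (sqNorm (y : GolayPt → ℤ) = 32 ∧
      dotInt (Spor.leechV : GolayPt → ℤ) (y : GolayPt → ℤ) = 16 ∧
      dotInt ((-Spor.leechU' - Spor.leechV : leechLattice) : GolayPt → ℤ) (y : GolayPt → ℤ) = -24)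
    ↔ (sqNorm ((-y : leechLattice) : GolayPt → ℤ) = 32 ∧
      clsH (pk ((-y : leechLattice) : GolayPt → ℤ)) = 2) := by
  have hneg : ((-y : leechLattice) : GolayPt → ℤ) = -(y : GolayPt → ℤ) := rfl
  have hn : sqNorm ((-y : leechLattice) : GolayPt → ℤ) = sqNorm (y : GolayPt → ℤ) := by
    rw [hneg, Cfsg.Agent.Helper92.sqNorm_neg]
  have d1 : dotInt (Spor.leechV : GolayPt → ℤ) ((-y : leechLattice) : GolayPt → ℤ) =
      -dotInt (Spor.leechV : GolayPt → ℤ) (y : GolayPt → ℤ) := by rw [hneg, dot_neg_r]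
  have d2 : dotInt (Spor.leechU' : GolayPt → ℤ) ((-y : leechLattice) : GolayPt → ℤ) =
      -dotInt (Spor.leechU' : GolayPt → ℤ) (y : GolayPt → ℤ) := by rw [hneg, dot_neg_r]
  constructor
  · rintro ⟨h1, h2, h3⟩
    rw [dot_W0] at h3
    refine ⟨hn.trans h1, ?_⟩
    rw [clsH_spec _ (-y).2 (hn.trans h1), d1, d2, if_neg (by omega), if_pos (by omega),
      if_pos (by omega)]
  · rintro ⟨h1, h2⟩
    rw [clsH_spec _ (-y).2 h1, d1, d2] at h2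
    rw [dot_W0]
    refine ⟨hn.symm.trans h1, ?_⟩
    split_ifs at h2 <;> omega

/-- The Higman–Sims group acts transitively on 352 vectors, a set closed under x ↦ −w − x, with vector stabiliser isomorphic to PSU(3, 5). -/
theorem result (v w : ↥Cfsg.leechLattice) (hv : Cfsg.sqNorm (v : Cfsg.GolayPt → ℤ) = 48) (hw : Cfsg.sqNorm (w : Cfsg.GolayPt → ℤ) = 48) (hvw : Cfsg.dotInt (v : Cfsg.GolayPt → ℤ) (w : Cfsg.GolayPt → ℤ) = -32) (F : Type) [Field F] [Fintype F] (hF : Fintype.card F = 25) : {x : ↥Cfsg.leechLattice | Cfsg.sqNorm (x : Cfsg.GolayPt → ℤ) = 32 ∧ Cfsg.dotInt (v : Cfsg.GolayPt → ℤ) (x : Cfsg.GolayPt → ℤ) = 16 ∧ Cfsg.dotInt (w : Cfsg.GolayPt → ℤ) (x : Cfsg.GolayPt → ℤ) = -24}.ncard = 352 ∧ (∀ x ∈ {x : ↥Cfsg.leechLattice | Cfsg.sqNorm (x : Cfsg.GolayPt → ℤ) = 32 ∧ Cfsg.dotInt (v : Cfsg.GolayPt → ℤ) (x : Cfsg.GolayPt → ℤ) = 16 ∧ Cfsg.dotInt (w : Cfsg.GolayPt → ℤ) (x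 : Cfsg.GolayPt → ℤ) = -24}, -w - x ∈ {x : ↥Cfsg.leechLattice | Cfsg.sqNorm (x : Cfsg.GolayPt → ℤ) = 32 ∧ Cfsg.dotInt (v : Cfsg.GolayPt → ℤ) (x : Cfsg.GolayPt → ℤ) = 16 ∧ Cfsg.dotInt (w : Cfsg.GolayPt → ℤ) (x : Cfsg.GolayPt → ℤ) = -24}) ∧ (∀ x ∈ {x : ↥Cfsg.leechLattice | Cfsg.sqNorm (x : Cfsg.GolayPt → ℤ) = 32 ∧ Cfsg.dotInt (v : Cfsg.GolayPt → ℤ) (x : Cfsg.GolayPt → ℤ) = 16 ∧ Cfsg.dotInt (w : Cfsg.GolayPt → ℤ) (x : Cfsg.GolayPt → ℤ) = -24}, ∀ x' ∈ {x : ↥Cfsg.leechLattice | Cfsg.sqNorm (x : Cfsg.GolayPt → ℤ) = 32 ∧ Cfsg.dotInt (v : Cfsg.GolayPt → ℤ) (x : Cfsg.GolayPt → ℤ) = 16 ∧ Cfsg.dotInt (w : Cfsg.GolayPt → ℤ) (x : Cfsg.GolayPt → ℤ) = -24}, ∃ g : ↥Cfsg.Co0, g • v = v ∧ g • w = w ∧ g • x = x') ∧ ∀ x ∈ {x : ↥Cfsg.leechLattice | Cfsg.sqNorm (x : Cfsg.GolayPt → ℤ) = 32 ∧ Cfsg.dotInt (v : Cfsg.GolayPt → ℤ) (x : Cfsg.GolayPt → ℤ) = 16 ∧ Cfsg.dotInt (w : Cfsg.GolayPt → ℤ) (x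 : Cfsg.GolayPt → ℤ) = -24}, Nonempty (↥(MulAction.stabilizer ↥Cfsg.Co0 v ⊓ MulAction.stabilizer ↥Cfsg.Co0 w ⊓ MulAction.stabilizer ↥Cfsg.Co0 x) ≃* Cfsg.PSU 3 F 5) := by
  obtain ⟨g0, h1, h2⟩ := Cfsg.Agent.Helper26.pair48 v w hv hw hvw
  have hγ : ∀ x : leechLattice, (Cfsg.Agent.Helper92.negAut * g0) • x = -(g0 • x) := fun x => by
    rw [mul_smul, Cfsg.Agent.Helper92.negAut_smul]
  have key : ∀ x : leechLattice, (sqNorm (x : GolayPt → ℤ) = 32 ∧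
      dotInt (v : GolayPt → ℤ) (x : GolayPt → ℤ) = 16 ∧
      dotInt (w : GolayPt → ℤ) (x : GolayPt → ℤ) = -24) ↔
      (sqNorm (((Cfsg.Agent.Helper92.negAut * g0) • x : leechLattice) : GolayPt → ℤ) = 32 ∧
        Cfsg.Agent.Helper26.clsH (Cfsg.Agent.Helper26.pk
          (((Cfsg.Agent.Helper92.negAut * g0) • x : leechLattice) : GolayPt → ℤ)) = 2) := by
    intro x
    rw [hγ, ← hs352_iff, Cfsg.Agent.Helper26.co0_norm, Cfsg.Agent.Helper26.dot_map g0 v _ h1,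
      Cfsg.Agent.Helper26.dot_map g0 w _ h2]
  refine ⟨?_, ?_, ?_, ?_⟩
  · rw [← Cfsg.Agent.Helper26.ncard_cls Cfsg.Agent.Helper26.clsH 2 352 Cfsg.Agent.Helper26.cnt_H2]
    exact Cfsg.Agent.Helper26.ncard_smul _ _ _ key
  · rintro x ⟨a, b, c⟩
    have e : ((-w - x : leechLattice) : GolayPt → ℤ) = -(w : GolayPt → ℤ) - (x : GolayPt → ℤ) := rfl
    have hww : dotInt (w : GolayPt → ℤ) (w : GolayPt → ℤ) = 48 := by
      rw [Cfsg.Agent.Helper92.dotInt_self]; exact hw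
    have hwv : dotInt (v : GolayPt → ℤ) (w : GolayPt → ℤ) = -32 := hvw
    have hnw : dotInt (-(w : GolayPt → ℤ)) (x : GolayPt → ℤ) = 24 := by
      rw [Cfsg.Agent.Helper92.dotInt_comm, Cfsg.Agent.Helper26.dot_neg_r,
        Cfsg.Agent.Helper92.dotInt_comm, c]
      norm_num
    refine ⟨?_, ?_, ?_⟩
    · show sqNorm ((-w - x : leechLattice) : GolayPt → ℤ) = 32
      rw [e, Cfsg.Agent.Helper92.sqNorm_sub, Cfsg.Agent.Helper92.sqNorm_neg, hw, a, hnw]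
      norm_num
    · show dotInt (v : GolayPt → ℤ) ((-w - x : leechLattice) : GolayPt → ℤ) = 16
      rw [e, Cfsg.Agent.Helper26.dot_sub_r, Cfsg.Agent.Helper26.dot_neg_r, hwv, b]
      norm_num
    · show dotInt (w : GolayPt → ℤ) ((-w - x : leechLattice) : GolayPt → ℤ) = -24
      rw [e, Cfsg.Agent.Helper26.dot_sub_r, Cfsg.Agent.Helper26.dot_neg_r, hww, c]
      norm_num
  · intro x hx x' hx'
    obtain ⟨h, a, b, c⟩ := Cfsg.Agent.Helper26.hs_trans 1 _ _ ((key x).1 hx).1 ((key x').1 hx').1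
      ((key x).1 hx).2 ((key x').1 hx').2
    refine ⟨(Cfsg.Agent.Helper92.negAut * g0)⁻¹ * h * (Cfsg.Agent.Helper92.negAut * g0),
      Cfsg.Agent.Helper26.conj_fix _ h v ?_, Cfsg.Agent.Helper26.conj_fix _ h w ?_,
      Cfsg.Agent.Helper26.conj_map _ h x x' c⟩
    · rw [hγ, h1, Cfsg.Agent.Helper26.co0_neg, a]
    · rw [hγ, h2, Cfsg.Agent.Helper26.co0_neg, Cfsg.Agent.Helper26.fix_W0 h a b]
  · intro x hx
    obtain ⟨h, a, b, c⟩ := Cfsg.Agent.Helper26.hs_trans 1 _ Cfsg.Agent.Helper26.u35t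
      ((key x).1 hx).1 Cfsg.Agent.Helper26.u35_sq_t ((key x).1 hx).2 Cfsg.Agent.Helper26.u35_cls_t
    obtain ⟨δ, hδ⟩ : ∃ δ : Co0, δ = h * (Cfsg.Agent.Helper92.negAut * g0) := ⟨_, rfl⟩
    have dv : δ • (-v) = Spor.leechV := by
      rw [hδ, mul_smul, hγ, Cfsg.Agent.Helper26.co0_neg g0, h1, neg_neg, a]
    have du : δ • (v + w) = Spor.leechU' := by
      rw [hδ, mul_smul, hγ, Cfsg.Agent.Helper26.co0_add, h1, h2]
      have e : -(Spor.leechV + (-Spor.leechU' - Spor.leechV)) = Spor.leechU' := by abel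
      rw [e, b]
    have dx : δ • x = Cfsg.Agent.Helper26.u35t := by
      rw [hδ, mul_smul]
      exact c
    have key2 : ∀ k : Co0, k ∈ MulAction.stabilizer Co0 v ⊓ MulAction.stabilizer Co0 w ⊓
        MulAction.stabilizer Co0 x ↔ δ * k * δ⁻¹ ∈ Cfsg.Agent.Helper26.u35H := by
      intro k
      rw [Cfsg.Agent.Helper26.mem_u35H, Subgroup.mem_inf, Subgroup.mem_inf,
        MulAction.mem_stabilizer_iff, MulAction.mem_stabilizer_iff, MulAction.mem_stabilizer_iff]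
      have e : ∀ a : leechLattice, (δ * k * δ⁻¹) • (δ • a) = δ • (k • a) := fun a => by
        rw [mul_smul, mul_smul, inv_smul_smul]
      rw [← dv, ← du, ← dx, e, e, e]
      constructor
      · rintro ⟨⟨p, q⟩, r⟩
        refine ⟨?_, ?_, ?_⟩
        · rw [Cfsg.Agent.Helper26.co0_neg, p]
        · rw [Cfsg.Agent.Helper26.co0_add, p, q]
        · rw [r]
      · rintro ⟨p, q, r⟩
        have p' : k • v = v := by
          have h3 := MulAction.injective δ p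
          rw [Cfsg.Agent.Helper26.co0_neg, neg_inj] at h3
          exact h3
        have q' : k • w = w := by
          have h3 := MulAction.injective δ q
          rw [Cfsg.Agent.Helper26.co0_add, p', add_right_inj] at h3
          exact h3
        exact ⟨⟨p', q'⟩, MulAction.injective δ r⟩
    obtain ⟨e⟩ := Cfsg.Agent.Helper26.u35_stab_psu F hF
    exact ⟨(Cfsg.Agent.Helper92.conjEquiv δ _ _ key2).trans e⟩

end Cfsg.Agent.S1633
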