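import Cfsg.Statements.S1635
import Cfsg.Agent.Helper27.GolayFacts

set_option autoImplicit false
open Cfsg

namespace Cfsg.Agent.S1635

/-- Coset leaders of the length-24 code: a coset contains a unique word of weight ≤ 3, or else exactly six words of weight 4 and none lighter. -/
theorem result (w : Cfsg.GolayPt → ZMod 2) : ({v : Cfsg.GolayPt → ZMod 2 | hammingNorm v ≤ 4 ∧ w - v ∈ Cfsg.golayCode}.ncard = 1 ∧ ∃ v : Cfsg.GolayPt → ZMod 2, hammingNorm v ≤ 3 ∧ w - v ∈ Cfsg.golayCode) ∨ ({v : Cfsg.GolayPt → ZMod 2 | hammingNorm v ≤ 4 ∧ w - v ∈ Cfsg.golayCode}.ncard = 6 ∧ ∀ v : Cfsg.GolayPt → ZMod 2, w - v ∈ Cfsg.golayCode → hammingNorm v ≤ 4 → hammingNorm v = 4) := by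
  have hset : {v : Cfsg.GolayPt → ZMod 2 | hammingNorm v ≤ 4 ∧ w - v ∈ Cfsg.golayCode} =
      {u : Cfsg.GolayPt → ZMod 2 | u - w ∈ Cfsg.golayCode ∧ hammingNorm u ≤ 4} := by
    ext v
    simp only [Set.mem_ofPred_eq]
    constructor
    · rintro ⟨h1, h2⟩
      refine ⟨?_, h1⟩
      have := Cfsg.golayCode.neg_mem h2
      rwa [neg_sub] at this
    · rintro ⟨h1, h2⟩
      refine ⟨h2, ?_⟩
      have := Cfsg.golayCode.neg_mem h1
      rwa [neg_sub] at this
  rw [hset]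
  rcases Cfsg.Agent.Helper93.coset_structure Cfsg.golayCode Cfsg.Agent.Helper27.card_golayPt
    Cfsg.Agent.Helper27.golay_finrank Cfsg.Agent.Helper27.golay_min w with ⟨u, hu, hu3⟩ | ⟨h6, hall⟩
  · left
    refine ⟨by rw [hu, Set.ncard_singleton], u, hu3, ?_⟩
    have hmem : u ∈ {u : Cfsg.GolayPt → ZMod 2 | u - w ∈ Cfsg.golayCode ∧ hammingNorm u ≤ 4} := by
      rw [hu]; exact Set.mem_singleton u
    have := Cfsg.golayCode.neg_mem hmem.1
    rwa [neg_sub] at this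
  · right
    refine ⟨h6, ?_⟩
    intro v hv hv4
    have hmem : v ∈ {u : Cfsg.GolayPt → ZMod 2 | u - w ∈ Cfsg.golayCode ∧ hammingNorm u ≤ 4} := by
      refine ⟨?_, hv4⟩
      have := Cfsg.golayCode.neg_mem hv
      rwa [neg_sub] at this
    exact (hall v hmem).1

end Cfsg.Agent.S1635
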