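import Cfsg.Statements.S1637
import Cfsg.Agent.Helper27.Golay23

set_option autoImplicit false
open Cfsg

namespace Cfsg.Agent.S1637

theorem dist_eq (x y : ZMod 23 → ZMod 2) : hammingDist x y = hammingNorm (x - y) := by
  simp_rw [hammingNorm, hammingDist, Pi.sub_apply, ne_eq, sub_eq_zero]

open Cfsg.Agent.Helper27 Cfsg.Agent.Helper93 in
theorem exists_close (u : ZMod 23 → ZMod 2) :
    ∃ w ∈ Cfsg.golayCode, hammingDist u (res23 w) ≤ 3 := by
  set u0 : Cfsg.GolayPt → ZMod 2 := fun p => match p with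
    | none => 0
    | some x => u x with hu0
  have hres : res23 u0 = u := rfl
  have key : ∀ v : Cfsg.GolayPt → ZMod 2, v - u0 ∈ Cfsg.golayCode → hammingNorm (res23 v) ≤ 3 →
      ∃ w ∈ Cfsg.golayCode, hammingDist u (res23 w) ≤ 3 := by
    intro v hv h3
    refine ⟨u0 - v, ?_, ?_⟩
    · have := Cfsg.golayCode.neg_mem hv
      rwa [neg_sub] at this
    · rw [dist_eq, ← hres, ← res23_sub, sub_sub_cancel]
      exact h3
  rcases coset_count Cfsg.golayCode card_golayPt golay_finrank golay_min u0 with ⟨h3, -⟩ | ⟨-, h4⟩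
  · obtain ⟨v, hv⟩ := Finset.card_pos.mp (by rw [h3]; norm_num : 0 < (T3 Cfsg.golayCode u0).card)
    rw [mem_T3] at hv
    exact key v hv.2 (le_trans (hammingNorm_res23_ge v) hv.1)
  · by_cases hex : ∃ v ∈ T4 Cfsg.golayCode u0, v none ≠ 0
    · obtain ⟨v, hv, hn⟩ := hex
      rw [mem_T4] at hv
      refine key v hv.2 ?_
      have := hammingNorm_res23 v
      rw [if_neg hn] at this
      omega
    · exfalso
      have hall : ∀ v ∈ T4 Cfsg.golayCode u0, v none = 0 := by
        intro v hv
        by_contra h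
        exact hex ⟨v, hv, h⟩
      have hcard : ((T4 Cfsg.golayCode u0).biUnion supp).card = 24 := by
        rw [card_T4_mul Cfsg.golayCode golay_min u0, h4]
      have hsub : (T4 Cfsg.golayCode u0).biUnion supp ⊆ (Finset.univ : Finset Cfsg.GolayPt).erase none := by
        intro p hp
        rw [Finset.mem_biUnion] at hp
        obtain ⟨v, hv, hp⟩ := hp
        rw [Finset.mem_erase]
        refine ⟨?_, Finset.mem_univ _⟩
        rintro rfl
        rw [mem_supp, hall v hv] at hp
        exact zero_ne_one hp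
      have := Finset.card_le_card hsub
      rw [hcard, Finset.card_erase_of_mem (Finset.mem_univ _), Finset.card_univ, card_golayPt] at this
      omega

/-- The punctured length-23 code is a perfect 3-error-correcting code: each word of length 23 is within distance 3 of exactly one codeword. -/
theorem result (u : ZMod 23 → ZMod 2) : ∃! c : ZMod 23 → ZMod 2, c ∈ {u : ZMod 23 → ZMod 2 | ∃ w ∈ Cfsg.golayCode, ∀ x : ZMod 23, u x = w (some x)} ∧ hammingDist u c ≤ 3 := by
  rw [Cfsg.Agent.Helper27.punct_eq]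
  obtain ⟨w, hw, hd⟩ := exists_close u
  refine ⟨Cfsg.Agent.Helper27.res23 w, ⟨⟨w, hw, rfl⟩, hd⟩, ?_⟩
  rintro c ⟨⟨w', hw', rfl⟩, hd'⟩
  have h6 : hammingDist (Cfsg.Agent.Helper27.res23 w') (Cfsg.Agent.Helper27.res23 w) ≤ 6 := by
    have := hammingDist_triangle_left (Cfsg.Agent.Helper27.res23 w') (Cfsg.Agent.Helper27.res23 w) u
    omega
  rw [dist_eq, ← Cfsg.Agent.Helper27.res23_sub] at h6
  have h7 := Cfsg.Agent.Helper27.hammingNorm_res23_le (w' - w)
  by_contra hne
  have hne' : w' - w ≠ 0 := by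
    intro h
    rw [sub_eq_zero] at h
    exact hne (by rw [h])
  have h8 := Cfsg.Agent.Helper27.golay_min _ (Cfsg.golayCode.sub_mem hw' hw) hne'
  omega

end Cfsg.Agent.S1637
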