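import Cfsg.Statements.S1638
import Cfsg.Agent.Helper91.Classes

set_option autoImplicit false
open scoped Pointwise
open Cfsg

namespace Cfsg.Agent.S1638

open Cfsg.Agent.Helper91

set_option maxRecDepth 100000

/-- Generators of the stabilizer of the points 0, 1 and of the pair of the points 2, 3. -/
def sGens : List (List Nat) :=
  [[0, 1, 3, 2, 17, 9, 8, 23, 4, 19, 14, 16, 5, 20, 22, 12, 7, 11, 21, 10, 18, 13, 15, 6],
   [0, 1, 2, 3, 17, 22, 18, 23, 10, 20, 5, 13, 14, 15, 6, 7, 4, 9, 19, 12, 16, 8, 21, 11]]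

theorem sGens_ok : sGens.all (tabOK 3 [12]) = true := by decide +kernel

def s40I : List Nat :=
  [1, 1, 1, 1, 1, 1, 2, 0, 0, 0, 2, 0, 0, 2, 2, 0, 0, 0, 2, 1, 1, 0, 0, 2, 0, 0, 0, 2, 1, 1, 1, 0, 2, 1, 1, 2,
   0, 0, 2, 0, 0, 2, 0, 0, 0, 0, 2, 2, 0, 0, 0, 0, 2, 1, 1, 1, 1, 1, 0, 0, 0, 0, 0, 2, 1, 1, 1, 0, 2, 1, 0, 0,
   0, 0, 2]

theorem s40_run : orbCount pullMask (fun m => Nat.mod m 1801) sGens s40I [20]
    (Nat.shiftLeft 1 (Nat.mod 20 1801)) 1 = 40 := by
  decide +kernel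

def s30I : List Nat :=
  [1, 1, 1, 0, 2, 1, 1, 0, 2, 0, 0, 2, 2, 0, 0, 0, 0, 2, 1, 0, 2, 1, 1, 0, 0, 2, 0, 0, 0, 0, 2, 1, 1, 1, 1, 1,
   0, 0, 0, 2, 0, 0, 2, 0, 0, 2, 1, 1, 1, 0, 2, 0, 0, 0, 2]

theorem s30_run : orbCount pullMask (fun m => Nat.mod m 1801) sGens s30I [144]
    (Nat.shiftLeft 1 (Nat.mod 144 1801)) 1 = 30 := by
  decide +kernel

def s160I : List Nat :=
  [1, 1, 1, 1, 2, 1, 1, 2, 0, 0, 2, 0, 0, 2, 2, 1, 0, 0, 0, 0, 0, 2, 1, 1, 2, 1, 0, 0, 0, 2, 1, 2, 0, 0, 0, 0,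
   2, 1, 1, 2, 1, 0, 0, 0, 0, 2, 1, 0, 0, 0, 0, 0, 2, 1, 1, 1, 0, 2, 1, 1, 0, 0, 0, 0, 2, 1, 1, 0, 2, 2, 0, 0,
   0, 2, 1, 0, 0, 0, 0, 2, 1, 1, 2, 2, 0, 0, 0, 2, 1, 0, 2, 0, 0, 0, 2, 1, 0, 0, 0, 0, 0, 2, 1, 1, 1, 1, 2, 2,
   0, 0, 0, 0, 2, 1, 2, 0, 0, 2, 1, 1, 0, 0, 2, 0, 0, 0, 0, 2, 1, 1, 1, 1, 0, 0, 0, 2, 2, 0, 0, 0, 2, 1, 1, 2,
   0, 0, 0, 0, 0, 0, 2, 1, 1, 2, 0, 0, 2, 1, 1, 0, 0, 2, 1, 0, 2, 0, 0, 0, 0, 2, 1, 1, 1, 0, 0, 2, 1, 0, 2, 0,
   0, 0, 2, 1, 2, 1, 0, 0, 0, 0, 0, 0, 0, 0, 2, 1, 1, 2, 1, 1, 1, 1, 0, 0, 2, 0, 0, 2, 2, 0, 0, 0, 2, 2, 1, 1,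
   0, 0, 0, 0, 0, 0, 2, 1, 1, 1, 1, 1, 0, 0, 0, 2, 2, 2, 0, 0, 0, 0, 2, 1, 2, 0, 0, 2, 2, 0, 0, 0, 0, 2, 1, 1,
   1, 0, 2, 0, 0, 0, 2, 1, 1, 0, 2, 1, 0, 0, 0, 0, 0, 0, 0, 2, 1, 1, 1, 0, 2, 1, 1, 0, 0, 0, 0, 2, 1, 1, 1, 0,
   2, 0, 0, 0, 0, 0, 2, 1, 1, 1, 1, 0, 0, 2, 1, 0, 0, 0, 2, 2, 2, 0, 0, 0, 0, 2]

theorem s160_run : orbCount pullMask (fun m => Nat.mod m 1801) sGens s160I [48]
    (Nat.shiftLeft 1 (Nat.mod 48 1801)) 1 = 160 := by
  decide +kernel

/-- The property of lying in an octad together with two points and a further set. -/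
def octProp (p q : GolayPt) (s t : Finset GolayPt) : Prop :=
  ∃ o ∈ octads, p ∈ o ∧ q ∈ o ∧ s ∪ t ⊆ o

theorem octProp_smul {g : Equiv.Perm GolayPt} (hg : g ∈ M24) (p q : GolayPt) (s t : Finset GolayPt) :
    octProp (g p) (g q) (g • s) (g • t) ↔ octProp p q s t := by
  constructor
  · rintro ⟨o, ho, hp, hq, hsub⟩
    refine ⟨g⁻¹ • o, smul_mem_octads (inv_mem hg) ho, (mem_inv_smul_iff g p o).2 hp,
      (mem_inv_smul_iff g q o).2 hq, ?_⟩
    rw [← Finset.smul_finset_union] at hsub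
    intro x hx
    rw [mem_inv_smul_iff]
    exact hsub ((apply_mem_smul_iff g x _).2 hx)
  · rintro ⟨o, ho, hp, hq, hsub⟩
    refine ⟨g • o, smul_mem_octads hg ho, (apply_mem_smul_iff g p o).2 hp,
      (apply_mem_smul_iff g q o).2 hq, ?_⟩
    rw [← Finset.smul_finset_union]
    intro x hx
    obtain ⟨y, hy, rfl⟩ := Finset.mem_smul_finset.1 hx
    exact Finset.smul_mem_smul_finset (hsub hy)

/-- Boolean form of `octProp` for the points 0, 1 and the pair of the points 2, 3. -/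
def octB (tm : Nat) : Bool :=
  Helper26.octL.any (fun m => m.testBit 0 && m.testBit 1 &&
    Nat.beq (Nat.land (Nat.lor 12 tm) m) (Nat.lor 12 tm))

theorem octProp_std_iff {tm : Nat} (htm : tm < 2 ^ 24) :
    octProp (pt 0) (pt 1) (setM 12) (setM tm) ↔ octB tm = true := by
  have e6 : Helper26.enc (setM 12 ∪ setM tm) = Nat.lor 12 tm := by
    rw [Helper26.enc_union, enc_setM (by norm_num), enc_setM htm]; rfl
  rw [octB, List.any_eq_true]
  constructor
  · rintro ⟨o, ho, hp, hq, hsub⟩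
    refine ⟨Helper26.enc o, (Helper26.mem_octL_iff o).2 ho, ?_⟩
    rw [Bool.and_eq_true, Bool.and_eq_true, Nat.beq_eq]
    refine ⟨⟨(pt_mem_iff_testBit (by norm_num) o).1 hp, (pt_mem_iff_testBit (by norm_num) o).1 hq⟩, ?_⟩
    rw [← e6]
    exact (Helper26.subset_iff_enc _ _).1 hsub
  · rintro ⟨m, hm, h⟩
    rw [Bool.and_eq_true, Bool.and_eq_true, Nat.beq_eq] at h
    have hlt := Helper26.octL_lt m hm
    have ho : setM m ∈ octads := (Helper26.mem_octL_iff _).1 (by rw [enc_setM hlt]; exact hm)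
    refine ⟨setM m, ho, (pt_mem_iff_testBit (by norm_num) _).2 (by rw [enc_setM hlt]; exact h.1.1),
      (pt_mem_iff_testBit (by norm_num) _).2 (by rw [enc_setM hlt]; exact h.1.2), ?_⟩
    rw [Helper26.subset_iff_enc, e6, enc_setM hlt]
    exact h.2

/-- The pairs avoiding two points. -/
def Om (p q : GolayPt) : Set (Finset GolayPt) := {t | t.card = 2 ∧ p ∉ t ∧ q ∉ t}

theorem Om_ncard {p q : GolayPt} (hpq : p ≠ q) : (Om p q).ncard = 231 := by
  classical
  have e : Om p q = ↑(Finset.powersetCard 2 (Finset.univ \ {p, q} : Finset GolayPt)) := by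
    ext t
    rw [Finset.mem_coe, Finset.mem_powersetCard]
    constructor
    · rintro ⟨h2, hp, hq⟩
      refine ⟨fun x hx => ?_, h2⟩
      rw [Finset.mem_sdiff, Finset.mem_insert, Finset.mem_singleton]
      refine ⟨Finset.mem_univ _, ?_⟩
      rintro (rfl | rfl)
      · exact hp hx
      · exact hq hx
    · rintro ⟨hsub, h2⟩
      refine ⟨h2, fun hp => ?_, fun hq => ?_⟩
      · have := hsub hp
        simp at this
      · have := hsub hq
        simp at this
  rw [e, Set.ncard_coe_finset, Finset.card_powersetCard, Finset.card_sdiff_of_subset (Finset.subset_univ _),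
    Finset.card_univ, Helper26.card_golayPt, Finset.card_pair hpq]
  decide

/-- Representatives of the classes of pairs. -/
def sX : Fin 4 → Finset GolayPt := ![setM 12, setM 20, setM 144, setM 48]

/-- The invariant. -/
def sF (t : Finset GolayPt) : ℕ × Prop := ((setM 12 ∩ t).card, octProp (pt 0) (pt 1) (setM 12) t)

theorem sF_fst (i : Fin 4) : (sF (sX i)).1 = ![2, 1, 0, 0] i := by
  fin_cases i
  · show (setM 12 ∩ setM 12).card = 2
    rw [card_inter_setM (by norm_num), enc_setM (by norm_num)]; decide +kernel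
  · show (setM 12 ∩ setM 20).card = 1
    rw [card_inter_setM (by norm_num), enc_setM (by norm_num)]; decide +kernel
  · show (setM 12 ∩ setM 144).card = 0
    rw [card_inter_setM (by norm_num), enc_setM (by norm_num)]; decide +kernel
  · show (setM 12 ∩ setM 48).card = 0
    rw [card_inter_setM (by norm_num), enc_setM (by norm_num)]; decide +kernel

theorem sO2 : octProp (pt 0) (pt 1) (setM 12) (setM 144) :=
  (octProp_std_iff (by norm_num)).2 (by decide +kernel)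

theorem sO3 : ¬ octProp (pt 0) (pt 1) (setM 12) (setM 48) := by
  rw [octProp_std_iff (by norm_num)]
  decide +kernel

theorem mem_Om_std {m : Nat} (hm : m < 2 ^ 24) (h2 : Helper26.pc24 m = 2) (h0 : m.testBit 0 = false)
    (h1 : m.testBit 1 = false) : setM m ∈ Om (pt 0) (pt 1) := by
  refine ⟨by rw [card_setM hm, h2], ?_, ?_⟩
  · rw [mem_setM, idx_pt (by norm_num), h0]; simp
  · rw [mem_setM, idx_pt (by norm_num), h1]; simp

theorem std_fix {g : Equiv.Perm GolayPt} (hg : g ∈ stabSub 3 [12]) :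
    g ∈ M24 ∧ g (pt 0) = pt 0 ∧ g (pt 1) = pt 1 ∧ g • setM 12 = setM 12 := by
  rw [mem_stabSub_single] at hg
  exact ⟨hg.1, hg.2.1.apply_pt (by norm_num) (by decide), hg.2.1.apply_pt (by norm_num) (by decide), hg.2.2⟩

theorem std_classes :
    (∀ i, {x | x ∈ Om (pt 0) (pt 1) ∧ sF x = sF (sX i)}.ncard = ![1, 40, 30, 160] i) ∧
    (∀ x ∈ Om (pt 0) (pt 1), ∃ i, sF x = sF (sX i)) ∧
    (∀ x ∈ Om (pt 0) (pt 1), ∀ x' ∈ Om (pt 0) (pt 1), sF x = sF x' → ∃ g ∈ stabSub 3 [12], g • x = x') := by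
  refine classes_of_lower (stabSub 3 [12]) (Om (pt 0) (pt 1)) (Set.toFinite _) ?_ sX ![1, 40, 30, 160] ?_ ?_ ?_
    sF ?_ ?_
  · rintro g hg t ⟨h2, hp, hq⟩
    obtain ⟨-, g0, g1, -⟩ := std_fix hg
    refine ⟨by rw [Finset.card_smul_finset]; exact h2, ?_, ?_⟩
    · rw [← g0, apply_mem_smul_iff]; exact hp
    · rw [← g1, apply_mem_smul_iff]; exact hq
  · intro i
    fin_cases i
    · exact mem_Om_std (by norm_num) (by decide +kernel) (by decide) (by decide)
    · exact mem_Om_std (by norm_num) (by decide +kernel) (by decide) (by decide)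
    · exact mem_Om_std (by norm_num) (by decide +kernel) (by decide) (by decide)
    · exact mem_Om_std (by norm_num) (by decide +kernel) (by decide) (by decide)
  · intro i
    fin_cases i
    · refine ⟨{setM 12}, Finset.card_singleton _, fun y hy => ⟨1, one_mem _, ?_⟩⟩
      rw [Finset.mem_singleton] at hy
      rw [one_smul, hy]; rfl
    · exact set_orbit_fin (fun m => Nat.mod m 1801) sGens_ok (by norm_num) s40_run (by norm_num)
    · exact set_orbit_fin (fun m => Nat.mod m 1801) sGens_ok (by norm_num) s30_run (by norm_num)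
    · exact set_orbit_fin (fun m => Nat.mod m 1801) sGens_ok (by norm_num) s160_run (by norm_num)
  · rw [Fin.sum_univ_four, Om_ncard (by decide)]
    rfl
  · intro g hg t _
    obtain ⟨hgM, g0, g1, gs⟩ := std_fix hg
    have h1 : (setM 12 ∩ g • t).card = (setM 12 ∩ t).card := by
      conv_lhs => rw [← gs]
      exact card_smul_inter g _ _
    have h2 := octProp_smul hgM (pt 0) (pt 1) (setM 12) t
    rw [g0, g1, gs] at h2
    exact Prod.ext h1 (propext h2)
  · intro i j hij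
    have hi := sF_fst i
    have hj := sF_fst j
    intro h
    rw [h] at hi
    rw [hi] at hj
    fin_cases i <;> fin_cases j
    all_goals first
      | exact absurd rfl hij
      | exact absurd hj (by decide)
      | exact sO3 (Eq.mp (show octProp (pt 0) (pt 1) (setM 12) (setM 144) =
          octProp (pt 0) (pt 1) (setM 12) (setM 48) from congrArg Prod.snd h) sO2)
      | exact sO3 (Eq.mpr (show octProp (pt 0) (pt 1) (setM 12) (setM 48) =
          octProp (pt 0) (pt 1) (setM 12) (setM 144) from congrArg Prod.snd h) sO2)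

/-- The statement for two points and a pair. -/
def Stmt (p q : GolayPt) (s : Finset GolayPt) : Prop :=
  {t : Finset GolayPt | (t.card = 2 ∧ p ∉ t ∧ q ∉ t) ∧ Disjoint s t ∧ octProp p q s t}.ncard = 30 ∧
  {t : Finset GolayPt | (t.card = 2 ∧ p ∉ t ∧ q ∉ t) ∧ Disjoint s t ∧ ¬ octProp p q s t}.ncard = 160 ∧
  ∀ t t' : Finset GolayPt, (t.card = 2 ∧ p ∉ t ∧ q ∉ t) → (t'.card = 2 ∧ p ∉ t' ∧ q ∉ t') → t ≠ s →
    t' ≠ s → (s ∩ t).card = (s ∩ t').card → (octProp p q s t ↔ octProp p q s t') →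
    ∃ g : Equiv.Perm GolayPt, g ∈ M24 ∧ g p = p ∧ g q = q ∧ g • s = s ∧ g • t = t'

theorem std_main : Stmt (pt 0) (pt 1) (setM 12) := by
  obtain ⟨hc, -, htr⟩ := std_classes
  have f2 : sF (sX 2) = (0, octProp (pt 0) (pt 1) (setM 12) (setM 144)) :=
    Prod.ext (sF_fst 2) rfl
  have f3 : sF (sX 3) = (0, octProp (pt 0) (pt 1) (setM 12) (setM 48)) :=
    Prod.ext (sF_fst 3) rfl
  have hdis : ∀ t : Finset GolayPt, Disjoint (setM 12) t ↔ (setM 12 ∩ t).card = 0 := by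
    intro t
    rw [Finset.card_eq_zero, Finset.disjoint_iff_inter_eq_empty]
  refine ⟨?_, ?_, ?_⟩
  · have e : {t : Finset GolayPt | (t.card = 2 ∧ pt 0 ∉ t ∧ pt 1 ∉ t) ∧ Disjoint (setM 12) t ∧
        octProp (pt 0) (pt 1) (setM 12) t} = {x | x ∈ Om (pt 0) (pt 1) ∧ sF x = sF (sX 2)} := by
      ext t
      rw [f2]
      constructor
      · rintro ⟨hΩ, hd, ho⟩
        exact ⟨hΩ, Prod.ext ((hdis t).1 hd) (propext ⟨fun _ => sO2, fun _ => ho⟩)⟩
      · rintro ⟨hΩ, hf⟩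
        exact ⟨hΩ, (hdis t).2 (congrArg Prod.fst hf), Eq.mpr (show octProp (pt 0) (pt 1) (setM 12) t =
          octProp (pt 0) (pt 1) (setM 12) (setM 144) from congrArg Prod.snd hf) sO2⟩
    rw [e, hc 2]
    rfl
  · have e : {t : Finset GolayPt | (t.card = 2 ∧ pt 0 ∉ t ∧ pt 1 ∉ t) ∧ Disjoint (setM 12) t ∧
        ¬ octProp (pt 0) (pt 1) (setM 12) t} = {x | x ∈ Om (pt 0) (pt 1) ∧ sF x = sF (sX 3)} := by
      ext t
      rw [f3]
      constructor
      · rintro ⟨hΩ, hd, ho⟩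
        exact ⟨hΩ, Prod.ext ((hdis t).1 hd) (propext ⟨fun h => absurd h ho, fun h => absurd h sO3⟩)⟩
      · rintro ⟨hΩ, hf⟩
        exact ⟨hΩ, (hdis t).2 (congrArg Prod.fst hf), fun ho => sO3 (Eq.mp (show
          octProp (pt 0) (pt 1) (setM 12) t = octProp (pt 0) (pt 1) (setM 12) (setM 48) from
          congrArg Prod.snd hf) ho)⟩
    rw [e, hc 3]
    rfl
  · intro t t' ht ht' _ _ hcard hiff
    obtain ⟨g, hg, e⟩ := htr t ht t' ht' (Prod.ext hcard (propext hiff))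
    obtain ⟨hgM, g0, g1, gs⟩ := std_fix hg
    exact ⟨g, hgM, g0, g1, gs, e⟩

theorem Stmt.smul {p q : GolayPt} {s : Finset GolayPt} (h : Stmt p q s) {u : Equiv.Perm GolayPt}
    (hu : u ∈ M24) : Stmt (u p) (u q) (u • s) := by
  obtain ⟨h1, h2, h3⟩ := h
  refine ⟨?_, ?_, ?_⟩
  · rw [← h1]
    exact ncard_smul_set u _ _ (fun t => by
      rw [Finset.card_smul_finset, apply_mem_smul_iff, apply_mem_smul_iff, smul_disjoint_iff,
        octProp_smul hu])
  · rw [← h2]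
    exact ncard_smul_set u _ _ (fun t => by
      rw [Finset.card_smul_finset, apply_mem_smul_iff, apply_mem_smul_iff, smul_disjoint_iff,
        octProp_smul hu])
  · intro t t' ht ht' hne hne' hcard hiff
    have ho : ∀ x : Finset GolayPt, octProp p q s (u⁻¹ • x) ↔ octProp (u p) (u q) (u • s) x := by
      intro x
      rw [← octProp_smul hu p q s (u⁻¹ • x), smul_inv_smul]
    obtain ⟨g, hg, hgp, hgq, hgs, hgt⟩ := h3 (u⁻¹ • t) (u⁻¹ • t')
      ⟨by rw [Finset.card_smul_finset]; exact ht.1, by rw [mem_inv_smul_iff]; exact ht.2.1,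
        by rw [mem_inv_smul_iff]; exact ht.2.2⟩
      ⟨by rw [Finset.card_smul_finset]; exact ht'.1, by rw [mem_inv_smul_iff]; exact ht'.2.1,
        by rw [mem_inv_smul_iff]; exact ht'.2.2⟩
      (fun e => hne (by rw [← e, smul_inv_smul]))
      (fun e => hne' (by rw [← e, smul_inv_smul]))
      (by rw [card_inter_inv_smul, card_inter_inv_smul, hcard])
      (by rw [ho, ho]; exact hiff)
    exact ⟨u * g * u⁻¹, conj_mem hu hg, conj_fix hgp, conj_fix hgq, conj_stab hgs, conj_map hgt⟩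

/-- Two points and a pair of further points are the images of the standard ones. -/
theorem exists_m24_std {p q : GolayPt} (hpq : p ≠ q) {s : Finset GolayPt} (hs : s.card = 2) (hp : p ∉ s)
    (hq : q ∉ s) : ∃ u ∈ M24, u (pt 0) = p ∧ u (pt 1) = q ∧ u • setM 12 = s := by
  classical
  have hne : ∃ e, e ∉ insert p (insert q s) := by
    by_contra h
    have h' : ∀ e, e ∈ insert p (insert q s) := fun e => by_contra fun he => h ⟨e, he⟩
    have e : insert p (insert q s) = Finset.univ := Finset.eq_univ_iff_forall.2 h'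
    have hc := Finset.card_insert_le p (insert q s)
    have hc' := Finset.card_insert_le q s
    rw [e, Finset.card_univ, Helper26.card_golayPt] at hc
    omega
  obtain ⟨e, he⟩ := hne
  rw [Finset.mem_insert, Finset.mem_insert, not_or, not_or] at he
  obtain ⟨u, hu, hys⟩ := exists_m24_toList (t := s) (es := [e, p, q]) (by rw [hs]; rfl)
    (by
      rw [List.nodup_cons, List.nodup_cons]
      refine ⟨?_, ?_, List.nodup_singleton q⟩
      · simp only [List.mem_cons, List.not_mem_nil, or_false, not_or]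
        exact ⟨he.1, he.2.1⟩
      · rw [List.mem_singleton]; exact hpq)
    (fun a ha => by
      simp only [List.mem_cons, List.not_mem_nil, or_false] at ha
      rcases ha with rfl | rfl | rfl
      · exact he.2.2
      · exact hp
      · exact hq)
  have h0 : p = u (pt 0) := (List.cons.inj (List.cons.inj hys).2).1
  have h1 : q = u (pt 1) := (List.cons.inj (List.cons.inj (List.cons.inj hys).2).2).1
  have hl : s.toList = [u (pt 2), u (pt 3)] := (List.cons.inj (List.cons.inj (List.cons.inj hys).2).2).2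
  refine ⟨u, hu, h0.symm, h1.symm, ?_⟩
  symm
  apply Finset.eq_of_subset_of_card_le
  · intro x hx
    rw [← Finset.mem_toList, hl] at hx
    simp only [List.mem_cons, List.not_mem_nil, or_false] at hx
    rcases hx with rfl | rfl
    · exact (apply_mem_smul_iff _ _ _).2 (pt_mem_setM (by norm_num) (by decide))
    · exact (apply_mem_smul_iff _ _ _).2 (pt_mem_setM (by norm_num) (by decide))
  · rw [Finset.card_smul_finset, card_setM (by norm_num), hs]; decide

/-- Fix two points p ≠ q and a pair s of two further points. Among the pairs avoiding p, q and disjoint from s, exactly 30 lie in an octad together with p, q and s and exactly 160 do not; and any two pairs other than s that meet s in equally many points and agree on that octad property are carried to one another by an element of the group of the length-24 code fixing p, q and s. -/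
theorem result (p q : Cfsg.GolayPt) (hpq : p ≠ q) (s : Finset Cfsg.GolayPt) (hs : (s.card = 2 ∧ p ∉ s ∧ q ∉ s)) : {t : Finset Cfsg.GolayPt | (t.card = 2 ∧ p ∉ t ∧ q ∉ t) ∧ Disjoint s t ∧ (∃ o ∈ Cfsg.octads, p ∈ o ∧ q ∈ o ∧ s ∪ t ⊆ o)}.ncard = 30 ∧ {t : Finset Cfsg.GolayPt | (t.card = 2 ∧ p ∉ t ∧ q ∉ t) ∧ Disjoint s t ∧ ¬ (∃ o ∈ Cfsg.octads, p ∈ o ∧ q ∈ o ∧ s ∪ t ⊆ o)}.ncard = 160 ∧ ∀ t t' : Finset Cfsg.GolayPt, (t.card = 2 ∧ p ∉ t ∧ q ∉ t) → (t'.card = 2 ∧ p ∉ t' ∧ q ∉ t') → t ≠ s → t' ≠ s → (s ∩ t).card = (s ∩ t').card → ((∃ o ∈ Cfsg.octads, p ∈ o ∧ q ∈ o ∧ s ∪ t ⊆ o) ↔ (∃ o ∈ Cfsg.octads, p ∈ o ∧ q ∈ o ∧ s ∪ t' ⊆ o)) → ∃ g : Equiv.Perm Cfsg.GolayPt, g ∈ Cfsg.M24 ∧ g p = p ∧ g q = q ∧ g • s = s ∧ g • t = t' := by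
  obtain ⟨u, hu, rfl, rfl, rfl⟩ := exists_m24_std hpq hs.1 hs.2.1 hs.2.2
  exact std_main.smul hu

end Cfsg.Agent.S1638
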