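import Cfsg.Statements.S1680
import Cfsg.Agent.Helper28.C1680.OrbAll

set_option autoImplicit false
open Cfsg

namespace Cfsg.Agent.S1680

/-- In the presented sporadic Suzuki group, let H be the subgroup generated by the images of a, …, f. Then H has index 1782, H has orbits of sizes 416 and 1365 on the cosets of H other than H itself (with the index 1782 this makes the action rank 3). -/
theorem result : (((Subgroup.closure ({Cfsg.Spor.Suz.a, Cfsg.Spor.Suz.b, Cfsg.Spor.Suz.c, Cfsg.Spor.Suz.d, Cfsg.Spor.Suz.e, Cfsg.Spor.Suz.f} : Set (FreeGroup Cfsg.Spor.Suz.Gen))).map (PresentedGroup.mk (Cfsg.Spor.coxRelators Cfsg.Spor.Suz.edges ∪ {r | r ∈ Cfsg.Spor.Suz.extra})))).index = 1782 ∧ ∃ q₁ q₂ : Cfsg.Spor.Suz ⧸ (((Subgroup.closure ({Cfsg.Spor.Suz.a, Cfsg.Spor.Suz.b, Cfsg.Spor.Suz.c, Cfsg.Spor.Suz.d, Cfsg.Spor.Suz.e, Cfsg.Spor.Suz.f} : Set (FreeGroup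 Cfsg.Spor.Suz.Gen))).map (PresentedGroup.mk (Cfsg.Spor.coxRelators Cfsg.Spor.Suz.edges ∪ {r | r ∈ Cfsg.Spor.Suz.extra})))), (MulAction.orbit (((Subgroup.closure ({Cfsg.Spor.Suz.a, Cfsg.Spor.Suz.b, Cfsg.Spor.Suz.c, Cfsg.Spor.Suz.d, Cfsg.Spor.Suz.e, Cfsg.Spor.Suz.f} : Set (FreeGroup Cfsg.Spor.Suz.Gen))).map (PresentedGroup.mk (Cfsg.Spor.coxRelators Cfsg.Spor.Suz.edges ∪ {r | r ∈ Cfsg.Spor.Suz.extra})))) q₁).ncard = 416 ∧ (MulAction.orbit (((Subgroup.closure ({Cfsg.Spor.Suz.a, Cfsg.Spor.Suz.b, Cfsg.Spor.Suz.c, Cfsg.Spor.Suz.d, Cfsg.Spor.Suz.e, Cfsg.Spor.Suz.f} : Set (FreeGroup Cfsg.Spor.Suz.Gen))).map (PresentedGroup.mk (Cfsg.Spor.coxRelators Cfsg.Spor.Suz.edges ∪ {r | r ∈ Cfsg.Spor.Suz.extra})))) q₂).ncard = 1365 := by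
  obtain ⟨e, he, _⟩ := Cfsg.Agent.Helper28.C1680.cert.exists_equiv
  have o1 := Cfsg.Agent.Helper28.C1680.cert.orbit_cert e he 416 Cfsg.Agent.Helper28.C1680.ov1 Cfsg.Agent.Helper28.C1680.op1 Cfsg.Agent.Helper28.C1680.otp1 Cfsg.Agent.Helper28.C1680.otw1 (by decide) Cfsg.Agent.Helper28.C1680.orb1_all Cfsg.Agent.Helper28.C1680.ov1_lt
  have o2 := Cfsg.Agent.Helper28.C1680.cert.orbit_cert e he 1365 Cfsg.Agent.Helper28.C1680.ov2 Cfsg.Agent.Helper28.C1680.op2 Cfsg.Agent.Helper28.C1680.otp2 Cfsg.Agent.Helper28.C1680.otw2 (by decide) Cfsg.Agent.Helper28.C1680.orb2_all Cfsg.Agent.Helper28.C1680.ov2_lt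
  exact ⟨Cfsg.Agent.Helper28.C1680.cert.index_eq, e.symm ⟨Cfsg.Agent.Helper28.C1680.ov1 0, Cfsg.Agent.Helper28.C1680.ov1_lt⟩, e.symm ⟨Cfsg.Agent.Helper28.C1680.ov2 0, Cfsg.Agent.Helper28.C1680.ov2_lt⟩, o1.1, o2.1⟩

end Cfsg.Agent.S1680
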