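import Cfsg.Statements.S1683
import Cfsg.Agent.Helper28.C1683.OrbAll

set_option autoImplicit false
open Cfsg

namespace Cfsg.Agent.S1683

/-- In the presented Held group, let H be the subgroup generated by the images of a, c, d, e, f, (ab)^2 and (bcde)^7. Then H has index 2058, there are four distinct H-orbits on the cosets of H other than H itself, of sizes 136, 136, 425 and 1360. -/
theorem result : (((Subgroup.closure ({Cfsg.Spor.He.a, Cfsg.Spor.He.c, Cfsg.Spor.He.d, Cfsg.Spor.He.e, Cfsg.Spor.He.f, (Cfsg.Spor.He.a * Cfsg.Spor.He.b) ^ 2, (Cfsg.Spor.He.b * Cfsg.Spor.He.c * Cfsg.Spor.He.d * Cfsg.Spor.He.e) ^ 7} : Set (FreeGroup Cfsg.Spor.He.Gen))).map (PresentedGroup.mk (Cfsg.Spor.coxRelators Cfsg.Spor.He.edges ∪ {r | r ∈ Cfsg.Spor.He.extra})))).index = 2058 ∧ ∃ q₁ q₂ q₃ q₄ : Cfsg.Spor.He ⧸ (((Subgroup.closure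 ({Cfsg.Spor.He.a, Cfsg.Spor.He.c, Cfsg.Spor.He.d, Cfsg.Spor.He.e, Cfsg.Spor.He.f, (Cfsg.Spor.He.a * Cfsg.Spor.He.b) ^ 2, (Cfsg.Spor.He.b * Cfsg.Spor.He.c * Cfsg.Spor.He.d * Cfsg.Spor.He.e) ^ 7} : Set (FreeGroup Cfsg.Spor.He.Gen))).map (PresentedGroup.mk (Cfsg.Spor.coxRelators Cfsg.Spor.He.edges ∪ {r | r ∈ Cfsg.Spor.He.extra})))), MulAction.orbit (((Subgroup.closure ({Cfsg.Spor.He.a, Cfsg.Spor.He.c, Cfsg.Spor.He.d, Cfsg.Spor.He.e, Cfsg.Spor.He.f, (Cfsg.Spor.He.a * Cfsg.Spor.He.b) ^ 2, (Cfsg.Spor.He.b * Cfsg.Spor.He.c * Cfsg.Spor.He.d * Cfsg.Spor.He.e) ^ 7} : Set (FreeGroup Cfsg.Spor.He.Gen))).map (PresentedGroup.mk (Cfsg.Spor.coxRelators Cfsg.Spor.He.edges ∪ {r | r ∈ Cfsg.Spor.He.extra})))) q₁ ≠ MulAction.orbit (((Subgroup.closure ({Cfsg.Spor.He.a, Cfsg.Spor.He.c, Cfsg.Spor.He.d, Cfsg.Spor.He.e, Cfsg.Spor.He.f,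 (Cfsg.Spor.He.a * Cfsg.Spor.He.b) ^ 2, (Cfsg.Spor.He.b * Cfsg.Spor.He.c * Cfsg.Spor.He.d * Cfsg.Spor.He.e) ^ 7} : Set (FreeGroup Cfsg.Spor.He.Gen))).map (PresentedGroup.mk (Cfsg.Spor.coxRelators Cfsg.Spor.He.edges ∪ {r | r ∈ Cfsg.Spor.He.extra})))) q₂ ∧ (MulAction.orbit (((Subgroup.closure ({Cfsg.Spor.He.a, Cfsg.Spor.He.c, Cfsg.Spor.He.d, Cfsg.Spor.He.e, Cfsg.Spor.He.f, (Cfsg.Spor.He.a * Cfsg.Spor.He.b) ^ 2, (Cfsg.Spor.He.b * Cfsg.Spor.He.c * Cfsg.Spor.He.d * Cfsg.Spor.He.e) ^ 7} : Set (FreeGroup Cfsg.Spor.He.Gen))).map (PresentedGroup.mk (Cfsg.Spor.coxRelators Cfsg.Spor.He.edges ∪ {r | r ∈ Cfsg.Spor.He.extra})))) q₁).ncard = 136 ∧ (MulAction.orbit (((Subgroup.closure ({Cfsg.Spor.He.a, Cfsg.Spor.He.c, Cfsg.Spor.He.d, Cfsg.Spor.He.e, Cfsg.Spor.He.f, (Cfsg.Spor.He.a * Cfsg.Spor.He.b) ^ 2, (Cfsg.Spor.He.b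 * Cfsg.Spor.He.c * Cfsg.Spor.He.d * Cfsg.Spor.He.e) ^ 7} : Set (FreeGroup Cfsg.Spor.He.Gen))).map (PresentedGroup.mk (Cfsg.Spor.coxRelators Cfsg.Spor.He.edges ∪ {r | r ∈ Cfsg.Spor.He.extra})))) q₂).ncard = 136 ∧ (MulAction.orbit (((Subgroup.closure ({Cfsg.Spor.He.a, Cfsg.Spor.He.c, Cfsg.Spor.He.d, Cfsg.Spor.He.e, Cfsg.Spor.He.f, (Cfsg.Spor.He.a * Cfsg.Spor.He.b) ^ 2, (Cfsg.Spor.He.b * Cfsg.Spor.He.c * Cfsg.Spor.He.d * Cfsg.Spor.He.e) ^ 7} : Set (FreeGroup Cfsg.Spor.He.Gen))).map (PresentedGroup.mk (Cfsg.Spor.coxRelators Cfsg.Spor.He.edges ∪ {r | r ∈ Cfsg.Spor.He.extra})))) q₃).ncard = 425 ∧ (MulAction.orbit (((Subgroup.closure ({Cfsg.Spor.He.a, Cfsg.Spor.He.c, Cfsg.Spor.He.d, Cfsg.Spor.He.e, Cfsg.Spor.He.f, (Cfsg.Spor.He.a * Cfsg.Spor.He.b) ^ 2, (Cfsg.Spor.He.b * Cfsg.Spor.He.c * Cfsg.Spor.He.d * Cfsg.Spor.He.e)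 ^ 7} : Set (FreeGroup Cfsg.Spor.He.Gen))).map (PresentedGroup.mk (Cfsg.Spor.coxRelators Cfsg.Spor.He.edges ∪ {r | r ∈ Cfsg.Spor.He.extra})))) q₄).ncard = 1360 := by
  obtain ⟨e, he, _⟩ := Cfsg.Agent.Helper28.C1683.cert.exists_equiv
  have o1 := Cfsg.Agent.Helper28.C1683.cert.orbit_cert e he 136 Cfsg.Agent.Helper28.C1683.ov1 Cfsg.Agent.Helper28.C1683.op1 Cfsg.Agent.Helper28.C1683.otp1 Cfsg.Agent.Helper28.C1683.otw1 (by decide) Cfsg.Agent.Helper28.C1683.orb1_all Cfsg.Agent.Helper28.C1683.ov1_lt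
  have o2 := Cfsg.Agent.Helper28.C1683.cert.orbit_cert e he 136 Cfsg.Agent.Helper28.C1683.ov2 Cfsg.Agent.Helper28.C1683.op2 Cfsg.Agent.Helper28.C1683.otp2 Cfsg.Agent.Helper28.C1683.otw2 (by decide) Cfsg.Agent.Helper28.C1683.orb2_all Cfsg.Agent.Helper28.C1683.ov2_lt
  have o3 := Cfsg.Agent.Helper28.C1683.cert.orbit_cert e he 425 Cfsg.Agent.Helper28.C1683.ov3 Cfsg.Agent.Helper28.C1683.op3 Cfsg.Agent.Helper28.C1683.otp3 Cfsg.Agent.Helper28.C1683.otw3 (by decide) Cfsg.Agent.Helper28.C1683.orb3_all Cfsg.Agent.Helper28.C1683.ov3_lt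
  have o4 := Cfsg.Agent.Helper28.C1683.cert.orbit_cert e he 1360 Cfsg.Agent.Helper28.C1683.ov4 Cfsg.Agent.Helper28.C1683.op4 Cfsg.Agent.Helper28.C1683.otp4 Cfsg.Agent.Helper28.C1683.otw4 (by decide) Cfsg.Agent.Helper28.C1683.orb4_all Cfsg.Agent.Helper28.C1683.ov4_lt
  refine ⟨Cfsg.Agent.Helper28.C1683.cert.index_eq, e.symm ⟨Cfsg.Agent.Helper28.C1683.ov1 0, Cfsg.Agent.Helper28.C1683.ov1_lt⟩, e.symm ⟨Cfsg.Agent.Helper28.C1683.ov2 0, Cfsg.Agent.Helper28.C1683.ov2_lt⟩, e.symm ⟨Cfsg.Agent.Helper28.C1683.ov3 0, Cfsg.Agent.Helper28.C1683.ov3_lt⟩, e.symm ⟨Cfsg.Agent.Helper28.C1683.ov4 0, Cfsg.Agent.Helper28.C1683.ov4_lt⟩, ?_, o1.1, o2.1, o3.1, o4.1⟩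
  intro heq
  have h2 := (o2.2 (e.symm ⟨Cfsg.Agent.Helper28.C1683.ov1 0, Cfsg.Agent.Helper28.C1683.ov1_lt⟩)).mp (by rw [← heq]; exact MulAction.mem_orbit_self _)
  rw [Equiv.apply_symm_apply] at h2
  exact Cfsg.Agent.Helper28.C1683.orb12_ne h2.2

end Cfsg.Agent.S1683
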