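import Cfsg.Statements.S1691
-- import your own Cfsg.Agent.* helpers here

set_option autoImplicit false
open Cfsg

namespace Cfsg.Agent.S1691

open Cfsg.Spor

/-- The sign map on generators: every generator goes to the generator of the group of order 2. -/
def sgnf : Fi24.Gen → Multiplicative (ZMod 2) := fun _ => Multiplicative.ofAdd 1

theorem two_sq : (Multiplicative.ofAdd (1 : ZMod 2)) * Multiplicative.ofAdd 1 = 1 := by
  decide

theorem sgn_rel : ∀ r ∈ coxRelators Fi24.edges ∪ {r | r ∈ Fi24.extra}, FreeGroup.lift sgnf r = 1 := by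
  intro r hr
  rcases hr with hr | hr
  · obtain ⟨x, _, y, _, rfl⟩ := hr
    rw [map_pow, map_mul, FreeGroup.lift_apply_of, FreeGroup.lift_apply_of]
    unfold sgnf
    rw [two_sq, one_pow]
  · have hr' : r ∈ Fi24.extra := hr
    simp only [Fi24.extra, List.mem_cons, List.not_mem_nil, or_false] at hr'
    rcases hr' with rfl | rfl
    · simp only [map_mul, map_inv, map_pow, FreeGroup.lift_apply_of, sgnf]
      decide
    · simp only [map_mul, map_pow, FreeGroup.lift_apply_of, sgnf]
      decide

/-- The sign map on the presented group. -/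
def sgn : Fi24 →* Multiplicative (ZMod 2) := PresentedGroup.toGroup sgn_rel

theorem sgn_surj : Function.Surjective sgn := by
  intro z
  have h : sgn (PresentedGroup.of Fi24.Gen.d) = Multiplicative.ofAdd 1 :=
    PresentedGroup.toGroup.of sgn_rel
  have hz : z = 1 ∨ z = Multiplicative.ofAdd 1 := by
    revert z; decide
  rcases hz with rfl | rfl
  · exact ⟨1, map_one _⟩
  · exact ⟨_, h⟩

theorem ker_index : (sgn.ker).index = 2 := by
  rw [Subgroup.index_ker, MonoidHom.range_eq_top.mpr sgn_surj]
  simp [Nat.card_eq_fintype_card]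

/-- The image of a generator in the abelianisation. -/
noncomputable def gb (x : Fi24.Gen) : Abelianization Fi24 :=
  Abelianization.of (PresentedGroup.of x)

theorem node_mem (x : Fi24.Gen) : x ∈ coxNodes Fi24.edges := by
  cases x <;> decide

theorem gb_sq (x : Fi24.Gen) : gb x * gb x = 1 := by
  have h : (PresentedGroup.of x : Fi24) * PresentedGroup.of x = 1 := by
    have : (FreeGroup.of x * FreeGroup.of x) ^ coxLabel Fi24.edges x x ∈
        coxRelators Fi24.edges ∪ {r | r ∈ Fi24.extra} :=
      Or.inl ⟨x, node_mem x, x, node_mem x, rfl⟩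
    have h1 := PresentedGroup.one_of_mem this
    have h2 : coxLabel Fi24.edges x x = 1 := by simp [coxLabel]
    rw [h2, pow_one] at h1
    simpa [PresentedGroup.of] using h1
  unfold gb
  rw [← map_mul, h, map_one]

theorem gb_edge (x y : Fi24.Gen) (h3 : coxLabel Fi24.edges x y = 3) : gb x = gb y := by
  have h : ((PresentedGroup.of x : Fi24) * PresentedGroup.of y) ^ 3 = 1 := by
    have : (FreeGroup.of x * FreeGroup.of y) ^ coxLabel Fi24.edges x y ∈
        coxRelators Fi24.edges ∪ {r | r ∈ Fi24.extra} :=
      Or.inl ⟨x, node_mem x, y, node_mem y, rfl⟩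
    have h1 := PresentedGroup.one_of_mem this
    rw [h3] at h1
    simpa [PresentedGroup.of] using h1
  have h' : (gb x * gb y) ^ 3 = 1 := by
    unfold gb
    rw [← map_mul, ← map_pow, h, map_one]
  have hx := gb_sq x
  have hy := gb_sq y
  have e1 : (gb x * gb y) ^ 3 = (gb x * gb x) * (gb y * gb y) * (gb x * gb y) := by
    rw [pow_succ, pow_two]
    simp only [mul_assoc, mul_left_comm, mul_comm]
  rw [e1, hx, hy, one_mul, one_mul] at h'
  -- gb x * gb y = 1 and gb y * gb y = 1
  have : gb x * gb y = gb y * gb y := by rw [h', hy]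
  exact mul_right_cancel this

theorem gb_all (x : Fi24.Gen) : gb x = gb Fi24.Gen.d := by
  have hc : gb Fi24.Gen.c = gb Fi24.Gen.d := gb_edge _ _ (by decide)
  have hb : gb Fi24.Gen.b = gb Fi24.Gen.c := gb_edge _ _ (by decide)
  have ha : gb Fi24.Gen.a = gb Fi24.Gen.b := gb_edge _ _ (by decide)
  have hk : gb Fi24.Gen.k = gb Fi24.Gen.a := gb_edge _ _ (by decide)
  have hl : gb Fi24.Gen.l = gb Fi24.Gen.k := gb_edge _ _ (by decide)
  have he : gb Fi24.Gen.e = gb Fi24.Gen.d := gb_edge _ _ (by decide)
  have hf : gb Fi24.Gen.f = gb Fi24.Gen.e := gb_edge _ _ (by decide)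
  have hg : gb Fi24.Gen.g = gb Fi24.Gen.f := gb_edge _ _ (by decide)
  have hj : gb Fi24.Gen.j = gb Fi24.Gen.g := gb_edge _ _ (by decide)
  have hh : gb Fi24.Gen.h = gb Fi24.Gen.d := gb_edge _ _ (by decide)
  have hi : gb Fi24.Gen.i = gb Fi24.Gen.h := gb_edge _ _ (by decide)
  cases x
  · rw [hl, hk, ha, hb, hc]
  · rw [hk, ha, hb, hc]
  · rw [ha, hb, hc]
  · rw [hb, hc]
  · rw [hc]
  · rfl
  · rw [he]
  · rw [hf, he]
  · rw [hg, hf, he]
  · rw [hj, hg, hf, he]
  · rw [hh]
  · rw [hi, hh]

theorem ab_cases_aux (w : FreeGroup Fi24.Gen) :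
    Abelianization.of (PresentedGroup.mk (coxRelators Fi24.edges ∪ {r | r ∈ Fi24.extra}) w) = 1 ∨
    Abelianization.of (PresentedGroup.mk (coxRelators Fi24.edges ∪ {r | r ∈ Fi24.extra}) w)
      = gb Fi24.Gen.d := by
  induction w using FreeGroup.induction_on with
  | C1 => left; simp
  | of x =>
    right
    exact gb_all x
  | inv_of x ih =>
    right
    rw [map_inv, map_inv]
    have : Abelianization.of (PresentedGroup.mk (coxRelators Fi24.edges ∪ {r | r ∈ Fi24.extra})
        (FreeGroup.of x)) = gb x := rfl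
    rw [this, inv_eq_of_mul_eq_one_left (gb_sq x)]
    exact gb_all x
  | mul a b iha ihb =>
    rw [map_mul, map_mul]
    rcases iha with iha | iha <;> rcases ihb with ihb | ihb <;> rw [iha, ihb]
    · left; simp
    · right; simp
    · right; simp
    · left; exact gb_sq _

theorem ab_cases (z : Abelianization Fi24) : z = 1 ∨ z = gb Fi24.Gen.d := by
  obtain ⟨y, rfl⟩ := QuotientGroup.mk_surjective (s := commutator Fi24) z
  obtain ⟨w, rfl⟩ := PresentedGroup.mk_surjective _ y
  exact ab_cases_aux w

/-- The commutator subgroup of the presented group Fi₂₄ has index 2 (the presented group is Fi₂₄′:2 with Fi₂₄′ its derived subgroup). -/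
theorem result : (commutator Cfsg.Spor.Fi24).index = 2 := by
  have hle : commutator Fi24 ≤ sgn.ker := Abelianization.commutator_subset_ker sgn
  have hdvd : 2 ∣ (commutator Fi24).index := by
    have := Subgroup.index_dvd_of_le hle
    rwa [ker_index] at this
  have hsurj : Function.Surjective (fun b : Bool => if b then (1 : Abelianization Fi24) else gb Fi24.Gen.d) := by
    intro z
    rcases ab_cases z with h | h
    · exact ⟨true, by simp [h]⟩
    · exact ⟨false, by simp [h]⟩
  have hfin : Finite (Abelianization Fi24) := Finite.of_surjective _ hsurj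
  have hcard : Nat.card (Abelianization Fi24) ≤ 2 := by
    have := Nat.card_le_card_of_surjective _ hsurj
    simpa using this
  have hidx : (commutator Fi24).index = Nat.card (Abelianization Fi24) := rfl
  have hpos : 0 < Nat.card (Abelianization Fi24) := Nat.card_pos
  rw [hidx] at hdvd ⊢
  have := Nat.le_of_dvd hpos hdvd
  omega

end Cfsg.Agent.S1691
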