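import Cfsg.Statements.S1717
import Cfsg.Agent.Helper29.SylowCentralizer

set_option autoImplicit false
open Cfsg

namespace Cfsg.Agent.S1717

open scoped Pointwise

/-- `5 × 5` matrices over the field with two elements. -/
abbrev M5 := Matrix (Fin 5) (Fin 5) (ZMod 2)

/-- `SL(5, 2)`. -/
abbrev SL5 := Matrix.SpecialLinearGroup (Fin 5) (ZMod 2)

/-- The pattern of the unipotent radical of the centraliser of the transvection `1 + E₀₁`:
outside row `0` and column `1` the matrix agrees with the identity. -/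
def Pat (A : M5) : Prop :=
  ∀ i j : Fin 5, i ≠ 0 → j ≠ 1 → A i j = (1 : M5) i j

theorem Pat.one : Pat 1 := fun _ _ _ _ => rfl

theorem Pat.mul {A B : M5} (hA : Pat A) (hB : Pat B) : Pat (A * B) := by
  intro i j hi hj
  rw [Matrix.mul_apply, Fin.sum_univ_five]
  rw [hA i 0 hi (by decide), hA i 2 hi (by decide), hA i 3 hi (by decide), hA i 4 hi (by decide),
      hB 1 j (by decide) hj, hB 2 j (by decide) hj, hB 3 j (by decide) hj, hB 4 j (by decide) hj]
  fin_cases i <;> fin_cases j <;>
    first
    | exact absurd rfl hi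
    | exact absurd rfl hj
    | simp [Matrix.one_apply]

theorem zmod2_cases (x : ZMod 2) : x = 0 ∨ x = 1 := by
  revert x; decide

theorem explicit_sq (a1 a2 a3 a4 b2 b3 b4 : ZMod 2) :
    (!![1, a1, a2, a3, a4; 0, 1, 0, 0, 0; 0, b2, 1, 0, 0; 0, b3, 0, 1, 0; 0, b4, 0, 0, 1] : M5) *
    (!![1, a1, a2, a3, a4; 0, 1, 0, 0, 0; 0, b2, 1, 0, 0; 0, b3, 0, 1, 0; 0, b4, 0, 0, 1] : M5) =
    !![1, a2 * b2 + a3 * b3 + a4 * b4, 0, 0, 0; 0, 1, 0, 0, 0; 0, 0, 1, 0, 0; 0, 0, 0, 1, 0;
      0, 0, 0, 0, 1] := by
  ext i j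
  fin_cases i <;> fin_cases j <;>
    simp [Matrix.mul_apply, Fin.sum_univ_five, CharTwo.add_self_eq_zero]

theorem explicit_sq' (c : ZMod 2) :
    (!![1, c, 0, 0, 0; 0, 1, 0, 0, 0; 0, 0, 1, 0, 0; 0, 0, 0, 1, 0; 0, 0, 0, 0, 1] : M5) *
    (!![1, c, 0, 0, 0; 0, 1, 0, 0, 0; 0, 0, 1, 0, 0; 0, 0, 0, 1, 0; 0, 0, 0, 0, 1] : M5) = 1 := by
  ext i j
  fin_cases i <;> fin_cases j <;>
    simp [Matrix.mul_apply, Fin.sum_univ_five, CharTwo.add_self_eq_zero]

theorem explicit_pow (a1 a2 a3 a4 b2 b3 b4 : ZMod 2) :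
    (!![1, a1, a2, a3, a4; 0, 1, 0, 0, 0; 0, b2, 1, 0, 0; 0, b3, 0, 1, 0; 0, b4, 0, 0, 1] : M5) ^ 4
      = 1 := by
  have h4 : ∀ M : M5, M ^ 4 = (M * M) * (M * M) := fun M => by
    rw [pow_succ, pow_succ, pow_succ, pow_one, mul_assoc]
  rw [h4, explicit_sq, explicit_sq']

theorem Pat.eq_explicit {A : M5} (hA : Pat A) (hdet : A.det = 1) :
    A = !![1, A 0 1, A 0 2, A 0 3, A 0 4; 0, 1, 0, 0, 0; 0, A 2 1, 1, 0, 0; 0, A 3 1, 0, 1, 0;
      0, A 4 1, 0, 0, 1] := by
  have h00 : A 0 0 = 1 := by
    rcases zmod2_cases (A 0 0) with h | h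
    · exfalso
      have h0 : A.det = 0 := Matrix.det_eq_zero_of_column_eq_zero 0 (fun i => by
        by_cases hi : i = 0
        · rw [hi]; exact h
        · rw [hA i 0 hi (by decide)]; simp [hi])
      rw [h0] at hdet
      exact zero_ne_one hdet
    · exact h
  have h11 : A 1 1 = 1 := by
    rcases zmod2_cases (A 1 1) with h | h
    · exfalso
      have h0 : A.det = 0 := Matrix.det_eq_zero_of_row_eq_zero 1 (fun j => by
        by_cases hj : j = 1
        · rw [hj]; exact h
        · rw [hA 1 j (by decide) hj]; simp [Ne.symm hj])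
      rw [h0] at hdet
      exact zero_ne_one hdet
    · exact h
  have e10 : A 1 0 = 0 := by simpa using hA 1 0 (by decide) (by decide)
  have e12 : A 1 2 = 0 := by simpa using hA 1 2 (by decide) (by decide)
  have e13 : A 1 3 = 0 := by simpa using hA 1 3 (by decide) (by decide)
  have e14 : A 1 4 = 0 := by simpa using hA 1 4 (by decide) (by decide)
  have e20 : A 2 0 = 0 := by simpa using hA 2 0 (by decide) (by decide)
  have e22 : A 2 2 = 1 := by simpa using hA 2 2 (by decide) (by decide)
  have e23 : A 2 3 = 0 := by simpa using hA 2 3 (by decide) (by decide)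
  have e24 : A 2 4 = 0 := by simpa using hA 2 4 (by decide) (by decide)
  have e30 : A 3 0 = 0 := by simpa using hA 3 0 (by decide) (by decide)
  have e32 : A 3 2 = 0 := by simpa using hA 3 2 (by decide) (by decide)
  have e33 : A 3 3 = 1 := by simpa using hA 3 3 (by decide) (by decide)
  have e34 : A 3 4 = 0 := by simpa using hA 3 4 (by decide) (by decide)
  have e40 : A 4 0 = 0 := by simpa using hA 4 0 (by decide) (by decide)
  have e42 : A 4 2 = 0 := by simpa using hA 4 2 (by decide) (by decide)
  have e43 : A 4 3 = 0 := by simpa using hA 4 3 (by decide) (by decide)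
  have e44 : A 4 4 = 1 := by simpa using hA 4 4 (by decide) (by decide)
  ext i j
  fin_cases i <;> fin_cases j <;>
    simp [h00, h11, e10, e12, e13, e14, e20, e22, e23, e24, e30, e32, e33, e34, e40, e42, e43, e44]

theorem Pat.pow_four {A : M5} (hA : Pat A) (hdet : A.det = 1) : A ^ 4 = 1 := by
  rw [hA.eq_explicit hdet]
  exact explicit_pow _ _ _ _ _ _ _

theorem Pat.transvection (a b : Fin 5) (h : a = 0 ∨ b = 1) :
    Pat (Matrix.transvection a b (1 : ZMod 2)) := by
  intro i j hi hj
  rw [Matrix.transvection, Matrix.add_apply, Matrix.single_apply]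
  rcases h with rfl | rfl
  · simp [Ne.symm hi]
  · simp [Ne.symm hj]

/-- The unipotent radical of the centraliser of the transvection `1 + E₀₁` in `SL(5, 2)`. -/
def U : Subgroup SL5 where
  carrier := {g | Pat (g : M5)}
  mul_mem' := fun {a b} ha hb => by
    change Pat ((a * b : SL5) : M5)
    rw [Matrix.SpecialLinearGroup.coe_mul]
    exact Pat.mul ha hb
  one_mem' := by
    change Pat ((1 : SL5) : M5)
    rw [Matrix.SpecialLinearGroup.coe_one]
    exact Pat.one
  inv_mem' := fun {a} ha => by
    have h4 : a ^ 4 = 1 := by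
      apply Subtype.ext
      rw [Matrix.SpecialLinearGroup.coe_pow]
      exact Pat.pow_four ha a.2
    have hinv : a⁻¹ = a * a * a := by
      calc a⁻¹ = a⁻¹ * a ^ 4 := by rw [h4, mul_one]
        _ = a * a * a := by rw [pow_succ, pow_succ, pow_succ, pow_one]; group
    change Pat ((a⁻¹ : SL5) : M5)
    rw [hinv, Matrix.SpecialLinearGroup.coe_mul, Matrix.SpecialLinearGroup.coe_mul]
    exact Pat.mul (Pat.mul ha ha) ha

theorem mem_U_iff (g : SL5) : g ∈ U ↔ Pat (g : M5) := Iff.rfl

theorem isPGroup_U : IsPGroup 2 U := by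
  intro g
  refine ⟨2, ?_⟩
  apply Subtype.ext
  apply Subtype.ext
  have h : ((g : SL5) : M5) ^ 4 = 1 := Pat.pow_four g.2 (g : SL5).2
  simpa using h

/-- The root element `1 + E_{ab}` of `SL(5, 2)`. -/
def root (a b : Fin 5) (hab : a ≠ b) : SL5 :=
  ⟨Matrix.transvection a b 1, Matrix.det_transvection_of_ne a b hab 1⟩

theorem root_mem_U (a b : Fin 5) (hab : a ≠ b) (h : a = 0 ∨ b = 1) : root a b hab ∈ U :=
  Pat.transvection a b h

theorem commute_single_of_comm (g : SL5) (a b : Fin 5) (hab : a ≠ b)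
    (h : g * root a b hab = root a b hab * g) :
    Commute (Matrix.single a b (1 : ZMod 2)) (g : M5) := by
  have h' : (g : M5) * Matrix.transvection a b 1 = Matrix.transvection a b 1 * (g : M5) :=
    congrArg (fun x : SL5 => (x : M5)) h
  rw [Matrix.transvection, mul_add, add_mul, mul_one, one_mul] at h'
  exact (add_left_cancel h').symm

/-- The root elements `1 + E_{ab}` commute with `1 + E₀₁` when `b ≠ 0` and `a ≠ 1`. -/
theorem root_comm (a b : Fin 5) (hab : a ≠ b) (hb : b ≠ 0) (ha : a ≠ 1) :
    root a b hab * root 0 1 (by decide) = root 0 1 (by decide) * root a b hab := by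
  apply Subtype.ext
  change Matrix.transvection a b (1 : ZMod 2) * Matrix.transvection 0 1 1 =
    Matrix.transvection 0 1 1 * Matrix.transvection a b 1
  have h1 : Matrix.single a b (1 : ZMod 2) * Matrix.single (0 : Fin 5) (1 : Fin 5) (1 : ZMod 2)
      = 0 := by simp [hb]
  have h2 : Matrix.single (0 : Fin 5) (1 : Fin 5) (1 : ZMod 2) * Matrix.single a b (1 : ZMod 2)
      = 0 := by simp [Ne.symm ha]
  simp only [Matrix.transvection, mul_add, add_mul, mul_one, one_mul]
  rw [h1, h2]
  abel

/-- An element of `SL(5, 2)` commuting with `1 + E₀₁` and with the six root elements generating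
the unipotent radical of its centraliser is `1` or `1 + E₀₁`. -/
theorem eq_one_or_eq_root (g : SL5)
    (h01 : g * root 0 1 (by decide) = root 0 1 (by decide) * g)
    (h02 : g * root 0 2 (by decide) = root 0 2 (by decide) * g)
    (h03 : g * root 0 3 (by decide) = root 0 3 (by decide) * g)
    (h04 : g * root 0 4 (by decide) = root 0 4 (by decide) * g)
    (h21 : g * root 2 1 (by decide) = root 2 1 (by decide) * g)
    (h31 : g * root 3 1 (by decide) = root 3 1 (by decide) * g)
    (h41 : g * root 4 1 (by decide) = root 4 1 (by decide) * g) :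
    g = 1 ∨ g = root 0 1 (by decide) := by
  have c01 := commute_single_of_comm g 0 1 _ h01
  have c02 := commute_single_of_comm g 0 2 _ h02
  have c03 := commute_single_of_comm g 0 3 _ h03
  have c04 := commute_single_of_comm g 0 4 _ h04
  have c21 := commute_single_of_comm g 2 1 _ h21
  have c31 := commute_single_of_comm g 3 1 _ h31
  have c41 := commute_single_of_comm g 4 1 _ h41
  -- column 0
  have e10 : (g : M5) 1 0 = 0 := Matrix.col_eq_zero_of_commute_single c01 (by decide)
  have e20 : (g : M5) 2 0 = 0 := Matrix.col_eq_zero_of_commute_single c01 (by decide)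
  have e30 : (g : M5) 3 0 = 0 := Matrix.col_eq_zero_of_commute_single c01 (by decide)
  have e40 : (g : M5) 4 0 = 0 := Matrix.col_eq_zero_of_commute_single c01 (by decide)
  -- row 1
  have e12 : (g : M5) 1 2 = 0 := Matrix.row_eq_zero_of_commute_single c01 (by decide)
  have e13 : (g : M5) 1 3 = 0 := Matrix.row_eq_zero_of_commute_single c01 (by decide)
  have e14 : (g : M5) 1 4 = 0 := Matrix.row_eq_zero_of_commute_single c01 (by decide)
  -- rows 2, 3, 4
  have e21 : (g : M5) 2 1 = 0 := Matrix.row_eq_zero_of_commute_single c02 (by decide)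
  have e23 : (g : M5) 2 3 = 0 := Matrix.row_eq_zero_of_commute_single c02 (by decide)
  have e24 : (g : M5) 2 4 = 0 := Matrix.row_eq_zero_of_commute_single c02 (by decide)
  have e31 : (g : M5) 3 1 = 0 := Matrix.row_eq_zero_of_commute_single c03 (by decide)
  have e32 : (g : M5) 3 2 = 0 := Matrix.row_eq_zero_of_commute_single c03 (by decide)
  have e34 : (g : M5) 3 4 = 0 := Matrix.row_eq_zero_of_commute_single c03 (by decide)
  have e41 : (g : M5) 4 1 = 0 := Matrix.row_eq_zero_of_commute_single c04 (by decide)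
  have e42 : (g : M5) 4 2 = 0 := Matrix.row_eq_zero_of_commute_single c04 (by decide)
  have e43 : (g : M5) 4 3 = 0 := Matrix.row_eq_zero_of_commute_single c04 (by decide)
  -- columns 2, 3, 4
  have e02 : (g : M5) 0 2 = 0 := Matrix.col_eq_zero_of_commute_single c21 (by decide)
  have e03 : (g : M5) 0 3 = 0 := Matrix.col_eq_zero_of_commute_single c31 (by decide)
  have e04 : (g : M5) 0 4 = 0 := Matrix.col_eq_zero_of_commute_single c41 (by decide)
  -- the diagonal
  have d1 : (g : M5) 0 0 = (g : M5) 1 1 := Matrix.diag_eq_of_commute_single c01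
  have d2 : (g : M5) 0 0 = (g : M5) 2 2 := Matrix.diag_eq_of_commute_single c02
  have d3 : (g : M5) 0 0 = (g : M5) 3 3 := Matrix.diag_eq_of_commute_single c03
  have d4 : (g : M5) 0 0 = (g : M5) 4 4 := Matrix.diag_eq_of_commute_single c04
  have h00 : (g : M5) 0 0 = 1 := by
    rcases zmod2_cases ((g : M5) 0 0) with h | h
    · exfalso
      have h0 : (g : M5).det = 0 := Matrix.det_eq_zero_of_column_eq_zero 0 (fun i => by
        fin_cases i
        · exact h
        · exact e10
        · exact e20
        · exact e30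
        · exact e40)
      have h1 : (g : M5).det = 1 := g.2
      rw [h0] at h1
      exact zero_ne_one h1
    · exact h
  have h11 : (g : M5) 1 1 = 1 := by rw [← d1]; exact h00
  have h22 : (g : M5) 2 2 = 1 := by rw [← d2]; exact h00
  have h33 : (g : M5) 3 3 = 1 := by rw [← d3]; exact h00
  have h44 : (g : M5) 4 4 = 1 := by rw [← d4]; exact h00
  rcases zmod2_cases ((g : M5) 0 1) with h | h
  · left
    apply Subtype.ext
    ext i j
    fin_cases i <;> fin_cases j <;>
      simp [h, h00, h11, h22, h33, h44, e10, e20, e30, e40, e12, e13, e14, e21,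
        e23, e24, e31, e32, e34, e41, e42, e43, e02, e03, e04]
  · right
    apply Subtype.ext
    ext i j
    fin_cases i <;> fin_cases j <;>
      simp [root, Matrix.transvection, h, h00, h11, h22,
        h33, h44, e10, e20, e30, e40, e12, e13, e14, e21, e23, e24, e31, e32, e34, e41, e42, e43,
        e02, e03, e04]

/-- The centraliser of `1 + E₀₁` in `SL(5, 2)`. -/
abbrev Cs : Subgroup SL5 := Subgroup.centralizer ({root 0 1 (by decide)} : Set SL5)

/-- A root element in the centraliser of `1 + E₀₁`. -/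
def rootC (a b : Fin 5) (hab : a ≠ b) (hb : b ≠ 0) (ha : a ≠ 1) : Cs :=
  ⟨root a b hab, Subgroup.mem_centralizer_singleton_iff.mpr (root_comm a b hab hb ha)⟩

/-- Key step: an element `y` of a group `C` isomorphic to the centraliser of `1 + E₀₁`,
commuting with the preimage of the unipotent radical, is mapped to `1` or to `1 + E₀₁`. -/
theorem key {C : Type*} [Group C] (e : C ≃* Cs) (y : C)
    (hy : ∀ q : C, ((e q : Cs) : SL5) ∈ U → y * q = q * y) :
    ((e y : Cs) : SL5) = 1 ∨ ((e y : Cs) : SL5) = root 0 1 (by decide) := by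
  have hroot : ∀ (a b : Fin 5) (hab : a ≠ b) (hb : b ≠ 0) (ha : a ≠ 1), (a = 0 ∨ b = 1) →
      ((e y : Cs) : SL5) * root a b hab = root a b hab * ((e y : Cs) : SL5) := by
    intro a b hab hb ha h
    have h1 := hy (e.symm (rootC a b hab hb ha)) (by
      rw [e.apply_symm_apply]
      exact root_mem_U a b hab h)
    have h2 := congrArg e h1
    rw [map_mul, map_mul, e.apply_symm_apply] at h2
    exact congrArg (fun c : Cs => (c : SL5)) h2
  apply eq_one_or_eq_root
  · exact Subgroup.mem_centralizer_singleton_iff.mp (e y).2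
  · exact hroot 0 2 (by decide) (by decide) (by decide) (Or.inl rfl)
  · exact hroot 0 3 (by decide) (by decide) (by decide) (Or.inl rfl)
  · exact hroot 0 4 (by decide) (by decide) (by decide) (Or.inl rfl)
  · exact hroot 2 1 (by decide) (by decide) (by decide) (Or.inr rfl)
  · exact hroot 3 1 (by decide) (by decide) (by decide) (Or.inr rfl)
  · exact hroot 4 1 (by decide) (by decide) (by decide) (Or.inr rfl)

/-- Let G be a finite group with an involution z whose centraliser C is isomorphic to the centraliser of a transvection of SL(5, 2). Then a Sylow 2-subgroup of C, viewed in G, is a Sylow 2-subgroup of G (its index in G is odd). -/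
theorem result {G : Type*} [Group G] [Finite G] (s : Matrix.SpecialLinearGroup (Fin 5) (ZMod 2)) (hs : (s : Matrix (Fin 5) (Fin 5) (ZMod 2)) = Matrix.transvection 0 1 1) (z : G) (hz : orderOf z = 2) (e : (Subgroup.centralizer ({z} : Set G)) ≃* Subgroup.centralizer ({s} : Set (Matrix.SpecialLinearGroup (Fin 5) (ZMod 2)))) (T : Sylow 2 (Subgroup.centralizer ({z} : Set G))) : ¬ 2 ∣ ((T : Subgroup (Subgroup.centralizer ({z} : Set G))).map (Subgroup.subtype (Subgroup.centralizer ({z} : Set G)))).index := by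
  classical
  have : Fact (Nat.Prime 2) := ⟨Nat.prime_two⟩
  obtain rfl : s = root 0 1 (by decide) := Subtype.ext hs
  apply Cfsg.Agent.Helper29.not_two_dvd_index_sylow_centralizer z hz T
  intro x hxT hxc hxo
  -- the preimage `P` of the unipotent radical is a 2-subgroup of the centraliser of `z`
  have hP : IsPGroup 2 ((U.subgroupOf Cs).comap e.toMonoidHom) :=
    (isPGroup_U.comap_of_injective Cs.subtype Cs.subtype_injective).comap_of_injective
      e.toMonoidHom e.injective
  obtain ⟨Q, hQ⟩ := hP.exists_le_sylow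
  obtain ⟨c, hc⟩ := MulAction.exists_smul_eq (Subgroup.centralizer ({z} : Set G)) Q T
  have hconj : ∀ q : ↥(Subgroup.centralizer ({z} : Set G)), ((e q : Cs) : SL5) ∈ U →
      c * q * c⁻¹ ∈ T := by
    intro q hq
    have hqQ : q ∈ (Q : Subgroup ↥(Subgroup.centralizer ({z} : Set G))) := hQ hq
    have h1 : MulAut.conj c • q ∈
        MulAut.conj c • (Q : Subgroup ↥(Subgroup.centralizer ({z} : Set G))) :=
      Subgroup.smul_mem_pointwise_smul _ _ _ hqQ
    rw [← Sylow.coe_subgroup_smul, hc] at h1
    exact h1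
  -- `z` as an element of its centraliser
  have hzC : z ∈ Subgroup.centralizer ({z} : Set G) :=
    Subgroup.mem_centralizer_singleton_iff.mpr rfl
  have hzcomm : ∀ q : ↥(Subgroup.centralizer ({z} : Set G)),
      (⟨z, hzC⟩ : ↥(Subgroup.centralizer ({z} : Set G))) * q = q * ⟨z, hzC⟩ := by
    intro q
    exact Subtype.ext (Subgroup.mem_centralizer_singleton_iff.mp q.2).symm
  -- the image of `z` is `1 + E₀₁`
  have hez : ((e ⟨z, hzC⟩ : Cs) : SL5) = root 0 1 (by decide) := by
    rcases key e ⟨z, hzC⟩ (fun q _ => hzcomm q) with h | h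
    · exfalso
      have h1 : e ⟨z, hzC⟩ = 1 := Subtype.ext h
      have h2 : (⟨z, hzC⟩ : ↥(Subgroup.centralizer ({z} : Set G))) = 1 := by
        apply e.injective
        rw [h1, map_one]
      have h3 : z = 1 := congrArg Subtype.val h2
      rw [h3, orderOf_one] at hz
      omega
    · exact h
  -- the conjugate `c⁻¹ x c` commutes with `P`
  have hx' : ∀ q : ↥(Subgroup.centralizer ({z} : Set G)), ((e q : Cs) : SL5) ∈ U →
      (c⁻¹ * x * c) * q = q * (c⁻¹ * x * c) := by
    intro q hq
    have h1 := hxc (c * q * c⁻¹) (hconj q hq)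
    calc (c⁻¹ * x * c) * q = c⁻¹ * (x * (c * q * c⁻¹)) * c := by group
      _ = c⁻¹ * ((c * q * c⁻¹) * x) * c := by rw [h1]
      _ = q * (c⁻¹ * x * c) := by group
  rcases key e (c⁻¹ * x * c) hx' with h | h
  · exfalso
    have h1 : e (c⁻¹ * x * c) = 1 := Subtype.ext h
    have h2 : c⁻¹ * x * c = 1 := by
      apply e.injective
      rw [h1, map_one]
    have h3 : x = 1 := by
      calc x = c * (c⁻¹ * x * c) * c⁻¹ := by group
        _ = 1 := by rw [h2]; group
    rw [h3, orderOf_one] at hxo
    omega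
  · have h1 : e (c⁻¹ * x * c) = e ⟨z, hzC⟩ := Subtype.ext (h.trans hez.symm)
    have h2 : c⁻¹ * x * c = ⟨z, hzC⟩ := e.injective h1
    have h3 : x = ⟨z, hzC⟩ := by
      calc x = c * (c⁻¹ * x * c) * c⁻¹ := by group
        _ = c * ⟨z, hzC⟩ * c⁻¹ := by rw [h2]
        _ = ⟨z, hzC⟩ * c * c⁻¹ := by rw [hzcomm c]
        _ = ⟨z, hzC⟩ := by group
    rw [h3]

end Cfsg.Agent.S1717
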