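import Cfsg.Statements.S1754
import Cfsg.Agent.Helper29.Basic

set_option autoImplicit false
open Cfsg

namespace Cfsg.Agent.S1754

/-- Let A be a standard subgroup of the finite group G (A quasisimple, C_G(A) tightly embedded of even order, A commuting elementwise with no other conjugate of itself, and N_G(A) = N_G(C_G(A))), and let t be an involution of G centralizing A. Then the centralizer of t lies in the normalizer of A; in particular A, viewed inside C_G(t), is a component of C_G(t). -/
theorem result {G : Type*} [Group G] [Finite G]
    (A : Subgroup G) (hA : Cfsg.IsStandardSubgroup A) (t : G) (ht : orderOf t = 2) (htA : t ∈ Subgroup.centralizer (A : Set G)) :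
    Subgroup.centralizer ({t} : Set G) ≤ Subgroup.normalizer (A : Set G) ∧
      Cfsg.IsComponent (A.subgroupOf (Subgroup.centralizer ({t} : Set G))) := by
  obtain ⟨hqs, ⟨-, htight⟩, -, hnorm⟩ := hA
  have h1 : Subgroup.centralizer ({t} : Set G) ≤ Subgroup.normalizer (A : Set G) := by
    intro g hg
    rw [hnorm]
    by_contra hgn
    have hodd := htight g hgn
    have hgt : g * t * g⁻¹ = t := by
      have := Subgroup.mem_centralizer_singleton_iff.mp hg
      rw [this, mul_inv_cancel_right]
    have hmem : t ∈ Subgroup.centralizer (A : Set G) ⊓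
        (Subgroup.centralizer (A : Set G)).map (MulAut.conj g).toMonoidHom := by
      refine ⟨htA, t, htA, ?_⟩
      simpa using hgt
    have h2 := Cfsg.Agent.Helper29.two_dvd_card_of_orderOf_eq_two _ ht hmem
    exact (Nat.not_even_iff_odd.mpr hodd) (even_iff_two_dvd.mpr h2)
  refine ⟨h1, ?_, ?_⟩
  · -- `A ∩ C(t)` is normal in `C(t)`, hence subnormal
    have hle : A ≤ Subgroup.centralizer ({t} : Set G) := by
      intro a ha
      rw [Subgroup.mem_centralizer_singleton_iff]
      exact (Subgroup.mem_centralizer_iff.mp htA) a ha
    exact ((Subgroup.normal_subgroupOf_iff_le_normalizer hle).mpr h1).isSubnormal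
  · have hle : A ≤ Subgroup.centralizer ({t} : Set G) := by
      intro a ha
      rw [Subgroup.mem_centralizer_singleton_iff]
      exact (Subgroup.mem_centralizer_iff.mp htA) a ha
    exact Cfsg.Agent.Helper29.isQuasisimple_of_mulEquiv
      (Subgroup.subgroupOfEquivOfLe hle).symm hqs

end Cfsg.Agent.S1754
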