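import Cfsg.Statements.S1755
import Cfsg.Agent.Helper29.Fitting

set_option autoImplicit false
open Cfsg

namespace Cfsg.Agent.S1755

open Cfsg.Agent.Helper29

/-- Let G be a finite group and let z be an involution of G such that Q, the generalized Fitting subgroup of the centralizer C of z, is a 2-group of symplectic type (every characteristic abelian subgroup of Q is cyclic). Let B be a characteristic abelian subgroup of Q, viewed as a subgroup of G. Then for every g in G, the conjugate of B by g either equals B or meets B trivially. -/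
theorem result {G : Type*} [Group G] [Finite G] (z : G) (hz : orderOf z = 2) (hQ : Cfsg.IsOfSymplecticType ↥(Cfsg.generalizedFittingSubgroup ↥(Subgroup.centralizer ({z} : Set G))))
    (B : Subgroup ↥(Cfsg.generalizedFittingSubgroup ↥(Subgroup.centralizer ({z} : Set G)))) (hBc : B.Characteristic) (hBa : IsMulCommutative ↥B) (g : G) :
    ((B.map (Cfsg.generalizedFittingSubgroup ↥(Subgroup.centralizer ({z} : Set G))).subtype).map (Subgroup.centralizer ({z} : Set G)).subtype).map (MulAut.conj g).toMonoidHom =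
        (B.map (Cfsg.generalizedFittingSubgroup ↥(Subgroup.centralizer ({z} : Set G))).subtype).map (Subgroup.centralizer ({z} : Set G)).subtype ∨
      ((B.map (Cfsg.generalizedFittingSubgroup ↥(Subgroup.centralizer ({z} : Set G))).subtype).map (Subgroup.centralizer ({z} : Set G)).subtype).map (MulAut.conj g).toMonoidHom ⊓
        (B.map (Cfsg.generalizedFittingSubgroup ↥(Subgroup.centralizer ({z} : Set G))).subtype).map (Subgroup.centralizer ({z} : Set G)).subtype = ⊥ := by
  classical
  have hQn : (Cfsg.generalizedFittingSubgroup ↥(Subgroup.centralizer ({z} : Set G))).Normal :=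
    generalizedFittingSubgroup_normal _
  obtain ⟨hQ2, hQcyc⟩ := hQ
  have hBcyc : IsCyclic B := hQcyc B hBc hBa
  have hBn : B.Normal := Subgroup.normal_of_characteristic B
  -- membership in the image of `B` in `G`
  have hmem : ∀ x : G, x ∈ (B.map (Cfsg.generalizedFittingSubgroup
      ↥(Subgroup.centralizer ({z} : Set G))).subtype).map (Subgroup.centralizer ({z} : Set G)).subtype ↔
      ∃ b : ↥(Cfsg.generalizedFittingSubgroup ↥(Subgroup.centralizer ({z} : Set G))),
        b ∈ B ∧ ((b : ↥(Subgroup.centralizer ({z} : Set G))) : G) = x := by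
    intro x
    constructor
    · rintro ⟨c, ⟨b, hb, rfl⟩, rfl⟩
      exact ⟨b, hb, rfl⟩
    · rintro ⟨b, hb, rfl⟩
      exact ⟨_, ⟨b, hb, rfl⟩, rfl⟩
  -- involutions of `B` are unique
  have huniq : ∀ b b' : ↥(Cfsg.generalizedFittingSubgroup ↥(Subgroup.centralizer ({z} : Set G))),
      b ∈ B → b' ∈ B → orderOf b = 2 → orderOf b' = 2 → b = b' := by
    intro b b' hb hb' ho ho'
    have h := eq_of_orderOf_eq_two_of_isCyclic (A := B) (x := ⟨b, hb⟩) (y := ⟨b', hb'⟩)
      (by rw [Subgroup.orderOf_mk]; exact ho) (by rw [Subgroup.orderOf_mk]; exact ho')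
    exact congrArg Subtype.val h
  -- `z` as an element of `C` and of `Q`
  have hzC : z ∈ Subgroup.centralizer ({z} : Set G) := Subgroup.mem_centralizer_singleton_iff.mpr rfl
  have hzcenter : (⟨z, hzC⟩ : ↥(Subgroup.centralizer ({z} : Set G))) ∈
      Subgroup.center ↥(Subgroup.centralizer ({z} : Set G)) := by
    rw [Subgroup.mem_center_iff]
    intro c
    exact Subtype.ext (Subgroup.mem_centralizer_singleton_iff.mp c.2)
  have hzQ : (⟨z, hzC⟩ : ↥(Subgroup.centralizer ({z} : Set G))) ∈
      Cfsg.generalizedFittingSubgroup ↥(Subgroup.centralizer ({z} : Set G)) :=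
    fittingSubgroup_le_generalizedFittingSubgroup _ (mem_fittingSubgroup_of_mem_center hzcenter)
  have hzQo : orderOf (⟨⟨z, hzC⟩, hzQ⟩ :
      ↥(Cfsg.generalizedFittingSubgroup ↥(Subgroup.centralizer ({z} : Set G)))) = 2 := by
    rw [Subgroup.orderOf_mk, Subgroup.orderOf_mk]; exact hz
  have hzQcenter : (⟨⟨z, hzC⟩, hzQ⟩ :
      ↥(Cfsg.generalizedFittingSubgroup ↥(Subgroup.centralizer ({z} : Set G)))) ∈
      Subgroup.center ↥(Cfsg.generalizedFittingSubgroup ↥(Subgroup.centralizer ({z} : Set G))) := by
    rw [Subgroup.mem_center_iff]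
    intro q
    exact Subtype.ext (Subgroup.mem_center_iff.mp hzcenter q)
  -- every involution of `B` is `z`
  have hinv : ∀ b : ↥(Cfsg.generalizedFittingSubgroup ↥(Subgroup.centralizer ({z} : Set G))),
      b ∈ B → orderOf b = 2 → ((b : ↥(Subgroup.centralizer ({z} : Set G))) : G) = z := by
    intro b hb ho
    have hbc : b ∈ Subgroup.center
        ↥(Cfsg.generalizedFittingSubgroup ↥(Subgroup.centralizer ({z} : Set G))) := by
      rw [Subgroup.mem_center_iff]
      intro q
      have h1 : q * b * q⁻¹ ∈ B := hBn.conj_mem b hb q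
      have h2 : orderOf (q * b * q⁻¹) = 2 := by
        have := (MulAut.conj q).orderOf_eq b
        rw [← ho, ← this]
        rfl
      have h3 := huniq _ _ h1 hb h2 ho
      calc q * b = q * b * q⁻¹ * q := by group
        _ = b * q := by rw [h3]
    have hcyc : IsCyclic (Subgroup.center
        ↥(Cfsg.generalizedFittingSubgroup ↥(Subgroup.centralizer ({z} : Set G)))) :=
      hQcyc _ inferInstance inferInstance
    have h := eq_of_orderOf_eq_two_of_isCyclic
      (A := Subgroup.center ↥(Cfsg.generalizedFittingSubgroup ↥(Subgroup.centralizer ({z} : Set G))))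
      (x := ⟨b, hbc⟩) (y := ⟨_, hzQcenter⟩)
      (by rw [Subgroup.orderOf_mk]; exact ho) (by rw [Subgroup.orderOf_mk]; exact hzQo)
    have h' := congrArg Subtype.val h
    simp only at h'
    rw [h']
  by_cases hbot : ((B.map (Cfsg.generalizedFittingSubgroup ↥(Subgroup.centralizer ({z} : Set G))).subtype).map (Subgroup.centralizer ({z} : Set G)).subtype).map (MulAut.conj g).toMonoidHom ⊓
        (B.map (Cfsg.generalizedFittingSubgroup ↥(Subgroup.centralizer ({z} : Set G))).subtype).map (Subgroup.centralizer ({z} : Set G)).subtype = ⊥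
  · exact Or.inr hbot
  left
  -- a nontrivial element of the intersection
  obtain ⟨x, hx, hx1⟩ : ∃ x ∈ ((B.map (Cfsg.generalizedFittingSubgroup ↥(Subgroup.centralizer ({z} : Set G))).subtype).map (Subgroup.centralizer ({z} : Set G)).subtype).map (MulAut.conj g).toMonoidHom ⊓
        (B.map (Cfsg.generalizedFittingSubgroup ↥(Subgroup.centralizer ({z} : Set G))).subtype).map (Subgroup.centralizer ({z} : Set G)).subtype, x ≠ 1 := by
    by_contra h
    exact hbot ((Subgroup.eq_bot_iff_forall _).mpr fun x hx => by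
      by_contra hx1
      exact h ⟨x, hx, hx1⟩)
  -- it is a 2-element, so has a power `y` of order two
  obtain ⟨k, hk⟩ : ∃ k : ℕ, x ^ 2 ^ k = 1 := by
    obtain ⟨b, -, rfl⟩ := (hmem x).mp hx.2
    obtain ⟨k, hk⟩ := hQ2 b
    refine ⟨k, ?_⟩
    have := congrArg (fun q : ↥(Cfsg.generalizedFittingSubgroup
      ↥(Subgroup.centralizer ({z} : Set G))) => ((q : ↥(Subgroup.centralizer ({z} : Set G))) : G)) hk
    simpa using this
  obtain ⟨m, hm⟩ := exists_pow_orderOf_eq_two k hx1 hk
  have hy := Subgroup.pow_mem _ hx m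
  -- `y = z`
  have hyz : x ^ m = z := by
    obtain ⟨b, hb, hbx⟩ := (hmem _).mp hy.2
    rw [← hbx]
    apply hinv b hb
    rw [← Subgroup.orderOf_coe, ← Subgroup.orderOf_coe, hbx]
    exact hm
  -- `y = g w g⁻¹` with `w` an involution of `B`, so `w = z`
  have hgz : g * z * g⁻¹ = z := by
    obtain ⟨w, hw, hwy⟩ := hy.1
    obtain ⟨b, hb, hbw⟩ := (hmem _).mp hw
    have hwo : orderOf w = 2 := by
      have := (MulAut.conj g).orderOf_eq w
      rw [← this, ← hm]
      exact congrArg orderOf hwy
    have hwz : w = z := by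
      rw [← hbw]
      apply hinv b hb
      rw [← Subgroup.orderOf_coe, ← Subgroup.orderOf_coe, hbw]
      exact hwo
    rw [hwz, hyz] at hwy
    exact hwy
  have hgC : g ∈ Subgroup.centralizer ({z} : Set G) := by
    rw [Subgroup.mem_centralizer_singleton_iff]
    calc g * z = g * z * g⁻¹ * g := by group
      _ = z * g := by rw [hgz]
  -- conjugation by `g` is an automorphism of `Q`, and `B` is characteristic
  have hBmap := Subgroup.characteristic_iff_map_eq.mp hBc
    (MulAut.conjNormal (⟨g, hgC⟩ : ↥(Subgroup.centralizer ({z} : Set G))))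
  ext x
  constructor
  · rintro ⟨w, hw, rfl⟩
    obtain ⟨b, hb, rfl⟩ := (hmem _).mp hw
    rw [hmem]
    refine ⟨MulAut.conjNormal (⟨g, hgC⟩ : ↥(Subgroup.centralizer ({z} : Set G))) b, ?_, ?_⟩
    · rw [← hBmap]
      exact ⟨b, hb, rfl⟩
    · rw [MulAut.conjNormal_apply]
      rfl
  · intro hx
    obtain ⟨b, hb, rfl⟩ := (hmem _).mp hx
    rw [← hBmap] at hb
    obtain ⟨b', hb', rfl⟩ := hb
    refine ⟨((b' : ↥(Subgroup.centralizer ({z} : Set G))) : G), (hmem _).mpr ⟨b', hb', rfl⟩, ?_⟩
    change _ = (((MulAut.conjNormal (⟨g, hgC⟩ : ↥(Subgroup.centralizer ({z} : Set G))) b' :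
      ↥(Cfsg.generalizedFittingSubgroup ↥(Subgroup.centralizer ({z} : Set G)))) :
      ↥(Subgroup.centralizer ({z} : Set G))) : G)
    rw [MulAut.conjNormal_apply]
    rfl

end Cfsg.Agent.S1755
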