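import Cfsg.Statements.S1756
import Cfsg.Agent.Helper29.Extraspecial

set_option autoImplicit false
open Cfsg

namespace Cfsg.Agent.S1756

/-- Let Q be an extraspecial 2-subgroup of the finite group G (special with centre of order 2) and t an involution of G normalizing Q such that the centralizer of t in Q has index at most 2 in Q. Then t lies in the product of Q with the centralizer of Q. -/
theorem result {G : Type*} [Group G] [Finite G] (Q : Subgroup G)
    (hQ : Cfsg.IsExtraspecial 2 ↥Q) (t : G) (ht : orderOf t = 2) (htN : t ∈ Subgroup.normalizer (Q : Set G))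
    (hi : (Subgroup.centralizer ({t} : Set G) ⊓ Q).relIndex Q ≤ 2) :
    t ∈ Q ⊔ Subgroup.centralizer (Q : Set G) := by
  obtain ⟨⟨-, -, hcomm⟩, hcard⟩ := hQ
  have ht2 : t * t = 1 := by
    rw [← pow_two, ← ht]
    exact pow_orderOf_eq_one t
  have htinv : t⁻¹ = t := inv_eq_of_mul_eq_one_left ht2
  have hconjmem : ∀ q : Q, t * (q : G) * t⁻¹ ∈ Q :=
    fun q => (Subgroup.mem_normalizer_iff.mp htN q).mp q.2
  -- conjugation by `t` as a map of `Q`
  obtain ⟨α, hα⟩ : ∃ α : Q → Q, ∀ q : Q, ((α q : Q) : G) = t * (q : G) * t⁻¹ :=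
    ⟨fun q => ⟨t * (q : G) * t⁻¹, hconjmem q⟩, fun _ => rfl⟩
  have hmul : ∀ a b, α (a * b) = α a * α b := by
    intro a b
    apply Subtype.ext
    rw [Subgroup.coe_mul, hα, hα, hα, Subgroup.coe_mul]
    group
  have hinv : ∀ a, α (α a) = a := by
    intro a
    apply Subtype.ext
    rw [hα, hα, htinv]
    calc t * (t * (a : G) * t) * t = (t * t) * (a : G) * (t * t) := by group
      _ = (a : G) := by rw [ht2, one_mul, mul_one]
  have hM : ∀ q : Q, q ∈ (Subgroup.centralizer ({t} : Set G) ⊓ Q).subgroupOf Q ↔ α q = q := by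
    intro q
    rw [Subgroup.mem_subgroupOf, Subgroup.mem_inf, Subgroup.mem_centralizer_singleton_iff]
    constructor
    · rintro ⟨h, -⟩
      apply Subtype.ext
      rw [hα, ← h]
      group
    · intro h
      refine ⟨?_, q.2⟩
      have h' : t * (q : G) * t⁻¹ = q := by rw [← hα, h]
      calc (q : G) * t = (t * (q : G) * t⁻¹) * t := by rw [h']
        _ = t * q := by group
  have hidx0 : ((Subgroup.centralizer ({t} : Set G) ⊓ Q).subgroupOf Q).index ≠ 0 :=
    Subgroup.index_ne_zero_of_finite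
  have hidx : ((Subgroup.centralizer ({t} : Set G) ⊓ Q).subgroupOf Q).index ≤ 2 := hi
  have key : ∃ y : Q, ∀ q, α q = y * q * y⁻¹ := by
    by_cases h1 : ((Subgroup.centralizer ({t} : Set G) ⊓ Q).subgroupOf Q).index = 1
    · refine ⟨1, fun q => ?_⟩
      have hq : q ∈ (Subgroup.centralizer ({t} : Set G) ⊓ Q).subgroupOf Q := by
        rw [Subgroup.index_eq_one.mp h1]
        trivial
      rw [(hM q).mp hq]
      group
    · have h2 : ((Subgroup.centralizer ({t} : Set G) ⊓ Q).subgroupOf Q).index = 2 := by omega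
      exact Cfsg.Agent.Helper29.exists_inner_of_involutive hcard (le_of_eq hcomm) α hmul hinv _
        hM h2
  obtain ⟨y, hy⟩ := key
  -- `t * y⁻¹` centralises `Q`
  have hcent : t * (y : G)⁻¹ ∈ Subgroup.centralizer (Q : Set G) := by
    rw [Subgroup.mem_centralizer_iff]
    intro q hq
    have h := congrArg (fun x : Q => (x : G)) (hy (y⁻¹ * ⟨q, hq⟩ * y))
    simp only [hα, Subgroup.coe_mul, Subgroup.coe_inv] at h
    -- h : t * (y⁻¹ * q * y) * t⁻¹ = y * (y⁻¹ * q * y) * y⁻¹
    calc q * (t * (y : G)⁻¹) = (y * ((y : G)⁻¹ * q * y) * (y : G)⁻¹) * (t * (y : G)⁻¹) := by group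
      _ = (t * ((y : G)⁻¹ * q * y) * t⁻¹) * (t * (y : G)⁻¹) := by rw [h]
      _ = t * (y : G)⁻¹ * q := by group
  have hdecomp : t = (y : G) * ((y : G)⁻¹ * t) := by group
  have hcent' : (y : G)⁻¹ * t ∈ Subgroup.centralizer (Q : Set G) := by
    -- conjugate of `t * y⁻¹` by `y⁻¹ ∈ Q`... use that the centraliser is normalised by `Q`
    rw [Subgroup.mem_centralizer_iff] at hcent ⊢
    intro q hq
    have h := hcent ((y : G) * q * (y : G)⁻¹) (Q.mul_mem (Q.mul_mem y.2 hq) (Q.inv_mem y.2))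
    calc q * ((y : G)⁻¹ * t) = (y : G)⁻¹ * ((y : G) * q * (y : G)⁻¹ * (t * (y : G)⁻¹)) * y := by
          group
      _ = (y : G)⁻¹ * (t * (y : G)⁻¹ * ((y : G) * q * (y : G)⁻¹)) * y := by rw [h]
      _ = (y : G)⁻¹ * t * q := by group
  rw [hdecomp]
  exact Subgroup.mul_mem _ (Subgroup.mem_sup_left y.2) (Subgroup.mem_sup_right hcent')

end Cfsg.Agent.S1756
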