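import Cfsg.Statements.S1757

set_option autoImplicit false
open Cfsg

namespace Cfsg.Agent.S1757

/-- Let p be a prime and A, B p-subgroups of the finite group G, each of which meets every conjugate of itself other than itself trivially. Suppose the order of A is at most that of B, A and B intersect trivially, and B normalizes A. Then A and B commute elementwise. -/
theorem result {G : Type*} [Group G] [Finite G] (p : ℕ) [Fact p.Prime] (A B : Subgroup G)
    (hA : IsPGroup p ↥A) (hB : IsPGroup p ↥B)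
    (hAti : ∀ g : G, A.map (MulAut.conj g).toMonoidHom = A ∨ A.map (MulAut.conj g).toMonoidHom ⊓ A = ⊥)
    (hBti : ∀ g : G, B.map (MulAut.conj g).toMonoidHom = B ∨ B.map (MulAut.conj g).toMonoidHom ⊓ B = ⊥)
    (hle : Nat.card ↥A ≤ Nat.card ↥B) (hAB : A ⊓ B = ⊥) (hN : B ≤ Subgroup.normalizer (A : Set G)) : ⁅A, B⁆ = ⊥ := by
  rw [Subgroup.commutator_eq_bot_iff_le_centralizer]
  intro a ha
  rw [Subgroup.mem_centralizer_iff]
  intro b hb
  -- goal : b * a = a * b
  have hnorm : ∀ b ∈ B, ∀ x ∈ A, b * x * b⁻¹ ∈ A := fun b hb x hx =>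
    (Subgroup.mem_normalizer_iff.mp (hN hb) x).mp hx
  rcases hBti a with h | h
  · -- `a` normalizes `B`
    have h1 : a * b * a⁻¹ ∈ B := by
      rw [← h]
      exact ⟨b, hb, rfl⟩
    have h2 : a * b * a⁻¹ * b⁻¹ ∈ B := B.mul_mem h1 (B.inv_mem hb)
    have h3 : a * b * a⁻¹ * b⁻¹ ∈ A := by
      have : a * b * a⁻¹ * b⁻¹ = a * (b * a⁻¹ * b⁻¹) := by group
      rw [this]
      exact A.mul_mem ha (hnorm b hb _ (A.inv_mem ha))
    have h4 : a * b * a⁻¹ * b⁻¹ ∈ A ⊓ B := ⟨h3, h2⟩
    rw [hAB, Subgroup.mem_bot] at h4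
    have : a * b = b * a := by
      have h5 : a * b = (a * b * a⁻¹ * b⁻¹) * (b * a) := by group
      rw [h5, h4, one_mul]
    exact this.symm
  · -- `B` meets its conjugate by `a` trivially: `b ↦ b a b⁻¹` is injective from `B` to `A`
    let f : B → A := fun c => ⟨(c : G) * a * (c : G)⁻¹, hnorm c c.2 a ha⟩
    have hf : Function.Injective f := by
      intro c d hcd
      have hcd' : (c : G) * a * (c : G)⁻¹ = (d : G) * a * (d : G)⁻¹ := congrArg Subtype.val hcd
      have hcomm : ((d : G)⁻¹ * c) = a * ((d : G)⁻¹ * c) * a⁻¹ := by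
        have h6 : a = (d : G)⁻¹ * ((d : G) * a * (d : G)⁻¹) * d := by group
        have h7 : a * ((d : G)⁻¹ * c) * a⁻¹
            = (d : G)⁻¹ * ((d : G) * a * (d : G)⁻¹) * c * a⁻¹ := by group
        rw [h7, ← hcd']
        group
      have hmemB : ((d : G)⁻¹ * c) ∈ B := B.mul_mem (B.inv_mem d.2) c.2
      have hmem : ((d : G)⁻¹ * c) ∈ B.map (MulAut.conj a).toMonoidHom ⊓ B := by
        refine ⟨?_, hmemB⟩
        rw [hcomm]
        exact ⟨_, hmemB, rfl⟩
      rw [h, Subgroup.mem_bot] at hmem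
      have : (c : G) = d := by
        have h8 : (c : G) = d * ((d : G)⁻¹ * c) := by group
        rw [h8, hmem, mul_one]
      exact Subtype.ext this
    have hcard : Nat.card B = Nat.card A :=
      le_antisymm (Nat.card_le_card_of_injective f hf) hle
    have hbij : Function.Bijective f := by
      rw [Nat.bijective_iff_injective_and_card]
      exact ⟨hf, hcard⟩
    obtain ⟨c, hc⟩ := hbij.2 (1 : A)
    have hc' : (c : G) * a * (c : G)⁻¹ = 1 := congrArg Subtype.val hc
    have ha1 : a = 1 := by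
      have h9 : a = (c : G)⁻¹ * ((c : G) * a * (c : G)⁻¹) * c := by group
      rw [h9, hc']
      group
    rw [ha1, mul_one, one_mul]

end Cfsg.Agent.S1757
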