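import Cfsg.Statements.S1775
import Cfsg.Agent.Helper54.MC4
import Cfsg.Agent.Helper29.Fitting

set_option autoImplicit false
open Cfsg

namespace Cfsg.Agent.S1775

/-- Let G be a finite group whose generalized Fitting subgroup is a non-abelian simple group and in which every proper section (every quotient H/N of a proper subgroup H, or of G by a nontrivial normal subgroup) has the B-property. Let x, y be commuting involutions, let D be the intersection of the 2-layer of C_G(x) with C_G(y), and let J be a 2-component of D. Write Q for the quotient of C_G(y) by its largest normal odd-order subgroup. Then (i) the image of J in Q is a component of the centralizer in Q of the image of x; and (ii) for every J-invariant subgroup E of odd order of C_G(x) ∩ C_G(y), the commutator subgroup [J, E] lies in the largest normal odd-order subgroup of C_G(y). -/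
theorem result {G : Type*} [Group G] [Finite G]
    (hF : IsSimpleGroup ↥(Cfsg.generalizedFittingSubgroup G)) (hF' : ¬ IsMulCommutative ↥(Cfsg.generalizedFittingSubgroup G))
    (hsec : ∀ (H : Subgroup G) (N : Subgroup ↥H) [N.Normal], (H ≠ ⊤ ∨ N ≠ ⊥) → Cfsg.HasBProperty (↥H ⧸ N))
    (x y : G) (hx : orderOf x = 2) (hy : orderOf y = 2) (hxy : x * y = y * x)
    (J : Subgroup ↥((Cfsg.pLayer 2 ↥(Subgroup.centralizer ({x} : Set G))).map (Subgroup.centralizer ({x} : Set G)).subtype ⊓ Subgroup.centralizer ({y} : Set G)))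
    (hJ : Cfsg.IsPComponent 2 J) :
    Cfsg.IsComponent
        ((((J.map (Subgroup.subtype _)).subgroupOf (Subgroup.centralizer ({y} : Set G))).map (QuotientGroup.mk' (Cfsg.oddCore ↥(Subgroup.centralizer ({y} : Set G))))).subgroupOf
          (Subgroup.centralizer ({(QuotientGroup.mk' (Cfsg.oddCore ↥(Subgroup.centralizer ({y} : Set G))) ⟨x, Subgroup.mem_centralizer_singleton_iff.mpr hxy⟩ : ↥(Subgroup.centralizer ({y} : Set G)) ⧸ Cfsg.oddCore ↥(Subgroup.centralizer ({y} : Set G)))} : Set _))) ∧
      ∀ E : Subgroup G, E ≤ Subgroup.centralizer ({x} : Set G) ⊓ Subgroup.centralizer ({y} : Set G) → Odd (Nat.card ↥E) →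
        (∀ j ∈ J.map (Subgroup.subtype _), ∀ e ∈ E, j * e * j⁻¹ ∈ E) →
          ⁅J.map (Subgroup.subtype _), E⁆ ≤ (Cfsg.oddCore ↥(Subgroup.centralizer ({y} : Set G))).map (Subgroup.centralizer ({y} : Set G)).subtype := by
  classical
  have hCy : Subgroup.centralizer ({y} : Set G) ≠ ⊤ := by
    intro htop
    have hyc : y ∈ Subgroup.center G := by
      rw [Subgroup.mem_center_iff]
      intro g
      have hg : g ∈ Subgroup.centralizer ({y} : Set G) := by rw [htop]; exact Subgroup.mem_top g
      exact Subgroup.mem_centralizer_singleton_iff.1 hg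
    have hyF : y ∈ Cfsg.generalizedFittingSubgroup G :=
      (le_sup_right : Cfsg.fittingSubgroup G ≤ Cfsg.generalizedFittingSubgroup G)
        (Cfsg.Agent.Helper29.mem_fittingSubgroup_of_mem_center hyc)
    have hyc' : (⟨y, hyF⟩ : ↥(Cfsg.generalizedFittingSubgroup G)) ∈
        Subgroup.center ↥(Cfsg.generalizedFittingSubgroup G) := by
      rw [Subgroup.mem_center_iff]
      intro g
      apply Subtype.ext
      exact Subgroup.mem_center_iff.1 hyc g
    have hn : (Subgroup.center ↥(Cfsg.generalizedFittingSubgroup G)).Normal := inferInstance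
    rcases hn.eq_bot_or_eq_top with h | h
    · rw [h, Subgroup.mem_bot] at hyc'
      have hy1 : y = 1 := congrArg Subtype.val hyc'
      rw [hy1, orderOf_one] at hy
      omega
    · apply hF'
      rw [isMulCommutative_iff]
      intro u v
      have hu : u ∈ Subgroup.center ↥(Cfsg.generalizedFittingSubgroup G) := by
        rw [h]; exact Subgroup.mem_top u
      exact (Subgroup.mem_center_iff.1 hu v).symm
  have hBQ := hsec (Subgroup.centralizer ({y} : Set G))
    (Cfsg.oddCore ↥(Subgroup.centralizer ({y} : Set G))) (Or.inl hCy)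
  have hJG : Cfsg.IsPComponentOf 2 (J.map (Subgroup.subtype _))
      (Subgroup.centralizer ({x} : Set G) ⊓ Subgroup.centralizer ({y} : Set G)) := by
    have h1 := Cfsg.Agent.Helper54.lbpc_pcOf_map_subtype hJ
    have hLn : (Cfsg.pLayer 2 ↥(Subgroup.centralizer ({x} : Set G))).Normal :=
      Cfsg.Agent.Helper22.pLayer_normal 2 _
    refine Cfsg.Agent.Helper54.lbpc_pcOf_of_subnormal Nat.prime_two h1
      (inf_le_inf_right _ (Subgroup.map_subtype_le _)) ?_
    have hn : (((Cfsg.pLayer 2 ↥(Subgroup.centralizer ({x} : Set G))).map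
        (Subgroup.centralizer ({x} : Set G)).subtype ⊓
          Subgroup.centralizer ({y} : Set G)).subgroupOf
        (Subgroup.centralizer ({x} : Set G) ⊓ Subgroup.centralizer ({y} : Set G))).Normal := by
      apply Cfsg.Agent.Helper34.normal_subgroupOf_of_conj_mem
      rintro k ⟨hkx, hky⟩ m ⟨hm1, hm2⟩
      refine Subgroup.mem_inf.2 ⟨?_, Subgroup.mul_mem _ (Subgroup.mul_mem _ hky hm2)
        (Subgroup.inv_mem _ hky)⟩
      obtain ⟨m', hm', rfl⟩ := hm1
      exact ⟨⟨k, hkx⟩ * m' * ⟨k, hkx⟩⁻¹, hLn.conj_mem m' hm' ⟨k, hkx⟩, rfl⟩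
    exact hn.isSubnormal
  exact Cfsg.Agent.Helper54.mc_quot_component hx (Subgroup.mem_centralizer_singleton_iff.mpr hxy)
    hBQ hJG

end Cfsg.Agent.S1775
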