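import Cfsg.Statements.S1780

set_option autoImplicit false
open Cfsg

namespace Cfsg.Agent.S1780

/-- Let A be a finite abelian 2-group and t an automorphism of A whose order is a power of 2. If every element of A fixed by t² is fixed by t, then t fixes every element of A. -/
theorem result {A : Type*} [CommGroup A] [Finite A]
    (hA : IsPGroup 2 A) (t : MulAut A) (ht : ∃ k : ℕ, orderOf t = 2 ^ k) (hC : ∀ a : A, t (t a) = a → t a = a) :
    ∀ a : A, t a = a := by
  obtain ⟨k, hk⟩ := ht
  have key : ∀ j : ℕ, ∀ a : A, (t ^ (2 ^ j)) a = a → t a = a := by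
    intro j
    induction j with
    | zero => intro a h; simpa using h
    | succ j ih =>
      intro a h
      have hss : (t ^ (2 ^ j)) ((t ^ (2 ^ j)) a) = a := by
        have h2 : t ^ (2 ^ (j + 1)) = t ^ (2 ^ j) * t ^ (2 ^ j) := by
          rw [← pow_add]; congr 1; ring
        rw [h2] at h
        simpa [MulAut.mul_apply] using h
      have hst : ∀ x, (t ^ (2 ^ j)) (t x) = t ((t ^ (2 ^ j)) x) := by
        intro x
        have h2 : t ^ (2 ^ j) * t = t * t ^ (2 ^ j) := (Commute.pow_self t _).eq
        have h3 := congrArg (fun f : MulAut A => f x) h2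
        simpa [MulAut.mul_apply] using h3
      have hb : t (a * (t ^ (2 ^ j)) a) = a * (t ^ (2 ^ j)) a := by
        apply ih
        rw [map_mul, hss, mul_comm]
      have hc : (t ^ (2 ^ j)) (a⁻¹ * t a) = (a⁻¹ * t a)⁻¹ := by
        rw [map_mul, map_inv, hst]
        rw [map_mul] at hb
        rw [eq_inv_iff_mul_eq_one]
        calc ((t ^ (2 ^ j)) a)⁻¹ * t ((t ^ (2 ^ j)) a) * (a⁻¹ * t a)
            = ((t ^ (2 ^ j)) a)⁻¹ * a⁻¹ * (t a * t ((t ^ (2 ^ j)) a)) := by
              simp only [mul_comm, mul_left_comm, mul_assoc]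
          _ = 1 := by
              rw [hb]
              simp [mul_comm, mul_left_comm, mul_assoc]
      have inner : ∀ m : ℕ, ∀ a : A, (t ^ (2 ^ j)) (a⁻¹ * t a) = (a⁻¹ * t a)⁻¹ →
          (a⁻¹ * t a) ^ (2 ^ m) = 1 → a⁻¹ * t a = 1 := by
        intro m
        induction m with
        | zero => intro a _ h; simpa using h
        | succ m ihm =>
          intro a h1 h2
          have hsq : (a ^ 2)⁻¹ * t (a ^ 2) = (a⁻¹ * t a) ^ 2 := by
            rw [map_pow, mul_pow, inv_pow]
          have h3 : (a⁻¹ * t a) ^ 2 = 1 := by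
            rw [← hsq]
            apply ihm
            · rw [hsq, map_pow, h1, inv_pow]
            · rw [hsq, ← pow_mul, ← pow_succ']; exact h2
          have h4 : (a⁻¹ * t a)⁻¹ = a⁻¹ * t a := by
            rw [inv_eq_iff_mul_eq_one, ← pow_two]; exact h3
          have h5 : t (a⁻¹ * t a) = a⁻¹ * t a := ih _ (by rw [h1, h4])
          have h6 : t (t a) = a := by
            have h7 : t a = a * (a⁻¹ * t a) := by rw [mul_inv_cancel_left]
            calc t (t a) = t (a * (a⁻¹ * t a)) := by rw [← h7]
              _ = t a * (a⁻¹ * t a) := by rw [map_mul, h5]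
              _ = a * (a⁻¹ * t a) ^ 2 := by
                rw [pow_two, ← mul_assoc a, mul_inv_cancel_left]
              _ = a := by rw [h3, mul_one]
          have h8 := hC a h6
          rw [h8, inv_mul_cancel]
      obtain ⟨m, hm⟩ := hA (a⁻¹ * t a)
      have h9 := inner m a hc hm
      exact (inv_mul_eq_one.mp h9).symm
  intro a
  apply key k
  rw [← hk, pow_orderOf_eq_one]; rfl

end Cfsg.Agent.S1780
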