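import Cfsg.Statements.S1781
import Cfsg.Agent.S1780

set_option autoImplicit false
open Cfsg

namespace Cfsg.Agent.S1781

/-- The automorphism of a subgroup induced by conjugation with an element normalizing it. -/
def conjAut {G : Type*} [Group G] (B : Subgroup G) (d : G) (h1 : ∀ b ∈ B, d * b * d⁻¹ ∈ B)
    (h2 : ∀ b ∈ B, d⁻¹ * b * d ∈ B) : MulAut ↥B where
  toFun b := ⟨d * b * d⁻¹, h1 b b.2⟩
  invFun b := ⟨d⁻¹ * b * d, h2 b b.2⟩
  left_inv b := by apply Subtype.ext; simp [mul_assoc]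
  right_inv b := by apply Subtype.ext; simp [mul_assoc]
  map_mul' a b := by apply Subtype.ext; simp [mul_assoc]

theorem conjAut_apply {G : Type*} [Group G] (B : Subgroup G) (d : G) (h1 : ∀ b ∈ B, d * b * d⁻¹ ∈ B)
    (h2 : ∀ b ∈ B, d⁻¹ * b * d ∈ B) (b : ↥B) :
    ((conjAut B d h1 h2 b : ↥B) : G) = d * b * d⁻¹ := rfl

theorem conjAut_pow_apply {G : Type*} [Group G] (B : Subgroup G) (d : G)
    (h1 : ∀ b ∈ B, d * b * d⁻¹ ∈ B) (h2 : ∀ b ∈ B, d⁻¹ * b * d ∈ B) (n : ℕ) (b : ↥B) :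
    ((((conjAut B d h1 h2) ^ n) b : ↥B) : G) = d ^ n * b * (d ^ n)⁻¹ := by
  induction n generalizing b with
  | zero => simp
  | succ n ih =>
    rw [pow_succ', MulAut.mul_apply, conjAut_apply, ih, pow_succ']
    simp [mul_assoc]

/-- The core step: if `d ∈ A` normalizes the commutative 2-group `B`, `d² ≠ 1`, `A ∩ B = 1`
and `A` is a TI-subgroup, then `d` centralizes `B`. -/
theorem core {G : Type*} [Group G] [Finite G] (A B : Subgroup G)
    (hB2 : IsPGroup 2 ↥B) (hBc : ∀ x ∈ B, ∀ y ∈ B, x * y = y * x)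
    (hTI : ∀ h : G, ∀ x ∈ A, x ≠ 1 → h * x * h⁻¹ ∈ A → ∀ y ∈ A, h * y * h⁻¹ ∈ A)
    (hAB : ∀ x, x ∈ A → x ∈ B → x = 1)
    (d : G) (hdA : d ∈ A) (hdo : ∃ m : ℕ, d ^ (2 ^ m) = 1)
    (h1 : ∀ b ∈ B, d * b * d⁻¹ ∈ B) (h2 : ∀ b ∈ B, d⁻¹ * b * d ∈ B) (hd2 : d ^ 2 ≠ 1) :
    ∀ b ∈ B, d * b * d⁻¹ = b := by
  letI : CommGroup ↥B :=
    { (inferInstance : Group ↥B) with mul_comm := fun x y => Subtype.ext (hBc x x.2 y y.2) }
  have ht : ∃ k : ℕ, orderOf (conjAut B d h1 h2) = 2 ^ k := by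
    obtain ⟨m, hm⟩ := hdo
    have hpow : (conjAut B d h1 h2) ^ (2 ^ m) = 1 := by
      ext b
      rw [conjAut_pow_apply, hm]
      simp
    have hdvd := orderOf_dvd_of_pow_eq_one hpow
    obtain ⟨k, _, hk⟩ := (Nat.dvd_prime_pow Nat.prime_two).mp hdvd
    exact ⟨k, hk⟩
  have hC : ∀ b : ↥B, (conjAut B d h1 h2) ((conjAut B d h1 h2) b) = b → (conjAut B d h1 h2) b = b := by
    intro b hb
    have hb' : d * (d * (b : G) * d⁻¹) * d⁻¹ = b := by
      have := congrArg Subtype.val hb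
      simpa [conjAut_apply] using this
    -- `b` commutes with `d²`
    have hz : (b : G) * d ^ 2 * (b : G)⁻¹ = d ^ 2 := by
      have h3 : d ^ 2 * (b : G) = (b : G) * d ^ 2 := by
        calc d ^ 2 * (b : G) = d * (d * (b : G) * d⁻¹) * d⁻¹ * d ^ 2 := by
              rw [pow_two]; simp [mul_assoc]
          _ = (b : G) * d ^ 2 := by rw [hb']
      rw [← h3]; simp
    have hzA : d ^ 2 ∈ A := A.pow_mem hdA 2
    have hnorm := hTI (b : G) (d ^ 2) hzA hd2 (by rw [hz]; exact hzA)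
    have hcA : (b : G) * d * (b : G)⁻¹ * d⁻¹ ∈ A := A.mul_mem (hnorm d hdA) (A.inv_mem hdA)
    have hcB : (b : G) * d * (b : G)⁻¹ * d⁻¹ ∈ B := by
      have h4 : (b : G) * d * (b : G)⁻¹ * d⁻¹ = (b : G) * (d * (b : G)⁻¹ * d⁻¹) := by
        simp [mul_assoc]
      rw [h4]
      exact B.mul_mem b.2 (h1 _ (B.inv_mem b.2))
    have h5 := hAB _ hcA hcB
    apply Subtype.ext
    rw [conjAut_apply]
    have h6 : (b : G) * d = d * (b : G) := by
      have : (b : G) * d * (b : G)⁻¹ * d⁻¹ * (d * (b : G)) = d * (b : G) := by rw [h5, one_mul]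
      rw [← this]; simp [mul_assoc]
    rw [← h6]; simp
  have hres := Cfsg.Agent.S1780.result (A := ↥B) hB2 (conjAut B d h1 h2) ht hC
  intro b hb
  have := congrArg Subtype.val (hres ⟨b, hb⟩)
  simpa [conjAut_apply] using this

/-- Let A be an abelian 2-subgroup of the finite group G such that every conjugate of A equals A or meets A trivially, and let g ∈ G with g A g⁻¹ ≠ A. Then either the subgroup of those elements of A that normalize g A g⁻¹ is an elementary abelian 2-group, or A and g A g⁻¹ commute elementwise. -/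
theorem result {G : Type*} [Group G] [Finite G] (A : Subgroup G)
    (hA2 : IsPGroup 2 ↥A) (hAa : IsMulCommutative ↥A)
    (hti : ∀ h : G, A.map (MulAut.conj h).toMonoidHom = A ∨ A.map (MulAut.conj h).toMonoidHom ⊓ A = ⊥)
    (g : G) (hg : A.map (MulAut.conj g).toMonoidHom ≠ A) :
    Cfsg.IsElementaryAbelian 2 (A ⊓ Subgroup.normalizer ((A.map (MulAut.conj g).toMonoidHom : Subgroup G) : Set G)) ∨
      ⁅A, A.map (MulAut.conj g).toMonoidHom⁆ = ⊥ := by
  classical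
  set B : Subgroup G := A.map (MulAut.conj g).toMonoidHom with hB
  have memB : ∀ x : G, x ∈ B ↔ ∃ y ∈ A, g * y * g⁻¹ = x := by
    intro x
    rw [hB, Subgroup.mem_map]
    simp
  have hAc : ∀ x ∈ A, ∀ y ∈ A, x * y = y * x := by
    intro x hx y hy
    have := hAa.is_comm.comm ⟨x, hx⟩ ⟨y, hy⟩
    exact congrArg Subtype.val this
  have hBc : ∀ x ∈ B, ∀ y ∈ B, x * y = y * x := by
    intro x hx y hy
    obtain ⟨x', hx', rfl⟩ := (memB x).mp hx
    obtain ⟨y', hy', rfl⟩ := (memB y).mp hy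
    have := hAc x' hx' y' hy'
    calc g * x' * g⁻¹ * (g * y' * g⁻¹) = g * (x' * y') * g⁻¹ := by simp [mul_assoc]
      _ = g * (y' * x') * g⁻¹ := by rw [this]
      _ = g * y' * g⁻¹ * (g * x' * g⁻¹) := by simp [mul_assoc]
  have hB2 : IsPGroup 2 ↥B := hA2.map _
  -- TI for A, elementwise
  have hTIA : ∀ h : G, ∀ x ∈ A, x ≠ 1 → h * x * h⁻¹ ∈ A → ∀ y ∈ A, h * y * h⁻¹ ∈ A := by
    intro h x hx hx1 hxh y hy
    rcases hti h with h1 | h1
    · rw [← h1]
      exact Subgroup.mem_map.mpr ⟨y, hy, by simp⟩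
    · exfalso
      have : h * x * h⁻¹ ∈ A.map (MulAut.conj h).toMonoidHom ⊓ A :=
        ⟨Subgroup.mem_map.mpr ⟨x, hx, by simp⟩, hxh⟩
      rw [h1, Subgroup.mem_bot] at this
      apply hx1
      have h3 : x = h⁻¹ * (h * x * h⁻¹) * h := by simp [mul_assoc]
      rw [h3, this]; simp
  -- TI for B, elementwise
  have hTIB : ∀ h : G, ∀ x ∈ B, x ≠ 1 → h * x * h⁻¹ ∈ B → ∀ y ∈ B, h * y * h⁻¹ ∈ B := by
    intro h x hx hx1 hxh y hy
    obtain ⟨x', hx', rfl⟩ := (memB x).mp hx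
    obtain ⟨y', hy', rfl⟩ := (memB y).mp hy
    obtain ⟨x'', hx'', hxe⟩ := (memB _).mp hxh
    have hx1' : x' ≠ 1 := by
      rintro rfl
      apply hx1; simp
    have h3 : (g⁻¹ * h * g) * x' * (g⁻¹ * h * g)⁻¹ = x'' := by
      have : x'' = g⁻¹ * (g * x'' * g⁻¹) * g := by simp [mul_assoc]
      rw [this, hxe]; simp [mul_assoc]
    have h4 := hTIA (g⁻¹ * h * g) x' hx' hx1' (by rw [h3]; exact hx'') y' hy'
    refine (memB _).mpr ⟨_, h4, ?_⟩
    simp [mul_assoc]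
  -- A ∩ B = 1
  have hAB : ∀ x, x ∈ A → x ∈ B → x = 1 := by
    intro x hxA hxB
    rcases hti g with h1 | h1
    · exact absurd h1 hg
    · have : x ∈ A.map (MulAut.conj g).toMonoidHom ⊓ A := ⟨hxB, hxA⟩
      rw [h1, Subgroup.mem_bot] at this
      exact this
  by_cases hel : ∀ d ∈ A ⊓ Subgroup.normalizer (B : Set G), d ^ 2 = 1
  · left
    refine ⟨⟨⟨?_⟩⟩, hel⟩
    rintro ⟨x, hx⟩ ⟨y, hy⟩
    exact Subtype.ext (hAc x hx.1 y hy.1)
  · right
    push_neg at hel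
    obtain ⟨d, hd, hd2⟩ := hel
    obtain ⟨hdA, hdN⟩ := hd
    have hdo : ∃ m : ℕ, d ^ (2 ^ m) = 1 := by
      obtain ⟨m, hm⟩ := hA2 ⟨d, hdA⟩
      exact ⟨m, by simpa using congrArg Subtype.val hm⟩
    have h1 : ∀ b ∈ B, d * b * d⁻¹ ∈ B := fun b hb => (Subgroup.mem_normalizer_iff.mp hdN b).mp hb
    have h2 : ∀ b ∈ B, d⁻¹ * b * d ∈ B := fun b hb => (Subgroup.mem_normalizer_iff''.mp hdN b).mp hb
    have hdcent := core A B hB2 hBc hTIA hAB d hdA hdo h1 h2 hd2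
    have hd1 : d ≠ 1 := by
      rintro rfl
      apply hd2; simp
    -- B normalizes A
    have hBnA : ∀ b ∈ B, ∀ y ∈ A, b * y * b⁻¹ ∈ A := by
      intro b hb
      apply hTIA b d hdA hd1
      have h3 : b * d * b⁻¹ = d := by
        have := hdcent b hb
        calc b * d * b⁻¹ = (d * b * d⁻¹) * d * b⁻¹ := by rw [this]
          _ = d := by simp [mul_assoc]
      rw [h3]; exact hdA
    -- now the symmetric step with e = g d g⁻¹
    have heB : g * d * g⁻¹ ∈ B := (memB _).mpr ⟨d, hdA, rfl⟩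
    have he2 : (g * d * g⁻¹) ^ 2 ≠ 1 := by
      intro h
      apply hd2
      have h3 : (g * d * g⁻¹) ^ 2 = g * d ^ 2 * g⁻¹ := by
        rw [pow_two, pow_two]; simp [mul_assoc]
      rw [h3] at h
      have h4 : d ^ 2 = g⁻¹ * (g * d ^ 2 * g⁻¹) * g := by simp [mul_assoc]
      rw [h4, h]; simp
    have heo : ∃ m : ℕ, (g * d * g⁻¹) ^ (2 ^ m) = 1 := by
      obtain ⟨m, hm⟩ := hB2 ⟨_, heB⟩
      exact ⟨m, by simpa using congrArg Subtype.val hm⟩
    have h1' : ∀ a ∈ A, (g * d * g⁻¹) * a * (g * d * g⁻¹)⁻¹ ∈ A := fun a ha => hBnA _ heB a ha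
    have h2' : ∀ a ∈ A, (g * d * g⁻¹)⁻¹ * a * (g * d * g⁻¹) ∈ A := by
      intro a ha
      have := hBnA _ (B.inv_mem heB) a ha
      simpa using this
    have hecent := core B A hA2 hAc hTIB (fun x hxB hxA => hAB x hxA hxB) (g * d * g⁻¹) heB heo h1' h2' he2
    have he1 : g * d * g⁻¹ ≠ 1 := by
      intro h
      apply he2; rw [h]; simp
    have hAnB : ∀ a ∈ A, ∀ y ∈ B, a * y * a⁻¹ ∈ B := by
      intro a ha
      apply hTIB a (g * d * g⁻¹) heB he1
      have h3 : a * (g * d * g⁻¹) * a⁻¹ = g * d * g⁻¹ := by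
        have := hecent a ha
        calc a * (g * d * g⁻¹) * a⁻¹ = ((g * d * g⁻¹) * a * (g * d * g⁻¹)⁻¹) * (g * d * g⁻¹) * a⁻¹ := by
              rw [this]
          _ = g * d * g⁻¹ := by simp [mul_assoc]
      rw [h3]; exact heB
    rw [eq_bot_iff, Subgroup.commutator_le]
    intro a ha b hb
    rw [Subgroup.mem_bot]
    apply hAB
    · rw [commutatorElement_def]
      have h3 : a * b * a⁻¹ * b⁻¹ = a * (b * a⁻¹ * b⁻¹) := by simp [mul_assoc]
      rw [h3]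
      exact A.mul_mem ha (hBnA b hb _ (A.inv_mem ha))
    · rw [commutatorElement_def]
      exact B.mul_mem (hAnB a ha b hb) (B.inv_mem hb)

end Cfsg.Agent.S1781
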