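import Cfsg.Statements.S1782

set_option autoImplicit false
open Cfsg

namespace Cfsg.Agent.S1782

/-- In a finite group with nontrivial Frattini subgroup some element has nontrivial square. -/
theorem exists_sq_ne_one {R : Type*} [Group R] [Finite R] (h : frattini R ≠ ⊥) :
    ∃ r : R, r ^ 2 ≠ 1 := by
  by_contra hcon
  push Not at hcon
  apply h
  rw [eq_bot_iff]
  intro x hx
  rw [Subgroup.mem_bot]
  by_contra hx1
  have hinv : ∀ a : R, a⁻¹ = a := fun a => by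
    rw [inv_eq_iff_mul_eq_one, ← pow_two]; exact hcon a
  have hcomm : ∀ a b : R, a * b = b * a := by
    intro a b
    have h1 := hinv (a * b)
    rw [mul_inv_rev, hinv a, hinv b] at h1
    exact h1.symm
  obtain ⟨H, -, hH⟩ := Finite.exists_le_maximal (p := fun H : Subgroup R => x ∉ H) (a := ⊥)
    (by simpa using hx1)
  have hcoatom : IsCoatom H := by
    refine ⟨fun htop => hH.1 (htop ▸ Subgroup.mem_top x), ?_⟩
    intro K hHK
    have hxK : x ∈ K := by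
      by_contra hxK
      exact absurd (hH.2 hxK hHK.le) (not_le_of_gt hHK)
    rw [eq_top_iff]
    intro g _
    by_cases hg : g ∈ H
    · exact hHK.le hg
    · let L : Subgroup R :=
        { carrier := {y | y ∈ H ∨ g * y ∈ H}
          one_mem' := Or.inl H.one_mem
          mul_mem' := by
            rintro y z (hy | hy) (hz | hz)
            · exact Or.inl (H.mul_mem hy hz)
            · right
              have : g * (y * z) = y * (g * z) := by rw [← mul_assoc, hcomm g y, mul_assoc]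
              rw [this]; exact H.mul_mem hy hz
            · right
              rw [← mul_assoc]; exact H.mul_mem hy hz
            · left
              have : y * z = (g * y) * (g * z) := by
                rw [hcomm g y, mul_assoc, ← mul_assoc g g z, ← pow_two, hcon g, one_mul]
              rw [this]; exact H.mul_mem hy hz
          inv_mem' := by
            intro y hy
            rw [hinv y]; exact hy }
      have hHL : H ≤ L := fun y hy => Or.inl hy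
      have hgL : g ∈ L := Or.inr (by rw [← pow_two, hcon g]; exact H.one_mem)
      have hxL : x ∈ L := by
        by_contra hxL
        exact hg (hH.2 hxL hHL hgL)
      rcases hxL with hxH | hxH
      · exact absurd hxH hH.1
      · have : g = (g * x) * x := by rw [mul_assoc, ← pow_two, hcon x, mul_one]
        rw [this]
        exact K.mul_mem (hHK.le hxH) hxK
  exact hH.1 (frattini_le_coatom hcoatom hx)

/-- A proper subgroup of a finite 2-group `P` lies in a proper subgroup normalized by `P`. -/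
theorem exists_proper_normal {G : Type*} [Group G] [Finite G] (P R : Subgroup G)
    (hP : IsPGroup 2 ↥P) (hRP : R ≤ P) (hne : R ≠ P) :
    ∃ M : Subgroup G, R ≤ M ∧ M ≤ P ∧ M ≠ P ∧ ∀ s ∈ P, ∀ x ∈ M, s * x * s⁻¹ ∈ M := by
  have : Fact (Nat.Prime 2) := ⟨Nat.prime_two⟩
  have : Group.IsNilpotent ↥P := hP.isNilpotent
  have hnc : NormalizerCondition ↥P := Group.normalizerCondition_of_isNilpotent
  have hR' : R.subgroupOf P ≠ ⊤ := by
    intro h
    apply hne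
    exact le_antisymm hRP (Subgroup.subgroupOf_eq_top.mp h)
  rcases eq_top_or_exists_le_coatom (R.subgroupOf P) with h | ⟨M', hM', hRM'⟩
  · exact absurd h hR'
  · have hMn : M'.Normal := Subgroup.NormalizerCondition.normal_of_coatom M' hnc hM'
    refine ⟨M'.map P.subtype, ?_, ?_, ?_, ?_⟩
    · intro x hx
      exact Subgroup.mem_map.mpr ⟨⟨x, hRP hx⟩, hRM' (Subgroup.mem_subgroupOf.mpr hx), rfl⟩
    · intro x hx
      obtain ⟨z, _, rfl⟩ := Subgroup.mem_map.mp hx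
      exact z.2
    · intro h
      apply hM'.1
      rw [eq_top_iff]
      intro y _
      have h1 : (y : G) ∈ M'.map P.subtype := by rw [h]; exact y.2
      obtain ⟨z, hz, hzy⟩ := Subgroup.mem_map.mp h1
      have h2 : z = y := Subtype.ext hzy
      rwa [← h2]
    · intro s hs x hx
      obtain ⟨z, hz, rfl⟩ := Subgroup.mem_map.mp hx
      exact Subgroup.mem_map.mpr ⟨⟨s, hs⟩ * z * ⟨s, hs⟩⁻¹, hMn.conj_mem z hz ⟨s, hs⟩, rfl⟩

/-- If `T` normalizes `R`, `R ∩ T = 1`, `|R| ≤ |T|`, and each `r ∈ R` either normalizes `T` or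
conjugates `T` to a subgroup meeting `T` trivially and commuting with `T`, then `R` and `T` commute. -/
theorem comm_of_normalizes {G : Type*} [Group G] [Finite G] (R T : Subgroup G)
    (hcard : Nat.card ↥R ≤ Nat.card ↥T)
    (hRT : ∀ x, x ∈ R → x ∈ T → x = 1)
    (hTR : ∀ t ∈ T, ∀ x ∈ R, t * x * t⁻¹ ∈ R)
    (hr : ∀ r ∈ R, (∀ y ∈ T, r * y * r⁻¹ ∈ T) ∨
      ((∀ y ∈ T, r * y * r⁻¹ ∈ T → y = 1) ∧
        ∀ y ∈ T, ∀ y' ∈ T, (r * y * r⁻¹) * y' = y' * (r * y * r⁻¹))) :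
    ∀ r ∈ R, ∀ t ∈ T, r * t = t * r := by
  have hnorm : ∀ r ∈ R, ∀ y ∈ T, r * y * r⁻¹ ∈ T := by
    intro r hrR
    rcases hr r hrR with h | ⟨h1, h2⟩
    · exact h
    · let f : ↥T → ↥R := fun t => ⟨r * t * r⁻¹ * (t : G)⁻¹, by
        have : r * t * r⁻¹ * (t : G)⁻¹ = r * ((t : G) * r⁻¹ * (t : G)⁻¹) := by simp [mul_assoc]
        rw [this]
        exact R.mul_mem hrR (hTR t t.2 _ (R.inv_mem hrR))⟩
      have hinj : Function.Injective f := by
        intro t t' h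
        have h' : r * (t : G) * r⁻¹ * (t : G)⁻¹ = r * (t' : G) * r⁻¹ * (t' : G)⁻¹ :=
          congrArg Subtype.val h
        have hu : r * ((t' : G)⁻¹ * t) * r⁻¹ = (t' : G)⁻¹ * t := by
          have h3 : (t : G) * r⁻¹ * (t : G)⁻¹ = (t' : G) * r⁻¹ * (t' : G)⁻¹ := by
            have := congrArg (fun z => r⁻¹ * z) h'
            simpa [mul_assoc] using this
          have h4 : (t' : G)⁻¹ * t * r⁻¹ = r⁻¹ * ((t' : G)⁻¹ * t) := by
            have := congrArg (fun z => (t' : G)⁻¹ * z * t) h3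
            simpa [mul_assoc] using this
          calc r * ((t' : G)⁻¹ * t) * r⁻¹ = r * ((t' : G)⁻¹ * t * r⁻¹) := by simp [mul_assoc]
            _ = (t' : G)⁻¹ * t := by rw [h4]; simp
        have hu1 := h1 _ (T.mul_mem (T.inv_mem t'.2) t.2)
          (by rw [hu]; exact T.mul_mem (T.inv_mem t'.2) t.2)
        apply Subtype.ext
        exact (inv_mul_eq_one.mp hu1).symm
      have hbij := hinj.bijective_of_nat_card_le hcard
      obtain ⟨t, ht⟩ := hbij.2 ⟨r, hrR⟩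
      have ht' : r * (t : G) * r⁻¹ * (t : G)⁻¹ = r := congrArg Subtype.val ht
      intro y hy
      have h5 : r * y * r⁻¹ = (t : G)⁻¹ * y * t := by
        have hc := h2 t t.2 ((t : G)⁻¹ * y * t) (T.mul_mem (T.mul_mem (T.inv_mem t.2) hy) t.2)
        calc r * y * r⁻¹
            = (r * t * r⁻¹ * (t : G)⁻¹) * y * (r * t * r⁻¹ * (t : G)⁻¹)⁻¹ := by rw [ht']
          _ = (r * t * r⁻¹) * ((t : G)⁻¹ * y * t) * (r * t * r⁻¹)⁻¹ := by simp [mul_assoc]
          _ = ((t : G)⁻¹ * y * t) * (r * t * r⁻¹) * (r * t * r⁻¹)⁻¹ := by rw [hc]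
          _ = (t : G)⁻¹ * y * t := by rw [mul_inv_cancel_right]
      rw [h5]
      exact T.mul_mem (T.mul_mem (T.inv_mem t.2) hy) t.2
  intro r hrR t htT
  have h6 : r * t * r⁻¹ * t⁻¹ = 1 := by
    apply hRT
    · have : r * t * r⁻¹ * t⁻¹ = r * (t * r⁻¹ * t⁻¹) := by simp [mul_assoc]
      rw [this]; exact R.mul_mem hrR (hTR t htT _ (R.inv_mem hrR))
    · exact T.mul_mem (hnorm r hrR t htT) (T.inv_mem htT)
  have := congrArg (fun z => z * t * r) h6
  simpa [mul_assoc] using this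

/-- The key commutator identity. -/
theorem key_identity {G : Type*} [Group G] (t r : G)
    (h1 : t⁻¹ * (r⁻¹ * t * r) = (r⁻¹ * t * r) * t⁻¹)
    (h2 : (t⁻¹ * r⁻¹ * t) * r = r * (t⁻¹ * r⁻¹ * t)) :
    t⁻¹ * t⁻¹ * (r⁻¹ * (t * t) * r) = t⁻¹ * (r⁻¹ * r⁻¹) * t * (r * r) := by
  have e1 : t⁻¹ * t⁻¹ * (r⁻¹ * (t * t) * r) = (t⁻¹ * (r⁻¹ * t * r)) * (t⁻¹ * (r⁻¹ * t * r)) := by
    calc t⁻¹ * t⁻¹ * (r⁻¹ * (t * t) * r) = t⁻¹ * (t⁻¹ * (r⁻¹ * t * r)) * (r⁻¹ * t * r) := by group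
      _ = t⁻¹ * ((r⁻¹ * t * r) * t⁻¹) * (r⁻¹ * t * r) := by rw [h1]
      _ = (t⁻¹ * (r⁻¹ * t * r)) * (t⁻¹ * (r⁻¹ * t * r)) := by group
  have e2 : t⁻¹ * (r⁻¹ * r⁻¹) * t * (r * r) = ((t⁻¹ * r⁻¹ * t) * r) * ((t⁻¹ * r⁻¹ * t) * r) := by
    calc t⁻¹ * (r⁻¹ * r⁻¹) * t * (r * r) = (t⁻¹ * r⁻¹ * t) * ((t⁻¹ * r⁻¹ * t) * r) * r := by group
      _ = (t⁻¹ * r⁻¹ * t) * (r * (t⁻¹ * r⁻¹ * t)) * r := by rw [h2]
      _ = ((t⁻¹ * r⁻¹ * t) * r) * ((t⁻¹ * r⁻¹ * t) * r) := by group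
  rw [e1, e2]
  congr 1 <;> group

/-- The main induction, inside an ambient finite group. -/
theorem main {G : Type*} [Group G] [Finite G] (Δ : Set (Subgroup G))
    (hsq : ∀ R ∈ Δ, ∃ r ∈ R, r ^ 2 ≠ 1)
    (hord : ∀ R ∈ Δ, ∀ T ∈ Δ, Nat.card ↥R = Nat.card ↥T)
    (hti : ∀ R ∈ Δ, ∀ T ∈ Δ, R = T ∨ R ⊓ T = ⊥) :
    ∀ n : ℕ, ∀ P : Subgroup G, Nat.card ↥P ≤ n → IsPGroup 2 ↥P →
      (∀ s ∈ P, ∀ R ∈ Δ, R ≤ P → R.map (MulAut.conj s).toMonoidHom ∈ Δ) →
      ∀ R ∈ Δ, ∀ T ∈ Δ, R ≤ P → T ≤ P → R ≠ T → ∀ r ∈ R, ∀ t ∈ T, r * t = t * r := by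
  intro n
  induction n with
  | zero =>
    intro P hP
    exfalso
    have := Nat.card_pos (α := ↥P)
    omega
  | succ n ih =>
    intro P hPn hP2 hinv R hR T hT hRP hTP hRT
    have hF : ∀ X ∈ Δ, X ≤ P → X ≠ P → ∀ s ∈ P, s ∉ Subgroup.normalizer (X : Set G) →
        (∀ x ∈ X, s * x * s⁻¹ ∈ X → x = 1) ∧
          ∀ x ∈ X, ∀ y ∈ X, (s * x * s⁻¹) * y = y * (s * x * s⁻¹) := by
      intro X hX hXP hXne s hs hsN
      have hXs : X.map (MulAut.conj s).toMonoidHom ∈ Δ := hinv s hs X hX hXP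
      have hne : X.map (MulAut.conj s).toMonoidHom ≠ X := by
        intro h
        apply hsN
        rw [Subgroup.mem_normalizer_iff]
        intro x
        constructor
        · intro hx
          rw [← h]
          exact Subgroup.mem_map.mpr ⟨x, hx, by simp⟩
        · intro hx
          rw [← h] at hx
          obtain ⟨y, hy, hyx⟩ := Subgroup.mem_map.mp hx
          have : y = x := by simpa using hyx
          rwa [← this]
      constructor
      · intro x hx hxs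
        rcases hti _ hXs X hX with h | h
        · exact absurd h hne
        · have h2 : s * x * s⁻¹ ∈ X.map (MulAut.conj s).toMonoidHom ⊓ X :=
            ⟨Subgroup.mem_map.mpr ⟨x, hx, by simp⟩, hxs⟩
          rw [h, Subgroup.mem_bot] at h2
          have h3 : x = s⁻¹ * (s * x * s⁻¹) * s := by simp [mul_assoc]
          rw [h3, h2]; simp
      · obtain ⟨M, hXM, hMP, hMne, hMn⟩ := exists_proper_normal P X hP2 hXP hXne
        have hcardM : Nat.card ↥M ≤ n := by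
          have h1 : Nat.card ↥M < Nat.card ↥P := by
            by_contra hcon
            push Not at hcon
            exact hMne (Subgroup.eq_of_le_of_card_ge hMP hcon)
          omega
        have hM2 : IsPGroup 2 ↥M := hP2.to_le hMP
        have hinvM : ∀ s ∈ M, ∀ R ∈ Δ, R ≤ M → R.map (MulAut.conj s).toMonoidHom ∈ Δ :=
          fun s hs R hR hRM => hinv s (hMP hs) R hR (hRM.trans hMP)
        have hXsM : X.map (MulAut.conj s).toMonoidHom ≤ M := by
          intro y hy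
          obtain ⟨x, hx, rfl⟩ := Subgroup.mem_map.mp hy
          simpa using hMn s hs x (hXM hx)
        intro x hx y hy
        exact ih M hcardM hM2 hinvM _ hXs X hX hXsM hXM hne (s * x * s⁻¹)
          (Subgroup.mem_map.mpr ⟨x, hx, by simp⟩) y hy
    have hcardRT := hord R hR T hT
    have hRne : R ≠ P := by
      rintro rfl
      exact hRT (Subgroup.eq_of_le_of_card_ge hTP (le_of_eq hcardRT)).symm
    have hTne : T ≠ P := by
      rintro rfl
      exact hRT (Subgroup.eq_of_le_of_card_ge hRP (le_of_eq hcardRT.symm))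
    have hRTbot : ∀ x, x ∈ R → x ∈ T → x = 1 := by
      intro x hxR hxT
      rcases hti R hR T hT with h | h
      · exact absurd h hRT
      · have h2 : x ∈ R ⊓ T := ⟨hxR, hxT⟩
        rw [h, Subgroup.mem_bot] at h2; exact h2
    have hFR := hF R hR hRP hRne
    have hFT := hF T hT hTP hTne
    by_cases hA : ∀ t ∈ T, t ∈ Subgroup.normalizer (R : Set G)
    · apply comm_of_normalizes R T (le_of_eq hcardRT) hRTbot
      · intro t ht x hx
        exact (Subgroup.mem_normalizer_iff.mp (hA t ht) x).mp hx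
      · intro r hr
        by_cases hrN : r ∈ Subgroup.normalizer (T : Set G)
        · left; intro y hy; exact (Subgroup.mem_normalizer_iff.mp hrN y).mp hy
        · right; exact hFT r (hRP hr) hrN
    by_cases hB : ∀ r ∈ R, r ∈ Subgroup.normalizer (T : Set G)
    · have h3 := comm_of_normalizes T R (le_of_eq hcardRT.symm) (fun x hxT hxR => hRTbot x hxR hxT)
        (fun r hr x hx => (Subgroup.mem_normalizer_iff.mp (hB r hr) x).mp hx)
        (fun t ht => by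
          by_cases htN : t ∈ Subgroup.normalizer (R : Set G)
          · left; intro y hy; exact (Subgroup.mem_normalizer_iff.mp htN y).mp hy
          · right; exact hFR t (hTP ht) htN)
      intro r hr t ht
      exact (h3 t ht r hr).symm
    exfalso
    push Not at hA hB
    obtain ⟨t₀, ht₀T, ht₀N⟩ := hA
    obtain ⟨r₀, hr₀R, hr₀N⟩ := hB
    -- the key identity for non-normalizing elements
    have hE : ∀ t ∈ T, t ∉ Subgroup.normalizer (R : Set G) → ∀ r ∈ R,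
        r ∉ Subgroup.normalizer (T : Set G) →
        t⁻¹ * t⁻¹ * (r⁻¹ * (t * t) * r) = t⁻¹ * (r⁻¹ * r⁻¹) * t * (r * r) := by
      intro t ht htN r hr hrN
      have hrN' : r⁻¹ ∉ Subgroup.normalizer (T : Set G) := fun h => hrN (by simpa using inv_mem h)
      have htN' : t⁻¹ ∉ Subgroup.normalizer (R : Set G) := fun h => htN (by simpa using inv_mem h)
      apply key_identity
      · have := (hFT r⁻¹ (hRP (R.inv_mem hr)) hrN').2 t ht t⁻¹ (T.inv_mem ht)
        simpa using this.symm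
      · have := (hFR t⁻¹ (hTP (T.inv_mem ht)) htN').2 r⁻¹ (R.inv_mem hr) r hr
        simpa using this
    -- elements not normalizing, with square normalizing, are involutions
    have hstar : ∀ t ∈ T, t ∉ Subgroup.normalizer (R : Set G) →
        t * t ∈ Subgroup.normalizer (R : Set G) → ∀ r ∈ R, r ∉ Subgroup.normalizer (T : Set G) →
        r * r ∈ Subgroup.normalizer (T : Set G) → t * t = 1 ∧ r * r = 1 := by
      intro t ht htN htt r hr hrN hrr
      have hrN' : r⁻¹ ∉ Subgroup.normalizer (T : Set G) := fun h => hrN (by simpa using inv_mem h)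
      have htN' : t⁻¹ ∉ Subgroup.normalizer (R : Set G) := fun h => htN (by simpa using inv_mem h)
      have he := hE t ht htN r hr hrN
      have hvR : t⁻¹ * t⁻¹ * (r⁻¹ * (t * t) * r) ∈ R := by
        have h1 : t⁻¹ * t⁻¹ * (r⁻¹ * (t * t) * r) = ((t * t)⁻¹ * r⁻¹ * (t * t)) * r := by group
        rw [h1]
        exact R.mul_mem ((Subgroup.mem_normalizer_iff''.mp htt r⁻¹).mp (R.inv_mem hr)) hr
      have hvT : t⁻¹ * (r⁻¹ * r⁻¹) * t * (r * r) ∈ T := by
        have h1 : t⁻¹ * (r⁻¹ * r⁻¹) * t * (r * r) = t⁻¹ * ((r * r)⁻¹ * t * (r * r)) := by group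
        rw [h1]
        exact T.mul_mem (T.inv_mem ht) ((Subgroup.mem_normalizer_iff''.mp hrr t).mp ht)
      have hv1 : t⁻¹ * t⁻¹ * (r⁻¹ * (t * t) * r) = 1 := hRTbot _ hvR (he ▸ hvT)
      have hv2 : t⁻¹ * (r⁻¹ * r⁻¹) * t * (r * r) = 1 := he ▸ hv1
      constructor
      · apply (hFT r⁻¹ (hRP (R.inv_mem hr)) hrN').1 (t * t) (T.mul_mem ht ht)
        have h3 : r⁻¹ * (t * t) * r⁻¹⁻¹ = t * t := by
          have h4 : r⁻¹ * (t * t) * r⁻¹⁻¹ = (t * t) * (t⁻¹ * t⁻¹ * (r⁻¹ * (t * t) * r)) := by group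
          rw [h4, hv1, mul_one]
        rw [h3]; exact T.mul_mem ht ht
      · have h5 : r⁻¹ * r⁻¹ = 1 := by
          apply (hFR t⁻¹ (hTP (T.inv_mem ht)) htN').1 (r⁻¹ * r⁻¹) (R.mul_mem (R.inv_mem hr) (R.inv_mem hr))
          have h3 : t⁻¹ * (r⁻¹ * r⁻¹) * t⁻¹⁻¹ = r⁻¹ * r⁻¹ := by
            have h4 : t⁻¹ * (r⁻¹ * r⁻¹) * t⁻¹⁻¹ = (t⁻¹ * (r⁻¹ * r⁻¹) * t * (r * r)) * (r⁻¹ * r⁻¹) := by
              group
            rw [h4, hv2, one_mul]
          rw [h3]; exact R.mul_mem (R.inv_mem hr) (R.inv_mem hr)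
        have h6 : r * r = (r⁻¹ * r⁻¹)⁻¹ := by simp
        rw [h6, h5, inv_one]
    -- find non-normalizing elements whose squares normalize
    have hexT : ∀ m : ℕ, ∀ t ∈ T, t ∉ Subgroup.normalizer (R : Set G) → t ^ (2 ^ m) = 1 →
        ∃ t' ∈ T, t' ∉ Subgroup.normalizer (R : Set G) ∧ t' * t' ∈ Subgroup.normalizer (R : Set G) := by
      intro m
      induction m with
      | zero =>
        intro t _ htN h
        exfalso; apply htN
        have : t = 1 := by simpa using h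
        rw [this]; exact Subgroup.one_mem _
      | succ m ihm =>
        intro t ht htN h
        by_cases h2 : t * t ∈ Subgroup.normalizer (R : Set G)
        · exact ⟨t, ht, htN, h2⟩
        · apply ihm (t * t) (T.mul_mem ht ht) h2
          rw [← pow_two, ← pow_mul, ← pow_succ']; exact h
    have hexR : ∀ m : ℕ, ∀ r ∈ R, r ∉ Subgroup.normalizer (T : Set G) → r ^ (2 ^ m) = 1 →
        ∃ r' ∈ R, r' ∉ Subgroup.normalizer (T : Set G) ∧ r' * r' ∈ Subgroup.normalizer (T : Set G) := by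
      intro m
      induction m with
      | zero =>
        intro r _ hrN h
        exfalso; apply hrN
        have : r = 1 := by simpa using h
        rw [this]; exact Subgroup.one_mem _
      | succ m ihm =>
        intro r hr hrN h
        by_cases h2 : r * r ∈ Subgroup.normalizer (T : Set G)
        · exact ⟨r, hr, hrN, h2⟩
        · apply ihm (r * r) (R.mul_mem hr hr) h2
          rw [← pow_two, ← pow_mul, ← pow_succ']; exact h
    have hpow : ∀ x ∈ P, ∃ m : ℕ, x ^ (2 ^ m) = 1 := by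
      intro x hx
      obtain ⟨m, hm⟩ := hP2 ⟨x, hx⟩
      exact ⟨m, by simpa using congrArg Subtype.val hm⟩
    obtain ⟨m₁, hm₁⟩ := hpow t₀ (hTP ht₀T)
    obtain ⟨t₁, ht₁T, ht₁N, ht₁sq⟩ := hexT m₁ t₀ ht₀T ht₀N hm₁
    obtain ⟨m₂, hm₂⟩ := hpow r₀ (hRP hr₀R)
    obtain ⟨r₁, hr₁R, hr₁N, hr₁sq⟩ := hexR m₂ r₀ hr₀R hr₀N hm₂
    obtain ⟨ht₁1, hr₁1⟩ := hstar t₁ ht₁T ht₁N ht₁sq r₁ hr₁R hr₁N hr₁sq
    have hr₁N' : r₁⁻¹ ∉ Subgroup.normalizer (T : Set G) := fun h => hr₁N (by simpa using inv_mem h)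
    have ht₁N' : t₁⁻¹ ∉ Subgroup.normalizer (R : Set G) := fun h => ht₁N (by simpa using inv_mem h)
    have hr₁inv : r₁⁻¹ = r₁ := by rw [inv_eq_iff_mul_eq_one]; exact hr₁1
    have ht₁inv : t₁⁻¹ = t₁ := by rw [inv_eq_iff_mul_eq_one]; exact ht₁1
    -- every non-normalizing element of R is an involution
    have hRinv : ∀ r ∈ R, r ∉ Subgroup.normalizer (T : Set G) → r * r = 1 := by
      intro r hr hrN
      have he := hE t₁ ht₁T ht₁N r hr hrN
      rw [ht₁1] at he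
      have hv2 : t₁⁻¹ * (r⁻¹ * r⁻¹) * t₁ * (r * r) = 1 := by
        rw [← he]
        have : t₁⁻¹ * t₁⁻¹ = 1 := by rw [ht₁inv]; exact ht₁1
        rw [this]; simp
      have h5 : r⁻¹ * r⁻¹ = 1 := by
        apply (hFR t₁⁻¹ (hTP (T.inv_mem ht₁T)) ht₁N').1 (r⁻¹ * r⁻¹)
          (R.mul_mem (R.inv_mem hr) (R.inv_mem hr))
        have h3 : t₁⁻¹ * (r⁻¹ * r⁻¹) * t₁⁻¹⁻¹ = r⁻¹ * r⁻¹ := by
          have h4 : t₁⁻¹ * (r⁻¹ * r⁻¹) * t₁⁻¹⁻¹ = (t₁⁻¹ * (r⁻¹ * r⁻¹) * t₁ * (r * r)) * (r⁻¹ * r⁻¹) := by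
            group
          rw [h4, hv2, one_mul]
        rw [h3]; exact R.mul_mem (R.inv_mem hr) (R.inv_mem hr)
      have h6 : r * r = (r⁻¹ * r⁻¹)⁻¹ := by simp
      rw [h6, h5, inv_one]
    -- an element of order 4 in N_R(T)
    obtain ⟨x, hxR, hx2⟩ := hsq R hR
    have hxN : x ∈ Subgroup.normalizer (T : Set G) := by
      by_contra hxN
      apply hx2
      rw [pow_two]; exact hRinv x hxR hxN
    have hexb : ∀ m : ℕ, ∀ x ∈ R, x ∈ Subgroup.normalizer (T : Set G) → x ^ 2 ≠ 1 → x ^ (2 ^ m) = 1 →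
        ∃ b ∈ R, b ∈ Subgroup.normalizer (T : Set G) ∧ b ^ 2 ≠ 1 ∧ b ^ 4 = 1 := by
      intro m
      induction m with
      | zero =>
        intro x _ _ hx2 h
        exfalso; apply hx2
        have : x = 1 := by simpa using h
        rw [this]; simp
      | succ m ihm =>
        intro x hxR hxN hx2 h
        by_cases h4 : x ^ 4 = 1
        · exact ⟨x, hxR, hxN, hx2, h4⟩
        · apply ihm (x ^ 2) (R.pow_mem hxR 2) (Subgroup.pow_mem _ hxN 2)
          · rw [← pow_mul]; exact h4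
          · rw [← pow_mul, ← pow_succ']; exact h
    obtain ⟨m₃, hm₃⟩ := hpow x (hRP hxR)
    obtain ⟨b, hbR, hbN, hb2, hb4⟩ := hexb m₃ x hxR hxN hx2 hm₃
    -- r₁ inverts b
    have hrb : r₁ * b * r₁⁻¹ = b⁻¹ := by
      have h1 : r₁ * b ∉ Subgroup.normalizer (T : Set G) := by
        intro h
        apply hr₁N
        have : r₁ = (r₁ * b) * b⁻¹ := by group
        rw [this]; exact Subgroup.mul_mem _ h (Subgroup.inv_mem _ hbN)
      have h2 := hRinv (r₁ * b) (R.mul_mem hr₁R hbR) h1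
      rw [hr₁inv]
      rw [eq_inv_iff_mul_eq_one]
      have : r₁ * b * r₁ * b = (r₁ * b) * (r₁ * b) := by group
      rw [this]; exact h2
    -- b' = t₁ b t₁⁻¹ commutes with R
    have hcomm := (hFR t₁ (hTP ht₁T) ht₁N).2
    have hc1 : (t₁ * b * t₁⁻¹) * b⁻¹ = b⁻¹ * (t₁ * b * t₁⁻¹) := hcomm b hbR b⁻¹ (R.inv_mem hbR)
    have hc2 : (t₁ * b * t₁⁻¹) * b = b * (t₁ * b * t₁⁻¹) := hcomm b hbR b hbR
    have hc3 : (t₁ * b * t₁⁻¹) * r₁ = r₁ * (t₁ * b * t₁⁻¹) := hcomm b hbR r₁ hr₁R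
    -- a = b⁻¹ b' ∈ T
    have haT : b⁻¹ * (t₁ * b * t₁⁻¹) ∈ T := by
      have h1 : b⁻¹ * (t₁ * b * t₁⁻¹) = (b⁻¹ * t₁ * b) * t₁⁻¹ := by group
      rw [h1]
      exact T.mul_mem ((Subgroup.mem_normalizer_iff''.mp hbN t₁).mp ht₁T) (T.inv_mem ht₁T)
    have hbb : b * b = b⁻¹ * b⁻¹ := by
      have h1 : b * b * (b * b) = 1 := by
        have : b * b * (b * b) = b ^ 4 := by
          rw [show (4 : ℕ) = 2 + 2 from rfl, pow_add, pow_two]
        rw [this, hb4]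
      have h2 : b * b = (b * b)⁻¹ := by rw [eq_inv_iff_mul_eq_one]; exact h1
      rw [h2]; group
    have haa : (b⁻¹ * (t₁ * b * t₁⁻¹)) * (b⁻¹ * (t₁ * b * t₁⁻¹)) =
        b⁻¹ * b⁻¹ * ((t₁ * b * t₁⁻¹) * (t₁ * b * t₁⁻¹)) := by
      calc (b⁻¹ * (t₁ * b * t₁⁻¹)) * (b⁻¹ * (t₁ * b * t₁⁻¹))
          = b⁻¹ * ((t₁ * b * t₁⁻¹) * b⁻¹) * (t₁ * b * t₁⁻¹) := by simp only [mul_assoc]
        _ = b⁻¹ * (b⁻¹ * (t₁ * b * t₁⁻¹)) * (t₁ * b * t₁⁻¹) := by rw [hc1]
        _ = b⁻¹ * b⁻¹ * ((t₁ * b * t₁⁻¹) * (t₁ * b * t₁⁻¹)) := by simp only [mul_assoc]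
    have hconj : r₁ * ((b⁻¹ * (t₁ * b * t₁⁻¹)) * (b⁻¹ * (t₁ * b * t₁⁻¹))) * r₁⁻¹ =
        (b⁻¹ * (t₁ * b * t₁⁻¹)) * (b⁻¹ * (t₁ * b * t₁⁻¹)) := by
      have h1 : r₁ * (b⁻¹ * (t₁ * b * t₁⁻¹)) * r₁⁻¹ = b * (t₁ * b * t₁⁻¹) := by
        calc r₁ * (b⁻¹ * (t₁ * b * t₁⁻¹)) * r₁⁻¹
            = (r₁ * b * r₁⁻¹)⁻¹ * (r₁ * (t₁ * b * t₁⁻¹)) * r₁⁻¹ := by group
          _ = b * ((t₁ * b * t₁⁻¹) * r₁) * r₁⁻¹ := by rw [hrb, inv_inv, hc3]
          _ = b * (t₁ * b * t₁⁻¹) := by simp [mul_assoc]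
      have h2 : r₁ * ((b⁻¹ * (t₁ * b * t₁⁻¹)) * (b⁻¹ * (t₁ * b * t₁⁻¹))) * r₁⁻¹ =
          (r₁ * (b⁻¹ * (t₁ * b * t₁⁻¹)) * r₁⁻¹) * (r₁ * (b⁻¹ * (t₁ * b * t₁⁻¹)) * r₁⁻¹) := by group
      rw [h2, h1, haa]
      calc b * (t₁ * b * t₁⁻¹) * (b * (t₁ * b * t₁⁻¹))
          = b * ((t₁ * b * t₁⁻¹) * b) * (t₁ * b * t₁⁻¹) := by simp only [mul_assoc]
        _ = b * (b * (t₁ * b * t₁⁻¹)) * (t₁ * b * t₁⁻¹) := by rw [hc2]
        _ = (b * b) * ((t₁ * b * t₁⁻¹) * (t₁ * b * t₁⁻¹)) := by simp only [mul_assoc]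
        _ = b⁻¹ * b⁻¹ * ((t₁ * b * t₁⁻¹) * (t₁ * b * t₁⁻¹)) := by rw [hbb]
    have haa1 : (b⁻¹ * (t₁ * b * t₁⁻¹)) * (b⁻¹ * (t₁ * b * t₁⁻¹)) = 1 := by
      apply (hFT r₁ (hRP hr₁R) hr₁N).1 _ (T.mul_mem haT haT)
      rw [hconj]; exact T.mul_mem haT haT
    rw [haa] at haa1
    -- so t₁ (b b) t₁⁻¹ = b b, hence b b = 1
    have hfin : b * b = 1 := by
      apply (hFR t₁ (hTP ht₁T) ht₁N).1 (b * b) (R.mul_mem hbR hbR)
      have h1 : t₁ * (b * b) * t₁⁻¹ = b * b := by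
        have h2 : t₁ * (b * b) * t₁⁻¹ = (t₁ * b * t₁⁻¹) * (t₁ * b * t₁⁻¹) := by group
        rw [h2]
        have h3 : (t₁ * b * t₁⁻¹) * (t₁ * b * t₁⁻¹) =
            (b * b) * (b⁻¹ * b⁻¹ * ((t₁ * b * t₁⁻¹) * (t₁ * b * t₁⁻¹))) := by group
        rw [h3, haa1, mul_one]
      rw [h1]; exact R.mul_mem hbR hbR
    apply hb2
    rw [pow_two]; exact hfin

/-- Let S be a finite 2-group and Δ a set of subgroups of S closed under conjugation by S, all of the same order, each with nontrivial Frattini subgroup, and such that two distinct members of Δ meet trivially. Then any two distinct members of Δ commute elementwise. -/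
theorem result {S : Type*} [Group S] [Finite S] (hS : IsPGroup 2 S)
    (Δ : Set (Subgroup S)) (hinv : ∀ s : S, ∀ R ∈ Δ, R.map (MulAut.conj s).toMonoidHom ∈ Δ)
    (hΦ : ∀ R ∈ Δ, frattini ↥R ≠ ⊥) (hord : ∀ R ∈ Δ, ∀ T ∈ Δ, Nat.card ↥R = Nat.card ↥T)
    (hti : ∀ R ∈ Δ, ∀ T ∈ Δ, R = T ∨ R ⊓ T = ⊥) :
    ∀ R ∈ Δ, ∀ T ∈ Δ, R ≠ T → ⁅R, T⁆ = ⊥ := by
  intro R hR T hT hRT
  have hsq : ∀ R ∈ Δ, ∃ r ∈ R, r ^ 2 ≠ 1 := by
    intro R hR
    obtain ⟨r, hr⟩ := exists_sq_ne_one (hΦ R hR)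
    refine ⟨r, r.2, ?_⟩
    intro h
    apply hr
    apply Subtype.ext
    simpa using h
  have hmain := main Δ hsq hord hti (Nat.card ↥(⊤ : Subgroup S)) ⊤ le_rfl (hS.to_subgroup ⊤)
    (fun s _ R hR _ => hinv s R hR) R hR T hT le_top le_top hRT
  rw [eq_bot_iff, Subgroup.commutator_le]
  intro r hr t ht
  rw [Subgroup.mem_bot, commutatorElement_eq_one_iff_mul_comm]
  exact hmain r hr t ht

end Cfsg.Agent.S1782
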