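import Cfsg.Statements.S1783
import Cfsg.Agent.S1782
import Cfsg.Agent.Helper22.Bender
import Cfsg.Agent.Helper49.AxB

set_option autoImplicit false
open Cfsg

namespace Cfsg.Agent.S1783

theorem mem_map_conj {X : Type*} [Group X] {H : Subgroup X} {g y : X} :
    y ∈ H.map (MulAut.conj g).toMonoidHom ↔ g⁻¹ * y * g ∈ H := by
  constructor
  · rintro ⟨a, ha, rfl⟩
    have h1 : g⁻¹ * (MulAut.conj g).toMonoidHom a * g = a := by simp [mul_assoc]
    rwa [h1]
  · intro h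
    exact ⟨g⁻¹ * y * g, h, by simp [mul_assoc]⟩

/-- The closure of a conjugation-invariant set is conjugation-invariant. -/
theorem conj_mem_closure {X : Type*} [Group X] {S : Set X}
    (hS : ∀ s ∈ S, ∀ g : X, g * s * g⁻¹ ∈ S) (g : X) {y : X}
    (hy : y ∈ Subgroup.closure S) : g * y * g⁻¹ ∈ Subgroup.closure S := by
  have h1 : (Subgroup.closure S).map (MulAut.conj g).toMonoidHom ≤ Subgroup.closure S := by
    rw [MonoidHom.map_closure, Subgroup.closure_le]
    rintro _ ⟨s, hs, rfl⟩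
    exact Subgroup.subset_closure (hS s hs g)
  exact h1 (Subgroup.mem_map.mpr ⟨y, hy, rfl⟩)

/-- The subgroup generated by the squares of a subgroup. -/
def sq {X : Type*} [Group X] (N : Subgroup X) : Subgroup X :=
  Subgroup.closure ((fun x : X => x ^ 2) '' (N : Set X))

theorem sq_le {X : Type*} [Group X] (N : Subgroup X) : sq N ≤ N := by
  unfold sq
  rw [Subgroup.closure_le]
  rintro _ ⟨x, hx, rfl⟩
  exact N.pow_mem hx 2

theorem conj_mem_sq {X : Type*} [Group X] {N : Subgroup X} (hN : N.Normal) (g : X) {y : X}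
    (hy : y ∈ sq N) : g * y * g⁻¹ ∈ sq N := by
  apply conj_mem_closure _ g hy
  rintro _ ⟨x, hx, rfl⟩ g
  refine ⟨g * x * g⁻¹, hN.conj_mem x hx g, ?_⟩
  simp [pow_two, mul_assoc]

theorem sq_ne_self {X : Type*} [Group X] [Finite X] {N : Subgroup X} (hN : IsPGroup 2 ↥N)
    (hne : N ≠ ⊥) : sq N ≠ N := by
  have : Fact (Nat.Prime 2) := ⟨Nat.prime_two⟩
  obtain ⟨k, hk⟩ := IsPGroup.iff_card.mp hN
  have hk0 : k ≠ 0 := by
    rintro rfl
    rw [pow_zero] at hk
    exact hne (Subgroup.card_eq_one.mp hk)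
  obtain ⟨k', rfl⟩ := Nat.exists_eq_succ_of_ne_zero hk0
  obtain ⟨M, hM⟩ := Sylow.exists_subgroup_card_pow_prime 2 (n := k') (G := ↥N)
    (by rw [hk]; exact pow_dvd_pow 2 (Nat.le_succ k'))
  have hidx : M.index = 2 := by
    have h1 := M.card_mul_index
    rw [hM, hk, pow_succ] at h1
    exact Nat.eq_of_mul_eq_mul_left (pow_pos (by norm_num) k') h1
  intro heq
  have hle : sq N ≤ M.map N.subtype := by
    unfold sq
    rw [Subgroup.closure_le]
    rintro _ ⟨x, hx, rfl⟩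
    exact ⟨⟨x, hx⟩ ^ 2, Subgroup.sq_mem_of_index_two hidx _, rfl⟩
  have hMtop : M = ⊤ := by
    rw [eq_top_iff]
    intro y _
    have hy' : (y : X) ∈ sq N := by rw [heq]; exact y.2
    have h1 : (y : X) ∈ M.map N.subtype := hle hy'
    obtain ⟨w, hw, hwy⟩ := h1
    have h2 : w = y := Subtype.ext hwy
    rwa [← h2]
  rw [hMtop, Subgroup.index_top] at hidx
  omega

/-- The elements of `X` acting trivially on `N / sq N` for each normal subgroup `N ≤ Q`. -/
def stab {X : Type*} [Group X] (Q : Subgroup X) : Subgroup X where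
  carrier := {g | ∀ N : Subgroup X, N.Normal → N ≤ Q → ∀ n ∈ N, g * n * g⁻¹ * n⁻¹ ∈ sq N}
  one_mem' := by
    intro N _ _ n _
    simp
  mul_mem' := by
    intro g h hg hh N hN hNQ n hn
    have h1 : g * h * n * (g * h)⁻¹ * n⁻¹ =
        (g * (h * n * h⁻¹ * n⁻¹) * g⁻¹) * (g * n * g⁻¹ * n⁻¹) := by group
    rw [h1]
    exact (sq N).mul_mem (conj_mem_sq hN g (hh N hN hNQ n hn)) (hg N hN hNQ n hn)
  inv_mem' := by
    intro g hg N hN hNQ n hn
    have h1 : g⁻¹ * n * g⁻¹⁻¹ * n⁻¹ = g⁻¹ * (g * n * g⁻¹ * n⁻¹)⁻¹ * g⁻¹⁻¹ := by group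
    rw [h1]
    exact conj_mem_sq hN g⁻¹ ((sq N).inv_mem (hg N hN hNQ n hn))

theorem mem_stab {X : Type*} [Group X] (Q : Subgroup X) (g : X) :
    g ∈ stab Q ↔ ∀ N : Subgroup X, N.Normal → N ≤ Q → ∀ n ∈ N, g * n * g⁻¹ * n⁻¹ ∈ sq N :=
  Iff.rfl

theorem stab_normal {X : Type*} [Group X] (Q : Subgroup X) : (stab Q).Normal := by
  constructor
  intro g hg x
  rw [mem_stab] at hg ⊢
  intro N hN hNQ n hn
  have h1 : x * g * x⁻¹ * n * (x * g * x⁻¹)⁻¹ * n⁻¹ =
      x * (g * (x⁻¹ * n * x) * g⁻¹ * (x⁻¹ * n * x)⁻¹) * x⁻¹ := by group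
  rw [h1]
  apply conj_mem_sq hN
  apply hg N hN hNQ
  have h2 := hN.conj_mem n hn x⁻¹
  simpa using h2

theorem stab_isPGroup {X : Type*} [Group X] [Finite X] (Q : Subgroup X) (hQn : Q.Normal)
    (hQ2 : IsPGroup 2 ↥Q) (hCQ : Subgroup.centralizer (Q : Set X) ≤ Q) :
    IsPGroup 2 ↥(stab Q) := by
  have : Fact (Nat.Prime 2) := ⟨Nat.prime_two⟩
  apply Cfsg.Agent.Helper49.isPGroup_of_coprime_order_trivial _
    (fun g _ => isOfFinOrder_of_finite g)
  intro g hg hcop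
  rw [mem_stab] at hg
  have key : ∀ m : ℕ, ∀ N : Subgroup X, N.Normal → N ≤ Q → Nat.card ↥N ≤ m →
      ∀ n ∈ N, g * n * g⁻¹ = n := by
    intro m
    induction m with
    | zero =>
      intro N _ _ hcard
      exfalso
      have := Nat.card_pos (α := ↥N)
      omega
    | succ m ih =>
      intro N hN hNQ hcard n hn
      by_cases hbot : N = ⊥
      · rw [hbot, Subgroup.mem_bot] at hn
        rw [hn]; simp
      · have hsqN : (sq N).Normal := ⟨fun y hy x => conj_mem_sq hN x hy⟩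
        have hlt : Nat.card ↥(sq N) ≤ m := by
          have h1 : Nat.card ↥(sq N) < Nat.card ↥N := by
            by_contra hcon
            push Not at hcon
            exact sq_ne_self (hQ2.to_le hNQ) hbot (Subgroup.eq_of_le_of_card_ge (sq_le N) hcon)
          omega
        have hd := hg N hN hNQ n hn
        have hcd : g * (g * n * g⁻¹ * n⁻¹) * g⁻¹ = g * n * g⁻¹ * n⁻¹ :=
          ih (sq N) hsqN ((sq_le N).trans hNQ) hlt _ hd
        have hcomm : Commute g (g * n * g⁻¹ * n⁻¹) := by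
          have h3 : g * (g * n * g⁻¹ * n⁻¹) = g * (g * n * g⁻¹ * n⁻¹) * g⁻¹ * g := by group
          exact h3.trans (by rw [hcd])
        have h2 : g * n * g⁻¹ = (g * n * g⁻¹ * n⁻¹) * n := by group
        have hd1 : g * n * g⁻¹ * n⁻¹ = 1 :=
          Cfsg.Agent.Helper49.eq_one_of_conj_eq_mul_left h2 hcomm
            (Cfsg.Agent.Helper49.pow_eq_one_of_mem_isPGroup hQ2 (hNQ ((sq_le N) hd))) hcop
        rw [h2, hd1, one_mul]
  have hgc : g ∈ Subgroup.centralizer (Q : Set X) := by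
    rw [Subgroup.mem_centralizer_iff]
    intro q hq
    have h1 := key (Nat.card ↥Q) Q hQn le_rfl le_rfl q hq
    calc q * g = (g * q * g⁻¹) * g := by rw [h1]
      _ = g * q := by group
  exact Cfsg.Agent.Helper49.eq_one_of_pPow_of_coprime
    (Cfsg.Agent.Helper49.pow_eq_one_of_mem_isPGroup hQ2 (hCQ hgc)) hcop

/-- Conjugates of an abelian TI-subgroup with a nontrivial square which lie in a common 2-subgroup
commute elementwise. -/
theorem ti_conj_commute {X : Type*} [Group X] [Finite X] (A : Subgroup X)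
    (hAa : IsMulCommutative ↥A)
    (hti : ∀ h : X, A.map (MulAut.conj h).toMonoidHom = A ∨
      A.map (MulAut.conj h).toMonoidHom ⊓ A = ⊥)
    (hsq : ∃ r ∈ A, r ^ 2 ≠ 1) (P : Subgroup X) (hP : IsPGroup 2 ↥P) (x y : X)
    (hx : A.map (MulAut.conj x).toMonoidHom ≤ P) (hy : A.map (MulAut.conj y).toMonoidHom ≤ P) :
    ∀ r ∈ A.map (MulAut.conj x).toMonoidHom, ∀ t ∈ A.map (MulAut.conj y).toMonoidHom,
      r * t = t * r := by
  by_cases heq : A.map (MulAut.conj x).toMonoidHom = A.map (MulAut.conj y).toMonoidHom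
  · intro r hr t ht
    rw [← heq] at ht
    obtain ⟨a, ha, rfl⟩ := hr
    obtain ⟨b, hb, rfl⟩ := ht
    have hab : a * b = b * a := congrArg Subtype.val (hAa.is_comm.comm ⟨a, ha⟩ ⟨b, hb⟩)
    rw [← map_mul, ← map_mul, hab]
  · have hΔsq : ∀ R ∈ {R : Subgroup X | ∃ g : X, R = A.map (MulAut.conj g).toMonoidHom},
        ∃ r ∈ R, r ^ 2 ≠ 1 := by
      rintro R ⟨g, rfl⟩
      obtain ⟨r, hr, hr2⟩ := hsq
      refine ⟨g * r * g⁻¹, ⟨r, hr, rfl⟩, ?_⟩
      intro h
      apply hr2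
      have h3 : (g * r * g⁻¹) ^ 2 = g * r ^ 2 * g⁻¹ := by simp [pow_two, mul_assoc]
      rw [h3] at h
      have h4 : r ^ 2 = g⁻¹ * (g * r ^ 2 * g⁻¹) * g := by simp [mul_assoc]
      rw [h4, h]; simp
    have hΔord : ∀ R ∈ {R : Subgroup X | ∃ g : X, R = A.map (MulAut.conj g).toMonoidHom},
        ∀ T ∈ {R : Subgroup X | ∃ g : X, R = A.map (MulAut.conj g).toMonoidHom},
        Nat.card ↥R = Nat.card ↥T := by
      rintro R ⟨g, rfl⟩ T ⟨g', rfl⟩
      rw [Subgroup.card_map_of_injective (MulAut.conj g).injective,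
        Subgroup.card_map_of_injective (MulAut.conj g').injective]
    have hΔti : ∀ R ∈ {R : Subgroup X | ∃ g : X, R = A.map (MulAut.conj g).toMonoidHom},
        ∀ T ∈ {R : Subgroup X | ∃ g : X, R = A.map (MulAut.conj g).toMonoidHom},
        R = T ∨ R ⊓ T = ⊥ := by
      rintro R ⟨g, rfl⟩ T ⟨g', rfl⟩
      rcases hti (g'⁻¹ * g) with h | h
      · left
        ext w
        rw [mem_map_conj, mem_map_conj]
        have h1 : ∀ v, (g'⁻¹ * g)⁻¹ * v * (g'⁻¹ * g) ∈ A ↔ v ∈ A := by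
          intro v; rw [← mem_map_conj, h]
        rw [← h1 (g'⁻¹ * w * g')]
        have h2 : (g'⁻¹ * g)⁻¹ * (g'⁻¹ * w * g') * (g'⁻¹ * g) = g⁻¹ * w * g := by group
        rw [h2]
      · right
        rw [eq_bot_iff]
        intro w hw
        obtain ⟨hw1, hw2⟩ := Subgroup.mem_inf.mp hw
        rw [mem_map_conj] at hw1 hw2
        have h3 : g'⁻¹ * w * g' ∈ A.map (MulAut.conj (g'⁻¹ * g)).toMonoidHom ⊓ A := by
          refine Subgroup.mem_inf.mpr ⟨?_, hw2⟩
          rw [mem_map_conj]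
          have h2 : (g'⁻¹ * g)⁻¹ * (g'⁻¹ * w * g') * (g'⁻¹ * g) = g⁻¹ * w * g := by group
          rw [h2]; exact hw1
        rw [h, Subgroup.mem_bot] at h3
        rw [Subgroup.mem_bot]
        have h4 : w = g' * (g'⁻¹ * w * g') * g'⁻¹ := by group
        rw [h4, h3]; group
    have hinv : ∀ s ∈ P, ∀ R ∈ {R : Subgroup X | ∃ g : X, R = A.map (MulAut.conj g).toMonoidHom},
        R ≤ P → R.map (MulAut.conj s).toMonoidHom ∈
          {R : Subgroup X | ∃ g : X, R = A.map (MulAut.conj g).toMonoidHom} := by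
      rintro s _ R ⟨g, rfl⟩ _
      refine ⟨s * g, ?_⟩
      ext w
      rw [mem_map_conj, mem_map_conj, mem_map_conj]
      have h2 : g⁻¹ * (s⁻¹ * w * s) * g = (s * g)⁻¹ * w * (s * g) := by group
      rw [h2]
    exact Cfsg.Agent.S1782.main _ hΔsq hΔord hΔti (Nat.card ↥P) P le_rfl hP hinv _ ⟨x, rfl⟩ _
      ⟨y, rfl⟩ hx hy heq

/-- Let X be a finite group whose generalized Fitting subgroup equals its largest normal 2-subgroup Q, and let A be an abelian 2-subgroup of X such that every conjugate of A equals A or meets A trivially. Let B be the subgroup generated by the squares of the elements of A. Then B lies in Q, and if B is not an elementary abelian 2-group then the normal closure of B in X is commutative. -/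
theorem result {X : Type*} [Group X] [Finite X]
    (hX : Cfsg.generalizedFittingSubgroup X = Cfsg.pCore 2 X) (A : Subgroup X) (hA2 : IsPGroup 2 ↥A) (hAa : IsMulCommutative ↥A)
    (hti : ∀ h : X, A.map (MulAut.conj h).toMonoidHom = A ∨ A.map (MulAut.conj h).toMonoidHom ⊓ A = ⊥) :
    Subgroup.closure ((fun a : X => a ^ 2) '' (A : Set X)) ≤ Cfsg.pCore 2 X ∧
      (¬ Cfsg.IsElementaryAbelian 2 (Subgroup.closure ((fun a : X => a ^ 2) '' (A : Set X))) →
        IsMulCommutative ↥(Subgroup.normalClosure ((fun a : X => a ^ 2) '' (A : Set X)))) := by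
  have : Fact (Nat.Prime 2) := ⟨Nat.prime_two⟩
  have hQn : (pCore 2 X).Normal := inferInstance
  have hQ2 : IsPGroup 2 ↥(pCore 2 X) := Cfsg.Agent.Helper49.pCore_isPGroup 2 X
  have hCQ : Subgroup.centralizer (pCore 2 X : Set X) ≤ pCore 2 X := by
    have h := Cfsg.Agent.Helper22.centralizer_generalizedFittingSubgroup_le X
    rwa [hX] at h
  have hpart1 : ∀ a ∈ A, a ^ 2 ∈ pCore 2 X := by
    by_cases hsq : ∃ r ∈ A, r ^ 2 ≠ 1
    · intro a ha
      have hP : IsPGroup 2 ↥(A ⊔ pCore 2 X) := hA2.to_sup_of_normal_right hQ2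
      have hAP : A ≤ A ⊔ pCore 2 X := le_sup_left
      have hQP : pCore 2 X ≤ A ⊔ pCore 2 X := le_sup_right
      have hcomm : ∀ q ∈ pCore 2 X, ∀ a₁ ∈ A, ∀ a₂ ∈ A,
          a₁ * (q * a₂ * q⁻¹) = (q * a₂ * q⁻¹) * a₁ := by
        intro q hq a₁ ha₁ a₂ ha₂
        have hx : A.map (MulAut.conj 1).toMonoidHom ≤ A ⊔ pCore 2 X := by
          intro w hw
          rw [mem_map_conj] at hw
          exact hAP (by simpa using hw)
        have hy : A.map (MulAut.conj q).toMonoidHom ≤ A ⊔ pCore 2 X := by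
          intro w hw
          rw [mem_map_conj] at hw
          have h1 : w = q * (q⁻¹ * w * q) * q⁻¹ := by group
          rw [h1]
          exact Subgroup.mul_mem _ (Subgroup.mul_mem _ (hQP hq) (hAP hw))
            (Subgroup.inv_mem _ (hQP hq))
        exact ti_conj_commute A hAa hti hsq _ hP 1 q hx hy a₁
          (by rw [mem_map_conj]; simpa using ha₁) _ ⟨a₂, ha₂, rfl⟩
      have hstab : a ^ 2 ∈ stab (pCore 2 X) := by
        rw [mem_stab]
        intro N hN hNQ n hn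
        have hc : a * n * a⁻¹ * n⁻¹ ∈ N := N.mul_mem (hN.conj_mem n hn a) (N.inv_mem hn)
        have hca : a * (a * n * a⁻¹ * n⁻¹) = (a * n * a⁻¹ * n⁻¹) * a := by
          have h1 := hcomm n (hNQ hn) a ha a⁻¹ (A.inv_mem ha)
          calc a * (a * n * a⁻¹ * n⁻¹) = a * (a * (n * a⁻¹ * n⁻¹)) := by group
            _ = a * ((n * a⁻¹ * n⁻¹) * a) := by rw [h1]
            _ = (a * n * a⁻¹ * n⁻¹) * a := by group
        have h2 : a ^ 2 * n * (a ^ 2)⁻¹ * n⁻¹ = (a * n * a⁻¹ * n⁻¹) ^ 2 := by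
          calc a ^ 2 * n * (a ^ 2)⁻¹ * n⁻¹
              = a * (a * n * a⁻¹ * n⁻¹) * (n * a⁻¹ * n⁻¹) := by rw [pow_two]; group
            _ = (a * n * a⁻¹ * n⁻¹) * a * (n * a⁻¹ * n⁻¹) := by rw [hca]
            _ = (a * n * a⁻¹ * n⁻¹) ^ 2 := by rw [pow_two]; group
        rw [h2]
        exact Subgroup.subset_closure ⟨_, hc, rfl⟩
      exact Cfsg.Agent.Helper49.le_pCore (stab_normal _) (stab_isPGroup _ hQn hQ2 hCQ) hstab
    · push Not at hsq
      intro a ha
      rw [hsq a ha]; exact Subgroup.one_mem _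
  have hBQ : Subgroup.closure ((fun a : X => a ^ 2) '' (A : Set X)) ≤ pCore 2 X :=
    (Subgroup.closure_le _).mpr (by rintro _ ⟨a, ha, rfl⟩; exact hpart1 a ha)
  refine ⟨hBQ, ?_⟩
  intro hnel
  have hBA : Subgroup.closure ((fun a : X => a ^ 2) '' (A : Set X)) ≤ A :=
    (Subgroup.closure_le _).mpr (by rintro _ ⟨a, ha, rfl⟩; exact A.pow_mem ha 2)
  have hbex : ∃ b ∈ Subgroup.closure ((fun a : X => a ^ 2) '' (A : Set X)), b ^ 2 ≠ 1 := by
    by_contra hcon
    push Not at hcon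
    apply hnel
    refine ⟨⟨⟨fun u v => Subtype.ext ?_⟩⟩, hcon⟩
    have h6 : (u : X) * (v : X) = (v : X) * (u : X) :=
      congrArg Subtype.val (hAa.is_comm.comm ⟨u.1, hBA u.2⟩ ⟨v.1, hBA v.2⟩)
    exact h6
  obtain ⟨b, hb, hb2⟩ := hbex
  have hti0 : ∀ h : X, (A ⊓ pCore 2 X).map (MulAut.conj h).toMonoidHom = A ⊓ pCore 2 X ∨
      (A ⊓ pCore 2 X).map (MulAut.conj h).toMonoidHom ⊓ (A ⊓ pCore 2 X) = ⊥ := by
    intro h
    rcases hti h with h1 | h1
    · left
      ext w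
      rw [mem_map_conj, Subgroup.mem_inf, Subgroup.mem_inf, ← mem_map_conj, h1]
      constructor
      · rintro ⟨hw1, hw2⟩
        refine ⟨hw1, ?_⟩
        have h5 := hQn.conj_mem _ hw2 h
        simpa [mul_assoc] using h5
      · rintro ⟨hw1, hw2⟩
        refine ⟨hw1, ?_⟩
        have h5 := hQn.conj_mem _ hw2 h⁻¹
        simpa [mul_assoc] using h5
    · right
      rw [eq_bot_iff]
      intro w hw
      obtain ⟨hw1, hw2⟩ := Subgroup.mem_inf.mp hw
      have h3 : w ∈ A.map (MulAut.conj h).toMonoidHom ⊓ A := by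
        refine Subgroup.mem_inf.mpr ⟨?_, (Subgroup.mem_inf.mp hw2).1⟩
        rw [mem_map_conj] at hw1 ⊢
        exact (Subgroup.mem_inf.mp hw1).1
      rwa [h1] at h3
  have hA0a : IsMulCommutative ↥(A ⊓ pCore 2 X) := by
    refine ⟨⟨fun u v => Subtype.ext ?_⟩⟩
    have h6 : (u : X) * (v : X) = (v : X) * (u : X) :=
      congrArg Subtype.val
        (hAa.is_comm.comm ⟨u.1, (Subgroup.mem_inf.mp u.2).1⟩ ⟨v.1, (Subgroup.mem_inf.mp v.2).1⟩)
    exact h6
  have hsq0 : ∃ r ∈ A ⊓ pCore 2 X, r ^ 2 ≠ 1 :=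
    ⟨b, Subgroup.mem_inf.mpr ⟨hBA hb, hBQ hb⟩, hb2⟩
  have hconjQ : ∀ x : X, (A ⊓ pCore 2 X).map (MulAut.conj x).toMonoidHom ≤ pCore 2 X := by
    intro x w hw
    rw [mem_map_conj] at hw
    have h5 := hQn.conj_mem _ (Subgroup.mem_inf.mp hw).2 x
    simpa [mul_assoc] using h5
  have hcommall := fun x y => ti_conj_commute (A ⊓ pCore 2 X) hA0a hti0 hsq0 (pCore 2 X) hQ2 x y
    (hconjQ x) (hconjQ y)
  unfold Subgroup.normalClosure
  apply Subgroup.isMulCommutative_closure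
  intro u hu v hv
  rw [Group.mem_conjugatesOfSet_iff] at hu hv
  obtain ⟨s, ⟨a, ha, rfl⟩, hsu⟩ := hu
  obtain ⟨s', ⟨a', ha', rfl⟩, hsv⟩ := hv
  obtain ⟨x, rfl⟩ := isConj_iff.mp hsu
  obtain ⟨y, rfl⟩ := isConj_iff.mp hsv
  exact hcommall x y _ ⟨a ^ 2, Subgroup.mem_inf.mpr ⟨A.pow_mem ha 2, hpart1 a ha⟩, rfl⟩ _
    ⟨a' ^ 2, Subgroup.mem_inf.mpr ⟨A.pow_mem ha' 2, hpart1 a' ha'⟩, rfl⟩

end Cfsg.Agent.S1783
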