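import Cfsg.Statements.S1784
import Cfsg.Agent.Helper22.Bender
import Cfsg.Agent.Helper48.Extraspecial2

set_option autoImplicit false
open Cfsg

namespace Cfsg.Agent.S1784

open Cfsg.Agent.Helper48 in
/-- An involutory automorphism `σ ≠ 1` of a finite group `E` with central commutators and centre
of order 2: the subgroup `[E, σ]` generated by the `σ x * x⁻¹` is the centre of the subgroup
`E₀ = {x | σ x * x⁻¹ ∈ Z(E)}`. -/
theorem key {E : Type*} [Group E] [Finite E]
    (hc : ∀ x y : E, x * y * x⁻¹ * y⁻¹ ∈ Subgroup.center E)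
    (h2 : Nat.card (Subgroup.center E) = 2)
    (σ : E ≃* E) (hσ2 : ∀ x, σ (σ x) = x) (hσ : ∃ x, σ x ≠ x) (r : E) :
    r ∈ Subgroup.closure (Set.range fun x : E => σ x * x⁻¹) ↔
      (σ r * r⁻¹ ∈ Subgroup.center E ∧
        ∀ y : E, σ y * y⁻¹ ∈ Subgroup.center E → r * y = y * r) := by
  -- σ fixes the centre pointwise
  have hfix : ∀ w : E, w ∈ Subgroup.center E → σ w = w := by
    intro w hw
    by_cases hw1 : w = 1
    · rw [hw1, map_one]
    · have hσw : σ w ∈ Subgroup.center E := by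
        rw [Subgroup.mem_center_iff]
        intro g
        have h1 : g * σ w = σ (σ g * w) := by rw [map_mul, hσ2]
        have h3 : σ w * g = σ (w * σ g) := by rw [map_mul, hσ2]
        rw [h1, h3, Subgroup.mem_center_iff.mp hw (σ g)]
      have hne : (⟨w, hw⟩ : Subgroup.center E) ≠ 1 := fun h => hw1 (congrArg Subtype.val h)
      rcases center_cases h2 hne ⟨σ w, hσw⟩ with h | h
      · exfalso
        have h4 : σ w = 1 := congrArg Subtype.val h
        apply hw1
        have h5 := congrArg σ h4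
        rwa [hσ2, map_one] at h5
      · exact congrArg Subtype.val h
  have k3 : ∀ a b y : E, commHom hc (a * b) y = commHom hc a y * commHom hc b y := by
    intro a b y
    rw [commHom_symm hc (a * b) y, map_mul, mul_inv_rev, ← commHom_symm hc a y,
      ← commHom_symm hc b y]
    exact Subtype.ext (Subgroup.mem_center_iff.mp (commHom hc a y).2 (commHom hc b y).1)
  have k4 : ∀ y b : E, commHom hc (σ y) (σ b) = commHom hc y b := by
    intro y b
    apply Subtype.ext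
    rw [commHom_apply_coe, commHom_apply_coe]
    have h1 : σ b * σ y * (σ b)⁻¹ * (σ y)⁻¹ = σ (b * y * b⁻¹ * y⁻¹) := by simp
    rw [h1]
    exact hfix _ (hc b y)
  have kid : ∀ x y : E, commHom hc x (σ y * y⁻¹) = commHom hc (σ x * x⁻¹) y := by
    intro x y
    have h1 : commHom hc x (σ y) = commHom hc (σ x * x⁻¹) y * commHom hc x y := by
      have h6 : σ x = (σ x * x⁻¹) * x := by simp
      calc commHom hc x (σ y) = commHom hc (σ (σ x)) (σ y) := by rw [hσ2]
        _ = commHom hc (σ x) y := k4 _ _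
        _ = commHom hc ((σ x * x⁻¹) * x) y := by rw [← h6]
        _ = commHom hc (σ x * x⁻¹) y * commHom hc x y := k3 _ _ _
    calc commHom hc x (σ y * y⁻¹) = commHom hc x (σ y) * (commHom hc x y)⁻¹ := by
          rw [map_mul, map_inv]
      _ = commHom hc (σ x * x⁻¹) y := by rw [h1, mul_inv_cancel_right]
  have hA : ∀ x y : E, (σ y * y⁻¹) * x = x * (σ y * y⁻¹) ↔ y * (σ x * x⁻¹) = (σ x * x⁻¹) * y := by
    intro x y
    rw [← commHom_eq_one_iff hc x (σ y * y⁻¹), kid, commHom_eq_one_iff]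
  have hσc' : ∀ x : E, σ (σ x * x⁻¹) = (σ x * x⁻¹)⁻¹ := by
    intro x
    rw [map_mul, hσ2, map_inv, mul_inv_rev, inv_inv]
  have hD : ∀ x y : E, (σ y * y⁻¹) * (σ x * x⁻¹) = (σ x * x⁻¹) * (σ y * y⁻¹) := by
    intro x y
    rw [hA (σ x * x⁻¹) y]
    have h1 : σ (σ x * x⁻¹) * (σ x * x⁻¹)⁻¹ = ((σ x * x⁻¹) ^ 2)⁻¹ := by
      rw [hσc', pow_two, mul_inv_rev (σ x * x⁻¹) (σ x * x⁻¹)]
    rw [h1]
    have h3 := sq_mem_center hc h2 (σ x * x⁻¹)
    exact Subgroup.mem_center_iff.mp (Subgroup.inv_mem _ h3) y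
  generalize hR : Subgroup.closure (Set.range fun x : E => σ x * x⁻¹) = R
  have hcR : ∀ x : E, x ∈ Subgroup.centralizer (R : Set E) ↔ σ x * x⁻¹ ∈ Subgroup.center E := by
    intro x
    rw [← hR, Subgroup.centralizer_closure, Subgroup.mem_centralizer_iff, Subgroup.mem_center_iff]
    constructor
    · intro h y
      exact (hA x y).mp (h (σ y * y⁻¹) ⟨y, rfl⟩)
    · rintro h _ ⟨y, rfl⟩
      exact (hA x y).mpr (h y)
  have hgen : ∀ x : E, σ x * x⁻¹ ∈ Subgroup.centralizer (R : Set E) := by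
    intro x
    rw [← hR, Subgroup.centralizer_closure, Subgroup.mem_centralizer_iff]
    rintro _ ⟨y, rfl⟩
    exact hD x y
  have hRab : R ≤ Subgroup.centralizer (R : Set E) := by
    have h7 : Subgroup.closure (Set.range fun x : E => σ x * x⁻¹) ≤
        Subgroup.centralizer (R : Set E) := by
      rw [Subgroup.closure_le]
      rintro _ ⟨x, rfl⟩
      exact hgen x
    rwa [hR] at h7
  have hmemR : ∀ x : E, σ x * x⁻¹ ∈ R := by
    intro x
    rw [← hR]
    exact Subgroup.subset_closure ⟨x, rfl⟩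
  have hZR : Subgroup.center E ≤ R := by
    intro w hw
    by_cases hw1 : w = 1
    · rw [hw1]; exact R.one_mem
    · have hne : (⟨w, hw⟩ : Subgroup.center E) ≠ 1 := fun h => hw1 (congrArg Subtype.val h)
      obtain ⟨x₀, hx₀⟩ := hσ
      have hu1 : σ x₀ * x₀⁻¹ ≠ 1 := fun h => hx₀ (mul_inv_eq_one.mp h)
      have huR : σ x₀ * x₀⁻¹ ∈ R := hmemR x₀
      by_cases hucen : σ x₀ * x₀⁻¹ ∈ Subgroup.center E
      · rcases center_cases h2 hne ⟨_, hucen⟩ with h | h
        · exact absurd (congrArg Subtype.val h) hu1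
        · have h8 : σ x₀ * x₀⁻¹ = w := congrArg Subtype.val h
          rw [← h8]; exact huR
      · rw [Subgroup.mem_center_iff] at hucen
        push Not at hucen
        obtain ⟨y, hy⟩ := hucen
        have hv := hc y (σ x₀ * x₀⁻¹)
        have hv1 : y * (σ x₀ * x₀⁻¹) * y⁻¹ * (σ x₀ * x₀⁻¹)⁻¹ ≠ 1 := by
          intro h
          apply hy
          have h5 : y * (σ x₀ * x₀⁻¹) =
              (y * (σ x₀ * x₀⁻¹) * y⁻¹ * (σ x₀ * x₀⁻¹)⁻¹) * ((σ x₀ * x₀⁻¹) * y) := by group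
          rw [h5, h, one_mul]
        have hvR : y * (σ x₀ * x₀⁻¹) * y⁻¹ * (σ x₀ * x₀⁻¹)⁻¹ ∈ R := by
          have h6 : y * (σ x₀ * x₀⁻¹) * y⁻¹ = (σ y * y⁻¹)⁻¹ * (σ (y * x₀) * (y * x₀)⁻¹) := by
            rw [map_mul]; group
          rw [h6]
          exact R.mul_mem (R.mul_mem (R.inv_mem (hmemR y)) (hmemR (y * x₀))) (R.inv_mem huR)
        rcases center_cases h2 hne ⟨_, hv⟩ with h | h
        · exact absurd (congrArg Subtype.val h) hv1
        · have h8 : y * (σ x₀ * x₀⁻¹) * y⁻¹ * (σ x₀ * x₀⁻¹)⁻¹ = w := congrArg Subtype.val h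
          rw [← h8]; exact hvR
  have hcard2 : ∀ B : Subgroup E, Subgroup.center E ≤ B →
      Nat.card {b : B // (b : E) ∈ Subgroup.center E} = 2 := by
    intro B hB
    rw [← h2]
    exact Nat.card_congr
      { toFun := fun b => ⟨(b.1 : E), b.2⟩
        invFun := fun w => ⟨⟨w.1, hB w.2⟩, w.2⟩
        left_inv := fun b => rfl
        right_inv := fun w => rfl }
  have h1 := card_centralizer_mul_card hc h2 R
  have h3 := card_centralizer_mul_card hc h2 (Subgroup.centralizer (R : Set E))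
  rw [hcard2 R hZR] at h1
  rw [hcard2 _ (Subgroup.center_le_centralizer _)] at h3
  have hcardeq : Nat.card ↥(Subgroup.centralizer
      ((Subgroup.centralizer (R : Set E) : Subgroup E) : Set E)) = Nat.card ↥R := by
    have h4 : Nat.card ↥(Subgroup.centralizer
        ((Subgroup.centralizer (R : Set E) : Subgroup E) : Set E)) *
          Nat.card ↥(Subgroup.centralizer (R : Set E)) =
        Nat.card ↥R * Nat.card ↥(Subgroup.centralizer (R : Set E)) := by
      rw [h3, ← h1, mul_comm]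
    exact Nat.eq_of_mul_eq_mul_right Nat.card_pos h4
  have hRle : R ≤ Subgroup.centralizer
      ((Subgroup.centralizer (R : Set E) : Subgroup E) : Set E) := by
    intro x hx
    rw [Subgroup.mem_centralizer_iff]
    intro y hy
    exact (Subgroup.mem_centralizer_iff.mp hy x hx).symm
  have hRcc := Subgroup.eq_of_le_of_card_ge hRle (le_of_eq hcardeq)
  constructor
  · intro hr
    refine ⟨(hcR r).mp (hRab hr), ?_⟩
    intro y hy
    exact Subgroup.mem_centralizer_iff.mp ((hcR y).mpr hy) r hr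
  · rintro ⟨-, h⟩
    rw [hRcc, Subgroup.mem_centralizer_iff]
    intro y hy
    exact (h y ((hcR y).mp hy)).symm

open Cfsg.Agent.Helper48 in
theorem aux {G : Type*} [Group G] [Finite G] (z : G) (hz : orderOf z = 2) (C : Subgroup G)
    (hC : ∀ c ∈ C, c * z = z * c) (hzC : z ∈ C)
    (Qc : Subgroup ↥C) (hQn : Qc.Normal) (hBender : Subgroup.centralizer (Qc : Set ↥C) ≤ Qc)
    (hE : IsExtraspecial 2 ↥Qc)
    (α : G) (hα : orderOf α = 2) (hαC : α ∈ C) (hαQ : α ∉ Qc.map C.subtype)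
    (Q₀ : Subgroup G) (hQ₀ : ∀ q : G, q ∈ Q₀ ↔
      (q ∈ Qc.map C.subtype ∧ α * q * α⁻¹ * q⁻¹ ∈ Subgroup.zpowers z)) :
    Subgroup.closure ((fun q : G => α * q * α⁻¹ * q⁻¹) '' (Qc.map C.subtype : Set G)) =
        (Subgroup.center ↥Q₀).map Q₀.subtype ∧
      (¬ Q₀ ≤ (Qc.map C.subtype ⊓ Subgroup.centralizer ({α} : Set G)) ⊔ Subgroup.zpowers z →
        ∃ q ∈ Qc.map C.subtype, q * α * q⁻¹ = α * z) := by
  have hα2 : α * α = 1 := by rw [← pow_two, ← hα]; exact pow_orderOf_eq_one α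
  have hz2 : z * z = 1 := by rw [← pow_two, ← hz]; exact pow_orderOf_eq_one z
  have hz1 : z ≠ 1 := by
    intro h
    rw [h, orderOf_one] at hz
    omega
  have hαz : α * z = z * α := hC α hαC
  have hzp : ∀ g : G, g ∈ Subgroup.zpowers z ↔ g = 1 ∨ g = z := by
    intro g
    constructor
    · intro hg
      obtain ⟨k, rfl⟩ := Subgroup.mem_zpowers_iff.mp hg
      have h1 : z ^ k = z ^ (k % ((orderOf z : ℕ) : ℤ)) := (zpow_mod_orderOf z k).symm
      rw [hz] at h1
      rcases Int.emod_two_eq_zero_or_one k with h | h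
      · left
        rw [h1]
        have h9 : k % ((2 : ℕ) : ℤ) = 0 := h
        rw [h9, zpow_zero]
      · right
        rw [h1]
        have h9 : k % ((2 : ℕ) : ℤ) = 1 := h
        rw [h9, zpow_one]
    · rintro (rfl | rfl)
      · exact Subgroup.one_mem _
      · exact Subgroup.mem_zpowers _
  constructor
  · -- part (a)
    have hQn' : Qc.Normal := hQn
    have hzcen : ∀ c : ↥C, c * (⟨z, hzC⟩ : ↥C) = ⟨z, hzC⟩ * c := fun c => Subtype.ext (hC c c.2)
    have hzQ : (⟨z, hzC⟩ : ↥C) ∈ Qc := by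
      apply hBender
      rw [Subgroup.mem_centralizer_iff]
      intro h _
      exact hzcen h
    have hc := comm_mem_center_of_isExtraspecial hE
    have h2 : Nat.card (Subgroup.center ↥Qc) = 2 := hE.2
    have hzEcen : (⟨⟨z, hzC⟩, hzQ⟩ : ↥Qc) ∈ Subgroup.center ↥Qc := by
      rw [Subgroup.mem_center_iff]
      intro g
      exact Subtype.ext (hzcen g)
    have hzE1 : (⟨⟨⟨z, hzC⟩, hzQ⟩, hzEcen⟩ : Subgroup.center ↥Qc) ≠ 1 := by
      intro h
      apply hz1
      exact congrArg (fun w : Subgroup.center ↥Qc => (((w : ↥Qc) : ↥C) : G)) h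
    have hα'2 : (⟨α, hαC⟩ : ↥C) * ⟨α, hαC⟩ = 1 := Subtype.ext hα2
    have hα'inv : (⟨α, hαC⟩ : ↥C)⁻¹ = ⟨α, hαC⟩ := inv_eq_of_mul_eq_one_left hα'2
    have hσ2 : ∀ x : ↥Qc, (MulAut.conjNormal (⟨α, hαC⟩ : ↥C) : ↥Qc ≃* ↥Qc)
        ((MulAut.conjNormal (⟨α, hαC⟩ : ↥C) : ↥Qc ≃* ↥Qc) x) = x := by
      intro x
      apply Subtype.ext
      rw [MulAut.conjNormal_apply, MulAut.conjNormal_apply, hα'inv]
      calc (⟨α, hαC⟩ : ↥C) * (⟨α, hαC⟩ * (x : ↥C) * ⟨α, hαC⟩) * ⟨α, hαC⟩
          = ((⟨α, hαC⟩ : ↥C) * ⟨α, hαC⟩) * (x : ↥C) * (⟨α, hαC⟩ * ⟨α, hαC⟩) := by group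
        _ = (x : ↥C) := by rw [hα'2, one_mul, mul_one]
    have hσ : ∃ x : ↥Qc, (MulAut.conjNormal (⟨α, hαC⟩ : ↥C) : ↥Qc ≃* ↥Qc) x ≠ x := by
      by_contra hcon
      push Not at hcon
      apply hαQ
      refine ⟨⟨α, hαC⟩, ?_, rfl⟩
      apply hBender
      rw [Subgroup.mem_centralizer_iff]
      intro h hh
      have h5 := congrArg Subtype.val (hcon ⟨h, hh⟩)
      rw [MulAut.conjNormal_apply] at h5
      have h6 : (⟨α, hαC⟩ : ↥C) * h * (⟨α, hαC⟩ : ↥C)⁻¹ = h := h5
      calc h * (⟨α, hαC⟩ : ↥C) = ((⟨α, hαC⟩ : ↥C) * h * (⟨α, hαC⟩ : ↥C)⁻¹) * ⟨α, hαC⟩ := by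
            rw [h6]
        _ = ⟨α, hαC⟩ * h := by group
    have hkey := key hc h2 (MulAut.conjNormal (⟨α, hαC⟩ : ↥C) : ↥Qc ≃* ↥Qc) hσ2 hσ
    -- coercion of `σ x * x⁻¹`
    have hιc : ∀ x : ↥Qc,
        ((((MulAut.conjNormal (⟨α, hαC⟩ : ↥C) : ↥Qc ≃* ↥Qc) x * x⁻¹ : ↥Qc) : ↥C) : G) =
          α * ((x : ↥C) : G) * α⁻¹ * ((x : ↥C) : G)⁻¹ := by
      intro x
      rw [Subgroup.coe_mul, Subgroup.coe_mul, MulAut.conjNormal_apply]
      rfl
    -- membership of the image of `w` in `⟨z⟩` versus centrality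
    have hcenz : ∀ w : ↥Qc, (((w : ↥C) : G) ∈ Subgroup.zpowers z) ↔ w ∈ Subgroup.center ↥Qc := by
      intro w
      constructor
      · intro hw
        rcases (hzp _).mp hw with h | h
        · have hw1 : w = 1 := Subtype.ext (Subtype.ext h)
          rw [hw1]; exact Subgroup.one_mem _
        · have hw1 : w = ⟨⟨z, hzC⟩, hzQ⟩ := Subtype.ext (Subtype.ext h)
          rw [hw1]; exact hzEcen
      · intro hw
        rcases center_cases h2 hzE1 ⟨w, hw⟩ with h | h
        · have hw1 : w = 1 := congrArg Subtype.val h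
          rw [hw1]; exact Subgroup.one_mem _
        · have hw1 : w = ⟨⟨z, hzC⟩, hzQ⟩ := congrArg Subtype.val h
          rw [hw1]; exact Subgroup.mem_zpowers z
    have hQ₀' : ∀ x : ↥Qc, (((x : ↥C) : G) ∈ Q₀) ↔
        (MulAut.conjNormal (⟨α, hαC⟩ : ↥C) : ↥Qc ≃* ↥Qc) x * x⁻¹ ∈ Subgroup.center ↥Qc := by
      intro x
      rw [hQ₀, ← hcenz, hιc]
      constructor
      · exact fun h => h.2
      · exact fun h => ⟨⟨(x : ↥C), x.2, rfl⟩, h⟩
    have hset : (fun q : G => α * q * α⁻¹ * q⁻¹) '' (Qc.map C.subtype : Set G) =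
        (C.subtype.comp Qc.subtype) '' (Set.range fun x : ↥Qc =>
          (MulAut.conjNormal (⟨α, hαC⟩ : ↥C) : ↥Qc ≃* ↥Qc) x * x⁻¹) := by
      ext g
      constructor
      · rintro ⟨q, ⟨y, hy, rfl⟩, rfl⟩
        exact ⟨_, ⟨⟨y, hy⟩, rfl⟩, hιc ⟨y, hy⟩⟩
      · rintro ⟨_, ⟨x, rfl⟩, rfl⟩
        exact ⟨((x : ↥C) : G), ⟨(x : ↥C), x.2, rfl⟩, (hιc x).symm⟩
    rw [hset, ← MonoidHom.map_closure]
    ext g
    rw [Subgroup.mem_map, Subgroup.mem_map]
    constructor
    · rintro ⟨r, hr, rfl⟩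
      obtain ⟨hr1, hr2⟩ := (hkey r).mp hr
      have hrQ₀ : (((r : ↥C) : G)) ∈ Q₀ := (hQ₀' r).mpr hr1
      refine ⟨⟨_, hrQ₀⟩, ?_, rfl⟩
      rw [Subgroup.mem_center_iff]
      intro y
      apply Subtype.ext
      obtain ⟨hy1, hy2⟩ := (hQ₀ y).mp y.2
      obtain ⟨y', hy', hyy'⟩ := hy1
      have h0 : (((⟨y', hy'⟩ : ↥Qc) : ↥C) : G) = (y : G) := hyy'
      have h7 := hr2 ⟨y', hy'⟩ ((hQ₀' ⟨y', hy'⟩).mp (by rw [h0]; exact y.2))
      have h8 : ((r : ↥C) : G) * (((⟨y', hy'⟩ : ↥Qc) : ↥C) : G) =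
          (((⟨y', hy'⟩ : ↥Qc) : ↥C) : G) * ((r : ↥C) : G) :=
        congrArg (fun w : ↥Qc => ((w : ↥C) : G)) h7
      rw [h0] at h8
      exact h8.symm
    · rintro ⟨w, hw, rfl⟩
      obtain ⟨hw1, hw2⟩ := (hQ₀ w).mp w.2
      obtain ⟨r', hr', hrw⟩ := hw1
      refine ⟨⟨r', hr'⟩, ?_, hrw⟩
      rw [hkey]
      have h0 : (((⟨r', hr'⟩ : ↥Qc) : ↥C) : G) = (w : G) := hrw
      refine ⟨(hQ₀' ⟨r', hr'⟩).mp (by rw [h0]; exact w.2), ?_⟩
      intro y hy
      have hyQ₀ : (((y : ↥C) : G)) ∈ Q₀ := (hQ₀' y).mpr hy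
      have h7 := Subgroup.mem_center_iff.mp hw ⟨_, hyQ₀⟩
      have h8 : ((y : ↥C) : G) * (w : G) = (w : G) * ((y : ↥C) : G) := congrArg Subtype.val h7
      apply Subtype.ext
      apply Subtype.ext
      rw [← h0] at h8
      exact h8.symm
  · -- part (b)
    intro hnot
    obtain ⟨q, hq, hqn⟩ := SetLike.not_le_iff_exists.mp hnot
    obtain ⟨hqQ, hqz⟩ := (hQ₀ q).mp hq
    rcases (hzp _).mp hqz with h | h
    · exfalso
      apply hqn
      apply Subgroup.mem_sup_left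
      refine Subgroup.mem_inf.mpr ⟨hqQ, ?_⟩
      rw [Subgroup.mem_centralizer_singleton_iff]
      calc q * α = (α * q * α⁻¹ * q⁻¹)⁻¹ * (α * q) := by group
        _ = α * q := by rw [h, inv_one, one_mul]
    · refine ⟨q, hqQ, ?_⟩
      have hzinv : z⁻¹ = z := inv_eq_of_mul_eq_one_left hz2
      calc q * α * q⁻¹ = (α * q * α⁻¹ * q⁻¹)⁻¹ * α := by group
        _ = z * α := by rw [h, hzinv]
        _ = α * z := hαz.symm

/-- Let G be a finite group and let z be an involution of G such that Q, the generalized Fitting subgroup of the centralizer C of z, is a 2-group of symplectic type (every characteristic abelian subgroup of Q is cyclic); suppose Q is extraspecial, and view Q inside G. Let α be an involution of C that is not in Q, and let Q₀ be the subgroup of those q ∈ Q whose commutator with α lies in the subgroup generated by z. Then (a) the subgroup generated by the commutators α q α⁻¹ q⁻¹, q ∈ Q, equals the centre of Q₀; and (b)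 if Q₀ is not contained in the product of the centralizer of α in Q with the subgroup generated by z, then some element of Q conjugates α to α z. -/
theorem result {G : Type*} [Group G] [Finite G] (z : G) (hz : orderOf z = 2) (hQ : Cfsg.IsOfSymplecticType ↥(Cfsg.generalizedFittingSubgroup ↥(Subgroup.centralizer ({z} : Set G)))) (hE : Cfsg.IsExtraspecial 2 ↥(Cfsg.generalizedFittingSubgroup ↥(Subgroup.centralizer ({z} : Set G))))
    (α : G) (hα : orderOf α = 2) (hαC : α ∈ Subgroup.centralizer ({z} : Set G)) (hαQ : α ∉ (Cfsg.generalizedFittingSubgroup ↥(Subgroup.centralizer ({z} : Set G))).map (Subgroup.centralizer ({z} : Set G)).subtype)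
    (Q₀ : Subgroup G) (hQ₀ : ∀ q : G, q ∈ Q₀ ↔ (q ∈ (Cfsg.generalizedFittingSubgroup ↥(Subgroup.centralizer ({z} : Set G))).map (Subgroup.centralizer ({z} : Set G)).subtype ∧ α * q * α⁻¹ * q⁻¹ ∈ Subgroup.zpowers z)) :
    Subgroup.closure ((fun q : G => α * q * α⁻¹ * q⁻¹) '' ((Cfsg.generalizedFittingSubgroup ↥(Subgroup.centralizer ({z} : Set G))).map (Subgroup.centralizer ({z} : Set G)).subtype : Set G)) = (Subgroup.center ↥Q₀).map Q₀.subtype ∧
      (¬ Q₀ ≤ ((Cfsg.generalizedFittingSubgroup ↥(Subgroup.centralizer ({z} : Set G))).map (Subgroup.centralizer ({z} : Set G)).subtype ⊓ Subgroup.centralizer ({α} : Set G)) ⊔ Subgroup.zpowers z →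
        ∃ q ∈ (Cfsg.generalizedFittingSubgroup ↥(Subgroup.centralizer ({z} : Set G))).map (Subgroup.centralizer ({z} : Set G)).subtype, q * α * q⁻¹ = α * z) :=
  aux z hz (Subgroup.centralizer ({z} : Set G))
    (fun c hc => Subgroup.mem_centralizer_singleton_iff.mp hc)
    (Subgroup.mem_centralizer_singleton_iff.mpr rfl)
    (Cfsg.generalizedFittingSubgroup ↥(Subgroup.centralizer ({z} : Set G)))
    (Cfsg.Agent.Helper22.generalizedFittingSubgroup_normal _)
    (Cfsg.Agent.Helper22.centralizer_generalizedFittingSubgroup_le _)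
    hE α hα hαC hαQ Q₀ hQ₀

end Cfsg.Agent.S1784
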