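import Cfsg.Statements.S1785

set_option autoImplicit false
open Cfsg

namespace Cfsg.Agent.S1785

variable {X : Type*} [Group X]

/-- Elementwise form of "elementary abelian 2-subgroup". -/
def EA (A : Subgroup X) : Prop :=
  (∀ x ∈ A, ∀ y ∈ A, x * y = y * x) ∧ ∀ x ∈ A, x * x = 1

theorem ea_iff (A : Subgroup X) : Cfsg.IsElementaryAbelian 2 A ↔ EA A := by
  constructor
  · rintro ⟨hc, h2⟩
    refine ⟨fun x hx y hy => ?_, fun x hx => by rw [← pow_two]; exact h2 x hx⟩
    exact congrArg Subtype.val (hc.is_comm.comm ⟨x, hx⟩ ⟨y, hy⟩)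
  · rintro ⟨hc, h2⟩
    refine ⟨⟨⟨?_⟩⟩, fun x hx => by rw [pow_two]; exact h2 x hx⟩
    rintro ⟨x, hx⟩ ⟨y, hy⟩
    exact Subtype.ext (hc x hx y hy)

theorem EA.mono {A B : Subgroup X} (hB : EA B) (h : A ≤ B) : EA A :=
  ⟨fun x hx y hy => hB.1 x (h hx) y (h hy), fun x hx => hB.2 x (h hx)⟩

/-- Extend an elementary abelian 2-subgroup by a commuting involution outside it. -/
theorem extend [Finite X] (V : Subgroup X) (hV : EA V)
    (e : X) (he2 : e * e = 1) (hec : ∀ v ∈ V, e * v = v * e) (heV : e ∉ V) :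
    ∃ A : Subgroup X, V ≤ A ∧ e ∈ A ∧ (∀ x ∈ A, ∃ v ∈ V, x = v ∨ x = e * v) ∧ EA A ∧
      Nat.card ↥A = 2 * Nat.card ↥V := by
  obtain ⟨hVc, hV2⟩ := hV
  have hinv : e⁻¹ = e := by rw [inv_eq_iff_mul_eq_one]; exact he2
  have hcomm : ∀ x, e * x ∈ V → e * x = x * e := by
    intro x hx
    have h1 := hec _ hx
    have h2 : e * (e * x) = x := by rw [← mul_assoc, he2, one_mul]
    rw [h2] at h1
    calc e * x = e * x * (e * e) := by rw [he2, mul_one]
      _ = (e * x * e) * e := by simp only [mul_assoc]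
      _ = x * e := by rw [← h1]
  let A : Subgroup X :=
    { carrier := {x | x ∈ V ∨ e * x ∈ V}
      one_mem' := Or.inl V.one_mem
      mul_mem' := by
        rintro x y (hx | hx) (hy | hy)
        · exact Or.inl (V.mul_mem hx hy)
        · right
          have : e * (x * y) = x * (e * y) := by rw [← mul_assoc, hec x hx, mul_assoc]
          rw [this]; exact V.mul_mem hx hy
        · right
          rw [← mul_assoc]; exact V.mul_mem hx hy
        · left
          have : x * y = (e * x) * (e * y) := by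
            rw [hcomm x hx, mul_assoc, ← mul_assoc e e y, he2, one_mul]
          rw [this]; exact V.mul_mem hx hy
      inv_mem' := by
        rintro x (hx | hx)
        · exact Or.inl (V.inv_mem hx)
        · right
          have : e * x⁻¹ = (e * x)⁻¹ := by
            rw [hcomm x hx, mul_inv_rev, hinv]
          rw [this]; exact V.inv_mem hx }
  have hrep : ∀ x ∈ A, ∃ v ∈ V, x = v ∨ x = e * v := by
    rintro x (hx | hx)
    · exact ⟨x, hx, Or.inl rfl⟩
    · exact ⟨e * x, hx, Or.inr (by rw [← mul_assoc, he2, one_mul])⟩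
  refine ⟨A, fun x hx => Or.inl hx, Or.inr (by rw [he2]; exact V.one_mem), hrep, ⟨?_, ?_⟩, ?_⟩
  · intro x hx y hy
    obtain ⟨v, hv, hxv⟩ := hrep x hx
    obtain ⟨w, hw, hyw⟩ := hrep y hy
    have h4 : e * v * (e * w) = e * w * (e * v) := by
      calc e * v * (e * w) = e * (v * e) * w := by simp only [mul_assoc]
        _ = e * (e * v) * w := by rw [hec v hv]
        _ = e * e * (v * w) := by simp only [mul_assoc]
        _ = e * e * (w * v) := by rw [hVc v hv w hw]
        _ = e * (e * w) * v := by simp only [mul_assoc]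
        _ = e * (w * e) * v := by rw [hec w hw]
        _ = e * w * (e * v) := by simp only [mul_assoc]
    rcases hxv with hxv | hxv <;> rcases hyw with hyw | hyw <;> rw [hxv, hyw]
    · exact hVc v hv w hw
    · rw [← mul_assoc, ← hec v hv, mul_assoc, hVc v hv w hw, mul_assoc]
    · calc e * v * w = e * (v * w) := by simp only [mul_assoc]
        _ = e * (w * v) := by rw [hVc v hv w hw]
        _ = (e * w) * v := by simp only [mul_assoc]
        _ = (w * e) * v := by rw [hec w hw]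
        _ = w * (e * v) := by simp only [mul_assoc]
    · exact h4
  · intro x hx
    obtain ⟨v, hv, hxv⟩ := hrep x hx
    rcases hxv with hxv | hxv <;> rw [hxv]
    · exact hV2 v hv
    · calc e * v * (e * v) = e * (v * e) * v := by simp only [mul_assoc]
        _ = e * (e * v) * v := by rw [hec v hv]
        _ = (e * e) * (v * v) := by simp only [mul_assoc]
        _ = 1 := by rw [he2, hV2 v hv, one_mul]
  · have hc : Nat.card (↥V × Bool) = Nat.card ↥A := by
      apply Nat.card_congr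
      refine Equiv.ofBijective
        (fun p => if p.2 then ⟨e * p.1, Or.inr (by rw [← mul_assoc, he2, one_mul]; exact p.1.2)⟩
          else ⟨p.1, Or.inl p.1.2⟩) ⟨?_, ?_⟩
      · rintro ⟨v, b⟩ ⟨v', b'⟩ h
        cases b <;> cases b'
        · have h' : (v : X) = v' := by simpa using congrArg Subtype.val h
          rw [Subtype.ext h']
        · exfalso; apply heV
          have h' : (v : X) = e * v' := by simpa using congrArg Subtype.val h
          have : e = v * (v' : X)⁻¹ := by rw [h']; simp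
          rw [this]; exact V.mul_mem v.2 (V.inv_mem v'.2)
        · exfalso; apply heV
          have h' : e * (v : X) = v' := by simpa using congrArg Subtype.val h
          have : e = v' * (v : X)⁻¹ := by rw [← h']; simp
          rw [this]; exact V.mul_mem v'.2 (V.inv_mem v.2)
        · have h' : e * (v : X) = e * v' := by simpa using congrArg Subtype.val h
          rw [Subtype.ext (mul_left_cancel h')]
      · rintro ⟨x, hx | hx⟩
        · exact ⟨(⟨x, hx⟩, false), by simp⟩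
        · refine ⟨(⟨e * x, hx⟩, true), ?_⟩
          apply Subtype.ext
          simp only [if_true]
          rw [← mul_assoc, he2, one_mul]
    rw [← hc, Nat.card_prod]
    simp [mul_comm]

/-- Subgroups of prescribed order between `F₀` and `C` inside an elementary abelian 2-subgroup. -/
theorem exists_between_lt [Finite X] (C : Subgroup X) (hC : EA C) (F₀ : Subgroup X) (hF₀ : F₀ ≤ C) :
    ∀ k : ℕ, 2 ^ k * Nat.card ↥F₀ < Nat.card ↥C →
      ∃ F : Subgroup X, F₀ ≤ F ∧ F ≤ C ∧ Nat.card ↥F = 2 ^ (k + 1) * Nat.card ↥F₀ := by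
  have step : ∀ F : Subgroup X, F ≤ C → Nat.card ↥F < Nat.card ↥C →
      ∃ F' : Subgroup X, F ≤ F' ∧ F' ≤ C ∧ Nat.card ↥F' = 2 * Nat.card ↥F := by
    intro F hFC hlt
    have hnle : ¬ C ≤ F := fun h => by
      have := Subgroup.card_le_of_le h; omega
    obtain ⟨f, hfC, hfF⟩ := SetLike.not_le_iff_exists.mp hnle
    obtain ⟨A, hFA, -, hA, -, hcard⟩ := extend F (hC.mono hFC) f (hC.2 f hfC)
      (fun v hv => hC.1 f hfC v (hFC hv)) hfF
    refine ⟨A, hFA, ?_, hcard⟩
    intro x hx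
    obtain ⟨v, hv, hxv⟩ := hA x hx
    rcases hxv with hxv | hxv <;> rw [hxv]
    · exact hFC hv
    · exact C.mul_mem hfC (hFC hv)
  intro k
  induction k with
  | zero =>
    intro h
    obtain ⟨F', hFF', hF', hc⟩ := step F₀ hF₀ (by simpa using h)
    exact ⟨F', hFF', hF', by simpa using hc⟩
  | succ k ih =>
    intro h
    have h' : 2 ^ k * Nat.card ↥F₀ < Nat.card ↥C := by
      have h2 : 2 ^ k * Nat.card ↥F₀ ≤ 2 ^ (k + 1) * Nat.card ↥F₀ :=
        Nat.mul_le_mul_right _ (Nat.pow_le_pow_right (by norm_num) (Nat.le_succ k))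
      omega
    obtain ⟨F, hF₀F, hF, hc⟩ := ih h'
    obtain ⟨F', hFF', hF', hc'⟩ := step F hF (by rw [hc]; exact h)
    exact ⟨F', hF₀F.trans hFF', hF', by rw [hc', hc, ← mul_assoc, ← pow_succ']⟩

/-- Subgroups of prescribed order inside an elementary abelian 2-subgroup. -/
theorem exists_sub_lt [Finite X] (C : Subgroup X) (hC : EA C) :
    ∀ k : ℕ, 2 ^ k < Nat.card ↥C → ∃ F : Subgroup X, F ≤ C ∧ Nat.card ↥F = 2 ^ (k + 1) := by
  intro k h
  obtain ⟨F, -, hF, hc⟩ := exists_between_lt C hC ⊥ bot_le k (by simpa using h)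
  exact ⟨F, hF, by simpa using hc⟩

/-- An involution acting on an elementary abelian 2-group `F` centralizes at least `√|F|`. -/
theorem card_le_sq [Finite X] (F : Subgroup X) (hF : EA F)
    (u : X) (hu : u * u = 1) (huF : ∀ x ∈ F, u * x * u⁻¹ ∈ F) :
    Nat.card ↥F ≤ Nat.card ↥(F ⊓ Subgroup.centralizer ({u} : Set X)) ^ 2 := by
  obtain ⟨hFc, hF2⟩ := hF
  have huinv : u⁻¹ = u := by rw [inv_eq_iff_mul_eq_one]; exact hu
  let φ : ↥F →* ↥F :=
    { toFun := fun f => ⟨f * (u * f * u⁻¹), F.mul_mem f.2 (huF f f.2)⟩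
      map_one' := by apply Subtype.ext; simp
      map_mul' := by
        intro a b
        apply Subtype.ext
        simp only [Subgroup.coe_mul]
        have h := hFc _ (huF a a.2) b b.2
        calc (a : X) * b * (u * (a * b) * u⁻¹)
            = a * (b * (u * a * u⁻¹)) * (u * b * u⁻¹) := by simp [mul_assoc]
          _ = a * ((u * a * u⁻¹) * b) * (u * b * u⁻¹) := by rw [h]
          _ = a * (u * a * u⁻¹) * (b * (u * b * u⁻¹)) := by simp only [mul_assoc] }
  have hφ : ∀ f : ↥F, ((φ f : ↥F) : X) = f * (u * f * u⁻¹) := fun f => rfl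
  have h1 : Nat.card ↥φ.ker * Nat.card ↥φ.range = Nat.card ↥F := by
    rw [← Subgroup.index_ker, Subgroup.card_mul_index]
  have hker : Nat.card ↥φ.ker ≤ Nat.card ↥(F ⊓ Subgroup.centralizer ({u} : Set X)) := by
    have hmem : ∀ x : ↥φ.ker, ((x : ↥F) : X) ∈ F ⊓ Subgroup.centralizer ({u} : Set X) := by
      intro x
      rw [Subgroup.mem_inf]
      refine ⟨(x : ↥F).2, ?_⟩
      rw [Subgroup.mem_centralizer_singleton_iff]
      have hx : φ (x : ↥F) = 1 := x.2
      have hx' : ((x : ↥F) : X) * (u * (x : ↥F) * u⁻¹) = 1 := by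
        rw [← hφ, hx]; rfl
      have hxx := hF2 _ (x : ↥F).2
      have h3 : u * ((x : ↥F) : X) * u⁻¹ = (x : ↥F) := by
        have h4 : ((x : ↥F) : X) * (u * (x : ↥F) * u⁻¹) = ((x : ↥F) : X) * (x : ↥F) := by
          rw [hx', hxx]
        exact mul_left_cancel h4
      calc ((x : ↥F) : X) * u = (u * (x : ↥F) * u⁻¹) * u := by rw [h3]
        _ = u * (x : ↥F) := by simp [mul_assoc]
    refine Nat.card_le_card_of_injective (fun x : ↥φ.ker => (⟨((x : ↥F) : X), hmem x⟩ :
      ↥(F ⊓ Subgroup.centralizer ({u} : Set X)))) ?_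
    intro x y h
    have h' : ((x : ↥F) : X) = ((y : ↥F) : X) := by
      have h2 := congrArg Subtype.val h
      exact h2
    exact Subtype.ext (Subtype.ext h')
  have hrange : Nat.card ↥φ.range ≤ Nat.card ↥(F ⊓ Subgroup.centralizer ({u} : Set X)) := by
    have hmem : ∀ x : ↥φ.range, ((x : ↥F) : X) ∈ F ⊓ Subgroup.centralizer ({u} : Set X) := by
      intro x
      rw [Subgroup.mem_inf]
      refine ⟨(x : ↥F).2, ?_⟩
      rw [Subgroup.mem_centralizer_singleton_iff]
      obtain ⟨f, hf⟩ := x.2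
      rw [← hf, hφ]
      have hc := hFc _ (huF f f.2) f f.2
      calc (f : X) * (u * f * u⁻¹) * u = f * u * f := by simp [mul_assoc]
        _ = (f * u * f) * (u * u) := by rw [hu, mul_one]
        _ = (f : X) * ((u * f * u) * u) := by simp only [mul_assoc]
        _ = (f : X) * ((u * f * u⁻¹) * u) := by rw [huinv]
        _ = ((f : X) * (u * f * u⁻¹)) * u := by simp only [mul_assoc]
        _ = ((u * f * u⁻¹) * (f : X)) * u := by rw [hc]
        _ = u * (f * ((u⁻¹ * f) * u)) := by simp only [mul_assoc]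
        _ = u * (f * ((u * f) * u⁻¹)) := by rw [huinv]
        _ = u * ((f : X) * (u * f * u⁻¹)) := by simp only [mul_assoc]
    refine Nat.card_le_card_of_injective (fun x : ↥φ.range => (⟨((x : ↥F) : X), hmem x⟩ :
      ↥(F ⊓ Subgroup.centralizer ({u} : Set X)))) ?_
    intro x y h
    have h' : ((x : ↥F) : X) = ((y : ↥F) : X) := by
      have h2 := congrArg Subtype.val h
      exact h2
    exact Subtype.ext (Subtype.ext h')
  calc Nat.card ↥F = Nat.card ↥φ.ker * Nat.card ↥φ.range := h1.symm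
    _ ≤ Nat.card ↥(F ⊓ Subgroup.centralizer ({u} : Set X)) *
        Nat.card ↥(F ⊓ Subgroup.centralizer ({u} : Set X)) := Nat.mul_le_mul hker hrange
    _ = Nat.card ↥(F ⊓ Subgroup.centralizer ({u} : Set X)) ^ 2 := (pow_two _).symm

theorem sup_eq_of_index_two [Finite X] (W₀ W : Subgroup X) (h : W₀ ≤ W)
    (hc : Nat.card ↥W = 2 * Nat.card ↥W₀) (u : X) (hu : u ∈ W) (hu0 : u ∉ W₀) :
    W₀ ⊔ Subgroup.zpowers u = W := by
  have hle : W₀ ⊔ Subgroup.zpowers u ≤ W := sup_le h (by rw [Subgroup.zpowers_le]; exact hu)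
  apply Subgroup.eq_of_le_of_card_ge hle
  have hd1 : Nat.card ↥W₀ ∣ Nat.card ↥(W₀ ⊔ Subgroup.zpowers u) :=
    Subgroup.card_dvd_of_le le_sup_left
  obtain ⟨m, hm⟩ := hd1
  have hne : Nat.card ↥(W₀ ⊔ Subgroup.zpowers u) ≠ Nat.card ↥W₀ := by
    intro heq
    apply hu0
    have h3 : W₀ = W₀ ⊔ Subgroup.zpowers u :=
      Subgroup.eq_of_le_of_card_ge le_sup_left (le_of_eq heq)
    rw [h3]
    exact Subgroup.mem_sup_right (Subgroup.mem_zpowers u)
  have hpos := Nat.card_pos (α := ↥W₀)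
  have hposK := Nat.card_pos (α := ↥(W₀ ⊔ Subgroup.zpowers u))
  have hm2 : 2 ≤ m := by
    rcases m with _ | _ | m
    · simp at hm; omega
    · simp at hm; exact absurd hm hne
    · omega
  rw [hc, hm]
  calc 2 * Nat.card ↥W₀ = Nat.card ↥W₀ * 2 := mul_comm _ _
    _ ≤ Nat.card ↥W₀ * m := Nat.mul_le_mul_left _ hm2

theorem cent_step [Finite X] (F W₀ : Subgroup X) (hF : EA F) (u : X) (hu : u * u = 1)
    (huF : ∀ x ∈ F, u * x * u⁻¹ ∈ F) (huW : ∀ w ∈ W₀, u * w = w * u) :
    Nat.card ↥(F ⊓ Subgroup.centralizer (W₀ : Set X)) ≤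
      Nat.card ↥(F ⊓ Subgroup.centralizer (W₀ : Set X) ⊓ Subgroup.centralizer ({u} : Set X)) ^ 2 := by
  apply card_le_sq (F ⊓ Subgroup.centralizer (W₀ : Set X)) (hF.mono inf_le_left) u hu
  intro x hx
  rw [Subgroup.mem_inf] at hx ⊢
  refine ⟨huF x hx.1, ?_⟩
  rw [Subgroup.mem_centralizer_iff]
  intro w hw
  have h1 := (Subgroup.mem_centralizer_iff.mp hx.2) w hw
  have h2 := huW w hw
  have h3 : w * u⁻¹ = u⁻¹ * w := by
    have : u⁻¹ * (u * w) * u⁻¹ = u⁻¹ * (w * u) * u⁻¹ := by rw [h2]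
    simpa [mul_assoc] using this
  calc w * (u * x * u⁻¹) = (w * u) * x * u⁻¹ := by simp only [mul_assoc]
    _ = u * (w * x) * u⁻¹ := by rw [← h2]; simp only [mul_assoc]
    _ = u * (x * w) * u⁻¹ := by rw [h1]
    _ = u * x * (w * u⁻¹) := by simp only [mul_assoc]
    _ = u * x * u⁻¹ * w := by rw [h3]; simp only [mul_assoc]

theorem cent_bound [Finite X] (F W₀ W : Subgroup X) (hF : EA F) (hW : EA W)
    (hWF : ∀ w ∈ W, ∀ x ∈ F, w * x * w⁻¹ ∈ F) (hW₀ : W₀ ≤ W)
    (hcard : Nat.card ↥W = 2 * Nat.card ↥W₀) :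
    Nat.card ↥(F ⊓ Subgroup.centralizer (W₀ : Set X)) ≤
      Nat.card ↥(F ⊓ Subgroup.centralizer (W : Set X)) ^ 2 := by
  have hne : ¬ W ≤ W₀ := fun h => by
    have h1 := Subgroup.card_le_of_le h
    have h2 := Nat.card_pos (α := ↥W₀)
    omega
  obtain ⟨u, huW, huW₀⟩ := SetLike.not_le_iff_exists.mp hne
  have h1 := cent_step F W₀ hF u (hW.2 u huW) (hWF u huW) (fun w hw => hW.1 u huW w (hW₀ hw))
  have hsup : W₀ ⊔ Subgroup.zpowers u = W := sup_eq_of_index_two W₀ W hW₀ hcard u huW huW₀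
  have h2 : F ⊓ Subgroup.centralizer (W₀ : Set X) ⊓ Subgroup.centralizer ({u} : Set X) ≤
      F ⊓ Subgroup.centralizer (W : Set X) := by
    intro x hx
    rw [Subgroup.mem_inf, Subgroup.mem_inf] at hx
    rw [Subgroup.mem_inf]
    refine ⟨hx.1.1, ?_⟩
    rw [Subgroup.mem_centralizer_iff]
    intro w hw
    have hle : W₀ ⊔ Subgroup.zpowers u ≤ Subgroup.centralizer ({x} : Set X) := by
      apply sup_le
      · intro w' hw'
        rw [Subgroup.mem_centralizer_singleton_iff]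
        exact (Subgroup.mem_centralizer_iff.mp hx.1.2 w' hw')
      · rw [Subgroup.zpowers_le, Subgroup.mem_centralizer_singleton_iff]
        exact (Subgroup.mem_centralizer_singleton_iff.mp hx.2).symm
    rw [← hsup] at hw
    have h3 := hle hw
    rw [Subgroup.mem_centralizer_singleton_iff] at h3
    exact h3
  calc Nat.card ↥(F ⊓ Subgroup.centralizer (W₀ : Set X))
      ≤ Nat.card ↥(F ⊓ Subgroup.centralizer (W₀ : Set X) ⊓ Subgroup.centralizer ({u} : Set X)) ^ 2 := h1
    _ ≤ Nat.card ↥(F ⊓ Subgroup.centralizer (W : Set X)) ^ 2 :=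
        Nat.pow_le_pow_left (Subgroup.card_le_of_le h2) 2

theorem cent_pow_rel [Finite X] (F : Subgroup X) (hF : EA F) :
    ∀ k : ℕ, ∀ W₀ W : Subgroup X, W₀ ≤ W → EA W → (∀ w ∈ W, ∀ x ∈ F, w * x * w⁻¹ ∈ F) →
      Nat.card ↥W = 2 ^ k * Nat.card ↥W₀ →
      Nat.card ↥(F ⊓ Subgroup.centralizer (W₀ : Set X)) ≤
        Nat.card ↥(F ⊓ Subgroup.centralizer (W : Set X)) ^ (2 ^ k) := by
  intro k
  induction k with
  | zero =>
    intro W₀ W hW₀ _ _ hc
    have hW : W₀ = W := Subgroup.eq_of_le_of_card_ge hW₀ (by simpa using hc.le)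
    subst hW
    simp
  | succ k ih =>
    intro W₀ W hW₀ hW hWF hc
    have hpos := Nat.card_pos (α := ↥W₀)
    obtain ⟨W₁, hW₀₁, hW₁, hc₁⟩ : ∃ W₁ : Subgroup X, W₀ ≤ W₁ ∧ W₁ ≤ W ∧
        Nat.card ↥W₁ = 2 ^ k * Nat.card ↥W₀ := by
      rcases k with _ | k
      · exact ⟨W₀, le_rfl, hW₀, by simp⟩
      · apply exists_between_lt W hW W₀ hW₀ k
        rw [hc]
        exact Nat.mul_lt_mul_of_pos_right (Nat.pow_lt_pow_right (by norm_num) (by omega)) hpos
    have h1 := ih W₀ W₁ hW₀₁ (hW.mono hW₁) (fun w hw => hWF w (hW₁ hw)) hc₁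
    have h2 := cent_bound F W₁ W hF hW hWF hW₁ (by rw [hc, hc₁, ← mul_assoc, ← pow_succ'])
    calc Nat.card ↥(F ⊓ Subgroup.centralizer (W₀ : Set X))
        ≤ Nat.card ↥(F ⊓ Subgroup.centralizer (W₁ : Set X)) ^ (2 ^ k) := h1
      _ ≤ (Nat.card ↥(F ⊓ Subgroup.centralizer (W : Set X)) ^ 2) ^ (2 ^ k) :=
          Nat.pow_le_pow_left h2 _
      _ = Nat.card ↥(F ⊓ Subgroup.centralizer (W : Set X)) ^ (2 ^ (k + 1)) := by
          rw [← pow_mul, pow_succ']

theorem comm_bot_of_comm (A B : Subgroup X) (h : ∀ x ∈ A, ∀ y ∈ B, x * y = y * x) :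
    ⁅A, B⁆ = ⊥ := by
  rw [eq_bot_iff, Subgroup.commutator_le]
  intro x hx y hy
  rw [Subgroup.mem_bot, commutatorElement_eq_one_iff_mul_comm]
  exact h x hx y hy

theorem num8 (e b c : ℕ) (h32 : 32 ≤ e) (h1 : e ≤ b) (h2 : b ≤ c ^ 2 ^ 3) : 1 < c := by
  by_contra hcon
  have h5 : c ≤ 1 := by omega
  have h6 : c ^ 2 ^ 3 ≤ 1 ^ 2 ^ 3 := Nat.pow_le_pow_left h5 _
  have h7 : (1 : ℕ) ^ 2 ^ 3 = 1 := by norm_num
  omega

theorem num4 (e b c : ℕ) (h32 : 32 ≤ e) (h1 : e ≤ b) (h2 : b ≤ c ^ 2 ^ 2) : 2 < c := by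
  by_contra hcon
  have h5 : c ≤ 2 := by omega
  have h6 : c ^ 2 ^ 2 ≤ 2 ^ 2 ^ 2 := Nat.pow_le_pow_left h5 _
  have h7 : (2 : ℕ) ^ 2 ^ 2 = 16 := by norm_num
  omega

theorem num2 (e c : ℕ) (h32 : 32 ≤ e) (h2 : e ≤ c ^ 2) : 4 < c := by
  by_contra hcon
  have h5 : c ≤ 4 := by omega
  have h6 : c ^ 2 ≤ 4 ^ 2 := Nat.pow_le_pow_left h5 _
  have h7 : (4 : ℕ) ^ 2 = 16 := by norm_num
  omega

theorem le_cent_bot (E : Subgroup X) :
    E ≤ E ⊓ Subgroup.centralizer ((⊥ : Subgroup X) : Set X) := by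
  intro x hx
  rw [Subgroup.mem_inf]
  refine ⟨hx, ?_⟩
  rw [Subgroup.mem_centralizer_iff]
  intro w hw
  have h1 : w = 1 := by simpa using hw
  rw [h1]; simp

/-- One improvement step. -/
theorem improve [Finite X] (E : Subgroup X) [hEn : E.Normal] (hE : EA E) (hE32 : 32 ≤ Nat.card ↥E)
    (A : Subgroup X) (hA : EA A) (hA8 : Nat.card ↥A = 8) (hAE : ¬ A ≤ E) :
    ∃ A' : Subgroup X, EA A' ∧ Nat.card ↥A' = 8 ∧ (∀ x ∈ A, ∀ y ∈ A', x * y = y * x) ∧
      Nat.card ↥(A ⊓ E) < Nat.card ↥(A' ⊓ E) := by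
  have hnorm : ∀ w : X, ∀ x ∈ E, w * x * w⁻¹ ∈ E := fun w x hx => hEn.conj_mem x hx w
  have hd : Nat.card ↥(A ⊓ E) ∣ 2 ^ 3 := by
    have := Subgroup.card_dvd_of_le (inf_le_left : A ⊓ E ≤ A)
    rw [hA8] at this
    exact this
  have hd8 : Nat.card ↥(A ⊓ E) ≠ 8 := by
    intro h
    apply hAE
    have h3 : A ⊓ E = A := Subgroup.eq_of_le_of_card_ge inf_le_left (by rw [h, hA8])
    rw [← h3]; exact inf_le_right
  have hcases : Nat.card ↥(A ⊓ E) = 1 ∨ Nat.card ↥(A ⊓ E) = 2 ∨ Nat.card ↥(A ⊓ E) = 4 := by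
    obtain ⟨j, hj, hdj⟩ := (Nat.dvd_prime_pow Nat.prime_two).mp hd
    interval_cases j
    · left; simpa using hdj
    · right; left; simpa using hdj
    · right; right; rw [hdj]; norm_num
    · exfalso; apply hd8; rw [hdj]; norm_num
  have hEcA₀ : E ≤ E ⊓ Subgroup.centralizer ((A ⊓ E : Subgroup X) : Set X) := by
    intro x hx
    rw [Subgroup.mem_inf]
    refine ⟨hx, ?_⟩
    rw [Subgroup.mem_centralizer_iff]
    intro w hw
    exact hE.1 w hw.2 x hx
  rcases hcases with h1 | h2 | h4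
  · -- |A ∩ E| = 1
    have hbot : A ⊓ E = ⊥ := Subgroup.eq_bot_of_card_eq _ h1
    have hb := cent_pow_rel E hE 3 ⊥ A bot_le hA (fun w _ x hx => hnorm w x hx) (by simp [hA8])
    have hE' := Subgroup.card_le_of_le (le_cent_bot E)
    have hc2 : 1 < Nat.card ↥(E ⊓ Subgroup.centralizer (A : Set X)) := num8 _ _ _ hE32 hE' hb
    obtain ⟨e, heC, he1⟩ : ∃ e ∈ E ⊓ Subgroup.centralizer (A : Set X), e ≠ 1 := by
      by_contra hcon
      push Not at hcon
      have h5 : E ⊓ Subgroup.centralizer (A : Set X) = ⊥ := by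
        rw [eq_bot_iff]; intro x hx; rw [Subgroup.mem_bot]; exact hcon x hx
      rw [h5] at hc2; simp at hc2
    rw [Subgroup.mem_inf] at heC
    obtain ⟨W, hWA, hW4⟩ := exists_sub_lt A hA 1 (by rw [hA8]; norm_num)
    have heW : e ∉ W := by
      intro h
      apply he1
      have h5 : e ∈ A ⊓ E := ⟨hWA h, heC.1⟩
      rw [hbot, Subgroup.mem_bot] at h5; exact h5
    have hecomm : ∀ a ∈ A, e * a = a * e :=
      fun a ha => ((Subgroup.mem_centralizer_iff.mp heC.2) a ha).symm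
    obtain ⟨A', hWA', heA', hrep, hA'EA, hA'card⟩ := extend W (hA.mono hWA) e (hE.2 e heC.1)
      (fun v hv => hecomm v (hWA hv)) heW
    refine ⟨A', hA'EA, by rw [hA'card, hW4]; norm_num, ?_, ?_⟩
    · intro x hx y hy
      obtain ⟨w, hw, hyw⟩ := hrep y hy
      rcases hyw with hyw | hyw <;> rw [hyw]
      · exact hA.1 x hx w (hWA hw)
      · calc x * (e * w) = (x * e) * w := by rw [mul_assoc]
          _ = (e * x) * w := by rw [hecomm x hx]
          _ = e * (x * w) := by rw [mul_assoc]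
          _ = e * (w * x) := by rw [hA.1 x hx w (hWA hw)]
          _ = e * w * x := by rw [mul_assoc]
    · rw [h1]
      by_contra hcon
      have hle1 : Nat.card ↥(A' ⊓ E) ≤ 1 := by omega
      have h5 := Subgroup.eq_bot_of_card_le _ hle1
      have he' : e ∈ A' ⊓ E := ⟨heA', heC.1⟩
      rw [h5, Subgroup.mem_bot] at he'
      exact he1 he'
  · -- |A ∩ E| = 2
    have hb := cent_pow_rel E hE 2 (A ⊓ E) A inf_le_left hA (fun w _ x hx => hnorm w x hx)
      (by rw [hA8, h2]; norm_num)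
    have hE' := Subgroup.card_le_of_le hEcA₀
    have hc3 : 2 < Nat.card ↥(E ⊓ Subgroup.centralizer (A : Set X)) := num4 _ _ _ hE32 hE' hb
    obtain ⟨F, hFC, hF4⟩ := exists_sub_lt (E ⊓ Subgroup.centralizer (A : Set X))
      (hE.mono inf_le_left) 1 (by simpa using hc3)
    obtain ⟨v, hvA, hvE⟩ := SetLike.not_le_iff_exists.mp hAE
    have hFE : F ≤ E := hFC.trans inf_le_left
    have hFcA : ∀ f ∈ F, ∀ a ∈ A, a * f = f * a :=
      fun f hf a ha => (Subgroup.mem_centralizer_iff.mp (Subgroup.mem_inf.mp (hFC hf)).2) a ha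
    obtain ⟨A', hFA', hvA', hrep, hA'EA, hA'card⟩ := extend F (hE.mono hFE) v (hA.2 v hvA)
      (fun f hf => hFcA f hf v hvA) (fun h => hvE (hFE h))
    refine ⟨A', hA'EA, by rw [hA'card, hF4]; norm_num, ?_, ?_⟩
    · intro x hx y hy
      obtain ⟨f, hf, hyf⟩ := hrep y hy
      rcases hyf with hyf | hyf <;> rw [hyf]
      · exact hFcA f hf x hx
      · calc x * (v * f) = (x * v) * f := by rw [mul_assoc]
          _ = (v * x) * f := by rw [hA.1 x hx v hvA]
          _ = v * (x * f) := by rw [mul_assoc]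
          _ = v * (f * x) := by rw [hFcA f hf x hx]
          _ = v * f * x := by rw [mul_assoc]
    · rw [h2]
      have h5 : Nat.card ↥F ≤ Nat.card ↥(A' ⊓ E) := Subgroup.card_le_of_le (le_inf hFA' hFE)
      rw [hF4] at h5
      have h6 : (2 : ℕ) ^ (1 + 1) = 4 := by norm_num
      omega
  · -- |A ∩ E| = 4
    have hnle : ¬ A ≤ A ⊓ E := fun h => hAE (h.trans inf_le_right)
    obtain ⟨a, haA, haE⟩ := SetLike.not_le_iff_exists.mp hnle
    have hb := card_le_sq E hE a (hA.2 a haA) (fun x hx => hnorm a x hx)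
    have hc6 : 4 < Nat.card ↥(E ⊓ Subgroup.centralizer ({a} : Set X)) := num2 _ _ hE32 hb
    obtain ⟨F, hFC, hF8⟩ := exists_sub_lt (E ⊓ Subgroup.centralizer ({a} : Set X))
      (hE.mono inf_le_left) 2 (by simpa using hc6)
    have hFE : F ≤ E := hFC.trans inf_le_left
    have hsup := sup_eq_of_index_two (A ⊓ E) A inf_le_left (by rw [hA8, h4]) a haA haE
    refine ⟨F, hE.mono hFE, by rw [hF8]; norm_num, ?_, ?_⟩
    · intro x hx y hy
      have hle : (A ⊓ E) ⊔ Subgroup.zpowers a ≤ Subgroup.centralizer ({y} : Set X) := by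
        apply sup_le
        · intro w hw
          rw [Subgroup.mem_centralizer_singleton_iff]
          exact hE.1 w hw.2 y (hFE hy)
        · rw [Subgroup.zpowers_le, Subgroup.mem_centralizer_singleton_iff]
          exact (Subgroup.mem_centralizer_singleton_iff.mp (Subgroup.mem_inf.mp (hFC hy)).2).symm
      rw [← hsup] at hx
      exact Subgroup.mem_centralizer_singleton_iff.mp (hle hx)
    · rw [h4]
      have h5 : F ⊓ E = F := inf_eq_left.mpr hFE
      rw [h5, hF8]; norm_num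

theorem reach [Finite X] (E : Subgroup X) [E.Normal] (hE : EA E) (hE32 : 32 ≤ Nat.card ↥E)
    (r : Subgroup X → Subgroup X → Prop)
    (hr : ∀ A A' : Subgroup X, EA A → Nat.card ↥A = 8 → EA A' → Nat.card ↥A' = 8 →
      (∀ x ∈ A, ∀ y ∈ A', x * y = y * x) → r A A') :
    ∀ n : ℕ, ∀ A : Subgroup X, EA A → Nat.card ↥A = 8 → 8 - Nat.card ↥(A ⊓ E) ≤ n →
      ∃ A' : Subgroup X, EA A' ∧ Nat.card ↥A' = 8 ∧ A' ≤ E ∧ Relation.ReflTransGen r A A' := by
  intro n
  induction n with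
  | zero =>
    intro A hA hA8 hn
    have h8 : Nat.card ↥(A ⊓ E) ≤ Nat.card ↥A := Subgroup.card_le_of_le inf_le_left
    have h3 : A ⊓ E = A := Subgroup.eq_of_le_of_card_ge inf_le_left (by omega)
    exact ⟨A, hA, hA8, by rw [← h3]; exact inf_le_right, Relation.ReflTransGen.refl⟩
  | succ n ih =>
    intro A hA hA8 hn
    by_cases hAE : A ≤ E
    · exact ⟨A, hA, hA8, hAE, Relation.ReflTransGen.refl⟩
    · obtain ⟨A', hA', hA'8, hcomm, hlt⟩ := improve E hE hE32 A hA hA8 hAE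
      obtain ⟨A'', hA'', hA''8, hA''E, hchain⟩ := ih A' hA' hA'8 (by omega)
      exact ⟨A'', hA'', hA''8, hA''E,
        Relation.ReflTransGen.head (hr A A' hA hA8 hA' hA'8 hcomm) hchain⟩

/-- Let X be a finite 2-group having a normal elementary abelian subgroup of order at least 32. Then (a) for any two elementary abelian subgroups A, B of X of order 8 there is a chain A = A₁, A₂, …, Aₙ = B of elementary abelian subgroups of order 8 in which consecutive members commute elementwise; and (b) every elementary abelian subgroup of X of order 4 is contained in an elementary abelian subgroup of order 8. -/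
theorem result {X : Type*} [Group X] [Finite X]
    (hX : IsPGroup 2 X) (E : Subgroup X) [E.Normal] (hE : Cfsg.IsElementaryAbelian 2 E) (hE32 : 32 ≤ Nat.card ↥E) :
    (∀ A B : Subgroup X, Cfsg.IsElementaryAbelian 2 A → Nat.card ↥A = 8 → Cfsg.IsElementaryAbelian 2 B → Nat.card ↥B = 8 →
        Relation.ReflTransGen
          (fun C D : Subgroup X => Cfsg.IsElementaryAbelian 2 C ∧ Nat.card ↥C = 8 ∧ Cfsg.IsElementaryAbelian 2 D ∧ Nat.card ↥D = 8 ∧ ⁅C, D⁆ = ⊥)
          A B) ∧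
      (∀ V : Subgroup X, Cfsg.IsElementaryAbelian 2 V → Nat.card ↥V = 4 →
        ∃ A : Subgroup X, V ≤ A ∧ Cfsg.IsElementaryAbelian 2 A ∧ Nat.card ↥A = 8) := by
  have hEA := (ea_iff E).mp hE
  have hnorm : ∀ w : X, ∀ x ∈ E, w * x * w⁻¹ ∈ E :=
    fun w x hx => Subgroup.Normal.conj_mem inferInstance x hx w
  constructor
  · intro A B hA hA8 hB hB8
    have hr' : ∀ A A' : Subgroup X, EA A → Nat.card ↥A = 8 → EA A' → Nat.card ↥A' = 8 →
        (∀ x ∈ A, ∀ y ∈ A', x * y = y * x) →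
        (fun C D : Subgroup X => Cfsg.IsElementaryAbelian 2 C ∧ Nat.card ↥C = 8 ∧
          Cfsg.IsElementaryAbelian 2 D ∧ Nat.card ↥D = 8 ∧ ⁅C, D⁆ = ⊥) A A' :=
      fun A A' h1 h2 h3 h4 h5 =>
        ⟨(ea_iff A).mpr h1, h2, (ea_iff A').mpr h3, h4, comm_bot_of_comm A A' h5⟩
    have hsymm : ∀ C D : Subgroup X,
        (fun C D : Subgroup X => Cfsg.IsElementaryAbelian 2 C ∧ Nat.card ↥C = 8 ∧
          Cfsg.IsElementaryAbelian 2 D ∧ Nat.card ↥D = 8 ∧ ⁅C, D⁆ = ⊥) C D →
        (fun C D : Subgroup X => Cfsg.IsElementaryAbelian 2 C ∧ Nat.card ↥C = 8 ∧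
          Cfsg.IsElementaryAbelian 2 D ∧ Nat.card ↥D = 8 ∧ ⁅C, D⁆ = ⊥) D C := by
      rintro C D ⟨h1, h2, h3, h4, h5⟩
      exact ⟨h3, h4, h1, h2, by rw [Subgroup.commutator_comm]; exact h5⟩
    obtain ⟨A', hA', hA'8, hA'E, hchainA⟩ :=
      reach E hEA hE32 _ hr' _ A ((ea_iff A).mp hA) hA8 le_rfl
    obtain ⟨B', hB', hB'8, hB'E, hchainB⟩ :=
      reach E hEA hE32 _ hr' _ B ((ea_iff B).mp hB) hB8 le_rfl
    have hAB' := hr' A' B' hA' hA'8 hB' hB'8 (fun x hx y hy => hEA.1 x (hA'E hx) y (hB'E hy))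
    have hrev : ∀ C D : Subgroup X,
        Relation.ReflTransGen (fun C D : Subgroup X => Cfsg.IsElementaryAbelian 2 C ∧ Nat.card ↥C = 8 ∧
          Cfsg.IsElementaryAbelian 2 D ∧ Nat.card ↥D = 8 ∧ ⁅C, D⁆ = ⊥) C D →
        Relation.ReflTransGen (fun C D : Subgroup X => Cfsg.IsElementaryAbelian 2 C ∧ Nat.card ↥C = 8 ∧
          Cfsg.IsElementaryAbelian 2 D ∧ Nat.card ↥D = 8 ∧ ⁅C, D⁆ = ⊥) D C := by
      intro C D h
      induction h with
      | refl => exact Relation.ReflTransGen.refl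
      | tail _ hbc ih => exact Relation.ReflTransGen.head (hsymm _ _ hbc) ih
    exact (hchainA.tail hAB').trans (hrev _ _ hchainB)
  · intro V hV hV4
    have hVEA := (ea_iff V).mp hV
    have hb := cent_pow_rel E hEA 2 ⊥ V bot_le hVEA (fun w _ x hx => hnorm w x hx)
      (by simp [hV4])
    have hE' := Subgroup.card_le_of_le (le_cent_bot E)
    have hc3 : 2 < Nat.card ↥(E ⊓ Subgroup.centralizer (V : Set X)) := num4 _ _ _ hE32 hE' hb
    have hnle : ¬ (E ⊓ Subgroup.centralizer (V : Set X)) ≤ V := by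
      intro hle
      have hd := Subgroup.card_dvd_of_le hle
      rw [hV4] at hd
      have hle4 := Nat.le_of_dvd (by norm_num) hd
      have hc4 : Nat.card ↥(E ⊓ Subgroup.centralizer (V : Set X)) = 4 := by
        generalize Nat.card ↥(E ⊓ Subgroup.centralizer (V : Set X)) = c at hd hle4 hc3
        interval_cases c
        · omega
        · rfl
      have heq : E ⊓ Subgroup.centralizer (V : Set X) = V :=
        Subgroup.eq_of_le_of_card_ge hle (by rw [hc4, hV4])
      have hVE : V ≤ E := by rw [← heq]; exact inf_le_left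
      have hEV : E ≤ E ⊓ Subgroup.centralizer (V : Set X) := by
        intro x hx
        rw [Subgroup.mem_inf]
        refine ⟨hx, ?_⟩
        rw [Subgroup.mem_centralizer_iff]
        intro w hw
        exact hEA.1 w (hVE hw) x hx
      have h7 := Subgroup.card_le_of_le hEV
      rw [hc4] at h7; omega
    obtain ⟨e, heC, heV⟩ := SetLike.not_le_iff_exists.mp hnle
    rw [Subgroup.mem_inf] at heC
    obtain ⟨A, hVA, -, -, hAEA, hAcard⟩ := extend V hVEA e (hEA.2 e heC.1)
      (fun v hv => ((Subgroup.mem_centralizer_iff.mp heC.2) v hv).symm) heV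
    exact ⟨A, hVA, (ea_iff A).mpr hAEA, by rw [hAcard, hV4]⟩

end Cfsg.Agent.S1785
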