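import Cfsg.Statements.S1786
import Cfsg.Agent.Helper30.TIMain
import Cfsg.Agent.Helper22.Bender
import Cfsg.Agent.Helper2.PGroup
import Cfsg.Agent.Helper47.Coprime

set_option autoImplicit false
set_option linter.style.haveILetI false
open Cfsg

namespace Cfsg.Agent.S1786

/-- The hypotheses of the statement give the abstract TI-setting. -/
theorem setting {G : Type*} [Group G] [Finite G] (V : Subgroup G)
    (hV : Cfsg.IsElementaryAbelian 2 V)
    (h1 : (Cfsg.generalizedFittingSubgroup ↥(Subgroup.normalizer (V : Set G))).map (Subgroup.normalizer (V : Set G)).subtype =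
      (Cfsg.pCore 2 ↥(Subgroup.normalizer (V : Set G))).map (Subgroup.normalizer (V : Set G)).subtype)
    (h2 : ∀ A : Subgroup G, V ≤ A → A ≤ Subgroup.normalizer (V : Set G) → IsMulCommutative ↥A →
      (∀ m ∈ Subgroup.normalizer (V : Set G), ∀ a ∈ A, m * a * m⁻¹ ∈ A) → A = V)
    (hti : ∀ x : G, V.map (MulAut.conj x).toMonoidHom = V ∨ V.map (MulAut.conj x).toMonoidHom ⊓ V = ⊥)
    (g : G) (hg : V.map (MulAut.conj g).toMonoidHom ≠ V) :
    Cfsg.Agent.Helper30.TISetting V
      ((Cfsg.pCore 2 ↥(Subgroup.normalizer (V : Set G))).map (Subgroup.normalizer (V : Set G)).subtype) := by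
  haveI : Fact (Nat.Prime 2) := ⟨Nat.prime_two⟩
  refine {
    comm := fun u hu v hv => congrArg Subtype.val (hV.1.is_comm.comm ⟨u, hu⟩ ⟨v, hv⟩),
    sq := fun v hv => by rw [← pow_two]; exact hV.2 v hv,
    ne_bot := ?_,
    ti := hti,
    Q_le := Cfsg.Agent.Helper49.map_pCore_le 2 _,
    Q_pgroup := Cfsg.Agent.Helper49.map_pCore_isPGroup 2 _,
    Q_normal := Cfsg.Agent.Helper49.le_normalizer_map_pCore 2 _,
    Q_self := ?_,
    Q_max := fun R hR hRp hRn => Cfsg.Agent.Helper49.le_map_pCore hR hRn hRp,
    max := ?_ }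
  · intro hb
    apply hg
    rw [hb, Subgroup.map_bot]
  · intro x hx
    obtain ⟨hxN, hxC⟩ := hx
    rw [← h1] at hxC ⊢
    have hB := Cfsg.Agent.Helper22.centralizer_generalizedFittingSubgroup_le
      ↥(Subgroup.normalizer (V : Set G))
    have h3 : (⟨x, hxN⟩ : ↥(Subgroup.normalizer (V : Set G))) ∈ Subgroup.centralizer
        ((Cfsg.generalizedFittingSubgroup ↥(Subgroup.normalizer (V : Set G)) : Subgroup _) : Set _) := by
      rw [Subgroup.mem_centralizer_iff]
      intro y hy
      apply Subtype.ext
      exact Subgroup.mem_centralizer_iff.mp hxC (y : G) ⟨y, hy, rfl⟩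
    exact ⟨⟨x, hxN⟩, hB h3, rfl⟩
  · intro A hVA hAN hAc hAn
    exact h2 A hVA hAN ⟨⟨fun a b => Subtype.ext (hAc a a.2 b b.2)⟩⟩
      (Subgroup.le_normalizer_iff.mp hAn)

open Cfsg.Agent.Helper30 in
/-- Let G be a finite group, V an elementary abelian 2-subgroup of G and M the normalizer of V; write Q for the largest normal 2-subgroup of M. Suppose (1) the generalized Fitting subgroup of M equals Q; (2) V is a maximal abelian normal subgroup of M; (3) every conjugate of V equals V or meets V trivially, and for some g ∈ G the conjugate V' = g V g⁻¹ is different from V and contained in Q. Let P be the centralizer of V in Q, W the subgroup generated by V and V', and H the subgroup generated by P and g P g⁻¹. Then: (a) V is contained in g Q g⁻¹; (b) every non-identity element of W lies in exactly one conjugate of V contained in W, H normalizes W, and H modulo the centralizer of W in H is isomorphic to the special linear group of dimension 2 over the field with |V| elements; (c) P = Q, and V equals the Frattini subgroup, the centre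 and the commutator subgroup of Q. -/
theorem result {G : Type*} [Group G] [Finite G] (V : Subgroup G)
    (hV : Cfsg.IsElementaryAbelian 2 V)
    (h1 : (Cfsg.generalizedFittingSubgroup ↥(Subgroup.normalizer (V : Set G))).map (Subgroup.normalizer (V : Set G)).subtype =
      (Cfsg.pCore 2 ↥(Subgroup.normalizer (V : Set G))).map (Subgroup.normalizer (V : Set G)).subtype)
    (h2 : ∀ A : Subgroup G, V ≤ A → A ≤ Subgroup.normalizer (V : Set G) → IsMulCommutative ↥A →
      (∀ m ∈ Subgroup.normalizer (V : Set G), ∀ a ∈ A, m * a * m⁻¹ ∈ A) → A = V)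
    (hti : ∀ x : G, V.map (MulAut.conj x).toMonoidHom = V ∨ V.map (MulAut.conj x).toMonoidHom ⊓ V = ⊥)
    (g : G) (hg : V.map (MulAut.conj g).toMonoidHom ≠ V)
    (hgQ : V.map (MulAut.conj g).toMonoidHom ≤ (Cfsg.pCore 2 ↥(Subgroup.normalizer (V : Set G))).map (Subgroup.normalizer (V : Set G)).subtype) :
    let Q : Subgroup G := (Cfsg.pCore 2 ↥(Subgroup.normalizer (V : Set G))).map (Subgroup.normalizer (V : Set G)).subtype
    let P : Subgroup G := Q ⊓ Subgroup.centralizer (V : Set G)
    let W : Subgroup G := V ⊔ V.map (MulAut.conj g).toMonoidHom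
    let H : Subgroup G := P ⊔ P.map (MulAut.conj g).toMonoidHom
    V ≤ Q.map (MulAut.conj g).toMonoidHom ∧
      (∀ w ∈ W, w ≠ 1 → ∃! U : Subgroup G, (∃ x : G, U = V.map (MulAut.conj x).toMonoidHom) ∧ U ≤ W ∧ w ∈ U) ∧
      H ≤ Subgroup.normalizer (W : Set G) ∧
      (∀ hN : ((Subgroup.centralizer (W : Set G)).subgroupOf H).Normal, ∃ (F : Type) (_ : Field F) (_ : Fintype F), Fintype.card F = Nat.card ↥V ∧
        Nonempty (↥H ⧸ (Subgroup.centralizer (W : Set G)).subgroupOf H ≃* Matrix.SpecialLinearGroup (Fin 2) F)) ∧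
      P = Q ∧ (frattini ↥Q).map Q.subtype = V ∧ (Subgroup.center ↥Q).map Q.subtype = V ∧ (commutator ↥Q).map Q.subtype = V := by
  intro Q P W H
  haveI : Fact (Nat.Prime 2) := ⟨Nat.prime_two⟩
  have hS : TISetting V Q := setting V hV h1 h2 hti g hg
  obtain ⟨k, c⟩ := hS.exists_config hg hgQ
  obtain ⟨hA, hB, hC, ⟨F, iF, iFt, hFcard, Φ, hsurj, hker⟩, hPQ, hcm, hsq, hgen, hcen⟩ := c.main
  have hcomm : (commutator ↥Q).map Q.subtype = V := by
    rw [Subgroup.map_subtype_commutator]
    apply le_antisymm
    · rw [Subgroup.commutator_le]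
      intro x hx y hy
      exact hcm x hx y hy
    · intro v hv
      obtain ⟨a, ha, b, hb, rfl⟩ := hgen v hv
      exact Subgroup.commutator_mem_commutator ha hb
  have hcenter : (Subgroup.center ↥Q).map Q.subtype = V := by
    ext x
    constructor
    · rintro ⟨y, hy, rfl⟩
      apply hcen _ y.2
      intro z hz
      exact congrArg Subtype.val ((Subgroup.mem_center_iff.mp hy ⟨z, hz⟩).symm)
    · intro hx
      have hxQ : x ∈ Q := hS.V_le_Q hx
      refine ⟨⟨x, hxQ⟩, Subgroup.mem_center_iff.mpr ?_, rfl⟩
      intro z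
      apply Subtype.ext
      have hz : (z : G) ∈ PP V Q := by rw [hPQ]; exact z.2
      exact hS.P_comm_V hz hx
  have hfrat : (frattini ↥Q).map Q.subtype = V := by
    apply le_antisymm
    · have hVn : (V.subgroupOf Q).Normal :=
        (Subgroup.normal_subgroupOf_iff_le_normalizer hS.V_le_Q).mpr hS.Q_le
      letI : CommGroup (↥Q ⧸ V.subgroupOf Q) :=
        { (inferInstance : Group (↥Q ⧸ V.subgroupOf Q)) with
          mul_comm := by
            intro a b
            induction a using QuotientGroup.induction_on with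
            | H x =>
              induction b using QuotientGroup.induction_on with
              | H y =>
                rw [← QuotientGroup.mk_mul, ← QuotientGroup.mk_mul, QuotientGroup.eq,
                  Subgroup.mem_subgroupOf]
                have h3 := hcm _ (inv_mem y.2) _ (inv_mem x.2)
                have e : (((x * y)⁻¹ * (y * x) : ↥Q) : G)
                    = cm ((y : G)⁻¹) ((x : G)⁻¹) := by
                  unfold cm
                  push_cast
                  group
                rw [e]; exact h3 }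
      have hexp : ∀ x : ↥Q, (QuotientGroup.mk' (V.subgroupOf Q) x) ^ 2 = 1 := by
        intro x
        rw [← map_pow, QuotientGroup.mk'_apply, QuotientGroup.eq_one_iff, Subgroup.mem_subgroupOf,
          pow_two]
        exact hsq x x.2
      have h4 := Cfsg.Agent.Helper47.frattini_le_ker 2 (QuotientGroup.mk' (V.subgroupOf Q)) hexp
      rw [QuotientGroup.ker_mk'] at h4
      rintro _ ⟨y, hy, rfl⟩
      exact Subgroup.mem_subgroupOf.mp (h4 hy)
    · rw [← hcomm]
      exact Subgroup.map_mono
        (Cfsg.Agent.Helper2.commutator_le_frattini_of_isPGroup (hS.Q_pgroup : IsPGroup 2 ↥Q))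
  refine ⟨hA, hB, hC, ?_, hPQ, hfrat, hcenter, hcomm⟩
  intro hN
  refine ⟨F, iF, iFt, hFcard, ?_⟩
  have hkerEq : (Subgroup.centralizer (W : Set G)).subgroupOf H = Φ.ker := by
    ext t
    rw [Subgroup.mem_subgroupOf, MonoidHom.mem_ker]
    exact (hker t).symm
  exact ⟨(QuotientGroup.quotientMulEquivOfEq hkerEq).trans
    (QuotientGroup.quotientKerEquivOfSurjective Φ hsurj)⟩

end Cfsg.Agent.S1786
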