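import Cfsg.Statements.S1850
import Cfsg.Agent.Helper34.PCons3

set_option autoImplicit false
open Cfsg

namespace Cfsg.Agent.S1850

/-- A finite group of characteristic 2 has trivial `2'`-core. -/
theorem pPrimeCore_eq_bot_of_char_two {H : Type*} [Group H] [Finite H]
    (h : Cfsg.IsOfCharacteristicTwo H) : Cfsg.pPrimeCore 2 H = ⊥ := by
  have : Fact (Nat.Prime 2) := ⟨Nat.prime_two⟩
  unfold Cfsg.IsOfCharacteristicTwo at h
  have hPn : (pCore 2 H).Normal := Cfsg.Agent.Helper34.pCore_normal' 2 H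
  have hP2 : IsPGroup 2 ↥(pCore 2 H) := Cfsg.Agent.Helper22.pCore_isPGroup 2 H
  have hcop : (Nat.card ↥(pPrimeCore 2 H)).Coprime (Nat.card ↥(pCore 2 H)) := by
    obtain ⟨k, hk⟩ := IsPGroup.iff_card.1 hP2
    rw [hk]
    exact Nat.Coprime.pow_right k (Cfsg.Agent.Helper34.card_pPrimeCore_coprime 2 H)
  have hinf : pPrimeCore 2 H ⊓ pCore 2 H = ⊥ :=
    disjoint_iff.1 (Subgroup.disjoint_of_coprime_natCard hcop)
  have hcomm : ⁅pPrimeCore 2 H, pCore 2 H⁆ = ⊥ := by
    rw [eq_bot_iff, ← hinf]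
    exact Subgroup.commutator_le_inf _ _
  have hle : pPrimeCore 2 H ≤ pCore 2 H :=
    (Subgroup.commutator_eq_bot_iff_le_centralizer.1 hcomm).trans h
  rw [eq_bot_iff, ← hinf]
  exact le_inf le_rfl hle

/-- Let G be a non-abelian finite simple QTKE-group and T a Sylow 2-subgroup of G. If U is a nontrivial 2-subgroup of G with U ∩ Z(T) ≠ 1, then F*(N_G(U)) = O₂(N_G(U)). -/
theorem result {G : Type*} [Group G] [Finite G] [IsSimpleGroup G]
    (hG : ¬ IsMulCommutative G) (hQ : Cfsg.IsQTKE G) (T : Sylow 2 G) (U : Subgroup G)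
    (hU : IsPGroup 2 ↥U) (hZ : U ⊓ ((T : Subgroup G) ⊓ Subgroup.centralizer ((T : Subgroup G) : Set G)) ≠ ⊥) :
    Subgroup.normalizer (U : Set G) ∈ Cfsg.calHe G := by
  have : Fact (Nat.Prime 2) := ⟨Nat.prime_two⟩
  obtain ⟨-, -, hE⟩ := hQ
  have hZp : IsPGroup 2 ↥(U ⊓ ((T : Subgroup G) ⊓ Subgroup.centralizer ((T : Subgroup G) : Set G))) :=
    hU.to_le inf_le_left
  obtain ⟨z, hzZ, hz2⟩ : ∃ z ∈ U ⊓ ((T : Subgroup G) ⊓ Subgroup.centralizer ((T : Subgroup G) : Set G)),
      orderOf z = 2 := by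
    have hcard : 2 ∣ Nat.card ↥(U ⊓ ((T : Subgroup G) ⊓ Subgroup.centralizer ((T : Subgroup G) : Set G))) := by
      refine (hZp.card_eq_or_dvd).resolve_left ?_
      intro h
      exact hZ ((Subgroup.card_eq_one).1 h)
    obtain ⟨z, hz⟩ := exists_prime_orderOf_dvd_card' 2 hcard
    exact ⟨z, z.2, (Subgroup.orderOf_coe z).trans hz⟩
  have hzU : z ∈ U := hzZ.1
  have hzC : z ∈ Subgroup.centralizer ((T : Subgroup G) : Set G) := hzZ.2.2
  have hz1 : z ≠ 1 := by
    intro h
    rw [h, orderOf_one] at hz2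
    omega
  have hV2 : IsPGroup 2 ↥(Subgroup.zpowers z) := by
    apply IsPGroup.of_card (n := 1)
    rw [Nat.card_zpowers, hz2, pow_one]
  have hV1 : Subgroup.zpowers z ≠ ⊥ := by
    rw [Ne, Subgroup.zpowers_eq_bot]
    exact hz1
  have hVU : Subgroup.zpowers z ≤ U := by
    rw [Subgroup.zpowers_le]; exact hzU
  -- the normalizer of `⟨z⟩` is its centralizer
  have hNC : Subgroup.normalizer ((Subgroup.zpowers z : Subgroup G) : Set G) =
      Subgroup.centralizer ((Subgroup.zpowers z : Subgroup G) : Set G) := by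
    apply le_antisymm _ (Subgroup.centralizer_le_normalizer _)
    intro g hg
    have h1 : g * z * g⁻¹ ∈ Subgroup.zpowers z :=
      ((Subgroup.mem_normalizer_iff.1 hg) z).1 (Subgroup.mem_zpowers z)
    have h2 : g * z * g⁻¹ = z := by
      rw [Subgroup.mem_zpowers_iff] at h1
      obtain ⟨k, hk⟩ := h1
      rcases Int.even_or_odd k with ⟨m, hm⟩ | ⟨m, hm⟩
      · exfalso
        have hz2' : z ^ (2 : ℤ) = 1 := by
          have hpo := pow_orderOf_eq_one z
          rw [hz2] at hpo
          exact_mod_cast hpo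
        have : z ^ k = 1 := by
          rw [hm, ← two_mul, zpow_mul, hz2', one_zpow]
        rw [this] at hk
        apply hz1
        have : z = g⁻¹ * (g * z * g⁻¹) * g := by group
        rw [this, ← hk]; group
      · have hz2' : z ^ (2 : ℤ) = 1 := by
          have hpo := pow_orderOf_eq_one z
          rw [hz2] at hpo
          exact_mod_cast hpo
        rw [← hk, hm, zpow_add, zpow_mul, hz2', one_zpow, one_mul, zpow_one]
    rw [Subgroup.mem_centralizer_iff]
    intro h hh
    rw [SetLike.mem_coe, Subgroup.mem_zpowers_iff] at hh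
    obtain ⟨k, rfl⟩ := hh
    have hc : Commute g z := by
      show g * z = z * g
      calc g * z = (g * z * g⁻¹) * g := by group
        _ = z * g := by rw [h2]
    exact (hc.zpow_right k).eq.symm
  have hTN : (T : Subgroup G) ≤ Subgroup.normalizer ((Subgroup.zpowers z : Subgroup G) : Set G) := by
    rw [hNC]
    intro t ht
    rw [Subgroup.mem_centralizer_iff]
    intro h hh
    rw [SetLike.mem_coe, Subgroup.mem_zpowers_iff] at hh
    obtain ⟨k, rfl⟩ := hh
    have hc : Commute t z := (Subgroup.mem_centralizer_iff.1 hzC) t ht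
    exact (hc.zpow_right k).eq.symm
  have hchar : Cfsg.IsOfCharacteristicTwo
      ↥(Subgroup.normalizer ((Subgroup.zpowers z : Subgroup G) : Set G)) :=
    hE _ ⟨_, hV2, hV1, rfl⟩ ⟨T, hTN⟩
  rw [hNC] at hchar
  have hprops := Cfsg.Agent.Helper34.core_props_centralizer_of_le hU _ (Subgroup.zpowers z) hVU le_rfl
    ⟨pPrimeCore_eq_bot_of_char_two hchar, hchar⟩
  have hprops2 := Cfsg.Agent.Helper34.core_props_normalizer_of_centralizer hU hprops
  show generalizedFittingSubgroup ↥(Subgroup.normalizer (U : Set G)) =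
    pCore 2 ↥(Subgroup.normalizer (U : Set G))
  exact Cfsg.Agent.Helper34.generalizedFittingSubgroup_eq_pCore_of hprops2.1 hprops2.2

end Cfsg.Agent.S1850
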