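-- Statement S1958: balance for commuting elements of order p with solvable centralizers.
import Cfsg.Statements.S1958
import Cfsg.Agent.Helper22.Balance

set_option autoImplicit false
open Cfsg

namespace Cfsg.Agent.S1958

theorem isPGroup_zpowers_of_orderOf {G : Type*} [Group G] {p : ℕ} {x : G} (hx : orderOf x = p) :
    IsPGroup p (Subgroup.zpowers x) := by
  rintro ⟨g, hg⟩
  obtain ⟨k, rfl⟩ := Subgroup.mem_zpowers_iff.mp hg
  refine ⟨1, Subtype.ext ?_⟩
  show (x ^ k) ^ p ^ 1 = 1
  rw [pow_one, ← zpow_natCast, ← zpow_mul, mul_comm, zpow_mul, zpow_natCast, ← hx,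
    pow_orderOf_eq_one, one_zpow]

/-- Let `G` be a finite group, `p` a prime, and `x, y` commuting elements of order `p` whose centralizers `C_G(x)` and `C_G(y)` are both solvable. Then `O_{p'}(C_G(x)) ∩ C_G(y) = O_{p'}(C_G(y)) ∩ C_G(x)` (balance). -/
theorem result {G : Type*} [Group G] [Finite G]
    (p : ℕ) [Fact p.Prime] (x y : G) (hx : orderOf x = p) (hy : orderOf y = p) (hxy : x * y = y * x)
    (hCx : Group.IsSolvable ↥(Subgroup.centralizer ({x} : Set G))) (hCy : Group.IsSolvable ↥(Subgroup.centralizer ({y} : Set G))) :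
    Cfsg.centralizerPPrimeCore p x ⊓ Subgroup.centralizer {y} = Cfsg.centralizerPPrimeCore p y ⊓ Subgroup.centralizer {x} := by
  apply le_antisymm
  · exact le_inf
      (Cfsg.Agent.Helper22.centralizerPPrimeCore_inf_le_of_isSolvable p
        (isPGroup_zpowers_of_orderOf hx) hxy hCy)
      (inf_le_left.trans (Cfsg.Agent.Helper31.centralizerPPrimeCore_le p x))
  · exact le_inf
      (Cfsg.Agent.Helper22.centralizerPPrimeCore_inf_le_of_isSolvable p
        (isPGroup_zpowers_of_orderOf hy) hxy.symm hCx)
      (inf_le_left.trans (Cfsg.Agent.Helper31.centralizerPPrimeCore_le p y))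

end Cfsg.Agent.S1958
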