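import Cfsg.Statements.S1968
import Cfsg.Agent.Helper33.Fusion

set_option autoImplicit false
open Cfsg

namespace Cfsg.Agent.S1968

open Cfsg.Agent.Helper33 in
theorem aux {G : Type*} [Group G] [Finite G] {p : ℕ} [Fact p.Prime] (S : Sylow p G)
    (W : Subgroup G → Subgroup G) (hW : Cfsg.IsConjugacyFunctor p W)
    (hWZ : ∀ P : Subgroup G, IsPGroup p ↥P → P ⊓ Subgroup.centralizer (P : Set G) ≤ W P)
    (A : Subgroup G)
    (hAZ : A ≤ (S : Subgroup G) ⊓ Subgroup.centralizer ((S : Subgroup G) : Set G))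
    (hAN : Subgroup.normalizer ((W (S : Subgroup G) : Subgroup G) : Set G) ≤
      Subgroup.normalizer ((A : Subgroup G) : Set G))
    (T : Subgroup G) (hwp : Cfsg.IsWellPlaced p W (S : Subgroup G) T) (hAT : A ≤ T)
    (hy : ∃ y ∈ Subgroup.normalizer (T : Set G), A.map (MulAut.conj y).toMonoidHom ≠ A) :
    ∃ T : Subgroup G, Cfsg.IsWellPlaced p W (S : Subgroup G) T ∧ A ≤ T ∧
      Subgroup.normalizer ((W ((S : Subgroup G) ⊓ Subgroup.normalizer ((T : Subgroup G) : Set G)) :
        Subgroup G) : Set G) ≤ Subgroup.normalizer ((A : Subgroup G) : Set G) ∧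
      ¬ p ∣ ((S : Subgroup G) ⊓ Subgroup.normalizer ((T : Subgroup G) : Set G)).relIndex
        (Subgroup.normalizer ((T : Subgroup G) : Set G)) ∧
      A ≤ Subgroup.centralizer (((S : Subgroup G) ⊓
        Subgroup.normalizer ((T : Subgroup G) : Set G) : Subgroup G) : Set G) ∧
      ∃ g ∈ Subgroup.normalizer ((T : Subgroup G) : Set G),
        A.map (MulAut.conj g).toMonoidHom ≤
          (S : Subgroup G) ⊓ Subgroup.normalizer ((T : Subgroup G) : Set G) ∧
        A.map (MulAut.conj g).toMonoidHom ≠ A := by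
  induction hn : Nat.card (S : Subgroup G) -
      Nat.card ((S : Subgroup G) ⊓ Subgroup.normalizer (T : Set G) : Subgroup G)
    using Nat.strong_induction_on generalizing T with
  | _ n ih =>
  set S₁ : Subgroup G := (S : Subgroup G) ⊓ Subgroup.normalizer (T : Set G) with hS₁
  have hS₁p : IsPGroup p S₁ := S.2.to_inf_left
  have hAS₁ : A ≤ S₁ := le_inf (hAZ.trans inf_le_left) (hAT.trans Subgroup.le_normalizer)
  have hAC : A ≤ Subgroup.centralizer (S₁ : Set G) :=
    (hAZ.trans inf_le_right).trans (Subgroup.centralizer_le (SetLike.coe_subset_coe.mpr inf_le_left))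
  by_cases hN : Subgroup.normalizer ((W S₁ : Subgroup G) : Set G) ≤
      Subgroup.normalizer ((A : Subgroup G) : Set G)
  · obtain ⟨y, hyN, hyA⟩ := hy
    refine ⟨T, hwp, hAT, hN, hwp.2 0, hAC, y, hyN, ?_, hyA⟩
    have h1 : A.map (MulAut.conj y).toMonoidHom ≤ T.map (MulAut.conj y).toMonoidHom :=
      cj_mono y hAT
    rw [cj_eq_self_of_mem_normalizer hyN] at h1
    exact h1.trans (le_inf hwp.1 Subgroup.le_normalizer)
  · obtain ⟨y', hy'N, hy'A⟩ := SetLike.not_le_iff_exists.mp hN
    have hy'A' : A.map (MulAut.conj y').toMonoidHom ≠ A := fun h => hy'A (mem_normalizer_of_cj_eq h)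
    have hWS₁ : W S₁ ≤ S₁ := functor_le hW hS₁p
    have hwp' : Cfsg.IsWellPlaced p W (S : Subgroup G) (W S₁) :=
      Cfsg.Agent.Helper33.IsWellPlaced.next hwp (hWS₁.trans inf_le_left)
    have hAT' : A ≤ W S₁ := (le_inf hAS₁ hAC).trans (hWZ S₁ hS₁p)
    by_cases hS₁S : S₁ = S
    · exfalso
      apply hy'A
      apply hAN
      rw [hS₁S] at hy'N
      exact hy'N
    · have hlt : S₁ < (S : Subgroup G) ⊓ Subgroup.normalizer (S₁ : Set G) :=
        lt_inf_normalizer S.2 inf_le_left hS₁S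
      have hle : (S : Subgroup G) ⊓ Subgroup.normalizer (S₁ : Set G) ≤
          (S : Subgroup G) ⊓ Subgroup.normalizer ((W S₁ : Subgroup G) : Set G) :=
        inf_le_inf le_rfl (normalizer_le_normalizer_functor hW hS₁p)
      have hcard2 : Nat.card S₁ <
          Nat.card ((S : Subgroup G) ⊓ Subgroup.normalizer ((W S₁ : Subgroup G) : Set G) :
            Subgroup G) :=
        lt_of_lt_of_le (card_lt_card_of_lt hlt) (Subgroup.card_le_of_le hle)
      have hcard3 : Nat.card ((S : Subgroup G) ⊓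
          Subgroup.normalizer ((W S₁ : Subgroup G) : Set G) : Subgroup G) ≤
          Nat.card (S : Subgroup G) := Subgroup.card_le_of_le inf_le_left
      exact ih _ (by omega) (W S₁) hwp' hAT' ⟨y', hy'N, hy'A'⟩ rfl

/-- Let p be a prime, G a finite group with Sylow p-subgroup S and W a conjugacy functor for p on G with Z(P) ≤ W(P) for every p-subgroup P. Let A be a subgroup of Z(S) normalized by N_G(W(S)) that is not weakly closed in S with respect to G. Then there is a subgroup T of S, well placed in S with respect to W, such that: A ≤ T; N_G(W(N_S(T))) normalizes A; N_S(T) is a Sylow p-subgroup of N_G(T); A ≤ Z(N_S(T)); and A is not weakly closed in N_S(T) with respect to N_G(T), that is, some N_G(T)-conjugate of A other than A lies in N_S(T). -/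
theorem result {G : Type*} [Group G] [Finite G] {p : ℕ} [Fact p.Prime] (S : Sylow p G) (W : Subgroup G → Subgroup G) (hW : Cfsg.IsConjugacyFunctor p W) (hWZ : ∀ P : Subgroup G, IsPGroup p ↥P → P ⊓ Subgroup.centralizer (P : Set G) ≤ W P) (A : Subgroup G) (hAZ : A ≤ (S : Subgroup G) ⊓ Subgroup.centralizer ((S : Subgroup G) : Set G)) (hAN : Subgroup.normalizer ((W (S : Subgroup G) : Subgroup G) : Set G) ≤ Subgroup.normalizer ((A : Subgroup G) : Set G)) (hnwc : ¬ Cfsg.IsWeaklyClosed A (S : Subgroup G)) : ∃ T : Subgroup G, Cfsg.IsWellPlaced p W (S : Subgroup G) T ∧ A ≤ T ∧ Subgroup.normalizer ((W ((S : Subgroup G) ⊓ Subgroup.normalizer ((T : Subgroup G) : Set G)) : Subgroup G) : Set G) ≤ Subgroup.normalizer ((A : Subgroup G) : Set G) ∧ ¬ p ∣ ((S : Subgroup G) ⊓ Subgroup.normalizer ((T : Subgroup G) : Set G)).relIndex (Subgroup.normalizer ((T : Subgroup G) : Set G)) ∧ A ≤ Subgroup.centralizer (((S : Subgroup G) ⊓ Subgroup.normalizer ((T : Subgroup G) : Set G) : Subgroup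 G) : Set G) ∧ ∃ g ∈ Subgroup.normalizer ((T : Subgroup G) : Set G), A.map (MulAut.conj g).toMonoidHom ≤ (S : Subgroup G) ⊓ Subgroup.normalizer ((T : Subgroup G) : Set G) ∧ A.map (MulAut.conj g).toMonoidHom ≠ A := by
  have hAS : A ≤ (S : Subgroup G) := hAZ.trans inf_le_left
  have hex : ∃ g : G, A.map (MulAut.conj g).toMonoidHom ≤ (S : Subgroup G) ∧
      A.map (MulAut.conj g).toMonoidHom ≠ A := by
    by_contra hcon
    apply hnwc
    refine ⟨hAS, fun g hg => ?_⟩
    by_contra hne
    exact hcon ⟨g, hg, hne⟩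
  obtain ⟨g, hgS, hgA⟩ := hex
  have hdec := Cfsg.Agent.Helper33.alperin_wellPlaced S hW (A : Set G)
    (SetLike.coe_subset_coe.mpr hAS) g⁻¹ (by
      rw [Cfsg.Agent.Helper33.conjSet_coe, inv_inv]
      exact SetLike.coe_subset_coe.mpr hgS)
  obtain ⟨l, hl, hprod⟩ := hdec
  have hmove : Cfsg.Agent.Helper33.conjSet (Cfsg.Agent.Helper33.prodOf l) (A : Set G) ≠ A := by
    rw [hprod, Cfsg.Agent.Helper33.conjSet_coe, inv_inv]
    intro h
    exact hgA (SetLike.coe_injective h)
  obtain ⟨T, hT, x, hx, hAT, hxA⟩ := Cfsg.Agent.Helper33.exists_step_moving hl hmove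
  apply aux S W hW hWZ A hAZ hAN T hT (SetLike.coe_subset_coe.mp hAT)
  refine ⟨x⁻¹, Subgroup.inv_mem _ hx, ?_⟩
  intro h
  apply hxA
  rw [Cfsg.Agent.Helper33.conjSet_coe, h]

end Cfsg.Agent.S1968
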