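import Cfsg.Statements.S1996
import Cfsg.Agent.Helper11.FamFusionPair

set_option autoImplicit false
universe u
open Cfsg

namespace Cfsg.Agent.S1996

/-- Let p be a prime, G a finite group and W₁, W₂ two isomorphism-invariant p-group functors (W assigns to every group Q a subgroup W(Q), nontrivial whenever Q is a nontrivial finite p-group, and every isomorphism from a finite p-group Q onto a group R carries W(Q) onto W(R)). Suppose that G* = N_{G*}(W₁(S*)) N_{G*}(W₂(S*)) whenever G* = K/R is a section of G with C_{G*}(O_p(G*)) ≤ O_p(G*) and S* is a Sylow p-subgroup of G*. Then the pair {W₁, W₂} controls strong fusion in G. -/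
theorem result {G : Type u} [Group G] [Finite G] {p : ℕ} [Fact p.Prime] (W₁ W₂ : ∀ (Q : Type u) [Group Q], Subgroup Q) (hW₁ : Cfsg.IsCharPFunctor.{u} p W₁) (hW₂ : Cfsg.IsCharPFunctor.{u} p W₂) (hfac : ∀ (K R : Subgroup G) [hR : (R.subgroupOf K).Normal], Subgroup.centralizer ((Cfsg.pCore p (↥K ⧸ R.subgroupOf K) : Subgroup (↥K ⧸ R.subgroupOf K)) : Set (↥K ⧸ R.subgroupOf K)) ≤ Cfsg.pCore p (↥K ⧸ R.subgroupOf K) → ∀ T : Sylow p (↥K ⧸ R.subgroupOf K), ∀ x : (↥K ⧸ R.subgroupOf K), ∃ a ∈ Subgroup.normalizer ((Cfsg.inducedFunctor (G := (↥K ⧸ R.subgroupOf K)) W₁ (T : Subgroup (↥K ⧸ R.subgroupOf K)) : Subgroup (↥K ⧸ R.subgroupOf K)) : Set (↥K ⧸ R.subgroupOf K)), ∃ b ∈ Subgroup.normalizer ((Cfsg.inducedFunctor (G := (↥K ⧸ R.subgroupOf K)) W₂ (T : Subgroup (↥K ⧸ R.subgroupOf K)) : Subgroup (↥K ⧸ R.subgroupOf K)) : Set (↥K ⧸ R.subgroupOf K)), x = a * b) : Cfsg.FamilyControlsStrongFusionIn p {Cfsg.inducedFunctor (G := G) W₁,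 Cfsg.inducedFunctor (G := G) W₂} ⊤ := by
  have h𝓦 : ∀ W ∈ ({W₁, W₂} : Set (∀ (Q : Type u) [Group Q], Subgroup Q)),
      Cfsg.IsCharPFunctor.{u} p W := by
    intro W hW
    rcases hW with rfl | rfl
    · exact hW₁
    · exact hW₂
  have hloc' : ∀ (H : Type u) [Group H], Cfsg.Agent.Helper33.IsSectionOf G H →
      Cfsg.Agent.Helper11.SFFLoc {W₁, W₂} p H := by
    intro H _ hsec
    obtain ⟨K, R, hR, ⟨e⟩⟩ := hsec.exists_equiv
    refine Cfsg.Agent.Helper11.sffLoc_of_equiv h𝓦 e ?_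
    intro hcen T
    exact Cfsg.Agent.Helper11.sff_pair_of_factorization hW₁ hW₂ T (hfac K R hcen T)
  obtain ⟨S⟩ : Nonempty (Sylow p G) := inferInstance
  have h := Cfsg.Agent.Helper11.familyControls_top_of_sff S
    (Cfsg.Agent.Helper11.sff_sections h𝓦 hloc' _ G (Cfsg.Agent.Helper33.IsSectionOf.refl G) rfl S)
  rwa [Cfsg.Agent.Helper11.famOn_pair] at h

end Cfsg.Agent.S1996
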