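import Cfsg.Statements.S1997
import Cfsg.Agent.Helper11.OmegaZClosed

set_option autoImplicit false
universe u
open Cfsg

namespace Cfsg.Agent.S1997

/-- Let p be a prime, G a finite group with Sylow p-subgroup S, and W₁, W₂ two isomorphism-invariant p-group functors (W assigns to every group Q a subgroup W(Q), nontrivial whenever Q is a nontrivial finite p-group, and every isomorphism from a finite p-group Q onto a group R carries W(Q) onto W(R)). Suppose that G* = C_{G*}(Ω₁Z(S*)) N_{G*}(W₁(S*)) = C_{G*}(Ω₁Z(S*)) N_{G*}(W₂(S*)) = N_{G*}(W₁(S*)) N_{G*}(W₂(S*)) whenever G* = K/R is a section of G with C_{G*}(O_p(G*)) ≤ O_p(G*) and S* is a Sylow p-subgroup of G*, where Ω₁Z denotes the subgroup generated by the elements of order dividing p in the centre. Suppose also Ω₁Z(S) ≤ W₁(S) ∩ W₂(S), and let A be the normal closure of Ω₁Z(S) in N_G(W₁(S)). Then A is an elementary abelian subgroup of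 S, strongly closed in S with respect to G, and A controls strong fusion in G. -/
theorem result {G : Type u} [Group G] [Finite G] {p : ℕ} [Fact p.Prime] (S : Sylow p G) (W₁ W₂ : ∀ (Q : Type u) [Group Q], Subgroup Q) (hW₁ : Cfsg.IsCharPFunctor.{u} p W₁) (hW₂ : Cfsg.IsCharPFunctor.{u} p W₂) (hfac : ∀ (K R : Subgroup G) [hR : (R.subgroupOf K).Normal], Subgroup.centralizer ((Cfsg.pCore p (↥K ⧸ R.subgroupOf K) : Subgroup (↥K ⧸ R.subgroupOf K)) : Set (↥K ⧸ R.subgroupOf K)) ≤ Cfsg.pCore p (↥K ⧸ R.subgroupOf K) → ∀ T : Sylow p (↥K ⧸ R.subgroupOf K), (∀ x : (↥K ⧸ R.subgroupOf K), ∃ a ∈ Subgroup.centralizer ((Cfsg.omegaOne p ((T : Subgroup (↥K ⧸ R.subgroupOf K)) ⊓ Subgroup.centralizer (((T : Subgroup (↥K ⧸ R.subgroupOf K)) : Subgroup (↥K ⧸ R.subgroupOf K)) : Set (↥K ⧸ R.subgroupOf K))) : Subgroup (↥K ⧸ R.subgroupOf K)) : Set (↥K ⧸ R.subgroupOf K)), ∃ b ∈ Subgroup.normalizer ((Cfsg.inducedFunctor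 (G := (↥K ⧸ R.subgroupOf K)) W₁ (T : Subgroup (↥K ⧸ R.subgroupOf K)) : Subgroup (↥K ⧸ R.subgroupOf K)) : Set (↥K ⧸ R.subgroupOf K)), x = a * b) ∧ (∀ x : (↥K ⧸ R.subgroupOf K), ∃ a ∈ Subgroup.centralizer ((Cfsg.omegaOne p ((T : Subgroup (↥K ⧸ R.subgroupOf K)) ⊓ Subgroup.centralizer (((T : Subgroup (↥K ⧸ R.subgroupOf K)) : Subgroup (↥K ⧸ R.subgroupOf K)) : Set (↥K ⧸ R.subgroupOf K))) : Subgroup (↥K ⧸ R.subgroupOf K)) : Set (↥K ⧸ R.subgroupOf K)), ∃ b ∈ Subgroup.normalizer ((Cfsg.inducedFunctor (G := (↥K ⧸ R.subgroupOf K)) W₂ (T : Subgroup (↥K ⧸ R.subgroupOf K)) : Subgroup (↥K ⧸ R.subgroupOf K)) : Set (↥K ⧸ R.subgroupOf K)), x = a * b) ∧ (∀ x : (↥K ⧸ R.subgroupOf K), ∃ a ∈ Subgroup.normalizer ((Cfsg.inducedFunctor (G := (↥K ⧸ R.subgroupOf K)) W₁ (T : Subgroup (↥K ⧸ R.subgroupOf K)) : Subgroup (↥K ⧸ R.subgroupOf K)) : Set (↥K ⧸ R.subgroupOf K)), ∃ b ∈ Subgroup.normalizer ((Cfsg.inducedFunctor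 (G := (↥K ⧸ R.subgroupOf K)) W₂ (T : Subgroup (↥K ⧸ R.subgroupOf K)) : Subgroup (↥K ⧸ R.subgroupOf K)) : Set (↥K ⧸ R.subgroupOf K)), x = a * b)) (hZ : Cfsg.omegaOne p ((S : Subgroup G) ⊓ Subgroup.centralizer (((S : Subgroup G) : Subgroup G) : Set G)) ≤ Cfsg.inducedFunctor (G := G) W₁ (S : Subgroup G) ⊓ Cfsg.inducedFunctor (G := G) W₂ (S : Subgroup G)) (N₁ : Subgroup G) (hN₁ : N₁ = Subgroup.normalizer ((Cfsg.inducedFunctor (G := G) W₁ (S : Subgroup G) : Subgroup G) : Set G)) (A : Subgroup G) (hA : A = (Subgroup.normalClosure (((Cfsg.omegaOne p ((S : Subgroup G) ⊓ Subgroup.centralizer (((S : Subgroup G) : Subgroup G) : Set G))).subgroupOf N₁ : Subgroup ↥N₁) : Set ↥N₁)).map N₁.subtype) : A ≤ (S : Subgroup G) ∧ Cfsg.IsElementaryAbelian p A ∧ Cfsg.IsStronglyClosed A (S : Subgroup G) ∧ Cfsg.ControlsStrongFusion p A := by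
  have h𝓦 : ∀ W ∈ ({W₁, W₂} : Set (∀ (Q : Type u) [Group Q], Subgroup Q)),
      Cfsg.IsCharPFunctor.{u} p W := by
    intro W hW
    rcases hW with rfl | rfl
    · exact hW₁
    · exact hW₂
  have hlocF : ∀ (H : Type u) [Group H], Cfsg.Agent.Helper33.IsSectionOf G H →
      Cfsg.Agent.Helper11.SFFLoc {W₁, W₂} p H := by
    intro H _ hsec
    obtain ⟨K, R, hR, ⟨e⟩⟩ := hsec.exists_equiv
    refine Cfsg.Agent.Helper11.sffLoc_of_equiv h𝓦 e ?_
    intro hcen T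
    exact Cfsg.Agent.Helper11.sff_pair_of_factorization hW₁ hW₂ T (hfac K R hcen T).2.2
  have hlocN : ∀ (H : Type u) [Group H], Cfsg.Agent.Helper33.IsSectionOf G H →
      Cfsg.Agent.Helper11.NclLoc p W₁ W₂ H := by
    intro H _ hsec
    obtain ⟨K, R, hR, ⟨e⟩⟩ := hsec.exists_equiv
    refine Cfsg.Agent.Helper11.nclLoc_of_equiv hW₁ hW₂ e ?_
    intro hcen T
    have h1 := Cfsg.Agent.Helper11.nclIn_top_eq_of_factorization (p := p) (W := W₁)
      (T : Subgroup (↥K ⧸ R.subgroupOf K)) (hfac K R hcen T).1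
    have h2 := Cfsg.Agent.Helper11.nclIn_top_eq_of_factorization (p := p) (W := W₂)
      (T : Subgroup (↥K ⧸ R.subgroupOf K)) (hfac K R hcen T).2.1
    rw [h1, h2]
  have hsff := Cfsg.Agent.Helper11.sff_sections h𝓦 hlocF _ G
    (Cfsg.Agent.Helper33.IsSectionOf.refl G) rfl S
  have h12 := Cfsg.Agent.Helper11.ncl_sections hW₁ hW₂ hlocN _ G
    (Cfsg.Agent.Helper33.IsSectionOf.refl G) rfl S hZ
  have hfin := Cfsg.Agent.Helper11.ncl_final hW₁ hW₂ S hZ h12 hsff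
  have hS1 : Cfsg.Agent.Helper11.omZ p (S : Subgroup G) ≤ N₁ := by
    rw [hN₁]
    exact (Cfsg.Agent.Helper11.omZ_le _).trans (Subgroup.le_normalizer.trans
      (Cfsg.Agent.Helper33.normalizer_le_normalizer_inducedFunctor hW₁ S.2))
  have hAeq : A = Cfsg.Agent.Helper11.nclIn p W₁ ⊤ (S : Subgroup G) := by
    rw [hA]
    exact Cfsg.Agent.Helper11.ncl_eq_normalClosure_map (S : Subgroup G) N₁ hN₁ hS1
  rw [hAeq]
  exact hfin

end Cfsg.Agent.S1997
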