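import Cfsg.Statements.S2008


set_option autoImplicit false
open Cfsg

namespace Cfsg.Agent.S2008

theorem exists_third {H : Type*} [Group H] (z : H) (E : Subgroup H) (hE : IsKleinFour ↥E) :
    ∃ e ∈ E, e ≠ 1 ∧ e ≠ z := by
  by_contra hcon
  push Not at hcon
  have hsub : (E : Set H) ⊆ {1, z} := fun x hx => by
    by_cases h1 : x = 1
    · simp [h1]
    · simp [hcon x hx h1]
  have h4 : Nat.card E = 4 := hE.card_four
  have h2 : Nat.card E ≤ 2 := by
    calc Nat.card E = (E : Set H).ncard := rfl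
      _ ≤ ({1, z} : Set H).ncard := Set.ncard_le_ncard hsub (Set.toFinite _)
      _ ≤ 2 := (Set.ncard_insert_le 1 {z}).trans (by simp)
  omega

theorem sq_eq_one_of_mem {H : Type*} [Group H] (E : Subgroup H) (hE : IsKleinFour ↥E)
    {e : H} (he : e ∈ E) : e * e = 1 := by
  have h := Monoid.pow_exponent_eq_one (⟨e, he⟩ : E)
  rw [hE.exponent_two] at h
  have h' := congrArg Subtype.val h
  simpa [pow_two] using h'

/-- If `e * e = 1` and no nonidentity element of the abelian normal subgroup `N` commutes with `e`,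
then `e` inverts `N`. -/
theorem inverts {H : Type*} [Group H] (N : Subgroup H) [hNn : N.Normal]
    (hab : ∀ a ∈ N, ∀ b ∈ N, a * b = b * a) (e : H) (he : e * e = 1)
    (hfix : ∀ n ∈ N, e * n = n * e → n = 1) : ∀ n ∈ N, e * n * e⁻¹ = n⁻¹ := by
  intro n hn
  have hen : e * n * e⁻¹ ∈ N := hNn.conj_mem n hn e
  have hm : n * (e * n * e⁻¹) ∈ N := N.mul_mem hn hen
  have heinv : e⁻¹ = e := inv_eq_of_mul_eq_one_left he
  have h1 : e * (n * (e * n * e⁻¹)) = (n * (e * n * e⁻¹)) * e := by
    have hc := hab n hn (e * n * e⁻¹) hen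
    calc e * (n * (e * n * e⁻¹)) = (e * n * e⁻¹) * (e * e) * n * e⁻¹ := by group
      _ = (e * n * e⁻¹) * n * e⁻¹ := by rw [he, mul_one]
      _ = n * (e * n * e⁻¹) * e⁻¹ := by rw [hc]
      _ = n * (e * n * e⁻¹) * e := by rw [heinv]
  have h2 := hfix _ hm h1
  exact eq_inv_of_mul_eq_one_right h2

theorem core {H : Type*} [Group H] (z : H)
    (hN : ∀ N : Subgroup H, N.Normal → N ≠ ⊤ → N ⊓ Subgroup.centralizer ({z} : Set H) = ⊥)
    (E : Subgroup H) (hE : IsKleinFour ↥E) (hzE : z ∈ E) (hc : ∀ e ∈ E, e ≠ 1 → IsConj z e)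
    (N : Subgroup H) [hNn : N.Normal] (hab : ∀ a ∈ N, ∀ b ∈ N, a * b = b * a) : N = ⊥ := by
  obtain ⟨e, heE, he1, hez⟩ := exists_third z E hE
  by_cases hNtop : N = ⊤
  · exfalso
    obtain ⟨c, hcz⟩ := isConj_iff.mp (hc e heE he1)
    have h1 : c * z = z * c := hab c (by rw [hNtop]; trivial) z (by rw [hNtop]; trivial)
    apply hez
    rw [← hcz, h1]; group
  · have hfix : ∀ e' ∈ E, e' ≠ 1 → ∀ n ∈ N, e' * n = n * e' → n = 1 := by
      intro e' he'E he'1 n hn hcomm
      obtain ⟨c, hcz⟩ := isConj_iff.mp (hc e' he'E he'1)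
      have hmem : c⁻¹ * n * c ∈ N ⊓ Subgroup.centralizer ({z} : Set H) := by
        refine Subgroup.mem_inf.mpr ⟨by simpa using hNn.conj_mem n hn c⁻¹, ?_⟩
        rw [Subgroup.mem_centralizer_iff]
        intro h hh
        rw [Set.mem_singleton_iff] at hh
        subst hh
        have hz' : h = c⁻¹ * e' * c := by rw [← hcz]; group
        rw [hz']
        calc c⁻¹ * e' * c * (c⁻¹ * n * c) = c⁻¹ * (e' * n) * c := by group
          _ = c⁻¹ * (n * e') * c := by rw [hcomm]
          _ = c⁻¹ * n * c * (c⁻¹ * e' * c) := by group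
      rw [hN N hNn hNtop, Subgroup.mem_bot] at hmem
      have : n = c * (c⁻¹ * n * c) * c⁻¹ := by group
      rw [this, hmem]; group
    have hzz : z * z = 1 := sq_eq_one_of_mem E hE hzE
    have hee : e * e = 1 := sq_eq_one_of_mem E hE heE
    have hz1 : z ≠ 1 := by
      intro h
      apply hez
      obtain ⟨c, hcz⟩ := isConj_iff.mp (hc e heE he1)
      rw [← hcz, h]; group
    have hze1 : z * e ≠ 1 := by
      intro h
      apply hez
      have : e = z⁻¹ := eq_inv_of_mul_eq_one_right h
      rw [this]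
      exact inv_eq_of_mul_eq_one_left hzz
    have hinvz := inverts N hab z hzz (hfix z hzE hz1)
    have hinve := inverts N hab e hee (hfix e heE he1)
    rw [Subgroup.eq_bot_iff_forall]
    intro n hn
    apply hfix (z * e) (E.mul_mem hzE heE) hze1 n hn
    have h1 := hinve n hn
    have h2 := hinvz n⁻¹ (N.inv_mem hn)
    rw [inv_inv] at h2
    have h3 : z * e * n * (z * e)⁻¹ = n := by
      calc z * e * n * (z * e)⁻¹ = z * (e * n * e⁻¹) * z⁻¹ := by group
        _ = n := by rw [h1, h2]
    calc z * e * n = z * e * n * (z * e)⁻¹ * (z * e) := by group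
      _ = n * (z * e) := by rw [h3]

/-- Let H be a finite group and z an involution such that every proper normal subgroup of H meets the centralizer of z trivially, and suppose z lies in a Klein four-subgroup E of H all three of whose involutions are conjugate to z in H. Then H has no non-trivial abelian normal subgroup. -/
theorem result {H : Type*} [Group H] [Finite H] (z : H) (hz : orderOf z = 2) (hN : ∀ N : Subgroup H, N.Normal → N ≠ ⊤ → N ⊓ Subgroup.centralizer ({z} : Set H) = ⊥) (E : Subgroup H) (hE : IsKleinFour ↥E) (hzE : z ∈ E) (hc : ∀ e ∈ E, e ≠ 1 → IsConj z e) (N : Subgroup H) [N.Normal] (hab : IsMulCommutative ↥N) : N = ⊥ := by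
  apply core z hN E hE hzE hc N
  intro a ha b hb
  have := hab.is_comm.comm ⟨a, ha⟩ ⟨b, hb⟩
  exact congrArg Subtype.val this

end Cfsg.Agent.S2008
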