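import Cfsg.Statements.S2009
import Cfsg.Agent.S2008

set_option autoImplicit false
open Cfsg

namespace Cfsg.Agent.S2009

/-- A fixed-point-free conjugation by an element `z` with `z * z = 1` inverts the finite normal
subgroup `N`. -/
theorem fpf_inverts {H : Type*} [Group H] [Finite H] (N : Subgroup H) [hNn : N.Normal] (z : H)
    (hzz : z * z = 1) (hfix : ∀ n ∈ N, z * n = n * z → n = 1) : ∀ n ∈ N, z * n * z⁻¹ = n⁻¹ := by
  let f : N → N := fun n => ⟨(n : H)⁻¹ * (z * n * z⁻¹), N.mul_mem (N.inv_mem n.2) (hNn.conj_mem n n.2 z)⟩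
  have hinj : Function.Injective f := by
    intro n m hnm
    have h1 : (n : H)⁻¹ * (z * n * z⁻¹) = (m : H)⁻¹ * (z * m * z⁻¹) := congrArg Subtype.val hnm
    have h2 : z * ((m : H) * (n : H)⁻¹) = ((m : H) * (n : H)⁻¹) * z := by
      have : (m : H) * (n : H)⁻¹ = z * m * z⁻¹ * (z * n * z⁻¹)⁻¹ := by
        calc (m : H) * (n : H)⁻¹ = m * ((n : H)⁻¹ * (z * n * z⁻¹)) * (z * n * z⁻¹)⁻¹ := by group
          _ = m * ((m : H)⁻¹ * (z * m * z⁻¹)) * (z * n * z⁻¹)⁻¹ := by rw [h1]
          _ = z * m * z⁻¹ * (z * n * z⁻¹)⁻¹ := by group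
      calc z * ((m : H) * (n : H)⁻¹) = (z * m * z⁻¹ * (z * n * z⁻¹)⁻¹) * z := by group
        _ = ((m : H) * (n : H)⁻¹) * z := by rw [← this]
    have h3 := hfix _ (N.mul_mem m.2 (N.inv_mem n.2)) h2
    have h4 : (m : H) = n := by
      have := mul_inv_eq_one.mp h3
      exact this
    exact Subtype.ext h4.symm
  have hsurj : Function.Surjective f := Finite.surjective_of_injective hinj
  intro n hn
  obtain ⟨m, hm⟩ := hsurj ⟨n, hn⟩
  have h1 : (m : H)⁻¹ * (z * m * z⁻¹) = n := congrArg Subtype.val hm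
  have hzinv : z⁻¹ = z := inv_eq_of_mul_eq_one_left hzz
  rw [← h1]
  calc z * ((m : H)⁻¹ * (z * m * z⁻¹)) * z⁻¹ = z * (m : H)⁻¹ * z * m * (z⁻¹ * z⁻¹) := by group
    _ = z * (m : H)⁻¹ * z * m * (z * z) := by rw [hzinv]
    _ = z * (m : H)⁻¹ * z * m := by rw [hzz, mul_one]
    _ = z * (m : H)⁻¹ * z⁻¹ * m := by rw [hzinv]
    _ = ((m : H)⁻¹ * (z * m * z⁻¹))⁻¹ := by group

/-- Let H be a finite group and z an involution such that every proper normal subgroup of H meets the centralizer of z trivially, and suppose z lies in a Klein four-subgroup E of H all three of whose involutions are conjugate to z in H. Then H is simple. -/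
theorem result {H : Type*} [Group H] [Finite H] (z : H) (hz : orderOf z = 2) (hN : ∀ N : Subgroup H, N.Normal → N ≠ ⊤ → N ⊓ Subgroup.centralizer ({z} : Set H) = ⊥) (E : Subgroup H) (hE : IsKleinFour ↥E) (hzE : z ∈ E) (hc : ∀ e ∈ E, e ≠ 1 → IsConj z e) : IsSimpleGroup H := by
  have hz1 : z ≠ 1 := by
    intro h
    rw [h, orderOf_one] at hz
    omega
  have hzz : z * z = 1 := by
    have := pow_orderOf_eq_one z
    rwa [hz, pow_two] at this
  haveI : Nontrivial H := ⟨⟨z, 1, hz1⟩⟩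
  refine ⟨fun N hNn => ?_⟩
  by_cases hNtop : N = ⊤
  · exact Or.inr hNtop
  · left
    have hfix : ∀ n ∈ N, z * n = n * z → n = 1 := by
      intro n hn hcomm
      have hmem : n ∈ N ⊓ Subgroup.centralizer ({z} : Set H) := by
        refine Subgroup.mem_inf.mpr ⟨hn, ?_⟩
        rw [Subgroup.mem_centralizer_iff]
        intro h hh
        rw [Set.mem_singleton_iff] at hh
        subst hh
        exact hcomm
      rw [hN N hNn hNtop, Subgroup.mem_bot] at hmem
      exact hmem
    have hinv := fpf_inverts N z hzz hfix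
    apply Cfsg.Agent.S2008.core z hN E hE hzE hc N
    intro a ha b hb
    have h1 := hinv (a * b) (N.mul_mem ha hb)
    have h2 := hinv a ha
    have h3 := hinv b hb
    have h4 : (a * b)⁻¹ = a⁻¹ * b⁻¹ := by
      rw [← h1, ← h2, ← h3]; group
    have h5 : a * b = (a⁻¹ * b⁻¹)⁻¹ := by rw [← h4, inv_inv]
    rw [h5]; group

end Cfsg.Agent.S2009
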