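import Cfsg.Statements.S2039
import Cfsg.Agent.Helper7.J1Elts
import Cfsg.Agent.Helper27.StemSinger

set_option autoImplicit false
open Cfsg

namespace Cfsg.Agent.S2039

open Cfsg.Agent.Helper7 Cfsg.Agent.Helper89 in
/-- Equality of elements of `J₁` from equality of codes. -/
theorem eq_of_codes {g h : ↥Cfsg.Spor.J1} {c d : ℕ}
    (hg : IsCode (g : GL (Fin 7) (ZMod 11)) c) (hh : IsCode (h : GL (Fin 7) (ZMod 11)) d)
    (e : c = d) : g = h := eq_of_isCode hg (e ▸ hh)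

open Cfsg.Agent.Helper7 Cfsg.Agent.Helper89 in
/-- Distinctness of elements of `J₁` from distinctness of codes. -/
theorem ne_of_codes {g h : ↥Cfsg.Spor.J1} {c d : ℕ}
    (hg : IsCode (g : GL (Fin 7) (ZMod 11)) c) (hh : IsCode (h : GL (Fin 7) (ZMod 11)) d)
    (hc : c < 1024 ^ 49) (hd : d < 1024 ^ 49) (e : c ≠ d) : g ≠ h :=
  fun heq => e (IsCode.code_eq hg (heq ▸ hh) hc hd)

open Cfsg.Agent.Helper7 in
/-- Code of the involution `a = X Y X Y⁴`. -/
def cA : ℕ := mulC (mulC (mulC cX cY) cX) (jpowC cY 4)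

open Cfsg.Agent.Helper7 in
/-- Code of `X⁶ = X⁻¹`. -/
def cT6 : ℕ := jpowC cX 6

open Cfsg.Agent.Helper7 in
/-- Code of `b = X a X⁻¹`. -/
def cB : ℕ := mulC (mulC cX cA) cT6

open Cfsg.Agent.Helper7 in
/-- Code of `c = X b X⁻¹`. -/
def cC : ℕ := mulC (mulC cX cB) cT6

open Cfsg.Agent.Helper7 in
/-- The involution `a = X Y X Y⁴` of `J₁`. -/
def aJ : ↥Cfsg.Spor.J1 := jG 0 * jG 1 * jG 0 * jG 1 ^ 4

open Cfsg.Agent.Helper7 in
def bJ : ↥Cfsg.Spor.J1 := jG 0 * aJ * jG 0 ^ 6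

open Cfsg.Agent.Helper7 in
def cJ : ↥Cfsg.Spor.J1 := jG 0 * bJ * jG 0 ^ 6

open Cfsg.Agent.Helper7 in
theorem isCode_X0 : IsCode ((jG 0 : ↥Cfsg.Spor.J1) : GL (Fin 7) (ZMod 11)) cX := isCode_jG 0

open Cfsg.Agent.Helper7 in
theorem isCode_Y1 : IsCode ((jG 1 : ↥Cfsg.Spor.J1) : GL (Fin 7) (ZMod 11)) cY := isCode_jG 1

open Cfsg.Agent.Helper7 in
theorem isCode_T6 : IsCode ((jG 0 ^ 6 : ↥Cfsg.Spor.J1) : GL (Fin 7) (ZMod 11)) cT6 :=
  isCode_pow isCode_X0 6

open Cfsg.Agent.Helper7 in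
theorem isCode_aJ : IsCode (aJ : GL (Fin 7) (ZMod 11)) cA :=
  isCode_mul (isCode_mul (isCode_mul isCode_X0 isCode_Y1) isCode_X0) (isCode_pow isCode_Y1 4)

open Cfsg.Agent.Helper7 in
theorem isCode_bJ : IsCode (bJ : GL (Fin 7) (ZMod 11)) cB :=
  isCode_mul (isCode_mul isCode_X0 isCode_aJ) isCode_T6

open Cfsg.Agent.Helper7 in
theorem isCode_cJ : IsCode (cJ : GL (Fin 7) (ZMod 11)) cC :=
  isCode_mul (isCode_mul isCode_X0 isCode_bJ) isCode_T6

open Cfsg.Agent.Helper7 in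
theorem cA_lt : cA < 1024 ^ 49 := mulC_lt _ _

open Cfsg.Agent.Helper7 in
theorem cB_lt : cB < 1024 ^ 49 := mulC_lt _ _

open Cfsg.Agent.Helper7 in
theorem cC_lt : cC < 1024 ^ 49 := mulC_lt _ _

open Cfsg.Agent.Helper7 in
theorem tJ_inv : (jG 0 : ↥Cfsg.Spor.J1)⁻¹ = jG 0 ^ 6 := by
  have h7 : (jG 0 : ↥Cfsg.Spor.J1) ^ 7 = 1 :=
    (pow_eq_one_iff_code isCode_X0 7).2 (by decide +kernel)
  exact inv_eq_of_mul_eq_one_right (by rw [← pow_succ', h7])

/-- No odd prime square divides the order of `J₁`. -/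
theorem not_sq_dvd {p : ℕ} (hp : p.Prime) (h2 : p ≠ 2) : ¬ p ^ 2 ∣ 175560 := by
  intro hdvd
  have hcop : Nat.Coprime (p ^ 2) (2 ^ 3) :=
    Nat.Coprime.pow 2 3 ((Nat.coprime_primes hp Nat.prime_two).2 h2)
  have h1 : p ^ 2 ∣ 2 ^ 3 * 21945 := by norm_num; exact hdvd
  have h3 : p ^ 2 ∣ 21945 := hcop.dvd_of_dvd_mul_left h1
  have h4 : p ^ 2 ≤ 21945 := Nat.le_of_dvd (by norm_num) h3
  have h5 : p < 149 := by nlinarith
  interval_cases p <;> first | (revert h3; decide) | (exact absurd hp (by norm_num))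

/-- The Schur multiplier of the Janko group J₁ (the group generated by two explicit 7 × 7 matrices over the integers modulo 11) is trivial; here the Schur multiplier is described through stem extensions, as in the definitions: surjective homomorphisms onto the group from a finite group, whose kernel is central in that finite group and contained in that finite group's commutator subgroup. -/
theorem result : Cfsg.HasCyclicSchurMultiplier ↥Cfsg.Spor.J1 1 := by
  have hcard := Cfsg.Agent.Helper7.card_J1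
  have hfin : Finite ↥Cfsg.Spor.J1 := Nat.finite_of_card_ne_zero (by rw [hcard]; norm_num)
  apply Cfsg.Agent.Helper89.Stem.hasCyclicSchurMultiplier_one
  intro Γ _ _ σ hσ
  obtain ⟨hsurj, hcen, hder⟩ := hσ
  apply Cfsg.Agent.Helper89.Stem.ker_eq_bot_of_primes
  intro p hp
  have hpf : Fact p.Prime := ⟨hp⟩
  by_cases h2 : p = 2
  · subst h2
    have hone := Cfsg.Agent.Helper7.isCode_one'
    have hidlt := Cfsg.Agent.Helper7.idC_lt
    refine Cfsg.Agent.Helper27.StemSinger.two_not_dvd_card_ker_of_singer σ hsurj hcen hder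
      aJ bJ cJ (Cfsg.Agent.Helper7.jG 0) ?_ ?_ ?_ ?_ ?_ ?_ ?_ ?_ ?_ ?_ ?_ ?_ ?_ ?_ ?_ ?_ ?_
    · exact eq_of_codes (Cfsg.Agent.Helper7.isCode_mul isCode_aJ isCode_aJ) hone
        (by decide +kernel)
    · exact eq_of_codes (Cfsg.Agent.Helper7.isCode_mul isCode_bJ isCode_bJ) hone
        (by decide +kernel)
    · exact eq_of_codes (Cfsg.Agent.Helper7.isCode_mul isCode_cJ isCode_cJ) hone
        (by decide +kernel)
    · exact eq_of_codes (Cfsg.Agent.Helper7.isCode_mul isCode_aJ isCode_bJ)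
        (Cfsg.Agent.Helper7.isCode_mul isCode_bJ isCode_aJ) (by decide +kernel)
    · exact eq_of_codes (Cfsg.Agent.Helper7.isCode_mul isCode_bJ isCode_cJ)
        (Cfsg.Agent.Helper7.isCode_mul isCode_cJ isCode_bJ) (by decide +kernel)
    · exact eq_of_codes (Cfsg.Agent.Helper7.isCode_mul isCode_aJ isCode_cJ)
        (Cfsg.Agent.Helper7.isCode_mul isCode_cJ isCode_aJ) (by decide +kernel)
    · exact ne_of_codes isCode_aJ hone cA_lt hidlt (by decide +kernel)
    · exact ne_of_codes isCode_bJ hone cB_lt hidlt (by decide +kernel)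
    · exact ne_of_codes isCode_bJ isCode_aJ cB_lt cA_lt (by decide +kernel)
    · exact ne_of_codes isCode_cJ hone cC_lt hidlt (by decide +kernel)
    · exact ne_of_codes isCode_cJ isCode_aJ cC_lt cA_lt (by decide +kernel)
    · exact ne_of_codes isCode_cJ isCode_bJ cC_lt cB_lt (by decide +kernel)
    · exact ne_of_codes isCode_cJ (Cfsg.Agent.Helper7.isCode_mul isCode_aJ isCode_bJ) cC_lt
        (Cfsg.Agent.Helper7.mulC_lt _ _) (by decide +kernel)
    · rw [tJ_inv]; rfl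
    · rw [tJ_inv]; rfl
    · rw [tJ_inv]
      exact eq_of_codes
        (Cfsg.Agent.Helper7.isCode_mul (Cfsg.Agent.Helper7.isCode_mul isCode_X0 isCode_cJ)
          isCode_T6)
        (Cfsg.Agent.Helper7.isCode_mul isCode_aJ isCode_bJ) (by decide +kernel)
    · rw [hcard]; norm_num
  · apply Cfsg.Agent.Helper89.Stem.not_dvd_card_ker_of_sq σ hcen hder p
    rw [hcard]
    exact not_sq_dvd hp h2

end Cfsg.Agent.S2039
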