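import Cfsg.Statements.S2045
import Cfsg.Agent.Helper92.Co3SM3

set_option autoImplicit false
open Cfsg

namespace Cfsg.Agent.S2045

/-- The Schur multiplier of the Conway group Co₃ (the stabiliser of a vector of the second shortest length in the rank-24 lattice) is trivial; here the Schur multiplier is described through stem extensions, as in the definitions: surjective homomorphisms onto the group from a finite group, whose kernel is central in that finite group and contained in that finite group's commutator subgroup. -/
theorem result : Cfsg.HasCyclicSchurMultiplier ↥Cfsg.Spor.Co3 1 :=
  Cfsg.Agent.Helper92.Co3SM.co3_mult

end Cfsg.Agent.S2045
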