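import Cfsg.Statements.S2049
import Cfsg.Agent.Helper56.He.Mult

set_option autoImplicit false
open Cfsg

namespace Cfsg.Agent.S2049

/-- The Schur multiplier of the Held group (the finitely presented group of the definitions) is trivial; here the Schur multiplier is described through stem extensions, as in the definitions: surjective homomorphisms onto the group from a finite group, whose kernel is central in that finite group and contained in that finite group's commutator subgroup. -/
theorem result : Cfsg.HasCyclicSchurMultiplier Cfsg.Spor.He 1 :=
  Cfsg.Agent.Helper56.HeMult.he_mult

end Cfsg.Agent.S2049
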