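import Cfsg.Statements.S2117
import Cfsg.Agent.Helper35.SL2Stem
import Cfsg.Agent.Helper5.SLCard
import Cfsg.Agent.Helper66.Schur
import Cfsg.Agent.S0016

set_option autoImplicit false
open Cfsg

namespace Cfsg.Agent.S2117

/-- For a finite field with q elements, q ≠ 4 and q ≠ 9, the special linear group SL₂ has trivial Schur multiplier (here the Schur multiplier is described through stem extensions, as in the definitions). -/
theorem result {F : Type*} [Field F] [Fintype F] (h4 : Fintype.card F ≠ 4) (h9 : Fintype.card F ≠ 9) : Cfsg.HasCyclicSchurMultiplier (Matrix.SpecialLinearGroup (Fin 2) F) 1 := by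
  classical
  apply Cfsg.Agent.Helper66.hasCyclicSchurMultiplier_one_of_forall_ker
  intro Γ _ _ σ hσ
  by_contra hne
  obtain ⟨ℓ, z, hℓ, hzk, hzo⟩ := Cfsg.Agent.Helper35.stem_exists_prime_order σ hne
  have hℓfact : Fact ℓ.Prime := ⟨hℓ⟩
  by_cases hℓp : (ℓ : F) = 0
  · -- the defining characteristic
    have hM := Cfsg.Agent.Helper35.sl2stem_comap_U_comm h4 h9 σ hσ
    have h1 := Cfsg.Agent.Helper35.stem_pow_index_eq_one_of_comm
      ((Cfsg.Agent.Helper35.sl2U F).comap σ) hM z (hσ.2.1 hzk) (hσ.2.2 hzk)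
    have hdvd : ℓ ∣ ((Cfsg.Agent.Helper35.sl2U F).comap σ).index := by
      rw [← hzo]
      exact orderOf_dvd_of_pow_eq_one h1
    rw [Subgroup.index_comap_of_surjective _ hσ.1] at hdvd
    have hidx := Subgroup.index_mul_card (Cfsg.Agent.Helper35.sl2U F)
    rw [Cfsg.Agent.Helper35.card_sl2U, Cfsg.Agent.Helper5.card_SL2, Nat.card_eq_fintype_card]
      at hidx
    have hq1 : 1 < Fintype.card F := Fintype.one_lt_card
    have hidx' : (Cfsg.Agent.Helper35.sl2U F).index = Fintype.card F ^ 2 - 1 := by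
      apply Nat.eq_of_mul_eq_mul_right (by omega : 0 < Fintype.card F)
      rw [hidx, mul_comm]
    rw [hidx'] at hdvd
    have hℓq : ℓ ∣ Fintype.card F := by
      obtain ⟨p, hp⟩ := CharP.exists F
      obtain ⟨n, hpp, hcard⟩ := FiniteField.card F p
      have h2 : p ∣ ℓ := (CharP.cast_eq_zero_iff F p ℓ).mp hℓp
      have h3 : p = ℓ := (Nat.prime_dvd_prime_iff_eq hpp hℓ).mp h2
      rw [hcard, h3]
      exact dvd_pow_self ℓ n.ne_zero
    have hpos : 1 ≤ Fintype.card F ^ 2 := Nat.one_le_pow _ _ (by omega)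
    have h5 : ℓ ∣ Fintype.card F ^ 2 - (Fintype.card F ^ 2 - 1) :=
      Nat.dvd_sub (Dvd.dvd.pow hℓq two_ne_zero) hdvd
    rw [Nat.sub_sub_self hpos] at h5
    exact hℓ.one_lt.ne' (Nat.dvd_one.mp h5)
  · -- cross characteristic
    have hzp : IsPGroup ℓ (Subgroup.zpowers z) := by
      apply IsPGroup.of_card (n := 1)
      rw [Nat.card_zpowers, hzo, pow_one]
    obtain ⟨L, hL⟩ := hzp.exists_le_sylow
    have hzL : z ∈ (L : Subgroup Γ) := hL (Subgroup.mem_zpowers z)
    have hst := Cfsg.Agent.Helper35.stem_subgroupMap_sylow σ hσ ℓ L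
    have hP : IsPGroup ℓ ((L : Subgroup Γ).map σ) := L.isPGroup'.map σ
    have hker : (σ.subgroupMap (L : Subgroup Γ)).ker = ⊥ := by
      rcases Cfsg.Agent.S0016.result ℓ hP
        (fun H K hH hK => Cfsg.Agent.Helper35.sl2sum_unique_subgroup ℓ hℓp
          ((L : Subgroup Γ).map σ) hP H K hH hK) with hc | ⟨_, n, ⟨e⟩⟩
      · exact Cfsg.Agent.Helper35.stem_ker_eq_bot_of_isCyclic _ hst
      · exact Cfsg.Agent.Helper35.stem_ker_eq_bot_of_quaternion _ hst (2 ^ n) e
    have hz1 : (⟨z, hzL⟩ : (L : Subgroup Γ)) ∈ (σ.subgroupMap (L : Subgroup Γ)).ker := by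
      rw [MonoidHom.mem_ker]
      apply Subtype.ext
      exact MonoidHom.mem_ker.mp hzk
    rw [hker, Subgroup.mem_bot] at hz1
    have hz2 : z = 1 := congrArg Subtype.val hz1
    rw [hz2, orderOf_one] at hzo
    exact hℓ.one_lt.ne hzo

end Cfsg.Agent.S2117
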