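import Cfsg.Statements.S2086
import Cfsg.Agent.Helper21.SMMain
import Cfsg.Agent.Helper21.SMPSLM
import Cfsg.Agent.Helper61.SMH3
import Cfsg.Agent.Helper61.SMH4
import Cfsg.Agent.Helper39.LawClassical
import Cfsg.Agent.S2117
import Cfsg.Agent.S0248

set_option autoImplicit false
open Cfsg

namespace Cfsg.Agent.S2086

/-- Schur multipliers of the linear groups: for n ≥ 2 and a field F with q elements (q ≥ 4 when n = 2), apart from the five exceptional pairs (n, q) = (2, 4), (2, 9), (3, 2), (3, 4), (4, 2), the Schur multiplier of PSL_n(F) is cyclic of order gcd(n, q − 1); here the Schur multiplier is described through stem extensions, as in the definitions. -/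
theorem result {F : Type*} [Field F] [Fintype F] {q : ℕ} (hF : Fintype.card F = q) (n : ℕ) (hn : 2 ≤ n) (h2 : n = 2 → 4 ≤ q) (hexc : (n, q) ∉ ({(2, 4), (2, 9), (3, 2), (3, 4), (4, 2)} : Set (ℕ × ℕ))) : Cfsg.HasCyclicSchurMultiplier (Matrix.ProjectiveSpecialLinearGroup (Fin n) F) (Nat.gcd n (q - 1)) := by
  subst hF
  simp only [Set.mem_insert_iff, Set.mem_singleton_iff, Prod.mk.injEq, not_or, not_and] at hexc
  obtain ⟨e24, e29, e32, e34, e42⟩ := hexc
  by_cases hn2 : n = 2
  · subst hn2
    have h4 := h2 rfl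
    exact Cfsg.Agent.Helper21.SMPSLM.sm_pslm 2 le_rfl
      (Cfsg.Agent.Helper39.sl2_perfect_of_card F h4)
      (Cfsg.Agent.S2117.result (e24 rfl) (e29 rfl))
  · have hn3 : 3 ≤ n := by omega
    have hc2 : 2 ≤ Fintype.card F := Fintype.one_lt_card
    refine Cfsg.Agent.Helper21.SMPSLM.sm_pslm n hn (Cfsg.Agent.S0248.result n hn3)
      (Cfsg.Agent.Helper21.SMMain.sl_triv hn3 ?_ ?_)
    · intro h3
      exact Cfsg.Agent.Helper61.SMH3.sm_h3 (by rw [Nat.card_eq_fintype_card]; exact e32 h3)
        (by rw [Nat.card_eq_fintype_card]; exact e34 h3)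
    · intro h4
      by_cases h3c : Fintype.card F = 3
      · right
        rw [Nat.card_eq_fintype_card]
        exact h3c
      · left
        have := e42 h4
        exact Cfsg.Agent.Helper61.SMH4.sm_h4 (by rw [Nat.card_eq_fintype_card]; omega)

end Cfsg.Agent.S2086
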