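import Cfsg.Statements.S2087
import Cfsg.Agent.Helper35.L32Cover

set_option autoImplicit false
open Cfsg

namespace Cfsg.Agent.S2087

open Cfsg.Agent.Helper35

/-- transport of a stem extension along isomorphisms of source and target -/
theorem stem_transport {Γ G Γ' G' : Type*} [Group Γ] [Group G] [Group Γ'] [Group G']
    (σ : Γ →* G) (hσ : Cfsg.IsStemExtension σ) (e₁ : Γ' ≃* Γ) (e₂ : G ≃* G') :
    Cfsg.IsStemExtension ((e₂.toMonoidHom.comp σ).comp e₁.toMonoidHom) ∧
      Nonempty (((e₂.toMonoidHom.comp σ).comp e₁.toMonoidHom).ker ≃* σ.ker) := by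
  have hmem : ∀ x : Γ', x ∈ ((e₂.toMonoidHom.comp σ).comp e₁.toMonoidHom).ker ↔ e₁ x ∈ σ.ker := by
    intro x
    rw [MonoidHom.mem_ker, MonoidHom.mem_ker]
    show e₂ (σ (e₁ x)) = 1 ↔ _
    exact EmbeddingLike.map_eq_one_iff
  refine ⟨⟨?_, ?_, ?_⟩, ⟨?_⟩⟩
  · intro y
    obtain ⟨x, hx⟩ := hσ.1 (e₂.symm y)
    refine ⟨e₁.symm x, ?_⟩
    show e₂ (σ (e₁ (e₁.symm x))) = y
    rw [MulEquiv.apply_symm_apply, hx, MulEquiv.apply_symm_apply]
  · intro x hx
    have h1 := hσ.2.1 ((hmem x).mp hx)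
    rw [Subgroup.mem_center_iff] at h1 ⊢
    intro y
    apply e₁.injective
    rw [map_mul, map_mul]
    exact h1 (e₁ y)
  · intro x hx
    have h1 := hσ.2.2 ((hmem x).mp hx)
    have h2 : e₁.symm (e₁ x) ∈ (commutator Γ).map e₁.symm.toMonoidHom :=
      Subgroup.mem_map_of_mem _ h1
    rw [MulEquiv.symm_apply_apply] at h2
    rw [_root_.commutator_def, Subgroup.map_commutator] at h2
    rw [_root_.commutator_def]
    exact Subgroup.commutator_mono le_top le_top h2
  · exact
    { toFun := fun x => ⟨e₁ x.1, (hmem x.1).mp x.2⟩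
      invFun := fun y => ⟨e₁.symm y.1, (hmem _).mpr (by rw [MulEquiv.apply_symm_apply]; exact y.2)⟩
      left_inv := fun x => Subtype.ext (e₁.symm_apply_apply x.1)
      right_inv := fun y => Subtype.ext (e₁.apply_symm_apply y.1)
      map_mul' := fun x y => Subtype.ext (map_mul e₁ x.1 y.1) }

/-- Exceptional Schur multiplier: over the field with 2 elements, PSL₃ has Schur multiplier cyclic of order 2 (here the Schur multiplier is described through stem extensions, as in the definitions). -/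
theorem result {F : Type*} [Field F] [Fintype F] (hF : Fintype.card F = 2) : Cfsg.HasCyclicSchurMultiplier (Matrix.ProjectiveSpecialLinearGroup (Fin 3) F) 2 := by
  classical
  obtain ⟨φ, -⟩ : ∃ φ : ZMod 2 ≃+* F, True := ⟨ZMod.ringEquivOfPrime F Nat.prime_two hF, trivial⟩
  have hcen : Subgroup.center (Matrix.SpecialLinearGroup (Fin 3) F) = ⊥ := by
    rw [eq_bot_iff]
    intro A hA
    obtain ⟨r, hr, hrA⟩ := Matrix.SpecialLinearGroup.mem_center_iff.1 hA
    rw [Fintype.card_fin] at hr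
    have hr2 : r ^ 2 = r := by rw [← hF]; exact FiniteField.pow_card r
    have hr1 : r = 1 := by
      have : r ^ 3 = r := by rw [pow_succ, hr2, ← pow_two, hr2]
      rw [← this, hr]
    rw [Subgroup.mem_bot]
    apply Subtype.ext
    rw [← hrA, hr1]
    simp
  have h1 : ∀ x : L32G,
      Matrix.SpecialLinearGroup.map (φ.symm : F →+* ZMod 2)
        (Matrix.SpecialLinearGroup.map (φ : ZMod 2 →+* F) x) = x := by
    intro x
    apply Subtype.ext
    ext i j
    change (φ.symm : F →+* ZMod 2) ((φ : ZMod 2 →+* F) ((x : Matrix (Fin 3) (Fin 3) (ZMod 2)) i j)) = _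
    simp
  have h2 : ∀ y : Matrix.SpecialLinearGroup (Fin 3) F,
      Matrix.SpecialLinearGroup.map (φ : ZMod 2 →+* F)
        (Matrix.SpecialLinearGroup.map (φ.symm : F →+* ZMod 2) y) = y := by
    intro y
    apply Subtype.ext
    ext i j
    change (φ : ZMod 2 →+* F) ((φ.symm : F →+* ZMod 2) ((y : Matrix (Fin 3) (Fin 3) F) i j)) = _
    simp
  obtain ⟨π, hπ⟩ : ∃ π : L32G →* Matrix.ProjectiveSpecialLinearGroup (Fin 3) F,
      Function.Bijective π := by
    refine ⟨(QuotientGroup.mk' (Subgroup.center (Matrix.SpecialLinearGroup (Fin 3) F))).comp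
      (Matrix.SpecialLinearGroup.map (φ : ZMod 2 →+* F)), ?_, ?_⟩
    · intro x y hxy
      have hinj : Function.Injective
          (QuotientGroup.mk' (Subgroup.center (Matrix.SpecialLinearGroup (Fin 3) F))) := by
        rw [← MonoidHom.ker_eq_bot_iff, QuotientGroup.ker_mk', hcen]
      have h4 := hinj hxy
      have := congrArg (Matrix.SpecialLinearGroup.map (φ.symm : F →+* ZMod 2)) h4
      rwa [h1, h1] at this
    · intro y
      obtain ⟨A, rfl⟩ := QuotientGroup.mk'_surjective _ y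
      refine ⟨Matrix.SpecialLinearGroup.map (φ.symm : F →+* ZMod 2) A, ?_⟩
      show QuotientGroup.mk' _ (Matrix.SpecialLinearGroup.map (φ : ZMod 2 →+* F)
        (Matrix.SpecialLinearGroup.map (φ.symm : F →+* ZMod 2) A)) = _
      rw [h2]
  obtain ⟨e, -⟩ : ∃ e : L32G ≃* Matrix.ProjectiveSpecialLinearGroup (Fin 3) F, True :=
    ⟨MulEquiv.ofBijective π hπ, trivial⟩
  obtain ⟨σ₀, hσ₀, hcard⟩ := l32_cover
  constructor
  · obtain ⟨hst, ⟨κ⟩⟩ := stem_transport σ₀ hσ₀ (MulEquiv.ulift : ULift l32Grp ≃* l32Grp) e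
    have : Fact (Nat.Prime 2) := ⟨Nat.prime_two⟩
    have hcyc : IsCyclic σ₀.ker := isCyclic_of_prime_card hcard
    have iso := zmodCyclicMulEquiv hcyc
    rw [hcard] at iso
    exact ⟨ULift l32Grp, inferInstance, inferInstance, _, hst, ⟨κ.trans iso.symm⟩⟩
  · intro Γ _ _ σ hσ
    obtain ⟨hst, ⟨κ⟩⟩ := stem_transport σ hσ (MulEquiv.refl Γ) e.symm
    have hle := l32_stem_card_ker_le _ hst
    have hle' : Nat.card σ.ker ≤ 2 := by
      rw [← Nat.card_congr κ.toEquiv]; exact hle
    exact Cfsg.Agent.Helper66.exists_surjective_zmod_two hle'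

end Cfsg.Agent.S2087
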