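import Cfsg.Statements.S2088
import Cfsg.Agent.Helper89.L34kConc

set_option autoImplicit false
open Cfsg

namespace Cfsg.Agent.S2088

/-- Exceptional Schur multiplier: over the field with 4 elements, PSL₃ has Schur multiplier isomorphic to the product of cyclic groups of orders 3, 4 and 4 (order 48, not cyclic; here the Schur multiplier is described through stem extensions, as in the definitions). -/
theorem result {F : Type*} [Field F] [Fintype F] (hF : Fintype.card F = 4) : Cfsg.HasSchurMultiplier (Matrix.ProjectiveSpecialLinearGroup (Fin 3) F) (Multiplicative (ZMod 3 × ZMod 4 × ZMod 4)) := by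
  have e : Cfsg.Agent.Helper98.F4 ≃+* F :=
    FiniteField.ringEquivOfCardEq (by rw [Cfsg.Agent.Helper98.F4.card_eq, hF])
  exact Cfsg.Agent.Helper89.L34k.schurL34 e hF

end Cfsg.Agent.S2088
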