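import Cfsg.Statements.S2093
import Cfsg.Agent.Helper89.Sp62Conc

set_option autoImplicit false
open Cfsg

namespace Cfsg.Agent.S2093

/-- Exceptional Schur multiplier: over the field with 2 elements, PSp₆ has Schur multiplier cyclic of order 2 (here the Schur multiplier is described through stem extensions, as in the definitions). -/
theorem result {F : Type*} [Field F] [Fintype F] (hF : Fintype.card F = 2) : Cfsg.HasCyclicSchurMultiplier (Cfsg.PSp 3 F) 2 := by
  have h2 : (2 : F) = 0 := by
    have h := FiniteField.cast_card_eq_zero F
    rw [hF] at h
    exact_mod_cast h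
  have : CharP F 2 := CharTwo.of_one_ne_zero_of_two_eq_zero one_ne_zero h2
  exact Cfsg.Agent.Helper89.Sp62c.schurSp62 hF

end Cfsg.Agent.S2093
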