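import Cfsg.Statements.S2102
import Cfsg.Agent.Helper89.G24Card
import Cfsg.Agent.Helper57.ChevMap

set_option autoImplicit false
open Cfsg

namespace Cfsg.Agent.S2102

/-- Exceptional Schur multiplier: over the field with 4 elements the Chevalley group of type G₂ has Schur multiplier cyclic of order 2 (here the Schur multiplier is described through stem extensions, as in the definitions). -/
theorem result {F : Type*} [Field F] [Fintype F] (hF : Fintype.card F = 4) : Cfsg.HasCyclicSchurMultiplier ↥(Cfsg.Lie.chevG2.group F) 2 := by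
  have σ : F ≃+* Cfsg.Agent.Helper28.GF4 :=
    FiniteField.ringEquivOfCardEq (hF.trans Cfsg.Agent.Helper28.GF4.card_eq.symm)
  have hcard : Nat.card ↥(Cfsg.Lie.chevG2.group F) = 251596800 := by
    rw [Nat.card_congr (Cfsg.Agent.Helper57.chevGroupCongr Cfsg.Lie.chevG2 σ).toEquiv]
    exact Cfsg.Agent.Helper89.G24c.card_G24
  haveI : Finite ↥(Cfsg.Lie.chevG2.group F) :=
    Nat.finite_of_card_ne_zero (by rw [hcard]; norm_num)
  exact Cfsg.Agent.Helper89.G24c.schurG24
    (Cfsg.Agent.Helper57.chevGroupCongr Cfsg.Lie.chevG2 σ).symm.toMonoidHom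
    (MulEquiv.surjective _) hcard

end Cfsg.Agent.S2102
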