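import Cfsg.Statements.S2103
import Cfsg.Agent.Helper64.STU3F4
import Cfsg.Agent.Helper36.G2Triv
import Cfsg.Agent.Helper93.STU3CF4
import Cfsg.Agent.Helper93.STU3CF4two

set_option autoImplicit false
open Cfsg

namespace Cfsg.Agent.S2103

/-- Schur multipliers of the Chevalley groups of type F₄: over a finite field with more than 2 elements the Schur multiplier of F₄(q) is trivial (here the Schur multiplier is described through stem extensions, as in the definitions); q = 2 is exceptional. -/
theorem result {F : Type*} [Field F] [Fintype F] (hF : 3 ≤ Fintype.card F) : Cfsg.HasCyclicSchurMultiplier ↥(Cfsg.Lie.chevF4.group F) 1 := by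
  apply Cfsg.Agent.Helper36.schur_trivial_of_lift Cfsg.Lie.chevF4 (by simp) (by simp)
  intro E _ π₁ hs hc
  exact Cfsg.Agent.Helper64.STU3.f4_lift hF Cfsg.Agent.Helper93.STU3CF4two.cert3_F4_two
    Cfsg.Agent.Helper93.STU3CF4.cert3_F4_three π₁ hs hc _

end Cfsg.Agent.S2103
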