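import Cfsg.Statements.S2106
import Cfsg.Agent.Helper64.MRMain
import Cfsg.Agent.Helper12.MROK7
import Cfsg.Agent.Helper47.MRLC7
import Cfsg.Agent.Helper57.MRTOP7
import Cfsg.Agent.Helper64.MRCE7

set_option autoImplicit false
open Cfsg

namespace Cfsg.Agent.S2106

/-- Schur multipliers of the (adjoint, simple) Chevalley groups of type E₇: over a field with q elements the Schur multiplier is cyclic of order gcd(2, q − 1) (here the Schur multiplier is described through stem extensions, as in the definitions). -/
theorem result {F : Type*} [Field F] [Fintype F] {q : ℕ} (hF : Fintype.card F = q) : Cfsg.HasCyclicSchurMultiplier ↥(Cfsg.Lie.chevE7.group F) (Nat.gcd 2 (q - 1)) := by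
  subst hF
  exact Cfsg.Agent.Helper64.MR.main (by simp) Cfsg.Agent.Helper12.MROK7.ok_E7 Cfsg.Agent.Helper64.MRCE7.cert2_E7 Cfsg.Agent.Helper57.MRTOP7.top_E7 Cfsg.Agent.Helper47.MRLC7.lat_E7 Nat.prime_two

end Cfsg.Agent.S2106
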