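import Cfsg.Statements.S2107
import Cfsg.Agent.Helper64.SX7Cover
import Cfsg.Agent.Helper36.G2Triv
import Cfsg.Agent.Helper36.SX7CE8X

set_option autoImplicit false
open Cfsg

namespace Cfsg.Agent.S2107

/-- Schur multipliers of the Chevalley groups of type E₈: over every finite field the Schur multiplier of E₈(q) is trivial (here the Schur multiplier is described through stem extensions, as in the definitions). -/
theorem result {F : Type*} [Field F] [Fintype F] : Cfsg.HasCyclicSchurMultiplier ↥(Cfsg.Lie.chevE8.group F) 1 := by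
  apply Cfsg.Agent.Helper36.schur_trivial_of_lift Cfsg.Lie.chevE8 (by simp) (by simp)
  intro E _ π₁ hs hc
  exact Cfsg.Agent.Helper64.SX7.cover_lift2 Cfsg.Lie.chevE8
    (Cfsg.Agent.Helper64.SX7.cover_rsys Cfsg.Lie.chevE8 (by simp))
    Cfsg.Agent.Helper36.SX7CE8X.cert2_E8 π₁ hs hc _

end Cfsg.Agent.S2107
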