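import Cfsg.Statements.S2116
import Mathlib
import Cfsg.Agent.Helper37.DcD
import Cfsg.Agent.Helper65.AltCover
import Cfsg.Agent.Helper65.TripleAlt
import Cfsg.Agent.Helper65.AltBound

set_option autoImplicit false
open Cfsg

namespace Cfsg.Agent.S2116

/-- The multiplier statement for the alternating group of degree `m + 6` (`m = 1, 2`), given
its order and a dihedral pair of order 8. -/
theorem aux (m : ℕ) (hm : 1 ≤ m) (hm2 : m ≤ 2)
    (hcard : Nat.card (alternatingGroup (Fin (m + 1 + 1 + 3))) = 360 ∨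
      Nat.card (alternatingGroup (Fin (m + 1 + 1 + 3))) = 2520)
    (a0 x0 : alternatingGroup (Fin (m + 1 + 1 + 3))) (ha4 : a0 ^ 4 = 1) (ha2 : a0 ^ 2 ≠ 1)
    (hxx : x0 * x0 = 1) (haxa : a0 * x0 * a0 = x0) (hx0 : x0 ∉ Subgroup.zpowers a0) :
    Cfsg.HasCyclicSchurMultiplier (alternatingGroup (Fin (m + 1 + 1 + 3))) 6 := by
  refine ⟨?_, ?_⟩
  · obtain ⟨Γ₃, _, _, σ₃, h₃, hc₃⟩ := Cfsg.Agent.Helper65.TA.triple_cover m hm hm2
    obtain ⟨Γ₂, _, _, z, hz, hord, hzc, hN, ⟨e⟩⟩ := Cfsg.Agent.Helper37.dc_exists (m + 1)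
    obtain ⟨σ₂, h₂, hk₂⟩ := Cfsg.Agent.Helper65.AltCover.stem_of_quotient z hz hzc e
    have hc₂ : Nat.card σ₂.ker = 2 := by rw [hk₂, Nat.card_zpowers, hord]
    exact Cfsg.Agent.Helper65.AltCover.stem_six σ₂ σ₃ h₂ h₃ hc₂ hc₃
  · intro Γ _ _ σ hσ
    have h := Cfsg.Agent.Helper65.AltBound.stem_card_dvd_six hcard a0 x0 ha4 ha2 hxx haxa hx0 σ hσ
    exact Cfsg.Agent.Helper65.AltBound.exists_surj_of_card_dvd_six σ.ker hσ.2.1 h

/-- The permutation `(0 1 2 3)(4 5)` of `Fin (k + 6)`. -/
def permA (k : ℕ) : Equiv.Perm (Fin (k + 6)) :=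
  Equiv.swap 0 1 * Equiv.swap 1 2 * Equiv.swap 2 3 * Equiv.swap 4 5

/-- The permutation `(0 1)(2 3)` of `Fin (k + 6)`. -/
def permX (k : ℕ) : Equiv.Perm (Fin (k + 6)) :=
  Equiv.swap 0 1 * Equiv.swap 2 3

theorem permA_mem (k : ℕ) (hk : k ≤ 1) : permA k ∈ alternatingGroup (Fin (k + 6)) := by
  interval_cases k <;> rw [Equiv.Perm.mem_alternatingGroup] <;> decide

theorem permX_mem (k : ℕ) (hk : k ≤ 1) : permX k ∈ alternatingGroup (Fin (k + 6)) := by
  interval_cases k <;> rw [Equiv.Perm.mem_alternatingGroup] <;> decide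

theorem permA_pow (k : ℕ) (hk : k ≤ 1) : permA k ^ 4 = 1 := by
  interval_cases k <;> decide

theorem permA_sq (k : ℕ) (hk : k ≤ 1) : permA k ^ 2 ≠ 1 := by
  interval_cases k <;> decide

theorem permX_sq (k : ℕ) (hk : k ≤ 1) : permX k * permX k = 1 := by
  interval_cases k <;> decide

theorem permAXA (k : ℕ) (hk : k ≤ 1) : permA k * permX k * permA k = permX k := by
  interval_cases k <;> decide

theorem permX_ne (k : ℕ) (hk : k ≤ 1) : permA k * permX k ≠ permX k * permA k := by
  interval_cases k <;> decide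

theorem card_alt (k : ℕ) (hk : k ≤ 1) : Nat.card (alternatingGroup (Fin (k + 6))) = 360 ∨
    Nat.card (alternatingGroup (Fin (k + 6))) = 2520 := by
  have h := two_mul_nat_card_alternatingGroup (α := Fin (k + 6))
  rw [Nat.card_perm, Nat.card_fin] at h
  interval_cases k
  · left
    have : (0 + 6).factorial = 720 := by decide
    omega
  · right
    have : (1 + 6).factorial = 5040 := by decide
    omega

theorem main (k : ℕ) (hk : k ≤ 1) :
    Cfsg.HasCyclicSchurMultiplier (alternatingGroup (Fin (k + 6))) 6 := by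
  have hx0 : (⟨permX k, permX_mem k hk⟩ : alternatingGroup (Fin (k + 6))) ∉
      Subgroup.zpowers (⟨permA k, permA_mem k hk⟩ : alternatingGroup (Fin (k + 6))) := by
    intro hmem
    obtain ⟨j, hj⟩ := Subgroup.mem_zpowers_iff.mp hmem
    have hcomm : (⟨permA k, permA_mem k hk⟩ : alternatingGroup (Fin (k + 6))) *
        ⟨permX k, permX_mem k hk⟩ = ⟨permX k, permX_mem k hk⟩ * ⟨permA k, permA_mem k hk⟩ := by
      rw [← hj]
      exact (Commute.zpow_right (Commute.refl _) j).eq
    exact permX_ne k hk (congrArg Subtype.val hcomm)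
  exact aux (k + 1) (by omega) (by omega) (card_alt k hk)
    ⟨permA k, permA_mem k hk⟩ ⟨permX k, permX_mem k hk⟩
    (Subtype.ext (permA_pow k hk)) (fun h => permA_sq k hk (congrArg Subtype.val h))
    (Subtype.ext (permX_sq k hk)) (Subtype.ext (permAXA k hk)) hx0

/-- Exceptional Schur multipliers of the alternating groups: for n = 6 and n = 7 the Schur multiplier of the alternating group of degree n is cyclic of order 6 (here the Schur multiplier is described through stem extensions, as in the definitions). -/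
theorem result (n : ℕ) (hn : n = 6 ∨ n = 7) : Cfsg.HasCyclicSchurMultiplier (alternatingGroup (Fin n)) 6 := by
  rcases hn with rfl | rfl
  · exact main 0 (by norm_num)
  · exact main 1 le_rfl

end Cfsg.Agent.S2116
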