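import Cfsg.Statements.S2118
import Mathlib
import Cfsg.Agent.Helper65.SL29Bound

set_option autoImplicit false
open Cfsg

namespace Cfsg.Agent.S2118

/-- For the field with 9 elements, the special linear group SL₂ has Schur multiplier cyclic of order 3 (here the Schur multiplier is described through stem extensions, as in the definitions). -/
theorem result {F : Type*} [Field F] [Fintype F] (hF : Fintype.card F = 9) : Cfsg.HasCyclicSchurMultiplier (Matrix.SpecialLinearGroup (Fin 2) F) 3 := by
  classical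
  refine ⟨?_, ?_⟩
  · have e : Cfsg.Agent.Helper65.F9 ≃+* F :=
      FiniteField.ringEquivOfCardEq (by rw [Cfsg.Agent.Helper65.F9.card_eq, hF])
    exact Cfsg.Agent.Helper65.SL29.stem_transport (Cfsg.Agent.Helper65.SL29.slMapEquiv e)
      Cfsg.Agent.Helper65.SL29.σ9 Cfsg.Agent.Helper65.SL29.σ9_stem
      Cfsg.Agent.Helper65.SL29.σ9_ker_iso
  · intro Γ _ _ σ hσ
    have hdvd := Cfsg.Agent.Helper65.SL29.sl2_nine_ker_card_dvd hF σ hσ
    rcases (Nat.dvd_prime (by norm_num : Nat.Prime 3)).mp hdvd with h1 | h3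
    · have hs : Subsingleton σ.ker := (Nat.card_eq_one_iff_unique.mp h1).1
      exact ⟨1, fun y => ⟨1, Subsingleton.elim _ _⟩⟩
    · have : Fact (Nat.Prime 3) := ⟨by norm_num⟩
      obtain ⟨e⟩ := Cfsg.Agent.Helper65.SL29.nonempty_mulEquiv_zmod 3 h3
        (isCyclic_of_prime_card h3)
      exact ⟨e.symm.toMonoidHom, e.symm.surjective⟩

end Cfsg.Agent.S2118
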