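import Cfsg.Statements.S2149
import Cfsg.Agent.Helper26.U35Max

set_option autoImplicit false
open Cfsg

namespace Cfsg.Agent.S2149

/-- The largest proper subgroup of PSU_3(5) has index 50. -/
theorem result {F : Type*} [Field F] [Fintype F] (hF : Fintype.card F = 25) : (∀ H : Subgroup (Cfsg.PSU 3 F 5), H ≠ ⊤ → 50 ≤ H.index) ∧ (∃ H : Subgroup (Cfsg.PSU 3 F 5), H.index = 50) := by
  obtain ⟨e0⟩ := Cfsg.Agent.Helper26.u35_psu_iso
  have r : Cfsg.Agent.Helper65.F25 ≃+* F :=
    FiniteField.ringEquivOfCardEq (by rw [hF, Cfsg.Agent.Helper65.F25.card_eq])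
  let e : ↥Cfsg.Agent.Helper26.u35mK ≃* Cfsg.PSU 3 F 5 :=
    e0.symm.trans (Cfsg.Agent.Helper26.u35quotCenter (Cfsg.Agent.Helper57.suCongr 3 r 5))
  obtain ⟨h1, H0, h0⟩ := Cfsg.Agent.Helper26.u35m_index
  constructor
  · intro H hH
    rw [← Subgroup.index_comap_of_surjective H (f := e.toMonoidHom) e.surjective]
    apply h1
    intro htop
    apply hH
    rw [eq_top_iff]
    intro x _
    have hx : e.symm x ∈ H.comap e.toMonoidHom := by rw [htop]; trivial
    have hx' : e (e.symm x) ∈ H := hx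
    rwa [e.apply_symm_apply] at hx'
  · refine ⟨H0.comap e.symm.toMonoidHom, ?_⟩
    rw [Subgroup.index_comap_of_surjective H0 (f := e.symm.toMonoidHom) e.symm.surjective]
    exact h0

end Cfsg.Agent.S2149
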