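import Cfsg.Statements.S2155
import Cfsg.Agent.Helper18.ParaCent
import Cfsg.Agent.Helper34.PCons2
-- import your own Cfsg.Agent.* helpers here

set_option autoImplicit false
open Cfsg

namespace Cfsg.Agent.S2155

/-- A normal `p`-subgroup whose centraliser is a `p`-group forces `F*` to be a `p`-group. -/
theorem isPGroup_fstar_of_normal_pGroup {p : ℕ} [Fact p.Prime] {Y : Type*} [Group Y] [Finite Y]
    (V : Subgroup Y) [hVn : V.Normal] (hV : IsPGroup p V)
    (hC : IsPGroup p (Subgroup.centralizer (V : Set Y))) :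
    IsPGroup p ↥(Cfsg.generalizedFittingSubgroup Y) := by
  rw [Cfsg.Agent.Helper34.isPGroup_generalizedFittingSubgroup_iff]
  have hVle : V ≤ Cfsg.pCore p Y := le_sSup ⟨hVn, hV⟩
  have hCn : (Subgroup.centralizer (V : Set Y)).Normal := inferInstance
  have hCle : Subgroup.centralizer (V : Set Y) ≤ Cfsg.pCore p Y := le_sSup ⟨hCn, hC⟩
  constructor
  · rw [eq_bot_iff]
    intro x hx
    have hxC : x ∈ Subgroup.centralizer (V : Set Y) := by
      rw [Subgroup.mem_centralizer_iff]
      intro v hv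
      exact (Cfsg.Agent.Helper54.commute_of_normal_coprime (Cfsg.pPrimeCore_normal p Y) hVn hV
        (Cfsg.Agent.Helper22.card_pPrimeCore_coprime p Y) hx hv).eq.symm
    exact Subgroup.mem_bot.mpr (Cfsg.Agent.Helper54.eq_one_of_mem_pgroup_of_mem_coprime hC
      (Cfsg.Agent.Helper22.card_pPrimeCore_coprime p Y) hxC hx)
  · exact (Subgroup.centralizer_le hVle).trans hCle

/-- In a Chevalley group of type G₂, B₂, D₄, F₄, E₆, E₇ or E₈ over a finite field of characteristic p (for types G₂ and B₂ the field is assumed to have at least 3 elements, so that the group is simple), the generalized Fitting subgroup of every proper standard parabolic subgroup P_J is a p-group (P_J is p-constrained with trivial largest normal subgroup of order prime to p). -/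
theorem result {F : Type*} [Field F] [Fintype F] (p : ℕ) [Fact p.Prime] [CharP F p] (D : Cfsg.Lie.ChevalleyDatum) (hD : D ∈ [Cfsg.Lie.chevG2, Cfsg.Lie.chevB2, Cfsg.Lie.chevD4, Cfsg.Lie.chevF4, Cfsg.Lie.chevE6, Cfsg.Lie.chevE7, Cfsg.Lie.chevE8]) (hq : (D = Cfsg.Lie.chevG2 ∨ D = Cfsg.Lie.chevB2) → 3 ≤ Fintype.card F) (J : Set ℕ) (hJ : ∃ i, i < D.rank ∧ i ∉ J) : IsPGroup p ↥(Cfsg.generalizedFittingSubgroup ↥(D.parabolicSubgroup F J)) := by
  classical
  have R := Cfsg.Agent.Helper36.bRel_of_mem (F := F) hD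
  obtain ⟨f₀, hW⟩ := Cfsg.Agent.Helper17.wtFacts_of_mem hD
  obtain ⟨g, hg⟩ := Cfsg.Agent.Helper36.rcFacts_of_mem hD
  have hPN := R.parabolic_le_normalizer hW hg J
  have hU : IsPGroup p ↥(D.posUnipotent F) := by
    obtain ⟨n, -, hn⟩ := FiniteField.card F p
    have hc := Cfsg.Agent.Helper17.card_posUnipotent_of_mem (F := F) hD
      (fun r s hr hs h1 h2 => R.cf r hr s hs h1 h2)
    rw [hn, ← pow_mul] at hc
    exact IsPGroup.of_card hc
  have hVU : D.unipotentRadical F J ≤ D.posUnipotent F := by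
    apply Subgroup.closure_mono
    rintro x ⟨r, t, hr, -, hx⟩
    exact ⟨r, t, hr, hx⟩
  have hVP : D.unipotentRadical F J ≤ D.parabolicSubgroup F J :=
    hVU.trans ((Cfsg.Agent.Helper36.BRel.U_le_B D F).trans le_sup_left)
  haveI hVn : ((D.unipotentRadical F J).subgroupOf (D.parabolicSubgroup F J)).Normal :=
    Subgroup.normal_subgroupOf_of_le_normalizer hPN
  have hV : IsPGroup p ↥((D.unipotentRadical F J).subgroupOf (D.parabolicSubgroup F J)) :=
    (hU.to_le hVU).comap_subtype
  have hC : IsPGroup p ↥(Subgroup.centralizer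
      (((D.unipotentRadical F J).subgroupOf (D.parabolicSubgroup F J) :
        Subgroup ↥(D.parabolicSubgroup F J)) : Set ↥(D.parabolicSubgroup F J))) := by
    intro k
    have hkU : ((k : ↥(D.parabolicSubgroup F J)) : GL D.Idx F) ∈ D.posUnipotent F := by
      apply Cfsg.Agent.Helper18.centralizer_unipotentRadical_le hD J hJ
      refine Subgroup.mem_inf.mpr ⟨?_, (k : ↥(D.parabolicSubgroup F J)).2⟩
      rw [Subgroup.mem_centralizer_iff]
      intro v hv
      have h1 := Subgroup.mem_centralizer_iff.mp k.2 ⟨v, hVP hv⟩ (Subgroup.mem_subgroupOf.mpr hv)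
      exact congrArg Subtype.val h1
    obtain ⟨n, hn⟩ := hU ⟨_, hkU⟩
    refine ⟨n, ?_⟩
    apply Subtype.ext
    apply Subtype.ext
    have h2 := congrArg Subtype.val hn
    simpa using h2
  exact isPGroup_fstar_of_normal_pGroup _ hV hC

end Cfsg.Agent.S2155
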