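import Cfsg.Statements.S2158
import Cfsg.Agent.S2157
import Cfsg.Agent.S1049
import Cfsg.Agent.Helper17.ChevLevi
import Cfsg.Agent.Helper17.ChevH

set_option autoImplicit false
open Cfsg

namespace Cfsg.Agent.S2158

open Cfsg.Lie Cfsg.Agent.Helper17 Cfsg.Agent.Helper36

/-- No positive root has all its coroot coordinates zero. -/
theorem not_inRootSub_empty {D : ChevalleyDatum} {ω : ℕ → ℕ → ℤ} (hC : RootCoords D ω) (W : WFacts D)
    {r : ℕ} (hr : D.IsPosRoot r) : ¬ D.InRootSub ∅ r := by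
  intro h
  have hneg : D.IsNegRoot r := by
    rw [hC.isNegRoot_iff hr.1]
    intro k hk
    exact le_of_eq ((hC.cor_eq_zero_iff hk hr.1).mp (h.2 k hk (Set.notMem_empty k)))
  rcases W.pos_xor r hr.1 with ⟨-, h2⟩ | ⟨h1, -⟩
  · exact h2 hneg
  · exact h1 hr

theorem unipotentRadical_empty {F : Type*} [Field F] {D : ChevalleyDatum} {ω : ℕ → ℕ → ℤ}
    (hC : RootCoords D ω) (W : WFacts D) : D.unipotentRadical F ∅ = D.posUnipotent F := by
  unfold ChevalleyDatum.unipotentRadical ChevalleyDatum.posUnipotent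
  congr 1
  ext g
  constructor
  · rintro ⟨r, t, hr, -, hg⟩
    exact ⟨r, t, hr, hg⟩
  · rintro ⟨r, t, hr, hg⟩
    exact ⟨r, t, hr, not_inRootSub_empty hC W hr, hg⟩

theorem parabolicSubgroup_empty {F : Type*} [Field F] (D : ChevalleyDatum) :
    D.parabolicSubgroup F ∅ = D.borelSubgroup F := by
  unfold ChevalleyDatum.parabolicSubgroup
  have e : {g : GL D.Idx F | ∃ j ∈ (∅ : Set ℕ), j < D.rank ∧
      (g : Matrix D.Idx D.Idx F) = D.nMat F (D.simple j) 1} = ∅ := by
    ext g
    simp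
  rw [e, Subgroup.closure_empty, sup_bot_eq]

theorem isRootCharacter_inv {F : Type*} [Field F] {D : ChevalleyDatum} {χ : ℕ → Fˣ}
    (hχ : D.IsRootCharacter χ) : D.IsRootCharacter (fun s => (χ s)⁻¹) := by
  refine ⟨fun r hr => ?_, fun r s k hr hs hk => ?_⟩
  · show (χ (D.neg r))⁻¹ = ((χ r)⁻¹)⁻¹
    rw [hχ.1 r hr]
  · show (χ k)⁻¹ = (χ r)⁻¹ * (χ s)⁻¹
    rw [hχ.2 r s k hr hs hk, mul_inv]

/-- In a Chevalley group of type G₂, B₂, D₄, F₄, E₆, E₇ or E₈ over any field, an element of the group whose matrix is the diagonal matrix `ĥ(χ)` of a character `χ` of the root lattice already lies in the diagonal subgroup H (the non-trivial inclusion of the statement that the group meets the group of all such diagonal matrices in H). -/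
theorem result {F : Type*} [Field F] (D : Cfsg.Lie.ChevalleyDatum) (hD : D ∈ [Cfsg.Lie.chevG2, Cfsg.Lie.chevB2, Cfsg.Lie.chevD4, Cfsg.Lie.chevF4, Cfsg.Lie.chevE6, Cfsg.Lie.chevE7, Cfsg.Lie.chevE8]) (χ : ℕ → Fˣ) (hχ : D.IsRootCharacter χ) (g : GL D.Idx F) (hg : g ∈ D.group F)
    (hgχ : (g : Matrix D.Idx D.Idx F) = D.charDiag F χ) : g ∈ D.diagonalSubgroup F := by
  have R := bRel_of_mem (F := F) hD
  obtain ⟨ω, hC⟩ := rootCoords_of_mem hD
  have hT := torusFacts_of_mem hD
  have hH : HDiag D F := hDiag_of_mem hD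
  have hinv : ((g⁻¹ : GL D.Idx F) : Matrix D.Idx D.Idx F) = D.charDiag F (fun s => (χ s)⁻¹) := by
    have h2 : (g : Matrix D.Idx D.Idx F) * D.charDiag F (fun s => (χ s)⁻¹) = 1 := by
      rw [hgχ, charDiag_mul_inv]
    have h3 : ((g⁻¹ : GL D.Idx F) : Matrix D.Idx D.Idx F) * (g : Matrix D.Idx D.Idx F) = 1 := by
      rw [← Units.val_mul, inv_mul_cancel, Units.val_one]
    calc ((g⁻¹ : GL D.Idx F) : Matrix D.Idx D.Idx F)
        = ((g⁻¹ : GL D.Idx F) : Matrix D.Idx D.Idx F) *
            ((g : Matrix D.Idx D.Idx F) * D.charDiag F (fun s => (χ s)⁻¹)) := by rw [h2, mul_one]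
      _ = D.charDiag F (fun s => (χ s)⁻¹) := by rw [← mul_assoc, h3, one_mul]
  -- `g` normalises `U`
  have hnorm : g ∈ Subgroup.normalizer (D.unipotentRadical F ∅ : Set (GL D.Idx F)) := by
    rw [unipotentRadical_empty hC R.wf]
    unfold ChevalleyDatum.posUnipotent
    apply mem_normalizer_closure
    · rintro u ⟨r, t, hr, hu⟩
      refine Subgroup.subset_closure ⟨r, (χ r : F) * t, hr, ?_⟩
      rw [Units.val_mul, Units.val_mul, hu, hgχ, hinv]
      exact Cfsg.Agent.S2157.result D hD χ hχ r hr.1 t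
    · rintro u ⟨r, t, hr, hu⟩
      refine Subgroup.subset_closure ⟨r, (((χ r)⁻¹ : Fˣ) : F) * t, hr, ?_⟩
      rw [Units.val_mul, Units.val_mul, hu, hgχ, hinv]
      have h := Cfsg.Agent.S2157.result D hD (fun s => (χ s)⁻¹) (isRootCharacter_inv hχ) r hr.1 t
      simp only [inv_inv] at h
      exact h
  have hB : g ∈ D.borelSubgroup F := by
    have h1 : g ∈ Subgroup.normalizer (D.unipotentRadical F ∅ : Set (GL D.Idx F)) ⊓ D.group F :=
      Subgroup.mem_inf.mpr ⟨hnorm, hg⟩
    rw [Cfsg.Agent.S1049.result D hD ∅ (fun j hj => absurd hj (Set.notMem_empty j)),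
      parabolicSubgroup_empty] at h1
    exact h1
  have hB' : g ∈ ((D.posUnipotent F ⊔ D.diagonalSubgroup F : Subgroup (GL D.Idx F)) : Set (GL D.Idx F)) := hB
  rw [Subgroup.coe_mul_of_right_le_normalizer_left _ _ R.hU] at hB'
  obtain ⟨u, hu, h, hh, huh⟩ := hB'
  have huh' : u * h = g := huh
  -- `u = g h⁻¹` is diagonal and unitriangular, hence trivial
  obtain ⟨z, hz⟩ := diagonalSubgroup_le_torus hH hh
  have hu1 : u = 1 := by
    have e : u = g * h⁻¹ := by rw [← huh', mul_assoc, mul_inv_cancel, mul_one]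
    have hdiag : (u : Matrix D.Idx D.Idx F) =
        D.charDiag F (fun s => χ s * (torusChar D z s)⁻¹) := by
      rw [e, Units.val_mul, hgχ, inv_of_mem_torus hz, charDiag_mul]
    apply Units.ext
    rw [Units.val_one]
    have hdeg := posUnipotent_deg D hT.pos hu
    ext i j
    by_cases hij : i = j
    · subst hij
      by_contra hne
      have h1 : ((u : Matrix D.Idx D.Idx F) - 1) i i ≠ 0 := by
        rw [Matrix.sub_apply]; intro h0; exact hne (sub_eq_zero.mp h0)
      have := hdeg i i h1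
      omega
    · rw [Matrix.one_apply_ne hij, hdiag]
      unfold ChevalleyDatum.charDiag
      exact Matrix.diagonal_apply_ne _ hij
  rw [← huh', hu1, one_mul]
  exact hh

end Cfsg.Agent.S2158
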