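import Cfsg.Statements.S2159
import Cfsg.Agent.Helper36.SbV

set_option autoImplicit false
open Cfsg

namespace Cfsg.Agent.S2159

/-- Structure of the outer automorphism group of the Chevalley group `G` of type G₂, B₂, D₄, F₄, E₆, E₇ or E₈ over a finite field. Let `D̄` be the image in `Out(G)` of the subgroup generated by the diagonal automorphisms and `F̄` the image of the subgroup generated by the field automorphisms. Then `D̄` is a normal abelian subgroup of `Out(G)`, `F̄` is cyclic, `D̄F̄` is a normal subgroup, and the quotient of `Out(G)` by `D̄F̄` is trivial, of order 2, or non-abelian of order 6 (so isomorphic to the symmetric group on three letters): its index is 1 or 2, or it is 6 with the commutator subgroup of `Out(G)` not inside `D̄F̄`. -/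
theorem result {F : Type*} [Field F] [Finite F] (D : Cfsg.Lie.ChevalleyDatum) (hD : D ∈ [Cfsg.Lie.chevG2, Cfsg.Lie.chevB2, Cfsg.Lie.chevD4, Cfsg.Lie.chevF4, Cfsg.Lie.chevE6, Cfsg.Lie.chevE7, Cfsg.Lie.chevE8])
    (Dbar Fbar : Subgroup (Cfsg.Out ↥(D.group F)))
    (hDbar : Dbar = (Subgroup.closure {φ : MulAut ↥(D.group F) | D.IsDiagonalAut φ}).map (QuotientGroup.mk' (Cfsg.Inn ↥(D.group F))))
    (hFbar : Fbar = (Subgroup.closure {φ : MulAut ↥(D.group F) | D.IsFieldAut φ}).map (QuotientGroup.mk' (Cfsg.Inn ↥(D.group F)))) :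
    Dbar.Normal ∧ IsMulCommutative ↥Dbar ∧ IsCyclic ↥Fbar ∧ (Dbar ⊔ Fbar).Normal ∧
      ((Dbar ⊔ Fbar).index = 1 ∨ (Dbar ⊔ Fbar).index = 2 ∨
        ((Dbar ⊔ Fbar).index = 6 ∧ ¬ commutator (Cfsg.Out ↥(D.group F)) ≤ Dbar ⊔ Fbar)) := by
  classical
  letI : Fintype F := Fintype.ofFinite F
  obtain ⟨p, hp⟩ := CharP.exists F
  haveI : Fact p.Prime := ⟨CharP.char_is_prime F p⟩
  obtain ⟨n, -, hcard⟩ := FiniteField.card F p
  have hD' := hD
  simp only [List.mem_cons, List.not_mem_nil, or_false] at hD'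
  rcases hD' with rfl | rfl | rfl | rfl | rfl | rfl | rfl
  · exact Cfsg.Agent.Helper36.sb_g2_out p n hcard Dbar Fbar hDbar hFbar
  · exact Cfsg.Agent.Helper36.sb_b2_out p n hcard Dbar Fbar hDbar hFbar
  · exact Cfsg.Agent.Helper36.sb_d4_out p n hcard Dbar Fbar hDbar hFbar
  · exact Cfsg.Agent.Helper36.sb_f4_out p n hcard Dbar Fbar hDbar hFbar
  · exact Cfsg.Agent.Helper36.sb_e6_out p n hcard Dbar Fbar hDbar hFbar
  · exact Cfsg.Agent.Helper36.sb_e7_out p n hcard Dbar Fbar hDbar hFbar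
  · exact Cfsg.Agent.Helper36.sb_e8_out p n hcard Dbar Fbar hDbar hFbar

end Cfsg.Agent.S2159
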