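import Cfsg.Statements.S2160
import Cfsg.Agent.Helper18.GAut2

set_option autoImplicit false
open Cfsg

namespace Cfsg.Agent.S2160

/-- In a Chevalley group of type G₂, B₂, D₄, F₄, E₆, E₇ or E₈ over a finite field, every field automorphism commutes with every graph automorphism. -/
theorem result {F : Type*} [Field F] [Finite F] (D : Cfsg.Lie.ChevalleyDatum) (hD : D ∈ [Cfsg.Lie.chevG2, Cfsg.Lie.chevB2, Cfsg.Lie.chevD4, Cfsg.Lie.chevF4, Cfsg.Lie.chevE6, Cfsg.Lie.chevE7, Cfsg.Lie.chevE8]) (f g : ↥(D.group F) ≃* ↥(D.group F))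
    (hf : D.IsFieldAut f) (hg : D.IsGraphAut g) (y : ↥(D.group F)) : f (g y) = g (f y) := by
  obtain ⟨σ, hσ⟩ := hf
  obtain ⟨π, -, hπ⟩ := hg
  have R : Cfsg.Agent.Helper36.NRel D F (Cfsg.Agent.Helper18.etaN D) := Cfsg.Agent.Helper18.nRel_light hD
  -- the equalizer of `f ∘ g` and `g ∘ f`
  let S : Subgroup ↥(D.group F) :=
    { carrier := {y | f (g y) = g (f y)}
      mul_mem' := by
        intro a b ha hb
        simp only [Set.mem_ofPred_eq] at ha hb ⊢
        rw [map_mul, map_mul, map_mul, map_mul, ha, hb]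
      one_mem' := by simp
      inv_mem' := by
        intro a ha
        simp only [Set.mem_ofPred_eq] at ha ⊢
        rw [map_inv, map_inv, map_inv, map_inv, ha] }
  have hS : Subgroup.closure (Cfsg.Agent.Helper18.simpleGens D F) ≤ S.map (D.group F).subtype := by
    rw [Subgroup.closure_le]
    rintro u ⟨i, hi, t, hu | hu⟩
    · have hmem : u ∈ D.group F :=
        Cfsg.Agent.Helper18.closure_simple_le_group R.xadd (Subgroup.subset_closure ⟨i, hi, t, Or.inl hu⟩)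
      refine ⟨⟨u, hmem⟩, ?_, rfl⟩
      show f (g ⟨u, hmem⟩) = g (f ⟨u, hmem⟩)
      have hlt : D.simple i < D.nroots := R.wf.simple_lt i hi
      have hlt' : D.simple (π ⟨i, hi⟩) < D.nroots := R.wf.simple_lt _ (π ⟨i, hi⟩).isLt
      have h1 := (hπ ⟨u, hmem⟩ ⟨i, hi⟩ t).1 hu
      have h2 := hσ (g ⟨u, hmem⟩) _ _ hlt' h1
      have h3 := hσ ⟨u, hmem⟩ _ t hlt hu
      have h4 := (hπ (f ⟨u, hmem⟩) ⟨i, hi⟩ (σ t)).1 h3
      apply Subtype.ext
      apply Units.ext
      rw [h2, h4, map_pow]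
    · have hmem : u ∈ D.group F :=
        Cfsg.Agent.Helper18.closure_simple_le_group R.xadd (Subgroup.subset_closure ⟨i, hi, t, Or.inr hu⟩)
      refine ⟨⟨u, hmem⟩, ?_, rfl⟩
      show f (g ⟨u, hmem⟩) = g (f ⟨u, hmem⟩)
      have hlt : D.neg (D.simple i) < D.nroots := R.wf.neg_lt _ (R.wf.simple_lt i hi)
      have hlt' : D.neg (D.simple (π ⟨i, hi⟩)) < D.nroots :=
        R.wf.neg_lt _ (R.wf.simple_lt _ (π ⟨i, hi⟩).isLt)
      have h1 := (hπ ⟨u, hmem⟩ ⟨i, hi⟩ t).2 hu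
      have h2 := hσ (g ⟨u, hmem⟩) _ _ hlt' h1
      have h3 := hσ ⟨u, hmem⟩ _ t hlt hu
      have h4 := (hπ (f ⟨u, hmem⟩) ⟨i, hi⟩ (σ t)).2 h3
      apply Subtype.ext
      apply Units.ext
      rw [h2, h4, map_pow]
  obtain ⟨y', hy', hyy⟩ := hS (Cfsg.Agent.Helper18.group_le_closure_simple R y.2)
  have : y' = y := Subtype.ext hyy
  rw [← this]
  exact hy'

end Cfsg.Agent.S2160
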