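import Cfsg.Statements.S2161
import Cfsg.Agent.Helper17.ChevGraphActGen
import Cfsg.Agent.Helper18.GAut2

set_option autoImplicit false
open Cfsg

namespace Cfsg.Agent.S2161

open Cfsg.Lie Cfsg.Agent.Helper17 Cfsg.Agent.Helper36

/-- The value list of a diagram symmetry of D₄ or E₆ is in the table, and the table check holds for it. -/
theorem exists_symList (D : ChevalleyDatum) (hD : D ∈ [chevD4, chevE6])
    (π : Equiv.Perm (Fin D.rank)) (hπ : D.IsDiagramSymmetry π) :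
    ∃ l : List ℕ, symActOK D l = true ∧ ∀ i : Fin D.rank, (π i).val = l.getD i.val 0 := by
  simp only [List.mem_cons, List.not_mem_nil, or_false] at hD
  rcases hD with rfl | rfl
  · have key : ∀ i j : Fin chevD4.rank, i ≠ j →
        π i ≠ π j ∧ chevD4.bonds (π i) (π j) = chevD4.bonds i j :=
      fun i j hij => ⟨π.injective.ne hij, hπ i j hij⟩
    have hmem := symVals_D4 (π ⟨0, by decide⟩) (π ⟨1, by decide⟩) (π ⟨2, by decide⟩) (π ⟨3, by decide⟩)
      ⟨(key ⟨0, by decide⟩ ⟨1, by decide⟩ (by decide)).1, (key ⟨0, by decide⟩ ⟨1, by decide⟩ (by decide)).2⟩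
      ⟨(key ⟨2, by decide⟩ ⟨0, by decide⟩ (by decide)).1, (key ⟨2, by decide⟩ ⟨1, by decide⟩ (by decide)).1,
        (key ⟨0, by decide⟩ ⟨2, by decide⟩ (by decide)).2, (key ⟨1, by decide⟩ ⟨2, by decide⟩ (by decide)).2⟩
      ⟨(key ⟨3, by decide⟩ ⟨0, by decide⟩ (by decide)).1, (key ⟨3, by decide⟩ ⟨1, by decide⟩ (by decide)).1,
        (key ⟨3, by decide⟩ ⟨2, by decide⟩ (by decide)).1,
        (key ⟨0, by decide⟩ ⟨3, by decide⟩ (by decide)).2, (key ⟨1, by decide⟩ ⟨3, by decide⟩ (by decide)).2,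
        (key ⟨2, by decide⟩ ⟨3, by decide⟩ (by decide)).2⟩
    refine ⟨_, symActOK_D4 _ hmem, ?_⟩
    intro i
    have hi : i.val < 4 := i.isLt
    rcases i with ⟨i, hi'⟩
    interval_cases i <;> rfl
  · have key : ∀ i j : Fin chevE6.rank, i ≠ j →
        π i ≠ π j ∧ chevE6.bonds (π i) (π j) = chevE6.bonds i j :=
      fun i j hij => ⟨π.injective.ne hij, hπ i j hij⟩
    have hmem := symVals_E6 (π ⟨0, by decide⟩) (π ⟨1, by decide⟩) (π ⟨2, by decide⟩) (π ⟨3, by decide⟩)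
      (π ⟨4, by decide⟩) (π ⟨5, by decide⟩)
      ⟨(key ⟨0, by decide⟩ ⟨1, by decide⟩ (by decide)).1, (key ⟨0, by decide⟩ ⟨1, by decide⟩ (by decide)).2⟩
      ⟨(key ⟨2, by decide⟩ ⟨0, by decide⟩ (by decide)).1, (key ⟨2, by decide⟩ ⟨1, by decide⟩ (by decide)).1,
        (key ⟨0, by decide⟩ ⟨2, by decide⟩ (by decide)).2, (key ⟨1, by decide⟩ ⟨2, by decide⟩ (by decide)).2⟩
      ⟨(key ⟨3, by decide⟩ ⟨0, by decide⟩ (by decide)).1, (key ⟨3, by decide⟩ ⟨1, by decide⟩ (by decide)).1,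
        (key ⟨3, by decide⟩ ⟨2, by decide⟩ (by decide)).1,
        (key ⟨0, by decide⟩ ⟨3, by decide⟩ (by decide)).2, (key ⟨1, by decide⟩ ⟨3, by decide⟩ (by decide)).2,
        (key ⟨2, by decide⟩ ⟨3, by decide⟩ (by decide)).2⟩
      ⟨(key ⟨4, by decide⟩ ⟨0, by decide⟩ (by decide)).1, (key ⟨4, by decide⟩ ⟨1, by decide⟩ (by decide)).1,
        (key ⟨4, by decide⟩ ⟨2, by decide⟩ (by decide)).1, (key ⟨4, by decide⟩ ⟨3, by decide⟩ (by decide)).1,
        (key ⟨0, by decide⟩ ⟨4, by decide⟩ (by decide)).2, (key ⟨1, by decide⟩ ⟨4, by decide⟩ (by decide)).2,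
        (key ⟨2, by decide⟩ ⟨4, by decide⟩ (by decide)).2, (key ⟨3, by decide⟩ ⟨4, by decide⟩ (by decide)).2⟩
      ⟨(key ⟨5, by decide⟩ ⟨0, by decide⟩ (by decide)).1, (key ⟨5, by decide⟩ ⟨1, by decide⟩ (by decide)).1,
        (key ⟨5, by decide⟩ ⟨2, by decide⟩ (by decide)).1, (key ⟨5, by decide⟩ ⟨3, by decide⟩ (by decide)).1,
        (key ⟨5, by decide⟩ ⟨4, by decide⟩ (by decide)).1,
        (key ⟨0, by decide⟩ ⟨5, by decide⟩ (by decide)).2, (key ⟨1, by decide⟩ ⟨5, by decide⟩ (by decide)).2,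
        (key ⟨2, by decide⟩ ⟨5, by decide⟩ (by decide)).2, (key ⟨3, by decide⟩ ⟨5, by decide⟩ (by decide)).2,
        (key ⟨4, by decide⟩ ⟨5, by decide⟩ (by decide)).2⟩
    refine ⟨_, symActOK_E6 _ hmem, ?_⟩
    intro i
    have hi : i.val < 6 := i.isLt
    rcases i with ⟨i, hi'⟩
    interval_cases i <;> rfl

/-- For the Chevalley groups of types D₄ and E₆ (one root length) over any field: if `π` is a symmetry of the Dynkin diagram and `φ` is an automorphism sending `x_{p_i}(t)` to `x_{p_{π i}}(t)` and `x_{-p_i}(t)` to `x_{-p_{π i}}(t)` for every fundamental root `p_i`, then for every root `r` there is a sign `ε = ±1` with `φ(x_r(t)) = x_{π·r}(ε t)` for all `t`, where `π·r` is the root whose coefficients are those of `r` permuted by `π`. -/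
theorem result {F : Type*} [Field F] (D : Cfsg.Lie.ChevalleyDatum) (hD : D ∈ [Cfsg.Lie.chevD4, Cfsg.Lie.chevE6])
    (π : Equiv.Perm (Fin D.rank)) (hπ : D.IsDiagramSymmetry π) (φ : ↥(D.group F) ≃* ↥(D.group F))
    (hφ : ∀ (g : ↥(D.group F)) (i : Fin D.rank) (t : F),
      (((g : GL D.Idx F) : Matrix D.Idx D.Idx F) = D.x F (D.simple i) t →
        ((φ g : GL D.Idx F) : Matrix D.Idx D.Idx F) = D.x F (D.simple (π i)) t) ∧
      (((g : GL D.Idx F) : Matrix D.Idx D.Idx F) = D.x F (D.neg (D.simple i)) t →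
        ((φ g : GL D.Idx F) : Matrix D.Idx D.Idx F) = D.x F (D.neg (D.simple (π i))) t))
    (r : ℕ) (hr : r < D.nroots) :
    ∃ ε : F, (ε = 1 ∨ ε = -1) ∧ ∀ (g : ↥(D.group F)) (t : F),
      ((g : GL D.Idx F) : Matrix D.Idx D.Idx F) = D.x F r t →
        ((φ g : GL D.Idx F) : Matrix D.Idx D.Idx F) = D.x F (D.permRoot π r) (ε * t) := by
  have hD7 : D ∈ [Cfsg.Lie.chevG2, Cfsg.Lie.chevB2, Cfsg.Lie.chevD4, Cfsg.Lie.chevF4, Cfsg.Lie.chevE6,
      Cfsg.Lie.chevE7, Cfsg.Lie.chevE8] := by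
    simp only [List.mem_cons, List.not_mem_nil, or_false] at hD ⊢
    rcases hD with rfl | rfl <;> simp
  have R := Cfsg.Agent.Helper18.nRel_light (F := F) hD7
  obtain ⟨l, hOK, hl⟩ := exists_symList D hD π hπ
  have hl' : ∀ j, j < D.rank → l.getD j 0 < D.rank := by
    intro j hj
    rw [← hl ⟨j, hj⟩]
    exact (π ⟨j, hj⟩).isLt
  have h1 : ∀ j, j < D.rank → ∀ t : F,
      autGL φ (xGL R.xadd (D.simple j) t) = xGL R.xadd (D.simple (l.getD j 0)) t := by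
    intro j hj t
    rw [autGL_of_mem φ (xGL_mem_group R.xadd _ _)]
    apply Units.ext
    rw [(hφ ⟨xGL R.xadd (D.simple j) t, xGL_mem_group R.xadd _ _⟩ ⟨j, hj⟩ t).1 rfl, hl ⟨j, hj⟩]
    rfl
  have h2 : ∀ j, j < D.rank → ∀ t : F,
      autGL φ (xGL R.xadd (D.neg (D.simple j)) t) = xGL R.xadd (D.neg (D.simple (l.getD j 0))) t := by
    intro j hj t
    rw [autGL_of_mem φ (xGL_mem_group R.xadd _ _)]
    apply Units.ext
    rw [(hφ ⟨xGL R.xadd (D.neg (D.simple j)) t, xGL_mem_group R.xadd _ _⟩ ⟨j, hj⟩ t).2 rfl, hl ⟨j, hj⟩]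
    rfl
  obtain ⟨ε, hε, hact⟩ := graph_act R hOK hl' φ h1 h2 hr
  refine ⟨ε, hε, fun g t hg => ?_⟩
  have e : (g : GL D.Idx F) = xGL R.xadd r t := Units.ext hg
  have e2 : g = ⟨xGL R.xadd r t, xGL_mem_group R.xadd _ _⟩ := Subtype.ext e
  have h3 := hact t
  rw [autGL_of_mem φ (xGL_mem_group R.xadd _ _), ← e2] at h3
  rw [h3, permRoot_eq_permRootL D π l hl]
  rfl

end Cfsg.Agent.S2161
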