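import Cfsg.Statements.S2299
import Cfsg.Agent.Helper39.SL2Degrees

set_option autoImplicit false
open Cfsg

namespace Cfsg.Agent.S2299

/-- Over a finite field F with q elements, q odd, every irreducible complex character of SL₂ has degree 1, q, q + 1, q − 1, (q + 1)/2 or (q − 1)/2; and when q ≥ 5 (so that these six numbers are distinct) there are exactly one irreducible character of degree 1, one of degree q, (q − 3)/2 of degree q + 1, (q − 1)/2 of degree q − 1, two of degree (q + 1)/2 and two of degree (q − 1)/2. -/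
theorem result {F : Type*} [Field F] [Fintype F] (hodd : Odd (Fintype.card F)) :
    (∀ χ : Matrix.SpecialLinearGroup (Fin 2) F → ℂ, Cfsg.IsIrrCharacter (Matrix.SpecialLinearGroup (Fin 2) F) χ →
      χ 1 = 1 ∨ χ 1 = (Fintype.card F : ℂ) ∨ χ 1 = (Fintype.card F : ℂ) + 1 ∨ χ 1 = (Fintype.card F : ℂ) - 1 ∨
        χ 1 = (((Fintype.card F + 1) / 2 : ℕ) : ℂ) ∨ χ 1 = (((Fintype.card F - 1) / 2 : ℕ) : ℂ)) ∧
    (5 ≤ Fintype.card F →
      Nat.card {χ : Cfsg.IrrCharacter (Matrix.SpecialLinearGroup (Fin 2) F) // (χ : Matrix.SpecialLinearGroup (Fin 2) F → ℂ) 1 = 1} = 1 ∧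
      Nat.card {χ : Cfsg.IrrCharacter (Matrix.SpecialLinearGroup (Fin 2) F) // (χ : Matrix.SpecialLinearGroup (Fin 2) F → ℂ) 1 = (Fintype.card F : ℂ)} = 1 ∧
      Nat.card {χ : Cfsg.IrrCharacter (Matrix.SpecialLinearGroup (Fin 2) F) // (χ : Matrix.SpecialLinearGroup (Fin 2) F → ℂ) 1 = (Fintype.card F : ℂ) + 1} = (Fintype.card F - 3) / 2 ∧
      Nat.card {χ : Cfsg.IrrCharacter (Matrix.SpecialLinearGroup (Fin 2) F) // (χ : Matrix.SpecialLinearGroup (Fin 2) F → ℂ) 1 = (Fintype.card F : ℂ) - 1} = (Fintype.card F - 1) / 2 ∧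
      Nat.card {χ : Cfsg.IrrCharacter (Matrix.SpecialLinearGroup (Fin 2) F) // (χ : Matrix.SpecialLinearGroup (Fin 2) F → ℂ) 1 = (((Fintype.card F + 1) / 2 : ℕ) : ℂ)} = 2 ∧
      Nat.card {χ : Cfsg.IrrCharacter (Matrix.SpecialLinearGroup (Fin 2) F) // (χ : Matrix.SpecialLinearGroup (Fin 2) F → ℂ) 1 = (((Fintype.card F - 1) / 2 : ℕ) : ℂ)} = 2) := by
  classical
  constructor
  · intro χ hχ
    have hodd' := hodd
    obtain ⟨k, hk⟩ := hodd
    have e1 : (Fintype.card F : ℂ) = ((2 * k + 1 : ℕ) : ℂ) := by rw [hk]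
    have e2 : (Fintype.card F : ℂ) + 1 = ((2 * k + 2 : ℕ) : ℂ) := by rw [hk]; push_cast; ring
    have e3 : (Fintype.card F : ℂ) - 1 = ((2 * k : ℕ) : ℂ) := by rw [hk]; push_cast; ring
    have e4 : (Fintype.card F + 1) / 2 = k + 1 := by omega
    have e5 : (Fintype.card F - 1) / 2 = k := by omega
    rw [e2, e3, e1, e4, e5]
    rcases Cfsg.Agent.Helper39.sl2_odd_degree_cases hodd' hk hχ with
      ⟨h, -⟩ | ⟨h, -⟩ | ⟨h, -⟩ | h | h | h
    · left; rw [h]; simp
    · right; left; exact h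
    · right; right; left; exact h
    · right; right; right; right; left; exact h
    · right; right; right; right; right; exact h
    · right; right; right; left; exact h
  · intro hq
    exact Cfsg.Agent.Helper39.sl2_odd_degree_count hodd hq

end Cfsg.Agent.S2299
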