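import Cfsg.Statements.S2300
import Cfsg.Agent.Helper39.SL2DegreesEven

set_option autoImplicit false
open Cfsg

namespace Cfsg.Agent.S2300

/-- Over a finite field F with q elements, q even, every irreducible complex character of SL₂ has degree 1, q − 1, q or q + 1; and when q ≥ 4 (so that these four numbers are distinct) there are exactly one irreducible character of degree 1, one of degree q, (q − 2)/2 of degree q + 1 and q/2 of degree q − 1. -/
theorem result {F : Type*} [Field F] [Fintype F] [CharP F 2] :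
    (∀ χ : Matrix.SpecialLinearGroup (Fin 2) F → ℂ, Cfsg.IsIrrCharacter (Matrix.SpecialLinearGroup (Fin 2) F) χ →
      χ 1 = 1 ∨ χ 1 = (Fintype.card F : ℂ) - 1 ∨ χ 1 = (Fintype.card F : ℂ) ∨ χ 1 = (Fintype.card F : ℂ) + 1) ∧
    (4 ≤ Fintype.card F →
      Nat.card {χ : Cfsg.IrrCharacter (Matrix.SpecialLinearGroup (Fin 2) F) // (χ : Matrix.SpecialLinearGroup (Fin 2) F → ℂ) 1 = 1} = 1 ∧
      Nat.card {χ : Cfsg.IrrCharacter (Matrix.SpecialLinearGroup (Fin 2) F) // (χ : Matrix.SpecialLinearGroup (Fin 2) F → ℂ) 1 = (Fintype.card F : ℂ)} = 1 ∧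
      Nat.card {χ : Cfsg.IrrCharacter (Matrix.SpecialLinearGroup (Fin 2) F) // (χ : Matrix.SpecialLinearGroup (Fin 2) F → ℂ) 1 = (Fintype.card F : ℂ) + 1} = (Fintype.card F - 2) / 2 ∧
      Nat.card {χ : Cfsg.IrrCharacter (Matrix.SpecialLinearGroup (Fin 2) F) // (χ : Matrix.SpecialLinearGroup (Fin 2) F → ℂ) 1 = (Fintype.card F : ℂ) - 1} = Fintype.card F / 2) := by
  classical
  have hF : ringChar F = 2 := (ringChar.eq F 2).symm ▸ rfl
  constructor
  · intro χ hχ
    have hpos : 0 < Fintype.card F := Fintype.card_pos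
    rcases Cfsg.Agent.Helper39.sl2_even_degree_cases hF hχ with ⟨h, -⟩ | ⟨h, -⟩ | ⟨h, -⟩ | h
    · left; rw [h]; simp
    · right; right; left; exact h
    · right; right; right; rw [h]; push_cast; ring
    · right; left; rw [h, Nat.cast_sub (by omega)]; simp
  · intro hq
    exact Cfsg.Agent.Helper39.sl2_even_degree_count hq

end Cfsg.Agent.S2300
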