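import Cfsg.Statements.S2301

set_option autoImplicit false
open Cfsg

namespace Cfsg.Agent.S2301


theorem nilp_pow_card {F : Type*} [Field F] (d : ℕ) (N : Matrix (Fin d) (Fin d) F)
    (hN : IsNilpotent N) : N ^ d = 0 := by
  have h1 := Matrix.isNilpotent_charpoly_sub_pow_of_isNilpotent hN
  have h2 : N.charpoly - Polynomial.X ^ (Fintype.card (Fin d)) = 0 := h1.eq_zero
  have h3 : N.charpoly = Polynomial.X ^ d := by
    rw [sub_eq_zero] at h2
    simpa using h2
  have h4 := Matrix.aeval_self_charpoly N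
  rw [h3] at h4
  simpa using h4

variable {F : Type*} [Field F]

/-- upper unitriangular -/
def uu (b : F) : Matrix.SpecialLinearGroup (Fin 2) F := ⟨!![1, b; 0, 1], by simp [Matrix.det_fin_two]⟩

theorem uu_pow (b : F) (k : ℕ) : (uu b) ^ k = uu (k * b) := by
  induction k with
  | zero =>
    rw [pow_zero]
    apply Matrix.SpecialLinearGroup.ext
    intro i j
    fin_cases i <;> fin_cases j <;> simp [uu]
  | succ k ih =>
    rw [pow_succ, ih]
    apply Matrix.SpecialLinearGroup.ext
    intro i j
    rw [Matrix.SpecialLinearGroup.coe_mul]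
    fin_cases i <;> fin_cases j <;> simp [uu, Matrix.mul_apply, Fin.sum_univ_two]
    ring

theorem uu_ne_one (b : F) (hb : b ≠ 0) : uu b ≠ 1 := by
  intro h
  have e1 := congrArg (fun M : Matrix.SpecialLinearGroup (Fin 2) F => (M : Matrix (Fin 2) (Fin 2) F) 0 1) h
  simp [uu] at e1
  exact hb e1

theorem orderOf_uu (p : ℕ) [Fact p.Prime] [CharP F p] (b : F) (hb : b ≠ 0) : orderOf (uu b) = p := by
  apply orderOf_eq_prime
  · rw [uu_pow]
    have : ((p : ℕ) : F) = 0 := CharP.cast_eq_zero F p
    rw [this, zero_mul]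
    apply Matrix.SpecialLinearGroup.ext
    intro i j
    fin_cases i <;> fin_cases j <;> simp [uu]
  · exact uu_ne_one b hb

theorem eq_uu (g : Matrix.SpecialLinearGroup (Fin 2) F)
    (h00 : (g : Matrix (Fin 2) (Fin 2) F) 0 0 = 1) (h11 : (g : Matrix (Fin 2) (Fin 2) F) 1 1 = 1)
    (h10 : (g : Matrix (Fin 2) (Fin 2) F) 1 0 = 0) : g = uu ((g : Matrix (Fin 2) (Fin 2) F) 0 1) := by
  apply Matrix.SpecialLinearGroup.ext
  intro i j
  fin_cases i <;> fin_cases j <;> simp [uu, h00, h11, h10]

theorem conj_uu_iff (b b' : F) (hb : b ≠ 0) (hb' : b' ≠ 0) :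
    IsConj (uu b) (uu b') ↔ IsSquare (b * b') := by
  constructor
  · intro h
    obtain ⟨c, hc⟩ := isConj_iff.mp h
    rw [mul_inv_eq_iff_eq_mul] at hc
    have hdet := c.det_coe
    rw [Matrix.det_fin_two] at hdet
    have hm := congrArg (fun M : Matrix.SpecialLinearGroup (Fin 2) F => (M : Matrix (Fin 2) (Fin 2) F)) hc
    simp only [Matrix.SpecialLinearGroup.coe_mul] at hm
    have e00 := congrFun (congrFun hm 0) 0
    have e01 := congrFun (congrFun hm 0) 1
    simp [uu, Matrix.mul_apply, Fin.sum_univ_two] at e00 e01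
    -- e00 : b' * γ = 0 ; e01 : α b + β = β + b' δ
    rcases e00 with h0 | h0
    · exact absurd h0 hb'
    rw [h0] at hdet
    refine ⟨(c : Matrix (Fin 2) (Fin 2) F) 0 0 * b, ?_⟩
    linear_combination (-(b * b')) * hdet - (b * (c : Matrix (Fin 2) (Fin 2) F) 0 0) * e01
  · rintro ⟨s, hs⟩
    have hs0 : s ≠ 0 := by
      intro h
      rw [h, mul_zero] at hs
      exact mul_ne_zero hb hb' hs
    rw [isConj_iff]
    let α := s / b
    have hα : α ≠ 0 := div_ne_zero hs0 hb
    let c : Matrix.SpecialLinearGroup (Fin 2) F := ⟨!![α, 0; 0, α⁻¹], by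
      rw [Matrix.det_fin_two_of]; field_simp; ring⟩
    refine ⟨c, ?_⟩
    rw [mul_inv_eq_iff_eq_mul]
    apply Matrix.SpecialLinearGroup.ext
    intro i j
    rw [Matrix.SpecialLinearGroup.coe_mul, Matrix.SpecialLinearGroup.coe_mul]
    fin_cases i <;> fin_cases j <;> simp [uu, c, Matrix.mul_apply, Fin.sum_univ_two]
    simp only [α]
    field_simp
    linear_combination (-1 : F) * hs

/-- every element of order `p` is conjugate to some `uu b`. -/
theorem conj_uu_of_order (p : ℕ) [Fact p.Prime] [CharP F p]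
    (g : Matrix.SpecialLinearGroup (Fin 2) F) (hg : orderOf g = p) :
    ∃ b : F, b ≠ 0 ∧ IsConj (uu b) g := by
  have hp : p.Prime := Fact.out
  have hgp : g ^ p = 1 := by rw [← hg]; exact pow_orderOf_eq_one g
  have hne : g ≠ 1 := by
    intro h
    rw [h, orderOf_one] at hg
    exact hp.one_lt.ne hg
  set G : Matrix (Fin 2) (Fin 2) F := (g : Matrix (Fin 2) (Fin 2) F) with hG
  have hGp : G ^ p = 1 := by
    have := congrArg (fun M : Matrix.SpecialLinearGroup (Fin 2) F => (M : Matrix (Fin 2) (Fin 2) F)) hgp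
    simpa using this
  have hnil : IsNilpotent (G - 1) := by
    refine ⟨p, ?_⟩
    have := sub_pow_char_of_commute p (Commute.one_right G)
    rw [this, hGp, one_pow, sub_self]
  have hN2 : (G - 1) ^ 2 = 0 := nilp_pow_card 2 _ hnil
  have hdet := g.det_coe
  rw [Matrix.det_fin_two] at hdet
  rw [pow_two] at hN2
  have e00 := congrFun (congrFun hN2 0) 0
  have e01 := congrFun (congrFun hN2 0) 1
  have e10 := congrFun (congrFun hN2 1) 0
  have e11 := congrFun (congrFun hN2 1) 1
  simp [Matrix.mul_apply, Fin.sum_univ_two] at e00 e01 e10 e11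
  rw [← hG] at hdet
  generalize ha : G 0 0 = a at *
  generalize hy : G 0 1 = y at *
  generalize hz : G 1 0 = z at *
  generalize hd : G 1 1 = d at *
  have hgm : (g : Matrix (Fin 2) (Fin 2) F) = !![a, y; z, d] := by
    rw [← hG, Matrix.eta_fin_two G, ha, hy, hz, hd]
  have hd' : d = 2 - a := by
    by_contra hne'
    have hs : a - 1 + (d - 1) ≠ 0 := by
      intro h
      apply hne'
      linear_combination h
    have hy0 : y = 0 := by
      have : y * (a - 1 + (d - 1)) = 0 := by linear_combination e01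
      rcases mul_eq_zero.mp this with h | h
      · exact h
      · exact absurd h hs
    have hz0 : z = 0 := by
      have : z * (a - 1 + (d - 1)) = 0 := by linear_combination e10
      rcases mul_eq_zero.mp this with h | h
      · exact h
      · exact absurd h hs
    have ha1 : a - 1 = 0 := by
      rw [hy0] at e00
      simpa using e00
    have hd1 : d - 1 = 0 := by
      rw [hz0] at e11
      simpa using e11
    apply hs
    rw [ha1, hd1, add_zero]
  subst hd'
  by_cases hy0 : y = 0
  · subst hy0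
    have ha1 : a = 1 := by
      have : a - 1 = 0 := by simpa using e00
      linear_combination this
    subst ha1
    have hz0 : z ≠ 0 := by
      intro hz0
      apply hne
      apply Matrix.SpecialLinearGroup.ext
      intro i j
      rw [hgm, hz0]
      fin_cases i <;> fin_cases j <;> simp
      norm_num
    refine ⟨-z, neg_ne_zero.mpr hz0, ?_⟩
    rw [isConj_iff]
    let P : Matrix.SpecialLinearGroup (Fin 2) F := ⟨!![0, 1; -1, 0], by
      rw [Matrix.det_fin_two_of]; ring⟩
    refine ⟨P, ?_⟩
    rw [mul_inv_eq_iff_eq_mul]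
    apply Matrix.SpecialLinearGroup.ext
    intro i j
    rw [Matrix.SpecialLinearGroup.coe_mul, Matrix.SpecialLinearGroup.coe_mul, hgm]
    fin_cases i <;> fin_cases j <;> simp [uu, P, Matrix.mul_apply, Fin.sum_univ_two]
    norm_num
  · refine ⟨y, hy0, ?_⟩
    rw [isConj_iff]
    let P : Matrix.SpecialLinearGroup (Fin 2) F := ⟨!![1, 0; -(a - 1) / y, 1], by
      rw [Matrix.det_fin_two_of]; ring⟩
    refine ⟨P, ?_⟩
    rw [mul_inv_eq_iff_eq_mul]
    apply Matrix.SpecialLinearGroup.ext
    intro i j
    rw [Matrix.SpecialLinearGroup.coe_mul, Matrix.SpecialLinearGroup.coe_mul, hgm]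
    fin_cases i <;> fin_cases j <;> simp [uu, P, Matrix.mul_apply, Fin.sum_univ_two]
    · field_simp
      ring
    · field_simp
      linear_combination (-1 : F) * e00
    · field_simp
      ring



/-- the conjugate of `uu b` by a matrix with first column `w` -/
def MM (b : F) (w : F × F) : Matrix.SpecialLinearGroup (Fin 2) F :=
  ⟨!![1 - b * w.1 * w.2, b * w.1 ^ 2; -(b * w.2 ^ 2), 1 + b * w.1 * w.2], by
    rw [Matrix.det_fin_two_of]; ring⟩

theorem conj_eq_MM (b : F) (k : Matrix.SpecialLinearGroup (Fin 2) F) :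
    k * uu b * k⁻¹ = MM b ((k : Matrix (Fin 2) (Fin 2) F) 0 0, (k : Matrix (Fin 2) (Fin 2) F) 1 0) := by
  rw [mul_inv_eq_iff_eq_mul]
  have hdet := k.det_coe
  rw [Matrix.det_fin_two] at hdet
  apply Matrix.SpecialLinearGroup.ext
  intro i j
  rw [Matrix.SpecialLinearGroup.coe_mul, Matrix.SpecialLinearGroup.coe_mul]
  generalize ha : (k : Matrix (Fin 2) (Fin 2) F) 0 0 = α at *
  generalize hb : (k : Matrix (Fin 2) (Fin 2) F) 0 1 = β at *
  generalize hc : (k : Matrix (Fin 2) (Fin 2) F) 1 0 = γ at *
  generalize hd : (k : Matrix (Fin 2) (Fin 2) F) 1 1 = δ at *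
  have hk : (k : Matrix (Fin 2) (Fin 2) F) = !![α, β; γ, δ] := by
    rw [Matrix.eta_fin_two (k : Matrix (Fin 2) (Fin 2) F), ha, hb, hc, hd]
  rw [hk]
  fin_cases i <;> fin_cases j <;> simp [uu, MM, Matrix.mul_apply, Fin.sum_univ_two]
  · ring
  · linear_combination (-(b * α)) * hdet
  · ring
  · linear_combination (-(b * γ)) * hdet

theorem exists_col (w : F × F) (hw : w ≠ 0) : ∃ k : Matrix.SpecialLinearGroup (Fin 2) F,
    ((k : Matrix (Fin 2) (Fin 2) F) 0 0, (k : Matrix (Fin 2) (Fin 2) F) 1 0) = w := by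
  obtain ⟨w1, w2⟩ := w
  by_cases h1 : w1 = 0
  · have h2 : w2 ≠ 0 := by
      intro h2
      apply hw
      simp [h1, h2]
    refine ⟨⟨!![0, -w2⁻¹; w2, 0], by rw [Matrix.det_fin_two_of]; field_simp; ring⟩, ?_⟩
    simp [h1]
  · refine ⟨⟨!![w1, 0; w2, w1⁻¹], by rw [Matrix.det_fin_two_of]; field_simp; ring⟩, ?_⟩
    simp

theorem MM_eq_iff (b : F) (hb : b ≠ 0) (w w' : F × F) :
    MM b w = MM b w' ↔ w' = w ∨ w' = -w := by
  constructor
  · intro h
    have e00 := congrArg (fun M : Matrix.SpecialLinearGroup (Fin 2) F => (M : Matrix (Fin 2) (Fin 2) F) 0 0) h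
    have e01 := congrArg (fun M : Matrix.SpecialLinearGroup (Fin 2) F => (M : Matrix (Fin 2) (Fin 2) F) 0 1) h
    have e10 := congrArg (fun M : Matrix.SpecialLinearGroup (Fin 2) F => (M : Matrix (Fin 2) (Fin 2) F) 1 0) h
    simp [MM, hb] at e00 e01 e10
    obtain ⟨w1, w2⟩ := w
    obtain ⟨w1', w2'⟩ := w'
    simp only [Prod.mk.injEq, Prod.neg_mk] at *
    have k1 : w1' = w1 ∨ w1' = -w1 := by
      have : (w1' - w1) * (w1' + w1) = 0 := by linear_combination -e01
      rcases mul_eq_zero.mp this with h | h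
      · left; linear_combination h
      · right; linear_combination h
    have k2 : w2' = w2 ∨ w2' = -w2 := by
      have : (w2' - w2) * (w2' + w2) = 0 := by linear_combination -e10
      rcases mul_eq_zero.mp this with h | h
      · left; linear_combination h
      · right; linear_combination h
    by_cases hw1 : w1 = 0
    · subst hw1
      have : w1' = 0 := by rcases k1 with h | h <;> simpa using h
      subst this
      rcases k2 with h | h
      · left; exact ⟨rfl, h⟩
      · right; exact ⟨by simp, h⟩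
    · rcases k1 with h | h
      · subst h
        left
        refine ⟨rfl, ?_⟩
        have : b * (w1' * (w2' - w2)) = 0 := by linear_combination -e00
        rcases mul_eq_zero.mp this with h | h
        · exact absurd h hb
        rcases mul_eq_zero.mp h with h | h
        · exact absurd h hw1
        · linear_combination h
      · subst h
        right
        refine ⟨rfl, ?_⟩
        have : b * (w1 * (w2' + w2)) = 0 := by linear_combination e00
        rcases mul_eq_zero.mp this with h | h
        · exact absurd h hb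
        rcases mul_eq_zero.mp h with h | h
        · exact absurd h hw1
        · linear_combination h
  · rintro (h | h)
    · rw [h]
    · rw [h]
      apply Matrix.SpecialLinearGroup.ext
      intro i j
      fin_cases i <;> fin_cases j <;> simp [MM]

theorem card_class [Fintype F] (b : F) (hb : b ≠ 0) (h2 : (2 : F) ≠ 0) :
    2 * Nat.card (ConjClasses.mk (uu b)).carrier = Fintype.card F ^ 2 - 1 := by
  classical
  have hcard : Fintype.card {v : F × F // v ≠ 0} = Fintype.card F ^ 2 - 1 := by
    rw [Fintype.card_subtype_compl, Fintype.card_prod, Fintype.card_subtype_eq, sq]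
  have hmem : ∀ w : {v : F × F // v ≠ 0}, MM b w.1 ∈ (ConjClasses.mk (uu b)).carrier := by
    intro w
    obtain ⟨k, hk⟩ := exists_col w.1 w.2
    rw [ConjClasses.mem_carrier_iff_mk_eq, ConjClasses.mk_eq_mk_iff_isConj, isConj_comm, isConj_iff]
    exact ⟨k, by rw [conj_eq_MM, hk]⟩
  let π : {v : F × F // v ≠ 0} → (ConjClasses.mk (uu b)).carrier := fun w => ⟨MM b w.1, hmem w⟩
  have hsurj : Function.Surjective π := by
    rintro ⟨h, hh⟩
    rw [ConjClasses.mem_carrier_iff_mk_eq, ConjClasses.mk_eq_mk_iff_isConj, isConj_comm, isConj_iff] at hh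
    obtain ⟨k, hk⟩ := hh
    rw [conj_eq_MM] at hk
    have hne : ((k : Matrix (Fin 2) (Fin 2) F) 0 0, (k : Matrix (Fin 2) (Fin 2) F) 1 0) ≠ (0 : F × F) := by
      intro h0
      simp only [Prod.mk_eq_zero] at h0
      have hdet := k.det_coe
      rw [Matrix.det_fin_two, h0.1, h0.2] at hdet
      simp at hdet
    exact ⟨⟨_, hne⟩, Subtype.ext hk⟩
  have : Fintype (ConjClasses.mk (uu b)).carrier := Fintype.ofFinite _
  have hfib : ∀ t : (ConjClasses.mk (uu b)).carrier, Fintype.card {s // π s = t} = 2 := by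
    intro t
    rw [← Nat.card_eq_fintype_card, Nat.card_eq_two_iff]
    obtain ⟨s₀, hs₀⟩ := hsurj t
    have hneg : -s₀.1 ≠ 0 := neg_ne_zero.mpr s₀.2
    have hπneg : π ⟨-s₀.1, hneg⟩ = t := by
      rw [← hs₀]
      apply Subtype.ext
      exact ((MM_eq_iff b hb s₀.1 (-s₀.1)).mpr (Or.inr rfl)).symm
    refine ⟨⟨s₀, hs₀⟩, ⟨⟨-s₀.1, hneg⟩, hπneg⟩, ?_, ?_⟩
    · intro heq
      have h1 : s₀.1 = -s₀.1 := congrArg (fun x => x.1.1) heq
      have h3 : (2 : F) • s₀.1 = 0 := by
        rw [two_smul]
        nth_rewrite 1 [h1]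
        exact neg_add_cancel _
      rcases smul_eq_zero.mp h3 with h | h
      · exact h2 h
      · exact s₀.2 h
    · ext ⟨s, hs⟩
      simp only [Set.mem_insert_iff, Set.mem_singleton_iff, Set.mem_univ, iff_true]
      have h1 : MM b s₀.1 = MM b s.1 := by
        have := hs₀.trans hs.symm
        exact congrArg Subtype.val this
      rcases (MM_eq_iff b hb s₀.1 s.1).mp h1 with h | h
      · left
        apply Subtype.ext
        apply Subtype.ext
        exact h
      · right
        apply Subtype.ext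
        apply Subtype.ext
        exact h
  have hsum : Fintype.card {v : F × F // v ≠ 0} = ∑ t : (ConjClasses.mk (uu b)).carrier, Fintype.card {s // π s = t} := by
    rw [← Fintype.card_sigma]
    exact (Fintype.card_congr (Equiv.sigmaFiberEquiv π)).symm
  rw [← hcard, hsum]
  simp only [hfib, Finset.sum_const, Finset.card_univ, smul_eq_mul]
  rw [Nat.card_eq_fintype_card, mul_comm]


/-- Over a finite field with q elements of odd characteristic p, the elements of order p of SL₂ (the non-identity unipotent elements) fall into exactly two conjugacy classes, each of size (q² − 1)/2; two upper unitriangular matrices with non-zero off-diagonal entries b and b′ are conjugate exactly when bb′ is a square. -/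
theorem result {F : Type*} [Field F] [Fintype F] (p : ℕ) [Fact p.Prime] [CharP F p] (hp : p ≠ 2) :
    Nat.card {C : ConjClasses (Matrix.SpecialLinearGroup (Fin 2) F) // ∃ g : Matrix.SpecialLinearGroup (Fin 2) F, orderOf g = p ∧ ConjClasses.mk g = C} = 2 ∧
    (∀ g : Matrix.SpecialLinearGroup (Fin 2) F, orderOf g = p → Nat.card (ConjClasses.mk g).carrier = (Fintype.card F ^ 2 - 1) / 2) ∧
    ∀ g h : Matrix.SpecialLinearGroup (Fin 2) F, (g : Matrix (Fin 2) (Fin 2) F) 0 0 = 1 → (g : Matrix (Fin 2) (Fin 2) F) 1 1 = 1 → (g : Matrix (Fin 2) (Fin 2) F) 1 0 = 0 → (g : Matrix (Fin 2) (Fin 2) F) 0 1 ≠ 0 →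
      (h : Matrix (Fin 2) (Fin 2) F) 0 0 = 1 → (h : Matrix (Fin 2) (Fin 2) F) 1 1 = 1 → (h : Matrix (Fin 2) (Fin 2) F) 1 0 = 0 → (h : Matrix (Fin 2) (Fin 2) F) 0 1 ≠ 0 →
      (IsConj g h ↔ IsSquare ((g : Matrix (Fin 2) (Fin 2) F) 0 1 * (h : Matrix (Fin 2) (Fin 2) F) 0 1)) := by
  classical
  have hchar : ringChar F ≠ 2 := by rw [ringChar.eq F p]; exact hp
  have h2 : (2 : F) ≠ 0 := Ring.two_ne_zero hchar
  refine ⟨?_, ?_, ?_⟩
  · obtain ⟨ε, hε⟩ := FiniteField.exists_nonsquare hchar
    have hε0 : ε ≠ 0 := by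
      rintro rfl
      exact hε ⟨0, by simp⟩
    have hne : ConjClasses.mk (uu (1 : F)) ≠ ConjClasses.mk (uu ε) := by
      rw [Ne, ConjClasses.mk_eq_mk_iff_isConj, conj_uu_iff 1 ε one_ne_zero hε0, one_mul]
      exact hε
    have hset : {C : ConjClasses (Matrix.SpecialLinearGroup (Fin 2) F) | ∃ g : Matrix.SpecialLinearGroup (Fin 2) F, orderOf g = p ∧ ConjClasses.mk g = C}
        = {ConjClasses.mk (uu (1 : F)), ConjClasses.mk (uu ε)} := by
      ext C
      simp only [Set.mem_ofPred_eq, Set.mem_insert_iff, Set.mem_singleton_iff]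
      constructor
      · rintro ⟨g, hg, rfl⟩
        obtain ⟨b, hb, hconj⟩ := conj_uu_of_order p g hg
        by_cases hsq : IsSquare b
        · left
          rw [ConjClasses.mk_eq_mk_iff_isConj]
          refine hconj.symm.trans ?_
          rw [conj_uu_iff b 1 hb one_ne_zero, mul_one]
          exact hsq
        · right
          rw [ConjClasses.mk_eq_mk_iff_isConj]
          refine hconj.symm.trans ?_
          rw [conj_uu_iff b ε hb hε0]
          have h1 : quadraticChar F b = -1 := quadraticChar_neg_one_iff_not_isSquare.mpr hsq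
          have h3 : quadraticChar F ε = -1 := quadraticChar_neg_one_iff_not_isSquare.mpr hε
          rw [← quadraticChar_one_iff_isSquare (mul_ne_zero hb hε0), map_mul, h1, h3]
          norm_num
      · rintro (rfl | rfl)
        · exact ⟨uu 1, orderOf_uu p 1 one_ne_zero, rfl⟩
        · exact ⟨uu ε, orderOf_uu p ε hε0, rfl⟩
    have : Nat.card {C : ConjClasses (Matrix.SpecialLinearGroup (Fin 2) F) // ∃ g : Matrix.SpecialLinearGroup (Fin 2) F, orderOf g = p ∧ ConjClasses.mk g = C}
        = Set.ncard {C : ConjClasses (Matrix.SpecialLinearGroup (Fin 2) F) | ∃ g : Matrix.SpecialLinearGroup (Fin 2) F, orderOf g = p ∧ ConjClasses.mk g = C} :=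
      Nat.card_coe_set_eq _
    rw [this, hset, Set.ncard_pair hne]
  · intro g hg
    obtain ⟨b, hb, hconj⟩ := conj_uu_of_order p g hg
    have h1 : ConjClasses.mk g = ConjClasses.mk (uu b) :=
      (ConjClasses.mk_eq_mk_iff_isConj.mpr hconj).symm
    rw [h1]
    have := card_class b hb h2
    omega
  · intro g h g00 g11 g10 g01 h00 h11 h10 h01
    rw [eq_uu g g00 g11 g10, eq_uu h h00 h11 h10]
    simp only [uu]
    exact conj_uu_iff _ _ g01 h01

end Cfsg.Agent.S2301
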