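import Cfsg.Statements.S2302

set_option autoImplicit false
open Cfsg

namespace Cfsg.Agent.S2302


variable {F : Type*} [Field F] [Fintype F] [CharP F 2]

omit [Fintype F] in
theorem sq_inj (x y : F) (h : x * x = y * y) : x = y := by
  have h2 : (2 : F) = 0 := CharTwo.two_eq_zero
  have : (x - y) * (x - y) = 0 := by linear_combination h + (y * y - x * y) * h2
  have := mul_self_eq_zero.mp this
  exact sub_eq_zero.mp this

theorem exists_sqrt (t : F) : ∃ s : F, s * s = t := by
  have hc : ringChar F = 2 := ringChar.eq F 2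
  obtain ⟨s, hs⟩ := FiniteField.isSquare_of_char_two hc t
  exact ⟨s, hs.symm⟩

/-- the shape of an involution -/
theorem inv_form (g : Matrix.SpecialLinearGroup (Fin 2) F) (hg : orderOf g = 2) :
    (g : Matrix (Fin 2) (Fin 2) F) 0 0 = (g : Matrix (Fin 2) (Fin 2) F) 1 1 ∧
    ((g : Matrix (Fin 2) (Fin 2) F) 0 1 ≠ 0 ∨ (g : Matrix (Fin 2) (Fin 2) F) 1 0 ≠ 0) := by
  have h2 : (2 : F) = 0 := CharTwo.two_eq_zero
  have hsq : g * g = 1 := by
    have := pow_orderOf_eq_one g
    rw [hg, pow_two] at this
    exact this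
  have hne : g ≠ 1 := by
    intro h
    rw [h, orderOf_one] at hg
    omega
  have hdet := g.det_coe
  rw [Matrix.det_fin_two] at hdet
  have hm : (g : Matrix (Fin 2) (Fin 2) F) * (g : Matrix (Fin 2) (Fin 2) F) = 1 := by
    have := congrArg (fun M : Matrix.SpecialLinearGroup (Fin 2) F => (M : Matrix (Fin 2) (Fin 2) F)) hsq
    simpa using this
  set a := (g : Matrix (Fin 2) (Fin 2) F) 0 0 with ha
  set b := (g : Matrix (Fin 2) (Fin 2) F) 0 1 with hb
  set c := (g : Matrix (Fin 2) (Fin 2) F) 1 0 with hc
  set d := (g : Matrix (Fin 2) (Fin 2) F) 1 1 with hd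
  have e00 : a * a + b * c = 1 := by
    have := congrFun (congrFun hm 0) 0
    simpa [Matrix.mul_apply, Fin.sum_univ_two] using this
  have e01 : a * b + b * d = 0 := by
    have := congrFun (congrFun hm 0) 1
    simpa [Matrix.mul_apply, Fin.sum_univ_two] using this
  have e10 : c * a + d * c = 0 := by
    have := congrFun (congrFun hm 1) 0
    simpa [Matrix.mul_apply, Fin.sum_univ_two] using this
  have e11 : c * b + d * d = 1 := by
    have := congrFun (congrFun hm 1) 1
    simpa [Matrix.mul_apply, Fin.sum_univ_two] using this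
  have had : a = d := by
    by_contra hne'
    have hs : a + d ≠ 0 := by
      intro h
      apply hne'
      linear_combination h - d * h2
    have hb0 : b = 0 := by
      have : b * (a + d) = 0 := by linear_combination e01
      rcases mul_eq_zero.mp this with h | h
      · exact h
      · exact absurd h hs
    have hc0 : c = 0 := by
      have : c * (a + d) = 0 := by linear_combination e10
      rcases mul_eq_zero.mp this with h | h
      · exact h
      · exact absurd h hs
    have ha1 : a = 1 := sq_inj a 1 (by rw [hb0] at e00; linear_combination e00)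
    have hd1 : d = 1 := sq_inj d 1 (by rw [hb0] at e11; linear_combination e11)
    exact hne' (by rw [ha1, hd1])
  refine ⟨had, ?_⟩
  by_contra hcon
  rw [not_or, not_not, not_not] at hcon
  obtain ⟨hb0, hc0⟩ := hcon
  have ha1 : a = 1 := sq_inj a 1 (by rw [hb0] at e00; linear_combination e00)
  apply hne
  apply Matrix.SpecialLinearGroup.ext
  intro i j
  fin_cases i <;> fin_cases j
  · simpa using ha1
  · simpa using hb0
  · simpa using hc0
  · simp only [Fin.mk_one, Fin.isValue, Matrix.SpecialLinearGroup.coe_one, Matrix.one_apply_eq]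
    rw [← hd, ← had, ha1]

/-- the standard involution -/
def u0 : Matrix.SpecialLinearGroup (Fin 2) F := ⟨!![1, 1; 0, 1], by simp [Matrix.det_fin_two]⟩

theorem conj_u0 (g : Matrix.SpecialLinearGroup (Fin 2) F) (hg : orderOf g = 2) : IsConj g (u0 : Matrix.SpecialLinearGroup (Fin 2) F) := by
  have h2 : (2 : F) = 0 := CharTwo.two_eq_zero
  obtain ⟨had, hbc⟩ := inv_form g hg
  have hdet := g.det_coe
  rw [Matrix.det_fin_two] at hdet
  set a := (g : Matrix (Fin 2) (Fin 2) F) 0 0 with ha
  set b := (g : Matrix (Fin 2) (Fin 2) F) 0 1 with hb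
  set c := (g : Matrix (Fin 2) (Fin 2) F) 1 0 with hc
  set d := (g : Matrix (Fin 2) (Fin 2) F) 1 1 with hd
  have hg' : (g : Matrix (Fin 2) (Fin 2) F) = !![a, b; c, a] := by
    rw [Matrix.eta_fin_two (g : Matrix (Fin 2) (Fin 2) F), ← ha, ← hb, ← hc, ← hd, ← had]
  have hdet' : a * a + b * c = 1 := by rw [← had] at hdet; linear_combination hdet + b * c * h2
  rw [isConj_comm, isConj_iff]
  -- want P with P * u0 * P⁻¹ = g, i.e. P * u0 = g * P
  rcases hbc with hb0 | hc0
  · -- y = e₂, N y = (b, a+1); P = s • [[b, 0],[a+1, 1]], det = s^2 b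
    obtain ⟨s, hs⟩ := exists_sqrt (F := F) (b⁻¹)
    have hsb : s * s * b = 1 := by rw [hs]; exact inv_mul_cancel₀ hb0
    let P : Matrix.SpecialLinearGroup (Fin 2) F := ⟨!![s * b, 0; s * (a + 1), s], by
      rw [Matrix.det_fin_two_of]; linear_combination hsb⟩
    refine ⟨P, ?_⟩
    rw [mul_inv_eq_iff_eq_mul]
    apply Matrix.SpecialLinearGroup.ext
    intro i j
    rw [Matrix.SpecialLinearGroup.coe_mul, Matrix.SpecialLinearGroup.coe_mul, hg']
    fin_cases i <;> fin_cases j <;> simp [P, u0, Matrix.mul_apply, Fin.sum_univ_two]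
    · linear_combination (-(s * b * a)) * h2
    · ring
    · linear_combination s * hdet' - s * a * h2 + (s + s * a - s * a ^ 2 - s * c * b) * h2
    · linear_combination  (-(s * a)) * h2 - s * h2 + (2 * s + s * a) * h2
  · -- y = e₁, N y = (a+1, c); P = s • [[a+1, 1],[c, 0]], det = s^2 c
    obtain ⟨s, hs⟩ := exists_sqrt (F := F) (c⁻¹)
    have hsc : s * s * c = 1 := by rw [hs]; exact inv_mul_cancel₀ hc0
    let P : Matrix.SpecialLinearGroup (Fin 2) F := ⟨!![s * (a + 1), s; s * c, 0], by
      rw [Matrix.det_fin_two_of]; linear_combination hsc - s * s * c * h2⟩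
    refine ⟨P, ?_⟩
    rw [mul_inv_eq_iff_eq_mul]
    apply Matrix.SpecialLinearGroup.ext
    intro i j
    rw [Matrix.SpecialLinearGroup.coe_mul, Matrix.SpecialLinearGroup.coe_mul, hg']
    fin_cases i <;> fin_cases j <;> simp [P, u0, Matrix.mul_apply, Fin.sum_univ_two]
    · linear_combination s * hdet' - s * a * h2 + (s + s * a - s * a ^ 2 - s * b * c) * h2
    · linear_combination (-(s * a)) * h2 - s * h2 + (2 * s + s * a) * h2
    · linear_combination (-(s * c * a)) * h2 
    · ring

theorem card_involutions :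
    Nat.card {h : Matrix.SpecialLinearGroup (Fin 2) F // orderOf h = 2} = Fintype.card F ^ 2 - 1 := by
  classical
  have h2 : (2 : F) = 0 := CharTwo.two_eq_zero
  have hcard : Nat.card {v : F × F // v ≠ 0} = Fintype.card F ^ 2 - 1 := by
    rw [Nat.card_eq_fintype_card, Fintype.card_subtype_compl, Fintype.card_prod,
      Fintype.card_subtype_eq, sq]
  rw [← hcard]
  let f : {h : Matrix.SpecialLinearGroup (Fin 2) F // orderOf h = 2} → {v : F × F // v ≠ 0} := fun h =>
    ⟨((h.1 : Matrix (Fin 2) (Fin 2) F) 0 1, (h.1 : Matrix (Fin 2) (Fin 2) F) 1 0), by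
      intro h0
      have := (inv_form h.1 h.2).2
      simp only [Prod.mk_eq_zero] at h0
      rcases this with h1 | h1
      · exact h1 h0.1
      · exact h1 h0.2⟩
  apply Nat.card_congr
  apply Equiv.ofBijective f
  constructor
  · rintro ⟨h, hh⟩ ⟨h', hh'⟩ heq
    simp only [f, Subtype.mk.injEq, Prod.mk.injEq] at heq
    obtain ⟨e1, e2⟩ := heq
    have had := (inv_form h hh).1
    have had' := (inv_form h' hh').1
    have hdet := h.det_coe
    have hdet' := h'.det_coe
    rw [Matrix.det_fin_two] at hdet hdet'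
    have ha : (h : Matrix (Fin 2) (Fin 2) F) 0 0 = (h' : Matrix (Fin 2) (Fin 2) F) 0 0 := by
      apply sq_inj
      rw [← had] at hdet
      rw [← had'] at hdet'
      rw [e1, e2] at hdet
      linear_combination hdet - hdet'
    apply Subtype.ext
    show h = h'
    apply Matrix.SpecialLinearGroup.ext
    intro i j
    fin_cases i <;> fin_cases j
    · exact ha
    · exact e1
    · exact e2
    · show (h : Matrix (Fin 2) (Fin 2) F) 1 1 = (h' : Matrix (Fin 2) (Fin 2) F) 1 1
      rw [← had, ← had', ha]
  · rintro ⟨⟨b, c⟩, hv⟩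
    obtain ⟨s, hs⟩ := exists_sqrt (F := F) (1 + b * c)
    let h : Matrix.SpecialLinearGroup (Fin 2) F := ⟨!![s, b; c, s], by
      rw [Matrix.det_fin_two_of]; linear_combination hs⟩
    have hh : orderOf h = 2 := by
      have : Fact (Nat.Prime 2) := ⟨Nat.prime_two⟩
      apply orderOf_eq_prime
      · rw [pow_two]
        apply Matrix.SpecialLinearGroup.ext
        intro i j
        rw [Matrix.SpecialLinearGroup.coe_mul, Matrix.SpecialLinearGroup.coe_one]
        fin_cases i <;> fin_cases j <;> simp [h, Matrix.mul_apply, Fin.sum_univ_two]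
        · linear_combination hs - b * c * h2 + 2 * b * c * h2
        · linear_combination b * s * h2
        · linear_combination c * s * h2
        · linear_combination hs - b * c * h2 + 2 * c * b * h2
      · intro h1
        have e1 := congrArg (fun M : Matrix.SpecialLinearGroup (Fin 2) F => (M : Matrix (Fin 2) (Fin 2) F) 0 1) h1
        have e2 := congrArg (fun M : Matrix.SpecialLinearGroup (Fin 2) F => (M : Matrix (Fin 2) (Fin 2) F) 1 0) h1
        simp [h] at e1 e2
        apply hv
        simp [e1, e2]
    refine ⟨⟨h, hh⟩, ?_⟩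
    simp [f, h]

/-- Over a finite field with q elements of characteristic 2, the involutions of SL₂ (the non-identity unipotent elements) form a single conjugacy class, of size q² − 1. -/
theorem result {F : Type*} [Field F] [Fintype F] [CharP F 2] (g h : Matrix.SpecialLinearGroup (Fin 2) F) (hg : orderOf g = 2) (hh : orderOf h = 2) :
    IsConj g h ∧ Nat.card (ConjClasses.mk g).carrier = Fintype.card F ^ 2 - 1 := by
  have key : ∀ k : Matrix.SpecialLinearGroup (Fin 2) F, orderOf k = 2 → IsConj g k :=
    fun k hk => (conj_u0 g hg).trans (conj_u0 k hk).symm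
  refine ⟨key h hh, ?_⟩
  rw [← card_involutions (F := F)]
  apply Nat.card_congr
  apply Equiv.subtypeEquivRight
  intro k
  rw [ConjClasses.mem_carrier_iff_mk_eq, ConjClasses.mk_eq_mk_iff_isConj]
  constructor
  · intro hk
    obtain ⟨c, hc⟩ := hk
    exact hc.orderOf_eq.trans hg
  · intro hk
    exact (key k hk).symm

end Cfsg.Agent.S2302
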