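import Cfsg.Statements.S2303

set_option autoImplicit false
open Cfsg

namespace Cfsg.Agent.S2303

variable {F : Type*} [Field F]

theorem mem_cent_iff (g h : Matrix.GeneralLinearGroup (Fin 2) F) :
    h ∈ Subgroup.centralizer ({g} : Set (Matrix.GeneralLinearGroup (Fin 2) F)) ↔
      (h : Matrix (Fin 2) (Fin 2) F) * (g : Matrix (Fin 2) (Fin 2) F) =
        (g : Matrix (Fin 2) (Fin 2) F) * (h : Matrix (Fin 2) (Fin 2) F) := by
  rw [Subgroup.mem_centralizer_singleton_iff]
  constructor
  · intro h1
    have := congrArg (fun M : Matrix.GeneralLinearGroup (Fin 2) F => (M : Matrix (Fin 2) (Fin 2) F)) h1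
    simpa using this
  · intro h1
    apply Units.ext
    simpa using h1

theorem card_nonzero [Fintype F] : Nat.card {v : F × F // v ≠ 0} = Fintype.card F ^ 2 - 1 := by
  classical
  rw [Nat.card_eq_fintype_card, Fintype.card_subtype_compl, Fintype.card_prod,
    Fintype.card_subtype_eq, sq]

theorem part1 [Fintype F] (g : Matrix.GeneralLinearGroup (Fin 2) F)
    (h01 : (g : Matrix (Fin 2) (Fin 2) F) 0 1 = 0) (h10 : (g : Matrix (Fin 2) (Fin 2) F) 1 0 = 0)
    (hne : (g : Matrix (Fin 2) (Fin 2) F) 0 0 ≠ (g : Matrix (Fin 2) (Fin 2) F) 1 1) :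
    Nat.card (Subgroup.centralizer ({g} : Set (Matrix.GeneralLinearGroup (Fin 2) F))) = (Fintype.card F - 1) ^ 2 := by
  classical
  have hcard : Nat.card (Fˣ × Fˣ) = (Fintype.card F - 1) ^ 2 := by
    rw [Nat.card_eq_fintype_card, Fintype.card_prod, Fintype.card_units, sq]
  rw [← hcard]
  generalize ha : (g : Matrix (Fin 2) (Fin 2) F) 0 0 = a at *
  generalize hd : (g : Matrix (Fin 2) (Fin 2) F) 1 1 = d at *
  have hg : (g : Matrix (Fin 2) (Fin 2) F) = !![a, 0; 0, d] := by
    rw [Matrix.eta_fin_two (g : Matrix (Fin 2) (Fin 2) F), ha, hd, h01, h10]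
  -- shape of centralizer elements
  have hshape : ∀ h : Matrix.GeneralLinearGroup (Fin 2) F,
      h ∈ Subgroup.centralizer ({g} : Set (Matrix.GeneralLinearGroup (Fin 2) F)) ↔
      (h : Matrix (Fin 2) (Fin 2) F) 0 1 = 0 ∧ (h : Matrix (Fin 2) (Fin 2) F) 1 0 = 0 := by
    intro h
    rw [mem_cent_iff, hg]
    constructor
    · intro hc
      have e01 := congrFun (congrFun hc 0) 1
      have e10 := congrFun (congrFun hc 1) 0
      simp [Matrix.mul_apply, Fin.sum_univ_two] at e01 e10
      constructor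
      · have : (h : Matrix (Fin 2) (Fin 2) F) 0 1 * (d - a) = 0 := by linear_combination e01
        rcases mul_eq_zero.mp this with h1 | h1
        · exact h1
        · exact absurd (sub_eq_zero.mp h1).symm hne
      · have : (h : Matrix (Fin 2) (Fin 2) F) 1 0 * (a - d) = 0 := by linear_combination e10
        rcases mul_eq_zero.mp this with h1 | h1
        · exact h1
        · exact absurd (sub_eq_zero.mp h1) hne
    · rintro ⟨e1, e2⟩
      ext i j
      fin_cases i <;> fin_cases j <;> simp [Matrix.mul_apply, Fin.sum_univ_two, e1, e2, mul_comm]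
  have hdiag : ∀ h : Matrix.GeneralLinearGroup (Fin 2) F,
      (h : Matrix (Fin 2) (Fin 2) F) 0 1 = 0 → (h : Matrix (Fin 2) (Fin 2) F) 1 0 = 0 →
      (h : Matrix (Fin 2) (Fin 2) F) 0 0 ≠ 0 ∧ (h : Matrix (Fin 2) (Fin 2) F) 1 1 ≠ 0 := by
    intro h e1 e2
    have hdet := Matrix.GeneralLinearGroup.det_ne_zero h
    rw [Matrix.det_fin_two, e1, e2] at hdet
    simp at hdet
    exact hdet
  let f : Subgroup.centralizer ({g} : Set (Matrix.GeneralLinearGroup (Fin 2) F)) → Fˣ × Fˣ := fun h =>
    (Units.mk0 _ (hdiag h.1 ((hshape h.1).mp h.2).1 ((hshape h.1).mp h.2).2).1,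
     Units.mk0 _ (hdiag h.1 ((hshape h.1).mp h.2).1 ((hshape h.1).mp h.2).2).2)
  apply Nat.card_congr
  apply Equiv.ofBijective f
  constructor
  · rintro ⟨h, hh⟩ ⟨h', hh'⟩ heq
    simp only [f, Prod.mk.injEq, Units.mk0_inj] at heq
    apply Subtype.ext
    apply Matrix.GeneralLinearGroup.ext
    intro i j
    have s := (hshape h).mp hh
    have s' := (hshape h').mp hh'
    fin_cases i <;> fin_cases j
    · exact heq.1
    · show (h : Matrix (Fin 2) (Fin 2) F) 0 1 = (h' : Matrix (Fin 2) (Fin 2) F) 0 1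
      rw [s.1, s'.1]
    · show (h : Matrix (Fin 2) (Fin 2) F) 1 0 = (h' : Matrix (Fin 2) (Fin 2) F) 1 0
      rw [s.2, s'.2]
    · exact heq.2
  · rintro ⟨u, v⟩
    let h : Matrix.GeneralLinearGroup (Fin 2) F :=
      Matrix.GeneralLinearGroup.mkOfDetNeZero !![(u : F), 0; 0, (v : F)] (by
        rw [Matrix.det_fin_two_of]; simp)
    have hh : h ∈ Subgroup.centralizer ({g} : Set (Matrix.GeneralLinearGroup (Fin 2) F)) := by
      rw [hshape]
      simp [h, Matrix.GeneralLinearGroup.mkOfDetNeZero]
    refine ⟨⟨h, hh⟩, ?_⟩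
    simp only [f, Prod.mk.injEq]
    constructor
    · apply Units.ext
      simp [h, Matrix.GeneralLinearGroup.mkOfDetNeZero]
    · apply Units.ext
      simp [h, Matrix.GeneralLinearGroup.mkOfDetNeZero]

theorem part2 [Fintype F] (g : Matrix.GeneralLinearGroup (Fin 2) F)
    (hev : ∀ (c : F) (v : Fin 2 → F), v ≠ 0 → (g : Matrix (Fin 2) (Fin 2) F).mulVec v ≠ c • v) :
    Nat.card (Subgroup.centralizer ({g} : Set (Matrix.GeneralLinearGroup (Fin 2) F))) = Fintype.card F ^ 2 - 1 := by
  classical
  rw [← card_nonzero (F := F)]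
  generalize ha : (g : Matrix (Fin 2) (Fin 2) F) 0 0 = a at *
  generalize hb : (g : Matrix (Fin 2) (Fin 2) F) 0 1 = b at *
  generalize hc : (g : Matrix (Fin 2) (Fin 2) F) 1 0 = c at *
  generalize hd : (g : Matrix (Fin 2) (Fin 2) F) 1 1 = d at *
  have hg : (g : Matrix (Fin 2) (Fin 2) F) = !![a, b; c, d] := by
    rw [Matrix.eta_fin_two (g : Matrix (Fin 2) (Fin 2) F), ha, hb, hc, hd]
  have hc0 : c ≠ 0 := by
    intro hc0
    apply hev a ![1, 0]
    · intro h
      have := congrFun h 0
      simp at this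
    · rw [hg, hc0]
      ext i
      fin_cases i <;> simp [Matrix.mulVec, dotProduct, Fin.sum_univ_two]
  -- no root of the characteristic polynomial
  have hroot : ∀ l : F, l * l - (a + d) * l + (a * d - b * c) ≠ 0 := by
    intro l hl
    apply hev l ![l - d, c]
    · intro h
      have := congrFun h 1
      simp at this
      exact hc0 this
    · rw [hg]
      ext i
      fin_cases i <;> simp [Matrix.mulVec, dotProduct, Fin.sum_univ_two]
      · linear_combination -hl
      · ring
  have hdetne : ∀ x y : F, (x, y) ≠ (0 : F × F) → (!![x + y * a, y * b; y * c, x + y * d] : Matrix (Fin 2) (Fin 2) F).det ≠ 0 := by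
    intro x y hxy hdet
    rw [Matrix.det_fin_two_of] at hdet
    by_cases hy : y = 0
    · subst hy
      have hx : x ≠ 0 := by
        intro hx
        apply hxy
        simp [hx]
      apply hx
      have : x * x = 0 := by linear_combination hdet
      exact mul_self_eq_zero.mp this
    · apply hroot (-x / y)
      field_simp
      linear_combination hdet
  have hshape : ∀ h : Matrix.GeneralLinearGroup (Fin 2) F,
      h ∈ Subgroup.centralizer ({g} : Set (Matrix.GeneralLinearGroup (Fin 2) F)) ↔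
      ∃ x y : F, (h : Matrix (Fin 2) (Fin 2) F) = !![x + y * a, y * b; y * c, x + y * d] := by
    intro h
    rw [mem_cent_iff, hg]
    constructor
    · intro hcm
      have e00 := congrFun (congrFun hcm 0) 0
      have e01 := congrFun (congrFun hcm 0) 1
      have e10 := congrFun (congrFun hcm 1) 0
      have e11 := congrFun (congrFun hcm 1) 1
      simp [Matrix.mul_apply, Fin.sum_univ_two] at e00 e01 e10 e11
      generalize hα : (h : Matrix (Fin 2) (Fin 2) F) 0 0 = α at *
      generalize hβ : (h : Matrix (Fin 2) (Fin 2) F) 0 1 = β at *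
      generalize hγ : (h : Matrix (Fin 2) (Fin 2) F) 1 0 = γ at *
      generalize hδ : (h : Matrix (Fin 2) (Fin 2) F) 1 1 = δ at *
      refine ⟨α - γ / c * a, γ / c, ?_⟩
      rw [Matrix.eta_fin_two (h : Matrix (Fin 2) (Fin 2) F), hα, hβ, hγ, hδ]
      ext i j
      fin_cases i <;> fin_cases j <;> simp
      · field_simp
        linear_combination e00
      · field_simp
      · field_simp
        linear_combination e10
    · rintro ⟨x, y, hxy⟩
      rw [hxy]
      ext i j
      fin_cases i <;> fin_cases j <;> simp [Matrix.mul_apply, Fin.sum_univ_two] <;> ring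
  let Φ : {v : F × F // v ≠ 0} → Subgroup.centralizer ({g} : Set (Matrix.GeneralLinearGroup (Fin 2) F)) := fun v =>
    ⟨Matrix.GeneralLinearGroup.mkOfDetNeZero !![v.1.1 + v.1.2 * a, v.1.2 * b; v.1.2 * c, v.1.1 + v.1.2 * d]
      (hdetne v.1.1 v.1.2 v.2), (hshape _).mpr ⟨v.1.1, v.1.2, rfl⟩⟩
  symm
  apply Nat.card_congr
  apply Equiv.ofBijective Φ
  constructor
  · rintro ⟨⟨x, y⟩, hv⟩ ⟨⟨x', y'⟩, hv'⟩ heq
    have h1 := congrArg (fun M : Subgroup.centralizer ({g} : Set (Matrix.GeneralLinearGroup (Fin 2) F)) =>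
      ((M : Matrix.GeneralLinearGroup (Fin 2) F) : Matrix (Fin 2) (Fin 2) F)) heq
    simp only [Φ, Matrix.GeneralLinearGroup.mkOfDetNeZero] at h1
    have e00 := congrFun (congrFun h1 0) 0
    have e10 := congrFun (congrFun h1 1) 0
    simp at e00 e10
    have hy : y = y' := by
      rcases e10 with h | h
      · exact h
      · exact absurd h hc0
    subst hy
    have hx : x = x' := by linear_combination e00
    subst hx
    rfl
  · rintro ⟨h, hh⟩
    obtain ⟨x, y, hxy⟩ := (hshape h).mp hh
    have hne : (x, y) ≠ (0 : F × F) := by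
      intro h0
      simp only [Prod.mk_eq_zero] at h0
      have hdet := Matrix.GeneralLinearGroup.det_ne_zero h
      rw [hxy, h0.1, h0.2, Matrix.det_fin_two_of] at hdet
      simp at hdet
    refine ⟨⟨(x, y), hne⟩, ?_⟩
    apply Subtype.ext
    apply Units.ext
    simp only [Φ, Matrix.GeneralLinearGroup.mkOfDetNeZero]
    exact hxy.symm

/-- Over a finite field with q elements: a diagonal element of GL₂ with two distinct diagonal entries has centralizer of order (q − 1)² (so q(q + 1) conjugates), and an element of GL₂ with no eigenvector in F² has centralizer of order q² − 1 (so q(q − 1) conjugates). -/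
theorem result {F : Type*} [Field F] [Fintype F] (g : Matrix.GeneralLinearGroup (Fin 2) F) :
    ((g : Matrix (Fin 2) (Fin 2) F) 0 1 = 0 → (g : Matrix (Fin 2) (Fin 2) F) 1 0 = 0 → (g : Matrix (Fin 2) (Fin 2) F) 0 0 ≠ (g : Matrix (Fin 2) (Fin 2) F) 1 1 →
      Nat.card (Subgroup.centralizer ({g} : Set (Matrix.GeneralLinearGroup (Fin 2) F))) = (Fintype.card F - 1) ^ 2) ∧
    ((∀ (c : F) (v : Fin 2 → F), v ≠ 0 → (g : Matrix (Fin 2) (Fin 2) F).mulVec v ≠ c • v) →
      Nat.card (Subgroup.centralizer ({g} : Set (Matrix.GeneralLinearGroup (Fin 2) F))) = Fintype.card F ^ 2 - 1) :=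
  ⟨part1 g, part2 g⟩

end Cfsg.Agent.S2303
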