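import Cfsg.Statements.S2305
import Cfsg.Agent.Helper38.GL2Ind
import Cfsg.Agent.Helper38.InnerAux

set_option autoImplicit false
open Cfsg

namespace Cfsg.Agent.S2305

open Cfsg.Agent.Helper38 in
theorem ind_swap {F : Type*} [Field F] [Fintype F] [DecidableEq F] (α β : MulChar F ℂ) :
    Cfsg.indFun (Cfsg.upperTriangularGL 2 F) (fun b => thetaHom α β b) =
      Cfsg.indFun (Cfsg.upperTriangularGL 2 F) (fun b => thetaHom β α b) := by
  apply eq_of_classInner_eq _ _ ((if α = α ∧ β = β then 1 else 0) + (if α = β ∧ β = α then 1 else 0))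
  · split_ifs <;> simp
  · exact classInner_indFun_thetaHom α β α β
  · rw [classInner_indFun_thetaHom α β β α]
    by_cases h : α = β
    · simp [h]
    · have h' : ¬ β = α := fun e => h e.symm
      simp [h, h']
  · rw [classInner_indFun_thetaHom β α β α]
    by_cases h : α = β
    · simp [h]
    · have h' : ¬ β = α := fun e => h e.symm
      simp [h, h']

/-- Over a finite field F, for multiplicative characters α, β, α′, β′ of F, the characters of GL₂ induced from the linear characters b ↦ α(b₁₁) β(b₂₂) and b ↦ α′(b₁₁) β′(b₂₂) of the upper triangular subgroup coincide exactly when {α, β} = {α′, β′} as unordered pairs. -/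
theorem result {F : Type*} [Field F] [Fintype F] [DecidableEq F] (α β α' β' : MulChar F ℂ) :
    Cfsg.indFun (Cfsg.upperTriangularGL 2 F) (fun b => α (((b : Matrix.GeneralLinearGroup (Fin 2) F) : Matrix (Fin 2) (Fin 2) F) 0 0) * β (((b : Matrix.GeneralLinearGroup (Fin 2) F) : Matrix (Fin 2) (Fin 2) F) 1 1)) = Cfsg.indFun (Cfsg.upperTriangularGL 2 F) (fun b => α' (((b : Matrix.GeneralLinearGroup (Fin 2) F) : Matrix (Fin 2) (Fin 2) F) 0 0) * β' (((b : Matrix.GeneralLinearGroup (Fin 2) F) : Matrix (Fin 2) (Fin 2) F) 1 1)) ↔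
      (α = α' ∧ β = β') ∨ (α = β' ∧ β = α') := by
  constructor
  · intro h
    have h' : Cfsg.indFun (Cfsg.upperTriangularGL 2 F) (fun b => Cfsg.Agent.Helper38.thetaHom α β b) =
        Cfsg.indFun (Cfsg.upperTriangularGL 2 F) (fun b => Cfsg.Agent.Helper38.thetaHom α' β' b) := h
    have h1 := Cfsg.Agent.Helper38.classInner_indFun_thetaHom α β α' β'
    have h2 := Cfsg.Agent.Helper38.classInner_indFun_thetaHom α β α β
    rw [← h', h2] at h1
    by_contra hcon
    obtain ⟨hc1, hc2⟩ := not_or.mp hcon
    rw [if_neg hc1, if_neg hc2] at h1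
    simp only [and_self, if_true, add_zero] at h1
    by_cases hab : α = β
    · simp [hab] at h1
    · have hba : ¬ (α = β ∧ β = α) := fun e => hab e.1
      simp [hba] at h1
  · rintro (⟨rfl, rfl⟩ | ⟨rfl, rfl⟩)
    · rfl
    · exact ind_swap α β

end Cfsg.Agent.S2305
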