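import Cfsg.Statements.S2306
import Cfsg.Agent.Helper38.SL2Ind

set_option autoImplicit false
open Cfsg

namespace Cfsg.Agent.S2306

/-- Over a finite field F, for a multiplicative character α of F, the function induced to SL₂ from the linear character b ↦ α(b₁₁) of the upper triangular subgroup is an irreducible character if and only if α² ≠ 1. -/
theorem result {F : Type*} [Field F] [Fintype F] [DecidableEq F] (α : MulChar F ℂ) :
    Cfsg.IsIrrCharacter (Matrix.SpecialLinearGroup (Fin 2) F) (Cfsg.indFun ((Cfsg.upperTriangularGL 2 F).comap Matrix.SpecialLinearGroup.toGL) (fun b => α (((b : Matrix.SpecialLinearGroup (Fin 2) F) : Matrix (Fin 2) (Fin 2) F) 0 0))) ↔ α ^ 2 ≠ 1 := by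
  have h1 : Cfsg.IsCharacter (Matrix.SpecialLinearGroup (Fin 2) F)
      (Cfsg.indFun ((Cfsg.upperTriangularGL 2 F).comap Matrix.SpecialLinearGroup.toGL)
        (fun b => Cfsg.Agent.Helper38.alphaHom α b)) :=
    Cfsg.Agent.Helper3.isCharacter_indFun _ _ (Cfsg.Agent.Helper38.alphaHom_isCharacter α)
  have h2 := Cfsg.Agent.Helper38.classInner_indFun_alphaHom α α
  constructor
  · intro hirr h2'
    have h3 : Cfsg.classInner
        (Cfsg.indFun ((Cfsg.upperTriangularGL 2 F).comap Matrix.SpecialLinearGroup.toGL)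
          (fun b => Cfsg.Agent.Helper38.alphaHom α b))
        (Cfsg.indFun ((Cfsg.upperTriangularGL 2 F).comap Matrix.SpecialLinearGroup.toGL)
          (fun b => Cfsg.Agent.Helper38.alphaHom α b)) = 1 :=
      Cfsg.Agent.Helper15.irr_inner_self hirr
    have h4 : α * α = 1 := by rw [← pow_two]; exact h2'
    rw [if_pos rfl, if_pos h4, h3] at h2
    norm_num at h2
  · intro hne
    apply Cfsg.Agent.Helper15.isIrr_of_inner_one h1
    have h4 : ¬ (α * α = 1) := by rw [← pow_two]; exact hne
    rw [h2, if_pos rfl, if_neg h4, add_zero]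

end Cfsg.Agent.S2306
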