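import Cfsg.Statements.S2307
import Cfsg.Agent.Helper38.SL2GL
import Cfsg.Agent.Helper38.InnerTwo
import Cfsg.Agent.Helper75.Clifford
import Cfsg.Agent.Helper80.CharNormal

set_option autoImplicit false
open Cfsg

namespace Cfsg.Agent.S2307

open Cfsg.Agent.Helper38 in
/-- Over a finite field F with q elements, q odd, let α be the multiplicative character of F of order 2. The character of SL₂ induced from the linear character b ↦ α(b₁₁) of the upper triangular subgroup is the sum of two distinct irreducible characters, each of degree (q + 1)/2, which are conjugate under GL₂: some fixed element of GL₂ conjugates the one into the other. -/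
theorem result {F : Type*} [Field F] [Fintype F] [DecidableEq F] (hodd : Odd (Fintype.card F)) (α : MulChar F ℂ)
    (hα : α ^ 2 = 1) (hα1 : α ≠ 1) :
    ∃ χ₁ χ₂ : Matrix.SpecialLinearGroup (Fin 2) F → ℂ, Cfsg.IsIrrCharacter (Matrix.SpecialLinearGroup (Fin 2) F) χ₁ ∧ Cfsg.IsIrrCharacter (Matrix.SpecialLinearGroup (Fin 2) F) χ₂ ∧ χ₁ ≠ χ₂ ∧
      Cfsg.indFun ((Cfsg.upperTriangularGL 2 F).comap Matrix.SpecialLinearGroup.toGL) (fun b => α (((b : Matrix.SpecialLinearGroup (Fin 2) F) : Matrix (Fin 2) (Fin 2) F) 0 0)) = χ₁ + χ₂ ∧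
      χ₁ 1 = (((Fintype.card F + 1) / 2 : ℕ) : ℂ) ∧ χ₂ 1 = (((Fintype.card F + 1) / 2 : ℕ) : ℂ) ∧
      ∃ x : Matrix.GeneralLinearGroup (Fin 2) F, ∀ g h : Matrix.SpecialLinearGroup (Fin 2) F,
        Matrix.SpecialLinearGroup.toGL h = x * Matrix.SpecialLinearGroup.toGL g * x⁻¹ → χ₂ h = χ₁ g := by
  classical
  have hΦchar : Cfsg.IsCharacter (Matrix.SpecialLinearGroup (Fin 2) F)
      (Cfsg.indFun ((Cfsg.upperTriangularGL 2 F).comap Matrix.SpecialLinearGroup.toGL)
        (fun b => alphaHom α b)) :=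
    Cfsg.Agent.Helper3.isCharacter_indFun _ _ (alphaHom_isCharacter α)
  have hnorm : Cfsg.classInner
      (Cfsg.indFun ((Cfsg.upperTriangularGL 2 F).comap Matrix.SpecialLinearGroup.toGL)
        (fun b => alphaHom α b))
      (Cfsg.indFun ((Cfsg.upperTriangularGL 2 F).comap Matrix.SpecialLinearGroup.toGL)
        (fun b => alphaHom α b)) = 2 := by
    rw [classInner_indFun_alphaHom, if_pos rfl, if_pos (by rw [← pow_two]; exact hα)]
    norm_num
  obtain ⟨χ₁, χ₂, hne, hsum⟩ := exists_two_irr_of_inner_two hΦchar hnorm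
  have hΨirr : Cfsg.IsIrrCharacter (Matrix.GeneralLinearGroup (Fin 2) F)
      (Cfsg.indFun (Cfsg.upperTriangularGL 2 F) (fun b => thetaHom α 1 b)) := by
    apply Cfsg.Agent.Helper15.isIrr_of_inner_one
      (Cfsg.Agent.Helper3.isCharacter_indFun _ _ (thetaHom_isCharacter α 1))
    rw [classInner_indFun_thetaHom, if_pos ⟨rfl, rfl⟩, if_neg (fun h => hα1 h.1), add_zero]
  have hres := indFun_toGL α
  let e : Matrix.SpecialLinearGroup (Fin 2) F ≃*
      (Matrix.SpecialLinearGroup.toGL :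
        Matrix.SpecialLinearGroup (Fin 2) F →* Matrix.GeneralLinearGroup (Fin 2) F).range :=
    MonoidHom.ofInjective Matrix.SpecialLinearGroup.toGL_injective
  haveI : Fintype (Matrix.SpecialLinearGroup.toGL :
        Matrix.SpecialLinearGroup (Fin 2) F →* Matrix.GeneralLinearGroup (Fin 2) F).range :=
    Fintype.ofFinite _
  have hθ₁ : Cfsg.IsIrrCharacter _ (fun n => (χ₁ : Matrix.SpecialLinearGroup (Fin 2) F → ℂ) (e.symm n)) :=
    Cfsg.Agent.Helper80.irr_comp_surjective e.symm.toMonoidHom e.symm.surjective χ₁.2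
  have hθ₂ : Cfsg.IsIrrCharacter _ (fun n => (χ₂ : Matrix.SpecialLinearGroup (Fin 2) F → ℂ) (e.symm n)) :=
    Cfsg.Agent.Helper80.irr_comp_surjective e.symm.toMonoidHom e.symm.surjective χ₂.2
  have hresN : (fun n : (Matrix.SpecialLinearGroup.toGL :
        Matrix.SpecialLinearGroup (Fin 2) F →* Matrix.GeneralLinearGroup (Fin 2) F).range =>
      Cfsg.indFun (Cfsg.upperTriangularGL 2 F) (fun b => thetaHom α 1 b) n) =
      fun n => Cfsg.indFun ((Cfsg.upperTriangularGL 2 F).comap Matrix.SpecialLinearGroup.toGL)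
        (fun b => alphaHom α b) (e.symm n) := by
    funext n
    rw [← hres]
    congr 1
    exact (congrArg Subtype.val (e.apply_symm_apply n)).symm
  have hne' : (χ₁ : Matrix.SpecialLinearGroup (Fin 2) F → ℂ) ≠ χ₂ := fun h => hne (Subtype.ext h)
  have hin₁ : Cfsg.classInner (fun n : (Matrix.SpecialLinearGroup.toGL :
        Matrix.SpecialLinearGroup (Fin 2) F →* Matrix.GeneralLinearGroup (Fin 2) F).range =>
      Cfsg.indFun (Cfsg.upperTriangularGL 2 F) (fun b => thetaHom α 1 b) n)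
      (fun n => (χ₁ : Matrix.SpecialLinearGroup (Fin 2) F → ℂ) (e.symm n)) ≠ 0 := by
    rw [hresN, classInner_comp_equiv e.symm _ (χ₁ : Matrix.SpecialLinearGroup (Fin 2) F → ℂ), hsum,
      Cfsg.Agent.Helper15.classInner_add_left, Cfsg.Agent.Helper15.irr_inner_self χ₁.2,
      Cfsg.Agent.Helper15.irr_inner_ne χ₂.2 χ₁.2 hne'.symm]
    norm_num
  have hin₂ : Cfsg.classInner (fun n : (Matrix.SpecialLinearGroup.toGL :
        Matrix.SpecialLinearGroup (Fin 2) F →* Matrix.GeneralLinearGroup (Fin 2) F).range =>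
      Cfsg.indFun (Cfsg.upperTriangularGL 2 F) (fun b => thetaHom α 1 b) n)
      (fun n => (χ₂ : Matrix.SpecialLinearGroup (Fin 2) F → ℂ) (e.symm n)) ≠ 0 := by
    rw [hresN, classInner_comp_equiv e.symm _ (χ₂ : Matrix.SpecialLinearGroup (Fin 2) F → ℂ), hsum,
      Cfsg.Agent.Helper15.classInner_add_left, Cfsg.Agent.Helper15.irr_inner_self χ₂.2,
      Cfsg.Agent.Helper15.irr_inner_ne χ₁.2 χ₂.2 hne']
    norm_num
  obtain ⟨x, hx⟩ := Cfsg.Agent.Helper75.clifford_irrCharacter _ _ hΨirr _ _ hθ₁ hθ₂ hin₁ hin₂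
  have hconj : ∀ g h : Matrix.SpecialLinearGroup (Fin 2) F,
      Matrix.SpecialLinearGroup.toGL h = x * Matrix.SpecialLinearGroup.toGL g * x⁻¹ →
      (χ₂ : Matrix.SpecialLinearGroup (Fin 2) F → ℂ) h = (χ₁ : Matrix.SpecialLinearGroup (Fin 2) F → ℂ) g := by
    intro g h hgh
    have h1 := hx (e g)
    simp only [MulEquiv.symm_apply_apply] at h1
    have e2 : h = e.symm (MulAut.conjNormal x (e g)) := by
      rw [MulEquiv.eq_symm_apply]
      apply Subtype.ext
      exact hgh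
    rw [h1, ← e2]
  have hdeg : (χ₂ : Matrix.SpecialLinearGroup (Fin 2) F → ℂ) 1 = (χ₁ : Matrix.SpecialLinearGroup (Fin 2) F → ℂ) 1 :=
    hconj 1 1 (by simp)
  have hΦ1 := indFun_alphaHom_one α
  have hsum1 : (χ₁ : Matrix.SpecialLinearGroup (Fin 2) F → ℂ) 1 + (χ₂ : Matrix.SpecialLinearGroup (Fin 2) F → ℂ) 1
      = (Fintype.card F : ℂ) + 1 := by
    rw [← hΦ1, hsum]
    rfl
  obtain ⟨k, hk⟩ := hodd
  have hq2 : (Fintype.card F + 1) / 2 = k + 1 := by omega
  have h1 : (χ₁ : Matrix.SpecialLinearGroup (Fin 2) F → ℂ) 1 = ((k + 1 : ℕ) : ℂ) := by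
    rw [hdeg, hk] at hsum1
    push_cast at hsum1 ⊢
    linear_combination hsum1 / 2
  refine ⟨χ₁.1, χ₂.1, χ₁.2, χ₂.2, hne', hsum, ?_, ?_, x, hconj⟩
  · rw [hq2]; exact h1
  · rw [hq2, hdeg]; exact h1

end Cfsg.Agent.S2307
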