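import Cfsg.Statements.S2308

set_option autoImplicit false
open Cfsg

namespace Cfsg.Agent.S2308

variable {F : Type*} [Field F]

theorem mem_B_iff (h : Matrix.GeneralLinearGroup (Fin 2) F) :
    h ∈ Cfsg.upperTriangularGL 2 F ↔ (h : Matrix (Fin 2) (Fin 2) F) 1 0 = 0 := by
  show (h : Matrix (Fin 2) (Fin 2) F).BlockTriangular id ↔ _
  constructor
  · intro hb
    exact hb (by simp : (id (0 : Fin 2)) < id 1)
  · intro h10 i j hij
    fin_cases i <;> fin_cases j <;> simp_all

/-- coset representative with first column `(t, 1)` -/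
def nn (t : F) : Matrix.GeneralLinearGroup (Fin 2) F :=
  ⟨!![t, 1; 1, 0], !![0, 1; 1, -t], by
    rw [Matrix.mul_fin_two, Matrix.one_fin_two]; simp,
   by rw [Matrix.mul_fin_two, Matrix.one_fin_two]; simp⟩

/-- the section `P¹(F) → G/B` -/
def sec : Option F → Matrix.GeneralLinearGroup (Fin 2) F ⧸ Cfsg.upperTriangularGL 2 F
  | none => ((1 : Matrix.GeneralLinearGroup (Fin 2) F) : Matrix.GeneralLinearGroup (Fin 2) F ⧸ Cfsg.upperTriangularGL 2 F)
  | some t => ((nn t : Matrix.GeneralLinearGroup (Fin 2) F) : Matrix.GeneralLinearGroup (Fin 2) F ⧸ Cfsg.upperTriangularGL 2 F)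

theorem nn_inv_mul (t : F) (x : Matrix.GeneralLinearGroup (Fin 2) F) :
    (((nn t)⁻¹ * x : Matrix.GeneralLinearGroup (Fin 2) F) : Matrix (Fin 2) (Fin 2) F) 1 0 =
      (x : Matrix (Fin 2) (Fin 2) F) 0 0 - t * (x : Matrix (Fin 2) (Fin 2) F) 1 0 := by
  rw [Matrix.GeneralLinearGroup.coe_mul]
  simp [nn, Matrix.mul_apply, Fin.sum_univ_two]
  ring

theorem sec_bijective : Function.Bijective (sec (F := F)) := by
  constructor
  · intro o o' h
    cases o with
    | none =>
      cases o' with
      | none => rfl
      | some t' =>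
        exfalso
        simp only [sec] at h
        rw [QuotientGroup.eq, mem_B_iff] at h
        simp [nn] at h
    | some t =>
      cases o' with
      | none =>
        exfalso
        simp only [sec] at h
        rw [QuotientGroup.eq, mem_B_iff, nn_inv_mul] at h
        simp at h
      | some t' =>
        simp only [sec] at h
        rw [QuotientGroup.eq, mem_B_iff, nn_inv_mul] at h
        simp [nn] at h
        congr 1
        linear_combination -h
  · intro y
    obtain ⟨x, rfl⟩ := QuotientGroup.mk_surjective y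
    by_cases hx : (x : Matrix (Fin 2) (Fin 2) F) 1 0 = 0
    · refine ⟨none, ?_⟩
      simp only [sec]
      rw [QuotientGroup.eq, mem_B_iff]
      simpa using hx
    · refine ⟨some ((x : Matrix (Fin 2) (Fin 2) F) 0 0 / (x : Matrix (Fin 2) (Fin 2) F) 1 0), ?_⟩
      simp only [sec]
      rw [QuotientGroup.eq, mem_B_iff, nn_inv_mul]
      field_simp
      ring

theorem fixed_iff (g : Matrix.GeneralLinearGroup (Fin 2) F) (o : Option F) :
    sec o ∈ MulAction.fixedBy (Matrix.GeneralLinearGroup (Fin 2) F ⧸ Cfsg.upperTriangularGL 2 F) g ↔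
    (match o with
      | none => (g : Matrix (Fin 2) (Fin 2) F) 1 0 = 0
      | some t => (g : Matrix (Fin 2) (Fin 2) F) 0 0 * t + (g : Matrix (Fin 2) (Fin 2) F) 0 1
          - t * ((g : Matrix (Fin 2) (Fin 2) F) 1 0 * t + (g : Matrix (Fin 2) (Fin 2) F) 1 1) = 0) := by
  rw [MulAction.mem_fixedBy]
  cases o with
  | none =>
    simp only [sec]
    rw [MulAction.Quotient.smul_mk, eq_comm, QuotientGroup.eq, mem_B_iff]
    simp
  | some t =>
    simp only [sec]
    rw [MulAction.Quotient.smul_mk, eq_comm, QuotientGroup.eq, mem_B_iff, nn_inv_mul]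
    simp [nn, Matrix.mul_apply, Fin.sum_univ_two]

theorem card_fixed (g : Matrix.GeneralLinearGroup (Fin 2) F) :
    Nat.card (MulAction.fixedBy (Matrix.GeneralLinearGroup (Fin 2) F ⧸ Cfsg.upperTriangularGL 2 F) g) =
    Nat.card {o : Option F // (match o with
      | none => (g : Matrix (Fin 2) (Fin 2) F) 1 0 = 0
      | some t => (g : Matrix (Fin 2) (Fin 2) F) 0 0 * t + (g : Matrix (Fin 2) (Fin 2) F) 0 1
          - t * ((g : Matrix (Fin 2) (Fin 2) F) 1 0 * t + (g : Matrix (Fin 2) (Fin 2) F) 1 1) = 0)} := by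
  symm
  apply Nat.card_congr
  exact Equiv.subtypeEquiv (Equiv.ofBijective sec sec_bijective) (fun o => (fixed_iff g o).symm)

theorem card_subtype_eq_one {α : Type*} (P : α → Prop) (x : α) (h : ∀ a, P a ↔ a = x) :
    Nat.card {a // P a} = 1 := by
  rw [Nat.card_eq_one_iff_unique]
  constructor
  · constructor
    rintro ⟨a, ha⟩ ⟨b, hb⟩
    apply Subtype.ext
    show a = b
    rw [(h a).mp ha, (h b).mp hb]
  · exact ⟨⟨x, (h x).mpr rfl⟩⟩

/-- Values of the permutation character of GL₂ over a finite field F with q elements on the cosets of its upper triangular subgroup (equivalently, the number of lines of F² that an element maps to themselves): q + 1 at a scalar matrix, 2 at a diagonal matrix with two different diagonal entries, 0 at an element with no eigenvector in F², and 1 at an upper triangular matrix with equal diagonal entries and non-zero upper right entry. -/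
theorem result {F : Type*} [Field F] [Fintype F] (g : Matrix.GeneralLinearGroup (Fin 2) F) :
    ((∃ a : F, (g : Matrix (Fin 2) (Fin 2) F) = a • (1 : Matrix (Fin 2) (Fin 2) F)) → Cfsg.fixedPointCharacter (Cfsg.upperTriangularGL 2 F) g = Fintype.card F + 1) ∧
    ((g : Matrix (Fin 2) (Fin 2) F) 0 1 = 0 → (g : Matrix (Fin 2) (Fin 2) F) 1 0 = 0 → (g : Matrix (Fin 2) (Fin 2) F) 0 0 ≠ (g : Matrix (Fin 2) (Fin 2) F) 1 1 →
      Cfsg.fixedPointCharacter (Cfsg.upperTriangularGL 2 F) g = 2) ∧
    ((∀ (c : F) (v : Fin 2 → F), v ≠ 0 → (g : Matrix (Fin 2) (Fin 2) F).mulVec v ≠ c • v) → Cfsg.fixedPointCharacter (Cfsg.upperTriangularGL 2 F) g = 0) ∧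
    ((g : Matrix (Fin 2) (Fin 2) F) 1 0 = 0 → (g : Matrix (Fin 2) (Fin 2) F) 0 0 = (g : Matrix (Fin 2) (Fin 2) F) 1 1 → (g : Matrix (Fin 2) (Fin 2) F) 0 1 ≠ 0 →
      Cfsg.fixedPointCharacter (Cfsg.upperTriangularGL 2 F) g = 1) := by
  classical
  unfold Cfsg.fixedPointCharacter
  simp only [card_fixed]
  refine ⟨?_, ?_, ?_, ?_⟩
  · rintro ⟨a, ha⟩
    have h1 : Nat.card {o : Option F // (match o with
      | none => (g : Matrix (Fin 2) (Fin 2) F) 1 0 = 0
      | some t => (g : Matrix (Fin 2) (Fin 2) F) 0 0 * t + (g : Matrix (Fin 2) (Fin 2) F) 0 1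
          - t * ((g : Matrix (Fin 2) (Fin 2) F) 1 0 * t + (g : Matrix (Fin 2) (Fin 2) F) 1 1) = 0)} = Fintype.card F + 1 := by
      rw [← Fintype.card_option, ← Nat.card_eq_fintype_card]
      apply Nat.card_congr
      apply Equiv.subtypeUnivEquiv
      intro o
      rw [ha]
      cases o with
      | none => simp
      | some t => simp; ring
    rw [h1]
    push_cast
    ring
  · intro h01 h10 hne
    have h1 : Nat.card {o : Option F // (match o with
      | none => (g : Matrix (Fin 2) (Fin 2) F) 1 0 = 0
      | some t => (g : Matrix (Fin 2) (Fin 2) F) 0 0 * t + (g : Matrix (Fin 2) (Fin 2) F) 0 1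
          - t * ((g : Matrix (Fin 2) (Fin 2) F) 1 0 * t + (g : Matrix (Fin 2) (Fin 2) F) 1 1) = 0)} = 2 := by
      rw [Nat.card_eq_two_iff]
      refine ⟨⟨none, h10⟩, ⟨some 0, by simp [h01]⟩, by simp, ?_⟩
      ext ⟨o, ho⟩
      simp only [Set.mem_insert_iff, Set.mem_singleton_iff, Set.mem_univ, iff_true, Subtype.mk.injEq]
      cases o with
      | none => left; rfl
      | some t =>
        right
        simp only [h01, h10] at ho
        have : t * ((g : Matrix (Fin 2) (Fin 2) F) 0 0 - (g : Matrix (Fin 2) (Fin 2) F) 1 1) = 0 := by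
          linear_combination ho
        rcases mul_eq_zero.mp this with h | h
        · rw [h]
        · exact absurd (sub_eq_zero.mp h) hne
    rw [h1]
    norm_num
  · intro hev
    have h1 : Nat.card {o : Option F // (match o with
      | none => (g : Matrix (Fin 2) (Fin 2) F) 1 0 = 0
      | some t => (g : Matrix (Fin 2) (Fin 2) F) 0 0 * t + (g : Matrix (Fin 2) (Fin 2) F) 0 1
          - t * ((g : Matrix (Fin 2) (Fin 2) F) 1 0 * t + (g : Matrix (Fin 2) (Fin 2) F) 1 1) = 0)} = 0 := by
      have : IsEmpty {o : Option F // (match o with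
        | none => (g : Matrix (Fin 2) (Fin 2) F) 1 0 = 0
        | some t => (g : Matrix (Fin 2) (Fin 2) F) 0 0 * t + (g : Matrix (Fin 2) (Fin 2) F) 0 1
            - t * ((g : Matrix (Fin 2) (Fin 2) F) 1 0 * t + (g : Matrix (Fin 2) (Fin 2) F) 1 1) = 0)} := by
        constructor
        rintro ⟨o, ho⟩
        cases o with
        | none =>
          simp only at ho
          apply hev ((g : Matrix (Fin 2) (Fin 2) F) 0 0) ![1, 0]
          · intro h
            have := congrFun h 0
            simp at this
          · ext i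
            fin_cases i <;> simp [Matrix.mulVec, dotProduct, Fin.sum_univ_two, ho]
        | some t =>
          simp only at ho
          apply hev ((g : Matrix (Fin 2) (Fin 2) F) 1 0 * t + (g : Matrix (Fin 2) (Fin 2) F) 1 1) ![t, 1]
          · intro h
            have := congrFun h 1
            simp at this
          · ext i
            fin_cases i <;> simp [Matrix.mulVec, dotProduct, Fin.sum_univ_two]
            linear_combination ho
      exact Nat.card_of_isEmpty
    rw [h1]
    norm_num
  · intro h10 had h01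
    have h1 : Nat.card {o : Option F // (match o with
      | none => (g : Matrix (Fin 2) (Fin 2) F) 1 0 = 0
      | some t => (g : Matrix (Fin 2) (Fin 2) F) 0 0 * t + (g : Matrix (Fin 2) (Fin 2) F) 0 1
          - t * ((g : Matrix (Fin 2) (Fin 2) F) 1 0 * t + (g : Matrix (Fin 2) (Fin 2) F) 1 1) = 0)} = 1 := by
      apply card_subtype_eq_one _ none
      intro o
      cases o with
      | none => simp [h10]
      | some t =>
        simp only [h10, had, reduceCtorEq, iff_false]
        intro h
        apply h01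
        linear_combination h
    rw [h1]
    norm_num

end Cfsg.Agent.S2308
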