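import Cfsg.Statements.S2309
import Cfsg.Agent.Helper39.GL2Values

set_option autoImplicit false
open Cfsg

namespace Cfsg.Agent.S2309

/-- Over a finite field F with q elements: every irreducible complex character of GL₂ of degree q − 1 vanishes at every diagonal matrix with two distinct entries, and every irreducible complex character of degree q + 1 vanishes at every element with no eigenvector in F². -/
theorem result {F : Type*} [Field F] [Fintype F] (χ : Matrix.GeneralLinearGroup (Fin 2) F → ℂ) (hχ : Cfsg.IsIrrCharacter (Matrix.GeneralLinearGroup (Fin 2) F) χ) (g : Matrix.GeneralLinearGroup (Fin 2) F) :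
    (χ 1 = (Fintype.card F : ℂ) - 1 → (g : Matrix (Fin 2) (Fin 2) F) 0 1 = 0 → (g : Matrix (Fin 2) (Fin 2) F) 1 0 = 0 → (g : Matrix (Fin 2) (Fin 2) F) 0 0 ≠ (g : Matrix (Fin 2) (Fin 2) F) 1 1 → χ g = 0) ∧
    (χ 1 = (Fintype.card F : ℂ) + 1 → (∀ (c : F) (v : Fin 2 → F), v ≠ 0 → (g : Matrix (Fin 2) (Fin 2) F).mulVec v ≠ c • v) → χ g = 0) := by
  classical
  have hq2 : (2 : ℝ) ≤ (Fintype.card F : ℝ) := by
    exact_mod_cast Cfsg.Agent.Helper39.card_two_le (F := F)
  have hcl := Cfsg.Agent.Helper79.isCharacter_isClassFunction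
    (Cfsg.Agent.Helper79.isCharacter_of_irr hχ)
  constructor
  · intro hdeg h01 h10 hne
    obtain ⟨a, d, ha, hd, rfl⟩ := Cfsg.Agent.Helper39.eq_triGL_of_diag g h01 h10
    have had : a ≠ d := by
      intro h
      apply hne
      rw [← ha, ← hd, h]
    rcases Cfsg.Agent.Helper39.gl2_irr_classification hχ with
      ⟨α, β, _, rfl⟩ | ⟨α, rfl⟩ | ⟨α, rfl⟩ | ⟨hc, _, _⟩
    · exfalso
      rw [Cfsg.Agent.Helper39.psGL_one] at hdeg
      have h' := congrArg Complex.re hdeg
      simp at h'
      try linarith
    · exfalso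
      rw [Cfsg.Agent.Helper39.detChar_one] at hdeg
      have h' : (Fintype.card F : ℂ) = ((2 : ℕ) : ℂ) := by
        push_cast
        linear_combination -hdeg
      have h2 : Fintype.card F = 2 := by exact_mod_cast h'
      have h3 : Fintype.card Fˣ = 1 := by rw [Fintype.card_units, h2]
      have : Subsingleton Fˣ := Fintype.card_le_one_iff_subsingleton.mp h3.le
      exact had (Subsingleton.elim a d)
    · exfalso
      rw [Pi.sub_apply, Cfsg.Agent.Helper39.psGL_one, Cfsg.Agent.Helper39.detChar_one] at hdeg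
      have h' := congrArg Complex.re hdeg
      simp at h'
      try linarith
    · exact Cfsg.Agent.Helper39.cuspidal_triGL hcl hc had
  · intro hdeg hg
    rcases Cfsg.Agent.Helper39.gl2_irr_classification hχ with
      ⟨α, β, _, rfl⟩ | ⟨α, rfl⟩ | ⟨α, rfl⟩ | ⟨_, h1, _⟩
    · exact Cfsg.Agent.Helper39.psGL_eq_zero_of_no_eigen α β g hg
    · exfalso
      rw [Cfsg.Agent.Helper39.detChar_one] at hdeg
      have h' := congrArg Complex.re hdeg
      simp at h'
      try linarith
    · exfalso
      rw [Pi.sub_apply, Cfsg.Agent.Helper39.psGL_one, Cfsg.Agent.Helper39.detChar_one] at hdeg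
      have h' := congrArg Complex.re hdeg
      simp at h'
      try linarith
    · exfalso
      rw [h1] at hdeg
      have h' := congrArg Complex.re hdeg
      simp at h'
      try linarith

end Cfsg.Agent.S2309
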