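import Cfsg.Statements.S2310
import Cfsg.Agent.Helper39.GL2Values

set_option autoImplicit false
open Cfsg

namespace Cfsg.Agent.S2310

/-- Over a finite field F with q ≥ 3 elements, let u be the upper unitriangular matrix of GL₂ with off-diagonal entry 1. An irreducible complex character χ of GL₂ takes at u the value 1 if χ has degree 1 or q + 1, the value −1 if χ has degree q − 1, and the value 0 if χ has degree q. -/
theorem result {F : Type*} [Field F] [Fintype F] (hq : 3 ≤ Fintype.card F) (χ : Matrix.GeneralLinearGroup (Fin 2) F → ℂ) (hχ : Cfsg.IsIrrCharacter (Matrix.GeneralLinearGroup (Fin 2) F) χ)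
    (u : Matrix.GeneralLinearGroup (Fin 2) F) (hu : (u : Matrix (Fin 2) (Fin 2) F) = !![1, 1; 0, 1]) :
    (χ 1 = 1 → χ u = 1) ∧ (χ 1 = (Fintype.card F : ℂ) + 1 → χ u = 1) ∧
    (χ 1 = (Fintype.card F : ℂ) - 1 → χ u = -1) ∧ (χ 1 = (Fintype.card F : ℂ) → χ u = 0) := by
  classical
  have hu' := Cfsg.Agent.Helper39.eq_uGL_of_coe hu
  subst hu'
  have hq3 : (3 : ℝ) ≤ (Fintype.card F : ℝ) := by exact_mod_cast hq
  rcases Cfsg.Agent.Helper39.gl2_irr_degree_value hχ with ⟨h1, h2⟩ | ⟨h1, h2⟩ | ⟨h1, h2⟩ | ⟨h1, h2⟩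
  all_goals
    refine ⟨?_, ?_, ?_, ?_⟩ <;> intro h <;> rw [h1] at h <;>
    first
      | (rw [h2]; done)
      | (exfalso
         have h' := congrArg Complex.re h
         simp at h'
         try linarith)

end Cfsg.Agent.S2310
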