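import Cfsg.Statements.S2314
import Cfsg.Agent.Helper45.UCCHEV

set_option autoImplicit false
open Cfsg

namespace Cfsg.Agent.S2314

/-- Steinberg's count of unipotent elements: in a Chevalley group of type G₂, B₂, D₄, F₄, E₆, E₇ or E₈ over a finite field of characteristic p with q elements, the number of elements of p-power order is q^(2N), N the number of positive roots — the square of the order of a Sylow p-subgroup. -/
theorem result {F : Type*} [Field F] [Fintype F] (p : ℕ) [Fact p.Prime] [CharP F p] (D : Cfsg.Lie.ChevalleyDatum) (hD : D ∈ [Cfsg.Lie.chevG2, Cfsg.Lie.chevB2, Cfsg.Lie.chevD4, Cfsg.Lie.chevF4, Cfsg.Lie.chevE6, Cfsg.Lie.chevE7, Cfsg.Lie.chevE8]) :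
    Nat.card {g : ↥(D.group F) // ∃ k : ℕ, orderOf g = p ^ k} = Fintype.card F ^ (2 * (D.nroots / 2)) := by
  exact Cfsg.Agent.Helper45.UCCHEV.s2314_chev p D hD

end Cfsg.Agent.S2314
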