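import Cfsg.Statements.S2315
import Cfsg.Agent.Helper38.NilCount

set_option autoImplicit false
open Cfsg

namespace Cfsg.Agent.S2315

/-- Steinberg's count of unipotent elements for the general linear group: over a finite field with q elements of characteristic p, the number of elements of GL_n of p-power order (the unipotent matrices) is q^(n(n−1)). -/
theorem result {F : Type*} [Field F] [Fintype F] (p : ℕ) [Fact p.Prime] [CharP F p] (n : ℕ) :
    Nat.card {g : Matrix.GeneralLinearGroup (Fin n) F // ∃ k : ℕ, orderOf g = p ^ k} = Fintype.card F ^ (n * (n - 1)) := by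
  rw [← Cfsg.Agent.Helper38.natCard_isNilpotent_matrix (F := F) n]
  have hp : p.Prime := Fact.out
  have key : ∀ (M : Matrix (Fin n) (Fin n) F) (k : ℕ),
      (M - 1) ^ (p ^ k) = M ^ (p ^ k) - 1 := by
    intro M k
    rcases Nat.eq_zero_or_pos n with hn | hn
    · subst hn
      exact Subsingleton.elim _ _
    · have : Nonempty (Fin n) := ⟨⟨0, hn⟩⟩
      have := sub_pow_char_pow_of_commute (p := p) (n := k) (Commute.one_right M)
      simpa using this
  refine Nat.card_congr (Equiv.ofBijective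
    (fun g : {g : Matrix.GeneralLinearGroup (Fin n) F // ∃ k : ℕ, orderOf g = p ^ k} =>
      (⟨(g.1 : Matrix (Fin n) (Fin n) F) - 1, ?_⟩ :
        {N : Matrix (Fin n) (Fin n) F // IsNilpotent N})) ⟨?_, ?_⟩)
  · obtain ⟨k, hk⟩ := g.2
    refine ⟨p ^ k, ?_⟩
    rw [key, ← Units.val_pow_eq_pow_val, ← hk, pow_orderOf_eq_one, Units.val_one, sub_self]
  · rintro ⟨g, hg⟩ ⟨g', hg'⟩ h
    have h' : (g : Matrix (Fin n) (Fin n) F) - 1 = (g' : Matrix (Fin n) (Fin n) F) - 1 :=
      congrArg Subtype.val h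
    exact Subtype.ext (Units.ext (sub_left_injective h'))
  · rintro ⟨N, hN⟩
    obtain ⟨u, hu⟩ : IsUnit (1 + N) := hN.isUnit_one_add
    obtain ⟨m, hm⟩ := hN
    have hpow : u ^ (p ^ m) = 1 := by
      apply Units.ext
      rw [Units.val_pow_eq_pow_val, Units.val_one, hu]
      have h1 := key (1 + N) m
      rw [add_sub_cancel_left] at h1
      have h2 : N ^ (p ^ m) = 0 := by
        obtain ⟨c, hc⟩ := Nat.exists_eq_add_of_le (Nat.lt_pow_self hp.one_lt (n := m)).le
        rw [hc, pow_add, hm, zero_mul]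
      rw [h2] at h1
      exact sub_eq_zero.mp h1.symm
    obtain ⟨j, -, hj⟩ := (Nat.dvd_prime_pow hp).mp (orderOf_dvd_of_pow_eq_one hpow)
    refine ⟨⟨u, j, hj⟩, Subtype.ext ?_⟩
    show (u : Matrix (Fin n) (Fin n) F) - 1 = N
    rw [hu, add_sub_cancel_left]

end Cfsg.Agent.S2315
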