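import Cfsg.Statements.S2317
import Cfsg.Agent.Helper38.JordanNil

set_option autoImplicit false
open Cfsg

namespace Cfsg.Agent.S2317

open Cfsg.Agent.Helper38

/-- Over a finite field of characteristic p, the conjugacy classes of GL_n consisting of elements of p-power order (the unipotent classes) are as many as the partitions of n. -/
theorem result {F : Type*} [Field F] [Fintype F] (p : ℕ) [Fact p.Prime] [CharP F p] (n : ℕ) :
    Nat.card {C : ConjClasses (Matrix.GeneralLinearGroup (Fin n) F) //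
      ∃ g : Matrix.GeneralLinearGroup (Fin n) F, (∃ k : ℕ, orderOf g = p ^ k) ∧ ConjClasses.mk g = C} =
      Fintype.card (Nat.Partition n) := by
  rw [← Nat.card_eq_fintype_card]
  refine card_eq_of_rel
    (fun (C : {C : ConjClasses (Matrix.GeneralLinearGroup (Fin n) F) //
        ∃ g : Matrix.GeneralLinearGroup (Fin n) F,
          (∃ k : ℕ, orderOf g = p ^ k) ∧ ConjClasses.mk g = C}) (μ : Nat.Partition n) =>
      ∃ g : Matrix.GeneralLinearGroup (Fin n) F, (∃ k : ℕ, orderOf g = p ^ k) ∧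
        ConjClasses.mk g = C.1 ∧
        ∀ k, kdim ((g : Matrix (Fin n) (Fin n) F) - 1) k = (μ.parts.map (min k)).sum)
    ?_ ?_ ?_ ?_
  · rintro ⟨C, g, hg, rfl⟩
    obtain ⟨μ, hpos, hsum, hk⟩ :=
      exists_multiset_kdim _ ((exists_orderOf_eq_prime_pow_iff p g).mp hg)
    exact ⟨⟨μ, fun {i} hi => hpos i hi, hsum⟩, g, hg, rfl, hk⟩
  · intro μ
    obtain ⟨M, hM, hk⟩ := exists_nilpotent_of_multiset (F := F) n μ.parts μ.parts_sum
    obtain ⟨u, hu⟩ : IsUnit (1 + M) := hM.isUnit_one_add
    have hsub : (u : Matrix (Fin n) (Fin n) F) - 1 = M := by rw [hu, add_sub_cancel_left]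
    have hunip : ∃ k : ℕ, orderOf u = p ^ k :=
      (exists_orderOf_eq_prime_pow_iff p u).mpr (hsub ▸ hM)
    exact ⟨⟨ConjClasses.mk u, u, hunip, rfl⟩, u, hunip, rfl, fun k => by rw [hsub]; exact hk k⟩
  · rintro C μ μ' ⟨g, hg, hgC, hk⟩ ⟨g', hg', hgC', hk'⟩
    have hconj : IsConj g g' := ConjClasses.mk_eq_mk_iff_isConj.mp (hgC.trans hgC'.symm)
    obtain ⟨c, hc⟩ := isConj_iff.mp hconj
    have hcN : (c : Matrix (Fin n) (Fin n) F) * ((g : Matrix (Fin n) (Fin n) F) - 1) =
        ((g' : Matrix (Fin n) (Fin n) F) - 1) * c := by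
      have h1 : c * g = g' * c := by rw [← hc]; group
      have h2 := congrArg Units.val h1
      simp only [Units.val_mul] at h2
      rw [mul_sub, sub_mul, h2, mul_one, one_mul]
    apply Nat.Partition.ext
    exact multiset_eq_of_minsum _ _ (fun b hb => μ.parts_pos hb) (fun b hb => μ'.parts_pos hb)
      (fun k => by rw [← hk k, ← hk' k, kdim_eq_of_conj _ _ c hcN k])
  · rintro C C' μ ⟨g, hg, hgC, hk⟩ ⟨g', hg', hgC', hk'⟩
    obtain ⟨c, hc⟩ := exists_conj_of_kdim _ _ ((exists_orderOf_eq_prime_pow_iff p g).mp hg)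
      ((exists_orderOf_eq_prime_pow_iff p g').mp hg') (fun k => by rw [hk k, hk' k])
    have hcg : c * g = g' * c := by
      apply Units.ext
      simp only [Units.val_mul]
      rw [mul_sub, sub_mul, mul_one, one_mul] at hc
      exact sub_left_injective hc
    apply Subtype.ext
    rw [← hgC, ← hgC']
    exact ConjClasses.mk_eq_mk_iff_isConj.mpr (isConj_iff.mpr ⟨c, by rw [hcg]; group⟩)

end Cfsg.Agent.S2317
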