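import Cfsg.Statements.S2320
import Cfsg.Agent.Helper39.GL2Values

set_option autoImplicit false
open Cfsg

namespace Cfsg.Agent.S2320

/-- Over a finite field F with q elements, every irreducible complex character of GL₂ of degree q takes a value of absolute value 1 at every diagonal matrix with two different diagonal entries and at every element with no eigenvector in F². -/
theorem result {F : Type*} [Field F] [Fintype F] (χ : Matrix.GeneralLinearGroup (Fin 2) F → ℂ) (hχ : Cfsg.IsIrrCharacter (Matrix.GeneralLinearGroup (Fin 2) F) χ) (hdeg : χ 1 = (Fintype.card F : ℂ)) (g : Matrix.GeneralLinearGroup (Fin 2) F) :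
    ((g : Matrix (Fin 2) (Fin 2) F) 0 1 = 0 → (g : Matrix (Fin 2) (Fin 2) F) 1 0 = 0 → (g : Matrix (Fin 2) (Fin 2) F) 0 0 ≠ (g : Matrix (Fin 2) (Fin 2) F) 1 1 → ‖χ g‖ = 1) ∧
    ((∀ (c : F) (v : Fin 2 → F), v ≠ 0 → (g : Matrix (Fin 2) (Fin 2) F).mulVec v ≠ c • v) → ‖χ g‖ = 1) := by
  classical
  have hq2 : (2 : ℝ) ≤ (Fintype.card F : ℝ) := by
    exact_mod_cast Cfsg.Agent.Helper39.card_two_le (F := F)
  obtain ⟨α, rfl⟩ : ∃ α : MulChar F ℂ, χ = Cfsg.Agent.Helper39.psGL α α -
      Cfsg.Agent.Helper39.detChar α := by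
    rcases Cfsg.Agent.Helper39.gl2_irr_classification hχ with
      ⟨α, β, _, rfl⟩ | ⟨α, rfl⟩ | ⟨α, rfl⟩ | ⟨_, h1, _⟩
    · exfalso
      rw [Cfsg.Agent.Helper39.psGL_one] at hdeg
      have h' := congrArg Complex.re hdeg
      simp at h'
      try linarith
    · exfalso
      rw [Cfsg.Agent.Helper39.detChar_one] at hdeg
      have h' := congrArg Complex.re hdeg
      simp at h'
      try linarith
    · exact ⟨α, rfl⟩
    · exfalso
      rw [h1] at hdeg
      have h' := congrArg Complex.re hdeg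
      simp at h'
      try linarith
  constructor
  · intro h01 h10 hne
    obtain ⟨a, d, ha, hd, rfl⟩ := Cfsg.Agent.Helper39.eq_triGL_of_diag g h01 h10
    have had : a ≠ d := by
      intro h
      apply hne
      rw [← ha, ← hd, h]
    rw [Cfsg.Agent.Helper39.St_triGL α had, norm_mul, Cfsg.Agent.Helper39.mulChar_unit_norm,
      Cfsg.Agent.Helper39.mulChar_unit_norm, mul_one]
  · intro hg
    rw [Cfsg.Agent.Helper39.St_no_eigen α g hg, norm_neg, Cfsg.Agent.Helper39.detChar_norm]

end Cfsg.Agent.S2320
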