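import Cfsg.Statements.S2321
import Cfsg.Agent.Helper39.SL2Values

set_option autoImplicit false
open Cfsg

namespace Cfsg.Agent.S2321

/-- Over a finite field F with q elements, an irreducible complex character of SL₂ of degree q (the Steinberg character) takes the value 1 at every diagonal matrix whose diagonal entry a has a² ≠ 1, the value −1 at every element with no eigenvector in F², and the value 0 at every upper triangular matrix with equal diagonal entries and non-zero upper right entry. -/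
theorem result {F : Type*} [Field F] [Fintype F] (χ : Matrix.SpecialLinearGroup (Fin 2) F → ℂ) (hχ : Cfsg.IsIrrCharacter (Matrix.SpecialLinearGroup (Fin 2) F) χ) (hdeg : χ 1 = (Fintype.card F : ℂ)) (g : Matrix.SpecialLinearGroup (Fin 2) F) :
    ((g : Matrix (Fin 2) (Fin 2) F) 0 1 = 0 → (g : Matrix (Fin 2) (Fin 2) F) 1 0 = 0 → (g : Matrix (Fin 2) (Fin 2) F) 0 0 ^ 2 ≠ 1 → χ g = 1) ∧
    ((∀ (c : F) (v : Fin 2 → F), v ≠ 0 → (g : Matrix (Fin 2) (Fin 2) F).mulVec v ≠ c • v) → χ g = -1) ∧
    ((g : Matrix (Fin 2) (Fin 2) F) 1 0 = 0 → (g : Matrix (Fin 2) (Fin 2) F) 0 0 = (g : Matrix (Fin 2) (Fin 2) F) 1 1 → (g : Matrix (Fin 2) (Fin 2) F) 0 1 ≠ 0 → χ g = 0) := by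
  classical
  rw [Cfsg.Agent.Helper39.sl2_degree_q hχ hdeg]
  exact Cfsg.Agent.Helper39.stSL_values g

end Cfsg.Agent.S2321
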