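import Cfsg.Statements.S2322
import Cfsg.Agent.Helper39.SL2Zeros

set_option autoImplicit false
open Cfsg

namespace Cfsg.Agent.S2322

/-- Over a finite field F with q elements, q odd: every irreducible complex character of SL₂ of degree q − 1 or (q − 1)/2 vanishes at every diagonal matrix whose diagonal entry a has a² ≠ 1, and every irreducible complex character of degree q + 1 or (q + 1)/2 vanishes at every element with no eigenvector in F². -/
theorem result {F : Type*} [Field F] [Fintype F] (hodd : Odd (Fintype.card F)) (χ : Matrix.SpecialLinearGroup (Fin 2) F → ℂ) (hχ : Cfsg.IsIrrCharacter (Matrix.SpecialLinearGroup (Fin 2) F) χ) (g : Matrix.SpecialLinearGroup (Fin 2) F) :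
    ((χ 1 = (Fintype.card F : ℂ) - 1 ∨ χ 1 = (((Fintype.card F - 1) / 2 : ℕ) : ℂ)) →
      (g : Matrix (Fin 2) (Fin 2) F) 0 1 = 0 → (g : Matrix (Fin 2) (Fin 2) F) 1 0 = 0 → (g : Matrix (Fin 2) (Fin 2) F) 0 0 ^ 2 ≠ 1 → χ g = 0) ∧
    ((χ 1 = (Fintype.card F : ℂ) + 1 ∨ χ 1 = (((Fintype.card F + 1) / 2 : ℕ) : ℂ)) →
      (∀ (c : F) (v : Fin 2 → F), v ≠ 0 → (g : Matrix (Fin 2) (Fin 2) F).mulVec v ≠ c • v) → χ g = 0) := by
  classical
  constructor
  · intro hdeg h01 h10 hne
    obtain ⟨a, ha, -, hg⟩ := Cfsg.Agent.Helper39.eq_triSL_of_upper g h10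
    rw [hg, h01]
    exact Cfsg.Agent.Helper39.sl2_zeros_split hodd hχ hdeg (by rw [ha]; exact hne)
  · intro hdeg hg
    exact Cfsg.Agent.Helper39.sl2_zeros_elliptic hodd hχ hdeg g hg

end Cfsg.Agent.S2322
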