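import Cfsg.Statements.S2324
import Cfsg.Agent.Helper39.SL2Half

set_option autoImplicit false
open Cfsg

namespace Cfsg.Agent.S2324

/-- Over a finite field F with q elements, q odd and q ≥ 5, let u be the upper unitriangular matrix of SL₂ with off-diagonal entry 1 and let δ = (−1)^((q−1)/2). Every irreducible complex character χ of SL₂ of degree (q + 1)/2 satisfies (2χ(u) − 1)² = δq, and every irreducible complex character χ of degree (q − 1)/2 satisfies (2χ(u) + 1)² = δq; that is, χ(u) = (1 ± √(δq))/2 in the first case and χ(u) = (−1 ± √(δq))/2 in the second. Moreover two different irreducible characters of degree (q + 1)/2 take the two different values (their values at u add up to 1), and likewise for degree (q − 1)/2 (values adding up to −1). -/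
theorem result {F : Type*} [Field F] [Fintype F] (hodd : Odd (Fintype.card F)) (hq : 5 ≤ Fintype.card F)
    (u : Matrix.SpecialLinearGroup (Fin 2) F) (hu : (u : Matrix (Fin 2) (Fin 2) F) = !![1, 1; 0, 1]) :
    (∀ χ : Matrix.SpecialLinearGroup (Fin 2) F → ℂ, Cfsg.IsIrrCharacter (Matrix.SpecialLinearGroup (Fin 2) F) χ → χ 1 = (((Fintype.card F + 1) / 2 : ℕ) : ℂ) → (2 * χ u - 1) ^ 2 = (-1 : ℂ) ^ ((Fintype.card F - 1) / 2) * (Fintype.card F : ℂ)) ∧
    (∀ χ : Matrix.SpecialLinearGroup (Fin 2) F → ℂ, Cfsg.IsIrrCharacter (Matrix.SpecialLinearGroup (Fin 2) F) χ → χ 1 = (((Fintype.card F - 1) / 2 : ℕ) : ℂ) → (2 * χ u + 1) ^ 2 = (-1 : ℂ) ^ ((Fintype.card F - 1) / 2) * (Fintype.card F : ℂ)) ∧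
    (∀ χ₁ χ₂ : Matrix.SpecialLinearGroup (Fin 2) F → ℂ, Cfsg.IsIrrCharacter (Matrix.SpecialLinearGroup (Fin 2) F) χ₁ → Cfsg.IsIrrCharacter (Matrix.SpecialLinearGroup (Fin 2) F) χ₂ → χ₁ ≠ χ₂ →
      χ₁ 1 = (((Fintype.card F + 1) / 2 : ℕ) : ℂ) → χ₂ 1 = (((Fintype.card F + 1) / 2 : ℕ) : ℂ) → χ₁ u + χ₂ u = 1) ∧
    (∀ χ₁ χ₂ : Matrix.SpecialLinearGroup (Fin 2) F → ℂ, Cfsg.IsIrrCharacter (Matrix.SpecialLinearGroup (Fin 2) F) χ₁ → Cfsg.IsIrrCharacter (Matrix.SpecialLinearGroup (Fin 2) F) χ₂ → χ₁ ≠ χ₂ →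
      χ₁ 1 = (((Fintype.card F - 1) / 2 : ℕ) : ℂ) → χ₂ 1 = (((Fintype.card F - 1) / 2 : ℕ) : ℂ) → χ₁ u + χ₂ u = -1) := by
  classical
  rw [Cfsg.Agent.Helper39.eq_uSL_of_coe hu]
  exact Cfsg.Agent.Helper39.sl2_half_main hodd hq

end Cfsg.Agent.S2324
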