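import Cfsg.Statements.S2368
import Mathlib

set_option autoImplicit false
open Cfsg

namespace Cfsg.Agent.S2368

open Matrix

variable {F : Type*} [Field F]

theorem nilpotent_pow_card {m : ℕ} (N : Matrix (Fin m) (Fin m) F) (hN : IsNilpotent N) :
    N ^ m = 0 := by
  have h1 : IsNilpotent (Matrix.toLin' N) := (Matrix.isNilpotent_toLin'_iff N).mpr hN
  have h2 := IsNilpotent.charpoly_eq_X_pow_finrank h1
  have h3 := (Matrix.toLin' N).aeval_self_charpoly
  rw [h2] at h3
  simp only [map_pow, Polynomial.aeval_X, Module.finrank_fintype_fun_eq_card, Fintype.card_fin]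
    at h3
  rw [← Matrix.toLin'_pow] at h3
  have h4 : Matrix.toLin' (N ^ m) = Matrix.toLin' (0 : Matrix (Fin m) (Fin m) F) := by
    rw [h3]; simp
  exact Matrix.toLin'.injective h4

/-- the nilpotent Jordan block -/
def jN (m : ℕ) : Matrix (Fin m) (Fin m) F :=
  Matrix.of fun i j => if j.val = i.val + 1 then 1 else 0

theorem jN_pow_apply (m k : ℕ) (i j : Fin m) :
    ((jN m : Matrix (Fin m) (Fin m) F) ^ k) i j = if j.val = i.val + k then 1 else 0 := by
  induction k generalizing i j with
  | zero =>
    rw [pow_zero, Matrix.one_apply]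
    simp only [add_zero]
    by_cases h : i = j
    · subst h; simp
    · have : ¬ (j.val = i.val) := fun h' => h (Fin.ext h'.symm)
      simp [h, this]
  | succ k ih =>
    rw [pow_succ, Matrix.mul_apply]
    have hterm : ∀ l : Fin m, ((jN m : Matrix (Fin m) (Fin m) F) ^ k) i l * (jN m) l j =
        if l.val = i.val + k ∧ j.val = l.val + 1 then 1 else 0 := by
      intro l
      rw [ih]
      simp only [jN, Matrix.of_apply]
      by_cases h1 : l.val = i.val + k <;> by_cases h2 : j.val = l.val + 1 <;> simp [h1, h2]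
    rw [Finset.sum_congr rfl (fun l _ => hterm l)]
    by_cases h : j.val = i.val + (k + 1)
    · rw [if_pos h]
      have hlt : i.val + k < m := by have := j.2; omega
      rw [Finset.sum_eq_single (⟨i.val + k, hlt⟩ : Fin m)]
      · rw [if_pos]
        exact ⟨rfl, by simp only; omega⟩
      · intro l _ hl
        have : ¬ (l.val = i.val + k) := fun h' => hl (Fin.ext h')
        rw [if_neg (fun h' => this h'.1)]
      · intro habs; exact absurd (Finset.mem_univ _) habs
    · rw [if_neg h]
      apply Finset.sum_eq_zero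
      intro l _
      rw [if_neg]
      rintro ⟨h1, h2⟩
      omega

theorem jN_pow_eq_zero (m k : ℕ) (hk : m ≤ k) : (jN m : Matrix (Fin m) (Fin m) F) ^ k = 0 := by
  ext i j
  rw [jN_pow_apply]
  have := j.2
  have : ¬ (j.val = i.val + k) := by omega
  simp [this]

theorem jN_pow_ne_zero (m k : ℕ) (hk : k < m) : (jN m : Matrix (Fin m) (Fin m) F) ^ k ≠ 0 := by
  intro h
  have hm : 0 < m := by omega
  have := congrFun (congrFun h ⟨0, hm⟩) ⟨k, hk⟩
  rw [jN_pow_apply] at this
  simp at this

/-- Let F be a finite field of characteristic p and m ≥ 1. Every element of GL(m, F) of p-power order has order less than p·m, and GL(m, F) has an element of p-power order at least m; so the largest order of a p-element of GL(m, F) is the least power of p that is at least m. -/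
theorem result {F : Type*} [Field F] [Fintype F] (p : ℕ) [Fact p.Prime] [CharP F p] (m : ℕ) (hm : 1 ≤ m) :
    (∀ g : Matrix.GeneralLinearGroup (Fin m) F, (∃ j : ℕ, orderOf g = p ^ j) → orderOf g < p * m) ∧
      ∃ g : Matrix.GeneralLinearGroup (Fin m) F, (∃ j : ℕ, orderOf g = p ^ j) ∧ m ≤ orderOf g := by
  have hp : p.Prime := Fact.out
  haveI : Nonempty (Fin m) := ⟨⟨0, hm⟩⟩
  have hpm : m ≤ p ^ Nat.clog p m := Nat.le_pow_clog hp.one_lt m
  have hlt : p ^ Nat.clog p m < p * m := by
    by_cases h1 : m = 1
    · subst h1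
      simp [Nat.clog_one_right]
      exact hp.one_lt
    · have h2 : 1 < m := by omega
      have := Nat.pow_pred_clog_lt_self hp.one_lt h2
      have hc : 0 < Nat.clog p m := Nat.clog_pos hp.one_lt (by omega)
      have h3 : p ^ Nat.clog p m = p * p ^ (Nat.clog p m).pred := by
        rw [← pow_succ']
        congr 1
        exact (Nat.succ_pred_eq_of_pos hc).symm
      rw [h3]
      exact Nat.mul_lt_mul_of_pos_left this hp.pos
  constructor
  · rintro g ⟨j, hj⟩
    have hA : (g : Matrix (Fin m) (Fin m) F) ^ (p ^ j) = 1 := by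
      have := pow_orderOf_eq_one g
      rw [hj] at this
      have h2 := congrArg (fun x : GL (Fin m) F => (x : Matrix (Fin m) (Fin m) F)) this
      simpa using h2
    have hN : IsNilpotent ((g : Matrix (Fin m) (Fin m) F) - 1) := by
      refine ⟨p ^ j, ?_⟩
      rw [sub_pow_char_pow_of_commute p j (Commute.one_right _), hA]; simp
    have hNm := nilpotent_pow_card _ hN
    have hNc : ((g : Matrix (Fin m) (Fin m) F) - 1) ^ (p ^ Nat.clog p m) = 0 :=
      pow_eq_zero_of_le hpm hNm
    rw [sub_pow_char_pow_of_commute p _ (Commute.one_right _), one_pow, sub_eq_zero] at hNc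
    have hg : g ^ (p ^ Nat.clog p m) = 1 := by
      apply Units.ext
      simpa using hNc
    have := orderOf_dvd_of_pow_eq_one hg
    exact lt_of_le_of_lt (Nat.le_of_dvd (pow_pos hp.pos _) this) hlt
  · have hJ : ((1 : Matrix (Fin m) (Fin m) F) + jN m) ^ (p ^ Nat.clog p m) = 1 := by
      rw [add_pow_char_pow_of_commute p _ (Commute.one_left _), one_pow,
        jN_pow_eq_zero m _ hpm, add_zero]
    have hu : IsUnit ((1 : Matrix (Fin m) (Fin m) F) + jN m) :=
      IsUnit.of_pow_eq_one hJ (pow_pos hp.pos _).ne'
    have hg : hu.unit ^ (p ^ Nat.clog p m) = 1 := by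
      apply Units.ext
      simpa using hJ
    obtain ⟨j, -, hj⟩ := (Nat.dvd_prime_pow hp).mp (orderOf_dvd_of_pow_eq_one hg)
    refine ⟨hu.unit, ⟨j, hj⟩, ?_⟩
    rw [hj]
    by_contra hcon
    push Not at hcon
    have h1 : ((1 : Matrix (Fin m) (Fin m) F) + jN m) ^ (p ^ j) = 1 := by
      have := pow_orderOf_eq_one hu.unit
      rw [hj] at this
      have h2 := congrArg (fun x : GL (Fin m) F => (x : Matrix (Fin m) (Fin m) F)) this
      simpa using h2
    rw [add_pow_char_pow_of_commute p _ (Commute.one_left _), one_pow, add_eq_left] at h1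
    exact jN_pow_ne_zero m _ hcon h1

end Cfsg.Agent.S2368
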