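import Cfsg.Statements.S2371
import Cfsg.Agent.Helper18.G2Tor4
import Cfsg.Agent.Helper67.CubicFrob
import Cfsg.Agent.Helper53.CycSelfCent

set_option autoImplicit false
open Cfsg

namespace Cfsg.Agent.S2371

/-- The group G₂(q), q ≥ 3, contains a cyclic subgroup of order q² + q + 1 which is its own centralizer. -/
theorem result {F : Type*} [Field F] [Fintype F] (q : ℕ) (hF : Fintype.card F = q) (hq : 3 ≤ q) :
    ∃ H : Subgroup ↥(Cfsg.Lie.chevG2.group F), IsCyclic ↥H ∧ Nat.card ↥H = q ^ 2 + q + 1 ∧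
      Subgroup.centralizer (H : Set ↥(Cfsg.Lie.chevG2.group F)) = H := by
  obtain ⟨L, iL, iFL, ι, σ, -, hσpow, hσfix, hσι, hσ3, ⟨θ, hθ1, hθ2, hθ3⟩, ⟨ζ, hζ⟩⟩ :=
    Cfsg.Agent.Helper67.exists_cubic_frobenius F
  rw [hF] at hσpow hζ
  obtain ⟨C, f, hf, hfn, s, hs, hcent⟩ := Cfsg.Agent.Helper18.g2_twisted_torus ι σ q hq hσpow hσfix hσι
    hσ3 θ hθ1 hθ2 hθ3 ζ hζ
  exact ⟨C, Cfsg.Agent.Helper53.cyclic_selfcentralizing_of_hom C f hf (q ^ 2 + q + 1) (by positivity)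
    hfn s hs hcent⟩

end Cfsg.Agent.S2371
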