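import Cfsg.Statements.S2372
import Cfsg.Agent.Helper18.F4Tor6
import Cfsg.Agent.Helper20.F4PieceA
import Cfsg.Agent.Helper53.CycSelfCent

set_option autoImplicit false
open Cfsg

namespace Cfsg.Agent.S2372

/-- The group F₄(q) contains a cyclic subgroup of order q⁴ + 1 which is its own centralizer. -/
theorem result {F : Type*} [Field F] [Fintype F] (q : ℕ) (hF : Fintype.card F = q) :
    ∃ H : Subgroup ↥(Cfsg.Lie.chevF4.group F), IsCyclic ↥H ∧ Nat.card ↥H = q ^ 4 + 1 ∧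
      Subgroup.centralizer (H : Set ↥(Cfsg.Lie.chevF4.group F)) = H := by
  obtain ⟨L, iL, iFL, ι, φ, hφpow, hφfix, h8, ⟨θ, hθ1, hθ2⟩, ⟨θ3, hθ3, hθ4⟩, ⟨θ4, hθ5⟩, ⟨y, hy⟩⟩ :=
    Cfsg.Agent.Helper20.F4Piece.exists_octic_frobenius F q hF
  have hq : 2 ≤ q := by
    have h := Fintype.one_lt_card (α := F)
    omega
  have hφι : ∀ x : F, φ (ι x) = ι x := by
    intro x
    rw [hφpow, ← map_pow, ← hF, FiniteField.pow_card]
  obtain ⟨C, f, hf, hfn, s, hs, hcent⟩ := Cfsg.Agent.Helper18.f4_twisted_torus ι φ q hq hφpow hφfix hφι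
    θ θ3 θ4 hθ1 hθ2 hθ3 hθ4 hθ5 (h8 θ4) y hy
  exact ⟨C, Cfsg.Agent.Helper53.cyclic_selfcentralizing_of_hom C f hf (q ^ 4 + 1) (by positivity)
    hfn s hs hcent⟩

end Cfsg.Agent.S2372
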