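import Cfsg.Statements.S2376
import Cfsg.Agent.Helper18.D4Tor4
import Cfsg.Agent.Helper28.D4PieceA
import Cfsg.Agent.Helper28.D4PieceB
import Cfsg.Agent.Helper28.D4PieceC
import Cfsg.Agent.Helper53.CycSelfCent

set_option autoImplicit false
open Cfsg

namespace Cfsg.Agent.S2376

open Cfsg.Lie Cfsg.Agent.Helper18 Cfsg.Agent.Helper36 in
/-- The group ³D₄(q) contains a cyclic subgroup of order (q³ − 1)(q + 1) which is its own centralizer. -/
theorem result {K : Type*} [Field K] [Fintype K] (q : ℕ) (hq : IsPrimePow q) (hK : Fintype.card K = q ^ 3) :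
    ∃ H : Subgroup ↥(Cfsg.Lie.twistedD4 K q), IsCyclic ↥H ∧ Nat.card ↥H = (q ^ 3 - 1) * (q + 1) ∧
      Subgroup.centralizer (H : Set ↥(Cfsg.Lie.twistedD4 K q)) = H := by
  obtain ⟨L, iL, iFL, ι, φ, hL, hφpow, hφfix, ⟨θ, hθ1, hθ2⟩, ⟨ω, hω⟩⟩ :=
    Cfsg.Agent.Helper28.exists_sextic_frobenius K q hK
  have hq2 : 2 ≤ q := hq.two_le
  have hq6 : ((q ^ 6 - 1 : ℕ) : ℤ) = (q : ℤ) ^ 6 - 1 := by
    have h1 : 1 ≤ q ^ 6 := Nat.one_le_pow _ _ (by omega)
    push_cast [Nat.cast_sub h1]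
    ring
  have hord : orderOf (ω ^ d4E q (d4Cart 18)) = (q ^ 3 - 1) * (q + 1) := by
    have c : d4Cart 18 = (2, -1, 0, 0) := by decide
    have e : d4E q (d4Cart 18) = -(q : ℤ) ^ 4 + 2 * (q : ℤ) ^ 3 - (q : ℤ) ^ 2 + 1 := by
      rw [c]
      unfold d4E
      ring
    rw [e]
    exact Cfsg.Agent.Helper28.d4_orderOf_gen ω q hq2 hω
  have hdvd : ∀ k : ℤ, ω ^ k = 1 → ((q : ℤ) ^ 6 - 1) ∣ k := by
    intro k hk
    have h1 := (orderOf_dvd_iff_zpow_eq_one).mpr hk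
    rw [hω, hq6] at h1
    exact h1
  have hne : ∀ r < 24, ω ^ d4E q (d4Cart r) ≠ 1 := by
    intro r hr h
    exact Cfsg.Agent.Helper28.d4_exponents_ne_zero q hq2 _ (d4_tab2 r hr) (hdvd _ h)
  have hstab : ∀ W, ValidW chevD4 W →
      (∀ s < 24, ω ^ d4E q (d4Cart (wW chevD4 W s)) = ω ^ d4E q (d4Cart s)) →
        ∀ s < 24, wW chevD4 W s = s := by
    intro W hW h
    rcases Nat.lt_or_ge q 3 with h3 | h3
    · have hq' : q = 2 := by omega
      subst hq'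
      have hω' : orderOf ω = 63 := by rw [hω]; norm_num
      refine d4_hstab2 ω hω' W hW ?_
      intro s hs
      have e : ∀ t, d4E2 t = d4E 2 (d4Cart t) := by
        intro t
        unfold d4E2 d4E d4Cart
        push_cast
        ring
      rw [e, e]
      exact h s hs
    · intro s hs
      by_contra hne'
      have hws : wW chevD4 W s < 24 := (d4R L).wf.wW_lt hW hs
      have hcart : d4Cart (wW chevD4 W s) ≠ d4Cart s := fun h' => hne' (d4_tab3 _ hws _ hs h')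
      refine Cfsg.Agent.Helper28.d4_exponents_distinct q h3 _ _ (d4_tab2 _ hws) (d4_tab2 s hs) hcart ?_
      have h1 : ω ^ (d4E q (d4Cart (wW chevD4 W s)) - d4E q (d4Cart s)) = 1 := by
        rw [zpow_sub, h s hs, mul_inv_cancel]
      have h2 := hdvd _ h1
      have e : ∀ a b : ℤ × ℤ × ℤ × ℤ, d4E q a - d4E q b =
          ((q : ℤ) ^ 3 + 1) * ((a.1 - b.1) + (q : ℤ) * (a.2.2.1 - b.2.2.1) +
            (q : ℤ) ^ 2 * (a.2.2.2 - b.2.2.2)) + ((q : ℤ) ^ 4 + (q : ℤ) ^ 2 + 1) * (a.2.1 - b.2.1) := by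
        intro a b
        unfold d4E
        ring
      rw [← e]
      exact h2
  obtain ⟨C, f, hf, hfn, s, hs, hcent⟩ := d4_twisted_torus ι φ q hK hL hφpow hφfix θ hθ1 hθ2 ω hord hne
    hstab
  have hpos : 0 < (q ^ 3 - 1) * (q + 1) := by
    have h1 : 2 ^ 3 ≤ q ^ 3 := Nat.pow_le_pow_left hq2 3
    exact Nat.mul_pos (by omega) (by omega)
  exact ⟨C, Cfsg.Agent.Helper53.cyclic_selfcentralizing_of_hom C f hf ((q ^ 3 - 1) * (q + 1)) hpos
    hfn s hs hcent⟩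

end Cfsg.Agent.S2376
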