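import Cfsg.Statements.S2380

set_option autoImplicit false
open Cfsg

open scoped MatrixGroups

namespace Cfsg.Agent.S2380

open Finset

section NT
variable (q r : ℕ) [Fact r.Prime]

theorem order_pos (hrq : ¬ r ∣ q) : 0 < orderOf (q : ZMod r) := by
  rw [orderOf_pos_iff]
  have hne : (q : ZMod r) ≠ 0 := by
    rwa [Ne, ZMod.natCast_eq_zero_iff]
  exact isOfFinOrder_iff_pow_eq_one.mpr
    ⟨r - 1, Nat.sub_pos_of_lt (Fact.out : r.Prime).one_lt, ZMod.pow_card_sub_one_eq_one hne⟩

theorem dvd_pow_sub_one_iff (hq : 1 ≤ q) (j : ℕ) :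
    r ∣ q ^ j - 1 ↔ orderOf (q : ZMod r) ∣ j := by
  rw [orderOf_dvd_iff_pow_eq_one, ← ZMod.natCast_eq_zero_iff, Nat.cast_sub (Nat.one_le_pow _ _ hq)]
  push_cast
  rw [sub_eq_zero]

/-- `v_r(q^(dk) - 1) = v_r(q^d - 1)` for `0 < k < r`, where `r ∣ q^d - 1`. -/
theorem fact_pow_mul (hq : 2 ≤ q) (d k : ℕ) (hd : 0 < d) (hk : 0 < k) (hkr : k < r)
    (hdvd : r ∣ q ^ d - 1) :
    (q ^ (d * k) - 1).factorization r = (q ^ d - 1).factorization r := by
  have h1 : 1 ≤ q ^ d := Nat.one_le_pow _ _ (by omega)
  have h1' : 1 ≤ q ^ (d * k) := Nat.one_le_pow _ _ (by omega)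
  have key : (∑ i ∈ range k, (q ^ d) ^ i) * (q ^ d - 1) = q ^ (d * k) - 1 := by
    zify [h1, h1']
    rw [geom_sum_mul, pow_mul]
  have hS : ¬ r ∣ ∑ i ∈ range k, (q ^ d) ^ i := by
    rw [← ZMod.natCast_eq_zero_iff]
    push_cast
    have hqd : ((q : ZMod r)) ^ d = 1 := by
      have := (dvd_pow_sub_one_iff q r (by omega) d).mp hdvd
      exact orderOf_dvd_iff_pow_eq_one.mp this
    rw [hqd]
    simp only [one_pow, sum_const, card_range, nsmul_eq_mul, mul_one]
    rw [ZMod.natCast_eq_zero_iff]
    intro h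
    exact absurd (Nat.le_of_dvd hk h) (by omega)
  have hne1 : q ^ d - 1 ≠ 0 := by
    have : 2 ≤ q ^ d := le_trans hq (Nat.le_self_pow hd.ne' q)
    omega
  have hne2 : (∑ i ∈ range k, (q ^ d) ^ i) ≠ 0 := by
    intro h
    rw [h] at hS
    exact hS (dvd_zero r)
  rw [← key, Nat.factorization_mul hne2 hne1]
  simp [Nat.factorization_eq_zero_of_not_dvd hS]

/-- the valuation of `q^d - 1` at `r` is the valuation of the cyclotomic value. -/
theorem fact_cyclotomic (hq : 2 ≤ q) (hrq : ¬ r ∣ q) :
    (q ^ orderOf (q : ZMod r) - 1).factorization r =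
      padicValNat r ((Polynomial.cyclotomic (orderOf (q : ZMod r)) ℤ).eval (q : ℤ)).natAbs := by
  set d := orderOf (q : ZMod r) with hd
  have hdpos : 0 < d := order_pos q r hrq
  have hprod : ∀ e : ℕ, 0 < e →
      ∏ i ∈ e.divisors, ((Polynomial.cyclotomic i ℤ).eval (q : ℤ)).natAbs = q ^ e - 1 := by
    intro e he
    have h := congrArg (Polynomial.eval (q : ℤ)) (Polynomial.prod_cyclotomic_eq_X_pow_sub_one he ℤ)
    rw [Polynomial.eval_prod] at h
    simp only [Polynomial.eval_sub, Polynomial.eval_pow, Polynomial.eval_X, Polynomial.eval_one] at h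
    have h2 := congrArg Int.natAbsHom h
    rw [map_prod] at h2
    change ∏ i ∈ e.divisors, ((Polynomial.cyclotomic i ℤ).eval (q : ℤ)).natAbs = ((q : ℤ) ^ e - 1).natAbs at h2
    rw [h2]
    have h1 : 1 ≤ q ^ e := Nat.one_le_pow _ _ (by omega)
    zify [h1]
    rw [abs_of_nonneg]
    have : (1 : ℤ) ≤ (q : ℤ) ^ e := by exact_mod_cast h1
    linarith
  have hne : q ^ d - 1 ≠ 0 := by
    have : 2 ≤ q ^ d := le_trans hq (Nat.le_self_pow hdpos.ne' q)
    omega
  have hfac : ∀ e ∈ d.divisors, ((Polynomial.cyclotomic e ℤ).eval (q : ℤ)).natAbs ≠ 0 := by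
    intro e he h0
    apply hne
    rw [← hprod d hdpos]
    exact Finset.prod_eq_zero he h0
  rw [← hprod d hdpos, Nat.factorization_prod hfac]
  rw [Finsupp.finsetSum_apply]
  rw [Finset.sum_eq_single d]
  · exact Nat.factorization_def _ (Fact.out : r.Prime)
  · intro e he hed
    apply Nat.factorization_eq_zero_of_not_dvd
    intro hdvd
    have hepos : 0 < e := Nat.pos_of_mem_divisors he
    have h1 : ((Polynomial.cyclotomic e ℤ).eval (q : ℤ)).natAbs ∣ q ^ e - 1 := by
      rw [← hprod e hepos]
      exact Finset.dvd_prod_of_mem _ (Nat.mem_divisors_self e hepos.ne')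
    have h2 : r ∣ q ^ e - 1 := dvd_trans hdvd h1
    have h3 := (dvd_pow_sub_one_iff q r (by omega) e).mp h2
    have h4 : e ∣ d := Nat.dvd_of_mem_divisors he
    exact hed (Nat.dvd_antisymm h4 h3)
  · intro h
    exact absurd (Nat.mem_divisors_self d hdpos.ne') h

/-- the `r`-adic valuation of `∏_{i<n} (q^n - q^i)`. -/
theorem fact_card (hq : 2 ≤ q) (hrq : ¬ r ∣ q) (n : ℕ) (hrn : n < r) :
    (∏ i : Fin n, (q ^ n - q ^ (i : ℕ))).factorization r =
      (n / orderOf (q : ZMod r)) *
        padicValNat r ((Polynomial.cyclotomic (orderOf (q : ZMod r)) ℤ).eval (q : ℤ)).natAbs := by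
  set d := orderOf (q : ZMod r) with hd
  have hdpos : 0 < d := order_pos q r hrq
  have hr : r.Prime := Fact.out
  rw [← fact_cyclotomic q r hq hrq, ← hd]
  set v := (q ^ d - 1).factorization r with hv
  have hterm : ∀ i : ℕ, i < n → (q ^ n - q ^ i).factorization r = if d ∣ n - i then v else 0 := by
    intro i hi
    have e1 : q ^ n - q ^ i = q ^ i * (q ^ (n - i) - 1) := by
      rw [Nat.mul_sub, mul_one, ← pow_add]
      congr 2
      omega
    have hne1 : q ^ i ≠ 0 := pow_ne_zero _ (by omega)
    have hne2 : q ^ (n - i) - 1 ≠ 0 := by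
      have : 2 ≤ q ^ (n - i) := le_trans hq (Nat.le_self_pow (by omega) q)
      omega
    rw [e1, Nat.factorization_mul hne1 hne2, Nat.factorization_pow]
    simp only [Finsupp.coe_add, Finsupp.coe_smul, Pi.add_apply, Pi.smul_apply, smul_eq_mul]
    rw [Nat.factorization_eq_zero_of_not_dvd hrq, mul_zero, zero_add]
    split_ifs with hdvd
    · obtain ⟨k, hk⟩ := hdvd
      rw [hk]
      have hkpos : 0 < k := by
        rcases Nat.eq_zero_or_pos k with h | h
        · rw [h] at hk; omega
        · exact h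
      have hkr : k < r := by
        have : k ≤ d * k := Nat.le_mul_of_pos_left k hdpos
        omega
      exact fact_pow_mul q r hq d k hdpos hkpos hkr
        ((dvd_pow_sub_one_iff q r (by omega) d).mpr dvd_rfl)
    · apply Nat.factorization_eq_zero_of_not_dvd
      intro h
      exact hdvd ((dvd_pow_sub_one_iff q r (by omega) _).mp h)
  have hne : ∀ i ∈ (Finset.univ : Finset (Fin n)), q ^ n - q ^ (i : ℕ) ≠ 0 := by
    intro i _
    have : q ^ (i : ℕ) < q ^ n := Nat.pow_lt_pow_right (by omega) i.2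
    omega
  rw [Nat.factorization_prod hne, Finsupp.finsetSum_apply]
  rw [Fin.sum_univ_eq_sum_range (fun i => (q ^ n - q ^ i).factorization r) n]
  rw [Finset.sum_congr rfl (fun i hi => hterm i (Finset.mem_range.mp hi))]
  have h2 : ∑ i ∈ range n, (if d ∣ n - i then v else 0) = ∑ j ∈ range n, (if d ∣ j + 1 then v else 0) := by
    rw [← Finset.sum_range_reflect (fun j => if d ∣ j + 1 then v else 0) n]
    apply Finset.sum_congr rfl
    intro i hi
    have : n - 1 - i + 1 = n - i := by
      have := Finset.mem_range.mp hi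
      omega
    rw [this]
  rw [h2, ← Finset.sum_filter, Finset.sum_const, Nat.card_multiples, smul_eq_mul]

end NT

section GT

/-- A Sylow subgroup is isomorphic to any embedded group of the full `r`-power order. -/
theorem sylow_equiv_of_injective {G : Type*} [Group G] [Finite G] (r : ℕ) [Fact r.Prime]
    {T : Type*} [Group T] (φ : T →* G) (hφ : Function.Injective φ)
    (hcard : Nat.card T = r ^ (Nat.card G).factorization r) (P : Sylow r G) :
    Nonempty (↥(P : Subgroup G) ≃* T) := by
  have h1 : Nat.card φ.range = r ^ (Nat.card G).factorization r := by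
    rw [← hcard]
    exact (Nat.card_congr (MonoidHom.ofInjective hφ).toEquiv).symm
  exact ⟨(Sylow.equiv P (Sylow.ofCard φ.range h1)).trans (MonoidHom.ofInjective hφ).symm⟩

/-- a cyclic group of order divisible by `m` contains a copy of `ZMod m`. -/
theorem exists_zmod_embedding {C : Type*} [Group C] [Finite C] [IsCyclic C] (m : ℕ)
    (hm : m ∣ Nat.card C) :
    ∃ κ : Multiplicative (ZMod m) →* C, Function.Injective κ := by
  obtain ⟨g, hg⟩ := IsCyclic.exists_ofOrder_eq_natCard (α := C)
  have hpos : 0 < Nat.card C := Nat.card_pos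
  obtain ⟨k, hk⟩ := hm
  have hk0 : k ≠ 0 := by
    rintro rfl
    rw [mul_zero] at hk
    omega
  have hm0 : m ≠ 0 := by
    rintro rfl
    rw [zero_mul] at hk
    omega
  have hord : orderOf (g ^ k) = m := by
    rw [orderOf_pow_of_dvd hk0 (by rw [hg, hk]; exact dvd_mul_left k m), hg, hk]
    exact Nat.mul_div_cancel _ (Nat.pos_of_ne_zero hk0)
  have hcard : Nat.card (Subgroup.zpowers (g ^ k)) = m := by
    rw [Nat.card_zpowers, hord]
  have hcyc : IsCyclic (Subgroup.zpowers (g ^ k)) := inferInstance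
  have key : ∀ (m' : ℕ), Nat.card (Subgroup.zpowers (g ^ k)) = m' →
      Nonempty (Multiplicative (ZMod m') ≃* Subgroup.zpowers (g ^ k)) := by
    intro m' h
    subst h
    exact ⟨zmodCyclicMulEquiv hcyc⟩
  obtain ⟨e⟩ := key m hcard
  exact ⟨(Subgroup.zpowers (g ^ k)).subtype.comp e.toMonoidHom,
    (Subgroup.subtype_injective _).comp e.injective⟩

variable {F : Type*} [Field F]

/-- The action of a torus `(Eˣ)^a` on `E^a × F^k`. -/
@[reducible] noncomputable def torusAction (E : Type*) [Field E] [Algebra F E] (a k : ℕ) :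
    DistribMulAction (Fin a → Eˣ) ((Fin a → E) × (Fin k → F)) where
  smul t x := (fun i => (t i : E) * x.1 i, x.2)
  one_smul x := by
    refine Prod.ext ?_ rfl
    funext i
    change ((1 : Fin a → Eˣ) i : E) * x.1 i = x.1 i
    simp
  mul_smul s t x := by
    refine Prod.ext ?_ rfl
    funext i
    change (((s * t) i : Eˣ) : E) * x.1 i = (s i : E) * ((t i : E) * x.1 i)
    simp [mul_assoc]
  smul_zero t := by
    refine Prod.ext ?_ rfl
    funext i
    change (t i : E) * (0 : (Fin a → E) × (Fin k → F)).1 i = 0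
    simp
  smul_add t x y := by
    refine Prod.ext ?_ rfl
    funext i
    change (t i : E) * (x + y).1 i = (t i : E) * x.1 i + (t i : E) * y.1 i
    simp [mul_add]

theorem exists_torus_embedding [Finite F] (E : Type*) [Field E] [Algebra F E] [Module.Finite F E]
    (n a : ℕ) (had : a * Module.finrank F E ≤ n) :
    ∃ φ : (Fin a → Eˣ) →* GL (Fin n) F, Function.Injective φ := by
  classical
  set k := n - a * Module.finrank F E with hk
  let V := (Fin a → E) × (Fin k → F)
  let _ : DistribMulAction (Fin a → Eˣ) V := torusAction E a k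
  have : SMulCommClass (Fin a → Eˣ) F V := by
    refine ⟨fun t c x => ?_⟩
    refine Prod.ext ?_ rfl
    funext i
    change (t i : E) * (c • x.1 i) = c • ((t i : E) * x.1 i)
    rw [mul_smul_comm]
  let ψ : (Fin a → Eˣ) →* V ≃ₗ[F] V := DistribMulAction.toModuleAut F V
  have hψ : Function.Injective ψ := by
    intro s t hst
    funext i
    have h1 := congrArg (fun e : V ≃ₗ[F] V => (e ((fun _ => (1 : E)), (0 : Fin k → F))).1 i) hst
    change (s i : E) * 1 = (t i : E) * 1 at h1
    rw [mul_one, mul_one] at h1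
    exact Units.ext h1
  have hrank : Module.finrank F V = Module.finrank F (Fin n → F) := by
    rw [Module.finrank_prod, Module.finrank_pi_fintype, Module.finrank_fin_fun, Module.finrank_fin_fun]
    simp only [Finset.sum_const, Finset.card_univ, Fintype.card_fin, smul_eq_mul]
    omega
  let ε : V ≃ₗ[F] (Fin n → F) := LinearEquiv.ofFinrankEq V (Fin n → F) hrank
  let e1 : (V ≃ₗ[F] V) ≃* (Module.End F V)ˣ := (LinearMap.GeneralLinearGroup.generalLinearEquiv F V).symm
  let e2 : (Module.End F V)ˣ ≃* (Module.End F (Fin n → F))ˣ :=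
    Units.mapEquiv (LinearEquiv.conjRingEquiv ε).toMulEquiv
  let e3 : (Module.End F (Fin n → F))ˣ ≃* GL (Fin n) F := Matrix.GeneralLinearGroup.toLin.symm
  refine ⟨(e3.toMonoidHom.comp (e2.toMonoidHom.comp e1.toMonoidHom)).comp ψ, ?_⟩
  exact (e3.injective.comp (e2.injective.comp e1.injective)).comp hψ

end GT

/-- Sylow subgroups of `GL_n(q)` for large primes. Let `F` be a field with `q` elements and `r` a prime with `r > n` and `r ∤ q`. Let `d` be the multiplicative order of `q` modulo `r` and `m` the `r`-part of the value at `q` of the `d`-th cyclotomic polynomial. Then every Sylow `r`-subgroup of `GL_n(q)` is a direct product of `⌊n/d⌋` cyclic groups of order `m` (the degrees of the Weyl group being `1, …, n`). -/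
theorem result {F : Type*} [Field F] [Fintype F] {q : ℕ} (hq : Fintype.card F = q) (n : ℕ)
    (r : ℕ) [Fact r.Prime] (hrn : n < r) (hrq : ¬ r ∣ q) (P : Sylow r (GL (Fin n) F)) :
    Nonempty (↥(P : Subgroup (GL (Fin n) F)) ≃*
      (Fin (n / orderOf (q : ZMod r)) →
        Multiplicative (ZMod (r ^ padicValNat r ((Polynomial.cyclotomic (orderOf (q : ZMod r)) ℤ).eval (q : ℤ)).natAbs)))) := by
  classical
  have hr : r.Prime := Fact.out
  have hq2 : 2 ≤ q := by
    rw [← hq]
    exact Fintype.one_lt_card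
  set d := orderOf (q : ZMod r) with hd
  have hdpos : 0 < d := order_pos q r hrq
  set v := padicValNat r ((Polynomial.cyclotomic d ℤ).eval (q : ℤ)).natAbs with hv
  set a := n / d with ha
  -- the characteristic and the extension field
  obtain ⟨p, hp⟩ := CharP.exists F
  have : CharP F p := hp
  have : Fact p.Prime := ⟨(CharP.char_is_prime_or_zero F p).resolve_right (CharP.char_ne_zero_of_finite F p)⟩
  have : NeZero d := ⟨hdpos.ne'⟩
  let E := FiniteField.Extension F p d
  have hfr : Module.finrank F E = d := FiniteField.finrank_extension F p d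
  have hcardE : Nat.card Eˣ = q ^ d - 1 := by
    rw [Nat.card_units, FiniteField.natCard_extension, Nat.card_eq_fintype_card, hq]
  -- r^v divides q^d - 1
  have hfc := fact_cyclotomic q r hq2 hrq
  rw [← hd, ← hv] at hfc
  have hne : q ^ d - 1 ≠ 0 := by
    have : 2 ≤ q ^ d := le_trans hq2 (Nat.le_self_pow hdpos.ne' q)
    omega
  have hdvd : r ^ v ∣ Nat.card Eˣ := by
    rw [hcardE, ← hfc]
    exact Nat.ordProj_dvd _ _
  obtain ⟨κ, hκ⟩ := exists_zmod_embedding (C := Eˣ) (r ^ v) hdvd
  obtain ⟨φ, hφ⟩ := exists_torus_embedding (F := F) E n a (by rw [hfr]; exact Nat.div_mul_le_self n d)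
  let Φ : (Fin a → Multiplicative (ZMod (r ^ v))) →* GL (Fin n) F := φ.comp (κ.compLeft (Fin a))
  have hΦ : Function.Injective Φ := by
    refine hφ.comp ?_
    intro s t hst
    funext i
    exact hκ (congrFun hst i)
  have hcardT : Nat.card (Fin a → Multiplicative (ZMod (r ^ v))) =
      r ^ (Nat.card (GL (Fin n) F)).factorization r := by
    rw [Matrix.card_GL_field, hq, fact_card q r hq2 hrq n hrn, ← hd, ← hv, ← ha]
    rw [Nat.card_pi]
    simp only [Finset.prod_const, Finset.card_univ, Fintype.card_fin]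
    have : Nat.card (Multiplicative (ZMod (r ^ v))) = r ^ v := by
      rw [Nat.card_congr (Multiplicative.toAdd : Multiplicative (ZMod (r ^ v)) ≃ ZMod (r ^ v)),
        Nat.card_zmod]
    rw [this, ← pow_mul, mul_comm]
  exact sylow_equiv_of_injective r Φ hΦ hcardT P

end Cfsg.Agent.S2380
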