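import Cfsg.Statements.S2381
import Mathlib
import Cfsg.Agent.S2380
import Cfsg.Agent.Helper5.SympCard

set_option autoImplicit false
open Cfsg

namespace Cfsg.Agent.S2381

open Finset
open Cfsg.Agent.S2380

section NT
variable (q r : ℕ) [Fact r.Prime]

/-- `v_r(q^(dk) - 1) = v_r(q^d - 1)` for `r ∤ k`, where `r ∣ q^d - 1`. -/
theorem fact_pow_mul' (hq : 2 ≤ q) (d k : ℕ) (hd : 0 < d) (hkr : ¬ r ∣ k)
    (hdvd : r ∣ q ^ d - 1) :
    (q ^ (d * k) - 1).factorization r = (q ^ d - 1).factorization r := by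
  have h1 : 1 ≤ q ^ d := Nat.one_le_pow _ _ (by omega)
  have h1' : 1 ≤ q ^ (d * k) := Nat.one_le_pow _ _ (by omega)
  have key : (∑ i ∈ range k, (q ^ d) ^ i) * (q ^ d - 1) = q ^ (d * k) - 1 := by
    zify [h1, h1']
    rw [geom_sum_mul, pow_mul]
  have hS : ¬ r ∣ ∑ i ∈ range k, (q ^ d) ^ i := by
    rw [← ZMod.natCast_eq_zero_iff]
    push_cast
    have hqd : ((q : ZMod r)) ^ d = 1 := by
      have := (dvd_pow_sub_one_iff q r (by omega) d).mp hdvd
      exact orderOf_dvd_iff_pow_eq_one.mp this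
    rw [hqd]
    simp only [one_pow, sum_const, card_range, nsmul_eq_mul, mul_one]
    rw [ZMod.natCast_eq_zero_iff]
    exact hkr
  have hne1 : q ^ d - 1 ≠ 0 := by
    have : 2 ≤ q ^ d := le_trans hq (Nat.le_self_pow hd.ne' q)
    omega
  have hne2 : (∑ i ∈ range k, (q ^ d) ^ i) ≠ 0 := by
    intro h
    rw [h] at hS
    exact hS (dvd_zero r)
  rw [← key, Nat.factorization_mul hne2 hne1]
  simp [Nat.factorization_eq_zero_of_not_dvd hS]

/-- the `r`-adic valuation of `∏_{i<n} (q^n - q^i)` when `n / d < r`. -/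
theorem fact_card' (hq : 2 ≤ q) (hrq : ¬ r ∣ q) (n : ℕ) (hrn : n / orderOf (q : ZMod r) < r) :
    (∏ i : Fin n, (q ^ n - q ^ (i : ℕ))).factorization r =
      (n / orderOf (q : ZMod r)) *
        padicValNat r ((Polynomial.cyclotomic (orderOf (q : ZMod r)) ℤ).eval (q : ℤ)).natAbs := by
  set d := orderOf (q : ZMod r) with hd
  have hdpos : 0 < d := order_pos q r hrq
  have hr : r.Prime := Fact.out
  rw [← fact_cyclotomic q r hq hrq, ← hd]
  set v := (q ^ d - 1).factorization r with hv
  have hterm : ∀ i : ℕ, i < n → (q ^ n - q ^ i).factorization r = if d ∣ n - i then v else 0 := by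
    intro i hi
    have e1 : q ^ n - q ^ i = q ^ i * (q ^ (n - i) - 1) := by
      rw [Nat.mul_sub, mul_one, ← pow_add]
      congr 2
      omega
    have hne1 : q ^ i ≠ 0 := pow_ne_zero _ (by omega)
    have hne2 : q ^ (n - i) - 1 ≠ 0 := by
      have : 2 ≤ q ^ (n - i) := le_trans hq (Nat.le_self_pow (by omega) q)
      omega
    rw [e1, Nat.factorization_mul hne1 hne2, Nat.factorization_pow]
    simp only [Finsupp.coe_add, Finsupp.coe_smul, Pi.add_apply, Pi.smul_apply, smul_eq_mul]
    rw [Nat.factorization_eq_zero_of_not_dvd hrq, mul_zero, zero_add]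
    split_ifs with hdvd
    · obtain ⟨k, hk⟩ := hdvd
      rw [hk]
      have hkpos : 0 < k := by
        rcases Nat.eq_zero_or_pos k with h | h
        · rw [h] at hk; omega
        · exact h
      have hkr : k < r := by
        refine lt_of_le_of_lt ((Nat.le_div_iff_mul_le hdpos).mpr ?_) hrn
        rw [mul_comm, ← hk]
        omega
      exact fact_pow_mul q r hq d k hdpos hkpos hkr
        ((dvd_pow_sub_one_iff q r (by omega) d).mpr dvd_rfl)
    · apply Nat.factorization_eq_zero_of_not_dvd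
      intro h
      exact hdvd ((dvd_pow_sub_one_iff q r (by omega) _).mp h)
  have hne : ∀ i ∈ (Finset.univ : Finset (Fin n)), q ^ n - q ^ (i : ℕ) ≠ 0 := by
    intro i _
    have : q ^ (i : ℕ) < q ^ n := Nat.pow_lt_pow_right (by omega) i.2
    omega
  rw [Nat.factorization_prod hne, Finsupp.finsetSum_apply]
  rw [Fin.sum_univ_eq_sum_range (fun i => (q ^ n - q ^ i).factorization r) n]
  rw [Finset.sum_congr rfl (fun i hi => hterm i (Finset.mem_range.mp hi))]
  have h2 : ∑ i ∈ range n, (if d ∣ n - i then v else 0) = ∑ j ∈ range n, (if d ∣ j + 1 then v else 0) := by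
    rw [← Finset.sum_range_reflect (fun j => if d ∣ j + 1 then v else 0) n]
    apply Finset.sum_congr rfl
    intro i hi
    have : n - 1 - i + 1 = n - i := by
      have := Finset.mem_range.mp hi
      omega
    rw [this]
  rw [h2, ← Finset.sum_filter, Finset.sum_const, Nat.card_multiples, smul_eq_mul]

theorem cnt_eq (d n : ℕ) :
    ((Finset.Icc 1 n).filter (fun i => d ∣ 2 * i)).card
      = ((Finset.range n).filter (fun i => d ∣ 2 * (i + 1))).card := by
  symm
  apply Finset.card_bij (fun i _ => i + 1)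
  · intro i hi
    simp only [Finset.mem_filter, Finset.mem_range, Finset.mem_Icc] at hi ⊢
    exact ⟨⟨by omega, by omega⟩, hi.2⟩
  · intro i _ j _ h
    omega
  · intro j hj
    simp only [Finset.mem_filter, Finset.mem_range, Finset.mem_Icc] at hj ⊢
    refine ⟨j - 1, ⟨by omega, ?_⟩, by omega⟩
    have : j - 1 + 1 = j := by omega
    rw [this]
    exact hj.2

theorem cnt_even (d n : ℕ) (hd : Even d) (hd0 : 0 < d) :
    ((Finset.Icc 1 n).filter (fun i => d ∣ 2 * i)).card = 2 * n / d := by
  obtain ⟨e, he⟩ := hd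
  have he2 : d = 2 * e := by omega
  have he0 : 0 < e := by omega
  rw [cnt_eq, he2, Nat.mul_div_mul_left _ _ (by norm_num : 0 < 2), ← Nat.card_multiples n e]
  congr 1
  apply Finset.filter_congr
  intro i _
  exact Nat.mul_dvd_mul_iff_left (by norm_num)

theorem cnt_odd (d n : ℕ) (hd : Odd d) :
    ((Finset.Icc 1 n).filter (fun i => d ∣ 2 * i)).card = n / d := by
  rw [cnt_eq, ← Nat.card_multiples n d]
  congr 1
  apply Finset.filter_congr
  intro i _
  have hcop : Nat.Coprime d 2 := Nat.Coprime.symm (Nat.coprime_two_left.mpr hd)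
  constructor
  · intro h
    exact hcop.dvd_of_dvd_mul_left h
  · intro h
    exact Dvd.dvd.mul_left h 2

/-- the `r`-adic valuation of the order of `Sp_{2n}(q)`. -/
theorem fact_card_sp (hq : 2 ≤ q) (hrq : ¬ r ∣ q) (hr2 : r ≠ 2) (n : ℕ) (hrn : n < r) :
    (q ^ (n ^ 2) * ∏ i ∈ Finset.range n, (q ^ (2 * (i + 1)) - 1)).factorization r =
      ((Finset.Icc 1 n).filter (fun i => orderOf (q : ZMod r) ∣ 2 * i)).card *
        padicValNat r ((Polynomial.cyclotomic (orderOf (q : ZMod r)) ℤ).eval (q : ℤ)).natAbs := by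
  set d := orderOf (q : ZMod r) with hd
  have hdpos : 0 < d := order_pos q r hrq
  have hr : r.Prime := Fact.out
  rw [← fact_cyclotomic q r hq hrq, ← hd]
  set v := (q ^ d - 1).factorization r with hv
  have hterm : ∀ i : ℕ, i < n →
      (q ^ (2 * (i + 1)) - 1).factorization r = if d ∣ 2 * (i + 1) then v else 0 := by
    intro i hi
    split_ifs with hdvd
    · obtain ⟨k, hk⟩ := hdvd
      rw [hk]
      have hkr : ¬ r ∣ k := by
        intro h
        have h1 : r ∣ 2 * (i + 1) := by rw [hk]; exact Dvd.dvd.mul_left h d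
        rcases (Nat.Prime.dvd_mul hr).mp h1 with h2 | h2
        · exact hr2 ((Nat.prime_dvd_prime_iff_eq hr Nat.prime_two).mp h2)
        · have := Nat.le_of_dvd (by omega) h2
          omega
      exact fact_pow_mul' q r hq d k hdpos hkr
        ((dvd_pow_sub_one_iff q r (by omega) d).mpr dvd_rfl)
    · apply Nat.factorization_eq_zero_of_not_dvd
      intro h
      exact hdvd ((dvd_pow_sub_one_iff q r (by omega) _).mp h)
  have hne : ∀ i ∈ Finset.range n, q ^ (2 * (i + 1)) - 1 ≠ 0 := by
    intro i _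
    have : 2 ≤ q ^ (2 * (i + 1)) := le_trans hq (Nat.le_self_pow (by omega) q)
    omega
  have hne1 : q ^ (n ^ 2) ≠ 0 := pow_ne_zero _ (by omega)
  have hne2 : ∏ i ∈ Finset.range n, (q ^ (2 * (i + 1)) - 1) ≠ 0 := Finset.prod_ne_zero_iff.mpr hne
  rw [Nat.factorization_mul hne1 hne2, Nat.factorization_pow]
  simp only [Finsupp.coe_add, Finsupp.coe_smul, Pi.add_apply, Pi.smul_apply, smul_eq_mul]
  rw [Nat.factorization_eq_zero_of_not_dvd hrq, mul_zero, zero_add]
  rw [Nat.factorization_prod hne, Finsupp.finsetSum_apply]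
  rw [Finset.sum_congr rfl (fun i hi => hterm i (Finset.mem_range.mp hi))]
  rw [← Finset.sum_filter, Finset.sum_const, smul_eq_mul, cnt_eq]

end NT

section GT
open Matrix

variable {F : Type*} [Field F]

/-- `GL_n → Sp_{2n}`, `g ↦ diag(g, g⁻ᵀ)`. -/
noncomputable def glToSp (n : ℕ) (F : Type*) [Field F] :
    GL (Fin n) F →* Matrix.symplecticGroup (Fin n) F where
  toFun g := ⟨Matrix.fromBlocks (g : Matrix (Fin n) (Fin n) F) 0 0
      ((g⁻¹ : GL (Fin n) F) : Matrix (Fin n) (Fin n) F)ᵀ, by
    rw [SymplecticGroup.mem_iff]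
    have h1 : (g : Matrix (Fin n) (Fin n) F) * ((g⁻¹ : GL (Fin n) F) : Matrix (Fin n) (Fin n) F) = 1 := by
      rw [← Units.val_mul, mul_inv_cancel]; rfl
    have h2 : ((g⁻¹ : GL (Fin n) F) : Matrix (Fin n) (Fin n) F)ᵀ * (g : Matrix (Fin n) (Fin n) F)ᵀ = 1 := by
      rw [← Matrix.transpose_mul, h1, Matrix.transpose_one]
    simp [Matrix.J, Matrix.fromBlocks_multiply, Matrix.fromBlocks_transpose]
    rw [← Matrix.coe_units_inv]
    exact h2⟩
  map_one' := by
    apply Subtype.ext
    simp [Matrix.fromBlocks_one]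
  map_mul' g h := by
    apply Subtype.ext
    simp [Matrix.fromBlocks_multiply, Matrix.transpose_mul]

theorem glToSp_injective (n : ℕ) : Function.Injective (glToSp n F) := by
  intro g h hgh
  have := congrArg (fun x : Matrix.symplecticGroup (Fin n) F =>
    (x : Matrix (Fin n ⊕ Fin n) (Fin n ⊕ Fin n) F)) hgh
  simp only [glToSp, MonoidHom.coe_mk, OneHom.coe_mk] at this
  exact Units.ext (Matrix.fromBlocks_inj.mp this).1

variable [Fintype F]

theorem exists_T_embedding {q : ℕ} (hq : Fintype.card F = q)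
    (r : ℕ) [Fact r.Prime] (hrq : ¬ r ∣ q) (N a : ℕ) (h : a * orderOf (q : ZMod r) ≤ N) :
    ∃ Φ : (Fin a → Multiplicative (ZMod (r ^ padicValNat r
        ((Polynomial.cyclotomic (orderOf (q : ZMod r)) ℤ).eval (q : ℤ)).natAbs))) →* GL (Fin N) F,
      Function.Injective Φ := by
  classical
  have hr : r.Prime := Fact.out
  have hq2 : 2 ≤ q := by
    rw [← hq]
    exact Fintype.one_lt_card
  set d := orderOf (q : ZMod r) with hd
  have hdpos : 0 < d := order_pos q r hrq
  set v := padicValNat r ((Polynomial.cyclotomic d ℤ).eval (q : ℤ)).natAbs with hv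
  obtain ⟨p, hp⟩ := CharP.exists F
  have : CharP F p := hp
  have : Fact p.Prime := ⟨(CharP.char_is_prime_or_zero F p).resolve_right (CharP.char_ne_zero_of_finite F p)⟩
  have : NeZero d := ⟨hdpos.ne'⟩
  let E := FiniteField.Extension F p d
  have hfr : Module.finrank F E = d := FiniteField.finrank_extension F p d
  have hcardE : Nat.card Eˣ = q ^ d - 1 := by
    rw [Nat.card_units, FiniteField.natCard_extension, Nat.card_eq_fintype_card, hq]
  have hfc := fact_cyclotomic q r hq2 hrq
  rw [← hd, ← hv] at hfc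
  have hne : q ^ d - 1 ≠ 0 := by
    have : 2 ≤ q ^ d := le_trans hq2 (Nat.le_self_pow hdpos.ne' q)
    omega
  have hdvd : r ^ v ∣ Nat.card Eˣ := by
    rw [hcardE, ← hfc]
    exact Nat.ordProj_dvd _ _
  obtain ⟨κ, hκ⟩ := exists_zmod_embedding (C := Eˣ) (r ^ v) hdvd
  obtain ⟨φ, hφ⟩ := exists_torus_embedding (F := F) E N a (by rw [hfr]; exact h)
  refine ⟨φ.comp (κ.compLeft (Fin a)), ?_⟩
  refine hφ.comp ?_
  intro s t hst
  funext i
  exact hκ (congrFun hst i)

theorem main {q : ℕ} (hq : Fintype.card F = q) (n : ℕ)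
    (r : ℕ) [Fact r.Prime] (hr2 : r ≠ 2) (hrn : n < r) (hrq : ¬ r ∣ q) (P : Sylow r ↥(Matrix.symplecticGroup (Fin n) F)) :
    Nonempty (↥(P : Subgroup ↥(Matrix.symplecticGroup (Fin n) F)) ≃*
      (Fin ((Finset.Icc 1 n).filter (fun i => orderOf (q : ZMod r) ∣ 2 * i)).card →
        Multiplicative (ZMod (r ^ padicValNat r ((Polynomial.cyclotomic (orderOf (q : ZMod r)) ℤ).eval (q : ℤ)).natAbs)))) := by
  classical
  have hr : r.Prime := Fact.out
  have hq2 : 2 ≤ q := by
    rw [← hq]
    exact Fintype.one_lt_card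
  have hdpos : 0 < orderOf (q : ZMod r) := order_pos q r hrq
  have hcardSp : (Nat.card ↥(Matrix.symplecticGroup (Fin n) F)).factorization r
      = ((Finset.Icc 1 n).filter (fun i => orderOf (q : ZMod r) ∣ 2 * i)).card *
        padicValNat r ((Polynomial.cyclotomic (orderOf (q : ZMod r)) ℤ).eval (q : ℤ)).natAbs := by
    rw [Cfsg.Agent.Helper5.card_sp, hq, fact_card_sp q r hq2 hrq hr2 n hrn]
  generalize hv : padicValNat r ((Polynomial.cyclotomic (orderOf (q : ZMod r)) ℤ).eval (q : ℤ)).natAbs = v at hcardSp ⊢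
  have hcardT : ∀ a : ℕ, Nat.card (Fin a → Multiplicative (ZMod (r ^ v))) = r ^ (a * v) := by
    intro a
    rw [Nat.card_pi]
    simp only [Finset.prod_const, Finset.card_univ, Fintype.card_fin]
    have : Nat.card (Multiplicative (ZMod (r ^ v))) = r ^ v := by
      rw [Nat.card_congr (Multiplicative.toAdd : Multiplicative (ZMod (r ^ v)) ≃ ZMod (r ^ v)),
        Nat.card_zmod]
    rw [this, ← pow_mul, mul_comm]
  rcases Nat.even_or_odd (orderOf (q : ZMod r)) with hde | hdo
  · have ha2 := cnt_even (orderOf (q : ZMod r)) n hde hdpos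
    rw [ha2] at hcardSp ⊢
    obtain ⟨Φ, hΦ⟩ : ∃ Φ : (Fin (2 * n / orderOf (q : ZMod r)) → Multiplicative (ZMod (r ^ v)))
        →* GL (Fin (2 * n)) F, Function.Injective Φ := by
      rw [← hv]
      exact exists_T_embedding (F := F) hq r hrq (2 * n) (2 * n / orderOf (q : ZMod r))
        (Nat.div_mul_le_self _ _)
    let e : GL (Fin (2 * n)) F ≃* GL (Fin n ⊕ Fin n) F :=
      Units.mapEquiv (Matrix.reindexAlgEquiv F F
        ((finCongr (two_mul n)).trans finSumFinEquiv.symm)).toMulEquiv
    let ι : ↥(Matrix.symplecticGroup (Fin n) F) →* GL (Fin n ⊕ Fin n) F :=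
      (Matrix.symplecticGroup (Fin n) F).subtype.toHomUnits
    have hι : Function.Injective ι := by
      intro x y hxy
      have := congrArg (fun g : GL (Fin n ⊕ Fin n) F => (g : Matrix (Fin n ⊕ Fin n) (Fin n ⊕ Fin n) F)) hxy
      exact Subtype.ext this
    have hlt : 2 * n / orderOf (q : ZMod r) < r := by
      have h2 : 2 ≤ orderOf (q : ZMod r) := by
        rcases hde with ⟨e', he'⟩
        omega
      have : 2 * n / orderOf (q : ZMod r) ≤ n := by
        apply Nat.div_le_of_le_mul
        nlinarith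
      omega
    have hcardGL : (Nat.card (GL (Fin n ⊕ Fin n) F)).factorization r
        = 2 * n / orderOf (q : ZMod r) * v := by
      rw [← Nat.card_congr e.toEquiv, Matrix.card_GL_field, hq, fact_card' q r hq2 hrq (2 * n) hlt, hv]
    have hP' : Nat.card ((P : Subgroup ↥(Matrix.symplecticGroup (Fin n) F)).map ι)
        = r ^ (Nat.card (GL (Fin n ⊕ Fin n) F)).factorization r := by
      rw [Subgroup.card_map_of_injective hι, hcardGL, ← hcardSp]
      exact P.card_eq_multiplicity
    obtain ⟨f⟩ := sylow_equiv_of_injective r (e.toMonoidHom.comp Φ) (e.injective.comp hΦ)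
      (by rw [hcardT, hcardGL])
      (Sylow.ofCard ((P : Subgroup ↥(Matrix.symplecticGroup (Fin n) F)).map ι) hP')
    have hcoe := Sylow.coe_ofCard ((P : Subgroup ↥(Matrix.symplecticGroup (Fin n) F)).map ι) hP'
    exact ⟨(((P : Subgroup _).equivMapOfInjective ι hι).trans
      (MulEquiv.subgroupCongr hcoe.symm)).trans f⟩
  · have ha2 := cnt_odd (orderOf (q : ZMod r)) n hdo
    rw [ha2] at hcardSp ⊢
    obtain ⟨Φ, hΦ⟩ : ∃ Φ : (Fin (n / orderOf (q : ZMod r)) → Multiplicative (ZMod (r ^ v)))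
        →* GL (Fin n) F, Function.Injective Φ := by
      rw [← hv]
      exact exists_T_embedding (F := F) hq r hrq n (n / orderOf (q : ZMod r))
        (Nat.div_mul_le_self _ _)
    exact sylow_equiv_of_injective r ((glToSp n F).comp Φ) ((glToSp_injective n).comp hΦ)
      (by rw [hcardT, hcardSp]) P

end GT

/-- Sylow subgroups of `Sp_{2n}(q)` for large primes. Let `F` be a field with `q` elements and `r` an odd prime with `r > n` and `r ∤ q` (so `r` does not divide the order `2^n n!` of the Weyl group). Let `d` be the multiplicative order of `q` modulo `r`, `a` the number of `i` with `1 ≤ i ≤ n` and `d ∣ 2i` (the degrees being `2, 4, …, 2n`), and `m` the `r`-part of the value at `q` of the `d`-th cyclotomic polynomial. Then every Sylow `r`-subgroup of the symplectic group `Sp_{2n}(q)` is a direct product of `a` cyclic groups of order `m`. -/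
theorem result {F : Type*} [Field F] [Fintype F] {q : ℕ} (hq : Fintype.card F = q) (n : ℕ)
    (r : ℕ) [Fact r.Prime] (hr2 : r ≠ 2) (hrn : n < r) (hrq : ¬ r ∣ q) (P : Sylow r ↥(Matrix.symplecticGroup (Fin n) F)) :
    Nonempty (↥(P : Subgroup ↥(Matrix.symplecticGroup (Fin n) F)) ≃*
      (Fin ((Finset.Icc 1 n).filter (fun i => orderOf (q : ZMod r) ∣ 2 * i)).card →
        Multiplicative (ZMod (r ^ padicValNat r ((Polynomial.cyclotomic (orderOf (q : ZMod r)) ℤ).eval (q : ℤ)).natAbs)))) := by
  exact main hq n r hr2 hrn hrq P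

end Cfsg.Agent.S2381
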