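import Cfsg.Statements.S2388
import Cfsg.Agent.Helper40.SemisimpleMat

set_option autoImplicit false
open Cfsg

namespace Cfsg.Agent.S2388

/-- In `SL_n(q)`, `q` a power of the prime `p`, two elements of order prime to `p` with the same characteristic polynomial are conjugate in `SL_n(q)` (not merely in `GL_n`). -/
theorem result {F : Type*} [Field F] [Fintype F] (p : ℕ) [Fact p.Prime] [CharP F p] (n : ℕ)
    (g h : Matrix.SpecialLinearGroup (Fin n) F) (hg : (orderOf g).Coprime p) (hh : (orderOf h).Coprime p)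
    (hc : (g : Matrix (Fin n) (Fin n) F).charpoly = (h : Matrix (Fin n) (Fin n) F).charpoly) : IsConj g h := by
  have hgA : (g : Matrix (Fin n) (Fin n) F) ^ orderOf g = 1 := by
    rw [← Matrix.SpecialLinearGroup.coe_pow, pow_orderOf_eq_one]
    rfl
  have hhB : (h : Matrix (Fin n) (Fin n) F) ^ orderOf h = 1 := by
    rw [← Matrix.SpecialLinearGroup.coe_pow, pow_orderOf_eq_one]
    rfl
  obtain ⟨P, hP, hPc⟩ := Cfsg.Agent.Helper40.exists_conj_matrix p hg hh _ _ hgA hhB hc
  rw [isConj_iff]
  let c : Matrix.SpecialLinearGroup (Fin n) F := ⟨P, hP⟩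
  refine ⟨c, ?_⟩
  rw [mul_inv_eq_iff_eq_mul]
  apply Subtype.ext
  rw [Matrix.SpecialLinearGroup.coe_mul, Matrix.SpecialLinearGroup.coe_mul]
  exact hPc

end Cfsg.Agent.S2388
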