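import Cfsg.Statements.S2384
import Cfsg.Agent.Helper40.SemisimpleCount
import Cfsg.Agent.S2388

set_option autoImplicit false
open Cfsg

namespace Cfsg.Agent.S2384

open Polynomial in
/-- In `SL_n(q)`, `q` a power of the prime `p`, the number of conjugacy classes of elements of order prime to `p` (the semisimple classes) is `q^(n-1)`. -/
theorem result {F : Type*} [Field F] [Fintype F] {q : ℕ} (hq : Fintype.card F = q) (p : ℕ) [Fact p.Prime] [CharP F p] (n : ℕ) (hn : 1 ≤ n) :
    Nat.card {c : ConjClasses (Matrix.SpecialLinearGroup (Fin n) F) //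
      ∃ g : Matrix.SpecialLinearGroup (Fin n) F, ConjClasses.mk g = c ∧ (orderOf g).Coprime p} = q ^ (n - 1) := by
  classical
  have hcount := Cfsg.Agent.Helper40.card_monic_coeff_zero (F := F) hn (fun x => x = (-1) ^ n)
  have hnz : Nat.card {x : F // x = (-1) ^ n} = 1 := by
    rw [Nat.card_eq_fintype_card, Fintype.card_subtype_eq]
  rw [hnz, hq, one_mul] at hcount
  rw [← hcount]
  symm
  have hsq : ((-1 : F) ^ n) * (-1) ^ n = 1 := by
    rw [← mul_pow]
    simp
  have hex : ∀ P : {P : F[X] // P.Monic ∧ P.natDegree = n ∧ P.coeff 0 = (-1) ^ n},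
      ∃ g : Matrix.SpecialLinearGroup (Fin n) F,
        (g : Matrix (Fin n) (Fin n) F).charpoly = P.1 ∧ (orderOf g).Coprime p := by
    rintro ⟨P, hPm, hPn, hP0⟩
    obtain ⟨A, hA⟩ := Cfsg.Agent.Helper40.exists_matrix_charpoly P hPm hPn
    have hdet : A.det = 1 := by
      rw [Matrix.det_eq_sign_charpoly_coeff, hA, hP0, Fintype.card_fin, hsq]
    obtain ⟨B, m, hm, hBm, hBc⟩ :=
      Cfsg.Agent.Helper40.exists_pprime_matrix p A (by rw [hdet]; exact one_ne_zero)
    have hBdet : B.det = 1 := by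
      rw [Matrix.det_eq_sign_charpoly_coeff, hBc, hA, hP0, Fintype.card_fin, hsq]
    let g : Matrix.SpecialLinearGroup (Fin n) F := ⟨B, hBdet⟩
    refine ⟨g, ?_, ?_⟩
    · change B.charpoly = P
      rw [hBc, hA]
    · apply Nat.Coprime.coprime_dvd_left _ hm
      apply orderOf_dvd_of_pow_eq_one
      apply Subtype.ext
      rw [Matrix.SpecialLinearGroup.coe_pow]
      exact hBm
  choose γ hγc hγo using hex
  have hconj : ∀ g h : Matrix.SpecialLinearGroup (Fin n) F, IsConj g h →
      (g : Matrix (Fin n) (Fin n) F).charpoly = (h : Matrix (Fin n) (Fin n) F).charpoly := by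
    intro g h hgh
    obtain ⟨c, hc⟩ := isConj_iff.1 hgh
    rw [← hc, Matrix.SpecialLinearGroup.coe_mul, Matrix.charpoly_mul_comm,
      ← Matrix.SpecialLinearGroup.coe_mul, inv_mul_cancel_left]
  apply Nat.card_eq_of_bijective (fun P =>
    (⟨ConjClasses.mk (γ P), γ P, rfl, hγo P⟩ :
      {c : ConjClasses (Matrix.SpecialLinearGroup (Fin n) F) //
        ∃ g : Matrix.SpecialLinearGroup (Fin n) F,
          ConjClasses.mk g = c ∧ (orderOf g).Coprime p}))
  constructor
  · intro P P' hPP'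
    have h1 : ConjClasses.mk (γ P) = ConjClasses.mk (γ P') := congrArg Subtype.val hPP'
    rw [ConjClasses.mk_eq_mk_iff_isConj] at h1
    apply Subtype.ext
    rw [← hγc P, ← hγc P']
    exact hconj _ _ h1
  · rintro ⟨c, g, rfl, hg⟩
    have hP : (g : Matrix (Fin n) (Fin n) F).charpoly.Monic ∧
        (g : Matrix (Fin n) (Fin n) F).charpoly.natDegree = n ∧
        (g : Matrix (Fin n) (Fin n) F).charpoly.coeff 0 = (-1) ^ n := by
      refine ⟨Matrix.charpoly_monic _, by simp, ?_⟩
      have hdet : (g : Matrix (Fin n) (Fin n) F).det = 1 := g.2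
      rw [Matrix.det_eq_sign_charpoly_coeff, Fintype.card_fin] at hdet
      calc (g : Matrix (Fin n) (Fin n) F).charpoly.coeff 0
          = ((-1 : F) ^ n * (-1) ^ n) * (g : Matrix (Fin n) (Fin n) F).charpoly.coeff 0 := by
            rw [hsq, one_mul]
        _ = (-1) ^ n := by rw [mul_assoc, hdet, mul_one]
    refine ⟨⟨_, hP⟩, ?_⟩
    apply Subtype.ext
    change ConjClasses.mk (γ ⟨_, hP⟩) = ConjClasses.mk g
    rw [ConjClasses.mk_eq_mk_iff_isConj]
    exact Cfsg.Agent.S2388.result p n _ _ (hγo _) hg (hγc ⟨_, hP⟩)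

end Cfsg.Agent.S2384
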