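import Cfsg.Statements.S2589
import Cfsg.Agent.Helper43.SpSemi2

set_option autoImplicit false
open Cfsg

namespace Cfsg.Agent.S2589

open Cfsg.Agent.Helper43 Cfsg.Agent.Helper43.SpSemi Matrix

theorem isUnit_of_mul {F : Type*} [Field F] {m : ℕ} (M N : Matrix (Fin m ⊕ Fin m) (Fin m ⊕ Fin m) F) (h : M * N = 1) : IsUnit M :=
  ⟨⟨M, N, h, mul_eq_one_comm.1 h⟩, rfl⟩

/-- Two semisimple elements of the finite symplectic group Sp_2m(F) (elements of order prime to the characteristic) are conjugate in Sp_2m(F) if and only if they are conjugate in GL_2m(F). -/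
theorem result {F : Type*} [Field F] [Fintype F] {p : ℕ} [Fact p.Prime] [CharP F p] {m : ℕ} (A B : Matrix.symplecticGroup (Fin m) F) (hA : (orderOf A).Coprime p) : IsConj A B ↔ IsConj (A : Matrix (Fin m ⊕ Fin m) (Fin m ⊕ Fin m) F) (B : Matrix (Fin m ⊕ Fin m) (Fin m ⊕ Fin m) F) := by
  classical
  constructor
  · intro h
    obtain ⟨c, hc⟩ := isConj_iff.1 h
    have hcu : IsUnit (c : Matrix (Fin m ⊕ Fin m) (Fin m ⊕ Fin m) F) :=
      isUnit_of_mul _ ((c⁻¹ : Matrix.symplecticGroup (Fin m) F) : Matrix (Fin m ⊕ Fin m) (Fin m ⊕ Fin m) F) (by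
        rw [← Submonoid.coe_mul, mul_inv_cancel]; rfl)
    refine ⟨hcu.unit, ?_⟩
    show (c : Matrix (Fin m ⊕ Fin m) (Fin m ⊕ Fin m) F) * A = B * c
    have h1 : c * A = B * c := by rw [← hc]; group
    exact congrArg Subtype.val h1
  · rintro ⟨g, hg⟩
    obtain ⟨G, hG⟩ : ∃ G : Matrix (Fin m ⊕ Fin m) (Fin m ⊕ Fin m) F, G = g := ⟨_, rfl⟩
    obtain ⟨a, ha⟩ : ∃ a : Matrix (Fin m ⊕ Fin m) (Fin m ⊕ Fin m) F, a = (A : Matrix (Fin m ⊕ Fin m) (Fin m ⊕ Fin m) F) := ⟨_, rfl⟩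
    obtain ⟨b, hb⟩ : ∃ b : Matrix (Fin m ⊕ Fin m) (Fin m ⊕ Fin m) F, b = (B : Matrix (Fin m ⊕ Fin m) (Fin m ⊕ Fin m) F) := ⟨_, rfl⟩
    have hGu : IsUnit G := by rw [hG]; exact g.isUnit
    have hGA : G * a = b * G := by
      rw [hG, ha, hb]; exact hg
    have hAs : dag a * a = 1 := by rw [ha]; exact (mem_symplectic_iff _).1 A.2
    have hBs : dag b * b = 1 := by rw [hb]; exact (mem_symplectic_iff _).1 B.2
    have hAd : a * dag a = 1 := mul_eq_one_comm.1 hAs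
    obtain ⟨X, hXdef⟩ : ∃ X : Matrix (Fin m ⊕ Fin m) (Fin m ⊕ Fin m) F, X = dag G * G := ⟨_, rfl⟩
    have hX : dag X = X := by rw [hXdef, dag_mul, dag_dag]
    have hdGu : IsUnit (dag G) := by
      obtain ⟨u, hu⟩ := hGu
      refine isUnit_of_mul _ (dag ((u⁻¹ : (Matrix (Fin m ⊕ Fin m) (Fin m ⊕ Fin m) F)ˣ) : Matrix (Fin m ⊕ Fin m) (Fin m ⊕ Fin m) F)) ?_
      rw [← dag_mul, ← hu, Units.inv_mul, dag_one]
    have hXu : IsUnit X := by rw [hXdef]; exact hdGu.mul hGu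
    have hinv : dag a * X * a = X := by
      calc dag a * X * a = dag (G * a) * (G * a) := by
            rw [dag_mul, hXdef]; simp only [mul_assoc]
        _ = dag G * (dag b * b) * G := by rw [hGA, dag_mul]; simp only [mul_assoc]
        _ = X := by rw [hBs, mul_one, hXdef]
    have hXA : X * a = a * X := by
      calc X * a = (a * dag a) * X * a := by rw [hAd, one_mul]
        _ = a * (dag a * X * a) := by simp only [mul_assoc]
        _ = a * X := by rw [hinv]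
    have halt : ∀ v : Fin m ⊕ Fin m → F, v ⬝ᵥ (J (Fin m) F * X) *ᵥ v = 0 := by
      intro v
      have h1 := dag_adj G v (G *ᵥ v)
      rw [mulVec_mulVec, Matrix.mul_assoc, ← hXdef] at h1
      rw [h1]
      exact J_alt _
    have hAk : a ^ orderOf A = 1 := by
      rw [ha, ← SubmonoidClass.coe_pow, pow_orderOf_eq_one]; rfl
    obtain ⟨h, hhA, hhX⟩ := exists_commuting_isometry p a X (orderOf A) hA hAk hAs hX hXu hXA halt
    obtain ⟨Xu, hXu'⟩ := hXu
    have hhu : IsUnit h := by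
      have h3 : ((Xu⁻¹ : (Matrix (Fin m ⊕ Fin m) (Fin m ⊕ Fin m) F)ˣ) : Matrix (Fin m ⊕ Fin m) (Fin m ⊕ Fin m) F) * dag h * h = 1 := by
        rw [mul_assoc, hhX, ← hXu', Units.inv_mul]
      exact isUnit_of_mul _ _ (mul_eq_one_comm.1 h3)
    obtain ⟨hu, hhu'⟩ := hhu
    obtain ⟨hi, hhi⟩ : ∃ hi : Matrix (Fin m ⊕ Fin m) (Fin m ⊕ Fin m) F, hi = ((hu⁻¹ : (Matrix (Fin m ⊕ Fin m) (Fin m ⊕ Fin m) F)ˣ) : Matrix (Fin m ⊕ Fin m) (Fin m ⊕ Fin m) F) := ⟨_, rfl⟩
    have h1 : h * hi = 1 := by rw [hhi, ← hhu', Units.mul_inv]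
    have h2 : hi * h = 1 := by rw [hhi, ← hhu', Units.inv_mul]
    have hiA : hi * a = a * hi := by
      calc hi * a = hi * (a * h) * hi := by rw [mul_assoc, mul_assoc, h1, mul_one]
        _ = hi * (h * a) * hi := by rw [hhA]
        _ = a * hi := by rw [← mul_assoc, h2, one_mul]
    have hsmem : G * hi ∈ Matrix.symplecticGroup (Fin m) F := by
      rw [mem_symplectic_iff, dag_mul]
      calc dag hi * dag G * (G * hi) = dag hi * X * hi := by rw [hXdef]; simp only [mul_assoc]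
        _ = dag hi * (dag h * h) * hi := by rw [hhX]
        _ = dag (h * hi) * (h * hi) := by rw [dag_mul]; simp only [mul_assoc]
        _ = 1 := by rw [h1, dag_one, one_mul]
    refine isConj_iff.2 ⟨⟨G * hi, hsmem⟩, ?_⟩
    rw [mul_inv_eq_iff_eq_mul]
    apply Subtype.ext
    show G * hi * (A : Matrix (Fin m ⊕ Fin m) (Fin m ⊕ Fin m) F) = B * (G * hi)
    rw [← ha, ← hb, mul_assoc, hiA, ← mul_assoc, hGA, mul_assoc]

end Cfsg.Agent.S2589
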