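import Cfsg.Statements.S2389
import Cfsg.Agent.S2589
import Cfsg.Agent.Helper40.SemisimpleConj

set_option autoImplicit false
open Cfsg

namespace Cfsg.Agent.S2389

open Polynomial in
/-- A matrix of order prime to the characteristic is semisimple. -/
theorem semis {F : Type*} [Field F] {ι : Type*} [Fintype ι] [DecidableEq ι] (p : ℕ)
    [Fact p.Prime] [CharP F p] {k : ℕ} (hk : k.Coprime p) (A : Matrix ι ι F) (hA : A ^ k = 1) :
    Module.End.IsSemisimple (Matrix.toLin' A) := by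
  apply Module.End.isSemisimple_of_squarefree_aeval_eq_zero (p := X ^ k - 1)
  · apply Polynomial.Separable.squarefree
    rw [Polynomial.X_pow_sub_one_separable_iff]
    intro h0
    rw [CharP.cast_eq_zero_iff F p] at h0
    have h1 : p ∣ 1 := by
      have := Nat.dvd_gcd h0 (dvd_refl p)
      rwa [hk] at this
    exact (Nat.Prime.one_lt Fact.out).ne' (Nat.dvd_one.1 h1)
  · have h1 : (Matrix.toLin' A) ^ k = 1 := by
      have h2 : Matrix.toLinAlgEquiv' (A ^ k) = (Matrix.toLinAlgEquiv' A) ^ k := map_pow _ _ _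
      rw [hA, map_one] at h2
      exact h2.symm
    simp [h1]

/-- In the symplectic group `Sp_{2n}(q)`, `q` a power of the prime `p`, two elements of order prime to `p` with the same characteristic polynomial are conjugate in `Sp_{2n}(q)`. -/
theorem result {F : Type*} [Field F] [Fintype F] (p : ℕ) [Fact p.Prime] [CharP F p] (n : ℕ)
    (g h : ↥(Matrix.symplecticGroup (Fin n) F)) (hg : (orderOf g).Coprime p) (hh : (orderOf h).Coprime p)
    (hc : (g : Matrix (Fin n ⊕ Fin n) (Fin n ⊕ Fin n) F).charpoly = (h : Matrix (Fin n ⊕ Fin n) (Fin n ⊕ Fin n) F).charpoly) :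
    IsConj g h := by
  classical
  rw [Cfsg.Agent.S2589.result g h hg]
  obtain ⟨a, ha⟩ : ∃ a : Matrix (Fin n ⊕ Fin n) (Fin n ⊕ Fin n) F, a = (g : Matrix (Fin n ⊕ Fin n) (Fin n ⊕ Fin n) F) := ⟨_, rfl⟩
  obtain ⟨b, hb⟩ : ∃ b : Matrix (Fin n ⊕ Fin n) (Fin n ⊕ Fin n) F, b = (h : Matrix (Fin n ⊕ Fin n) (Fin n ⊕ Fin n) F) := ⟨_, rfl⟩
  rw [← ha, ← hb] at hc ⊢
  have hak : a ^ orderOf g = 1 := by
    rw [ha, ← SubmonoidClass.coe_pow, pow_orderOf_eq_one]; rfl
  have hbk : b ^ orderOf h = 1 := by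
    rw [hb, ← SubmonoidClass.coe_pow, pow_orderOf_eq_one]; rfl
  have hT := semis p hg a hak
  have hS := semis p hh b hbk
  have hc' : (Matrix.toLin' a).charpoly = (Matrix.toLin' b).charpoly := by
    rw [Matrix.charpoly_toLin', Matrix.charpoly_toLin', hc]
  obtain ⟨φ, hφ⟩ := Cfsg.Agent.Helper40.exists_intertw_of_charpoly_eq _ (Fin n ⊕ Fin n → F)
    (Fin n ⊕ Fin n → F) _ _ hT hS hc' rfl
  refine ⟨⟨LinearMap.toMatrix' (φ : (Fin n ⊕ Fin n → F) →ₗ[F] (Fin n ⊕ Fin n → F)),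
    LinearMap.toMatrix' (φ.symm : (Fin n ⊕ Fin n → F) →ₗ[F] (Fin n ⊕ Fin n → F)), ?_, ?_⟩, ?_⟩
  · rw [← LinearMap.toMatrix'_comp]
    simp
  · rw [← LinearMap.toMatrix'_comp]
    simp
  · show LinearMap.toMatrix' (φ : (Fin n ⊕ Fin n → F) →ₗ[F] (Fin n ⊕ Fin n → F)) * a
      = b * LinearMap.toMatrix' (φ : (Fin n ⊕ Fin n → F) →ₗ[F] (Fin n ⊕ Fin n → F))
    apply Matrix.toLin'.injective
    rw [Matrix.toLin'_mul, Matrix.toLin'_mul, Matrix.toLin'_toMatrix']
    refine LinearMap.ext fun x => ?_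
    exact hφ x

end Cfsg.Agent.S2389
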