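import Cfsg.Statements.S2385
import Cfsg.Agent.S2389
import Cfsg.Agent.Helper43.SpReal2

set_option autoImplicit false
open Cfsg

namespace Cfsg.Agent.S2385

open Polynomial

/-- counting classes via a complete invariant -/
theorem card_classes_eq {G : Type*} [Group G] {α : Type*} (P : G → Prop) (χ : G → α)
    (h1 : ∀ g h, IsConj g h → χ g = χ h)
    (h2 : ∀ g h, P g → P h → χ g = χ h → IsConj g h) :
    Nat.card {c : ConjClasses G // ∃ g, ConjClasses.mk g = c ∧ P g} =
      Nat.card {a : α // ∃ g, P g ∧ χ g = a} := by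
  classical
  let Ψ : {c : ConjClasses G // ∃ g, ConjClasses.mk g = c ∧ P g} →
      {a : α // ∃ g, P g ∧ χ g = a} :=
    fun c => ⟨χ (Classical.choose c.2), Classical.choose c.2, (Classical.choose_spec c.2).2, rfl⟩
  apply Nat.card_eq_of_bijective Ψ
  constructor
  · intro c₁ c₂ h
    have h3 : χ (Classical.choose c₁.2) = χ (Classical.choose c₂.2) := congrArg Subtype.val h
    have h4 := h2 _ _ (Classical.choose_spec c₁.2).2 (Classical.choose_spec c₂.2).2 h3
    apply Subtype.ext
    rw [← (Classical.choose_spec c₁.2).1, ← (Classical.choose_spec c₂.2).1]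
    exact ConjClasses.mk_eq_mk_iff_isConj.mpr h4
  · rintro ⟨a, g, hg, rfl⟩
    have hex : ∃ g', ConjClasses.mk g' = ConjClasses.mk g ∧ P g' := ⟨g, rfl, hg⟩
    refine ⟨⟨ConjClasses.mk g, hex⟩, ?_⟩
    apply Subtype.ext
    exact h1 _ _ (ConjClasses.mk_eq_mk_iff_isConj.mp (Classical.choose_spec hex).1)

/-- the number of monic palindromic polynomials of degree `2 n` -/
theorem card_palin {F : Type*} [Field F] [Fintype F] (n : ℕ) :
    Nat.card {f : F[X] // f.Monic ∧ f.natDegree = 2 * n ∧ f.reverse = f} = Fintype.card F ^ n := by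
  classical
  let Φ : {f : F[X] // f.Monic ∧ f.natDegree = 2 * n ∧ f.reverse = f} → (Fin n → F) :=
    fun f i => f.1.coeff (i + 1)
  have hsym : ∀ f : {f : F[X] // f.Monic ∧ f.natDegree = 2 * n ∧ f.reverse = f}, ∀ j, j ≤ 2 * n →
      f.1.coeff j = f.1.coeff (2 * n - j) := by
    intro f j hj
    have h1 := coeff_reverse f.1 j
    rw [f.2.2.2, f.2.2.1, revAt_le hj] at h1
    exact h1
  have hzero : ∀ f : {f : F[X] // f.Monic ∧ f.natDegree = 2 * n ∧ f.reverse = f},
      f.1.coeff 0 = 1 := by
    intro f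
    have h1 := coeff_zero_reverse f.1
    rw [f.2.2.2] at h1
    rw [h1]
    exact f.2.1
  have hbij : Function.Bijective Φ := by
    constructor
    · intro f₁ f₂ h
      have hlow : ∀ j, j ≤ n → f₁.1.coeff j = f₂.1.coeff j := by
        intro j hj
        rcases Nat.eq_zero_or_pos j with h0 | h0
        · rw [h0, hzero, hzero]
        · have h1 := congrFun h ⟨j - 1, by omega⟩
          have h2 : j - 1 + 1 = j := by omega
          simp only [Φ, h2] at h1
          exact h1
      apply Subtype.ext
      ext j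
      by_cases hj : j ≤ 2 * n
      · by_cases hj' : j ≤ n
        · exact hlow j hj'
        · rw [hsym f₁ j hj, hsym f₂ j hj]
          exact hlow _ (by omega)
      · rw [coeff_eq_zero_of_natDegree_lt (by rw [f₁.2.2.1]; omega),
          coeff_eq_zero_of_natDegree_lt (by rw [f₂.2.2.1]; omega)]
    · intro c
      let c' : ℕ → F := fun i => if h : i < n then c ⟨i, h⟩ else 0
      let b : ℕ → F := fun i => if i = 0 then 1 else c' (i - 1)
      let a : ℕ → F := fun j => b (min j (2 * n - j))
      let f : F[X] := ∑ j ∈ Finset.range (2 * n + 1), monomial j (a j)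
      have hcoeff : ∀ k, f.coeff k = if k < 2 * n + 1 then a k else 0 := by
        intro k
        simp only [f, finsetSum_coeff, coeff_monomial, Finset.sum_ite_eq', Finset.mem_range]
      have ha0 : a (2 * n) = 1 := by simp [a, b]
      have hasym : ∀ j, j ≤ 2 * n → a (2 * n - j) = a j := by
        intro j hj
        simp only [a]
        congr 1
        omega
      have hdeg : f.natDegree = 2 * n := by
        apply le_antisymm
        · rw [natDegree_le_iff_coeff_eq_zero]
          intro N hN
          rw [hcoeff, if_neg (by omega)]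
        · apply le_natDegree_of_ne_zero
          rw [hcoeff, if_pos (by omega), ha0]
          exact one_ne_zero
      have hmonic : f.Monic := by
        rw [Monic, leadingCoeff, hdeg, hcoeff, if_pos (by omega), ha0]
      have hrev : f.reverse = f := by
        ext k
        rw [coeff_reverse, hdeg]
        by_cases hk : k ≤ 2 * n
        · rw [revAt_le hk, hcoeff, hcoeff, if_pos (by omega), if_pos (by omega), hasym k hk]
        · rw [revAt_eq_self_of_lt (by omega)]
      refine ⟨⟨f, hmonic, hdeg, hrev⟩, ?_⟩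
      funext i
      show f.coeff (i + 1) = c i
      rw [hcoeff, if_pos (by omega)]
      have h1 : min ((i : ℕ) + 1) (2 * n - ((i : ℕ) + 1)) = (i : ℕ) + 1 := by omega
      simp only [a, h1, b, c']
      simp
  rw [Nat.card_eq_of_bijective Φ hbij, Nat.card_eq_fintype_card, Fintype.card_fun,
    Fintype.card_fin]

/-- In the symplectic group `Sp_{2n}(q)`, `q` a power of the prime `p`, the number of conjugacy classes of elements of order prime to `p` is `q^n`. -/
theorem result {F : Type*} [Field F] [Fintype F] {q : ℕ} (hq : Fintype.card F = q) (p : ℕ) [Fact p.Prime] [CharP F p] (n : ℕ) :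
    Nat.card {c : ConjClasses ↥(Matrix.symplecticGroup (Fin n) F) //
      ∃ g : ↥(Matrix.symplecticGroup (Fin n) F), ConjClasses.mk g = c ∧ (orderOf g).Coprime p} = q ^ n := by
  classical
  have h1 : ∀ g h : ↥(Matrix.symplecticGroup (Fin n) F), IsConj g h →
      (g : Matrix (Fin n ⊕ Fin n) (Fin n ⊕ Fin n) F).charpoly =
        (h : Matrix (Fin n ⊕ Fin n) (Fin n ⊕ Fin n) F).charpoly := by
    intro g h hgh
    obtain ⟨c, hc⟩ := isConj_iff.mp hgh
    have e : (h : Matrix (Fin n ⊕ Fin n) (Fin n ⊕ Fin n) F) =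
        (c : Matrix (Fin n ⊕ Fin n) (Fin n ⊕ Fin n) F) *
          (g : Matrix (Fin n ⊕ Fin n) (Fin n ⊕ Fin n) F) *
          ((c⁻¹ : ↥(Matrix.symplecticGroup (Fin n) F)) :
            Matrix (Fin n ⊕ Fin n) (Fin n ⊕ Fin n) F) := by
      rw [← hc]
      rfl
    have e2 : ((c⁻¹ : ↥(Matrix.symplecticGroup (Fin n) F)) :
        Matrix (Fin n ⊕ Fin n) (Fin n ⊕ Fin n) F) *
          (c : Matrix (Fin n ⊕ Fin n) (Fin n ⊕ Fin n) F) = 1 := by
      rw [← Submonoid.coe_mul, inv_mul_cancel]
      rfl
    rw [e, Matrix.charpoly_mul_comm, ← Matrix.mul_assoc, e2, Matrix.one_mul]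
  have h2 : ∀ g h : ↥(Matrix.symplecticGroup (Fin n) F), (orderOf g).Coprime p →
      (orderOf h).Coprime p →
      (g : Matrix (Fin n ⊕ Fin n) (Fin n ⊕ Fin n) F).charpoly =
        (h : Matrix (Fin n ⊕ Fin n) (Fin n ⊕ Fin n) F).charpoly → IsConj g h :=
    fun g h hg hh hc => Cfsg.Agent.S2389.result p n g h hg hh hc
  have hE := card_classes_eq (G := ↥(Matrix.symplecticGroup (Fin n) F))
    (fun g => (orderOf g).Coprime p)
    (fun g => (g : Matrix (Fin n ⊕ Fin n) (Fin n ⊕ Fin n) F).charpoly) h1 h2
  have hset : ∀ f : F[X], (∃ g : ↥(Matrix.symplecticGroup (Fin n) F), (orderOf g).Coprime p ∧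
      (g : Matrix (Fin n ⊕ Fin n) (Fin n ⊕ Fin n) F).charpoly = f) ↔
      (f.Monic ∧ f.natDegree = 2 * n ∧ f.reverse = f) := by
    intro f
    constructor
    · rintro ⟨g, -, rfl⟩
      refine ⟨Matrix.charpoly_monic _, ?_, Cfsg.Agent.Helper43.SpReal.charpoly_reverse_symplectic g⟩
      rw [Matrix.charpoly_natDegree_eq_dim, Fintype.card_sum, Fintype.card_fin]
      ring
    · rintro ⟨hm, hdeg, hrev⟩
      obtain ⟨n', g, hg, hch⟩ := Cfsg.Agent.Helper43.SpReal.exists_symplectic_of_realz p
        (Cfsg.Agent.Helper43.SpReal.realz_of_palin p n f hm hdeg hrev)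
      have hn' : n' = n := by
        have h3 := Matrix.charpoly_natDegree_eq_dim
          (g : Matrix (Fin n' ⊕ Fin n') (Fin n' ⊕ Fin n') F)
        rw [hch, hdeg, Fintype.card_sum, Fintype.card_fin] at h3
        omega
      subst hn'
      exact ⟨g, hg, hch⟩
  rw [hE, Nat.card_congr (Equiv.subtypeEquivRight hset), card_palin, hq]

end Cfsg.Agent.S2385
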