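import Cfsg.Statements.S2588
import Cfsg.Agent.Helper43.HermOrtho

set_option autoImplicit false
open Cfsg

namespace Cfsg.Agent.S2588

open Cfsg.Agent.Helper43 Cfsg.Agent.Helper43.HermAdj Cfsg.Agent.Helper43.NormH90
  Cfsg.Agent.Helper43.HermOrtho Matrix

/-- the inverse of the adjoint is the adjoint of the inverse -/
theorem hadj_inv {K : Type*} [Field K] [Fintype K] {q n : ℕ} (hK : Fintype.card K = q ^ 2)
    (M Mi : Matrix (Fin n) (Fin n) K) (h1 : Mi * M = 1) : (hadj q M)⁻¹ = hadj q Mi := by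
  apply Matrix.inv_eq_right_inv
  rw [← hadj_mul hK, h1, hadj_one hK]

/-- invariance of `hadj g * g` when `g` conjugates `a` into the unitary group -/
theorem invariant_of_conj {K : Type*} [Field K] [Fintype K] {q n : ℕ}
    (hK : Fintype.card K = q ^ 2) (g a b : Matrix (Fin n) (Fin n) K)
    (hga : g * a = b * g) (hb : hadj q b * b = 1) :
    hadj q a * (hadj q g * g) * a = hadj q g * g := by
  calc hadj q a * (hadj q g * g) * a = hadj q (g * a) * (g * a) := by
        rw [hadj_mul hK]; simp only [mul_assoc]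
    _ = hadj q g * (hadj q b * b) * g := by
        rw [hga, hadj_mul hK]; simp only [mul_assoc]
    _ = hadj q g * g := by rw [hb, mul_one]

/-- the key step: an invertible invariant sesquilinear form yields an invertible invariant
Hermitian form -/
theorem exists_hermitian_invariant {K : Type*} [Field K] [Fintype K] {q n : ℕ}
    (hK : Fintype.card K = q ^ 2) (a X Xi : Matrix (Fin n) (Fin n) K)
    (ai : Matrix (Fin n) (Fin n) K) (ha1 : a * ai = 1) (ha2 : ai * a = 1)
    (hX1 : X * Xi = 1) (hX2 : Xi * X = 1) (hinv : hadj q a * X * a = X) :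
    ∃ Y : Matrix (Fin n) (Fin n) K, IsUnit Y ∧ hadj q Y = Y ∧ hadj q a * Y * a = Y := by
  have hXh1 : hadj q X * hadj q Xi = 1 := by rw [← hadj_mul hK, hX2, hadj_one hK]
  have hXh2 : hadj q Xi * hadj q X = 1 := by rw [← hadj_mul hK, hX1, hadj_one hK]
  have hah1 : hadj q a * hadj q ai = 1 := by rw [← hadj_mul hK, ha2, hadj_one hK]
  have hah2 : hadj q ai * hadj q a = 1 := by rw [← hadj_mul hK, ha1, hadj_one hK]
  -- the adjoint form is invariant too
  have hinv' : hadj q a * hadj q X * a = hadj q X := by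
    have := congrArg (hadj q) hinv
    rw [hadj_mul hK, hadj_mul hK, hadj_hadj hK, ← mul_assoc] at this
    exact this
  obtain ⟨c₀, hc₀⟩ : ∃ c₀ : Matrix (Fin n) (Fin n) K, c₀ = Xi * hadj q X := ⟨_, rfl⟩
  obtain ⟨c₁, hc₁⟩ : ∃ c₁ : Matrix (Fin n) (Fin n) K, c₁ = hadj q Xi * X := ⟨_, rfl⟩
  have hc01 : c₀ * c₁ = 1 := by
    calc c₀ * c₁ = Xi * (hadj q X * hadj q Xi) * X := by rw [hc₀, hc₁]; simp only [mul_assoc]
      _ = 1 := by rw [hXh1, mul_one, hX2]
  have hc10 : c₁ * c₀ = 1 := by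
    calc c₁ * c₀ = hadj q Xi * (X * Xi) * hadj q X := by rw [hc₀, hc₁]; simp only [mul_assoc]
      _ = 1 := by rw [hX1, mul_one, hXh2]
  -- `a` commutes with `c₀`
  have hXa : X * a = hadj q ai * X := by
    calc X * a = hadj q ai * (hadj q a * X * a) := by
          rw [← mul_assoc, ← mul_assoc, hah2, one_mul]
      _ = hadj q ai * X := by rw [hinv]
  have hXa' : hadj q X * a = hadj q ai * hadj q X := by
    calc hadj q X * a = hadj q ai * (hadj q a * hadj q X * a) := by
          rw [← mul_assoc, ← mul_assoc, hah2, one_mul]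
      _ = hadj q ai * hadj q X := by rw [hinv']
  have haXi : a * Xi = Xi * hadj q ai := by
    calc a * Xi = Xi * (X * a) * Xi := by rw [← mul_assoc, hX2, one_mul]
      _ = Xi * hadj q ai * (X * Xi) := by rw [hXa]; simp only [mul_assoc]
      _ = Xi * hadj q ai := by rw [hX1, mul_one]
  have hac₀ : Commute a c₀ := by
    show a * c₀ = c₀ * a
    calc a * c₀ = (a * Xi) * hadj q X := by rw [hc₀, mul_assoc]
      _ = Xi * (hadj q ai * hadj q X) := by rw [haXi, mul_assoc]
      _ = c₀ * a := by rw [← hXa', hc₀, mul_assoc]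
  -- the twisted anti-automorphism
  obtain ⟨σ, hσ⟩ : ∃ σ : Matrix (Fin n) (Fin n) K → Matrix (Fin n) (Fin n) K,
      ∀ y, σ y = Xi * hadj q y * X := ⟨_, fun y => rfl⟩
  have hσadd : ∀ y z, σ (y + z) = σ y + σ z := by
    intro y z
    rw [hσ, hσ, hσ, hadj_add hK, mul_add, add_mul]
  have hσmul : ∀ y z, σ (y * z) = σ z * σ y := by
    intro y z
    rw [hσ, hσ, hσ, hadj_mul hK]
    calc Xi * (hadj q z * hadj q y) * X = Xi * hadj q z * 1 * hadj q y * X := by
          rw [mul_one]; simp only [mul_assoc]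
      _ = Xi * hadj q z * X * (Xi * hadj q y * X) := by rw [← hX1]; simp only [mul_assoc]
  have hσK : ∀ k : K, σ (algebraMap K (Matrix (Fin n) (Fin n) K) k) =
      algebraMap K (Matrix (Fin n) (Fin n) K) (k ^ q) := by
    intro k
    rw [hσ, hadj_algebraMap hK, ← Algebra.commutes, mul_assoc, hX2, mul_one]
  have hσσ' : ∀ y, σ (σ y) = c₀ * y * c₁ := by
    intro y
    rw [hσ, hσ, hadj_mul hK, hadj_mul hK, hadj_hadj hK, hc₀, hc₁]
    simp only [mul_assoc]
  have hσσ : ∀ f : Polynomial K, σ (σ (Polynomial.aeval c₀ f)) = Polynomial.aeval c₀ f := by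
    intro f
    have hcomm : Commute c₀ (Polynomial.aeval c₀ f) := commute_aeval (Commute.refl c₀) f
    rw [hσσ', hcomm.eq, mul_assoc, hc01, mul_one]
  have hσc₀ : σ c₀ = c₁ := by
    rw [hσ, hc₀, hadj_mul hK, hadj_hadj hK, hc₁]
    calc Xi * (X * hadj q Xi) * X = (Xi * X) * hadj q Xi * X := by simp only [mul_assoc]
      _ = hadj q Xi * X := by rw [hX2, one_mul]
  have hc₀u : IsUnit c₀ := ⟨⟨c₀, c₁, hc01, hc10⟩, rfl⟩
  obtain ⟨b, hbu, hb, hbc⟩ := exists_h90_R hK σ hσadd hσmul hσK c₀ hσσ hc₀u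
    (by rw [hσc₀, hc01])
  have hbc₀ : Commute c₀ b := hbc c₀ (Commute.refl c₀)
  have hab : Commute a b := hbc a hac₀
  have hσb : σ b = c₁ * b := by
    calc σ b = c₁ * (c₀ * σ b) := by rw [← mul_assoc, hc10, one_mul]
      _ = c₁ * b := by rw [← hb]
  refine ⟨X * b, ?_, ?_, ?_⟩
  · exact (IsUnit.mul ⟨⟨X, Xi, hX1, hX2⟩, rfl⟩ hbu)
  · have h1 : X * σ b * c₀ = hadj q (X * b) := by
      rw [hσ, hadj_mul hK, hc₀]
      calc X * (Xi * hadj q b * X) * (Xi * hadj q X)
          = (X * Xi) * hadj q b * (X * Xi) * hadj q X := by simp only [mul_assoc]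
        _ = hadj q b * hadj q X := by rw [hX1, one_mul, mul_one]
    have h2 : X * σ b * c₀ = X * b := by
      rw [hσb]
      calc X * (c₁ * b) * c₀ = X * c₁ * (b * c₀) := by simp only [mul_assoc]
        _ = X * c₁ * (c₀ * b) := by rw [hbc₀.eq]
        _ = X * (c₁ * c₀) * b := by simp only [mul_assoc]
        _ = X * b := by rw [hc10, mul_one]
    rw [← h1, h2]
  · calc hadj q a * (X * b) * a = hadj q a * X * (b * a) := by simp only [mul_assoc]
      _ = hadj q a * X * (a * b) := by rw [hab.eq]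
      _ = (hadj q a * X * a) * b := by simp only [mul_assoc]
      _ = X * b := by rw [hinv]


/-- An invertible matrix A over the field with q² elements is conjugate in GL_n(q²) to an element of the general unitary group GU_n(q) (isometries of the Hermitian form Σ u_i v_i^q) if and only if A is similar to the inverse transpose of its entrywise q-th power (A ~ A^(−qT), the image of A under the map sending a matrix to the inverse transpose of its entrywise q-th power — inverse transpose composed with the field automorphism — whose fixed points form GU_n(q)). -/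
theorem result {K : Type*} [Field K] [Fintype K] {q n : ℕ} (hK : Fintype.card K = q ^ 2) (A : GL (Fin n) K) : (∃ B : ↥(Cfsg.GU n K q), IsConj A (B : GL (Fin n) K)) ↔ IsConj (A : Matrix (Fin n) (Fin n) K) (((A : Matrix (Fin n) (Fin n) K).map (fun x : K => x ^ q)).transpose)⁻¹ := by
  classical
  obtain ⟨a, ha⟩ : ∃ a : Matrix (Fin n) (Fin n) K, a = (A : Matrix (Fin n) (Fin n) K) := ⟨_, rfl⟩
  obtain ⟨ai, hai⟩ : ∃ ai : Matrix (Fin n) (Fin n) K,
      ai = ((A⁻¹ : GL (Fin n) K) : Matrix (Fin n) (Fin n) K) := ⟨_, rfl⟩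
  have ha1 : a * ai = 1 := by rw [ha, hai, ← Units.val_mul, mul_inv_cancel, Units.val_one]
  have ha2 : ai * a = 1 := by rw [ha, hai, ← Units.val_mul, inv_mul_cancel, Units.val_one]
  have hgoal : (((A : Matrix (Fin n) (Fin n) K).map (fun x : K => x ^ q)).transpose)⁻¹ =
      hadj q ai := by
    rw [← ha]
    exact hadj_inv hK a ai ha2
  rw [hgoal, ← ha]
  have hah2 : hadj q ai * hadj q a = 1 := by rw [← hadj_mul hK, ha1, hadj_one hK]
  constructor
  · rintro ⟨B, hB⟩
    obtain ⟨g, hg⟩ := isConj_iff.1 hB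
    have hBm := (mem_GU_iff hK (B : GL (Fin n) K)).1 B.2
    obtain ⟨b, hb⟩ : ∃ b : GL (Fin n) K, b = (B : GL (Fin n) K) := ⟨_, rfl⟩
    rw [← hb] at hBm hg
    have hga : (g : Matrix (Fin n) (Fin n) K) * a =
        (b : Matrix (Fin n) (Fin n) K) * (g : Matrix (Fin n) (Fin n) K) := by
      have h1 : g * A = b * g := by rw [← hg]; group
      have := congrArg (fun x : GL (Fin n) K => (x : Matrix (Fin n) (Fin n) K)) h1
      rw [ha]
      simpa using this
    have hinv := invariant_of_conj hK _ _ _ hga hBm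
    obtain ⟨gm, hgm⟩ : ∃ gm : Matrix (Fin n) (Fin n) K,
        gm = (g : Matrix (Fin n) (Fin n) K) := ⟨_, rfl⟩
    obtain ⟨gi, hgi⟩ : ∃ gi : Matrix (Fin n) (Fin n) K,
        gi = ((g⁻¹ : GL (Fin n) K) : Matrix (Fin n) (Fin n) K) := ⟨_, rfl⟩
    have hg1 : gm * gi = 1 := by rw [hgm, hgi, ← Units.val_mul, mul_inv_cancel, Units.val_one]
    have hg2 : gi * gm = 1 := by rw [hgm, hgi, ← Units.val_mul, inv_mul_cancel, Units.val_one]
    rw [← hgm] at hinv
    have hu1 : (hadj q gm * gm) * (gi * hadj q gi) = 1 := by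
      calc (hadj q gm * gm) * (gi * hadj q gi) = hadj q gm * (gm * gi) * hadj q gi := by
            simp only [mul_assoc]
        _ = 1 := by rw [hg1, mul_one, ← hadj_mul hK, hg2, hadj_one hK]
    have hu2 : (gi * hadj q gi) * (hadj q gm * gm) = 1 := by
      calc (gi * hadj q gi) * (hadj q gm * gm) = gi * (hadj q gi * hadj q gm) * gm := by
            simp only [mul_assoc]
        _ = 1 := by rw [← hadj_mul hK, hg1, hadj_one hK, mul_one, hg2]
    refine ⟨⟨hadj q gm * gm, gi * hadj q gi, hu1, hu2⟩, ?_⟩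
    show (hadj q gm * gm) * a = hadj q ai * (hadj q gm * gm)
    calc (hadj q gm * gm) * a = hadj q ai * (hadj q a * (hadj q gm * gm) * a) := by
          rw [← mul_assoc, ← mul_assoc, hah2, one_mul]
      _ = hadj q ai * (hadj q gm * gm) := by rw [hinv]
  · rintro ⟨Xu, hXu⟩
    obtain ⟨X, hX⟩ : ∃ X : Matrix (Fin n) (Fin n) K, X = (Xu : Matrix (Fin n) (Fin n) K) :=
      ⟨_, rfl⟩
    obtain ⟨Xi, hXi⟩ : ∃ Xi : Matrix (Fin n) (Fin n) K,
        Xi = ((Xu⁻¹ : (Matrix (Fin n) (Fin n) K)ˣ) : Matrix (Fin n) (Fin n) K) := ⟨_, rfl⟩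
    have hX1 : X * Xi = 1 := by rw [hX, hXi, Units.mul_inv]
    have hX2 : Xi * X = 1 := by rw [hX, hXi, Units.inv_mul]
    have hsc : X * a = hadj q ai * X := by rw [hX]; exact hXu
    have hah1 : hadj q a * hadj q ai = 1 := by rw [← hadj_mul hK, ha2, hadj_one hK]
    have hinv : hadj q a * X * a = X := by
      rw [mul_assoc, hsc, ← mul_assoc, hah1, one_mul]
    obtain ⟨Y, hYu, hYh, hYinv⟩ := exists_hermitian_invariant hK a X Xi ai ha1 ha2 hX1 hX2 hinv
    obtain ⟨P, hP⟩ := exists_hadj_mul hK Y hYh hYu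
    have hP' : P * (hadj q P * Y) = 1 := mul_eq_one_comm.1 hP
    obtain ⟨Pu, hPu⟩ : ∃ Pu : GL (Fin n) K, (Pu : Matrix (Fin n) (Fin n) K) = P :=
      ⟨⟨P, hadj q P * Y, hP', hP⟩, rfl⟩
    have hPi : ((Pu⁻¹ : GL (Fin n) K) : Matrix (Fin n) (Fin n) K) = hadj q P * Y := by
      have h1 : ((Pu⁻¹ : GL (Fin n) K) : Matrix (Fin n) (Fin n) K) * P = 1 := by
        rw [← hPu, ← Units.val_mul, inv_mul_cancel, Units.val_one]
      calc ((Pu⁻¹ : GL (Fin n) K) : Matrix (Fin n) (Fin n) K)
          = ((Pu⁻¹ : GL (Fin n) K) : Matrix (Fin n) (Fin n) K) * (P * (hadj q P * Y)) := by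
            rw [hP', mul_one]
        _ = hadj q P * Y := by rw [← mul_assoc, h1, one_mul]
    have hmem : Pu⁻¹ * A * Pu ∈ Cfsg.GU n K q := by
      rw [mem_GU_iff hK, Units.val_mul, Units.val_mul, hPi, hPu, ← ha, hadj_mul hK,
        hadj_mul hK, hadj_mul hK, hadj_hadj hK, hYh]
      calc hadj q P * (hadj q a * (Y * P)) * (hadj q P * Y * a * P)
          = hadj q P * hadj q a * Y * (P * (hadj q P * Y)) * a * P := by simp only [mul_assoc]
        _ = hadj q P * (hadj q a * Y * a) * P := by rw [hP', mul_one]; simp only [mul_assoc]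
        _ = 1 := by rw [hYinv, hP]
    refine ⟨⟨Pu⁻¹ * A * Pu, hmem⟩, isConj_iff.2 ⟨Pu⁻¹, ?_⟩⟩
    rw [inv_inv]

end Cfsg.Agent.S2588
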