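import Cfsg.Statements.S2643
import Cfsg.Agent.S2578
import Cfsg.Agent.S2587
import Cfsg.Agent.S2588
import Cfsg.Agent.Helper43.KdimTwist
import Cfsg.Agent.Helper43.UnitaryHeis

set_option linter.unusedSectionVars false

set_option autoImplicit false
open Cfsg

namespace Cfsg.Agent.S2643

open Cfsg.Agent.Helper43 Cfsg.Agent.Helper43.HermAdj Cfsg.Agent.Helper43.NormH90 Matrix
open Cfsg.Agent.S2578 (shift shift_pow_self shift_rank det_of_commute_shift exists_conj_shift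
  det_one_add_shift)

section

variable {K : Type*} [Field K] {n : ℕ}

/-- regular unipotent matrices -/
def RUm (n : ℕ) (M : Matrix (Fin n) (Fin n) K) : Prop :=
  (M - 1) ^ n = 0 ∧ (M - 1).rank = n - 1

theorem conj_pow (P Pi N : Matrix (Fin n) (Fin n) K) (h1 : Pi * P = 1) (h2 : P * Pi = 1)
    (k : ℕ) : (P * N * Pi) ^ k = P * N ^ k * Pi := by
  induction k with
  | zero => simp [h2]
  | succ k ih =>
    rw [pow_succ, ih, pow_succ]
    calc P * N ^ k * Pi * (P * N * Pi)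
        = P * N ^ k * (Pi * P) * N * Pi := by simp only [Matrix.mul_assoc]
      _ = _ := by rw [h1, Matrix.mul_one]; simp only [Matrix.mul_assoc]

theorem RUm_conj (P Pi A : Matrix (Fin n) (Fin n) K) (h1 : Pi * P = 1) (h2 : P * Pi = 1)
    (hA : RUm n A) : RUm n (P * A * Pi) := by
  have hsub : P * A * Pi - 1 = P * (A - 1) * Pi := by
    rw [mul_sub, mul_one, sub_mul, h2]
  constructor
  · rw [hsub, conj_pow P Pi _ h1 h2, hA.1]; simp
  · rw [hsub, Matrix.rank_mul_eq_left_of_isUnit_det _ _ (Matrix.isUnit_det_of_left_inverse h2),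
      Matrix.rank_mul_eq_right_of_isUnit_det _ _ (Matrix.isUnit_det_of_right_inverse h2), hA.2]

theorem RUm_det {A : Matrix (Fin n) (Fin n) K} (hA : RUm n A) : A.det = 1 := by
  have h : A = 1 + (A - 1) := by abel
  rw [h]
  have h1 : (-(A - 1)).charpoly = Polynomial.X ^ Fintype.card (Fin n) := by
    have := Matrix.isNilpotent_charpoly_sub_pow_of_isNilpotent (IsNilpotent.neg ⟨n, hA.1⟩)
    exact sub_eq_zero.1 (IsNilpotent.eq_zero this)
  have h2 := Matrix.eval_charpoly (-(A - 1)) (1 : K)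
  rw [h1, Polynomial.eval_pow, Polynomial.eval_X, one_pow, map_one, sub_neg_eq_add] at h2
  exact h2.symm

/-- the standard regular unipotent element -/
noncomputable def g0 (K : Type*) [Field K] (n : ℕ) : GL (Fin n) K :=
  Matrix.GeneralLinearGroup.mk'' (1 + shift n) (by rw [det_one_add_shift]; exact isUnit_one)

theorem g0_val : ((g0 K n : GL (Fin n) K) : Matrix (Fin n) (Fin n) K) = 1 + shift n := rfl

theorem exists_conj_g0 (hn : 0 < n) (A : GL (Fin n) K)
    (hA : RUm n (A : Matrix (Fin n) (Fin n) K)) : ∃ p : GL (Fin n) K, p * g0 K n = A * p := by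
  obtain ⟨P, hP, hPM⟩ := exists_conj_shift n hn _ hA.1 hA.2
  refine ⟨Matrix.GeneralLinearGroup.mk'' P hP, ?_⟩
  apply Units.ext
  show P * (1 + shift n) = (A : Matrix (Fin n) (Fin n) K) * P
  rw [mul_add, mul_one, hPM, sub_mul, one_mul]; abel

theorem isConj_of_RUm (hn : 0 < n) (A B : GL (Fin n) K)
    (hA : RUm n (A : Matrix (Fin n) (Fin n) K)) (hB : RUm n (B : Matrix (Fin n) (Fin n) K)) :
    IsConj A B := by
  obtain ⟨p, hp⟩ := exists_conj_g0 hn A hA
  obtain ⟨p', hp'⟩ := exists_conj_g0 hn B hB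
  have hA' : A = p * g0 K n * p⁻¹ := by rw [hp]; group
  have hB' : B = p' * g0 K n * p'⁻¹ := by rw [hp']; group
  refine isConj_iff.2 ⟨p' * p⁻¹, ?_⟩
  rw [hA', hB']; group

/-- centraliser of a regular unipotent: a single eigenvalue -/
theorem det_sub_of_commute (hn : 0 < n) (A c : Matrix (Fin n) (Fin n) K) (hA : RUm n A)
    (hc : c * A = A * c) : ∃ c₀ : K, ∀ t : K, (c - t • 1).det = (c₀ - t) ^ n := by
  obtain ⟨P, hP, hPM⟩ := exists_conj_shift n hn _ hA.1 hA.2
  have h1 : P⁻¹ * P = 1 := Matrix.nonsing_inv_mul P hP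
  have h2 : P * P⁻¹ = 1 := Matrix.mul_nonsing_inv P hP
  have hPM' : P⁻¹ * (A - 1) = shift n * P⁻¹ := by
    calc P⁻¹ * (A - 1) = P⁻¹ * ((A - 1) * P) * P⁻¹ := by
          rw [Matrix.mul_assoc, Matrix.mul_assoc, h2, Matrix.mul_one]
      _ = shift n * P⁻¹ := by rw [← hPM, ← Matrix.mul_assoc, h1, Matrix.one_mul]
  have hc' : c * (A - 1) = (A - 1) * c := by rw [mul_sub, sub_mul, hc, mul_one, one_mul]
  have hD : P⁻¹ * c * P * shift n = shift n * (P⁻¹ * c * P) := by
    calc P⁻¹ * c * P * shift n = P⁻¹ * c * (P * shift n) := by simp only [Matrix.mul_assoc]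
      _ = P⁻¹ * (c * (A - 1)) * P := by rw [hPM]; simp only [Matrix.mul_assoc]
      _ = P⁻¹ * (A - 1) * c * P := by rw [hc']; simp only [Matrix.mul_assoc]
      _ = shift n * (P⁻¹ * c * P) := by rw [hPM']; simp only [Matrix.mul_assoc]
  refine ⟨(P⁻¹ * c * P) ⟨0, hn⟩ ⟨0, hn⟩, fun t => ?_⟩
  have hX : P⁻¹ * (c - t • 1) * P = P⁻¹ * c * P - t • 1 := by
    rw [mul_sub, sub_mul, Matrix.mul_smul, Matrix.smul_mul, mul_one, h1]
  have hcomm : (P⁻¹ * c * P - t • 1) * shift n = shift n * (P⁻¹ * c * P - t • 1) := by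
    rw [sub_mul, mul_sub, hD, Matrix.smul_mul, Matrix.mul_smul, one_mul, mul_one]
  have hdet := det_of_commute_shift n hn _ hcomm
  rw [← hX, Matrix.det_mul, Matrix.det_mul, hX, Matrix.sub_apply, Matrix.smul_apply,
    Matrix.one_apply_eq, smul_eq_mul, mul_one] at hdet
  rw [← hdet, mul_right_comm, ← Matrix.det_mul, h1, Matrix.det_one, one_mul]

end

section Fin

variable {K : Type*} [Field K] [Fintype K] {q n : ℕ}

theorem det_hadj (hK : Fintype.card K = q ^ 2) (M : Matrix (Fin n) (Fin n) K) :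
    (hadj q M).det = M.det ^ q := by
  have h1 : hadj q M = ((KdimTwist.frobQ hK).mapMatrix M)ᵀ := rfl
  rw [h1, Matrix.det_transpose, ← RingHom.map_det]
  rfl

theorem hadj_sub_smul (hK : Fintype.card K = q ^ 2) (c : Matrix (Fin n) (Fin n) K) (a : K) :
    hadj q (c - a • 1) = hadj q c - (a ^ q) • 1 := by
  have hq : q ≠ 0 := by have := two_le_q hK; omega
  ext i j
  rw [hadj_apply, Matrix.sub_apply, Matrix.sub_apply, hadj_apply, Matrix.smul_apply,
    Matrix.smul_apply, sub_pow_q hK, smul_eq_mul, smul_eq_mul, mul_pow]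
  by_cases h : i = j
  · subst h; simp
  · rw [Matrix.one_apply_ne h, Matrix.one_apply_ne (Ne.symm h), zero_pow hq]

theorem norm_of_unitary (hK : Fintype.card K = q ^ 2) (hn : 0 < n)
    (c : Matrix (Fin n) (Fin n) K) (hc : hadj q c * c = 1) (c₀ : K)
    (hdet : ∀ t : K, (c - t • 1).det = (c₀ - t) ^ n) : c₀ ^ (q + 1) = 1 := by
  have hq : q ≠ 0 := by have := two_le_q hK; omega
  have h0 : c.det = c₀ ^ n := by
    have := hdet 0
    simpa using this
  have hdc : c.det ^ q * c.det = 1 := by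
    have := congrArg Matrix.det hc
    rwa [Matrix.det_mul, det_hadj hK, Matrix.det_one] at this
  have hc0 : c₀ ≠ 0 := by
    intro h
    rw [h0, h, zero_pow hn.ne', mul_zero] at hdc
    exact zero_ne_one hdc
  obtain ⟨a, ha⟩ : ∃ a : K, a = c₀ ^ q := ⟨_, rfl⟩
  have ha0 : a ≠ 0 := by rw [ha]; exact pow_ne_zero _ hc0
  have hM : (c - c₀ • 1).det = 0 := by rw [hdet, sub_self, zero_pow hn.ne']
  have h1 : hadj q (c - c₀ • 1) * c = (-a) • (c - a⁻¹ • 1) := by
    rw [hadj_sub_smul hK, sub_mul, hc, Matrix.smul_mul, one_mul, ← ha, smul_sub, smul_smul,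
      neg_mul, mul_inv_cancel₀ ha0, neg_smul, neg_smul, one_smul]
    abel
  have h2 := congrArg Matrix.det h1
  rw [Matrix.det_mul, det_hadj hK, hM, zero_pow hq, zero_mul, Matrix.det_smul, hdet] at h2
  have h3 : (c₀ - a⁻¹) ^ n = 0 := by
    rcases mul_eq_zero.1 h2.symm with h | h
    · exact absurd h (pow_ne_zero _ (neg_ne_zero.2 ha0))
    · exact h
  have h4 : c₀ = a⁻¹ := sub_eq_zero.1 (pow_eq_zero_iff hn.ne' |>.1 h3)
  rw [pow_succ, ← ha, h4, mul_inv_cancel₀ ha0]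

theorem det_pow_of_mem_GU (hK : Fintype.card K = q ^ 2) (g : GL (Fin n) K)
    (hg : g ∈ Cfsg.GU n K q) : (g : Matrix (Fin n) (Fin n) K).det ^ (q + 1) = 1 := by
  have := congrArg Matrix.det ((mem_GU_iff hK g).1 hg)
  rwa [Matrix.det_mul, det_hadj hK, Matrix.det_one, ← pow_succ] at this

theorem hadj_scalar (hK : Fintype.card K = q ^ 2) (c : K) (hc : c ^ (q + 1) = 1) :
    hadj q (c • (1 : Matrix (Fin n) (Fin n) K)) * (c • (1 : Matrix (Fin n) (Fin n) K)) = 1 := by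
  have h : hadj q (c • (1 : Matrix (Fin n) (Fin n) K)) = (c ^ q) • 1 := by
    have := hadj_algebraMap (n := n) hK c
    rwa [Algebra.algebraMap_eq_smul_one, Algebra.algebraMap_eq_smul_one] at this
  rw [h, Matrix.smul_mul, one_mul, smul_smul, ← pow_succ, hc, one_smul]

theorem hadj_diag (hK : Fintype.card K = q ^ 2) (hn : 0 < n) (d : K) (hd : d ^ (q + 1) = 1) :
    ∃ D : Matrix (Fin n) (Fin n) K, hadj q D * D = 1 ∧ D.det = d := by
  classical
  have hq : q ≠ 0 := by have := two_le_q hK; omega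
  refine ⟨Matrix.diagonal (fun i => if i = ⟨0, hn⟩ then d else 1), ?_, ?_⟩
  · have h : hadj q (Matrix.diagonal (fun i : Fin n => if i = ⟨0, hn⟩ then d else 1))
        = Matrix.diagonal (fun i : Fin n => (if i = ⟨0, hn⟩ then d else 1) ^ q) := by
      ext i j
      rw [hadj_apply]
      by_cases h : i = j
      · subst h; rw [Matrix.diagonal_apply_eq, Matrix.diagonal_apply_eq]
      · rw [Matrix.diagonal_apply_ne _ h, Matrix.diagonal_apply_ne _ (Ne.symm h), zero_pow hq]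
    rw [h, Matrix.diagonal_mul_diagonal, ← Matrix.diagonal_one]
    congr 1
    funext i
    split_ifs
    · rw [← pow_succ, hd]
    · rw [one_pow, one_mul]
  · rw [Matrix.det_diagonal, Finset.prod_ite_eq']
    simp

/-- conjugacy in `SU` in terms of `GL` -/
theorem isConj_SU_iff (u u' : ↥(Cfsg.SU n K q)) :
    IsConj u u' ↔ ∃ s : GL (Fin n) K, s ∈ Cfsg.GU n K q ∧
      (s : Matrix (Fin n) (Fin n) K).det = 1 ∧
      s * Matrix.SpecialLinearGroup.toGL u.1 = Matrix.SpecialLinearGroup.toGL u'.1 * s := by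
  constructor
  · intro h
    obtain ⟨s, hs⟩ := isConj_iff.1 h
    refine ⟨Matrix.SpecialLinearGroup.toGL s.1, s.2, s.1.det_coe, ?_⟩
    have h0 : s * u = u' * s := by rw [← hs]; group
    have h1 : s.1 * u.1 = u'.1 * s.1 := congrArg Subtype.val h0
    rw [← map_mul, ← map_mul, h1]
  · rintro ⟨s, hs, hdet, hsu⟩
    let S : Matrix.SpecialLinearGroup (Fin n) K := ⟨(s : Matrix (Fin n) (Fin n) K), hdet⟩
    have hS : Matrix.SpecialLinearGroup.toGL S = s := Units.ext rfl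
    have hSmem : S ∈ Cfsg.SU n K q := by
      show Matrix.SpecialLinearGroup.toGL S ∈ Cfsg.GU n K q
      rw [hS]; exact hs
    refine isConj_iff.2 ⟨⟨S, hSmem⟩, ?_⟩
    rw [mul_inv_eq_iff_eq_mul]
    apply Subtype.ext
    apply Subtype.ext
    have := congrArg (fun x : GL (Fin n) K => (x : Matrix (Fin n) (Fin n) K)) hsu
    exact this

/-- a scalar matrix in `GL` -/
noncomputable def scal (n : ℕ) (c : K) (hc : c ≠ 0) : GL (Fin n) K :=
  ⟨c • 1, c⁻¹ • 1, by rw [Matrix.smul_mul, Matrix.mul_smul, mul_one, smul_smul,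
    mul_inv_cancel₀ hc, one_smul], by rw [Matrix.smul_mul, Matrix.mul_smul, mul_one, smul_smul,
    inv_mul_cancel₀ hc, one_smul]⟩

theorem scal_val (c : K) (hc : c ≠ 0) :
    ((scal n c hc : GL (Fin n) K) : Matrix (Fin n) (Fin n) K) = c • 1 := rfl

theorem scal_comm (c : K) (hc : c ≠ 0) (g : GL (Fin n) K) : scal n c hc * g = g * scal n c hc := by
  apply Units.ext
  rw [Units.val_mul, Units.val_mul, scal_val, Matrix.smul_mul, Matrix.mul_smul, one_mul, mul_one]

theorem key (hK : Fintype.card K = q ^ 2) (hn : 0 < n) (u₀ : GL (Fin n) K)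
    (hu₀ : RUm n (u₀ : Matrix (Fin n) (Fin n) K))
    (u u' : ↥(Cfsg.SU n K q)) (g g' : GL (Fin n) K) (hg : g ∈ Cfsg.GU n K q)
    (hg' : g' ∈ Cfsg.GU n K q)
    (h : g * u₀ = Matrix.SpecialLinearGroup.toGL u.1 * g)
    (h' : g' * u₀ = Matrix.SpecialLinearGroup.toGL u'.1 * g') :
    IsConj u u' ↔ ∃ c : K, c ^ (q + 1) = 1 ∧
      (g' : Matrix (Fin n) (Fin n) K).det = (g : Matrix (Fin n) (Fin n) K).det * c ^ n := by
  have hgd : (g : Matrix (Fin n) (Fin n) K).det ≠ 0 := by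
    intro h0
    have := det_pow_of_mem_GU hK g hg
    rw [h0, zero_pow (Nat.succ_ne_zero q)] at this
    exact zero_ne_one this
  rw [isConj_SU_iff]
  constructor
  · rintro ⟨s, hs, hdet, hsu⟩
    obtain ⟨x, hx⟩ : ∃ x : GL (Fin n) K, x = g'⁻¹ * s * g := ⟨_, rfl⟩
    have hxmem : x ∈ Cfsg.GU n K q := by
      rw [hx]
      exact Subgroup.mul_mem _ (Subgroup.mul_mem _ (Subgroup.inv_mem _ hg') hs) hg
    have hu₀' : u₀ = g'⁻¹ * (Matrix.SpecialLinearGroup.toGL u'.1 * g') :=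
      eq_inv_mul_iff_mul_eq.2 h'
    have hxu : x * u₀ = u₀ * x := by
      calc x * u₀ = g'⁻¹ * s * (g * u₀) := by rw [hx]; simp only [mul_assoc]
        _ = g'⁻¹ * (s * Matrix.SpecialLinearGroup.toGL u.1) * g := by
            rw [h]; simp only [mul_assoc]
        _ = g'⁻¹ * (Matrix.SpecialLinearGroup.toGL u'.1 * g') * (g'⁻¹ * s * g) := by
            rw [hsu]; group
        _ = u₀ * x := by rw [← hu₀', hx]
    have hxu' : (x : Matrix (Fin n) (Fin n) K) * (u₀ : Matrix (Fin n) (Fin n) K)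
        = (u₀ : Matrix (Fin n) (Fin n) K) * (x : Matrix (Fin n) (Fin n) K) :=
      congrArg (fun x : GL (Fin n) K => (x : Matrix (Fin n) (Fin n) K)) hxu
    obtain ⟨c₀, hc₀⟩ := det_sub_of_commute hn _ _ hu₀ hxu'
    have hnorm := norm_of_unitary hK hn _ ((mem_GU_iff hK x).1 hxmem) c₀ hc₀
    have hc0 : c₀ ≠ 0 := by
      intro h0
      rw [h0, zero_pow (Nat.succ_ne_zero q)] at hnorm
      exact zero_ne_one hnorm
    have hdx : (x : Matrix (Fin n) (Fin n) K).det = c₀ ^ n := by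
      have := hc₀ 0
      simpa using this
    have hgx : g' * x = s * g := by rw [hx]; group
    have hdet2 : (g' : Matrix (Fin n) (Fin n) K).det * c₀ ^ n
        = (g : Matrix (Fin n) (Fin n) K).det := by
      have := congrArg (fun x : GL (Fin n) K => (x : Matrix (Fin n) (Fin n) K).det) hgx
      simp only [Units.val_mul, Matrix.det_mul] at this
      rw [hdx, hdet, one_mul] at this
      exact this
    refine ⟨c₀⁻¹, by rw [inv_pow, hnorm, inv_one], ?_⟩
    rw [← hdet2, inv_pow, mul_assoc, mul_inv_cancel₀ (pow_ne_zero _ hc0), mul_one]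
  · rintro ⟨c, hc, hdet⟩
    have hc0 : c ≠ 0 := by
      intro h0
      rw [h0, zero_pow (Nat.succ_ne_zero q)] at hc
      exact zero_ne_one hc
    obtain ⟨z, hz⟩ : ∃ z : GL (Fin n) K, z = scal n c hc0 := ⟨_, rfl⟩
    have hzmem : z ∈ Cfsg.GU n K q := by
      rw [mem_GU_iff hK, hz, scal_val]
      exact hadj_scalar hK c hc
    have hzc : ∀ y : GL (Fin n) K, z * y = y * z := fun y => by rw [hz]; exact scal_comm c hc0 y
    obtain ⟨w, hw⟩ : ∃ w : GL (Fin n) K, w = g' * z⁻¹ * g⁻¹ := ⟨_, rfl⟩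
    refine ⟨w, ?_, ?_, ?_⟩
    · rw [hw]
      exact Subgroup.mul_mem _ (Subgroup.mul_mem _ hg' (Subgroup.inv_mem _ hzmem))
        (Subgroup.inv_mem _ hg)
    · have h1 : w * g * z = g' := by rw [hw]; group
      have h2 := congrArg (fun x : GL (Fin n) K => (x : Matrix (Fin n) (Fin n) K).det) h1
      simp only [Units.val_mul, Matrix.det_mul] at h2
      have h3 : (z : Matrix (Fin n) (Fin n) K).det = c ^ n := by
        rw [hz, scal_val, Matrix.det_smul, Matrix.det_one, mul_one, Fintype.card_fin]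
      rw [h3, hdet, mul_assoc] at h2
      have h4 : (g : Matrix (Fin n) (Fin n) K).det * c ^ n ≠ 0 :=
        mul_ne_zero hgd (pow_ne_zero _ hc0)
      exact mul_right_cancel₀ h4 (h2.trans (one_mul _).symm)
    · rw [hw]
      have hu : Matrix.SpecialLinearGroup.toGL u.1 = g * u₀ * g⁻¹ := by rw [h]; group
      have hu' : Matrix.SpecialLinearGroup.toGL u'.1 = g' * u₀ * g'⁻¹ := by rw [h']; group
      rw [hu, hu']
      have hz' : z⁻¹ * u₀ = u₀ * z⁻¹ := by
        rw [inv_mul_eq_iff_eq_mul, ← mul_assoc, hzc u₀, mul_assoc, mul_inv_cancel, mul_one]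
      calc g' * z⁻¹ * g⁻¹ * (g * u₀ * g⁻¹) = g' * (z⁻¹ * u₀) * g⁻¹ := by group
        _ = g' * (u₀ * z⁻¹) * g⁻¹ := by rw [hz']
        _ = g' * u₀ * g'⁻¹ * (g' * z⁻¹ * g⁻¹) := by group

theorem exists_u0 (hK : Fintype.card K = q ^ 2) (hn : 0 < n) :
    ∃ u₀ : GL (Fin n) K, u₀ ∈ Cfsg.GU n K q ∧ RUm n (u₀ : Matrix (Fin n) (Fin n) K) := by
  have hR : RUm n ((g0 K n : GL (Fin n) K) : Matrix (Fin n) (Fin n) K) := by
    rw [g0_val]
    constructor
    · rw [add_sub_cancel_left]; exact shift_pow_self n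
    · rw [add_sub_cancel_left]; exact shift_rank n hn
  have h1 := KdimTwist.isConj_inv_conjTranspose hK (g0 K n) ⟨n, hR.1⟩
  obtain ⟨B, hB⟩ := (Cfsg.Agent.S2588.result hK (g0 K n)).2 h1
  obtain ⟨c, hc⟩ := isConj_iff.1 hB
  refine ⟨B, B.2, ?_⟩
  rw [← hc]
  exact RUm_conj (c : Matrix (Fin n) (Fin n) K) ((c⁻¹ : GL (Fin n) K) : Matrix (Fin n) (Fin n) K)
    _ (by rw [← Units.val_mul, inv_mul_cancel, Units.val_one])
    (by rw [← Units.val_mul, mul_inv_cancel, Units.val_one]) hR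

theorem gcd_aux (q : ℕ) (hq : 2 ≤ q) : (q ^ 2 - 1).gcd (q + 1) = q + 1 := by
  apply Nat.gcd_eq_right
  obtain ⟨r, rfl⟩ : ∃ r, q = r + 1 := ⟨q - 1, by omega⟩
  refine ⟨r, ?_⟩
  have : (r + 1) ^ 2 = (r + 1 + 1) * r + 1 := by ring
  rw [this, Nat.add_sub_cancel]

end Fin

/-- Regular unipotent classes of SU_n(q), n ≥ 2: the elements u of the special unitary group (isometries of Σ u_i v_i^q of determinant one over the field with q² elements) with (u − 1)^n = 0 and rank(u − 1) = n − 1 form exactly gcd(n, q + 1) conjugacy classes of SU_n(q). -/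
theorem result {K : Type*} [Field K] [Fintype K] {q n : ℕ} (hK : Fintype.card K = q ^ 2) (hn : 2 ≤ n) : Nat.card {C : ConjClasses ↥(Cfsg.SU n K q) // ∃ u : ↥(Cfsg.SU n K q), ConjClasses.mk u = C ∧ (((u : GL (Fin n) K) : Matrix (Fin n) (Fin n) K) - 1) ^ n = 0 ∧ (((u : GL (Fin n) K) : Matrix (Fin n) (Fin n) K) - 1).rank = n - 1} = Nat.gcd n (q + 1) := by
  classical
  have hn0 : 0 < n := by omega
  obtain ⟨u₀, hu₀mem, hu₀⟩ := exists_u0 (q := q) hK hn0
  let U : Subgroup Kˣ := (powMonoidHom (q + 1) : Kˣ →* Kˣ).ker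
  let H : Subgroup ↥U := (powMonoidHom n : ↥U →* ↥U).range
  have hT : ∀ C : {C : ConjClasses ↥(Cfsg.SU n K q) // ∃ u : ↥(Cfsg.SU n K q), ConjClasses.mk u = C ∧ (((u : GL (Fin n) K) : Matrix (Fin n) (Fin n) K) - 1) ^ n = 0 ∧ (((u : GL (Fin n) K) : Matrix (Fin n) (Fin n) K) - 1).rank = n - 1},
      ∃ (u : ↥(Cfsg.SU n K q)) (g : GL (Fin n) K), ConjClasses.mk u = C.1 ∧
        g ∈ Cfsg.GU n K q ∧ g * u₀ = Matrix.SpecialLinearGroup.toGL u.1 * g := by
    rintro ⟨C, u, hu, h1, h2⟩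
    have hc := isConj_of_RUm hn0 u₀ (Matrix.SpecialLinearGroup.toGL u.1) hu₀ ⟨h1, h2⟩
    have hc' := (Cfsg.Agent.S2587.result hK ⟨u₀, hu₀mem⟩
      ⟨Matrix.SpecialLinearGroup.toGL u.1, u.2⟩).2 hc
    obtain ⟨g, hg⟩ := isConj_iff.1 hc'
    refine ⟨u, g.1, hu, g.2, ?_⟩
    have h3 : g.1 * u₀ * g.1⁻¹ = Matrix.SpecialLinearGroup.toGL u.1 := congrArg Subtype.val hg
    rw [← h3]
    group
  choose uu gg huu hgg hconj using hT
  have hdU : ∀ g : GL (Fin n) K, g ∈ Cfsg.GU n K q →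
      ∃ d : ↥U, ((d : Kˣ) : K) = (g : Matrix (Fin n) (Fin n) K).det := by
    intro g hg
    have h1 := det_pow_of_mem_GU hK g hg
    have h0 : (g : Matrix (Fin n) (Fin n) K).det ≠ 0 := by
      intro h0
      rw [h0, zero_pow (Nat.succ_ne_zero q)] at h1
      exact zero_ne_one h1
    refine ⟨⟨Units.mk0 _ h0, ?_⟩, rfl⟩
    show (Units.mk0 _ h0) ^ (q + 1) = 1
    apply Units.ext
    rw [Units.val_pow_eq_pow_val, Units.val_mk0, h1, Units.val_one]
  choose dd hdd using hdU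
  have hUpow : ∀ a : ↥U, ((a : Kˣ) : K) ^ (q + 1) = 1 := by
    intro a
    have h3 : (a : Kˣ) ^ (q + 1) = 1 := a.2
    rw [← Units.val_pow_eq_pow_val, h3, Units.val_one]
  let f : {C : ConjClasses ↥(Cfsg.SU n K q) // ∃ u : ↥(Cfsg.SU n K q), ConjClasses.mk u = C ∧ (((u : GL (Fin n) K) : Matrix (Fin n) (Fin n) K) - 1) ^ n = 0 ∧ (((u : GL (Fin n) K) : Matrix (Fin n) (Fin n) K) - 1).rank = n - 1} → ↥U ⧸ H := fun C => QuotientGroup.mk (dd (gg C) (hgg C))
  have hf : Function.Bijective f := by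
    constructor
    · intro C C' hCC'
      have h1 : (dd (gg C) (hgg C))⁻¹ * dd (gg C') (hgg C') ∈ H := QuotientGroup.eq.mp hCC'
      obtain ⟨a, ha⟩ := h1
      have h2 : IsConj (uu C) (uu C') := by
        rw [key hK hn0 u₀ hu₀ _ _ _ _ (hgg C) (hgg C') (hconj C) (hconj C')]
        refine ⟨((a : Kˣ) : K), hUpow a, ?_⟩
        have h3 := congrArg (fun x : ↥U => ((x : Kˣ) : K)) ha
        simp only [powMonoidHom_apply, Subgroup.coe_pow, Units.val_pow_eq_pow_val,
          Subgroup.coe_mul, Subgroup.coe_inv, Units.val_mul, Units.val_inv_eq_inv_val] at h3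
        rw [← hdd _ (hgg C), ← hdd _ (hgg C'), h3]
        have := (dd (gg C) (hgg C) : Kˣ).ne_zero
        field_simp
      apply Subtype.ext
      rw [← huu C, ← huu C']
      exact ConjClasses.mk_eq_mk_iff_isConj.mpr h2
    · intro x
      obtain ⟨d, rfl⟩ := QuotientGroup.mk_surjective x
      obtain ⟨D, hD1, hD2⟩ := hadj_diag (n := n) hK hn0 ((d : Kˣ) : K) (hUpow d)
      have hDu : IsUnit D.det := by rw [hD2]; exact (d : Kˣ).isUnit
      obtain ⟨gD, hgDdef⟩ : ∃ gD : GL (Fin n) K, (gD : Matrix (Fin n) (Fin n) K) = D :=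
        ⟨Matrix.GeneralLinearGroup.mk'' D hDu, rfl⟩
      have hgD : gD ∈ Cfsg.GU n K q := by rw [mem_GU_iff hK, hgDdef]; exact hD1
      obtain ⟨v, hv⟩ : ∃ v : GL (Fin n) K, v = gD * u₀ * gD⁻¹ := ⟨_, rfl⟩
      have hvmem : v ∈ Cfsg.GU n K q := by
        rw [hv]
        exact Subgroup.mul_mem _ (Subgroup.mul_mem _ hgD hu₀mem) (Subgroup.inv_mem _ hgD)
      have hvR : RUm n (v : Matrix (Fin n) (Fin n) K) := by
        rw [hv]
        exact RUm_conj (gD : Matrix (Fin n) (Fin n) K)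
          ((gD⁻¹ : GL (Fin n) K) : Matrix (Fin n) (Fin n) K)
          _ (by rw [← Units.val_mul, inv_mul_cancel, Units.val_one])
          (by rw [← Units.val_mul, mul_inv_cancel, Units.val_one]) hu₀
      obtain ⟨vS, hvS⟩ : ∃ vS : Matrix.SpecialLinearGroup (Fin n) K,
          Matrix.SpecialLinearGroup.toGL vS = v :=
        ⟨⟨(v : Matrix (Fin n) (Fin n) K), RUm_det hvR⟩, Units.ext rfl⟩
      have hvSmem : vS ∈ Cfsg.SU n K q := by
        show Matrix.SpecialLinearGroup.toGL vS ∈ Cfsg.GU n K q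
        rw [hvS]; exact hvmem
      have hRu : RUm n ((Matrix.SpecialLinearGroup.toGL vS : GL (Fin n) K) :
          Matrix (Fin n) (Fin n) K) := by rw [hvS]; exact hvR
      obtain ⟨C, hC⟩ : ∃ C : {C : ConjClasses ↥(Cfsg.SU n K q) // ∃ u : ↥(Cfsg.SU n K q), ConjClasses.mk u = C ∧ (((u : GL (Fin n) K) : Matrix (Fin n) (Fin n) K) - 1) ^ n = 0 ∧ (((u : GL (Fin n) K) : Matrix (Fin n) (Fin n) K) - 1).rank = n - 1}, C.1 = ConjClasses.mk (⟨vS, hvSmem⟩ : ↥(Cfsg.SU n K q)) :=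
        ⟨⟨ConjClasses.mk ⟨vS, hvSmem⟩, ⟨vS, hvSmem⟩, rfl, hRu.1, hRu.2⟩, rfl⟩
      refine ⟨C, ?_⟩
      have hconjC : IsConj (uu C) ⟨vS, hvSmem⟩ :=
        ConjClasses.mk_eq_mk_iff_isConj.mp ((huu C).trans hC)
      have hgDu : gD * u₀ = Matrix.SpecialLinearGroup.toGL
          (⟨vS, hvSmem⟩ : ↥(Cfsg.SU n K q)).1 * gD := by
        show gD * u₀ = Matrix.SpecialLinearGroup.toGL vS * gD
        rw [hvS, hv]; group
      obtain ⟨c, hc, hcdet⟩ :=
        (key hK hn0 u₀ hu₀ _ _ _ _ (hgg C) hgD (hconj C) hgDu).mp hconjC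
      have hc0 : c ≠ 0 := by
        intro h0
        rw [h0, zero_pow (Nat.succ_ne_zero q)] at hc
        exact zero_ne_one hc
      apply QuotientGroup.eq.mpr
      refine ⟨⟨Units.mk0 c hc0, ?_⟩, ?_⟩
      · show (Units.mk0 c hc0) ^ (q + 1) = 1
        apply Units.ext
        rw [Units.val_pow_eq_pow_val, Units.val_mk0, hc, Units.val_one]
      · apply Subtype.ext
        apply Units.ext
        simp only [powMonoidHom_apply, Subgroup.coe_pow, Units.val_pow_eq_pow_val,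
          Subgroup.coe_mul, Subgroup.coe_inv, Units.val_mul, Units.val_inv_eq_inv_val,
          Units.val_mk0]
        rw [hdd _ (hgg C), ← hD2, ← hgDdef, hcdet]
        have := (dd (gg C) (hgg C) : Kˣ).ne_zero
        rw [hdd _ (hgg C)] at this
        field_simp
  rw [Nat.card_congr (Equiv.ofBijective f hf)]
  have hidx : Nat.card (↥U ⧸ H) = H.index := rfl
  rw [hidx, IsCyclic.index_powMonoidHom_range, IsCyclic.card_powMonoidHom_ker, Nat.card_units,
    Nat.card_eq_fintype_card, hK, gcd_aux q (two_le_q hK), Nat.gcd_comm]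

end Cfsg.Agent.S2643
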