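import Cfsg.Statements.S2390
import Cfsg.Agent.Helper43.UnitaryCentDet
import Cfsg.Agent.S2587
import Cfsg.Agent.S2643

set_option autoImplicit false
open Cfsg

namespace Cfsg.Agent.S2390

open Cfsg.Agent.Helper43 Cfsg.Agent.Helper43.HermAdj Cfsg.Agent.Helper43.NormH90 Cfsg.Agent.Helper43.UnitaryCentDet Cfsg.Agent.Helper43.KdimTwist Matrix

/-- In the special unitary group `SU_n(q)` (inside `SL_n` over the field with `q²` elements), `q` a power of the prime `p`, two elements of order prime to `p` with the same characteristic polynomial are conjugate in `SU_n(q)`. -/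
theorem result {F : Type*} [Field F] [Fintype F] {q : ℕ} (hF : Fintype.card F = q ^ 2) (p : ℕ) [Fact p.Prime] [CharP F p] (n : ℕ)
    (g h : ↥(Cfsg.SU n F q)) (hg : (orderOf g).Coprime p) (hh : (orderOf h).Coprime p)
    (hc : ((g : Matrix.SpecialLinearGroup (Fin n) F) : Matrix (Fin n) (Fin n) F).charpoly =
      ((h : Matrix.SpecialLinearGroup (Fin n) F) : Matrix (Fin n) (Fin n) F).charpoly) : IsConj g h := by
  classical
  rcases Nat.eq_zero_or_pos n with rfl | hn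
  · have : g = h := Subtype.ext (Subtype.ext (Subsingleton.elim _ _))
    rw [this]
  obtain ⟨a, ha⟩ : ∃ a : Matrix (Fin n) (Fin n) F, a = ((g : Matrix.SpecialLinearGroup (Fin n) F) : Matrix (Fin n) (Fin n) F) := ⟨_, rfl⟩
  obtain ⟨b, hb⟩ : ∃ b : Matrix (Fin n) (Fin n) F, b = ((h : Matrix.SpecialLinearGroup (Fin n) F) : Matrix (Fin n) (Fin n) F) := ⟨_, rfl⟩
  have hak : a ^ orderOf g = 1 := by
    rw [ha, ← Matrix.SpecialLinearGroup.coe_pow, ← SubmonoidClass.coe_pow, pow_orderOf_eq_one]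
    rfl
  have hbk : b ^ orderOf h = 1 := by
    rw [hb, ← Matrix.SpecialLinearGroup.coe_pow, ← SubmonoidClass.coe_pow, pow_orderOf_eq_one]
    rfl
  rw [← ha, ← hb] at hc
  obtain ⟨P, hPdet, hPab⟩ := Cfsg.Agent.Helper40.exists_conj_matrix p hg hh a b hak hbk hc
  obtain ⟨A, hA⟩ : ∃ A : ↥(Cfsg.GU n F q), (A : GL (Fin n) F) = Matrix.SpecialLinearGroup.toGL g.1 := ⟨⟨_, g.2⟩, rfl⟩
  obtain ⟨B, hB⟩ : ∃ B : ↥(Cfsg.GU n F q), (B : GL (Fin n) F) = Matrix.SpecialLinearGroup.toGL h.1 := ⟨⟨_, h.2⟩, rfl⟩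
  have hconj : IsConj (A : GL (Fin n) F) (B : GL (Fin n) F) := by
    rw [hA, hB]
    refine isConj_iff.2 ⟨Matrix.SpecialLinearGroup.toGL ⟨P, hPdet⟩, ?_⟩
    rw [mul_inv_eq_iff_eq_mul]
    apply Units.ext
    show P * ((g : Matrix.SpecialLinearGroup (Fin n) F) : Matrix (Fin n) (Fin n) F) = ((h : Matrix.SpecialLinearGroup (Fin n) F) : Matrix (Fin n) (Fin n) F) * P
    rw [← ha, ← hb]
    exact hPab
  obtain ⟨u, hu⟩ := isConj_iff.1 ((Cfsg.Agent.S2587.result hF A B).2 hconj)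
  obtain ⟨U, hU⟩ : ∃ U : Matrix (Fin n) (Fin n) F, U = ((u : GL (Fin n) F) : Matrix (Fin n) (Fin n) F) := ⟨_, rfl⟩
  have hUa : U * a = b * U := by
    have h1 : u * A = B * u := by rw [← hu]; group
    have h2 := congrArg (fun x : ↥(Cfsg.GU n F q) => ((x : GL (Fin n) F) : Matrix (Fin n) (Fin n) F)) h1
    simp only [Subgroup.coe_mul, Units.val_mul, hA, hB] at h2
    rw [hU, ha, hb]
    exact h2
  have hUu : hadj q U * U = 1 := by
    rw [hU]
    exact (mem_GU_iff hF (u : GL (Fin n) F)).1 u.2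
  have hau : hadj q a * a = 1 := by
    rw [ha]
    exact (mem_GU_iff hF (Matrix.SpecialLinearGroup.toGL g.1)).1 g.2
  have hδ : U.det ^ q * U.det = 1 := by
    have := congrArg Matrix.det hUu
    rwa [Matrix.det_mul, hadj_det hF, Matrix.det_one] at this
  have hδ0 : U.det ≠ 0 := by
    intro h0
    rw [h0, mul_zero] at hδ
    exact zero_ne_one hδ
  obtain ⟨c, hc0, hcδ⟩ : ∃ c : F, c ≠ 0 ∧ c * (c ^ q)⁻¹ = (U.det)⁻¹ := by
    have h1 := h90 hF (S := F) (frobQ hF)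
      (fun s => by rw [frobQ_apply, frobQ_apply, pow_q_q hF])
      (fun a => by rw [frobQ_apply]; rfl) (Units.mk0 (U.det)⁻¹ (inv_ne_zero hδ0)) (by
        rw [Units.val_mk0, frobQ_apply, inv_pow, ← mul_inv, mul_comm, hδ, inv_one])
    obtain ⟨bb, hbb⟩ := h1
    rw [Units.val_mk0, frobQ_apply] at hbb
    have hne : (bb : F) ^ q ≠ 0 := pow_ne_zero _ bb.ne_zero
    refine ⟨bb, bb.ne_zero, ?_⟩
    calc (bb : F) * ((bb : F) ^ q)⁻¹ = ((U.det)⁻¹ * (bb : F) ^ q) * ((bb : F) ^ q)⁻¹ := by rw [← hbb]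
      _ = (U.det)⁻¹ := by rw [mul_assoc, mul_inv_cancel₀ hne, mul_one]
  obtain ⟨z, hzu, hzg, hzdet⟩ := exists_unitary_commuting_det hF p hn hg a hak hau c hc0
  rw [Cfsg.Agent.S2643.isConj_SU_iff]
  have hdet1 : (U * z).det = 1 := by
    rw [Matrix.det_mul, hzdet, hcδ, mul_inv_cancel₀ hδ0]
  refine ⟨Matrix.SpecialLinearGroup.toGL ⟨U * z, hdet1⟩, ?_, ?_, ?_⟩
  · rw [mem_GU_iff hF]
    show hadj q (U * z) * (U * z) = 1
    rw [hadj_mul hF]
    calc hadj q z * hadj q U * (U * z) = hadj q z * (hadj q U * U) * z := by simp only [mul_assoc]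
      _ = 1 := by rw [hUu, mul_one, hzu]
  · exact hdet1
  · apply Units.ext
    show U * z * ((g : Matrix.SpecialLinearGroup (Fin n) F) : Matrix (Fin n) (Fin n) F) = ((h : Matrix.SpecialLinearGroup (Fin n) F) : Matrix (Fin n) (Fin n) F) * (U * z)
    rw [← ha, ← hb, mul_assoc, hzg, ← mul_assoc, hUa, mul_assoc]

end Cfsg.Agent.S2390
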