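import Cfsg.Statements.S2386
import Cfsg.Agent.S2390
import Cfsg.Agent.Helper43.UReal2
import Cfsg.Agent.Helper43.ClassCount
import Cfsg.Agent.Helper5.HermCount

set_option autoImplicit false
open Cfsg

namespace Cfsg.Agent.S2386

open Polynomial Cfsg.Agent.Helper43.UReal Cfsg.Agent.Helper43.HermAdj Cfsg.Agent.Helper42.UForm
  Cfsg.Agent.Helper42.UGroup Cfsg.Agent.Helper42.ProjOrd

/-- the fixed field of `x ↦ x ^ q` has `q` elements -/
theorem card_fix {F : Type*} [Field F] [Fintype F] {q : ℕ} (hF : Fintype.card F = q ^ 2)
    (σ : F →+* F) (hσ : ∀ c, σ c = c ^ q) : Nat.card {a : F // σ a = a} = q := by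
  classical
  have hq : 2 ≤ q := Cfsg.Agent.Helper43.NormH90.two_le_q hF
  have h1 := Cfsg.Agent.Helper5.card_fixed_ne_zero hF
  have h2 : Nat.card {a : F // σ a = a} = Nat.card (Option {c : F // c ≠ 0 ∧ c ^ q = c}) := by
    apply Nat.card_congr
    refine
      { toFun := fun x => if h : x.1 = 0 then none else some ⟨x.1, h, ?_⟩
        invFun := fun o => o.elim ⟨0, map_zero σ⟩ (fun c => ⟨c.1, ?_⟩)
        left_inv := ?_
        right_inv := ?_ }
    · rw [← hσ]; exact x.2
    · rw [hσ]; exact c.2.2
    · intro x
      by_cases h : x.1 = 0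
      · simp only [h, dif_pos, Option.elim_none]
        exact Subtype.ext h.symm
      · simp only [h, dif_neg, not_false_eq_true, Option.elim_some]
    · intro o
      cases o with
      | none => simp
      | some c =>
        have : c.1 ≠ 0 := c.2.1
        simp [this]
  rw [h2, Nat.card_eq_fintype_card, Fintype.card_option, ← Nat.card_eq_fintype_card, h1]
  omega

/-- the number of monic polynomials of degree `n` with `f.map σ = star f` and constant
coefficient `(-1) ^ n` -/
theorem card_usym {F : Type*} [Field F] [Fintype F] {q : ℕ} (hF : Fintype.card F = q ^ 2)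
    (σ : F →+* F) (hσ : ∀ c, σ c = c ^ q) (n : ℕ) (hn : 1 ≤ n) :
    Nat.card {f : F[X] // f.Monic ∧ f.natDegree = n ∧
      f.map σ = Cfsg.Agent.Helper43.SpReal.star f ∧ f.coeff 0 = (-1) ^ n} = q ^ (n - 1) := by
  classical
  have hσσ : ∀ c, σ (σ c) = c := fun c => by
    rw [hσ, hσ, Cfsg.Agent.Helper43.NormH90.pow_q_q hF]
  obtain ⟨ε, hε⟩ : ∃ ε : F, ε = (-1) ^ n := ⟨_, rfl⟩
  have hεε : ε * ε = 1 := by
    rw [hε, ← pow_add, ← two_mul, pow_mul]
    simp
  have hεinv : ε⁻¹ = ε := inv_eq_of_mul_eq_one_left hεε
  have hσε : σ ε = ε := by rw [hε, map_pow, map_neg, map_one]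
  have hεeven : Even n → ε = 1 := fun h => by rw [hε]; exact h.neg_one_pow
  have hrel0 : ∀ f : F[X], f.natDegree = n → f.map σ = Cfsg.Agent.Helper43.SpReal.star f →
      f.coeff 0 = (-1) ^ n → ∀ j, j ≤ n → σ (f.coeff j) = ε * f.coeff (n - j) := by
    intro f hd hu h0 j hj
    have h1 := congrArg (fun g : F[X] => g.coeff j) hu
    simp only [coeff_map, Cfsg.Agent.Helper43.SpReal.star, coeff_C_mul, coeff_reverse] at h1
    rw [hd, revAt_le hj, h0, ← hε, hεinv] at h1
    exact h1
  let S := {f : F[X] // f.Monic ∧ f.natDegree = n ∧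
      f.map σ = Cfsg.Agent.Helper43.SpReal.star f ∧ f.coeff 0 = (-1) ^ n}
  have hrel : ∀ f : S, ∀ j, j ≤ n → σ (f.1.coeff j) = ε * f.1.coeff (n - j) :=
    fun f => hrel0 f.1 f.2.2.1 f.2.2.2.1 f.2.2.2.2
  have hhigh : ∀ f : S, ∀ j, j ≤ n → f.1.coeff j = ε * σ (f.1.coeff (n - j)) := by
    intro f j hj
    rw [hrel f (n - j) (by omega), ← mul_assoc, hεε, one_mul]
    congr 1
    omega
  set k := (n - 1) / 2 with hk
  let M := {a : F // (Even n → σ a = a) ∧ (¬ Even n → a = 0)}
  let Φ : S → (Fin k → F) × M := fun f =>
    (fun i => f.1.coeff (i + 1), ⟨if Even n then f.1.coeff (n / 2) else 0, by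
      intro he
      rw [if_pos he, hrel f (n / 2) (by omega), hεeven he, one_mul]
      congr 1
      obtain ⟨t, ht⟩ := he
      omega, by
      intro he
      rw [if_neg he]⟩)
  have hbij : Function.Bijective Φ := by
    constructor
    · intro f₁ f₂ h
      have hfst : ∀ i : Fin k, f₁.1.coeff (i + 1) = f₂.1.coeff (i + 1) := fun i =>
        congrFun (congrArg Prod.fst h) i
      have hsnd : (if Even n then f₁.1.coeff (n / 2) else 0) =
          (if Even n then f₂.1.coeff (n / 2) else 0) := congrArg (fun x => (x.2 : F)) h
      have hlow : ∀ j, 2 * j ≤ n → f₁.1.coeff j = f₂.1.coeff j := by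
        intro j hj
        rcases Nat.eq_zero_or_pos j with h0 | h0
        · rw [h0, f₁.2.2.2.2, f₂.2.2.2.2]
        · rcases Nat.lt_or_ge (2 * j) n with h2 | h2
          · have h1 := hfst ⟨j - 1, by omega⟩
            have h3 : j - 1 + 1 = j := by omega
            simp only [h3] at h1
            exact h1
          · have he : Even n := ⟨j, by omega⟩
            rw [if_pos he, if_pos he] at hsnd
            have h3 : n / 2 = j := by omega
            rw [h3] at hsnd
            exact hsnd
      apply Subtype.ext
      ext j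
      by_cases hj : j ≤ n
      · by_cases hj' : 2 * j ≤ n
        · exact hlow j hj'
        · rw [hhigh f₁ j hj, hhigh f₂ j hj, hlow (n - j) (by omega)]
      · rw [coeff_eq_zero_of_natDegree_lt (by rw [f₁.2.2.1]; omega),
          coeff_eq_zero_of_natDegree_lt (by rw [f₂.2.2.1]; omega)]
    · rintro ⟨c, m⟩
      let c' : ℕ → F := fun i => if h : i < k then c ⟨i, h⟩ else 0
      let a : ℕ → F := fun j => if j = 0 then ε else if j = n then 1 else
        if 2 * j < n then c' (j - 1) else if 2 * j = n then m.1 else ε * σ (c' (n - j - 1))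
      let f : F[X] := ∑ j ∈ Finset.range (n + 1), monomial j (a j)
      have hcoeff : ∀ j, f.coeff j = if j < n + 1 then a j else 0 := by
        intro j
        simp only [f, finsetSum_coeff, coeff_monomial, Finset.sum_ite_eq', Finset.mem_range]
      have ha0 : a 0 = ε := by simp [a]
      have han : a n = 1 := by
        have : n ≠ 0 := by omega
        simp [a, this]
      have hdeg : f.natDegree = n := by
        apply le_antisymm
        · rw [natDegree_le_iff_coeff_eq_zero]
          intro N hN
          rw [hcoeff, if_neg (by omega)]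
        · apply le_natDegree_of_ne_zero
          rw [hcoeff, if_pos (by omega), han]
          exact one_ne_zero
      have hmonic : f.Monic := by
        rw [Monic, leadingCoeff, hdeg, hcoeff, if_pos (by omega), han]
      have hf0 : f.coeff 0 = ε := by rw [hcoeff, if_pos (by omega), ha0]
      have hasym : ∀ j, j ≤ n → σ (a j) = ε * a (n - j) := by
        intro j hj
        rcases Nat.eq_zero_or_pos j with h0 | h0
        · subst h0
          rw [ha0, Nat.sub_zero, han, mul_one, hσε]
        rcases Nat.lt_or_ge j n with h1 | h1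
        · rcases Nat.lt_trichotomy (2 * j) n with h2 | h2 | h2
          · have e1 : a j = c' (j - 1) := by
              simp only [a]
              rw [if_neg (by omega), if_neg (by omega), if_pos h2]
            have e2 : a (n - j) = ε * σ (c' (j - 1)) := by
              simp only [a]
              rw [if_neg (by omega), if_neg (by omega), if_neg (by omega), if_neg (by omega)]
              congr 3
              omega
            rw [e1, e2, ← mul_assoc, hεε, one_mul]
          · have e1 : a j = m.1 := by
              simp only [a]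
              rw [if_neg (by omega), if_neg (by omega), if_neg (by omega), if_pos h2]
            have e2 : n - j = j := by omega
            have he : Even n := ⟨j, by omega⟩
            rw [e2, e1, m.2.1 he, hεeven he, one_mul]
          · have e1 : a j = ε * σ (c' (n - j - 1)) := by
              simp only [a]
              rw [if_neg (by omega), if_neg (by omega), if_neg (by omega), if_neg (by omega)]
            have e2 : a (n - j) = c' (n - j - 1) := by
              simp only [a]
              rw [if_neg (by omega), if_neg (by omega), if_pos (by omega)]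
            rw [e1, e2, map_mul, hσε, hσσ]
        · have e : j = n := by omega
          subst e
          rw [han, Nat.sub_self, ha0, map_one, hεε]
      have husym : f.map σ = Cfsg.Agent.Helper43.SpReal.star f := by
        ext j
        rw [coeff_map, Cfsg.Agent.Helper43.SpReal.star, coeff_C_mul, coeff_reverse, hdeg, hf0,
          hεinv]
        by_cases hj : j ≤ n
        · rw [revAt_le hj, hcoeff, hcoeff, if_pos (by omega), if_pos (by omega), hasym j hj]
        · rw [revAt_eq_self_of_lt (by omega), hcoeff, if_neg (by omega), map_zero, mul_zero]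
      refine ⟨⟨f, hmonic, hdeg, husym, by rw [hf0, hε]⟩, ?_⟩
      apply Prod.ext
      · funext i
        show f.coeff (i + 1) = c i
        have hi := i.2
        rw [hcoeff, if_pos (by omega)]
        simp only [a]
        rw [if_neg (by omega), if_neg (by omega), if_pos (by omega)]
        simp only [c', Nat.add_sub_cancel, i.2, dif_pos]
      · apply Subtype.ext
        show (if Even n then f.coeff (n / 2) else 0) = m.1
        by_cases he : Even n
        · rw [if_pos he, hcoeff, if_pos (by omega)]
          obtain ⟨t, ht⟩ := he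
          simp only [a]
          rw [if_neg (by omega), if_neg (by omega), if_neg (by omega), if_pos (by omega)]
        · rw [if_neg he, m.2.2 he]
  have hM : Nat.card M = if Even n then q else 1 := by
    by_cases he : Even n
    · rw [if_pos he, ← card_fix hF σ hσ]
      apply Nat.card_congr
      apply Equiv.subtypeEquivRight
      intro a
      constructor
      · intro h
        exact h.1 he
      · intro h
        exact ⟨fun _ => h, fun h' => absurd he h'⟩
    · rw [if_neg he]
      have : Nat.card M = Nat.card {a : F // a = 0} := by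
        apply Nat.card_congr
        apply Equiv.subtypeEquivRight
        intro a
        constructor
        · intro h
          exact h.2 he
        · intro h
          exact ⟨fun h' => absurd h' he, fun _ => h⟩
      rw [this, Nat.card_unique]
  rw [Nat.card_eq_of_bijective Φ hbij, Nat.card_prod, hM, Nat.card_eq_fintype_card,
    Fintype.card_fun, Fintype.card_fin, hF, ← pow_mul]
  by_cases he : Even n
  · rw [if_pos he, ← pow_succ]
    congr 1
    obtain ⟨t, ht⟩ := he
    omega
  · rw [if_neg he, mul_one]
    congr 1
    rw [Nat.not_even_iff_odd] at he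
    obtain ⟨t, ht⟩ := he
    omega

/-- In the special unitary group `SU_n(q)` (matrices of determinant one over the field with `q²` elements preserving the standard Hermitian form), `q` a power of the prime `p`, the number of conjugacy classes of elements of order prime to `p` is `q^(n-1)`. -/
theorem result {F : Type*} [Field F] [Fintype F] {q : ℕ} (hF : Fintype.card F = q ^ 2) (p : ℕ) [Fact p.Prime] [CharP F p] (n : ℕ) (hn : 1 ≤ n) :
    Nat.card {c : ConjClasses ↥(Cfsg.SU n F q) // ∃ g : ↥(Cfsg.SU n F q), ConjClasses.mk g = c ∧ (orderOf g).Coprime p} = q ^ (n - 1) := by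
  classical
  obtain ⟨σ, hσ⟩ := exists_frobQ hF
  have hσI : IsInvol σ := isInvol_frob q (Cfsg.Agent.Helper43.NormH90.two_le_q hF) hF σ hσ
  have h1 : ∀ g h : ↥(Cfsg.SU n F q), IsConj g h →
      ((g : Matrix.SpecialLinearGroup (Fin n) F) : Matrix (Fin n) (Fin n) F).charpoly =
        ((h : Matrix.SpecialLinearGroup (Fin n) F) : Matrix (Fin n) (Fin n) F).charpoly := by
    intro g h hgh
    obtain ⟨c, hc⟩ := isConj_iff.mp hgh
    have e : ((h : Matrix.SpecialLinearGroup (Fin n) F) : Matrix (Fin n) (Fin n) F) =
        ((c : Matrix.SpecialLinearGroup (Fin n) F) : Matrix (Fin n) (Fin n) F) *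
          ((g : Matrix.SpecialLinearGroup (Fin n) F) : Matrix (Fin n) (Fin n) F) *
          (((c⁻¹ : ↥(Cfsg.SU n F q)) : Matrix.SpecialLinearGroup (Fin n) F) :
            Matrix (Fin n) (Fin n) F) := by
      rw [← hc]
      rfl
    have e2 : (((c⁻¹ : ↥(Cfsg.SU n F q)) : Matrix.SpecialLinearGroup (Fin n) F) :
        Matrix (Fin n) (Fin n) F) *
          ((c : Matrix.SpecialLinearGroup (Fin n) F) : Matrix (Fin n) (Fin n) F) = 1 := by
      rw [← Matrix.SpecialLinearGroup.coe_mul, ← Subgroup.coe_mul, inv_mul_cancel]
      rfl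
    rw [e, Matrix.charpoly_mul_comm, ← Matrix.mul_assoc, e2, Matrix.one_mul]
  have h2 : ∀ g h : ↥(Cfsg.SU n F q), (orderOf g).Coprime p → (orderOf h).Coprime p →
      ((g : Matrix.SpecialLinearGroup (Fin n) F) : Matrix (Fin n) (Fin n) F).charpoly =
        ((h : Matrix.SpecialLinearGroup (Fin n) F) : Matrix (Fin n) (Fin n) F).charpoly →
      IsConj g h :=
    fun g h hg hh hc => Cfsg.Agent.S2390.result hF p n g h hg hh hc
  have hE := Cfsg.Agent.Helper43.ClassCount.card_classes_eq_invariant (G := ↥(Cfsg.SU n F q))
    (fun g => (orderOf g).Coprime p)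
    (fun g => ((g : Matrix.SpecialLinearGroup (Fin n) F) : Matrix (Fin n) (Fin n) F).charpoly)
    h1 h2
  have hset : ∀ f : F[X], (∃ g : ↥(Cfsg.SU n F q), (orderOf g).Coprime p ∧
      ((g : Matrix.SpecialLinearGroup (Fin n) F) : Matrix (Fin n) (Fin n) F).charpoly = f) ↔
      (f.Monic ∧ f.natDegree = n ∧ f.map σ = Cfsg.Agent.Helper43.SpReal.star f ∧
        f.coeff 0 = (-1) ^ n) := by
    intro f
    constructor
    · rintro ⟨g, -, rfl⟩
      have hau : hadj q ((g : Matrix.SpecialLinearGroup (Fin n) F) : Matrix (Fin n) (Fin n) F) *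
          ((g : Matrix.SpecialLinearGroup (Fin n) F) : Matrix (Fin n) (Fin n) F) = 1 :=
        (mem_GU_iff hF (Matrix.SpecialLinearGroup.toGL g.1)).1 g.2
      refine ⟨Matrix.charpoly_monic _, ?_, usym_of_hadj σ hσ _ hau, ?_⟩
      · rw [Matrix.charpoly_natDegree_eq_dim, Fintype.card_fin]
      · have h3 := Matrix.det_eq_sign_charpoly_coeff
          ((g : Matrix.SpecialLinearGroup (Fin n) F) : Matrix (Fin n) (Fin n) F)
        rw [Fintype.card_fin, (g : Matrix.SpecialLinearGroup (Fin n) F).2] at h3
        have h4 : ((-1 : F) ^ n) * ((-1 : F) ^ n) = 1 := by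
          rw [← pow_add, ← two_mul, pow_mul]
          simp
        calc _ = ((-1 : F) ^ n) * ((-1 : F) ^ n) * Polynomial.coeff
              ((g : Matrix.SpecialLinearGroup (Fin n) F) : Matrix (Fin n) (Fin n) F).charpoly 0 := by
              rw [h4, one_mul]
          _ = (-1 : F) ^ n := by rw [mul_assoc, ← h3, mul_one]
    · rintro ⟨hm, hdeg, husym, h0⟩
      obtain ⟨V, _, _, _, H, T, hH, hnd, hT, ⟨k, hk, hTk⟩, hch⟩ :=
        urealz_of_usym hF σ hσ p n f hm hdeg husym
      have hdim : Module.finrank F V = n := by
        rw [← LinearMap.charpoly_natDegree T, hch, hdeg]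
      have hdet : LinearMap.det T = 1 := by
        rw [LinearMap.det_eq_sign_charpoly_coeff, hch, hdim, h0, ← pow_add, ← two_mul, pow_mul]
        simp
      obtain ⟨g, Φ, hΦ, -⟩ := exists_of_model hσI q hσ n V H hH hnd hdim T hT hdet
      refine ⟨g, ?_, ?_⟩
      · have h3 : toEnd g.1 ^ k = (1 : F) • (1 : Module.End F (Fin n → F)) :=
          (conj_pow_eq_smul_iff Φ (toEnd g.1) T hΦ k 1).2 (by rw [hTk, one_smul])
        rw [one_smul, ← toEnd_coe_pow, ← toEnd_one] at h3
        have h4 : g ^ k = 1 := Subtype.ext (toEnd_injective h3)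
        exact Nat.Coprime.coprime_dvd_left (orderOf_dvd_of_pow_eq_one h4) hk
      · have h3 : toEnd g.1 = Φ.conj T := by
          apply LinearMap.ext
          intro y
          rw [LinearEquiv.conj_apply_apply, ← hΦ, Φ.apply_symm_apply]
        have h4 : (toEnd g.1).charpoly = T.charpoly := by
          rw [h3]
          exact LinearEquiv.charpoly_conj Φ T
        rw [← hch, ← h4, toEnd, Matrix.charpoly_toLin']
  rw [hE, Nat.card_congr (Equiv.subtypeEquivRight hset), card_usym hF σ hσ n hn]

end Cfsg.Agent.S2386
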