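import Cfsg.Statements.S2387
import Cfsg.Agent.Helper40.SemisimpleCount

set_option autoImplicit false
open scoped MatrixGroups
open Cfsg

namespace Cfsg.Agent.S2387

open Polynomial in
/-- In `GL_n(q)` with `n ≥ 1`, `q` a power of the prime `p`, the number of conjugacy classes of elements of order prime to `p` (diagonalisable over the algebraic closure; determined by the characteristic polynomial) is `(q - 1) q^(n-1)`. -/
theorem result {F : Type*} [Field F] [Fintype F] {q : ℕ} (hq : Fintype.card F = q) (p : ℕ) [Fact p.Prime] [CharP F p] (n : ℕ) (hn : 1 ≤ n) :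
    Nat.card {c : ConjClasses (GL (Fin n) F) // ∃ g : GL (Fin n) F, ConjClasses.mk g = c ∧ (orderOf g).Coprime p} = (q - 1) * q ^ (n - 1) := by
  classical
  have hcount := Cfsg.Agent.Helper40.card_monic_coeff_zero (F := F) hn (fun x => x ≠ 0)
  have hnz : Nat.card {x : F // x ≠ 0} = q - 1 := by
    rw [Nat.card_eq_fintype_card, Fintype.card_subtype_compl, Fintype.card_subtype_eq, hq]
  rw [hnz, hq] at hcount
  rw [← hcount]
  symm
  have hex : ∀ P : {P : F[X] // P.Monic ∧ P.natDegree = n ∧ P.coeff 0 ≠ 0},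
      ∃ g : GL (Fin n) F, (g : Matrix (Fin n) (Fin n) F).charpoly = P.1 ∧
        (orderOf g).Coprime p := by
    rintro ⟨P, hPm, hPn, hP0⟩
    obtain ⟨A, hA⟩ := Cfsg.Agent.Helper40.exists_matrix_charpoly P hPm hPn
    have hdet : A.det ≠ 0 := by
      rw [Matrix.det_eq_sign_charpoly_coeff, hA]
      exact mul_ne_zero (pow_ne_zero _ (by simp)) hP0
    obtain ⟨B, m, hm, hBm, hBc⟩ := Cfsg.Agent.Helper40.exists_pprime_matrix p A hdet
    have hBdet : B.det ≠ 0 := by
      rw [Matrix.det_eq_sign_charpoly_coeff, hBc, hA]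
      exact mul_ne_zero (pow_ne_zero _ (by simp)) hP0
    refine ⟨Matrix.GeneralLinearGroup.mkOfDetNeZero B hBdet, ?_, ?_⟩
    · change B.charpoly = P
      rw [hBc, hA]
    · apply Nat.Coprime.coprime_dvd_left _ hm
      apply orderOf_dvd_of_pow_eq_one
      apply Units.ext
      rw [Units.val_pow_eq_pow_val]
      exact hBm
  choose γ hγc hγo using hex
  have hconj : ∀ g h : GL (Fin n) F, IsConj g h →
      (g : Matrix (Fin n) (Fin n) F).charpoly = (h : Matrix (Fin n) (Fin n) F).charpoly := by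
    intro g h hgh
    obtain ⟨c, hc⟩ := isConj_iff.1 hgh
    rw [← hc]
    simp only [Units.val_mul]
    rw [Matrix.coe_units_inv]
    exact (Matrix.charpoly_units_conj c g).symm
  apply Nat.card_eq_of_bijective (fun P =>
    (⟨ConjClasses.mk (γ P), γ P, rfl, hγo P⟩ :
      {c : ConjClasses (GL (Fin n) F) //
        ∃ g : GL (Fin n) F, ConjClasses.mk g = c ∧ (orderOf g).Coprime p}))
  constructor
  · intro P P' hPP'
    have h1 : ConjClasses.mk (γ P) = ConjClasses.mk (γ P') := congrArg Subtype.val hPP'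
    rw [ConjClasses.mk_eq_mk_iff_isConj] at h1
    apply Subtype.ext
    rw [← hγc P, ← hγc P']
    exact hconj _ _ h1
  · rintro ⟨c, g, rfl, hg⟩
    have hP : (g : Matrix (Fin n) (Fin n) F).charpoly.Monic ∧
        (g : Matrix (Fin n) (Fin n) F).charpoly.natDegree = n ∧
        (g : Matrix (Fin n) (Fin n) F).charpoly.coeff 0 ≠ 0 := by
      refine ⟨Matrix.charpoly_monic _, by simp, ?_⟩
      intro h0
      have hdet : (g : Matrix (Fin n) (Fin n) F).det = 0 := by
        rw [Matrix.det_eq_sign_charpoly_coeff, h0, mul_zero]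
      have hu : IsUnit (g : Matrix (Fin n) (Fin n) F).det := Matrix.isUnits_det_units g
      exact hu.ne_zero hdet
    refine ⟨⟨_, hP⟩, ?_⟩
    apply Subtype.ext
    change ConjClasses.mk (γ ⟨_, hP⟩) = ConjClasses.mk g
    rw [ConjClasses.mk_eq_mk_iff_isConj]
    have hc := hγc ⟨_, hP⟩
    have h1 : ((γ ⟨_, hP⟩ : GL (Fin n) F) : Matrix (Fin n) (Fin n) F) ^ orderOf (γ ⟨_, hP⟩) = 1 := by
      rw [← Units.val_pow_eq_pow_val, pow_orderOf_eq_one]
      rfl
    have h2 : (g : Matrix (Fin n) (Fin n) F) ^ orderOf g = 1 := by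
      rw [← Units.val_pow_eq_pow_val, pow_orderOf_eq_one]
      rfl
    obtain ⟨Q, hQ, hQc⟩ := Cfsg.Agent.Helper40.exists_conj_matrix p (hγo _) hg _ _ h1 h2 hc
    rw [isConj_iff]
    refine ⟨Matrix.GeneralLinearGroup.mkOfDetNeZero Q (by rw [hQ]; exact one_ne_zero), ?_⟩
    rw [mul_inv_eq_iff_eq_mul]
    apply Units.ext
    simp only [Units.val_mul]
    exact hQc

end Cfsg.Agent.S2387
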