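import Cfsg.Statements.S2392

set_option autoImplicit false
open Cfsg

open scoped MatrixGroups

namespace Cfsg.Agent.S2392

open Matrix

section Mat
variable {F : Type*} [Field F] {n : Type*} [Fintype n] [DecidableEq n]

/-- the unimodular matrix `1 + a bᵀ` for `b ⬝ᵥ a = 0`. -/
def elt (a b : n → F) (h : b ⬝ᵥ a = 0) : Matrix.SpecialLinearGroup n F :=
  ⟨1 + vecMulVec a b, by
    rw [Matrix.vecMulVec_eq (Fin 1), Matrix.det_one_add_replicateCol_mul_replicateRow, h, add_zero]⟩

theorem elt_coe (a b : n → F) (h : b ⬝ᵥ a = 0) :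
    ((elt a b h : Matrix.SpecialLinearGroup n F) : Matrix n n F) = 1 + vecMulVec a b := rfl

theorem elt_mul (a b a' b' : n → F) (h : b ⬝ᵥ a = 0) (h' : b' ⬝ᵥ a' = 0) :
    ((elt a b h * elt a' b' h' : Matrix.SpecialLinearGroup n F) : Matrix n n F) =
      1 + vecMulVec a b + vecMulVec a' b' + (b ⬝ᵥ a') • vecMulVec a b' := by
  rw [Matrix.SpecialLinearGroup.coe_mul, elt_coe, elt_coe, add_mul, mul_add, mul_add, one_mul, mul_one,
    one_mul, Matrix.vecMulVec_mul_vecMulVec, Matrix.vecMulVec_smul]
  abel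

end Mat

section Elts
variable {F : Type*} [Field F] {m : ℕ}

theorem cons_dot_single (u : Fin m → F) :
    (Fin.cons 0 u : Fin (m + 1) → F) ⬝ᵥ (Pi.single 0 1) = 0 := by
  simp

theorem single_dot_cons (j : Fin m) (w : Fin m → F) (hw : w j = 0) :
    (Pi.single j.succ 1 : Fin (m + 1) → F) ⬝ᵥ (Fin.cons 0 w) = 0 := by
  simp [hw]

/-- The row transvection subgroup. -/
def T (u : Fin m → F) : Matrix.SpecialLinearGroup (Fin (m + 1)) F :=
  elt (Pi.single 0 1) (Fin.cons 0 u) (cons_dot_single u)

/-- normalising elements -/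
def H (j : Fin m) (w : Fin m → F) (hw : w j = 0) : Matrix.SpecialLinearGroup (Fin (m + 1)) F :=
  elt (Fin.cons 0 w) (Pi.single j.succ 1) (single_dot_cons j w hw)

theorem cons_zero_add (u u' : Fin m → F) :
    (Fin.cons 0 (u + u') : Fin (m + 1) → F) = Fin.cons 0 u + Fin.cons 0 u' := by
  funext i
  refine Fin.cases ?_ (fun i => ?_) i <;> simp

theorem cons_zero_smul (c : F) (u : Fin m → F) :
    (Fin.cons 0 (c • u) : Fin (m + 1) → F) = c • Fin.cons 0 u := by
  funext i
  refine Fin.cases ?_ (fun i => ?_) i <;> simp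

theorem cons_zero_single (j : Fin m) :
    (Fin.cons 0 (Pi.single j 1) : Fin (m + 1) → F) = Pi.single j.succ 1 := by
  funext i
  refine Fin.cases ?_ (fun i => ?_) i
  · simp [Pi.single_apply, Fin.succ_ne_zero, eq_comm]
  · simp [Pi.single_apply]

theorem T_add (u u' : Fin m → F) : T (u + u') = T u * T u' := by
  apply Subtype.ext
  rw [T, T, T, elt_mul, cons_dot_single, zero_smul, add_zero, elt_coe, cons_zero_add, Matrix.vecMulVec_add,
    add_assoc]

theorem T_zero : T (0 : Fin m → F) = 1 := by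
  apply Subtype.ext
  have : (Fin.cons 0 (0 : Fin m → F) : Fin (m + 1) → F) = 0 := by
    funext i
    refine Fin.cases ?_ (fun i => ?_) i <;> simp
  rw [T, elt_coe, this, Matrix.vecMulVec_zero, add_zero, Matrix.SpecialLinearGroup.coe_one]

theorem T_nsmul (k : ℕ) (u : Fin m → F) : T (k • u) = T u ^ k := by
  induction k with
  | zero => simp [T_zero]
  | succ k ih => rw [succ_nsmul, T_add, ih, pow_succ]

theorem cons_dot_cons (u w : Fin m → F) :
    (Fin.cons 0 u : Fin (m + 1) → F) ⬝ᵥ (Fin.cons 0 w) = u ⬝ᵥ w := by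
  simp [dotProduct, Fin.sum_univ_succ]

theorem T_mul_H (u : Fin m → F) (j : Fin m) (w : Fin m → F) (hw : w j = 0) :
    T u * H j w hw = H j w hw * T (u + (u ⬝ᵥ w) • Pi.single j 1) := by
  apply Subtype.ext
  rw [T, H, T, elt_mul, elt_mul, cons_dot_cons]
  have h0 : (Pi.single j.succ 1 : Fin (m + 1) → F) ⬝ᵥ (Pi.single 0 1) = 0 := by
    simp [Pi.single_apply, Fin.succ_ne_zero, eq_comm]
  rw [h0, zero_smul, add_zero, cons_zero_add, cons_zero_smul, cons_zero_single, Matrix.vecMulVec_add,
    Matrix.vecMulVec_smul]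
  abel

theorem T_not_central (hm : 1 ≤ m) (e : Fin m) :
    T (Pi.single e (1 : F)) ∉ Subgroup.center (Matrix.SpecialLinearGroup (Fin (m + 1)) F) := by
  intro h
  rw [Matrix.SpecialLinearGroup.mem_center_iff] at h
  obtain ⟨r, -, hr⟩ := h
  have h1 := congrFun (congrFun hr 0) e.succ
  rw [T, elt_coe] at h1
  simp [Matrix.vecMulVec_apply, Matrix.one_apply, Fin.succ_ne_zero, eq_comm] at h1

end Elts

section Dual

theorem char_sum {A : Type*} [AddCommMonoid A] {L : Type*} [CommMonoid L] (χ : A → L) (h0 : χ 0 = 1)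
    (hadd : ∀ a b, χ (a + b) = χ a * χ b) {ι : Type*} (s : Finset ι) (f : ι → A) :
    χ (∑ j ∈ s, f j) = ∏ j ∈ s, χ (f j) := by
  classical
  induction s using Finset.induction_on with
  | empty => simp [h0]
  | insert a s ha ih => rw [Finset.sum_insert ha, Finset.prod_insert ha, hadd, ih]

variable {F : Type*} [Field F] [Fintype F] {L : Type*} [Field L]

theorem char_ne_zero (ψ : F → L) (hψ0 : ψ 0 = 1) (hψ : ∀ s t, ψ (s + t) = ψ s * ψ t) (a : F) :
    ψ a ≠ 0 := by
  intro h
  have := hψ a (-a)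
  rw [add_neg_cancel, hψ0, h, zero_mul] at this
  exact one_ne_zero this

theorem char_shift_inj (ψ : F → L) (hψ0 : ψ 0 = 1) (hψ : ∀ s t, ψ (s + t) = ψ s * ψ t) (t₀ : F)
    (ht₀ : ψ t₀ ≠ 1) (c c' : F) (h : ∀ t, ψ (c * t) = ψ (c' * t)) : c = c' := by
  by_contra hne
  have hsub : c - c' ≠ 0 := sub_ne_zero.mpr hne
  have h1 := h (t₀ / (c - c'))
  have h2 : c * (t₀ / (c - c')) = t₀ + c' * (t₀ / (c - c')) := by
    field_simp
    ring
  rw [h2, hψ] at h1
  have h3 := char_ne_zero ψ hψ0 hψ (c' * (t₀ / (c - c')))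
  apply ht₀
  have h4 : ψ t₀ * ψ (c' * (t₀ / (c - c'))) = 1 * ψ (c' * (t₀ / (c - c'))) := by rw [h1, one_mul]
  exact mul_right_cancel₀ h3 h4

/-- every additive character of a finite field is a multiplicative shift of a fixed non-trivial one. -/
theorem dual (ψ φ : F → L) (hψ0 : ψ 0 = 1) (hψ : ∀ s t, ψ (s + t) = ψ s * ψ t) (t₀ : F)
    (ht₀ : ψ t₀ ≠ 1) (hφ0 : φ 0 = 1) (hφ : ∀ s t, φ (s + t) = φ s * φ t) :
    ∃ c : F, ∀ t, φ t = ψ (c * t) := by
  classical
  by_contra hcon
  push Not at hcon
  let g : Option F → (Multiplicative F →* L) := fun o =>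
    match o with
    | none =>
      { toFun := fun t => φ (Multiplicative.toAdd t)
        map_one' := hφ0
        map_mul' := fun s t => hφ _ _ }
    | some c =>
      { toFun := fun t => ψ (c * Multiplicative.toAdd t)
        map_one' := by
          change ψ (c * 0) = 1
          rw [mul_zero, hψ0]
        map_mul' := fun s t => by
          change ψ (c * (Multiplicative.toAdd s + Multiplicative.toAdd t)) = _
          rw [mul_add, hψ] }
  have hg : Function.Injective g := by
    intro a b hab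
    match a, b with
    | none, none => rfl
    | none, some c =>
      exfalso
      obtain ⟨t, ht⟩ := hcon c
      apply ht
      exact DFunLike.congr_fun hab (Multiplicative.ofAdd t)
    | some c, none =>
      exfalso
      obtain ⟨t, ht⟩ := hcon c
      apply ht
      exact (DFunLike.congr_fun hab (Multiplicative.ofAdd t)).symm
    | some c, some c' =>
      congr 1
      apply char_shift_inj ψ hψ0 hψ t₀ ht₀
      intro t
      exact DFunLike.congr_fun hab (Multiplicative.ofAdd t)
  have hli := (linearIndependent_monoidHom (Multiplicative F) L).comp g hg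
  have hcard := hli.fintype_card_le_finrank
  rw [Fintype.card_option, Module.finrank_pi, Fintype.card_multiplicative] at hcard
  omega

end Dual

section Core
variable {F : Type*} [Field F] [Fintype F] {m : ℕ} {L : Type*} [Field L] [IsAlgClosed L]
  {V : Type*} [AddCommGroup V] [Module L V] [FiniteDimensional L V]

theorem core (hm : 2 ≤ m) (hp : (ringChar F : L) ≠ 0)
    (φ : Matrix.SpecialLinearGroup (Fin (m + 1)) F →* Module.End L V) (e : Fin m)
    (hφ : φ (T (Pi.single e 1)) ≠ 1) :
    Fintype.card F ^ m - 1 ≤ Module.finrank L V := by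
  classical
  set p := ringChar F with hpdef
  have hcharp : CharP F p := ringChar.charP F
  let R : (Fin m → F) → Module.End L V := fun u => φ (T u)
  have hRadd : ∀ u u', R (u + u') = R u * R u' := fun u u' => by
    simp only [R]
    rw [T_add, map_mul]
  have hR0 : R 0 = 1 := by
    simp only [R]
    rw [T_zero, map_one]
  have hcomm : ∀ u u', Commute (R u) (R u') := fun u u' => by
    change R u * R u' = R u' * R u
    rw [← hRadd, ← hRadd, add_comm]
  have hRp : ∀ u, R u ^ p = 1 := fun u => by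
    simp only [R]
    rw [← map_pow, ← T_nsmul]
    have : p • u = 0 := by
      funext i
      simp [CharP.cast_eq_zero F p]
    rw [this, T_zero, map_one]
  have hss : ∀ u, (R u).IsSemisimple := fun u => by
    apply Module.End.isSemisimple_of_squarefree_aeval_eq_zero (p := Polynomial.X ^ p - 1)
    · exact (Polynomial.X_pow_sub_one_separable_iff.mpr hp).squarefree
    · simp [hRp u]
  let W : ((Fin m → F) → L) → Submodule L V := fun χ => ⨅ u, (R u).maxGenEigenspace (χ u)
  have hWmem : ∀ χ x, x ∈ W χ ↔ ∀ u, R u x = χ u • x := by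
    intro χ x
    simp only [W, Submodule.mem_iInf]
    refine forall_congr' fun u => ?_
    rw [(hss u).isFinitelySemisimple.maxGenEigenspace_eq_eigenspace, Module.End.mem_eigenspace_iff]
  have hindep : iSupIndep W :=
    Module.End.independent_iInf_maxGenEigenspace_of_forall_mapsTo R
      (fun i j μ => Module.End.mapsTo_maxGenEigenspace_of_comm (hcomm j i) μ)
  have htop : ⨆ χ, W χ = ⊤ :=
    Module.End.iSup_iInf_maxGenEigenspace_eq_top_of_iSup_maxGenEigenspace_eq_top_of_commute R
      (fun i j _ => hcomm i j) (fun u => Module.End.iSup_maxGenEigenspace_eq_top (R u))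
  -- a nontrivial character occurs
  have hex : ∃ χ₀, W χ₀ ≠ ⊥ ∧ ∃ u, χ₀ u ≠ 1 := by
    by_contra hcon
    push Not at hcon
    apply hφ
    have h1 : W (fun _ => 1) = ⊤ := by
      rw [eq_top_iff, ← htop]
      apply iSup_le
      intro χ
      by_cases hχ : W χ = ⊥
      · rw [hχ]
        exact bot_le
      · have : χ = fun _ => 1 := funext (hcon χ hχ)
        rw [this]
    apply LinearMap.ext
    intro x
    have hx : x ∈ W (fun _ => 1) := by
      rw [h1]
      exact Submodule.mem_top
    have := (hWmem _ x).mp hx (Pi.single e 1)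
    simpa using this
  obtain ⟨χ₀, hχ₀, u₁, hu₁⟩ := hex
  -- multiplicativity of occurring characters
  have hmul : ∀ χ, W χ ≠ ⊥ → χ 0 = 1 ∧ ∀ u u', χ (u + u') = χ u * χ u' := by
    intro χ hχ
    obtain ⟨x, hxW, hx0⟩ := (Submodule.ne_bot_iff _).mp hχ
    have hx := (hWmem χ x).mp hxW
    constructor
    · have h1 := hx 0
      rw [hR0, Module.End.one_apply] at h1
      have h2 : (χ 0) • x = (1 : L) • x := by rw [one_smul, ← h1]
      exact smul_left_injective L hx0 h2
    · intro u u'
      have h1 := hx (u + u')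
      rw [hRadd, Module.End.mul_apply, hx u', map_smul, hx u, smul_smul] at h1
      have h2 : (χ (u + u')) • x = (χ u * χ u') • x := by rw [← h1, mul_comm]
      exact smul_left_injective L hx0 h2
  -- transformation of characters by the normalising elements
  have htrans : ∀ χ, W χ ≠ ⊥ → ∀ (j : Fin m) (w : Fin m → F), w j = 0 →
      W (fun u => χ (u + Pi.single j (u ⬝ᵥ w))) ≠ ⊥ := by
    intro χ hχ j w hw
    obtain ⟨x, hxW, hx0⟩ := (Submodule.ne_bot_iff _).mp hχ
    have hx := (hWmem χ x).mp hxW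
    rw [Submodule.ne_bot_iff]
    refine ⟨φ (H j w hw) x, ?_, ?_⟩
    · rw [hWmem]
      intro u
      have h1 : R u (φ (H j w hw) x) = φ (H j w hw) (R (u + Pi.single j (u ⬝ᵥ w)) x) := by
        simp only [R]
        rw [← Module.End.mul_apply, ← Module.End.mul_apply, ← map_mul, ← map_mul, T_mul_H]
        congr 4
        funext i
        simp [Pi.single_apply]
      rw [h1, hx, map_smul]
    · intro h0
      apply hx0
      have h1 : φ (H j w hw)⁻¹ (φ (H j w hw) x) = x := by
        rw [← Module.End.mul_apply, ← map_mul, inv_mul_cancel, map_one, Module.End.one_apply]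
      rw [← h1, h0, map_zero]
  obtain ⟨hχ₀0, hχ₀add⟩ := hmul χ₀ hχ₀
  -- coordinate characters
  have hexp : ∀ u, χ₀ u = ∏ j, χ₀ (Pi.single j (u j)) := by
    intro u
    conv_lhs => rw [← Finset.univ_sum_single u]
    exact char_sum χ₀ hχ₀0 hχ₀add Finset.univ _
  obtain ⟨j₀, t₀, ht₀⟩ : ∃ j₀ t₀, χ₀ (Pi.single j₀ t₀) ≠ 1 := by
    by_contra hcon
    push Not at hcon
    apply hu₁
    rw [hexp]
    exact Finset.prod_eq_one (fun j _ => hcon j (u₁ j))
  let ψ : F → L := fun t => χ₀ (Pi.single j₀ t)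
  have hψ0 : ψ 0 = 1 := by
    simp only [ψ]
    rw [Pi.single_zero, hχ₀0]
  have hψadd : ∀ s t, ψ (s + t) = ψ s * ψ t := by
    intro s t
    simp only [ψ]
    rw [Pi.single_add, hχ₀add]
  have hcoord : ∀ j : Fin m, ∃ c : F, ∀ t, χ₀ (Pi.single j t) = ψ (c * t) := by
    intro j
    apply dual ψ (fun t => χ₀ (Pi.single j t)) hψ0 hψadd t₀ ht₀
    · change χ₀ (Pi.single j 0) = 1
      rw [Pi.single_zero, hχ₀0]
    · intro s t
      change χ₀ (Pi.single j (s + t)) = χ₀ (Pi.single j s) * χ₀ (Pi.single j t)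
      rw [Pi.single_add, hχ₀add]
  choose c₀ hc₀ using hcoord
  let Ξ : (Fin m → F) → (Fin m → F) → L := fun c u => ψ (c ⬝ᵥ u)
  have hχ₀Ξ : χ₀ = Ξ c₀ := by
    funext u
    rw [hexp]
    simp only [Ξ, dotProduct]
    rw [char_sum ψ hψ0 hψadd]
    exact Finset.prod_congr rfl (fun j _ => hc₀ j (u j))
  have hΞ0 : W (Ξ c₀) ≠ ⊥ := hχ₀Ξ ▸ hχ₀
  have hc₀ne : c₀ ≠ 0 := by
    intro h
    apply hu₁
    rw [hχ₀Ξ, h]
    simp only [Ξ]
    rw [zero_dotProduct, hψ0]
  -- pivot step
  have hpivot : ∀ c c' : Fin m → F, W (Ξ c) ≠ ⊥ → ∀ j, c j ≠ 0 → c' j = c j → W (Ξ c') ≠ ⊥ := by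
    intro c c' hc j hcj hc'j
    have hw : ((c j)⁻¹ • (c' - c)) j = 0 := by
      simp [hc'j]
    have h1 := htrans (Ξ c) hc j _ hw
    have h2 : (fun u : Fin m → F => Ξ c (u + (Pi.single j (u ⬝ᵥ ((c j)⁻¹ • (c' - c))) : Fin m → F))) = Ξ c' := by
      funext u
      simp only [Ξ]
      congr 1
      rw [dotProduct_add, dotProduct_single, dotProduct_smul, smul_eq_mul, ← mul_assoc,
        mul_inv_cancel₀ hcj, one_mul, dotProduct_comm u, sub_dotProduct]
      ring
    rw [h2] at h1
    exact h1
  -- all non-zero parameters occur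
  have hall : ∀ c' : Fin m → F, c' ≠ 0 → W (Ξ c') ≠ ⊥ := by
    intro c' hc'
    obtain ⟨j, hj⟩ := Function.ne_iff.mp hc₀ne
    obtain ⟨k, hk⟩ := Function.ne_iff.mp hc'
    simp only [Pi.zero_apply] at hj hk
    by_cases hjk : j = k
    · subst hjk
      obtain ⟨l, hl⟩ : ∃ l : Fin m, l ≠ j := by
        by_cases h0 : j = ⟨0, by omega⟩
        · exact ⟨⟨1, by omega⟩, by rw [h0]; simp [Fin.ext_iff]⟩
        · exact ⟨⟨0, by omega⟩, fun h => h0 h.symm⟩
      have s1 : W (Ξ (Function.update c₀ l 1)) ≠ ⊥ :=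
        hpivot c₀ _ hΞ0 j hj (by rw [Function.update_of_ne hl.symm])
      have s2 : W (Ξ (Function.update c' l 1)) ≠ ⊥ :=
        hpivot _ _ s1 l (by simp) (by simp)
      exact hpivot _ _ s2 j (by rw [Function.update_of_ne hl.symm]; exact hk)
        (by rw [Function.update_of_ne hl.symm])
    · have s1 : W (Ξ (Function.update c₀ k (c' k))) ≠ ⊥ :=
        hpivot c₀ _ hΞ0 j hj (by rw [Function.update_of_ne hjk])
      exact hpivot _ _ s1 k (by simpa using hk) (by simp)
  -- injectivity of the parametrisation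
  have hΞinj : Function.Injective Ξ := by
    intro c c' hcc
    funext j
    apply char_shift_inj ψ hψ0 hψadd t₀ ht₀
    intro t
    have := congrFun hcc (Pi.single j t)
    simpa [Ξ] using this
  -- counting
  let _ : Fintype {χ // W χ ≠ ⊥} := hindep.fintypeNeBotOfFiniteDimensional
  have hle := hindep.subtype_ne_bot_le_finrank
  let ι : {c : Fin m → F // c ≠ 0} → {χ // W χ ≠ ⊥} := fun c => ⟨Ξ c.1, hall c.1 c.2⟩
  have hι : Function.Injective ι := by
    intro a b hab
    exact Subtype.ext (hΞinj (congrArg Subtype.val hab))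
  have hcard := Fintype.card_le_of_injective ι hι
  have hcount : Fintype.card {c : Fin m → F // c ≠ 0} = Fintype.card F ^ m - 1 := by
    simp
  omega

end Core

/-- A lower bound for representations in cross characteristic: for `n ≥ 3` and a field `F` with `q` elements, every homomorphism from `SL_n(F)` to `GL_d(K)`, `K` a field of characteristic different from that of `F`, whose kernel is central has `d ≥ q^(n-1) - 1`. -/
theorem result {F : Type*} [Field F] [Fintype F] {q : ℕ} (hq : Fintype.card F = q) (n : ℕ) (hn : 3 ≤ n)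
    {K : Type*} [Field K] (hK : ringChar K ≠ ringChar F) {d : ℕ}
    (ρ : Matrix.SpecialLinearGroup (Fin n) F →* GL (Fin d) K) (hker : ρ.ker ≤ Subgroup.center (Matrix.SpecialLinearGroup (Fin n) F)) :
    q ^ (n - 1) - 1 ≤ d := by
  classical
  obtain ⟨m, rfl⟩ : ∃ m, n = m + 1 := ⟨n - 1, by omega⟩
  have hm : 2 ≤ m := by omega
  let L := AlgebraicClosure K
  have hprime : (ringChar F).Prime :=
    (CharP.char_is_prime_or_zero F (ringChar F)).resolve_right (CharP.char_ne_zero_of_finite F (ringChar F))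
  have hpK : ((ringChar F : ℕ) : K) ≠ 0 := by
    rw [Ne, ringChar.spec]
    intro hdvd
    rcases (Nat.dvd_prime hprime).mp hdvd with h | h
    · exact CharP.ringChar_ne_one h
    · exact hK h
  have hp : ((ringChar F : ℕ) : L) ≠ 0 := by
    intro h
    apply hpK
    apply (algebraMap K L).injective
    rw [map_natCast, map_zero]
    exact h
  let f1 : GL (Fin d) K →* GL (Fin d) L := Matrix.GeneralLinearGroup.map (algebraMap K L)
  let f2 : GL (Fin d) L →* Matrix (Fin d) (Fin d) L := Units.coeHom _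
  let f3 : Matrix (Fin d) (Fin d) L →* Module.End L (Fin d → L) :=
    (Matrix.toLinAlgEquiv' : Matrix (Fin d) (Fin d) L ≃ₐ[L] _).toAlgHom.toMonoidHom
  let φ : Matrix.SpecialLinearGroup (Fin (m + 1)) F →* Module.End L (Fin d → L) :=
    f3.comp (f2.comp (f1.comp ρ))
  let e : Fin m := ⟨0, by omega⟩
  have hφ : φ (T (Pi.single e 1)) ≠ 1 := by
    intro h
    apply T_not_central (F := F) (by omega) e
    apply hker
    rw [MonoidHom.mem_ker]
    have h3 : f2 (f1 (ρ (T (Pi.single e 1)))) = 1 := by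
      apply (Matrix.toLinAlgEquiv' : Matrix (Fin d) (Fin d) L ≃ₐ[L] _).injective
      rw [map_one]
      exact h
    have h2 : f1 (ρ (T (Pi.single e 1))) = 1 := Units.ext h3
    apply Units.ext
    apply Matrix.ext
    intro i j
    have h1 := congrArg (fun g : GL (Fin d) L => (g : Matrix (Fin d) (Fin d) L) i j) h2
    simp only [f1, Matrix.GeneralLinearGroup.map_apply, Units.val_one] at h1
    rw [Units.val_one]
    apply (algebraMap K L).injective
    rw [h1, Matrix.one_apply, Matrix.one_apply]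
    split_ifs <;> simp
  have hcore := core (F := F) (L := L) (V := Fin d → L) hm hp φ e hφ
  rw [Module.finrank_fin_fun, hq] at hcore
  simpa using hcore

end Cfsg.Agent.S2392
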