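import Cfsg.Statements.S2393
import Cfsg.Agent.Helper40.CrossChar

set_option autoImplicit false
open Cfsg

open scoped MatrixGroups

namespace Cfsg.Agent.S2393

open Matrix Cfsg.Agent.Helper40

section Elts
variable {F : Type*} [Field F] {N : ℕ}

/-- the symmetric matrix `e₀ rᵀ + r e₀ᵀ`. -/
def Smat (r : Fin (N + 1) → F) : Matrix (Fin (N + 1)) (Fin (N + 1)) F :=
  vecMulVec (Pi.single 0 1) r + vecMulVec r (Pi.single 0 1)

theorem Smat_transpose (r : Fin (N + 1) → F) : (Smat r)ᵀ = Smat r := by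
  rw [Smat, transpose_add, transpose_vecMulVec, transpose_vecMulVec]
  exact add_comm _ _

theorem Smat_add (r r' : Fin (N + 1) → F) : Smat (r + r') = Smat r + Smat r' := by
  rw [Smat, Smat, Smat, vecMulVec_add, add_vecMulVec]
  abel

theorem Smat_zero : Smat (0 : Fin (N + 1) → F) = 0 := by
  rw [Smat, vecMulVec_zero, zero_vecMulVec, add_zero]

theorem Smat_smul (a : F) (r : Fin (N + 1) → F) : Smat (a • r) = a • Smat r := by
  rw [Smat, Smat, vecMulVec_smul, smul_vecMulVec, smul_add]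

/-- the element `[[1, S_r], [0, 1]]` of the symplectic group. -/
def tau (r : Fin (N + 1) → F) : ↥(Matrix.symplecticGroup (Fin (N + 1)) F) :=
  ⟨fromBlocks 1 (Smat r) 0 1, by
    rw [SymplecticGroup.mem_iff]
    simp [Matrix.J, fromBlocks_transpose, fromBlocks_multiply, Smat_transpose]⟩

/-- the element `[[g, 0], [0, kᵀ]]` of the symplectic group, `g k = 1`. -/
def delta (g k : Matrix (Fin (N + 1)) (Fin (N + 1)) F) (h : g * k = 1) :
    ↥(Matrix.symplecticGroup (Fin (N + 1)) F) :=
  ⟨fromBlocks g 0 0 kᵀ, by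
    rw [SymplecticGroup.mem_iff]
    have h' : kᵀ * gᵀ = 1 := by rw [← transpose_mul, h, transpose_one]
    simp [Matrix.J, fromBlocks_transpose, fromBlocks_multiply, h, h']⟩

theorem tau_add (r r' : Fin (N + 1) → F) : tau (r + r') = tau r * tau r' := by
  apply Subtype.ext
  change fromBlocks 1 (Smat (r + r')) 0 1 = fromBlocks 1 (Smat r) 0 1 * fromBlocks 1 (Smat r') 0 1
  rw [fromBlocks_multiply, Smat_add]
  simp [add_comm]

theorem tau_zero : tau (0 : Fin (N + 1) → F) = 1 := by
  apply Subtype.ext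
  change fromBlocks 1 (Smat (0 : Fin (N + 1) → F)) 0 1 = 1
  rw [Smat_zero, fromBlocks_one]

theorem tau_mul_delta (r r' : Fin (N + 1) → F) (g k : Matrix (Fin (N + 1)) (Fin (N + 1)) F)
    (h : g * k = 1) (hr : Smat r' = k * Smat r * kᵀ) :
    tau r * delta g k h = delta g k h * tau r' := by
  apply Subtype.ext
  change fromBlocks 1 (Smat r) 0 1 * fromBlocks g 0 0 kᵀ = fromBlocks g 0 0 kᵀ * fromBlocks 1 (Smat r') 0 1
  rw [fromBlocks_multiply, fromBlocks_multiply, hr, ← mul_assoc, ← mul_assoc, h]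
  simp

theorem conj_Smat (r : Fin (N + 1) → F) (k : Matrix (Fin (N + 1)) (Fin (N + 1)) F) (a : F)
    (hk : k *ᵥ (Pi.single 0 1) = a • (Pi.single 0 1 : Fin (N + 1) → F)) :
    Smat (a • (k *ᵥ r)) = k * Smat r * kᵀ := by
  rw [Smat, Smat, mul_add, add_mul, mul_vecMulVec, vecMulVec_mul, mul_vecMulVec, vecMulVec_mul,
    vecMul_transpose, vecMul_transpose, hk, vecMulVec_smul, smul_vecMulVec, smul_vecMulVec, vecMulVec_smul]

theorem tau_not_central (h2 : (2 : F) ≠ 0) :
    tau (Pi.single 0 (1 : F) : Fin (N + 1) → F) ∉ Subgroup.center ↥(Matrix.symplecticGroup (Fin (N + 1)) F) := by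
  intro h
  rw [Subgroup.mem_center_iff] at h
  have h1 := congrArg Subtype.val (h (SymplecticGroup.symJ (Fin (N + 1)) F))
  change Matrix.J (Fin (N + 1)) F * fromBlocks 1 (Smat (Pi.single 0 (1 : F))) 0 1 =
    fromBlocks 1 (Smat (Pi.single 0 (1 : F))) 0 1 * Matrix.J (Fin (N + 1)) F at h1
  rw [Matrix.J, fromBlocks_multiply, fromBlocks_multiply, fromBlocks_inj] at h1
  have h3 := h1.1
  simp only [zero_mul, add_zero, neg_mul, one_mul, mul_zero, mul_one, zero_add] at h3
  have h4 := congrFun (congrFun h3 0) 0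
  simp only [Smat, Matrix.zero_apply, Matrix.add_apply, vecMulVec_apply, Pi.single_eq_same, mul_one] at h4
  apply h2
  have h5 : (2 : F) = 1 + 1 := by norm_num
  rw [h5, ← h4]

theorem vmv_mulVec {ι : Type*} [Fintype ι] (u w r : ι → F) :
    vecMulVec u w *ᵥ r = (w ⬝ᵥ r) • u := by
  funext i
  simp only [mulVec, dotProduct, vecMulVec_apply, Pi.smul_apply, smul_eq_mul, Finset.sum_mul]
  apply Finset.sum_congr rfl
  intro j _
  ring

end Elts

/-- A lower bound for representations in cross characteristic: for `n ≥ 2` and a field `F` with `q` elements, `q` odd, every homomorphism from the symplectic group `Sp_{2n}(F)` to `GL_d(K)`, `K` a field of characteristic different from that of `F`, whose kernel is central has `d ≥ q^(n-1)(q-1)/2`. -/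
theorem result {F : Type*} [Field F] [Fintype F] {q : ℕ} (hq : Fintype.card F = q) (hodd : Odd q) (n : ℕ) (hn : 2 ≤ n)
    {K : Type*} [Field K] (hK : ringChar K ≠ ringChar F) {d : ℕ}
    (ρ : ↥(Matrix.symplecticGroup (Fin n) F) →* GL (Fin d) K) (hker : ρ.ker ≤ Subgroup.center ↥(Matrix.symplecticGroup (Fin n) F)) :
    q ^ (n - 1) * (q - 1) / 2 ≤ d := by
  classical
  obtain ⟨N, rfl⟩ : ∃ N, n = N + 1 := ⟨n - 1, by omega⟩
  let L := AlgebraicClosure K
  have hp : ((ringChar F : ℕ) : L) ≠ 0 := ringChar_cast_ne_zero hK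
  have h2 : (2 : F) ≠ 0 := by
    apply Ring.two_ne_zero
    intro h
    have := (FiniteField.even_card_iff_char_two (F := F)).mp h
    rw [hq] at this
    rcases hodd with ⟨k, hk⟩
    omega
  let φ := repEnd ρ
  let R : (Fin (N + 1) → F) → Module.End L (Fin d → L) := fun r => φ (tau r)
  have hadd : ∀ a b, R (a + b) = R a * R b := fun a b => by
    simp only [R]
    rw [tau_add, map_mul]
  have h0 : R 0 = 1 := by
    simp only [R]
    rw [tau_zero, map_one]
  have hpA : ∀ a : Fin (N + 1) → F, ringChar F • a = 0 := fun a => by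
    funext i
    simp [CharP.cast_eq_zero F (ringChar F)]
  have hex : ∃ χ₀, weightSpace R χ₀ ≠ ⊥ ∧ χ₀ (Pi.single 0 1) ≠ 1 := by
    by_contra hcon
    push Not at hcon
    have h1 := R_eq_one_of_trivial R hadd h0 (ringChar F) hp hpA (Pi.single 0 1) hcon
    have h3 : ρ (tau (Pi.single 0 1)) = 1 := repEnd_eq_one ρ _ h1
    exact tau_not_central h2 (hker (MonoidHom.mem_ker.mpr h3))
  obtain ⟨χ₀, hχ₀, hχ₀1⟩ := hex
  obtain ⟨hχ₀0, hχ₀add⟩ := weightSpace_char R hadd h0 _ hp hpA χ₀ hχ₀
  let ψ : F → L := fun t => χ₀ (Pi.single 0 t)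
  have hψ0 : ψ 0 = 1 := by
    simp only [ψ]
    rw [Pi.single_zero, hχ₀0]
  have hψadd : ∀ s t, ψ (s + t) = ψ s * ψ t := by
    intro s t
    simp only [ψ]
    rw [Pi.single_add, hχ₀add]
  have ht₀ : ψ 1 ≠ 1 := hχ₀1
  obtain ⟨c₀, hc₀⟩ := exists_dot_char ψ hψ0 hψadd 1 ht₀ χ₀ hχ₀0 hχ₀add
  let Ξ : (Fin (N + 1) → F) → (Fin (N + 1) → F) → L := fun c u => ψ (c ⬝ᵥ u)
  have hχ₀Ξ : χ₀ = Ξ c₀ := funext hc₀
  have hΞ0 : weightSpace R (Ξ c₀) ≠ ⊥ := hχ₀Ξ ▸ hχ₀
  have hc₀0 : c₀ 0 ≠ 0 := by
    intro h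
    apply hχ₀1
    rw [hc₀]
    simp [h, hψ0]
  -- first kind of normalising elements
  have hP1 : ∀ c w : Fin (N + 1) → F, weightSpace R (Ξ c) ≠ ⊥ → w 0 = 0 →
      weightSpace R (Ξ (c + c 0 • w)) ≠ ⊥ := by
    intro c w hc hw
    let k : Matrix (Fin (N + 1)) (Fin (N + 1)) F := 1 + vecMulVec (Pi.single 0 1) w
    let g : Matrix (Fin (N + 1)) (Fin (N + 1)) F := 1 - vecMulVec (Pi.single 0 1) w
    have hwe : w ⬝ᵥ (Pi.single 0 1 : Fin (N + 1) → F) = 0 := by simp [hw]
    have hgk : g * k = 1 := by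
      simp only [g, k]
      have hE : vecMulVec (Pi.single 0 1 : Fin (N + 1) → F) w * vecMulVec (Pi.single 0 1) w = 0 := by
        rw [vecMulVec_mul_vecMulVec, hwe, zero_smul, vecMulVec_zero]
      have hexp : (1 - vecMulVec (Pi.single 0 1 : Fin (N + 1) → F) w) * (1 + vecMulVec (Pi.single 0 1) w) =
          1 - vecMulVec (Pi.single 0 1 : Fin (N + 1) → F) w * vecMulVec (Pi.single 0 1) w := by
        noncomm_ring
      rw [hexp, hE, sub_zero]
    have hke : k *ᵥ (Pi.single 0 1) = (1 : F) • (Pi.single 0 1 : Fin (N + 1) → F) := by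
      simp only [k]
      rw [add_mulVec, one_mulVec, vmv_mulVec, hwe, zero_smul, add_zero, one_smul]
    have h1 := weightSpace_conj R hadd h0 _ hp hpA (Ξ c) hc (φ (delta g k hgk)) (φ (delta g k hgk)⁻¹)
      (by rw [← map_mul, inv_mul_cancel, map_one]) (fun r => (1 : F) • (k *ᵥ r))
      (fun r => by
        simp only [R]
        rw [← map_mul, ← map_mul, tau_mul_delta r _ g k hgk (conj_Smat r k 1 hke)])
    have h3 : (fun r : Fin (N + 1) → F => Ξ c ((1 : F) • (k *ᵥ r))) = Ξ (c + c 0 • w) := by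
      funext r
      simp only [Ξ, k]
      congr 1
      rw [one_smul, add_mulVec, one_mulVec, vmv_mulVec, dotProduct_add, dotProduct_smul, add_dotProduct,
        smul_dotProduct, dotProduct_single, mul_one, smul_eq_mul, smul_eq_mul, mul_comm]
    rw [h3] at h1
    exact h1
  -- second kind of normalising elements
  have hP2 : ∀ (c : Fin (N + 1) → F) (a : F), weightSpace R (Ξ c) ≠ ⊥ → a ≠ 0 →
      weightSpace R (Ξ (fun i => a * Function.update (1 : Fin (N + 1) → F) 0 a i * c i)) ≠ ⊥ := by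
    intro c a hc ha
    let k : Matrix (Fin (N + 1)) (Fin (N + 1)) F := diagonal (Function.update (1 : Fin (N + 1) → F) 0 a)
    let g : Matrix (Fin (N + 1)) (Fin (N + 1)) F := diagonal (Function.update (1 : Fin (N + 1) → F) 0 a⁻¹)
    have hgk : g * k = 1 := by
      simp only [g, k]
      rw [diagonal_mul_diagonal, ← diagonal_one]
      congr 1
      funext i
      by_cases hi : i = 0
      · subst hi
        simp [ha]
      · simp [Function.update_of_ne hi]
    have hke : k *ᵥ (Pi.single 0 1) = a • (Pi.single 0 1 : Fin (N + 1) → F) := by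
      funext i
      simp only [k]
      rw [mulVec_diagonal]
      by_cases hi : i = 0
      · subst hi
        simp
      · simp [Function.update_of_ne hi, Pi.single_eq_of_ne hi]
    have h1 := weightSpace_conj R hadd h0 _ hp hpA (Ξ c) hc (φ (delta g k hgk)) (φ (delta g k hgk)⁻¹)
      (by rw [← map_mul, inv_mul_cancel, map_one]) (fun r => a • (k *ᵥ r))
      (fun r => by
        simp only [R]
        rw [← map_mul, ← map_mul, tau_mul_delta r _ g k hgk (conj_Smat r k a hke)])
    have h3 : (fun r : Fin (N + 1) → F => Ξ c (a • (k *ᵥ r))) =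
        Ξ (fun i => a * Function.update (1 : Fin (N + 1) → F) 0 a i * c i) := by
      funext r
      simp only [Ξ, k]
      congr 1
      simp only [dotProduct, Pi.smul_apply, mulVec_diagonal, smul_eq_mul]
      apply Finset.sum_congr rfl
      intro i _
      ring
    rw [h3] at h1
    exact h1
  -- all parameters with first coordinate in the square class occur
  have hall : ∀ (a : F) (v : Fin N → F), a ≠ 0 →
      weightSpace R (Ξ (Fin.cons (a ^ 2 * c₀ 0) v)) ≠ ⊥ := by
    intro a v ha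
    have s1 := hP2 c₀ a hΞ0 ha
    set c'' : Fin (N + 1) → F := fun i => a * Function.update (1 : Fin (N + 1) → F) 0 a i * c₀ i with hc''
    have hc''0 : c'' 0 = a ^ 2 * c₀ 0 := by
      simp only [hc'', Function.update_self]
      ring
    have hc''ne : c'' 0 ≠ 0 := by
      rw [hc''0]
      exact mul_ne_zero (pow_ne_zero 2 ha) hc₀0
    have hw : ((c'' 0)⁻¹ • ((Fin.cons (a ^ 2 * c₀ 0) v : Fin (N + 1) → F) - c'')) 0 = 0 := by
      simp [hc''0]
    have s2 := hP1 c'' _ s1 hw
    have h3 : c'' + c'' 0 • ((c'' 0)⁻¹ • ((Fin.cons (a ^ 2 * c₀ 0) v : Fin (N + 1) → F) - c'')) =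
        Fin.cons (a ^ 2 * c₀ 0) v := by
      rw [smul_smul, mul_inv_cancel₀ hc''ne, one_smul, add_sub_cancel]
    rw [h3] at s2
    exact s2
  -- counting
  let Sq : Finset F := (Finset.univ.filter (fun a : F => a ≠ 0)).image (fun a => a ^ 2)
  have hSq : q - 1 ≤ 2 * Sq.card := by
    have h1 : (Finset.univ.filter (fun a : F => a ≠ 0)).card = q - 1 := by
      rw [Finset.filter_ne', Finset.card_erase_of_mem (Finset.mem_univ _), Finset.card_univ, hq]
    rw [← h1]
    apply Finset.card_le_mul_card_image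
    intro b hb
    obtain ⟨a₀, -, rfl⟩ := Finset.mem_image.mp hb
    have hsub : (Finset.univ.filter (fun a : F => a ≠ 0)).filter (fun a => a ^ 2 = a₀ ^ 2) ⊆ {a₀, -a₀} := by
      intro a ha
      simp only [Finset.mem_filter, Finset.mem_univ, true_and] at ha
      simp only [Finset.mem_insert, Finset.mem_singleton]
      exact sq_eq_sq_iff_eq_or_eq_neg.mp ha.2
    exact le_trans (Finset.card_le_card hsub) Finset.card_le_two
  let ι : ↥Sq × (Fin N → F) → (Fin (N + 1) → F) → L := fun y => Ξ (Fin.cons (y.1.1 * c₀ 0) y.2)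
  have hι : Function.Injective ι := by
    rintro ⟨⟨s, hs⟩, v⟩ ⟨⟨s', hs'⟩, v'⟩ h
    have h1 := dot_char_injective ψ hψ0 hψadd 1 ht₀ h
    have h3 := congrFun h1 0
    simp only [Fin.cons_zero] at h3
    have h4 : s = s' := mul_right_cancel₀ hc₀0 h3
    have h5 : v = v' := by
      funext i
      have := congrFun h1 i.succ
      simpa using this
    subst h4
    subst h5
    rfl
  have hocc : ∀ y, weightSpace R (ι y) ≠ ⊥ := by
    rintro ⟨⟨s, hs⟩, v⟩
    obtain ⟨a, ha, rfl⟩ := Finset.mem_image.mp hs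
    simp only [Finset.mem_filter, Finset.mem_univ, true_and] at ha
    exact hall a v ha
  have hcard := card_le_finrank_of_weights R hadd ι hι hocc
  rw [Module.finrank_fin_fun, Fintype.card_prod, Fintype.card_coe, Fintype.card_fun, Fintype.card_fin, hq]
    at hcard
  rw [Nat.add_sub_cancel]
  apply Nat.div_le_of_le_mul
  calc q ^ N * (q - 1) ≤ q ^ N * (2 * Sq.card) := Nat.mul_le_mul_left _ hSq
    _ = 2 * (Sq.card * q ^ N) := by ring
    _ ≤ 2 * d := Nat.mul_le_mul_left _ hcard

end Cfsg.Agent.S2393
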