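import Cfsg.Statements.S2401
import Cfsg.Agent.Helper21.SPMain

set_option autoImplicit false
open Cfsg

namespace Cfsg.Agent.S2401

/-- The Steinberg presentation of `SL_n` over a finite field for `n ≥ 3`: the group generated by symbols `x_ij(t)` (`i ≠ j`, `t` in the field) subject to `x_ij(t) x_ij(u) = x_ij(t + u)` and, for `i ≠ l`, `x_ij(t) x_kl(u) x_ij(t)⁻¹ x_kl(u)⁻¹ = x_il(tu)` if `j = k` and `= 1` if `j ≠ k`, is isomorphic to `SL_n` by an isomorphism sending `x_ij(t)` to the elementary matrix `1 + t E_ij`. -/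
theorem result {K : Type*} [Field K] [Finite K] (n : ℕ) (hn : 3 ≤ n) :
    ∃ e : PresentedGroup
        ({g : FreeGroup ({ij : Fin n × Fin n // ij.1 ≠ ij.2} × K) | ∃ (a : {ij : Fin n × Fin n // ij.1 ≠ ij.2}) (t u : K),
            g = FreeGroup.of (a, t) * FreeGroup.of (a, u) * (FreeGroup.of (a, t + u))⁻¹} ∪
          {g | ∃ (a b : {ij : Fin n × Fin n // ij.1 ≠ ij.2}) (t u : K), a.1.1 ≠ b.1.2 ∧ a.1.2 ≠ b.1.1 ∧
            g = FreeGroup.of (a, t) * FreeGroup.of (b, u) * (FreeGroup.of (a, t))⁻¹ * (FreeGroup.of (b, u))⁻¹} ∪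
          {g | ∃ (a b : {ij : Fin n × Fin n // ij.1 ≠ ij.2}) (h : a.1.1 ≠ b.1.2) (t u : K), a.1.2 = b.1.1 ∧
            g = FreeGroup.of (a, t) * FreeGroup.of (b, u) * (FreeGroup.of (a, t))⁻¹ * (FreeGroup.of (b, u))⁻¹ *
              (FreeGroup.of (⟨(a.1.1, b.1.2), h⟩, t * u))⁻¹}) ≃* Matrix.SpecialLinearGroup (Fin n) K,
      ∀ (a : {ij : Fin n × Fin n // ij.1 ≠ ij.2}) (t : K), ((e (PresentedGroup.of (a, t)) : Matrix (Fin n) (Fin n) K)) = Matrix.transvection a.1.1 a.1.2 t := by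
  obtain ⟨k, rfl⟩ : ∃ k, n = k + 3 := ⟨n - 3, by omega⟩
  exact Cfsg.Agent.Helper21.SPMain.pres_final (K := K) k

end Cfsg.Agent.S2401
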