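import Cfsg.Statements.S2405
import Cfsg.Agent.Helper17.TwoGenU2
import Cfsg.Agent.Helper17.TwoGenUTab

set_option autoImplicit false
open Cfsg

namespace Cfsg.Agent.S2405

/-- Every element of a finite field is a sum of two squares. -/
theorem exists_sq_add_sq {F : Type*} [Field F] [Fintype F] (t : F) : ∃ a b : F, a ^ 2 + b ^ 2 = t := by
  classical
  by_cases h : ringChar F = 2
  · obtain ⟨a, ha⟩ := FiniteField.isSquare_of_char_two h t
    exact ⟨a, 0, by rw [ha]; ring⟩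
  · have hodd : Fintype.card F % 2 = 1 := FiniteField.odd_card_of_char_ne_two h
    obtain ⟨a, b, hab⟩ := FiniteField.exists_root_sum_quadratic (R := F) (f := Polynomial.X ^ 2)
      (g := Polynomial.X ^ 2 - Polynomial.C t) (Polynomial.degree_X_pow 2)
      (by
        rw [Polynomial.degree_sub_C (by rw [Polynomial.degree_X_pow]; norm_num)]
        exact Polynomial.degree_X_pow 2) hodd
    refine ⟨a, b, ?_⟩
    simp only [Polynomial.eval_pow, Polynomial.eval_X, Polynomial.eval_sub, Polynomial.eval_C] at hab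
    linear_combination hab

/-- The powers of the inverse of a generator span the field. -/
theorem span_neg_one {F : Type*} [Field F] {C : F} (hgen : ∀ t : F, t ≠ 0 → ∃ j : ℕ, t = C ^ j) (t : F) :
    t ∈ AddSubmonoid.closure (Set.range fun j : ℕ => (C ^ (-1 : ℤ)) ^ j) := by
  by_cases ht : t = 0
  · rw [ht]; exact zero_mem _
  · obtain ⟨j, hj⟩ := hgen t⁻¹ (inv_ne_zero ht)
    refine AddSubmonoid.subset_closure ⟨j, ?_⟩
    show (C ^ (-1 : ℤ)) ^ j = t
    rw [zpow_neg_one, inv_pow, ← hj, inv_inv]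

/-- The powers of the square of a generator span the field. -/
theorem span_two {F : Type*} [Field F] [Fintype F] {C : F} (hgen : ∀ t : F, t ≠ 0 → ∃ j : ℕ, t = C ^ j)
    (t : F) : t ∈ AddSubmonoid.closure (Set.range fun j : ℕ => (C ^ (2 : ℤ)) ^ j) := by
  have hsq : ∀ a : F, a ^ 2 ∈ AddSubmonoid.closure (Set.range fun j : ℕ => (C ^ (2 : ℤ)) ^ j) := by
    intro a
    by_cases ha : a = 0
    · rw [ha, zero_pow (by norm_num)]; exact zero_mem _
    · obtain ⟨j, hj⟩ := hgen a ha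
      refine AddSubmonoid.subset_closure ⟨j, ?_⟩
      show (C ^ (2 : ℤ)) ^ j = a ^ 2
      rw [hj, zpow_ofNat, ← pow_mul, ← pow_mul, mul_comm]
  obtain ⟨a, b, hab⟩ := exists_sq_add_sq t
  rw [← hab]
  exact add_mem (hsq a) (hsq b)

open Cfsg.Lie Cfsg.Agent.Helper17 Cfsg.Agent.Helper36 in
/-- Each Chevalley group of type G₂, B₂, D₄, F₄, E₆, E₇ or E₈ over a finite field is generated by two of its elements (types B₂ and G₂ over the field with two elements, where the group is not simple, excepted). -/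
theorem result {F : Type*} [Field F] [Finite F] (D : Cfsg.Lie.ChevalleyDatum) (hD : D ∈ [Cfsg.Lie.chevG2, Cfsg.Lie.chevB2, Cfsg.Lie.chevD4, Cfsg.Lie.chevF4, Cfsg.Lie.chevE6, Cfsg.Lie.chevE7, Cfsg.Lie.chevE8])
    (hF : D ∈ [Cfsg.Lie.chevB2, Cfsg.Lie.chevG2] → ∃ x : F, x ≠ 0 ∧ x ≠ 1) :
    ∃ a b : ↥(D.group F), Subgroup.closure ({a, b} : Set ↥(D.group F)) = ⊤ := by
  classical
  haveI : Fintype F := Fintype.ofFinite F
  have R := Cfsg.Agent.Helper36.bRel_of_mem (F := F) hD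
  have hD' := hD
  simp only [List.mem_cons, List.not_mem_nil, or_false] at hD'
  by_cases h2 : ∀ t : F, t = 0 ∨ t = 1
  · -- the field with two elements
    have hno : ¬ ∃ x : F, x ≠ 0 ∧ x ≠ 1 := by
      rintro ⟨x, h0, h1⟩
      rcases h2 x with h | h
      · exact h0 h
      · exact h1 h
    rcases hD' with rfl | rfl | rfl | rfl | rfl | rfl | rfl
    · exact absurd (hF (by simp)) hno
    · exact absurd (hF (by simp)) hno
    · obtain ⟨⟨-, hr, hr₂, -, -⟩, -, -⟩ := d4U_tab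
      obtain ⟨⟨hu, hu₂, -⟩, ⟨hcl, e1, hcl', e2, e3, e4⟩, hreach1, hreach2⟩ := d4U_split_tab
      exact two_gen_F2_sq h2 R d4UL_valid hr hr₂ hu hu₂ hcl (Or.inl rfl) e1 hreach1 hcl' (Or.inl rfl)
        e2 e3 e4 hreach2 d4UMain_ok
    · obtain ⟨⟨-, hr, hr₂, -, -⟩, -, -⟩ := f4U_tab
      obtain ⟨⟨hk1, hk2, hu⟩, ⟨hcl, e1, e2, e3, e4, e5⟩, hreach⟩ := f4U_split_tab
      exact two_gen_F2_split h2 R f4UL_valid hr hr₂ hu hk1 hk2 hcl (Or.inl rfl) e1 e2 e3 e4 e5 hreach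
        f4UMain_ok
    · obtain ⟨⟨-, hr, -, -, -⟩, -, -⟩ := e6U_tab
      exact two_gen_F2_one h2 R e6UL_valid hr e6UMain_ok
    · obtain ⟨⟨-, hr, -, -, -⟩, -, -⟩ := e7U_tab
      exact two_gen_F2_one h2 R e7UL_valid hr e7UMain_ok
    · obtain ⟨⟨-, hr, -, -, -⟩, -, -⟩ := e8U_tab
      exact two_gen_F2_one h2 R e8UL_valid hr e8UMain_ok
  · -- a generator of the multiplicative group
    push_neg at h2
    obtain ⟨x, hx0, hx1⟩ := h2
    obtain ⟨u, hu⟩ := IsCyclic.exists_generator (α := Fˣ)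
    have hC0 : (u : F) ≠ 0 := Units.ne_zero u
    have hC1 : (u : F) ≠ 1 := by
      intro h
      have hu1 : u = 1 := Units.ext (by rw [h, Units.val_one])
      have hx := hu (Units.mk0 x hx0)
      rw [hu1, Subgroup.zpowers_one_eq_bot, Subgroup.mem_bot] at hx
      apply hx1
      have := congrArg (fun y : Fˣ => (y : F)) hx
      simpa using this
    have hgen : ∀ t : F, t ≠ 0 → ∃ j : ℕ, t = (u : F) ^ j := by
      intro t ht
      have hmem := hu (Units.mk0 t ht)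
      rw [← mem_powers_iff_mem_zpowers, Submonoid.mem_powers_iff] at hmem
      obtain ⟨j, hj⟩ := hmem
      refine ⟨j, ?_⟩
      have := congrArg (fun y : Fˣ => (y : F)) hj
      simp only [Units.val_pow_eq_pow_val, Units.val_mk0] at this
      exact this.symm
    rcases hD' with rfl | rfl | rfl | rfl | rfl | rfl | rfl
    · obtain ⟨⟨hi, hr, hr₂, hs', hs''⟩, ⟨hw', hw''⟩, hc1, hc2, hc3, hc4⟩ := g2U_tab
      exact two_gen_T hD R g2UL_valid hi hr hr₂ hs' hs'' hw' hw'' hc1 (Or.inl rfl) hc2 (Or.inr rfl) hc3 hc4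
        hC0 hC1 hgen (span_neg_one hgen) g2UMain_ok (by intro s hs; simpa using hs)
    · obtain ⟨⟨hi, hr, hr₂, hs', hs''⟩, ⟨hw', hw''⟩, hc1, hc2, hc3, hc4⟩ := b2U_tab
      exact two_gen_T hD R b2UL_valid hi hr hr₂ hs' hs'' hw' hw'' hc1 (Or.inl rfl) hc2 (Or.inl rfl) hc3 hc4
        hC0 hC1 hgen (span_two hgen) b2UMain_ok (by intro s hs; simpa using hs)
    · obtain ⟨⟨hi, hr, hr₂, hs', hs''⟩, ⟨hw', hw''⟩, hc1, hc2, hc3, hc4⟩ := d4U_tab
      exact two_gen_T hD R d4UL_valid hi hr hr₂ hs' hs'' hw' hw'' hc1 (Or.inr rfl) hc2 (Or.inl rfl) hc3 hc4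
        hC0 hC1 hgen (span_neg_one hgen) d4UMain_ok (by intro s hs; simpa using hs)
    · obtain ⟨⟨hi, hr, hr₂, hs', hs''⟩, ⟨hw', hw''⟩, hc1, hc2, hc3, hc4⟩ := f4U_tab
      exact two_gen_T hD R f4UL_valid hi hr hr₂ hs' hs'' hw' hw'' hc1 (Or.inl rfl) hc2 (Or.inr rfl) hc3 hc4
        hC0 hC1 hgen (span_neg_one hgen) f4UMain_ok (by intro s hs; simpa using hs)
    · obtain ⟨⟨hi, hr, hr₂, hs', hs''⟩, ⟨hw', hw''⟩, hc1, hc2, hc3, hc4⟩ := e6U_tab
      exact two_gen_T hD R e6UL_valid hi hr hr₂ hs' hs'' hw' hw'' hc1 (Or.inr rfl) hc2 (Or.inl rfl) hc3 hc4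
        hC0 hC1 hgen (span_neg_one hgen) e6UMain_ok (by intro s hs; left; simpa using hs)
    · obtain ⟨⟨hi, hr, hr₂, hs', hs''⟩, ⟨hw', hw''⟩, hc1, hc2, hc3, hc4⟩ := e7U_tab
      exact two_gen_T hD R e7UL_valid hi hr hr₂ hs' hs'' hw' hw'' hc1 (Or.inr rfl) hc2 (Or.inl rfl) hc3 hc4
        hC0 hC1 hgen (span_neg_one hgen) e7UMain_ok (by intro s hs; left; simpa using hs)
    · obtain ⟨⟨hi, hr, hr₂, hs', hs''⟩, ⟨hw', hw''⟩, hc1, hc2, hc3, hc4⟩ := e8U_tab
      exact two_gen_T hD R e8UL_valid hi hr hr₂ hs' hs'' hw' hw'' hc1 (Or.inr rfl) hc2 (Or.inl rfl) hc3 hc4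
        hC0 hC1 hgen (span_neg_one hgen) e8UMain_ok (by intro s hs; left; simpa using hs)

end Cfsg.Agent.S2405
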