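import Cfsg.Statements.S2406
import Cfsg.Agent.Helper17.TwoGenE6
import Cfsg.Agent.Helper17.TwField
import Cfsg.Agent.Helper61.Trace2

set_option autoImplicit false
open Cfsg

namespace Cfsg.Agent.S2406

/-- The twisted group ²E₆(q) (realised inside E₆ over the field with `q²` elements) is generated by two of its elements. -/
theorem result {K : Type*} [Field K] [Fintype K] {q : ℕ} (hq : IsPrimePow q) (hK : Fintype.card K = q ^ 2) :
    ∃ a b : ↥(Cfsg.Lie.twistedE6 K q), Subgroup.closure ({a, b} : Set ↥(Cfsg.Lie.twistedE6 K q)) = ⊤ := by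
  classical
  obtain ⟨φ, hφ⟩ := Cfsg.Agent.Helper17.exists_frob hq (by norm_num) hK
  have R := Cfsg.Agent.Helper36.bRel_of_mem (F := K) Cfsg.Agent.Helper17.hD_E6
  have hq1 : 1 < q := hq.one_lt
  have h2 : ∀ t, φ (φ t) = t := by
    intro t
    rw [hφ, hφ, ← pow_mul]
    have e : q * q = Fintype.card K := by rw [hK]; ring
    rw [e, FiniteField.pow_card]
  -- a generator of the multiplicative group
  obtain ⟨u, hu⟩ := IsCyclic.exists_generator (α := Kˣ)
  have hcard : 2 < Fintype.card K := by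
    rw [hK]
    nlinarith
  have hu1 : u ≠ 1 := by
    intro h
    have hall : ∀ x : Kˣ, x = 1 := by
      intro x
      have hx := hu x
      rw [h, Subgroup.zpowers_one_eq_bot, Subgroup.mem_bot] at hx
      exact hx
    have hc1 : Fintype.card Kˣ ≤ 1 := Fintype.card_le_one_iff.mpr fun a b => by rw [hall a, hall b]
    rw [Fintype.card_units] at hc1
    omega
  have hgen : ∀ t : K, t ≠ 0 → ∃ i : ℕ, t = (((u⁻¹ : Kˣ) : K))⁻¹ ^ i := by
    intro t ht
    have hmem := hu (Units.mk0 t ht)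
    rw [← mem_powers_iff_mem_zpowers, Submonoid.mem_powers_iff] at hmem
    obtain ⟨i, hi⟩ := hmem
    refine ⟨i, ?_⟩
    have := congrArg (fun x : Kˣ => (x : K)) hi
    simp only [Units.val_pow_eq_pow_val, Units.val_mk0] at this
    rw [Units.val_inv_eq_inv_val, inv_inv]
    exact this.symm
  rw [Cfsg.Agent.Helper17.twistedE6_eq q φ hφ R.xadd]
  refine Cfsg.Agent.Helper17.e6_two_gen R φ h2 (C := ((u⁻¹ : Kˣ) : K)) (Units.ne_zero _) ?_ hgen ?_
  · intro h
    apply hu1
    have h' : (u⁻¹ : Kˣ) = 1 := Units.ext (by rw [h, Units.val_one])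
    exact inv_eq_one.mp h'
  · intro s hs
    rw [hφ] at hs
    obtain ⟨t, ht⟩ := Cfsg.Agent.Helper61.exists_trace2 hq1 hK s hs
    refine ⟨t, ?_⟩
    rw [hφ]
    exact ht

end Cfsg.Agent.S2406
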