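import Cfsg.Statements.S2407
import Cfsg.Agent.Helper17.TwoGenD4
import Cfsg.Agent.Helper17.TwField
import Cfsg.Agent.Helper61.TorusParams
import Cfsg.Agent.Helper61.Trace3

set_option autoImplicit false
open Cfsg

namespace Cfsg.Agent.S2407

/-- The twisted group ³D₄(q) (realised inside D₄ over the field with `q³` elements) is generated by two of its elements. -/
theorem result {K : Type*} [Field K] [Fintype K] {q : ℕ} (hq : IsPrimePow q) (hK : Fintype.card K = q ^ 3) :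
    ∃ a b : ↥(Cfsg.Lie.twistedD4 K q), Subgroup.closure ({a, b} : Set ↥(Cfsg.Lie.twistedD4 K q)) = ⊤ := by
  obtain ⟨φ, hφ⟩ := Cfsg.Agent.Helper17.exists_frob hq (by norm_num) hK
  have R := Cfsg.Agent.Helper36.bRel_of_mem (F := K) Cfsg.Agent.Helper17.hD_D4
  have hq1 : 1 < q := hq.one_lt
  have h3 : ∀ t, φ (φ (φ t)) = t := by
    intro t
    rw [hφ, hφ, hφ, ← pow_mul, ← pow_mul]
    have e : q * (q * q) = Fintype.card K := by rw [hK]; ring
    rw [e, FiniteField.pow_card]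
  obtain ⟨A, B, hA, hB, hBf, hv, hgen⟩ := Cfsg.Agent.Helper61.exists_torus_params hq1 hK
  rw [Cfsg.Agent.Helper17.twistedD4_eq q φ hφ R.xadd]
  refine Cfsg.Agent.Helper17.d4_two_gen R φ h3 hA hB (by rw [hφ]; exact hBf) (by rw [hφ]; exact hv) hgen ?_
  intro s hs
  rw [hφ] at hs
  obtain ⟨t, ht⟩ := Cfsg.Agent.Helper61.exists_trace3 hq1 hK s hs
  refine ⟨t, ?_⟩
  have e : φ (φ t) = t ^ (q ^ 2) := by rw [hφ, hφ, ← pow_mul, sq]
  rw [e, hφ]
  exact ht

end Cfsg.Agent.S2407
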