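import Cfsg.Statements.S2408
import Cfsg.Agent.Helper17.TwoGenF4

set_option autoImplicit false
open Cfsg

namespace Cfsg.Agent.S2408

/-- The large Ree group ²F₄(2^(2m+1)) with `m ≥ 1` is generated by two of its elements. -/
theorem result {K : Type*} [Field K] [Fintype K] {m : ℕ} (hm : 1 ≤ m) (hK : Fintype.card K = 2 ^ (2 * m + 1)) :
    ∃ a b : ↥(Cfsg.Lie.twistedF4 K (2 ^ m)), Subgroup.closure ({a, b} : Set ↥(Cfsg.Lie.twistedF4 K (2 ^ m))) = ⊤ := by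
  haveI : CharP K 2 := Cfsg.Agent.Helper36.tf_charP hK
  have hX := Cfsg.Agent.Helper36.xAdd_of_mem (F := K) Cfsg.Agent.Helper36.f4_mem
  obtain ⟨z, w, g, hz, hw, hg, hv, hg0, hg1, hord, hordω⟩ := Cfsg.Agent.Helper17.tfg_exists hK hm
  have hTz : Cfsg.Agent.Helper36.tfT K m z ≠ 0 := (map_ne_zero _).mpr hz
  have ha : (Cfsg.Agent.Helper36.hGL hX 33 (Cfsg.Agent.Helper36.tfT K m z) *
        Cfsg.Agent.Helper36.hGL hX 24 z) *
      (Cfsg.Agent.Helper36.hGL hX 27 (Cfsg.Agent.Helper36.tfT K m w) *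
        Cfsg.Agent.Helper36.hGL hX 25 w) ∈ Cfsg.Lie.twistedF4 K (2 ^ m) :=
    mul_mem (Cfsg.Agent.Helper36.tfT1_mem hX m z) (Cfsg.Agent.Helper36.tfT2_mem hK hX hw)
  have hb : Cfsg.Agent.Helper36.tfP hX m 14 23 1 * Cfsg.Agent.Helper36.tfB hX m 27 25 28 30 1 0 *
      Cfsg.Agent.Helper36.tfNW K Cfsg.Agent.Helper17.tfgL0 ∈ Cfsg.Lie.twistedF4 K (2 ^ m) :=
    mul_mem (mul_mem (Cfsg.Agent.Helper36.tfP_mem_neg hX m 1) (Cfsg.Agent.Helper36.tfB_mem_pos hX m 1 0))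
      (Cfsg.Agent.Helper36.tfNW_blocks_mem m _)
  exact ⟨⟨_, ha⟩, ⟨_, hb⟩, Cfsg.Agent.Helper17.closure_pair_subtype_top _ _ _ ha hb
    (Cfsg.Agent.Helper17.tfg_closure hK hX hz hw hg hv hg0 hg1 hord hordω)⟩

end Cfsg.Agent.S2408
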