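import Cfsg.Statements.S2409
import Cfsg.Agent.Helper17.TwoGenRee
import Cfsg.Agent.Helper39.ReeOrd

set_option autoImplicit false
open Cfsg

namespace Cfsg.Agent.S2409

/-- The small Ree group ²G₂(3^(2m+1)) with `m ≥ 1` is generated by two of its elements. -/
theorem result {K : Type*} [Field K] [Fintype K] {m : ℕ} (hm : 1 ≤ m) (hK : Fintype.card K = 3 ^ (2 * m + 1)) :
    ∃ a b : ↥(Cfsg.Lie.twistedG2 K (3 ^ m)), Subgroup.closure ({a, b} : Set ↥(Cfsg.Lie.twistedG2 K (3 ^ m))) = ⊤ := by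
  haveI : CharP K 3 := Cfsg.Agent.Helper36.ree_charP hK
  obtain ⟨σ, hσ⟩ := Cfsg.Agent.Helper36.exists_reeSig hK
  obtain ⟨z, hz, hz1, hz3, ho1, ho2, ho3⟩ := Cfsg.Agent.Helper39.exists_ree_gen hm hK
  refine Cfsg.Agent.Helper17.ree_two_gen hK hσ hz hz1 hz3 ho1 ?_ ?_ ?_
  · rw [Cfsg.Agent.Helper36.frL_apply]
    exact ho2
  · rw [Cfsg.Agent.Helper36.frL_apply]
    exact ho3
  · intro w hw hw1
    rw [Cfsg.Agent.Helper36.frL_apply]
    exact Cfsg.Agent.Helper39.ree_lam_ne_one hK hw hw1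

end Cfsg.Agent.S2409
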