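import Cfsg.Statements.S2410
import Cfsg.Agent.Helper60.SzOvoid2

set_option autoImplicit false
open Cfsg

namespace Cfsg.Agent.S2410

open Cfsg.Agent.Helper6 Cfsg.Agent.Helper60 in
theorem result {F : Type*} [Field F] [Fintype F] {m : ℕ} (hm : 1 ≤ m) (hF : Fintype.card F = 2 ^ (2 * m + 1)) :
    ∃ a b : ↥(Cfsg.Sz F m), Subgroup.closure ({a, b} : Set ↥(Cfsg.Sz F m)) = ⊤ := by
  have := sz_charP hF
  have h2 : (2 : F) = 0 := sz_two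
  obtain ⟨t₀, ht₀⟩ := IsCyclic.exists_generator (α := Fˣ)
  refine ⟨dG hF t₀, tG hF 1 0 * wG hF, ?_⟩
  set H := Subgroup.closure ({dG hF t₀, tG hF 1 0 * wG hF} : Set ↥(Cfsg.Sz F m)) with hH
  have ha : dG hF t₀ ∈ H := Subgroup.subset_closure (by simp)
  have hb : tG hF 1 0 * wG hF ∈ H := Subgroup.subset_closure (by simp)
  have hD : ∀ t : Fˣ, dG hF t ∈ H := by
    intro t
    obtain ⟨k, rfl⟩ := Subgroup.mem_zpowers_iff.1 (ht₀ t)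
    rw [dG_zpow]
    exact zpow_mem ha k
  have ht1 : t₀⁻¹ ≠ 1 := by
    obtain ⟨t, ht⟩ := sz_exists_unit_ne_one hm hF
    intro h
    have h' : t₀ = 1 := inv_eq_one.1 h
    apply ht
    obtain ⟨k, hk⟩ := Subgroup.mem_zpowers_iff.1 (ht₀ t)
    rw [← hk, h', one_zpow]
  have hc : tG hF 1 0 * dG hF t₀⁻¹ * (tG hF 1 0)⁻¹ ∈ H := by
    have : tG hF 1 0 * dG hF t₀⁻¹ * (tG hF 1 0)⁻¹ =
        (tG hF 1 0 * wG hF) * dG hF t₀ * (tG hF 1 0 * wG hF)⁻¹ := by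
      rw [← wG_dG_wG, _root_.mul_inv_rev, wG_inv]; group
    rw [this]
    exact mul_mem (mul_mem hb ha) (inv_mem hb)
  have hu : tG hF 1 0 * dG hF t₀⁻¹ * (tG hF 1 0)⁻¹ * dG hF t₀ ∈ H := mul_mem hc ha
  have e : tG hF 1 0 * dG hF t₀⁻¹ * (tG hF 1 0)⁻¹ * dG hF t₀ =
      tG hF (1 + ((t₀⁻¹ : Fˣ) : F) ^ 2 * 1)
        (0 + szS F m ((t₀⁻¹ : Fˣ) : F) ^ 2 * ((t₀⁻¹ : Fˣ) : F) ^ 2 * (0 + szS F m 1 * 1) +
          szS F m 1 * (((t₀⁻¹ : Fˣ) : F) ^ 2 * 1)) := by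
    rw [tG_inv, mul_assoc (tG hF 1 0), dG_mul_tG, ← mul_assoc, tG_mul, mul_assoc, ← dG_mul,
      inv_mul_cancel, dG_one, mul_one]
  rw [e] at hu
  have hx : (1 : F) + ((t₀⁻¹ : Fˣ) : F) ^ 2 * 1 ≠ 0 := by
    intro h
    have h3 : (((t₀⁻¹ : Fˣ) : F) - 1) ^ 2 = 0 := by
      linear_combination h - ((t₀⁻¹ : Fˣ) : F) * h2
    have h4 : ((t₀⁻¹ : Fˣ) : F) = 1 := sub_eq_zero.1 ((pow_eq_zero_iff two_ne_zero).1 h3)
    exact ht1 (Units.ext h4)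
  have hU := Uo_le_of_D_of_T hF hD hx hu
  have hW : wG hF ∈ H := by
    have : wG hF = (tG hF 1 0)⁻¹ * (tG hF 1 0 * wG hF) := by group
    rw [this]
    exact mul_mem (inv_mem (hU (tG_mem_Uo hF 1 0))) hb
  exact eq_top_of_D_T_W hF hm hD hx hu hW

end Cfsg.Agent.S2410
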