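import Cfsg.Statements.S2412
import Cfsg.Agent.Helper65.SUGMain
import Cfsg.Agent.Helper3.SU3TwoGen
import Cfsg.Agent.Helper3.SU2Main

set_option autoImplicit false
open Cfsg

namespace Cfsg.Agent.S2412

/-- The projective special unitary group `PSU_n(q)` with `n ≥ 3`, realised over the field with `q²` elements, `(n, q) ≠ (3, 2)`, is generated by two of its elements. -/
theorem result {F : Type*} [Field F] [Fintype F] {q : ℕ} (hq : IsPrimePow q) (hF : Fintype.card F = q ^ 2) (n : ℕ) (hn : 3 ≤ n) (h32 : n = 3 → q ≠ 2) :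
    ∃ a b : Cfsg.PSU n F q, Subgroup.closure ({a, b} : Set (Cfsg.PSU n F q)) = ⊤ := by
  rcases Nat.eq_or_lt_of_le hn with h3 | h4
  · subst h3
    exact Cfsg.Agent.Helper3.SU3TwoGen.psu3_case hq hF (h32 rfl)
  · by_cases hq2 : q = 2
    · subst hq2
      exact Cfsg.Agent.Helper3.SU2Main.psu_q2_two_gen hF (by omega)
    · have hq3 : 3 ≤ q := by have := hq.two_le; omega
      exact Cfsg.Agent.Helper3.SU3TwoGen.quot_two_gen _
        (Cfsg.Agent.Helper65.sug_caseA hF hq3 (by omega))

end Cfsg.Agent.S2412
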