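import Cfsg.Statements.S2415
import Cfsg.Agent.Helper97.TMMain

set_option autoImplicit false
open Cfsg

namespace Cfsg.Agent.S2415

/-- The simple orthogonal group `PΩ⁻_{2m}(q)` with `m ≥ 4` (commutator subgroup, modulo its centre, of the orthogonal group of `Σ_{i<m−1} x_i y_i + z₁² + a z₁z₂ + b z₂²` with the binary part anisotropic) is generated by two of its elements. -/
theorem result {F : Type*} [Field F] [Fintype F] (m : ℕ) (hm : 4 ≤ m) (a b : F)
    (hab : ∀ z₁ z₂ : F, z₁ ^ 2 + a * z₁ * z₂ + b * z₂ ^ 2 = 0 → z₁ = 0 ∧ z₂ = 0) :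
    ∃ g h : Cfsg.POmega F (Cfsg.quadFormMinus (m - 1) F a b),
      Subgroup.closure ({g, h} : Set (Cfsg.POmega F (Cfsg.quadFormMinus (m - 1) F a b))) = ⊤ :=
  Cfsg.Agent.Helper97.TM.tm_result m hm a b hab

end Cfsg.Agent.S2415
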