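import Cfsg.Statements.S2416
import Cfsg.Agent.Helper17.ChevGenN
import Cfsg.Agent.Helper18.GAut2
import Cfsg.Agent.S1025

set_option autoImplicit false
open scoped MatrixGroups
open Cfsg

namespace Cfsg.Agent.S2416

theorem cast_ne_zero_of_ringChar {K : Type*} [Field K] {p : ℕ} (hp : p.Prime) (h : ringChar K ≠ p) :
    ((p : ℤ) : K) ≠ 0 := by
  intro h0
  have h1 : ((p : ℕ) : K) = 0 := by exact_mod_cast h0
  have h2 := (ringChar.spec K p).mp h1
  rcases (Nat.dvd_prime hp).mp h2 with h3 | h3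
  · exact CharP.ringChar_ne_one h3
  · exact h h3

open Cfsg.Lie Cfsg.Agent.Helper17 Cfsg.Agent.Helper36 in
/-- The root subgroups of the long fundamental roots, from those of the short ones. -/
theorem long_of_short {K : Type*} [Field K] {D : ChevalleyDatum}
    (hD : D ∈ [chevG2, chevB2, chevD4, chevF4, chevE6, chevE7, chevE8]) {η : ℕ → ℕ → ℤ} (R : NRel D K η)
    {M : Subgroup (GL D.Idx K)} (hN : D.monomialSubgroup K ≤ M)
    (hshortAll : ∀ k, k < D.rank → D.isLong (D.simple k) = false → ∀ t : K, xGL R.xadd (D.simple k) t ∈ M)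
    {c : ℤ} (hG : LongGen D c) (hc : ((c : ℤ) : K) ≠ 0)
    (k : ℕ) (hk : k < D.rank) (hlk : D.isLong (D.simple k) = true) (t : K) : xGL R.xadd (D.simple k) t ∈ M := by
  have hS := simpleConj_of_mem hD
  obtain ⟨r, s, u, L1, k1, L2, k2, L3, k3, ⟨hr, hs, hsr, hsn, hct⟩, ⟨hL1, hw1⟩, ⟨hk1, hl1⟩, ⟨hL2, hw2⟩,
    ⟨hk2, hl2⟩, ⟨hL3, hw3⟩, ⟨hk3, hl3⟩⟩ := hG
  have hXr : ∀ t : K, xGL R.xadd r t ∈ M := by
    intro t
    rw [← hw1]
    exact x_mem_of_wW R hN hL1 (R.wf.simple_lt k1 hk1) (hshortAll k1 hk1 hl1) t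
  have hXs : ∀ t : K, xGL R.xadd s t ∈ M := by
    intro t
    rw [← hw2]
    exact x_mem_of_wW R hN hL2 (R.wf.simple_lt k2 hk2) (hshortAll k2 hk2 hl2) t
  have hXu : ∀ t : K, xGL R.xadd u t ∈ M :=
    x_mem_of_clean R.xadd hct hc (fun t v => Cfsg.Agent.S1025.result D hD r s hr hs hsr hsn t v) hXr hXs
  have hXk3 : ∀ t : K, xGL R.xadd (D.simple k3) t ∈ M := by
    intro t
    exact x_mem_of_wW_rev R hN hL3 (R.wf.simple_lt k3 hk3) (by rw [hw3]; exact hXu) t
  exact x_mem_of_conjSimple R hN hk3 (hS k3 k hk3 hk (hl3.trans hlk.symm)) hXk3 t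

/-- A Chevalley group of type G₂, B₂, D₄, F₄, E₆, E₇ or E₈ over a finite field lies in (indeed equals) the subgroup generated by its monomial subgroup `N` and a single fundamental root subgroup `X_p`, where `p` is a short fundamental root if there are two root lengths (any fundamental root otherwise), provided the characteristic is not 2 for types B₂, F₄ and not 3 for type G₂ (and the field has more than two elements for B₂, G₂). -/
theorem result {K : Type*} [Field K] [Finite K] (D : Cfsg.Lie.ChevalleyDatum) (hD : D ∈ [Cfsg.Lie.chevG2, Cfsg.Lie.chevB2, Cfsg.Lie.chevD4, Cfsg.Lie.chevF4, Cfsg.Lie.chevE6, Cfsg.Lie.chevE7, Cfsg.Lie.chevE8])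
    (hK : D ∈ [Cfsg.Lie.chevB2, Cfsg.Lie.chevG2] → ∃ x : K, x ≠ 0 ∧ x ≠ 1)
    (h2 : D ∈ [Cfsg.Lie.chevB2, Cfsg.Lie.chevF4] → ringChar K ≠ 2) (h3 : D = Cfsg.Lie.chevG2 → ringChar K ≠ 3)
    (i : ℕ) (hi : i < D.rank) (hshort : D.isLong (D.simple i) = false) :
    D.group K ≤ D.monomialSubgroup K ⊔ D.rootSubgroup K (D.simple i) := by
  have R := Cfsg.Agent.Helper18.nRel_light (F := K) hD
  have hS := Cfsg.Agent.Helper17.simpleConj_of_mem hD
  have hN : D.monomialSubgroup K ≤ D.monomialSubgroup K ⊔ D.rootSubgroup K (D.simple i) := le_sup_left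
  have hXi : ∀ t : K, Cfsg.Agent.Helper36.xGL R.xadd (D.simple i) t ∈
      D.monomialSubgroup K ⊔ D.rootSubgroup K (D.simple i) :=
    fun t => Cfsg.Agent.Helper17.x_mem_of_rootSubgroup_le R.xadd le_sup_right t
  have hshortAll : ∀ k, k < D.rank → D.isLong (D.simple k) = false → ∀ t : K,
      Cfsg.Agent.Helper36.xGL R.xadd (D.simple k) t ∈ D.monomialSubgroup K ⊔ D.rootSubgroup K (D.simple i) :=
    fun k hk hlk => Cfsg.Agent.Helper17.x_mem_of_conjSimple R hN hi (hS i k hi hk (hshort.trans hlk.symm)) hXi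
  apply Cfsg.Agent.Helper17.group_le_of_simple R hN
  intro k hk
  have hD' := hD
  simp only [List.mem_cons, List.not_mem_nil, or_false] at hD'
  rcases hD' with rfl | rfl | rfl | rfl | rfl | rfl | rfl
  · cases hlk : Cfsg.Lie.chevG2.isLong (Cfsg.Lie.chevG2.simple k)
    · exact hshortAll k hk hlk
    · exact long_of_short hD R hN hshortAll Cfsg.Agent.Helper17.longGen_G2
        (cast_ne_zero_of_ringChar Nat.prime_three (h3 rfl)) k hk hlk
  · cases hlk : Cfsg.Lie.chevB2.isLong (Cfsg.Lie.chevB2.simple k)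
    · exact hshortAll k hk hlk
    · exact long_of_short hD R hN hshortAll Cfsg.Agent.Helper17.longGen_B2
        (cast_ne_zero_of_ringChar Nat.prime_two (h2 (by simp))) k hk hlk
  · exact Cfsg.Agent.Helper17.x_mem_of_conjSimple R hN hi
      (Cfsg.Agent.Helper17.allConj_of_mem (by simp) i k hi hk) hXi
  · cases hlk : Cfsg.Lie.chevF4.isLong (Cfsg.Lie.chevF4.simple k)
    · exact hshortAll k hk hlk
    · exact long_of_short hD R hN hshortAll Cfsg.Agent.Helper17.longGen_F4
        (cast_ne_zero_of_ringChar Nat.prime_two (h2 (by simp))) k hk hlk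
  · exact Cfsg.Agent.Helper17.x_mem_of_conjSimple R hN hi
      (Cfsg.Agent.Helper17.allConj_of_mem (by simp) i k hi hk) hXi
  · exact Cfsg.Agent.Helper17.x_mem_of_conjSimple R hN hi
      (Cfsg.Agent.Helper17.allConj_of_mem (by simp) i k hi hk) hXi
  · exact Cfsg.Agent.Helper17.x_mem_of_conjSimple R hN hi
      (Cfsg.Agent.Helper17.allConj_of_mem (by simp) i k hi hk) hXi

end Cfsg.Agent.S2416
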