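import Cfsg.Statements.S2419
import Cfsg.Agent.Helper40.CoxeterGen

set_option autoImplicit false
open Cfsg

namespace Cfsg.Agent.S2419

open Cfsg.Agent.Helper40

theorem gen_one {n : ℕ} (M : CoxeterMatrix (Fin n)) (t : Fin n)
    (h : ∀ H : Subgroup M.Group, ((List.finRange n).map M.simple).prod ∈ H → M.simple t ∈ H →
      ∀ i, M.simple i ∈ H) :
    ∃ T : Finset M.Group, T.card = 1 ∧ (∀ t ∈ T, ∃ (g : M.Group) (i : Fin n), t = g * M.simple i * g⁻¹) ∧
      Subgroup.closure (({((List.finRange n).map M.simple).prod} : Set M.Group) ∪ ↑T) = ⊤ := by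
  classical
  refine ⟨{M.simple t}, Finset.card_singleton _, ?_, ?_⟩
  · intro x hx
    rw [Finset.mem_singleton] at hx
    exact ⟨1, t, by rw [hx, one_mul, inv_one, mul_one]⟩
  · apply cox_closure_eq_top M
    apply h
    · exact Subgroup.subset_closure (Or.inl rfl)
    · exact Subgroup.subset_closure (Or.inr (by simp))

theorem gen_two {n : ℕ} (M : CoxeterMatrix (Fin n)) (t1 t2 : Fin n) (hne : M.simple t1 ≠ M.simple t2)
    (h : ∀ H : Subgroup M.Group, ((List.finRange n).map M.simple).prod ∈ H → M.simple t1 ∈ H →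
      M.simple t2 ∈ H → ∀ i, M.simple i ∈ H) :
    ∃ T : Finset M.Group, T.card = 2 ∧ (∀ t ∈ T, ∃ (g : M.Group) (i : Fin n), t = g * M.simple i * g⁻¹) ∧
      Subgroup.closure (({((List.finRange n).map M.simple).prod} : Set M.Group) ∪ ↑T) = ⊤ := by
  classical
  refine ⟨{M.simple t1, M.simple t2}, Finset.card_pair hne, ?_, ?_⟩
  · intro x hx
    rw [Finset.mem_insert, Finset.mem_singleton] at hx
    rcases hx with hx | hx
    · exact ⟨1, t1, by rw [hx, one_mul, inv_one, mul_one]⟩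
    · exact ⟨1, t2, by rw [hx, one_mul, inv_one, mul_one]⟩
  · apply cox_closure_eq_top M
    apply h
    · exact Subgroup.subset_closure (Or.inl rfl)
    · exact Subgroup.subset_closure (Or.inr (by simp))
    · exact Subgroup.subset_closure (Or.inr (by simp))

theorem rank_two (M : CoxeterMatrix (Fin 2)) (H : Subgroup M.Group)
    (hc : ((List.finRange 2).map M.simple).prod ∈ H) (h0 : M.simple 0 ∈ H) : ∀ i, M.simple i ∈ H := by
  have hfin : List.finRange 2 = [0, 1] := by decide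
  rw [hfin] at hc
  have h1 : M.simple 1 ∈ H := by
    have := cox_tail_mem M H [0] [1] hc (by intro a ha; rw [List.mem_singleton] at ha; rw [ha]; exact h0)
    simpa using this
  intro i
  fin_cases i
  · exact h0
  · exact h1

theorem gen_E6 (H : Subgroup CoxeterMatrix.E₆.Group)
    (hc : ((List.finRange 6).map CoxeterMatrix.E₆.simple).prod ∈ H) (h5 : CoxeterMatrix.E₆.simple 5 ∈ H) :
    ∀ i, CoxeterMatrix.E₆.simple i ∈ H := by
  have hfin : List.finRange 6 = [0, 1, 2, 3, 4, 5] := by decide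
  rw [hfin] at hc
  have h4 : CoxeterMatrix.E₆.simple 4 ∈ H :=
    mem_of_shift_down H _ _ _ hc
      (cox_shift CoxeterMatrix.E₆ [0, 1, 2, 3] [] 4 5 (by decide) (by decide) (by decide)) h5
  have h3 : CoxeterMatrix.E₆.simple 3 ∈ H :=
    mem_of_shift_down H _ _ _ hc
      (cox_shift CoxeterMatrix.E₆ [0, 1, 2] [5] 3 4 (by decide) (by decide) (by decide)) h4
  have hd : CoxeterMatrix.E₆.simple 0 * CoxeterMatrix.E₆.simple 1 * CoxeterMatrix.E₆.simple 2 ∈ H := by
    have := cox_head_mem CoxeterMatrix.E₆ H [0, 1, 2] [3, 4, 5] hc (by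
      intro b hb
      simp only [List.mem_cons, List.not_mem_nil, or_false] at hb
      rcases hb with rfl | rfl | rfl
      exacts [h3, h4, h5])
    simpa [mul_assoc] using this
  have h02 : (CoxeterMatrix.E₆.simple 0 * CoxeterMatrix.E₆.simple 2) ^ 3 = 1 := by
    have := cox_pow CoxeterMatrix.E₆ 0 2
    rwa [show CoxeterMatrix.E₆ 0 2 = 3 by decide] at this
  obtain ⟨h0, h1, h2⟩ := head_split H _ _ _ _ (cox_sq CoxeterMatrix.E₆ 0) (cox_sq CoxeterMatrix.E₆ 1)
    (cox_sq CoxeterMatrix.E₆ 2) (cox_sq CoxeterMatrix.E₆ 3)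
    (cox_comm CoxeterMatrix.E₆ (by decide)) (cox_comm CoxeterMatrix.E₆ (by decide)) h02
    (cox_comm CoxeterMatrix.E₆ (by decide)) (cox_braid CoxeterMatrix.E₆ (by decide)) hd h3
  intro i
  fin_cases i
  exacts [h0, h1, h2, h3, h4, h5]

theorem gen_E7 (H : Subgroup CoxeterMatrix.E₇.Group)
    (hc : ((List.finRange 7).map CoxeterMatrix.E₇.simple).prod ∈ H) (h6 : CoxeterMatrix.E₇.simple 6 ∈ H) :
    ∀ i, CoxeterMatrix.E₇.simple i ∈ H := by
  have hfin : List.finRange 7 = [0, 1, 2, 3, 4, 5, 6] := by decide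
  rw [hfin] at hc
  have h5 : CoxeterMatrix.E₇.simple 5 ∈ H :=
    mem_of_shift_down H _ _ _ hc
      (cox_shift CoxeterMatrix.E₇ [0, 1, 2, 3, 4] [] 5 6 (by decide) (by decide) (by decide)) h6
  have h4 : CoxeterMatrix.E₇.simple 4 ∈ H :=
    mem_of_shift_down H _ _ _ hc
      (cox_shift CoxeterMatrix.E₇ [0, 1, 2, 3] [6] 4 5 (by decide) (by decide) (by decide)) h5
  have h3 : CoxeterMatrix.E₇.simple 3 ∈ H :=
    mem_of_shift_down H _ _ _ hc
      (cox_shift CoxeterMatrix.E₇ [0, 1, 2] [5, 6] 3 4 (by decide) (by decide) (by decide)) h4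
  have hd : CoxeterMatrix.E₇.simple 0 * CoxeterMatrix.E₇.simple 1 * CoxeterMatrix.E₇.simple 2 ∈ H := by
    have := cox_head_mem CoxeterMatrix.E₇ H [0, 1, 2] [3, 4, 5, 6] hc (by
      intro b hb
      simp only [List.mem_cons, List.not_mem_nil, or_false] at hb
      rcases hb with rfl | rfl | rfl | rfl
      exacts [h3, h4, h5, h6])
    simpa [mul_assoc] using this
  have h02 : (CoxeterMatrix.E₇.simple 0 * CoxeterMatrix.E₇.simple 2) ^ 3 = 1 := by
    have := cox_pow CoxeterMatrix.E₇ 0 2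
    rwa [show CoxeterMatrix.E₇ 0 2 = 3 by decide] at this
  obtain ⟨h0, h1, h2⟩ := head_split H _ _ _ _ (cox_sq CoxeterMatrix.E₇ 0) (cox_sq CoxeterMatrix.E₇ 1)
    (cox_sq CoxeterMatrix.E₇ 2) (cox_sq CoxeterMatrix.E₇ 3)
    (cox_comm CoxeterMatrix.E₇ (by decide)) (cox_comm CoxeterMatrix.E₇ (by decide)) h02
    (cox_comm CoxeterMatrix.E₇ (by decide)) (cox_braid CoxeterMatrix.E₇ (by decide)) hd h3
  intro i
  fin_cases i
  exacts [h0, h1, h2, h3, h4, h5, h6]

theorem gen_E8 (H : Subgroup CoxeterMatrix.E₈.Group)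
    (hc : ((List.finRange 8).map CoxeterMatrix.E₈.simple).prod ∈ H) (h7 : CoxeterMatrix.E₈.simple 7 ∈ H) :
    ∀ i, CoxeterMatrix.E₈.simple i ∈ H := by
  have hfin : List.finRange 8 = [0, 1, 2, 3, 4, 5, 6, 7] := by decide
  rw [hfin] at hc
  have h6 : CoxeterMatrix.E₈.simple 6 ∈ H :=
    mem_of_shift_down H _ _ _ hc
      (cox_shift CoxeterMatrix.E₈ [0, 1, 2, 3, 4, 5] [] 6 7 (by decide) (by decide) (by decide)) h7
  have h5 : CoxeterMatrix.E₈.simple 5 ∈ H :=
    mem_of_shift_down H _ _ _ hc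
      (cox_shift CoxeterMatrix.E₈ [0, 1, 2, 3, 4] [7] 5 6 (by decide) (by decide) (by decide)) h6
  have h4 : CoxeterMatrix.E₈.simple 4 ∈ H :=
    mem_of_shift_down H _ _ _ hc
      (cox_shift CoxeterMatrix.E₈ [0, 1, 2, 3] [6, 7] 4 5 (by decide) (by decide) (by decide)) h5
  have h3 : CoxeterMatrix.E₈.simple 3 ∈ H :=
    mem_of_shift_down H _ _ _ hc
      (cox_shift CoxeterMatrix.E₈ [0, 1, 2] [5, 6, 7] 3 4 (by decide) (by decide) (by decide)) h4
  have hd : CoxeterMatrix.E₈.simple 0 * CoxeterMatrix.E₈.simple 1 * CoxeterMatrix.E₈.simple 2 ∈ H := by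
    have := cox_head_mem CoxeterMatrix.E₈ H [0, 1, 2] [3, 4, 5, 6, 7] hc (by
      intro b hb
      simp only [List.mem_cons, List.not_mem_nil, or_false] at hb
      rcases hb with rfl | rfl | rfl | rfl | rfl
      exacts [h3, h4, h5, h6, h7])
    simpa [mul_assoc] using this
  have h02 : (CoxeterMatrix.E₈.simple 0 * CoxeterMatrix.E₈.simple 2) ^ 3 = 1 := by
    have := cox_pow CoxeterMatrix.E₈ 0 2
    rwa [show CoxeterMatrix.E₈ 0 2 = 3 by decide] at this
  obtain ⟨h0, h1, h2⟩ := head_split H _ _ _ _ (cox_sq CoxeterMatrix.E₈ 0) (cox_sq CoxeterMatrix.E₈ 1)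
    (cox_sq CoxeterMatrix.E₈ 2) (cox_sq CoxeterMatrix.E₈ 3)
    (cox_comm CoxeterMatrix.E₈ (by decide)) (cox_comm CoxeterMatrix.E₈ (by decide)) h02
    (cox_comm CoxeterMatrix.E₈ (by decide)) (cox_braid CoxeterMatrix.E₈ (by decide)) hd h3
  intro i
  fin_cases i
  exacts [h0, h1, h2, h3, h4, h5, h6, h7]

theorem gen_F4 (H : Subgroup CoxeterMatrix.F₄.Group)
    (hc : ((List.finRange 4).map CoxeterMatrix.F₄.simple).prod ∈ H) (h0 : CoxeterMatrix.F₄.simple 0 ∈ H)
    (h3 : CoxeterMatrix.F₄.simple 3 ∈ H) :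
    ∀ i, CoxeterMatrix.F₄.simple i ∈ H := by
  have hfin : List.finRange 4 = [0, 1, 2, 3] := by decide
  rw [hfin] at hc
  have h1 : CoxeterMatrix.F₄.simple 1 ∈ H :=
    mem_of_shift_up H _ _ _ hc
      (cox_shift CoxeterMatrix.F₄ [] [2, 3] 0 1 (by decide) (by decide) (by decide)) h0
  have h23 : CoxeterMatrix.F₄.simple 2 * CoxeterMatrix.F₄.simple 3 ∈ H := by
    have := cox_tail_mem CoxeterMatrix.F₄ H [0, 1] [2, 3] hc (by
      intro b hb
      simp only [List.mem_cons, List.not_mem_nil, or_false] at hb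
      rcases hb with rfl | rfl
      exacts [h0, h1])
    simpa using this
  have h2 : CoxeterMatrix.F₄.simple 2 ∈ H := by
    have : CoxeterMatrix.F₄.simple 2 =
        CoxeterMatrix.F₄.simple 2 * CoxeterMatrix.F₄.simple 3 * (CoxeterMatrix.F₄.simple 3)⁻¹ := by
      rw [mul_inv_cancel_right]
    rw [this]
    exact H.mul_mem h23 (H.inv_mem h3)
  intro i
  fin_cases i
  exacts [h0, h1, h2, h3]

theorem gen_D4 (H : Subgroup Cfsg.Lie.coxeterD4.Group)
    (hc : ((List.finRange 4).map Cfsg.Lie.coxeterD4.simple).prod ∈ H) (h2 : Cfsg.Lie.coxeterD4.simple 2 ∈ H)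
    (h3 : Cfsg.Lie.coxeterD4.simple 3 ∈ H) :
    ∀ i, Cfsg.Lie.coxeterD4.simple i ∈ H := by
  have hfin : List.finRange 4 = [0, 1, 2, 3] := by decide
  rw [hfin] at hc
  have h01 : Cfsg.Lie.coxeterD4.simple 0 * Cfsg.Lie.coxeterD4.simple 1 ∈ H := by
    have := cox_head_mem Cfsg.Lie.coxeterD4 H [0, 1] [2, 3] hc (by
      intro b hb
      simp only [List.mem_cons, List.not_mem_nil, or_false] at hb
      rcases hb with rfl | rfl
      exacts [h2, h3])
    simpa using this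
  obtain ⟨h0, h1⟩ := pair_split H _ _ _ (cox_sq Cfsg.Lie.coxeterD4 0) (cox_sq Cfsg.Lie.coxeterD4 1)
    (cox_sq Cfsg.Lie.coxeterD4 2) (cox_comm Cfsg.Lie.coxeterD4 (by decide))
    (cox_braid Cfsg.Lie.coxeterD4 (by decide)) h01 h2
  intro i
  fin_cases i
  exacts [h0, h1, h2, h3]

theorem ne_F4 : CoxeterMatrix.F₄.simple 0 ≠ CoxeterMatrix.F₄.simple 3 := by
  have hl : CoxeterMatrix.IsLiftable CoxeterMatrix.F₄ (![1, 1, -1, -1] : Fin 4 → ℤˣ) := by
    unfold CoxeterMatrix.IsLiftable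
    decide
  intro h
  have h1 := congrArg (CoxeterMatrix.F₄.toCoxeterSystem.lift ⟨_, hl⟩) h
  rw [← CoxeterMatrix.toCoxeterSystem_simple, CoxeterSystem.lift_apply_simple,
    CoxeterSystem.lift_apply_simple] at h1
  revert h1
  decide

theorem ne_D4 : Cfsg.Lie.coxeterD4.simple 2 ≠ Cfsg.Lie.coxeterD4.simple 3 := by
  have hl : CoxeterMatrix.IsLiftable Cfsg.Lie.coxeterD4
      (![Equiv.swap 2 3, Equiv.swap 1 2, Equiv.swap 2 3, Equiv.swap 0 1] : Fin 4 → Equiv.Perm (Fin 4)) := by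
    unfold CoxeterMatrix.IsLiftable
    decide
  intro h
  have h1 := congrArg (Cfsg.Lie.coxeterD4.toCoxeterSystem.lift ⟨_, hl⟩) h
  rw [← CoxeterMatrix.toCoxeterSystem_simple, CoxeterSystem.lift_apply_simple,
    CoxeterSystem.lift_apply_simple] at h1
  revert h1
  decide

/-- The Coxeter groups of types B₂, G₂, E₆, E₇, E₈ are generated by the Coxeter element `s₁ s₂ ⋯ s_l` together with one suitable reflection (a conjugate of a simple reflection); for types D₄ and F₄ the Coxeter element together with two suitable reflections suffices. -/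
theorem result (c : (Σ n : ℕ, CoxeterMatrix (Fin n)) × ℕ)
    (hc : c ∈ [(⟨2, CoxeterMatrix.B 2⟩, 1), (⟨2, CoxeterMatrix.G₂⟩, 1), (⟨4, Cfsg.Lie.coxeterD4⟩, 2), (⟨4, CoxeterMatrix.F₄⟩, 2),
      (⟨6, CoxeterMatrix.E₆⟩, 1), (⟨7, CoxeterMatrix.E₇⟩, 1), (⟨8, CoxeterMatrix.E₈⟩, 1)]) :
    ∃ T : Finset c.1.2.Group, T.card = c.2 ∧ (∀ t ∈ T, ∃ (g : c.1.2.Group) (i : Fin c.1.1), t = g * c.1.2.simple i * g⁻¹) ∧
      Subgroup.closure (({((List.finRange c.1.1).map c.1.2.simple).prod} : Set c.1.2.Group) ∪ ↑T) = ⊤ := by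
  simp only [List.mem_cons, List.not_mem_nil, or_false] at hc
  rcases hc with rfl | rfl | rfl | rfl | rfl | rfl | rfl
  · exact gen_one (CoxeterMatrix.B 2) 0 (fun H hc h0 => rank_two _ H hc h0)
  · exact gen_one CoxeterMatrix.G₂ 0 (fun H hc h0 => rank_two _ H hc h0)
  · exact gen_two Cfsg.Lie.coxeterD4 2 3 ne_D4 gen_D4
  · exact gen_two CoxeterMatrix.F₄ 0 3 ne_F4 gen_F4
  · exact gen_one CoxeterMatrix.E₆ 5 gen_E6
  · exact gen_one CoxeterMatrix.E₇ 6 gen_E7
  · exact gen_one CoxeterMatrix.E₈ 7 gen_E8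

end Cfsg.Agent.S2419
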