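import Cfsg.Statements.S2425
import Cfsg.Agent.Helper40.StGLMain
import Cfsg.Agent.Helper51.AdaptedGL

set_option autoImplicit false
open scoped MatrixGroups
open Cfsg

namespace Cfsg.Agent.S2425

/-- Values of the Steinberg character of `GL_n(q)` (the partition-indexed character for `ν = (1,…,1)`, of degree `q^(n(n−1)/2)`) at elements of order prime to the characteristic: if the characteristic polynomial of such an element is `∏ f^(m_f)` over distinct monic irreducible `f`, the value is `∏_f (−1)^((deg f − 1) m_f) q^(deg f · m_f (m_f − 1)/2)`. (At elements of order divisible by the characteristic the value is 0; that is not part of this statement.) -/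
theorem result {F : Type*} [Field F] [Fintype F] [DecidableEq F] {q : ℕ} (hq : Fintype.card F = q) (p : ℕ) [Fact p.Prime] [CharP F p]
    {n : ℕ} (x : GL (Fin n) F) (hx : (orderOf x).Coprime p) :
    Cfsg.unipotentCharacterGL n F (fun _ => 1) x =
      ∏ f ∈ (UniqueFactorizationMonoid.normalizedFactors (x : Matrix (Fin n) (Fin n) F).charpoly).toFinset,
        (-1 : ℂ) ^ ((f.natDegree - 1) * (UniqueFactorizationMonoid.normalizedFactors (x : Matrix (Fin n) (Fin n) F).charpoly).count f) *
          (q : ℂ) ^ (f.natDegree * (UniqueFactorizationMonoid.normalizedFactors (x : Matrix (Fin n) (Fin n) F).charpoly).count f *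
            ((UniqueFactorizationMonoid.normalizedFactors (x : Matrix (Fin n) (Fin n) F).charpoly).count f - 1) / 2) := by
  exact Cfsg.Agent.Helper40.StGL.steinberg_value_of_adapted
    (fun K _ m W hW => Cfsg.Agent.Helper51.exists_adapted_gl W hW) hq p x hx

end Cfsg.Agent.S2425
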