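import Cfsg.Statements.S2426
-- import your own Cfsg.Agent.* helpers here
import Cfsg.Agent.Helper83.Steinberg

set_option autoImplicit false
open Cfsg

namespace Cfsg.Agent.S2426

/-- The rank-one Steinberg presentation of `SL₂` over a finite field `K`: generators `x(t)`, `y(t)` (`t ∈ K`; the two opposite root subgroups) subject to additivity `x(t)x(u) = x(t+u)`, `y(t)y(u) = y(t+u)` and, with `w(t) = x(t) y(−t⁻¹) x(t)` and `w'(t) = y(t) x(−t⁻¹) y(t)` for `t ≠ 0`, the relations `w(t) x(u) w(t)⁻¹ = y(−t⁻² u)` and `w'(t) y(u) w'(t)⁻¹ = x(−t⁻² u)`, present `SL₂(K)`, with `x(t) ↦ (1 t; 0 1)` and `y(t) ↦ (1 0; t 1)`. -/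
theorem result {K : Type*} [Field K] [Finite K] :
    ∃ e : PresentedGroup
        ({g : FreeGroup (Bool × K) | ∃ (b : Bool) (t u : K), g = FreeGroup.of (b, t) * FreeGroup.of (b, u) * (FreeGroup.of (b, t + u))⁻¹} ∪
          {g | ∃ (b : Bool) (t u : K), t ≠ 0 ∧
            g = (FreeGroup.of (b, t) * FreeGroup.of (!b, -t⁻¹) * FreeGroup.of (b, t)) * FreeGroup.of (b, u) *
                  (FreeGroup.of (b, t) * FreeGroup.of (!b, -t⁻¹) * FreeGroup.of (b, t))⁻¹ * (FreeGroup.of (!b, -(t⁻¹ ^ 2 * u)))⁻¹})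
        ≃* Matrix.SpecialLinearGroup (Fin 2) K,
      (∀ t : K, ((e (PresentedGroup.of (true, t)) : Matrix (Fin 2) (Fin 2) K)) = !![1, t; 0, 1]) ∧
      (∀ t : K, ((e (PresentedGroup.of (false, t)) : Matrix (Fin 2) (Fin 2) K)) = !![1, 0; t, 1]) := by
  have key : ∃ e : PresentedGroup (Cfsg.Agent.Helper83.stRels K) ≃*
        Matrix.SpecialLinearGroup (Fin 2) K,
      (∀ t : K, ((e (PresentedGroup.of (true, t)) : Matrix (Fin 2) (Fin 2) K)) = !![1, t; 0, 1]) ∧
      (∀ t : K, ((e (PresentedGroup.of (false, t)) : Matrix (Fin 2) (Fin 2) K)) = !![1, 0; t, 1]) := by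
    obtain ⟨e, eX, eY⟩ := Cfsg.Agent.Helper83.st_presentation (K := K)
    exact ⟨e, fun t => by rw [eX t]; rfl, fun t => by rw [eY t]; rfl⟩
  exact key

end Cfsg.Agent.S2426
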