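import Cfsg.Statements.S2427
import Cfsg.Agent.S0257
import Cfsg.Agent.Helper5.PAct
import Cfsg.Agent.Helper5.OmegaIso

set_option autoImplicit false
open Cfsg

namespace Cfsg.Agent.S2427

open Cfsg.Agent.Helper5 Matrix
open scoped commutatorElement

local notation "G3" => Matrix.SpecialLinearGroup (Fin 2) (ZMod 3)

theorem central_of_comm (g : G3) (hu : uSL (1 : ZMod 3) * g = g * uSL 1)
    (hl : lSL (1 : ZMod 3) * g = g * lSL 1) : g ∈ Subgroup.center G3 := by
  have htop : Subgroup.centralizer ({g} : Set G3) = ⊤ := by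
    apply eq_top_of_uSL_lSL_mem
    · intro c
      have hc : uSL c = uSL (1 : ZMod 3) ^ c.val := by
        rw [uSL_pow', mul_one, ZMod.natCast_zmod_val]
      rw [hc]
      apply pow_mem
      rw [Subgroup.mem_centralizer_iff]
      intro h hh
      rw [Set.mem_singleton_iff] at hh
      rw [hh]; exact hu.symm
    · intro c
      have hc : lSL c = lSL (1 : ZMod 3) ^ c.val := by
        rw [lSL_pow', mul_one, ZMod.natCast_zmod_val]
      rw [hc]
      apply pow_mem
      rw [Subgroup.mem_centralizer_iff]
      intro h hh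
      rw [Set.mem_singleton_iff] at hh
      rw [hh]; exact hl.symm
  rw [Subgroup.mem_center_iff]
  intro x
  have hx : x ∈ Subgroup.centralizer ({g} : Set G3) := by rw [htop]; trivial
  rw [Subgroup.mem_centralizer_iff] at hx
  exact (hx g rfl).symm

/-- The group SL₂ over the field with 3 elements has order 24 and centre of order 2; its commutator subgroup has order 8, is isomorphic to the quaternion group of order 8 and is complemented by every Sylow 3-subgroup (so the group is a semidirect product of a quaternion group of order 8 by a cyclic group of order 3); and its only normal subgroups besides the trivial subgroup and the whole group are the centre and the commutator subgroup. -/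
theorem result :
    Nat.card (Matrix.SpecialLinearGroup (Fin 2) (ZMod 3)) = 24 ∧
    Nat.card (Subgroup.center (Matrix.SpecialLinearGroup (Fin 2) (ZMod 3))) = 2 ∧
    Nat.card (commutator (Matrix.SpecialLinearGroup (Fin 2) (ZMod 3))) = 8 ∧
    Nonempty (commutator (Matrix.SpecialLinearGroup (Fin 2) (ZMod 3)) ≃* QuaternionGroup 2) ∧
    (∀ P : Sylow 3 (Matrix.SpecialLinearGroup (Fin 2) (ZMod 3)),
      Subgroup.IsComplement' (commutator (Matrix.SpecialLinearGroup (Fin 2) (ZMod 3)))
        (P : Subgroup (Matrix.SpecialLinearGroup (Fin 2) (ZMod 3)))) ∧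
    ∀ N : Subgroup (Matrix.SpecialLinearGroup (Fin 2) (ZMod 3)), N.Normal →
      N = ⊥ ∨ N = ⊤ ∨ N = Subgroup.center (Matrix.SpecialLinearGroup (Fin 2) (ZMod 3)) ∨
        N = commutator (Matrix.SpecialLinearGroup (Fin 2) (ZMod 3)) := by
  classical
  have hF : Fintype.card (ZMod 3) = 3 := ZMod.card 3
  have h2 : (2 : ZMod 3) ≠ 0 := by decide
  have hG : Nat.card G3 = 24 := by rw [card_SL2, hF]; norm_num
  have hZ : Nat.card (Subgroup.center G3) = 2 := card_center_SL2 h2
  obtain ⟨⟨Q, hQn, hQi, ⟨eQ⟩⟩, -⟩ := Cfsg.Agent.S0257.result hF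
  have hQc : Nat.card Q = 8 := by
    have := Subgroup.card_mul_index Q
    rw [hQi, hG] at this
    omega
  have hle : commutator G3 ≤ Q := commutator_le_of_normal_index_le_four Q (by rw [hQi]; norm_num)
  -- two commutators
  obtain ⟨c₁, hc₁⟩ : ∃ c₁ : G3, c₁ = ⁅uSL (1 : ZMod 3), lSL 1⁆ := ⟨_, rfl⟩
  obtain ⟨c₂, hc₂⟩ : ∃ c₂ : G3, c₂ = uSL (1 : ZMod 3) * c₁ * (uSL (1 : ZMod 3))⁻¹ := ⟨_, rfl⟩
  have hc₁m : c₁ ∈ commutator G3 := by
    rw [hc₁, commutator_def]
    exact Subgroup.commutator_mem_commutator (Subgroup.mem_top _) (Subgroup.mem_top _)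
  have hc₂m : c₂ ∈ commutator G3 := by
    rw [hc₂]
    exact (inferInstance : (commutator G3).Normal).conj_mem c₁ hc₁m _
  have ho : orderOf c₁ = 2 ^ (1 + 1) := by
    apply orderOf_eq_prime_pow
    · rw [hc₁]; decide
    · rw [hc₁]; decide
  have hc₂z : c₂ ∉ Subgroup.zpowers c₁ := by
    intro h
    have hfin : IsOfFinOrder c₁ := isOfFinOrder_iff_pow_eq_one.2 ⟨4, by norm_num, by
      rw [hc₁]; decide⟩
    rw [← hfin.mem_powers_iff_mem_zpowers, Submonoid.mem_powers_iff] at h
    obtain ⟨n, hn⟩ := h
    rw [← pow_mod_orderOf, ho] at hn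
    have hlt : n % 2 ^ (1 + 1) < 4 := Nat.mod_lt _ (by norm_num)
    revert hn
    rw [hc₂, hc₁]
    interval_cases (n % 2 ^ (1 + 1)) <;> decide
  have hfinG : Finite G3 := Nat.finite_of_card_ne_zero (by rw [hG]; norm_num)
  have hcomm8 : Nat.card (commutator G3) = 8 := by
    have h1 : Nat.card (commutator G3) ∣ 8 := by
      rw [← hQc]; exact Subgroup.card_dvd_of_le hle
    have h4 : 4 ∣ Nat.card (commutator G3) := by
      have : orderOf (⟨c₁, hc₁m⟩ : commutator G3) ∣ Nat.card (commutator G3) :=
        orderOf_dvd_natCard _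
      rw [Subgroup.orderOf_mk, ho] at this
      exact this
    have hne : Nat.card (commutator G3) ≠ 4 := by
      intro h
      apply hc₂z
      have hle' : Subgroup.zpowers c₁ ≤ commutator G3 := by
        rw [Subgroup.zpowers_le]; exact hc₁m
      have hcard : Nat.card (commutator G3) ≤ Nat.card (Subgroup.zpowers c₁) := by
        rw [Nat.card_zpowers, ho, h]; norm_num
      rw [Subgroup.eq_of_le_of_card_ge hle' hcard]
      exact hc₂m
    have hle8 : Nat.card (commutator G3) ≤ 8 := Nat.le_of_dvd (by norm_num) h1
    rcases div8_cases _ hle8 h1 with h | h | h | h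
    · rw [h] at h4; omega
    · rw [h] at h4; omega
    · exact absurd h hne
    · exact h
  have hcQ : commutator G3 = Q := Subgroup.eq_of_le_of_card_ge hle (by rw [hQc, hcomm8])
  refine ⟨hG, hZ, hcomm8, ?_, ?_, ?_⟩
  · rw [hcQ]; exact ⟨eQ⟩
  · intro P
    have hP : Nat.card P = 3 := by rw [card_sylow_SL2 3 P, hF]
    apply Subgroup.isComplement'_of_coprime
    · rw [hcomm8, hP, hG]
    · rw [hcomm8, hP]; decide
  · intro N hN
    by_cases h3 : 3 ∣ Nat.card N
    · right; left
      obtain ⟨x, hx⟩ := exists_prime_orderOf_dvd_card' (G := N) 3 h3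
      have hx' : orderOf x.1 = 3 := by rw [Subgroup.orderOf_coe]; exact hx
      have hpg : IsPGroup 3 (Subgroup.zpowers x.1) :=
        IsPGroup.of_card (n := 1) (by rw [Nat.card_zpowers, hx', pow_one])
      obtain ⟨P, hP⟩ := hpg.exists_le_sylow
      have hPc : Nat.card P = 3 := by rw [card_sylow_SL2 3 P, hF]
      have hPeq : Subgroup.zpowers x.1 = (P : Subgroup G3) :=
        Subgroup.eq_of_le_of_card_ge hP (by rw [Nat.card_zpowers, hx', hPc])
      have hPN : (P : Subgroup G3) ≤ N := by
        rw [← hPeq, Subgroup.zpowers_le]; exact x.2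
      have hall : ∀ P' : Sylow 3 G3, (P' : Subgroup G3) ≤ N := by
        intro P'
        obtain ⟨g, rfl⟩ := MulAction.exists_smul_eq G3 P P'
        rw [Sylow.coe_subgroup_smul]
        intro y hy
        rw [Subgroup.mem_smul_pointwise_iff_exists] at hy
        obtain ⟨z, hz, rfl⟩ := hy
        exact hN.conj_mem z (hPN hz) g
      have hpg2 : IsPGroup 3 (Subgroup.zpowers (lSL (1 : ZMod 3))) := by
        have ho3 : orderOf (lSL (1 : ZMod 3)) = 3 :=
          orderOf_eq_prime (by decide) (by decide)
        exact IsPGroup.of_card (n := 1) (by rw [Nat.card_zpowers, ho3, pow_one])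
      obtain ⟨P₂, hP₂⟩ := hpg2.exists_le_sylow
      have hne : sylowUSL (F := ZMod 3) 3 ≠ P₂ := by
        intro h
        have h1 : lSL (1 : ZMod 3) ∈ (P₂ : Subgroup G3) := hP₂ (Subgroup.mem_zpowers _)
        rw [← h, sylowUSL_coe, mem_USL_iff] at h1
        obtain ⟨b, hb⟩ := h1
        have := congrArg (fun g : G3 => g.1 1 0) hb
        simp [uSL_coe, lSL_coe] at this
      have htop := sylow_SL2_sup_eq_top 3 (sylowUSL (F := ZMod 3) 3) P₂ hne
      rw [eq_top_iff, ← htop]
      exact sup_le (hall _) (hall _)
    · have hN8 : Nat.card N ∣ 8 := by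
        have h1 : Nat.card N ∣ 8 * 3 := by
          have := Subgroup.card_subgroup_dvd_card N
          rwa [hG] at this
        have hcop : (Nat.card N).Coprime 3 :=
          (Nat.Prime.coprime_iff_not_dvd Nat.prime_three).2 h3 |>.symm
        exact Nat.Coprime.dvd_of_dvd_mul_right hcop h1
      have hcopN : (Nat.card N).Coprime 3 :=
        (Nat.Prime.coprime_iff_not_dvd Nat.prime_three).2 h3 |>.symm
      have hNQ : N ≤ Q := by
        intro n hn
        have h1 : (QuotientGroup.mk' Q n) ^ Nat.card N = 1 := by
          rw [← map_pow]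
          have : (⟨n, hn⟩ : N) ^ Nat.card N = 1 := pow_card_eq_one'
          have h' : n ^ Nat.card N = 1 := congrArg Subtype.val this
          rw [h', map_one]
        have h2' : (QuotientGroup.mk' Q n) ^ 3 = 1 := by
          have hq : Nat.card (G3 ⧸ Q) = 3 := hQi
          have hq2 : (QuotientGroup.mk' Q n) ^ Nat.card (G3 ⧸ Q) = 1 := pow_card_eq_one'
          rw [hq] at hq2
          exact hq2
        have h3' := eq_one_of_pow_coprime _ _ _ h1 h2' hcopN
        exact (QuotientGroup.eq_one_iff n).1 h3'
      have hcenN : (∀ n ∈ N, n * n = 1) → N ≤ Subgroup.center G3 := by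
        intro hall n hn
        rcases sl2_sq_eq_one h2 n (hall n hn) with h | h
        · rw [h]; exact one_mem _
        · rw [Subgroup.mem_center_iff]
          intro x
          apply Subtype.ext
          rw [Matrix.SpecialLinearGroup.coe_mul, Matrix.SpecialLinearGroup.coe_mul, h]
          simp
      have hle8 : Nat.card N ≤ 8 := Nat.le_of_dvd (by norm_num) hN8
      rcases div8_cases _ hle8 hN8 with h | h | h | h
      · left
        exact Subgroup.card_eq_one.1 h
      · right; right; left
        have hle2 : N ≤ Subgroup.center G3 := by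
          apply hcenN
          intro n hn
          have : (⟨n, hn⟩ : N) ^ Nat.card N = 1 := pow_card_eq_one'
          rw [h, pow_two] at this
          exact congrArg Subtype.val this
        exact Subgroup.eq_of_le_of_card_ge hle2 (by rw [hZ, h])
      · exfalso
        have hex : ∃ g ∈ N, g * g ≠ 1 := by
          by_contra hcon
          push Not at hcon
          have := Subgroup.card_le_of_le (hcenN hcon)
          rw [h, hZ] at this
          omega
        obtain ⟨g, hgN, hgg⟩ := hex
        have hg4 : g ^ 4 = 1 := by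
          have : (⟨g, hgN⟩ : N) ^ Nat.card N = 1 := pow_card_eq_one'
          rw [h] at this
          exact congrArg Subtype.val this
        have hog : orderOf g = 2 ^ (1 + 1) := by
          apply orderOf_eq_prime_pow
          · rw [pow_one, pow_two]; exact hgg
          · exact hg4
        have hNz : N = Subgroup.zpowers g := by
          symm
          apply Subgroup.eq_of_le_of_card_ge
          · rw [Subgroup.zpowers_le]; exact hgN
          · rw [Nat.card_zpowers, hog, h]; norm_num
        have hg8 : g ^ 8 = 1 := by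
          rw [show (8 : ℕ) = 4 * 2 from rfl, pow_mul, hg4, one_pow]
        have hcu : uSL (1 : ZMod 3) * g = g * uSL 1 := by
          have h1 := comm_of_conj_mem_zpowers (uSL (1 : ZMod 3)) g (by decide) hg8 (by
            rw [← hNz]; exact hN.conj_mem g hgN _)
          calc uSL (1 : ZMod 3) * g = (uSL 1 * g * (uSL 1)⁻¹) * uSL 1 := by group
            _ = g * uSL 1 := by rw [h1]
        have hcl : lSL (1 : ZMod 3) * g = g * lSL 1 := by
          have h1 := comm_of_conj_mem_zpowers (lSL (1 : ZMod 3)) g (by decide) hg8 (by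
            rw [← hNz]; exact hN.conj_mem g hgN _)
          calc lSL (1 : ZMod 3) * g = (lSL 1 * g * (lSL 1)⁻¹) * lSL 1 := by group
            _ = g * lSL 1 := by rw [h1]
        have hgc := central_of_comm g hcu hcl
        have : (⟨g, hgc⟩ : Subgroup.center G3) ^ Nat.card (Subgroup.center G3) = 1 :=
          pow_card_eq_one'
        rw [hZ, pow_two] at this
        exact hgg (congrArg Subtype.val this)
      · right; right; right
        rw [hcQ]
        exact Subgroup.eq_of_le_of_card_ge hNQ (by rw [hQc, h])

end Cfsg.Agent.S2427
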