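import Cfsg.Statements.S2428
import Cfsg.Agent.Helper40.SL2Tori

set_option autoImplicit false
open Cfsg

namespace Cfsg.Agent.S2428

/-- Let F be a finite field with q elements, q odd, and let d be a diagonal element of SL₂ over F whose diagonal entry a has a² ≠ 1 (such d exist exactly when q > 3). Then the centraliser of d is precisely the diagonal subgroup T; the normaliser of T has order 2(q − 1) and exactly (q + 5)/2 conjugacy classes; and every element of that normaliser outside T has square equal to −1. -/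
theorem result {F : Type*} [Field F] [Fintype F] (hodd : Odd (Fintype.card F))
    (d : Matrix.SpecialLinearGroup (Fin 2) F) (hd01 : (d : Matrix (Fin 2) (Fin 2) F) 0 1 = 0) (hd10 : (d : Matrix (Fin 2) (Fin 2) F) 1 0 = 0) (hda : (d : Matrix (Fin 2) (Fin 2) F) 0 0 ^ 2 ≠ 1) :
    (∀ g : Matrix.SpecialLinearGroup (Fin 2) F, g ∈ Subgroup.centralizer ({d} : Set (Matrix.SpecialLinearGroup (Fin 2) F)) ↔ ((g : Matrix (Fin 2) (Fin 2) F) 0 1 = 0 ∧ (g : Matrix (Fin 2) (Fin 2) F) 1 0 = 0)) ∧
    Nat.card (Subgroup.normalizer ((Subgroup.centralizer ({d} : Set (Matrix.SpecialLinearGroup (Fin 2) F))) : Set (Matrix.SpecialLinearGroup (Fin 2) F))) = 2 * (Fintype.card F - 1) ∧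
    Nat.card (ConjClasses (Subgroup.normalizer ((Subgroup.centralizer ({d} : Set (Matrix.SpecialLinearGroup (Fin 2) F))) : Set (Matrix.SpecialLinearGroup (Fin 2) F)))) = (Fintype.card F + 5) / 2 ∧
    ∀ g : Matrix.SpecialLinearGroup (Fin 2) F, g ∈ Subgroup.normalizer ((Subgroup.centralizer ({d} : Set (Matrix.SpecialLinearGroup (Fin 2) F))) : Set (Matrix.SpecialLinearGroup (Fin 2) F)) →
      g ∉ Subgroup.centralizer ({d} : Set (Matrix.SpecialLinearGroup (Fin 2) F)) → ((g * g) : Matrix (Fin 2) (Fin 2) F) = -1 := by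
  classical
  have h2 := Cfsg.Agent.Helper40.two_ne_zero_of_odd hodd
  have hdet := Cfsg.Agent.Helper42.SL2.det_eq d
  rw [hd01, zero_mul, sub_zero] at hdet
  have hne : (d : Matrix (Fin 2) (Fin 2) F) 0 0 - (d : Matrix (Fin 2) (Fin 2) F) 1 1 ≠ 0 := by
    intro h
    apply hda
    have : (d : Matrix (Fin 2) (Fin 2) F) 0 0 = (d : Matrix (Fin 2) (Fin 2) F) 1 1 := sub_eq_zero.mp h
    rw [sq]
    nth_rewrite 2 [this]
    exact hdet
  have hz : Cfsg.Agent.Helper42.SL2.NonScalar (d : Matrix (Fin 2) (Fin 2) F) := by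
    rintro ⟨-, -, h⟩
    exact hne (sub_eq_zero.mpr h)
  have ht : Cfsg.Agent.Helper40.tr2 d ^ 2 ≠ 4 := by
    intro h
    unfold Cfsg.Agent.Helper40.tr2 at h
    have : ((d : Matrix (Fin 2) (Fin 2) F) 0 0 - (d : Matrix (Fin 2) (Fin 2) F) 1 1) ^ 2 = 0 := by
      linear_combination h - 4 * hdet
    exact hne (pow_eq_zero_iff (two_ne_zero) |>.mp this)
  have hcardC : Nat.card (Subgroup.centralizer ({d} : Set (Matrix.SpecialLinearGroup (Fin 2) F))) =
      Fintype.card F - 1 := by
    refine (Cfsg.Agent.Helper42.SL2.card_centralizer_odd h2 d hz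
      (((d : Matrix (Fin 2) (Fin 2) F) 0 0 + (d : Matrix (Fin 2) (Fin 2) F) 1 1) / 2) ?_).2.1
      (((d : Matrix (Fin 2) (Fin 2) F) 0 0 - (d : Matrix (Fin 2) (Fin 2) F) 1 1) / 2) ?_ ?_
    · field_simp
    · exact div_ne_zero hne h2
    · field_simp
      linear_combination 4 * hdet
  obtain ⟨hN, hk⟩ := Cfsg.Agent.Helper40.card_normalizer_centralizer hodd d hz ht
  refine ⟨?_, ?_, ?_, ?_⟩
  · intro g
    rw [Cfsg.Agent.Helper40.mem_centralizer_singleton]
    constructor
    · intro H
      have e01 := congrFun (congrFun H 0) 1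
      have e10 := congrFun (congrFun H 1) 0
      simp only [Matrix.mul_apply, Fin.sum_univ_two, hd01, hd10, mul_zero, zero_mul, zero_add,
        add_zero] at e01 e10
      constructor
      · have : (g : Matrix (Fin 2) (Fin 2) F) 0 1 *
            ((d : Matrix (Fin 2) (Fin 2) F) 0 0 - (d : Matrix (Fin 2) (Fin 2) F) 1 1) = 0 := by
          linear_combination -e01
        exact (mul_eq_zero.mp this).resolve_right hne
      · have : (g : Matrix (Fin 2) (Fin 2) F) 1 0 *
            ((d : Matrix (Fin 2) (Fin 2) F) 0 0 - (d : Matrix (Fin 2) (Fin 2) F) 1 1) = 0 := by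
          linear_combination e10
        exact (mul_eq_zero.mp this).resolve_right hne
    · rintro ⟨g01, g10⟩
      apply Cfsg.Agent.Helper42.SL2.mat_ext <;>
        simp only [Matrix.mul_apply, Fin.sum_univ_two, hd01, hd10, g01, g10, mul_zero, zero_mul,
          zero_add, add_zero] <;> ring
  · rw [hN, hcardC]
  · rw [hcardC] at hk
    have hpos : 0 < Fintype.card F := Fintype.card_pos
    have hq3 : Fintype.card F ≠ 2 := by
      intro h
      rw [h] at hodd
      exact absurd hodd (by decide)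
    omega
  · intro g hg hg'
    exact Cfsg.Agent.Helper40.sq_of_mem_normalizer h2 d g hz ht hg hg'

end Cfsg.Agent.S2428
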