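import Cfsg.Statements.S2429
import Cfsg.Agent.Helper40.SL2Nonsplit

set_option autoImplicit false
open Cfsg

namespace Cfsg.Agent.S2429

/-- Let F be a finite field with q elements, q odd. Then SL₂ over F contains a cyclic subgroup T′ of order q + 1 (a non-split torus) with the following properties: T′ is its own centraliser, and indeed the centraliser of each element of T′ other than 1 and −1 is exactly T′; every element of SL₂ having no eigenvector in F² is conjugate to an element of T′; the normaliser of T′ has order 2(q + 1) and exactly (q + 7)/2 conjugacy classes; and every element of that normaliser outside T′ has square −1. -/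
theorem result {F : Type*} [Field F] [Fintype F] (hodd : Odd (Fintype.card F)) :
    ∃ T' : Subgroup (Matrix.SpecialLinearGroup (Fin 2) F), IsCyclic T' ∧ Nat.card T' = Fintype.card F + 1 ∧
      Subgroup.centralizer ((T' : Set (Matrix.SpecialLinearGroup (Fin 2) F))) = T' ∧
      (∀ g : Matrix.SpecialLinearGroup (Fin 2) F, g ∈ T' → (g : Matrix (Fin 2) (Fin 2) F) ≠ 1 → (g : Matrix (Fin 2) (Fin 2) F) ≠ -1 → Subgroup.centralizer ({g} : Set (Matrix.SpecialLinearGroup (Fin 2) F)) = T') ∧
      (∀ g : Matrix.SpecialLinearGroup (Fin 2) F, (∀ (c : F) (v : Fin 2 → F), v ≠ 0 → (g : Matrix (Fin 2) (Fin 2) F).mulVec v ≠ c • v) → ∃ h : Matrix.SpecialLinearGroup (Fin 2) F, h * g * h⁻¹ ∈ T') ∧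
      Nat.card (Subgroup.normalizer (T' : Set (Matrix.SpecialLinearGroup (Fin 2) F))) = 2 * (Fintype.card F + 1) ∧
      Nat.card (ConjClasses (Subgroup.normalizer (T' : Set (Matrix.SpecialLinearGroup (Fin 2) F)))) = (Fintype.card F + 7) / 2 ∧
      ∀ g : Matrix.SpecialLinearGroup (Fin 2) F, g ∈ Subgroup.normalizer (T' : Set (Matrix.SpecialLinearGroup (Fin 2) F)) → g ∉ T' → ((g * g) : Matrix (Fin 2) (Fin 2) F) = -1 := by
  classical
  have h2 := Cfsg.Agent.Helper40.two_ne_zero_of_odd hodd
  obtain ⟨z, hz, hns⟩ := Cfsg.Agent.Helper40.exists_nonsplit hodd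
  have ht := Cfsg.Agent.Helper40.trace_sq_ne_four_of_not_isSquare z hns
  have hcardC := Cfsg.Agent.Helper40.card_centralizer_nonsplit hodd z hz hns
  obtain ⟨hN, hk⟩ := Cfsg.Agent.Helper40.card_normalizer_centralizer hodd z hz ht
  have hzmem : z ∈ Subgroup.centralizer ({z} : Set (Matrix.SpecialLinearGroup (Fin 2) F)) := by
    rw [Subgroup.mem_centralizer_iff]
    rintro x rfl
    rfl
  refine ⟨Subgroup.centralizer ({z} : Set (Matrix.SpecialLinearGroup (Fin 2) F)),
    Cfsg.Agent.Helper40.isCyclic_centralizer hodd z hz ht, hcardC, ?_, ?_, ?_, ?_, ?_, ?_⟩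
  · ext h
    constructor
    · intro hh
      rw [Subgroup.mem_centralizer_iff] at hh ⊢
      rintro x rfl
      exact hh x hzmem
    · intro hh
      rw [Subgroup.mem_centralizer_iff]
      intro x hx
      exact Cfsg.Agent.Helper40.centralizer_comm z hz x h hx hh
  · intro g hg h1 hm1
    exact Cfsg.Agent.Helper40.centralizer_eq_of_mem z g hz hg
      (Cfsg.Agent.Helper40.nonScalar_of_ne g h1 hm1)
  · intro g hno
    obtain ⟨hg, hgns⟩ := Cfsg.Agent.Helper40.props_of_no_eigenvector h2 g hno
    exact Cfsg.Agent.Helper40.exists_conj_mem_centralizer hodd z hz hns g hg hgns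
  · rw [hN, hcardC]
  · rw [hcardC] at hk
    omega
  · intro g hg hg'
    exact Cfsg.Agent.Helper40.sq_of_mem_normalizer h2 z g hz ht hg hg'

end Cfsg.Agent.S2429
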