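import Cfsg.Statements.S2430
import Cfsg.Agent.Helper40.SL2Sylow

set_option autoImplicit false
open Cfsg

namespace Cfsg.Agent.S2430

/-- Let F be a finite field with q elements, q odd, ℓ an odd prime, and P a Sylow ℓ-subgroup of SL₂ over F. If ℓ divides q − 1, the centraliser of P is cyclic of order q − 1 (a split torus) and the normaliser of P has order 2(q − 1); if ℓ divides q + 1, the centraliser of P is cyclic of order q + 1 (a non-split torus) and the normaliser of P has order 2(q + 1). -/
theorem result {F : Type*} [Field F] [Fintype F] (hodd : Odd (Fintype.card F)) (ℓ : ℕ) [Fact ℓ.Prime] (hℓ : ℓ ≠ 2)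
    (P : Sylow ℓ (Matrix.SpecialLinearGroup (Fin 2) F)) :
    (ℓ ∣ Fintype.card F - 1 →
      Nat.card (Subgroup.centralizer ((P : Subgroup (Matrix.SpecialLinearGroup (Fin 2) F)) : Set (Matrix.SpecialLinearGroup (Fin 2) F))) = Fintype.card F - 1 ∧
      IsCyclic (Subgroup.centralizer ((P : Subgroup (Matrix.SpecialLinearGroup (Fin 2) F)) : Set (Matrix.SpecialLinearGroup (Fin 2) F))) ∧
      Nat.card (Subgroup.normalizer ((P : Subgroup (Matrix.SpecialLinearGroup (Fin 2) F)) : Set (Matrix.SpecialLinearGroup (Fin 2) F))) = 2 * (Fintype.card F - 1)) ∧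
    (ℓ ∣ Fintype.card F + 1 →
      Nat.card (Subgroup.centralizer ((P : Subgroup (Matrix.SpecialLinearGroup (Fin 2) F)) : Set (Matrix.SpecialLinearGroup (Fin 2) F))) = Fintype.card F + 1 ∧
      IsCyclic (Subgroup.centralizer ((P : Subgroup (Matrix.SpecialLinearGroup (Fin 2) F)) : Set (Matrix.SpecialLinearGroup (Fin 2) F))) ∧
      Nat.card (Subgroup.normalizer ((P : Subgroup (Matrix.SpecialLinearGroup (Fin 2) F)) : Set (Matrix.SpecialLinearGroup (Fin 2) F))) = 2 * (Fintype.card F + 1)) := by
  classical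
  have h2 := Cfsg.Agent.Helper40.two_ne_zero_of_odd hodd
  have hprime : ℓ.Prime := Fact.out
  have hq1 : 1 < Fintype.card F := Fintype.one_lt_card
  have hcardG : Nat.card (Matrix.SpecialLinearGroup (Fin 2) F) =
      Fintype.card F * ((Fintype.card F + 1) * (Fintype.card F - 1)) := by
    rw [Cfsg.Agent.Helper42.SL2.card_SL2]
    congr 1
    have h1 : Fintype.card F ^ 2 = (Fintype.card F + 1) * (Fintype.card F - 1) + 1 := by
      obtain ⟨k, hk⟩ : ∃ k, Fintype.card F = k + 1 := ⟨Fintype.card F - 1, by omega⟩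
      rw [hk]
      simp only [Nat.add_sub_cancel]
      ring
    omega
  -- the common part
  have main : ∀ (hdvd : ℓ ∣ Nat.card (Matrix.SpecialLinearGroup (Fin 2) F))
      (hℓq : ¬ ℓ ∣ Fintype.card F),
      ∃ z : Matrix.SpecialLinearGroup (Fin 2) F,
        Cfsg.Agent.Helper42.SL2.NonScalar z.1 ∧ Cfsg.Agent.Helper40.tr2 z ^ 2 ≠ 4 ∧
        ℓ ∣ Nat.card (Subgroup.centralizer ({z} : Set (Matrix.SpecialLinearGroup (Fin 2) F))) ∧
        Subgroup.centralizer ((P : Subgroup (Matrix.SpecialLinearGroup (Fin 2) F)) : Set (Matrix.SpecialLinearGroup (Fin 2) F)) =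
          Subgroup.centralizer ({z} : Set (Matrix.SpecialLinearGroup (Fin 2) F)) ∧
        Subgroup.normalizer ((P : Subgroup (Matrix.SpecialLinearGroup (Fin 2) F)) : Set (Matrix.SpecialLinearGroup (Fin 2) F)) =
          Subgroup.normalizer ((Subgroup.centralizer ({z} : Set (Matrix.SpecialLinearGroup (Fin 2) F)) :
            Subgroup (Matrix.SpecialLinearGroup (Fin 2) F)) : Set (Matrix.SpecialLinearGroup (Fin 2) F)) := by
    intro hdvd hℓq
    obtain ⟨z, hzP, hz, ht, hPle⟩ := Cfsg.Agent.Helper40.exists_central_elt hodd ℓ hℓ P hdvd hℓq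
    refine ⟨z, hz, ht, ?_, Cfsg.Agent.Helper40.centralizer_eq_of_le z hz _ hzP hPle,
      Cfsg.Agent.Helper40.normalizer_eq_of_le h2 z hz ht _ hzP hPle⟩
    have hcardP := P.card_eq_multiplicity
    have hpos : 0 < (Nat.card (Matrix.SpecialLinearGroup (Fin 2) F)).factorization ℓ :=
      hprime.factorization_pos_of_dvd Nat.card_pos.ne' hdvd
    have hdvdP : ℓ ∣ Nat.card (P : Subgroup (Matrix.SpecialLinearGroup (Fin 2) F)) := by
      rw [hcardP]
      exact dvd_pow_self ℓ hpos.ne'
    exact hdvdP.trans (Subgroup.card_dvd_of_le hPle)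
  have hl2 : ¬ ℓ ∣ 2 := fun h => hℓ ((Nat.prime_dvd_prime_iff_eq hprime Nat.prime_two).mp h)
  have hl1 : ¬ ℓ ∣ 1 := fun h => hprime.one_lt.ne' (Nat.dvd_one.mp h)
  constructor
  · intro hdiv
    have hdvd : ℓ ∣ Nat.card (Matrix.SpecialLinearGroup (Fin 2) F) := by
      rw [hcardG]
      exact Dvd.dvd.mul_left (Dvd.dvd.mul_left hdiv _) _
    have hℓq : ¬ ℓ ∣ Fintype.card F := by
      intro h
      apply hl1
      have := Nat.dvd_sub h hdiv
      have e : Fintype.card F - (Fintype.card F - 1) = 1 := by omega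
      rwa [e] at this
    obtain ⟨z, hz, ht, hdC, hC, hN⟩ := main hdvd hℓq
    have hcardC : Nat.card (Subgroup.centralizer ({z} : Set (Matrix.SpecialLinearGroup (Fin 2) F))) =
        Fintype.card F - 1 := by
      by_cases hsq : IsSquare (Cfsg.Agent.Helper40.tr2 z ^ 2 - 4)
      · obtain ⟨e, he⟩ := hsq
        have he0 : e ≠ 0 := by
          rintro rfl
          apply ht
          linear_combination he
        exact Cfsg.Agent.Helper40.card_centralizer_split hodd z hz e he0 (by rw [he]; ring)
      · exfalso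
        rw [Cfsg.Agent.Helper40.card_centralizer_nonsplit hodd z hz hsq] at hdC
        apply hl2
        have := Nat.dvd_sub hdC hdiv
        have e : Fintype.card F + 1 - (Fintype.card F - 1) = 2 := by omega
        rwa [e] at this
    refine ⟨by rw [hC, hcardC], ?_, ?_⟩
    · rw [hC]
      exact Cfsg.Agent.Helper40.isCyclic_centralizer hodd z hz ht
    · rw [hN, (Cfsg.Agent.Helper40.card_normalizer_centralizer hodd z hz ht).1, hcardC]
  · intro hdiv
    have hdvd : ℓ ∣ Nat.card (Matrix.SpecialLinearGroup (Fin 2) F) := by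
      rw [hcardG]
      exact Dvd.dvd.mul_left (Dvd.dvd.mul_right hdiv _) _
    have hℓq : ¬ ℓ ∣ Fintype.card F := by
      intro h
      apply hl1
      have := Nat.dvd_sub hdiv h
      have e : Fintype.card F + 1 - Fintype.card F = 1 := by omega
      rwa [e] at this
    obtain ⟨z, hz, ht, hdC, hC, hN⟩ := main hdvd hℓq
    have hcardC : Nat.card (Subgroup.centralizer ({z} : Set (Matrix.SpecialLinearGroup (Fin 2) F))) =
        Fintype.card F + 1 := by
      by_cases hsq : IsSquare (Cfsg.Agent.Helper40.tr2 z ^ 2 - 4)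
      · exfalso
        obtain ⟨e, he⟩ := hsq
        have he0 : e ≠ 0 := by
          rintro rfl
          apply ht
          linear_combination he
        rw [Cfsg.Agent.Helper40.card_centralizer_split hodd z hz e he0 (by rw [he]; ring)] at hdC
        apply hl2
        have := Nat.dvd_sub hdiv hdC
        have e : Fintype.card F + 1 - (Fintype.card F - 1) = 2 := by omega
        rwa [e] at this
      · exact Cfsg.Agent.Helper40.card_centralizer_nonsplit hodd z hz hsq
    refine ⟨by rw [hC, hcardC], ?_, ?_⟩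
    · rw [hC]
      exact Cfsg.Agent.Helper40.isCyclic_centralizer hodd z hz ht
    · rw [hN, (Cfsg.Agent.Helper40.card_normalizer_centralizer hodd z hz ht).1, hcardC]

end Cfsg.Agent.S2430
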