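import Cfsg.Statements.S2431
import Cfsg.Agent.Helper40.SL2SylowTwo

set_option autoImplicit false
open Cfsg

namespace Cfsg.Agent.S2431

/-- Let F be a finite field with q elements, q odd, and S a Sylow 2-subgroup of SL₂ over F. The centraliser of S is the centre of SL₂ (of order 2); S is its own normaliser when q ≡ ±1 mod 8, and has index 3 in its normaliser when q ≡ ±3 mod 8. -/
theorem result {F : Type*} [Field F] [Fintype F] (hodd : Odd (Fintype.card F)) (S : Sylow 2 (Matrix.SpecialLinearGroup (Fin 2) F)) :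
    Subgroup.centralizer ((S : Subgroup (Matrix.SpecialLinearGroup (Fin 2) F)) : Set (Matrix.SpecialLinearGroup (Fin 2) F)) = Subgroup.center (Matrix.SpecialLinearGroup (Fin 2) F) ∧
    ((Fintype.card F % 8 = 1 ∨ Fintype.card F % 8 = 7) →
      Subgroup.normalizer ((S : Subgroup (Matrix.SpecialLinearGroup (Fin 2) F)) : Set (Matrix.SpecialLinearGroup (Fin 2) F)) = (S : Subgroup (Matrix.SpecialLinearGroup (Fin 2) F))) ∧
    ((Fintype.card F % 8 = 3 ∨ Fintype.card F % 8 = 5) →
      Nat.card (Subgroup.normalizer ((S : Subgroup (Matrix.SpecialLinearGroup (Fin 2) F)) : Set (Matrix.SpecialLinearGroup (Fin 2) F))) = 3 * Nat.card S) := by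
  refine ⟨?_, ?_, ?_⟩
  · ext h
    constructor
    · intro hh
      exact Cfsg.Agent.Helper40.mem_center_of_coe h
        (Cfsg.Agent.Helper40.coe_eq_of_mem_centralizer_sylow hodd S h hh)
    · intro hh
      exact Subgroup.center_le_centralizer _ hh
  · intro hq
    exact Cfsg.Agent.Helper40.normalizer_sylow_eq_self hodd S
      (Cfsg.Agent.Helper40.sixteen_dvd_card_sylow S hq)
  · intro hq
    obtain ⟨h8, h16⟩ := Cfsg.Agent.Helper40.card_sylow_eq_eight hodd S hq
    exact Cfsg.Agent.Helper40.card_normalizer_sylow_of_card_eq_eight hodd S h8 h16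

end Cfsg.Agent.S2431
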