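import Cfsg.Statements.S2433
import Cfsg.Agent.Helper38.SL2Ind

set_option autoImplicit false
open Cfsg

namespace Cfsg.Agent.S2433

/-- Let F be a finite field with q elements, q odd, α a multiplicative character of F, and R(α) the function on SL₂ induced from the linear character b ↦ α(b₁₁) of the upper triangular subgroup. Then R(α) takes the value α(a) + α(a⁻¹) at a diagonal element with entries a, a⁻¹, a² ≠ 1; the value 0 at every element with no eigenvector in F²; the value α(ε) at an upper triangular element with both diagonal entries ε and non-zero upper right entry; and the value (q + 1)α(ε) at the scalar element ε (ε = ±1). -/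
theorem result {F : Type*} [Field F] [Fintype F] [DecidableEq F] (hodd : Odd (Fintype.card F)) (α : MulChar F ℂ) (g : Matrix.SpecialLinearGroup (Fin 2) F) :
    ((g : Matrix (Fin 2) (Fin 2) F) 0 1 = 0 → (g : Matrix (Fin 2) (Fin 2) F) 1 0 = 0 → (g : Matrix (Fin 2) (Fin 2) F) 0 0 ^ 2 ≠ 1 →
      (Cfsg.indFun ((Cfsg.upperTriangularGL 2 F).comap Matrix.SpecialLinearGroup.toGL) (fun b => α (((b : Matrix.SpecialLinearGroup (Fin 2) F) : Matrix (Fin 2) (Fin 2) F) 0 0))) g = α ((g : Matrix (Fin 2) (Fin 2) F) 0 0) + α ((g : Matrix (Fin 2) (Fin 2) F) 1 1)) ∧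
    ((∀ (c : F) (v : Fin 2 → F), v ≠ 0 → (g : Matrix (Fin 2) (Fin 2) F).mulVec v ≠ c • v) → (Cfsg.indFun ((Cfsg.upperTriangularGL 2 F).comap Matrix.SpecialLinearGroup.toGL) (fun b => α (((b : Matrix.SpecialLinearGroup (Fin 2) F) : Matrix (Fin 2) (Fin 2) F) 0 0))) g = 0) ∧
    ((g : Matrix (Fin 2) (Fin 2) F) 1 0 = 0 → (g : Matrix (Fin 2) (Fin 2) F) 0 0 = (g : Matrix (Fin 2) (Fin 2) F) 1 1 → (g : Matrix (Fin 2) (Fin 2) F) 0 1 ≠ 0 →
      (Cfsg.indFun ((Cfsg.upperTriangularGL 2 F).comap Matrix.SpecialLinearGroup.toGL) (fun b => α (((b : Matrix.SpecialLinearGroup (Fin 2) F) : Matrix (Fin 2) (Fin 2) F) 0 0))) g = α ((g : Matrix (Fin 2) (Fin 2) F) 0 0)) ∧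
    ((g : Matrix (Fin 2) (Fin 2) F) 0 1 = 0 → (g : Matrix (Fin 2) (Fin 2) F) 1 0 = 0 → (g : Matrix (Fin 2) (Fin 2) F) 0 0 = (g : Matrix (Fin 2) (Fin 2) F) 1 1 →
      (Cfsg.indFun ((Cfsg.upperTriangularGL 2 F).comap Matrix.SpecialLinearGroup.toGL) (fun b => α (((b : Matrix.SpecialLinearGroup (Fin 2) F) : Matrix (Fin 2) (Fin 2) F) 0 0))) g = ((Fintype.card F : ℂ) + 1) * α ((g : Matrix (Fin 2) (Fin 2) F) 0 0)) := by
  classical
  have hdet : (g : Matrix (Fin 2) (Fin 2) F) 0 0 * (g : Matrix (Fin 2) (Fin 2) F) 1 1 -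
      (g : Matrix (Fin 2) (Fin 2) F) 0 1 * (g : Matrix (Fin 2) (Fin 2) F) 1 0 = 1 := by
    have := g.det_coe
    rw [Matrix.det_fin_two] at this
    exact this
  have key : ∀ (hg : (g : Matrix (Fin 2) (Fin 2) F) 1 0 = 0),
      (Cfsg.indFun ((Cfsg.upperTriangularGL 2 F).comap Matrix.SpecialLinearGroup.toGL)
        (fun b => α (((b : Matrix.SpecialLinearGroup (Fin 2) F) : Matrix (Fin 2) (Fin 2) F) 0 0))) g =
      α ((g : Matrix (Fin 2) (Fin 2) F) 0 0) +
      ∑ t : F, if ((g : Matrix (Fin 2) (Fin 2) F) 0 0 - (g : Matrix (Fin 2) (Fin 2) F) 1 1) * t +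
        (g : Matrix (Fin 2) (Fin 2) F) 0 1 = 0 then α ((g : Matrix (Fin 2) (Fin 2) F) 1 1) else 0 := by
    intro hg
    have hmem : g ∈ (Cfsg.upperTriangularGL 2 F).comap Matrix.SpecialLinearGroup.toGL :=
      (Cfsg.Agent.Helper38.mem_BSL_iff g).mpr hg
    have h := Cfsg.Agent.Helper38.indFun_alphaHom_apply_BSL α ⟨g, hmem⟩
    simp only [Cfsg.Agent.Helper38.alphaHom_apply] at h
    exact h
  refine ⟨?_, ?_, ?_, ?_⟩
  · intro h01 h10 hsq
    rw [key h10]
    congr 1
    rw [h01, h10, mul_zero, sub_zero] at hdet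
    have hne : (g : Matrix (Fin 2) (Fin 2) F) 0 0 - (g : Matrix (Fin 2) (Fin 2) F) 1 1 ≠ 0 := by
      intro h
      apply hsq
      have : (g : Matrix (Fin 2) (Fin 2) F) 0 0 = (g : Matrix (Fin 2) (Fin 2) F) 1 1 := sub_eq_zero.mp h
      rw [sq]
      nth_rewrite 2 [this]
      exact hdet
    rw [Finset.sum_eq_single (0 : F)]
    · simp [h01]
    · intro t _ ht
      rw [if_neg]
      rw [h01, add_zero]
      exact mul_ne_zero hne ht
    · intro h; exact absurd (Finset.mem_univ _) h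
  · intro hno
    have hnomem : ∀ x : Matrix.SpecialLinearGroup (Fin 2) F,
        x⁻¹ * g * x ∉ (Cfsg.upperTriangularGL 2 F).comap Matrix.SpecialLinearGroup.toGL := by
      intro x hx
      rw [Cfsg.Agent.Helper38.mem_BSL_iff] at hx
      -- the first column of x is an eigenvector of g
      have hxg : (x : Matrix (Fin 2) (Fin 2) F) * ((x⁻¹ * g * x : Matrix.SpecialLinearGroup (Fin 2) F) : Matrix (Fin 2) (Fin 2) F)
          = (g : Matrix (Fin 2) (Fin 2) F) * (x : Matrix (Fin 2) (Fin 2) F) := by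
        have hgrp : x * (x⁻¹ * g * x) = g * x := by
          rw [mul_assoc, mul_inv_cancel_left]
        rw [← Matrix.SpecialLinearGroup.coe_mul, ← Matrix.SpecialLinearGroup.coe_mul, hgrp]
      set y := ((x⁻¹ * g * x : Matrix.SpecialLinearGroup (Fin 2) F) : Matrix (Fin 2) (Fin 2) F) with hy
      apply hno (y 0 0) (fun i => (x : Matrix (Fin 2) (Fin 2) F) i 0)
      · intro h0
        have hdx := x.det_coe
        rw [Matrix.det_fin_two] at hdx
        have e0 := congrFun h0 0
        have e1 := congrFun h0 1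
        simp only [Pi.zero_apply] at e0 e1
        rw [e0, e1] at hdx
        simp at hdx
      · funext i
        have := congrFun (congrFun hxg i) 0
        rw [Matrix.mul_apply, Matrix.mul_apply, Fin.sum_univ_two, Fin.sum_univ_two, hx, mul_zero, add_zero] at this
        rw [Matrix.mulVec, dotProduct, Fin.sum_univ_two, Pi.smul_apply, smul_eq_mul, ← this]
        ring
    have h := Cfsg.Agent.Helper38.indFun_alphaHom_apply α g
    simp only [Cfsg.Agent.Helper38.alphaHom_apply] at h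
    rw [h]
    have h1 : g ∉ (Cfsg.upperTriangularGL 2 F).comap Matrix.SpecialLinearGroup.toGL := by
      have := hnomem 1
      simpa using this
    rw [Cfsg.Agent.Helper3.extendByZero_of_not_mem _ _ h1, zero_add]
    apply Finset.sum_eq_zero
    intro t _
    exact Cfsg.Agent.Helper3.extendByZero_of_not_mem _ _ (hnomem _)
  · intro h10 heq h01
    rw [key h10, heq, sub_self]
    simp [h01]
  · intro h01 h10 heq
    rw [key h10, heq, sub_self, h01]
    simp
    ring

end Cfsg.Agent.S2433
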