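import Cfsg.Statements.S2435
import Cfsg.Agent.Helper39.HalfValues

set_option autoImplicit false
open Cfsg

namespace Cfsg.Agent.S2435

/-- Let F be a finite field with q elements, q odd and q ≥ 5, and χ an irreducible complex character of SL₂ over F. If χ has degree (q + 1)/2, then at a diagonal element with entry a, a² ≠ 1, χ takes the value 1 when a is a square in F and −1 otherwise. If χ has degree (q − 1)/2, then at an element g with no eigenvector in F² (so g has order dividing q + 1), χ takes the value −1 when g raised to the power (q + 1)/2 is the identity and the value 1 otherwise. -/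
theorem result {F : Type*} [Field F] [Fintype F] (hodd : Odd (Fintype.card F)) (hq : 5 ≤ Fintype.card F)
    (χ : Matrix.SpecialLinearGroup (Fin 2) F → ℂ) (hχ : Cfsg.IsIrrCharacter (Matrix.SpecialLinearGroup (Fin 2) F) χ) (g : Matrix.SpecialLinearGroup (Fin 2) F) :
    (χ 1 = (((Fintype.card F + 1) / 2 : ℕ) : ℂ) → (g : Matrix (Fin 2) (Fin 2) F) 0 1 = 0 → (g : Matrix (Fin 2) (Fin 2) F) 1 0 = 0 → (g : Matrix (Fin 2) (Fin 2) F) 0 0 ^ 2 ≠ 1 →
      (IsSquare ((g : Matrix (Fin 2) (Fin 2) F) 0 0) → χ g = 1) ∧ (¬ IsSquare ((g : Matrix (Fin 2) (Fin 2) F) 0 0) → χ g = -1)) ∧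
    (χ 1 = (((Fintype.card F - 1) / 2 : ℕ) : ℂ) → (∀ (c : F) (v : Fin 2 → F), v ≠ 0 → (g : Matrix (Fin 2) (Fin 2) F).mulVec v ≠ c • v) →
      (((g ^ ((Fintype.card F + 1) / 2)) : Matrix (Fin 2) (Fin 2) F) = 1 → χ g = -1) ∧ (((g ^ ((Fintype.card F + 1) / 2)) : Matrix (Fin 2) (Fin 2) F) ≠ 1 → χ g = 1)) := by
  classical
  constructor
  · intro hdeg h01 h10 hsq
    obtain ⟨a, ha, -, hga⟩ := Cfsg.Agent.Helper39.eq_triSL_of_upper g h10
    rw [h01] at hga
    have ha2 : (a : F) ^ 2 ≠ 1 := by rw [ha]; exact hsq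
    have hval := Cfsg.Agent.Helper39.half_plus_value hodd hq hχ hdeg ha2
    rw [← hga, ha] at hval
    have h0 : (g : Matrix (Fin 2) (Fin 2) F) 0 0 ≠ 0 := by
      rw [← ha]
      exact a.ne_zero
    constructor
    · intro hs
      rw [hval, Cfsg.Agent.Helper39.quadC_of_isSquare h0 hs]
    · intro hs
      rw [hval, Cfsg.Agent.Helper39.quadC_of_not_isSquare hs]
  · intro hdeg hg
    have h := Cfsg.Agent.Helper39.half_minus_value hodd hq hχ hdeg (g := g) hg
    constructor
    · intro h1
      apply h.1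
      apply Subtype.ext
      rw [Matrix.SpecialLinearGroup.coe_pow, Matrix.SpecialLinearGroup.coe_one]
      exact h1
    · intro h1
      apply h.2
      intro h2
      apply h1
      rw [← Matrix.SpecialLinearGroup.coe_pow, h2, Matrix.SpecialLinearGroup.coe_one]

end Cfsg.Agent.S2435
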