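import Cfsg.Statements.S2439
import Cfsg.Agent.Helper39.SL2Blocks

set_option autoImplicit false
open Cfsg

namespace Cfsg.Agent.S2439

/-- Let F be a finite field with q elements of odd characteristic p, and M a maximal ideal of the algebraic integers containing p. Then SL₂ over F has exactly three p-blocks relative to M: the irreducible character of degree q (the Steinberg character) alone; the other irreducible characters taking the same value at −1 as at 1 (the principal block); and the irreducible characters χ with χ(−1) = −χ(1). Every Sylow p-subgroup is a defect group of each of the last two blocks. -/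
theorem result {F : Type*} [Field F] [Fintype F] (p : ℕ) [Fact p.Prime] [CharP F p] (hp : p ≠ 2)
    (M : Ideal Cfsg.AlgInt) (hM : Cfsg.IsPModular p M) :
    (∀ B : Set (Cfsg.IrrCharacter (Matrix.SpecialLinearGroup (Fin 2) F)), Cfsg.IsPBlock M B ↔
      (B = {χ : Cfsg.IrrCharacter (Matrix.SpecialLinearGroup (Fin 2) F) | (χ : Matrix.SpecialLinearGroup (Fin 2) F → ℂ) 1 = (Fintype.card F : ℂ)} ∨
       B = {χ : Cfsg.IrrCharacter (Matrix.SpecialLinearGroup (Fin 2) F) | (χ : Matrix.SpecialLinearGroup (Fin 2) F → ℂ) (-1) = (χ : Matrix.SpecialLinearGroup (Fin 2) F → ℂ) 1 ∧ (χ : Matrix.SpecialLinearGroup (Fin 2) F → ℂ) 1 ≠ (Fintype.card F : ℂ)} ∨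
       B = {χ : Cfsg.IrrCharacter (Matrix.SpecialLinearGroup (Fin 2) F) | (χ : Matrix.SpecialLinearGroup (Fin 2) F → ℂ) (-1) = -(χ : Matrix.SpecialLinearGroup (Fin 2) F → ℂ) 1})) ∧
    Nat.card {B : Set (Cfsg.IrrCharacter (Matrix.SpecialLinearGroup (Fin 2) F)) // Cfsg.IsPBlock M B} = 3 ∧
    ∀ P : Sylow p (Matrix.SpecialLinearGroup (Fin 2) F),
      Cfsg.IsDefectGroup p M {χ : Cfsg.IrrCharacter (Matrix.SpecialLinearGroup (Fin 2) F) | (χ : Matrix.SpecialLinearGroup (Fin 2) F → ℂ) (-1) = (χ : Matrix.SpecialLinearGroup (Fin 2) F → ℂ) 1 ∧ (χ : Matrix.SpecialLinearGroup (Fin 2) F → ℂ) 1 ≠ (Fintype.card F : ℂ)} (P : Subgroup (Matrix.SpecialLinearGroup (Fin 2) F)) ∧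
      Cfsg.IsDefectGroup p M {χ : Cfsg.IrrCharacter (Matrix.SpecialLinearGroup (Fin 2) F) | (χ : Matrix.SpecialLinearGroup (Fin 2) F → ℂ) (-1) = -(χ : Matrix.SpecialLinearGroup (Fin 2) F → ℂ) 1} (P : Subgroup (Matrix.SpecialLinearGroup (Fin 2) F)) := by
  classical
  have hneg : (-1 : Matrix.SpecialLinearGroup (Fin 2) F) = Cfsg.Agent.Helper39.negSL := by
    apply Subtype.ext
    rw [Matrix.SpecialLinearGroup.coe_neg, Matrix.SpecialLinearGroup.coe_one,
      Cfsg.Agent.Helper39.negSL_coe]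
    ext i j
    fin_cases i <;> fin_cases j <;> simp
  simp only [hneg]
  exact Cfsg.Agent.Helper39.sl2_blocks_main p hp M hM

end Cfsg.Agent.S2439
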