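import Cfsg.Statements.S2531

set_option autoImplicit false
open Cfsg

namespace Cfsg.Agent.S2531

open Projectivization

section A

variable {F : Type*} [Field F] {V : Type*} [AddCommGroup V] [Module F V]

theorem mk_mem_iff (W : Submodule F V) (v : V) (hv : v ≠ 0) :
    (Projectivization.mk F v hv).submodule ≤ W ↔ v ∈ W := by
  rw [Projectivization.submodule_mk, Submodule.span_singleton_le_iff_mem]

variable [Finite F] [Finite V]

/-- The number of points of a nonzero subspace is `1` mod `q`. -/
theorem card_pts (W : Submodule F V) (hW : W ≠ ⊥) :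
    ((Nat.card {x : Projectivization F V // x.submodule ≤ W} : ℕ) : ZMod (Nat.card F)) = 1 := by
  have e : Nat.card (Projectivization F W) =
      Nat.card {x : Projectivization F V // x.submodule ≤ W} := by
    refine Nat.card_eq_of_bijective
      (fun y => ⟨Projectivization.map W.subtype W.injective_subtype y, ?_⟩) ⟨?_, ?_⟩
    · induction y using Projectivization.ind with
      | h w hw =>
        rw [Projectivization.map_mk, mk_mem_iff]
        exact Submodule.coe_mem w
    · intro y1 y2 h
      have h' := congrArg Subtype.val h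
      exact Projectivization.map_injective (τ := RingHom.id F) W.subtype W.injective_subtype h'
    · rintro ⟨x, hx⟩
      induction x using Projectivization.ind with
      | h v hv =>
        rw [mk_mem_iff] at hx
        refine ⟨Projectivization.mk F ⟨v, hx⟩ (fun h => hv (congrArg Subtype.val h)), ?_⟩
        rfl
  rw [← e]
  have h1 := Projectivization.card' F W
  have h2 : Nat.card W = Nat.card F ^ Module.finrank F W := Module.natCard_eq_pow_finrank
  have h3 : 0 < Module.finrank F W := by
    rw [Module.finrank_pos_iff]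
    exact (Submodule.nontrivial_iff_ne_bot).2 hW
  have hq : 1 < Nat.card F := Finite.one_lt_card
  have h4 : ((Nat.card W : ℕ) : ZMod (Nat.card F)) = 0 := by
    rw [h2, Nat.cast_pow, ZMod.natCast_self, zero_pow h3.ne']
  rw [h1] at h4
  push_cast at h4
  rw [Nat.cast_sub hq.le, ZMod.natCast_self] at h4
  simp only [Nat.cast_one, zero_sub, mul_neg, mul_one] at h4
  linear_combination -h4

theorem card_filter_pts [Fintype (Projectivization F V)] (W : Submodule F V) (hW : W ≠ ⊥)
    [DecidablePred (fun x : Projectivization F V => x.submodule ≤ W)] :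
    (((Finset.univ.filter (fun x : Projectivization F V => x.submodule ≤ W)).card : ℕ) :
      ZMod (Nat.card F)) = 1 := by
  rw [← card_pts W hW]
  have : (Finset.univ.filter (fun x : Projectivization F V => x.submodule ≤ W)).card =
      Nat.card {x : Projectivization F V // x.submodule ≤ W} := by
    rw [Nat.card_eq_fintype_card, Fintype.card_subtype]
  rw [this]

end A

/-- Let `F` be a finite field and `n ≥ 3`. No set of permutations of the points of the projective space of `Fⁿ`, each induced by an invertible semilinear transformation of `Fⁿ` (so a subset of the full projective semilinear group), is sharply 2-transitive on the points: it is impossible that for all pairs of distinct points `(a, b)` and `(c, d)` exactly one member of the set sends `a` to `c` and `b` to `d`. -/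
theorem result {F : Type*} [Field F] [Finite F]
    (n : ℕ) (hn : 3 ≤ n) (S : Set (Equiv.Perm (Projectivization F (Fin n → F))))
    (hS : ∀ s ∈ S, ∃ (σ : F ≃+* F) (f : (Fin n → F) →ₛₗ[(σ : F →+* F)] (Fin n → F)) (hf : Function.Injective f),
      ∀ x, s x = Projectivization.map f hf x) :
    ¬ (∀ a b c d : Projectivization F (Fin n → F), a ≠ b → c ≠ d →
        ∃! s, s ∈ S ∧ s a = c ∧ s b = d) := by
  classical
  intro h2
  have : Fintype (Projectivization F (Fin n → F)) := Fintype.ofFinite _
  have hq : 1 < Nat.card F := Finite.one_lt_card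
  have : Fact (1 < Nat.card F) := ⟨hq⟩
  let i0 : Fin n := ⟨0, by omega⟩
  let i1 : Fin n := ⟨1, by omega⟩
  let i2 : Fin n := ⟨2, by omega⟩
  have h10 : i1 ≠ i0 := by simp [i0, i1, Fin.ext_iff]
  have h20 : i2 ≠ i0 := by simp [i0, i2, Fin.ext_iff]
  have h21 : i2 ≠ i1 := by simp [i1, i2, Fin.ext_iff]
  let Ht : Submodule F (Fin n → F) := LinearMap.ker (LinearMap.proj i0 : (Fin n → F) →ₗ[F] F)
  have hHt : ∀ v : Fin n → F, v ∈ Ht ↔ v i0 = 0 := fun v => by simp [Ht]
  have he0 : (Pi.single i0 1 : Fin n → F) ≠ 0 := fun h => by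
    have := congrFun h i0
    simp at this
  have he1 : (Pi.single i1 1 : Fin n → F) ≠ 0 := fun h => by
    have := congrFun h i1
    simp at this
  let P : Projectivization F (Fin n → F) := Projectivization.mk F (Pi.single i0 1) he0
  let X0 : Projectivization F (Fin n → F) := Projectivization.mk F (Pi.single i1 1) he1
  let H : Finset (Projectivization F (Fin n → F)) :=
    Finset.univ.filter (fun x => x.submodule ≤ Ht)
  let SP : Finset (Equiv.Perm (Projectivization F (Fin n → F))) :=
    Finset.univ.filter (fun s => s ∈ S ∧ s P = P)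
  have hmemH : ∀ x, x ∈ H ↔ x.submodule ≤ Ht := fun x => by simp [H]
  have hPH : ∀ x ∈ H, x ≠ P := by
    rintro x hx rfl
    rw [hmemH, mk_mem_iff, hHt] at hx
    simp at hx
  have hX0H : X0 ∈ H := by
    rw [hmemH, mk_mem_iff, hHt]
    simp [h10.symm]
  have hX0 : X0 ≠ P := hPH X0 hX0H
  have hHt_ne : Ht ≠ ⊥ := by
    rw [Submodule.ne_bot_iff]
    exact ⟨Pi.single i1 1, by rw [hHt]; simp [h10.symm], he1⟩
  -- key 1
  have hH : ((H.card : ℕ) : ZMod (Nat.card F)) = 1 := card_filter_pts Ht hHt_ne
  -- key 2
  have hN : ((Fintype.card (Projectivization F (Fin n → F)) : ℕ) : ZMod (Nat.card F)) = 1 := by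
    have := card_filter_pts (⊤ : Submodule F (Fin n → F))
      (by rw [Submodule.ne_bot_iff]; exact ⟨Pi.single i1 1, Submodule.mem_top, he1⟩)
    simpa using this
  -- key 3
  have hs : ∀ s ∈ SP, (((H.filter (fun x => s x ∈ H)).card : ℕ) : ZMod (Nat.card F)) = 1 := by
    intro s hsSP
    obtain ⟨σ, f, hf, hsf⟩ := hS s (Finset.mem_filter.1 hsSP).2.1
    let W : Submodule F (Fin n → F) :=
      { carrier := {v | v i0 = 0 ∧ f v i0 = 0}
        add_mem' := by
          rintro a b ⟨ha1, ha2⟩ ⟨hb1, hb2⟩
          refine ⟨by simp [ha1, hb1], ?_⟩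
          simp [map_add, ha2, hb2]
        zero_mem' := by simp
        smul_mem' := by
          rintro c a ⟨ha1, ha2⟩
          refine ⟨by simp [ha1], ?_⟩
          simp [ha2] }
    have hW : ∀ v : Fin n → F, v ∈ W ↔ (v i0 = 0 ∧ f v i0 = 0) := fun v => Iff.rfl
    have hWne : W ≠ ⊥ := by
      rw [Submodule.ne_bot_iff]
      by_cases h1 : f (Pi.single i1 1) i0 = 0
      · exact ⟨Pi.single i1 1, by rw [hW]; exact ⟨by simp [h10.symm], h1⟩, he1⟩
      · refine ⟨Pi.single i2 1 - (σ.symm (f (Pi.single i2 1) i0 / f (Pi.single i1 1) i0)) •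
          Pi.single i1 1, ?_, ?_⟩
        · rw [hW]
          refine ⟨by simp [h10.symm, h20.symm], ?_⟩
          rw [map_sub, LinearMap.map_smulₛₗ]
          simp only [Pi.sub_apply, Pi.smul_apply, smul_eq_mul, RingEquiv.coe_toRingHom,
            RingEquiv.apply_symm_apply]
          field_simp
          ring
        · intro h
          have := congrFun h i2
          simp [h21] at this
    have : H.filter (fun x => s x ∈ H) = Finset.univ.filter (fun x => x.submodule ≤ W) := by
      ext x
      induction x using Projectivization.ind with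
      | h v hv =>
        simp only [Finset.mem_filter, Finset.mem_univ, true_and, hmemH]
        rw [hsf, Projectivization.map_mk, mk_mem_iff, mk_mem_iff, mk_mem_iff, hHt, hHt, hW]
    rw [this]
    exact card_filter_pts W hWne
  -- count 1
  have c1 : ∑ s ∈ SP, (H.filter (fun x => s x ∈ H)).card = H.card * H.card := by
    have e1 : ∀ s ∈ SP, (H.filter (fun x => s x ∈ H)).card =
        ∑ x ∈ H, ∑ y ∈ H, if s x = y then 1 else 0 := by
      intro s _
      rw [Finset.card_filter]
      refine Finset.sum_congr rfl (fun x _ => ?_)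
      rw [Finset.sum_ite_eq]
    rw [Finset.sum_congr rfl e1, Finset.sum_comm]
    have e2 : ∀ x ∈ H, ∑ s ∈ SP, ∑ y ∈ H, (if s x = y then 1 else 0) = H.card := by
      intro x hx
      rw [Finset.sum_comm, Finset.card_eq_sum_ones]
      refine Finset.sum_congr rfl (fun y hy => ?_)
      rw [← Finset.card_filter, Finset.card_eq_one]
      obtain ⟨s, ⟨hsS, hsP, hsx⟩, huniq⟩ := h2 P x P y (hPH x hx).symm (hPH y hy).symm
      refine ⟨s, ?_⟩
      ext t
      simp only [Finset.mem_filter, Finset.mem_singleton, SP, Finset.mem_univ, true_and]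
      constructor
      · rintro ⟨⟨h1, h2⟩, h3⟩; exact huniq t ⟨h1, h2, h3⟩
      · rintro rfl; exact ⟨⟨hsS, hsP⟩, hsx⟩
    rw [Finset.sum_congr rfl e2, Finset.sum_const, smul_eq_mul]
  -- count 2
  have c2 : SP.card + 1 = Fintype.card (Projectivization F (Fin n → F)) := by
    have e1 : SP.card = (Finset.univ.erase P).card := by
      rw [Finset.card_eq_sum_ones SP, Finset.card_eq_sum_ones (Finset.univ.erase P)]
      have e3 : ∀ s ∈ SP, (1 : ℕ) = ∑ y ∈ Finset.univ.erase P, if s X0 = y then 1 else 0 := by
        intro s hs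
        rw [Finset.sum_ite_eq, if_pos]
        simp only [Finset.mem_erase, Finset.mem_univ, and_true]
        intro h
        have hsP : s P = P := (Finset.mem_filter.1 hs).2.2
        exact hX0 (s.injective (h.trans hsP.symm))
      rw [Finset.sum_congr rfl e3, Finset.sum_comm]
      refine Finset.sum_congr rfl (fun y hy => ?_)
      rw [← Finset.card_filter, Finset.card_eq_one]
      obtain ⟨s, ⟨hsS, hsP, hsx⟩, huniq⟩ :=
        h2 P X0 P y hX0.symm (Finset.ne_of_mem_erase hy).symm
      refine ⟨s, ?_⟩
      ext t
      simp only [Finset.mem_filter, Finset.mem_singleton, SP, Finset.mem_univ, true_and]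
      constructor
      · rintro ⟨⟨h1, h2⟩, h3⟩; exact huniq t ⟨h1, h2, h3⟩
      · rintro rfl; exact ⟨⟨hsS, hsP⟩, hsx⟩
    rw [e1, Finset.card_erase_of_mem (Finset.mem_univ _), Finset.card_univ]
    have : 0 < Fintype.card (Projectivization F (Fin n → F)) := Fintype.card_pos_iff.2 ⟨P⟩
    omega
  -- conclude
  have k1 : ((SP.card : ℕ) : ZMod (Nat.card F)) = 1 := by
    have := congrArg (Nat.cast : ℕ → ZMod (Nat.card F)) c1
    rw [Nat.cast_sum, Finset.sum_congr rfl hs] at this
    simpa [hH] using this
  have k0 : ((SP.card : ℕ) : ZMod (Nat.card F)) = 0 := by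
    have := congrArg (Nat.cast : ℕ → ZMod (Nat.card F)) c2
    rw [hN] at this
    push_cast at this
    linear_combination this
  exact one_ne_zero (k1.symm.trans k0)

end Cfsg.Agent.S2531
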