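import Cfsg.Statements.S2532

set_option autoImplicit false
open Cfsg

namespace Cfsg.Agent.S2532

section core

variable {G : Type*} [Group G] {X : Type*} [MulAction G X]

/-- the equivariant map `(G ⧸ S) × Fin r → X` attached to points with common stabilizer `S` -/
noncomputable def emb (r : ℕ) (x : Fin r → X) (S : Subgroup G)
    (hS : ∀ i, MulAction.stabilizer G (x i) = S) : (G ⧸ S) × Fin r → X :=
  fun p => Quotient.liftOn' p.1 (fun g : G => g • x p.2) (by
    intro a b hab
    rw [QuotientGroup.leftRel_apply] at hab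
    rw [← hS p.2, MulAction.mem_stabilizer_iff] at hab
    show a • x p.2 = b • x p.2
    calc a • x p.2 = a • ((a⁻¹ * b) • x p.2) := by rw [hab]
      _ = b • x p.2 := by rw [smul_smul, mul_inv_cancel_left])

theorem emb_mk (r : ℕ) (x : Fin r → X) (S : Subgroup G)
    (hS : ∀ i, MulAction.stabilizer G (x i) = S) (g : G) (i : Fin r) :
    emb r x S hS ((g : G ⧸ S), i) = g • x i := rfl

theorem emb_injective (r : ℕ) (x : Fin r → X) (S : Subgroup G)
    (hS : ∀ i, MulAction.stabilizer G (x i) = S)
    (hx : ∀ i j, x i ∈ MulAction.orbit G (x j) → i = j) :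
    Function.Injective (emb r x S hS) := by
  rintro ⟨q, i⟩ ⟨q', j⟩ h
  induction q using QuotientGroup.induction_on with | H g => ?_
  induction q' using QuotientGroup.induction_on with | H g' => ?_
  rw [emb_mk, emb_mk] at h
  have hij : i = j := by
    apply hx
    refine ⟨g⁻¹ * g', ?_⟩
    show (g⁻¹ * g') • x j = x i
    rw [mul_smul, ← h, inv_smul_smul]
  subst hij
  have : g⁻¹ * g' ∈ S := by
    rw [← hS i, MulAction.mem_stabilizer_iff, mul_smul, ← h, inv_smul_smul]
  rw [Prod.mk.injEq]
  exact ⟨QuotientGroup.eq.mpr this, rfl⟩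

theorem emb_smul (r : ℕ) (x : Fin r → X) (S : Subgroup G)
    (hS : ∀ i, MulAction.stabilizer G (x i) = S) (h : G) (q : G ⧸ S) (i : Fin r) :
    h • emb r x S hS (q, i) = emb r x S hS (h • q, i) := by
  induction q using QuotientGroup.induction_on with | H g => ?_
  rw [emb_mk]
  show h • g • x i = emb r x S hS (((h * g : G) : G ⧸ S), i)
  rw [emb_mk, mul_smul]

/-- permuting the second coordinate, as a homomorphism -/
def prodHom (A : Type*) (r : ℕ) : Equiv.Perm (Fin r) →* Equiv.Perm (A × Fin r) where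
  toFun σ := Equiv.prodCongr (Equiv.refl A) σ
  map_one' := by ext ⟨a, b⟩ <;> rfl
  map_mul' σ τ := by ext ⟨a, b⟩ <;> rfl

theorem prodHom_apply (A : Type*) (r : ℕ) (σ : Equiv.Perm (Fin r)) (a : A) (i : Fin r) :
    prodHom A r σ (a, i) = (a, σ i) := rfl

theorem prodHom_injective (A : Type*) [Nonempty A] (r : ℕ) : Function.Injective (prodHom A r) := by
  intro σ τ h
  ext i
  obtain ⟨a⟩ := ‹Nonempty A›
  have := congrArg (fun p : Equiv.Perm (A × Fin r) => (p (a, i)).2) h
  simp only [prodHom_apply] at this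
  rw [this]

theorem exists_hom (r : ℕ) (x : Fin r → X) (S : Subgroup G)
    (hS : ∀ i, MulAction.stabilizer G (x i) = S)
    (hx : ∀ i j, x i ∈ MulAction.orbit G (x j) → i = j) :
    ∃ Φ : Equiv.Perm (Fin r) →* Equiv.Perm X, Function.Injective Φ ∧
      ∀ (σ : Equiv.Perm (Fin r)) (g : G) (y : X), Φ σ (g • y) = g • Φ σ y := by
  classical
  let ι : (G ⧸ S) × Fin r ↪ X := ⟨emb r x S hS, emb_injective r x S hS hx⟩
  refine ⟨(Equiv.Perm.viaEmbeddingHom ι).comp (prodHom (G ⧸ S) r), ?_, ?_⟩
  · exact (Equiv.Perm.viaEmbeddingHom_injective ι).comp (prodHom_injective _ r)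
  · intro σ g y
    rw [MonoidHom.comp_apply, Equiv.Perm.viaEmbeddingHom_apply]
    by_cases hy : y ∈ Set.range ι
    · obtain ⟨⟨q, i⟩, rfl⟩ := hy
      have h1 : g • ι (q, i) = ι (g • q, i) := emb_smul r x S hS g q i
      rw [h1, Equiv.Perm.viaEmbedding_apply, Equiv.Perm.viaEmbedding_apply, prodHom_apply,
        prodHom_apply]
      exact (emb_smul r x S hS g q (σ i)).symm
    · have hy' : g • y ∉ Set.range ι := by
        rintro ⟨⟨q, i⟩, hq⟩
        apply hy
        refine ⟨(g⁻¹ • q, i), ?_⟩
        have h1 : g⁻¹ • ι (q, i) = ι (g⁻¹ • q, i) := emb_smul r x S hS g⁻¹ q i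
        rw [← h1, hq, inv_smul_smul]
      rw [Equiv.Perm.viaEmbedding_apply_of_notMem _ _ _ hy,
        Equiv.Perm.viaEmbedding_apply_of_notMem _ _ _ hy']

end core

/-- a hom from `Perm (Fin r)` to a symmetric group sends even permutations to even ones -/
theorem sign_eq_one_of_mem_alternating {r : ℕ} {Y : Type*} [Fintype Y] [DecidableEq Y]
    (Φ : Equiv.Perm (Fin r) →* Equiv.Perm Y) (g : Equiv.Perm (Fin r))
    (hg : g ∈ alternatingGroup (Fin r)) : Equiv.Perm.sign (Φ g) = 1 := by
  let ψ : Equiv.Perm (Fin r) →* ℤˣ := Equiv.Perm.sign.comp Φ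
  have h3 : ∀ σ : Equiv.Perm (Fin r), σ.IsThreeCycle → ψ σ = 1 := by
    intro σ hσ
    have h0 : σ ^ 3 = 1 := by
      have := pow_orderOf_eq_one σ
      rwa [hσ.orderOf] at this
    have h1 : ψ σ ^ 3 = 1 := by rw [← map_pow, h0, map_one]
    rcases Int.units_eq_one_or (ψ σ) with h | h
    · exact h
    · rw [h] at h1
      exact absurd h1 (by decide)
  have hle : alternatingGroup (Fin r) ≤ ψ.ker := by
    rw [← Equiv.Perm.closure_three_cycles_eq_alternating, Subgroup.closure_le]
    intro σ hσ
    exact h3 σ hσ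
  exact hle hg

theorem exists_points {G : Type*} [Group G] [Fintype G] {m : ℕ} [MulAction G (Fin m)] (r : ℕ)
    (hm : 2 ^ Fintype.card G * (Fintype.card G * r) < m) :
    ∃ (x : Fin r → Fin m) (S : Subgroup G), (∀ i, MulAction.stabilizer G (x i) = S) ∧
      ∀ i j, x i ∈ MulAction.orbit G (x j) → i = j := by
  classical
  have h1 : Fintype.card (Set G) * (Fintype.card G * r) < Fintype.card (Fin m) := by
    rw [Fintype.card_set, Fintype.card_fin]; exact hm
  obtain ⟨S₀, hS₀⟩ := Fintype.exists_lt_card_fiber_of_mul_lt_card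
    (fun x : Fin m => (MulAction.stabilizer G x : Set G)) h1
  set T : Finset (Fin m) :=
    Finset.univ.filter (fun x => (MulAction.stabilizer G x : Set G) = S₀) with hT
  have hTne : T.Nonempty := Finset.card_pos.mp (by omega)
  obtain ⟨x₀, hx₀⟩ := hTne
  let π : Fin m → MulAction.orbitRel.Quotient G (Fin m) := Quotient.mk''
  have hfib : ∀ b ∈ T.image π, (T.filter (fun a => π a = b)).card ≤ Fintype.card G := by
    intro b hb
    obtain ⟨x₁, hx₁, rfl⟩ := Finset.mem_image.mp hb
    calc (T.filter (fun a => π a = π x₁)).card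
        ≤ (Finset.univ.image (fun g : G => g • x₁)).card := by
          apply Finset.card_le_card
          intro a ha
          rw [Finset.mem_filter] at ha
          have h : a ∈ MulAction.orbit G x₁ := MulAction.orbitRel_apply.mp (Quotient.eq''.mp ha.2)
          obtain ⟨g, hg⟩ := h
          exact Finset.mem_image.mpr ⟨g, Finset.mem_univ _, hg⟩
      _ ≤ Fintype.card G := Finset.card_image_le.trans (by simp)
  have h2 := Finset.card_le_mul_card_image T (Fintype.card G) hfib
  have h3 : r < (T.image π).card := by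
    by_contra hcon
    push Not at hcon
    have := Nat.mul_le_mul_left (Fintype.card G) hcon
    omega
  have h4 : Fintype.card (Fin r) ≤ Fintype.card (T.image π) := by
    simp only [Fintype.card_fin, Fintype.card_coe]
    omega
  obtain ⟨e⟩ := Function.Embedding.nonempty_of_card_le h4
  have h5 : ∀ i : Fin r, ∃ x ∈ T, π x = (e i : MulAction.orbitRel.Quotient G (Fin m)) :=
    fun i => Finset.mem_image.mp (e i).2
  choose x hxT hxπ using h5
  refine ⟨x, MulAction.stabilizer G x₀, ?_, ?_⟩
  · intro i
    have h6 := (Finset.mem_filter.mp (hxT i)).2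
    have h7 := (Finset.mem_filter.mp hx₀).2
    exact SetLike.coe_injective (h6.trans h7.symm)
  · intro i j hij
    have h8 : π (x i) = π (x j) := Quotient.eq''.mpr (MulAction.orbitRel_apply.mpr hij)
    rw [hxπ, hxπ] at h8
    exact e.injective (Subtype.ext h8)

/-- There is a function `f` of two natural-number arguments such that, whenever `m ≥ f(n, r)`, every subgroup of order `n` of the alternating group of degree `m` centralizes some subgroup of that alternating group isomorphic to the alternating group of degree `r`. -/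
theorem result :
    ∃ f : ℕ → ℕ → ℕ, ∀ (m r : ℕ) (H : Subgroup ↥(alternatingGroup (Fin m))), f (Nat.card H) r ≤ m →
      ∃ K : Subgroup ↥(alternatingGroup (Fin m)), Nonempty (↥K ≃* ↥(alternatingGroup (Fin r))) ∧
        K ≤ Subgroup.centralizer (H : Set ↥(alternatingGroup (Fin m))) := by
  classical
  refine ⟨fun n r => 2 ^ n * (n * r) + 1, ?_⟩
  intro m r H hm
  have : Fintype H := Fintype.ofFinite H
  have hm2 : 2 ^ Nat.card H * (Nat.card H * r) + 1 ≤ m := hm
  have hm' : 2 ^ Fintype.card H * (Fintype.card H * r) < m := by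
    rw [Nat.card_eq_fintype_card] at hm2
    omega
  obtain ⟨x, S, hS, hx⟩ := exists_points (G := H) r hm'
  obtain ⟨Φ, hΦinj, hΦ⟩ := exists_hom r x S hS hx
  let φ : alternatingGroup (Fin r) →* alternatingGroup (Fin m) :=
    MonoidHom.codRestrict (Φ.comp (alternatingGroup (Fin r)).subtype) (alternatingGroup (Fin m))
      (fun g => Equiv.Perm.mem_alternatingGroup.mpr (sign_eq_one_of_mem_alternating Φ g.1 g.2))
  have hφinj : Function.Injective φ := by
    intro a b hab
    apply Subtype.ext
    apply hΦinj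
    exact congrArg Subtype.val hab
  refine ⟨φ.range, ⟨(MonoidHom.ofInjective hφinj).symm⟩, ?_⟩
  rintro _ ⟨g, rfl⟩
  rw [Subgroup.mem_centralizer_iff]
  intro h hh
  apply Subtype.ext
  apply Equiv.ext
  intro y
  have h1 := hΦ (g : Equiv.Perm (Fin r)) (⟨h, hh⟩ : H) y
  exact h1.symm

end Cfsg.Agent.S2532
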