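import Cfsg.Statements.S2533
import Mathlib

set_option autoImplicit false
open Cfsg

namespace Cfsg.Agent.S2533

/-- the group `(Z/p)³ ⋊ C₂` (inversion) -/
@[ext]
structure HG (p : ℕ) where
  x : ZMod p
  y : ZMod p
  z : ZMod p
  e : ℤˣ

section grp
variable {p : ℕ}

/-- sign in `ZMod p` -/
def sg (e : ℤˣ) : ZMod p := ((e : ℤ) : ZMod p)

theorem sg_mul (e d : ℤˣ) : (sg (e * d) : ZMod p) = sg e * sg d := by
  simp [sg]

theorem sg_one : (sg 1 : ZMod p) = 1 := by simp [sg]

theorem sg_sq (e : ℤˣ) : (sg e : ZMod p) * sg e = 1 := by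
  rw [← sg_mul, Int.units_mul_self, sg_one]

theorem sg_neg_one : (sg (-1) : ZMod p) = -1 := by simp [sg]

instance : Mul (HG p) :=
  ⟨fun a b => ⟨a.x + sg a.e * b.x, a.y + sg a.e * b.y, a.z + sg a.e * b.z, a.e * b.e⟩⟩

instance : One (HG p) := ⟨⟨0, 0, 0, 1⟩⟩

instance : Inv (HG p) := ⟨fun a => ⟨-(sg a.e * a.x), -(sg a.e * a.y), -(sg a.e * a.z), a.e⟩⟩

theorem mul_def (a b : HG p) :
    a * b = ⟨a.x + sg a.e * b.x, a.y + sg a.e * b.y, a.z + sg a.e * b.z, a.e * b.e⟩ := rfl

theorem one_def : (1 : HG p) = ⟨0, 0, 0, 1⟩ := rfl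

theorem inv_def (a : HG p) :
    a⁻¹ = ⟨-(sg a.e * a.x), -(sg a.e * a.y), -(sg a.e * a.z), a.e⟩ := rfl

instance : Group (HG p) :=
  Group.ofLeftAxioms
    (fun a b c => by
      simp only [mul_def, sg_mul]
      ext
      · ring
      · ring
      · ring
      · simp [mul_assoc])
    (fun a => by
      simp only [mul_def, one_def, sg_one]
      ext <;> simp)
    (fun a => by
      simp only [mul_def, inv_def, one_def]
      ext
      · ring
      · ring
      · ring
      · simp [Int.units_mul_self])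

/-- the underlying equivalence -/
def hgEquiv : HG p ≃ (ZMod p × ZMod p × ZMod p) × ℤˣ where
  toFun a := ((a.x, a.y, a.z), a.e)
  invFun w := ⟨w.1.1, w.1.2.1, w.1.2.2, w.2⟩
  left_inv a := rfl
  right_inv w := rfl

theorem card_HG [Fact p.Prime] : Nat.card (HG p) = 2 * p ^ 3 := by
  rw [Nat.card_congr hgEquiv, Nat.card_prod, Nat.card_prod, Nat.card_prod, Nat.card_zmod]
  have : Nat.card ℤˣ = 2 := by
    rw [Nat.card_eq_fintype_card]
    rfl
  rw [this]
  ring

end grp

section mat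
variable {p : ℕ} (m : ℕ)

/-- `A f_k = e_k` -/
def matA : Matrix (Fin (m + 1)) (Fin m) (ZMod p) :=
  Matrix.of fun i j => if i = j.castSucc then 1 else 0

/-- `B f_k = e_{k+1}` -/
def matB : Matrix (Fin (m + 1)) (Fin m) (ZMod p) :=
  Matrix.of fun i j => if i = j.succ then 1 else 0

/-- `C f_0 = e_2` -/
def matC : Matrix (Fin (m + 1)) (Fin m) (ZMod p) :=
  Matrix.of fun i j => if (i : ℕ) = 2 ∧ (j : ℕ) = 0 then 1 else 0

/-- the nilpotent part -/
def Nm (x y z : ZMod p) : Matrix (Fin (m + 1)) (Fin m) (ZMod p) :=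
  x • matA m + y • matB m + z • matC m

theorem Nm_lin (x y z x' y' z' c : ZMod p) :
    Nm m (x + c * x') (y + c * y') (z + c * z') = Nm m x y z + c • Nm m x' y' z' := by
  unfold Nm
  simp only [add_smul, mul_smul, smul_add]
  abel

theorem Nm_zero : Nm m (0 : ZMod p) 0 0 = 0 := by
  simp [Nm]

/-- the representation, as block matrices -/
def Mt (h : HG p) : Matrix (Fin (m + 1) ⊕ Fin m) (Fin (m + 1) ⊕ Fin m) (ZMod p) :=
  Matrix.fromBlocks 1 ((sg h.e : ZMod p) • Nm m h.x h.y h.z) 0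
    ((sg h.e : ZMod p) • (1 : Matrix (Fin m) (Fin m) (ZMod p)))

theorem Mt_one : Mt m (1 : HG p) = 1 := by
  simp [Mt, one_def, sg_one, Nm_zero, Matrix.fromBlocks_one]

theorem Mt_mul (a b : HG p) : Mt m (a * b) = Mt m a * Mt m b := by
  simp only [Mt, mul_def, Matrix.fromBlocks_multiply, Nm_lin, sg_mul]
  congr 1
  · simp
  · simp only [Matrix.one_mul, Matrix.mul_smul, Matrix.smul_mul, Matrix.mul_one, smul_add,
      smul_smul]
    have h1 : sg a.e * sg b.e * sg a.e = (sg b.e : ZMod p) := by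
      rw [mul_comm (sg a.e) (sg b.e), mul_assoc, sg_sq, mul_one]
    rw [h1, mul_comm (sg b.e : ZMod p) (sg a.e)]
    exact add_comm _ _
  · simp
  · simp [smul_smul, mul_comm]

theorem Mt_det (hm : Even m) (h : HG p) : (Mt m h).det = 1 := by
  rw [Mt, Matrix.det_fromBlocks_zero₂₁, Matrix.det_one, Matrix.det_smul, Matrix.det_one,
    Fintype.card_fin]
  obtain ⟨k, rfl⟩ := hm
  rw [← two_mul, pow_mul, sq, sg_sq]
  simp

theorem two_ne_zero' [Fact p.Prime] (hp : p ≠ 2) : (2 : ZMod p) ≠ 0 := by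
  intro h
  have h' : ((2 : ℕ) : ZMod p) = 0 := by exact_mod_cast h
  rw [ZMod.natCast_eq_zero_iff] at h'
  have h1 := Nat.le_of_dvd (by norm_num) h'
  have h2 := (Fact.out : p.Prime).two_le
  omega

theorem sg_inj [Fact p.Prime] (hp : p ≠ 2) (e d : ℤˣ) (h : (sg e : ZMod p) = sg d) : e = d := by
  rcases Int.units_eq_one_or e with rfl | rfl <;> rcases Int.units_eq_one_or d with rfl | rfl
  · rfl
  · exfalso
    rw [sg_one, sg_neg_one] at h
    apply two_ne_zero' hp
    linear_combination h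
  · exfalso
    rw [sg_one, sg_neg_one] at h
    apply two_ne_zero' hp
    linear_combination -h
  · rfl

theorem Nm_entries (hm : 2 ≤ m) (x y z : ZMod p) :
    Nm m x y z ⟨0, by omega⟩ ⟨0, by omega⟩ = x ∧ Nm m x y z ⟨1, by omega⟩ ⟨0, by omega⟩ = y ∧
      Nm m x y z ⟨2, by omega⟩ ⟨0, by omega⟩ = z := by
  refine ⟨?_, ?_, ?_⟩ <;> simp [Nm, matA, matB, matC, Fin.ext_iff]

theorem Mt_inj [Fact p.Prime] (hp : p ≠ 2) (hm : 2 ≤ m) :
    Function.Injective (Mt (p := p) m) := by
  intro a b h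
  simp only [Mt, Matrix.fromBlocks_inj] at h
  obtain ⟨-, hN, -, hD⟩ := h
  have he : a.e = b.e := by
    apply sg_inj hp
    have := congrFun (congrFun hD ⟨0, by omega⟩) ⟨0, by omega⟩
    simpa using this
  rw [he] at hN
  have hN' : Nm m a.x a.y a.z = Nm m b.x b.y b.z := by
    have := congrArg (fun M => (sg b.e : ZMod p) • M) hN
    simpa [smul_smul, sg_sq] using this
  obtain ⟨a0, a1, a2⟩ := Nm_entries m hm a.x a.y a.z
  obtain ⟨b0, b1, b2⟩ := Nm_entries m hm b.x b.y b.z
  ext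
  · rw [← a0, ← b0, hN']
  · rw [← a1, ← b1, hN']
  · rw [← a2, ← b2, hN']
  · rw [he]

/-- diagonal-constant matrices with vanishing boundary are scalar -/
theorem diag_const (P : Matrix (Fin (m + 1)) (Fin (m + 1)) (ZMod p))
    (n1 : ∀ (a b : ℕ) (ha : a < m) (hb : b < m),
      P ⟨a + 1, by omega⟩ ⟨b + 1, by omega⟩ = P ⟨a, by omega⟩ ⟨b, by omega⟩)
    (n2 : ∀ (b : ℕ) (hb : b < m), P ⟨m, by omega⟩ ⟨b, by omega⟩ = 0)
    (n4 : ∀ (b : ℕ) (hb : b < m), P ⟨0, by omega⟩ ⟨b + 1, by omega⟩ = 0) :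
    P = (P 0 0) • (1 : Matrix (Fin (m + 1)) (Fin (m + 1)) (ZMod p)) := by
  have up : ∀ (a b : ℕ) (hab : a < b) (hb : b ≤ m), P ⟨a, by omega⟩ ⟨b, by omega⟩ = 0 := by
    intro a
    induction a with
    | zero =>
      intro b hab hb
      obtain ⟨b', rfl⟩ : ∃ b', b = b' + 1 := ⟨b - 1, by omega⟩
      exact n4 b' (by omega)
    | succ a ih =>
      intro b hab hb
      obtain ⟨b', rfl⟩ : ∃ b', b = b' + 1 := ⟨b - 1, by omega⟩
      rw [n1 a b' (by omega) (by omega)]
      exact ih b' (by omega) (by omega)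
  have down : ∀ (d a b : ℕ) (had : a + d = m) (hba : b < a),
      P ⟨a, by omega⟩ ⟨b, by omega⟩ = 0 := by
    intro d
    induction d with
    | zero =>
      intro a b had hba
      have : a = m := by omega
      subst this
      exact n2 b hba
    | succ d ih =>
      intro a b had hba
      rw [← n1 a b (by omega) (by omega)]
      exact ih (a + 1) (b + 1) (by omega) (by omega)
  have diag : ∀ (a : ℕ) (ha : a ≤ m), P ⟨a, by omega⟩ ⟨a, by omega⟩ = P 0 0 := by
    intro a
    induction a with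
    | zero => intro _; rfl
    | succ a ih =>
      intro ha
      rw [n1 a a (by omega) (by omega)]
      exact ih (by omega)
  ext ⟨i, hi⟩ ⟨j, hj⟩
  rw [Matrix.smul_apply, Matrix.one_apply, smul_eq_mul]
  rcases Nat.lt_trichotomy i j with h | h | h
  · rw [up i j h (by omega), if_neg (by simp [Fin.ext_iff]; omega), mul_zero]
  · subst h
    rw [diag i (by omega), if_pos rfl, mul_one]
  · rw [down (m - i) i j (by omega) h, if_neg (by simp [Fin.ext_iff]; omega), mul_zero]

theorem mulA_apply (P : Matrix (Fin (m + 1)) (Fin (m + 1)) (ZMod p)) (i : Fin (m + 1))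
    (j : Fin m) : (@HMul.hMul _ _ (Matrix (Fin (m + 1)) (Fin m) (ZMod p)) Matrix.instHMulOfFintypeOfMulOfAddCommMonoid P (matA m)) i j = P i j.castSucc := by
  simp [Matrix.mul_apply, matA]

theorem mulB_apply (P : Matrix (Fin (m + 1)) (Fin (m + 1)) (ZMod p)) (i : Fin (m + 1))
    (j : Fin m) : (@HMul.hMul _ _ (Matrix (Fin (m + 1)) (Fin m) (ZMod p)) Matrix.instHMulOfFintypeOfMulOfAddCommMonoid P (matB m)) i j = P i j.succ := by
  simp [Matrix.mul_apply, matB]

theorem Amul_castSucc (S : Matrix (Fin m) (Fin m) (ZMod p)) (k j : Fin m) :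
    (@HMul.hMul _ _ (Matrix (Fin (m + 1)) (Fin m) (ZMod p)) Matrix.instHMulOfFintypeOfMulOfAddCommMonoid (matA m) S) k.castSucc j = S k j := by
  simp [Matrix.mul_apply, matA]

theorem Amul_last (S : Matrix (Fin m) (Fin m) (ZMod p)) (j : Fin m) :
    (@HMul.hMul _ _ (Matrix (Fin (m + 1)) (Fin m) (ZMod p)) Matrix.instHMulOfFintypeOfMulOfAddCommMonoid (matA m) S) (Fin.last m) j = 0 := by
  simp only [Matrix.mul_apply, matA, Matrix.of_apply]
  apply Finset.sum_eq_zero
  intro k _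
  rw [if_neg (Fin.castSucc_lt_last k).ne', zero_mul]

theorem Bmul_succ (S : Matrix (Fin m) (Fin m) (ZMod p)) (k j : Fin m) :
    (@HMul.hMul _ _ (Matrix (Fin (m + 1)) (Fin m) (ZMod p)) Matrix.instHMulOfFintypeOfMulOfAddCommMonoid (matB m) S) k.succ j = S k j := by
  simp [Matrix.mul_apply, matB]

theorem Bmul_zero (S : Matrix (Fin m) (Fin m) (ZMod p)) (j : Fin m) :
    (@HMul.hMul _ _ (Matrix (Fin (m + 1)) (Fin m) (ZMod p)) Matrix.instHMulOfFintypeOfMulOfAddCommMonoid (matB m) S) 0 j = 0 := by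
  simp only [Matrix.mul_apply, matB, Matrix.of_apply]
  apply Finset.sum_eq_zero
  intro k _
  rw [if_neg (Fin.succ_ne_zero k).symm, zero_mul]

/-- the commutant of the representation consists of scalars -/
theorem commutant [Fact p.Prime] (hp : p ≠ 2)
    (T : Matrix (Fin (m + 1) ⊕ Fin m) (Fin (m + 1) ⊕ Fin m) (ZMod p))
    (hT : ∀ h : HG p, T * Mt m h = Mt m h * T) : ∃ c : ZMod p, T = c • 1 := by
  obtain ⟨P, Q, R, S, rfl⟩ : ∃ P Q R S, T = Matrix.fromBlocks P Q R S :=
    ⟨_, _, _, _, (Matrix.fromBlocks_toBlocks T).symm⟩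
  have h2 := two_ne_zero' hp
  have hτ := hT ⟨0, 0, 0, -1⟩
  simp only [Mt, sg_neg_one, Nm_zero, Matrix.fromBlocks_multiply, Matrix.fromBlocks_inj] at hτ
  obtain ⟨-, hQ, hR, -⟩ := hτ
  have hQ0 : Q = 0 := by
    ext i j
    have := congrFun (congrFun hQ i) j
    simp at this
    have h3 : (2 : ZMod p) * Q i j = 0 := by linear_combination -this
    exact (mul_eq_zero.1 h3).resolve_left h2
  have hR0 : R = 0 := by
    ext i j
    have := congrFun (congrFun hR i) j
    simp at this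
    have h3 : (2 : ZMod p) * R i j = 0 := by linear_combination this
    exact (mul_eq_zero.1 h3).resolve_left h2
  subst hQ0 hR0
  have hA := hT ⟨1, 0, 0, 1⟩
  have hB := hT ⟨0, 1, 0, 1⟩
  have eA : Nm m (1 : ZMod p) 0 0 = matA m := by simp [Nm]
  have eB : Nm m (0 : ZMod p) 1 0 = matB m := by simp [Nm]
  simp only [Mt, sg_one, eA, eB, one_smul, Matrix.fromBlocks_multiply, Matrix.fromBlocks_inj,
    Matrix.mul_one, Matrix.one_mul, Matrix.zero_mul, Matrix.mul_zero, add_zero, zero_add] at hA hB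
  obtain ⟨-, hPA, -, -⟩ := hA
  obtain ⟨-, hPB, -, -⟩ := hB
  have E1 : ∀ k j : Fin m, P k.castSucc j.castSucc = S k j := fun k j => by
    rw [← mulA_apply m P k.castSucc j, hPA]
    exact Amul_castSucc m S k j
  have E2 : ∀ j : Fin m, P (Fin.last m) j.castSucc = 0 := fun j => by
    rw [← mulA_apply m P (Fin.last m) j, hPA]
    exact Amul_last m S j
  have E3 : ∀ k j : Fin m, P k.succ j.succ = S k j := fun k j => by
    rw [← mulB_apply m P k.succ j, hPB]
    exact Bmul_succ m S k j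
  have E4 : ∀ j : Fin m, P 0 j.succ = 0 := fun j => by
    rw [← mulB_apply m P 0 j, hPB]
    exact Bmul_zero m S j
  have hP := diag_const m P
    (fun a b ha hb => (E3 ⟨a, ha⟩ ⟨b, hb⟩).trans (E1 ⟨a, ha⟩ ⟨b, hb⟩).symm)
    (fun b hb => E2 ⟨b, hb⟩) (fun b hb => E4 ⟨b, hb⟩)
  have hS : S = (P 0 0) • (1 : Matrix (Fin m) (Fin m) (ZMod p)) := by
    ext k j
    rw [← E1 k j, hP]
    simp [Matrix.one_apply]
  refine ⟨P 0 0, ?_⟩
  rw [← Matrix.fromBlocks_one, Matrix.fromBlocks_smul, smul_zero, smul_zero, ← hP, ← hS]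

end mat

theorem root_one {p : ℕ} [Fact p.Prime] (n : ℕ) (hcop : Nat.Coprime n (p - 1)) (hn : 0 < n)
    (c : ZMod p) (hc : c ^ n = 1) : c = 1 := by
  have hc0 : c ≠ 0 := by
    rintro rfl
    rw [zero_pow hn.ne'] at hc
    exact zero_ne_one hc
  have h1 := ZMod.pow_card_sub_one_eq_one hc0
  have h2 : c ^ n.gcd (p - 1) = 1 := pow_gcd_eq_one.2 ⟨hc, h1⟩
  rw [Nat.Coprime] at hcop
  rwa [hcop, pow_one] at h2

/-- For every odd prime `p` there is a finite group `H` of order `2p³` which, for infinitely many `n`, embeds in the projective special linear group `PSL(n, p)` as a subgroup with trivial centralizer. -/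
theorem result
    (p : ℕ) [Fact p.Prime] (hp : p ≠ 2) :
    ∃ (H : Type) (_ : Group H) (_ : Finite H), Nat.card H = 2 * p ^ 3 ∧
      ∀ N : ℕ, ∃ n, N ≤ n ∧ ∃ φ : H →* Matrix.ProjectiveSpecialLinearGroup (Fin n) (ZMod p),
        Function.Injective φ ∧ Subgroup.centralizer (φ.range : Set (Matrix.ProjectiveSpecialLinearGroup (Fin n) (ZMod p))) = ⊥ := by
  refine ⟨HG p, inferInstance, Finite.of_equiv _ hgEquiv.symm, card_HG, ?_⟩
  intro N
  have hpr : p.Prime := Fact.out
  have hp3 : 3 ≤ p := by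
    have := hpr.two_le
    omega
  obtain ⟨m, hm⟩ : ∃ m, m = (p - 1) * (N + 1) := ⟨_, rfl⟩
  have hmN : N + 1 ≤ m := by
    rw [hm]
    exact Nat.le_mul_of_pos_left _ (by omega)
  have hm2 : 2 ≤ m := by
    have : 2 * (N + 1) ≤ (p - 1) * (N + 1) := Nat.mul_le_mul_right _ (by omega)
    omega
  have hmeven : Even m := by
    rw [hm]
    exact (hpr.even_sub_one hp).mul_right _
  have hcop : Nat.Coprime ((m + 1) + m) (p - 1) := by
    have e : (m + 1) + m = 1 + (2 * (N + 1)) * (p - 1) := by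
      rw [hm]; ring
    rw [e, Nat.coprime_add_mul_right_left]
    exact Nat.coprime_one_left _
  refine ⟨(m + 1) + m, by omega, ?_⟩
  let R := Matrix.reindexAlgEquiv (ZMod p) (ZMod p) (finSumFinEquiv : Fin (m + 1) ⊕ Fin m ≃ Fin ((m + 1) + m))
  let ρ : HG p →* Matrix.SpecialLinearGroup (Fin ((m + 1) + m)) (ZMod p) :=
    { toFun := fun h => ⟨R (Mt m h), by
        rw [Matrix.det_reindexAlgEquiv]; exact Mt_det m hmeven h⟩
      map_one' := by
        apply Subtype.ext
        show R (Mt m 1) = 1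
        rw [Mt_one, map_one]
      map_mul' := fun a b => by
        apply Subtype.ext
        show R (Mt m (a * b)) = R (Mt m a) * R (Mt m b)
        rw [Mt_mul, map_mul] }
  have hρ : ∀ h, (ρ h).1 = R (Mt m h) := fun h => rfl
  have hρinj : Function.Injective ρ := by
    intro a b hab
    have h1 : R (Mt m a) = R (Mt m b) := by rw [← hρ, ← hρ, hab]
    exact Mt_inj m hp hm2 (R.injective h1)
  have hcen : Subgroup.center (Matrix.SpecialLinearGroup (Fin ((m + 1) + m)) (ZMod p)) = ⊥ := by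
    rw [eq_bot_iff]
    intro A hA
    rw [Matrix.SpecialLinearGroup.mem_center_iff] at hA
    obtain ⟨r, hr, hrA⟩ := hA
    rw [Fintype.card_fin] at hr
    have hr1 := root_one _ hcop (by omega) r hr
    rw [Subgroup.mem_bot]
    apply Subtype.ext
    rw [← hrA, hr1]
    simp
  let π : Matrix.SpecialLinearGroup (Fin ((m + 1) + m)) (ZMod p) →*
      Matrix.ProjectiveSpecialLinearGroup (Fin ((m + 1) + m)) (ZMod p) := QuotientGroup.mk' _
  have hπs : Function.Surjective π := QuotientGroup.mk'_surjective _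
  have hπi : Function.Injective π := by
    rw [← MonoidHom.ker_eq_bot_iff, QuotientGroup.ker_mk', hcen]
  refine ⟨π.comp ρ, hπi.comp hρinj, ?_⟩
  rw [eq_bot_iff]
  intro x hx
  obtain ⟨g, rfl⟩ := hπs x
  rw [Subgroup.mem_centralizer_iff] at hx
  have hcomm : ∀ h : HG p, ρ h * g = g * ρ h := by
    intro h
    apply hπi
    rw [map_mul, map_mul]
    exact hx (π (ρ h)) ⟨h, rfl⟩
  have hT : ∀ h : HG p, R.symm g.1 * Mt m h = Mt m h * R.symm g.1 := by
    intro h
    apply R.injective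
    rw [map_mul, map_mul, AlgEquiv.apply_symm_apply, ← hρ,
      ← Matrix.SpecialLinearGroup.coe_mul, ← Matrix.SpecialLinearGroup.coe_mul, hcomm h]
  obtain ⟨c, hc⟩ := commutant m hp (R.symm g.1) hT
  have hg : g.1 = c • 1 := by
    have := congrArg R hc
    rw [AlgEquiv.apply_symm_apply, map_smul, map_one] at this
    exact this
  have hdet : c ^ ((m + 1) + m) = 1 := by
    have := g.2
    rw [hg, Matrix.det_smul, Matrix.det_one, Fintype.card_fin, mul_one] at this
    exact this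
  have hc1 := root_one _ hcop (by omega) c hdet
  rw [hc1, one_smul] at hg
  have hg1 : g = 1 := Subtype.ext hg
  rw [hg1, map_one]
  exact Subgroup.one_mem _

end Cfsg.Agent.S2533
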