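import Cfsg.Statements.S2537
import Cfsg.Agent.Helper40.PSL2Hall

set_option autoImplicit false
open Cfsg

namespace Cfsg.Agent.S2537

/-- Let `F` be a finite field with `q` elements of characteristic `p ≥ 5`, and `ε = 1` if `q ≡ 1 (mod 4)`, `ε = -1` otherwise. Then `PSL(2, F)` has a Hall `{2, 3}`-subgroup if and only if `3` divides `q − ε`, or the `{2,3}`-part of `q² − 1` is 24, or the `{2,3}`-part of `q² − 1` is 48 (the `{2,3}`-part of `m` being the largest divisor of `m` with no prime factor other than 2 and 3). -/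
theorem result {F : Type*} [Field F] [Fintype F] {p : ℕ} [Fact p.Prime] [CharP F p]
    (hp : 5 ≤ p) (q : ℕ) (hq : Fintype.card F = q) :
    (∃ H : Subgroup (Matrix.ProjectiveSpecialLinearGroup (Fin 2) F), Cfsg.IsPiHall ({2, 3} : Set ℕ) H) ↔
      (3 ∣ q - 1 ∧ q % 4 = 1) ∨ (3 ∣ q + 1 ∧ q % 4 = 3) ∨
        2 ^ (q ^ 2 - 1).factorization 2 * 3 ^ (q ^ 2 - 1).factorization 3 = 24 ∨
        2 ^ (q ^ 2 - 1).factorization 2 * 3 ^ (q ^ 2 - 1).factorization 3 = 48 := by
  subst hq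
  constructor
  · rintro ⟨H, hH⟩
    exact Cfsg.Agent.Helper40.PSL2Hall.hall_cases p hp H hH.1 hH.2
  · intro h
    obtain ⟨H, hH⟩ := Cfsg.Agent.Helper40.PSL2Hall.hall_exists p hp h
    exact ⟨H, hH⟩

end Cfsg.Agent.S2537
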