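import Cfsg.Statements.S2540
import Cfsg.Agent.Helper42.SLn

set_option autoImplicit false
open Cfsg

namespace Cfsg.Agent.S2540

open Cfsg.Agent.Helper42.SLn

section
variable {F : Type*} [Field F]

theorem exists_sq_ne_one [Fintype F] (h4 : 4 ≤ Fintype.card F) : ∃ a : F, a ≠ 0 ∧ a ^ 2 ≠ 1 := by
  classical
  have h1 : 0 < ((Finset.univ : Finset F) \ {0, 1, -1}).card := by
    have h3 := Finset.le_card_sdiff ({0, 1, -1} : Finset F) Finset.univ
    have h5 : ({0, 1, -1} : Finset F).card ≤ 3 := Finset.card_le_three
    rw [Finset.card_univ] at h3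
    omega
  obtain ⟨l, hl⟩ := Finset.card_pos.1 h1
  simp only [Finset.mem_sdiff, Finset.mem_univ, Finset.mem_insert, Finset.mem_singleton,
    true_and, not_or] at hl
  refine ⟨l, hl.1, fun h => ?_⟩
  rcases sq_eq_one_iff.1 h with h | h
  · exact hl.2.1 h
  · exact hl.2.2 h

theorem key {ι : Type*} [DecidableEq ι] [Fintype ι] [Nontrivial ι]
    (hperf : commutator (Matrix.SpecialLinearGroup ι F) = ⊤)
    (G : Subgroup (Matrix.GeneralLinearGroup ι F))
    (hG : ∀ s : Matrix.SpecialLinearGroup ι F, ∀ g ∈ G,
      (Matrix.SpecialLinearGroup.toGL s) * g * (Matrix.SpecialLinearGroup.toGL s)⁻¹ ∈ G) :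
    (∀ g ∈ G, ∃ c : F, (g : Matrix ι ι F) = c • (1 : Matrix ι ι F)) ∨
      (Matrix.SpecialLinearGroup.toGL : Matrix.SpecialLinearGroup ι F →* _).range ≤ G := by
  let N : Subgroup (Matrix.SpecialLinearGroup ι F) := G.comap Matrix.SpecialLinearGroup.toGL
  have hN : N.Normal := ⟨fun x hx s => by
    show Matrix.SpecialLinearGroup.toGL (s * x * s⁻¹) ∈ G
    rw [map_mul, map_mul, map_inv]
    exact hG s _ hx⟩
  rcases normal_le_center_or_eq_top hperf N with hcen | htop
  · left
    intro g hg
    by_contra hns
    have h1 : ¬ ∀ t : Matrix.TransvectionStruct ι F, Commute t.toMatrix (g : Matrix ι ι F) := by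
      intro hall
      obtain ⟨c, hc⟩ := Matrix.mem_range_scalar_of_commute_transvectionStruct hall
      apply hns
      refine ⟨c, ?_⟩
      rw [← hc]
      simp [Matrix.smul_one_eq_diagonal]
    push Not at h1
    obtain ⟨t, ht⟩ := h1
    have hc0 : Matrix.SpecialLinearGroup.toGL t.toSpecialLinearGroup * g *
        (Matrix.SpecialLinearGroup.toGL t.toSpecialLinearGroup)⁻¹ * g⁻¹ ∈ G :=
      G.mul_mem (hG _ g hg) (G.inv_mem hg)
    obtain ⟨c', hc'⟩ : ∃ c' : Matrix.SpecialLinearGroup ι F,
        Matrix.SpecialLinearGroup.toGL c' =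
          Matrix.SpecialLinearGroup.toGL t.toSpecialLinearGroup * g *
            (Matrix.SpecialLinearGroup.toGL t.toSpecialLinearGroup)⁻¹ * g⁻¹ := by
      have hdet : Matrix.GeneralLinearGroup.det
          (Matrix.SpecialLinearGroup.toGL t.toSpecialLinearGroup * g *
            (Matrix.SpecialLinearGroup.toGL t.toSpecialLinearGroup)⁻¹ * g⁻¹) = 1 := by
        rw [map_mul, map_mul, map_mul, map_inv, map_inv, mul_inv_cancel_comm, mul_inv_cancel]
      refine ⟨⟨(Matrix.SpecialLinearGroup.toGL t.toSpecialLinearGroup * g *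
            (Matrix.SpecialLinearGroup.toGL t.toSpecialLinearGroup)⁻¹ * g⁻¹ :
              Matrix.GeneralLinearGroup ι F).val, ?_⟩, ?_⟩
      · have := congrArg Units.val hdet
        rw [Matrix.GeneralLinearGroup.val_det_apply, Units.val_one] at this
        exact this
      · ext
        rfl
    have hc'N : c' ∈ N := by
      show Matrix.SpecialLinearGroup.toGL c' ∈ G
      rw [hc']
      exact hc0
    obtain ⟨r, hr, hrc⟩ := Matrix.SpecialLinearGroup.mem_center_iff.1 (hcen hc'N)
    have hgl : Matrix.SpecialLinearGroup.toGL c' * g *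
        Matrix.SpecialLinearGroup.toGL t.toSpecialLinearGroup =
        Matrix.SpecialLinearGroup.toGL t.toSpecialLinearGroup * g := by
      rw [hc']
      group
    have hmat : (c' : Matrix ι ι F) * (g : Matrix ι ι F) * t.toMatrix =
        t.toMatrix * (g : Matrix ι ι F) := by
      have := congrArg Units.val hgl
      simpa using this
    by_cases hr1 : r = 1
    · apply ht
      rw [← hrc, hr1] at hmat
      simp only [map_one, Matrix.one_mul] at hmat
      exact hmat.symm
    · -- the vector `v = g e_i` is an eigenvector of the transvection with eigenvalue `r`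
      have hv : ∀ k, (t.toSpecialLinearGroup •
          ((g : Matrix ι ι F).mulVec (Pi.single t.i (1 : F)))) k =
          r * ((g : Matrix ι ι F).mulVec (Pi.single t.i (1 : F))) k := by
        intro k
        have e1 : t.toSpecialLinearGroup • ((g : Matrix ι ι F).mulVec (Pi.single t.i (1 : F))) =
            (t.toMatrix * (g : Matrix ι ι F)).mulVec (Pi.single t.i (1 : F)) := by
          rw [Matrix.SpecialLinearGroup.smul_def, Matrix.smul_eq_mulVec, Matrix.mulVec_mulVec]
          rfl
        have e2 : t.toMatrix.mulVec (Pi.single t.i (1 : F)) = Pi.single t.i (1 : F) := by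
          have := Matrix.SpecialLinearGroup.transvection_smul_single_fst t.hij t.c
          rw [Matrix.SpecialLinearGroup.smul_def, Matrix.smul_eq_mulVec] at this
          exact this
        rw [e1, ← hmat, ← hrc, ← Matrix.mulVec_mulVec, e2, ← Matrix.mulVec_mulVec]
        simp [Matrix.smul_one_eq_diagonal, Matrix.mulVec_diagonal]
      simp only [Matrix.TransvectionStruct.toSpecialLinearGroup_def, transvection_smul_apply]
        at hv
      have hne : (g : Matrix ι ι F).mulVec (Pi.single t.i (1 : F)) ≠ 0 := by
        intro h0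
        have h3 : ((g⁻¹ : Matrix.GeneralLinearGroup ι F) : Matrix ι ι F).mulVec
            ((g : Matrix ι ι F).mulVec (Pi.single t.i (1 : F))) = Pi.single t.i (1 : F) := by
          rw [Matrix.mulVec_mulVec, ← Units.val_mul, inv_mul_cancel, Units.val_one,
            Matrix.one_mulVec]
        rw [h0, Matrix.mulVec_zero] at h3
        have := congrFun h3 t.i
        simp at this
      generalize (g : Matrix ι ι F).mulVec (Pi.single t.i (1 : F)) = v at hv hne
      apply hne
      have h1r : (1 - r) ≠ 0 := sub_ne_zero.2 (Ne.symm hr1)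
      have hj : v t.j = 0 := by
        have := hv t.j
        rw [if_neg t.hij.symm] at this
        have h5 : (1 - r) * v t.j = 0 := by linear_combination this
        exact (mul_eq_zero.1 h5).resolve_left h1r
      funext k
      have := hv k
      by_cases hk : k = t.i
      · subst hk
        rw [if_pos rfl, hj] at this
        have h5 : (1 - r) * v t.i = 0 := by linear_combination this
        exact (mul_eq_zero.1 h5).resolve_left h1r
      · rw [if_neg hk] at this
        have h5 : (1 - r) * v k = 0 := by linear_combination this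
        exact (mul_eq_zero.1 h5).resolve_left h1r
  · right
    rintro _ ⟨s, rfl⟩
    have : s ∈ N := htop ▸ Subgroup.mem_top s
    exact this

end

/-- Let F be a finite field and n ≥ 1, excluding the case n = 2 with #F ≤ 3. A subgroup of GL_n(F) that is normalized by every element of SL_n(F) either consists of scalar matrices or contains SL_n(F). -/
theorem result {F : Type*} [Field F] [Fintype F] (n : ℕ) (hn : 1 ≤ n) (hex : ¬ (n = 2 ∧ Fintype.card F ≤ 3)) (G : Subgroup (Matrix.GeneralLinearGroup (Fin n) F)) (hG : ∀ s : Matrix.SpecialLinearGroup (Fin n) F, ∀ g ∈ G, (Matrix.SpecialLinearGroup.toGL s) * g * (Matrix.SpecialLinearGroup.toGL s)⁻¹ ∈ G) : (∀ g ∈ G, ∃ c : F, (g : Matrix (Fin n) (Fin n) F) = c • (1 : Matrix (Fin n) (Fin n) F)) ∨ (Matrix.SpecialLinearGroup.toGL : Matrix.SpecialLinearGroup (Fin n) F →* _).range ≤ G := by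
  rcases Nat.lt_or_ge n 2 with h1 | h2
  · left
    intro g _
    have hn1 : n = 1 := by omega
    subst hn1
    refine ⟨(g : Matrix (Fin 1) (Fin 1) F) 0 0, ?_⟩
    ext i j
    rw [Subsingleton.elim i 0, Subsingleton.elim j 0]
    simp
  · have : Nontrivial (Fin n) := Fin.nontrivial_iff_two_le.2 h2
    have hperf : commutator (Matrix.SpecialLinearGroup (Fin n) F) = ⊤ := by
      rcases Nat.lt_or_ge n 3 with h3 | h3
      · have hn2 : n = 2 := by omega
        subst hn2
        have h4 : 4 ≤ Fintype.card F := by
          by_contra h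
          exact hex ⟨rfl, by omega⟩
        obtain ⟨a, ha, hasq⟩ := exists_sq_ne_one h4
        exact Matrix.SL2.commutator_eq_top ha hasq
      · exact commutator_eq_top_of_three (by rw [Fintype.card_fin]; exact h3)
    exact key hperf G hG

end Cfsg.Agent.S2540
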