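import Cfsg.Statements.S2541

set_option autoImplicit false
open Cfsg

namespace Cfsg.Agent.S2541

/-- every permutation of six points has order dividing 60 -/
theorem orderOf_dvd_sixty (σ : Equiv.Perm (Fin 6)) : orderOf σ ∣ 60 := by
  rw [← Equiv.Perm.lcm_cycleType, Multiset.lcm_dvd]
  intro b hb
  have h2 : 2 ≤ b := Equiv.Perm.two_le_of_mem_cycleType hb
  have h6 : b ≤ 6 := by
    have h1 := Equiv.Perm.le_card_support_of_mem_cycleType hb
    have h3 : σ.support.card ≤ Fintype.card (Fin 6) := Finset.card_le_univ _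
    simp only [Fintype.card_fin] at h3
    omega
  interval_cases b <;> decide

/-- the diagonal matrix `diag(u, 1)` as a homomorphism -/
noncomputable def diagHom (F : Type*) [Field F] : Fˣ →* GL (Fin 2) F :=
  Units.map ((Matrix.diagonalRingHom (Fin 2) F).toMonoidHom.comp
    (MonoidHom.mulSingle (fun _ : Fin 2 => F) 0))

theorem diagHom_apply_zero {F : Type*} [Field F] (u : Fˣ) :
    (diagHom F u : Matrix (Fin 2) (Fin 2) F) 0 0 = u := by
  simp [diagHom]

theorem diagHom_apply_one {F : Type*} [Field F] (u : Fˣ) :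
    (diagHom F u : Matrix (Fin 2) (Fin 2) F) 1 1 = 1 := by
  simp [diagHom]

theorem mk_diagHom_injective (F : Type*) [Field F] :
    Function.Injective ((Matrix.ProjGenLinGroup.mk (n := Fin 2) (R := F)).comp (diagHom F)) := by
  rw [injective_iff_map_eq_one]
  intro u hu
  rw [MonoidHom.comp_apply, Matrix.ProjGenLinGroup.mk_eq_one,
    Matrix.GeneralLinearGroup.center_eq_range_scalar] at hu
  obtain ⟨c, hc⟩ := hu
  have h0 := congrArg (fun M : GL (Fin 2) F => (M : Matrix (Fin 2) (Fin 2) F) 0 0) hc
  have h1 := congrArg (fun M : GL (Fin 2) F => (M : Matrix (Fin 2) (Fin 2) F) 1 1) hc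
  simp only [diagHom_apply_zero, diagHom_apply_one, Matrix.GeneralLinearGroup.coe_scalar] at h0 h1
  simp at h0 h1
  subst h1
  exact (Units.ext h0).symm

/-- Let F be a field with 9 elements. The symmetric group S_6 is not isomorphic to PGL_2(F) (although both have index-2 subgroups isomorphic to A_6). -/
theorem result {F : Type*} [Field F] [Fintype F] (hF : Fintype.card F = 9) : ¬ Nonempty (Equiv.Perm (Fin 6) ≃* Matrix.ProjGenLinGroup (Fin 2) F) := by
  classical
  rintro ⟨e⟩
  obtain ⟨ζ, hζ⟩ := IsCyclic.exists_generator (α := Fˣ)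
  have hord : orderOf ζ = 8 := by
    rw [orderOf_eq_card_of_forall_mem_zpowers hζ, Nat.card_eq_fintype_card, Fintype.card_units, hF]
  set g := (Matrix.ProjGenLinGroup.mk (n := Fin 2) (R := F)).comp (diagHom F) ζ with hg
  have hg8 : orderOf g = 8 := by
    rw [hg, orderOf_injective _ (mk_diagHom_injective F), hord]
  have h1 : orderOf (e.symm g) = 8 := by
    rw [MulEquiv.orderOf_eq, hg8]
  have h2 := orderOf_dvd_sixty (e.symm g)
  rw [h1] at h2
  revert h2
  decide

end Cfsg.Agent.S2541
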