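import Cfsg.Statements.S2542
import Cfsg.Agent.Helper57.Psl211
import Cfsg.Agent.Helper57.TwoTrans
import Cfsg.Agent.Helper57.PrimeSection
import Cfsg.Agent.Helper5.SLCard

set_option autoImplicit false
open Cfsg

namespace Cfsg.Agent.S2542

open Cfsg.Agent.Helper57 Matrix

instance fact_prime_11 : Fact (Nat.Prime 11) := ⟨by norm_num⟩

/-- `A₅` -/
abbrev A5 : Type := alternatingGroup (Fin 5)
/-- `SL(2, 11)` -/
abbrev S11 : Type := SpecialLinearGroup (Fin 2) (ZMod 11)
/-- `PSL(2, 11)` -/
abbrev P11 : Type := ProjectiveSpecialLinearGroup (Fin 2) (ZMod 11)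

/-- The coercion to pairs (self-map, matrix), as a monoid hom. -/
def coe211 : A5 × S11 →* Function.End (Fin 5) × Matrix (Fin 2) (Fin 2) (ZMod 11) where
  toFun g := (⇑(g.1 : Equiv.Perm (Fin 5)), g.2.1)
  map_one' := rfl
  map_mul' _ _ := rfl

theorem coe211_injective : Function.Injective coe211 := by
  intro x y h
  have h1 : (⇑(x.1 : Equiv.Perm (Fin 5)) : Fin 5 → Fin 5) = ⇑(y.1 : Equiv.Perm (Fin 5)) :=
    congrArg Prod.fst h
  have h2 : x.2.1 = y.2.1 := congrArg Prod.snd h
  exact Prod.ext (Subtype.ext (DFunLike.coe_injective h1)) (Subtype.ext h2)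

/-- decoding of a pair of codes -/
def dec211 (x : C211) : Function.End (Fin 5) × Matrix (Fin 2) (Fin 2) (ZMod 11) :=
  (P5.app x.1, Q2.toMat x.2)

theorem dec211_mul (x y : C211) : dec211 (c211mul x y) = dec211 x * dec211 y :=
  Prod.ext (P5.app_mul x.1 y.1) (Q2.toMat_mul x.2 y.2)

/-- the permutation `(0 1)(2 3)` -/
def permA : Equiv.Perm (Fin 5) := ⟨![1, 0, 3, 2, 4], ![1, 0, 3, 2, 4], by decide, by decide⟩
/-- the permutation `(0 2 4)` -/
def permB : Equiv.Perm (Fin 5) := ⟨![2, 1, 4, 3, 0], ![4, 1, 0, 3, 2], by decide, by decide⟩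

/-- the involution `α` -/
def gα : A5 := ⟨permA, Equiv.Perm.mem_alternatingGroup.2 (by decide)⟩
/-- the element `β` of order 3 -/
def gβ : A5 := ⟨permB, Equiv.Perm.mem_alternatingGroup.2 (by decide)⟩
/-- the matrix `a` -/
def ga : S11 := ⟨Q2.toMat g211A.2, by rw [Q2.det_toMat]; decide⟩
/-- the matrix `b` -/
def gb : S11 := ⟨Q2.toMat g211B.2, by rw [Q2.det_toMat]; decide⟩

/-- The subgroup `2.A₅` of `A₅ × SL(2, 11)`. -/
def Γ : Subgroup (A5 × S11) := Subgroup.closure {(gα, ga), (gβ, gb)}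

theorem Γ_sub : ∀ g ∈ Γ, ∃ x ∈ g211L, dec211 x = coe211 g :=
  closure_pair_subset_codes coe211 coe211_injective dec211 c211mul dec211_mul (gα, ga) (gβ, gb)
    g211A g211B (P5.one, Q2.one) rfl rfl (Prod.ext P5.app_one Q2.toMat_one) g211L g211L_one
    g211L_mulA g211L_mulB

theorem card_A5 : Nat.card A5 = 60 := by
  have : 2 * Nat.card A5 = Nat.factorial 5 := two_mul_card_alternatingGroup_fin 5 (by norm_num)
  have h5 : Nat.factorial 5 = 120 := by decide
  rw [h5] at this
  omega

theorem closure_αβ : Subgroup.closure ({gα, gβ} : Set A5) = ⊤ := by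
  set S := Subgroup.closure ({gα, gβ} : Set A5) with hS
  have hα : gα ∈ S := Subgroup.subset_closure (by simp)
  have hβ : gβ ∈ S := Subgroup.subset_closure (by simp)
  have : Fact (Nat.Prime 5) := ⟨by norm_num⟩
  have : Fact (Nat.Prime 3) := ⟨by norm_num⟩
  have h2 : orderOf gα = 2 := orderOf_eq_prime (by decide) (by decide)
  have h3 : orderOf gβ = 3 := orderOf_eq_prime (by decide) (by decide)
  have h5 : orderOf (gα * gβ) = 5 := orderOf_eq_prime (by decide) (by decide)
  have d2 : 2 ∣ Nat.card S := by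
    have := Subgroup.orderOf_dvd_natCard S hα
    rwa [h2] at this
  have d3 : 3 ∣ Nat.card S := by
    have := Subgroup.orderOf_dvd_natCard S hβ
    rwa [h3] at this
  have d5 : 5 ∣ Nat.card S := by
    have := Subgroup.orderOf_dvd_natCard S (S.mul_mem hα hβ)
    rwa [h5] at this
  have d6 : 6 ∣ Nat.card S := Nat.Coprime.mul_dvd_of_dvd_of_dvd (by norm_num) d2 d3
  have d30 : 30 ∣ Nat.card S := Nat.Coprime.mul_dvd_of_dvd_of_dvd (by norm_num) d6 d5
  have hidx := S.card_mul_index
  rw [card_A5] at hidx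
  obtain ⟨k, hk⟩ := d30
  have hk2 : k = 1 ∨ k = 2 := by
    have h60 : 30 * k * S.index = 60 := by rw [← hk]; exact hidx
    have hkpos : 0 < k := by
      rcases Nat.eq_zero_or_pos k with h | h
      · rw [h] at h60; simp at h60
      · exact h
    have hipos : 0 < S.index := by
      rcases Nat.eq_zero_or_pos S.index with h | h
      · rw [h] at h60; simp at h60
      · exact h
    have : k * S.index = 2 := by nlinarith
    have hle : k ≤ 2 := by nlinarith
    omega
  rcases hk2 with h | h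
  · exfalso
    have hc30 : Nat.card S = 30 := by rw [hk, h]
    have hi2 : S.index = 2 := by rw [hc30] at hidx; omega
    have hn : S.Normal := Subgroup.normal_of_index_eq_two hi2
    rcases hn.eq_bot_or_eq_top with hb | ht
    · rw [hb] at hc30
      simp at hc30
    · rw [ht] at hi2
      simp at hi2
  · apply Subgroup.eq_top_of_card_eq
    rw [hk, h, card_A5]

theorem Γ_fst : ∀ g : A5, ∃ m : S11, (g, m) ∈ Γ := by
  intro g
  have h : Subgroup.closure ({gα, gβ} : Set A5) ≤ Γ.map (MonoidHom.fst A5 S11) := by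
    rw [Subgroup.closure_le]
    rintro x (rfl | rfl)
    · exact ⟨(gα, ga), Subgroup.subset_closure (by simp), rfl⟩
    · exact ⟨(gβ, gb), Subgroup.subset_closure (by simp), rfl⟩
  have hg : g ∈ Γ.map (MonoidHom.fst A5 S11) := h (by rw [closure_αβ]; trivial)
  obtain ⟨⟨g', m⟩, hm, rfl⟩ := hg
  exact ⟨m, hm⟩

theorem ten_eq : (10 : ZMod 11) = -1 := by decide

theorem mem_center_of_neg (m : S11) (h : m.1 = -1) : m ∈ Subgroup.center S11 := by
  rw [Matrix.SpecialLinearGroup.mem_center_iff]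
  refine ⟨-1, by simp, ?_⟩
  rw [h]
  ext i j
  fin_cases i <;> fin_cases j <;> simp

theorem mk_eq_of_neg (x y : S11) (h : x.1 = -y.1) :
    (QuotientGroup.mk x : P11) = QuotientGroup.mk y := by
  apply QuotientGroup.eq.2
  apply mem_center_of_neg
  have hy : y.1 = -x.1 := by rw [h, neg_neg]
  show (x⁻¹).1 * y.1 = -1
  rw [hy, Matrix.mul_neg]
  congr 1
  have : (x⁻¹ * x).1 = 1 := by rw [inv_mul_cancel]; rfl
  exact this

theorem scalar_entry {m : S11} (hm : m ∈ Subgroup.center S11) : m.1 0 1 = 0 := by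
  rw [Matrix.SpecialLinearGroup.mem_center_iff] at hm
  obtain ⟨r, _, hr⟩ := hm
  rw [← hr]
  simp

/-- the transvections `t ↦ [[1, t], [0, 1]]` -/
def tv0 : Multiplicative (ZMod 11) →* S11 where
  toFun x := ⟨Q2.toMat ⟨1, Multiplicative.toAdd x, 0, 1⟩, by rw [Q2.det_toMat]; ring⟩
  map_one' := by
    apply Subtype.ext
    show Q2.toMat ⟨1, 0, 0, 1⟩ = 1
    exact Q2.toMat_one
  map_mul' x y := by
    apply Subtype.ext
    show Q2.toMat ⟨1, Multiplicative.toAdd x + Multiplicative.toAdd y, 0, 1⟩ =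
      Q2.toMat ⟨1, Multiplicative.toAdd x, 0, 1⟩ * Q2.toMat ⟨1, Multiplicative.toAdd y, 0, 1⟩
    rw [← Q2.toMat_mul]
    congr 1
    simp [Q2.mul, add_comm]

/-- their images in `PSL(2, 11)` -/
def tv : Multiplicative (ZMod 11) →* P11 := (QuotientGroup.mk' (Subgroup.center S11)).comp tv0

theorem tv_injective : Function.Injective tv := by
  rw [← MonoidHom.ker_eq_bot_iff, eq_bot_iff]
  intro x hx
  have h1 : (QuotientGroup.mk (tv0 x) : P11) = 1 := hx
  have h2 := scalar_entry ((QuotientGroup.eq_one_iff _).1 h1)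
  have h3 : Multiplicative.toAdd x = 0 := by
    have : (tv0 x).1 0 1 = Multiplicative.toAdd x := by
      show Q2.toMat ⟨1, Multiplicative.toAdd x, 0, 1⟩ 0 1 = _
      simp [Q2.toMat]
    rw [← this]; exact h2
  rw [Subgroup.mem_bot]
  exact h3

theorem main11 : ∃ H : Subgroup P11, H.index = 11 ∧ Nonempty (H ≃* A5) ∧
    MulAction.IsMultiplyPretransitive P11 (P11 ⧸ H) 2 := by
  classical
  let K : Subgroup (A5 × P11) :=
    Γ.map (MonoidHom.prodMap (MonoidHom.id A5) (QuotientGroup.mk' (Subgroup.center S11)))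
  have K_surj : ∀ g : A5, ∃ h : P11, (g, h) ∈ K := by
    intro g
    obtain ⟨m, hm⟩ := Γ_fst g
    exact ⟨QuotientGroup.mk m, ⟨(g, m), hm, rfl⟩⟩
  have K_inj : ∀ h : P11, ((1 : A5), h) ∈ K → h = 1 := by
    rintro h ⟨⟨g, m⟩, hgm, heq⟩
    have hg : g = 1 := congrArg Prod.fst heq
    have hm : (QuotientGroup.mk m : P11) = h := congrArg Prod.snd heq
    obtain ⟨x, hx, hxg⟩ := Γ_sub _ hgm
    have h1 : P5.app x.1 = ⇑(g.1 : Equiv.Perm (Fin 5)) := congrArg Prod.fst hxg
    have h2 : Q2.toMat x.2 = m.1 := congrArg Prod.snd hxg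
    have h3 : x.1 = P5.one := by
      apply P5.app_injective
      rw [h1, hg, P5.app_one]
      rfl
    rw [← hm]
    rcases g211L_fst_one x hx h3 with h4 | h4
    · have : m = 1 := by
        apply Subtype.ext
        rw [← h2, h4, Q2.toMat_one]
        rfl
      rw [this]
      rfl
    · apply (QuotientGroup.eq_one_iff _).2
      apply mem_center_of_neg
      rw [← h2, h4]
      ext i j
      fin_cases i <;> fin_cases j <;> simp [Q2.toMat, ten_eq]
  obtain ⟨φ, hφ⟩ := exists_hom_of_graph K K_surj K_inj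
  have hφα : φ gα = QuotientGroup.mk ga :=
    (hφ _ _).1 ⟨(gα, ga), Subgroup.subset_closure (by simp), rfl⟩
  have hφβ : φ gβ = QuotientGroup.mk gb :=
    (hφ _ _).1 ⟨(gβ, gb), Subgroup.subset_closure (by simp), rfl⟩
  have hinj : Function.Injective φ := by
    rw [← MonoidHom.ker_eq_bot_iff]
    rcases (MonoidHom.normal_ker φ).eq_bot_or_eq_top with h | h
    · exact h
    · exfalso
      have hg : gα ∈ φ.ker := by rw [h]; trivial
      have h1 : (QuotientGroup.mk ga : P11) = 1 := by rw [← hφα]; exact hg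
      have h2 := scalar_entry ((QuotientGroup.eq_one_iff _).1 h1)
      revert h2
      show Q2.toMat g211A.2 0 1 = 0 → False
      simp [Q2.toMat, g211A]
  let H : Subgroup P11 := φ.range
  have hHa : (QuotientGroup.mk ga : P11) ∈ H := ⟨gα, hφα⟩
  have hHb : (QuotientGroup.mk gb : P11) ∈ H := ⟨gβ, hφβ⟩
  have hcardH : Nat.card H = 60 := by
    rw [← card_A5]
    exact (Nat.card_congr (MonoidHom.ofInjective hinj).toEquiv).symm
  have h2ne : (2 : ZMod 11) ≠ 0 := by decide
  have hcardP : Nat.card P11 = 660 := by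
    have h1 : Nat.card P11 * Nat.card (Subgroup.center S11) =
        Fintype.card (ZMod 11) * (Fintype.card (ZMod 11) ^ 2 - 1) :=
      Helper5.card_PSL2_mul (F := ZMod 11)
    rw [Helper5.card_center_SL2 h2ne, ZMod.card] at h1
    have h3 : (11 : ℕ) * (11 ^ 2 - 1) = 1320 := by norm_num
    rw [h3] at h1
    omega
  have hidx : H.index = 11 := by
    have := H.card_mul_index
    rw [hcardH, hcardP] at this
    omega
  refine ⟨H, hidx, ⟨(MonoidHom.ofInjective hinj).symm⟩, ?_⟩
  -- the transvections avoid `H`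
  have htvH : ∀ x : Multiplicative (ZMod 11), tv x ∈ H → x = 1 := by
    intro x hx
    by_contra hne
    have hc11 : Nat.card (Multiplicative (ZMod 11)) = 11 := by
      rw [Nat.card_eq_fintype_card, Fintype.card_multiplicative, ZMod.card]
    have ho : orderOf x = 11 := by
      have hd := orderOf_dvd_natCard x
      rw [hc11] at hd
      rcases (Nat.dvd_prime (by norm_num)).1 hd with h | h
      · exact absurd (orderOf_eq_one_iff.1 h) hne
      · exact h
    have ho' : orderOf (tv x) = 11 := by rw [orderOf_injective tv tv_injective, ho]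
    have hd : 11 ∣ 60 := by
      rw [← ho', ← hcardH]
      exact Subgroup.orderOf_dvd_natCard H hx
    omega
  let f : Multiplicative (ZMod 11) → P11 ⧸ H := fun x => QuotientGroup.mk (tv x)
  have hf : Function.Injective f := by
    intro x y hxy
    have h1 : (tv x)⁻¹ * tv y ∈ H := QuotientGroup.eq.1 hxy
    rw [← map_inv, ← map_mul] at h1
    have := htvH _ h1
    exact inv_mul_eq_one.1 this
  have hfb : Function.Bijective f := by
    refine (Nat.bijective_iff_injective_and_card f).2 ⟨hf, ?_⟩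
    rw [Nat.card_eq_fintype_card, Fintype.card_multiplicative, ZMod.card]
    exact hidx.symm
  -- words in the generators lie in `H`
  have hword : ∀ w : List Bool, ∃ m : S11, m.1 = Q2.toMat (word211 w) ∧
      (QuotientGroup.mk m : P11) ∈ H := by
    intro w
    induction w with
    | nil => exact ⟨1, Q2.toMat_one.symm, H.one_mem⟩
    | cons g w ih =>
      obtain ⟨m, hm, hmH⟩ := ih
      cases g
      · refine ⟨ga * m, ?_, H.mul_mem hHa hmH⟩
        show ga.1 * m.1 = _
        rw [hm]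
        exact (Q2.toMat_mul _ _).symm
      · refine ⟨gb * m, ?_, H.mul_mem hHb hmH⟩
        show gb.1 * m.1 = _
        rw [hm]
        exact (Q2.toMat_mul _ _).symm
  apply two_pretransitive_of_stabilizer H (f (Multiplicative.ofAdd 1))
  intro y hy
  obtain ⟨x, rfl⟩ := hfb.2 y
  have ht : Multiplicative.toAdd x ≠ 0 := by
    intro h0
    apply hy
    have : x = 1 := h0
    rw [this]
    show ((tv 1 : P11) : P11 ⧸ H) = _
    rw [map_one]
  obtain ⟨p, hp, hpe⟩ := g211W_spec _ ht
  obtain ⟨m1, hm1, hm1H⟩ := hword p.1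
  obtain ⟨m2, hm2, hm2H⟩ := hword p.2
  refine ⟨QuotientGroup.mk m1, hm1H, ?_⟩
  show (QuotientGroup.mk m1 : P11) • ((tv (Multiplicative.ofAdd 1) : P11) : P11 ⧸ H) = (tv x : P11)
  rw [MulAction.Quotient.smul_mk, smul_eq_mul]
  apply QuotientGroup.eq.2
  have hprod : (QuotientGroup.mk (m1 * tv0 (Multiplicative.ofAdd 1) * m2) : P11) = tv x := by
    have hmat : (m1 * tv0 (Multiplicative.ofAdd 1) * m2).1 =
        Q2.toMat (Q2.mul (Q2.mul (word211 p.1) ⟨1, 1, 0, 1⟩) (word211 p.2)) := by
      rw [Q2.toMat_mul, Q2.toMat_mul, ← hm1, ← hm2]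
      rfl
    rcases hpe with h | h
    · rw [h] at hmat
      have : m1 * tv0 (Multiplicative.ofAdd 1) * m2 = tv0 x := Subtype.ext hmat
      rw [this]
      rfl
    · rw [h] at hmat
      apply mk_eq_of_neg
      rw [hmat]
      show Q2.toMat ⟨10, -Multiplicative.toAdd x, 0, 10⟩ = -Q2.toMat ⟨1, Multiplicative.toAdd x, 0, 1⟩
      ext i j
      fin_cases i <;> fin_cases j <;> simp [Q2.toMat, ten_eq]
  rw [← hprod]
  have : ((QuotientGroup.mk m1 : P11) * tv (Multiplicative.ofAdd 1))⁻¹ *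
      (QuotientGroup.mk (m1 * tv0 (Multiplicative.ofAdd 1) * m2) : P11) = QuotientGroup.mk m2 := by
    show ((QuotientGroup.mk m1 : P11) * QuotientGroup.mk (tv0 (Multiplicative.ofAdd 1)))⁻¹ *
      (QuotientGroup.mk (m1 * tv0 (Multiplicative.ofAdd 1) * m2) : P11) = QuotientGroup.mk m2
    rw [QuotientGroup.mk_mul, QuotientGroup.mk_mul]
    group
  rw [this]
  exact hm2H

/-- Let F be a field with 11 elements. PSL_2(F) has a subgroup H of index 11 isomorphic to the alternating group A_5, and the action of PSL_2(F) on the cosets of H is 2-transitive (of degree 11). -/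
theorem result {F : Type*} [Field F] [Fintype F] (hF : Fintype.card F = 11) : ∃ H : Subgroup (Matrix.ProjectiveSpecialLinearGroup (Fin 2) F), H.index = 11 ∧ Nonempty (H ≃* alternatingGroup (Fin 5)) ∧ MulAction.IsMultiplyPretransitive (Matrix.ProjectiveSpecialLinearGroup (Fin 2) F) ((Matrix.ProjectiveSpecialLinearGroup (Fin 2) F) ⧸ H) 2 := by
  have e11 : ZMod 11 ≃+* F := ZMod.ringEquivOfPrime F (by norm_num) hF
  obtain ⟨H, h1, ⟨h2⟩, h3⟩ := main11
  have E : P11 ≃* Matrix.ProjectiveSpecialLinearGroup (Fin 2) F := pslCongr e11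
  have k1 : (H.map (E : P11 →* Matrix.ProjectiveSpecialLinearGroup (Fin 2) F)).index = 11 := by
    rw [Subgroup.index_map_equiv]
    exact h1
  have k2 : ↥(H.map (E : P11 →* Matrix.ProjectiveSpecialLinearGroup (Fin 2) F)) ≃* A5 :=
    (E.subgroupMap H).symm.trans h2
  have k3 := two_pretransitive_map E H h3
  exact ⟨_, k1, ⟨k2⟩, k3⟩

end Cfsg.Agent.S2542
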