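import Cfsg.Statements.S2543
import Cfsg.Agent.Helper57.A5Class

set_option autoImplicit false
open scoped Pointwise
open Cfsg

namespace Cfsg.Agent.S2543

open Cfsg.Agent.Helper57 Cfsg.Agent.S2542 Matrix

/-- The statement, for a group `G`. -/
def Stmt (G : Type*) [Group G] : Prop :=
  Nat.card {H : Subgroup G // Nonempty (H ≃* alternatingGroup (Fin 5))} = 22 ∧
    ∃ H K : Subgroup G, Nonempty (H ≃* alternatingGroup (Fin 5)) ∧
      Nonempty (K ≃* alternatingGroup (Fin 5)) ∧ (∀ g : G, MulAut.conj g • H ≠ K) ∧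
      ∀ L : Subgroup G, Nonempty (L ≃* alternatingGroup (Fin 5)) →
        ∃ g : G, MulAut.conj g • L = H ∨ MulAut.conj g • L = K

theorem tv_sub (t t' : ZMod 11) : tv (Multiplicative.ofAdd (t - t')) =
    (tv (Multiplicative.ofAdd t'))⁻¹ * tv (Multiplicative.ofAdd t) := by
  rw [← map_inv, ← map_mul]
  congr 1
  rw [← ofAdd_neg, ← ofAdd_add]
  congr 1
  ring

theorem conj_tv_inj (X : Subgroup P11)
    (hn : ∀ t : ZMod 11, t ≠ 0 → MulAut.conj (tv (Multiplicative.ofAdd t)) • X ≠ X) (t t' : ZMod 11)
    (h : MulAut.conj (tv (Multiplicative.ofAdd t)) • X = MulAut.conj (tv (Multiplicative.ofAdd t')) • X) :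
    t = t' := by
  by_contra hne
  apply hn (t - t') (sub_ne_zero.2 hne)
  rw [tv_sub, map_mul, map_inv, mul_smul, h, inv_smul_smul]

theorem main11 : Stmt P11 := by
  classical
  obtain ⟨H, K, hHA, hKA, hH, hK⟩ := exists_copies
  have hHc := card_of_equiv_A5 H hHA
  have hKc := card_of_equiv_A5 K hKA
  have nHK : ∀ g : P11, MulAut.conj g • H ≠ K := by
    intro g h
    obtain ⟨t, h', hh', rfl⟩ := exists_tv_mul H hHc g
    rw [map_mul, mul_smul, Subgroup.conj_smul_eq_self_of_mem hh'] at h
    exact tv_conj_ne H K g211L g211K hH hK t (g211_HK t) h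
  have nHH : ∀ t : ZMod 11, t ≠ 0 → MulAut.conj (tv (Multiplicative.ofAdd t)) • H ≠ H :=
    fun t ht => tv_conj_ne H H g211L g211L hH hH t (g211_HH t ht)
  have nKK : ∀ t : ZMod 11, t ≠ 0 → MulAut.conj (tv (Multiplicative.ofAdd t)) • K ≠ K :=
    fun t ht => tv_conj_ne K K g211K g211K hK hK t (g211_KK t ht)
  have cls : ∀ L : Subgroup P11, Nonempty (L ≃* alternatingGroup (Fin 5)) →
      ∃ g : P11, MulAut.conj g • L = H ∨ MulAut.conj g • L = K :=
    fun L ⟨ψ⟩ => a5_class H K hH hK hHc hKc L ψ
  refine ⟨?_, H, K, hHA, hKA, nHK, cls⟩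
  let FH : ZMod 11 → {L : Subgroup P11 // Nonempty (L ≃* alternatingGroup (Fin 5))} := fun t =>
    ⟨MulAut.conj (tv (Multiplicative.ofAdd t)) • H,
      hHA.map (fun e => (Subgroup.equivSMul _ H).symm.trans e)⟩
  let FK : ZMod 11 → {L : Subgroup P11 // Nonempty (L ≃* alternatingGroup (Fin 5))} := fun t =>
    ⟨MulAut.conj (tv (Multiplicative.ofAdd t)) • K,
      hKA.map (fun e => (Subgroup.equivSMul _ K).symm.trans e)⟩
  have hbij : Function.Bijective (Sum.elim FH FK) := by
    constructor
    · rintro (t | t) (t' | t') h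
      · have h' : MulAut.conj (tv (Multiplicative.ofAdd t)) • H =
            MulAut.conj (tv (Multiplicative.ofAdd t')) • H := congrArg Subtype.val h
        rw [conj_tv_inj H nHH t t' h']
      · exfalso
        have h' : MulAut.conj (tv (Multiplicative.ofAdd t)) • H =
            MulAut.conj (tv (Multiplicative.ofAdd t')) • K := congrArg Subtype.val h
        apply nHK ((tv (Multiplicative.ofAdd t'))⁻¹ * tv (Multiplicative.ofAdd t))
        rw [map_mul, map_inv, mul_smul, h', inv_smul_smul]
      · exfalso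
        have h' : MulAut.conj (tv (Multiplicative.ofAdd t)) • K =
            MulAut.conj (tv (Multiplicative.ofAdd t')) • H := congrArg Subtype.val h
        apply nHK ((tv (Multiplicative.ofAdd t))⁻¹ * tv (Multiplicative.ofAdd t'))
        rw [map_mul, map_inv, mul_smul, ← h', inv_smul_smul]
      · have h' : MulAut.conj (tv (Multiplicative.ofAdd t)) • K =
            MulAut.conj (tv (Multiplicative.ofAdd t')) • K := congrArg Subtype.val h
        rw [conj_tv_inj K nKK t t' h']
    · rintro ⟨L, hL⟩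
      obtain ⟨γ, hγ | hγ⟩ := cls L hL
      · have hL' : L = MulAut.conj γ⁻¹ • H := by
          rw [← hγ, map_inv, inv_smul_smul]
        obtain ⟨t, h', hh', ht⟩ := exists_tv_mul H hHc γ⁻¹
        refine ⟨Sum.inl t, Subtype.ext ?_⟩
        show MulAut.conj (tv (Multiplicative.ofAdd t)) • H = L
        rw [hL', ht, map_mul, mul_smul, Subgroup.conj_smul_eq_self_of_mem hh']
      · have hL' : L = MulAut.conj γ⁻¹ • K := by
          rw [← hγ, map_inv, inv_smul_smul]
        obtain ⟨t, h', hh', ht⟩ := exists_tv_mul K hKc γ⁻¹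
        refine ⟨Sum.inr t, Subtype.ext ?_⟩
        show MulAut.conj (tv (Multiplicative.ofAdd t)) • K = L
        rw [hL', ht, map_mul, mul_smul, Subgroup.conj_smul_eq_self_of_mem hh']
  rw [← Nat.card_congr (Equiv.ofBijective _ hbij), Nat.card_eq_fintype_card, Fintype.card_sum,
    ZMod.card]

theorem transport {G G' : Type*} [Group G] [Group G'] (E : G ≃* G') (h : Stmt G) : Stmt G' := by
  obtain ⟨hcard, H, K, hH, hK, hne, hcls⟩ := h
  have key : ∀ X : Subgroup G, Nonempty (X ≃* alternatingGroup (Fin 5)) ↔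
      Nonempty ((X.map (E : G →* G')) ≃* alternatingGroup (Fin 5)) := fun X =>
    ⟨fun ⟨e⟩ => ⟨(E.subgroupMap X).symm.trans e⟩, fun ⟨e⟩ => ⟨(E.subgroupMap X).trans e⟩⟩
  have hconj : ∀ (g : G) (X : Subgroup G), (MulAut.conj g • X).map (E : G →* G') =
      MulAut.conj (E g) • X.map (E : G →* G') := by
    intro g X
    ext z
    obtain ⟨z, rfl⟩ := E.surjective z
    rw [mem_conj_smul]
    constructor
    · rintro ⟨w, hw, hwz⟩
      have : w = z := E.injective hwz
      subst this
      have hw' : w ∈ MulAut.conj g • X := hw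
      rw [mem_conj_smul] at hw'
      exact ⟨_, hw', by simp⟩
    · rintro ⟨w, hw, hwz⟩
      have : w = g⁻¹ * z * g := E.injective (by rw [map_mul, map_mul, map_inv]; exact hwz)
      subst this
      exact ⟨z, (mem_conj_smul g z X).2 hw, rfl⟩
  refine ⟨?_, H.map (E : G →* G'), K.map (E : G →* G'), (key H).1 hH, (key K).1 hK, ?_, ?_⟩
  · rw [← hcard]
    apply Nat.card_congr
    exact (Equiv.subtypeEquiv E.mapSubgroup.toEquiv (fun X => key X)).symm
  · intro g' h
    obtain ⟨g, rfl⟩ := E.surjective g'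
    rw [← hconj] at h
    exact hne g (Subgroup.map_injective E.injective h)
  · intro L' hL'
    have hL'eq : (L'.comap (E : G →* G')).map (E : G →* G') = L' :=
      Subgroup.map_comap_eq_self_of_surjective E.surjective L'
    have hL : Nonempty ((L'.comap (E : G →* G')) ≃* alternatingGroup (Fin 5)) :=
      (key _).2 (by rw [hL'eq]; exact hL')
    obtain ⟨g, hg⟩ := hcls _ hL
    refine ⟨E g, ?_⟩
    rw [← hL'eq, ← hconj]
    rcases hg with h | h
    · left; rw [h]
    · right; rw [h]

/-- Let F be a field with 11 elements. PSL_2(F) has exactly 22 subgroups isomorphic to the alternating group A_5, and they form two conjugacy classes: there are two such subgroups that are not conjugate, and every such subgroup is conjugate to one of these two. -/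
theorem result {F : Type*} [Field F] [Fintype F] (hF : Fintype.card F = 11) : Nat.card {H : Subgroup (Matrix.ProjectiveSpecialLinearGroup (Fin 2) F) // Nonempty (H ≃* alternatingGroup (Fin 5))} = 22 ∧ ∃ H K : Subgroup (Matrix.ProjectiveSpecialLinearGroup (Fin 2) F), Nonempty (H ≃* alternatingGroup (Fin 5)) ∧ Nonempty (K ≃* alternatingGroup (Fin 5)) ∧ (∀ g : Matrix.ProjectiveSpecialLinearGroup (Fin 2) F, MulAut.conj g • H ≠ K) ∧ ∀ L : Subgroup (Matrix.ProjectiveSpecialLinearGroup (Fin 2) F), Nonempty (L ≃* alternatingGroup (Fin 5)) → ∃ g : Matrix.ProjectiveSpecialLinearGroup (Fin 2) F, MulAut.conj g • L = H ∨ MulAut.conj g • L = K := by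
  have e11 : ZMod 11 ≃+* F := ZMod.ringEquivOfPrime F (by norm_num) hF
  exact transport (pslCongr e11) main11

end Cfsg.Agent.S2543
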