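import Cfsg.Statements.S2547
import Cfsg.Agent.Helper45.StOrth
import Cfsg.Agent.Helper91.StODD1
import Cfsg.Agent.Helper70.StINST

set_option autoImplicit false
open Cfsg

namespace Cfsg.Agent.S2547

/-- Let F be a finite field of characteristic p and consider the group PΩ_{2m+1}(F) of the quadratic form x₀² + Σ x_i y_i, where m ≥ 1 and #F is odd. This group has an irreducible complex character χ whose degree equals the order of a Sylow p-subgroup (namely q^(m²) when #F = q) and whose restriction to any Sylow p-subgroup P is the regular character of P: χ vanishes on the non-identity elements of P. (This is the Steinberg character.) -/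
theorem result {F : Type*} [Field F] [Fintype F] (p : ℕ) [Fact p.Prime] [CharP F p] (hodd : Odd (Fintype.card F)) (m : ℕ) (hm : 1 ≤ m) : ∃ χ : Cfsg.POmega F (Cfsg.quadFormOdd m F) → ℂ, Cfsg.IsIrrCharacter (Cfsg.POmega F (Cfsg.quadFormOdd m F)) χ ∧ ∀ P : Sylow p (Cfsg.POmega F (Cfsg.quadFormOdd m F)), χ 1 = Nat.card P ∧ ∀ x : Cfsg.POmega F (Cfsg.quadFormOdd m F), x ∈ P → x ≠ 1 → χ x = 0 := by
  classical
  rcases Nat.lt_or_ge m 2 with h | h
  · have hm1 : m = 1 := by omega
    subst hm1
    exact Cfsg.Agent.Helper91.StODD1.p_ODD1 p hodd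
  · have h2 : (2 : F) ≠ 0 := by
      intro h0
      have hc : CharP F 2 := by
        refine (CharP.charP_iff_prime_eq_zero Nat.prime_two).mpr ?_
        exact_mod_cast h0
      obtain ⟨n, -, hn⟩ := FiniteField.card F 2
      rw [hn] at hodd
      have : Even ((2 : ℕ) ^ (n : ℕ)) := (Nat.even_pow' n.ne_zero).mpr even_two
      exact (Nat.not_even_iff_odd.mpr hodd) this
    have D : Cfsg.Agent.Helper45.StOrth.Frame (Cfsg.Agent.Helper43.oddQF m F)
        (fun i : Fin m => (Sum.inr (Sum.inl i) : Unit ⊕ (Fin m ⊕ Fin m)))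
        (fun i : Fin m => Sum.inr (Sum.inr i)) (Pi.single (Sum.inl ()) (1 : F)) :=
      { hQ := Cfsg.Agent.Helper45.oddQF_nondeg' m h2
        H := Cfsg.Agent.Helper45.odd_hypPairs m
        hn := by
          simp only [Fintype.card_sum, Fintype.card_unit, Fintype.card_fin]
          omega
        hm := hm
        haniso := Cfsg.Agent.Helper70.StINST.p_ODDANISO m
        hv₀ := (Cfsg.Agent.Helper70.StINST.p_ODDV0 m).1
        hq₀ := (Cfsg.Agent.Helper70.StINST.p_ODDV0 m).2 }
    exact Cfsg.Agent.Helper45.StOrth.steinberg_B D p (fun hp2 => by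
      exfalso
      subst hp2
      apply h2
      exact_mod_cast CharP.cast_eq_zero F 2)

end Cfsg.Agent.S2547
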