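import Cfsg.Statements.S2548
import Cfsg.Agent.Helper45.StOrthD
import Cfsg.Agent.Helper37.StPLUS1
import Cfsg.Agent.Helper37.StPLUS2
import Cfsg.Agent.Helper6.StPLUS22

set_option autoImplicit false
open Cfsg

namespace Cfsg.Agent.S2548

/-- Let F be a finite field of characteristic p and consider the group PΩ⁺_{2m}(F) of the hyperbolic quadratic form Σ x_i y_i with m ≥ 1, where Ω denotes the commutator subgroup of the full isometry group. This group has an irreducible complex character χ whose degree equals the order of a Sylow p-subgroup (equal to q^(m(m−1)) when #F = q, except in the degenerate case m = 2, q = 2, where this commutator subgroup has order 18 and its Sylow 2-subgroups have order 2) and whose restriction to any Sylow p-subgroup P is the regular character of P: χ vanishes on the non-identity elements of P. (This is the Steinberg character.) -/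
theorem result {F : Type*} [Field F] [Fintype F] (p : ℕ) [Fact p.Prime] [CharP F p] (m : ℕ) (hm : 1 ≤ m) : ∃ χ : Cfsg.POmega F (Cfsg.quadFormPlus m F) → ℂ, Cfsg.IsIrrCharacter (Cfsg.POmega F (Cfsg.quadFormPlus m F)) χ ∧ ∀ P : Sylow p (Cfsg.POmega F (Cfsg.quadFormPlus m F)), χ 1 = Nat.card P ∧ ∀ x : Cfsg.POmega F (Cfsg.quadFormPlus m F), x ∈ P → x ≠ 1 → χ x = 0 := by
  classical
  rcases Nat.lt_or_ge m 3 with h | h
  · rcases Nat.lt_or_ge m 2 with h1 | h2
    · have hm1 : m = 1 := by omega
      subst hm1
      exact Cfsg.Agent.Helper37.StPLUS1.p_PLUS1 p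
    · have hm2 : m = 2 := by omega
      subst hm2
      by_cases hF : 3 ≤ Fintype.card F
      · exact Cfsg.Agent.Helper37.StPLUS2.p_PLUS2 p hF
      · have h2' : Fintype.card F = 2 := by
          have := Fintype.one_lt_card (α := F)
          omega
        exact Cfsg.Agent.Helper6.StPLUS22.p_PLUS22 p h2'
  · have D : Cfsg.Agent.Helper45.StOrthD.FrameD (Cfsg.Agent.Helper43.plusQF m F)
        (Sum.inl : Fin m → Fin m ⊕ Fin m) Sum.inr :=
      { hQ := Cfsg.Agent.Helper45.plusQF_nondeg' m
        H := Cfsg.Agent.Helper45.plus_hypPairs m
        hn := by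
          simp only [Fintype.card_sum, Fintype.card_fin]
          omega
        hm := h
        hV0 := by
          intro x hx
          funext a
          rcases a with i | i
          · exact hx (Sum.inl i)
          · exact hx (Sum.inr i) }
    exact Cfsg.Agent.Helper45.StOrthD.steinberg_D D p

end Cfsg.Agent.S2548
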