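import Cfsg.Statements.S2549
import Cfsg.Agent.Helper45.StOrth
import Cfsg.Agent.Helper66.StMIN0
import Cfsg.Agent.Helper78.StMIN1
import Cfsg.Agent.Helper70.StINST

set_option autoImplicit false
open Cfsg

namespace Cfsg.Agent.S2549

/-- Let F be a finite field of characteristic p and consider the group PΩ⁻_{2m+2}(F) of the quadratic form Σ_{i<m} x_i y_i + (z₁² + a z₁ z₂ + b z₂²) with anisotropic binary part, m ≥ 0. This group has an irreducible complex character χ whose degree equals the order of a Sylow p-subgroup (namely q^(m(m+1)) when #F = q) and whose restriction to any Sylow p-subgroup P is the regular character of P: χ vanishes on the non-identity elements of P. (This is the Steinberg character.) -/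
theorem result {F : Type*} [Field F] [Fintype F] (p : ℕ) [Fact p.Prime] [CharP F p] (m : ℕ) (a b : F) (hab : ∀ z₁ z₂ : F, z₁ ^ 2 + a * z₁ * z₂ + b * z₂ ^ 2 = 0 → z₁ = 0 ∧ z₂ = 0) : ∃ χ : Cfsg.POmega F (Cfsg.quadFormMinus m F a b) → ℂ, Cfsg.IsIrrCharacter (Cfsg.POmega F (Cfsg.quadFormMinus m F a b)) χ ∧ ∀ P : Sylow p (Cfsg.POmega F (Cfsg.quadFormMinus m F a b)), χ 1 = Nat.card P ∧ ∀ x : Cfsg.POmega F (Cfsg.quadFormMinus m F a b), x ∈ P → x ≠ 1 → χ x = 0 := by
  classical
  rcases Nat.lt_or_ge m 2 with h | h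
  · rcases Nat.lt_or_ge m 1 with h0 | h1
    · have hm0 : m = 0 := by omega
      subst hm0
      exact Cfsg.Agent.Helper66.StMIN0.p_MIN0 p a b hab
    · have hm1 : m = 1 := by omega
      subst hm1
      exact Cfsg.Agent.Helper78.StMIN1.p_MIN1 p a b hab
  · have D : Cfsg.Agent.Helper45.StOrth.Frame (Cfsg.Agent.Helper43.minusQF m F a b)
        (fun i : Fin m => (Sum.inl (Sum.inl i) : (Fin m ⊕ Fin m) ⊕ Fin 2))
        (fun i : Fin m => Sum.inl (Sum.inr i)) (Pi.single (Sum.inr 0) (1 : F)) :=
      { hQ := Cfsg.Agent.Helper45.minusQF_nondeg' m a b hab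
        H := Cfsg.Agent.Helper45.minus_hypPairs m a b
        hn := by
          simp only [Fintype.card_sum, Fintype.card_fin]
          omega
        hm := by omega
        haniso := Cfsg.Agent.Helper70.StINST.p_MINANISO m a b hab
        hv₀ := (Cfsg.Agent.Helper70.StINST.p_MINV0 m a b).1
        hq₀ := (Cfsg.Agent.Helper70.StINST.p_MINV0 m a b).2 }
    exact Cfsg.Agent.Helper45.StOrth.steinberg_B D p (fun _ => by
      simp only [Fintype.card_sum, Fintype.card_fin]
      omega)

end Cfsg.Agent.S2549
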