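import Cfsg.Statements.S2552

set_option autoImplicit false
open Cfsg

namespace Cfsg.Agent.S2552

/-- a linear endomorphism of determinant one gives an element of `SL` -/
theorem exists_sl_of_det {F : Type*} [Field F] (n : ℕ)
    (g : (Fin n → F) →ₗ[F] (Fin n → F)) (hg : LinearMap.det g = 1) :
    ∃ G : Matrix.SpecialLinearGroup (Fin n) F,
      ((Matrix.SpecialLinearGroup.toLin' G : (Fin n → F) ≃ₗ[F] (Fin n → F)) :
        (Fin n → F) →ₗ[F] (Fin n → F)) = g := by
  have hdet : (LinearMap.toMatrix' g).det = 1 := by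
    rw [LinearMap.det_toMatrix', hg]
  let G : Matrix.SpecialLinearGroup (Fin n) F := ⟨LinearMap.toMatrix' g, hdet⟩
  refine ⟨G, ?_⟩
  rw [Matrix.SpecialLinearGroup.toLin'_to_linearMap]
  exact Matrix.toLin'_toMatrix' g

/-- Let F be a finite field and n ≥ 1. For every k, the special linear group SL_n(F) acts transitively on the set of k-dimensional subspaces of F^n: any two subspaces of the same dimension are carried onto each other by some matrix of determinant 1. -/
theorem result {F : Type*} [Field F] [Fintype F] (n : ℕ) (hn : 1 ≤ n) (U₁ U₂ : Submodule F (Fin n → F)) (h : Module.finrank F U₁ = Module.finrank F U₂) : ∃ g : Matrix.SpecialLinearGroup (Fin n) F, U₁.map ((Matrix.SpecialLinearGroup.toLin' g : (Fin n → F) ≃ₗ[F] (Fin n → F)) : (Fin n → F) →ₗ[F] (Fin n → F)) = U₂ := by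
  classical
  by_cases hbot : U₂ = ⊥
  · -- both are trivial
    have h1 : U₁ = ⊥ := by
      rw [hbot, finrank_bot] at h
      exact Submodule.finrank_eq_zero.mp h
    refine ⟨1, ?_⟩
    rw [h1, hbot]
    simp
  · -- a linear equivalence carrying U₁ to U₂
    let f : U₁ ≃ₗ[F] U₂ := LinearEquiv.ofFinrankEq U₁ U₂ h
    obtain ⟨g, hg⟩ := Submodule.exists_linearEquiv_restrict_eq f
    have hmap : U₁.map (g : (Fin n → F) →ₗ[F] (Fin n → F)) = U₂ := by
      apply le_antisymm
      · rintro _ ⟨u, hu, rfl⟩
        have := hg ⟨u, hu⟩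
        show g u ∈ U₂
        rw [← this]
        exact (f ⟨u, hu⟩).2
      · intro w hw
        refine ⟨(f.symm ⟨w, hw⟩ : Fin n → F), (f.symm ⟨w, hw⟩).2, ?_⟩
        have := hg (f.symm ⟨w, hw⟩)
        show g (f.symm ⟨w, hw⟩ : Fin n → F) = w
        rw [← this, LinearEquiv.apply_symm_apply]
    -- fix the determinant with a dilation along a vector of U₂
    obtain ⟨u, hu, hu0⟩ := (Submodule.ne_bot_iff U₂).mp hbot
    obtain ⟨i, hi⟩ : ∃ i, u i ≠ 0 := by
      by_contra hcon
      push Not at hcon
      exact hu0 (funext hcon)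
    set d : F := LinearMap.det (g : (Fin n → F) →ₗ[F] (Fin n → F)) with hd
    have hd0 : d ≠ 0 := by
      have := LinearEquiv.isUnit_det' g
      exact this.ne_zero
    set c : F := d⁻¹ with hc
    have hc0 : c ≠ 0 := inv_ne_zero hd0
    let φ : Module.Dual F (Fin n → F) := ((c - 1) * (u i)⁻¹) • LinearMap.proj i
    have hφu : φ u = c - 1 := by
      simp only [φ, LinearMap.smul_apply, LinearMap.proj_apply, smul_eq_mul]
      field_simp
    let D : (Fin n → F) →ₗ[F] (Fin n → F) := LinearMap.transvection φ u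
    have hDdet : LinearMap.det D = c := by
      rw [LinearMap.transvection.det, hφu]; ring
    have hDmap : U₂.map D = U₂ := by
      apply le_antisymm
      · rintro _ ⟨w, hw, rfl⟩
        show w + φ w • u ∈ U₂
        exact U₂.add_mem hw (U₂.smul_mem _ hu)
      · intro w hw
        refine ⟨w - (φ w / c) • u, U₂.sub_mem hw (U₂.smul_mem _ hu), ?_⟩
        show (w - (φ w / c) • u) + φ (w - (φ w / c) • u) • u = w
        rw [map_sub, map_smul, hφu, smul_eq_mul, sub_add_eq_add_sub, add_sub_assoc, ← sub_smul]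
        have : φ w - φ w / c * (c - 1) - φ w / c = 0 := by
          field_simp
          ring
        rw [this, zero_smul, add_zero]
    obtain ⟨G, hG⟩ := exists_sl_of_det n (D ∘ₗ (g : (Fin n → F) →ₗ[F] (Fin n → F)))
      (by rw [LinearMap.det_comp, hDdet, ← hd, hc, inv_mul_cancel₀ hd0])
    refine ⟨G, ?_⟩
    rw [hG, Submodule.map_comp, hmap, hDmap]

end Cfsg.Agent.S2552
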