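import Cfsg.Statements.S2561
import Cfsg.Agent.Helper42.QuadF2

set_option autoImplicit false
open Cfsg

namespace Cfsg.Agent.S2561

open Cfsg.Agent.Helper42

theorem aux (n : ℕ) :
    Nat.card {q : (Fin (n + 1) ⊕ Fin (n + 1) → ZMod 2) → ZMod 2 // (∀ u v : (Fin (n + 1) ⊕ Fin (n + 1) → ZMod 2), q (u + v) = q u + q v + (Cfsg.quadFormPlus (n + 1) (ZMod 2) (u + v) - Cfsg.quadFormPlus (n + 1) (ZMod 2) u - Cfsg.quadFormPlus (n + 1) (ZMod 2) v))} = 2 ^ (2 * (n + 1)) ∧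
    (∀ q : (Fin (n + 1) ⊕ Fin (n + 1) → ZMod 2) → ZMod 2, (∀ u v : (Fin (n + 1) ⊕ Fin (n + 1) → ZMod 2), q (u + v) = q u + q v + (Cfsg.quadFormPlus (n + 1) (ZMod 2) (u + v) - Cfsg.quadFormPlus (n + 1) (ZMod 2) u - Cfsg.quadFormPlus (n + 1) (ZMod 2) v)) →
      (∃ g : (Fin (n + 1) ⊕ Fin (n + 1) → ZMod 2) ≃ₗ[ZMod 2] (Fin (n + 1) ⊕ Fin (n + 1) → ZMod 2), ∀ v, q v = Cfsg.quadFormPlus (n + 1) (ZMod 2) (g v)) ∨
      (∃ g : (Fin (n + 1) ⊕ Fin (n + 1) → ZMod 2) ≃ₗ[ZMod 2] ((Fin n ⊕ Fin n) ⊕ Fin 2 → ZMod 2), ∀ v, q v = Cfsg.quadFormMinus n (ZMod 2) 1 1 (g v))) ∧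
    Nat.card {q : (Fin (n + 1) ⊕ Fin (n + 1) → ZMod 2) → ZMod 2 // (∀ u v : (Fin (n + 1) ⊕ Fin (n + 1) → ZMod 2), q (u + v) = q u + q v + (Cfsg.quadFormPlus (n + 1) (ZMod 2) (u + v) - Cfsg.quadFormPlus (n + 1) (ZMod 2) u - Cfsg.quadFormPlus (n + 1) (ZMod 2) v)) ∧ ∃ g : (Fin (n + 1) ⊕ Fin (n + 1) → ZMod 2) ≃ₗ[ZMod 2] (Fin (n + 1) ⊕ Fin (n + 1) → ZMod 2), ∀ v, q v = Cfsg.quadFormPlus (n + 1) (ZMod 2) (g v)} = 2 ^ (2 * (n + 1) - 1) + 2 ^ n ∧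
    Nat.card {q : (Fin (n + 1) ⊕ Fin (n + 1) → ZMod 2) → ZMod 2 // (∀ u v : (Fin (n + 1) ⊕ Fin (n + 1) → ZMod 2), q (u + v) = q u + q v + (Cfsg.quadFormPlus (n + 1) (ZMod 2) (u + v) - Cfsg.quadFormPlus (n + 1) (ZMod 2) u - Cfsg.quadFormPlus (n + 1) (ZMod 2) v)) ∧ ∃ g : (Fin (n + 1) ⊕ Fin (n + 1) → ZMod 2) ≃ₗ[ZMod 2] ((Fin n ⊕ Fin n) ⊕ Fin 2 → ZMod 2), ∀ v, q v = Cfsg.quadFormMinus n (ZMod 2) 1 1 (g v)} = 2 ^ (2 * (n + 1) - 1) - 2 ^ n := by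
  simp only [isPol_iff]
  -- plus type forces Q a = 0, minus type forces Q a = 1
  have hplus : ∀ a : Fin (n + 1) ⊕ Fin (n + 1) → ZMod 2,
      (∃ g : (Fin (n + 1) ⊕ Fin (n + 1) → ZMod 2) ≃ₗ[ZMod 2] (Fin (n + 1) ⊕ Fin (n + 1) → ZMod 2),
        ∀ v, qa (n + 1) a v = Cfsg.quadFormPlus (n + 1) (ZMod 2) (g v)) →
      Cfsg.quadFormPlus (n + 1) (ZMod 2) a = 0 := by
    rintro a ⟨g, hg⟩
    have h1 : signSum (qa (n + 1) a) = signSum (Cfsg.quadFormPlus (n + 1) (ZMod 2)) := by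
      rw [← signSum_comp_equiv g.toEquiv (Cfsg.quadFormPlus (n + 1) (ZMod 2))]
      congr 1
      funext v
      exact hg v
    rw [signSum_qa, signSum_plus] at h1
    rcases zmod2_cases (Cfsg.quadFormPlus (n + 1) (ZMod 2) a) with h | h
    · exact h
    · rw [h, chi_one] at h1
      have : (0 : ℤ) < 2 ^ (n + 1) := by positivity
      linarith
  have hminus : ∀ a : Fin (n + 1) ⊕ Fin (n + 1) → ZMod 2,
      (∃ g : (Fin (n + 1) ⊕ Fin (n + 1) → ZMod 2) ≃ₗ[ZMod 2] ((Fin n ⊕ Fin n) ⊕ Fin 2 → ZMod 2),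
        ∀ v, qa (n + 1) a v = Cfsg.quadFormMinus n (ZMod 2) 1 1 (g v)) →
      Cfsg.quadFormPlus (n + 1) (ZMod 2) a = 1 := by
    rintro a ⟨g, hg⟩
    have h1 : signSum (qa (n + 1) a) = signSum (Cfsg.quadFormMinus n (ZMod 2) 1 1) := by
      rw [← signSum_comp_equiv g.toEquiv (Cfsg.quadFormMinus n (ZMod 2) 1 1)]
      congr 1
      funext v
      exact hg v
    rw [signSum_qa, signSum_plus, signSum_minus] at h1
    rcases zmod2_cases (Cfsg.quadFormPlus (n + 1) (ZMod 2) a) with h | h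
    · rw [h, chi_zero] at h1
      have : (0 : ℤ) < 2 ^ (n + 1) := by positivity
      linarith
    · exact h
  have hplus' : ∀ a : Fin (n + 1) ⊕ Fin (n + 1) → ZMod 2,
      Cfsg.quadFormPlus (n + 1) (ZMod 2) a = 0 →
      (∃ g : (Fin (n + 1) ⊕ Fin (n + 1) → ZMod 2) ≃ₗ[ZMod 2] (Fin (n + 1) ⊕ Fin (n + 1) → ZMod 2),
        ∀ v, qa (n + 1) a v = Cfsg.quadFormPlus (n + 1) (ZMod 2) (g v)) := by
    intro a ha
    refine ⟨shiftEquiv (n + 1) (a + 0), fun v => ?_⟩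
    rw [qa_comp_shift (n + 1) a 0 (by rw [ha, (quadFormPlus_isPol (n + 1)).zero]) v, qa_zero]
  have hminus' : ∀ a : Fin (n + 1) ⊕ Fin (n + 1) → ZMod 2,
      Cfsg.quadFormPlus (n + 1) (ZMod 2) a = 1 →
      (∃ g : (Fin (n + 1) ⊕ Fin (n + 1) → ZMod 2) ≃ₗ[ZMod 2] ((Fin n ⊕ Fin n) ⊕ Fin 2 → ZMod 2),
        ∀ v, qa (n + 1) a v = Cfsg.quadFormMinus n (ZMod 2) 1 1 (g v)) := by
    intro a ha
    refine ⟨(shiftEquiv (n + 1) (a + a0 n)).trans (reidx n), fun v => ?_⟩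
    rw [qa_comp_shift (n + 1) a (a0 n) (by rw [ha, quadFormPlus_a0]) v, LinearEquiv.trans_apply,
      quadFormMinus_reidx]
  refine ⟨?_, ?_, ?_, ?_⟩
  · -- count of all polar forms
    have e : (Fin (n + 1) ⊕ Fin (n + 1) → ZMod 2) ≃
        {q : (Fin (n + 1) ⊕ Fin (n + 1) → ZMod 2) → ZMod 2 // IsPol (n + 1) q} :=
      Equiv.ofBijective (fun a => ⟨qa (n + 1) a, qa_isPol (n + 1) a⟩)
        ⟨fun a a' h => qa_injective (n + 1) (congrArg Subtype.val h),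
         fun ⟨q, hq⟩ => by
          obtain ⟨a, rfl⟩ := exists_of_isPol hq
          exact ⟨a, rfl⟩⟩
    rw [← Nat.card_congr e, Nat.card_eq_fintype_card, card_space]
  · intro q hq
    obtain ⟨a, rfl⟩ := exists_of_isPol hq
    rcases zmod2_cases (Cfsg.quadFormPlus (n + 1) (ZMod 2) a) with h | h
    · exact Or.inl (hplus' a h)
    · exact Or.inr (hminus' a h)
  · have e : {a : Fin (n + 1) ⊕ Fin (n + 1) → ZMod 2 // Cfsg.quadFormPlus (n + 1) (ZMod 2) a = 0} ≃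
        {q : (Fin (n + 1) ⊕ Fin (n + 1) → ZMod 2) → ZMod 2 // IsPol (n + 1) q ∧
          ∃ g : (Fin (n + 1) ⊕ Fin (n + 1) → ZMod 2) ≃ₗ[ZMod 2] (Fin (n + 1) ⊕ Fin (n + 1) → ZMod 2),
            ∀ v, q v = Cfsg.quadFormPlus (n + 1) (ZMod 2) (g v)} :=
      Equiv.ofBijective (fun a => ⟨qa (n + 1) a.1, qa_isPol (n + 1) a.1, hplus' a.1 a.2⟩)
        ⟨fun a a' h => Subtype.ext (qa_injective (n + 1) (congrArg Subtype.val h)),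
         fun ⟨q, hq, hg⟩ => by
          obtain ⟨a, rfl⟩ := exists_of_isPol hq
          exact ⟨⟨a, hplus a hg⟩, rfl⟩⟩
    rw [← Nat.card_congr e]
    have h := two_mul_card_plus_zeros (n + 1)
    have h2 : 2 * (n + 1) - 1 = 2 * n + 1 := by omega
    rw [h2]
    have h3 : 2 ^ (2 * (n + 1)) = 2 * 2 ^ (2 * n + 1) := by
      rw [show 2 * (n + 1) = (2 * n + 1) + 1 by ring, pow_succ]; ring
    have h4 : 2 ^ (n + 1) = 2 * 2 ^ n := by rw [pow_succ]; ring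
    omega
  · have e : {a : Fin (n + 1) ⊕ Fin (n + 1) → ZMod 2 // Cfsg.quadFormPlus (n + 1) (ZMod 2) a = 1} ≃
        {q : (Fin (n + 1) ⊕ Fin (n + 1) → ZMod 2) → ZMod 2 // IsPol (n + 1) q ∧
          ∃ g : (Fin (n + 1) ⊕ Fin (n + 1) → ZMod 2) ≃ₗ[ZMod 2] ((Fin n ⊕ Fin n) ⊕ Fin 2 → ZMod 2),
            ∀ v, q v = Cfsg.quadFormMinus n (ZMod 2) 1 1 (g v)} :=
      Equiv.ofBijective (fun a => ⟨qa (n + 1) a.1, qa_isPol (n + 1) a.1, hminus' a.1 a.2⟩)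
        ⟨fun a a' h => Subtype.ext (qa_injective (n + 1) (congrArg Subtype.val h)),
         fun ⟨q, hq, hg⟩ => by
          obtain ⟨a, rfl⟩ := exists_of_isPol hq
          exact ⟨⟨a, hminus a hg⟩, rfl⟩⟩
    rw [← Nat.card_congr e]
    have h := two_mul_card_plus_ones (n + 1)
    have h2 : 2 * (n + 1) - 1 = 2 * n + 1 := by omega
    rw [h2]
    have h3 : 2 ^ (2 * (n + 1)) = 2 * 2 ^ (2 * n + 1) := by
      rw [show 2 * (n + 1) = (2 * n + 1) + 1 by ring, pow_succ]; ring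
    have h4 : 2 ^ (n + 1) = 2 * 2 ^ n := by rw [pow_succ]; ring
    omega

/-- Fix the non-singular alternating form on the 2m-dimensional space over the field of two elements obtained by polarizing the plus-type form Σ xᵢyᵢ (m ≥ 1). The functions q on the space with q(u + v) = q(u) + q(v) + f(u, v) (the quadratic forms polarizing to f) number 2^(2m); each is equivalent under an invertible linear map either to the plus-type form or to the minus-type form Σ xᵢyᵢ + (z₁² + z₁z₂ + z₂²); and those of plus type number 2^(2m−1) + 2^(m−1), those of minus type 2^(2m−1) − 2^(m−1). -/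
theorem result (m : ℕ) (hm : 1 ≤ m) :
    Nat.card {q : (Fin m ⊕ Fin m → ZMod 2) → ZMod 2 // (∀ u v : (Fin m ⊕ Fin m → ZMod 2), q (u + v) = q u + q v + (Cfsg.quadFormPlus m (ZMod 2) (u + v) - Cfsg.quadFormPlus m (ZMod 2) u - Cfsg.quadFormPlus m (ZMod 2) v))} = 2 ^ (2 * m) ∧
    (∀ q : (Fin m ⊕ Fin m → ZMod 2) → ZMod 2, (∀ u v : (Fin m ⊕ Fin m → ZMod 2), q (u + v) = q u + q v + (Cfsg.quadFormPlus m (ZMod 2) (u + v) - Cfsg.quadFormPlus m (ZMod 2) u - Cfsg.quadFormPlus m (ZMod 2) v)) →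
      (∃ g : (Fin m ⊕ Fin m → ZMod 2) ≃ₗ[ZMod 2] (Fin m ⊕ Fin m → ZMod 2), ∀ v, q v = Cfsg.quadFormPlus m (ZMod 2) (g v)) ∨
      (∃ g : (Fin m ⊕ Fin m → ZMod 2) ≃ₗ[ZMod 2] ((Fin (m - 1) ⊕ Fin (m - 1)) ⊕ Fin 2 → ZMod 2), ∀ v, q v = Cfsg.quadFormMinus (m - 1) (ZMod 2) 1 1 (g v))) ∧
    Nat.card {q : (Fin m ⊕ Fin m → ZMod 2) → ZMod 2 // (∀ u v : (Fin m ⊕ Fin m → ZMod 2), q (u + v) = q u + q v + (Cfsg.quadFormPlus m (ZMod 2) (u + v) - Cfsg.quadFormPlus m (ZMod 2) u - Cfsg.quadFormPlus m (ZMod 2) v)) ∧ ∃ g : (Fin m ⊕ Fin m → ZMod 2) ≃ₗ[ZMod 2] (Fin m ⊕ Fin m → ZMod 2), ∀ v, q v = Cfsg.quadFormPlus m (ZMod 2) (g v)} = 2 ^ (2 * m - 1) + 2 ^ (m - 1) ∧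
    Nat.card {q : (Fin m ⊕ Fin m → ZMod 2) → ZMod 2 // (∀ u v : (Fin m ⊕ Fin m → ZMod 2), q (u + v) = q u + q v + (Cfsg.quadFormPlus m (ZMod 2) (u + v) - Cfsg.quadFormPlus m (ZMod 2) u - Cfsg.quadFormPlus m (ZMod 2) v)) ∧ ∃ g : (Fin m ⊕ Fin m → ZMod 2) ≃ₗ[ZMod 2] ((Fin (m - 1) ⊕ Fin (m - 1)) ⊕ Fin 2 → ZMod 2), ∀ v, q v = Cfsg.quadFormMinus (m - 1) (ZMod 2) 1 1 (g v)} = 2 ^ (2 * m - 1) - 2 ^ (m - 1) := by
  obtain ⟨n, rfl⟩ : ∃ n, m = n + 1 := ⟨m - 1, by omega⟩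
  exact aux n

end Cfsg.Agent.S2561
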