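import Cfsg.Statements.S2563
import Cfsg.Agent.Helper43.SymFrames

set_option autoImplicit false
open Cfsg

namespace Cfsg.Agent.S2563

open Cfsg.Agent.Helper43 Cfsg.Agent.Helper43.TwoFam Cfsg.Agent.Helper43.SymOrth
  Cfsg.Agent.Helper43.SymModel Matrix


/-- For k ≥ 1 the symmetric group of degree 4k + 4 embeds in a full orthogonal group in dimension 4k + 2 over the field of two elements: in the isometry group of the plus-type form Σ xᵢyᵢ when k is odd, and in that of the minus-type form Σ xᵢyᵢ + (z₁² + z₁z₂ + z₂²) when k is even (through its action on even partitions of a (4k+4)-set, with the form 'half the size of a part, modulo 2'). -/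
theorem result (k : ℕ) (hk : 1 ≤ k) :
    (Odd k → ∃ φ : Equiv.Perm (Fin (4 * k + 4)) →* ↥(Cfsg.isometryGroup (ZMod 2) (Cfsg.quadFormPlus (2 * k + 1) (ZMod 2))), Function.Injective φ) ∧
    (Even k → ∃ φ : Equiv.Perm (Fin (4 * k + 4)) →* ↥(Cfsg.isometryGroup (ZMod 2) (Cfsg.quadFormMinus (2 * k) (ZMod 2) 1 1)), Function.Injective φ) := by
  have hmodd : Odd (2 * k + 1) := ⟨k, rfl⟩
  have hm2 : 2 ≤ 2 * k + 1 := by omega
  have hcard : Fintype.card (Fin (4 * k + 4))
      = Fintype.card (Fin (2 * k + 1 + 1) ⊕ Fin (2 * k + 1 + 1)) := by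
    simp only [Fintype.card_sum, Fintype.card_fin]
    omega
  let ε : Fin (4 * k + 4) ≃ Fin (2 * k + 1 + 1) ⊕ Fin (2 * k + 1 + 1) :=
    Fintype.equivOfCardEq hcard
  let ψ : Equiv.Perm (Fin (4 * k + 4)) →* ↥(Cfsg.isometryGroup (ZMod 2) (Qm (2 * k + 1))) :=
    (symHom (2 * k + 1) hmodd).comp (ε.permCongrHom).toMonoidHom
  have hψ : Function.Injective ψ :=
    (symHom_injective (2 * k + 1) hmodd hm2).comp (ε.permCongrHom).injective
  constructor
  · intro hodd
    obtain ⟨P, P', h1, h2, hQ⟩ := exists_plus k hodd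
    exact ⟨(conjIso P' P h2 h1 (Q_inv_mulVec P P' h1 hQ)).comp ψ,
      (conjIso_injective P' P h2 h1 (Q_inv_mulVec P P' h1 hQ)).comp hψ⟩
  · intro heven
    obtain ⟨P, P', h1, h2, hQ⟩ := exists_minus k heven
    exact ⟨(conjIso P' P h2 h1 (Q_inv_mulVec P P' h1 hQ)).comp ψ,
      (conjIso_injective P' P h2 h1 (Q_inv_mulVec P P' h1 hQ)).comp hψ⟩

end Cfsg.Agent.S2563
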