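import Cfsg.Statements.S2564
-- import your own Cfsg.Agent.* helpers here

set_option autoImplicit false
open Cfsg

namespace Cfsg.Agent.S2564

/-- the polar form of the plus-type form over `ZMod 2` -/
def pf (m : ℕ) (u v : Fin m ⊕ Fin m → ZMod 2) : ZMod 2 :=
  ∑ i : Fin m, (u (Sum.inl i) * v (Sum.inr i) + u (Sum.inr i) * v (Sum.inl i))

theorem pf_eq (m : ℕ) (u v : Fin m ⊕ Fin m → ZMod 2) :
    Cfsg.quadFormPlus m (ZMod 2) (u + v) - Cfsg.quadFormPlus m (ZMod 2) u
      - Cfsg.quadFormPlus m (ZMod 2) v = pf m u v := by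
  unfold Cfsg.quadFormPlus pf
  rw [← Finset.sum_sub_distrib, ← Finset.sum_sub_distrib]
  refine Finset.sum_congr rfl fun i _ => ?_
  simp only [Pi.add_apply]
  ring

theorem pf_add_left (m : ℕ) (u v w : Fin m ⊕ Fin m → ZMod 2) :
    pf m (u + v) w = pf m u w + pf m v w := by
  unfold pf
  rw [← Finset.sum_add_distrib]
  refine Finset.sum_congr rfl fun i _ => ?_
  simp only [Pi.add_apply]
  ring

theorem pf_add_right (m : ℕ) (u v w : Fin m ⊕ Fin m → ZMod 2) :
    pf m u (v + w) = pf m u v + pf m u w := by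
  unfold pf
  rw [← Finset.sum_add_distrib]
  refine Finset.sum_congr rfl fun i _ => ?_
  simp only [Pi.add_apply]
  ring

theorem pf_self (m : ℕ) (u : Fin m ⊕ Fin m → ZMod 2) : pf m u u = 0 := by
  unfold pf
  apply Finset.sum_eq_zero
  intro i _
  have : ∀ a b : ZMod 2, a * b + b * a = 0 := by decide
  exact this _ _

theorem pf_zero_left (m : ℕ) (v : Fin m ⊕ Fin m → ZMod 2) : pf m 0 v = 0 := by
  simp [pf]

theorem pf_nondeg (m : ℕ) (t : Fin m ⊕ Fin m → ZMod 2) (ht : t ≠ 0) : ∃ v0, pf m t v0 = 1 := by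
  classical
  have : ∃ k, t k ≠ 0 := by
    by_contra hcon
    exact ht (funext fun k => by_contra fun hk => hcon ⟨k, hk⟩)
  obtain ⟨k, hk⟩ := this
  have h1 : ∀ a : ZMod 2, a ≠ 0 → a = 1 := by decide
  have hk1 := h1 _ hk
  rcases k with i | i
  · refine ⟨Pi.single (Sum.inr i) 1, ?_⟩
    simp [pf, Pi.single_apply, hk1]
  · refine ⟨Pi.single (Sum.inl i) 1, ?_⟩
    simp [pf, Pi.single_apply, hk1]

/-- the sign character of `ZMod 2` -/
def chi (x : ZMod 2) : ℤ := if x = 0 then 1 else -1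

theorem chi_add : ∀ a b : ZMod 2, chi (a + b) = chi a * chi b := by decide

theorem chi_add_one : ∀ a : ZMod 2, chi (a + 1) = - chi a := by decide

theorem chi_aux : ∀ a b c : ZMod 2, chi (a + b + c) * chi b = chi a * chi c := by decide

theorem inner_sum (m : ℕ) (t : Fin m ⊕ Fin m → ZMod 2) :
    ∑ v : Fin m ⊕ Fin m → ZMod 2, chi (pf m t v) =
      if t = 0 then (Fintype.card (Fin m ⊕ Fin m → ZMod 2) : ℤ) else 0 := by
  split_ifs with h
  · subst h
    simp [pf_zero_left, chi]
  · obtain ⟨v0, hv0⟩ := pf_nondeg m t h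
    have : ∑ v : Fin m ⊕ Fin m → ZMod 2, chi (pf m t v)
        = - ∑ v : Fin m ⊕ Fin m → ZMod 2, chi (pf m t v) := by
      conv_lhs => rw [← Equiv.sum_comp (Equiv.addRight v0)]
      simp [pf_add_right, hv0, chi_add_one]
    linarith

theorem gauss (m : ℕ) (q : (Fin m ⊕ Fin m → ZMod 2) → ZMod 2)
    (hq : ∀ u v, q (u + v) = q u + q v + pf m u v) :
    (∑ v : Fin m ⊕ Fin m → ZMod 2, chi (q v)) ^ 2 = Fintype.card (Fin m ⊕ Fin m → ZMod 2) := by
  classical
  have hq0 : q 0 = 0 := by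
    have := hq 0 0
    simp only [add_zero, pf_self] at this
    have h2 : ∀ a : ZMod 2, a = a + a → a = 0 := by decide
    exact h2 _ this
  rw [sq, Finset.sum_mul_sum]
  calc ∑ u : Fin m ⊕ Fin m → ZMod 2, ∑ v : Fin m ⊕ Fin m → ZMod 2, chi (q u) * chi (q v)
      = ∑ v : Fin m ⊕ Fin m → ZMod 2, ∑ u : Fin m ⊕ Fin m → ZMod 2, chi (q u) * chi (q v) :=
        Finset.sum_comm
    _ = ∑ v : Fin m ⊕ Fin m → ZMod 2, ∑ t : Fin m ⊕ Fin m → ZMod 2,
          chi (q (t + v)) * chi (q v) := by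
        refine Finset.sum_congr rfl fun v _ => ?_
        exact (Equiv.sum_comp (Equiv.addRight v) (fun u => chi (q u) * chi (q v))).symm
    _ = ∑ v : Fin m ⊕ Fin m → ZMod 2, ∑ t : Fin m ⊕ Fin m → ZMod 2,
          chi (q t) * chi (pf m t v) := by
        refine Finset.sum_congr rfl fun v _ => Finset.sum_congr rfl fun t _ => ?_
        rw [hq]
        exact chi_aux _ _ _
    _ = ∑ t : Fin m ⊕ Fin m → ZMod 2, chi (q t) * ∑ v : Fin m ⊕ Fin m → ZMod 2,
          chi (pf m t v) := by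
        rw [Finset.sum_comm]
        simp [Finset.mul_sum]
    _ = _ := by
        simp only [inner_sum, mul_ite, mul_zero, Finset.sum_ite_eq', Finset.mem_univ, if_true]
        rw [hq0]
        simp [chi]

/-- On the 2m-dimensional space over the field of two elements (m ≥ 1) let f be the alternating form obtained by polarizing the plus-type form Σ xᵢyᵢ, and let q be any quadratic form polarizing to f. For a vector w, the function q + f(·, w) again polarizes to f, and it is equivalent to q under an invertible linear map (that is, has the same type) if and only if q(w) = 0. -/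
theorem result (m : ℕ) (hm : 1 ≤ m) (q : (Fin m ⊕ Fin m → ZMod 2) → ZMod 2) (hq : (∀ u v : (Fin m ⊕ Fin m → ZMod 2), q (u + v) = q u + q v + (Cfsg.quadFormPlus m (ZMod 2) (u + v) - Cfsg.quadFormPlus m (ZMod 2) u - Cfsg.quadFormPlus m (ZMod 2) v))) (w : (Fin m ⊕ Fin m → ZMod 2)) :
    (∀ u v : (Fin m ⊕ Fin m → ZMod 2), (q (u + v) + (Cfsg.quadFormPlus m (ZMod 2) (u + v + w) - Cfsg.quadFormPlus m (ZMod 2) (u + v) - Cfsg.quadFormPlus m (ZMod 2) w)) =
        (q u + (Cfsg.quadFormPlus m (ZMod 2) (u + w) - Cfsg.quadFormPlus m (ZMod 2) u - Cfsg.quadFormPlus m (ZMod 2) w)) + (q v + (Cfsg.quadFormPlus m (ZMod 2) (v + w) - Cfsg.quadFormPlus m (ZMod 2) v - Cfsg.quadFormPlus m (ZMod 2) w)) +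
        (Cfsg.quadFormPlus m (ZMod 2) (u + v) - Cfsg.quadFormPlus m (ZMod 2) u - Cfsg.quadFormPlus m (ZMod 2) v)) ∧
    ((∃ g : (Fin m ⊕ Fin m → ZMod 2) ≃ₗ[ZMod 2] (Fin m ⊕ Fin m → ZMod 2), ∀ v, q v + (Cfsg.quadFormPlus m (ZMod 2) (v + w) - Cfsg.quadFormPlus m (ZMod 2) v - Cfsg.quadFormPlus m (ZMod 2) w) = q (g v)) ↔ q w = 0) := by
  classical
  simp only [pf_eq] at hq ⊢
  have hq0 : q 0 = 0 := by
    have := hq 0 0
    simp only [add_zero, pf_self] at this
    have h2 : ∀ a : ZMod 2, a = a + a → a = 0 := by decide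
    exact h2 _ this
  refine ⟨?_, ?_, ?_⟩
  · intro u v
    rw [hq u v, pf_add_left]
    ring
  · rintro ⟨g, hg⟩
    by_contra hw
    have h1 : ∀ a : ZMod 2, a ≠ 0 → a = 1 := by decide
    have hw1 := h1 _ hw
    have key : ∀ v, q (g v) = q (v + w) + 1 := by
      intro v
      rw [← hg v, hq v w, hw1]
      have h3 : ∀ a b : ZMod 2, a + b = a + 1 + b + 1 := by decide
      exact h3 _ _
    have hS : ∑ v : Fin m ⊕ Fin m → ZMod 2, chi (q v)
        = - ∑ v : Fin m ⊕ Fin m → ZMod 2, chi (q v) := by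
      conv_lhs => rw [← Equiv.sum_comp g.toEquiv]
      simp only [LinearEquiv.coe_toEquiv, key, chi_add_one, Finset.sum_neg_distrib]
      congr 1
      exact Equiv.sum_comp (Equiv.addRight w) (fun u => chi (q u))
    have hS0 : ∑ v : Fin m ⊕ Fin m → ZMod 2, chi (q v) = 0 := by linarith
    have hG := gauss m q hq
    rw [hS0] at hG
    have hpos : 0 < Fintype.card (Fin m ⊕ Fin m → ZMod 2) := Fintype.card_pos
    have : (Fintype.card (Fin m ⊕ Fin m → ZMod 2) : ℤ) = 0 := by rw [← hG]; norm_num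
    omega
  · intro hw
    have hinv : ∀ v : Fin m ⊕ Fin m → ZMod 2, (v + pf m v w • w) + pf m (v + pf m v w • w) w • w = v := by
      intro v
      rcases (show ∀ a : ZMod 2, a = 0 ∨ a = 1 by decide) (pf m v w) with h0 | h0
      · simp [h0]
      · rw [h0, one_smul, pf_add_left, h0, pf_self, add_zero, one_smul, add_assoc]
        have : w + w = 0 := by
          funext k
          exact (show ∀ a : ZMod 2, a + a = 0 by decide) _
        rw [this, add_zero]
    let g0 : (Fin m ⊕ Fin m → ZMod 2) →ₗ[ZMod 2] (Fin m ⊕ Fin m → ZMod 2) :=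
      { toFun := fun v => v + pf m v w • w
        map_add' := fun u v => by
          simp only [pf_add_left, add_smul]
          abel
        map_smul' := fun c v => by
          rcases (show ∀ a : ZMod 2, a = 0 ∨ a = 1 by decide) c with h0 | h0
          · subst h0; simp [pf_zero_left]
          · subst h0; simp }
    refine ⟨LinearEquiv.ofInvolutive g0 hinv, ?_⟩
    intro v
    show q v + pf m v w = q (v + pf m v w • w)
    rcases (show ∀ a : ZMod 2, a = 0 ∨ a = 1 by decide) (pf m v w) with h0 | h0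
    · simp [h0]
    · rw [h0, one_smul, hq v w, hw, h0, add_zero]

end Cfsg.Agent.S2564
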