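import Cfsg.Statements.S2566
import Cfsg.Agent.S0250
import Cfsg.Agent.Helper5.OPlus4
import Cfsg.Agent.Helper5.OrthForms
import Cfsg.Agent.Helper5.SLCard

set_option autoImplicit false
open Cfsg

namespace Cfsg.Agent.S2566

open Cfsg.Agent.Helper5 Matrix

/-- The full orthogonal group of the plus-type form x₁y₁ + x₂y₂ in dimension 4 over the field of two elements has order 72 and is isomorphic to the wreath product of the symmetric group of degree 3 by a group of order 2: it has a normal subgroup isomorphic to the direct product of two symmetric groups of degree 3, of index 2, whose two direct factors are interchanged by conjugation by some element. -/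
theorem result :
    Nat.card ↥(Cfsg.isometryGroup (ZMod 2) (Cfsg.quadFormPlus 2 (ZMod 2))) = 72 ∧
    ∃ (A B : Subgroup ↥(Cfsg.isometryGroup (ZMod 2) (Cfsg.quadFormPlus 2 (ZMod 2)))),
      Nonempty (↥A ≃* Equiv.Perm (Fin 3)) ∧ Nonempty (↥B ≃* Equiv.Perm (Fin 3)) ∧ A ⊓ B = ⊥ ∧ (∀ a ∈ A, ∀ b ∈ B, a * b = b * a) ∧
      (A ⊔ B).index = 2 ∧ ∃ g : ↥(Cfsg.isometryGroup (ZMod 2) (Cfsg.quadFormPlus 2 (ZMod 2))), A.map (MulAut.conj g).toMonoidHom = B := by
  classical
  have h2 : (2 : ZMod 2) = 0 := by decide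
  have hcard : Nat.card ↥(Cfsg.isometryGroup (ZMod 2) (Cfsg.quadFormPlus 2 (ZMod 2))) = 72 := by
    rw [card_GO_plus 2 (by norm_num), ZMod.card]
    simp
  obtain ⟨e3⟩ := Cfsg.Agent.S0250.result (F := ZMod 2) (ZMod.card 2)
  let T := toIso (ZMod 2) (Cfsg.quadFormPlus 2 (ZMod 2))
  have hT : Function.Injective T := toIso_injective _
  let f := T.comp (o4L (ZMod 2))
  let g := T.comp (o4R (ZMod 2))
  have hf : Function.Injective f := hT.comp o4L_injective
  have hg : Function.Injective g := hT.comp o4R_injective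
  have hcomm : ∀ a b, Commute (f a) (g b) := fun a b => (o4_commute a b).map T
  have hdisj : Disjoint f.range g.range := by
    rw [Subgroup.disjoint_def]
    rintro x ⟨a, rfl⟩ ⟨b, hb⟩
    have h1 : o4L (ZMod 2) a = o4R (ZMod 2) b := (hT hb).symm
    rw [o4_disjoint h2 a b h1, map_one]
  refine ⟨hcard, f.range, g.range, ⟨(MonoidHom.ofInjective hf).symm.trans e3⟩,
    ⟨(MonoidHom.ofInjective hg).symm.trans e3⟩, disjoint_iff.1 hdisj, ?_, ?_, ?_⟩
  · rintro _ ⟨a, rfl⟩ _ ⟨b, rfl⟩
    exact (hcomm a b).eq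
  · have hinj : Function.Injective (MonoidHom.noncommCoprod f g hcomm) :=
      (MonoidHom.noncommCoprod_injective f g hcomm).2 ⟨hf, hg, hdisj⟩
    have hc : Nat.card (f.range ⊔ g.range : Subgroup _) = 36 := by
      rw [← MonoidHom.noncommCoprod_range f g hcomm,
        ← Nat.card_congr (MonoidHom.ofInjective hinj).toEquiv, Nat.card_prod, card_SL2, ZMod.card]
      norm_num
    have h1 := Subgroup.card_mul_index (f.range ⊔ g.range)
    rw [hc, hcard] at h1
    omega
  · refine ⟨T (o4T (ZMod 2)), ?_⟩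
    rw [MonoidHom.map_range]
    congr 1
    ext a : 1
    change T (o4T (ZMod 2)) * T (o4L (ZMod 2) a) * (T (o4T (ZMod 2)))⁻¹ = T (o4R (ZMod 2) a)
    rw [← map_mul, o4_conj, map_mul, mul_inv_cancel_right]

end Cfsg.Agent.S2566
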