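import Cfsg.Statements.S2567
-- import your own Cfsg.Agent.* helpers here

set_option autoImplicit false
open Cfsg

namespace Cfsg.Agent.S2567

/-- Lifting an element of prime order `r` from `G ⧸ Z(G)` when `r` is coprime to `|Z(G)|`. -/
theorem unique_lift {G : Type*} [Group G] {r : ℕ} (hr : r.Prime)
    (hcop : (Nat.card (Subgroup.center G)).Coprime r) (x : G ⧸ Subgroup.center G)
    (hx : orderOf x = r) :
    ∃! g : G, (QuotientGroup.mk g : G ⧸ Subgroup.center G) = x ∧ orderOf g = r := by
  have : Fact r.Prime := ⟨hr⟩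
  have hx1 : x ≠ 1 := by
    intro h
    rw [h, orderOf_one] at hx
    exact hr.ne_one hx.symm
  obtain ⟨g0, hg0⟩ := QuotientGroup.mk_surjective x
  have hg0r : g0 ^ r ∈ Subgroup.center G := by
    rw [← QuotientGroup.eq_one_iff, QuotientGroup.mk_pow, hg0, ← hx, pow_orderOf_eq_one]
  obtain ⟨z, hz⟩ := (powCoprime hcop).surjective (⟨g0 ^ r, hg0r⟩⁻¹ : Subgroup.center G)
  have hz' : (z : G) ^ r = (g0 ^ r)⁻¹ := by
    have := congrArg Subtype.val hz
    simpa using this
  have hzc : Commute g0 (z : G) := (Subgroup.mem_center_iff.mp z.2 g0)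
  refine ⟨g0 * z, ⟨?_, ?_⟩, ?_⟩
  · rw [QuotientGroup.mk_mul, hg0, (QuotientGroup.eq_one_iff (z : G)).mpr z.2, mul_one]
  · apply orderOf_eq_prime
    · rw [hzc.mul_pow, hz', mul_inv_cancel]
    · intro h1
      apply hx1
      rw [← hg0]
      have : (QuotientGroup.mk (g0 * z) : G ⧸ Subgroup.center G) = 1 := by rw [h1]; rfl
      rwa [QuotientGroup.mk_mul, (QuotientGroup.eq_one_iff (z : G)).mpr z.2, mul_one] at this
  · rintro g ⟨hg, hgo⟩
    have hmem : (g0 * z)⁻¹ * g ∈ Subgroup.center G := by
      rw [← QuotientGroup.eq, hg, QuotientGroup.mk_mul, hg0,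
        (QuotientGroup.eq_one_iff (z : G)).mpr z.2, mul_one]
    set w : G := (g0 * z)⁻¹ * g with hw
    have hgw : g = (g0 * z) * w := by rw [hw, mul_inv_cancel_left]
    have hcomm : Commute (g0 * z) w := (Subgroup.mem_center_iff.mp hmem (g0 * z))
    have h1 : (g0 * z) ^ r = 1 := by rw [hzc.mul_pow, hz', mul_inv_cancel]
    have h2 : g ^ r = 1 := by rw [← hgo, pow_orderOf_eq_one]
    have hwr : w ^ r = 1 := by
      rw [hgw, hcomm.mul_pow, h1, one_mul] at h2
      exact h2
    have hw1 : w = 1 := by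
      have hd1 : orderOf (⟨w, hmem⟩ : Subgroup.center G) ∣ r := by
        apply orderOf_dvd_of_pow_eq_one
        exact Subtype.ext hwr
      have hd2 : orderOf (⟨w, hmem⟩ : Subgroup.center G) ∣ Nat.card (Subgroup.center G) :=
        orderOf_dvd_natCard _
      have hd3 : orderOf (⟨w, hmem⟩ : Subgroup.center G) = 1 :=
        Nat.eq_one_of_dvd_coprimes hcop hd2 hd1
      have := orderOf_eq_one_iff.mp hd3
      exact congrArg Subtype.val this
    rw [hgw, hw1, mul_one]


/-- Lifting elements of prime order from PGL to GL: let F be a finite field with q elements, r a prime not dividing q − 1, and x an element of order r in GL_n(F) modulo its centre (the scalar matrices). Then x has exactly one preimage in GL_n(F) of order r. -/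
theorem result {F : Type*} [Field F] [Fintype F] {q n r : ℕ} (hF : Fintype.card F = q) (hr : r.Prime) (hdiv : ¬ r ∣ q - 1) (x : GL (Fin n) F ⧸ Subgroup.center (GL (Fin n) F)) (hx : orderOf x = r) : ∃! g : GL (Fin n) F, (QuotientGroup.mk g : GL (Fin n) F ⧸ Subgroup.center (GL (Fin n) F)) = x ∧ orderOf g = r := by
  classical
  apply unique_lift hr _ x hx
  have hdvd : Nat.card (Subgroup.center (GL (Fin n) F)) ∣ q - 1 := by
    rw [Matrix.GeneralLinearGroup.center_eq_range_scalar]
    have h1 := Subgroup.card_range_dvd (Matrix.GeneralLinearGroup.scalar (Fin n) (R := F))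
    have h2 : Nat.card Fˣ = q - 1 := by
      rw [Nat.card_units, Nat.card_eq_fintype_card, hF]
    rwa [h2] at h1
  have hcop : Nat.Coprime r (q - 1) := (Nat.Prime.coprime_iff_not_dvd hr).mpr hdiv
  exact (Nat.Coprime.coprime_dvd_right hdvd hcop).symm

end Cfsg.Agent.S2567
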