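import Cfsg.Statements.S2568
import Cfsg.Agent.Helper43.PrimeOrdMat
import Cfsg.Agent.Helper43.ClassCount

set_option autoImplicit false
open Cfsg

namespace Cfsg.Agent.S2568

open Polynomial Cfsg.Agent.Helper43.CycFactors Cfsg.Agent.Helper43.PrimeOrdMat
  Cfsg.Agent.Helper43.ClassCount

/-- Number of conjugacy classes of elements of a given prime order r, coprime to the characteristic, in GL_n(q): if i is the multiplicative order of q modulo r and t = (r − 1)/i, the classes correspond to the non-zero t-tuples of natural numbers (a_1, …, a_t) with i(a_1 + ⋯ + a_t) ≤ n (a_j is the multiplicity of the j-th Frobenius orbit of nontrivial r-th roots of unity among the eigenvalues), so there are exactly C(⌊n/i⌋ + t, t) − 1 of them. -/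
theorem result {F : Type*} [Field F] [Fintype F] {p q : ℕ} [Fact p.Prime] [CharP F p] (hF : Fintype.card F = q) (n r i t : ℕ) (hr : r.Prime) (hrp : r ≠ p) (hi : i = orderOf (q : ZMod r)) (ht : t * i = r - 1) : Nat.card {C : ConjClasses (GL (Fin n) F) // ∃ g : GL (Fin n) F, ConjClasses.mk g = C ∧ orderOf g = r} = Nat.choose (n / i + t) t - 1 := by
  classical
  have hrp' : r.Coprime p := (Nat.coprime_primes hr Fact.out).mpr hrp
  have hrF : (r : F) ≠ 0 := natCast_ne_zero_of_ne hr hrp
  have hipos : 0 < i := by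
    rw [hi]
    exact orderOf_pos_of_card (p := p) hF hr hrp
  have hJcard : Fintype.card ↥(cycJ F r) = t := by
    rw [Fintype.card_coe]
    have h1 := cycJ_card_mul (p := p) hF hr hrp
    rw [← hi, ← ht] at h1
    exact Nat.eq_of_mul_eq_mul_right hipos h1
  have : Fact r.Prime := ⟨hr⟩
  have hpow : ∀ g : GL (Fin n) F, orderOf g = r → (g : Matrix (Fin n) (Fin n) F) ^ r = 1 := by
    intro g hg
    rw [← Units.val_pow_eq_pow_val, ← hg, pow_orderOf_eq_one, Units.val_one]
  -- step 1: classes correspond to characteristic polynomials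
  have h1 : ∀ g h : GL (Fin n) F, IsConj g h →
      (g : Matrix (Fin n) (Fin n) F).charpoly = (h : Matrix (Fin n) (Fin n) F).charpoly := by
    intro g h hgh
    obtain ⟨c, hc⟩ := isConj_iff.mp hgh
    rw [← hc, Units.val_mul, Units.val_mul, Matrix.charpoly_mul_comm, ← mul_assoc, ← Units.val_mul,
      inv_mul_cancel, Units.val_one, one_mul]
  have h2 : ∀ g h : GL (Fin n) F, orderOf g = r → orderOf h = r →
      (g : Matrix (Fin n) (Fin n) F).charpoly = (h : Matrix (Fin n) (Fin n) F).charpoly →
      IsConj g h := by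
    intro g h hg hh hc
    obtain ⟨P, hPdet, hP⟩ := Cfsg.Agent.Helper40.exists_conj_matrix p hrp' hrp'
      (g : Matrix (Fin n) (Fin n) F) (h : Matrix (Fin n) (Fin n) F) (hpow g hg) (hpow h hh) hc
    rw [isConj_iff]
    refine ⟨Matrix.GeneralLinearGroup.mk'' P (by rw [hPdet]; exact isUnit_one), ?_⟩
    rw [mul_inv_eq_iff_eq_mul]
    apply Units.ext
    rw [Units.val_mul, Units.val_mul]
    exact hP
  rw [card_classes_eq_invariant (fun g : GL (Fin n) F => orderOf g = r)
    (fun g => (g : Matrix (Fin n) (Fin n) F).charpoly) h1 h2]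
  -- step 2: the bijection with exponent vectors
  rw [← hJcard, ← card_nonzero_le (↥(cycJ F r)) i n hipos]
  symm
  have hwd : ∀ a : {a : ↥(cycJ F r) → ℕ // a ≠ 0 ∧ i * ∑ x, a x ≤ n},
      ∃ g : GL (Fin n) F, orderOf g = r ∧ (g : Matrix (Fin n) (Fin n) F).charpoly =
        psi r (n - i * ∑ x, a.1 x) (extJ r a.1) := by
    intro a
    have hdeg : (psi r (n - i * ∑ x, a.1 x) (extJ r a.1) : F[X]).natDegree = n := by
      rw [psi_natDegree (p := p) hF hr hrp, ← hi, sum_extJ]
      have := a.2.2
      omega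
    obtain ⟨M, hM, hch⟩ := exists_matrix_of_realG (realG_psi hr (n - i * ∑ x, a.1 x) (extJ r a.1))
      hdeg
    have hr1 : r - 1 + 1 = r := Nat.sub_add_cancel hr.pos
    let g : GL (Fin n) F := ⟨M, M ^ (r - 1), by rw [← pow_succ', hr1, hM],
      by rw [← pow_succ, hr1, hM]⟩
    refine ⟨g, ?_, hch⟩
    apply orderOf_eq_prime
    · apply Units.ext
      rw [Units.val_pow_eq_pow_val, Units.val_one]
      exact hM
    · intro hg1
      have hM1 : M = 1 := by
        have := congrArg Units.val hg1
        exact this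
      have hch1 : (psi r n (fun _ => 0) : F[X]) = psi r (n - i * ∑ x, a.1 x) (extJ r a.1) := by
        rw [← hch, hM1, Matrix.charpoly_one, Fintype.card_fin, psi]
        simp
      have h3 := (psi_injective hr hrF _ _ _ _ hch1).2
      apply a.2.1
      funext P
      have h4 := h3 P.1 P.2
      rw [extJ_apply] at h4
      exact h4.symm
  let Ψ : {a : ↥(cycJ F r) → ℕ // a ≠ 0 ∧ i * ∑ x, a x ≤ n} →
      {f : F[X] // ∃ g : GL (Fin n) F, orderOf g = r ∧
        (g : Matrix (Fin n) (Fin n) F).charpoly = f} :=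
    fun a => ⟨psi r (n - i * ∑ x, a.1 x) (extJ r a.1), hwd a⟩
  apply Nat.card_eq_of_bijective Ψ
  constructor
  · intro a a' h
    have h3 : (psi r (n - i * ∑ x, a.1 x) (extJ r a.1) : F[X]) =
        psi r (n - i * ∑ x, a'.1 x) (extJ r a'.1) := congrArg Subtype.val h
    have h4 := (psi_injective hr hrF _ _ _ _ h3).2
    apply Subtype.ext
    funext P
    have h5 := h4 P.1 P.2
    rw [extJ_apply, extJ_apply] at h5
    exact h5
  · rintro ⟨f, g, hg, rfl⟩
    obtain ⟨c₀, c, hc⟩ := charpoly_eq_psi p hr hrp (g : Matrix (Fin n) (Fin n) F) (hpow g hg)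
    have hcong : (psi r c₀ c : F[X]) = psi r c₀ (extJ r fun P => c P.1) := by
      apply psi_congr
      intro P hP
      exact (extJ_apply r (fun P => c P.1) ⟨P, hP⟩).symm
    have hdeg : n = c₀ + i * ∑ P : ↥(cycJ F r), c P.1 := by
      have h3 := Matrix.charpoly_natDegree_eq_dim (g : Matrix (Fin n) (Fin n) F)
      rw [hc, hcong, psi_natDegree (p := p) hF hr hrp, ← hi, sum_extJ, Fintype.card_fin] at h3
      exact h3.symm
    have hne : (fun P : ↥(cycJ F r) => c P.1) ≠ 0 := by
      intro h0
      have h3 : (g : Matrix (Fin n) (Fin n) F).charpoly = (X - 1) ^ c₀ := by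
        rw [hc, hcong, h0, psi]
        have h4 : ∀ P ∈ cycJ F r, P ^ extJ r (0 : ↥(cycJ F r) → ℕ) P = 1 := by
          intro P hP
          have := extJ_apply r (0 : ↥(cycJ F r) → ℕ) ⟨P, hP⟩
          simp only at this
          rw [this]
          simp
        rw [Finset.prod_eq_one h4, mul_one]
      have h4 := eq_one_of_charpoly hr hrF _ (hpow g hg) c₀ h3
      have h5 : g = 1 := Units.ext h4
      rw [h5, orderOf_one] at hg
      exact hr.one_lt.ne hg
    have hle : i * ∑ x : ↥(cycJ F r), c x.1 ≤ n := by omega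
    refine ⟨⟨fun P => c P.1, hne, hle⟩, ?_⟩
    apply Subtype.ext
    show psi r (n - i * ∑ x : ↥(cycJ F r), c x.1) (extJ r fun P => c P.1) =
      (g : Matrix (Fin n) (Fin n) F).charpoly
    rw [hc, hcong]
    congr 1
    omega

end Cfsg.Agent.S2568
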