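import Cfsg.Statements.S2569

set_option autoImplicit false
set_option linter.style.haveILetI false
open Cfsg

namespace Cfsg.Agent.S2569

open Polynomial Module

theorem exists_commuting_det {F : Type*} [Field F] [Finite F] {V : Type*} [AddCommGroup V]
    [Module F V] [FiniteDimensional F V] [Nontrivial V]
    (T : Module.End F V) (hT : T.IsSemisimple) (d : F) :
    ∃ c : V →ₗ[F] V, c ∘ₗ T = T ∘ₗ c ∧ LinearMap.det c = d := by
  classical
  haveI hss : IsSemisimpleModule F[X] (AEval' T) := hT
  haveI : Nontrivial (AEval' T) := (AEval'.of T).symm.toEquiv.nontrivial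
  haveI : Finite V := Module.finite_of_finite F
  haveI : Finite (AEval' T) := Finite.of_equiv V (AEval'.of T).toEquiv
  obtain ⟨S, hS⟩ := IsSemisimpleModule.exists_simple_submodule F[X] (AEval' T)
  obtain ⟨S', hS'⟩ := exists_isCompl S
  haveI := IsSimpleModule.nontrivial F[X] S
  obtain ⟨s, hs⟩ := exists_ne (0 : S)
  have hsurj := IsSimpleModule.toSpanSingleton_surjective F[X] hs
  let I : Ideal F[X] := LinearMap.ker (LinearMap.toSpanSingleton F[X] S s)
  haveI hmax : I.IsMaximal := IsSimpleModule.ker_toSpanSingleton_isMaximal F[X] hs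
  let e : (F[X] ⧸ I) ≃ₗ[F[X]] S :=
    LinearMap.quotKerEquivOfSurjective (LinearMap.toSpanSingleton F[X] S s) hsurj
  letI : Field (F[X] ⧸ I) := Ideal.Quotient.field I
  haveI : Finite S := Finite.of_injective (fun x : S => (x : AEval' T)) Subtype.val_injective
  haveI : Finite (F[X] ⧸ I) := Finite.of_equiv S e.symm.toEquiv
  obtain ⟨z, hz⟩ := FiniteField.norm_surjective F (F[X] ⧸ I) d
  obtain ⟨P, rfl⟩ := Ideal.Quotient.mk_surjective z
  -- the endomorphism of S given by P
  let cS : S →ₗ[F[X]] S := P • LinearMap.id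
  have hcS : ∀ y : S, cS y = P • y := fun y => rfl
  haveI : Module.Finite F S :=
    Module.Finite.of_injective ((S.subtype).restrictScalars F) Subtype.val_injective
  haveI : Module.Finite F S' :=
    Module.Finite.of_injective ((S'.subtype).restrictScalars F) Subtype.val_injective
  have hdetS : LinearMap.det (cS.restrictScalars F) = d := by
    rw [← hz, Algebra.norm_apply]
    have hconj : cS.restrictScalars F
        = ((e.restrictScalars F : (F[X] ⧸ I) ≃ₗ[F] S) : (F[X] ⧸ I) →ₗ[F] S) ∘ₗ
          (Algebra.lmul F (F[X] ⧸ I) (Ideal.Quotient.mk I P)) ∘ₗ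
          ((e.restrictScalars F).symm : S →ₗ[F] (F[X] ⧸ I)) := by
      apply LinearMap.ext
      intro y
      obtain ⟨y', rfl⟩ := e.surjective y
      obtain ⟨R, rfl⟩ := Ideal.Quotient.mk_surjective y'
      simp only [LinearMap.coe_restrictScalars, LinearMap.comp_apply, LinearEquiv.coe_coe,
        LinearEquiv.restrictScalars_symm_apply, LinearEquiv.symm_apply_apply,
        LinearEquiv.restrictScalars_apply, hcS, Algebra.coe_lmul_eq_mul, LinearMap.mul_apply']
      rw [← map_smul e]
      rfl
    rw [hconj, LinearMap.det_conj]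
  -- the endomorphism of the whole module
  let E : (S × S') ≃ₗ[F] AEval' T :=
    (Submodule.prodEquivOfIsCompl S S' hS').restrictScalars F
  let c0 : AEval' T →ₗ[F[X]] AEval' T :=
    (S.subtype ∘ₗ cS ∘ₗ S.projectionOnto S' hS')
      + (S'.subtype ∘ₗ S'.projectionOnto S hS'.symm)
  have hc0 : c0.restrictScalars F
      = (E : (S × S') →ₗ[F] AEval' T) ∘ₗ
        (LinearMap.prodMap (cS.restrictScalars F) (LinearMap.id : S' →ₗ[F] S')) ∘ₗ
        (E.symm : AEval' T →ₗ[F] (S × S')) := by
    apply LinearMap.ext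
    intro y
    obtain ⟨⟨a, b⟩, rfl⟩ := E.surjective y
    simp only [LinearMap.coe_restrictScalars, LinearMap.comp_apply, LinearEquiv.coe_coe,
      LinearEquiv.symm_apply_apply, LinearMap.prodMap_apply, LinearMap.id_apply]
    show c0 ((a : AEval' T) + (b : AEval' T)) = ((cS a : S) : AEval' T) + (b : AEval' T)
    have h1 : (S.projectionOnto S' hS') (a : AEval' T) = a :=
      Submodule.projectionOnto_apply_left hS' a
    have h3 : (S.projectionOnto S' hS') (b : AEval' T) = 0 :=
      Submodule.projectionOnto_apply_right hS' b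
    have h4 : (S'.projectionOnto S hS'.symm) (a : AEval' T) = 0 :=
      Submodule.projectionOnto_apply_right hS'.symm a
    have h5 : (S'.projectionOnto S hS'.symm) (b : AEval' T) = b :=
      Submodule.projectionOnto_apply_left hS'.symm b
    simp only [c0, map_add, LinearMap.add_apply, LinearMap.comp_apply, Submodule.subtype_apply,
      h1, h3, h4, h5, map_zero, add_zero, zero_add]
  have hdet0 : LinearMap.det (c0.restrictScalars F) = d := by
    rw [hc0, LinearMap.det_conj, LinearMap.det_prodMap, hdetS, LinearMap.det_id, mul_one]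
  refine ⟨((AEval'.of T).symm : AEval' T →ₗ[F] V) ∘ₗ (c0.restrictScalars F) ∘ₗ
    ((AEval'.of T : V ≃ₗ[F] AEval' T) : V →ₗ[F] AEval' T), ?_, ?_⟩
  · apply LinearMap.ext
    intro v
    simp only [LinearMap.comp_apply, LinearEquiv.coe_coe, LinearMap.coe_restrictScalars]
    rw [← AEval'.X_smul_of, map_smul, AEval'.of_symm_X_smul]
  · have := LinearMap.det_conj (c0.restrictScalars F) (AEval'.of T).symm
    rw [← hdet0, ← this]
    rfl

/-- In GL_n over a finite field of characteristic p, the conjugacy class of a semisimple element (an element of order prime to p) under the special linear group is its whole GL-conjugacy class: for every such x and every invertible g there is h of determinant one with h x h⁻¹ = g x g⁻¹. -/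
theorem result {F : Type*} [Field F] [Fintype F] {p : ℕ} [Fact p.Prime] [CharP F p] {n : ℕ} (x g : GL (Fin n) F) (hx : (orderOf x).Coprime p) : ∃ h : GL (Fin n) F, (h : Matrix (Fin n) (Fin n) F).det = 1 ∧ h * x * h⁻¹ = g * x * g⁻¹ := by
  classical
  suffices hc : ∃ c : GL (Fin n) F, c * x = x * c ∧
      (c : Matrix (Fin n) (Fin n) F).det = (g : Matrix (Fin n) (Fin n) F).det by
    obtain ⟨c, hcx, hdet⟩ := hc
    have hg0 : (g : Matrix (Fin n) (Fin n) F).det ≠ 0 :=
      ((Matrix.isUnit_iff_isUnit_det _).mp g.isUnit).ne_zero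
    refine ⟨g * c⁻¹, ?_, ?_⟩
    · have h1 : ((c * c⁻¹ : GL (Fin n) F) : Matrix (Fin n) (Fin n) F).det = 1 := by
        rw [mul_inv_cancel, Units.val_one, Matrix.det_one]
      rw [Units.val_mul, Matrix.det_mul] at h1
      rw [Units.val_mul, Matrix.det_mul, ← hdet]
      exact h1
    · have h3 : c⁻¹ * x * c = x := by
        rw [mul_assoc, ← hcx, ← mul_assoc, inv_mul_cancel, one_mul]
      calc g * c⁻¹ * x * (g * c⁻¹)⁻¹ = g * (c⁻¹ * x * c) * g⁻¹ := by group
        _ = g * x * g⁻¹ := by rw [h3]
  rcases Nat.eq_zero_or_pos n with rfl | hn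
  · refine ⟨1, by simp, ?_⟩
    rw [Units.val_one, Matrix.det_one, Matrix.det_isEmpty]
  · haveI : Nonempty (Fin n) := ⟨⟨0, hn⟩⟩
    haveI : Nontrivial (Fin n → F) := Function.nontrivial
    let T : Module.End F (Fin n → F) := Matrix.toLin' (x : Matrix (Fin n) (Fin n) F)
    have hk : 0 < orderOf x := orderOf_pos x
    have hxk : (x : Matrix (Fin n) (Fin n) F) ^ orderOf x = 1 := by
      rw [← Units.val_pow_eq_pow_val, pow_orderOf_eq_one, Units.val_one]
    have hTk : T ^ orderOf x = 1 := by
      have h1 := (map_pow (Matrix.toLinAlgEquiv' (R := F) (n := Fin n))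
        (x : Matrix (Fin n) (Fin n) F) (orderOf x)).symm
      rw [hxk, map_one] at h1
      exact h1
    have hkF : ((orderOf x : ℕ) : F) ≠ 0 := by
      rw [Ne, CharP.cast_eq_zero_iff F p]
      intro hdvd
      have hp := (Fact.out : p.Prime)
      have := Nat.Coprime.eq_one_of_dvd hx.symm hdvd
      exact hp.one_lt.ne' this
    have hsemi : T.IsSemisimple := by
      apply Module.End.isSemisimple_of_squarefree_aeval_eq_zero (p := X ^ orderOf x - C (1 : F))
      · exact (Polynomial.separable_X_pow_sub_C (1 : F) hkF one_ne_zero).squarefree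
      · simp [hTk]
    obtain ⟨c, hcomm, hdet⟩ := exists_commuting_det T hsemi (g : Matrix (Fin n) (Fin n) F).det
    have hg0 : (g : Matrix (Fin n) (Fin n) F).det ≠ 0 :=
      ((Matrix.isUnit_iff_isUnit_det _).mp g.isUnit).ne_zero
    have hdet0 : (LinearMap.toMatrix' c).det ≠ 0 := by
      rw [LinearMap.det_toMatrix', hdet]
      exact hg0
    refine ⟨Matrix.GeneralLinearGroup.mkOfDetNeZero _ hdet0, ?_, ?_⟩
    · apply Units.ext
      show LinearMap.toMatrix' c * (x : Matrix (Fin n) (Fin n) F)
        = (x : Matrix (Fin n) (Fin n) F) * LinearMap.toMatrix' c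
      have := congrArg LinearMap.toMatrix' hcomm
      rw [LinearMap.toMatrix'_comp, LinearMap.toMatrix'_comp, LinearMap.toMatrix'_toLin'] at this
      exact this
    · show (LinearMap.toMatrix' c).det = _
      rw [LinearMap.det_toMatrix', hdet]

end Cfsg.Agent.S2569
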