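import Cfsg.Statements.S2570
import Cfsg.Agent.Helper38.JordanNil

set_option autoImplicit false
open Cfsg

namespace Cfsg.Agent.S2570

open Cfsg.Agent.Helper38

/-- The partition of `n` into ones. -/
def ones (n : ℕ) : Nat.Partition n :=
  ⟨Multiset.replicate n 1, fun {i} h => by rw [Multiset.eq_of_mem_replicate h]; exact one_pos,
    by simp⟩

theorem le_one_iff_eq_ones (n : ℕ) (μ : Nat.Partition n) :
    (∀ a ∈ μ.parts, a ≤ 1) ↔ μ = ones n := by
  constructor
  · intro h
    apply Nat.Partition.ext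
    show μ.parts = Multiset.replicate n 1
    have h1 : ∀ b ∈ μ.parts, b = 1 := by
      intro b hb
      have := h b hb
      have := μ.parts_pos hb
      omega
    have h2 : μ.parts = Multiset.replicate (Multiset.card μ.parts) 1 :=
      Multiset.eq_replicate_card.mpr h1
    have h3 := μ.parts_sum
    rw [h2, Multiset.sum_replicate, smul_eq_mul, mul_one] at h3
    rw [h2, h3]
  · rintro rfl a ha
    have : a = 1 := Multiset.eq_of_mem_replicate ha
    omega

theorem card_parts_le (n p : ℕ) (hp : 1 ≤ p) :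
    Nat.card {μ : Nat.Partition n // (∀ a ∈ μ.parts, a ≤ p) ∧ ¬ (∀ a ∈ μ.parts, a ≤ 1)} =
      (Finset.univ.filter (fun μ : Nat.Partition n => ∀ a ∈ μ.parts, a ≤ p)).card - 1 := by
  classical
  rw [Nat.card_eq_fintype_card, Fintype.card_subtype]
  have h1 : (Finset.univ.filter (fun μ : Nat.Partition n =>
      (∀ a ∈ μ.parts, a ≤ p) ∧ ¬ (∀ a ∈ μ.parts, a ≤ 1))) =
      (Finset.univ.filter (fun μ : Nat.Partition n => ∀ a ∈ μ.parts, a ≤ p)).erase (ones n) := by
    ext μ
    simp only [Finset.mem_filter, Finset.mem_univ, true_and, Finset.mem_erase]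
    rw [le_one_iff_eq_ones]
    tauto
  have h2 : ones n ∈ Finset.univ.filter (fun μ : Nat.Partition n => ∀ a ∈ μ.parts, a ≤ p) := by
    simp only [Finset.mem_filter, Finset.mem_univ, true_and]
    intro a ha
    have := (le_one_iff_eq_ones n (ones n)).mpr rfl a ha
    omega
  rw [h1, Finset.card_erase_of_mem h2]

/-- Number of conjugacy classes of elements of order p in GL_n over a finite field of characteristic p: they correspond to the Jordan types, that is, to the partitions of n with all parts at most p other than the partition into ones, so there are (number of partitions of n with parts ≤ p) − 1 of them. -/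
theorem result {F : Type*} [Field F] [Fintype F] {p : ℕ} [Fact p.Prime] [CharP F p] (n : ℕ) : Nat.card {C : ConjClasses (GL (Fin n) F) // ∃ g : GL (Fin n) F, ConjClasses.mk g = C ∧ orderOf g = p} = (Finset.univ.filter (fun μ : Nat.Partition n => ∀ a ∈ μ.parts, a ≤ p)).card - 1 := by
  have hp : p.Prime := Fact.out
  rw [← card_parts_le n p hp.one_lt.le]
  have hnil : ∀ g : GL (Fin n) F, orderOf g = p →
      IsNilpotent ((g : Matrix (Fin n) (Fin n) F) - 1) := fun g hg =>
    (exists_orderOf_eq_prime_pow_iff p g).mp ⟨1, by rw [hg, pow_one]⟩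
  refine card_eq_of_rel
    (fun (C : {C : ConjClasses (GL (Fin n) F) // ∃ g : GL (Fin n) F,
        ConjClasses.mk g = C ∧ orderOf g = p})
      (μ : {μ : Nat.Partition n // (∀ a ∈ μ.parts, a ≤ p) ∧ ¬ (∀ a ∈ μ.parts, a ≤ 1)}) =>
      ∃ g : GL (Fin n) F, orderOf g = p ∧ ConjClasses.mk g = C.1 ∧
        ∀ k, kdim ((g : Matrix (Fin n) (Fin n) F) - 1) k = (μ.1.parts.map (min k)).sum)
    ?_ ?_ ?_ ?_
  · rintro ⟨C, g, rfl, hg⟩
    obtain ⟨μ, hpos, hsum, hk⟩ := exists_multiset_kdim _ (hnil g hg)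
    have hNp : ((g : Matrix (Fin n) (Fin n) F) - 1) ^ p = 0 := by
      have h1 := sub_one_pow_char_pow p (g : Matrix (Fin n) (Fin n) F) 1
      rw [pow_one] at h1
      rw [h1, ← Units.val_pow_eq_pow_val, ← hg, pow_orderOf_eq_one, Units.val_one, sub_self]
    have hle : ∀ b ∈ μ, b ≤ p := by
      rw [← minsum_eq_sum_iff, ← hk p, hsum]
      exact (pow_eq_zero_iff_kdim _ p).mp hNp
    have hnot : ¬ (∀ b ∈ μ, b ≤ 1) := by
      intro h
      rw [← minsum_eq_sum_iff, ← hk 1, hsum] at h
      have h0 := (pow_eq_zero_iff_kdim _ 1).mpr h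
      rw [pow_one] at h0
      have h1 : g = 1 := Units.ext (by rw [Units.val_one]; exact sub_eq_zero.mp h0)
      rw [h1, orderOf_one] at hg
      exact hp.one_lt.ne hg
    exact ⟨⟨⟨μ, fun {i} hi => hpos i hi, hsum⟩, hle, hnot⟩, g, hg, rfl, hk⟩
  · rintro ⟨μ, hle, hnot⟩
    obtain ⟨M, hM, hk⟩ := exists_nilpotent_of_multiset (F := F) n μ.parts μ.parts_sum
    obtain ⟨u, hu⟩ : IsUnit (1 + M) := hM.isUnit_one_add
    have hsub : (u : Matrix (Fin n) (Fin n) F) - 1 = M := by rw [hu, add_sub_cancel_left]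
    have hMp : M ^ p = 0 := by
      rw [pow_eq_zero_iff_kdim, hk p, (minsum_eq_sum_iff _ p).mpr hle, μ.parts_sum]
    have hup : u ^ p = 1 := by
      apply Units.ext
      rw [Units.val_pow_eq_pow_val, Units.val_one]
      have h1 := sub_one_pow_char_pow p (u : Matrix (Fin n) (Fin n) F) 1
      rw [pow_one, hsub, hMp] at h1
      exact sub_eq_zero.mp h1.symm
    have hu1 : u ≠ 1 := by
      intro h
      apply hnot
      rw [← minsum_eq_sum_iff, ← hk 1, μ.parts_sum, ← pow_eq_zero_iff_kdim, pow_one, ← hsub, h,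
        Units.val_one, sub_self]
    have hord : orderOf u = p := orderOf_eq_prime hup hu1
    exact ⟨⟨ConjClasses.mk u, u, rfl, hord⟩, u, hord, rfl, fun k => by rw [hsub]; exact hk k⟩
  · rintro C μ μ' ⟨g, hg, hgC, hk⟩ ⟨g', hg', hgC', hk'⟩
    have hconj : IsConj g g' := ConjClasses.mk_eq_mk_iff_isConj.mp (hgC.trans hgC'.symm)
    obtain ⟨c, hc⟩ := isConj_iff.mp hconj
    have hcN : (c : Matrix (Fin n) (Fin n) F) * ((g : Matrix (Fin n) (Fin n) F) - 1) =
        ((g' : Matrix (Fin n) (Fin n) F) - 1) * c := by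
      have h1 : c * g = g' * c := by rw [← hc]; group
      have h2 := congrArg Units.val h1
      simp only [Units.val_mul] at h2
      rw [mul_sub, sub_mul, h2, mul_one, one_mul]
    apply Subtype.ext
    apply Nat.Partition.ext
    exact multiset_eq_of_minsum _ _ (fun b hb => μ.1.parts_pos hb) (fun b hb => μ'.1.parts_pos hb)
      (fun k => by rw [← hk k, ← hk' k, kdim_eq_of_conj _ _ c hcN k])
  · rintro C C' μ ⟨g, hg, hgC, hk⟩ ⟨g', hg', hgC', hk'⟩
    obtain ⟨c, hc⟩ := exists_conj_of_kdim _ _ (hnil g hg) (hnil g' hg')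
      (fun k => by rw [hk k, hk' k])
    have hcg : c * g = g' * c := by
      apply Units.ext
      simp only [Units.val_mul]
      rw [mul_sub, sub_mul, mul_one, one_mul] at hc
      exact sub_left_injective hc
    apply Subtype.ext
    rw [← hgC, ← hgC']
    exact ConjClasses.mk_eq_mk_iff_isConj.mpr (isConj_iff.mpr ⟨c, by rw [hcg]; group⟩)

end Cfsg.Agent.S2570
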