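import Cfsg.Statements.S2571
import Cfsg.Agent.Helper43.RegNilp2

set_option autoImplicit false
open Cfsg

namespace Cfsg.Agent.S2571

/-- Centraliser of a regular unipotent element in GL_n(q): if u is an invertible n × n matrix over the field with q elements, n ≥ 1, with (u − 1)^n = 0 and rank(u − 1) = n − 1 (a single unipotent Jordan block), then its centraliser in GL_n(q) has order (q − 1) q^(n−1). -/
theorem result {F : Type*} [Field F] [Fintype F] {q n : ℕ} (hF : Fintype.card F = q) (hn : 1 ≤ n) (u : GL (Fin n) F) (hnil : ((u : Matrix (Fin n) (Fin n) F) - 1) ^ n = 0) (hreg : ((u : Matrix (Fin n) (Fin n) F) - 1).rank = n - 1) : Nat.card ↥(Subgroup.centralizer ({u} : Set (GL (Fin n) F))) = (q - 1) * q ^ (n - 1) := by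
  classical
  set M : Matrix (Fin n) (Fin n) F := (u : Matrix (Fin n) (Fin n) F) - 1 with hM
  set N : Module.End F (Fin n → F) := Matrix.mulVecLin M with hN
  have hfr : Module.finrank F (Fin n → F) = n := by simp
  have hR : Cfsg.Agent.Helper43.RegNilp N :=
    { nil := ⟨n, by rw [hN, ← Cfsg.Agent.Helper43.mulVecLin_pow, hnil]; simp⟩
      rank := by rw [hfr]; exact hreg
      pos := by rw [hfr]; exact hn }
  obtain ⟨v, hv⟩ := hR.exists_cyclic
  have hinj : ∀ A B : Matrix (Fin n) (Fin n) F, Matrix.mulVecLin A = Matrix.mulVecLin B → A = B := by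
    intro A B hAB
    rw [← Matrix.toLin'_apply', ← Matrix.toLin'_apply'] at hAB
    exact Matrix.toLin'.injective hAB
  have hcomm : ∀ g : GL (Fin n) F, g ∈ Subgroup.centralizer ({u} : Set (GL (Fin n) F)) →
      Matrix.mulVecLin (g : Matrix (Fin n) (Fin n) F) * N
        = N * Matrix.mulVecLin (g : Matrix (Fin n) (Fin n) F) := by
    intro g hg
    rw [Subgroup.mem_centralizer_iff] at hg
    have h1 : u * g = g * u := hg u rfl
    have h2 : (u : Matrix (Fin n) (Fin n) F) * (g : Matrix (Fin n) (Fin n) F)
        = (g : Matrix (Fin n) (Fin n) F) * (u : Matrix (Fin n) (Fin n) F) := by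
      have := congrArg (fun x : GL (Fin n) F => (x : Matrix (Fin n) (Fin n) F)) h1
      simpa using this
    rw [hN, Module.End.mul_eq_comp, Module.End.mul_eq_comp, ← Matrix.mulVecLin_mul,
      ← Matrix.mulVecLin_mul, hM, Matrix.mul_sub, Matrix.sub_mul, h2, mul_one, one_mul]
  have hbijg : ∀ g : GL (Fin n) F,
      Function.Bijective (Matrix.mulVecLin (g : Matrix (Fin n) (Fin n) F)) := by
    intro g
    have hi : Function.Injective (Matrix.mulVecLin (g : Matrix (Fin n) (Fin n) F)) := by
      rw [Matrix.coe_mulVecLin]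
      exact Matrix.mulVec_injective_iff_isUnit.mpr g.isUnit
    exact ⟨hi, LinearMap.injective_iff_surjective.mp hi⟩
  let f : ↥(Subgroup.centralizer ({u} : Set (GL (Fin n) F))) →
      {x : Fin n → F // x ∉ LinearMap.range N} :=
    fun g => ⟨(g.1 : Matrix (Fin n) (Fin n) F).mulVec v,
      (hR.bijective_iff hv _ (hcomm g.1 g.2)).mp (hbijg g.1)⟩
  have hf : Function.Bijective f := by
    constructor
    · intro g1 g2 h12
      have h12' : (g1.1 : Matrix (Fin n) (Fin n) F).mulVec v
          = (g2.1 : Matrix (Fin n) (Fin n) F).mulVec v := congrArg Subtype.val h12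
      have hz := hR.eq_zero_of_apply hv
        (Matrix.mulVecLin (g1.1 : Matrix (Fin n) (Fin n) F)
          - Matrix.mulVecLin (g2.1 : Matrix (Fin n) (Fin n) F))
        (by rw [sub_mul, mul_sub, hcomm _ g1.2, hcomm _ g2.2]) (by simp [h12'])
      have : (g1.1 : Matrix (Fin n) (Fin n) F) = (g2.1 : Matrix (Fin n) (Fin n) F) :=
        hinj _ _ (sub_eq_zero.mp hz)
      exact Subtype.ext (Units.ext this)
    · rintro ⟨x, hx⟩
      obtain ⟨g, hg, hgv⟩ := hR.exists_commuting hv x
      have hgb : Function.Bijective g := (hR.bijective_iff hv g hg).mpr (hgv ▸ hx)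
      set G : Matrix (Fin n) (Fin n) F := LinearMap.toMatrix' g with hG
      have hGg : Matrix.mulVecLin G = g := by
        rw [hG, ← Matrix.toLin'_apply']
        exact Matrix.toLin'_toMatrix' g
      have hGu : IsUnit G := Matrix.mulVec_injective_iff_isUnit.mp (by
        rw [← Matrix.coe_mulVecLin, hGg]
        exact hgb.1)
      have hGM : G * M = M * G := by
        apply hinj
        rw [Matrix.mulVecLin_mul, Matrix.mulVecLin_mul, hGg]
        exact hg
      refine ⟨⟨hGu.unit, ?_⟩, ?_⟩
      · rw [Subgroup.mem_centralizer_iff]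
        intro h hh
        rw [Set.mem_singleton_iff] at hh
        subst hh
        apply Units.ext
        show (h : Matrix (Fin n) (Fin n) F) * G = G * (h : Matrix (Fin n) (Fin n) F)
        rw [hM, Matrix.mul_sub, Matrix.sub_mul, mul_one, one_mul] at hGM
        exact (sub_left_injective hGM).symm
      · apply Subtype.ext
        show G.mulVec v = x
        rw [← Matrix.mulVecLin_apply, hGg, hgv]
  rw [Nat.card_congr (Equiv.ofBijective f hf)]
  have hc1 : Nat.card {x : Fin n → F // x ∉ LinearMap.range N}
      = Nat.card (Fin n → F) - Nat.card (LinearMap.range N) := by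
    rw [Nat.card_eq_fintype_card, Nat.card_eq_fintype_card, Nat.card_eq_fintype_card]
    exact Fintype.card_subtype_compl _
  have hqF : Nat.card F = q := by rw [Nat.card_eq_fintype_card, hF]
  rw [hc1, Module.natCard_eq_pow_finrank (K := F) (V := (Fin n → F)),
    Module.natCard_eq_pow_finrank (K := F) (V := LinearMap.range N), hR.rank, hfr, hqF]
  obtain ⟨k, rfl⟩ : ∃ k, n = k + 1 := ⟨n - 1, by omega⟩
  rw [Nat.add_sub_cancel, pow_succ, Nat.sub_mul, one_mul, mul_comm]

end Cfsg.Agent.S2571
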