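import Cfsg.Statements.S2572
import Cfsg.Agent.Helper43.Transv

set_option autoImplicit false
open Cfsg

namespace Cfsg.Agent.S2572

open Matrix Module

universe u

/-- Pairs (column vector, row vector). -/
def Pair (n : ℕ) (F : Type u) : Type u := (Fin n → F) × (Fin n → F)

noncomputable instance pairAction {n : ℕ} {F : Type u} [Field F] :
    MulAction (GL (Fin n) F) (Pair n F) where
  smul g p := ((g : Matrix (Fin n) (Fin n) F) *ᵥ p.1, p.2 ᵥ* ((g⁻¹ : GL (Fin n) F) : Matrix (Fin n) (Fin n) F))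
  one_smul p := by
    show (((1 : GL (Fin n) F) : Matrix (Fin n) (Fin n) F) *ᵥ p.1,
      p.2 ᵥ* (((1 : GL (Fin n) F)⁻¹ : GL (Fin n) F) : Matrix (Fin n) (Fin n) F)) = p
    rw [inv_one, Units.val_one, Matrix.one_mulVec, Matrix.vecMul_one]
    rfl
  mul_smul g h p := by
    show (((g * h : GL (Fin n) F) : Matrix (Fin n) (Fin n) F) *ᵥ p.1,
      p.2 ᵥ* (((g * h)⁻¹ : GL (Fin n) F) : Matrix (Fin n) (Fin n) F))
      = ((g : Matrix (Fin n) (Fin n) F) *ᵥ ((h : Matrix (Fin n) (Fin n) F) *ᵥ p.1),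
        (p.2 ᵥ* ((h⁻¹ : GL (Fin n) F) : Matrix (Fin n) (Fin n) F)) ᵥ*
          ((g⁻¹ : GL (Fin n) F) : Matrix (Fin n) (Fin n) F))
    rw [_root_.mul_inv_rev, Units.val_mul, Units.val_mul, Matrix.mulVec_mulVec, Matrix.vecMul_vecMul]

theorem smul_def {n : ℕ} {F : Type u} [Field F] (g : GL (Fin n) F) (p : Pair n F) :
    g • p = ((g : Matrix (Fin n) (Fin n) F) *ᵥ p.1,
      p.2 ᵥ* ((g⁻¹ : GL (Fin n) F) : Matrix (Fin n) (Fin n) F)) := rfl

/-- The dot-product functional. -/
def dotLin {n : ℕ} {F : Type u} [Field F] (c : Fin n → F) : (Fin n → F) →ₗ[F] F where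
  toFun a := c ⬝ᵥ a
  map_add' a a' := dotProduct_add c a a'
  map_smul' r a := by simp [dotProduct_smul]

theorem dotLin_apply {n : ℕ} {F : Type u} [Field F] (c a : Fin n → F) : dotLin c a = c ⬝ᵥ a := rfl

theorem dotLin_ne_zero {n : ℕ} {F : Type u} [Field F] (c : Fin n → F) (hc : c ≠ 0) :
    dotLin c ≠ 0 := by
  intro h
  apply hc
  funext j
  have := congrArg (fun f => f (Pi.single j 1)) h
  simpa [dotLin_apply] using this

/-- Transitivity of the full linear group on pairs (vector, functional vanishing on it). -/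
theorem exists_equiv {F : Type*} [Field F] {V : Type u} [AddCommGroup V] [Module F V]
    [FiniteDimensional F V] (φ ψ : V →ₗ[F] F) (hφ : φ ≠ 0) (hψ : ψ ≠ 0)
    (v w : V) (hv : v ≠ 0) (hw : w ≠ 0) (hφv : φ v = 0) (hψw : ψ w = 0) :
    ∃ g : V ≃ₗ[F] V, g v = w ∧ ∀ x, ψ (g x) = φ x := by
  classical
  obtain ⟨ι, _, _, b, i0, hb0, hbφ, hbn, hc⟩ := Helper43.exists_adapted_basis φ hφ v hv hφv
  obtain ⟨ι', _, _, b', j0, hb0', hbψ, hbn', hc'⟩ := Helper43.exists_adapted_basis ψ hψ w hw hψw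
  have hcard : Fintype.card ι = Fintype.card ι' := by omega
  let τ0 : ι ≃ ι' := Fintype.equivOfCardEq hcard
  let τ : ι ≃ ι' := τ0.trans (Equiv.swap (τ0 i0) j0)
  have hτ : τ i0 = j0 := by simp [τ]
  let g0 : V ≃ₗ[F] V := b.equiv b' (Equiv.optionCongr τ)
  have hg0 : ∀ o, g0 (b o) = b' (Equiv.optionCongr τ o) := fun o => Basis.equiv_apply _ _ _ _
  have hg0v : g0 v = w := by
    rw [← hb0, hg0]
    simp [hτ, hb0']
  have hg0φ : ∀ x, ψ (g0 x) = φ x := by
    have : ψ ∘ₗ (g0 : V →ₗ[F] V) = φ := by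
      apply b.ext
      intro o
      cases o with
      | none => simp [hg0, hbn, hbn']
      | some i => simp [hg0, hbφ, hbψ]
    intro x
    exact congrArg (fun f => f x) this
  exact ⟨g0, hg0v, hg0φ⟩

/-- The set of pairs (non-zero column, non-zero row, product zero). -/
def X (n : ℕ) (F : Type u) [Field F] : Set (Pair n F) :=
  {p | p.1 ≠ 0 ∧ p.2 ≠ 0 ∧ p.2 ⬝ᵥ p.1 = 0}

theorem orbit_eq {n : ℕ} {F : Type u} [Field F] (p : Pair n F) (hp : p ∈ X n F) :
    MulAction.orbit (GL (Fin n) F) p = X n F := by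
  classical
  obtain ⟨hv, hb, hbv⟩ := hp
  ext p'
  constructor
  · rintro ⟨g, rfl⟩
    have hginv : ((g⁻¹ : GL (Fin n) F) : Matrix (Fin n) (Fin n) F) * (g : Matrix (Fin n) (Fin n) F) = 1 := by
      rw [← Units.val_mul, inv_mul_cancel, Units.val_one]
    have hginv' : (g : Matrix (Fin n) (Fin n) F) * ((g⁻¹ : GL (Fin n) F) : Matrix (Fin n) (Fin n) F) = 1 := by
      rw [← Units.val_mul, mul_inv_cancel, Units.val_one]
    refine ⟨?_, ?_, ?_⟩
    · intro h
      apply hv
      have h' : (g : Matrix (Fin n) (Fin n) F) *ᵥ p.1 = 0 := h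
      have := congrArg (fun x => ((g⁻¹ : GL (Fin n) F) : Matrix (Fin n) (Fin n) F) *ᵥ x) h'
      simpa [Matrix.mulVec_mulVec, hginv] using this
    · intro h
      apply hb
      have h' : p.2 ᵥ* ((g⁻¹ : GL (Fin n) F) : Matrix (Fin n) (Fin n) F) = 0 := h
      have := congrArg (fun x => x ᵥ* (g : Matrix (Fin n) (Fin n) F)) h'
      simpa [Matrix.vecMul_vecMul, hginv] using this
    · show (p.2 ᵥ* ((g⁻¹ : GL (Fin n) F) : Matrix (Fin n) (Fin n) F)) ⬝ᵥ
        ((g : Matrix (Fin n) (Fin n) F) *ᵥ p.1) = 0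
      rw [Matrix.dotProduct_mulVec, Matrix.vecMul_vecMul, hginv, Matrix.vecMul_one]
      exact hbv
  · rintro ⟨ha, hc, hca⟩
    obtain ⟨g0, hg0v, hg0φ⟩ := exists_equiv (dotLin p.2) (dotLin p'.2) (dotLin_ne_zero _ hb)
      (dotLin_ne_zero _ hc) p.1 p'.1 hv ha hbv hca
    have hdet : (LinearMap.toMatrix' (g0 : (Fin n → F) →ₗ[F] (Fin n → F))).det ≠ 0 := by
      rw [LinearMap.det_toMatrix']
      exact (LinearEquiv.isUnit_det' g0).ne_zero
    refine ⟨Matrix.GeneralLinearGroup.mkOfDetNeZero _ hdet, ?_⟩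
    set G : GL (Fin n) F := Matrix.GeneralLinearGroup.mkOfDetNeZero _ hdet with hG
    have hGm : (G : Matrix (Fin n) (Fin n) F)
        = LinearMap.toMatrix' (g0 : (Fin n → F) →ₗ[F] (Fin n → F)) := rfl
    have hmv : ∀ x, (G : Matrix (Fin n) (Fin n) F) *ᵥ x = g0 x := by
      intro x
      rw [hGm, ← Matrix.toLin'_apply, Matrix.toLin'_toMatrix']
      rfl
    have hginv : (G : Matrix (Fin n) (Fin n) F) * ((G⁻¹ : GL (Fin n) F) : Matrix (Fin n) (Fin n) F) = 1 := by
      rw [← Units.val_mul, mul_inv_cancel, Units.val_one]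
    have hrow : p'.2 ᵥ* (G : Matrix (Fin n) (Fin n) F) = p.2 := by
      funext j
      have h1 := hg0φ (Pi.single j 1)
      rw [dotLin_apply, dotLin_apply, ← hmv, Matrix.dotProduct_mulVec] at h1
      simpa using h1
    show ((G : Matrix (Fin n) (Fin n) F) *ᵥ p.1,
      p.2 ᵥ* ((G⁻¹ : GL (Fin n) F) : Matrix (Fin n) (Fin n) F)) = p'
    rw [hmv, hg0v, ← hrow, Matrix.vecMul_vecMul, hginv, Matrix.vecMul_one]
    rfl


theorem card_ne_zero' {α : Type*} [Zero α] [Finite α] :
    Nat.card {a : α // a ≠ 0} = Nat.card α - 1 := by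
  classical
  rw [eq_comm, ← Nat.card_congr (Equiv.sumCompl (· = (0 : α))), Nat.card_sum, Nat.card_unique,
    add_tsub_cancel_left]

theorem card_X {n : ℕ} {F : Type u} [Field F] [Fintype F] :
    Nat.card (X n F) = (Fintype.card F ^ n - 1) * (Fintype.card F ^ (n - 1) - 1) := by
  classical
  let e : X n F ≃ Σ c : {c : Fin n → F // c ≠ 0}, {a : Fin n → F // a ≠ 0 ∧ c.1 ⬝ᵥ a = 0} :=
    { toFun := fun p => ⟨⟨p.1.2, p.2.2.1⟩, ⟨p.1.1, p.2.1, p.2.2.2⟩⟩
      invFun := fun s => ⟨(s.2.1, s.1.1), s.2.2.1, s.1.2, s.2.2.2⟩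
      left_inv := fun p => rfl
      right_inv := fun s => rfl }
  rw [Nat.card_congr e, Nat.card_sigma]
  have hfib : ∀ c : {c : Fin n → F // c ≠ 0},
      Nat.card {a : Fin n → F // a ≠ 0 ∧ c.1 ⬝ᵥ a = 0} = Fintype.card F ^ (n - 1) - 1 := by
    intro c
    have hker : Nat.card (LinearMap.ker (dotLin c.1)) = Fintype.card F ^ (n - 1) := by
      rw [Module.natCard_eq_pow_finrank (K := F), Nat.card_eq_fintype_card]
      congr 1
      have h1 := LinearMap.finrank_range_add_finrank_ker (dotLin c.1)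
      have hsurj : LinearMap.range (dotLin c.1) = ⊤ :=
        LinearMap.range_eq_top.mpr (LinearMap.surjective_of_ne_zero (dotLin_ne_zero _ c.2))
      rw [hsurj, finrank_top, Module.finrank_self, Module.finrank_fintype_fun_eq_card,
        Fintype.card_fin] at h1
      omega
    let e2 : {a : Fin n → F // a ≠ 0 ∧ c.1 ⬝ᵥ a = 0} ≃
        {x : LinearMap.ker (dotLin c.1) // x ≠ 0} :=
      { toFun := fun a => ⟨⟨a.1, a.2.2⟩, fun h => a.2.1 (congrArg Subtype.val h)⟩
        invFun := fun x => ⟨x.1.1, fun h => x.2 (Subtype.ext h), x.1.2⟩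
        left_inv := fun a => rfl
        right_inv := fun x => rfl }
    rw [Nat.card_congr e2, card_ne_zero', hker]
  rw [Finset.sum_congr rfl (fun c _ => hfib c), Finset.sum_const, Finset.card_univ, smul_eq_mul,
    ← Nat.card_eq_fintype_card, card_ne_zero', Nat.card_eq_fintype_card, Fintype.card_pi,
    Finset.prod_const, Finset.card_univ, Fintype.card_fin]

theorem card_X_mul_card_stab {n : ℕ} {F : Type u} [Field F] [Fintype F] (p : Pair n F)
    (hp : p ∈ X n F) :
    Nat.card (X n F) * Nat.card (MulAction.stabilizer (GL (Fin n) F) p)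
      = Nat.card (GL (Fin n) F) := by
  rw [← orbit_eq p hp, ← Nat.card_prod,
    Nat.card_congr (MulAction.orbitProdStabilizerEquivGroup (GL (Fin n) F) p)]

theorem mem_stab_iff {n : ℕ} {F : Type u} [Field F] (p : Pair n F) (g : GL (Fin n) F) :
    g ∈ MulAction.stabilizer (GL (Fin n) F) p ↔
      (g : Matrix (Fin n) (Fin n) F) *ᵥ p.1 = p.1 ∧ p.2 ᵥ* (g : Matrix (Fin n) (Fin n) F) = p.2 := by
  have hginv : ((g⁻¹ : GL (Fin n) F) : Matrix (Fin n) (Fin n) F) * (g : Matrix (Fin n) (Fin n) F) = 1 := by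
    rw [← Units.val_mul, inv_mul_cancel, Units.val_one]
  have hginv' : (g : Matrix (Fin n) (Fin n) F) * ((g⁻¹ : GL (Fin n) F) : Matrix (Fin n) (Fin n) F) = 1 := by
    rw [← Units.val_mul, mul_inv_cancel, Units.val_one]
  rw [MulAction.mem_stabilizer_iff, smul_def]
  constructor
  · intro h
    have h1 : (g : Matrix (Fin n) (Fin n) F) *ᵥ p.1 = p.1 := congrArg Prod.fst h
    have h2 : p.2 ᵥ* ((g⁻¹ : GL (Fin n) F) : Matrix (Fin n) (Fin n) F) = p.2 := congrArg Prod.snd h
    refine ⟨h1, ?_⟩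
    have := congrArg (fun x => x ᵥ* (g : Matrix (Fin n) (Fin n) F)) h2
    simp only [Matrix.vecMul_vecMul, hginv, Matrix.vecMul_one] at this
    exact this.symm
  · rintro ⟨h1, h2⟩
    have h3 : p.2 ᵥ* ((g⁻¹ : GL (Fin n) F) : Matrix (Fin n) (Fin n) F) = p.2 := by
      have := congrArg (fun x => x ᵥ* ((g⁻¹ : GL (Fin n) F) : Matrix (Fin n) (Fin n) F)) h2
      simp only [Matrix.vecMul_vecMul, hginv', Matrix.vecMul_one] at this
      exact this.symm
    rw [h1, h3]
    rfl


theorem scalar_mul_val {n : ℕ} {F : Type u} [Field F] (c : Fˣ) (g : GL (Fin n) F) :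
    ((Matrix.GeneralLinearGroup.scalar (Fin n) c * g : GL (Fin n) F) : Matrix (Fin n) (Fin n) F)
      = (c : F) • (g : Matrix (Fin n) (Fin n) F) := by
  rw [Units.val_mul, Matrix.GeneralLinearGroup.coe_scalar, Matrix.scalar_apply,
    ← Matrix.smul_one_eq_diagonal, Matrix.smul_mul, Matrix.one_mul]

theorem comm_iff {n : ℕ} {F : Type u} [Field F] (t g : GL (Fin n) F) (p : Pair n F)
    (ht : (t : Matrix (Fin n) (Fin n) F) = 1 + vecMulVec p.1 p.2) :
    g * t = t * g ↔ vecMulVec ((g : Matrix (Fin n) (Fin n) F) *ᵥ p.1) p.2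
      = vecMulVec p.1 (p.2 ᵥ* (g : Matrix (Fin n) (Fin n) F)) := by
  rw [← Matrix.mul_vecMulVec, ← Matrix.vecMulVec_mul]
  constructor
  · intro h
    have h' := congrArg (fun x : GL (Fin n) F => (x : Matrix (Fin n) (Fin n) F)) h
    simp only [Units.val_mul, ht, mul_add, add_mul, mul_one, one_mul] at h'
    exact add_left_cancel h'
  · intro h
    apply Units.ext
    rw [Units.val_mul, Units.val_mul, ht, mul_add, add_mul, mul_one, one_mul, h]

theorem card_centralizer {n : ℕ} {F : Type u} [Field F] [Fintype F] (t : GL (Fin n) F)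
    (p : Pair n F) (hp : p ∈ X n F)
    (ht : (t : Matrix (Fin n) (Fin n) F) = 1 + vecMulVec p.1 p.2) :
    Nat.card (Subgroup.centralizer ({t} : Set (GL (Fin n) F)))
      = (Fintype.card F - 1) * Nat.card (MulAction.stabilizer (GL (Fin n) F) p) := by
  classical
  obtain ⟨hv, hb, hbv⟩ := hp
  have hmem : ∀ (c : Fˣ) (s : MulAction.stabilizer (GL (Fin n) F) p),
      Matrix.GeneralLinearGroup.scalar (Fin n) c * s.1
        ∈ Subgroup.centralizer ({t} : Set (GL (Fin n) F)) := by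
    intro c s
    obtain ⟨h1, h2⟩ := (mem_stab_iff p s.1).mp s.2
    rw [Subgroup.mem_centralizer_singleton_iff, comm_iff t _ p ht, scalar_mul_val,
      Matrix.smul_mulVec, Matrix.vecMul_smul, h1, h2, Matrix.smul_vecMulVec, Matrix.vecMulVec_smul]
  let f : Fˣ × MulAction.stabilizer (GL (Fin n) F) p →
      Subgroup.centralizer ({t} : Set (GL (Fin n) F)) :=
    fun cs => ⟨Matrix.GeneralLinearGroup.scalar (Fin n) cs.1 * cs.2.1, hmem cs.1 cs.2⟩
  have hf : Function.Bijective f := by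
    constructor
    · rintro ⟨c, s⟩ ⟨c', s'⟩ h
      have h0 : Matrix.GeneralLinearGroup.scalar (Fin n) c * s.1
          = Matrix.GeneralLinearGroup.scalar (Fin n) c' * s'.1 := congrArg Subtype.val h
      have h1 := congrArg (fun x : GL (Fin n) F => (x : Matrix (Fin n) (Fin n) F) *ᵥ p.1) h0
      simp only [scalar_mul_val, Matrix.smul_mulVec, ((mem_stab_iff p s.1).mp s.2).1,
        ((mem_stab_iff p s'.1).mp s'.2).1] at h1
      have hc : (c : F) = c' := by
        obtain ⟨i, hi⟩ : ∃ i, p.1 i ≠ 0 := by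
          by_contra hcon
          exact hv (funext fun i => by_contra fun hi => hcon ⟨i, hi⟩)
        have := congrFun h1 i
        simpa [hi] using this
      have hc' : c = c' := Units.ext hc
      subst hc'
      have hs : s.1 = s'.1 := mul_left_cancel h0
      have hs' : s = s' := Subtype.ext hs
      rw [hs']
    · rintro ⟨g, hg⟩
      rw [Subgroup.mem_centralizer_singleton_iff, comm_iff t g p ht] at hg
      have hginv : ((g⁻¹ : GL (Fin n) F) : Matrix (Fin n) (Fin n) F) * (g : Matrix (Fin n) (Fin n) F) = 1 := by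
        rw [← Units.val_mul, inv_mul_cancel, Units.val_one]
      obtain ⟨i0, hi0⟩ : ∃ i, p.1 i ≠ 0 := by
        by_contra hcon
        exact hv (funext fun i => by_contra fun hi => hcon ⟨i, hi⟩)
      obtain ⟨j0, hj0⟩ : ∃ j, p.2 j ≠ 0 := by
        by_contra hcon
        exact hb (funext fun i => by_contra fun hi => hcon ⟨i, hi⟩)
      have hent : ∀ i j, ((g : Matrix (Fin n) (Fin n) F) *ᵥ p.1) i * p.2 j
          = p.1 i * (p.2 ᵥ* (g : Matrix (Fin n) (Fin n) F)) j := by
        intro i j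
        have := congrFun (congrFun hg i) j
        simpa [Matrix.vecMulVec_apply] using this
      set lam : F := (p.2 ᵥ* (g : Matrix (Fin n) (Fin n) F)) j0 / p.2 j0 with hlam
      have hgv : (g : Matrix (Fin n) (Fin n) F) *ᵥ p.1 = lam • p.1 := by
        funext i
        have := hent i j0
        rw [Pi.smul_apply, smul_eq_mul, hlam]
        field_simp
        linear_combination this
      have hlam0 : lam ≠ 0 := by
        intro h0
        rw [h0, zero_smul] at hgv
        apply hv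
        have := congrArg (fun x => ((g⁻¹ : GL (Fin n) F) : Matrix (Fin n) (Fin n) F) *ᵥ x) hgv
        simpa [Matrix.mulVec_mulVec, hginv] using this
      have hbg : p.2 ᵥ* (g : Matrix (Fin n) (Fin n) F) = lam • p.2 := by
        funext j
        have := hent i0 j
        rw [hgv, Pi.smul_apply, smul_eq_mul] at this
        rw [Pi.smul_apply, smul_eq_mul]
        have h2 : p.1 i0 * (lam * p.2 j) = p.1 i0 * (p.2 ᵥ* (g : Matrix (Fin n) (Fin n) F)) j := by
          rw [← this]; ring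
        exact (mul_left_cancel₀ hi0 h2).symm
      have hsmem : Matrix.GeneralLinearGroup.scalar (Fin n) (Units.mk0 lam hlam0)⁻¹ * g
          ∈ MulAction.stabilizer (GL (Fin n) F) p := by
        rw [mem_stab_iff, scalar_mul_val, Matrix.smul_mulVec, Matrix.vecMul_smul, hgv, hbg,
          smul_smul, smul_smul]
        simp [hlam0]
      refine ⟨(Units.mk0 lam hlam0, ⟨_, hsmem⟩), ?_⟩
      apply Subtype.ext
      show Matrix.GeneralLinearGroup.scalar (Fin n) (Units.mk0 lam hlam0) *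
        (Matrix.GeneralLinearGroup.scalar (Fin n) (Units.mk0 lam hlam0)⁻¹ * g) = g
      rw [← mul_assoc, ← map_mul, mul_inv_cancel, map_one, one_mul]
  rw [← Nat.card_congr (Equiv.ofBijective f hf), Nat.card_prod, Nat.card_units,
    Nat.card_eq_fintype_card]


theorem prod_step (q k : ℕ) :
    ∏ i : Fin (k + 1), (q ^ (k + 1) - q ^ (i : ℕ))
      = (q ^ (k + 1) - 1) * (q ^ k * ∏ i : Fin k, (q ^ k - q ^ (i : ℕ))) := by
  rw [Fin.prod_univ_succ]
  congr 1
  have : ∀ i : Fin k, q ^ (k + 1) - q ^ ((i.succ : Fin (k + 1)) : ℕ) = q * (q ^ k - q ^ (i : ℕ)) := by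
    intro i
    rw [Fin.val_succ, Nat.mul_sub, pow_succ, pow_succ, mul_comm q, mul_comm q]
  rw [Finset.prod_congr rfl (fun i _ => this i), Finset.prod_mul_distrib, Finset.prod_const,
    Finset.card_univ, Fintype.card_fin]

/-- Centraliser of a transvection in GL_n(q), n ≥ 2: if t − 1 has rank one and square zero, the centraliser of t in GL_n(q) has order q^(2n−3) (q − 1) |GL_(n−2)(q)| (a group of order q^(2n−3) extended by GL_1(q) × GL_(n−2)(q)). -/
theorem result {F : Type*} [Field F] [Fintype F] {q n : ℕ} (hF : Fintype.card F = q) (hn : 2 ≤ n) (t : GL (Fin n) F) (ht : Cfsg.IsTransvection (t : Matrix (Fin n) (Fin n) F)) : Nat.card ↥(Subgroup.centralizer ({t} : Set (GL (Fin n) F))) = q ^ (2 * n - 3) * (q - 1) * ∏ i : Fin (n - 2), (q ^ (n - 2) - q ^ (i : ℕ)) := by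
  classical
  obtain ⟨hr, hsq⟩ := ht
  set N : Matrix (Fin n) (Fin n) F := (t : Matrix (Fin n) (Fin n) F) - 1 with hN
  have hsq' : N.mulVecLin ∘ₗ N.mulVecLin = 0 := by
    rw [← Matrix.mulVecLin_mul, hsq, Matrix.mulVecLin_zero]
  obtain ⟨v, φ, hv, hφ, hφv, hNx⟩ := Helper43.rank_one_decomp N.mulVecLin hr hsq'
  set b : Fin n → F := fun j => φ (Pi.single j 1) with hb
  have hNeq : N = vecMulVec v b := by
    ext i j
    have := congrFun (hNx (Pi.single j 1)) i
    rw [Matrix.mulVecLin_apply, Matrix.mulVec_single_one] at this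
    rw [Matrix.vecMulVec_apply, mul_comm]
    simpa using this
  have hφb : ∀ x, φ x = b ⬝ᵥ x := by
    intro x
    have h1 := hNx x
    rw [Matrix.mulVecLin_apply, hNeq, Matrix.vecMulVec_mulVec] at h1
    obtain ⟨i, hi⟩ : ∃ i, v i ≠ 0 := by
      by_contra hcon
      exact hv (funext fun i => by_contra fun hi => hcon ⟨i, hi⟩)
    have h2 := congrFun h1 i
    simp only [Pi.smul_apply, smul_eq_mul, MulOpposite.smul_eq_mul_unop, MulOpposite.unop_op] at h2
    rw [mul_comm] at h2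
    exact (mul_right_cancel₀ hi h2).symm
  have hb0 : b ≠ 0 := by
    intro h0
    apply hφ
    refine LinearMap.ext fun x => ?_
    rw [hφb, h0]
    simp
  have hbv : b ⬝ᵥ v = 0 := by rw [← hφb]; exact hφv
  have hp : ((v, b) : Pair n F) ∈ X n F := ⟨hv, hb0, hbv⟩
  have ht' : (t : Matrix (Fin n) (Fin n) F) = 1 + vecMulVec v b := by
    rw [← hNeq, hN]; abel
  rw [card_centralizer t (v, b) hp ht']
  have h1 := card_X_mul_card_stab ((v, b) : Pair n F) hp
  rw [card_X, Matrix.card_GL_field, hF] at h1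
  rw [hF]
  obtain ⟨m, rfl⟩ : ∃ m, n = m + 2 := ⟨n - 2, by omega⟩
  have hq : 2 ≤ q := by rw [← hF]; exact Fintype.one_lt_card
  rw [prod_step, show m + 2 - 1 = m + 1 from rfl, prod_step] at h1
  have e1 : 0 < q ^ (m + 1 + 1) - 1 := by
    have : 1 < q ^ (m + 1 + 1) := Nat.one_lt_pow (by omega) (by omega)
    omega
  have e2 : 0 < q ^ (m + 1) - 1 := by
    have : 1 < q ^ (m + 1) := Nat.one_lt_pow (by omega) (by omega)
    omega
  rw [mul_assoc] at h1
  have h2 := Nat.eq_of_mul_eq_mul_left e1 h1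
  rw [mul_left_comm] at h2
  have h3 := Nat.eq_of_mul_eq_mul_left e2 h2
  rw [h3, show 2 * (m + 2) - 3 = (m + 1) + m by omega, pow_add, show m + 2 - 2 = m from rfl]
  ring

end Cfsg.Agent.S2572
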