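import Cfsg.Statements.S2574
import Cfsg.Agent.Helper43.Symp

set_option autoImplicit false
open Cfsg

namespace Cfsg.Agent.S2574

/-- A regular unipotent element of the symplectic group has totally isotropic small invariant subspaces: over a finite field, if u ∈ Sp_2m(F) satisfies (u − 1)^(2m) = 0 and rank(u − 1) = 2m − 1, and W is a u-invariant subspace with 2 dim W ≤ 2m, then the alternating form vanishes identically on W. -/
theorem result {F : Type*} [Field F] [Finite F] {m : ℕ} (u : Matrix.symplecticGroup (Fin m) F) (hnil : ((u : Matrix (Fin m ⊕ Fin m) (Fin m ⊕ Fin m) F) - 1) ^ (2 * m) = 0) (hreg : ((u : Matrix (Fin m ⊕ Fin m) (Fin m ⊕ Fin m) F) - 1).rank = 2 * m - 1) (W : Submodule F (Fin m ⊕ Fin m → F)) (hW : ∀ v ∈ W, (u : Matrix (Fin m ⊕ Fin m) (Fin m ⊕ Fin m) F).mulVec v ∈ W) (hdim : 2 * Module.finrank F W ≤ 2 * m) : ∀ v ∈ W, ∀ w ∈ W, Cfsg.sympForm m F v w = 0 := by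
  classical
  set M : Matrix (Fin m ⊕ Fin m) (Fin m ⊕ Fin m) F :=
    (u : Matrix (Fin m ⊕ Fin m) (Fin m ⊕ Fin m) F) with hM
  have hcard : Fintype.card (Fin m ⊕ Fin m) = 2 * m := by
    rw [Fintype.card_sum, Fintype.card_fin, two_mul]
  have hdata := Cfsg.Agent.Helper43.regular_nilpotent_data (M - 1) (2 * m) hnil
    (by rw [hcard]; exact hreg)
  have hNu : ∀ w, Matrix.mulVecLin (M - 1) w = M.mulVec w - w := by
    intro w
    simp
  have hWN : ∀ w ∈ W, Matrix.mulVecLin (M - 1) w ∈ W := by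
    intro w hw
    rw [hNu]
    exact W.sub_mem (hW w hw) hw
  set B := Cfsg.Agent.Helper43.sympBilin m F with hB
  have hW'u : ∀ x ∈ B.orthogonal W, M.mulVec x ∈ B.orthogonal W := by
    intro x hx
    rw [LinearMap.BilinForm.mem_orthogonal_iff] at hx ⊢
    intro w hw
    obtain ⟨w', hw', rfl⟩ := Cfsg.Agent.Helper43.exists_preimage_of_invariant (Matrix.mulVecLin M)
      (Cfsg.Agent.Helper43.symp_mulVec_injective m u) W hW w hw
    have := hx w' hw'
    rw [hB, Cfsg.Agent.Helper43.sympBilin_apply] at this ⊢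
    rw [Matrix.mulVecLin_apply, hM, Cfsg.Agent.Helper43.sympForm_mulVec_mulVec]
    exact this
  have hW'N : ∀ x ∈ B.orthogonal W, Matrix.mulVecLin (M - 1) x ∈ B.orthogonal W := by
    intro x hx
    rw [hNu]
    exact (B.orthogonal W).sub_mem (hW'u x hx) hx
  have e1 := Cfsg.Agent.Helper43.eq_ker_pow_finrank hdata.1 hdata.2 W hWN
  have e2 := Cfsg.Agent.Helper43.eq_ker_pow_finrank hdata.1 hdata.2 (B.orthogonal W) hW'N
  have hd : Module.finrank F W ≤ Module.finrank F (B.orthogonal W) := by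
    have := LinearMap.BilinForm.finrank_add_finrank_orthogonal (B := B)
      (by rw [hB]; exact Cfsg.Agent.Helper43.sympBilin_isRefl m F) W
    rw [Module.finrank_fintype_fun_eq_card, hcard] at this
    omega
  have hle : W ≤ B.orthogonal W := by
    rw [e2]
    conv_lhs => rw [e1]
    exact Cfsg.Agent.Helper43.ker_pow_le_ker_pow _ hd
  intro v hv w hw
  have := hle hw
  rw [LinearMap.BilinForm.mem_orthogonal_iff] at this
  have h2 := this v hv
  rw [hB, Cfsg.Agent.Helper43.sympBilin_apply] at h2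
  exact h2

end Cfsg.Agent.S2574
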