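import Cfsg.Statements.S2576
import Cfsg.Agent.Helper43.FieldPow

set_option autoImplicit false
open Cfsg

namespace Cfsg.Agent.S2576

/-- Which involutions of PGL_2m(q) coming from a scalar of the quadratic extension field lie in PSL_2m(q), q odd: let μ generate the Sylow 2-subgroup of the multiplicative group of the field with q elements (μ has order the 2-part of q − 1) and let t be the block-diagonal matrix with m diagonal blocks [[0, 1], [μ, 0]] (so t² is the scalar μ and t is an involution modulo scalars). Then some non-zero scalar multiple of t has determinant one if and only if q ≡ 3 (mod 4) or the 2-part of q − 1 is less than the 2-part of 2m. -/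
theorem result {F : Type*} [Field F] [Fintype F] {q : ℕ} (hF : Fintype.card F = q) (hq : Odd q) {m : ℕ} (hm : 1 ≤ m) (μ : F) (hμ : orderOf μ = 2 ^ padicValNat 2 (q - 1)) : (∃ c : F, c ≠ 0 ∧ (c • Matrix.blockDiagonal (fun _ : Fin m => !![(0 : F), 1; μ, 0])).det = 1) ↔ (q % 4 = 3 ∨ padicValNat 2 (q - 1) < padicValNat 2 (2 * m)) := by
  classical
  have hne := Cfsg.Agent.Helper43.neg_one_ne_one_of_odd_card hF hq
  have hN0 := Cfsg.Agent.Helper43.card_sub_one_ne_zero hF
  have hm0 : m ≠ 0 := by omega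
  obtain ⟨N1, hN1odd, hN1⟩ := Cfsg.Agent.Helper43.exists_odd_mul_two_pow hN0
  obtain ⟨m1, hm1odd, hm1⟩ := Cfsg.Agent.Helper43.exists_odd_mul_two_pow hm0
  have hv2m : padicValNat 2 (2 * m) = padicValNat 2 m + 1 := by
    rw [padicValNat.mul (by norm_num) hm0, padicValNat_self, add_comm]
  set b := padicValNat 2 (q - 1) with hb
  set s := padicValNat 2 m with hs
  have hdet : ∀ c : F, (c • Matrix.blockDiagonal (fun _ : Fin m => !![(0 : F), 1; μ, 0])).det
      = c ^ (2 * m) * (-μ) ^ m := by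
    intro c
    rw [Matrix.det_smul, Matrix.det_blockDiagonal]
    simp [Matrix.det_fin_two_of]
  simp only [hdet]
  have hb1 : 1 ≤ b := by
    rw [hb, ← padicValNat_dvd_iff_le hN0]
    obtain ⟨t, rfl⟩ := hq
    exact ⟨t, by omega⟩
  have hμ2 : μ ^ (2 ^ b) = 1 := by rw [← hμ, pow_orderOf_eq_one]
  have hμhalf : μ ^ (2 ^ (b - 1)) = -1 := by
    have h1 : (μ ^ (2 ^ (b - 1))) ^ 2 = 1 := by
      rw [← pow_mul, ← pow_succ, Nat.sub_add_cancel hb1, hμ2]
    have h2 : μ ^ (2 ^ (b - 1)) ≠ 1 :=
      pow_ne_one_of_lt_orderOf (by positivity)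
        (by rw [hμ]; exact Nat.pow_lt_pow_right (by norm_num) (by omega))
    rcases sq_eq_one_iff.mp h1 with h | h
    · exact absurd h h2
    · exact h
  rcases Nat.lt_or_ge b 2 with hb2 | hb2
  · -- b = 1
    have hbeq : b = 1 := by omega
    have hq4 : q % 4 = 3 := by
      rw [hbeq] at hN1
      obtain ⟨t, rfl⟩ := hN1odd
      omega
    have hμm : μ = -1 := by
      rw [hbeq] at hμhalf
      simpa using hμhalf
    simp only [hq4, true_or, iff_true]
    exact ⟨1, one_ne_zero, by rw [hμm]; simp⟩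
  · have hq4 : q % 4 ≠ 3 := by
      obtain ⟨e, he⟩ : ∃ e, b = e + 2 := ⟨b - 2, by omega⟩
      have h4 : 4 ∣ q - 1 := ⟨2 ^ e * N1, by rw [hN1, he, pow_add]; ring⟩
      omega
    have hνhalf : (-μ) ^ (2 ^ (b - 1)) = -1 := by
      rw [neg_pow, hμhalf]
      have : Even (2 ^ (b - 1)) := by
        obtain ⟨e, he⟩ : ∃ e, b - 1 = e + 1 := ⟨b - 2, by omega⟩
        rw [he, pow_succ]
        exact even_two.mul_left _
      rw [this.neg_one_pow, one_mul]
    have hν2 : (-μ) ^ (2 ^ b) = 1 := by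
      have : 2 ^ b = 2 ^ (b - 1) * 2 := by rw [← pow_succ, Nat.sub_add_cancel hb1]
      rw [this, pow_mul, hνhalf]
      simp
    simp only [hq4, false_or]
    rw [hv2m]
    constructor
    · rintro ⟨c, hc0, hc⟩
      by_contra hlt
      have hsb : s + 1 ≤ b := by omega
      obtain ⟨d, hd⟩ : ∃ d, b = s + 1 + d := ⟨b - (s + 1), by omega⟩
      have hcN : c ^ (q - 1) = 1 := by
        rw [← hF]
        exact FiniteField.pow_card_sub_one_eq_one c hc0
      have h1 := congrArg (fun x => x ^ (N1 * 2 ^ d)) hc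
      simp only [one_pow, mul_pow] at h1
      have e1 : (c ^ (2 * m)) ^ (N1 * 2 ^ d) = 1 := by
        have : 2 * m * (N1 * 2 ^ d) = (q - 1) * m1 := by
          rw [hN1, hd]
          calc 2 * m * (N1 * 2 ^ d) = 2 * (2 ^ s * m1) * (N1 * 2 ^ d) := by rw [← hm1]
            _ = 2 ^ (s + 1 + d) * N1 * m1 := by ring
        rw [← pow_mul, this, pow_mul, hcN, one_pow]
      have e2 : ((-μ) ^ m) ^ (N1 * 2 ^ d) = -1 := by
        have : m * (N1 * 2 ^ d) = 2 ^ (b - 1) * (m1 * N1) := by
          have hb' : b - 1 = s + d := by omega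
          rw [hb']
          calc m * (N1 * 2 ^ d) = (2 ^ s * m1) * (N1 * 2 ^ d) := by rw [← hm1]
            _ = 2 ^ (s + d) * (m1 * N1) := by ring
        rw [← pow_mul, this, pow_mul, hνhalf, (hm1odd.mul hN1odd).neg_one_pow]
      rw [e1, e2, one_mul] at h1
      exact hne h1
    · intro hlt
      have hdvd : 2 ^ b ∣ m := (padicValNat_dvd_iff_le hm0).mpr (by omega)
      obtain ⟨k, hk⟩ := hdvd
      refine ⟨1, one_ne_zero, ?_⟩
      rw [one_pow, one_mul, hk, pow_mul, hν2, one_pow]

end Cfsg.Agent.S2576
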