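import Cfsg.Statements.S2579
import Cfsg.Agent.Helper43.Transv

set_option autoImplicit false
open Cfsg

namespace Cfsg.Agent.S2579

/-- In SL_n(F) with n ≥ 3, over a finite field F, any two transvections (matrices t with t − 1 of rank one and square zero) are conjugate by an element of SL_n(F). -/
theorem result {F : Type*} [Field F] [Finite F] {n : ℕ} (hn : 3 ≤ n) (s t : Matrix.SpecialLinearGroup (Fin n) F) (hs : Cfsg.IsTransvection (s : Matrix (Fin n) (Fin n) F)) (ht : Cfsg.IsTransvection (t : Matrix (Fin n) (Fin n) F)) : IsConj s t := by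
  classical
  obtain ⟨hs1, hs2⟩ := hs
  obtain ⟨ht1, ht2⟩ := ht
  set S : Matrix (Fin n) (Fin n) F := (s : Matrix (Fin n) (Fin n) F) with hS
  set T : Matrix (Fin n) (Fin n) F := (t : Matrix (Fin n) (Fin n) F) with hT
  have hinj : ∀ A B : Matrix (Fin n) (Fin n) F, Matrix.mulVecLin A = Matrix.mulVecLin B → A = B := by
    intro A B hAB
    rw [← Matrix.toLin'_apply', ← Matrix.toLin'_apply'] at hAB
    exact Matrix.toLin'.injective hAB
  obtain ⟨v, φ, hv, hφ, hφv, hNs⟩ := Cfsg.Agent.Helper43.rank_one_decomp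
    (Matrix.mulVecLin (S - 1)) hs1 (by rw [← Matrix.mulVecLin_mul, hs2]; simp)
  obtain ⟨w, ψ, hw, hψ, hψw, hNt⟩ := Cfsg.Agent.Helper43.rank_one_decomp
    (Matrix.mulVecLin (T - 1)) ht1 (by rw [← Matrix.mulVecLin_mul, ht2]; simp)
  obtain ⟨g, hdet, hgv, hgφ⟩ := Cfsg.Agent.Helper43.exists_det_one_equiv
    (by rw [Module.finrank_fin_fun]; exact hn) φ ψ hφ hψ v w hv hw hφv hψw
  set G : Matrix (Fin n) (Fin n) F :=
    LinearMap.toMatrix' (g : (Fin n → F) →ₗ[F] (Fin n → F)) with hG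
  have hGdet : G.det = 1 := by
    rw [hG, LinearMap.det_toMatrix']
    exact hdet
  have hGlin : Matrix.mulVecLin G = (g : (Fin n → F) →ₗ[F] (Fin n → F)) := by
    rw [hG, ← Matrix.toLin'_apply']
    exact Matrix.toLin'_toMatrix' _
  have hcomm : G * (S - 1) = (T - 1) * G := by
    apply hinj
    rw [Matrix.mulVecLin_mul, Matrix.mulVecLin_mul, hGlin]
    apply LinearMap.ext
    intro x
    simp only [LinearMap.comp_apply, LinearEquiv.coe_coe]
    rw [hNs, hNt, map_smul, hgv, hgφ]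
  have hGS : G * S = T * G := by
    rw [Matrix.mul_sub, Matrix.sub_mul, mul_one, one_mul] at hcomm
    exact sub_left_injective hcomm
  obtain ⟨c, hc⟩ : ∃ c : Matrix.SpecialLinearGroup (Fin n) F,
      (c : Matrix (Fin n) (Fin n) F) = G := ⟨⟨G, hGdet⟩, rfl⟩
  rw [isConj_iff]
  refine ⟨c, ?_⟩
  rw [mul_inv_eq_iff_eq_mul]
  apply Subtype.ext
  show (c : Matrix (Fin n) (Fin n) F) * S = T * (c : Matrix (Fin n) (Fin n) F)
  rw [hc]
  exact hGS

end Cfsg.Agent.S2579
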