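import Cfsg.Statements.S2586
import Cfsg.Agent.Helper43.Transpose

set_option autoImplicit false
open Cfsg

namespace Cfsg.Agent.S2586

/-- Over a finite field, every element of the symplectic group Sp_2m(F) is conjugate by an invertible matrix to its inverse. -/
theorem result {F : Type*} [Field F] [Finite F] {m : ℕ} (A : Matrix.symplecticGroup (Fin m) F) : IsConj (A : Matrix (Fin m ⊕ Fin m) (Fin m ⊕ Fin m) F) ((A⁻¹ : Matrix.symplecticGroup (Fin m) F) : Matrix (Fin m ⊕ Fin m) (Fin m ⊕ Fin m) F) := by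
  have h1 : IsConj (A : Matrix (Fin m ⊕ Fin m) (Fin m ⊕ Fin m) F)
      (A : Matrix (Fin m ⊕ Fin m) (Fin m ⊕ Fin m) F).transpose :=
    Cfsg.Agent.Helper43.isConj_transpose _
  have hJ1 : (-Matrix.J (Fin m) F) * Matrix.J (Fin m) F = 1 := by
    rw [Matrix.neg_mul, Matrix.J_squared, neg_neg]
  have hJ2 : Matrix.J (Fin m) F * (-Matrix.J (Fin m) F) = 1 := by
    rw [Matrix.mul_neg, Matrix.J_squared, neg_neg]
  have h2 : IsConj (A : Matrix (Fin m ⊕ Fin m) (Fin m ⊕ Fin m) F).transpose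
      ((A⁻¹ : Matrix.symplecticGroup (Fin m) F) : Matrix (Fin m ⊕ Fin m) (Fin m ⊕ Fin m) F) := by
    refine ⟨⟨-Matrix.J (Fin m) F, Matrix.J (Fin m) F, hJ1, hJ2⟩, ?_⟩
    show (-Matrix.J (Fin m) F) * (A : Matrix (Fin m ⊕ Fin m) (Fin m ⊕ Fin m) F).transpose
      = ((A⁻¹ : Matrix.symplecticGroup (Fin m) F) : Matrix (Fin m ⊕ Fin m) (Fin m ⊕ Fin m) F)
        * (-Matrix.J (Fin m) F)
    rw [SymplecticGroup.coe_inv, Matrix.mul_assoc, hJ2, Matrix.mul_one]
  exact h1.trans h2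

end Cfsg.Agent.S2586
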