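import Cfsg.Statements.S2590
import Cfsg.Agent.Helper43.OrthSemi

set_option autoImplicit false
open Cfsg

namespace Cfsg.Agent.S2590

open Cfsg.Agent.Helper43 Cfsg.Agent.Helper43.OrthSemi Matrix

/-- Two semisimple elements of odd order of a finite orthogonal group (isometry group of a quadratic form on F^n with non-degenerate polar form, F finite of characteristic p; the elements have odd order prime to p) are conjugate in the orthogonal group if and only if they are conjugate in GL_n(F). -/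
theorem result {F : Type*} [Field F] [Fintype F] {p : ℕ} [Fact p.Prime] [CharP F p] {n : ℕ} (Q : QuadraticForm F (Fin n → F)) (hQ : (QuadraticMap.polarBilin Q).Nondegenerate) (A B : ↥(Cfsg.isometryGroup F ⇑Q)) (hodd : Odd (orderOf A)) (hA : (orderOf A).Coprime p) : IsConj A B ↔ IsConj ((A : Matrix.GeneralLinearGroup (Fin n) F) : Matrix (Fin n) (Fin n) F) ((B : Matrix.GeneralLinearGroup (Fin n) F) : Matrix (Fin n) (Fin n) F) := by
  classical
  constructor
  · intro h
    obtain ⟨c, hc⟩ := isConj_iff.1 h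
    refine ⟨(c : Matrix.GeneralLinearGroup (Fin n) F), ?_⟩
    show ((c : Matrix.GeneralLinearGroup (Fin n) F) : Matrix (Fin n) (Fin n) F) * ((A : Matrix.GeneralLinearGroup (Fin n) F) : Matrix (Fin n) (Fin n) F) = ((B : Matrix.GeneralLinearGroup (Fin n) F) : Matrix (Fin n) (Fin n) F) * ((c : Matrix.GeneralLinearGroup (Fin n) F) : Matrix (Fin n) (Fin n) F)
    have h1 : c * A = B * c := by rw [← hc]; group
    have h2 := congrArg (fun x : ↥(Cfsg.isometryGroup F ⇑Q) => ((x : Matrix.GeneralLinearGroup (Fin n) F) : Matrix (Fin n) (Fin n) F)) h1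
    simpa only [Subgroup.coe_mul, Units.val_mul] using h2
  · rintro ⟨g, hg⟩
    obtain ⟨a, ha⟩ : ∃ a : Matrix (Fin n) (Fin n) F, a = ((A : Matrix.GeneralLinearGroup (Fin n) F) : Matrix (Fin n) (Fin n) F) := ⟨_, rfl⟩
    obtain ⟨b, hb⟩ : ∃ b : Matrix (Fin n) (Fin n) F, b = ((B : Matrix.GeneralLinearGroup (Fin n) F) : Matrix (Fin n) (Fin n) F) := ⟨_, rfl⟩
    have hGA : (g : Matrix (Fin n) (Fin n) F) * a = b * g := by
      rw [ha, hb]; exact hg
    have haQ : ∀ x, Q (a *ᵥ x) = Q x := by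
      intro x
      rw [ha]
      exact A.2 x x
    have hbQ : ∀ x, Q (b *ᵥ x) = Q x := by
      intro x
      rw [hb]
      exact B.2 x x
    have hak : a ^ orderOf A = 1 := by
      rw [ha, ← Units.val_pow_eq_pow_val, ← SubmonoidClass.coe_pow, pow_orderOf_eq_one]
      rfl
    obtain ⟨S, S', hSS', hSQ, hSab⟩ := exists_orth_conj p Q hQ a b (g : Matrix (Fin n) (Fin n) F)
      ((g⁻¹ : (Matrix (Fin n) (Fin n) F)ˣ) : Matrix (Fin n) (Fin n) F) (Units.mul_inv g)
      (orderOf A) hodd hA hak haQ hbQ hGA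
    have hmem : (⟨S, S', hSS', mul_eq_one_comm.1 hSS'⟩ : Matrix.GeneralLinearGroup (Fin n) F) ∈ Cfsg.isometryGroup F ⇑Q := by
      intro u v
      exact hSQ u
    refine isConj_iff.2 ⟨⟨⟨S, S', hSS', mul_eq_one_comm.1 hSS'⟩, hmem⟩, ?_⟩
    rw [mul_inv_eq_iff_eq_mul]
    apply Subtype.ext
    apply Units.ext
    show S * ((A : Matrix.GeneralLinearGroup (Fin n) F) : Matrix (Fin n) (Fin n) F) = ((B : Matrix.GeneralLinearGroup (Fin n) F) : Matrix (Fin n) (Fin n) F) * S
    rw [← ha, ← hb]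
    exact hSab

end Cfsg.Agent.S2590
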