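import Cfsg.Statements.S2591
import Cfsg.Agent.Helper43.RegUnipSp2

set_option autoImplicit false
open Cfsg

namespace Cfsg.Agent.S2591

/-- Over a finite field of odd order and for m ≥ 1, the regular unipotent elements of Sp_2m(F) (u − 1 nilpotent of rank 2m − 1, a single Jordan block) form exactly two conjugacy classes of Sp_2m(F) (one class under the similarity group, which splits in two). -/
theorem result {F : Type*} [Field F] [Fintype F] {q : ℕ} (hF : Fintype.card F = q) (hq : Odd q) {m : ℕ} (hm : 1 ≤ m) : Nat.card {C : ConjClasses ↥(Matrix.symplecticGroup (Fin m) F) // ∃ u : Matrix.symplecticGroup (Fin m) F, ConjClasses.mk u = C ∧ ((u : Matrix (Fin m ⊕ Fin m) (Fin m ⊕ Fin m) F) - 1) ^ (2 * m) = 0 ∧ ((u : Matrix (Fin m ⊕ Fin m) (Fin m ⊕ Fin m) F) - 1).rank = 2 * m - 1} = 2 := by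
  have h2 : (2 : F) ≠ 0 := by
    apply Ring.two_ne_zero
    intro h
    rw [FiniteField.even_card_iff_char_two, hF] at h
    obtain ⟨t, rfl⟩ := hq
    omega
  obtain ⟨p, hchar⟩ := CharP.exists F
  have : Fact p.Prime := ⟨CharP.char_is_prime F p⟩
  have hp : p ≠ 2 := by
    rintro rfl
    apply h2
    have := CharP.cast_eq_zero F 2
    exact_mod_cast this
  obtain ⟨u₀, hu₀nil, hu₀rank⟩ := Helper43.exists_base (F := F) hm
  have hdimV : Module.finrank F (Fin m ⊕ Fin m → F) = 2 * m := by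
    rw [Module.finrank_fintype_fun_eq_card]
    simp [two_mul]
  have hcard : Fintype.card (Fin m ⊕ Fin m) = 2 * m := by simp [two_mul]
  have hR₀ : Helper43.RegNilp (Matrix.mulVecLin
      ((u₀ : Matrix (Fin m ⊕ Fin m) (Fin m ⊕ Fin m) F) - 1)) := by
    refine ⟨⟨2 * m, by rw [← Helper43.mulVecLin_pow, hu₀nil]; simp⟩, ?_, ?_⟩
    · rw [hdimV]; exact hu₀rank
    · rw [hdimV]; omega
  obtain ⟨v₀, hv₀⟩ := hR₀.exists_cyclic
  have h₀ : Helper43.SpReg (u₀ : Matrix (Fin m ⊕ Fin m) (Fin m ⊕ Fin m) F) v₀ :=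
    ⟨(Helper43.adj_mul_self_iff _).mpr u₀.2, ⟨hR₀, hv₀⟩⟩
  have hT : ∀ C : {C : ConjClasses ↥(Matrix.symplecticGroup (Fin m) F) // ∃ u : Matrix.symplecticGroup (Fin m) F, ConjClasses.mk u = C ∧ ((u : Matrix (Fin m ⊕ Fin m) (Fin m ⊕ Fin m) F) - 1) ^ (2 * m) = 0 ∧ ((u : Matrix (Fin m ⊕ Fin m) (Fin m ⊕ Fin m) F) - 1).rank = 2 * m - 1},
      ∃ (u : Matrix.symplecticGroup (Fin m) F) (P : Matrix (Fin m ⊕ Fin m) (Fin m ⊕ Fin m) F)
        (c : F), ConjClasses.mk u = C.1 ∧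
        Helper43.GoodSp (u₀ : Matrix (Fin m ⊕ Fin m) (Fin m ⊕ Fin m) F)
          (u : Matrix (Fin m ⊕ Fin m) (Fin m ⊕ Fin m) F) P ∧
        IsNilpotent (Helper43.adj P * P - c • 1) := by
    rintro ⟨C, u, hu, h1, h3⟩
    obtain ⟨P, hPdet, hPN⟩ := Helper43.exists_intertwiner (2 * m) hcard (by omega)
      ((u₀ : Matrix (Fin m ⊕ Fin m) (Fin m ⊕ Fin m) F) - 1)
      ((u : Matrix (Fin m ⊕ Fin m) (Fin m ⊕ Fin m) F) - 1) hu₀nil hu₀rank h1 h3
    have hP : Helper43.GoodSp (u₀ : Matrix (Fin m ⊕ Fin m) (Fin m ⊕ Fin m) F)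
        (u : Matrix (Fin m ⊕ Fin m) (Fin m ⊕ Fin m) F) P := by
      refine ⟨hPdet, ?_⟩
      rw [mul_sub, sub_mul, mul_one, one_mul] at hPN
      exact sub_left_injective hPN
    have hmem := Helper43.gram_mem h₀ ((Helper43.adj_mul_self_iff _).mpr u.2) hP
    obtain ⟨c, hc⟩ := Helper43.cen_loc h₀.cyc ⟨Helper43.adj P * P, hmem⟩
    refine ⟨u, P, c, hu, hP, ?_⟩
    rw [Helper43.cen_nil_iff, Subalgebra.coe_sub, Subalgebra.coe_algebraMap,
      Algebra.algebraMap_eq_smul_one] at hc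
    exact hc
  choose uu PP cc huu hGood hcc using hT
  have hcc0 : ∀ C, cc C ≠ 0 := fun C =>
    Helper43.gram_scalar_ne_zero hm (PP C) (hGood C).1 (cc C) (hcc C)
  let H : Subgroup Fˣ := (powMonoidHom 2 : Fˣ →* Fˣ).range
  let f : {C : ConjClasses ↥(Matrix.symplecticGroup (Fin m) F) // ∃ u : Matrix.symplecticGroup (Fin m) F, ConjClasses.mk u = C ∧ ((u : Matrix (Fin m ⊕ Fin m) (Fin m ⊕ Fin m) F) - 1) ^ (2 * m) = 0 ∧ ((u : Matrix (Fin m ⊕ Fin m) (Fin m ⊕ Fin m) F) - 1).rank = 2 * m - 1} → Fˣ ⧸ H :=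
    fun C => QuotientGroup.mk (Units.mk0 (cc C) (hcc0 C))
  have hf : Function.Bijective f := by
    constructor
    · intro C C' hCC'
      have h1 : (Units.mk0 (cc C) (hcc0 C))⁻¹ * Units.mk0 (cc C') (hcc0 C') ∈ H :=
        QuotientGroup.eq.mp hCC'
      obtain ⟨a, ha⟩ := h1
      have h3 : IsConj (uu C) (uu C') := by
        rw [h₀.conj_iff p hp hm _ _ _ _ (hGood C) (hGood C') _ _ (hcc C) (hcc C')]
        refine ⟨a, ?_⟩
        have := congrArg (fun x : Fˣ => (x : F)) ha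
        simp only [powMonoidHom_apply, Units.val_pow_eq_pow_val, Units.val_mul,
          Units.val_inv_eq_inv_val, Units.val_mk0] at this
        rw [this]
        have := hcc0 C
        field_simp
      apply Subtype.ext
      rw [← huu C, ← huu C']
      exact ConjClasses.mk_eq_mk_iff_isConj.mpr h3
    · intro x
      obtain ⟨d, rfl⟩ := QuotientGroup.mk_surjective x
      obtain ⟨P, hPdet, hPd⟩ := Helper43.exists_similitude (m := m) (d : F) d.ne_zero
      obtain ⟨u, hu1, hu2, hPgood⟩ := Helper43.exists_conj_of_similitude u₀ (2 * m) hu₀nil P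
        hPdet (d : F) d.ne_zero hPd
      rw [hu₀rank] at hu2
      have hdnil : IsNilpotent (Helper43.adj P * P - (d : F) • 1) := by
        rw [hPd, sub_self]; exact IsNilpotent.zero
      refine ⟨⟨ConjClasses.mk u, u, rfl, hu1, hu2⟩, ?_⟩
      have hconj : IsConj (uu ⟨ConjClasses.mk u, u, rfl, hu1, hu2⟩) u :=
        ConjClasses.mk_eq_mk_iff_isConj.mp (huu _)
      obtain ⟨a, ha⟩ := (h₀.conj_iff p hp hm _ _ _ _ (hGood _) hPgood _ _ (hcc _) hdnil).mp hconj
      apply QuotientGroup.eq.mpr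
      refine ⟨a, ?_⟩
      apply Units.ext
      simp only [powMonoidHom_apply, Units.val_pow_eq_pow_val, Units.val_mul,
        Units.val_inv_eq_inv_val, Units.val_mk0]
      rw [ha]
      have := hcc0 ⟨ConjClasses.mk u, u, rfl, hu1, hu2⟩
      field_simp
  rw [Nat.card_congr (Equiv.ofBijective f hf)]
  have hidx : Nat.card (Fˣ ⧸ H) = H.index := rfl
  rw [hidx, IsCyclic.index_powMonoidHom_range, Nat.card_units, Nat.card_eq_fintype_card, hF]
  obtain ⟨t, rfl⟩ := hq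
  simp

end Cfsg.Agent.S2591
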