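import Cfsg.Statements.S2592
import Cfsg.Agent.Helper43.RegUnipSp

set_option autoImplicit false
open Cfsg

namespace Cfsg.Agent.S2592

/-- Over a finite field with q elements, q odd, the centraliser in Sp_2m(F) (m ≥ 1) of a regular unipotent element (u − 1 nilpotent of rank 2m − 1) has order 2 q^m. -/
theorem result {F : Type*} [Field F] [Fintype F] {q : ℕ} (hF : Fintype.card F = q) (hq : Odd q) {m : ℕ} (hm : 1 ≤ m) (u : Matrix.symplecticGroup (Fin m) F) (hnil : ((u : Matrix (Fin m ⊕ Fin m) (Fin m ⊕ Fin m) F) - 1) ^ (2 * m) = 0) (hreg : ((u : Matrix (Fin m ⊕ Fin m) (Fin m ⊕ Fin m) F) - 1).rank = 2 * m - 1) : Nat.card ↥(Subgroup.centralizer ({u} : Set ↥(Matrix.symplecticGroup (Fin m) F))) = 2 * q ^ m := by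
  have h2 : (2 : F) ≠ 0 := by
    apply Ring.two_ne_zero
    intro h
    rw [FiniteField.even_card_iff_char_two, hF] at h
    obtain ⟨t, rfl⟩ := hq
    omega
  have hdimV : Module.finrank F (Fin m ⊕ Fin m → F) = 2 * m := by
    rw [Module.finrank_fintype_fun_eq_card]
    simp [two_mul]
  have hR : Helper43.RegNilp (Matrix.mulVecLin
      ((u : Matrix (Fin m ⊕ Fin m) (Fin m ⊕ Fin m) F) - 1)) := by
    refine ⟨⟨2 * m, by rw [← Helper43.mulVecLin_pow, hnil]; simp⟩, ?_, ?_⟩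
    · rw [hdimV]; exact hreg
    · rw [hdimV]; omega
  obtain ⟨v, hv⟩ := hR.exists_cyclic
  have hS : Helper43.SpReg (u : Matrix (Fin m ⊕ Fin m) (Fin m ⊕ Fin m) F) v :=
    ⟨(Helper43.adj_mul_self_iff _).mpr u.2, ⟨hR, hv⟩⟩
  rw [← hF, ← hS.card_unitary h2 hm]
  refine Nat.card_congr
    { toFun := fun g => ⟨⟨((g : Matrix.symplecticGroup (Fin m) F) :
          Matrix (Fin m ⊕ Fin m) (Fin m ⊕ Fin m) F), ?_⟩, ?_⟩
      invFun := fun g => ⟨⟨((g : ↥(Helper43.Cen ((u : Matrix (Fin m ⊕ Fin m) (Fin m ⊕ Fin m) F)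
          - 1))) : Matrix (Fin m ⊕ Fin m) (Fin m ⊕ Fin m) F), ?_⟩, ?_⟩
      left_inv := fun g => rfl
      right_inv := fun g => rfl }
  · rw [Helper43.mem_cen, Helper43.comm_sub_one_iff]
    have h1 := Subgroup.mem_centralizer_singleton_iff.mp g.2
    exact congrArg Subtype.val h1
  · apply Subtype.ext
    exact (Helper43.adj_mul_self_iff _).mpr (g : Matrix.symplecticGroup (Fin m) F).2
  · exact (Helper43.adj_mul_self_iff _).mp (congrArg Subtype.val g.2)
  · rw [Subgroup.mem_centralizer_singleton_iff]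
    apply Subtype.ext
    have h1 := (Helper43.comm_sub_one_iff _ _).mp ((Helper43.mem_cen _ _).mp g.1.2)
    exact h1

end Cfsg.Agent.S2592
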