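import Cfsg.Statements.S2594
import Cfsg.Agent.Helper5.SympCard
import Cfsg.Agent.Helper5.SympPerfect

set_option autoImplicit false
open Cfsg

namespace Cfsg.Agent.S2594

open Cfsg.Agent.Helper5 Cfsg.Agent Matrix

section

variable {F : Type*} [Field F] {m : ℕ}

theorem exists_transvection (t : Matrix.symplecticGroup (Fin m) F)
    (ht : ((t : Matrix (Fin m ⊕ Fin m) (Fin m ⊕ Fin m) F) - 1).rank = 1) :
    ∃ (a : Fin m ⊕ Fin m → F) (c : F), a ≠ 0 ∧ c ≠ 0 ∧ t = spTv m a c := by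
  have hr : Module.finrank F (LinearMap.range (Matrix.mulVecLin
      ((t : Matrix (Fin m ⊕ Fin m) (Fin m ⊕ Fin m) F) - 1))) = 1 := ht
  obtain ⟨⟨a, har⟩, ha0, hspan⟩ := finrank_eq_one_iff'.mp hr
  have ha : a ≠ 0 := fun h => ha0 (Subtype.ext h)
  have hβ : ∀ x : Fin m ⊕ Fin m → F, ∃ b : F,
      (t : Matrix (Fin m ⊕ Fin m) (Fin m ⊕ Fin m) F) *ᵥ x = x + b • a := by
    intro x
    obtain ⟨b, hb⟩ := hspan ⟨((t : Matrix (Fin m ⊕ Fin m) (Fin m ⊕ Fin m) F) - 1) *ᵥ x,
      LinearMap.mem_range_self _ x⟩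
    refine ⟨b, ?_⟩
    have hb' : b • a = ((t : Matrix (Fin m ⊕ Fin m) (Fin m ⊕ Fin m) F) - 1) *ᵥ x :=
      congrArg Subtype.val hb
    rw [hb', Matrix.sub_mulVec, Matrix.one_mulVec]; abel
  choose β hβ using hβ
  have hsym : ∀ x y, β y * Cfsg.sympForm m F x a = β x * Cfsg.sympForm m F y a := by
    intro x y
    have h := sp_sympForm t x y
    rw [hβ x, hβ y] at h
    simp only [Helper13.sympForm_add_left, Helper13.sympForm_add_right,
      Helper13.sympForm_smul_left, Helper13.sympForm_smul_right, Helper13.sympForm_self] at h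
    have hs := Helper13.sympForm_swap a y
    rw [hs] at h
    linear_combination h
  obtain ⟨y₀, hy₀⟩ := exists_sympForm_ne_zero a ha
  have hy₀' : Cfsg.sympForm m F y₀ a ≠ 0 := by
    rw [Helper13.sympForm_swap]; exact neg_ne_zero.mpr hy₀
  have hβc : ∀ x, β x = (β y₀ / Cfsg.sympForm m F y₀ a) * Cfsg.sympForm m F x a := by
    intro x
    field_simp
    linear_combination -(hsym x y₀)
  have ht_eq : t = spTv m a (β y₀ / Cfsg.sympForm m F y₀ a) := by
    apply sp_ext
    intro x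
    rw [spTv_mulVec, hβ x, ← hβc x]
  refine ⟨a, β y₀ / Cfsg.sympForm m F y₀ a, ha, ?_, ht_eq⟩
  intro hc0
  rw [hc0] at ht_eq
  have h1 : t = 1 := by
    rw [ht_eq]
    apply sp_ext
    intro x
    rw [spTv_mulVec, zero_mul, zero_smul, add_zero, sp_coe_one, Matrix.one_mulVec]
  rw [h1, sp_coe_one, sub_self, Matrix.rank_zero] at ht
  exact zero_ne_one ht

theorem mem_centralizer_iff_fix [CharP F 2] (a : Fin m ⊕ Fin m → F) (c : F) (ha : a ≠ 0)
    (hc : c ≠ 0) (g : Matrix.symplecticGroup (Fin m) F) :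
    g ∈ Subgroup.centralizer ({spTv m a c} : Set (Matrix.symplecticGroup (Fin m) F)) ↔
      (g : Matrix (Fin m ⊕ Fin m) (Fin m ⊕ Fin m) F) *ᵥ a = a := by
  rw [Subgroup.mem_centralizer_singleton_iff]
  constructor
  · intro h
    have h1 : g * spTv m a c * g⁻¹ = spTv m a c := by rw [h]; group
    rw [spTv_conj] at h1
    obtain ⟨b, hb⟩ : ∃ b, b = (g : Matrix (Fin m ⊕ Fin m) (Fin m ⊕ Fin m) F) *ᵥ a := ⟨_, rfl⟩
    rw [← hb] at h1 ⊢
    have h2 : ∀ x, Cfsg.sympForm m F x b • b = Cfsg.sympForm m F x a • a := by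
      intro x
      have := congrArg (fun T : Matrix.symplecticGroup (Fin m) F =>
        (T : Matrix (Fin m ⊕ Fin m) (Fin m ⊕ Fin m) F) *ᵥ x) h1
      simp only [spTv_mulVec] at this
      have h3 := add_left_cancel this
      rw [mul_smul, mul_smul] at h3
      exact smul_right_injective _ hc h3
    obtain ⟨x₀, hx₀⟩ := exists_sympForm_ne_zero a ha
    have hx₀' : Cfsg.sympForm m F x₀ a ≠ 0 := by
      rw [Helper13.sympForm_swap]; exact neg_ne_zero.mpr hx₀
    obtain ⟨μ, hμ⟩ : ∃ μ, μ = Cfsg.sympForm m F x₀ b / Cfsg.sympForm m F x₀ a := ⟨_, rfl⟩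
    have ha_eq : a = μ • b := by
      have := h2 x₀
      rw [hμ, div_eq_inv_mul, mul_smul, this, smul_smul, inv_mul_cancel₀ hx₀', one_smul]
    have hμ0 : μ ≠ 0 := by
      intro h0; rw [h0, zero_smul] at ha_eq; exact ha ha_eq
    have hb0 : b ≠ 0 := by
      intro h0; rw [h0, smul_zero] at ha_eq; exact ha ha_eq
    have hxb : Cfsg.sympForm m F x₀ b ≠ 0 := by
      intro h0; rw [h0, zero_div] at hμ; exact hμ0 hμ
    have h4 : Cfsg.sympForm m F x₀ b • b = Cfsg.sympForm m F x₀ (μ • b) • (μ • b) := by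
      rw [← ha_eq]; exact h2 x₀
    rw [Helper13.sympForm_smul_right, smul_smul] at h4
    have h5 : Cfsg.sympForm m F x₀ b = μ * Cfsg.sympForm m F x₀ b * μ :=
      smul_left_injective F hb0 h4
    have h6 : μ * μ = 1 := by
      have : Cfsg.sympForm m F x₀ b * (μ * μ - 1) = 0 := by linear_combination -h5
      rcases mul_eq_zero.mp this with h | h
      · exact absurd h hxb
      · linear_combination h
    have h7 : μ = 1 := by
      have h2' : (2 : F) = 0 := CharTwo.two_eq_zero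
      have : (μ - 1) * (μ - 1) = 0 := by linear_combination h6 + (1 - μ) * h2'
      have h8 : μ - 1 = 0 := mul_self_eq_zero.mp this
      linear_combination h8
    rw [h7, one_smul] at ha_eq
    exact ha_eq.symm
  · intro h
    have h1 : g * spTv m a c * g⁻¹ = spTv m a c := by rw [spTv_conj, h]
    exact mul_inv_eq_iff_eq_mul.mp h1

theorem card_stab [Fintype F] (a : Fin m ⊕ Fin m → F) (ha : a ≠ 0) :
    Nat.card (MulAction.stabilizer (Matrix.symplecticGroup (Fin m) F) a) *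
      (Fintype.card F ^ (2 * m) - 1) = Nat.card (Matrix.symplecticGroup (Fin m) F) := by
  have e := MulAction.orbitProdStabilizerEquivGroup (Matrix.symplecticGroup (Fin m) F) a
  rw [← Nat.card_congr e, Nat.card_prod, mul_comm]
  congr 1
  have horb : MulAction.orbit (Matrix.symplecticGroup (Fin m) F) a = {x | x ≠ 0} := by
    ext x
    constructor
    · rintro ⟨g, rfl⟩
      intro h0
      have h0' : (g : Matrix (Fin m ⊕ Fin m) (Fin m ⊕ Fin m) F) *ᵥ a = 0 := h0
      have := sp_inv_mulVec g a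
      rw [h0', Matrix.mulVec_zero] at this
      exact ha this.symm
    · intro hx
      obtain ⟨g, hg⟩ := symp_transitive a x ha hx
      exact ⟨g, hg⟩
  rw [horb]
  classical
  have hc : Nat.card {x : Fin m ⊕ Fin m → F // x ≠ 0} = Fintype.card F ^ (2 * m) - 1 := by
    rw [Nat.card_eq_fintype_card, Fintype.card_subtype_compl, Fintype.card_subtype_eq]
    simp [two_mul]
  exact hc.symm

end

/-- Over a finite field with q elements, q even, an element t of Sp_2m(F) with rank(t − 1) = 1 (a symplectic transvection) has centraliser in Sp_2m(F) of order q^(2m−1) · |Sp_(2m−2)(q)| = q^(2m−1) · q^((m−1)²) · Π_(i=1)^(m−1) (q^(2i) − 1). -/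
theorem result {F : Type*} [Field F] [Fintype F] [CharP F 2] {q : ℕ} (hF : Fintype.card F = q) {m : ℕ} (hm : 1 ≤ m) (t : Matrix.symplecticGroup (Fin m) F) (ht : ((t : Matrix (Fin m ⊕ Fin m) (Fin m ⊕ Fin m) F) - 1).rank = 1) : Nat.card ↥(Subgroup.centralizer ({t} : Set ↥(Matrix.symplecticGroup (Fin m) F))) = q ^ (2 * m - 1) * (q ^ ((m - 1) ^ 2) * ∏ i : Fin (m - 1), (q ^ (2 * ((i : ℕ) + 1)) - 1)) := by
  obtain ⟨a, c, ha, hc, rfl⟩ := exists_transvection t ht
  have hsub : Subgroup.centralizer ({spTv m a c} : Set (Matrix.symplecticGroup (Fin m) F)) =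
      MulAction.stabilizer (Matrix.symplecticGroup (Fin m) F) a := by
    ext g
    rw [mem_centralizer_iff_fix a c ha hc, MulAction.mem_stabilizer_iff]
    rfl
  rw [hsub]
  have h1 := card_stab a ha
  rw [card_sp, hF] at h1
  obtain ⟨k, rfl⟩ : ∃ k, m = k + 1 := ⟨m - 1, by omega⟩
  have hq : 2 ≤ q := by rw [← hF]; exact Fintype.one_lt_card
  have hpos : 0 < q ^ (2 * (k + 1)) - 1 := by
    have : 2 ^ (2 * (k + 1)) ≤ q ^ (2 * (k + 1)) := Nat.pow_le_pow_left hq _
    have : 2 ≤ 2 ^ (2 * (k + 1)) := by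
      calc 2 = 2 ^ 1 := by norm_num
        _ ≤ 2 ^ (2 * (k + 1)) := Nat.pow_le_pow_right (by norm_num) (by omega)
    omega
  apply Nat.eq_of_mul_eq_mul_right hpos
  rw [h1, Finset.prod_range_succ, Nat.add_sub_cancel, ← Finset.prod_range
    (fun i => q ^ (2 * (i + 1)) - 1)]
  have e1 : (k + 1) ^ 2 = (2 * (k + 1) - 1) + k ^ 2 := by
    have : 2 * (k + 1) - 1 = 2 * k + 1 := by omega
    rw [this]; ring
  rw [e1, pow_add]
  ring

end Cfsg.Agent.S2594
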