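import Cfsg.Statements.S2595
import Cfsg.Agent.Helper45.InvForms

set_option autoImplicit false
open Cfsg

namespace Cfsg.Agent.S2595

/-- Number of conjugacy classes of involutions in the full orthogonal group O⁺_2m(F) of the hyperbolic quadratic form Σ x_i y_i over a finite field of characteristic two (m ≥ 1): one class for each odd s ≤ m and two for each even s with 2 ≤ s ≤ m, where s = rank(t − 1); in all m + ⌊m/2⌋. -/
theorem result {F : Type*} [Field F] [Fintype F] [CharP F 2] {m : ℕ} (hm : 1 ≤ m) : Nat.card {C : ConjClasses ↥(Cfsg.isometryGroup F (Cfsg.quadFormPlus m F)) // ∃ g : ↥(Cfsg.isometryGroup F (Cfsg.quadFormPlus m F)), ConjClasses.mk g = C ∧ orderOf g = 2} = m + m / 2 := by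
  exact Cfsg.Agent.Helper45.plus_card_involution_classes m

end Cfsg.Agent.S2595
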