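import Cfsg.Statements.S2597
import Cfsg.Agent.Helper45.InvOmega

set_option autoImplicit false
open Cfsg

namespace Cfsg.Agent.S2597

/-- Number of conjugacy classes of involutions in Ω⁺_2m(F) (the commutator subgroup of the orthogonal group of Σ x_i y_i) over a finite field F of characteristic two, m ≥ 1, excluding the case m = 2 over the field of two elements: the involutions of Ω are those with s = rank(t − 1) even, giving two O-classes for each even s with 2 ≤ s ≤ m, each of which is a single Ω-class except that for m even the class with s = m and v ↦ f(v, tv) identically zero splits in two; in all 2⌊m/2⌋ + 1 classes if m is even and 2⌊m/2⌋ if m is odd. -/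
theorem result {F : Type*} [Field F] [Fintype F] [CharP F 2] {m : ℕ} (hm : 1 ≤ m) (h : Fintype.card F ≠ 2 ∨ m ≠ 2) : Nat.card {C : ConjClasses ↥(Cfsg.Omega F (Cfsg.quadFormPlus m F)) // ∃ g : ↥(Cfsg.Omega F (Cfsg.quadFormPlus m F)), ConjClasses.mk g = C ∧ orderOf g = 2} = 2 * (m / 2) + (if Even m then 1 else 0) := by
  haveI : Nonempty (Fin m ⊕ Fin m) := ⟨Sum.inl ⟨0, hm⟩⟩
  have hQ : (QuadraticMap.polarBilin (Helper43.plusQF m F)).Nondegenerate :=
    Helper45.plusQF_nondeg' m
  have hex : (∃ t : F, t ≠ 0 ∧ t ≠ 1) ∨ Fintype.card (Fin m ⊕ Fin m) ≠ 4 := by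
    rcases h with h | h
    · exact Or.inl (Helper44.exists_ne_zero_one h)
    · right
      rw [Helper45.card_plus_index]
      omega
  have hR := Helper44.reflGroup_eq_top_of (Helper43.plusQF m F) hQ hex
  obtain ⟨v₀, hv₀⟩ := Helper45.exists_nonsingular (Helper43.plusQF m F) hQ
  have key := Helper45.card_omega_involution_classes (Helper43.plusQF m F) hQ hR v₀ hv₀ m (m / 2) m
    (if Even m then 1 else 0) (Helper45.card_plus_index m)
    (by
      intro t ht
      have h := Helper45.two_rank_le (Helper43.plusQF m F) t ht
      rw [Helper45.card_plus_index] at h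
      omega)
    (by
      intro t k ht _ hk
      have h := Helper45.two_rank_le (Helper43.plusQF m F) t ht
      rw [Helper45.card_plus_index] at h
      omega)
    (fun s _ hs => ⟨_, _, (Helper45.plus_hypPairs m).frame_id s hs⟩)
    (fun k _ hk => ⟨_, _, (Helper45.plus_hypPairs m).frame_swap k (by omega)⟩)
    (fun hev _ _ => if_pos hev)
    (by
      intro hS
      apply if_neg
      intro hev
      apply hS
      obtain ⟨k, hk⟩ := hev
      exact ⟨⟨k, hk⟩, by omega, by omega⟩)
  have hfin : m / 2 + m / 2 + (if Even m then 1 else 0) = 2 * (m / 2) + (if Even m then 1 else 0) := by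
    ring
  rw [← hfin]
  exact key

end Cfsg.Agent.S2597
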