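import Cfsg.Statements.S2599
import Cfsg.Agent.Helper43.Symp

set_option autoImplicit false
open Cfsg

namespace Cfsg.Agent.S2599

/-- An irreducible invariant subspace of a semisimple isometry is non-degenerate or totally singular: let Q be a quadratic form on F^n (F finite of characteristic p) with non-degenerate polar form f, x an isometry of Q of order prime to p, and U a non-zero x-invariant subspace containing no x-invariant subspace other than 0 and U. Then U meets its f-orthogonal trivially, or Q vanishes on U, or p = 2, U is a line spanned by a non-singular vector and x fixes U pointwise. -/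
theorem result {F : Type*} [Field F] [Fintype F] {p : ℕ} [Fact p.Prime] [CharP F p] {n : ℕ} (Q : QuadraticForm F (Fin n → F)) (hQ : (QuadraticMap.polarBilin Q).Nondegenerate) (x : ↥(Cfsg.isometryGroup F ⇑Q)) (hx : (orderOf x).Coprime p) (U : Submodule F (Fin n → F)) (hU0 : U ≠ ⊥) (hUx : ∀ u ∈ U, ((x : Matrix.GeneralLinearGroup (Fin n) F) : Matrix (Fin n) (Fin n) F).mulVec u ∈ U) (hirr : ∀ W : Submodule F (Fin n → F), W ≤ U → (∀ w ∈ W, ((x : Matrix.GeneralLinearGroup (Fin n) F) : Matrix (Fin n) (Fin n) F).mulVec w ∈ W) → W = ⊥ ∨ W = U) : U ⊓ LinearMap.BilinForm.orthogonal (QuadraticMap.polarBilin Q) U = ⊥ ∨ (∀ u ∈ U, Q u = 0) ∨ (p = 2 ∧ Module.finrank F U = 1 ∧ (∃ u ∈ U, Q u ≠ 0) ∧ ∀ u ∈ U, ((x : Matrix.GeneralLinearGroup (Fin n) F) : Matrix (Fin n) (Fin n) F).mulVec u = u) := by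
  classical
  set X : Matrix (Fin n) (Fin n) F :=
    ((x : Matrix.GeneralLinearGroup (Fin n) F) : Matrix (Fin n) (Fin n) F) with hX
  set B := QuadraticMap.polarBilin Q with hB
  have hQX : ∀ u, Q (X.mulVec u) = Q u := fun u => x.2 u u
  have hBapp : ∀ u v, B u v = Q (u + v) - Q u - Q v := fun u v => by
    simp [hB, QuadraticMap.polar]
  have hBX : ∀ u v, B (X.mulVec u) (X.mulVec v) = B u v := by
    intro u v
    rw [hBapp, hBapp, ← Matrix.mulVec_add, hQX, hQX, hQX]
  have hXinj : Function.Injective (Matrix.mulVecLin X) := by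
    rw [Matrix.coe_mulVecLin]
    exact Matrix.mulVec_injective_iff_isUnit.mpr (x : Matrix.GeneralLinearGroup (Fin n) F).isUnit
  have hpre := Cfsg.Agent.Helper43.exists_preimage_of_invariant (Matrix.mulVecLin X) hXinj U hUx
  have h1 := hirr (U ⊓ LinearMap.BilinForm.orthogonal B U) inf_le_left (by
    intro w hw
    refine ⟨hUx w hw.1, LinearMap.BilinForm.mem_orthogonal_iff.mpr ?_⟩
    intro n hn
    obtain ⟨n', hn', rfl⟩ := hpre n hn
    rw [Matrix.mulVecLin_apply, hBX]
    exact (LinearMap.BilinForm.mem_orthogonal_iff.mp hw.2) n' hn')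
  rcases h1 with h1 | h1
  · left
    exact h1
  right
  have hortho : ∀ u ∈ U, ∀ v ∈ U, B u v = 0 := by
    intro u hu v hv
    have : v ∈ U ⊓ LinearMap.BilinForm.orthogonal B U := by rw [h1]; exact hv
    exact (LinearMap.BilinForm.mem_orthogonal_iff.mp this.2) u hu
  have hadd : ∀ u ∈ U, ∀ v ∈ U, Q (u + v) = Q u + Q v := by
    intro u hu v hv
    have := hortho u hu v hv
    rw [hBapp] at this
    linear_combination this
  let W2 : Submodule F (Fin n → F) :=
    { carrier := {u | u ∈ U ∧ Q u = 0}
      add_mem' := by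
        rintro a b ⟨ha, ha0⟩ ⟨hb, hb0⟩
        exact ⟨U.add_mem ha hb, by rw [hadd a ha b hb, ha0, hb0, add_zero]⟩
      zero_mem' := ⟨U.zero_mem, by simp⟩
      smul_mem' := by
        rintro c a ⟨ha, ha0⟩
        exact ⟨U.smul_mem c ha, by rw [QuadraticMap.map_smul, ha0, smul_zero]⟩ }
  have h2 := hirr W2 (fun u hu => hu.1) (by
    intro w hw
    exact ⟨hUx w hw.1, by rw [hQX]; exact hw.2⟩)
  rcases h2 with h2 | h2
  · right
    have hW2 : ∀ u ∈ U, Q u = 0 → u = 0 := by
      intro u hu h0
      have : u ∈ W2 := ⟨hu, h0⟩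
      rw [h2] at this
      exact (Submodule.mem_bot F).mp this
    obtain ⟨u0, hu0, hu0ne⟩ := Submodule.exists_mem_ne_zero_of_ne_bot hU0
    have hQu0 : Q u0 ≠ 0 := fun h => hu0ne (hW2 u0 hu0 h)
    have h2F : (2 : F) = 0 := by
      have hb := hortho u0 hu0 u0 hu0
      rw [hBapp] at hb
      have h4 : Q (u0 + u0) = 4 * Q u0 := by
        rw [← two_smul F u0, QuadraticMap.map_smul, smul_eq_mul]
        ring
      rw [h4] at hb
      have : 2 * Q u0 = 0 := by linear_combination hb
      rcases mul_eq_zero.mp this with h | h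
      · exact h
      · exact absurd h hQu0
    have hp2 : p = 2 := by
      have : ((2 : ℕ) : F) = 0 := by exact_mod_cast h2F
      have hdvd := (CharP.cast_eq_zero_iff F p 2).mp this
      exact (Nat.prime_dvd_prime_iff_eq (Fact.out) Nat.prime_two).mp hdvd
    subst hp2
    have hsub : ∀ a ∈ U, ∀ b ∈ U, Q a = Q b → a = b := by
      intro a ha b hb hab
      have hm : a - b ∈ U := U.sub_mem ha hb
      have : Q (a - b) = 0 := by
        rw [sub_eq_add_neg, hadd a ha (-b) (U.neg_mem hb), QuadraticMap.map_neg, hab]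
        linear_combination (Q b) * h2F
      exact sub_eq_zero.mp (hW2 _ hm this)
    refine ⟨rfl, ?_, ⟨u0, hu0, hQu0⟩, ?_⟩
    · have hspan : U = Submodule.span F {u0} := by
        apply le_antisymm
        · intro u hu
          obtain ⟨c, hc⟩ := (frobeniusEquiv F 2).surjective (Q u / Q u0)
          rw [frobeniusEquiv_apply, frobenius_def] at hc
          have : u = c • u0 := by
            apply hsub u hu (c • u0) (U.smul_mem c hu0)
            rw [QuadraticMap.map_smul, smul_eq_mul, ← sq, hc, div_mul_cancel₀ _ hQu0]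
          rw [this]
          exact Submodule.smul_mem _ _ (Submodule.mem_span_singleton_self u0)
        · rw [Submodule.span_singleton_le_iff_mem]
          exact hu0
      rw [hspan]
      exact finrank_span_singleton hu0ne
    · intro u hu
      apply hsub _ (hUx u hu) u hu
      exact hQX u
  · left
    intro u hu
    have : u ∈ W2 := by rw [h2]; exact hu
    exact this.2

end Cfsg.Agent.S2599
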