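import Cfsg.Statements.S2611
import Cfsg.Agent.Helper43.Spinor2

set_option autoImplicit false
open Cfsg

namespace Cfsg.Agent.S2611

open Matrix
open scoped commutatorElement

variable {F : Type*} [Field F] {m : ℕ}

/-- The block-diagonal embedding `A ↦ diag(A, A⁻ᵀ)` into `GL`. -/
def phi0 : GL (Fin m) F →* GL (Fin m ⊕ Fin m) F where
  toFun A := ⟨fromBlocks (A : Matrix (Fin m) (Fin m) F) 0 0
      ((A⁻¹ : GL (Fin m) F) : Matrix (Fin m) (Fin m) F)ᵀ,
    fromBlocks ((A⁻¹ : GL (Fin m) F) : Matrix (Fin m) (Fin m) F) 0 0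
      (A : Matrix (Fin m) (Fin m) F)ᵀ, by
      rw [fromBlocks_multiply]
      simp only [Matrix.mul_zero, Matrix.zero_mul, add_zero, zero_add, ← Matrix.transpose_mul,
        ← Units.val_mul, mul_inv_cancel, Units.val_one, Matrix.transpose_one, fromBlocks_one], by
      rw [fromBlocks_multiply]
      simp only [Matrix.mul_zero, Matrix.zero_mul, add_zero, zero_add, ← Matrix.transpose_mul,
        ← Units.val_mul, inv_mul_cancel, Units.val_one, Matrix.transpose_one,
        fromBlocks_one]⟩
  map_one' := by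
    apply Units.ext
    simp [fromBlocks_one]
  map_mul' A B := by
    apply Units.ext
    show fromBlocks ((A * B : GL (Fin m) F) : Matrix (Fin m) (Fin m) F) 0 0
        (((A * B)⁻¹ : GL (Fin m) F) : Matrix (Fin m) (Fin m) F)ᵀ
      = fromBlocks (A : Matrix (Fin m) (Fin m) F) 0 0
          ((A⁻¹ : GL (Fin m) F) : Matrix (Fin m) (Fin m) F)ᵀ
        * fromBlocks (B : Matrix (Fin m) (Fin m) F) 0 0
          ((B⁻¹ : GL (Fin m) F) : Matrix (Fin m) (Fin m) F)ᵀ
    rw [fromBlocks_multiply]
    simp only [Matrix.mul_zero, Matrix.zero_mul, add_zero, zero_add, ← Matrix.transpose_mul,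
      ← Units.val_mul, _root_.mul_inv_rev]

theorem phi0_mat (A : GL (Fin m) F) :
    ((phi0 A : GL (Fin m ⊕ Fin m) F) : Matrix (Fin m ⊕ Fin m) (Fin m ⊕ Fin m) F)
      = fromBlocks (A : Matrix (Fin m) (Fin m) F) 0 0
        ((A⁻¹ : GL (Fin m) F) : Matrix (Fin m) (Fin m) F)ᵀ := rfl

theorem quadFormPlus_eq (x : Fin m ⊕ Fin m → F) :
    Cfsg.quadFormPlus m F x = (x ∘ Sum.inl) ⬝ᵥ (x ∘ Sum.inr) := rfl

theorem phi0_mem (A : GL (Fin m) F) : phi0 A ∈ Cfsg.isometryGroup F (Cfsg.quadFormPlus m F) := by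
  rw [Helper43.mem_iso_iff]
  intro x
  rw [phi0_mat, quadFormPlus_eq, quadFormPlus_eq, fromBlocks_mulVec]
  simp only [Matrix.zero_mulVec, add_zero, zero_add]
  have h1 : (Sum.elim ((A : Matrix (Fin m) (Fin m) F) *ᵥ (x ∘ Sum.inl))
      (((A⁻¹ : GL (Fin m) F) : Matrix (Fin m) (Fin m) F)ᵀ *ᵥ (x ∘ Sum.inr))) ∘ Sum.inl
      = (A : Matrix (Fin m) (Fin m) F) *ᵥ (x ∘ Sum.inl) := rfl
  have h2 : (Sum.elim ((A : Matrix (Fin m) (Fin m) F) *ᵥ (x ∘ Sum.inl))
      (((A⁻¹ : GL (Fin m) F) : Matrix (Fin m) (Fin m) F)ᵀ *ᵥ (x ∘ Sum.inr))) ∘ Sum.inr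
      = ((A⁻¹ : GL (Fin m) F) : Matrix (Fin m) (Fin m) F)ᵀ *ᵥ (x ∘ Sum.inr) := rfl
  rw [h1, h2, Matrix.mulVec_transpose, dotProduct_comm, ← Matrix.dotProduct_mulVec,
    Matrix.mulVec_mulVec, ← Units.val_mul, inv_mul_cancel, Units.val_one, Matrix.one_mulVec,
    dotProduct_comm]

/-- The embedding into the isometry group. -/
def phi : GL (Fin m) F →* Cfsg.isometryGroup F (Cfsg.quadFormPlus m F) :=
  phi0.codRestrict _ phi0_mem

theorem phi_mat (A : GL (Fin m) F) :
    (((phi A : Cfsg.isometryGroup F (Cfsg.quadFormPlus m F)) : GL (Fin m ⊕ Fin m) F) :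
        Matrix (Fin m ⊕ Fin m) (Fin m ⊕ Fin m) F)
      = fromBlocks (A : Matrix (Fin m) (Fin m) F) 0 0
        ((A⁻¹ : GL (Fin m) F) : Matrix (Fin m) (Fin m) F)ᵀ := rfl

/-- Diagonal matrices as elements of `GL`. -/
def diagGL (D : Fin m → Fˣ) : GL (Fin m) F :=
  ⟨diagonal (fun k => (D k : F)), diagonal (fun k => ((D k)⁻¹ : Fˣ)), by
    rw [diagonal_mul_diagonal]
    simp, by
    rw [diagonal_mul_diagonal]
    simp⟩

/-- Transvections as elements of `GL`. -/
def tGL (t : TransvectionStruct (Fin m) F) : GL (Fin m) F :=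
  ⟨t.toMatrix, t.inv.toMatrix, t.mul_inv, t.inv_mul⟩

theorem tGL_mk_mul (i j : Fin m) (hij : i ≠ j) (c d : F) :
    tGL ⟨i, j, hij, c⟩ * tGL ⟨i, j, hij, d⟩ = tGL ⟨i, j, hij, c + d⟩ := by
  apply Units.ext
  show transvection i j c * transvection i j d = transvection i j (c + d)
  rw [transvection_mul_transvection_same _ _ hij]

theorem kill_transvection {A : Type*} [CommGroup A] (ψ : GL (Fin m) F →* A)
    (h : m ≠ 2 ∨ ∃ a : F, a ≠ 0 ∧ a ≠ 1) (t : TransvectionStruct (Fin m) F) :
    ψ (tGL t) = 1 := by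
  obtain ⟨i, j, hij, c⟩ := t
  by_cases hm : m = 2
  · obtain ⟨a, ha0, ha1⟩ := h.resolve_left (fun h' => h' hm)
    have ha1' : a - 1 ≠ 0 := sub_ne_zero.mpr ha1
    -- conjugate by a diagonal matrix
    let D : Fin m → Fˣ := fun l => if l = i then Units.mk0 a ha0 else 1
    have hconj : ∀ c' : F, diagGL D * tGL ⟨i, j, hij, c'⟩ = tGL ⟨i, j, hij, a * c'⟩ * diagGL D := by
      intro c'
      apply Units.ext
      show diagonal (fun k => (D k : F)) * transvection i j c'
        = transvection i j (a * c') * diagonal (fun k => (D k : F))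
      ext r s
      rw [Matrix.diagonal_mul, Matrix.mul_diagonal]
      simp only [transvection, Matrix.add_apply, Matrix.one_apply, Matrix.single_apply, D]
      by_cases hr : r = i
      · by_cases hs : s = j
        · subst hr hs
          simp [hij, hij.symm]
        · by_cases hrs : r = s
          · subst hr hrs
            simp [hij, Ne.symm hs]
          · subst hr
            simp [hrs, Ne.symm hs, hs]
      · by_cases hrs : r = s
        · subst hrs
          simp [hr, Ne.symm hr]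
        · simp [hr, Ne.symm hr, hrs]
    have h1 := congrArg ψ (hconj (c / (a - 1)))
    rw [map_mul, map_mul, mul_comm] at h1
    have h3 : ψ (tGL ⟨i, j, hij, c / (a - 1)⟩) = ψ (tGL ⟨i, j, hij, a * (c / (a - 1))⟩) :=
      mul_right_cancel h1
    have h4 : tGL ⟨i, j, hij, a * (c / (a - 1))⟩
        = tGL ⟨i, j, hij, c / (a - 1)⟩ * tGL ⟨i, j, hij, c⟩ := by
      rw [tGL_mk_mul]
      congr 2
      field_simp
      ring
    rw [h4, map_mul] at h3
    exact (mul_eq_left.mp h3.symm)
  · -- m ≠ 2: a third index exists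
    have hm3 : 3 ≤ m := by
      have hi := i.2
      have hj := j.2
      have : (i : ℕ) ≠ j := fun h' => hij (Fin.ext h')
      omega
    obtain ⟨k, hki, hkj⟩ : ∃ k : Fin m, k ≠ i ∧ k ≠ j := by
      by_contra hcon
      push Not at hcon
      have hsub : (Finset.univ : Finset (Fin m)) ⊆ {i, j} := by
        intro x _
        by_cases hx : x = i
        · simp [hx]
        · simp [hcon x hx]
      have := Finset.card_le_card hsub
      rw [Finset.card_univ, Fintype.card_fin] at this
      have h2 := Finset.card_le_two (a := i) (b := j)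
      omega
    have hid : tGL ⟨i, k, hki.symm, 1⟩ * tGL ⟨k, j, hkj, c⟩
        = tGL ⟨i, j, hij, c⟩ * (tGL ⟨k, j, hkj, c⟩ * tGL ⟨i, k, hki.symm, 1⟩) := by
      apply Units.ext
      show transvection i k 1 * transvection k j c
        = transvection i j c * (transvection k j c * transvection i k 1)
      have ha : Matrix.single i j c * Matrix.single k j c = 0 :=
        Matrix.single_mul_single_of_ne c i j k hkj.symm c
      have hb : Matrix.single i j c * Matrix.single i k (1 : F) = 0 :=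
        Matrix.single_mul_single_of_ne c i j i hij.symm 1
      have hc : Matrix.single k j c * Matrix.single i k (1 : F) = 0 :=
        Matrix.single_mul_single_of_ne c k j i hij.symm 1
      simp only [transvection, Matrix.mul_add, Matrix.add_mul, Matrix.mul_one, Matrix.one_mul,
        Matrix.single_mul_single_same, ha, hb, hc, one_mul, Matrix.mul_zero, add_zero]
      abel
    have h1 := congrArg ψ hid
    rw [map_mul, map_mul, map_mul] at h1
    have h5 : ψ (tGL ⟨i, k, hki.symm, 1⟩) * ψ (tGL ⟨k, j, hkj, c⟩)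
        = ψ (tGL ⟨i, j, hij, c⟩) * (ψ (tGL ⟨i, k, hki.symm, 1⟩) * ψ (tGL ⟨k, j, hkj, c⟩)) :=
      h1.trans (by rw [mul_comm (ψ (tGL ⟨k, j, hkj, c⟩))])
    exact (mul_eq_right.mp h5.symm)


theorem tGL_list_mat (L : List (TransvectionStruct (Fin m) F)) :
    (((L.map tGL).prod : GL (Fin m) F) : Matrix (Fin m) (Fin m) F)
      = (L.map TransvectionStruct.toMatrix).prod := by
  induction L with
  | nil => simp
  | cons t L ih =>
    rw [List.map_cons, List.prod_cons, List.map_cons, List.prod_cons, Units.val_mul, ih]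
    rfl

theorem kill_list {A : Type*} [CommGroup A] (ψ : GL (Fin m) F →* A)
    (h : m ≠ 2 ∨ ∃ a : F, a ≠ 0 ∧ a ≠ 1) (L : List (TransvectionStruct (Fin m) F)) :
    ψ (L.map tGL).prod = 1 := by
  induction L with
  | nil => simp
  | cons t L ih =>
    rw [List.map_cons, List.prod_cons, map_mul, ih, kill_transvection ψ h t, mul_one]

theorem reduce_diag {A : Type*} [CommGroup A] (ψ : GL (Fin m) F →* A)
    (h : m ≠ 2 ∨ ∃ a : F, a ≠ 0 ∧ a ≠ 1) (M : GL (Fin m) F) :
    ∃ D : Fin m → Fˣ, (∏ k, (D k : F)) = (M : Matrix (Fin m) (Fin m) F).det ∧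
      ψ M = ψ (diagGL D) := by
  obtain ⟨L, L', D0, hM⟩ :=
    Matrix.Pivot.exists_list_transvec_mul_diagonal_mul_list_transvec (M : Matrix (Fin m) (Fin m) F)
  have hdet : (M : Matrix (Fin m) (Fin m) F).det = ∏ k, D0 k := by
    rw [hM, Matrix.det_mul, Matrix.det_mul, TransvectionStruct.det_toMatrix_prod,
      TransvectionStruct.det_toMatrix_prod, Matrix.det_diagonal, one_mul, mul_one]
  have hdet0 : (M : Matrix (Fin m) (Fin m) F).det ≠ 0 :=
    ((Matrix.isUnit_iff_isUnit_det _).mp M.isUnit).ne_zero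
  have hD0 : ∀ k, D0 k ≠ 0 := by
    intro k
    rw [hdet] at hdet0
    exact (Finset.prod_ne_zero_iff.mp hdet0) k (Finset.mem_univ k)
  refine ⟨fun k => Units.mk0 (D0 k) (hD0 k), ?_, ?_⟩
  · rw [hdet]
    rfl
  · have hMeq : M = (L.map tGL).prod * diagGL (fun k => Units.mk0 (D0 k) (hD0 k))
        * (L'.map tGL).prod := by
      apply Units.ext
      rw [Units.val_mul, Units.val_mul, tGL_list_mat, tGL_list_mat, hM]
      rfl
    rw [hMeq, map_mul, map_mul, kill_list ψ h, kill_list ψ h, one_mul, mul_one]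

theorem phi_diag_mat (D : Fin m → Fˣ) :
    (((phi (diagGL D) : Cfsg.isometryGroup F (Cfsg.quadFormPlus m F)) : GL (Fin m ⊕ Fin m) F) :
        Matrix (Fin m ⊕ Fin m) (Fin m ⊕ Fin m) F)
      = fromBlocks (diagonal (fun k => (D k : F))) 0 0
        (diagonal (fun k => (((D k)⁻¹ : Fˣ) : F))) := by
  rw [phi_mat]
  show fromBlocks (diagonal (fun k => (D k : F))) 0 0
      (diagonal (fun k => (((D k)⁻¹ : Fˣ) : F)))ᵀ = _
  rw [Matrix.diagonal_transpose]

/-- The swap of the two totally singular subspaces. -/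
def sigma : Cfsg.isometryGroup F (Cfsg.quadFormPlus m F) :=
  ⟨⟨fromBlocks 0 1 1 0, fromBlocks 0 1 1 0, by
      rw [fromBlocks_multiply]
      simp [fromBlocks_one], by
      rw [fromBlocks_multiply]
      simp [fromBlocks_one]⟩, by
    rw [Helper43.mem_iso_iff]
    intro x
    show Cfsg.quadFormPlus m F ((fromBlocks 0 1 1 0 : Matrix (Fin m ⊕ Fin m) (Fin m ⊕ Fin m) F)
      *ᵥ x) = _
    rw [quadFormPlus_eq, quadFormPlus_eq, fromBlocks_mulVec]
    simp only [Matrix.zero_mulVec, Matrix.one_mulVec, add_zero, zero_add]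
    exact dotProduct_comm _ _⟩

theorem sigma_mat :
    (((sigma : Cfsg.isometryGroup F (Cfsg.quadFormPlus m F)) : GL (Fin m ⊕ Fin m) F) :
        Matrix (Fin m ⊕ Fin m) (Fin m ⊕ Fin m) F) = fromBlocks 0 1 1 0 := rfl

theorem phi_sq_mem (S : Fin m → Fˣ) :
    phi (diagGL (fun k => S k * S k))
      ∈ commutator (Cfsg.isometryGroup F (Cfsg.quadFormPlus m F)) := by
  have key : phi (diagGL (fun k => S k * S k))
      = ⁅(sigma : Cfsg.isometryGroup F (Cfsg.quadFormPlus m F)),
        phi (diagGL (fun k => (S k)⁻¹))⁆ := by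
    rw [commutatorElement_def, eq_mul_inv_iff_mul_eq, eq_mul_inv_iff_mul_eq]
    apply Subtype.ext
    apply Units.ext
    show (((phi (diagGL (fun k => S k * S k)) : Cfsg.isometryGroup F (Cfsg.quadFormPlus m F)) :
          GL (Fin m ⊕ Fin m) F) : Matrix (Fin m ⊕ Fin m) (Fin m ⊕ Fin m) F)
        * (((phi (diagGL (fun k => (S k)⁻¹)) : Cfsg.isometryGroup F (Cfsg.quadFormPlus m F)) :
          GL (Fin m ⊕ Fin m) F) : Matrix (Fin m ⊕ Fin m) (Fin m ⊕ Fin m) F)
        * (((sigma : Cfsg.isometryGroup F (Cfsg.quadFormPlus m F)) : GL (Fin m ⊕ Fin m) F) :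
          Matrix (Fin m ⊕ Fin m) (Fin m ⊕ Fin m) F)
      = (((sigma : Cfsg.isometryGroup F (Cfsg.quadFormPlus m F)) : GL (Fin m ⊕ Fin m) F) :
          Matrix (Fin m ⊕ Fin m) (Fin m ⊕ Fin m) F)
        * (((phi (diagGL (fun k => (S k)⁻¹)) : Cfsg.isometryGroup F (Cfsg.quadFormPlus m F)) :
          GL (Fin m ⊕ Fin m) F) : Matrix (Fin m ⊕ Fin m) (Fin m ⊕ Fin m) F)
    rw [phi_diag_mat, phi_diag_mat, sigma_mat, fromBlocks_multiply, fromBlocks_multiply,
      fromBlocks_multiply]
    simp only [Matrix.mul_zero, Matrix.zero_mul, add_zero, zero_add, Matrix.mul_one,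
      Matrix.one_mul, diagonal_mul_diagonal]
    congr 1
    · congr 1
      funext k
      simp
    · congr 1
      funext k
      simp
  rw [key, commutator_def]
  exact Subgroup.commutator_mem_commutator (Subgroup.mem_top _) (Subgroup.mem_top _)


theorem refl_pair_scale {ι : Type} [Fintype ι] [DecidableEq ι] (Q : QuadraticForm F (ι → F))
    (e f : ι → F) (he : Q e = 0) (hf : Q f = 0) (hef : QuadraticMap.polar (⇑Q) e f = 1)
    (a : F) (ha : a ≠ 0) (x : ι → F) :
    Cfsg.reflectionMatrix (⇑Q) (e - a • f) *ᵥ (Cfsg.reflectionMatrix (⇑Q) (e - f) *ᵥ x)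
      = x + ((a⁻¹ - 1) * QuadraticMap.polar (⇑Q) f x) • e
        + ((a - 1) * QuadraticMap.polar (⇑Q) e x) • f := by
  have h2 : Q (e - f) = -1 := Helper43.Q_pair_sub Q e f he hf hef
  have hfe : QuadraticMap.polar (⇑Q) f e = 1 := by rw [QuadraticMap.polar_comm, hef]
  have h3 : Q (e - a • f) = -a := by
    have := Helper43.Q_sub_smul Q f e a
    rw [he, hf, hfe] at this
    rw [this]
    ring
  rw [Helper43.reflectionMatrix_mulVec, Helper43.reflectionMatrix_mulVec, h2, h3]
  simp only [QuadraticMap.polar_sub_left, QuadraticMap.polar_sub_right,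
    QuadraticMap.polar_smul_left, QuadraticMap.polar_smul_right, Helper43.polar_self', he, hf,
    hef, hfe, smul_eq_mul, mul_zero, inv_neg_one]
  match_scalars <;> field_simp <;> ring

theorem flatMap_pair_prod {α β M : Type*} [Monoid M] (l : List α) (u w : α → β) (R : β → M) :
    ((l.flatMap (fun k => [u k, w k])).map R).prod = (l.map (fun k => R (u k) * R (w k))).prod := by
  induction l with
  | nil => simp
  | cons a l ih =>
    rw [List.flatMap_cons, List.map_append, List.prod_append, ih]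
    simp [mul_assoc]

theorem flatMap_pair_length {α β : Type*} (l : List α) (u w : α → β) :
    (l.flatMap (fun k => [u k, w k])).length = 2 * l.length := by
  induction l with
  | nil => simp
  | cons a l ih =>
    rw [List.flatMap_cons, List.length_append, ih]
    simp
    omega

theorem diag_list_prod {κ ι : Type*} [Fintype ι] [DecidableEq ι] (l : List κ) (g : κ → ι → F) :
    (l.map (fun k => diagonal (g k))).prod = diagonal (fun j => (l.map (fun k => g k j)).prod) := by
  induction l with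
  | nil => simp
  | cons a l ih =>
    rw [List.map_cons, List.prod_cons, ih, diagonal_mul_diagonal]
    simp

theorem polar_e (k : Fin m) (x : Fin m ⊕ Fin m → F) :
    QuadraticMap.polar (⇑(Helper43.plusQF m F)) (Pi.single (Sum.inl k) 1) x = x (Sum.inr k) := by
  show QuadraticMap.polar (Cfsg.quadFormPlus m F) _ _ = _
  simp [QuadraticMap.polar, Cfsg.quadFormPlus, Pi.single_apply, add_mul, Finset.sum_add_distrib]

theorem polar_f (k : Fin m) (x : Fin m ⊕ Fin m → F) :
    QuadraticMap.polar (⇑(Helper43.plusQF m F)) (Pi.single (Sum.inr k) 1) x = x (Sum.inl k) := by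
  show QuadraticMap.polar (Cfsg.quadFormPlus m F) _ _ = _
  simp [QuadraticMap.polar, Cfsg.quadFormPlus, Pi.single_apply, mul_add, Finset.sum_add_distrib]

theorem Q_e (k : Fin m) : Helper43.plusQF m F (Pi.single (Sum.inl k) 1) = 0 := by
  show Cfsg.quadFormPlus m F _ = 0
  simp [Cfsg.quadFormPlus]

theorem Q_f (k : Fin m) : Helper43.plusQF m F (Pi.single (Sum.inr k) 1) = 0 := by
  show Cfsg.quadFormPlus m F _ = 0
  simp [Cfsg.quadFormPlus]

theorem pair_diag (k : Fin m) (c : F) (hc : c ≠ 0) :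
    Cfsg.reflectionMatrix (⇑(Helper43.plusQF m F))
        ((Pi.single (Sum.inl k) 1 : Fin m ⊕ Fin m → F) - c⁻¹ • Pi.single (Sum.inr k) 1)
      * Cfsg.reflectionMatrix (⇑(Helper43.plusQF m F))
        ((Pi.single (Sum.inl k) 1 : Fin m ⊕ Fin m → F) - Pi.single (Sum.inr k) 1)
      = diagonal (fun j : Fin m ⊕ Fin m =>
          Sum.elim (fun l => if l = k then c else 1) (fun l => if l = k then c⁻¹ else 1) j) := by
  apply Helper43.mat_ext_mulVec
  intro x
  rw [← Matrix.mulVec_mulVec, refl_pair_scale _ _ _ (Q_e k) (Q_f k)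
    (by rw [polar_e]; simp) c⁻¹ (inv_ne_zero hc), inv_inv, polar_e, polar_f]
  funext j
  rw [Matrix.mulVec_diagonal]
  rcases j with l | l
  · by_cases hl : l = k
    · subst hl
      simp
      ring
    · simp [hl]
  · by_cases hl : l = k
    · subst hl
      simp
      ring
    · simp [hl]

theorem phi_diag_mem_iff [Fintype F] (h2 : (2 : F) ≠ 0) (D : Fin m → Fˣ) :
    phi (diagGL D) ∈ commutator (Cfsg.isometryGroup F (Cfsg.quadFormPlus m F))
      ↔ IsSquare (∏ k, (D k : F)) := by
  classical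
  set u : Fin m → (Fin m ⊕ Fin m → F) :=
    fun k => (Pi.single (Sum.inl k) 1 : Fin m ⊕ Fin m → F)
      - ((D k : F))⁻¹ • Pi.single (Sum.inr k) 1 with hu
  set w : Fin m → (Fin m ⊕ Fin m → F) :=
    fun k => (Pi.single (Sum.inl k) 1 : Fin m ⊕ Fin m → F) - Pi.single (Sum.inr k) 1 with hw
  have hef : ∀ k : Fin m, QuadraticMap.polar (⇑(Helper43.plusQF m F))
      (Pi.single (Sum.inl k) 1) (Pi.single (Sum.inr k) 1) = 1 := by
    intro k
    rw [polar_e]
    simp
  have hQw : ∀ k, Helper43.plusQF m F (w k) = -1 := fun k =>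
    Helper43.Q_pair_sub _ _ _ (Q_e k) (Q_f k) (hef k)
  have hQu : ∀ k, Helper43.plusQF m F (u k) = -((D k : F))⁻¹ := by
    intro k
    have := Helper43.Q_sub_smul (Helper43.plusQF m F) (Pi.single (Sum.inr k) 1)
      (Pi.single (Sum.inl k) 1) ((D k : F))⁻¹
    rw [Q_e, Q_f, QuadraticMap.polar_comm, hef] at this
    rw [hu]
    show Helper43.plusQF m F _ = _
    rw [this]
    ring
  set vs : List (Fin m ⊕ Fin m → F) := (List.finRange m).flatMap (fun k => [u k, w k]) with hvs
  have hvs0 : ∀ v ∈ vs, Helper43.plusQF m F v ≠ 0 := by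
    intro v hv
    rw [hvs, List.mem_flatMap] at hv
    obtain ⟨k, _, hv⟩ := hv
    simp only [List.mem_cons, List.not_mem_nil, or_false] at hv
    rcases hv with rfl | rfl
    · rw [hQu]
      simp
    · rw [hQw]
      simp
  have hg : (((phi (diagGL D) : Cfsg.isometryGroup F (Cfsg.quadFormPlus m F)) :
      GL (Fin m ⊕ Fin m) F) : Matrix (Fin m ⊕ Fin m) (Fin m ⊕ Fin m) F)
      = (vs.map (fun v => Cfsg.reflectionMatrix (⇑(Helper43.plusQF m F)) v)).prod := by
    rw [phi_diag_mat, hvs, flatMap_pair_prod]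
    have : ∀ k, Cfsg.reflectionMatrix (⇑(Helper43.plusQF m F)) (u k)
        * Cfsg.reflectionMatrix (⇑(Helper43.plusQF m F)) (w k)
        = diagonal (fun j : Fin m ⊕ Fin m => Sum.elim (fun l => if l = k then (D k : F) else 1)
            (fun l => if l = k then ((D k : F))⁻¹ else 1) j) :=
      fun k => pair_diag k (D k : F) (D k).ne_zero
    simp only [this]
    rw [diag_list_prod, Matrix.fromBlocks_diagonal]
    congr 1
    funext j
    rcases j with l | l
    · simp only [Sum.elim_inl]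
      rw [← Fin.prod_univ_def, Finset.prod_ite_eq]
      simp
    · simp only [Sum.elim_inr]
      rw [← Fin.prod_univ_def, Finset.prod_ite_eq]
      simp
  have hlen : vs.length = 2 * m := by
    rw [hvs, flatMap_pair_length, List.length_finRange]
  have hprodQ : (vs.map (fun v => Helper43.plusQF m F v)).prod = (∏ k, (D k : F))⁻¹ := by
    rw [hvs, flatMap_pair_prod]
    simp only [hQu, hQw]
    rw [← Fin.prod_univ_def, ← Finset.prod_inv_distrib]
    refine Finset.prod_congr rfl fun k _ => ?_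
    ring
  have := Helper43.mem_commutator_iff_refl_prod (Helper43.plusQF m F) h2 (phi (diagGL D)) vs
    hvs0 hg
  rw [hprodQ, hlen, isSquare_inv] at this
  exact this.trans ⟨fun h => h.2, fun h => ⟨even_two_mul m, h⟩⟩

/-- For the hyperbolic quadratic form Σ x_i y_i on F^(2m) (F finite, m ≥ 1, excluding m = 2 over the field of two elements) and an invertible m × m matrix A, the block-diagonal isometry diag(A, (A⁻¹)ᵀ), which stabilises the two maximal totally singular subspaces x = 0 and y = 0, lies in Ω⁺_2m(F) (the commutator subgroup of the orthogonal group) if and only if det A is a square in F. -/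
theorem result {F : Type*} [Field F] [Fintype F] {m : ℕ} (hm : 1 ≤ m) (h : Fintype.card F ≠ 2 ∨ m ≠ 2) (A : GL (Fin m) F) : (∃ g : ↥(Cfsg.isometryGroup F (Cfsg.quadFormPlus m F)), g ∈ Cfsg.Omega F (Cfsg.quadFormPlus m F) ∧ ((g : Matrix.GeneralLinearGroup (Fin m ⊕ Fin m) F) : Matrix (Fin m ⊕ Fin m) (Fin m ⊕ Fin m) F) = Matrix.fromBlocks (A : Matrix (Fin m) (Fin m) F) 0 0 ((A : Matrix (Fin m) (Fin m) F)⁻¹).transpose) ↔ IsSquare (A : Matrix (Fin m) (Fin m) F).det := by
  classical
  have hA : (∃ g : ↥(Cfsg.isometryGroup F (Cfsg.quadFormPlus m F)),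
      g ∈ Cfsg.Omega F (Cfsg.quadFormPlus m F) ∧
      ((g : Matrix.GeneralLinearGroup (Fin m ⊕ Fin m) F) :
        Matrix (Fin m ⊕ Fin m) (Fin m ⊕ Fin m) F)
        = Matrix.fromBlocks (A : Matrix (Fin m) (Fin m) F) 0 0
          ((A : Matrix (Fin m) (Fin m) F)⁻¹).transpose)
      ↔ phi A ∈ commutator (Cfsg.isometryGroup F (Cfsg.quadFormPlus m F)) := by
    constructor
    · rintro ⟨g, hg, hmat⟩
      have : g = phi A := by
        apply Subtype.ext
        apply Units.ext
        rw [hmat, phi_mat, Matrix.coe_units_inv]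
      rw [← this]
      exact hg
    · intro h
      exact ⟨phi A, h, by rw [phi_mat, Matrix.coe_units_inv]⟩
  rw [hA]
  have h' : m ≠ 2 ∨ ∃ a : F, a ≠ 0 ∧ a ≠ 1 := by
    rcases h with h | h
    · right
      by_contra hcon
      push Not at hcon
      have hsub : (Finset.univ : Finset F) ⊆ {0, 1} := by
        intro x _
        by_cases hx : x = 0
        · simp [hx]
        · simp [hcon x hx]
      have h1 := Finset.card_le_card hsub
      rw [Finset.card_univ] at h1
      have h3 := Finset.card_le_two (a := (0 : F)) (b := 1)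
      have h4 := Fintype.one_lt_card (α := F)
      omega
    · left
      exact h
  let ψ : GL (Fin m) F →* Abelianization (Cfsg.isometryGroup F (Cfsg.quadFormPlus m F)) :=
    Abelianization.of.comp phi
  have hπ : ∀ B : GL (Fin m) F,
      phi B ∈ commutator (Cfsg.isometryGroup F (Cfsg.quadFormPlus m F)) ↔ ψ B = 1 := by
    intro B
    rw [← Abelianization.ker_of, MonoidHom.mem_ker]
    rfl
  obtain ⟨D, hD, hψ⟩ := reduce_diag ψ h' A
  rw [hπ, hψ, ← hπ, ← hD]
  by_cases h2 : (2 : F) = 0
  · have hchar : ringChar F = 2 :=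
      CharP.ringChar_of_prime_eq_zero Nat.prime_two (by exact_mod_cast h2)
    have hsqall : ∀ a : F, IsSquare a := FiniteField.isSquare_of_char_two hchar
    constructor
    · intro _
      exact hsqall _
    · intro _
      choose s hs using fun k => hsqall (D k : F)
      have hs0 : ∀ k, s k ≠ 0 := by
        intro k h0
        have := hs k
        rw [h0, mul_zero] at this
        exact (D k).ne_zero this
      have hDs : D = fun k => Units.mk0 (s k) (hs0 k) * Units.mk0 (s k) (hs0 k) := by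
        funext k
        apply Units.ext
        simp [hs k]
      rw [hDs]
      exact phi_sq_mem _
  · exact phi_diag_mem_iff h2 D

end Cfsg.Agent.S2611
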