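import Cfsg.Statements.S2612
import Cfsg.Agent.Helper43.TwoFamPlus

set_option autoImplicit false
open Cfsg

namespace Cfsg.Agent.S2612

open scoped commutatorElement

open Matrix in
/-- the permutation matrix of `σ` as an element of `GL` -/
def pGL {F : Type*} [Field F] {n : Type} [Fintype n] [DecidableEq n] (σ : Equiv.Perm n) :
    GL n F :=
  ⟨σ.permMatrix F, σ⁻¹.permMatrix F,
    by rw [← Matrix.permMatrix_mul, inv_mul_cancel, Matrix.permMatrix_one],
    by rw [← Matrix.permMatrix_mul, mul_inv_cancel, Matrix.permMatrix_one]⟩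

open Matrix in
theorem pGL_mulVec {F : Type*} [Field F] {n : Type} [Fintype n] [DecidableEq n]
    (σ : Equiv.Perm n) (v : n → F) : ((pGL σ : GL n F) : Matrix n n F) *ᵥ v = v ∘ σ :=
  Matrix.permMatrix_mulVec σ

open Matrix in
theorem pGL_inv_mulVec {F : Type*} [Field F] {n : Type} [Fintype n] [DecidableEq n]
    (σ : Equiv.Perm n) (v : n → F) :
    (((pGL σ)⁻¹ : GL n F) : Matrix n n F) *ᵥ v = v ∘ (σ⁻¹ : Equiv.Perm n) :=
  Matrix.permMatrix_mulVec σ⁻¹

/-- the half swap: exchanges `inl i` and `inr i` for `2 i < m` -/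
def halfFun (m : ℕ) : Fin m ⊕ Fin m → Fin m ⊕ Fin m
  | Sum.inl i => if 2 * i.val < m then Sum.inr i else Sum.inl i
  | Sum.inr i => if 2 * i.val < m then Sum.inl i else Sum.inr i

theorem halfFun_invol (m : ℕ) : Function.Involutive (halfFun m) := by
  intro x
  cases x with
  | inl i =>
    by_cases hi : 2 * i.val < m
    · simp [halfFun, hi]
    · simp [halfFun, hi]
  | inr i =>
    by_cases hi : 2 * i.val < m
    · simp [halfFun, hi]
    · simp [halfFun, hi]

/-- the half swap as a permutation -/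
def halfPerm (m : ℕ) : Equiv.Perm (Fin m ⊕ Fin m) := (halfFun_invol m).toPerm

/-- the simultaneous reversal of both halves -/
def revPerm (m : ℕ) : Equiv.Perm (Fin m ⊕ Fin m) := Equiv.sumCongr Fin.revPerm Fin.revPerm

theorem halfPerm_apply (m : ℕ) (x : Fin m ⊕ Fin m) : halfPerm m x = halfFun m x := rfl

theorem halfPerm_inv_apply (m : ℕ) (x : Fin m ⊕ Fin m) : (halfPerm m)⁻¹ x = halfFun m x := rfl

theorem revPerm_inl (m : ℕ) (i : Fin m) : revPerm m (Sum.inl i) = Sum.inl i.rev := rfl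

theorem revPerm_inr (m : ℕ) (i : Fin m) : revPerm m (Sum.inr i) = Sum.inr i.rev := rfl

theorem revPerm_inv_inl (m : ℕ) (i : Fin m) : (revPerm m)⁻¹ (Sum.inl i) = Sum.inl i.rev := by
  rw [Equiv.Perm.inv_eq_iff_eq, revPerm_inl, Fin.rev_rev]

theorem revPerm_inv_inr (m : ℕ) (i : Fin m) : (revPerm m)⁻¹ (Sum.inr i) = Sum.inr i.rev := by
  rw [Equiv.Perm.inv_eq_iff_eq, revPerm_inr, Fin.rev_rev]

theorem half_mem {F : Type*} [Field F] (m : ℕ) :
    (pGL (halfPerm m) : Matrix.GeneralLinearGroup (Fin m ⊕ Fin m) F)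
      ∈ Cfsg.isometryGroup F (Cfsg.quadFormPlus m F) := by
  rw [Helper43.mem_iso_iff]
  intro u
  rw [pGL_mulVec]
  unfold Cfsg.quadFormPlus
  refine Finset.sum_congr rfl fun i _ => ?_
  simp only [Function.comp_apply, halfPerm_apply, halfFun]
  split_ifs
  · exact mul_comm _ _
  · rfl

theorem rev_mem {F : Type*} [Field F] (m : ℕ) :
    (pGL (revPerm m) : Matrix.GeneralLinearGroup (Fin m ⊕ Fin m) F)
      ∈ Cfsg.isometryGroup F (Cfsg.quadFormPlus m F) := by
  rw [Helper43.mem_iso_iff]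
  intro u
  rw [pGL_mulVec]
  unfold Cfsg.quadFormPlus
  simp only [Function.comp_apply, revPerm_inl, revPerm_inr]
  exact Equiv.sum_comp Fin.revPerm (fun i => u (Sum.inl i) * u (Sum.inr i))

theorem rev_lt_iff {m : ℕ} (hm : Even m) (i : Fin m) : 2 * (i.rev).val < m ↔ ¬ 2 * i.val < m := by
  obtain ⟨k, rfl⟩ := hm
  rw [Fin.val_rev]
  have := i.2
  omega

theorem half_inl_pos {m : ℕ} {i : Fin m} (hi : 2 * i.val < m) :
    halfFun m (Sum.inl i) = Sum.inr i := if_pos hi

theorem half_inl_neg {m : ℕ} {i : Fin m} (hi : ¬ 2 * i.val < m) :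
    halfFun m (Sum.inl i) = Sum.inl i := if_neg hi

theorem half_inr_pos {m : ℕ} {i : Fin m} (hi : 2 * i.val < m) :
    halfFun m (Sum.inr i) = Sum.inl i := if_pos hi

theorem half_inr_neg {m : ℕ} {i : Fin m} (hi : ¬ 2 * i.val < m) :
    halfFun m (Sum.inr i) = Sum.inr i := if_neg hi

/-- the commutator of the half swap and the reversal is the full swap -/
theorem comm_apply {m : ℕ} (hm : Even m) (x : Fin m ⊕ Fin m) :
    (revPerm m)⁻¹ ((halfPerm m)⁻¹ (revPerm m (halfPerm m x))) = Sum.swap x := by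
  cases x with
  | inl i =>
    by_cases hi : 2 * i.val < m
    · have h1 : ¬ 2 * (i.rev).val < m := by rw [rev_lt_iff hm]; exact not_not.2 hi
      rw [halfPerm_apply, half_inl_pos hi, revPerm_inr, halfPerm_inv_apply, half_inr_neg h1,
        revPerm_inv_inr, Fin.rev_rev]
      rfl
    · have h1 : 2 * (i.rev).val < m := (rev_lt_iff hm i).2 hi
      rw [halfPerm_apply, half_inl_neg hi, revPerm_inl, halfPerm_inv_apply, half_inl_pos h1,
        revPerm_inv_inr, Fin.rev_rev]
      rfl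
  | inr i =>
    by_cases hi : 2 * i.val < m
    · have h1 : ¬ 2 * (i.rev).val < m := by rw [rev_lt_iff hm]; exact not_not.2 hi
      rw [halfPerm_apply, half_inr_pos hi, revPerm_inl, halfPerm_inv_apply, half_inl_neg h1,
        revPerm_inv_inl, Fin.rev_rev]
      rfl
    · have h1 : 2 * (i.rev).val < m := (rev_lt_iff hm i).2 hi
      rw [halfPerm_apply, half_inr_neg hi, revPerm_inr, halfPerm_inv_apply, half_inr_pos h1,
        revPerm_inv_inl, Fin.rev_rev]
      rfl

open Matrix in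
theorem comm_mulVec {F : Type*} [Field F] {m : ℕ} (hm : Even m) (v : Fin m ⊕ Fin m → F) :
    ((((⁅(⟨pGL (halfPerm m), half_mem m⟩ : Cfsg.isometryGroup F (Cfsg.quadFormPlus m F)),
        ⟨pGL (revPerm m), rev_mem m⟩⁆ : Cfsg.isometryGroup F (Cfsg.quadFormPlus m F)) :
        Matrix.GeneralLinearGroup (Fin m ⊕ Fin m) F) : Matrix (Fin m ⊕ Fin m) (Fin m ⊕ Fin m) F)
      *ᵥ v) = v ∘ Sum.swap := by
  rw [commutatorElement_def]
  simp only [Subgroup.coe_mul, Subgroup.coe_inv, Units.val_mul]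
  rw [← Matrix.mulVec_mulVec, ← Matrix.mulVec_mulVec, ← Matrix.mulVec_mulVec, pGL_inv_mulVec,
    pGL_inv_mulVec, pGL_mulVec, pGL_mulVec]
  funext x
  simp only [Function.comp_apply]
  rw [comm_apply hm]

/-- For the hyperbolic quadratic form Σ x_i y_i on F^(2m) (F finite, m ≥ 1, excluding m = 2 over the field of two elements), Ω⁺_2m(F) (the commutator subgroup of the orthogonal group) contains an element interchanging the two complementary maximal totally singular subspaces {y = 0} and {x = 0} if and only if m is even (dimension divisible by 4). -/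
theorem result {F : Type*} [Field F] [Fintype F] {m : ℕ} (hm : 1 ≤ m) (h : Fintype.card F ≠ 2 ∨ m ≠ 2) : (∃ g : ↥(Cfsg.isometryGroup F (Cfsg.quadFormPlus m F)), g ∈ Cfsg.Omega F (Cfsg.quadFormPlus m F) ∧ (∀ v : Fin m ⊕ Fin m → F, (∀ i, v (Sum.inr i) = 0) → ∀ i, (((g : Matrix.GeneralLinearGroup (Fin m ⊕ Fin m) F) : Matrix (Fin m ⊕ Fin m) (Fin m ⊕ Fin m) F).mulVec v) (Sum.inl i) = 0) ∧ (∀ v : Fin m ⊕ Fin m → F, (∀ i, v (Sum.inl i) = 0) → ∀ i, (((g : Matrix.GeneralLinearGroup (Fin m ⊕ Fin m) F) : Matrix (Fin m ⊕ Fin m) (Fin m ⊕ Fin m) F).mulVec v) (Sum.inr i) = 0)) ↔ Even m := by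
  constructor
  · rintro ⟨g, hg, h1, _⟩
    refine Helper43.TwoFam.even_of_swap (Helper43.TwoFam.plusQSpace m F)
      (Helper43.TwoFam.mts_plusE m F) (Helper43.TwoFam.plusE_inf m F) g hg ?_
    intro x hx
    obtain ⟨y, hy, rfl⟩ := (Helper43.TwoFam.mem_img _ _ _).1 hx
    exact h1 y hy
  · intro hev
    refine ⟨⁅(⟨pGL (halfPerm m), half_mem m⟩ : Cfsg.isometryGroup F (Cfsg.quadFormPlus m F)),
        ⟨pGL (revPerm m), rev_mem m⟩⁆, ?_, ?_, ?_⟩
    · exact Subgroup.commutator_mem_commutator (Subgroup.mem_top _) (Subgroup.mem_top _)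
    · intro v hv i
      rw [comm_mulVec (F := F) hev v]
      exact hv i
    · intro v hv i
      rw [comm_mulVec (F := F) hev v]
      exact hv i

end Cfsg.Agent.S2612
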