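import Cfsg.Statements.S2614
import Cfsg.Agent.Helper43.Spinor2

set_option autoImplicit false
open Cfsg

namespace Cfsg.Agent.S2614

/-- For the form x_0² + Σ x_j y_j on F^(2m+1), F finite with q elements, q odd, and 1 ≤ i ≤ m: the involution of determinant one negating the first i hyperbolic pairs (and fixing x_0 and the other pairs) lies in Ω_(2m+1)(q) (commutator subgroup of the orthogonal group) if and only if q^i ≡ 1 (mod 4); its (−1)-eigenspace is a hyperbolic 2i-space. -/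
theorem result {F : Type*} [Field F] [Fintype F] {q : ℕ} (hF : Fintype.card F = q) (hq : Odd q) {m : ℕ} (i : ℕ) (hi : 1 ≤ i) (him : i ≤ m) : (∃ g : ↥(Cfsg.isometryGroup F (Cfsg.quadFormOdd m F)), g ∈ Cfsg.Omega F (Cfsg.quadFormOdd m F) ∧ ((g : Matrix.GeneralLinearGroup (Unit ⊕ (Fin m ⊕ Fin m)) F) : Matrix (Unit ⊕ (Fin m ⊕ Fin m)) (Unit ⊕ (Fin m ⊕ Fin m)) F) = Matrix.diagonal (fun k : Unit ⊕ (Fin m ⊕ Fin m) => if (Sum.elim (fun _ : Unit => i) (Sum.elim (fun j : Fin m => (j : ℕ)) (fun j : Fin m => (j : ℕ))) k) < i then (-1 : F) else 1)) ↔ q ^ i % 4 = 1 := by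
  classical
  have h2 : (2 : F) ≠ 0 := Cfsg.Agent.Helper43.two_ne_zero_of_odd_card hF hq
  refine Iff.trans ?_ (Cfsg.Agent.Helper43.isSquare_neg_one_pow_iff_mod4 hF hq i)
  refine Cfsg.Agent.Helper43.neg_pairs_mem_iff' (Cfsg.Agent.Helper43.oddQF m F) h2
    (fun k : Unit ⊕ (Fin m ⊕ Fin m) => Sum.elim (fun _ : Unit => i)
      (Sum.elim (fun j : Fin m => (j : ℕ)) (fun j : Fin m => (j : ℕ))) k) m
    (fun a => Sum.inr (Sum.inl a)) (fun a => Sum.inr (Sum.inr a)) (fun a => rfl) (fun a => rfl)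
    (fun a b => by simp) ?_ ?_ ?_ ?_ i him ?_
  · intro a
    show Cfsg.quadFormOdd m F _ = 0
    simp [Cfsg.quadFormOdd]
  · intro a
    show Cfsg.quadFormOdd m F _ = 0
    simp [Cfsg.quadFormOdd]
  · intro a x
    show QuadraticMap.polar (Cfsg.quadFormOdd m F) _ _ = _
    simp [QuadraticMap.polar, Cfsg.quadFormOdd, Pi.single_apply, add_mul, Finset.sum_add_distrib]
  · intro a x
    show QuadraticMap.polar (Cfsg.quadFormOdd m F) _ _ = _
    simp [QuadraticMap.polar, Cfsg.quadFormOdd, Pi.single_apply, mul_add, Finset.sum_add_distrib]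
  · rintro (u | a | a) hk
    · exact absurd hk (lt_irrefl _)
    · exact Or.inl ⟨a, rfl⟩
    · exact Or.inr ⟨a, rfl⟩

end Cfsg.Agent.S2614
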