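import Cfsg.Statements.S2615
import Cfsg.Agent.Helper43.Spinor2

set_option autoImplicit false
open Cfsg

namespace Cfsg.Agent.S2615

/-- For an elliptic form Σ_(j<m−1) x_j y_j + (z₁² + a z₁z₂ + b z₂²) (anisotropic binary part) on F^(2m), F finite with q elements, q odd, and 1 ≤ i ≤ m − 1: the involution negating the first i hyperbolic pairs and fixing the rest lies in Ω⁻_2m(q) (commutator subgroup of the orthogonal group) if and only if q^i ≡ 1 (mod 4). -/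
theorem result {F : Type*} [Field F] [Fintype F] {q : ℕ} (hF : Fintype.card F = q) (hq : Odd q) {m : ℕ} (a b : F) (hab : ∀ z₁ z₂ : F, z₁ ^ 2 + a * z₁ * z₂ + b * z₂ ^ 2 = 0 → z₁ = 0 ∧ z₂ = 0) (i : ℕ) (hi : 1 ≤ i) (him : i + 1 ≤ m) : (∃ g : ↥(Cfsg.isometryGroup F (Cfsg.quadFormMinus (m - 1) F a b)), g ∈ Cfsg.Omega F (Cfsg.quadFormMinus (m - 1) F a b) ∧ ((g : Matrix.GeneralLinearGroup ((Fin (m - 1) ⊕ Fin (m - 1)) ⊕ Fin 2) F) : Matrix ((Fin (m - 1) ⊕ Fin (m - 1)) ⊕ Fin 2) ((Fin (m - 1) ⊕ Fin (m - 1)) ⊕ Fin 2) F) = Matrix.diagonal (fun k : (Fin (m - 1) ⊕ Fin (m - 1)) ⊕ Fin 2 => if (Sum.elim (Sum.elim (fun j : Fin (m - 1) => (j : ℕ)) (fun j : Fin (m - 1) => (j : ℕ))) (fun _ : Fin 2 => i) k) < i then (-1 : F) else 1)) ↔ q ^ i % 4 = 1 := by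
  classical
  have h2 : (2 : F) ≠ 0 := Cfsg.Agent.Helper43.two_ne_zero_of_odd_card hF hq
  refine Iff.trans ?_ (Cfsg.Agent.Helper43.isSquare_neg_one_pow_iff_mod4 hF hq i)
  refine Cfsg.Agent.Helper43.neg_pairs_mem_iff' (Cfsg.Agent.Helper43.minusQF (m - 1) F a b) h2
    (fun k : (Fin (m - 1) ⊕ Fin (m - 1)) ⊕ Fin 2 => Sum.elim
      (Sum.elim (fun j : Fin (m - 1) => (j : ℕ)) (fun j : Fin (m - 1) => (j : ℕ)))
      (fun _ : Fin 2 => i) k) (m - 1)
    (fun c => Sum.inl (Sum.inl c)) (fun c => Sum.inl (Sum.inr c)) (fun c => rfl) (fun c => rfl)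
    (fun c d => by simp) ?_ ?_ ?_ ?_ i (by omega) ?_
  · intro c
    show Cfsg.quadFormMinus (m - 1) F a b _ = 0
    simp [Cfsg.quadFormMinus]
  · intro c
    show Cfsg.quadFormMinus (m - 1) F a b _ = 0
    simp [Cfsg.quadFormMinus]
  · intro c x
    show QuadraticMap.polar (Cfsg.quadFormMinus (m - 1) F a b) _ _ = _
    simp [QuadraticMap.polar, Cfsg.quadFormMinus, Pi.single_apply, add_mul,
      Finset.sum_add_distrib]
  · intro c x
    show QuadraticMap.polar (Cfsg.quadFormMinus (m - 1) F a b) _ _ = _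
    simp [QuadraticMap.polar, Cfsg.quadFormMinus, Pi.single_apply, mul_add,
      Finset.sum_add_distrib]
  · rintro ((c | c) | u) hk
    · exact Or.inl ⟨c, rfl⟩
    · exact Or.inr ⟨c, rfl⟩
    · exact absurd hk (lt_irrefl _)

end Cfsg.Agent.S2615
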