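import Cfsg.Statements.S2619
-- import your own Cfsg.Agent.* helpers here

set_option autoImplicit false
open Cfsg

namespace Cfsg.Agent.S2619

/-- Over a finite field of characteristic two, given an alternating bilinear form B on a finite-dimensional space, a basis (v_i) and scalars (λ_i), there is exactly one quadratic form whose polar form is B and whose value at each v_i is λ_i. -/
theorem result {F V ι : Type*} [Field F] [Finite F] [CharP F 2] [AddCommGroup V] [Module F V] [Fintype ι] (b : Module.Basis ι F V) (B : LinearMap.BilinForm F V) (hB : B.IsAlt) (c : ι → F) : ∃! Q : QuadraticForm F V, QuadraticMap.polarBilin Q = B ∧ ∀ i, Q (b i) = c i := by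
  classical
  let _ : LinearOrder ι := IsWellOrder.linearOrder WellOrderingRel
  have h2 : (2 : F) = 0 := CharTwo.two_eq_zero
  let b0 : LinearMap.BilinMap F V F :=
    b.constr (S := F) fun i =>
      b.constr (S := F) fun j =>
        if i = j then c i else if i < j then B (b i) (b j) else 0
  have hb0 : ∀ i j, b0 (b i) (b j) = if i = j then c i else if i < j then B (b i) (b j) else 0 := by
    intro i j
    show (b.constr (S := F) (fun i => b.constr (S := F) fun j =>
        if i = j then c i else if i < j then B (b i) (b j) else 0) (b i)) (b j) = _
    rw [Module.Basis.constr_basis, Module.Basis.constr_basis]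
  refine ⟨b0.toQuadraticMap, ⟨?_, ?_⟩, ?_⟩
  · rw [LinearMap.BilinMap.polarBilin_toQuadraticMap]
    apply LinearMap.ext_basis b b
    intro i j
    rw [LinearMap.add_apply, LinearMap.add_apply, LinearMap.flip_apply, hb0, hb0]
    rcases lt_trichotomy i j with hij | hij | hij
    · have hne : i ≠ j := ne_of_lt hij
      have hne' : j ≠ i := hne.symm
      have hnlt : ¬ j < i := not_lt.mpr (le_of_lt hij)
      simp [hne, hne', hij, hnlt]
    · subst hij
      simp only [if_true]
      rw [hB (b i)]
      linear_combination (c i) * h2
    · have hne : i ≠ j := ne_of_gt hij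
      have hne' : j ≠ i := hne.symm
      have hnlt : ¬ i < j := not_lt.mpr (le_of_lt hij)
      simp only [hne, hne', hij, hnlt, if_false, if_true, zero_add]
      have := LinearMap.IsAlt.neg hB (b j) (b i)
      rw [← this, CharTwo.neg_eq]
  · intro i
    rw [LinearMap.BilinMap.toQuadraticMap_apply, hb0]
    simp
  · rintro Q ⟨hQB, hQc⟩
    have hkey : Q.toBilin b = b0 := by
      apply LinearMap.ext_basis b b
      intro i j
      rw [QuadraticMap.toBilin_apply, hb0, hQc, ← hQB]
      simp only [QuadraticMap.polarBilin_apply_apply]
    rw [← QuadraticMap.toQuadraticMap_toBilin Q b, hkey]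

end Cfsg.Agent.S2619
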