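import Cfsg.Statements.S2621
import Cfsg.Agent.Helper43.Gram

set_option autoImplicit false
open Cfsg

namespace Cfsg.Agent.S2621

/-- Discriminant of an elliptic quadratic form Σ_(i<m−1) x_i y_i + z₁² + a z₁z₂ + c z₂² (binary part anisotropic) in dimension 2m over a field with q elements, q odd, m ≥ 1: the determinant of the Gram matrix of its polar form in any basis is a square if and only if m(q − 1)/2 is odd (equivalently q^m ≡ 3 (mod 4)). -/
theorem result {F : Type*} [Field F] [Fintype F] {q : ℕ} (hF : Fintype.card F = q) (hq : Odd q) {m : ℕ} (hm : 1 ≤ m) (a c : F) (hac : ∀ z₁ z₂ : F, z₁ ^ 2 + a * z₁ * z₂ + c * z₂ ^ 2 = 0 → z₁ = 0 ∧ z₂ = 0) {ι : Type*} [Fintype ι] [DecidableEq ι] (b : Module.Basis ι F ((Fin (m - 1) ⊕ Fin (m - 1)) ⊕ Fin 2 → F)) : IsSquare (Matrix.of (fun i j : ι => QuadraticMap.polar (Cfsg.quadFormMinus (m - 1) F a c) (b i) (b j))).det ↔ ¬ Even (m * (q - 1) / 2) := by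
  classical
  obtain ⟨d, hd, hdet⟩ := Cfsg.Agent.Helper43.gram_det_basis (Cfsg.quadFormMinus (m - 1) F a c)
    (Cfsg.Agent.Helper43.gramMinus (m - 1) F a c)
    (Cfsg.Agent.Helper43.polar_quadFormMinus (m - 1) F a c) b
  rw [hdet, Cfsg.Agent.Helper43.isSquare_sq_mul_iff hd, Cfsg.Agent.Helper43.det_gramMinus]
  have h2 : (2 : F) ≠ 0 := by
    intro h
    have h2' : ((2 : ℕ) : F) = 0 := by exact_mod_cast h
    have hdvd := (CharP.cast_eq_zero_iff F (ringChar F) 2).mp h2'
    have hdvd' : ringChar F ∣ q := by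
      have := FiniteField.card F (ringChar F)
      obtain ⟨n, hp, hn⟩ := this
      rw [← hF, hn]
      exact dvd_pow_self _ n.ne_zero
    have : 2 ∣ q := by
      have hr : ringChar F = 2 := by
        have hp : (ringChar F).Prime := CharP.char_is_prime F (ringChar F)
        exact (Nat.prime_dvd_prime_iff_eq hp Nat.prime_two).mp hdvd
      rwa [hr] at hdvd'
    exact (Nat.not_even_iff_odd.mpr hq) (even_iff_two_dvd.mpr this)
  have hns := Cfsg.Agent.Helper43.not_isSquare_of_anisotropic h2 a c hac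
  have hrw : (-1 : F) ^ (m - 1) * (4 * c - a ^ 2) = (-1) ^ m * (a ^ 2 - 4 * c) := by
    obtain ⟨k, rfl⟩ : ∃ k, m = k + 1 := ⟨m - 1, by omega⟩
    rw [Nat.add_sub_cancel, pow_succ]
    ring
  rw [hrw, Cfsg.Agent.Helper43.isSquare_mul_nonsquare_iff (by simp) hns,
    Cfsg.Agent.Helper43.isSquare_neg_one_pow_iff hF hq m]

end Cfsg.Agent.S2621
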