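import Cfsg.Statements.S2623
import Cfsg.Agent.Helper43.QuadFin2

set_option autoImplicit false
open Cfsg

namespace Cfsg.Agent.S2623

/-- polar form in standard coordinates -/
theorem polar_eq_gram {F : Type*} [Field F] {n : ℕ} (Q : QuadraticForm F (Fin n → F))
    (u v : Fin n → F) :
    QuadraticMap.polar ⇑Q u v = u ⬝ᵥ (Matrix.of (fun i j : Fin n =>
      QuadraticMap.polar ⇑Q (Pi.single i 1) (Pi.single j 1))).mulVec v := by
  have h1 : Matrix.of (fun i j : Fin n => QuadraticMap.polar ⇑Q (Pi.single i 1) (Pi.single j 1))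
      = LinearMap.BilinForm.toMatrix' (QuadraticMap.polarBilin Q) := by
    ext i j
    simp [LinearMap.BilinForm.toMatrix'_apply]
  rw [h1, ← Matrix.toBilin'_apply', Matrix.toBilin'_toMatrix']
  rfl

theorem gram_diag {F : Type*} [Field F] {k : ℕ} (Q : QuadraticForm F (Fin (k + 1) → F))
    (v : Fin (k + 1) → (Fin (k + 1) → F))
    (ho : ∀ i j, i ≠ j → QuadraticMap.polar ⇑Q (v i) (v j) = 0)
    (hone : ∀ i, i ≠ Fin.last k → Q (v i) = 1) :
    (Matrix.of (fun i j => QuadraticMap.polar ⇑Q (v i) (v j))).det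
      = 2 ^ (k + 1) * Q (v (Fin.last k)) := by
  have h1 : Matrix.of (fun i j => QuadraticMap.polar ⇑Q (v i) (v j))
      = Matrix.diagonal (fun i => 2 * Q (v i)) := by
    ext i j
    by_cases hij : i = j
    · subst hij
      simp [QuadraticMap.polar_self]
    · simp [hij, ho i j hij]
  rw [h1, Matrix.det_diagonal, Finset.prod_mul_distrib, Finset.prod_const, Finset.card_univ,
    Fintype.card_fin]
  congr 1
  rw [Fin.prod_univ_castSucc]
  have h2 : ∀ i : Fin k, Q (v (Fin.castSucc i)) = 1 :=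
    fun i => hone _ (Fin.castSucc_lt_last i).ne
  simp [h2]


/-- Over a finite field of odd order, two quadratic forms on F^n with non-degenerate polar forms are isometric (related by an invertible linear change of variables) if and only if their discriminants (determinants of the Gram matrices of their polar forms) lie in the same square class. -/
theorem result {F : Type*} [Field F] [Fintype F] (h2 : (2 : F) ≠ 0) {n : ℕ} (Q₁ Q₂ : QuadraticForm F (Fin n → F)) (h₁ : (QuadraticMap.polarBilin Q₁).Nondegenerate) (h₂ : (QuadraticMap.polarBilin Q₂).Nondegenerate) : (∃ g : (Fin n → F) ≃ₗ[F] (Fin n → F), ∀ v, Q₂ (g v) = Q₁ v) ↔ IsSquare ((Matrix.of (fun i j : Fin n => QuadraticMap.polar ⇑Q₁ (Pi.single i 1) (Pi.single j 1))).det * (Matrix.of (fun i j : Fin n => QuadraticMap.polar ⇑Q₂ (Pi.single i 1) (Pi.single j 1))).det) := by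
  classical
  constructor
  · rintro ⟨g, hg⟩
    let b : Module.Basis (Fin n) F (Fin n → F) := (Pi.basisFun F (Fin n)).map g
    obtain ⟨d, hd, hdet⟩ := Cfsg.Agent.Helper43.gram_det_basis (⇑Q₂) _ (polar_eq_gram Q₂) b
    have hG : Matrix.of (fun i j : Fin n => QuadraticMap.polar ⇑Q₂ (b i) (b j))
        = Matrix.of (fun i j : Fin n => QuadraticMap.polar ⇑Q₁ (Pi.single i 1) (Pi.single j 1)) := by
      ext i j
      simp only [Matrix.of_apply, b, Module.Basis.map_apply, Pi.basisFun_apply]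
      simp only [QuadraticMap.polar, ← map_add, hg]
    rw [hG] at hdet
    rw [hdet]
    exact ⟨d * (Matrix.of (fun i j : Fin n =>
      QuadraticMap.polar ⇑Q₂ (Pi.single i 1) (Pi.single j 1))).det, by ring⟩
  · rintro ⟨s, hs⟩
    rcases Nat.eq_zero_or_pos n with rfl | hn
    · exact ⟨LinearEquiv.refl F _, fun v => by
        have : v = 0 := Subsingleton.elim _ _
        rw [this, map_zero, QuadraticMap.map_zero, QuadraticMap.map_zero]⟩
    obtain ⟨k, rfl⟩ : ∃ k, n = k + 1 := ⟨n - 1, by omega⟩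
    have hfr : Module.finrank F (Fin (k + 1) → F) = k + 1 := by simp
    obtain ⟨v1, ho1, hone1, hd1⟩ := Cfsg.Agent.Helper43.diag_family h2 k (Fin (k + 1) → F) Q₁ hfr
      (Cfsg.Agent.Helper43.polarNondeg_of_nondegenerate Q₁ h₁)
    obtain ⟨v2, ho2, hone2, hd2⟩ := Cfsg.Agent.Helper43.diag_family h2 k (Fin (k + 1) → F) Q₂ hfr
      (Cfsg.Agent.Helper43.polarNondeg_of_nondegenerate Q₂ h₂)
    have hQ1ne : ∀ i, Q₁ (v1 i) ≠ 0 := by
      intro i
      by_cases hi : i = Fin.last k
      · rw [hi]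
        exact hd1
      · rw [hone1 i hi]
        exact one_ne_zero
    have hQ2ne : ∀ i, Q₂ (v2 i) ≠ 0 := by
      intro i
      by_cases hi : i = Fin.last k
      · rw [hi]
        exact hd2
      · rw [hone2 i hi]
        exact one_ne_zero
    have hli1 := Cfsg.Agent.Helper43.linIndep_of_ortho Q₁ h2 v1 ho1 hQ1ne
    have hli2 := Cfsg.Agent.Helper43.linIndep_of_ortho Q₂ h2 v2 ho2 hQ2ne
    have hcard : Fintype.card (Fin (k + 1)) = Module.finrank F (Fin (k + 1) → F) := by simp
    have hb1 : ⇑(basisOfLinearIndependentOfCardEqFinrank hli1 hcard) = v1 :=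
      coe_basisOfLinearIndependentOfCardEqFinrank hli1 hcard
    have hb2 : ⇑(basisOfLinearIndependentOfCardEqFinrank hli2 hcard) = v2 :=
      coe_basisOfLinearIndependentOfCardEqFinrank hli2 hcard
    obtain ⟨t1, ht1, hdet1⟩ := Cfsg.Agent.Helper43.gram_det_basis (⇑Q₁) _ (polar_eq_gram Q₁)
      (basisOfLinearIndependentOfCardEqFinrank hli1 hcard)
    obtain ⟨t2, ht2, hdet2⟩ := Cfsg.Agent.Helper43.gram_det_basis (⇑Q₂) _ (polar_eq_gram Q₂)
      (basisOfLinearIndependentOfCardEqFinrank hli2 hcard)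
    rw [hb1, gram_diag Q₁ v1 ho1 hone1] at hdet1
    rw [hb2, gram_diag Q₂ v2 ho2 hone2] at hdet2
    have h2k : (2 : F) ^ (k + 1) ≠ 0 := pow_ne_zero _ h2
    have key : (t1 * t2 * s) ^ 2 * Q₂ (v2 (Fin.last k))
        = Q₁ (v1 (Fin.last k)) * (2 ^ (k + 1) * Q₂ (v2 (Fin.last k))) ^ 2 := by
      linear_combination (-(Q₂ (v2 (Fin.last k)) * 2 ^ (k + 1) * Q₂ (v2 (Fin.last k)))) * hdet1
        - (Q₂ (v2 (Fin.last k)) * t1 ^ 2 * (Matrix.of (fun i j : Fin (k + 1) =>
            QuadraticMap.polar ⇑Q₁ (Pi.single i 1) (Pi.single j 1))).det) * hdet2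
        - (Q₂ (v2 (Fin.last k)) * t1 ^ 2 * t2 ^ 2) * hs
    have hcsq : (t1 * t2 * s / (2 ^ (k + 1) * Q₂ (v2 (Fin.last k)))) ^ 2 * Q₂ (v2 (Fin.last k))
        = Q₁ (v1 (Fin.last k)) := by
      rw [div_pow, div_mul_eq_mul_div, key, mul_div_assoc,
        div_self (pow_ne_zero 2 (mul_ne_zero h2k hd2)), mul_one]
    have hc0 : t1 * t2 * s / (2 ^ (k + 1) * Q₂ (v2 (Fin.last k))) ≠ 0 := by
      intro h0
      rw [h0] at hcsq
      apply hd1
      rw [← hcsq]
      simp
    generalize t1 * t2 * s / (2 ^ (k + 1) * Q₂ (v2 (Fin.last k))) = c at hcsq hc0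
    let w : Fin (k + 1) → Fˣ := fun i => if i = Fin.last k then Units.mk0 c hc0 else 1
    have ho2' : ∀ i j, i ≠ j → QuadraticMap.polar ⇑Q₂ (w i • v2 i) (w j • v2 j) = 0 := by
      intro i j hij
      rw [Units.smul_def, Units.smul_def, QuadraticMap.polar_smul_left,
        QuadraticMap.polar_smul_right, ho2 i j hij]
      simp
    refine ⟨(basisOfLinearIndependentOfCardEqFinrank hli1 hcard).equiv
      ((basisOfLinearIndependentOfCardEqFinrank hli2 hcard).unitsSMul w) (Equiv.refl _), ?_⟩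
    intro v
    have hv : v = ∑ i, (basisOfLinearIndependentOfCardEqFinrank hli1 hcard).repr v i • v1 i := by
      conv_lhs => rw [← (basisOfLinearIndependentOfCardEqFinrank hli1 hcard).sum_repr v]
      rw [hb1]
    have hgv : ((basisOfLinearIndependentOfCardEqFinrank hli1 hcard).equiv
        ((basisOfLinearIndependentOfCardEqFinrank hli2 hcard).unitsSMul w) (Equiv.refl _)) v
        = ∑ i, (basisOfLinearIndependentOfCardEqFinrank hli1 hcard).repr v i • (w i • v2 i) := by
      conv_lhs => rw [← (basisOfLinearIndependentOfCardEqFinrank hli1 hcard).sum_repr v]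
      simp only [map_sum, map_smul, Module.Basis.equiv_apply, Module.Basis.unitsSMul_apply,
        Equiv.refl_apply, hb2]
    rw [hgv]
    conv_rhs => rw [hv]
    rw [Cfsg.Agent.Helper43.map_sum_of_ortho Q₁ Finset.univ v1 ho1,
      Cfsg.Agent.Helper43.map_sum_of_ortho Q₂ Finset.univ (fun i => w i • v2 i) ho2']
    apply Finset.sum_congr rfl
    intro i _
    by_cases hi : i = Fin.last k
    · subst hi
      simp only [w, if_true, Units.smul_def, Units.val_mk0, QuadraticMap.map_smul, smul_eq_mul]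
      rw [← hcsq]
      ring
    · simp only [w, hi, if_false, one_smul, hone1 i hi, hone2 i hi]

end Cfsg.Agent.S2623
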