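import Cfsg.Statements.S2624

set_option autoImplicit false
open Cfsg

namespace Cfsg.Agent.S2624

open Polynomial QuadraticMap

/-- a linear similarity with nonzero multiplier of a form with non-degenerate polar form is injective -/
theorem injective_of_similar {F : Type*} [Field F] {V : Type*} [AddCommGroup V] [Module F V]
    (Q : QuadraticForm F V) (hQ : (QuadraticMap.polarBilin Q).Nondegenerate)
    (g : V →ₗ[F] V) (c : F) (hc : c ≠ 0) (hg : ∀ v, Q (g v) = c * Q v) : Function.Injective g := by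
  rw [injective_iff_map_eq_zero]
  intro u hu
  apply hQ.1 u
  intro v
  have h1 : QuadraticMap.polar Q (g u) (g v) = c * QuadraticMap.polar Q u v := by
    simp only [QuadraticMap.polar]
    rw [← map_add, hg, hg, hg]; ring
  rw [hu] at h1
  have h2 : QuadraticMap.polar Q 0 (g v) = 0 := by
    simp [QuadraticMap.polar]
  rw [h2] at h1
  rw [QuadraticMap.polarBilin_apply_apply]
  exact (mul_eq_zero.mp h1.symm).resolve_left hc

/-- solving `a s² + b t² = a c` in a finite field of odd characteristic -/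
theorem exists_pair {F : Type*} [Field F] [Fintype F] (h2 : ringChar F ≠ 2) (a b c : F)
    (ha : a ≠ 0) (hb : b ≠ 0) : ∃ s t : F, a * s ^ 2 + b * t ^ 2 = a * c := by
  have hcard := FiniteField.odd_card_of_char_ne_two h2
  have hf : (C a * X ^ 2 - C (a * c) : F[X]).degree = 2 := by
    rw [degree_sub_C]
    · exact degree_C_mul_X_pow 2 ha
    · rw [degree_C_mul_X_pow 2 ha]; norm_num
  have hg : (C b * X ^ 2 : F[X]).degree = 2 := degree_C_mul_X_pow 2 hb
  obtain ⟨s, t, hst⟩ := FiniteField.exists_root_sum_quadratic hf hg hcard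
  refine ⟨s, t, ?_⟩
  simp only [eval_sub, eval_mul, eval_C, eval_pow, eval_X] at hst
  linear_combination hst

theorem pair_sum {F : Type*} [Field F] [Fintype F] (h2 : ringChar F ≠ 2) (c : F)
    {κ : Type*} [Fintype κ] (w : κ ⊕ κ → Fˣ) :
    ∃ g : (κ ⊕ κ → F) →ₗ[F] (κ ⊕ κ → F), ∀ x,
      ∑ i, (w i : F) * (g x i * g x i) = c * ∑ i, (w i : F) * (x i * x i) := by
  have hex : ∀ i : κ, ∃ s t : F,
      (w (Sum.inl i) : F) * s ^ 2 + (w (Sum.inr i) : F) * t ^ 2 = (w (Sum.inl i) : F) * c :=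
    fun i => exists_pair h2 _ _ c (Units.ne_zero _) (Units.ne_zero _)
  choose s t hst using hex
  let g : (κ ⊕ κ → F) →ₗ[F] (κ ⊕ κ → F) :=
    { toFun := fun x => Sum.elim
        (fun i => s i * x (Sum.inl i)
          - (w (Sum.inr i) : F) / (w (Sum.inl i) : F) * t i * x (Sum.inr i))
        (fun i => t i * x (Sum.inl i) + s i * x (Sum.inr i))
      map_add' := by
        intro x y
        ext (i | i)
        · simp only [Sum.elim_inl, Pi.add_apply]; ring
        · simp only [Sum.elim_inr, Pi.add_apply]; ring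
      map_smul' := by
        intro r x
        ext (i | i)
        · simp only [Sum.elim_inl, Pi.smul_apply, smul_eq_mul, RingHom.id_apply]; ring
        · simp only [Sum.elim_inr, Pi.smul_apply, smul_eq_mul, RingHom.id_apply]; ring }
  refine ⟨g, fun x => ?_⟩
  rw [Fintype.sum_sum_type, Fintype.sum_sum_type, ← Finset.sum_add_distrib, ← Finset.sum_add_distrib,
    Finset.mul_sum]
  apply Finset.sum_congr rfl
  intro i _
  show (w (Sum.inl i) : F) * ((s i * x (Sum.inl i)
          - (w (Sum.inr i) : F) / (w (Sum.inl i) : F) * t i * x (Sum.inr i)) * (s i * x (Sum.inl i)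
          - (w (Sum.inr i) : F) / (w (Sum.inl i) : F) * t i * x (Sum.inr i)))
      + (w (Sum.inr i) : F) * ((t i * x (Sum.inl i) + s i * x (Sum.inr i))
          * (t i * x (Sum.inl i) + s i * x (Sum.inr i))) = _
  have ha : (w (Sum.inl i) : F) ≠ 0 := Units.ne_zero _
  have := hst i
  generalize (w (Sum.inl i) : F) = a at *
  generalize (w (Sum.inr i) : F) = b at *
  field_simp
  linear_combination (a * x (Sum.inl i) ^ 2 + b * x (Sum.inr i) ^ 2) * this

theorem reindex_sum {F : Type*} [Field F] [Fintype F] (h2 : ringChar F ≠ 2) (c : F)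
    {ι κ : Type*} [Fintype ι] [Fintype κ] (ε : κ ⊕ κ ≃ ι) (w : ι → Fˣ) :
    ∃ g : (ι → F) →ₗ[F] (ι → F), ∀ x,
      weightedSumSquares F w (g x) = c * weightedSumSquares F w x := by
  obtain ⟨g₁, hg₁⟩ := pair_sum h2 c (w ∘ ε)
  let L : (ι → F) ≃ₗ[F] (κ ⊕ κ → F) := LinearEquiv.funCongrLeft F F ε
  refine ⟨(L.symm : (κ ⊕ κ → F) →ₗ[F] (ι → F)) ∘ₗ g₁ ∘ₗ (L : (ι → F) →ₗ[F] (κ ⊕ κ → F)), fun x => ?_⟩
  have hL : ∀ (y : ι → F) (j : κ ⊕ κ), L y j = y (ε j) := fun y j => rfl
  have hLs : ∀ (y : κ ⊕ κ → F) (j : κ ⊕ κ), L.symm y (ε j) = y j := by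
    intro y j
    have := hL (L.symm y) j
    rw [LinearEquiv.apply_symm_apply] at this
    exact this.symm
  rw [weightedSumSquares_apply, weightedSumSquares_apply]
  rw [← Equiv.sum_comp ε, ← Equiv.sum_comp ε (fun i => w i • (x i * x i))]
  have := hg₁ (L x)
  simp only [Function.comp_apply, Units.smul_def, smul_eq_mul, LinearMap.coe_comp,
    LinearEquiv.coe_coe, hLs, hL] at this ⊢
  exact this

theorem result {F : Type*} [Field F] [Fintype F] {n : ℕ} (hn : 2 ≤ n) (he : Even n) (Q : QuadraticForm F (Fin n → F)) (hQ : (QuadraticMap.polarBilin Q).Nondegenerate) (c : F) (hc : c ≠ 0) : ∃ g : (Fin n → F) ≃ₗ[F] (Fin n → F), ∀ v, Q (g v) = c * Q v := by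
  classical
  suffices h : ∃ g : (Fin n → F) →ₗ[F] (Fin n → F), ∀ v, Q (g v) = c * Q v by
    obtain ⟨g, hg⟩ := h
    exact ⟨LinearEquiv.ofInjectiveEndo g (injective_of_similar Q hQ g c hc hg), fun v => hg v⟩
  by_cases h2 : ringChar F = 2
  · obtain ⟨a, ha⟩ := FiniteField.isSquare_of_char_two h2 c
    refine ⟨a • LinearMap.id, fun v => ?_⟩
    rw [LinearMap.smul_apply, LinearMap.id_apply, QuadraticMap.map_smul, ha, smul_eq_mul]
  · letI : Invertible (2 : F) := invertibleOfNonzero (Ring.two_ne_zero h2)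
    have hsep : (QuadraticMap.associated (R := F) Q).SeparatingLeft := by
      intro x hx
      apply hQ.1 x
      intro y
      have h3 := hx y
      rw [← QuadraticMap.two_nsmul_associated F Q]
      rw [LinearMap.smul_apply, LinearMap.smul_apply, h3, smul_zero]
    obtain ⟨w, ⟨e⟩⟩ := Q.equivalent_weightedSumSquares_units_of_nondegenerate' hsep
    have hfr : Module.finrank F (Fin n → F) = n := Module.finrank_fin_fun F
    obtain ⟨k, hk⟩ := he
    let ε : Fin k ⊕ Fin k ≃ Fin (Module.finrank F (Fin n → F)) :=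
      finSumFinEquiv.trans (finCongr (by rw [hfr, hk]))
    obtain ⟨g', hg'⟩ := reindex_sum h2 c ε w
    refine ⟨(e.toLinearEquiv.symm : _ →ₗ[F] _) ∘ₗ g' ∘ₗ (e.toLinearEquiv : _ →ₗ[F] _), fun v => ?_⟩
    rw [← e.map_app, ← e.map_app v]
    simp only [LinearMap.coe_comp, LinearEquiv.coe_coe, Function.comp_apply]
    have h4 : e (e.toLinearEquiv.symm (g' (e.toLinearEquiv v))) = g' (e v) :=
      e.toLinearEquiv.apply_symm_apply _
    rw [h4]
    exact hg' (e v)

end Cfsg.Agent.S2624
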