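import Cfsg.Statements.S2625

set_option autoImplicit false
open Cfsg

namespace Cfsg.Agent.S2625

theorem result {F : Type*} [Field F] [Fintype F] {n : ℕ} (hn : Odd n) (Q : QuadraticForm F (Fin n → F)) (hQ : (QuadraticMap.polarBilin Q).Nondegenerate) (g : (Fin n → F) ≃ₗ[F] (Fin n → F)) (c : F) (hg : ∀ v, Q (g v) = c * Q v) : IsSquare c := by
  classical
  by_cases h2 : ringChar F = 2
  · exact FiniteField.isSquare_of_char_two h2 c
  · set B : LinearMap.BilinForm F (Fin n → F) := QuadraticMap.polarBilin Q with hB
    have hBg : ∀ u v, B (g u) (g v) = c * B u v := by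
      intro u v
      simp only [hB, QuadraticMap.polarBilin_apply_apply, QuadraticMap.polar]
      rw [← map_add, hg, hg, hg]; ring
    set M := LinearMap.BilinForm.toMatrix' B with hM
    have hdet : M.det ≠ 0 := by
      have := (LinearMap.BilinForm.nondegenerate_toMatrix'_iff (B := B)).mpr hQ
      exact Matrix.nondegenerate_iff_det_ne_zero.mp this
    set A := LinearMap.toMatrix' (g : (Fin n → F) →ₗ[F] (Fin n → F)) with hA
    have hAM : A.transpose * M * A = c • M := by
      have h1 : B.comp (g : (Fin n → F) →ₗ[F] _) (g : (Fin n → F) →ₗ[F] _) = c • B := by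
        ext u v
        simp [hBg]
      have h3 := LinearMap.BilinForm.toMatrix'_comp B (g : (Fin n → F) →ₗ[F] _) (g : (Fin n → F) →ₗ[F] _)
      rw [h1] at h3
      rw [← h3, map_smul]
    have h4 : A.det ^ 2 * M.det = c ^ n * M.det := by
      have := congrArg Matrix.det hAM
      rw [Matrix.det_mul, Matrix.det_mul, Matrix.det_transpose, Matrix.det_smul, Fintype.card_fin] at this
      linear_combination this
    have hc : A.det ^ 2 = c ^ n := mul_right_cancel₀ hdet h4
    obtain ⟨k, rfl⟩ := hn
    by_cases hc0 : c = 0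
    · subst hc0; exact ⟨0, by simp⟩
    · refine ⟨A.det / c ^ k, ?_⟩
      have hck : c ^ k ≠ 0 := pow_ne_zero k hc0
      field_simp
      rw [hc]; ring

end Cfsg.Agent.S2625
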