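import Cfsg.Statements.S2627
import Cfsg.Agent.Helper44.OSumOmega

set_option autoImplicit false
open Cfsg

namespace Cfsg.Agent.S2627

open Matrix Cfsg.Agent.Helper44 Cfsg.Agent.Helper45

theorem result {F : Type*} [Field F] [Fintype F] {k l : ℕ} (h : Fintype.card F ≠ 2 ∨ (k ≠ 4 ∧ k + l ≠ 4)) (Q₁ : QuadraticForm F (Fin k → F)) (Q₂ : QuadraticForm F (Fin l → F)) (h₁ : (QuadraticMap.polarBilin Q₁).Nondegenerate) (h₂ : (QuadraticMap.polarBilin Q₂).Nondegenerate) (g₁ : ↥(Cfsg.isometryGroup F ⇑Q₁)) : (∃ g : ↥(Cfsg.isometryGroup F (fun v : Fin k ⊕ Fin l → F => Q₁ (v ∘ Sum.inl) + Q₂ (v ∘ Sum.inr))), g ∈ Cfsg.Omega F (fun v : Fin k ⊕ Fin l → F => Q₁ (v ∘ Sum.inl) + Q₂ (v ∘ Sum.inr)) ∧ ((g : Matrix.GeneralLinearGroup (Fin k ⊕ Fin l) F) : Matrix (Fin k ⊕ Fin l) (Fin k ⊕ Fin l) F) = Matrix.fromBlocks ((g₁ : Matrix.GeneralLinearGroup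 (Fin k) F) : Matrix (Fin k) (Fin k) F) 0 0 1) ↔ g₁ ∈ Cfsg.Omega F ⇑Q₁ := by
  constructor
  · rintro ⟨g, hg, hmat⟩
    have hgeq : g = embL Q₁ Q₂ g₁ := by
      apply Subtype.ext
      apply Units.ext
      exact hmat
    rw [hgeq] at hg
    exact mem_omega_of_embL Q₁ Q₂ h h₁ h₂ g₁ hg
  · intro hg₁
    exact ⟨embL Q₁ Q₂ g₁, embL_mem_omega Q₁ Q₂ g₁ hg₁, rfl⟩

end Cfsg.Agent.S2627
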