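import Cfsg.Statements.S2628
import Cfsg.Agent.Helper44.OSum

set_option autoImplicit false
open Cfsg

namespace Cfsg.Agent.S2628

open Matrix Cfsg.Agent.Helper44 Cfsg.Agent.Helper45

/-- the swap matrix on `Fin k ⊕ Fin k` -/
theorem swapMat_mul_self {F : Type*} [Field F] (k : ℕ) :
    (Matrix.fromBlocks (0 : Matrix (Fin k) (Fin k) F) (1 : Matrix (Fin k) (Fin k) F)
        (1 : Matrix (Fin k) (Fin k) F) (0 : Matrix (Fin k) (Fin k) F))
      * (Matrix.fromBlocks (0 : Matrix (Fin k) (Fin k) F) (1 : Matrix (Fin k) (Fin k) F)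
        (1 : Matrix (Fin k) (Fin k) F) (0 : Matrix (Fin k) (Fin k) F)) = 1 := by
  rw [Matrix.fromBlocks_multiply]
  simp [Matrix.fromBlocks_one]

theorem swapMat_mulVec {F : Type*} [Field F] (k : ℕ) (u : Fin k ⊕ Fin k → F) :
    (Matrix.fromBlocks (0 : Matrix (Fin k) (Fin k) F) (1 : Matrix (Fin k) (Fin k) F)
        (1 : Matrix (Fin k) (Fin k) F) (0 : Matrix (Fin k) (Fin k) F)) *ᵥ u
      = Sum.elim (u ∘ Sum.inr) (u ∘ Sum.inl) := by
  conv_lhs => rw [← Sum.elim_comp_inl_inr u]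
  rw [Matrix.fromBlocks_mulVec]
  simp

theorem result {F : Type*} [Field F] [Fintype F] {k : ℕ} (h : Fintype.card F ≠ 2 ∨ k ≠ 2) (Q : QuadraticForm F (Fin k → F)) (hQ : (QuadraticMap.polarBilin Q).Nondegenerate) (g : ↥(Cfsg.isometryGroup F ⇑Q)) : ∃ x : ↥(Cfsg.isometryGroup F (fun v : Fin k ⊕ Fin k → F => Q (v ∘ Sum.inl) + Q (v ∘ Sum.inr))), x ∈ Cfsg.Omega F (fun v : Fin k ⊕ Fin k → F => Q (v ∘ Sum.inl) + Q (v ∘ Sum.inr)) ∧ ((x : Matrix.GeneralLinearGroup (Fin k ⊕ Fin k) F) : Matrix (Fin k ⊕ Fin k) (Fin k ⊕ Fin k) F) = Matrix.fromBlocks ((g : Matrix.GeneralLinearGroup (Fin k) F) : Matrix (Fin k) (Fin k) F) 0 0 ((g : Matrix.GeneralLinearGroup (Fin k) F) : Matrix (Fin k) (Fin k) F) := by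
  classical
  have hnd : (QuadraticMap.polarBilin (sumQF Q Q)).Nondegenerate := sumQF_nondeg Q Q hQ hQ
  have hR : reflGroup (sumQF Q Q) = ⊤ := by
    apply reflGroup_eq_top_of (sumQF Q Q) hnd
    rcases h with h | h
    · left; exact exists_ne_zero_one h
    · right
      rw [Fintype.card_sum, Fintype.card_fin]
      omega
  -- the swap isometry
  let sG : GL (Fin k ⊕ Fin k) F :=
    ⟨Matrix.fromBlocks (0 : Matrix (Fin k) (Fin k) F) (1 : Matrix (Fin k) (Fin k) F)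
        (1 : Matrix (Fin k) (Fin k) F) (0 : Matrix (Fin k) (Fin k) F),
      Matrix.fromBlocks (0 : Matrix (Fin k) (Fin k) F) (1 : Matrix (Fin k) (Fin k) F)
        (1 : Matrix (Fin k) (Fin k) F) (0 : Matrix (Fin k) (Fin k) F),
      swapMat_mul_self k, swapMat_mul_self k⟩
  have hs : sG ∈ isometryGroup F ⇑(sumQF Q Q) := by
    rw [S2626.mem_isometryGroup]
    intro u
    have e : ((sG : GL (Fin k ⊕ Fin k) F) : Matrix (Fin k ⊕ Fin k) (Fin k ⊕ Fin k) F) *ᵥ u
        = Sum.elim (u ∘ Sum.inr) (u ∘ Sum.inl) := swapMat_mulVec k u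
    rw [e, sumQF_apply, sumQF_apply]
    simp only [Sum.elim_comp_inl, Sum.elim_comp_inr]
    exact add_comm _ _
  let s : ↥(isometryGroup F ⇑(sumQF Q Q)) := ⟨sG, hs⟩
  let a : ↥(isometryGroup F ⇑(sumQF Q Q)) := S2626.blockIso (⇑Q) (⇑Q) (g, 1)
  let b : ↥(isometryGroup F ⇑(sumQF Q Q)) := S2626.blockIso (⇑Q) (⇑Q) (1, g)
  have hsab : s * a = b * s := by
    apply Subtype.ext
    apply Units.ext
    show (Matrix.fromBlocks (0 : Matrix (Fin k) (Fin k) F) (1 : Matrix (Fin k) (Fin k) F)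
        (1 : Matrix (Fin k) (Fin k) F) (0 : Matrix (Fin k) (Fin k) F))
        * Matrix.fromBlocks ((g : GL (Fin k) F) : Matrix (Fin k) (Fin k) F)
          (0 : Matrix (Fin k) (Fin k) F) (0 : Matrix (Fin k) (Fin k) F)
          (1 : Matrix (Fin k) (Fin k) F)
      = Matrix.fromBlocks (1 : Matrix (Fin k) (Fin k) F) (0 : Matrix (Fin k) (Fin k) F)
          (0 : Matrix (Fin k) (Fin k) F) ((g : GL (Fin k) F) : Matrix (Fin k) (Fin k) F)
        * Matrix.fromBlocks (0 : Matrix (Fin k) (Fin k) F) (1 : Matrix (Fin k) (Fin k) F)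
        (1 : Matrix (Fin k) (Fin k) F) (0 : Matrix (Fin k) (Fin k) F)
    rw [Matrix.fromBlocks_multiply, Matrix.fromBlocks_multiply]
    simp
  have hab : Abelianization.of b = Abelianization.of a := by
    have h1 := congrArg (Abelianization.of : ↥(isometryGroup F ⇑(sumQF Q Q)) → _) hsab
    rw [map_mul, map_mul, mul_comm] at h1
    exact (mul_right_cancel h1).symm
  have hx : a * b ∈ Omega F ⇑(sumQF Q Q) := by
    apply mem_omega_of_abel
    rw [map_mul, hab]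
    exact abel_sq_eq_one (sumQF Q Q) hR a
  refine ⟨a * b, hx, ?_⟩
  show Matrix.fromBlocks ((g : GL (Fin k) F) : Matrix (Fin k) (Fin k) F)
        (0 : Matrix (Fin k) (Fin k) F) (0 : Matrix (Fin k) (Fin k) F)
        (1 : Matrix (Fin k) (Fin k) F)
      * Matrix.fromBlocks (1 : Matrix (Fin k) (Fin k) F) (0 : Matrix (Fin k) (Fin k) F)
        (0 : Matrix (Fin k) (Fin k) F) ((g : GL (Fin k) F) : Matrix (Fin k) (Fin k) F) = _
  rw [Matrix.fromBlocks_multiply]
  simp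

end Cfsg.Agent.S2628
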