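import Cfsg.Statements.S2629
import Cfsg.Agent.Helper44.OPlus

set_option autoImplicit false
open Cfsg

namespace Cfsg.Agent.S2629

open Matrix Cfsg.Agent.Helper44

/-- For the hyperbolic form Σ x_i y_i on F^(2m) over a finite field of odd order (m ≥ 1), an isometry g preserves the class of the maximal totally singular subspace U₀ = {y = 0} (that is, m − dim(U₀ ∩ gU₀) is even) if and only if det g = 1: the stabiliser of each of the two classes of maximal totally singular subspaces is SO. -/
theorem result {F : Type*} [Field F] [Fintype F] (h2 : (2 : F) ≠ 0) {m : ℕ} (hm : 1 ≤ m) (g : ↥(Cfsg.isometryGroup F (Cfsg.quadFormPlus m F))) : Even (m - Module.finrank F ↥(LinearMap.ker (LinearMap.funLeft F F (Sum.inr : Fin m → Fin m ⊕ Fin m)) ⊓ (LinearMap.ker (LinearMap.funLeft F F (Sum.inr : Fin m → Fin m ⊕ Fin m))).map (Matrix.mulVecLin ((g : Matrix.GeneralLinearGroup (Fin m ⊕ Fin m) F) : Matrix (Fin m ⊕ Fin m) (Fin m ⊕ Fin m) F)))) ↔ ((g : Matrix.GeneralLinearGroup (Fin m ⊕ Fin m) F) : Matrix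 (Fin m ⊕ Fin m) (Fin m ⊕ Fin m) F).det = 1 := by
  classical
  set G : Matrix (Fin m ⊕ Fin m) (Fin m ⊕ Fin m) F :=
    ((g : Matrix.GeneralLinearGroup (Fin m ⊕ Fin m) F) : Matrix (Fin m ⊕ Fin m) (Fin m ⊕ Fin m) F)
    with hGdef
  have hG : ∀ v, Cfsg.quadFormPlus m F (G *ᵥ v) = Cfsg.quadFormPlus m F v :=
    (mem_isometryGroup_iff F _ _).mp g.2
  have hdet : G.det ≠ 0 :=
    ((Matrix.isUnit_iff_isUnit_det _).mp (g : GL (Fin m ⊕ Fin m) F).isUnit).ne_zero
  set U₀ := LinearMap.ker (LinearMap.funLeft F F (Sum.inr : Fin m → Fin m ⊕ Fin m)) with hU₀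
  set C := G.toBlocks₂₁ with hC
  set k := Module.finrank F (LinearMap.ker (Matrix.mulVecLin C)) with hk
  have hmain := det_mul_pow_of_isometry m k G hG hdet rfl
  have hkm : k ≤ m := by
    have h1 := Submodule.finrank_le (LinearMap.ker (Matrix.mulVecLin C))
    rwa [Module.finrank_fin_fun] at h1
  have hfr : Module.finrank F ↥(U₀ ⊓ U₀.map (Matrix.mulVecLin G)) = k := by
    have hinj : Function.Injective ((Matrix.mulVecLin G) ∘ₗ (inlLin m F)) := by
      intro x y hxy
      have h1 : G *ᵥ (Sum.elim x 0) = G *ᵥ (Sum.elim y 0) := hxy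
      have h2 : G *ᵥ (Sum.elim x 0 - Sum.elim y 0) = 0 := by
        rw [Matrix.mulVec_sub, h1, sub_self]
      have h3 := Matrix.eq_zero_of_mulVec_eq_zero hdet h2
      funext a
      have h4 := congrFun h3 (Sum.inl a)
      simpa [sub_eq_zero] using h4
    have heq : U₀ ⊓ U₀.map (Matrix.mulVecLin G)
        = (LinearMap.ker (Matrix.mulVecLin C)).map ((Matrix.mulVecLin G) ∘ₗ (inlLin m F)) := by
      ext v
      simp only [Submodule.mem_inf, Submodule.mem_map, hU₀, LinearMap.mem_ker]
      constructor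
      · rintro ⟨hv, u, hu, rfl⟩
        have hu' : Sum.elim (u ∘ Sum.inl) 0 = u := by
          funext a
          cases a with
          | inl a => rfl
          | inr a => exact (congrFun hu a).symm
        refine ⟨u ∘ Sum.inl, ?_, ?_⟩
        · funext j
          rw [Matrix.mulVecLin_apply, toBlocks₂₁_mulVec, hu']
          exact congrFun hv j
        · show G *ᵥ Sum.elim (u ∘ Sum.inl) 0 = G *ᵥ u
          rw [hu']
      · rintro ⟨x, hx, rfl⟩
        refine ⟨?_, Sum.elim x 0, ?_, rfl⟩
        · funext j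
          show (G *ᵥ Sum.elim x 0) (Sum.inr j) = 0
          rw [← toBlocks₂₁_mulVec]; exact congrFun hx j
        · funext j; rfl
    rw [heq]
    exact (Submodule.equivMapOfInjective _ hinj _).finrank_eq.symm
  rw [hfr]
  have hdetG : G.det = (-1) ^ (m - k) := by
    have h1 : (-1 : F) ^ m = (-1) ^ (m - k) * (-1) ^ k := by
      rw [← pow_add, Nat.sub_add_cancel hkm]
    rw [h1] at hmain
    exact mul_right_cancel₀ (pow_ne_zero _ (neg_ne_zero.mpr one_ne_zero)) hmain
  rw [hdetG]
  constructor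
  · intro he; exact he.neg_one_pow
  · intro h
    by_contra hne
    have hodd : Odd (m - k) := Nat.not_even_iff_odd.mp hne
    rw [hodd.neg_one_pow] at h
    apply h2
    linear_combination -h

end Cfsg.Agent.S2629
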