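import Cfsg.Statements.S2631
import Cfsg.Agent.Helper44.OmegaStab2
import Cfsg.Agent.Helper44.OmegaPlus
import Cfsg.Agent.S2629
import Cfsg.Agent.S2630

set_option autoImplicit false
open Cfsg

namespace Cfsg.Agent.S2631

open Cfsg.Agent.Helper44 Cfsg.Agent.Helper45 Matrix

theorem main {F : Type*} [Field F] [Fintype F] {m : ℕ} (hm : 1 ≤ m) (h : Fintype.card F ≠ 2 ∨ m ≠ 2)
    (U W : Submodule F (Fin m ⊕ Fin m → F)) (hU : Module.finrank F U = m)
    (hW : Module.finrank F W = m) (hU0 : ∀ u ∈ U, (Helper43.plusQF m F) u = 0)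
    (hW0 : ∀ w ∈ W, (Helper43.plusQF m F) w = 0)
    (he : Even (m - Module.finrank F ↥(U ⊓ W))) :
    ∃ g : ↥(Cfsg.isometryGroup F ⇑(Helper43.plusQF m F)),
      g ∈ Cfsg.Omega F ⇑(Helper43.plusQF m F) ∧ mapSub (Helper43.plusQF m F) U g = W := by
  classical
  have hQ : (QuadraticMap.polarBilin (Helper43.plusQF m F)).Nondegenerate := plusQF_nondeg
  set U₀ : Submodule F (Fin m ⊕ Fin m → F) :=
    LinearMap.ker (LinearMap.funLeft F F (Sum.inr : Fin m → Fin m ⊕ Fin m)) with hU₀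
  have hU₀mem : ∀ u, u ∈ U₀ ↔ ∀ i, u (Sum.inr i) = 0 := by
    intro u
    rw [hU₀, LinearMap.mem_ker]
    constructor
    · intro hu i; exact congrFun hu i
    · intro hu; funext i; exact hu i
  have hU₀0 : ∀ u ∈ U₀, (Helper43.plusQF m F) u = 0 := by
    intro u hu
    show quadFormPlus m F u = 0
    simp [quadFormPlus, (hU₀mem u).mp hu]
  have hU₀fr : Module.finrank F ↥U₀ = m := by
    have hinj : Function.Injective (inlLin m F) := by
      intro x y hxy
      funext a
      have := congrFun hxy (Sum.inl a)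
      simpa [inlLin_apply] using this
    have hrange : U₀ = LinearMap.range (inlLin m F) := by
      ext u
      rw [hU₀mem, LinearMap.mem_range]
      constructor
      · intro hu
        refine ⟨u ∘ Sum.inl, ?_⟩
        funext a
        cases a with
        | inl a => rfl
        | inr a => exact (hu a).symm
      · rintro ⟨x, rfl⟩ i
        rfl
    rw [hrange, LinearMap.finrank_range_of_inj hinj, Module.finrank_fin_fun]
  obtain ⟨h₁, hh₁⟩ := exists_iso_map_sub (Helper43.plusQF m F) hQ U₀ U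
    (LinearEquiv.ofFinrankEq U₀ U (hU₀fr.trans hU.symm))
    (fun u => by rw [hU0 _ (Subtype.prop _), hU₀0 _ u.2])
  obtain ⟨k, hk⟩ := exists_iso_map_sub (Helper43.plusQF m F) hQ U W
    (LinearEquiv.ofFinrankEq U W (hU.trans hW.symm))
    (fun u => by rw [hW0 _ (Subtype.prop _), hU0 _ u.2])
  set g' := h₁⁻¹ * k * h₁ with hg'
  have e1 : mapSub (Helper43.plusQF m F) U h₁⁻¹ = U₀ := by
    rw [← hh₁, ← mapSub_mul, inv_mul_cancel, mapSub_one]
  have e2 : mapSub (Helper43.plusQF m F) U₀ g' = mapSub (Helper43.plusQF m F) W h₁⁻¹ := by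
    rw [hg', mapSub_mul, hh₁, mapSub_mul, hk]
  have e3 : U₀ ⊓ mapSub (Helper43.plusQF m F) U₀ g' = mapSub (Helper43.plusQF m F) (U ⊓ W) h₁⁻¹ := by
    rw [e2]
    conv_lhs => rw [← e1]
    exact (Submodule.map_inf _ (mv_injective (Helper43.plusQF m F) h₁⁻¹)).symm
  have e4 : Module.finrank F ↥(U₀ ⊓ mapSub (Helper43.plusQF m F) U₀ g')
      = Module.finrank F ↥(U ⊓ W) := by
    rw [e3, finrank_mapSub]
  have he' : Even (m - Module.finrank F ↥(U₀ ⊓ mapSub (Helper43.plusQF m F) U₀ g')) := by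
    rw [e4]; exact he
  by_cases h2 : (2 : F) = 0
  · haveI : CharP F 2 := CharTwo.of_one_ne_zero_of_two_eq_zero one_ne_zero h2
    have hg'Ω : g' ∈ Cfsg.Omega F ⇑(Helper43.plusQF m F) :=
      (Cfsg.Agent.S2630.result hm h g').mp he'
    have hN : (Cfsg.Omega F ⇑(Helper43.plusQF m F)).Normal := inferInstance
    have hkΩ : k ∈ Cfsg.Omega F ⇑(Helper43.plusQF m F) := by
      have : k = h₁ * g' * h₁⁻¹ := by rw [hg']; group
      rw [this]
      exact hN.conj_mem _ hg'Ω _
    exact ⟨k, hkΩ, hk⟩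
  · have hdet : ((g' : GL (Fin m ⊕ Fin m) F) : Matrix (Fin m ⊕ Fin m) (Fin m ⊕ Fin m) F).det = 1 :=
      (Cfsg.Agent.S2629.result h2 hm g').mp he'
    obtain ⟨ε, hε⟩ := FiniteField.exists_nonsquare (ringChar_ne_two h2)
    have hsp := spin_eq_of_det_eq_one (Helper43.plusQF m F) h2 hQ ε hε g' hdet
    have hconj : ∀ c : F, spin ⇑(Helper43.plusQF m F) c g' = spin ⇑(Helper43.plusQF m F) c k := by
      intro c
      rw [hg', map_mul, map_mul, map_inv, mul_comm, ← mul_assoc, mul_inv_cancel, one_mul]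
    rw [hconj, hconj] at hsp
    have hcard : 2 ≤ Fintype.card (Fin m ⊕ Fin m) := by
      rw [Fintype.card_sum, Fintype.card_fin]; omega
    rcases Int.units_eq_one_or (spin ⇑(Helper43.plusQF m F) 1 k) with hx | hx
    · exact ⟨k, (mem_omega_iff (Helper43.plusQF m F) h2 hQ hcard ε hε k).mpr
        ⟨hx, by rw [← hsp, hx]⟩, hk⟩
    · obtain ⟨s, hsU, hs1, hsε⟩ := exists_rot_stab (Helper43.plusQF m F) h2 hQ ε hε U hU0
        (by rw [hU]; exact hm)
      refine ⟨k * s, (mem_omega_iff (Helper43.plusQF m F) h2 hQ hcard ε hε _).mpr ⟨?_, ?_⟩, ?_⟩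
      · rw [map_mul, hx, hs1]; rfl
      · rw [map_mul, ← hsp, hx, hsε]; rfl
      · rw [mapSub_mul_of_stab (Helper43.plusQF m F) U k s hsU]; exact hk

/-- For the hyperbolic form Σ x_i y_i on F^(2m) over a finite field (m ≥ 1, excluding m = 2 over the field of two elements), Ω (the commutator subgroup of the orthogonal group) acts transitively on each of the two classes of maximal totally singular subspaces: if U and W are m-dimensional totally singular subspaces with m − dim(U ∩ W) even, some element of Ω carries U to W. -/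
theorem result {F : Type*} [Field F] [Fintype F] {m : ℕ} (hm : 1 ≤ m) (h : Fintype.card F ≠ 2 ∨ m ≠ 2) (U W : Submodule F (Fin m ⊕ Fin m → F)) (hU : Module.finrank F U = m) (hW : Module.finrank F W = m) (hU0 : ∀ u ∈ U, Cfsg.quadFormPlus m F u = 0) (hW0 : ∀ w ∈ W, Cfsg.quadFormPlus m F w = 0) (he : Even (m - Module.finrank F ↥(U ⊓ W))) : ∃ g : ↥(Cfsg.isometryGroup F (Cfsg.quadFormPlus m F)), g ∈ Cfsg.Omega F (Cfsg.quadFormPlus m F) ∧ U.map (Matrix.mulVecLin ((g : Matrix.GeneralLinearGroup (Fin m ⊕ Fin m) F) : Matrix (Fin m ⊕ Fin m) (Fin m ⊕ Fin m) F)) = W :=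
  main hm h U W hU hW hU0 hW0 he

end Cfsg.Agent.S2631
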