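import Cfsg.Statements.S2632
import Cfsg.Agent.Helper44.OmegaStab

set_option autoImplicit false
open Cfsg

namespace Cfsg.Agent.S2632

open Cfsg.Agent.Helper44 Cfsg.Agent.Helper45 Matrix

/-- Ω is transitive on non-degenerate subspaces of each isometry type: for a quadratic form Q on F^n, n ≥ 3, with non-degenerate polar form (F finite; excluding dimension 4 over the field of two elements), if U and W are subspaces on which the polar form is non-degenerate and there is a Q-preserving linear isomorphism U → W, then some element of Ω (the commutator subgroup of the orthogonal group) carries U to W. (In dimension 2 this fails: Ω can be {±1}, which fixes every line.) -/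
theorem result {F : Type*} [Field F] [Fintype F] {n : ℕ} (hn : 3 ≤ n) (h : Fintype.card F ≠ 2 ∨ n ≠ 4) (Q : QuadraticForm F (Fin n → F)) (hQ : (QuadraticMap.polarBilin Q).Nondegenerate) (U W : Submodule F (Fin n → F)) (hU : U ⊓ LinearMap.BilinForm.orthogonal (QuadraticMap.polarBilin Q) U = ⊥) (hW : W ⊓ LinearMap.BilinForm.orthogonal (QuadraticMap.polarBilin Q) W = ⊥) (e : U ≃ₗ[F] W) (he : ∀ u : U, Q (e u : Fin n → F) = Q (u : Fin n → F)) : ∃ g : ↥(Cfsg.isometryGroup F ⇑Q), g ∈ Cfsg.Omega F ⇑Q ∧ U.map (Matrix.mulVecLin ((g : Matrix.GeneralLinearGroup (Fin n) F) : Matrix (Fin n) (Fin n) F)) = W := by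
  have hex : (∃ t : F, t ≠ 0 ∧ t ≠ 1) ∨ Fintype.card (Fin n) ≠ 4 := by
    rcases h with h | h
    · exact Or.inl (exists_ne_zero_one h)
    · right; rw [Fintype.card_fin]; exact h
  obtain ⟨k₀, hk₀⟩ := exists_iso_map_sub Q hQ U W e he
  by_cases h2 : (2 : F) = 0
  · haveI : CharP F 2 := CharTwo.of_one_ne_zero_of_two_eq_zero one_ne_zero h2
    by_cases hU0 : U = ⊥
    · have hW0 : W = ⊥ := by
        apply Submodule.finrank_eq_zero.mp
        rw [← e.finrank_eq, hU0, finrank_bot]
      refine ⟨1, one_mem _, ?_⟩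
      rw [hU0, hW0, Submodule.map_bot]
    · have hexa : ∃ a ∈ U, Q a ≠ 0 := by
        by_contra hcon
        push Not at hcon
        apply hU0
        rw [eq_bot_iff, ← hU]
        intro x hx
        exact ⟨hx, (mem_orthogonal_iff' Q U x).mpr
          (fun y hy => polar_eq_zero_of_singular Q U hcon x y hx hy)⟩
      obtain ⟨a, haU, ha⟩ := hexa
      obtain ⟨g, hg, hgU⟩ := exists_omega_map_two Q hQ hex U k₀ a ha
        (fun x hx => mv_reflO_mem Q U a ha haU x hx)
      exact ⟨g, hg, hgU.trans hk₀⟩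
  · obtain ⟨ε, hε⟩ := FiniteField.exists_nonsquare (ringChar_ne_two h2)
    have hε0 : ε ≠ 0 := by
      rintro rfl
      exact hε ⟨0, by simp⟩
    have hcard : 2 ≤ Fintype.card (Fin n) := by rw [Fintype.card_fin]; omega
    have hsq1 : IsSquare (1 : F) := ⟨1, by ring⟩
    by_cases hdim : 2 ≤ Module.finrank F ↥U
    · obtain ⟨a, haU, hQa⟩ := exists_norm_in_sub Q h2 U hU hdim 1 one_ne_zero
      obtain ⟨b, hbU, hQb⟩ := exists_norm_in_sub Q h2 U hU hdim ε hε0
      have ha : Q a ≠ 0 := by rw [hQa]; exact one_ne_zero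
      have hb : Q b ≠ 0 := by rw [hQb]; exact hε0
      have hasq : IsSquare (Q a) := by rw [hQa]; exact hsq1
      have hbsq : ¬ IsSquare (Q b) := by rw [hQb]; exact hε
      obtain ⟨g, hg, hgU⟩ := exists_omega_map_odd Q h2 hQ hcard ε hε U k₀ (reflO Q a ha)
        (reflO Q b hb) (fun x hx => mv_reflO_mem Q U a ha haU x hx)
        (fun x hx => mv_reflO_mem Q U b hb hbU x hx)
        (spin_one_reflO_sq Q h2 a ha hasq) (spin_eps_reflO_sq Q h2 ε hε a ha hasq)
        (spin_one_reflO_nsq Q h2 b hb hbsq) (spin_eps_reflO_nsq Q h2 ε hε b hb hbsq)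
      exact ⟨g, hg, hgU.trans hk₀⟩
    · set X := LinearMap.BilinForm.orthogonal (QuadraticMap.polarBilin Q) U with hX
      have hsymm : (QuadraticMap.polarBilin Q).IsSymm := ⟨fun x y => QuadraticMap.polar_comm ⇑Q x y⟩
      have hXX : X ⊓ LinearMap.BilinForm.orthogonal (QuadraticMap.polarBilin Q) X = ⊥ := by
        rw [hX, LinearMap.BilinForm.orthogonal_orthogonal hQ hsymm.isRefl U, inf_comm]
        exact hU
      have hXdim : 2 ≤ Module.finrank F ↥X := by
        have h1 : Module.finrank F ↥X = Module.finrank F (Fin n → F) - Module.finrank F ↥U :=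
          LinearMap.BilinForm.finrank_orthogonal hQ U
        rw [Module.finrank_fintype_fun_eq_card, Fintype.card_fin] at h1
        omega
      obtain ⟨a, haX, hQa⟩ := exists_norm_in_sub Q h2 X hXX hXdim 1 one_ne_zero
      obtain ⟨b, hbX, hQb⟩ := exists_norm_in_sub Q h2 X hXX hXdim ε hε0
      have ha : Q a ≠ 0 := by rw [hQa]; exact one_ne_zero
      have hb : Q b ≠ 0 := by rw [hQb]; exact hε0
      have hasq : IsSquare (Q a) := by rw [hQa]; exact hsq1
      have hbsq : ¬ IsSquare (Q b) := by rw [hQb]; exact hε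
      obtain ⟨g, hg, hgU⟩ := exists_omega_map_odd Q h2 hQ hcard ε hε U k₀ (reflO Q a ha)
        (reflO Q b hb)
        (fun x hx => by
          rw [mv_reflO_of_orth Q U a ha ((mem_orthogonal_iff' Q U a).mp haX) x hx]; exact hx)
        (fun x hx => by
          rw [mv_reflO_of_orth Q U b hb ((mem_orthogonal_iff' Q U b).mp hbX) x hx]; exact hx)
        (spin_one_reflO_sq Q h2 a ha hasq) (spin_eps_reflO_sq Q h2 ε hε a ha hasq)
        (spin_one_reflO_nsq Q h2 b hb hbsq) (spin_eps_reflO_nsq Q h2 ε hε b hb hbsq)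
      exact ⟨g, hg, hgU.trans hk₀⟩

end Cfsg.Agent.S2632
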