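import Cfsg.Statements.S2633
import Cfsg.Agent.Helper44.OmegaStab

set_option autoImplicit false
open Cfsg

namespace Cfsg.Agent.S2633

open Cfsg.Agent.Helper44 Cfsg.Agent.Helper45 Matrix

/-- Ω is transitive on totally singular subspaces of each dimension less than half the dimension: for a quadratic form Q on F^n with non-degenerate polar form (F finite; excluding dimension 4 over the field of two elements), if U and W are subspaces of the same dimension k with 2k < n on which Q vanishes, then some element of Ω (the commutator subgroup of the orthogonal group) carries U to W. -/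
theorem result {F : Type*} [Field F] [Fintype F] {n : ℕ} (h : Fintype.card F ≠ 2 ∨ n ≠ 4) (Q : QuadraticForm F (Fin n → F)) (hQ : (QuadraticMap.polarBilin Q).Nondegenerate) (U W : Submodule F (Fin n → F)) {k : ℕ} (hk : 2 * k < n) (hU : Module.finrank F U = k) (hW : Module.finrank F W = k) (hU0 : ∀ u ∈ U, Q u = 0) (hW0 : ∀ w ∈ W, Q w = 0) : ∃ g : ↥(Cfsg.isometryGroup F ⇑Q), g ∈ Cfsg.Omega F ⇑Q ∧ U.map (Matrix.mulVecLin ((g : Matrix.GeneralLinearGroup (Fin n) F) : Matrix (Fin n) (Fin n) F)) = W := by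
  have hex : (∃ t : F, t ≠ 0 ∧ t ≠ 1) ∨ Fintype.card (Fin n) ≠ 4 := by
    rcases h with h | h
    · exact Or.inl (exists_ne_zero_one h)
    · right; rw [Fintype.card_fin]; exact h
  by_cases hk0 : k = 0
  · subst hk0
    have hU' : U = ⊥ := Submodule.finrank_eq_zero.mp hU
    have hW' : W = ⊥ := Submodule.finrank_eq_zero.mp hW
    refine ⟨1, one_mem _, ?_⟩
    rw [hU', hW', Submodule.map_bot]
  let e : U ≃ₗ[F] W := LinearEquiv.ofFinrankEq U W (hU.trans hW.symm)
  obtain ⟨k₀, hk₀⟩ := exists_iso_map_sub Q hQ U W e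
    (fun u => by rw [hW0 _ (e u).2, hU0 _ u.2])
  obtain ⟨a, haU, ha⟩ := exists_nonsingular_orth Q hQ U (by rw [hU, Fintype.card_fin]; exact hk)
  have hstab : ∀ x ∈ U, mv ⇑Q (reflO Q a ha) x ∈ U := fun x hx => by
    rw [mv_reflO_of_orth Q U a ha haU x hx]; exact hx
  by_cases h2 : (2 : F) = 0
  · haveI : CharP F 2 := CharTwo.of_one_ne_zero_of_two_eq_zero one_ne_zero h2
    obtain ⟨g, hg, hgU⟩ := exists_omega_map_two Q hQ hex U k₀ a ha hstab
    exact ⟨g, hg, hgU.trans hk₀⟩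
  · obtain ⟨ε, hε⟩ := FiniteField.exists_nonsquare (ringChar_ne_two h2)
    have hpos : 0 < Module.finrank F ↥U := by omega
    obtain ⟨⟨e₀, he₀U⟩, he₀ne⟩ := Module.finrank_pos_iff_exists_ne_zero.mp hpos
    have he₀0 : e₀ ≠ 0 := fun h => he₀ne (Subtype.ext h)
    obtain ⟨s₃, b, d, hbe, hse, hsfix, hs1, hsε⟩ :=
      exists_rot Q h2 hQ ε hε e₀ (hU0 e₀ he₀U) he₀0
    have hs₃ : ∀ x ∈ U, mv ⇑Q s₃ x ∈ U := by
      intro x hx
      set c := QuadraticMap.polar ⇑Q b x / QuadraticMap.polar ⇑Q b e₀ with hc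
      have hx' : x - c • e₀ ∈ U := U.sub_mem hx (U.smul_mem _ he₀U)
      have e1 : QuadraticMap.polar ⇑Q b (x - c • e₀) = 0 := by
        rw [QuadraticMap.polar_sub_right, QuadraticMap.polar_smul_right, smul_eq_mul, hc,
          div_mul_cancel₀ _ hbe, sub_self]
      have e2 : QuadraticMap.polar ⇑Q e₀ (x - c • e₀) = 0 :=
        polar_eq_zero_of_singular Q U hU0 e₀ _ he₀U hx'
      have e3 : x = c • e₀ + (x - c • e₀) := by abel
      rw [e3, mv_add, mv_smul, hse, hsfix _ e1 e2]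
      exact U.add_mem (U.smul_mem _ (U.smul_mem _ he₀U)) hx'
    have hcard : 2 ≤ Fintype.card (Fin n) := by rw [Fintype.card_fin]; omega
    have hstab' : ∀ x ∈ U, mv ⇑Q (reflO Q a ha * s₃) x ∈ U := fun x hx => by
      rw [mv_mul]; exact hstab _ (hs₃ x hx)
    by_cases hsq : IsSquare (Q a)
    · obtain ⟨g, hg, hgU⟩ := exists_omega_map_odd Q h2 hQ hcard ε hε U k₀ (reflO Q a ha)
        (reflO Q a ha * s₃) hstab hstab'
        (spin_one_reflO_sq Q h2 a ha hsq) (spin_eps_reflO_sq Q h2 ε hε a ha hsq)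
        (by rw [map_mul, spin_one_reflO_sq Q h2 a ha hsq, hs1]; rfl)
        (by rw [map_mul, spin_eps_reflO_sq Q h2 ε hε a ha hsq, hsε, one_mul])
      exact ⟨g, hg, hgU.trans hk₀⟩
    · obtain ⟨g, hg, hgU⟩ := exists_omega_map_odd Q h2 hQ hcard ε hε U k₀ (reflO Q a ha * s₃)
        (reflO Q a ha) hstab' hstab
        (by rw [map_mul, spin_one_reflO_nsq Q h2 a ha hsq, hs1, one_mul])
        (by rw [map_mul, spin_eps_reflO_nsq Q h2 ε hε a ha hsq, hsε]; rfl)
        (spin_one_reflO_nsq Q h2 a ha hsq) (spin_eps_reflO_nsq Q h2 ε hε a ha hsq)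
      exact ⟨g, hg, hgU.trans hk₀⟩

end Cfsg.Agent.S2633
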