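import Cfsg.Statements.S2634
import Cfsg.Agent.Helper44.OmegaTwo

set_option autoImplicit false
open Cfsg

namespace Cfsg.Agent.S2634

open Cfsg.Agent.Helper44 Cfsg.Agent.Helper45 Matrix

/-- Over a finite field of characteristic two, Ω (the commutator subgroup of the orthogonal group of a quadratic form Q on F^n with non-degenerate polar form; excluding dimension 4 over the field of two elements) acts transitively on the non-singular 1-spaces: for u, v with Q(u) ≠ 0 and Q(v) ≠ 0 some element of Ω carries the line through u to the line through v. -/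
theorem result {F : Type*} [Field F] [Fintype F] [CharP F 2] {n : ℕ} (h : Fintype.card F ≠ 2 ∨ n ≠ 4) (Q : QuadraticForm F (Fin n → F)) (hQ : (QuadraticMap.polarBilin Q).Nondegenerate) (u v : Fin n → F) (hu : Q u ≠ 0) (hv : Q v ≠ 0) : ∃ g : ↥(Cfsg.isometryGroup F ⇑Q), g ∈ Cfsg.Omega F ⇑Q ∧ (F ∙ ((g : Matrix.GeneralLinearGroup (Fin n) F) : Matrix (Fin n) (Fin n) F).mulVec u) = F ∙ v := by
  have hex : (∃ t : F, t ≠ 0 ∧ t ≠ 1) ∨ Fintype.card (Fin n) ≠ 4 := by
    rcases h with h | h
    · exact Or.inl (exists_ne_zero_one h)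
    · right; rw [Fintype.card_fin]; exact h
  obtain ⟨c, hc⟩ := FiniteField.isSquare_of_char_two (ringChar.eq F 2) (Q u / Q v)
  have hc0 : c ≠ 0 := by
    rintro rfl
    rw [mul_zero] at hc
    exact (div_ne_zero hu hv) hc
  have hcv : Q (c • v) = Q u := by
    rw [QuadraticMap.map_smul, smul_eq_mul, ← hc, div_mul_cancel₀ _ hv]
  have hcv0 : Q (c • v) ≠ 0 := by rw [hcv]; exact hu
  obtain ⟨k, hk⟩ := exists_iso_map_vec Q hQ u (c • v) hcv.symm (ne_zero_of_quad_ne_zero Q u hu)
    (ne_zero_of_quad_ne_zero Q _ hcv0)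
  rcases omega_dichotomy Q hQ hex u hu k with hk' | hk'
  · refine ⟨k, hk', ?_⟩
    show (F ∙ mv ⇑Q k u) = F ∙ v
    rw [hk]
    exact Submodule.span_singleton_smul_eq (IsUnit.mk0 c hc0) v
  · refine ⟨k * reflO Q u hu, hk', ?_⟩
    show (F ∙ mv ⇑Q (k * reflO Q u hu) u) = F ∙ v
    have h1 : mv ⇑Q (reflO Q u hu) u = (-1 : F) • u := by
      rw [mv_reflO, polar_self_eq]
      have : (Q u)⁻¹ * (2 * Q u) = 2 := by field_simp
      rw [this, neg_smul, one_smul, two_smul]
      abel
    rw [mv_mul, h1, mv_smul, hk, smul_smul]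
    exact Submodule.span_singleton_smul_eq (IsUnit.mk0 _ (mul_ne_zero (neg_ne_zero.mpr one_ne_zero) hc0)) v

end Cfsg.Agent.S2634
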