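import Cfsg.Statements.S2635
import Cfsg.Agent.Helper44.OmegaTwo

set_option autoImplicit false
open Cfsg

namespace Cfsg.Agent.S2635

open Cfsg.Agent.Helper44 Cfsg.Agent.Helper45 Matrix

/-- Over a finite field of characteristic two, for a quadratic form Q on F^n with non-degenerate polar form, n ≥ 2, other than dimension 4 over the field of two elements, Ω (the commutator subgroup of the orthogonal group) is exactly the subgroup generated by the products of two reflections (orthogonal transvections) x ↦ x − Q(v)⁻¹ f(x, v) v, Q(v) ≠ 0: the products of an even number of reflections. -/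
theorem result {F : Type*} [Field F] [Fintype F] [CharP F 2] {n : ℕ} (hn : 2 ≤ n) (h : Fintype.card F ≠ 2 ∨ n ≠ 4) (Q : QuadraticForm F (Fin n → F)) (hQ : (QuadraticMap.polarBilin Q).Nondegenerate) : Cfsg.Omega F ⇑Q = Subgroup.closure {g : ↥(Cfsg.isometryGroup F ⇑Q) | ∃ u v : Fin n → F, Q u ≠ 0 ∧ Q v ≠ 0 ∧ ((g : Matrix.GeneralLinearGroup (Fin n) F) : Matrix (Fin n) (Fin n) F) = Cfsg.reflectionMatrix ⇑Q u * Cfsg.reflectionMatrix ⇑Q v} := by
  have hex : (∃ t : F, t ≠ 0 ∧ t ≠ 1) ∨ Fintype.card (Fin n) ≠ 4 := by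
    rcases h with h | h
    · exact Or.inl (exists_ne_zero_one h)
    · right; rw [Fintype.card_fin]; exact h
  rw [omega_eq_pairGroup Q hQ hex, pairGroup]
  congr 1
  ext g
  constructor
  · rintro ⟨a, b, ha, hb, rfl⟩
    exact ⟨a, b, ha, hb, rfl⟩
  · rintro ⟨a, b, ha, hb, hg⟩
    refine ⟨a, b, ha, hb, ?_⟩
    apply Subtype.ext
    apply Units.ext
    rw [hg]
    rfl

end Cfsg.Agent.S2635
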