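import Cfsg.Statements.S2636

set_option autoImplicit false
open Cfsg

namespace Cfsg.Agent.S2636

open Matrix

/-- Hilbert 90 for a field automorphism of finite order. -/
theorem hilbert90 {F : Type*} [Field F] (σ : F ≃+* F) (r : ℕ) (hr : 0 < r) (hσ : orderOf σ = r)
    (c : F) (hN : ∏ i ∈ Finset.range r, (σ ^ i) c = 1) : ∃ d : F, d ≠ 0 ∧ σ d = c * d := by
  classical
  set a : ℕ → F := fun k => ∏ i ∈ Finset.range k, (σ ^ i) c with ha
  have ha0 : a 0 = 1 := by simp [ha]
  have har : a r = 1 := hN
  have hc0 : c ≠ 0 := by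
    intro h
    have : a r = 0 := by
      apply Finset.prod_eq_zero (Finset.mem_range.mpr hr)
      rw [pow_zero, RingAut.one_apply, h]
    rw [har] at this
    exact one_ne_zero this
  have hak : ∀ k, a k ≠ 0 := by
    intro k
    apply Finset.prod_ne_zero_iff.mpr
    intro i _
    exact (map_ne_zero _).mpr hc0
  have hstep : ∀ k, σ (a k) * c = a (k + 1) := by
    intro k
    simp only [ha]
    rw [Finset.prod_range_succ', map_prod, pow_zero, RingAut.one_apply]
    congr 1
    apply Finset.prod_congr rfl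
    intro i _
    rw [pow_succ', RingAut.mul_apply]
  set d : F → F := fun θ => ∑ k ∈ Finset.range r, (a k)⁻¹ * (σ ^ k) θ with hd
  have hσr : σ ^ r = 1 := by rw [← hσ]; exact pow_orderOf_eq_one σ
  have hdσ : ∀ θ, σ (d θ) = c * d θ := by
    intro θ
    simp only [hd]
    rw [map_sum, Finset.mul_sum]
    have e1 : ∀ k ∈ Finset.range r, σ ((a k)⁻¹ * (σ ^ k) θ) = c * ((a (k + 1))⁻¹ * (σ ^ (k + 1)) θ) := by
      intro k _
      rw [map_mul, map_inv₀, ← hstep k, pow_succ', RingAut.mul_apply]
      have h1 : σ (a k) ≠ 0 := (map_ne_zero _).mpr (hak k)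
      field_simp
    rw [Finset.sum_congr rfl e1, ← Finset.mul_sum, ← Finset.mul_sum]
    congr 1
    have e2 := Finset.sum_range_succ' (fun k => (a k)⁻¹ * (σ ^ k) θ) r
    have e3 := Finset.sum_range_succ (fun k => (a k)⁻¹ * (σ ^ k) θ) r
    rw [e3] at e2
    simp only [ha0, har, hσr, pow_zero, inv_one, RingAut.one_apply, one_mul] at e2
    exact (add_right_cancel e2).symm
  by_contra hcon
  push Not at hcon
  have hd0 : ∀ θ, d θ = 0 := by
    intro θ
    by_contra h
    exact hcon (d θ) h (hdσ θ)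
  have hLI : LinearIndependent F (fun k : Fin r => (((σ ^ (k : ℕ) : F ≃+* F) : F →* F) : F → F)) := by
    have h1 := linearIndependent_monoidHom F F
    have hinj : Function.Injective (fun k : Fin r => ((σ ^ (k : ℕ) : F ≃+* F) : F →* F)) := by
      intro i j hij
      have h2 : σ ^ (i : ℕ) = σ ^ (j : ℕ) := by
        ext x
        exact DFunLike.congr_fun hij x
      have h3 := pow_injOn_Iio_orderOf (x := σ) (by rw [hσ]; exact i.2) (by rw [hσ]; exact j.2) h2
      exact Fin.ext h3
    exact h1.comp _ hinj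
  have hsum : ∑ k : Fin r, (a k)⁻¹ • (((σ ^ (k : ℕ) : F ≃+* F) : F →* F) : F → F) = 0 := by
    funext θ
    rw [Finset.sum_apply]
    have := hd0 θ
    simp only [hd] at this
    rw [Finset.sum_range] at this
    simpa using this
  have := Fintype.linearIndependent_iff.mp hLI (fun k => (a k)⁻¹) hsum ⟨0, hr⟩
  simp [ha0] at this

theorem result {F : Type*} [Field F] [Fintype F] {q₀ r n : ℕ} (hr : r.Prime) (hn : 1 ≤ n) (hF : Fintype.card F = q₀ ^ r) (σ : F ≃+* F) (hσ : orderOf σ = r) : Nat.card {g : GL (Fin n) F // ∃ c : F, c ≠ 0 ∧ (g : Matrix (Fin n) (Fin n) F).map σ = c • (g : Matrix (Fin n) (Fin n) F)} = (q₀ ^ r - 1) / (q₀ - 1) * ∏ i : Fin n, (q₀ ^ n - q₀ ^ (i : ℕ)) := by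
  classical
  have hr0 : 0 < r := hr.pos
  set F₀ : Subfield F := FixedPoints.subfield (Subgroup.zpowers σ) F with hF₀
  have hmem : ∀ x : F, x ∈ F₀ ↔ σ x = x := by
    intro x
    constructor
    · intro hx
      exact hx ⟨σ, Subgroup.mem_zpowers σ⟩
    · intro hx m
      have h1 : Subgroup.zpowers σ ≤ MulAction.stabilizer (F ≃+* F) x := by
        rw [Subgroup.zpowers_le]
        exact hx
      exact h1 m.2
  -- cardinality of the fixed field
  have hcard₀ : Fintype.card F₀ = q₀ := by
    have h1 : Module.finrank F₀ F = r := by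
      have hfo : IsOfFinOrder σ := orderOf_pos_iff.mp (by rw [hσ]; exact hr0)
      haveI : Finite ↥(Subgroup.zpowers σ) := Finite.of_equiv _ (finEquivZPowers hfo)
      haveI : Fintype ↥(Subgroup.zpowers σ) := Fintype.ofFinite _
      rw [hF₀, FixedPoints.finrank_eq_card, Fintype.card_eq_nat_card, Nat.card_zpowers, hσ]
    have h2 := Module.card_eq_pow_finrank (K := F₀) (V := F)
    rw [h1, hF] at h2
    exact (Nat.pow_left_injective hr0.ne' h2).symm
  have hq₀ : 2 ≤ q₀ := by rw [← hcard₀]; exact Fintype.one_lt_card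
  set ι : F₀ →+* F := F₀.subtype with hι
  have hcomm : ∀ (d : Fˣ) (h : GL (Fin n) F₀),
      Commute (Matrix.GeneralLinearGroup.scalar (Fin n) d) (Matrix.GeneralLinearGroup.map ι h) :=
    fun d h => Matrix.GeneralLinearGroup.scalar_commute d _
  set μ : Fˣ × GL (Fin n) F₀ →* GL (Fin n) F :=
    MonoidHom.noncommCoprod (Matrix.GeneralLinearGroup.scalar (Fin n))
      (Matrix.GeneralLinearGroup.map ι) hcomm with hμ
  have hμapp : ∀ (d : Fˣ) (h : GL (Fin n) F₀) (i j : Fin n),
      ((μ (d, h) : GL (Fin n) F) : Matrix (Fin n) (Fin n) F) i j = (d : F) * ((h : Matrix (Fin n) (Fin n) F₀) i j : F) := by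
    intro d h i j
    rw [hμ, MonoidHom.noncommCoprod_apply, Units.val_mul, Matrix.GeneralLinearGroup.coe_scalar,
      Matrix.scalar_apply, Matrix.mul_apply]
    rw [Finset.sum_eq_single i]
    · rw [Matrix.diagonal_apply_eq, Matrix.GeneralLinearGroup.map_apply]; rfl
    · intro b _ hb
      rw [Matrix.diagonal_apply_ne _ (Ne.symm hb), zero_mul]
    · intro h; exact absurd (Finset.mem_univ i) h
  -- the set in question is the range of μ
  have hS : ∀ g : GL (Fin n) F, (∃ c : F, c ≠ 0 ∧ (g : Matrix (Fin n) (Fin n) F).map σ = c • (g : Matrix (Fin n) (Fin n) F)) ↔ g ∈ μ.range := by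
    intro g
    constructor
    · rintro ⟨c, hc, hg⟩
      have hgij : ∀ i j, σ ((g : Matrix (Fin n) (Fin n) F) i j) = c * (g : Matrix (Fin n) (Fin n) F) i j := by
        intro i j
        have := congrFun (congrFun hg i) j
        simpa using this
      -- norm of c is one
      have hpow : ∀ (k : ℕ) (i j : Fin n), (σ ^ k) ((g : Matrix (Fin n) (Fin n) F) i j)
          = (∏ l ∈ Finset.range k, (σ ^ l) c) * (g : Matrix (Fin n) (Fin n) F) i j := by
        intro k
        induction k with
        | zero => intro i j; simp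
        | succ k ih =>
          intro i j
          rw [pow_succ', RingAut.mul_apply, ih, map_mul, hgij, Finset.prod_range_succ', map_prod,
            pow_zero, RingAut.one_apply]
          have : ∏ l ∈ Finset.range k, σ ((σ ^ l) c) = ∏ l ∈ Finset.range k, (σ ^ (l + 1)) c := by
            apply Finset.prod_congr rfl
            intro l _
            rw [pow_succ', RingAut.mul_apply]
          rw [this]; ring
      have hgne : ∃ i j, (g : Matrix (Fin n) (Fin n) F) i j ≠ 0 := by
        by_contra hcon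
        push Not at hcon
        have h0 : (g : Matrix (Fin n) (Fin n) F) = 0 := by
          ext i j; exact hcon i j
        have h1 : ((g * g⁻¹ : GL (Fin n) F) : Matrix (Fin n) (Fin n) F) = 1 := by
          rw [mul_inv_cancel]; rfl
        rw [Units.val_mul, h0, Matrix.zero_mul] at h1
        have h2 := congrFun (congrFun h1 ⟨0, hn⟩) ⟨0, hn⟩
        simp at h2
      obtain ⟨i₀, j₀, hij₀⟩ := hgne
      have hN : ∏ l ∈ Finset.range r, (σ ^ l) c = 1 := by
        have h1 := hpow r i₀ j₀
        have hσr : σ ^ r = 1 := by rw [← hσ]; exact pow_orderOf_eq_one σ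
        rw [hσr, RingAut.one_apply] at h1
        have h2 : (∏ l ∈ Finset.range r, (σ ^ l) c - 1) * (g : Matrix (Fin n) (Fin n) F) i₀ j₀ = 0 := by
          linear_combination -h1
        have h3 := (mul_eq_zero.mp h2).resolve_right hij₀
        linear_combination h3
      obtain ⟨d, hd0, hd⟩ := hilbert90 σ r hr0 hσ c hN
      -- h = d⁻¹ g has entries in F₀
      have hent : ∀ i j, d⁻¹ * (g : Matrix (Fin n) (Fin n) F) i j ∈ F₀ := by
        intro i j
        rw [hmem, map_mul, map_inv₀, hd, hgij]
        field_simp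
      let M₀ : Matrix (Fin n) (Fin n) F₀ := fun i j => ⟨d⁻¹ * (g : Matrix (Fin n) (Fin n) F) i j, hent i j⟩
      have hM₀ : M₀.map ι = d⁻¹ • (g : Matrix (Fin n) (Fin n) F) := by
        ext i j
        rfl
      have hdet : IsUnit M₀.det := by
        have h1 : ι M₀.det = (M₀.map ι).det := by
          rw [← RingHom.mapMatrix_apply, ← RingHom.map_det]
        have h2 : (M₀.map ι).det ≠ 0 := by
          rw [hM₀, Matrix.det_smul]
          apply mul_ne_zero (pow_ne_zero _ (inv_ne_zero hd0))
          exact ((Matrix.isUnit_iff_isUnit_det _).mp g.isUnit).ne_zero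
        rw [isUnit_iff_ne_zero]
        intro h3
        rw [h3, map_zero] at h1
        exact h2 h1.symm
      refine ⟨(Units.mk0 d hd0, Matrix.GeneralLinearGroup.mk'' M₀ hdet), ?_⟩
      apply Units.ext
      ext i j
      rw [hμapp]
      show d * (d⁻¹ * (g : Matrix (Fin n) (Fin n) F) i j) = _
      field_simp
    · rintro ⟨⟨d, h⟩, rfl⟩
      refine ⟨σ d / d, div_ne_zero ((map_ne_zero _).mpr d.ne_zero) d.ne_zero, ?_⟩
      ext i j
      rw [Matrix.map_apply, Matrix.smul_apply, hμapp, map_mul, smul_eq_mul]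
      have h1 : σ ((h : Matrix (Fin n) (Fin n) F₀) i j : F) = ((h : Matrix (Fin n) (Fin n) F₀) i j : F) :=
        (hmem _).mp (SetLike.coe_mem _)
      rw [h1]
      have := d.ne_zero
      field_simp
  -- the kernel of μ
  let κ : F₀ˣ →* Fˣ × GL (Fin n) F₀ :=
    MonoidHom.prod ((Units.map ι.toMonoidHom).comp (MulEquiv.inv F₀ˣ).toMonoidHom)
      (Matrix.GeneralLinearGroup.scalar (Fin n))
  have hκinj : Function.Injective κ := by
    intro e e' hee
    have h1 := congrArg Prod.fst hee
    have h2 : (Units.map ι.toMonoidHom e⁻¹ : Fˣ) = Units.map ι.toMonoidHom e'⁻¹ := h1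
    have h3 := congrArg (fun u : Fˣ => (u : F)) h2
    simp only [Units.coe_map, MonoidHom.coe_coe, RingHom.toMonoidHom_eq_coe] at h3
    have h4 : (e⁻¹ : F₀ˣ) = e'⁻¹ := Units.ext (ι.injective h3)
    exact inv_injective h4
  have hκker : κ.range = μ.ker := by
    ext ⟨d, h⟩
    rw [MonoidHom.mem_ker]
    constructor
    · rintro ⟨e, he⟩
      have h1 : d = Units.map ι.toMonoidHom e⁻¹ := (congrArg Prod.fst he).symm
      have h2 : h = Matrix.GeneralLinearGroup.scalar (Fin n) e := (congrArg Prod.snd he).symm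
      apply Units.ext
      ext i j
      rw [hμapp, h1, h2]
      simp only [Units.coe_map, MonoidHom.coe_coe, RingHom.toMonoidHom_eq_coe,
        Matrix.GeneralLinearGroup.coe_scalar, Matrix.scalar_apply, Units.val_one]
      by_cases hij : i = j
      · subst hij
        rw [Matrix.diagonal_apply_eq, Matrix.one_apply_eq]
        have h3 : ι ((e⁻¹ : F₀ˣ) : F₀) * ((e : F₀) : F) = ι (((e⁻¹ : F₀ˣ) : F₀) * (e : F₀)) := by
          rw [map_mul]; rfl
        rw [h3, Units.inv_mul, map_one]
      · rw [Matrix.diagonal_apply_ne _ hij, Matrix.one_apply_ne hij]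
        simp
    · intro hk
      have hent : ∀ i j, (d : F) * ((h : Matrix (Fin n) (Fin n) F₀) i j : F) = if i = j then 1 else 0 := by
        intro i j
        rw [← hμapp, hk]
        simp [Matrix.one_apply]
      have h00 := hent ⟨0, hn⟩ ⟨0, hn⟩
      rw [if_pos rfl] at h00
      set e₀ : F₀ := (h : Matrix (Fin n) (Fin n) F₀) ⟨0, hn⟩ ⟨0, hn⟩ with he₀
      have he₀0 : e₀ ≠ 0 := by
        intro h0
        rw [h0] at h00
        simp at h00
      refine ⟨Units.mk0 e₀ he₀0, ?_⟩
      apply Prod.ext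
      · apply Units.ext
        show ι ((Units.mk0 e₀ he₀0)⁻¹ : F₀ˣ) = (d : F)
        rw [Units.val_inv_eq_inv_val, Units.val_mk0, map_inv₀]
        have : ι e₀ = (e₀ : F) := rfl
        rw [this]
        have he0F : (e₀ : F) ≠ 0 := fun h0 => he₀0 (Subtype.ext h0)
        rw [eq_comm, ← mul_eq_one_iff_eq_inv₀ he0F]
        exact h00
      · apply Units.ext
        ext i j
        show ((Matrix.scalar (Fin n) e₀) i j : F) = ((h : Matrix (Fin n) (Fin n) F₀) i j : F)
        rw [Matrix.scalar_apply]
        have hd := d.ne_zero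
        have h1 := hent i j
        by_cases hij : i = j
        · subst hij
          rw [Matrix.diagonal_apply_eq]
          rw [if_pos rfl] at h1
          have h2 : (d : F) * ((h : Matrix (Fin n) (Fin n) F₀) i i : F) = (d : F) * (e₀ : F) := by
            rw [h1, h00]
          exact (mul_left_cancel₀ hd h2).symm
        · rw [Matrix.diagonal_apply_ne _ hij]
          rw [if_neg hij] at h1
          rw [(mul_eq_zero.mp h1).resolve_left hd]; rfl
  have hkercard : Nat.card μ.ker = q₀ - 1 := by
    rw [← hκker, Nat.card_congr (MonoidHom.ofInjective hκinj).toEquiv.symm, Nat.card_units,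
      Nat.card_eq_fintype_card, hcard₀]
  have hrange : Nat.card μ.range * Nat.card μ.ker = Nat.card (Fˣ × GL (Fin n) F₀) := by
    rw [Subgroup.card_eq_card_quotient_mul_card_subgroup μ.ker,
      Nat.card_congr (QuotientGroup.quotientKerEquivRange μ).toEquiv]
  have hS' : Nat.card {g : GL (Fin n) F // ∃ c : F, c ≠ 0 ∧ (g : Matrix (Fin n) (Fin n) F).map σ = c • (g : Matrix (Fin n) (Fin n) F)} = Nat.card μ.range :=
    Nat.card_congr (Equiv.subtypeEquivRight hS)
  rw [hS']
  rw [hkercard, Nat.card_prod, Nat.card_units, Nat.card_eq_fintype_card (α := F), hF, Matrix.card_GL_field,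
    hcard₀] at hrange
  obtain ⟨t, ht⟩ : q₀ - 1 ∣ q₀ ^ r - 1 := by
    have := Nat.sub_dvd_pow_sub_pow (x := q₀) (y := 1) (n := r)
    rwa [one_pow] at this
  rw [ht, Nat.mul_div_cancel_left _ (by omega : 0 < q₀ - 1)]
  rw [ht] at hrange
  have h5 : Nat.card μ.range * (q₀ - 1) = (t * ∏ i : Fin n, (q₀ ^ n - q₀ ^ (i : ℕ))) * (q₀ - 1) := by
    rw [hrange]; ring
  exact Nat.eq_of_mul_eq_mul_right (by omega : 0 < q₀ - 1) h5

end Cfsg.Agent.S2636
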