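import Cfsg.Statements.S2637
import Cfsg.Agent.Helper44.SpOrd3

set_option autoImplicit false
open Cfsg

namespace Cfsg.Agent.S2637

open Cfsg.Agent.Helper44 Matrix

set_option maxHeartbeats 1600000 in
/-- the centraliser of `x` with `x² + x + 1 = 0` in `Sp_2m(F)` is in bijection with `GU_m(K)` -/
theorem card_centralizer {F K : Type*} [Field F] [Fintype F] [Field K] [Fintype K] [Algebra F K]
    {q : ℕ} (hF : Fintype.card F = q) (hK : Fintype.card K = q ^ 2) (hq : q % 3 = 2)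
    (ω : K) (hω : ω ^ 2 + ω + 1 = 0) (hωF : ∀ a : F, algebraMap F K a ≠ ω) {m : ℕ}
    (x : Matrix.symplecticGroup (Fin m) F)
    (hx : (x : Matrix (Fin m ⊕ Fin m) (Fin m ⊕ Fin m) F) * (x : Matrix (Fin m ⊕ Fin m) (Fin m ⊕ Fin m) F)
      + (x : Matrix (Fin m ⊕ Fin m) (Fin m ⊕ Fin m) F) + 1 = 0) :
    Nat.card ↥(Subgroup.centralizer ({x} : Set ↥(Matrix.symplecticGroup (Fin m) F))) =
      Nat.card ↥(Cfsg.GU m K q) := by
  classical
  obtain ⟨j, hj⟩ : ∃ j, q = 3 * j + 2 := ⟨q / 3, by omega⟩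
  obtain ⟨τ, hτ⟩ := exists_frob hF hK (by norm_num)
  obtain ⟨c₀, c₁, hz, h0, h1⟩ := exists_coords hF hK ω hωF
  set A := algebraMap F K with hA
  have hω3 : ω ^ 3 = 1 := by linear_combination (ω - 1) * hω
  have hωq : ω ^ q = ω ^ 2 := by
    rw [hj, pow_add, pow_mul, hω3, one_pow, one_mul]
  have hτA : ∀ r : F, τ (A r) = A r := by
    intro r; rw [hτ, algebraMap_pow_card hF]
  have hc₀ω : ∀ z, c₀ (ω * z) = -c₁ z := by
    intro z
    have e : ω * z = A (-(c₁ z)) + A (c₀ z - c₁ z) * ω := by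
      conv_lhs => rw [hz z]
      rw [map_neg, map_sub]
      linear_combination (A (c₁ z)) * hω
    rw [e, h0]
  have hc₁ω : ∀ z, c₁ (ω * z) = c₀ z - c₁ z := by
    intro z
    have e : ω * z = A (-(c₁ z)) + A (c₀ z - c₁ z) * ω := by
      conv_lhs => rw [hz z]
      rw [map_neg, map_sub]
      linear_combination (A (c₁ z)) * hω
    rw [e, h1]
  have hmul : ∀ z z' : K, z * z' ^ q = A (c₀ z * c₀ z' + c₁ z * c₁ z' - c₀ z * c₁ z')
      + A (c₁ z * c₀ z' - c₀ z * c₁ z') * ω := by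
    intro z z'
    have e1 : z' ^ q = A (c₀ z') + A (c₁ z') * ω ^ 2 := by
      rw [← hτ]
      conv_lhs => rw [hz z']
      rw [map_add, map_mul, hτA, hτA, hτ, hωq]
    rw [e1]
    conv_lhs => rw [hz z]
    simp only [map_add, map_sub, map_mul]
    linear_combination (A (c₀ z) * A (c₁ z') + A (c₁ z) * A (c₁ z') * (ω - 1)) * hω
  have hc₁mul : ∀ z z' : K, c₁ (z * z' ^ q) = c₁ z * c₀ z' - c₀ z * c₁ z' := by
    intro z z'
    rw [hmul, h1]
  have hN : ∀ t : F, ∃ a b : F, a ^ 2 - a * b + b ^ 2 = t := by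
    intro t
    obtain ⟨z, hzt⟩ := exists_norm_eq hF hK t
    refine ⟨c₀ z, c₁ z, ?_⟩
    have e1 : c₀ (z * z ^ q) = c₀ z * c₀ z + c₁ z * c₁ z - c₀ z * c₁ z := by
      rw [hmul, h0]
    have e2 : c₀ (z * z ^ q) = t := by
      rw [hzt]
      have := h0 t 0
      rw [map_zero, zero_mul, add_zero] at this
      exact this
    rw [← e2, e1]; ring
  have hc₀1 : c₀ 1 = 1 := by
    have := h0 1 0
    rw [map_zero, zero_mul, add_zero, map_one] at this
    exact this
  have hc₁ω1 : c₁ ω = 1 := by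
    have := h1 0 1
    rw [map_zero, zero_add, map_one, one_mul] at this
    exact this
  -- the form and the operator
  set xm : Matrix (Fin m ⊕ Fin m) (Fin m ⊕ Fin m) F := (x : Matrix (Fin m ⊕ Fin m) (Fin m ⊕ Fin m) F)
    with hxm
  let Bf : (Fin m ⊕ Fin m → F) →ₗ[F] (Fin m ⊕ Fin m → F) →ₗ[F] F :=
    Matrix.toLinearMap₂' F (Matrix.J (Fin m) F)
  have hBf : ∀ u v, Bf u v = u ⬝ᵥ (Matrix.J (Fin m) F *ᵥ v) := fun u v =>
    Matrix.toLinearMap₂'_apply' _ u v
  let Xl : (Fin m ⊕ Fin m → F) →ₗ[F] (Fin m ⊕ Fin m → F) := Matrix.toLin' xm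
  have hXl : ∀ v, Xl v = xm *ᵥ v := fun v => Matrix.toLin'_apply _ v
  have halt : ∀ v, Bf v v = 0 := by
    intro v
    rw [hBf, J_form]
    apply Finset.sum_eq_zero
    intro i _
    ring
  have hX : ∀ v, Xl (Xl v) + Xl v + v = 0 := by
    intro v
    rw [hXl, hXl]
    have := congrArg (fun M => M *ᵥ v) hx
    simp only [Matrix.add_mulVec, Matrix.one_mulVec, Matrix.zero_mulVec, ← Matrix.mulVec_mulVec]
      at this
    exact this
  have hBX : ∀ u v, Bf (Xl u) (Xl v) = Bf u v := by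
    intro u v
    rw [hBf, hBf, hXl, hXl]
    exact preserves_of_mem_symplectic xm x.2 u v
  have hnd : ∀ w ∈ (⊤ : Submodule F (Fin m ⊕ Fin m → F)), (∀ w' ∈ (⊤ : Submodule F (Fin m ⊕ Fin m → F)),
      Bf w w' = 0) → w = 0 := by
    intro w _ hw
    funext s
    rcases s with i | i
    · have := hw (Pi.single (Sum.inr i) 1) trivial
      rw [hBf, J_form] at this
      simpa [Pi.single_apply] using this
    · have := hw (Pi.single (Sum.inl i) 1) trivial
      rw [hBf, J_form] at this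
      simpa [Pi.single_apply] using this
  obtain ⟨k, b, -, hb0, hb1, hk⟩ := exists_ord3_basis Bf Xl halt hX hBX
    (three_ne_zero_of_card hF hq) hN _ ⊤ rfl (fun _ _ => trivial) hnd
  have hkm : k = m := by
    rw [finrank_top, Module.finrank_fintype_fun_eq_card, Fintype.card_sum, Fintype.card_fin] at hk
    omega
  subst hkm
  have hanti : ∀ u v, Bf u v = -Bf v u := by
    intro u v
    have h := halt (u + v)
    simp only [map_add, LinearMap.add_apply, halt] at h
    linear_combination h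
  have hb2 : ∀ i j, Bf (Xl (b i)) (b j) = if i = j then -1 else 0 := by
    intro i j
    rw [hanti, hb1]
    by_cases h : i = j
    · rw [if_pos h, if_pos h.symm]
    · rw [if_neg h, if_neg (Ne.symm h), neg_zero]
  have hb3 : ∀ i j, Bf (Xl (b i)) (Xl (b j)) = 0 := by
    intro i j
    rw [hBX, hb0]
  have hXX : ∀ v, Xl (Xl v) = -Xl v - v := by
    intro v
    have h1 := hX v
    rw [← sub_eq_zero, ← h1]; abel
  -- the identification
  let Ψ : (Fin k → K) →ₗ[F] (Fin k ⊕ Fin k → F) :=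
    ∑ i, ((c₀ ∘ₗ LinearMap.proj i).smulRight (b i) + (c₁ ∘ₗ LinearMap.proj i).smulRight (Xl (b i)))
  have hΨ : ∀ c, Ψ c = ∑ i, (c₀ (c i) • b i + c₁ (c i) • Xl (b i)) := by
    intro c
    simp only [Ψ, LinearMap.sum_apply, LinearMap.add_apply, LinearMap.smulRight_apply,
      LinearMap.comp_apply, LinearMap.proj_apply]
  have hΨb : ∀ c j, Bf (Ψ c) (b j) = -c₁ (c j) := by
    intro c j
    rw [hΨ]
    simp only [map_sum, LinearMap.sum_apply, map_add, map_smul, LinearMap.add_apply,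
      LinearMap.smul_apply, smul_eq_mul, hb0, hb2, mul_zero, zero_add, mul_ite, mul_neg, mul_one,
      Finset.sum_ite_eq', Finset.mem_univ, if_true]
  have hΨXb : ∀ c j, Bf (Ψ c) (Xl (b j)) = c₀ (c j) := by
    intro c j
    rw [hΨ]
    simp only [map_sum, LinearMap.sum_apply, map_add, map_smul, LinearMap.add_apply,
      LinearMap.smul_apply, smul_eq_mul, hb1, hb3, mul_zero, add_zero, mul_ite, mul_one,
      Finset.sum_ite_eq', Finset.mem_univ, if_true]
  have hΨB : ∀ c c', Bf (Ψ c) (Ψ c') = -c₁ (Cfsg.hermForm k K q c c') := by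
    intro c c'
    conv_lhs => rw [hΨ c']
    simp only [map_sum, map_add, map_smul, smul_eq_mul, hΨb, hΨXb, Cfsg.hermForm, hc₁mul]
    rw [← Finset.sum_neg_distrib]
    apply Finset.sum_congr rfl
    intro i _
    ring
  have hΨω : ∀ c : Fin k → K, Ψ (ω • c) = Xl (Ψ c) := by
    intro c
    rw [hΨ, hΨ, map_sum]
    apply Finset.sum_congr rfl
    intro i _
    rw [Pi.smul_apply, smul_eq_mul, hc₀ω, hc₁ω, map_add, map_smul, map_smul, hXX]
    simp only [neg_smul, sub_smul, smul_sub, smul_neg]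
    abel
  have hinj : Function.Injective Ψ := by
    rw [injective_iff_map_eq_zero]
    intro c hc
    funext i
    have e0 := hΨXb c i
    have e1 := hΨb c i
    rw [hc, map_zero, LinearMap.zero_apply] at e0 e1
    have e0' : c₀ (c i) = 0 := e0.symm
    have e1' : c₁ (c i) = 0 := by linear_combination e1
    show c i = 0
    rw [hz (c i), e0', e1', map_zero, zero_mul, add_zero]
  haveI : Module.Finite F K := Module.Finite.of_finite
  have hfr : Module.finrank F (Fin k → K) = Module.finrank F (Fin k ⊕ Fin k → F) := by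
    rw [Module.finrank_pi_fintype, Module.finrank_pi, Fintype.card_sum, Fintype.card_fin,
      finrank_eq_two hF hK]
    simp [mul_two]
  set Ψ' : (Fin k → K) ≃ₗ[F] (Fin k ⊕ Fin k → F) := Ψ.linearEquivOfInjective hinj hfr with hΨ'
  have hΨ'app : ∀ v, Ψ' v = Ψ v := fun v => LinearMap.linearEquivOfInjective_apply hinj hfr v
  -- matrices are determined by their action
  have hext : ∀ M N : Matrix (Fin k ⊕ Fin k) (Fin k ⊕ Fin k) F, (∀ c, M *ᵥ Ψ' c = N *ᵥ Ψ' c) → M = N := by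
    intro M N h
    apply Matrix.toLin'.injective
    refine LinearMap.ext fun w => ?_
    obtain ⟨c, rfl⟩ := Ψ'.surjective w
    rw [Matrix.toLin'_apply, Matrix.toLin'_apply, h]
  have hΨ'ω : ∀ c : Fin k → K, xm *ᵥ Ψ' c = Ψ' (ω • c) := by
    intro c
    rw [hΨ'app, hΨ'app, hΨω, hXl]
  -- forward map
  have hfwd1 : ∀ G : ↥(Cfsg.GU k K q),
      resHom Ψ' ((G : GL (Fin k) K) : Matrix (Fin k) (Fin k) K) ∈ Matrix.symplecticGroup (Fin k) F := by
    intro G
    apply mem_symplectic_of_preserves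
    intro U W
    obtain ⟨u, rfl⟩ := Ψ'.surjective U
    obtain ⟨w, rfl⟩ := Ψ'.surjective W
    rw [resHom_mulVec, resHom_mulVec, ← hBf, ← hBf, hΨ'app, hΨ'app, hΨ'app, hΨ'app, hΨB, hΨB]
    have hg := G.2 u w
    simp only [Units.coeHom_apply] at hg
    rw [hg]
  have hfwd2 : ∀ G : ↥(Cfsg.GU k K q),
      xm * resHom Ψ' ((G : GL (Fin k) K) : Matrix (Fin k) (Fin k) K)
        = resHom Ψ' ((G : GL (Fin k) K) : Matrix (Fin k) (Fin k) K) * xm := by
    intro G
    apply hext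
    intro c
    rw [← Matrix.mulVec_mulVec, ← Matrix.mulVec_mulVec, resHom_mulVec, hΨ'ω, hΨ'ω, resHom_mulVec,
      Matrix.mulVec_smul]
  let φ : ↥(Cfsg.GU k K q) → ↥(Subgroup.centralizer ({x} : Set ↥(Matrix.symplecticGroup (Fin k) F))) :=
    fun G => ⟨⟨resHom Ψ' ((G : GL (Fin k) K) : Matrix (Fin k) (Fin k) K), hfwd1 G⟩, by
      rw [Subgroup.mem_centralizer_iff]
      intro y hy
      rw [Set.mem_singleton_iff] at hy
      subst hy
      apply Subtype.ext
      exact hfwd2 G⟩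
  have hφ : ∀ G, (((φ G : ↥(Subgroup.centralizer ({x} : Set ↥(Matrix.symplecticGroup (Fin k) F))))
      : ↥(Matrix.symplecticGroup (Fin k) F)) : Matrix (Fin k ⊕ Fin k) (Fin k ⊕ Fin k) F)
      = resHom Ψ' ((G : GL (Fin k) K) : Matrix (Fin k) (Fin k) K) := fun G => rfl
  -- backward: a commuting matrix comes from a `K`-matrix
  have hback : ∀ hm : Matrix (Fin k ⊕ Fin k) (Fin k ⊕ Fin k) F, xm * hm = hm * xm →
      ∃ G : Matrix (Fin k) (Fin k) K, resHom Ψ' G = hm := by
    intro hm hcomm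
    let L : (Fin k → K) →ₗ[F] (Fin k → K) :=
      (Ψ'.symm : (Fin k ⊕ Fin k → F) →ₗ[F] (Fin k → K)) ∘ₗ Matrix.toLin' hm ∘ₗ
        (Ψ' : (Fin k → K) →ₗ[F] (Fin k ⊕ Fin k → F))
    have hL : ∀ c, L c = Ψ'.symm (hm *ᵥ Ψ' c) := fun c => by
      simp only [L, LinearMap.comp_apply, LinearEquiv.coe_coe, Matrix.toLin'_apply]
    have hLω : ∀ c, L (ω • c) = ω • L c := by
      intro c
      rw [hL, hL]
      apply Ψ'.injective
      rw [LinearEquiv.apply_symm_apply, ← hΨ'ω, ← hΨ'ω, LinearEquiv.apply_symm_apply,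
        Matrix.mulVec_mulVec, Matrix.mulVec_mulVec, hcomm]
    have hsm : ∀ (z : K) (c : Fin k → K), z • c = c₀ z • c + c₁ z • (ω • c) := by
      intro z c
      funext i
      simp only [Pi.add_apply, Pi.smul_apply, smul_eq_mul]
      rw [Algebra.smul_def, Algebra.smul_def]
      conv_lhs => rw [hz z]
      ring
    let LK : (Fin k → K) →ₗ[K] (Fin k → K) :=
      { toFun := L
        map_add' := L.map_add
        map_smul' := by
          intro z c
          rw [RingHom.id_apply, hsm z c, map_add, map_smul, map_smul, hLω, ← hsm] }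
    have hLK : ∀ c, LK c = L c := fun c => rfl
    refine ⟨LinearMap.toMatrix' LK, ?_⟩
    apply hext
    intro c
    rw [resHom_mulVec, ← Matrix.toLin'_apply, Matrix.toLin'_toMatrix', hLK, hL,
      LinearEquiv.apply_symm_apply]
  have hinjφ : Function.Injective φ := by
    intro G G' hGG
    have h2 : resHom Ψ' ((G : GL (Fin k) K) : Matrix (Fin k) (Fin k) K)
        = resHom Ψ' ((G' : GL (Fin k) K) : Matrix (Fin k) (Fin k) K) := by
      rw [← hφ, ← hφ, hGG]
    exact Subtype.ext (Units.ext (resHom_injective Ψ' h2))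
  have hsurjφ : Function.Surjective φ := by
    intro h
    have hc := h.2
    rw [Subgroup.mem_centralizer_iff] at hc
    have hc1 : x * (h : ↥(Matrix.symplecticGroup (Fin k) F)) = (h : ↥(Matrix.symplecticGroup (Fin k) F)) * x :=
      hc x rfl
    set hm : Matrix (Fin k ⊕ Fin k) (Fin k ⊕ Fin k) F :=
      ((h : ↥(Matrix.symplecticGroup (Fin k) F)) : Matrix (Fin k ⊕ Fin k) (Fin k ⊕ Fin k) F) with hhm
    set hm' : Matrix (Fin k ⊕ Fin k) (Fin k ⊕ Fin k) F :=
      (((h : ↥(Matrix.symplecticGroup (Fin k) F))⁻¹ : ↥(Matrix.symplecticGroup (Fin k) F))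
        : Matrix (Fin k ⊕ Fin k) (Fin k ⊕ Fin k) F) with hhm'
    have hcm : xm * hm = hm * xm := congrArg Subtype.val hc1
    have hmm' : hm * hm' = 1 := by
      have : (h : ↥(Matrix.symplecticGroup (Fin k) F)) * (h : ↥(Matrix.symplecticGroup (Fin k) F))⁻¹ = 1 :=
        mul_inv_cancel _
      exact congrArg Subtype.val this
    have hm'm : hm' * hm = 1 := by
      have : (h : ↥(Matrix.symplecticGroup (Fin k) F))⁻¹ * (h : ↥(Matrix.symplecticGroup (Fin k) F)) = 1 :=
        inv_mul_cancel _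
      exact congrArg Subtype.val this
    have hcm' : xm * hm' = hm' * xm := by
      calc xm * hm' = hm' * (hm * xm) * hm' := by
            rw [← Matrix.mul_assoc, hm'm, Matrix.one_mul]
        _ = hm' * (xm * hm) * hm' := by rw [hcm]
        _ = hm' * xm := by
            rw [Matrix.mul_assoc, Matrix.mul_assoc, hmm', Matrix.mul_one]
    obtain ⟨G, hG⟩ := hback hm hcm
    obtain ⟨G', hG'⟩ := hback hm' hcm'
    have hGG' : G * G' = 1 := by
      apply resHom_injective Ψ'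
      rw [map_mul, hG, hG', hmm', map_one]
    have hG'G : G' * G = 1 := by
      apply resHom_injective Ψ'
      rw [map_mul, hG, hG', hm'm, map_one]
    let Gu : GL (Fin k) K := ⟨G, G', hGG', hG'G⟩
    have hGu : Gu ∈ Cfsg.GU k K q := by
      intro u w
      simp only [Units.coeHom_apply]
      show Cfsg.hermForm k K q (G *ᵥ u) (G *ᵥ w) = Cfsg.hermForm k K q u w
      have hpres : ∀ u w : Fin k → K,
          c₁ (Cfsg.hermForm k K q (G *ᵥ u) (G *ᵥ w)) = c₁ (Cfsg.hermForm k K q u w) := by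
        intro u w
        have e1 := hΨB (G *ᵥ u) (G *ᵥ w)
        have e2 := hΨB u w
        rw [← hΨ'app, ← hΨ'app, ← resHom_mulVec, ← resHom_mulVec, hG, hBf] at e1
        have e3 := preserves_of_mem_symplectic hm (h : ↥(Matrix.symplecticGroup (Fin k) F)).2
          (Ψ' u) (Ψ' w)
        rw [e3, ← hBf, hΨ'app, hΨ'app, e2] at e1
        exact neg_injective e1.symm
      have hsmul : ∀ (l : K) (u w : Fin k → K),
          Cfsg.hermForm k K q (l • u) w = l * Cfsg.hermForm k K q u w := by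
        intro l u w
        simp only [Cfsg.hermForm, Pi.smul_apply, smul_eq_mul, Finset.mul_sum, mul_assoc]
      by_contra hne
      set d := Cfsg.hermForm k K q (G *ᵥ u) (G *ᵥ w) - Cfsg.hermForm k K q u w with hd
      have hd0 : d ≠ 0 := sub_ne_zero.mpr hne
      have e := hpres ((ω * d⁻¹) • u) w
      rw [Matrix.mulVec_smul, hsmul, hsmul, ← sub_eq_zero, ← map_sub, ← mul_sub, ← hd,
        mul_assoc, inv_mul_cancel₀ hd0, mul_one, hc₁ω1] at e
      exact one_ne_zero e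
    refine ⟨⟨Gu, hGu⟩, ?_⟩
    apply Subtype.ext
    apply Subtype.ext
    rw [hφ]
    exact hG
  exact (Nat.card_congr (Equiv.ofBijective φ ⟨hinjφ, hsurjφ⟩)).symm

/-- Centraliser of a fixed-point-free element of order three in Sp_2m(q) when q ≡ 2 (mod 3): if x ∈ Sp_2m(F) (|F| = q, m ≥ 1) satisfies x³ = 1 and x − 1 is invertible, then its centraliser in Sp_2m(F) has the order of the unitary group GU_m(q), namely q^(m(m−1)/2) Π_(i=1)^m (q^i − (−1)^i) (x lies in the centre of a subgroup GU_m(q) of Sp_2m(q)). -/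
theorem result {F : Type*} [Field F] [Fintype F] {q : ℕ} (hF : Fintype.card F = q) (hq : q % 3 = 2) {m : ℕ} (hm : 1 ≤ m) (x : Matrix.symplecticGroup (Fin m) F) (hx3 : x ^ 3 = 1) (hfpf : IsUnit ((x : Matrix (Fin m ⊕ Fin m) (Fin m ⊕ Fin m) F) - 1)) : (Nat.card ↥(Subgroup.centralizer ({x} : Set ↥(Matrix.symplecticGroup (Fin m) F))) : ℤ) = (q : ℤ) ^ (m * (m - 1) / 2) * ∏ i : Fin m, ((q : ℤ) ^ ((i : ℕ) + 1) - (-1) ^ ((i : ℕ) + 1)) := by
  classical
  obtain ⟨K, _, _, _, ω, hK, hω, hωF⟩ := exists_cubic_ext hF hq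
  have hx3' : (x : Matrix (Fin m ⊕ Fin m) (Fin m ⊕ Fin m) F) ^ 3 = 1 := by
    have := congrArg (fun y : ↥(Matrix.symplecticGroup (Fin m) F) =>
      (y : Matrix (Fin m ⊕ Fin m) (Fin m ⊕ Fin m) F)) hx3
    simpa using this
  have hx : (x : Matrix (Fin m ⊕ Fin m) (Fin m ⊕ Fin m) F) * (x : Matrix (Fin m ⊕ Fin m) (Fin m ⊕ Fin m) F)
      + (x : Matrix (Fin m ⊕ Fin m) (Fin m ⊕ Fin m) F) + 1 = 0 := by
    obtain ⟨u, hu⟩ := hfpf
    have h1 : ((x : Matrix (Fin m ⊕ Fin m) (Fin m ⊕ Fin m) F) - 1) *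
        ((x : Matrix (Fin m ⊕ Fin m) (Fin m ⊕ Fin m) F) * (x : Matrix (Fin m ⊕ Fin m) (Fin m ⊕ Fin m) F)
          + (x : Matrix (Fin m ⊕ Fin m) (Fin m ⊕ Fin m) F) + 1) = 0 := by
      have : ((x : Matrix (Fin m ⊕ Fin m) (Fin m ⊕ Fin m) F) - 1) *
        ((x : Matrix (Fin m ⊕ Fin m) (Fin m ⊕ Fin m) F) * (x : Matrix (Fin m ⊕ Fin m) (Fin m ⊕ Fin m) F)
          + (x : Matrix (Fin m ⊕ Fin m) (Fin m ⊕ Fin m) F) + 1)
          = (x : Matrix (Fin m ⊕ Fin m) (Fin m ⊕ Fin m) F) ^ 3 - 1 := by noncomm_ring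
      rw [this, hx3', sub_self]
    rw [← hu] at h1
    have h2 := congrArg (fun M => ((u⁻¹ : (Matrix (Fin m ⊕ Fin m) (Fin m ⊕ Fin m) F)ˣ) :
      Matrix (Fin m ⊕ Fin m) (Fin m ⊕ Fin m) F) * M) h1
    simp only [← Matrix.mul_assoc, Units.inv_mul, Matrix.one_mul, Matrix.mul_zero] at h2
    exact h2
  rw [card_centralizer hF hK hq ω hω hωF x hx, card_GU hK m]

end Cfsg.Agent.S2637
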