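import Cfsg.Statements.S2638

set_option autoImplicit false
open Cfsg

namespace Cfsg.Agent.S2638

open Polynomial Matrix

/-- An irreducible factor of `X^r - 1` other than `X - 1` has degree divisible by the order of
`q` modulo `r`. -/
theorem natDegree_of_irreducible {F : Type*} [Field F] [Fintype F] {q r : ℕ}
    (hF : Fintype.card F = q) (hr : r.Prime) (π : F[X]) (hπ : Irreducible π)
    (hdvd : π ∣ (X ^ r - 1 : F[X])) (hne : ¬ π ∣ (X - 1 : F[X])) :
    orderOf (q : ZMod r) ∣ π.natDegree := by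
  classical
  haveI : Fact (Irreducible π) := ⟨hπ⟩
  have hπ0 : π ≠ 0 := hπ.ne_zero
  set ζ : AdjoinRoot π := AdjoinRoot.root π with hζ
  have h1 : ζ ^ r = 1 := by
    have : AdjoinRoot.mk π (X ^ r - 1) = 0 := AdjoinRoot.mk_eq_zero.mpr hdvd
    rw [map_sub, map_pow, AdjoinRoot.mk_X, map_one] at this
    exact sub_eq_zero.mp this
  have h2 : ζ ≠ 1 := by
    intro h
    apply hne
    rw [← AdjoinRoot.mk_eq_zero, map_sub, AdjoinRoot.mk_X, map_one, ← hζ, h, sub_self]
  have h3 : orderOf ζ = r := by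
    haveI : Fact r.Prime := ⟨hr⟩
    exact orderOf_eq_prime h1 h2
  haveI : Module.Finite F (AdjoinRoot π) := (AdjoinRoot.powerBasis hπ0).finite
  haveI : Finite (AdjoinRoot π) := Module.finite_of_finite F
  haveI : Fintype (AdjoinRoot π) := Fintype.ofFinite _
  have hcard : Fintype.card (AdjoinRoot π) = q ^ π.natDegree := by
    rw [Module.card_eq_pow_finrank (K := F) (V := AdjoinRoot π), hF,
      (AdjoinRoot.powerBasis hπ0).finrank, AdjoinRoot.powerBasis_dim]
  have hζ0 : ζ ≠ 0 := by
    intro h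
    rw [h, zero_pow hr.ne_zero] at h1
    exact zero_ne_one h1
  have h4 : ζ ^ (q ^ π.natDegree - 1) = 1 := by
    rw [← hcard]; exact FiniteField.pow_card_sub_one_eq_one ζ hζ0
  have h5 : r ∣ q ^ π.natDegree - 1 := by
    rw [← h3]; exact orderOf_dvd_of_pow_eq_one h4
  apply orderOf_dvd_of_pow_eq_one
  have hq1 : 1 ≤ q ^ π.natDegree := Nat.one_le_pow _ _ (by rw [← hF]; exact Fintype.card_pos)
  have h6 : ((q ^ π.natDegree - 1 : ℕ) : ZMod r) = 0 := (ZMod.natCast_eq_zero_iff _ _).mpr h5
  rw [Nat.cast_sub hq1, Nat.cast_pow, Nat.cast_one] at h6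
  exact sub_eq_zero.mp h6

theorem result {F : Type*} [Field F] [Fintype F] {p q : ℕ} [Fact p.Prime] [CharP F p] (hF : Fintype.card F = q) {n r : ℕ} (hn : 1 ≤ n) (hr : r.Prime) (hrp : r ≠ p) (hi : orderOf (q : ZMod r) = n) (x : GL (Fin n) F) (hx : orderOf x = r) : IsCyclic ↥(Subgroup.centralizer ({x} : Set (GL (Fin n) F))) ∧ Nat.card ↥(Subgroup.centralizer ({x} : Set (GL (Fin n) F))) = q ^ n - 1 := by
  classical
  have hp : p.Prime := Fact.out
  haveI : Nonempty (Fin n) := ⟨⟨0, hn⟩⟩
  set M : Matrix (Fin n) (Fin n) F := (x : Matrix (Fin n) (Fin n) F) with hM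
  have hMr : M ^ r = 1 := by
    rw [hM, ← Units.val_pow_eq_pow_val, ← hx, pow_orderOf_eq_one]; rfl
  have hM1 : M ≠ 1 := by
    intro h
    have h1 : x = 1 := Units.ext h
    rw [h1, orderOf_one] at hx
    exact hr.one_lt.ne hx
  have hrF : (r : F) ≠ 0 := by
    intro h
    have h1 := (CharP.cast_eq_zero_iff F p r).mp h
    exact hrp ((Nat.prime_dvd_prime_iff_eq hp hr).mp h1).symm
  set μ := minpoly F M with hμ
  have hint : IsIntegral F M := Matrix.isIntegral M
  have hμm : μ.Monic := minpoly.monic hint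
  have hμ0 : μ ≠ 0 := hμm.ne_zero
  have hμdvd : μ ∣ (X ^ r - 1 : F[X]) := by
    apply minpoly.dvd
    rw [map_sub, map_pow, aeval_X, map_one, hMr, sub_self]
  have hμdeg : μ.natDegree ≤ n := by
    have h1 := Matrix.minpoly_dvd_charpoly M
    have h2 := Polynomial.natDegree_le_of_dvd h1 (Matrix.charpoly_monic M).ne_zero
    rw [Matrix.charpoly_natDegree_eq_dim, Fintype.card_fin] at h2
    exact h2
  have hsep : (X ^ r - 1 : F[X]).Separable := by
    have := Polynomial.separable_X_pow_sub_C (1 : F) hrF one_ne_zero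
    simpa using this
  have hμsq : Squarefree μ := (hsep.of_dvd hμdvd).squarefree
  have hμnu : ¬ IsUnit μ := minpoly.not_isUnit F M
  have hX1 : Irreducible (X - 1 : F[X]) := by
    have := Polynomial.irreducible_X_sub_C (1 : F)
    simpa using this
  -- there is an irreducible factor π of μ with ¬ π ∣ X − 1
  have hex : ∃ π : F[X], Irreducible π ∧ π ∣ μ ∧ ¬ π ∣ (X - 1 : F[X]) := by
    by_contra hcon
    push Not at hcon
    obtain ⟨π, hπ, hπμ⟩ := WfDvdMonoid.exists_irreducible_factor hμnu hμ0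
    have h1 := hcon π hπ hπμ
    have hass : Associated π (X - 1 : F[X]) := hπ.associated_of_dvd hX1 h1
    obtain ⟨s, hs⟩ : (X - 1 : F[X]) ∣ μ := hass.symm.dvd.trans hπμ
    by_cases hsu : IsUnit s
    · apply hM1
      have h2 : aeval M μ = 0 := minpoly.aeval F M
      rw [hs, map_mul, map_sub, aeval_X, map_one] at h2
      obtain ⟨u, hu⟩ := hsu
      have h3 : (M - 1) * aeval M s * aeval M (↑u⁻¹ : F[X]) = 0 := by rw [h2, zero_mul]
      rw [mul_assoc, ← map_mul, ← hu, Units.mul_inv, map_one, mul_one] at h3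
      exact sub_eq_zero.mp h3
    · have hs0 : s ≠ 0 := by
        rintro rfl
        rw [mul_zero] at hs
        exact hμ0 hs
      obtain ⟨π', hπ', hπ's⟩ := WfDvdMonoid.exists_irreducible_factor hsu hs0
      have h2 := hcon π' hπ' (hπ's.trans ⟨X - 1, by rw [hs, mul_comm]⟩)
      have hass' : Associated π' (X - 1 : F[X]) := hπ'.associated_of_dvd hX1 h2
      have h3 : (X - 1 : F[X]) ∣ s := hass'.symm.dvd.trans hπ's
      have h4 : (X - 1 : F[X]) * (X - 1) ∣ μ := by rw [hs]; exact mul_dvd_mul_left _ h3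
      exact hX1.not_isUnit (hμsq _ h4)
  obtain ⟨π, hπ, hπμ, hπne⟩ := hex
  have hnd : n ∣ π.natDegree := by
    rw [← hi]; exact natDegree_of_irreducible hF hr π hπ (hπμ.trans hμdvd) hπne
  have hπdeg : 0 < π.natDegree := hπ.natDegree_pos
  have hπle : π.natDegree ≤ μ.natDegree := Polynomial.natDegree_le_of_dvd hπμ hμ0
  have hπn : π.natDegree = n := le_antisymm (hπle.trans hμdeg) (Nat.le_of_dvd hπdeg hnd)
  have hμn : μ.natDegree = n := le_antisymm hμdeg (hπn ▸ hπle)
  have hμirr : Irreducible μ := by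
    obtain ⟨s, hs⟩ := hπμ
    have hs0 : s ≠ 0 := by
      rintro rfl
      rw [mul_zero] at hs
      exact hμ0 hs
    have h1 : μ.natDegree = π.natDegree + s.natDegree := by
      rw [hs, natDegree_mul hπ.ne_zero hs0]
    have h2 : s.natDegree = 0 := by omega
    have h3 : IsUnit s := by
      rw [Polynomial.isUnit_iff_degree_eq_zero, Polynomial.degree_eq_natDegree hs0, h2]
      rfl
    rw [hs]
    exact (associated_mul_unit_right π s h3).irreducible hπ
  haveI : Fact (Irreducible μ) := ⟨hμirr⟩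
  have hI : ∀ a : F[X], a ∈ Ideal.span {μ} → aeval M a = 0 := by
    intro a ha
    obtain ⟨b, rfl⟩ := Ideal.mem_span_singleton.mp ha
    rw [map_mul, minpoly.aeval, zero_mul]
  let φ : AdjoinRoot μ →ₐ[F] Matrix (Fin n) (Fin n) F :=
    Ideal.Quotient.liftₐ (Ideal.span {μ}) (aeval M) hI
  have hφmk : ∀ f : F[X], φ (AdjoinRoot.mk μ f) = aeval M f := fun f => rfl
  haveI : Module.Finite F (AdjoinRoot μ) := (AdjoinRoot.powerBasis hμ0).finite
  haveI : Finite (AdjoinRoot μ) := Module.finite_of_finite F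
  haveI : Fintype (AdjoinRoot μ) := Fintype.ofFinite _
  have hfr : Module.finrank F (AdjoinRoot μ) = n := by
    rw [(AdjoinRoot.powerBasis hμ0).finrank, AdjoinRoot.powerBasis_dim, hμn]
  have hcard : Fintype.card (AdjoinRoot μ) = q ^ n := by
    rw [Module.card_eq_pow_finrank (K := F) (V := AdjoinRoot μ), hF, hfr]
  let v₀ : Fin n → F := Pi.single ⟨0, hn⟩ 1
  have hv₀ : v₀ ≠ 0 := by
    intro h
    have := congrFun h ⟨0, hn⟩
    simp [v₀] at this
  let L : AdjoinRoot μ →ₗ[F] (Fin n → F) :=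
    { toFun := fun a => φ a *ᵥ v₀
      map_add' := fun a b => by rw [map_add, Matrix.add_mulVec]
      map_smul' := fun c a => by rw [map_smul, Matrix.smul_mulVec]; rfl }
  have hLapp : ∀ a, L a = φ a *ᵥ v₀ := fun a => rfl
  have hLinj : Function.Injective L := by
    rw [← LinearMap.ker_eq_bot, LinearMap.ker_eq_bot']
    intro a ha
    by_contra ha0
    apply hv₀
    have h1 : φ a⁻¹ *ᵥ (φ a *ᵥ v₀) = v₀ := by
      rw [Matrix.mulVec_mulVec, ← map_mul, inv_mul_cancel₀ ha0, map_one, Matrix.one_mulVec]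
    rw [← h1, ← hLapp, ha, Matrix.mulVec_zero]
  have hLsurj : Function.Surjective L := by
    have h1 : Module.finrank F (AdjoinRoot μ) = Module.finrank F (Fin n → F) := by
      rw [hfr, Module.finrank_fin_fun]
    exact (LinearMap.injective_iff_surjective_of_finrank_eq_finrank h1).mp hLinj
  have hcomm : ∀ (B : Matrix (Fin n) (Fin n) F), B * M = M * B → ∀ a : AdjoinRoot μ,
      B * φ a = φ a * B := by
    intro B hB a
    obtain ⟨f, rfl⟩ := AdjoinRoot.mk_surjective a
    rw [hφmk]
    have h1 : aeval M f ∈ Algebra.adjoin F {M} := Polynomial.aeval_mem_adjoin_singleton F M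
    have h2 : Algebra.adjoin F {M} ≤ Subalgebra.centralizer F {B} := by
      apply Algebra.adjoin_le
      intro y hy
      rw [Set.mem_singleton_iff] at hy
      subst hy
      intro z hz
      rw [Set.mem_singleton_iff] at hz
      subst hz
      exact hB
    exact h2 h1 B (Set.mem_singleton B)
  let ψ : (AdjoinRoot μ)ˣ →* GL (Fin n) F := Units.map (φ : AdjoinRoot μ →* Matrix (Fin n) (Fin n) F)
  have hψinj : Function.Injective ψ := by
    intro u u' huu'
    have h1 : φ (u : AdjoinRoot μ) = φ (u' : AdjoinRoot μ) := congrArg Units.val huu'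
    exact Units.ext (φ.toRingHom.injective h1)
  have hrange : ψ.range = Subgroup.centralizer ({x} : Set (GL (Fin n) F)) := by
    ext g
    rw [Subgroup.mem_centralizer_iff]
    constructor
    · rintro ⟨u, rfl⟩ y hy
      rw [Set.mem_singleton_iff] at hy
      subst hy
      apply Units.ext
      show M * φ u = φ u * M
      have hMφ : M = φ (AdjoinRoot.root μ) := by
        rw [← AdjoinRoot.mk_X, hφmk, aeval_X]
      rw [hMφ, ← map_mul, ← map_mul, mul_comm]
    · intro hg
      have hgx : (g : Matrix (Fin n) (Fin n) F) * M = M * g := by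
        have := hg x (Set.mem_singleton x)
        exact (congrArg Units.val this).symm
      obtain ⟨b, hb⟩ := hLsurj ((g : Matrix (Fin n) (Fin n) F) *ᵥ v₀)
      rw [hLapp] at hb
      have hgb : (g : Matrix (Fin n) (Fin n) F) = φ b := by
        apply Matrix.toLin'.injective
        apply LinearMap.ext
        intro w
        obtain ⟨a, rfl⟩ := hLsurj w
        rw [Matrix.toLin'_apply, Matrix.toLin'_apply, hLapp]
        rw [Matrix.mulVec_mulVec, Matrix.mulVec_mulVec, hcomm _ hgx a, ← Matrix.mulVec_mulVec,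
          ← hb, Matrix.mulVec_mulVec, ← map_mul, ← map_mul, mul_comm]
      have hb0 : b ≠ 0 := by
        rintro rfl
        rw [map_zero] at hgb
        exact g.ne_zero hgb
      refine ⟨Units.mk0 b hb0, ?_⟩
      apply Units.ext
      exact hgb.symm
  rw [← hrange]
  constructor
  · exact isCyclic_of_surjective ψ.rangeRestrict ψ.rangeRestrict_surjective
  · rw [Nat.card_congr (MonoidHom.ofInjective hψinj).toEquiv.symm, Nat.card_units,
      Nat.card_eq_fintype_card, hcard]

end Cfsg.Agent.S2638
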