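import Cfsg.Statements.S2639
import Cfsg.Agent.Helper44.FieldExt

set_option autoImplicit false
open Cfsg

namespace Cfsg.Agent.S2639

open Cfsg.Agent.Helper44 Matrix

theorem result {K F : Type*} [Field K] [Fintype K] [Field F] [Fintype F] {q : ℕ} (hK : Fintype.card K = q ^ 2) (hF : Fintype.card F = q) (m : ℕ) : ∃ φ : ↥(Cfsg.GU m K q) →* ↥(Matrix.symplecticGroup (Fin m) F), Function.Injective φ := by
  classical
  obtain ⟨i⟩ := exists_ringHom_of_card_pow hF hK
  letI : Algebra F K := i.toAlgebra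
  obtain ⟨τ, hτ⟩ := exists_frob hF hK (by norm_num)
  obtain ⟨ω, hω⟩ := exists_not_mem_range hF hK
  obtain ⟨c₀, c₁, hz, h0, h1⟩ := exists_coords hF hK ω hω
  have hlam : ω - ω ^ q ≠ 0 := by
    intro h
    obtain ⟨a, ha⟩ := mem_range_of_pow_eq hF ω (sub_eq_zero.mp h).symm
    exact hω a ha
  let Ψ : (Fin m → K) ≃ₗ[F] (Fin m ⊕ Fin m → F) :=
    { toFun := fun v => Sum.elim (fun i => c₀ (v i)) (fun i => c₁ (v i))
      map_add' := by
        intro u v
        ext (i | i) <;> simp
      map_smul' := by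
        intro r v
        ext (i | i) <;> simp
      invFun := fun w i => algebraMap F K (w (Sum.inl i)) + algebraMap F K (w (Sum.inr i)) * ω
      left_inv := by
        intro v
        ext i
        exact (hz (v i)).symm
      right_inv := by
        intro w
        ext (i | i)
        · exact h0 _ _
        · exact h1 _ _ }
  have hΨl : ∀ (v : Fin m → K) (i : Fin m), Ψ v (Sum.inl i) = c₀ (v i) := fun v i => rfl
  have hΨr : ∀ (v : Fin m → K) (i : Fin m), Ψ v (Sum.inr i) = c₁ (v i) := fun v i => rfl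
  have hpow : ∀ z : K, z ^ q = algebraMap F K (c₀ z) + algebraMap F K (c₁ z) * ω ^ q := by
    intro z
    conv_lhs => rw [hz z]
    rw [← hτ, map_add, map_mul, hτ, hτ, hτ, algebraMap_pow_card hF, algebraMap_pow_card hF]
  have key : ∀ u v : Fin m → K,
      algebraMap F K ((Ψ u) ⬝ᵥ (Matrix.J (Fin m) F *ᵥ (Ψ v))) * (ω - ω ^ q)
        = hermForm m K q u v - hermForm m K q v u := by
    intro u v
    rw [J_form, hermForm, hermForm, ← Finset.sum_sub_distrib, map_sum, Finset.sum_mul]
    apply Finset.sum_congr rfl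
    intro i _
    rw [hΨl, hΨl, hΨr, hΨr, hpow (u i), hpow (v i)]
    conv_rhs => rw [hz (u i), hz (v i)]
    simp only [map_sub, map_mul, h0, h1]
    ring
  have hmem : ∀ g : ↥(Cfsg.GU m K q),
      ((resHom Ψ).comp ((Units.coeHom _).comp (Cfsg.GU m K q).subtype)) g
        ∈ Matrix.symplecticGroup (Fin m) F := by
    intro g
    apply mem_symplectic_of_preserves
    intro U V
    obtain ⟨u, rfl⟩ := Ψ.surjective U
    obtain ⟨v, rfl⟩ := Ψ.surjective V
    show ((resHom Ψ ((g : GL (Fin m) K) : Matrix (Fin m) (Fin m) K)) *ᵥ Ψ u) ⬝ᵥ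
        (Matrix.J (Fin m) F *ᵥ ((resHom Ψ ((g : GL (Fin m) K) : Matrix (Fin m) (Fin m) K)) *ᵥ Ψ v))
        = _
    rw [resHom_mulVec, resHom_mulVec]
    apply (algebraMap F K).injective
    apply mul_right_cancel₀ hlam
    rw [key, key]
    have hg := g.2
    have e1 := hg u v
    have e2 := hg v u
    simp only [Units.coeHom_apply] at e1 e2
    rw [e1, e2]
  refine ⟨((resHom Ψ).comp ((Units.coeHom _).comp (Cfsg.GU m K q).subtype)).codRestrict _ hmem, ?_⟩
  intro g h hgh
  have h2 := congrArg Subtype.val hgh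
  exact Subtype.ext (Units.ext (resHom_injective Ψ h2))

end Cfsg.Agent.S2639
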