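import Cfsg.Statements.S2640
import Cfsg.Agent.Helper44.Herm

set_option autoImplicit false
open Cfsg

namespace Cfsg.Agent.S2640

open Cfsg.Agent.Helper44 Matrix

theorem result {K F : Type*} [Field K] [Fintype K] [Field F] [Fintype F] {q : ℕ} (hK : Fintype.card K = q ^ 2) (hF : Fintype.card F = q) (m : ℕ) (hm : Even m) : ∃ φ : ↥(Cfsg.GU m K q) →* ↥(Cfsg.isometryGroup F (Cfsg.quadFormPlus m F)), Function.Injective φ := by
  classical
  obtain ⟨i⟩ := exists_ringHom_of_card_pow hF hK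
  letI : Algebra F K := i.toAlgebra
  obtain ⟨k, rfl⟩ := hm
  obtain ⟨P, hP⟩ := exists_pairMap (F := F) (K := K) hF hK k
  let e : Fin k ⊕ Fin k ≃ Fin (k + k) := finSumFinEquiv
  let Ψ : (Fin (k + k) → K) →ₗ[F] (Fin (k + k) ⊕ Fin (k + k) → F) :=
    (LinearMap.funLeft F F (Equiv.sumCongr e e).symm) ∘ₗ P ∘ₗ (LinearMap.funLeft F K e)
  have hΨ : ∀ (v : Fin (k + k) → K) (x : Fin (k + k) ⊕ Fin (k + k)),
      Ψ v x = P (v ∘ e) ((Equiv.sumCongr e e).symm x) := fun v x => rfl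
  apply exists_embedding_of_identity hF hK (k + k) (Cfsg.quadFormPlus (k + k) F)
    (by simp [Cfsg.quadFormPlus]) (by simp; ring) Ψ
  intro v
  rw [Cfsg.quadFormPlus, ← Equiv.sum_comp e, ← Equiv.sum_comp e (fun j => v j * v j ^ q)]
  have := hP (v ∘ e)
  simp only [Function.comp_apply] at this
  rw [← this]
  congr 1
  apply Finset.sum_congr rfl
  intro s _
  rw [hΨ, hΨ]
  simp

end Cfsg.Agent.S2640
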