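import Cfsg.Statements.S2641
import Cfsg.Agent.Helper44.Herm

set_option autoImplicit false
open Cfsg

namespace Cfsg.Agent.S2641

open Cfsg.Agent.Helper44 Matrix

theorem main {K F : Type*} [Field K] [Fintype K] [Field F] [Fintype F] {q : ℕ} (hK : Fintype.card K = q ^ 2) (hF : Fintype.card F = q) (k : ℕ) (a b : F) (hab : ∀ z₁ z₂ : F, z₁ ^ 2 + a * z₁ * z₂ + b * z₂ ^ 2 = 0 → z₁ = 0 ∧ z₂ = 0) : ∃ φ : ↥(Cfsg.GU (k + k + 1) K q) →* ↥(Cfsg.isometryGroup F (Cfsg.quadFormMinus (k + k) F a b)), Function.Injective φ := by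
  classical
  obtain ⟨i⟩ := exists_ringHom_of_card_pow hF hK
  letI : Algebra F K := i.toAlgebra
  obtain ⟨τ, hτ⟩ := exists_frob hF hK (by norm_num)
  have hτA : ∀ r : F, τ (algebraMap F K r) = algebraMap F K r := by
    intro r; rw [hτ, algebraMap_pow_card hF]
  obtain ⟨r, hrF, hrsum, hrprod⟩ := exists_root_pair (K := K) hF hK a b hab
  rw [← hτ] at hrsum hrprod
  set ρ : K := -r with hρ
  have hρF : ∀ x : F, algebraMap F K x ≠ ρ := by
    intro x hx
    apply hrF (-x)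
    rw [map_neg, hx, hρ, neg_neg]
  obtain ⟨d₀, d₁, hz, -, -⟩ := exists_coords hF hK ρ hρF
  obtain ⟨P, hP⟩ := exists_pairMap (F := F) (K := K) hF hK k
  set A := algebraMap F K with hA
  let e : Fin k ⊕ Fin k ≃ Fin (k + k) := finSumFinEquiv
  let emb : Fin k ⊕ Fin k → Fin (k + k + 1) := fun s => Fin.castSucc (e s)
  let d : Fin 2 → (K →ₗ[F] F) := ![d₀, d₁]
  let Ψ : (Fin (k + k + 1) → K) →ₗ[F] ((Fin (k + k) ⊕ Fin (k + k)) ⊕ Fin 2 → F) :=
    LinearMap.pi (fun s => Sum.elim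
      (fun x => (LinearMap.proj ((Equiv.sumCongr e e).symm x)) ∘ₗ P ∘ₗ (LinearMap.funLeft F K emb))
      (fun j => (d j) ∘ₗ (LinearMap.proj (R := F) (φ := fun _ : Fin (k + k + 1) => K) (Fin.last (k + k)))) s)
  have hΨl : ∀ (v : Fin (k + k + 1) → K) (x : Fin (k + k) ⊕ Fin (k + k)),
      Ψ v (Sum.inl x) = P (v ∘ emb) ((Equiv.sumCongr e e).symm x) := fun v x => rfl
  have hΨ0 : ∀ (v : Fin (k + k + 1) → K), Ψ v (Sum.inr 0) = d₀ (v (Fin.last (k + k))) :=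
    fun v => rfl
  have hΨ1 : ∀ (v : Fin (k + k + 1) → K), Ψ v (Sum.inr 1) = d₁ (v (Fin.last (k + k))) :=
    fun v => rfl
  apply exists_embedding_of_identity hF hK (k + k + 1) (Cfsg.quadFormMinus (k + k) F a b)
    (by simp [Cfsg.quadFormMinus]) (by simp; ring) Ψ
  intro v
  rw [Cfsg.quadFormMinus, Fin.sum_univ_castSucc, map_add]
  congr 1
  · rw [← Equiv.sum_comp e, ← Equiv.sum_comp e (fun j => v j.castSucc * v j.castSucc ^ q)]
    have := hP (v ∘ emb)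
    simp only [Function.comp_apply] at this
    rw [← this]
    congr 1
    apply Finset.sum_congr rfl
    intro s _
    rw [hΨl, hΨl]
    simp
  · rw [hΨ0, hΨ1, ← hτ]
    have h1 := hz (v (Fin.last (k + k)))
    have h2 : τ (v (Fin.last (k + k))) = A (d₀ (v (Fin.last (k + k))))
        + A (d₁ (v (Fin.last (k + k)))) * τ ρ := by
      conv_lhs => rw [h1]
      rw [map_add, map_mul, hτA, hτA]
    have e0 : ∀ (z : K) (x₀ x₁ : F), z = A x₀ + A x₁ * ρ → τ z = A x₀ + A x₁ * τ ρ →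
        A (x₀ ^ 2 + a * x₀ * x₁ + b * x₁ ^ 2) = z * τ z := by
      intro z x₀ x₁ h3 h4
      rw [h4, h3]
      simp only [map_add, map_mul, map_pow]
      have h5 : τ ρ = -τ r := by rw [hρ, map_neg]
      rw [h5, hρ]
      linear_combination (A x₀ * A x₁) * hrsum - (A x₁) ^ 2 * hrprod
    exact e0 _ _ _ h1 h2

theorem result {K F : Type*} [Field K] [Fintype K] [Field F] [Fintype F] {q : ℕ} (hK : Fintype.card K = q ^ 2) (hF : Fintype.card F = q) (m : ℕ) (hm : Odd m) (a b : F) (hab : ∀ z₁ z₂ : F, z₁ ^ 2 + a * z₁ * z₂ + b * z₂ ^ 2 = 0 → z₁ = 0 ∧ z₂ = 0) : ∃ φ : ↥(Cfsg.GU m K q) →* ↥(Cfsg.isometryGroup F (Cfsg.quadFormMinus (m - 1) F a b)), Function.Injective φ := by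
  obtain ⟨k, hk⟩ := hm
  have hm' : m = k + k + 1 := by omega
  subst hm'
  exact main hK hF k a b hab

end Cfsg.Agent.S2641
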