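import Cfsg.Statements.S2642
import Cfsg.Agent.Helper43.KdimTwist
import Cfsg.Agent.S2570
import Cfsg.Agent.S2587
import Cfsg.Agent.S2588

set_option autoImplicit false
open Cfsg

namespace Cfsg.Agent.S2642

/-- Number of conjugacy classes of elements of order p in the general unitary group GU_n(q), q a power of p: every unipotent Jordan type occurs and the classes correspond to the partitions of n with all parts at most p other than the all-ones partition, exactly as in GL_n; so there are (number of partitions of n with parts ≤ p) − 1 classes. -/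
theorem result {K : Type*} [Field K] [Fintype K] {p q n : ℕ} [Fact p.Prime] [CharP K p] (hK : Fintype.card K = q ^ 2) : Nat.card {C : ConjClasses ↥(Cfsg.GU n K q) // ∃ g : ↥(Cfsg.GU n K q), ConjClasses.mk g = C ∧ orderOf g = p} = (Finset.univ.filter (fun μ : Nat.Partition n => ∀ a ∈ μ.parts, a ≤ p)).card - 1 := by
  rw [← Cfsg.Agent.S2570.result (F := K) (p := p) n]
  have hbij : Function.Bijective (fun C : {C : ConjClasses ↥(Cfsg.GU n K q) //
      ∃ g : ↥(Cfsg.GU n K q), ConjClasses.mk g = C ∧ orderOf g = p} =>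
      (⟨ConjClasses.map (Subgroup.subtype (Cfsg.GU n K q)) C.1, by
        obtain ⟨g, hg, ho⟩ := C.2
        exact ⟨(g : GL (Fin n) K), by rw [← hg]; rfl, by rw [Subgroup.orderOf_coe]; exact ho⟩⟩ :
        {C : ConjClasses (GL (Fin n) K) //
          ∃ g : GL (Fin n) K, ConjClasses.mk g = C ∧ orderOf g = p})) := by
    constructor
    · rintro ⟨C, g, rfl, hg⟩ ⟨C', g', rfl, hg'⟩ h
      have h1 : ConjClasses.mk (g : GL (Fin n) K) = ConjClasses.mk (g' : GL (Fin n) K) :=
        congrArg Subtype.val h
      have h2 := ConjClasses.mk_eq_mk_iff_isConj.1 h1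
      have h3 := (Cfsg.Agent.S2587.result hK g g').2 h2
      exact Subtype.ext (ConjClasses.mk_eq_mk_iff_isConj.2 h3)
    · rintro ⟨D, g, rfl, hg⟩
      have hnil : IsNilpotent ((g : Matrix (Fin n) (Fin n) K) - 1) :=
        (Cfsg.Agent.Helper38.exists_orderOf_eq_prime_pow_iff p g).mp ⟨1, by rw [hg, pow_one]⟩
      obtain ⟨B, hB⟩ := (Cfsg.Agent.S2588.result hK g).2
        (Cfsg.Agent.Helper43.KdimTwist.isConj_inv_conjTranspose hK g hnil)
      have hoB : orderOf B = p := by
        obtain ⟨c, hc⟩ := hB
        rw [← Subgroup.orderOf_coe, ← hg]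
        exact (SemiconjBy.orderOf_eq (c : GL (Fin n) K) hc).symm
      exact ⟨⟨ConjClasses.mk B, B, rfl, hoB⟩,
        Subtype.ext (ConjClasses.mk_eq_mk_iff_isConj.2 hB.symm)⟩
  exact Nat.card_eq_of_bijective _ hbij

end Cfsg.Agent.S2642
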