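import Cfsg.Statements.S2644
import Cfsg.Agent.Helper44.Unitary
import Cfsg.Agent.Helper43.Transv

set_option autoImplicit false
open Cfsg

namespace Cfsg.Agent.S2644

open Matrix Cfsg.Agent.Helper44

section
variable {K : Type*} [Field K] {n : ℕ}

/-- the hermitian form `Σ x_i τ(y_i)` -/
def hf (τ : K →+* K) (x y : Fin n → K) : K := ∑ i, x i * τ (y i)

theorem hf_eq {q : ℕ} (τ : K →+* K) (hτ : ∀ x, τ x = x ^ q) (x y : Fin n → K) :
    hf τ x y = Cfsg.hermForm n K q x y := by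
  simp only [hf, Cfsg.hermForm, hτ]

theorem hf_add_left (τ : K →+* K) (x x' y : Fin n → K) :
    hf τ (x + x') y = hf τ x y + hf τ x' y := by
  simp only [hf, Pi.add_apply, add_mul, Finset.sum_add_distrib]

theorem hf_smul_left (τ : K →+* K) (c : K) (x y : Fin n → K) :
    hf τ (c • x) y = c * hf τ x y := by
  simp only [hf, Pi.smul_apply, smul_eq_mul, Finset.mul_sum, mul_assoc]

theorem hf_add_right (τ : K →+* K) (x y y' : Fin n → K) :
    hf τ x (y + y') = hf τ x y + hf τ x y' := by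
  simp only [hf, Pi.add_apply, map_add, mul_add, Finset.sum_add_distrib]

theorem hf_smul_right (τ : K →+* K) (c : K) (x y : Fin n → K) :
    hf τ x (c • y) = τ c * hf τ x y := by
  simp only [hf, Pi.smul_apply, smul_eq_mul, map_mul, Finset.mul_sum]
  apply Finset.sum_congr rfl
  intro i _
  ring

theorem hf_sub_left (τ : K →+* K) (x x' y : Fin n → K) :
    hf τ (x - x') y = hf τ x y - hf τ x' y := by
  simp only [hf, Pi.sub_apply, sub_mul, Finset.sum_sub_distrib]

theorem hf_sub_right (τ : K →+* K) (x y y' : Fin n → K) :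
    hf τ x (y - y') = hf τ x y - hf τ x y' := by
  simp only [hf, Pi.sub_apply, map_sub, mul_sub, Finset.sum_sub_distrib]

theorem hf_symm (τ : K →+* K) (hτ2 : ∀ x, τ (τ x) = x) (x y : Fin n → K) :
    τ (hf τ x y) = hf τ y x := by
  simp only [hf, map_sum, map_mul, hτ2]
  apply Finset.sum_congr rfl
  intro i _
  ring

theorem hf_single_right (τ : K →+* K) (x : Fin n → K) (i : Fin n) :
    hf τ x (Pi.single i 1) = x i := by
  simp [hf, Pi.single_apply]

theorem hf_single_left (τ : K →+* K) (y : Fin n → K) (i : Fin n) :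
    hf τ (Pi.single i 1) y = τ (y i) := by
  simp [hf, Pi.single_apply]

/-- structure of a unitary transvection -/
theorem transv_structure (τ : K →+* K) (hτ2 : ∀ x, τ (τ x) = x) (T : Matrix (Fin n) (Fin n) K)
    (hT : ∀ x y, hf τ (T *ᵥ x) (T *ᵥ y) = hf τ x y) (htr : Cfsg.IsTransvection T) :
    ∃ (v : Fin n → K) (a : K), v ≠ 0 ∧ a ≠ 0 ∧ a + τ a = 0 ∧ hf τ v v = 0 ∧
      ∀ x, T *ᵥ x = x + (a * hf τ x v) • v := by
  obtain ⟨hrk, hsq⟩ := htr
  set N := Matrix.mulVecLin (T - 1) with hNdef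
  have hr : Module.finrank K (LinearMap.range N) = 1 := hrk
  have hNN : N ∘ₗ N = 0 := by
    rw [hNdef, ← Matrix.mulVecLin_mul, hsq]
    exact Matrix.mulVecLin_zero
  obtain ⟨v, φ, hv, hφ, hφv, hN⟩ := Cfsg.Agent.Helper43.rank_one_decomp N hr hNN
  have hTx : ∀ x, T *ᵥ x = x + φ x • v := by
    intro x
    have h1 := hN x
    rw [hNdef, Matrix.mulVecLin_apply, Matrix.sub_mulVec, Matrix.one_mulVec] at h1
    rw [← h1]; abel
  have hstar : ∀ x y, τ (φ y) * hf τ x v + φ x * hf τ v y + φ x * τ (φ y) * hf τ v v = 0 := by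
    intro x y
    have h1 := hT x y
    rw [hTx, hTx, hf_add_left, hf_add_right, hf_add_right, hf_smul_left, hf_smul_left,
      hf_smul_right, hf_smul_right] at h1
    linear_combination h1
  obtain ⟨y₁, hy₁⟩ : ∃ y, φ y ≠ 0 := by
    by_contra hc
    push Not at hc
    exact hφ (LinearMap.ext hc)
  have hvv : hf τ v v = 0 := by
    have h1 := hstar v y₁
    simp only [hφv, zero_mul, add_zero] at h1
    exact (mul_eq_zero.mp h1).resolve_left ((map_ne_zero τ).mpr hy₁)
  obtain ⟨i, hi⟩ := Function.ne_iff.mp hv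
  have hi' : v i ≠ 0 := hi
  set y₀ : Fin n → K := Pi.single i 1 with hy₀
  have hvy₀ : hf τ v y₀ = v i := hf_single_right τ v i
  set a := - τ (φ y₀) / v i with ha
  have hφx : ∀ x, φ x = a * hf τ x v := by
    intro x
    have h1 := hstar x y₀
    rw [hvv, mul_zero, add_zero, hvy₀] at h1
    rw [ha]
    field_simp
    linear_combination h1
  have ha0 : a ≠ 0 := by
    intro h
    apply hy₁
    rw [hφx, h, zero_mul]
  have hatr : a + τ a = 0 := by
    have h1 := hstar y₀ y₀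
    have h3 : hf τ y₀ v = τ (v i) := hf_single_left τ v i
    rw [hvv, mul_zero, add_zero, hφx y₀, hvy₀, h3, map_mul, hτ2] at h1
    have h2 : (a + τ a) * (v i * τ (v i)) = 0 := by linear_combination h1
    exact (mul_eq_zero.mp h2).resolve_right (mul_ne_zero hi' ((map_ne_zero τ).mpr hi'))
  exact ⟨v, a, hv, ha0, hatr, hvv, fun x => by rw [hTx, hφx]⟩

/-- an anisotropic vector perpendicular to a given vector, in dimension at least 3 -/
theorem exists_perp_aniso (τ : K →+* K) (hτ2 : ∀ x, τ (τ x) = x) (htr : ∃ c : K, c + τ c ≠ 0)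
    (hn : 3 ≤ n) (v : Fin n → K) (hv : v ≠ 0) : ∃ z, hf τ z v = 0 ∧ hf τ z z ≠ 0 := by
  classical
  obtain ⟨i, hi⟩ := Function.ne_iff.mp hv
  have hi' : v i ≠ 0 := hi
  obtain ⟨j, k, hji, hki, hjk⟩ : ∃ j k : Fin n, j ≠ i ∧ k ≠ i ∧ j ≠ k := by
    have hc : 1 < (Finset.univ.erase i).card := by
      rw [Finset.card_erase_of_mem (Finset.mem_univ i), Finset.card_univ, Fintype.card_fin]
      omega
    obtain ⟨j, hj, k, hk, hjk⟩ := Finset.one_lt_card.mp hc
    exact ⟨j, k, (Finset.mem_erase.mp hj).1, (Finset.mem_erase.mp hk).1, hjk⟩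
  have hss : ∀ l m : Fin n, hf τ (Pi.single l (1 : K)) (Pi.single m 1) = if m = l then 1 else 0 := by
    intro l m
    rw [hf_single_right, Pi.single_apply]
  set zj : Fin n → K := τ (v j) • Pi.single i 1 - τ (v i) • Pi.single j 1 with hzjd
  set zk : Fin n → K := τ (v k) • Pi.single i 1 - τ (v i) • Pi.single k 1 with hzkd
  have hzj : hf τ zj v = 0 := by
    rw [hzjd, hf_sub_left, hf_smul_left, hf_smul_left, hf_single_left, hf_single_left]; ring
  have hzk : hf τ zk v = 0 := by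
    rw [hzkd, hf_sub_left, hf_smul_left, hf_smul_left, hf_single_left, hf_single_left]; ring
  have hjj : hf τ zj zj = τ (v j) * v j + τ (v i) * v i := by
    rw [hzjd]
    simp only [hf_sub_left, hf_sub_right, hf_smul_left, hf_smul_right, hss, hτ2, if_true,
      if_neg hji, if_neg (Ne.symm hji)]
    ring
  have hkk : hf τ zk zk = τ (v k) * v k + τ (v i) * v i := by
    rw [hzkd]
    simp only [hf_sub_left, hf_sub_right, hf_smul_left, hf_smul_right, hss, hτ2, if_true,
      if_neg hki, if_neg (Ne.symm hki)]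
    ring
  have hjk' : hf τ zj zk = τ (v j) * v k := by
    rw [hzjd, hzkd]
    simp only [hf_sub_left, hf_sub_right, hf_smul_left, hf_smul_right, hss, hτ2, if_true,
      if_neg hki, if_neg (Ne.symm hji), if_neg (Ne.symm hjk)]
    ring
  by_cases h1 : hf τ zj zj = 0
  swap
  · exact ⟨zj, hzj, h1⟩
  by_cases h2 : hf τ zk zk = 0
  swap
  · exact ⟨zk, hzk, h2⟩
  have hτi : τ (v i) * v i ≠ 0 := mul_ne_zero ((map_ne_zero τ).mpr hi') hi'
  have hvj : v j ≠ 0 := by
    intro h
    rw [hjj, h, mul_zero, zero_add] at h1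
    exact hτi h1
  have hvk : v k ≠ 0 := by
    intro h
    rw [hkk, h, mul_zero, zero_add] at h2
    exact hτi h2
  have hβ : hf τ zj zk ≠ 0 := by
    rw [hjk']
    exact mul_ne_zero ((map_ne_zero τ).mpr hvj) hvk
  obtain ⟨c₀, hc₀⟩ := htr
  refine ⟨(c₀ / hf τ zj zk) • zj + zk, ?_, ?_⟩
  · rw [hf_add_left, hf_smul_left, hzj, hzk, mul_zero, add_zero]
  · have h3 : hf τ zk zj = τ (hf τ zj zk) := (hf_symm τ hτ2 zj zk).symm
    rw [hf_add_left, hf_add_right, hf_add_right, hf_smul_left, hf_smul_left, hf_smul_right,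
      hf_smul_right, h1, h2, h3, mul_zero, mul_zero, zero_add, add_zero, ← map_mul,
      div_mul_cancel₀ _ hβ]
    exact hc₀

/-- a unitary quasi-reflection with prescribed determinant of norm one -/
theorem exists_quasi (τ : K →+* K) (hτ2 : ∀ x, τ (τ x) = x) (z : Fin n → K) (hz : hf τ z z ≠ 0)
    (e : K) (he : e * τ e = 1) : ∃ M : Matrix (Fin n) (Fin n) K, M.det = e ∧
      (∀ x y, hf τ (M *ᵥ x) (M *ᵥ y) = hf τ x y) ∧ ∀ x, hf τ x z = 0 → M *ᵥ x = x := by
  set ν := hf τ z z with hν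
  have hτν : τ ν = ν := hf_symm τ hτ2 z z
  set α := (e - 1) / ν with hα
  set M : Matrix (Fin n) (Fin n) K := 1 + Matrix.vecMulVec (α • z) (fun i => τ (z i)) with hM
  have hMx : ∀ x, M *ᵥ x = x + (α * hf τ x z) • z := by
    intro x
    rw [hM, Matrix.add_mulVec, Matrix.one_mulVec, Matrix.vecMulVec_mulVec]
    congr 1
    have h1 : (fun i => τ (z i)) ⬝ᵥ x = hf τ x z := by
      simp only [dotProduct, hf]
      apply Finset.sum_congr rfl
      intro i _
      ring
    rw [h1, op_smul_eq_smul, smul_smul, mul_comm]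
  refine ⟨M, ?_, ?_, ?_⟩
  · rw [hM, Matrix.vecMulVec_eq Unit, Matrix.det_one_add_replicateCol_mul_replicateRow]
    have h1 : (fun i => τ (z i)) ⬝ᵥ (α • z) = α * ν := by
      simp only [dotProduct, hf, hν, Pi.smul_apply, smul_eq_mul, Finset.mul_sum]
      apply Finset.sum_congr rfl
      intro i _
      ring
    rw [h1, hα, div_mul_cancel₀ _ hz]; ring
  · intro x y
    have key : τ α + α + α * τ α * ν = 0 := by
      rw [hα, map_div₀, map_sub, map_one, hτν]
      field_simp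
      linear_combination he
    rw [hMx, hMx, hf_add_left, hf_add_right, hf_add_right, hf_smul_left, hf_smul_left,
      hf_smul_right, hf_smul_right, map_mul, hf_symm τ hτ2 y z]
    linear_combination (hf τ x z * hf τ z y) * key
  · intro x hx
    rw [hMx, hx, mul_zero, zero_smul, add_zero]

/-- the determinant of a unitary matrix has norm one -/
theorem det_norm (τ : K →+* K) (G : Matrix (Fin n) (Fin n) K)
    (hG : ∀ x y, hf τ (G *ᵥ x) (G *ᵥ y) = hf τ x y) : G.det * τ G.det = 1 := by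
  have h1 : Gᵀ * G.map τ = 1 := by
    ext i j
    have h2 := hG (Pi.single i 1) (Pi.single j 1)
    rw [hf_single_right, Pi.single_apply] at h2
    rw [Matrix.mul_apply, Matrix.one_apply]
    have h3 : hf τ (G *ᵥ Pi.single i 1) (G *ᵥ Pi.single j 1) = ∑ l, Gᵀ i l * (G.map τ) l j := by
      simp only [hf, Matrix.mulVec_single_one, Matrix.transpose_apply, Matrix.map_apply]
      rfl
    rw [← h3, h2]
    by_cases hij : i = j
    · rw [if_pos hij, if_pos hij.symm]
    · rw [if_neg hij, if_neg (Ne.symm hij)]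
  have h4 := congrArg Matrix.det h1
  rw [Matrix.det_mul, Matrix.det_transpose, Matrix.det_one] at h4
  rw [← h4]
  congr 1
  rw [RingHom.map_det]
  rfl

end

theorem result {K : Type*} [Field K] [Fintype K] {q n : ℕ} (hK : Fintype.card K = q ^ 2) (hn : 3 ≤ n) (s t : ↥(Cfsg.SU n K q)) (hs : Cfsg.IsTransvection (((s : GL (Fin n) K) : Matrix (Fin n) (Fin n) K))) (ht : Cfsg.IsTransvection (((t : GL (Fin n) K) : Matrix (Fin n) (Fin n) K))) : IsConj s t := by
  classical
  obtain ⟨τ, hτ⟩ := exists_conj hK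
  have hτ2 : ∀ x, τ (τ x) = x := fun x => by rw [hτ, hτ, conj_conj hK]
  have hτne : τ ≠ RingHom.id K := by
    obtain ⟨x, hx⟩ := exists_pow_ne hK
    intro h
    apply hx
    rw [← hτ, h, RingHom.id_apply]
  have htrace : ∃ c : K, c + τ c ≠ 0 := by
    obtain ⟨c, hc⟩ := exists_trace_ne hK
    exact ⟨c, by rw [hτ]; exact hc⟩
  set S : Matrix (Fin n) (Fin n) K := ((s : Matrix.SpecialLinearGroup (Fin n) K) : Matrix (Fin n) (Fin n) K) with hSdef
  set T : Matrix (Fin n) (Fin n) K := ((t : Matrix.SpecialLinearGroup (Fin n) K) : Matrix (Fin n) (Fin n) K) with hTdef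
  have hS : ∀ x y, hf τ (S *ᵥ x) (S *ᵥ y) = hf τ x y := by
    intro x y
    rw [hf_eq τ hτ, hf_eq τ hτ]
    exact s.2 x y
  have hT : ∀ x y, hf τ (T *ᵥ x) (T *ᵥ y) = hf τ x y := by
    intro x y
    rw [hf_eq τ hτ, hf_eq τ hτ]
    exact t.2 x y
  obtain ⟨v, a, hv, ha0, hatr, hvv, hSx⟩ := transv_structure τ hτ2 S hS hs
  obtain ⟨w, b, hw, hb0, hbtr, hww, hTx⟩ := transv_structure τ hτ2 T hT ht
  have hτa : τ a = -a := by linear_combination hatr
  have hτb : τ b = -b := by linear_combination hbtr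
  obtain ⟨lam, hlam⟩ := exists_norm hK (b / a) (by rw [← hτ, map_div₀, hτa, hτb, neg_div_neg_eq])
  rw [← hτ] at hlam
  have hlam0 : lam ≠ 0 := by
    rintro rfl
    rw [zero_mul] at hlam
    exact div_ne_zero hb0 ha0 hlam.symm
  -- Witt
  obtain ⟨i₀, hi₀⟩ := Function.ne_iff.mp hv
  have hi₀' : v i₀ ≠ 0 := hi₀
  set f : (Fin n → K) →ₗ[K] (Fin n → K) :=
    ((v i₀)⁻¹ • (LinearMap.proj i₀ : (Fin n → K) →ₗ[K] K)).smulRight (lam • w) with hfdef
  have hfv : f v = lam • w := by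
    rw [hfdef, LinearMap.smulRight_apply, LinearMap.smul_apply, LinearMap.proj_apply, smul_eq_mul,
      inv_mul_cancel₀ hi₀', one_smul]
  have hBf : ∀ x y : Fin n → K, hB n τ x y = hf τ y x := fun x y => rfl
  have hfc : ∀ c : K, f (c • v) = c • lam • w := fun c => by rw [map_smul, hfv]
  obtain ⟨g₀, hg₀, hg₀X⟩ := Cfsg.Agent.Helper13.witt_herm (hB n τ) hτne hτ2 (hB_isSymm τ hτ2)
    (hB_nondegenerate τ) (Submodule.span K {v}) f
    (by
      intro x hx x' hx'
      obtain ⟨c, rfl⟩ := Submodule.mem_span_singleton.mp hx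
      obtain ⟨c', rfl⟩ := Submodule.mem_span_singleton.mp hx'
      rw [hfc, hfc, hBf, hBf, hf_smul_left, hf_smul_left, hf_smul_right,
        hf_smul_right, hf_smul_right, hf_smul_left, hww, hvv]
      ring)
    (by
      intro x hx hfx
      obtain ⟨c, rfl⟩ := Submodule.mem_span_singleton.mp hx
      rw [hfc] at hfx
      rcases smul_eq_zero.mp hfx with h | h
      · rw [h, zero_smul]
      · rcases smul_eq_zero.mp h with h' | h'
        · exact absurd h' hlam0
        · exact absurd h' hw)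
  set G₀ : Matrix (Fin n) (Fin n) K := LinearMap.toMatrix' (g₀ : (Fin n → K) →ₗ[K] (Fin n → K))
    with hG₀def
  have hG₀x : ∀ x, G₀ *ᵥ x = g₀ x := fun x => LinearMap.toMatrix'_mulVec _ x
  have hG₀ : ∀ x y, hf τ (G₀ *ᵥ x) (G₀ *ᵥ y) = hf τ x y := by
    intro x y
    rw [hG₀x, hG₀x, ← hBf, ← hBf]
    exact (Cfsg.Agent.Helper13.mem_hermIso (hB n τ) g₀).mp hg₀ y x
  have hd := det_norm τ G₀ hG₀
  have hd0 : G₀.det ≠ 0 := by
    intro h
    rw [h, zero_mul] at hd
    exact zero_ne_one hd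
  obtain ⟨z, hzv, hzz⟩ := exists_perp_aniso τ hτ2 htrace hn v hv
  obtain ⟨M, hMdet, hMpres, hMfix⟩ := exists_quasi τ hτ2 z hzz (G₀.det)⁻¹
    (by rw [map_inv₀, ← mul_inv, hd, inv_one])
  set G : Matrix (Fin n) (Fin n) K := G₀ * M with hGdef
  have hGdet : G.det = 1 := by
    rw [hGdef, Matrix.det_mul, hMdet, mul_inv_cancel₀ hd0]
  have hGx : ∀ x, G *ᵥ x = G₀ *ᵥ (M *ᵥ x) := fun x => by rw [hGdef, Matrix.mulVec_mulVec]
  have hGpres : ∀ x y, hf τ (G *ᵥ x) (G *ᵥ y) = hf τ x y := by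
    intro x y
    rw [hGx, hGx, hG₀, hMpres]
  have hGv : G *ᵥ v = lam • w := by
    have h1 : hf τ v z = 0 := by rw [← hf_symm τ hτ2, hzv, map_zero]
    rw [hGx, hMfix v h1, hG₀x, hg₀X v (Submodule.mem_span_singleton_self v), hfv]
  let gSL : Matrix.SpecialLinearGroup (Fin n) K := ⟨G, hGdet⟩
  have hgmem : gSL ∈ Cfsg.SU n K q := by
    intro x y
    show Cfsg.hermForm n K q (G *ᵥ x) (G *ᵥ y) = Cfsg.hermForm n K q x y
    rw [← hf_eq τ hτ, ← hf_eq τ hτ]
    exact hGpres x y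
  rw [isConj_iff]
  refine ⟨⟨gSL, hgmem⟩, ?_⟩
  rw [mul_inv_eq_iff_eq_mul]
  apply Subtype.ext
  apply Subtype.ext
  show G * S = T * G
  apply Matrix.toLin'.injective
  apply LinearMap.ext
  intro x
  rw [Matrix.toLin'_apply, Matrix.toLin'_apply,
    show (G * S) *ᵥ x = G *ᵥ (S *ᵥ x) from (Matrix.mulVec_mulVec x G S).symm,
    show (T * G) *ᵥ x = T *ᵥ (G *ᵥ x) from (Matrix.mulVec_mulVec x T G).symm,
    hSx, hTx, Matrix.mulVec_add, Matrix.mulVec_smul, hGv]
  congr 1
  have h1 : hf τ (G *ᵥ x) (lam • w) = hf τ x v := by rw [← hGv, hGpres]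
  rw [hf_smul_right] at h1
  have hτlam : τ lam ≠ 0 := (map_ne_zero τ).mpr hlam0
  have h2 : hf τ (G *ᵥ x) w = hf τ x v / τ lam := by
    rw [eq_div_iff hτlam, ← h1]; ring
  rw [h2, smul_smul]
  congr 1
  have h3 : b = a * (lam * τ lam) := by rw [hlam]; field_simp
  rw [h3]
  field_simp

end Cfsg.Agent.S2644
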