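import Cfsg.Statements.S2665

set_option autoImplicit false
open Cfsg

namespace Cfsg.Agent.S2665

open Polynomial

section
variable {K : Type*} [Field K] (q : ℕ) (c : ℕ → K)

/-- the additive polynomials of the cyclic recursion -/
noncomputable def Xp : ℕ → K[X]
  | 0 => C (c 0) * X ^ q
  | (j + 1) => (Xp j) ^ q + C (c (j + 1)) * X ^ q

theorem Xp_dvd (hq : 2 ≤ q) (j : ℕ) : (X : K[X]) ^ 2 ∣ Xp q c j := by
  induction j with
  | zero =>
    rw [Xp]
    exact Dvd.dvd.mul_left (pow_dvd_pow X hq) _
  | succ j ih =>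
    rw [Xp]
    apply dvd_add
    · exact dvd_trans ih (dvd_pow_self _ (by omega))
    · exact Dvd.dvd.mul_left (pow_dvd_pow X hq) _

theorem Xp_eq_zero_iff (hq : 2 ≤ q) (j : ℕ) : Xp q c j = 0 ↔ ∀ i ≤ j, c i = 0 := by
  induction j with
  | zero =>
    rw [Xp]
    constructor
    · intro h i hi
      have hi0 : i = 0 := by omega
      subst hi0
      by_contra hc
      have := mul_ne_zero (C_ne_zero.mpr hc) (pow_ne_zero q (X_ne_zero (R := K)))
      exact this h
    · intro h
      rw [h 0 le_rfl]; simp
  | succ j ih =>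
    rw [Xp]
    by_cases h0 : Xp q c j = 0
    · rw [h0, zero_pow (by omega), zero_add]
      constructor
      · intro h i hi
        rcases Nat.lt_or_ge i (j + 1) with hlt | hge
        · exact (ih.mp h0) i (by omega)
        · have : i = j + 1 := by omega
          subst this
          by_contra hc
          have := mul_ne_zero (C_ne_zero.mpr hc) (pow_ne_zero q (X_ne_zero (R := K)))
          exact this h
      · intro h
        rw [h (j + 1) le_rfl]; simp
    · constructor
      · intro h
        exfalso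
        -- degree argument
        obtain ⟨Y, hY⟩ := Xp_dvd q c hq j
        have hY0 : Y ≠ 0 := by
          rintro rfl; simp at hY; exact h0 hY
        have hdeg : 2 ≤ (Xp q c j).natDegree := by
          rw [hY, natDegree_mul (pow_ne_zero 2 X_ne_zero) hY0, natDegree_X_pow]
          omega
        have h1 : ((Xp q c j) ^ q).natDegree = q * (Xp q c j).natDegree := natDegree_pow _ _
        have h2 : (C (c (j + 1)) * X ^ q).natDegree ≤ q := natDegree_C_mul_X_pow_le _ _
        have h3 : (Xp q c j) ^ q = - (C (c (j + 1)) * X ^ q) := eq_neg_of_add_eq_zero_left h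
        rw [h3, natDegree_neg] at h1
        nlinarith
      · intro h
        exact absurd (ih.mpr (fun i hi => h i (by omega))) h0

end

section
variable {K : Type*} [Field K] [IsAlgClosed K] (σ : K →+* K) (q : ℕ)
  {E : Type*} [AddCommGroup E] [Module K E]

theorem cyclic_identity (hσ : ∀ a, σ a = a ^ q) (φ : E →ₛₗ[σ] E) (U : ℕ → E) (c : ℕ → K) (t : K) (j : ℕ) :
    ∑ i ∈ Finset.range j, ((Xp q c i).eval t) ^ q • U (i + 1)
      + t ^ q • ∑ i ∈ Finset.range (j + 1), c i • U i
    = ∑ i ∈ Finset.range (j + 1), ((Xp q c i).eval t) • U i := by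
  induction j with
  | zero =>
    rw [Finset.sum_range_zero, Finset.sum_range_one, Finset.sum_range_one, zero_add, Xp]
    simp only [eval_mul, eval_C, eval_pow, eval_X, smul_smul]
    rw [mul_comm]
  | succ j ih =>
    rw [Finset.sum_range_succ, Finset.sum_range_succ (fun i => c i • U i) (j + 1),
      Finset.sum_range_succ (fun i => ((Xp q c i).eval t) • U i) (j + 1), ← ih]
    rw [smul_add, Xp]
    simp only [eval_add, eval_pow, eval_mul, eval_C, eval_X, add_smul, smul_smul]
    rw [mul_comm (t ^ q)]
    abel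

theorem exists_fixed [FiniteDimensional K E] [Nontrivial E] (hq : 2 ≤ q) (hσ : ∀ a, σ a = a ^ q)
    (φ : E →ₛₗ[σ] E) (hφ : Function.Injective φ) : ∃ v : E, v ≠ 0 ∧ φ v = v := by
  classical
  obtain ⟨u, hu⟩ := exists_ne (0 : E)
  set U : ℕ → E := fun i => (⇑φ)^[i] u with hU
  have hUs : ∀ i, U (i + 1) = φ (U i) := fun i => Function.iterate_succ_apply' _ _ _
  have hU0 : U 0 = u := rfl
  have hUne : ∀ i, U i ≠ 0 := by
    intro i h
    have h1 : (⇑φ)^[i] u = (⇑φ)^[i] 0 := by
      rw [show (⇑φ)^[i] u = U i from rfl, h]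
      clear h
      induction i with
      | zero => rfl
      | succ i ih => rw [Function.iterate_succ_apply', ← ih, map_zero]
    exact hu (hφ.iterate i h1)
  have hex : ∃ m, ¬ LinearIndependent K (fun i : Fin (m + 1) => U i) := by
    refine ⟨Module.finrank K E, fun h => ?_⟩
    have := h.fintype_card_le_finrank
    simp at this
  set m := Nat.find hex with hm
  have hm1 : ¬ LinearIndependent K (fun i : Fin (m + 1) => U i) := Nat.find_spec hex
  have hmin : ∀ k < m, LinearIndependent K (fun i : Fin (k + 1) => U i) := by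
    intro k hk
    exact not_not.mp (Nat.find_min hex hk)
  have hLI : LinearIndependent K (fun i : Fin m => U i) := by
    rcases Nat.eq_zero_or_pos m with h0 | hpos
    · rw [h0]; exact linearIndependent_empty_type
    · have := hmin (m - 1) (by omega)
      have e : m - 1 + 1 = m := by omega
      rw [e] at this
      exact this
  have hspan : U m ∈ Submodule.span K (Set.range (fun i : Fin m => U i)) := by
    by_contra hn
    apply hm1
    have := (linearIndependent_finSnoc (x := U m) (v := fun i : Fin m => U i)).mpr ⟨hLI, hn⟩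
    convert this using 1
    ext i
    refine Fin.lastCases ?_ (fun i => ?_) i
    · simp
    · simp
  obtain ⟨c0, hc0⟩ := (Submodule.mem_span_range_iff_exists_fun K).mp hspan
  set c : ℕ → K := fun j => if h : j < m then c0 ⟨j, h⟩ else 0 with hc
  have hcsum : ∑ i ∈ Finset.range m, c i • U i = U m := by
    rw [Finset.sum_range, ← hc0]
    apply Finset.sum_congr rfl
    intro i _
    simp [hc]
  have hmpos : 1 ≤ m := by
    by_contra h
    have h0 : m = 0 := by omega
    rw [h0] at hcsum
    simp at hcsum
    exact hUne 0 hcsum.symm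
  have hcne : ¬ ∀ i ≤ m - 1, c i = 0 := by
    intro h
    apply hUne m
    rw [← hcsum]
    apply Finset.sum_eq_zero
    intro i hi
    rw [h i (by have := Finset.mem_range.mp hi; omega), zero_smul]
  have hXne : Xp q c (m - 1) ≠ 0 := fun h => hcne ((Xp_eq_zero_iff q c hq (m - 1)).mp h)
  obtain ⟨Y, hY⟩ := Xp_dvd q c hq (m - 1)
  have hY0 : Y ≠ 0 := by
    rintro rfl; simp at hY; exact hXne hY
  have hdeg : (X * Y - C (1 : K)).degree ≠ 0 := by
    have h1 : 0 < (X * Y).degree := by
      rw [degree_mul, degree_X]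
      have : 0 ≤ Y.degree := zero_le_degree_iff.mpr hY0
      exact lt_of_lt_of_le (by norm_num) (le_add_of_nonneg_right this)
    rw [degree_sub_C h1]
    exact ne_of_gt h1
  obtain ⟨t, ht⟩ := IsAlgClosed.exists_root _ hdeg
  have ht1 : t * Y.eval t = 1 := by
    have := ht
    simp only [IsRoot, eval_sub, eval_mul, eval_X, eval_C] at this
    exact sub_eq_zero.mp this
  have ht0 : t ≠ 0 := by
    rintro rfl; simp at ht1
  have hXt : (Xp q c (m - 1)).eval t = t := by
    rw [hY]
    simp only [eval_mul, eval_pow, eval_X]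
    rw [pow_two, mul_assoc, ht1, mul_one]
  set x : ℕ → K := fun i => (Xp q c i).eval t with hx
  refine ⟨∑ i ∈ Finset.range m, x i • U i, ?_, ?_⟩
  · intro h0
    rw [Finset.sum_range] at h0
    have := Fintype.linearIndependent_iff.mp hLI (fun i => x i) h0 ⟨m - 1, by omega⟩
    simp only [hx] at this
    rw [hXt] at this
    exact ht0 this
  · rw [map_sum]
    have e1 : ∀ i ∈ Finset.range m, φ (x i • U i) = (x i) ^ q • U (i + 1) := by
      intro i _
      rw [map_smulₛₗ, hσ, hUs]
    rw [Finset.sum_congr rfl e1]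
    have hid := cyclic_identity σ q hσ φ U c t (m - 1)
    have e : m - 1 + 1 = m := by omega
    rw [e] at hid
    rw [← hid, hcsum]
    have e2 : Finset.range m = Finset.range (m - 1 + 1) := by rw [e]
    rw [e2, Finset.sum_range_succ, e]
    simp only [hx]
    rw [hXt]


theorem span_fixed_eq_top [FiniteDimensional K E] (hq : 2 ≤ q) (hσ : ∀ a, σ a = a ^ q)
    (φ : E →ₛₗ[σ] E) (hφ : Function.Injective φ) :
    Submodule.span K {v : E | φ v = v} = ⊤ := by
  set W := Submodule.span K {v : E | φ v = v} with hW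
  have hC : ∀ u ∈ W, ∃ w ∈ W, φ w - w = u := by
    intro u hu
    refine Submodule.closure_induction (p := fun u _ => ∃ w ∈ W, φ w - w = u) ?_ ?_ ?_ hu
    · exact ⟨0, W.zero_mem, by simp⟩
    · rintro x y _ _ ⟨w1, hw1, h1⟩ ⟨w2, hw2, h2⟩
      exact ⟨w1 + w2, W.add_mem hw1 hw2, by rw [map_add, ← h1, ← h2]; abel⟩
    · intro r x hx
      obtain ⟨d, hd⟩ : ∃ d : K, d ^ q - d = r := by
        have hdeg : (X ^ q - X - C r : K[X]).degree ≠ 0 := by
          have h1 : (X ^ q - X : K[X]).degree = q := by
            rw [degree_sub_eq_left_of_degree_lt]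
            · exact degree_X_pow q
            · rw [degree_X_pow, degree_X]
              exact_mod_cast (by omega : 1 < q)
          have h2 : 0 < (X ^ q - X : K[X]).degree := by
            rw [h1]; exact_mod_cast (by omega : 0 < q)
          rw [degree_sub_C h2]
          exact ne_of_gt h2
        obtain ⟨d, hd⟩ := IsAlgClosed.exists_root _ hdeg
        refine ⟨d, ?_⟩
        simpa [sub_eq_zero] using hd
      have hx' : φ x = x := hx
      refine ⟨d • x, W.smul_mem d (Submodule.subset_span hx), ?_⟩
      rw [map_smulₛₗ, hσ, hx', ← sub_smul, hd]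
  have hS : ∀ u ∈ W, ∃ w ∈ W, φ w = u := by
    intro u hu
    refine Submodule.closure_induction (p := fun u _ => ∃ w ∈ W, φ w = u) ?_ ?_ ?_ hu
    · exact ⟨0, W.zero_mem, by simp⟩
    · rintro x y _ _ ⟨w1, hw1, h1⟩ ⟨w2, hw2, h2⟩
      exact ⟨w1 + w2, W.add_mem hw1 hw2, by rw [map_add, ← h1, ← h2]⟩
    · intro r x hx
      obtain ⟨d, hd⟩ := IsAlgClosed.exists_pow_nat_eq r (by omega : 0 < q)
      have hx' : φ x = x := hx
      refine ⟨d • x, W.smul_mem d (Submodule.subset_span hx), ?_⟩
      rw [map_smulₛₗ, hσ, hx', hd]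
  have hstab : W ≤ W.comap φ := by
    intro w hw
    refine Submodule.closure_induction (p := fun u _ => u ∈ W.comap φ) ?_ ?_ ?_ hw
    · exact Submodule.zero_mem _
    · intro x y _ _ h1 h2
      exact Submodule.add_mem _ h1 h2
    · intro r x hx
      have hx' : φ x = x := hx
      show φ (r • x) ∈ W
      rw [map_smulₛₗ, hx']
      exact W.smul_mem _ (Submodule.subset_span hx)
  by_contra hne
  haveI : Nontrivial (E ⧸ W) := Submodule.Quotient.nontrivial_iff.mpr hne
  set ψ := W.mapQ W φ hstab with hψdef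
  have hψ : Function.Injective ψ := by
    rw [injective_iff_map_eq_zero]
    intro x hx
    obtain ⟨v, rfl⟩ := Submodule.Quotient.mk_surjective W x
    rw [hψdef, Submodule.mapQ_apply, Submodule.Quotient.mk_eq_zero] at hx
    rw [Submodule.Quotient.mk_eq_zero]
    obtain ⟨w, hw, hwv⟩ := hS _ hx
    rw [← hφ hwv]; exact hw
  obtain ⟨x, hx0, hxfix⟩ := exists_fixed σ q hq hσ ψ hψ
  obtain ⟨v, rfl⟩ := Submodule.Quotient.mk_surjective W x
  have hvW : v ∉ W := fun h => hx0 ((Submodule.Quotient.mk_eq_zero W).mpr h)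
  have h1 : φ v - v ∈ W := by
    rw [hψdef, Submodule.mapQ_apply] at hxfix
    exact (Submodule.Quotient.eq W).mp hxfix
  obtain ⟨w, hw, hwe⟩ := hC _ (W.neg_mem h1)
  have hfix : φ (v + w) = v + w := by
    rw [map_add]
    have : φ v + φ w = (φ v - v) + (φ w - w) + (v + w) := by abel
    rw [this, hwe]; abel
  apply hvW
  have h2 : v + w ∈ W := Submodule.subset_span hfix
  have h3 := W.sub_mem h2 hw
  simpa using h3

theorem lang_matrix {n : ℕ} (hq : 2 ≤ q) (hσ : ∀ a, σ a = a ^ q) (g : GL (Fin n) K) :
    ∃ x : GL (Fin n) K, g = x * (Matrix.GeneralLinearGroup.map σ x)⁻¹ := by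
  classical
  let φ : (Fin n → K) →ₛₗ[σ] (Fin n → K) :=
    { toFun := fun v => (g : Matrix (Fin n) (Fin n) K).mulVec (fun i => σ (v i))
      map_add' := by
        intro v w
        rw [← Matrix.mulVec_add]
        congr 1
        ext i
        simp
      map_smul' := by
        intro c v
        simp only [Pi.smul_apply, smul_eq_mul, map_mul]
        rw [← Matrix.mulVec_smul]
        congr 1 }
  have hφapp : ∀ v, φ v = (g : Matrix (Fin n) (Fin n) K).mulVec (fun i => σ (v i)) := fun v => rfl
  have hφ : Function.Injective φ := by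
    intro v w hvw
    rw [hφapp, hφapp] at hvw
    have h1 : (fun i => σ (v i)) = (fun i => σ (w i)) := by
      have := congrArg (fun z => ((g⁻¹ : GL (Fin n) K) : Matrix (Fin n) (Fin n) K).mulVec z) hvw
      simpa [Matrix.mulVec_mulVec] using this
    ext i
    exact σ.injective (congrFun h1 i)
  have hspan := span_fixed_eq_top σ q hq hσ φ hφ
  obtain ⟨b, hbsub, hbspan, hbLI⟩ := exists_linearIndependent K {v : Fin n → K | φ v = v}
  rw [hspan] at hbspan
  let B : Module.Basis b K (Fin n → K) :=
    Module.Basis.mk hbLI (by rw [Subtype.range_coe]; exact hbspan.ge)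
  let e : b ≃ Fin n := B.indexEquiv (Pi.basisFun K (Fin n))
  let B' : Module.Basis (Fin n) K (Fin n → K) := B.reindex e
  have hB' : ∀ j, φ (B' j) = B' j := by
    intro j
    have : B' j = ((e.symm j : b) : Fin n → K) := by
      simp [B', B]
    rw [this]
    exact hbsub (e.symm j).2
  let M : Matrix (Fin n) (Fin n) K := (Pi.basisFun K (Fin n)).toMatrix B'
  haveI : Invertible M := Module.Basis.invertibleToMatrix _ _
  have hMapp : ∀ i j, M i j = B' j i := by
    intro i j
    simp [M, Module.Basis.toMatrix_apply]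
  let x : GL (Fin n) K := Matrix.GeneralLinearGroup.mk'' M
    ((Matrix.isUnit_iff_isUnit_det M).mp (isUnit_of_invertible M))
  refine ⟨x, ?_⟩
  apply eq_mul_inv_of_mul_eq
  apply Units.ext
  ext i j
  have := congrFun (hB' j) i
  rw [hφapp] at this
  simp only [Units.val_mul, Matrix.mul_apply, Matrix.GeneralLinearGroup.map_apply]
  simp only [Matrix.mulVec, dotProduct] at this
  show ∑ k, (g : Matrix (Fin n) (Fin n) K) i k * σ (M k j) = M i j
  simp only [hMapp]
  exact this

end

theorem result {K : Type*} [Field K] [IsAlgClosed K] (p : ℕ) [Fact p.Prime] [CharP K p]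
    (f : ℕ) (hf : 1 ≤ f) (n : ℕ) (g : GL (Fin n) K) :
    ∃ x : GL (Fin n) K, g = x * (Matrix.GeneralLinearGroup.map (iterateFrobenius K p f) x)⁻¹ := by
  have hp : 2 ≤ p := (Fact.out : p.Prime).two_le
  have hq : 2 ≤ p ^ f := by
    calc 2 ≤ p := hp
      _ = p ^ 1 := (pow_one p).symm
      _ ≤ p ^ f := Nat.pow_le_pow_right (by omega) hf
  exact lang_matrix (iterateFrobenius K p f) (p ^ f) hq (fun a => iterateFrobenius_def p f a) g

end Cfsg.Agent.S2665
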