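import Cfsg.Statements.S2666

set_option autoImplicit false
open Cfsg

namespace Cfsg.Agent.S2666

theorem telescope {X : Type*} [Group X] (σ : MulAut X) (a : X) (d : ℕ) :
    ((List.range d).map (fun i => (σ ^ i) (a * (σ a)⁻¹))).prod = a * ((σ ^ d) a)⁻¹ := by
  induction d with
  | zero => simp
  | succ d ih =>
    rw [List.range_succ, List.map_append, List.prod_append, ih]
    simp [pow_succ, mul_assoc]

theorem fix_pow {X : Type*} [Group X] (τ : MulAut X) {x : X} (h : τ x = x) (k : ℕ) :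
    (τ ^ k) x = x := by
  induction k with
  | zero => simp
  | succ k ih => rw [pow_succ, MulAut.mul_apply, h, ih]

theorem mem_fix {X : Type*} [Group X] (τ : MulAut X) (x : X) :
    x ∈ (MulEquiv.toMonoidHom τ).eqLocus (MonoidHom.id X) ↔ τ x = x := Iff.rfl

theorem comm_pow {X : Type*} [Group X] (σ : MulAut X) (e : ℕ) (a : X) :
    σ ((σ ^ e) a) = (σ ^ e) (σ a) := by
  rw [← MulAut.mul_apply, ← MulAut.mul_apply, ← pow_succ', ← pow_succ]

/-- the Shintani image is fixed by `σ` -/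
theorem shintani_fixed {X : Type*} [Group X] (σ : MulAut X) (e : ℕ)
    (g : X) (hg : (σ ^ e) g = g) (a : X) (ha : g = a * (σ a)⁻¹) :
    σ (((σ ^ e) a)⁻¹ * a) = ((σ ^ e) a)⁻¹ * a := by
  have h1 : σ a = g⁻¹ * a := by rw [ha]; group
  rw [map_mul, map_inv, comm_pow, h1, map_mul, map_inv, hg]
  group

theorem part3 {X : Type*} [Group X] (σ : MulAut X) (e : ℕ) (x : X) (hx : σ x = x) (a : X)
    (h1 : (σ ^ e) a = a * x⁻¹) :
    (σ ^ e) (a * (σ a)⁻¹) = a * (σ a)⁻¹ ∧ ((σ ^ e) a)⁻¹ * a = x := by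
  have h6 : (σ ^ e) (σ a) = σ a * x⁻¹ := by
    rw [← comm_pow, h1, map_mul, map_inv, hx]
  constructor
  · rw [map_mul, map_inv, h6, h1]
    group
  · rw [h1]; group

theorem result {X : Type*} [Group X] (σ : MulAut X) (e : ℕ) (he : 1 ≤ e)
    (hL : ∀ g : X, ∃ a : X, g = a * (σ a)⁻¹) (hLe : ∀ g : X, ∃ a : X, g = a * ((σ ^ e) a)⁻¹) :
    (∀ g ∈ (MulEquiv.toMonoidHom (σ ^ e)).eqLocus (MonoidHom.id X), ∀ a : X, g = a * (σ a)⁻¹ →
        ((σ ^ e) a)⁻¹ * a ∈ (MulEquiv.toMonoidHom σ).eqLocus (MonoidHom.id X) ∧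
          a⁻¹ * ((List.range e).map (fun i => (σ ^ i) g)).prod * a = ((σ ^ e) a)⁻¹ * a) ∧
    (∀ g ∈ (MulEquiv.toMonoidHom (σ ^ e)).eqLocus (MonoidHom.id X), ∀ g' ∈ (MulEquiv.toMonoidHom (σ ^ e)).eqLocus (MonoidHom.id X), ∀ a b : X,
        g = a * (σ a)⁻¹ → g' = b * (σ b)⁻¹ →
          ((∃ k ∈ (MulEquiv.toMonoidHom (σ ^ e)).eqLocus (MonoidHom.id X), g' = k * g * (σ k)⁻¹) ↔
            (∃ h ∈ (MulEquiv.toMonoidHom σ).eqLocus (MonoidHom.id X), ((σ ^ e) b)⁻¹ * b = h * (((σ ^ e) a)⁻¹ * a) * h⁻¹))) ∧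
    (∀ x ∈ (MulEquiv.toMonoidHom σ).eqLocus (MonoidHom.id X), ∃ g ∈ (MulEquiv.toMonoidHom (σ ^ e)).eqLocus (MonoidHom.id X), ∃ a : X,
        g = a * (σ a)⁻¹ ∧ ((σ ^ e) a)⁻¹ * a = x) := by
  refine ⟨?_, ?_, ?_⟩
  · intro g hg a ha
    rw [mem_fix] at hg
    refine ⟨shintani_fixed σ e g hg a ha, ?_⟩
    rw [ha, telescope]
    group
  · intro g hg g' hg' a b ha hb
    rw [mem_fix] at hg hg'
    constructor
    · rintro ⟨k, hk, hkg⟩
      rw [mem_fix] at hk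
      -- h = b⁻¹ k a
      have hfix : σ (b⁻¹ * k * a) = b⁻¹ * k * a := by
        have h1 : σ b = g'⁻¹ * b := by rw [hb]; group
        have h2 : σ a = g⁻¹ * a := by rw [ha]; group
        have h3 : σ k = g'⁻¹ * k * g := by rw [hkg]; group
        rw [map_mul, map_mul, map_inv, h1, h2, h3]
        group
      refine ⟨b⁻¹ * k * a, hfix, ?_⟩
      have hfe : (σ ^ e) (b⁻¹ * k * a) = b⁻¹ * k * a := fix_pow σ hfix e
      rw [map_mul, map_mul, map_inv, hk] at hfe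
      have h4 : (σ ^ e) a = k⁻¹ * (σ ^ e) b * (b⁻¹ * k * a) := by
        rw [← hfe]; group
      rw [h4]
      group
    · rintro ⟨h, hh, hx⟩
      rw [mem_fix] at hh
      have hhe : (σ ^ e) h = h := fix_pow σ hh e
      refine ⟨b * h * a⁻¹, ?_, ?_⟩
      · rw [mem_fix, map_mul, map_mul, map_inv, hhe]
        have h5 : b = (σ ^ e) b * (h * (((σ ^ e) a)⁻¹ * a) * h⁻¹) := by
          rw [← hx]; group
        calc (σ ^ e) b * h * ((σ ^ e) a)⁻¹
            = (σ ^ e) b * (h * (((σ ^ e) a)⁻¹ * a) * h⁻¹) * h * a⁻¹ := by group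
          _ = b * h * a⁻¹ := by rw [← h5]
      · rw [map_mul, map_mul, map_inv, hh, hb, ha]
        group
  · intro x hx
    rw [mem_fix] at hx
    obtain ⟨c, hc⟩ := hLe x⁻¹
    have hxe : (σ ^ e) x = x := fix_pow σ hx e
    have h1 : (σ ^ e) c⁻¹ = c⁻¹ * x⁻¹ := by
      rw [map_inv]
      have : (σ ^ e) c = x * c := by
        have : x = (σ ^ e) c * c⁻¹ := by
          rw [← inv_inv x, hc]; group
        rw [this]; group
      rw [this]; group
    obtain ⟨h7, h8⟩ := part3 σ e x hx c⁻¹ h1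
    exact ⟨c⁻¹ * (σ c⁻¹)⁻¹, h7, c⁻¹, rfl, h8⟩

end Cfsg.Agent.S2666
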