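import Cfsg.Statements.S2667

set_option autoImplicit false
open Cfsg

namespace Cfsg.Agent.S2667

theorem fix_pow {X : Type*} [Group X] (τ : MulAut X) {x : X} (h : τ x = x) (k : ℕ) :
    (τ ^ k) x = x := by
  induction k with
  | zero => simp
  | succ k ih => rw [pow_succ, MulAut.mul_apply, h, ih]

theorem mem_fix {X : Type*} [Group X] (τ : MulAut X) (x : X) :
    x ∈ (MulEquiv.toMonoidHom τ).eqLocus (MonoidHom.id X) ↔ τ x = x := Iff.rfl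

theorem result {X : Type*} [Group X] (σ : MulAut X) (e : ℕ) (he : 1 ≤ e)
    (g : X) (hg : g ∈ (MulEquiv.toMonoidHom (σ ^ e)).eqLocus (MonoidHom.id X)) (a : X) (ha : g = a * (σ a)⁻¹) (k : X) :
    (k ∈ (MulEquiv.toMonoidHom (σ ^ e)).eqLocus (MonoidHom.id X) ∧ k * g * (σ k)⁻¹ = g) ↔
      (a⁻¹ * k * a ∈ (MulEquiv.toMonoidHom σ).eqLocus (MonoidHom.id X) ∧
        (a⁻¹ * k * a) * (((σ ^ e) a)⁻¹ * a) = (((σ ^ e) a)⁻¹ * a) * (a⁻¹ * k * a)) := by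
  rw [mem_fix, mem_fix]
  have h2 : σ a = g⁻¹ * a := by rw [ha]; group
  constructor
  · rintro ⟨hk, hkg⟩
    have h3 : σ k = g⁻¹ * k * g := by
      have : k * g = g * σ k := by
        nth_rewrite 2 [← hkg]; group
      rw [mul_assoc, this]; group
    have hfix : σ (a⁻¹ * k * a) = a⁻¹ * k * a := by
      rw [map_mul, map_mul, map_inv, h2, h3]
      group
    refine ⟨hfix, ?_⟩
    have hfe : (σ ^ e) (a⁻¹ * k * a) = a⁻¹ * k * a := fix_pow σ hfix e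
    rw [map_mul, map_mul, map_inv, hk] at hfe
    have h4 : k * (σ ^ e) a = (σ ^ e) a * (a⁻¹ * k * a) := by
      rw [← hfe]; group
    calc a⁻¹ * k * a * (((σ ^ e) a)⁻¹ * a)
        = ((σ ^ e) a)⁻¹ * ((σ ^ e) a * (a⁻¹ * k * a)) * ((σ ^ e) a)⁻¹ * a := by group
      _ = ((σ ^ e) a)⁻¹ * (k * (σ ^ e) a) * ((σ ^ e) a)⁻¹ * a := by rw [h4]
      _ = ((σ ^ e) a)⁻¹ * a * (a⁻¹ * k * a) := by group
  · rintro ⟨hh, hcomm⟩
    have hhe : (σ ^ e) (a⁻¹ * k * a) = a⁻¹ * k * a := fix_pow σ hh e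
    have hk : k = a * (a⁻¹ * k * a) * a⁻¹ := by group
    constructor
    · rw [hk, map_mul, map_mul, hhe, map_inv]
      calc (σ ^ e) a * (a⁻¹ * k * a) * ((σ ^ e) a)⁻¹
          = (σ ^ e) a * ((a⁻¹ * k * a) * (((σ ^ e) a)⁻¹ * a)) * a⁻¹ := by group
        _ = (σ ^ e) a * ((((σ ^ e) a)⁻¹ * a) * (a⁻¹ * k * a)) * a⁻¹ := by rw [hcomm]
        _ = a * (a⁻¹ * k * a) * a⁻¹ := by group
    · have h5 : σ k = σ a * (a⁻¹ * k * a) * (σ a)⁻¹ := by
        nth_rewrite 1 [hk]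
        rw [map_mul, map_mul, hh, map_inv]
      rw [h5, ha]
      group

end Cfsg.Agent.S2667
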