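import Cfsg.Statements.S2668

set_option autoImplicit false
open Cfsg

namespace Cfsg.Agent.S2668

theorem telescope {X : Type*} [Group X] (σ : MulAut X) (a : X) (d : ℕ) :
    ((List.range d).map (fun i => (σ ^ i) (a * (σ a)⁻¹))).prod = a * ((σ ^ d) a)⁻¹ := by
  induction d with
  | zero => simp
  | succ d ih =>
    rw [List.range_succ, List.map_append, List.prod_append, ih]
    simp [pow_succ, mul_assoc]

theorem fix_pow {X : Type*} [Group X] (τ : MulAut X) {x : X} (h : τ x = x) (k : ℕ) :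
    (τ ^ k) x = x := by
  induction k with
  | zero => simp
  | succ k ih => rw [pow_succ, MulAut.mul_apply, h, ih]

theorem mem_fix {X : Type*} [Group X] (τ : MulAut X) (x : X) :
    x ∈ (MulEquiv.toMonoidHom τ).eqLocus (MonoidHom.id X) ↔ τ x = x := Iff.rfl

/-- the Shintani image is fixed by `σ` -/
theorem shintani_fixed {X : Type*} [Group X] (σ : MulAut X) (e : ℕ)
    (g : X) (hg : (σ ^ e) g = g) (a : X) (ha : g = a * (σ a)⁻¹) :
    σ (((σ ^ e) a)⁻¹ * a) = ((σ ^ e) a)⁻¹ * a := by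
  have h1 : σ a = g⁻¹ * a := by rw [ha]; group
  have h2 : σ ((σ ^ e) a) = (σ ^ e) (σ a) := by
    rw [← MulAut.mul_apply, ← MulAut.mul_apply, ← pow_succ', ← pow_succ]
  rw [map_mul, map_inv, h2, h1, map_mul, map_inv, hg]
  group

theorem pow_mul_apply {X : Type*} [Group X] (τ : MulAut X) (a x : X) (hx : τ x = x)
    (h : τ a = a * x⁻¹) (d : ℕ) : (τ ^ d) a = a * (x ^ d)⁻¹ := by
  induction d with
  | zero => simp
  | succ d ih =>
    rw [pow_succ', MulAut.mul_apply, ih, map_mul, map_inv, map_pow, hx, h, pow_succ']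
    group

theorem result {X : Type*} [Group X] (σ : MulAut X) (e d : ℕ) (he : 1 ≤ e) (hd : 1 ≤ d)
    (g : X) (hg : g ∈ (MulEquiv.toMonoidHom (σ ^ e)).eqLocus (MonoidHom.id X)) (a : X) (ha : g = a * (σ a)⁻¹) :
    ((List.range d).map (fun i => (σ ^ i) g)).prod = a * ((σ ^ d) a)⁻¹ ∧
      ((List.range d).map (fun i => (σ ^ i) g)).prod ∈ (MulEquiv.toMonoidHom ((σ ^ d) ^ e)).eqLocus (MonoidHom.id X) ∧
      (((σ ^ d) ^ e) a)⁻¹ * a = (((σ ^ e) a)⁻¹ * a) ^ d := by
  rw [mem_fix] at hg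
  have hx := shintani_fixed σ e g hg a ha
  refine ⟨by rw [ha]; exact telescope σ a d, ?_, ?_⟩
  · rw [mem_fix, ← pow_mul, mul_comm, pow_mul]
    apply fix_pow
    rw [map_list_prod, List.map_map]
    congr 1
    apply List.map_congr_left
    intro i _
    simp only [Function.comp]
    rw [← MulAut.mul_apply, ← pow_add, add_comm, pow_add, MulAut.mul_apply, hg]
  · rw [← pow_mul, mul_comm, pow_mul]
    have hxe : (σ ^ e) (((σ ^ e) a)⁻¹ * a) = ((σ ^ e) a)⁻¹ * a := fix_pow σ hx e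
    have h3 : (σ ^ e) a = a * (((σ ^ e) a)⁻¹ * a)⁻¹ := by group
    rw [pow_mul_apply (σ ^ e) a _ hxe h3 d]
    group

end Cfsg.Agent.S2668
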