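import Cfsg.Statements.S2669

set_option autoImplicit false
open Cfsg

namespace Cfsg.Agent.S2669

theorem fix_pow {X : Type*} [Group X] (τ : MulAut X) {x : X} (h : τ x = x) (k : ℕ) :
    (τ ^ k) x = x := by
  induction k with
  | zero => simp
  | succ k ih => rw [pow_succ, MulAut.mul_apply, h, ih]

theorem mem_fix {X : Type*} [Group X] (τ : MulAut X) (x : X) :
    x ∈ (MulEquiv.toMonoidHom τ).eqLocus (MonoidHom.id X) ↔ τ x = x := Iff.rfl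

theorem stable_pow {X : Type*} [Group X] (σ : MulAut X) (Y : Subgroup X)
    (hY : ∀ y : X, y ∈ Y ↔ σ y ∈ Y) (k : ℕ) (y : X) (hy : y ∈ Y) : (σ ^ k) y ∈ Y := by
  induction k with
  | zero => simpa using hy
  | succ k ih => rw [pow_succ', MulAut.mul_apply]; exact (hY _).mp ih

/-- counting pairs of a relation whose fibres are cosets of a subgroup -/
theorem torsor_count {K H : Type*} [Group H] (N : Subgroup H) (R : K → H → Prop)
    (hR : ∀ k h₀ h, R k h₀ → (R k h ↔ h₀⁻¹ * h ∈ N)) :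
    Nat.card {p : K × H // R p.1 p.2} = Nat.card {k : K // ∃ h, R k h} * Nat.card N := by
  classical
  rw [← Nat.card_prod]
  apply Nat.card_congr
  let h₀ : {k : K // ∃ h, R k h} → H := fun k => Classical.choose k.2
  have h₀spec : ∀ k : {k : K // ∃ h, R k h}, R k.1 (h₀ k) := fun k => Classical.choose_spec k.2
  exact
  { toFun := fun p => (⟨p.1.1, p.1.2, p.2⟩,
      ⟨(h₀ ⟨p.1.1, p.1.2, p.2⟩)⁻¹ * p.1.2, (hR _ _ _ (h₀spec _)).mp p.2⟩)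
    invFun := fun q => ⟨(q.1.1, h₀ q.1 * q.2.1),
      (hR _ _ _ (h₀spec q.1)).mpr (by simpa using q.2.2)⟩
    left_inv := by
      rintro ⟨⟨k, h⟩, hp⟩
      simp
    right_inv := by
      rintro ⟨⟨k, hk⟩, ⟨u, hu⟩⟩
      simp }

theorem L1 {X : Type*} [Group X] (σ : MulAut X) (Y : Subgroup X) (hY : ∀ y : X, y ∈ Y ↔ σ y ∈ Y)
    (hYL : ∀ y ∈ Y, ∃ a ∈ Y, y = a * (σ a)⁻¹) (u : X) :
    u * (σ u)⁻¹ ∈ Y ↔ ∃ h : X, σ h = h ∧ u * h ∈ Y := by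
  constructor
  · intro hmem
    obtain ⟨y, hy, hyeq⟩ := hYL _ hmem
    refine ⟨u⁻¹ * y, ?_, ?_⟩
    · have h1 : σ y = σ u * u⁻¹ * y := by
        have : σ u * u⁻¹ * y = σ u * u⁻¹ * (u * (σ u)⁻¹) * σ y := by
          rw [hyeq]; group
        rw [this]; group
      rw [map_mul, map_inv, h1]; group
    · have : u * (u⁻¹ * y) = y := by group
      rw [this]; exact hy
  · rintro ⟨h, hh, hmem⟩
    have : u * (σ u)⁻¹ = (u * h) * (σ (u * h))⁻¹ := by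
      rw [map_mul σ u h, hh]; group
    rw [this]
    exact Y.mul_mem hmem (Y.inv_mem ((hY _).mp hmem))

theorem L2 {X : Type*} [Group X] (τ : MulAut X) (Y : Subgroup X) (hY : ∀ y : X, y ∈ Y → τ y ∈ Y)
    (hYL : ∀ y ∈ Y, ∃ a ∈ Y, y = a * (τ a)⁻¹) (u : X) :
    (τ u)⁻¹ * u ∈ Y ↔ ∃ k : X, τ k = k ∧ k⁻¹ * u ∈ Y := by
  constructor
  · intro hmem
    obtain ⟨c, hc, hceq⟩ := hYL _ (Y.inv_mem hmem)
    refine ⟨u * c, ?_, ?_⟩
    · have h1 : τ c = (τ u)⁻¹ * u * c := by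
        have : (τ u)⁻¹ * u * c = (τ u)⁻¹ * u * ((τ u)⁻¹ * u)⁻¹ * τ c := by
          rw [hceq]; group
        rw [this]; group
      rw [map_mul, h1]; group
    · have : (u * c)⁻¹ * u = c⁻¹ := by group
      rw [this]; exact Y.inv_mem hc
  · rintro ⟨k, hk, hmem⟩
    have : (τ u)⁻¹ * u = (τ (k⁻¹ * u))⁻¹ * (k⁻¹ * u) := by
      rw [map_mul τ k⁻¹ u, map_inv, hk]; group
    rw [this]
    exact Y.mul_mem (Y.inv_mem (hY _ hmem)) hmem

theorem result {X : Type*} [Group X] (σ : MulAut X) (e : ℕ) (he : 1 ≤ e)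
    [Finite ↥((MulEquiv.toMonoidHom (σ ^ e)).eqLocus (MonoidHom.id X))]
    (Y : Subgroup X) (hY : ∀ y : X, y ∈ Y ↔ σ y ∈ Y)
    (hYL : ∀ y ∈ Y, ∃ a ∈ Y, y = a * (σ a)⁻¹) (hYLe : ∀ y ∈ Y, ∃ a ∈ Y, y = a * ((σ ^ e) a)⁻¹)
    (g : X) (hg : g ∈ (MulEquiv.toMonoidHom (σ ^ e)).eqLocus (MonoidHom.id X)) (a : X) (ha : g = a * (σ a)⁻¹) :
    Nat.card {k : ↥((MulEquiv.toMonoidHom (σ ^ e)).eqLocus (MonoidHom.id X)) // (k : X)⁻¹ * g * σ k ∈ Y} *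
        Nat.card ↥(Y ⊓ (MulEquiv.toMonoidHom σ).eqLocus (MonoidHom.id X)) =
      Nat.card {h : ↥((MulEquiv.toMonoidHom σ).eqLocus (MonoidHom.id X)) // (h : X)⁻¹ * (((σ ^ e) a)⁻¹ * a) * h ∈ Y} *
        Nat.card ↥(Y ⊓ (MulEquiv.toMonoidHom (σ ^ e)).eqLocus (MonoidHom.id X)) := by
  set G : Subgroup X := (MulEquiv.toMonoidHom (σ ^ e)).eqLocus (MonoidHom.id X) with hG
  set H : Subgroup X := (MulEquiv.toMonoidHom σ).eqLocus (MonoidHom.id X) with hH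
  -- the relation
  let R : ↥G → ↥H → Prop := fun k h => (k : X)⁻¹ * a * (h : X) ∈ Y
  have hR1 : ∀ (k : ↥G) (h₀ h : ↥H), R k h₀ → (R k h ↔ h₀⁻¹ * h ∈ Y.subgroupOf H) := by
    intro k h₀ h hR
    have : (k : X)⁻¹ * a * (h : X) = ((k : X)⁻¹ * a * (h₀ : X)) * ((h₀ : X)⁻¹ * (h : X)) := by group
    show (k : X)⁻¹ * a * (h : X) ∈ Y ↔ _
    rw [this, Subgroup.mul_mem_cancel_left Y hR, Subgroup.mem_subgroupOf]
    simp
  have hR2 : ∀ (h : ↥H) (k₀ k : ↥G), R k₀ h → (R k h ↔ k₀⁻¹ * k ∈ Y.subgroupOf G) := by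
    intro h k₀ k hR
    have : ((k₀ : X)⁻¹ * (k : X)) = ((k₀ : X)⁻¹ * a * (h : X)) * ((k : X)⁻¹ * a * (h : X))⁻¹ := by
      group
    show (k : X)⁻¹ * a * (h : X) ∈ Y ↔ _
    rw [Subgroup.mem_subgroupOf]
    simp only [Subgroup.coe_mul, InvMemClass.coe_inv]
    rw [this, Subgroup.mul_mem_cancel_left Y hR, Subgroup.inv_mem_iff]
  have c1 := torsor_count (Y.subgroupOf H) R hR1
  have c2 := torsor_count (Y.subgroupOf G) (fun h k => R k h) hR2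
  have c3 : Nat.card {p : ↥G × ↥H // R p.1 p.2} = Nat.card {p : ↥H × ↥G // R p.2 p.1} :=
    Nat.card_congr
      { toFun := fun p => ⟨(p.1.2, p.1.1), p.2⟩
        invFun := fun p => ⟨(p.1.2, p.1.1), p.2⟩
        left_inv := fun p => rfl
        right_inv := fun p => rfl }
  have eA : Nat.card {k : ↥G // (k : X)⁻¹ * g * σ k ∈ Y} = Nat.card {k : ↥G // ∃ h : ↥H, R k h} := by
    apply Nat.card_congr
    apply Equiv.subtypeEquivRight
    intro k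
    have hu : (k : X)⁻¹ * g * σ k = ((k : X)⁻¹ * a) * (σ ((k : X)⁻¹ * a))⁻¹ := by
      rw [ha, map_mul, map_inv]; group
    rw [hu, L1 σ Y hY hYL]
    constructor
    · rintro ⟨h, hh, hm⟩
      exact ⟨⟨h, hh⟩, hm⟩
    · rintro ⟨h, hm⟩
      exact ⟨h.1, h.2, hm⟩
  have eB : Nat.card {h : ↥H // (h : X)⁻¹ * (((σ ^ e) a)⁻¹ * a) * h ∈ Y} =
      Nat.card {h : ↥H // ∃ k : ↥G, R k h} := by
    apply Nat.card_congr
    apply Equiv.subtypeEquivRight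
    intro h
    have hhe : (σ ^ e) (h : X) = h := fix_pow σ h.2 e
    have hu : (h : X)⁻¹ * (((σ ^ e) a)⁻¹ * a) * h = ((σ ^ e) (a * (h : X)))⁻¹ * (a * (h : X)) := by
      rw [map_mul, hhe]; group
    rw [hu, L2 (σ ^ e) Y (fun y hy => stable_pow σ Y hY e y hy) hYLe]
    constructor
    · rintro ⟨k, hk, hm⟩
      refine ⟨⟨k, hk⟩, ?_⟩
      show (k : X)⁻¹ * a * (h : X) ∈ Y
      rw [mul_assoc]; exact hm
    · rintro ⟨k, hm⟩
      refine ⟨k.1, k.2, ?_⟩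
      rw [← mul_assoc]; exact hm
  have eN1 : Nat.card ↥(Y ⊓ H) = Nat.card ↥(Y.subgroupOf H) := by
    rw [← Subgroup.inf_subgroupOf_right Y H]
    exact Nat.card_congr (Subgroup.subgroupOfEquivOfLe inf_le_right).toEquiv.symm
  have eN2 : Nat.card ↥(Y ⊓ G) = Nat.card ↥(Y.subgroupOf G) := by
    rw [← Subgroup.inf_subgroupOf_right Y G]
    exact Nat.card_congr (Subgroup.subgroupOfEquivOfLe inf_le_right).toEquiv.symm
  rw [eA, eB, eN1, eN2, ← c1, ← c2, c3]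

end Cfsg.Agent.S2669
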