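import Cfsg.Statements.S2671
import Cfsg.Agent.S2587
import Cfsg.Agent.Helper43.PrimeOrdU
import Cfsg.Agent.Helper43.InvolPairs
import Cfsg.Agent.Helper43.ClassCount

set_option autoImplicit false
open Cfsg

namespace Cfsg.Agent.S2671

open Polynomial Cfsg.Agent.Helper43.SpReal Cfsg.Agent.Helper43.CycFactors
  Cfsg.Agent.Helper43.PrimeOrdMat Cfsg.Agent.Helper43.StarPoly Cfsg.Agent.Helper43.PrimeOrdU
  Cfsg.Agent.Helper43.InvolPairs Cfsg.Agent.Helper43.ClassCount Cfsg.Agent.Helper43.HermAdj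
  Cfsg.Agent.Helper43.NormH90

/-- Number of conjugacy classes of elements of odd prime order r in the general unitary group GU_n(q), for r not dividing q(q + 1): let i be the multiplicative order of q modulo r, b = i if i is odd and b = i/2 if i is even, and s = (r − 1)/b. If i ≢ 2 (mod 4) the eigenvalue orbits pair off into dual pairs of totally isotropic blocks and there are C(⌊n/(2b)⌋ + s/2, s/2) − 1 classes; if i ≡ 2 (mod 4) each orbit gives a non-degenerate block of dimension i/2 and there are C(⌊2n/i⌋ + s, s) − 1 classes. -/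
theorem result {K : Type*} [Field K] [Fintype K] {p q n r i b s : ℕ} [Fact p.Prime] [CharP K p] (hK : Fintype.card K = q ^ 2) (hr : r.Prime) (hr2 : r ≠ 2) (hrp : r ≠ p) (hi : i = orderOf (q : ZMod r)) (hi2 : i ≠ 2) (hb : b = if Odd i then i else i / 2) (hs : s * b = r - 1) : Nat.card {C : ConjClasses ↥(Cfsg.GU n K q) // ∃ g : ↥(Cfsg.GU n K q), ConjClasses.mk g = C ∧ orderOf g = r} = if i % 4 = 2 then Nat.choose (2 * n / i + s) s - 1 else Nat.choose (n / (2 * b) + s / 2) (s / 2) - 1 := by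
  classical
  obtain ⟨σ, hσ⟩ := exists_frobQ hK
  have hσσ : ∀ c, σ (σ c) = c := fun c => by rw [hσ, hσ, pow_q_q hK]
  have hrp' : r.Coprime p := (Nat.coprime_primes hr Fact.out).mpr hrp
  have hrK : (r : K) ≠ 0 := natCast_ne_zero_of_ne hr hrp
  have hd : orderOf (((q ^ 2 : ℕ)) : ZMod r) = b := by
    rw [orderOf_sq_cast, ← hi, hb]
    by_cases hodd : Odd i
    · rw [if_pos hodd, (Nat.coprime_two_right.mpr hodd : Nat.gcd i 2 = 1), Nat.div_one]
    · rw [if_neg hodd,
        Nat.gcd_eq_right (even_iff_two_dvd.mp (Nat.not_odd_iff_even.mp hodd))]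
  have hbpos : 0 < b := by
    rw [← hd]
    exact orderOf_pos_of_card (p := p) hK hr hrp
  have hJcard : Fintype.card ↥(cycJ K r) = s := by
    rw [Fintype.card_coe]
    have h1 := cycJ_card_mul (p := p) hK hr hrp
    rw [hd, ← hs] at h1
    exact Nat.eq_of_mul_eq_mul_right hbpos h1
  -- step 1: classes correspond to characteristic polynomials
  have h1 : ∀ g h : ↥(Cfsg.GU n K q), IsConj g h →
      ((g : GL (Fin n) K) : Matrix (Fin n) (Fin n) K).charpoly =
        ((h : GL (Fin n) K) : Matrix (Fin n) (Fin n) K).charpoly := by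
    intro g h hgh
    obtain ⟨c, hc⟩ := isConj_iff.mp hgh
    have e : ((h : GL (Fin n) K) : Matrix (Fin n) (Fin n) K) =
        ((c : GL (Fin n) K) : Matrix (Fin n) (Fin n) K) *
          ((g : GL (Fin n) K) : Matrix (Fin n) (Fin n) K) *
          (((c⁻¹ : ↥(Cfsg.GU n K q)) : GL (Fin n) K) : Matrix (Fin n) (Fin n) K) := by
      rw [← hc]
      rfl
    have e2 : (((c⁻¹ : ↥(Cfsg.GU n K q)) : GL (Fin n) K) : Matrix (Fin n) (Fin n) K) *
          ((c : GL (Fin n) K) : Matrix (Fin n) (Fin n) K) = 1 := by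
      rw [← Units.val_mul, ← Subgroup.coe_mul, inv_mul_cancel]
      rfl
    rw [e, Matrix.charpoly_mul_comm, ← Matrix.mul_assoc, e2, Matrix.one_mul]
  have h2 : ∀ g h : ↥(Cfsg.GU n K q), orderOf g = r → orderOf h = r →
      ((g : GL (Fin n) K) : Matrix (Fin n) (Fin n) K).charpoly =
        ((h : GL (Fin n) K) : Matrix (Fin n) (Fin n) K).charpoly → IsConj g h := by
    intro g h hg hh hc
    have hak : ((g : GL (Fin n) K) : Matrix (Fin n) (Fin n) K) ^ r = 1 := by
      rw [← Units.val_pow_eq_pow_val, ← Subgroup.coe_pow, ← hg, pow_orderOf_eq_one]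
      rfl
    have hbk : ((h : GL (Fin n) K) : Matrix (Fin n) (Fin n) K) ^ r = 1 := by
      rw [← Units.val_pow_eq_pow_val, ← Subgroup.coe_pow, ← hh, pow_orderOf_eq_one]
      rfl
    obtain ⟨P, hPdet, hPab⟩ := Cfsg.Agent.Helper40.exists_conj_matrix p hrp' hrp' _ _ hak hbk hc
    rw [Cfsg.Agent.S2587.result hK g h]
    refine isConj_iff.2 ⟨Matrix.SpecialLinearGroup.toGL ⟨P, hPdet⟩, ?_⟩
    rw [mul_inv_eq_iff_eq_mul]
    apply Units.ext
    exact hPab
  rw [card_classes_eq_invariant (fun g : ↥(Cfsg.GU n K q) => orderOf g = r)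
    (fun g => ((g : GL (Fin n) K) : Matrix (Fin n) (Fin n) K).charpoly) h1 h2]
  by_cases h4 : i % 4 = 2
  · rw [if_pos h4]
    have hev : ¬ Odd i := by
      rw [Nat.not_odd_iff_even]
      exact ⟨i / 2, by omega⟩
    have hbi : i = 2 * b := by
      rw [hb, if_neg hev]
      omega
    have e : 2 * n / i = n / b := by rw [hbi, Nat.mul_div_mul_left _ _ two_pos]
    have hstar : ∀ P ∈ cycJ K r, ustar σ P = P := fun P hP =>
      ustar_eq_self hK σ hσ p hr (by rw [← hi]; exact h4) hP
    rw [e, ← hJcard, ← card_nonzero_le (↥(cycJ K r)) b n hbpos]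
    symm
    have hwd : ∀ a : {a : ↥(cycJ K r) → ℕ // a ≠ 0 ∧ b * ∑ x, a x ≤ n},
        ∃ g : ↥(Cfsg.GU n K q), orderOf g = r ∧
          ((g : GL (Fin n) K) : Matrix (Fin n) (Fin n) K).charpoly =
            psi r (n - b * ∑ x, a.1 x) (extJ r a.1) := by
      intro a
      have ha := a.2.2
      apply uexists_of_psi hK σ hσ p hr hrp
      · intro P hP
        rw [hstar P hP]
      · obtain ⟨y, hy⟩ : ∃ y, a.1 y ≠ 0 := by
          by_contra h
          push Not at h
          exact a.2.1 (funext h)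
        exact ⟨y.1, y.2, by rw [extJ_apply]; exact hy⟩
      · rw [hd, sum_extJ]
        omega
    let Ψ : {a : ↥(cycJ K r) → ℕ // a ≠ 0 ∧ b * ∑ x, a x ≤ n} →
        {f : K[X] // ∃ g : ↥(Cfsg.GU n K q), orderOf g = r ∧
          ((g : GL (Fin n) K) : Matrix (Fin n) (Fin n) K).charpoly = f} :=
      fun a => ⟨psi r (n - b * ∑ x, a.1 x) (extJ r a.1), hwd a⟩
    apply Nat.card_eq_of_bijective Ψ
    constructor
    · intro a a' h
      have h3 : (psi r (n - b * ∑ x, a.1 x) (extJ r a.1) : K[X]) =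
          psi r (n - b * ∑ x, a'.1 x) (extJ r a'.1) := congrArg Subtype.val h
      have h4 := (psi_injective hr hrK _ _ _ _ h3).2
      apply Subtype.ext
      funext P
      have h5 := h4 P.1 P.2
      rw [extJ_apply, extJ_apply] at h5
      exact h5
    · rintro ⟨f, g, hg, rfl⟩
      obtain ⟨c₀, c, hc, -, hcnz, hcdeg⟩ := ucharpoly_of_order hK σ hσ p hr hrp g hg
      rw [hd] at hcdeg
      have hcong : (psi r c₀ c : K[X]) = psi r c₀ (extJ r fun P => c P.1) := by
        apply psi_congr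
        intro P hP
        exact (extJ_apply r (fun P => c P.1) ⟨P, hP⟩).symm
      have hsumc : ∑ P ∈ cycJ K r, c P = ∑ P : ↥(cycJ K r), c P.1 := by
        rw [← Finset.sum_coe_sort]
      rw [hsumc] at hcdeg
      have hne : (fun P : ↥(cycJ K r) => c P.1) ≠ 0 := by
        intro h0
        obtain ⟨P, hP, hPne⟩ := hcnz
        exact hPne (congrFun h0 ⟨P, hP⟩)
      have hle : b * ∑ x : ↥(cycJ K r), c x.1 ≤ n := by omega
      refine ⟨⟨fun P => c P.1, hne, hle⟩, ?_⟩
      apply Subtype.ext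
      show psi r (n - b * ∑ x : ↥(cycJ K r), c x.1) (extJ r fun P => c P.1) =
        ((g : GL (Fin n) K) : Matrix (Fin n) (Fin n) K).charpoly
      rw [hc, hcong]
      congr 1
      omega
  · rw [if_neg h4]
    let τ : ↥(cycJ K r) → ↥(cycJ K r) := fun P => ⟨ustar σ P.1, ustar_mem_cycJ σ hσσ hr hrK P.2⟩
    have hτ : ∀ x, τ (τ x) = x := fun x =>
      Subtype.ext (ustar_ustar σ hσσ (mem_cycJ.mp x.2).1 (coeff_zero_ne_of_mem hr x.2))
    have hfix : ∀ x, τ x ≠ x := fun x h =>
      ustar_ne_self hK σ hσ p hr hr2 hrp (by rw [← hi]; exact h4) x.2 (congrArg Subtype.val h)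
    obtain ⟨t, ht⟩ := exists_transversal τ hτ hfix
    have htcard : Fintype.card ↥t = s / 2 := by
      rw [Fintype.card_coe]
      have h3 := two_mul_card_transversal τ hτ t ht
      rw [hJcard] at h3
      omega
    rw [← htcard, ← card_nonzero_le (↥t) (2 * b) n (by omega)]
    symm
    have hsum : ∀ a : ↥t → ℕ, ∑ P ∈ cycJ K r, extJ r (symExt τ t a) P = 2 * ∑ y, a y := by
      intro a
      rw [sum_extJ, sum_symExt τ hτ t ht]
    have hsymm : ∀ a : ↥t → ℕ, ∀ P ∈ cycJ K r,
        extJ r (symExt τ t a) (ustar σ P) = extJ r (symExt τ t a) P := by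
      intro a P hP
      have e1 := extJ_apply r (symExt τ t a) ⟨P, hP⟩
      have e2 : extJ r (symExt τ t a) (ustar σ P) = symExt τ t a (τ ⟨P, hP⟩) :=
        extJ_apply r (symExt τ t a) (τ ⟨P, hP⟩)
      rw [e2, symExt_symm τ hτ t ht, ← e1]
    have hwd : ∀ a : {a : ↥t → ℕ // a ≠ 0 ∧ (2 * b) * ∑ y, a y ≤ n},
        ∃ g : ↥(Cfsg.GU n K q), orderOf g = r ∧
          ((g : GL (Fin n) K) : Matrix (Fin n) (Fin n) K).charpoly =
            psi r (n - b * (2 * ∑ y, a.1 y)) (extJ r (symExt τ t a.1)) := by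
      intro a
      have ha := a.2.2
      have e : b * (2 * ∑ y, a.1 y) = (2 * b) * ∑ y, a.1 y := by ring
      apply uexists_of_psi hK σ hσ p hr hrp
      · exact hsymm a.1
      · obtain ⟨y, hy⟩ : ∃ y, a.1 y ≠ 0 := by
          by_contra h
          push Not at h
          exact a.2.1 (funext h)
        refine ⟨y.1.1, y.1.2, ?_⟩
        rw [extJ_apply r _ y.1, symExt_of_mem]
        exact hy
      · rw [hd, hsum, e]
        omega
    let Ψ : {a : ↥t → ℕ // a ≠ 0 ∧ (2 * b) * ∑ y, a y ≤ n} →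
        {f : K[X] // ∃ g : ↥(Cfsg.GU n K q), orderOf g = r ∧
          ((g : GL (Fin n) K) : Matrix (Fin n) (Fin n) K).charpoly = f} :=
      fun a => ⟨psi r (n - b * (2 * ∑ y, a.1 y)) (extJ r (symExt τ t a.1)), hwd a⟩
    apply Nat.card_eq_of_bijective Ψ
    constructor
    · intro a a' h
      have h3 : (psi r (n - b * (2 * ∑ y, a.1 y)) (extJ r (symExt τ t a.1)) : K[X]) =
          psi r (n - b * (2 * ∑ y, a'.1 y)) (extJ r (symExt τ t a'.1)) :=
        congrArg Subtype.val h
      have h4 := (psi_injective hr hrK _ _ _ _ h3).2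
      apply Subtype.ext
      apply symExt_injective τ t
      funext P
      have h5 := h4 P.1 P.2
      rw [extJ_apply, extJ_apply] at h5
      exact h5
    · rintro ⟨f, g, hg, rfl⟩
      obtain ⟨c₀, c, hc, hcsym, hcnz, hcdeg⟩ := ucharpoly_of_order hK σ hσ p hr hrp g hg
      rw [hd] at hcdeg
      let a : ↥(cycJ K r) → ℕ := fun P => c P.1
      have haτ : ∀ x, a (τ x) = a x := fun x => hcsym x.1 x.2
      let a' : ↥t → ℕ := fun y => a y.1
      have hab : symExt τ t a' = a := symExt_restrict τ t ht a haτ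
      have hcong : (psi r c₀ c : K[X]) = psi r c₀ (extJ r (symExt τ t a')) := by
        apply psi_congr
        intro P hP
        rw [hab]
        exact (extJ_apply r a ⟨P, hP⟩).symm
      have hsumc : ∑ P ∈ cycJ K r, c P = 2 * ∑ y, a' y := by
        rw [← sum_symExt τ hτ t ht, hab, ← Finset.sum_coe_sort]
      have hbne : a' ≠ 0 := by
        intro h0
        obtain ⟨P, hP, hPne⟩ := hcnz
        apply hPne
        have h3 : a ⟨P, hP⟩ = 0 := by
          rw [← hab, h0, symExt_zero]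
          rfl
        exact h3
      rw [hsumc] at hcdeg
      have e : b * (2 * ∑ y, a' y) = (2 * b) * ∑ y, a' y := by ring
      have hle : (2 * b) * ∑ y, a' y ≤ n := by
        rw [e] at hcdeg
        omega
      refine ⟨⟨a', hbne, hle⟩, ?_⟩
      apply Subtype.ext
      show psi r (n - b * (2 * ∑ y, a' y)) (extJ r (symExt τ t a')) =
        ((g : GL (Fin n) K) : Matrix (Fin n) (Fin n) K).charpoly
      rw [hc, hcong]
      congr 1
      omega

end Cfsg.Agent.S2671
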