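import Cfsg.Statements.S2672
import Cfsg.Agent.Helper37.Pu4
-- import your own Cfsg.Agent.* helpers here

set_option autoImplicit false
open Cfsg

namespace Cfsg.Agent.S2672

/-- Number of conjugacy classes of elements of odd prime order r in PGU_n(q) = GU_n(q)/scalars (n ≥ 3) when r divides q + 1: as in the linear case with q − 1 replaced by q + 1, the classes correspond to the rotation orbits on r-tuples of eigenvalue multiplicities summing to n with every entry < n, plus r − 1 further classes when r divides n; in all (C(n+r−1, r−1) − r − [r ∣ n])/r + r·[r ∣ n]. -/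
theorem result {K : Type*} [Field K] [Fintype K] {q n r : ℕ} (hK : Fintype.card K = q ^ 2) (hn : 3 ≤ n) (hr : r.Prime) (hr2 : r ≠ 2) (hrq : r ∣ q + 1) : Nat.card {C : ConjClasses (↥(Cfsg.GU n K q) ⧸ Subgroup.center ↥(Cfsg.GU n K q)) // ∃ g : ↥(Cfsg.GU n K q) ⧸ Subgroup.center ↥(Cfsg.GU n K q), ConjClasses.mk g = C ∧ orderOf g = r} = (Nat.choose (n + r - 1) (r - 1) - r - (if r ∣ n then 1 else 0)) / r + r * (if r ∣ n then 1 else 0) := by
  exact Cfsg.Agent.Helper37.pu_main hK hn hr hr2 hrq

end Cfsg.Agent.S2672
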