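import Cfsg.Statements.S2673
import Cfsg.Agent.Helper43.PrimeOrdO
import Cfsg.Agent.Helper43.InvolPairs
import Cfsg.Agent.Helper43.ClassCount

set_option autoImplicit false
open Cfsg

namespace Cfsg.Agent.S2673

open Polynomial Cfsg.Agent.Helper43 Cfsg.Agent.Helper43.SpReal Cfsg.Agent.Helper43.CycFactors
  Cfsg.Agent.Helper43.PrimeOrdMat Cfsg.Agent.Helper43.StarPoly Cfsg.Agent.Helper43.PrimeOrdO
  Cfsg.Agent.Helper43.InvolPairs Cfsg.Agent.Helper43.ClassCount

/-- Number of conjugacy classes of elements of odd prime order r ≠ p in the orthogonal group O_(2m+1)(q) of x_0² + Σ x_j y_j, q odd: with i the multiplicative order of q mod r and t = (r − 1)/i, there are C(⌊m/i⌋ + t/2, t/2) − 1 classes if i is odd (dual pairs of totally singular i-blocks) and C(⌊(2m+1)/i⌋ + t, t) − 1 if i is even (elliptic i-blocks). -/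
theorem result {F : Type*} [Field F] [Fintype F] {p q : ℕ} [Fact p.Prime] [CharP F p] (hF : Fintype.card F = q) (hq : Odd q) (m r i t : ℕ) (hr : r.Prime) (hr2 : r ≠ 2) (hrp : r ≠ p) (hi : i = orderOf (q : ZMod r)) (ht : t * i = r - 1) : Nat.card {C : ConjClasses ↥(Cfsg.isometryGroup F (Cfsg.quadFormOdd m F)) // ∃ g : ↥(Cfsg.isometryGroup F (Cfsg.quadFormOdd m F)), ConjClasses.mk g = C ∧ orderOf g = r} = if Odd i then Nat.choose (m / i + t / 2) (t / 2) - 1 else Nat.choose ((2 * m + 1) / i + t) t - 1 := by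
  classical
  have h2F : (2 : F) ≠ 0 := two_ne_zero_of_odd_card hF hq
  have hrp' : r.Coprime p := (Nat.coprime_primes hr Fact.out).mpr hrp
  have hrF : (r : F) ≠ 0 := natCast_ne_zero_of_ne hr hrp
  have hrodd : Odd r := hr.odd_of_ne_two hr2
  have hipos : 0 < i := by
    rw [hi]
    exact orderOf_pos_of_card (p := p) hF hr hrp
  have hJcard : Fintype.card ↥(cycJ F r) = t := by
    rw [Fintype.card_coe]
    have h1 := cycJ_card_mul (p := p) hF hr hrp
    rw [← hi, ← ht] at h1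
    exact Nat.eq_of_mul_eq_mul_right hipos h1
  have hQnd := oddQF_nondeg h2F m
  have hcardι : Fintype.card (Unit ⊕ (Fin m ⊕ Fin m)) = 2 * m + 1 := by
    simp only [Fintype.card_sum, Fintype.card_unit, Fintype.card_fin]
    omega
  let χ : ↥(Cfsg.isometryGroup F (Cfsg.quadFormOdd m F)) → F[X] := fun g =>
    ((g : Matrix.GeneralLinearGroup (Unit ⊕ (Fin m ⊕ Fin m)) F) :
      Matrix (Unit ⊕ (Fin m ⊕ Fin m)) (Unit ⊕ (Fin m ⊕ Fin m)) F).charpoly
  -- step 1: classes correspond to characteristic polynomials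
  have h1 : ∀ g h : ↥(Cfsg.isometryGroup F (Cfsg.quadFormOdd m F)), IsConj g h → χ g = χ h := by
    intro g h hgh
    obtain ⟨c, hc⟩ := isConj_iff.mp hgh
    have e : ((h : Matrix.GeneralLinearGroup (Unit ⊕ (Fin m ⊕ Fin m)) F) :
        Matrix (Unit ⊕ (Fin m ⊕ Fin m)) (Unit ⊕ (Fin m ⊕ Fin m)) F) =
        ((c : Matrix.GeneralLinearGroup (Unit ⊕ (Fin m ⊕ Fin m)) F) :
          Matrix (Unit ⊕ (Fin m ⊕ Fin m)) (Unit ⊕ (Fin m ⊕ Fin m)) F) *
        ((g : Matrix.GeneralLinearGroup (Unit ⊕ (Fin m ⊕ Fin m)) F) :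
          Matrix (Unit ⊕ (Fin m ⊕ Fin m)) (Unit ⊕ (Fin m ⊕ Fin m)) F) *
        (((c⁻¹ : ↥(Cfsg.isometryGroup F (Cfsg.quadFormOdd m F))) :
          Matrix.GeneralLinearGroup (Unit ⊕ (Fin m ⊕ Fin m)) F) :
          Matrix (Unit ⊕ (Fin m ⊕ Fin m)) (Unit ⊕ (Fin m ⊕ Fin m)) F) := by
      rw [← hc]
      rfl
    have e2 : (((c⁻¹ : ↥(Cfsg.isometryGroup F (Cfsg.quadFormOdd m F))) :
          Matrix.GeneralLinearGroup (Unit ⊕ (Fin m ⊕ Fin m)) F) :
          Matrix (Unit ⊕ (Fin m ⊕ Fin m)) (Unit ⊕ (Fin m ⊕ Fin m)) F) *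
        ((c : Matrix.GeneralLinearGroup (Unit ⊕ (Fin m ⊕ Fin m)) F) :
          Matrix (Unit ⊕ (Fin m ⊕ Fin m)) (Unit ⊕ (Fin m ⊕ Fin m)) F) = 1 := by
      rw [← Units.val_mul, ← Subgroup.coe_mul, inv_mul_cancel]
      rfl
    show Matrix.charpoly _ = Matrix.charpoly _
    rw [e, Matrix.charpoly_mul_comm, ← Matrix.mul_assoc, e2, Matrix.one_mul]
  have h2 : ∀ g h : ↥(Cfsg.isometryGroup F (Cfsg.quadFormOdd m F)), orderOf g = r →
      orderOf h = r → χ g = χ h → IsConj g h := by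
    intro g h hg hh hc
    have hgo : Odd (orderOf g) := by rw [hg]; exact hrodd
    have hgp : (orderOf g).Coprime p := by rw [hg]; exact hrp'
    have hhp : (orderOf h).Coprime p := by rw [hh]; exact hrp'
    exact isConj_of_charpoly (p := p) (oddQF m F) hQnd g h hgo hgp hhp hc
  rw [card_classes_eq_invariant (fun g : ↥(Cfsg.isometryGroup F (Cfsg.quadFormOdd m F)) =>
    orderOf g = r) χ h1 h2]
  by_cases hodd : Odd i
  · rw [if_pos hodd]
    have hodd' : Odd (orderOf (q : ZMod r)) := by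
      rw [← hi]
      exact hodd
    let σ : ↥(cycJ F r) → ↥(cycJ F r) := fun P => ⟨Cfsg.Agent.Helper43.SpReal.star P.1, star_mem_cycJ hr hrF P.2⟩
    have hσ : ∀ x, σ (σ x) = x := fun x =>
      Subtype.ext (Cfsg.Agent.Helper43.StarPoly.star_star (mem_cycJ.mp x.2).1 (coeff_zero_ne_of_mem hr x.2))
    have hfix : ∀ x, σ x ≠ x := fun x h =>
      star_ne_self_of_odd (p := p) hF hr hr2 hrp hodd' x.2 (congrArg Subtype.val h)
    obtain ⟨s, hs⟩ := exists_transversal σ hσ hfix
    have hscard : Fintype.card ↥s = t / 2 := by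
      rw [Fintype.card_coe]
      have h3 := two_mul_card_transversal σ hσ s hs
      rw [hJcard] at h3
      omega
    rw [← hscard, ← card_nonzero_le (↥s) i m hipos]
    symm
    have hsum : ∀ b : ↥s → ℕ, ∑ P ∈ cycJ F r, extJ r (symExt σ s b) P = 2 * ∑ y, b y := by
      intro b
      rw [sum_extJ, sum_symExt σ hσ s hs]
    have hsymm : ∀ b : ↥s → ℕ, ∀ P ∈ cycJ F r,
        extJ r (symExt σ s b) (Cfsg.Agent.Helper43.SpReal.star P) = extJ r (symExt σ s b) P := by
      intro b P hP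
      have e1 := extJ_apply r (symExt σ s b) ⟨P, hP⟩
      have e2 : extJ r (symExt σ s b) (Cfsg.Agent.Helper43.SpReal.star P) = symExt σ s b (σ ⟨P, hP⟩) :=
        extJ_apply r (symExt σ s b) (σ ⟨P, hP⟩)
      rw [e2, symExt_symm σ hσ s hs, ← e1]
    have hwd : ∀ b : {b : ↥s → ℕ // b ≠ 0 ∧ i * ∑ y, b y ≤ m},
        ∃ g : ↥(Cfsg.isometryGroup F (Cfsg.quadFormOdd m F)), orderOf g = r ∧
          χ g = psi r (2 * m + 1 - i * (2 * ∑ y, b.1 y)) (extJ r (symExt σ s b.1)) := by
      intro b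
      have hb := b.2.2
      have e : i * (2 * ∑ y, b.1 y) = 2 * (i * ∑ y, b.1 y) := by ring
      apply oexists_of_psi_odd (p := p) hF h2F hr hrp
      · exact hsymm b.1
      · obtain ⟨y, hy⟩ : ∃ y, b.1 y ≠ 0 := by
          by_contra h
          push Not at h
          exact b.2.1 (funext h)
        refine ⟨y.1.1, y.1.2, ?_⟩
        rw [extJ_apply r _ y.1, symExt_of_mem]
        exact hy
      · rw [← hi, hsum, e]
        omega
    let Ψ : {b : ↥s → ℕ // b ≠ 0 ∧ i * ∑ y, b y ≤ m} →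
        {f : F[X] // ∃ g : ↥(Cfsg.isometryGroup F (Cfsg.quadFormOdd m F)), orderOf g = r ∧
          χ g = f} :=
      fun b => ⟨psi r (2 * m + 1 - i * (2 * ∑ y, b.1 y)) (extJ r (symExt σ s b.1)), hwd b⟩
    apply Nat.card_eq_of_bijective Ψ
    constructor
    · intro b b' h
      have h3 : (psi r (2 * m + 1 - i * (2 * ∑ y, b.1 y)) (extJ r (symExt σ s b.1)) : F[X]) =
          psi r (2 * m + 1 - i * (2 * ∑ y, b'.1 y)) (extJ r (symExt σ s b'.1)) :=
        congrArg Subtype.val h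
      have h4 := (psi_injective hr hrF _ _ _ _ h3).2
      apply Subtype.ext
      apply symExt_injective σ s
      funext P
      have h5 := h4 P.1 P.2
      rw [extJ_apply, extJ_apply] at h5
      exact h5
    · rintro ⟨f, g, hg, rfl⟩
      obtain ⟨c₀, c, hc, hcsym, hcnz, hcdeg⟩ :=
        ocharpoly_of_order (p := p) hF hr hrp (oddQF m F) hQnd g hg
      rw [← hi, hcardι] at hcdeg
      let a : ↥(cycJ F r) → ℕ := fun P => c P.1
      have haσ : ∀ x, a (σ x) = a x := fun x => hcsym x.1 x.2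
      let b : ↥s → ℕ := fun y => a y.1
      have hab : symExt σ s b = a := symExt_restrict σ s hs a haσ
      have hcong : (psi r c₀ c : F[X]) = psi r c₀ (extJ r (symExt σ s b)) := by
        apply psi_congr
        intro P hP
        rw [hab]
        exact (extJ_apply r a ⟨P, hP⟩).symm
      have hsumc : ∑ P ∈ cycJ F r, c P = 2 * ∑ y, b y := by
        rw [← sum_symExt σ hσ s hs, hab, ← Finset.sum_coe_sort]
      have hbne : b ≠ 0 := by
        intro h0
        obtain ⟨P, hP, hPne⟩ := hcnz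
        apply hPne
        have h3 : a ⟨P, hP⟩ = 0 := by
          rw [← hab, h0, symExt_zero]
          rfl
        exact h3
      rw [hsumc] at hcdeg
      have e : i * (2 * ∑ y, b y) = 2 * (i * ∑ y, b y) := by ring
      have hle : i * ∑ y, b y ≤ m := by
        rw [e] at hcdeg
        omega
      refine ⟨⟨b, hbne, hle⟩, ?_⟩
      apply Subtype.ext
      show psi r (2 * m + 1 - i * (2 * ∑ y, b y)) (extJ r (symExt σ s b)) = χ g
      have hc' : χ g = psi r c₀ c := hc
      rw [hc', hcong]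
      congr 1
      omega
  · rw [if_neg hodd]
    have hev : Even i := Nat.not_odd_iff_even.mp hodd
    have hev' : Even (orderOf (q : ZMod r)) := by
      rw [← hi]
      exact hev
    have hstar : ∀ P ∈ cycJ F r, Cfsg.Agent.Helper43.SpReal.star P = P := fun P hP =>
      star_eq_self_of_even (p := p) hF hr hrp hev' hP
    rw [← hJcard, ← card_nonzero_le (↥(cycJ F r)) i (2 * m + 1) hipos]
    symm
    have hwd : ∀ a : {a : ↥(cycJ F r) → ℕ // a ≠ 0 ∧ i * ∑ x, a x ≤ 2 * m + 1},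
        ∃ g : ↥(Cfsg.isometryGroup F (Cfsg.quadFormOdd m F)), orderOf g = r ∧
          χ g = psi r (2 * m + 1 - i * ∑ x, a.1 x) (extJ r a.1) := by
      intro a
      have ha := a.2.2
      apply oexists_of_psi_odd (p := p) hF h2F hr hrp
      · intro P hP
        rw [hstar P hP]
      · obtain ⟨y, hy⟩ : ∃ y, a.1 y ≠ 0 := by
          by_contra h
          push Not at h
          exact a.2.1 (funext h)
        exact ⟨y.1, y.2, by rw [extJ_apply]; exact hy⟩
      · rw [← hi, sum_extJ]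
        omega
    let Ψ : {a : ↥(cycJ F r) → ℕ // a ≠ 0 ∧ i * ∑ x, a x ≤ 2 * m + 1} →
        {f : F[X] // ∃ g : ↥(Cfsg.isometryGroup F (Cfsg.quadFormOdd m F)), orderOf g = r ∧
          χ g = f} :=
      fun a => ⟨psi r (2 * m + 1 - i * ∑ x, a.1 x) (extJ r a.1), hwd a⟩
    apply Nat.card_eq_of_bijective Ψ
    constructor
    · intro a a' h
      have h3 : (psi r (2 * m + 1 - i * ∑ x, a.1 x) (extJ r a.1) : F[X]) =
          psi r (2 * m + 1 - i * ∑ x, a'.1 x) (extJ r a'.1) := congrArg Subtype.val h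
      have h4 := (psi_injective hr hrF _ _ _ _ h3).2
      apply Subtype.ext
      funext P
      have h5 := h4 P.1 P.2
      rw [extJ_apply, extJ_apply] at h5
      exact h5
    · rintro ⟨f, g, hg, rfl⟩
      obtain ⟨c₀, c, hc, -, hcnz, hcdeg⟩ :=
        ocharpoly_of_order (p := p) hF hr hrp (oddQF m F) hQnd g hg
      rw [← hi, hcardι] at hcdeg
      have hcong : (psi r c₀ c : F[X]) = psi r c₀ (extJ r fun P => c P.1) := by
        apply psi_congr
        intro P hP
        exact (extJ_apply r (fun P => c P.1) ⟨P, hP⟩).symm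
      have hsumc : ∑ P ∈ cycJ F r, c P = ∑ P : ↥(cycJ F r), c P.1 := by
        rw [← Finset.sum_coe_sort]
      rw [hsumc] at hcdeg
      have hne : (fun P : ↥(cycJ F r) => c P.1) ≠ 0 := by
        intro h0
        obtain ⟨P, hP, hPne⟩ := hcnz
        exact hPne (congrFun h0 ⟨P, hP⟩)
      have hle : i * ∑ x : ↥(cycJ F r), c x.1 ≤ 2 * m + 1 := by omega
      refine ⟨⟨fun P => c P.1, hne, hle⟩, ?_⟩
      apply Subtype.ext
      show psi r (2 * m + 1 - i * ∑ x : ↥(cycJ F r), c x.1) (extJ r fun P => c P.1) = χ g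
      have hc' : χ g = psi r c₀ c := hc
      rw [hc', hcong]
      congr 1
      omega

end Cfsg.Agent.S2673
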