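import Cfsg.Statements.S2677
import Cfsg.Agent.S2636
import Cfsg.Agent.Helper44.UnitaryOrder

set_option autoImplicit false
open Cfsg

namespace Cfsg.Agent.S2677

open Matrix Cfsg.Agent.Helper44

/-- matrix form of unitarity -/
theorem unitary_iff {K : Type*} [Field K] (τ : K →+* K) {ι : Type} [Fintype ι] [DecidableEq ι]
    (G : Matrix ι ι K) :
    (∀ x y, hfg τ (G *ᵥ x) (G *ᵥ y) = hfg τ x y) ↔ Gᵀ * G.map τ = 1 := by
  have e : ∀ x y : ι → K,
      hfg τ (G *ᵥ x) (G *ᵥ y) = x ⬝ᵥ ((Gᵀ * G.map τ) *ᵥ (fun i => τ (y i))) := by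
    intro x y
    have h1 : hfg τ (G *ᵥ x) (G *ᵥ y) = (G *ᵥ x) ⬝ᵥ (G.map τ *ᵥ fun i => τ (y i)) := by
      simp only [hfg, dotProduct]
      apply Finset.sum_congr rfl
      intro i _
      rw [RingHom.map_mulVec]
      rfl
    rw [h1, ← Matrix.vecMul_transpose, ← Matrix.dotProduct_mulVec, Matrix.mulVec_mulVec]
  constructor
  · intro h
    ext i j
    have h2 := h (Pi.single i 1) (Pi.single j 1)
    rw [e, hfg_single_right, Pi.single_apply] at h2
    have h3 : (fun l => τ ((Pi.single j (1 : K) : ι → K) l)) = Pi.single j 1 := by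
      funext l
      by_cases hl : l = j
      · subst hl; simp
      · simp [Pi.single_apply, hl]
    rw [h3, Matrix.mulVec_single_one, single_one_dotProduct] at h2
    rw [Matrix.one_apply]
    rw [show (Gᵀ * G.map τ) i j = (Gᵀ * G.map τ).col j i from rfl, h2]
    by_cases hij : i = j
    · rw [if_pos hij, if_pos hij.symm]
    · rw [if_neg hij, if_neg (Ne.symm hij)]
  · intro h x y
    rw [e, h, Matrix.one_mulVec]
    rfl

theorem result {K : Type*} [Field K] [Fintype K] {q₀ q r n : ℕ} (hr : r.Prime) (hr2 : r ≠ 2) (hn : 1 ≤ n) (hq : q = q₀ ^ r) (hK : Fintype.card K = q ^ 2) (σ : K ≃+* K) (hσ : orderOf σ = r) : (Nat.card {g : ↥(Cfsg.GU n K q) // ∃ c : K, c ≠ 0 ∧ ((g : GL (Fin n) K) : Matrix (Fin n) (Fin n) K).map σ = c • ((g : GL (Fin n) K) : Matrix (Fin n) (Fin n) K)} : ℤ) = ((q + 1) / (q₀ + 1) : ℕ) * ((q₀ : ℤ) ^ (n * (n - 1) / 2) * ∏ i : Fin n, ((q₀ : ℤ) ^ ((i : ℕ) + 1) - (-1) ^ ((i : ℕ) + 1))) := by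
  classical
  have hr0 : 0 < r := hr.pos
  have hq2 := two_le_of_card_sq hK
  obtain ⟨τ, hτ⟩ := exists_conj hK
  have hτ2 : ∀ x, τ (τ x) = x := fun x => by rw [hτ, hτ, conj_conj hK]
  set K₀ : Subfield K := FixedPoints.subfield (Subgroup.zpowers σ) K with hK₀
  have hmem : ∀ x : K, x ∈ K₀ ↔ σ x = x := by
    intro x
    constructor
    · intro hx
      exact hx ⟨σ, Subgroup.mem_zpowers σ⟩
    · intro hx m
      have h1 : Subgroup.zpowers σ ≤ MulAction.stabilizer (K ≃+* K) x := by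
        rw [Subgroup.zpowers_le]
        exact hx
      exact h1 m.2
  have hcard₀ : Fintype.card K₀ = q₀ ^ 2 := by
    have h1 : Module.finrank K₀ K = r := by
      have hfo : IsOfFinOrder σ := orderOf_pos_iff.mp (by rw [hσ]; exact hr0)
      haveI : Finite ↥(Subgroup.zpowers σ) := Finite.of_equiv _ (finEquivZPowers hfo)
      haveI : Fintype ↥(Subgroup.zpowers σ) := Fintype.ofFinite _
      rw [hK₀, FixedPoints.finrank_eq_card, Fintype.card_eq_nat_card, Nat.card_zpowers, hσ]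
    have h2 := Module.card_eq_pow_finrank (K := K₀) (V := K)
    rw [h1, hK, hq] at h2
    have h3 : (q₀ ^ r) ^ 2 = (q₀ ^ 2) ^ r := by rw [← pow_mul, ← pow_mul, mul_comm]
    rw [h3] at h2
    exact (Nat.pow_left_injective hr0.ne' h2).symm
  have hq₀ : 2 ≤ q₀ := two_le_of_card_sq hcard₀
  set ι : K₀ →+* K := K₀.subtype with hι
  have hιinj : Function.Injective ι := ι.injective
  obtain ⟨τ₀, hτ₀⟩ := exists_conj hcard₀
  have hpow : ∀ x : K₀, (ι x) ^ q = ι (x ^ q₀) := by
    intro x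
    obtain ⟨k, hk⟩ := hr.odd_of_ne_two hr2
    have h1 : ∀ j : ℕ, x ^ ((q₀ ^ 2) ^ j) = x := by
      intro j
      induction j with
      | zero => simp
      | succ j ih => rw [pow_succ, pow_mul, ih, ← hcard₀, FiniteField.pow_card]
    rw [← map_pow, hq, hk]
    congr 1
    rw [pow_succ, pow_mul, pow_mul, h1]
  have hτι : ∀ x : K₀, τ (ι x) = ι (τ₀ x) := fun x => by rw [hτ, hτ₀, hpow]
  have hστ : ∀ x : K, σ (τ x) = τ (σ x) := fun x => by rw [hτ, hτ, map_pow]
  -- matrix characterisations of the unitary groups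
  have hGU : ∀ g : GL (Fin n) K, g ∈ Cfsg.GU n K q ↔
      (g : Matrix (Fin n) (Fin n) K)ᵀ * (g : Matrix (Fin n) (Fin n) K).map τ = 1 := by
    intro g
    rw [← GUg_eq_GU τ hτ, mem_GUg, unitary_iff]
  have hGU₀ : ∀ h : GL (Fin n) K₀, h ∈ Cfsg.GU n K₀ q₀ ↔
      (h : Matrix (Fin n) (Fin n) K₀)ᵀ * (h : Matrix (Fin n) (Fin n) K₀).map τ₀ = 1 := by
    intro h
    rw [← GUg_eq_GU τ₀ hτ₀, mem_GUg, unitary_iff]
  have hmapτ : ∀ H : Matrix (Fin n) (Fin n) K₀, (H.map ι).map τ = (H.map τ₀).map ι := by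
    intro H
    ext i j
    simp only [Matrix.map_apply]
    exact hτι _
  -- scalars of norm one
  have hroot : ∀ d : Kˣ, d ∈ rootsOfUnity (q + 1) K ↔ (d : K) * τ (d : K) = 1 := by
    intro d
    rw [mem_rootsOfUnity, hτ, ← pow_succ', Units.ext_iff, Units.val_pow_eq_pow_val, Units.val_one]
  have hroot₀ : ∀ d : K₀ˣ, d ∈ rootsOfUnity (q₀ + 1) K₀ ↔ (d : K₀) * τ₀ (d : K₀) = 1 := by
    intro d
    rw [mem_rootsOfUnity, hτ₀, ← pow_succ', Units.ext_iff, Units.val_pow_eq_pow_val,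
      Units.val_one]
  have hscal : ∀ d : Kˣ, (d : K) * τ (d : K) = 1 →
      Matrix.GeneralLinearGroup.scalar (Fin n) d ∈ Cfsg.GU n K q := by
    intro d hd
    rw [hGU, Matrix.GeneralLinearGroup.coe_scalar, Matrix.scalar_apply, Matrix.diagonal_transpose,
      Matrix.diagonal_map (map_zero τ), Matrix.diagonal_mul_diagonal]
    simp only [hd]
    exact Matrix.diagonal_one
  have hscal₀ : ∀ d : K₀ˣ, (d : K₀) * τ₀ (d : K₀) = 1 →
      Matrix.GeneralLinearGroup.scalar (Fin n) d ∈ Cfsg.GU n K₀ q₀ := by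
    intro d hd
    rw [hGU₀, Matrix.GeneralLinearGroup.coe_scalar, Matrix.scalar_apply,
      Matrix.diagonal_transpose, Matrix.diagonal_map (map_zero τ₀), Matrix.diagonal_mul_diagonal]
    simp only [hd]
    exact Matrix.diagonal_one
  let sc : ↥(rootsOfUnity (q + 1) K) →* ↥(Cfsg.GU n K q) :=
    MonoidHom.codRestrict ((Matrix.GeneralLinearGroup.scalar (Fin n)).comp
      (rootsOfUnity (q + 1) K).subtype) (Cfsg.GU n K q)
      (fun d => hscal d.1 ((hroot d.1).mp d.2))
  have hem : ∀ h : ↥(Cfsg.GU n K₀ q₀),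
      Matrix.GeneralLinearGroup.map ι (h : GL (Fin n) K₀) ∈ Cfsg.GU n K q := by
    intro h
    rw [hGU]
    have h1 := (hGU₀ h.1).mp h.2
    show ((h.1 : Matrix (Fin n) (Fin n) K₀).map ι)ᵀ * ((h.1 : Matrix (Fin n) (Fin n) K₀).map ι).map τ
      = 1
    rw [hmapτ, ← Matrix.transpose_map, ← Matrix.map_mul, h1]
    exact Matrix.map_one ι (map_zero ι) (map_one ι)
  let em : ↥(Cfsg.GU n K₀ q₀) →* ↥(Cfsg.GU n K q) :=
    MonoidHom.codRestrict ((Matrix.GeneralLinearGroup.map ι).comp (Cfsg.GU n K₀ q₀).subtype)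
      (Cfsg.GU n K q) hem
  have hcomm : ∀ (d : ↥(rootsOfUnity (q + 1) K)) (h : ↥(Cfsg.GU n K₀ q₀)), Commute (sc d) (em h) := by
    intro d h
    apply Subtype.ext
    exact Matrix.GeneralLinearGroup.scalar_commute d.1 _
  set μ : ↥(rootsOfUnity (q + 1) K) × ↥(Cfsg.GU n K₀ q₀) →* ↥(Cfsg.GU n K q) :=
    MonoidHom.noncommCoprod sc em hcomm with hμ
  have hμapp : ∀ (d : ↥(rootsOfUnity (q + 1) K)) (h : ↥(Cfsg.GU n K₀ q₀)) (i j : Fin n),
      (((μ (d, h) : ↥(Cfsg.GU n K q)) : GL (Fin n) K) : Matrix (Fin n) (Fin n) K) i j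
        = ((d : Kˣ) : K) * (((h : GL (Fin n) K₀) : Matrix (Fin n) (Fin n) K₀) i j : K) := by
    intro d h i j
    rw [hμ, MonoidHom.noncommCoprod_apply]
    show ((Matrix.GeneralLinearGroup.scalar (Fin n) d.1 * Matrix.GeneralLinearGroup.map ι h.1 :
      GL (Fin n) K) : Matrix (Fin n) (Fin n) K) i j = _
    rw [Units.val_mul, Matrix.GeneralLinearGroup.coe_scalar, Matrix.scalar_apply, Matrix.mul_apply]
    rw [Finset.sum_eq_single i]
    · rw [Matrix.diagonal_apply_eq, Matrix.GeneralLinearGroup.map_apply]; rfl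
    · intro b _ hb
      rw [Matrix.diagonal_apply_ne _ (Ne.symm hb), zero_mul]
    · intro h; exact absurd (Finset.mem_univ i) h
  -- the set in question is the range of μ
  have hS : ∀ g : ↥(Cfsg.GU n K q), (∃ c : K, c ≠ 0 ∧ ((g : GL (Fin n) K) : Matrix (Fin n) (Fin n) K).map σ = c • ((g : GL (Fin n) K) : Matrix (Fin n) (Fin n) K)) ↔ g ∈ μ.range := by
    intro g
    set G : Matrix (Fin n) (Fin n) K := ((g : GL (Fin n) K) : Matrix (Fin n) (Fin n) K) with hG
    have hGun : Gᵀ * G.map τ = 1 := (hGU g.1).mp g.2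
    constructor
    · rintro ⟨c, hc, hg⟩
      have hgij : ∀ i j, σ (G i j) = c * G i j := by
        intro i j
        have := congrFun (congrFun hg i) j
        simpa using this
      have hpowσ : ∀ (k : ℕ) (i j : Fin n), (σ ^ k) (G i j)
          = (∏ l ∈ Finset.range k, (σ ^ l) c) * G i j := by
        intro k
        induction k with
        | zero => intro i j; simp
        | succ k ih =>
          intro i j
          rw [pow_succ', RingAut.mul_apply, ih, map_mul, hgij, Finset.prod_range_succ', map_prod,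
            pow_zero, RingAut.one_apply]
          have : ∏ l ∈ Finset.range k, σ ((σ ^ l) c) = ∏ l ∈ Finset.range k, (σ ^ (l + 1)) c := by
            apply Finset.prod_congr rfl
            intro l _
            rw [pow_succ', RingAut.mul_apply]
          rw [this]; ring
      have hgne : ∃ i j, G i j ≠ 0 := by
        by_contra hcon
        push Not at hcon
        have h0 : G = 0 := by
          ext i j; exact hcon i j
        have h1 : ((g.1 * g.1⁻¹ : GL (Fin n) K) : Matrix (Fin n) (Fin n) K) = 1 := by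
          rw [mul_inv_cancel]; rfl
        rw [Units.val_mul, ← hG, h0, Matrix.zero_mul] at h1
        have h2 := congrFun (congrFun h1 ⟨0, hn⟩) ⟨0, hn⟩
        simp at h2
      obtain ⟨i₀, j₀, hij₀⟩ := hgne
      have hN : ∏ l ∈ Finset.range r, (σ ^ l) c = 1 := by
        have h1 := hpowσ r i₀ j₀
        have hσr : σ ^ r = 1 := by rw [← hσ]; exact pow_orderOf_eq_one σ
        rw [hσr, RingAut.one_apply] at h1
        have h2 : (∏ l ∈ Finset.range r, (σ ^ l) c - 1) * G i₀ j₀ = 0 := by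
          linear_combination -h1
        have h3 := (mul_eq_zero.mp h2).resolve_right hij₀
        linear_combination h3
      obtain ⟨d₁, hd₁0, hd₁⟩ := Cfsg.Agent.S2636.hilbert90 σ r hr0 hσ c hN
      have hent : ∀ i j, d₁⁻¹ * G i j ∈ K₀ := by
        intro i j
        rw [hmem, map_mul, map_inv₀, hd₁, hgij]
        field_simp
      -- c has norm one
      have hdiag : ∑ l, G l j₀ * τ (G l j₀) = 1 := by
        have h1 := congrFun (congrFun hGun j₀) j₀
        rw [Matrix.mul_apply, Matrix.one_apply_eq] at h1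
        exact h1
      have hcc : c * τ c = 1 := by
        have h1 := congrArg σ hdiag
        rw [map_sum, map_one] at h1
        have h2 : ∀ l, σ (G l j₀ * τ (G l j₀)) = (c * τ c) * (G l j₀ * τ (G l j₀)) := by
          intro l
          rw [map_mul, hστ, hgij, map_mul]
          ring
        simp only [h2] at h1
        rw [← Finset.mul_sum, hdiag, mul_one] at h1
        exact h1
      set lam : K := (d₁ * τ d₁)⁻¹ with hlam
      have hτd₁ : τ d₁ ≠ 0 := (map_ne_zero τ).mpr hd₁0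
      have hlam0 : lam ≠ 0 := inv_ne_zero (mul_ne_zero hd₁0 hτd₁)
      have hσlam : σ lam = lam := by
        rw [hlam, map_inv₀, map_mul, hστ, hd₁, map_mul]
        congr 1
        linear_combination (d₁ * τ d₁) * hcc
      have hτlam : τ lam = lam := by
        rw [hlam, map_inv₀, map_mul, hτ2, mul_comm]
      let lam₀ : K₀ := ⟨lam, (hmem lam).mpr hσlam⟩
      have hlam₀ : lam₀ ^ q₀ = lam₀ := by
        apply hιinj
        rw [← hpow, ← hτ]
        exact hτlam
      obtain ⟨e₀, he₀⟩ := exists_norm hcard₀ lam₀ hlam₀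
      have he₀0 : e₀ ≠ 0 := by
        rintro rfl
        rw [zero_mul] at he₀
        apply hlam0
        have := congrArg ι he₀
        rw [map_zero] at this
        exact this.symm
      have he₀K : (ι e₀) ≠ 0 := (map_ne_zero ι).mpr he₀0
      have he₀n : ι e₀ * τ (ι e₀) = lam := by
        rw [hτι, hτ₀, ← map_mul, he₀]
        rfl
      set d : K := d₁ * ι e₀ with hd
      have hd0 : d ≠ 0 := mul_ne_zero hd₁0 he₀K
      have hdn : d * τ d = 1 := by
        rw [hd, map_mul]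
        have : d₁ * ι e₀ * (τ d₁ * τ (ι e₀)) = (d₁ * τ d₁) * (ι e₀ * τ (ι e₀)) := by ring
        rw [this, he₀n, hlam, mul_inv_cancel₀ (mul_ne_zero hd₁0 hτd₁)]
      have hent' : ∀ i j, d⁻¹ * G i j ∈ K₀ := by
        intro i j
        have h1 : d⁻¹ * G i j = (ι e₀)⁻¹ * (d₁⁻¹ * G i j) := by
          rw [hd, mul_inv]; ring
        rw [h1]
        exact K₀.mul_mem (K₀.inv_mem e₀.2) (hent i j)
      let H₀ : Matrix (Fin n) (Fin n) K₀ := fun i j => ⟨d⁻¹ * G i j, hent' i j⟩
      have hH₀ : H₀.map ι = d⁻¹ • G := by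
        ext i j
        rfl
      have hH₀un : H₀ᵀ * H₀.map τ₀ = 1 := by
        apply Matrix.map_injective hιinj
        show (H₀ᵀ * H₀.map τ₀).map ι = (1 : Matrix (Fin n) (Fin n) K₀).map ι
        rw [Matrix.map_mul, ← hmapτ, Matrix.transpose_map, hH₀,
          Matrix.map_one ι (map_zero ι) (map_one ι)]
        have h1 : (d⁻¹ • G).map τ = (τ d)⁻¹ • G.map τ := by
          ext i j
          simp only [Matrix.map_apply, Matrix.smul_apply, smul_eq_mul, map_mul, map_inv₀]
        rw [h1, Matrix.transpose_smul, Matrix.smul_mul, Matrix.mul_smul, hGun, smul_smul,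
          ← mul_inv, hdn, inv_one, one_smul]
      have hH₀pres : ∀ x y, hfg τ₀ (H₀ *ᵥ x) (H₀ *ᵥ y) = hfg τ₀ x y :=
        (unitary_iff τ₀ H₀).mpr hH₀un
      have hH₀mem : Matrix.GeneralLinearGroup.mkOfDetNeZero H₀
          (det_ne_zero_of_unitary τ₀ H₀ hH₀pres) ∈ Cfsg.GU n K₀ q₀ := by
        rw [hGU₀]
        exact hH₀un
      refine ⟨(⟨Units.mk0 d hd0, (hroot _).mpr hdn⟩, ⟨_, hH₀mem⟩), ?_⟩
      apply Subtype.ext
      apply Units.ext
      ext i j
      rw [hμapp]
      show d * (d⁻¹ * G i j) = _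
      rw [← mul_assoc, mul_inv_cancel₀ hd0, one_mul]
    · rintro ⟨⟨d, h⟩, hdh⟩
      have hd0 : ((d : Kˣ) : K) ≠ 0 := (d : Kˣ).ne_zero
      refine ⟨σ ((d : Kˣ) : K) / ((d : Kˣ) : K),
        div_ne_zero ((map_ne_zero _).mpr hd0) hd0, ?_⟩
      ext i j
      rw [Matrix.map_apply, Matrix.smul_apply, hG, ← hdh, hμapp, map_mul, smul_eq_mul]
      have h1 : σ (((h : GL (Fin n) K₀) : Matrix (Fin n) (Fin n) K₀) i j : K)
          = (((h : GL (Fin n) K₀) : Matrix (Fin n) (Fin n) K₀) i j : K) :=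
        (hmem _).mp (SetLike.coe_mem _)
      rw [h1]
      field_simp
  -- the kernel of μ
  have hκ₁ : ∀ e : ↥(rootsOfUnity (q₀ + 1) K₀),
      (((MulEquiv.inv Kˣ).toMonoidHom.comp (Units.map ι.toMonoidHom)).comp
        (rootsOfUnity (q₀ + 1) K₀).subtype) e ∈ rootsOfUnity (q + 1) K := by
    intro e
    show (Units.map ι.toMonoidHom (e : K₀ˣ))⁻¹ ∈ rootsOfUnity (q + 1) K
    apply Subgroup.inv_mem
    rw [hroot]
    show ι (e.1 : K₀) * τ (ι (e.1 : K₀)) = 1
    rw [hτι, ← map_mul, (hroot₀ e.1).mp e.2, map_one]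
  let κ₁ : ↥(rootsOfUnity (q₀ + 1) K₀) →* ↥(rootsOfUnity (q + 1) K) :=
    MonoidHom.codRestrict (((MulEquiv.inv Kˣ).toMonoidHom.comp (Units.map ι.toMonoidHom)).comp
        (rootsOfUnity (q₀ + 1) K₀).subtype) _ hκ₁
  let κ₂ : ↥(rootsOfUnity (q₀ + 1) K₀) →* ↥(Cfsg.GU n K₀ q₀) :=
    MonoidHom.codRestrict ((Matrix.GeneralLinearGroup.scalar (Fin n)).comp
      (rootsOfUnity (q₀ + 1) K₀).subtype) (Cfsg.GU n K₀ q₀)
      (fun d => hscal₀ d.1 ((hroot₀ d.1).mp d.2))
  let κ : ↥(rootsOfUnity (q₀ + 1) K₀) →* ↥(rootsOfUnity (q + 1) K) × ↥(Cfsg.GU n K₀ q₀) :=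
    MonoidHom.prod κ₁ κ₂
  have hκinj : Function.Injective κ := by
    intro e e' hee
    have h1 : κ₁ e = κ₁ e' := congrArg Prod.fst hee
    have h2 : ((Units.map ι.toMonoidHom (e : K₀ˣ))⁻¹ : Kˣ)
        = (Units.map ι.toMonoidHom (e' : K₀ˣ))⁻¹ := congrArg Subtype.val h1
    have h3 := inv_injective h2
    have h4 : ι (e.1 : K₀) = ι (e'.1 : K₀) := congrArg Units.val h3
    exact Subtype.ext (Units.ext (hιinj h4))
  have hκker : κ.range = μ.ker := by
    ext ⟨d, h⟩
    rw [MonoidHom.mem_ker]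
    constructor
    · rintro ⟨e, he⟩
      have h1 : d = κ₁ e := (congrArg Prod.fst he).symm
      have h2 : h = κ₂ e := (congrArg Prod.snd he).symm
      apply Subtype.ext
      apply Units.ext
      ext i j
      rw [hμapp, h1, h2]
      show ((Units.map ι.toMonoidHom (e : K₀ˣ))⁻¹ : Kˣ).1
          * ι ((Matrix.GeneralLinearGroup.scalar (Fin n) (e : K₀ˣ) :
            Matrix (Fin n) (Fin n) K₀) i j) = (1 : Matrix (Fin n) (Fin n) K) i j
      rw [Matrix.GeneralLinearGroup.coe_scalar, Matrix.scalar_apply]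
      by_cases hij : i = j
      · subst hij
        rw [Matrix.diagonal_apply_eq, Matrix.one_apply_eq]
        have h3 : ((Units.map ι.toMonoidHom (e : K₀ˣ))⁻¹ : Kˣ).1 * ι (e.1 : K₀)
            = (((Units.map ι.toMonoidHom (e : K₀ˣ))⁻¹ * Units.map ι.toMonoidHom (e : K₀ˣ) : Kˣ) :
              K) := rfl
        rw [h3, inv_mul_cancel, Units.val_one]
      · rw [Matrix.diagonal_apply_ne _ hij, Matrix.one_apply_ne hij, map_zero, mul_zero]
    · intro hk
      have hent : ∀ i j, ((d : Kˣ) : K) * ((h.1 : Matrix (Fin n) (Fin n) K₀) i j : K)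
          = if i = j then 1 else 0 := by
        intro i j
        rw [← hμapp, hk]
        show (1 : Matrix (Fin n) (Fin n) K) i j = _
        rw [Matrix.one_apply]
      have h00 := hent ⟨0, hn⟩ ⟨0, hn⟩
      rw [if_pos rfl] at h00
      set e₀ : K₀ := (h.1 : Matrix (Fin n) (Fin n) K₀) ⟨0, hn⟩ ⟨0, hn⟩ with he₀
      have hdK := (d : Kˣ).ne_zero
      have he₀0 : e₀ ≠ 0 := by
        intro h0
        rw [h0] at h00
        simp at h00
      have hH : (h.1 : Matrix (Fin n) (Fin n) K₀) = Matrix.scalar (Fin n) e₀ := by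
        ext i j
        show ((h.1 : Matrix (Fin n) (Fin n) K₀) i j : K) = ((Matrix.scalar (Fin n) e₀) i j : K)
        rw [Matrix.scalar_apply]
        have h1 := hent i j
        by_cases hij : i = j
        · subst hij
          rw [Matrix.diagonal_apply_eq]
          rw [if_pos rfl] at h1
          have h2 : ((d : Kˣ) : K) * ((h.1 : Matrix (Fin n) (Fin n) K₀) i i : K)
              = ((d : Kˣ) : K) * (e₀ : K) := by rw [h1, h00]
          exact mul_left_cancel₀ hdK h2
        · rw [Matrix.diagonal_apply_ne _ hij]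
          rw [if_neg hij] at h1
          rw [(mul_eq_zero.mp h1).resolve_left hdK]; rfl
      have he₀n : e₀ * τ₀ e₀ = 1 := by
        have h1 := (hGU₀ h.1).mp h.2
        rw [hH, Matrix.scalar_apply, Matrix.diagonal_transpose, Matrix.diagonal_map (map_zero τ₀),
          Matrix.diagonal_mul_diagonal] at h1
        have h2 := congrFun (congrFun h1 ⟨0, hn⟩) ⟨0, hn⟩
        rw [Matrix.diagonal_apply_eq, Matrix.one_apply_eq] at h2
        exact h2
      refine ⟨⟨Units.mk0 e₀ he₀0, (hroot₀ _).mpr he₀n⟩, ?_⟩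
      apply Prod.ext
      · apply Subtype.ext
        apply Units.ext
        show ((Units.map ι.toMonoidHom (Units.mk0 e₀ he₀0))⁻¹ : Kˣ).1 = ((d : Kˣ) : K)
        rw [Units.val_inv_eq_inv_val]
        show (ι e₀)⁻¹ = ((d : Kˣ) : K)
        have he0F : (ι e₀) ≠ 0 := (map_ne_zero ι).mpr he₀0
        rw [eq_comm, ← mul_eq_one_iff_eq_inv₀ he0F]
        exact h00
      · apply Subtype.ext
        apply Units.ext
        show Matrix.scalar (Fin n) e₀ = (h.1 : Matrix (Fin n) (Fin n) K₀)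
        exact hH.symm
  have hkercard : Nat.card μ.ker = q₀ + 1 := by
    rw [← hκker, Nat.card_congr (MonoidHom.ofInjective hκinj).toEquiv.symm,
      card_rootsOfUnity_succ hcard₀]
  have hrange : Nat.card μ.range * Nat.card μ.ker
      = Nat.card (↥(rootsOfUnity (q + 1) K) × ↥(Cfsg.GU n K₀ q₀)) := by
    rw [Subgroup.card_eq_card_quotient_mul_card_subgroup μ.ker,
      Nat.card_congr (QuotientGroup.quotientKerEquivRange μ).toEquiv]
  have hS' : Nat.card {g : ↥(Cfsg.GU n K q) // ∃ c : K, c ≠ 0 ∧ ((g : GL (Fin n) K) : Matrix (Fin n) (Fin n) K).map σ = c • ((g : GL (Fin n) K) : Matrix (Fin n) (Fin n) K)} = Nat.card μ.range :=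
    Nat.card_congr (Equiv.subtypeEquivRight hS)
  rw [hS']
  rw [hkercard, Nat.card_prod, card_rootsOfUnity_succ hK] at hrange
  obtain ⟨t, ht⟩ : q₀ + 1 ∣ q + 1 := by
    rw [hq]
    have := Odd.nat_add_dvd_pow_add_pow q₀ 1 (hr.odd_of_ne_two hr2)
    rwa [one_pow] at this
  have hdiv : (q + 1) / (q₀ + 1) = t := by
    rw [ht]
    exact Nat.mul_div_cancel_left _ (by omega : 0 < q₀ + 1)
  have h5 : Nat.card μ.range = t * Nat.card ↥(Cfsg.GU n K₀ q₀) := by
    have h6 : Nat.card μ.range * (q₀ + 1) = (t * Nat.card ↥(Cfsg.GU n K₀ q₀)) * (q₀ + 1) := by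
      rw [hrange, ht]; ring
    exact Nat.eq_of_mul_eq_mul_right (by omega) h6
  rw [hdiv, h5, Nat.cast_mul, card_GU hcard₀ n]

end Cfsg.Agent.S2677
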