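import Cfsg.Statements.S2678
import Cfsg.Agent.Helper44.FieldExt

set_option autoImplicit false
open Cfsg

namespace Cfsg.Agent.S2678

open Cfsg.Agent.Helper44 Matrix

/-- the form of `J` is invariant under reindexing -/
theorem J_form_reindex {l l' R : Type*} [Fintype l] [DecidableEq l] [Fintype l'] [DecidableEq l']
    [CommRing R] (e : l' ≃ l) (U V : l' ⊕ l' → R) :
    (U ∘ (Equiv.sumCongr e e).symm) ⬝ᵥ (Matrix.J l R *ᵥ (V ∘ (Equiv.sumCongr e e).symm))
      = U ⬝ᵥ (Matrix.J l' R *ᵥ V) := by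
  rw [J_form, J_form, ← Equiv.sum_comp e]
  apply Finset.sum_congr rfl
  intro i _
  simp

theorem result {K F : Type*} [Field K] [Fintype K] [Field F] [Fintype F] {q : ℕ} (hK : Fintype.card K = q ^ 2) (hF : Fintype.card F = q) (a : ℕ) : ∃ φ : ↥(Matrix.symplecticGroup (Fin a) K) →* ↥(Matrix.symplecticGroup (Fin (2 * a)) F), Function.Injective φ := by
  classical
  obtain ⟨i⟩ := exists_ringHom_of_card_pow hF hK
  letI : Algebra F K := i.toAlgebra
  obtain ⟨ω, hω⟩ := exists_not_mem_range hF hK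
  obtain ⟨c₀, c₁, hz, h0, h1⟩ := exists_coords hF hK ω hω
  set A := algebraMap F K with hA
  set s : F := c₀ (ω ^ 2) with hs
  have hc01 : c₀ 1 = 1 := by
    have := h0 1 0
    rwa [map_one, map_zero, zero_mul, add_zero] at this
  have hc0ω : c₀ ω = 0 := by
    have := h0 0 1
    rwa [map_one, map_zero, one_mul, zero_add] at this
  have hs0 : s ≠ 0 := by
    intro h
    have h2 := hz (ω ^ 2)
    rw [← hs, h, map_zero, zero_add] at h2
    have hω0 : ω ≠ 0 := by
      intro h3
      exact hω 0 (by rw [map_zero, h3])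
    have h3 : ω = A (c₁ (ω ^ 2)) := by
      apply mul_right_cancel₀ hω0
      rw [← h2, pow_two]
    exact hω _ h3.symm
  have hmul : ∀ x y : K, c₀ (x * y) = c₀ x * c₀ y + s * (c₁ x * c₁ y) := by
    intro x y
    have e : x * y = (c₀ x * c₀ y) • (1 : K) + (c₀ x * c₁ y + c₁ x * c₀ y) • ω
        + (c₁ x * c₁ y) • ω ^ 2 := by
      conv_lhs => rw [hz x, hz y]
      simp only [Algebra.smul_def, map_mul, map_add]
      ring
    rw [e, map_add, map_add, map_smul, map_smul, map_smul, hc01, hc0ω, ← hs]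
    simp only [smul_eq_mul]
    ring
  let c : Fin 2 → (K →ₗ[F] F) := ![c₀, c₁]
  let d : Fin 2 → F := ![1, s]
  let Ψ₁ : (Fin a ⊕ Fin a → K) ≃ₗ[F] ((Fin 2 × Fin a) ⊕ (Fin 2 × Fin a) → F) :=
    { toFun := fun v => Sum.elim (fun x => c x.1 (v (Sum.inl x.2)))
        (fun x => d x.1 * c x.1 (v (Sum.inr x.2)))
      map_add' := by
        intro u v
        ext (x | x)
        · simp
        · simp [mul_add]
      map_smul' := by
        intro r v
        ext (x | x)
        · simp
        · simp only [Sum.elim_inr, Pi.smul_apply, map_smul, smul_eq_mul, RingHom.id_apply]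
          ring
      invFun := fun w => Sum.elim
        (fun i => A (w (Sum.inl (0, i))) + A (w (Sum.inl (1, i))) * ω)
        (fun i => A (w (Sum.inr (0, i))) + A (s⁻¹ * w (Sum.inr (1, i))) * ω)
      left_inv := by
        intro v
        ext (i | i)
        · simp only [Sum.elim_inl, c, Matrix.cons_val_zero, Matrix.cons_val_one]
          exact (hz _).symm
        · simp only [Sum.elim_inr, Sum.elim_inl, c, d, Matrix.cons_val_zero, Matrix.cons_val_one,
            one_mul]
          rw [inv_mul_cancel_left₀ hs0]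
          exact (hz _).symm
      right_inv := by
        intro w
        ext (⟨ε, i⟩ | ⟨ε, i⟩)
        · fin_cases ε
          · simp only [Sum.elim_inl, c]
            exact h0 _ _
          · simp only [Sum.elim_inl, c]
            exact h1 _ _
        · fin_cases ε
          · simp only [Sum.elim_inr, c, d]
            show (1 : F) * c₀ _ = _
            rw [one_mul]
            exact h0 _ _
          · simp only [Sum.elim_inr, c, d]
            show s * c₁ _ = _
            rw [h1, mul_inv_cancel_left₀ hs0]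
            rfl }
  have key₁ : ∀ u v : Fin a ⊕ Fin a → K,
      (Ψ₁ u) ⬝ᵥ (Matrix.J (Fin 2 × Fin a) F *ᵥ (Ψ₁ v)) = c₀ (u ⬝ᵥ (Matrix.J (Fin a) K *ᵥ v)) := by
    intro u v
    rw [J_form, J_form, map_sum, Fintype.sum_prod_type, Finset.sum_comm]
    apply Finset.sum_congr rfl
    intro i _
    rw [Fin.sum_univ_two, map_sub, hmul, hmul]
    show (d 0 * c 0 (u (Sum.inr i))) * c 0 (v (Sum.inl i))
        - c 0 (u (Sum.inl i)) * (d 0 * c 0 (v (Sum.inr i)))
        + ((d 1 * c 1 (u (Sum.inr i))) * c 1 (v (Sum.inl i))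
        - c 1 (u (Sum.inl i)) * (d 1 * c 1 (v (Sum.inr i)))) = _
    simp only [c, d, Matrix.cons_val_zero, Matrix.cons_val_one]
    ring
  let e : Fin 2 × Fin a ≃ Fin (2 * a) := finProdFinEquiv
  let Ψ : (Fin a ⊕ Fin a → K) ≃ₗ[F] (Fin (2 * a) ⊕ Fin (2 * a) → F) :=
    Ψ₁.trans (LinearEquiv.funCongrLeft F F (Equiv.sumCongr e e).symm)
  have hΨ : ∀ u, Ψ u = (Ψ₁ u) ∘ (Equiv.sumCongr e e).symm := fun u => rfl
  have key : ∀ u v : Fin a ⊕ Fin a → K,
      (Ψ u) ⬝ᵥ (Matrix.J (Fin (2 * a)) F *ᵥ (Ψ v)) = c₀ (u ⬝ᵥ (Matrix.J (Fin a) K *ᵥ v)) := by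
    intro u v
    rw [hΨ, hΨ, J_form_reindex, key₁]
  have hmem : ∀ g : ↥(Matrix.symplecticGroup (Fin a) K),
      ((resHom Ψ).comp (Matrix.symplecticGroup (Fin a) K).subtype) g
        ∈ Matrix.symplecticGroup (Fin (2 * a)) F := by
    intro g
    apply mem_symplectic_of_preserves
    intro U V
    obtain ⟨u, rfl⟩ := Ψ.surjective U
    obtain ⟨v, rfl⟩ := Ψ.surjective V
    show ((resHom Ψ (g : Matrix (Fin a ⊕ Fin a) (Fin a ⊕ Fin a) K)) *ᵥ Ψ u) ⬝ᵥ
        (Matrix.J (Fin (2 * a)) F *ᵥ ((resHom Ψ (g : Matrix (Fin a ⊕ Fin a) (Fin a ⊕ Fin a) K)) *ᵥ Ψ v))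
        = _
    rw [resHom_mulVec, resHom_mulVec, key, key, preserves_of_mem_symplectic _ g.2]
  refine ⟨((resHom Ψ).comp (Matrix.symplecticGroup (Fin a) K).subtype).codRestrict _ hmem, ?_⟩
  intro g h hgh
  have h2 := congrArg Subtype.val hgh
  exact Subtype.ext (resHom_injective Ψ h2)

end Cfsg.Agent.S2678
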