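import Cfsg.Statements.S2679
import Cfsg.Agent.Helper44.FieldExt

set_option autoImplicit false
open Cfsg

namespace Cfsg.Agent.S2679

open Cfsg.Agent.Helper44 Matrix Polynomial

theorem mem_isometryGroup {ι : Type} [Fintype ι] [DecidableEq ι] (F : Type*) [Field F]
    (Q : (ι → F) → F) (g : GL ι F) :
    g ∈ Cfsg.isometryGroup F Q ↔ ∀ u : ι → F, Q ((g : Matrix ι ι F) *ᵥ u) = Q u := by
  constructor
  · intro h u
    exact h u u
  · intro h u v
    exact h u

/-- the elliptic form after extension of scalars, on a vector `x + t y` -/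
theorem quad_ext {F K : Type*} [Field F] [Field K] (A : F →+* K) (k : ℕ) (a c : F)
    (x y : (Fin k ⊕ Fin k) ⊕ Fin 2 → F) (t : K) :
    Cfsg.quadFormMinus k K (A a) (A c) (fun i => A (x i) + t * A (y i))
      = A (Cfsg.quadFormMinus k F a c x)
        + t * A (Cfsg.quadFormMinus k F a c (x + y) - Cfsg.quadFormMinus k F a c x
            - Cfsg.quadFormMinus k F a c y)
        + t ^ 2 * A (Cfsg.quadFormMinus k F a c y) := by
  simp only [Cfsg.quadFormMinus, Pi.add_apply, map_add, map_sub, map_mul, map_pow, map_sum]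
  have hsum : ∑ i : Fin k, (A (x (Sum.inl (Sum.inl i))) + t * A (y (Sum.inl (Sum.inl i))))
        * (A (x (Sum.inl (Sum.inr i))) + t * A (y (Sum.inl (Sum.inr i))))
      = ∑ i : Fin k, A (x (Sum.inl (Sum.inl i))) * A (x (Sum.inl (Sum.inr i)))
        + t * (∑ i : Fin k, (A (x (Sum.inl (Sum.inl i))) + A (y (Sum.inl (Sum.inl i))))
              * (A (x (Sum.inl (Sum.inr i))) + A (y (Sum.inl (Sum.inr i))))
            - ∑ i : Fin k, A (x (Sum.inl (Sum.inl i))) * A (x (Sum.inl (Sum.inr i)))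
            - ∑ i : Fin k, A (y (Sum.inl (Sum.inl i))) * A (y (Sum.inl (Sum.inr i))))
        + t ^ 2 * ∑ i : Fin k, A (y (Sum.inl (Sum.inl i))) * A (y (Sum.inl (Sum.inr i))) := by
    rw [← Finset.sum_sub_distrib, ← Finset.sum_sub_distrib, Finset.mul_sum, Finset.mul_sum,
      ← Finset.sum_add_distrib, ← Finset.sum_add_distrib]
    apply Finset.sum_congr rfl
    intro i _
    ring
  rw [hsum]
  ring

theorem main {F K : Type*} [Field F] [Fintype F] [Field K] [Fintype K] {q : ℕ}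
    (hF : Fintype.card F = q) (hK : Fintype.card K = q ^ 2) (k : ℕ) (a c : F)
    (hac : ∀ z₁ z₂ : F, z₁ ^ 2 + a * z₁ * z₂ + c * z₂ ^ 2 = 0 → z₁ = 0 ∧ z₂ = 0) :
    ∃ φ : ↥(Cfsg.isometryGroup F (Cfsg.quadFormMinus k F a c)) →*
      ↥(Cfsg.isometryGroup K (Cfsg.quadFormPlus (k + 1) K)), Function.Injective φ := by
  classical
  obtain ⟨i⟩ := exists_ringHom_of_card_pow hF hK
  letI : Algebra F K := i.toAlgebra
  obtain ⟨τ, hτ⟩ := exists_frob hF hK (by norm_num)
  obtain ⟨ω, hω⟩ := exists_not_mem_range hF hK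
  obtain ⟨c₀, c₁, hz, h0, h1⟩ := exists_coords hF hK ω hω
  set A := algebraMap F K with hA
  -- a root of the quadratic in K
  set f : F[X] := C 1 * X ^ 2 + C a * X + C c with hf
  have hfdeg : f.natDegree = 2 := natDegree_quadratic one_ne_zero
  have hfirr : Irreducible f := by
    apply irreducible_of_degree_le_three_of_not_isRoot
    · rw [hfdeg]; simp
    · intro x hx
      have h2 : x ^ 2 + a * x * 1 + c * 1 ^ 2 = 0 := by
        have : eval x f = 0 := hx
        simp only [hf, eval_add, eval_mul, eval_C, eval_pow, eval_X] at this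
        linear_combination this
      exact one_ne_zero (hac x 1 h2).2
  have hdvd : f ∣ X ^ Nat.card F ^ 2 - X :=
    (hfirr.natDegree_dvd_iff_dvd_X_pow_card_pow_sub_X).mp (by rw [hfdeg])
  have hdvdK : f.map A ∣ (X ^ Nat.card K - X : K[X]) := by
    have := Polynomial.map_dvd A hdvd
    rw [Polynomial.map_sub, Polynomial.map_pow, Polynomial.map_X] at this
    rw [Nat.card_eq_fintype_card, hK, ← hF, ← Nat.card_eq_fintype_card]
    exact this
  have hne : (X ^ Nat.card K - X : K[X]) ≠ 0 := by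
    rw [Nat.card_eq_fintype_card]
    exact FiniteField.X_pow_card_sub_X_ne_zero K Fintype.one_lt_card
  have hsplit : (f.map A).Splits := Splits.of_dvd splits_X_pow_nat_card_sub_X hne hdvdK
  have hdegK : (f.map A).degree ≠ 0 := by
    rw [degree_map, degree_eq_natDegree hfirr.ne_zero, hfdeg]
    norm_num
  obtain ⟨r₁, hr₁⟩ := hsplit.exists_eval_eq_zero hdegK
  have hr₁' : r₁ ^ 2 + A a * r₁ + A c = 0 := by
    simp only [hf, Polynomial.map_add, Polynomial.map_mul, Polynomial.map_pow, map_C, map_X,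
      eval_add, eval_mul, eval_C, eval_pow, eval_X, map_one,
      one_mul] at hr₁
    linear_combination hr₁
  have hr₁F : ∀ b : F, A b ≠ r₁ := by
    intro b hb
    have h2 : b ^ 2 + a * b * 1 + c * 1 ^ 2 = 0 := by
      apply A.injective
      rw [← hb] at hr₁'
      simp only [map_add, map_mul, map_pow, map_one, map_zero]
      linear_combination hr₁'
    exact one_ne_zero (hac b 1 h2).2
  set r₂ := r₁ ^ q with hr₂def
  have hr₂ : r₂ ^ 2 + A a * r₂ + A c = 0 := by
    have h2 := congrArg τ hr₁'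
    rw [map_add, map_add, map_mul, map_pow, map_zero, hτ, hτ, hτ, algebraMap_pow_card hF,
      algebraMap_pow_card hF] at h2
    exact h2
  have hr12 : r₁ ≠ r₂ := by
    intro h
    obtain ⟨b, hb⟩ := mem_range_of_pow_eq hF r₁ h.symm
    exact hr₁F b hb
  have hsum : r₁ + r₂ = -A a := by
    have h2 : (r₁ - r₂) * (r₁ + r₂ + A a) = 0 := by linear_combination hr₁' - hr₂
    have h3 := (mul_eq_zero.mp h2).resolve_left (sub_ne_zero.mpr hr12)
    linear_combination h3
  have hprod : r₁ * r₂ = A c := by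
    linear_combination -hr₁' + r₁ * hsum
  -- the change of basis
  have hd : r₂ - r₁ ≠ 0 := sub_ne_zero.mpr (Ne.symm hr12)
  let Ψ : ((Fin k ⊕ Fin k) ⊕ Fin 2 → K) ≃ₗ[K] (Fin (k + 1) ⊕ Fin (k + 1) → K) :=
    { toFun := fun w => Sum.elim
        (Fin.lastCases (w (Sum.inr 0) - r₁ * w (Sum.inr 1)) (fun i => w (Sum.inl (Sum.inl i))))
        (Fin.lastCases (w (Sum.inr 0) - r₂ * w (Sum.inr 1)) (fun i => w (Sum.inl (Sum.inr i))))
      map_add' := by
        intro u v
        ext (j | j)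
        · refine Fin.lastCases ?_ (fun i => ?_) j
          · simp only [Sum.elim_inl, Fin.lastCases_last, Pi.add_apply]; ring
          · simp only [Sum.elim_inl, Fin.lastCases_castSucc, Pi.add_apply]
        · refine Fin.lastCases ?_ (fun i => ?_) j
          · simp only [Sum.elim_inr, Fin.lastCases_last, Pi.add_apply]; ring
          · simp only [Sum.elim_inr, Fin.lastCases_castSucc, Pi.add_apply]
      map_smul' := by
        intro r v
        ext (j | j)
        · refine Fin.lastCases ?_ (fun i => ?_) j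
          · simp only [Sum.elim_inl, Fin.lastCases_last, Pi.smul_apply, smul_eq_mul,
              RingHom.id_apply]; ring
          · simp only [Sum.elim_inl, Fin.lastCases_castSucc, Pi.smul_apply, smul_eq_mul,
              RingHom.id_apply]
        · refine Fin.lastCases ?_ (fun i => ?_) j
          · simp only [Sum.elim_inr, Fin.lastCases_last, Pi.smul_apply, smul_eq_mul,
              RingHom.id_apply]; ring
          · simp only [Sum.elim_inr, Fin.lastCases_castSucc, Pi.smul_apply, smul_eq_mul,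
              RingHom.id_apply]
      invFun := fun u => Sum.elim
        (Sum.elim (fun i => u (Sum.inl i.castSucc)) (fun i => u (Sum.inr i.castSucc)))
        ![u (Sum.inl (Fin.last k)) + r₁ * ((u (Sum.inl (Fin.last k)) - u (Sum.inr (Fin.last k))) / (r₂ - r₁)),
          (u (Sum.inl (Fin.last k)) - u (Sum.inr (Fin.last k))) / (r₂ - r₁)]
      left_inv := by
        intro w
        ext ((i | i) | j)
        · simp only [Sum.elim_inl, Fin.lastCases_castSucc]
        · simp only [Sum.elim_inl, Sum.elim_inr, Fin.lastCases_castSucc]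
        · fin_cases j
          · simp only [Sum.elim_inl, Sum.elim_inr, Fin.lastCases_last]
            show w (Sum.inr 0) - r₁ * w (Sum.inr 1) + r₁ * ((w (Sum.inr 0) - r₁ * w (Sum.inr 1)
              - (w (Sum.inr 0) - r₂ * w (Sum.inr 1))) / (r₂ - r₁)) = w (Sum.inr 0)
            field_simp
            ring
          · simp only [Sum.elim_inl, Sum.elim_inr, Fin.lastCases_last]
            show (w (Sum.inr 0) - r₁ * w (Sum.inr 1)
              - (w (Sum.inr 0) - r₂ * w (Sum.inr 1))) / (r₂ - r₁) = w (Sum.inr 1)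
            field_simp
            ring
      right_inv := by
        intro u
        ext (j | j)
        · refine Fin.lastCases ?_ (fun i => ?_) j
          · simp only [Sum.elim_inl, Sum.elim_inr, Fin.lastCases_last]
            show u (Sum.inl (Fin.last k)) + r₁ * ((u (Sum.inl (Fin.last k)) - u (Sum.inr (Fin.last k))) / (r₂ - r₁))
              - r₁ * ((u (Sum.inl (Fin.last k)) - u (Sum.inr (Fin.last k))) / (r₂ - r₁)) = _
            ring
          · simp only [Sum.elim_inl, Fin.lastCases_castSucc]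
        · refine Fin.lastCases ?_ (fun i => ?_) j
          · simp only [Sum.elim_inl, Sum.elim_inr, Fin.lastCases_last]
            show u (Sum.inl (Fin.last k)) + r₁ * ((u (Sum.inl (Fin.last k)) - u (Sum.inr (Fin.last k))) / (r₂ - r₁))
              - r₂ * ((u (Sum.inl (Fin.last k)) - u (Sum.inr (Fin.last k))) / (r₂ - r₁)) = _
            field_simp
            ring
          · simp only [Sum.elim_inl, Sum.elim_inr, Fin.lastCases_castSucc] }
  have hΨ : ∀ w, Cfsg.quadFormPlus (k + 1) K (Ψ w) = Cfsg.quadFormMinus k K (A a) (A c) w := by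
    intro w
    rw [Cfsg.quadFormPlus, Cfsg.quadFormMinus, Fin.sum_univ_castSucc]
    show ∑ i : Fin k, (Fin.lastCases (w (Sum.inr 0) - r₁ * w (Sum.inr 1)) (fun i => w (Sum.inl (Sum.inl i))) i.castSucc : K)
          * (Fin.lastCases (w (Sum.inr 0) - r₂ * w (Sum.inr 1)) (fun i => w (Sum.inl (Sum.inr i))) i.castSucc : K)
        + (Fin.lastCases (w (Sum.inr 0) - r₁ * w (Sum.inr 1)) (fun i => w (Sum.inl (Sum.inl i))) (Fin.last k) : K)
          * (Fin.lastCases (w (Sum.inr 0) - r₂ * w (Sum.inr 1)) (fun i => w (Sum.inl (Sum.inr i))) (Fin.last k) : K) = _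
    simp only [Fin.lastCases_castSucc, Fin.lastCases_last]
    linear_combination (-(w (Sum.inr 0) * w (Sum.inr 1))) * hsum + (w (Sum.inr 1)) ^ 2 * hprod
  -- extension of scalars of an isometry
  have hext : ∀ g : ↥(Cfsg.isometryGroup F (Cfsg.quadFormMinus k F a c)),
      ∀ w : (Fin k ⊕ Fin k) ⊕ Fin 2 → K,
        Cfsg.quadFormMinus k K (A a) (A c) ((A.mapMatrix ((g : GL ((Fin k ⊕ Fin k) ⊕ Fin 2) F) : Matrix ((Fin k ⊕ Fin k) ⊕ Fin 2) ((Fin k ⊕ Fin k) ⊕ Fin 2) F)) *ᵥ w)
          = Cfsg.quadFormMinus k K (A a) (A c) w := by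
    intro g w
    have hg := (mem_isometryGroup F _ (g : GL ((Fin k ⊕ Fin k) ⊕ Fin 2) F)).mp g.2
    set M : Matrix ((Fin k ⊕ Fin k) ⊕ Fin 2) ((Fin k ⊕ Fin k) ⊕ Fin 2) F := ((g : GL ((Fin k ⊕ Fin k) ⊕ Fin 2) F) : Matrix ((Fin k ⊕ Fin k) ⊕ Fin 2) ((Fin k ⊕ Fin k) ⊕ Fin 2) F)
    set x : (Fin k ⊕ Fin k) ⊕ Fin 2 → F := fun i => c₀ (w i) with hx
    set y : (Fin k ⊕ Fin k) ⊕ Fin 2 → F := fun i => c₁ (w i) with hy
    have hw : w = fun i => A (x i) + ω * A (y i) := by
      ext i
      rw [mul_comm]; exact hz (w i)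
    have hMw : (A.mapMatrix M) *ᵥ w = fun i => A ((M *ᵥ x) i) + ω * A ((M *ᵥ y) i) := by
      ext i
      rw [hw]
      simp only [Matrix.mulVec, dotProduct, RingHom.mapMatrix_apply, Matrix.map_apply, map_sum,
        map_mul, Finset.mul_sum, ← Finset.sum_add_distrib]
      apply Finset.sum_congr rfl
      intro j _
      ring
    rw [hMw, quad_ext, hg, hg]
    conv_rhs => rw [hw]
    rw [quad_ext]
    have e : M *ᵥ x + M *ᵥ y = M *ᵥ (x + y) := (Matrix.mulVec_add M x y).symm
    rw [e, hg]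
  have hmem : ∀ g : ↥(Cfsg.isometryGroup F (Cfsg.quadFormMinus k F a c)),
      ((Units.map ((resHom Ψ).comp A.mapMatrix.toMonoidHom)).comp
        (Cfsg.isometryGroup F (Cfsg.quadFormMinus k F a c)).subtype) g
        ∈ Cfsg.isometryGroup K (Cfsg.quadFormPlus (k + 1) K) := by
    intro g
    rw [mem_isometryGroup]
    intro U
    obtain ⟨w, rfl⟩ := Ψ.surjective U
    show Cfsg.quadFormPlus (k + 1) K
      ((resHom Ψ (A.mapMatrix ((g : GL ((Fin k ⊕ Fin k) ⊕ Fin 2) F) : Matrix ((Fin k ⊕ Fin k) ⊕ Fin 2) ((Fin k ⊕ Fin k) ⊕ Fin 2) F))) *ᵥ Ψ w) = _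
    rw [resHom_mulVec, hΨ, hΨ, hext]
  refine ⟨((Units.map ((resHom Ψ).comp A.mapMatrix.toMonoidHom)).comp
        (Cfsg.isometryGroup F (Cfsg.quadFormMinus k F a c)).subtype).codRestrict _ hmem, ?_⟩
  intro g h hgh
  have h2 := congrArg (fun z : ↥(Cfsg.isometryGroup K (Cfsg.quadFormPlus (k + 1) K)) => ((z : GL (Fin (k + 1) ⊕ Fin (k + 1)) K) : Matrix (Fin (k + 1) ⊕ Fin (k + 1)) (Fin (k + 1) ⊕ Fin (k + 1)) K)) hgh
  have h3 : A.mapMatrix ((g : GL ((Fin k ⊕ Fin k) ⊕ Fin 2) F) : Matrix ((Fin k ⊕ Fin k) ⊕ Fin 2) ((Fin k ⊕ Fin k) ⊕ Fin 2) F) = A.mapMatrix ((h : GL ((Fin k ⊕ Fin k) ⊕ Fin 2) F) : Matrix ((Fin k ⊕ Fin k) ⊕ Fin 2) ((Fin k ⊕ Fin k) ⊕ Fin 2) F) :=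
    resHom_injective Ψ h2
  have h4 : ((g : GL ((Fin k ⊕ Fin k) ⊕ Fin 2) F) : Matrix ((Fin k ⊕ Fin k) ⊕ Fin 2) ((Fin k ⊕ Fin k) ⊕ Fin 2) F) = ((h : GL ((Fin k ⊕ Fin k) ⊕ Fin 2) F) : Matrix ((Fin k ⊕ Fin k) ⊕ Fin 2) ((Fin k ⊕ Fin k) ⊕ Fin 2) F) := by
    ext i j
    have := congrFun (congrFun h3 i) j
    simp only [RingHom.mapMatrix_apply, Matrix.map_apply] at this
    exact A.injective this
  exact Subtype.ext (Units.ext h4)

theorem result {F K : Type*} [Field F] [Fintype F] [Field K] [Fintype K] {q : ℕ} (hF : Fintype.card F = q) (hK : Fintype.card K = q ^ 2) {m : ℕ} (hm : 1 ≤ m) (a c : F) (hac : ∀ z₁ z₂ : F, z₁ ^ 2 + a * z₁ * z₂ + c * z₂ ^ 2 = 0 → z₁ = 0 ∧ z₂ = 0) : ∃ φ : ↥(Cfsg.isometryGroup F (Cfsg.quadFormMinus (m - 1) F a c)) →* ↥(Cfsg.isometryGroup K (Cfsg.quadFormPlus m K)), Function.Injective φ := by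
  obtain ⟨k, rfl⟩ := Nat.exists_eq_add_of_le' hm
  exact main hF hK k a c hac

end Cfsg.Agent.S2679
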