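import Cfsg.Statements.S2693
import Cfsg.Agent.Helper44.SpJ

set_option autoImplicit false
open Cfsg

namespace Cfsg.Agent.S2693

/-- The automorphism group of a simple projective symplectic group PSp_{2m}(F) over a finite field of characteristic p, with m ≥ 2 and (2m, p) ≠ (4, 2), is generated by the automorphisms induced by the semilinear maps v ↦ g σ(v) with g conformal symplectic and σ an automorphism of F (the image of the projective semilinear symplectic group). For (2m, p) = (4, 2) the statement fails: a duality of the underlying polar space gives a further automorphism. -/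
theorem result {F : Type*} [Field F] [Fintype F] {p : ℕ} [Fact p.Prime] [CharP F p] {m : ℕ} (hm : 2 ≤ m) (h4 : m = 2 → p ≠ 2) :
    Cfsg.gammaPSp m F = ⊤ := by
  apply Cfsg.Agent.Helper44.PSpn.gammaPSp_top_of_rel p hm
  intro α v hv0
  by_cases hp : p = 2
  · subst hp
    have hm3 : 3 ≤ m := by
      rcases Nat.lt_or_ge m 3 with h | h
      · exact absurd rfl (h4 (by omega))
      · exact h
    exact Cfsg.Agent.Helper44.PSpn.rel_exists_even hm3 α v hv0
  · have h2 : (2 : F) ≠ 0 := by
      intro h
      have h1 : ((2 : ℕ) : F) = 0 := by exact_mod_cast h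
      have h3 := (CharP.cast_eq_zero_iff F p 2).1 h1
      exact hp ((Nat.prime_dvd_prime_iff_eq Fact.out Nat.prime_two).1 h3)
    exact Cfsg.Agent.Helper44.PSpn.rel_exists_odd h2 p (by omega) α v hv0

end Cfsg.Agent.S2693
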