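import Cfsg.Statements.S2694
import Cfsg.Agent.Helper45.AutJ
import Cfsg.Agent.Helper45.CenterForms
import Cfsg.Agent.Helper45.DicksonRank
import Cfsg.Agent.Helper45.TSing

set_option autoImplicit false
open Cfsg

namespace Cfsg.Agent.S2694

/-- For m ≥ 3 and a finite field F of odd order, the automorphism group of the orthogonal group Ω_{2m+1}(F) (realised as PΩ of the form x₀² + Σ xᵢ yᵢ, whose centre is trivial) is generated by the automorphisms induced by the semisimilarities v ↦ g σ(v) of the form (the image of the projective semisimilarity group); there are no graph or graph-field automorphisms. -/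
theorem result {F : Type*} [Field F] [Fintype F] (hodd : Odd (Fintype.card F)) {m : ℕ} (hm : 3 ≤ m) :
    Cfsg.gammaPOmega F (Cfsg.quadFormOdd m F) = ⊤ := by
  have h2 : (2 : F) ≠ 0 := Helper45.two_ne_zero_of_odd_card hodd
  have hQ := Helper45.oddQF_nondeg' (F := F) m h2
  have hcard : Fintype.card (Unit ⊕ (Fin m ⊕ Fin m)) = 2 * m + 1 := by
    rw [Fintype.card_sum, Fintype.card_sum, Fintype.card_fin, Fintype.card_unit]
    omega
  have hci : 7 ≤ Fintype.card (Unit ⊕ (Fin m ⊕ Fin m)) := by omega
  have hcase : 9 ≤ Fintype.card (Unit ⊕ (Fin m ⊕ Fin m)) ∨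
      Helper45.AO.TS4free (Helper43.oddQF m F) := by
    by_cases h4 : 4 ≤ m
    · left
      omega
    · right
      intro W hW
      have h5 := Helper45.finrank_ts_le (Helper43.oddQF m F) hQ W hW
      omega
  exact Helper45.AO.gamma_top (Helper43.oddQF m F) hQ hci hcase

end Cfsg.Agent.S2694
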