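import Cfsg.Statements.S2695
import Cfsg.Agent.Helper45.AutJ
import Cfsg.Agent.Helper45.CenterForms
import Cfsg.Agent.Helper45.DicksonRank
import Cfsg.Agent.Helper45.TSing

set_option autoImplicit false
open Cfsg

namespace Cfsg.Agent.S2695

/-- For m ≥ 5 and a finite field F, the automorphism group of PΩ⁺_{2m}(F) (the form Σ xᵢ yᵢ) is generated by the automorphisms induced by the semisimilarities v ↦ g σ(v) of the form (the image of the projective semisimilarity group). The case 2m = 8 is excluded: there triality gives further automorphisms. -/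
theorem result {F : Type*} [Field F] [Fintype F] {m : ℕ} (hm : 5 ≤ m) :
    Cfsg.gammaPOmega F (Cfsg.quadFormPlus m F) = ⊤ := by
  have hQ := Helper45.plusQF_nondeg' (F := F) m
  have hcard : Fintype.card (Fin m ⊕ Fin m) = 2 * m := by
    rw [Fintype.card_sum, Fintype.card_fin]
    omega
  have hci : 7 ≤ Fintype.card (Fin m ⊕ Fin m) := by omega
  have hcase : 9 ≤ Fintype.card (Fin m ⊕ Fin m) ∨ Helper45.AO.TS4free (Helper43.plusQF m F) := by
    left
    omega
  exact Helper45.AO.gamma_top (Helper43.plusQF m F) hQ hci hcase

end Cfsg.Agent.S2695
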