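import Cfsg.Statements.S2696
import Cfsg.Agent.Helper45.AutJ
import Cfsg.Agent.Helper45.CenterForms
import Cfsg.Agent.Helper45.DicksonRank
import Cfsg.Agent.Helper45.TSing

set_option autoImplicit false
open Cfsg

namespace Cfsg.Agent.S2696

/-- For m ≥ 3 and a finite field F, the automorphism group of the minus-type group PΩ⁻_{2m+2}(F) (the form Σ xᵢ yᵢ + z₁² + a z₁ z₂ + b z₂² with anisotropic binary part) is generated by the automorphisms induced by the semisimilarities v ↦ g σ(v) of the form, that is, pairs with Q(g σ(v)) = c σ(Q(v)) (the image of the projective semisimilarity group). -/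
theorem result {F : Type*} [Field F] [Fintype F] {m : ℕ} (hm : 3 ≤ m) (a b : F) (hab : ∀ z₁ z₂ : F, z₁ ^ 2 + a * z₁ * z₂ + b * z₂ ^ 2 = 0 → z₁ = 0 ∧ z₂ = 0) :
    Cfsg.gammaPOmega F (Cfsg.quadFormMinus m F a b) = ⊤ := by
  have hQ := Helper45.minusQF_nondeg' (F := F) m a b hab
  have hcard : Fintype.card ((Fin m ⊕ Fin m) ⊕ Fin 2) = 2 * m + 2 := by
    rw [Fintype.card_sum, Fintype.card_sum, Fintype.card_fin, Fintype.card_fin]
    omega
  have hci : 7 ≤ Fintype.card ((Fin m ⊕ Fin m) ⊕ Fin 2) := by omega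
  have hcase : 9 ≤ Fintype.card ((Fin m ⊕ Fin m) ⊕ Fin 2) ∨
      Helper45.AO.TS4free (Helper43.minusQF m F a b) := by
    by_cases h4 : 4 ≤ m
    · left
      omega
    · right
      have hm3 : m = 3 := by omega
      subst hm3
      intro W hW
      by_contra hcon
      obtain ⟨v, hvW, hv⟩ := Helper45.minus_exists_nonsingular 3 a b hab W (by omega)
      exact hv (hW v hvW)
  exact Helper45.AO.gamma_top (Helper43.minusQF m F a b) hQ hci hcase

end Cfsg.Agent.S2696
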