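import Cfsg.Statements.S2707
import Cfsg.Agent.Helper43.UTransferAsm

set_option autoImplicit false
open Cfsg

namespace Cfsg.Agent.S2707



/-- Let T = PSU_n(q) with n = 2m ≥ 4 even and q odd, realised over the field F with q² elements, and G = Inndiag(T) the image of PGU_n(q). The involutory graph automorphisms of T fall into exactly three G-classes, with representatives whose centralizers in G are isomorphic respectively to the projective conformal symplectic group PGSp_n(F₀), the projective conformal orthogonal group of the plus-type form Σ xᵢ yᵢ, and that of a minus-type form Σ xᵢ yᵢ + z₁² + a z₁ z₂ + b z₂² (anisotropic binary part) in dimension n, all over a field F₀ with q elements. -/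
theorem result {F : Type*} [Field F] [Fintype F] {q : ℕ} (hodd : Odd q) (hF : Fintype.card F = q ^ 2) {n m : ℕ} (hm : 2 ≤ m) (hnm : n = 2 * m) (F₀ : Type*) [Field F₀] [Fintype F₀] (hF₀ : Fintype.card F₀ = q) :
    ∃ (γ₁ γ₂ γ₃ : MulAut (Cfsg.PSU n F q)) (a b : F₀), (∀ z₁ z₂ : F₀, z₁ ^ 2 + a * z₁ * z₂ + b * z₂ ^ 2 = 0 → z₁ = 0 ∧ z₂ = 0) ∧ Cfsg.IsGraphAutClassPSU γ₁ ∧ orderOf γ₁ = 2 ∧ Cfsg.IsGraphAutClassPSU γ₂ ∧ orderOf γ₂ = 2 ∧ Cfsg.IsGraphAutClassPSU γ₃ ∧ orderOf γ₃ = 2 ∧ ¬ Cfsg.IsConjUnder (Cfsg.inndiagPSU n F q) γ₁ γ₂ ∧ ¬ Cfsg.IsConjUnder (Cfsg.inndiagPSU n F q) γ₁ γ₃ ∧ ¬ Cfsg.IsConjUnder (Cfsg.inndiagPSU n F q) γ₂ γ₃ ∧ (∀ γ : MulAut (Cfsg.PSU n F q), Cfsg.IsGraphAutClassPSU γ → orderOf γ = 2 → Cfsg.IsConjUnder (Cfsg.inndiagPSU n F q) γ₁ γ ∨ Cfsg.IsConjUnder (Cfsg.inndiagPSU n F q) γ₂ γ ∨ Cfsg.IsConjUnder (Cfsg.inndiagPSU n F q) γ₃ γ) ∧ Nonempty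 (↥(Cfsg.inndiagPSU n F q ⊓ Subgroup.centralizer {γ₁}) ≃* Cfsg.PGSp m F₀) ∧ Nonempty (↥(Cfsg.inndiagPSU n F q ⊓ Subgroup.centralizer {γ₂}) ≃* Cfsg.PGO F₀ (Cfsg.quadFormPlus m F₀)) ∧ Nonempty (↥(Cfsg.inndiagPSU n F q ⊓ Subgroup.centralizer {γ₃}) ≃* Cfsg.PGO F₀ (Cfsg.quadFormMinus (m - 1) F₀ a b)) := by
  exact Cfsg.Agent.Helper43.UTransfer.s2707_of hodd hm hnm hF₀
    (Cfsg.Agent.Helper43.UTransferAsm.hasTransfer hF (by omega) (by omega) F₀ hF₀)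

end Cfsg.Agent.S2707
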