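import Cfsg.Statements.S2709
import Cfsg.Agent.Helper43.USplit

set_option autoImplicit false
open Cfsg

namespace Cfsg.Agent.S2709

open Matrix Module Cfsg.Agent.Helper44.PSLn Cfsg.Agent.Helper44.PSUn Cfsg.Agent.Helper43
  Cfsg.Agent.Helper43.GraphAut
open Cfsg.Agent.Helper30.UG Cfsg.Agent.Helper30.UGCE Cfsg.Agent.Helper43.USplitA
  Cfsg.Agent.Helper43.USplit Cfsg.Agent.Helper43.UGDA
open Cfsg.Agent.Helper46.UGA3 Cfsg.Agent.Helper31.UGA8 Cfsg.Agent.Helper37.UGIOTA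
  Cfsg.Agent.Helper37.UGDS

/-- Let T = PSU_n(q) be simple (n ≥ 3, (n,q) ≠ (3,2), q = p^f), realised over the field F with q² elements, G = Inndiag(T) the image of PGU_n(q), and γ an involutory graph automorphism of T. The G-class of γ is the union of exactly c T-classes, where: if n is even and q is odd, c = gcd(n/2, q + 1) when C_G(γ) is isomorphic to PGSp_n(F₀) for a field F₀ with q elements (symplectic type) and c = gcd(n, q + 1)/2 otherwise; and c = gcd(n, q + 1) when n is odd or q is even. -/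
theorem result {F : Type*} [Field F] [Fintype F] {p f q : ℕ} [Fact p.Prime] (hq : q = p ^ f) (hf : 1 ≤ f) (hF : Fintype.card F = q ^ 2) {n : ℕ} (hn : 3 ≤ n) (hs : ¬ (n = 3 ∧ q = 2)) (F₀ : Type*) [Field F₀] [Fintype F₀] (hF₀ : Fintype.card F₀ = q) (γ : MulAut (Cfsg.PSU n F q)) (hγ : Cfsg.IsGraphAutClassPSU γ) (hγ2 : orderOf γ = 2) :
    ((Even n ∧ Odd q ∧ Nonempty (↥(Cfsg.inndiagPSU n F q ⊓ Subgroup.centralizer {γ}) ≃* Cfsg.PGSp (n / 2) F₀)) → Cfsg.splitClassCount (Cfsg.inndiagPSU n F q) (Cfsg.Inn (Cfsg.PSU n F q)) γ = Nat.gcd (n / 2) (q + 1)) ∧ ((Even n ∧ Odd q ∧ ¬ Nonempty (↥(Cfsg.inndiagPSU n F q ⊓ Subgroup.centralizer {γ}) ≃* Cfsg.PGSp (n / 2) F₀)) → Cfsg.splitClassCount (Cfsg.inndiagPSU n F q) (Cfsg.Inn (Cfsg.PSU n F q)) γ = Nat.gcd n (q + 1) / 2) ∧ (¬ (Even n ∧ Odd q) → Cfsg.splitClassCount (Cfsg.inndiagPSU n F q) (Cfsg.Inn (Cfsg.PSU n F q)) γ = Nat.gcd n (q + 1)) := by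
  have hn1 : 1 ≤ n := by omega
  obtain ⟨p', hp'⟩ := CharP.exists F
  have hpp : Fact p'.Prime := ⟨CharP.char_is_prime F p'⟩
  obtain ⟨ι, hι⟩ := ug_iota hF hF₀
  obtain ⟨g, rfl⟩ := ug_exists hF p' hn hs γ hγ hγ2
  rw [ulang_split_count hF hn1]
  have hsymskew := (ug_orderOf hF p' hn hs g).mp hγ2
  obtain ⟨k, B, hd, hB⟩ : ∃ (k : GL (Fin n) F) (B : GL (Fin n) F₀), UDat hF ι g k B ∧
      ((B : Mn n F₀)ᵀ = (B : Mn n F₀) ∨ (B : Mn n F₀)ᵀ = -(B : Mn n F₀)) := by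
    rcases hsymskew with h | h
    · obtain ⟨k, B, hd, hB⟩ := ug_descent_sym hF ι hι g h
      exact ⟨k, B, hd, Or.inl hB⟩
    · obtain ⟨k, B, hd, hB⟩ := ug_descent_anti hF ι hι g h
      exact ⟨k, B, hd, Or.inr hB⟩
  obtain ⟨φ⟩ := ug_cent hF ι hι p' hn hs g k B hd
  by_cases heo : Even n ∧ Odd q
  · obtain ⟨⟨m, hm⟩, hodd⟩ := heo
    have hnm : n = 2 * m := by omega
    have hdiv : n / 2 = m := by omega
    have hodd' : Odd (Fintype.card F₀) := by rw [hF₀]; exact hodd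
    have h2 : (2 : F₀) ≠ 0 := two_ne_zero_of_odd_card rfl hodd'
    have h2F : (2 : F) ≠ 0 := by
      have h3 := (map_ne_zero ι).mpr h2
      rwa [map_ofNat] at h3
    rw [hdiv]
    rcases hB with hsym | hskew
    · have hnot := not_pgsp_of_sym hodd' hn hnm B hsym
      have hnot' : ¬ Nonempty (↥(Cfsg.inndiagPSU n F q ⊓ Subgroup.centralizer {ugr hF g}) ≃*
          Cfsg.PGSp m F₀) := by
        rintro ⟨ψ⟩
        exact hnot ⟨φ.symm.trans ψ⟩
      refine ⟨fun h => absurd h.2.2 hnot', fun _ => ?_, fun h => absurd ⟨⟨m, hm⟩, hodd⟩ h⟩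
      have hz : (-1 : Fˣ) ^ (q + 1) = 1 := Even.neg_one_pow hodd.add_one
      obtain ⟨z₀, hz₀⟩ : ∃ z₀ : ↥(N1 F q), ((z₀ : Fˣ) : F) = -1 :=
        ⟨⟨-1, (mem_N1 _).mpr hz⟩, by simp⟩
      rw [detimg_sym hF ι hι p' hn hs g k B hd hn1 hnm h2 hsym z₀ hz₀,
        n1_index_neg_pow hF h2F hodd z₀ hz₀ m, hnm]
    · obtain ⟨ψ⟩ := pgsp_of_skew h2 hn hnm B hskew
      have hyes' : Nonempty (↥(Cfsg.inndiagPSU n F q ⊓ Subgroup.centralizer {ugr hF g}) ≃*
          Cfsg.PGSp m F₀) := ⟨φ.trans ψ⟩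
      refine ⟨fun _ => ?_, fun h => absurd hyes' h.2.2, fun h => absurd ⟨⟨m, hm⟩, hodd⟩ h⟩
      rw [detimg_skew hF ι hι p' hn hs g k B hd hn1 hnm h2 hskew, n1_index_pow hF m]
  · refine ⟨fun h => absurd ⟨h.1, h.2.1⟩ heo, fun h => absurd ⟨h.1, h.2.1⟩ heo, fun _ => ?_⟩
    have hroot : ∀ (x : GL (Fin n) F₀) (c : F₀),
        (x : Mn n F₀)ᵀ * (B : Mn n F₀) * (x : Mn n F₀) = c • (B : Mn n F₀) →
          ∃ a : F₀, a ^ 2 = c ∧ (x : Mn n F₀).det = a ^ n := by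
      intro x c hx
      by_cases hqodd : Odd q
      · have hnodd : Odd n := by
          rw [← Nat.not_even_iff_odd]
          exact fun hev => heo ⟨hev, hqodd⟩
        obtain ⟨m, hm⟩ := hnodd
        exact root_sq_odd hm B x c hx
      · have h2 : (2 : F₀) = 0 := by
          by_contra h2
          have h4 : ringChar F₀ ≠ 2 := by
            intro h5
            apply h2
            have := CharP.cast_eq_zero F₀ (ringChar F₀)
            rw [h5] at this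
            exact_mod_cast this
          have h6 := FiniteField.odd_card_of_char_ne_two h4
          rw [hF₀] at h6
          exact hqodd (Nat.odd_iff.mpr h6)
        exact root_sq_char_two h2 B x c hx
    rw [detimg_eq_pow hF ι hι p' hn hs g k B hd hn1 hroot, n1_index_pow hF n]

end Cfsg.Agent.S2709
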