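import Cfsg.Statements.S2720
import Cfsg.Agent.Helper43.PFAsm

set_option autoImplicit false
open Cfsg

namespace Cfsg.Agent.S2720

open Matrix Cfsg.Agent.Helper45 Cfsg.Agent.Helper45.ID Cfsg.Agent.Helper43.PFAsm

/-- Let T = PΩ⁺_{2m}(F) (m ≥ 4, F finite of odd characteristic p), G = Inndiag(T), and let x be an automorphism of T induced by a similarity of the form (an element of the image G̃ of the conformal orthogonal group) of odd prime order r ≠ p. Then the T-class, the PSO-class and the G-class of x coincide (conjugacy under inner automorphisms, under the image of the special orthogonal group, and under G), and the PO-class of x coincides with its G̃-class. (In characteristic 2 the first equality fails: there the special orthogonal group is the full orthogonal group and some such classes split.) -/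
theorem result {F : Type*} [Field F] [Fintype F] {p : ℕ} [Fact p.Prime] [CharP F p] (hp : p ≠ 2) {m : ℕ} (hm : 4 ≤ m) (x : MulAut (Cfsg.POmega F (Cfsg.quadFormPlus m F))) (hx : x ∈ Cfsg.pgoAut F (Cfsg.quadFormPlus m F)) {r : ℕ} (hr : r.Prime) (hro : Odd r) (hrp : r ≠ p) (hxr : orderOf x = r) :
    (∀ y : MulAut (Cfsg.POmega F (Cfsg.quadFormPlus m F)), (Cfsg.IsConjUnder (Cfsg.Inn (Cfsg.POmega F (Cfsg.quadFormPlus m F))) x y ↔ Cfsg.IsConjUnder (Cfsg.inndiagPOmegaPlus m F) x y) ∧ (Cfsg.IsConjUnder (Cfsg.psoAut F (Cfsg.quadFormPlus m F)) x y ↔ Cfsg.IsConjUnder (Cfsg.inndiagPOmegaPlus m F) x y)) ∧ (∀ y : MulAut (Cfsg.POmega F (Cfsg.quadFormPlus m F)), Cfsg.IsConjUnder (Cfsg.poAut F (Cfsg.quadFormPlus m F)) x y ↔ Cfsg.IsConjUnder (Cfsg.pgoAut F (Cfsg.quadFormPlus m F)) x y) := by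
  have hodd : Odd (Fintype.card F) := odd_card_of_char hp
  have h2 := Cfsg.Agent.Helper45.two_ne_zero_of_odd_card hodd
  obtain ⟨i₀⟩ : Nonempty (Fin m) := ⟨⟨0, by omega⟩⟩
  have hcard : 2 ≤ Fintype.card (Fin m ⊕ Fin m) := by
    rw [Fintype.card_sum, Fintype.card_fin]; omega
  have D : KData (quadFormPlus m F) m (Cfsg.Agent.S2722.gramJ m F) (Cfsg.Agent.S2722.v0 F i₀) := by
    constructor
    · simp
    · exact Cfsg.Agent.S2722.quad_eq
    · exact Cfsg.Agent.S2722.gramJ_transpose
    · exact Cfsg.Agent.S2722.gramJ_det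
    · exact Cfsg.Agent.S2722.quad_v0 _
    · exact h2
  rw [inndiag_plus_eq h2 i₀ D]
  exact pf_gen (qPlus m F h2) (quadFormPlus m F) rfl (qPlus_nondeg h2) hodd hcard D
    (fun g hg h1 => scalar_of_ind_one_plus h2 (by omega) g hg h1) x hx hr hro hrp hxr

end Cfsg.Agent.S2720
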