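import Cfsg.Statements.S2721
import Cfsg.Agent.Helper43.PFAsm

set_option autoImplicit false
open Cfsg

namespace Cfsg.Agent.S2721

open Matrix Cfsg.Agent.Helper45 Cfsg.Agent.Helper45.ID Cfsg.Agent.Helper43.PFAsm

/-- Let T = PΩ⁻_{2m+2}(F) (m ≥ 3, F finite of odd characteristic p), G = Inndiag(T), and let x be an automorphism of T induced by a similarity of the form (an element of the image G̃ of the conformal orthogonal group) of odd prime order r ≠ p. Then the T-class, the PSO-class and the G-class of x coincide (conjugacy under inner automorphisms, under the image of the special orthogonal group, and under G), and the PO-class of x coincides with its G̃-class. (In characteristic 2 the first equality fails: there the special orthogonal group is the full orthogonal group and some such classes split.) -/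
theorem result {F : Type*} [Field F] [Fintype F] {p : ℕ} [Fact p.Prime] [CharP F p] (hp : p ≠ 2) {m : ℕ} (hm : 3 ≤ m) (a b : F) (hab : (∀ z₁ z₂ : F, z₁ ^ 2 + a * z₁ * z₂ + b * z₂ ^ 2 = 0 → z₁ = 0 ∧ z₂ = 0)) (x : MulAut (Cfsg.POmega F (Cfsg.quadFormMinus m F a b))) (hx : x ∈ Cfsg.pgoAut F (Cfsg.quadFormMinus m F a b)) {r : ℕ} (hr : r.Prime) (hro : Odd r) (hrp : r ≠ p) (hxr : orderOf x = r) :
    (∀ y : MulAut (Cfsg.POmega F (Cfsg.quadFormMinus m F a b)), (Cfsg.IsConjUnder (Cfsg.Inn (Cfsg.POmega F (Cfsg.quadFormMinus m F a b))) x y ↔ Cfsg.IsConjUnder (Cfsg.inndiagPOmegaMinus m F a b) x y) ∧ (Cfsg.IsConjUnder (Cfsg.psoAut F (Cfsg.quadFormMinus m F a b)) x y ↔ Cfsg.IsConjUnder (Cfsg.inndiagPOmegaMinus m F a b) x y)) ∧ (∀ y : MulAut (Cfsg.POmega F (Cfsg.quadFormMinus m F a b)), Cfsg.IsConjUnder (Cfsg.poAut F (Cfsg.quadFormMinus m F a b)) x y ↔ Cfsg.IsConjUnder (Cfsg.pgoAut F (Cfsg.quadFormMinus m F a b)) x y) := by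
  have hodd : Odd (Fintype.card F) := odd_card_of_char hp
  have h2 := Cfsg.Agent.Helper45.two_ne_zero_of_odd_card hodd
  obtain ⟨i₀⟩ : Nonempty (Fin m) := ⟨⟨0, by omega⟩⟩
  have hcard : 2 ≤ Fintype.card ((Fin m ⊕ Fin m) ⊕ Fin 2) := by
    rw [Fintype.card_sum, Fintype.card_sum, Fintype.card_fin, Fintype.card_fin]; omega
  have D : KData (quadFormMinus m F a b) (m + 1) (Cfsg.Agent.S2726.gramM a b m)
      (Cfsg.Agent.S2726.v0M F i₀) := by
    constructor
    · simp only [Fintype.card_sum, Fintype.card_fin]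
      omega
    · exact Cfsg.Agent.S2726.quadM_eq a b
    · exact Cfsg.Agent.S2726.gramM_transpose a b
    · exact Cfsg.Agent.S2726.gramM_det a b h2 hab
    · exact Cfsg.Agent.S2726.quad_v0M a b _
    · exact h2
  rw [inndiag_minus_eq hodd a b hab i₀ D]
  exact pf_gen (qMinus m F a b h2) (quadFormMinus m F a b) rfl (qMinus_nondeg a b h2 hab) hodd
    hcard D (fun g hg h1 => scalar_of_ind_one_minus h2 hm a b hab g hg h1) x hx hr hro hrp hxr

end Cfsg.Agent.S2721
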