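import Cfsg.Statements.S2728
import Cfsg.Agent.Helper45.PGO

set_option autoImplicit false
open Cfsg

namespace Cfsg.Agent.S2728

/-- Let T = PΩ⁻_{2m+2}(F) with m ≥ 3 and |F| = q odd (form with anisotropic binary part). The image G̃ of the conformal orthogonal group in Aut(T), taken modulo the inner automorphism group T, is dihedral of order 8 when m is even and q ≡ 3 (mod 4), and elementary abelian of order 4 otherwise. -/
theorem result {F : Type*} [Field F] [Fintype F] (hodd : Odd (Fintype.card F)) {m : ℕ} (hm : 3 ≤ m) (a b : F) (hab : (∀ z₁ z₂ : F, z₁ ^ 2 + a * z₁ * z₂ + b * z₂ ^ 2 = 0 → z₁ = 0 ∧ z₂ = 0)) :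
    ((Even m ∧ Fintype.card F % 4 = 3) → (∃ φ : ↥(Cfsg.pgoAut F (Cfsg.quadFormMinus m F a b)) →* DihedralGroup 4, Function.Surjective φ ∧ φ.ker = (Cfsg.Inn (Cfsg.POmega F (Cfsg.quadFormMinus m F a b))).subgroupOf (Cfsg.pgoAut F (Cfsg.quadFormMinus m F a b)))) ∧ (¬ (Even m ∧ Fintype.card F % 4 = 3) → (∃ φ : ↥(Cfsg.pgoAut F (Cfsg.quadFormMinus m F a b)) →* Multiplicative (ZMod 2 × ZMod 2), Function.Surjective φ ∧ φ.ker = (Cfsg.Inn (Cfsg.POmega F (Cfsg.quadFormMinus m F a b))).subgroupOf (Cfsg.pgoAut F (Cfsg.quadFormMinus m F a b)))) := by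
  exact Cfsg.Agent.Helper45.pgo_minus_mod_inn hodd hm a b hab

end Cfsg.Agent.S2728
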