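import Cfsg.Statements.S2734
import Cfsg.Agent.Helper18.FoldD4
import Cfsg.Agent.Helper18.FoldAut
-- import your own Cfsg.Agent.* helpers here

set_option autoImplicit false
open Cfsg

namespace Cfsg.Agent.S2734

/-- In the Chevalley group of type D₄ over a finite field F (the matrix group generated by the root elements), a graph automorphism attached to a symmetry π of the Dynkin diagram (sending each fundamental root element x_p(t) to x_{π(p)}(t) and each x_{−p}(t) to x_{−π(p)}(t)) that has order 3 — a standard triality graph automorphism, π being a 3-cycle of the three outer nodes — has fixed-point subgroup isomorphic to the Chevalley group of type G₂ over F. -/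
theorem result {F : Type*} [Field F] [Fintype F] (τ : MulAut ↥(Cfsg.Lie.chevD4.group F)) (hτ : Cfsg.Lie.chevD4.IsGraphAut τ) (hτ3 : orderOf τ = 3) :
    Nonempty (↥(MonoidHom.eqLocus τ.toMonoidHom (MonoidHom.id ↥(Cfsg.Lie.chevD4.group F))) ≃* ↥(Cfsg.Lie.chevG2.group F)) := by
  obtain ⟨π, hπ, hτ'⟩ := hτ
  obtain ⟨l, hl, hv⟩ := Cfsg.Agent.Helper18.d4_syms π hπ
  have h0 : Cfsg.Agent.Helper18.GActL Cfsg.Lie.chevD4 F τ l :=
    Cfsg.Agent.Helper18.gactL_of_graph Cfsg.Agent.Helper18.d4_long τ π l hv hτ'
  have hmem := Cfsg.Agent.Helper18.d4_mem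
  have h2 : ¬ (3 ∣ 2) := by decide
  simp only [List.mem_cons, List.not_mem_nil, or_false] at hl
  rcases hl with rfl | rfl | rfl | rfl | rfl | rfl
  · have e : τ = 1 := h0.eq_one hmem (by decide)
    rw [e, orderOf_one] at hτ3
    exact absurd hτ3 (by decide)
  · have e : τ * τ = 1 := (h0.sq [0, 1, 2, 3] (by decide)).eq_one hmem (by decide)
    have e' : τ ^ 2 = 1 := by rw [pow_two]; exact e
    exact absurd (hτ3 ▸ orderOf_dvd_of_pow_eq_one e') h2
  · have e : τ * τ = 1 := (h0.sq [0, 1, 2, 3] (by decide)).eq_one hmem (by decide)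
    have e' : τ ^ 2 = 1 := by rw [pow_two]; exact e
    exact absurd (hτ3 ▸ orderOf_dvd_of_pow_eq_one e') h2
  · exact Cfsg.Agent.Helper18.d4_fix_equiv τ τ h0 (fun g => Iff.rfl)
  · have e3 : τ ^ 3 = 1 := by rw [← hτ3]; exact pow_orderOf_eq_one τ
    refine Cfsg.Agent.Helper18.d4_fix_equiv τ (τ * τ) (h0.sq [2, 1, 3, 0] (by decide)) (fun g => ?_)
    constructor
    · intro h
      show τ (τ g) = g
      rw [h, h]
    · intro h
      have h' : τ (τ g) = g := h
      have h3 : τ (τ (τ g)) = g := by
        have := DFunLike.congr_fun e3 g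
        exact this
      rw [h'] at h3
      exact h3
  · have e : τ * τ = 1 := (h0.sq [0, 1, 2, 3] (by decide)).eq_one hmem (by decide)
    have e' : τ ^ 2 = 1 := by rw [pow_two]; exact e
    exact absurd (hτ3 ▸ orderOf_dvd_of_pow_eq_one e') h2


end Cfsg.Agent.S2734
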