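import Cfsg.Statements.S2738

set_option autoImplicit false
open Cfsg

namespace Cfsg.Agent.S2738

open Matrix

theorem units_pow_three {F : Type*} [Field F] [Fintype F] (hF : Fintype.card F = 4) (u : Fˣ) : u ^ 3 = 1 := by
  have h : Nat.card Fˣ = 3 := by rw [Nat.card_units, Nat.card_eq_fintype_card, hF]
  rw [← h]
  exact pow_card_eq_one' 

theorem card_center {F : Type*} [Field F] [Fintype F] (hF : Fintype.card F = 4) :
    Nat.card ↥(Subgroup.center (Matrix.SpecialLinearGroup (Fin 3) F)) = 3 := by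
  rw [Nat.card_congr (Matrix.SpecialLinearGroup.center_equiv_rootsOfUnity (n := Fin 3) (R := F)).toEquiv]
  have h3 : max (Fintype.card (Fin 3)) 1 = 3 := by simp
  rw [h3]
  have htop : rootsOfUnity 3 F = ⊤ := by
    rw [eq_top_iff]
    intro u _
    rw [mem_rootsOfUnity]
    exact units_pow_three hF u
  rw [htop, Nat.card_congr (Subgroup.topEquiv (G := Fˣ)).toEquiv, Nat.card_units,
    Nat.card_eq_fintype_card, hF]

/-- the diagonal matrix `diag(1, ω, ω²)` -/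
def dMat {F : Type*} [Field F] (ω : F) (h : ω ^ 3 = 1) : Matrix.SpecialLinearGroup (Fin 3) F :=
  ⟨!![1, 0, 0; 0, ω, 0; 0, 0, ω ^ 2], by rw [Matrix.det_fin_three]; simp; ring_nf; exact h⟩

/-- a cyclic permutation matrix -/
def cMat (F : Type*) [Field F] : Matrix.SpecialLinearGroup (Fin 3) F :=
  ⟨!![0, 1, 0; 0, 0, 1; 1, 0, 0], by rw [Matrix.det_fin_three]; simp⟩

/-- the scalar matrix `ω` -/
def sMat {F : Type*} [Field F] (ω : F) (h : ω ^ 3 = 1) : Matrix.SpecialLinearGroup (Fin 3) F :=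
  ⟨!![ω, 0, 0; 0, ω, 0; 0, 0, ω], by rw [Matrix.det_fin_three]; simp; ring_nf; exact h⟩

theorem comm_rel_mat {F : Type*} [Field F] (ω : F) (h : ω ^ 3 = 1) :
    (!![0, 1, 0; 0, 0, 1; 1, 0, 0] : Matrix (Fin 3) (Fin 3) F) * !![1, 0, 0; 0, ω, 0; 0, 0, ω ^ 2] =
      !![ω, 0, 0; 0, ω, 0; 0, 0, ω] * (!![1, 0, 0; 0, ω, 0; 0, 0, ω ^ 2] * !![0, 1, 0; 0, 0, 1; 1, 0, 0]) := by
  ext i j
  fin_cases i <;> fin_cases j <;> simp [Matrix.mul_apply, Fin.sum_univ_three]
  all_goals first | rfl | ring1 | (rw [← h]; ring1)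

theorem comm_rel {F : Type*} [Field F] (ω : F) (h : ω ^ 3 = 1) :
    cMat F * dMat ω h = sMat ω h * (dMat ω h * cMat F) :=
  Subtype.ext (comm_rel_mat ω h)

theorem sMat_mem_center {F : Type*} [Field F] (ω : F) (h : ω ^ 3 = 1) :
    sMat ω h ∈ Subgroup.center (Matrix.SpecialLinearGroup (Fin 3) F) := by
  rw [Matrix.SpecialLinearGroup.mem_center_iff]
  refine ⟨ω, by simpa using h, ?_⟩
  simp only [sMat]
  ext i j
  fin_cases i <;> fin_cases j <;> simp [Matrix.scalar_apply]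

theorem sMat_ne_one {F : Type*} [Field F] (ω : F) (h : ω ^ 3 = 1) (h1 : ω ≠ 1) : sMat ω h ≠ 1 := by
  intro hs
  have := congrArg (fun M : Matrix.SpecialLinearGroup (Fin 3) F => M.1 0 0) hs
  simp [sMat] at this
  exact h1 this

/-- The special linear group SL(3, 4) has centre of order 3 and does not split over it: no subgroup is a complement to the centre (so SL(3, 4) is a non-split central extension of PSL(3, 4) by a group of order 3). -/
theorem result (F : Type*) [Field F] [Fintype F] (hF : Fintype.card F = 4) : Nat.card ↥(Subgroup.center (Matrix.SpecialLinearGroup (Fin 3) F)) = 3 ∧ ¬ ∃ K : Subgroup (Matrix.SpecialLinearGroup (Fin 3) F), Subgroup.IsComplement' (Subgroup.center (Matrix.SpecialLinearGroup (Fin 3) F)) K := by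
  refine ⟨card_center hF, ?_⟩
  rintro ⟨K, hK⟩
  -- a unit ω ≠ 1
  have hcard : Nat.card Fˣ = 3 := by rw [Nat.card_units, Nat.card_eq_fintype_card, hF]
  have : Nontrivial Fˣ := by
    rw [← Finite.one_lt_card_iff_nontrivial, hcard]; norm_num
  obtain ⟨u, hu⟩ := exists_ne (1 : Fˣ)
  have hω3 : (u : F) ^ 3 = 1 := by
    have := congrArg Units.val (units_pow_three hF u)
    simpa using this
  have hω1 : (u : F) ≠ 1 := fun h => hu (Units.ext h)
  -- decompositions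
  have hdec : ∀ g : Matrix.SpecialLinearGroup (Fin 3) F,
      ∃ z ∈ Subgroup.center (Matrix.SpecialLinearGroup (Fin 3) F), ∃ k ∈ K, g = z * k := by
    intro g
    obtain ⟨⟨⟨z, hz⟩, ⟨k, hk⟩⟩, hzk⟩ := hK.2 g
    exact ⟨z, hz, k, hk, hzk.symm⟩
  obtain ⟨z₁, hz₁, k₁, hk₁, hc⟩ := hdec (cMat F)
  obtain ⟨z₂, hz₂, k₂, hk₂, hd⟩ := hdec (dMat (u : F) hω3)
  have hS := sMat_mem_center (u : F) hω3
  have hrel := comm_rel (u : F) hω3
  rw [hc, hd] at hrel
  have c1 := Subgroup.mem_center_iff.mp hz₁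
  have c2 := Subgroup.mem_center_iff.mp hz₂
  have cS := Subgroup.mem_center_iff.mp hS
  have e1 : z₁ * k₁ * (z₂ * k₂) = z₁ * z₂ * (k₁ * k₂) := by
    rw [mul_assoc, ← mul_assoc k₁, c2 k₁]; group
  have e2 : sMat (u : F) hω3 * (z₂ * k₂ * (z₁ * k₁)) = z₁ * z₂ * (sMat (u : F) hω3 * (k₂ * k₁)) := by
    calc sMat (u : F) hω3 * (z₂ * k₂ * (z₁ * k₁))
        = sMat (u : F) hω3 * (z₂ * (k₂ * z₁) * k₁) := by group
      _ = sMat (u : F) hω3 * (z₂ * (z₁ * k₂) * k₁) := by rw [c1 k₂]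
      _ = sMat (u : F) hω3 * (z₂ * z₁) * (k₂ * k₁) := by group
      _ = sMat (u : F) hω3 * (z₁ * z₂) * (k₂ * k₁) := by rw [c1 z₂]
      _ = (z₁ * z₂) * sMat (u : F) hω3 * (k₂ * k₁) := by rw [← cS (z₁ * z₂)]
      _ = z₁ * z₂ * (sMat (u : F) hω3 * (k₂ * k₁)) := by group
  rw [e1, e2] at hrel
  have e3 : k₁ * k₂ = sMat (u : F) hω3 * (k₂ * k₁) := mul_left_cancel hrel
  have hSK : sMat (u : F) hω3 ∈ K := by
    have : sMat (u : F) hω3 = k₁ * k₂ * (k₂ * k₁)⁻¹ := by rw [e3]; group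
    rw [this]
    exact K.mul_mem (K.mul_mem hk₁ hk₂) (K.inv_mem (K.mul_mem hk₂ hk₁))
  have hbot : sMat (u : F) hω3 ∈ (⊥ : Subgroup (Matrix.SpecialLinearGroup (Fin 3) F)) := by
    have := hK.disjoint
    rw [disjoint_iff] at this
    rw [← this]
    exact ⟨hS, hSK⟩
  exact sMat_ne_one (u : F) hω3 hω1 (Subgroup.mem_bot.mp hbot)

end Cfsg.Agent.S2738
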