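import Cfsg.Statements.S2739

set_option autoImplicit false
open scoped Pointwise
open Cfsg

namespace Cfsg.Agent.S2739

open Matrix Polynomial

section Field4

variable {F : Type*} [Field F] [Fintype F]

theorem two_eq_zero (hF : Fintype.card F = 4) : (2 : F) = 0 := by
  have h4 : ((Fintype.card F : ℕ) : F) = 0 := Nat.cast_card_eq_zero F
  rw [hF] at h4
  have : (2 : F) * 2 = 0 := by
    have : ((4 : ℕ) : F) = 2 * 2 := by norm_num
    rw [← this]; exact h4
  exact mul_self_eq_zero.mp this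

theorem cube_eq_one (hF : Fintype.card F = 4) (a : F) (ha : a ≠ 0) : a ^ 3 = 1 := by
  have h : Nat.card Fˣ = 3 := by rw [Nat.card_units, Nat.card_eq_fintype_card, hF]
  have h2 : (Units.mk0 a ha) ^ 3 = 1 := by
    rw [← h]; exact pow_card_eq_one'
  have := congrArg Units.val h2
  simpa using this

/-- If `M ^ 3 = lam • 1` with `det M = 1` over the field with four elements then `lam = 1`. -/
theorem lam_eq_one (hF : Fintype.card F = 4) (M : Matrix (Fin 3) (Fin 3) F) (hdet : M.det = 1)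
    (lam : F) (hlam : lam ≠ 0) (hM : M ^ 3 = lam • (1 : Matrix (Fin 3) (Fin 3) F)) : lam = 1 := by
  by_contra hne
  set p : F[X] := X ^ 3 - C lam with hp
  have hpm : p.Monic := monic_X_pow_sub_C lam (by norm_num)
  have hpdeg : p.natDegree = 3 := natDegree_X_pow_sub_C
  have hp_irr : Irreducible p := by
    apply irreducible_of_degree_le_three_of_not_isRoot
    · rw [hpdeg]; simp
    · intro x hx
      rw [IsRoot, hp] at hx
      simp only [eval_sub, eval_pow, eval_X, eval_C] at hx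
      have hx3 : x ^ 3 = lam := sub_eq_zero.mp hx
      by_cases hx0 : x = 0
      · rw [hx0] at hx3; exact hlam (by simpa using hx3.symm)
      · exact hne (by rw [← hx3, cube_eq_one hF x hx0])
  have hp_aeval : aeval M p = 0 := by
    rw [hp]
    simp only [map_sub, map_pow, aeval_X, aeval_C]
    rw [hM, Algebra.algebraMap_eq_smul_one, sub_self]
  have hint : IsIntegral F M := Matrix.isIntegral M
  have hdvd : minpoly F M ∣ p := minpoly.dvd F M hp_aeval
  obtain ⟨c, hc⟩ := hdvd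
  have hcu : IsUnit c := by
    rcases hp_irr.isUnit_or_isUnit hc with h | h
    · exact absurd h (minpoly.not_isUnit F M)
    · exact h
  have hassoc : Associated (minpoly F M) p := by
    obtain ⟨u, rfl⟩ := hcu
    exact ⟨u, hc.symm⟩
  have hmin : minpoly F M = p := eq_of_monic_of_associated (minpoly.monic hint) hpm hassoc
  have hpc : p ∣ M.charpoly := hmin ▸ Matrix.minpoly_dvd_charpoly M
  have hchar : M.charpoly = p := by
    apply eq_of_monic_of_dvd_of_natDegree_le hpm (Matrix.charpoly_monic M) hpc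
    rw [Matrix.charpoly_natDegree_eq_dim, hpdeg]; simp
  have hd := Matrix.det_eq_sign_charpoly_coeff M
  rw [hchar, hdet, hp] at hd
  simp at hd
  apply hne
  rw [hd]; ring

omit [Fintype F] in
/-- A non-scalar matrix of determinant one with `M ^ 3 = 1` has characteristic polynomial `X ^ 3 - 1`. -/
theorem charpoly_eq (M : Matrix (Fin 3) (Fin 3) F) (hdet : M.det = 1)
    (hM : M ^ 3 = 1) (hns : ∀ r : F, M ≠ r • (1 : Matrix (Fin 3) (Fin 3) F)) :
    M.charpoly = X ^ 3 - 1 := by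
  have hmon : M.charpoly.Monic := Matrix.charpoly_monic M
  have hdeg : M.charpoly.natDegree = 3 := by rw [Matrix.charpoly_natDegree_eq_dim]; simp
  have hc0 : M.charpoly.coeff 0 = -1 := by
    have hd := Matrix.det_eq_sign_charpoly_coeff M
    rw [hdet] at hd
    simp at hd
    rw [hd]; ring
  have hc3 : M.charpoly.coeff 3 = 1 := by
    have := hmon.coeff_natDegree
    rwa [hdeg] at this
  obtain ⟨a, ha⟩ : ∃ a, a = M.charpoly.coeff 2 := ⟨_, rfl⟩
  obtain ⟨b, hb⟩ : ∃ b, b = M.charpoly.coeff 1 := ⟨_, rfl⟩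
  have hexp : M.charpoly = X ^ 3 + C a * X ^ 2 + C b * X + C (-1) := by
    ext n
    rcases n with _ | _ | _ | _ | n
    · simp [hc0]
    · simp [hb, coeff_one]
    · simp [ha, coeff_one]
    · simp [hc3, coeff_one]
    · rw [coeff_eq_zero_of_natDegree_lt (by rw [hdeg]; omega)]
      simp [coeff_one, coeff_X_pow]
  have hCH : aeval M M.charpoly = 0 := Matrix.aeval_self_charpoly M
  rw [hexp] at hCH
  simp only [map_add, map_mul, map_pow, aeval_X, aeval_C, Algebra.algebraMap_eq_smul_one] at hCH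
  have h1 : a • M ^ 2 + b • M = 0 := by
    rw [hM] at hCH
    simp only [smul_mul_assoc, one_mul, neg_smul, one_smul] at hCH
    have : a • M ^ 2 + b • M = (1 + a • M ^ 2 + b • M + -1 : Matrix (Fin 3) (Fin 3) F) := by abel
    rw [this, hCH]
  have hM4 : M ^ 2 * M ^ 2 = M := by
    have : M ^ 2 * M ^ 2 = M ^ 3 * M := by rw [← pow_add, ← pow_succ]
    rw [this, hM, one_mul]
  have hM3 : M ^ 2 * M = 1 := by rw [← pow_succ]; exact hM
  have h2 : a • M + b • (1 : Matrix (Fin 3) (Fin 3) F) = 0 := by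
    have := congrArg (fun N => M ^ 2 * N) h1
    simp only [mul_add, Matrix.mul_smul, mul_zero, hM4, hM3] at this
    exact this
  have ha0 : a = 0 := by
    by_contra hane
    apply hns (-(b / a))
    have h3 : a • M = (-b) • (1 : Matrix (Fin 3) (Fin 3) F) := by
      rw [neg_smul]; exact eq_neg_of_add_eq_zero_left h2
    have h4 : M = a⁻¹ • (a • M) := by rw [smul_smul, inv_mul_cancel₀ hane, one_smul]
    rw [h4, h3, smul_smul]
    congr 1
    field_simp
  have hb0 : b = 0 := by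
    rw [ha0, zero_smul, zero_add] at h2
    have := congrFun (congrFun h2 0) 0
    simpa using this
  rw [hexp, ha0, hb0]
  simp
  ring

omit [Fintype F] in
theorem exists_eigenvector (M : Matrix (Fin 3) (Fin 3) F) (hchar : M.charpoly = X ^ 3 - 1) (μ : F)
    (hμ : μ ^ 3 = 1) : ∃ v : Fin 3 → F, v ≠ 0 ∧ M *ᵥ v = μ • v := by
  have h0 : (Matrix.scalar (Fin 3) μ - M).det = 0 := by
    rw [← Matrix.eval_charpoly, hchar]; simp [hμ]
  obtain ⟨v, hv, hv2⟩ := Matrix.exists_mulVec_eq_zero_iff.mpr h0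
  refine ⟨v, hv, ?_⟩
  rw [Matrix.sub_mulVec, sub_eq_zero] at hv2
  rw [← hv2]
  ext i
  simp [Matrix.mulVec, dotProduct, Matrix.diagonal_apply]

/-- A non-scalar matrix of determinant one and order three is conjugate to `diag(1, ω, ω²)` by a matrix of
determinant one. -/
theorem exists_conj (hF : Fintype.card F = 4) (ω : F) (hω1 : ω ≠ 1) (hω0 : ω ≠ 0)
    (M : Matrix (Fin 3) (Fin 3) F) (hdet : M.det = 1)
    (hM : M ^ 3 = 1) (hns : ∀ r : F, M ≠ r • (1 : Matrix (Fin 3) (Fin 3) F)) :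
    ∃ P : Matrix (Fin 3) (Fin 3) F, P.det = 1 ∧ M * P = P * Matrix.diagonal ![1, ω, ω ^ 2] := by
  have hchar := charpoly_eq M hdet hM hns
  have hω3 : ω ^ 3 = 1 := cube_eq_one hF ω hω0
  have hω6 : (ω ^ 2) ^ 3 = 1 := by rw [← pow_mul, show 2 * 3 = 3 * 2 from rfl, pow_mul, hω3, one_pow]
  obtain ⟨v0, hv0, hv0'⟩ := exists_eigenvector M hchar 1 (one_pow 3)
  obtain ⟨v1, hv1, hv1'⟩ := exists_eigenvector M hchar ω hω3
  obtain ⟨v2, hv2, hv2'⟩ := exists_eigenvector M hchar (ω ^ 2) hω6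
  have hω2 : ω ^ 2 ≠ 1 := by
    intro h
    apply hω1
    have : ω ^ 3 = ω := by rw [pow_succ, h, one_mul]
    rw [← this, hω3]
  have hωω : ω ^ 2 ≠ ω := by
    intro h
    apply hω1
    have h' : ω * ω = ω * 1 := by rw [mul_one, ← sq]; exact h
    exact mul_left_cancel₀ hω0 h'
  have hinj : Function.Injective (![1, ω, ω ^ 2] : Fin 3 → F) := by
    intro i j hij
    fin_cases i <;> fin_cases j
    · rfl
    · exact absurd (show (1 : F) = ω from hij).symm hω1
    · exact absurd (show (1 : F) = ω ^ 2 from hij).symm hω2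
    · exact absurd (show ω = 1 from hij) hω1
    · rfl
    · exact absurd (show ω = ω ^ 2 from hij).symm hωω
    · exact absurd (show ω ^ 2 = 1 from hij) hω2
    · exact absurd (show ω ^ 2 = ω from hij) hωω
    · rfl
  have hli : LinearIndependent F (![v0, v1, v2] : Fin 3 → (Fin 3 → F)) := by
    apply Module.End.eigenvectors_linearIndependent' (Matrix.toLin' M) (![1, ω, ω ^ 2] : Fin 3 → F) hinj
    intro i
    fin_cases i
    · exact ⟨Module.End.mem_eigenspace_iff.mpr (by simpa using hv0'), hv0⟩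
    · exact ⟨Module.End.mem_eigenspace_iff.mpr (by simpa using hv1'), hv1⟩
    · exact ⟨Module.End.mem_eigenspace_iff.mpr (by simpa using hv2'), hv2⟩
  set P : Matrix (Fin 3) (Fin 3) F := (Matrix.of (![v0, v1, v2] : Fin 3 → (Fin 3 → F)))ᵀ with hP
  have hPu : IsUnit P := by
    rw [← Matrix.linearIndependent_cols_iff_isUnit]
    exact hli
  have hPdet : P.det ≠ 0 := by
    have := (Matrix.isUnit_iff_isUnit_det P).mp hPu
    exact this.ne_zero
  have hMP : M * P = P * Matrix.diagonal ![1, ω, ω ^ 2] := by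
    ext i j
    rw [Matrix.mul_diagonal]
    have key : ∀ (v : Fin 3 → F) (μ : F), M *ᵥ v = μ • v → ∑ k, M i k * v k = v i * μ := by
      intro v μ h
      have := congrFun h i
      simp only [Matrix.mulVec, dotProduct, Pi.smul_apply, smul_eq_mul] at this
      rw [this, mul_comm]
    rw [Matrix.mul_apply]
    fin_cases j
    · exact key v0 1 hv0'
    · exact key v1 ω hv1'
    · exact key v2 (ω ^ 2) hv2'
  refine ⟨P * Matrix.diagonal ![P.det⁻¹, 1, 1], ?_, ?_⟩
  · rw [Matrix.det_mul, Matrix.det_diagonal, Fin.prod_univ_three]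
    simp [hPdet]
  · rw [← mul_assoc, hMP, mul_assoc, mul_assoc, Matrix.diagonal_mul_diagonal, Matrix.diagonal_mul_diagonal]
    congr 2
    ext i
    fin_cases i <;> simp [mul_comm]

/-- `diag(1, ω, ω²)` as an element of the special linear group. -/
def dElt (ω : F) (h : ω ^ 3 = 1) : Matrix.SpecialLinearGroup (Fin 3) F :=
  ⟨Matrix.diagonal ![1, ω, ω ^ 2], by
    rw [Matrix.det_diagonal, Fin.prod_univ_three]
    have : (1 : F) * ω * ω ^ 2 = ω ^ 3 := by ring
    exact this.trans h⟩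

theorem conj_of_order_three (hF : Fintype.card F = 4) (ω : F) (hω1 : ω ≠ 1) (hω0 : ω ≠ 0)
    (hω3 : ω ^ 3 = 1) (x : Matrix.ProjectiveSpecialLinearGroup (Fin 3) F) (hx1 : x ≠ 1)
    (hx3 : x ^ 3 = 1) :
    ∃ g : Matrix.ProjectiveSpecialLinearGroup (Fin 3) F,
      x = g * (QuotientGroup.mk (dElt ω hω3)) * g⁻¹ := by
  obtain ⟨s, rfl⟩ := QuotientGroup.mk_surjective x
  have hs3 : s ^ 3 ∈ Subgroup.center (Matrix.SpecialLinearGroup (Fin 3) F) := by
    rw [← QuotientGroup.eq_one_iff]; exact hx3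
  have hsn : s ∉ Subgroup.center (Matrix.SpecialLinearGroup (Fin 3) F) := by
    intro h; exact hx1 ((QuotientGroup.eq_one_iff s).mpr h)
  rw [Matrix.SpecialLinearGroup.mem_center_iff] at hs3
  obtain ⟨r, hr, hr'⟩ := hs3
  have hr0 : r ≠ 0 := by
    rintro rfl
    simp at hr
  have hM : (s : Matrix (Fin 3) (Fin 3) F) ^ 3 = r • (1 : Matrix (Fin 3) (Fin 3) F) := by
    rw [← Matrix.SpecialLinearGroup.coe_pow, ← hr']
    ext i j
    simp [Matrix.diagonal_apply, Matrix.one_apply]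
  have hr1 : r = 1 := lam_eq_one hF s.1 s.2 r hr0 hM
  have hM1 : (s : Matrix (Fin 3) (Fin 3) F) ^ 3 = 1 := by rw [hM, hr1, one_smul]
  have hns : ∀ r' : F, (s : Matrix (Fin 3) (Fin 3) F) ≠ r' • (1 : Matrix (Fin 3) (Fin 3) F) := by
    intro r' h
    apply hsn
    rw [Matrix.SpecialLinearGroup.mem_center_iff]
    refine ⟨r', ?_, ?_⟩
    · have h2 := s.2
      rw [h] at h2
      simpa [Matrix.det_smul] using h2
    · rw [h]
      ext i j
      simp [Matrix.diagonal_apply, Matrix.one_apply]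
  obtain ⟨P, hPdet, hMP⟩ := exists_conj hF ω hω1 hω0 s.1 s.2 hM1 hns
  obtain ⟨Q, hQ⟩ : ∃ Q : Matrix.SpecialLinearGroup (Fin 3) F, Q = ⟨P, hPdet⟩ := ⟨_, rfl⟩
  have hs : s = Q * dElt ω hω3 * Q⁻¹ := by
    rw [eq_mul_inv_iff_mul_eq, hQ]
    exact Subtype.ext hMP
  refine ⟨QuotientGroup.mk Q, ?_⟩
  conv_lhs => rw [hs]
  rfl

theorem subgroup_eq_conj (hF : Fintype.card F = 4) (ω : F) (hω1 : ω ≠ 1) (hω0 : ω ≠ 0)
    (hω3 : ω ^ 3 = 1) (X : Subgroup (Matrix.ProjectiveSpecialLinearGroup (Fin 3) F))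
    (hX : Nat.card ↥X = 3) :
    ∃ g : Matrix.ProjectiveSpecialLinearGroup (Fin 3) F,
      X = MulAut.conj g • Subgroup.zpowers (QuotientGroup.mk (dElt ω hω3) :
        Matrix.ProjectiveSpecialLinearGroup (Fin 3) F) := by
  have hfin : Finite X := Nat.finite_of_card_ne_zero (by omega)
  have hnt : Nontrivial X := by rw [← Finite.one_lt_card_iff_nontrivial, hX]; norm_num
  obtain ⟨⟨x, hxX⟩, hx⟩ := exists_ne (1 : X)
  have hx1 : x ≠ 1 := fun h => hx (Subtype.ext h)
  have hx3 : x ^ 3 = 1 := by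
    have h := pow_card_eq_one' (G := X) (x := ⟨x, hxX⟩)
    rw [hX] at h
    exact congrArg Subtype.val h
  obtain ⟨g, hg⟩ := conj_of_order_three hF ω hω1 hω0 hω3 x hx1 hx3
  refine ⟨g, ?_⟩
  have : Fact (Nat.Prime 3) := ⟨by norm_num⟩
  have hord : orderOf x = 3 := orderOf_eq_prime hx3 hx1
  have hXz : Subgroup.zpowers x = X := by
    apply Subgroup.eq_of_le_of_card_ge (Subgroup.zpowers_le.mpr hxX)
    rw [hX, Nat.card_zpowers, hord]
  rw [← hXz, hg]
  ext y
  rw [Subgroup.mem_pointwise_smul_iff_inv_smul_mem, Subgroup.mem_zpowers_iff, Subgroup.mem_zpowers_iff]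
  constructor
  · rintro ⟨k, rfl⟩
    refine ⟨k, ?_⟩
    rw [MulAut.smul_def, ← map_inv, MulAut.conj_apply, conj_zpow]
    group
  · rintro ⟨k, hk⟩
    refine ⟨k, ?_⟩
    rw [MulAut.smul_def, ← map_inv, MulAut.conj_apply] at hk
    rw [conj_zpow, hk]
    group

end Field4

/-- In the projective special linear group PSL(3, 4) all subgroups of order 3 are conjugate. -/
theorem result (F : Type*) [Field F] [Fintype F] (hF : Fintype.card F = 4) (X Y : Subgroup (Matrix.ProjectiveSpecialLinearGroup (Fin 3) F)) (hX : Nat.card ↥X = 3) (hY : Nat.card ↥Y = 3) : ∃ g : Matrix.ProjectiveSpecialLinearGroup (Fin 3) F, MulAut.conj g • X = Y := by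
  have hcard : Nat.card Fˣ = 3 := by rw [Nat.card_units, Nat.card_eq_fintype_card, hF]
  have : Nontrivial Fˣ := by
    rw [← Finite.one_lt_card_iff_nontrivial, hcard]; norm_num
  obtain ⟨u, hu⟩ := exists_ne (1 : Fˣ)
  have hω0 : (u : F) ≠ 0 := u.ne_zero
  have hω3 : (u : F) ^ 3 = 1 := cube_eq_one hF _ hω0
  have hω1 : (u : F) ≠ 1 := fun h => hu (Units.ext h)
  obtain ⟨g₁, h₁⟩ := subgroup_eq_conj hF (u : F) hω1 hω0 hω3 X hX
  obtain ⟨g₂, h₂⟩ := subgroup_eq_conj hF (u : F) hω1 hω0 hω3 Y hY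
  refine ⟨g₂ * g₁⁻¹, ?_⟩
  rw [h₁, h₂, ← mul_smul, ← map_mul, inv_mul_cancel_right]

end Cfsg.Agent.S2739
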