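-- Statement S2758 (row 2758).
import Cfsg.Statements.S2758
import Cfsg.Agent.Helper46.Dihedral

set_option autoImplicit false
open Cfsg

namespace Cfsg.Agent.S2758

/-- For an odd prime p and a finite group G the following are equivalent: the dihedral group of order 2p is involved in G; some element of 2-power order normalizes but does not centralize some p-subgroup of G; some element of 2-power order inverts some nonidentity element of p-power order. -/
theorem result {G : Type*} [Group G] [Finite G] {p : ℕ} [Fact p.Prime] (hp : p ≠ 2) : (Cfsg.Involves (DihedralGroup p) G ↔ ∃ (x : G) (P : Subgroup G), (∃ k : ℕ, orderOf x = 2 ^ k) ∧ IsPGroup p ↥P ∧ x ∈ Subgroup.normalizer (P : Set G) ∧ x ∉ Subgroup.centralizer (P : Set G)) ∧ (Cfsg.Involves (DihedralGroup p) G ↔ ∃ x y : G, (∃ k : ℕ, orderOf x = 2 ^ k) ∧ (∃ k : ℕ, orderOf y = p ^ k) ∧ y ≠ 1 ∧ x * y * x⁻¹ = y⁻¹) := by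
  exact Helper46.dihedral_involved_iff hp

end Cfsg.Agent.S2758
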