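import Cfsg.Statements.S2762
import Cfsg.Agent.Helper39.QdStruct

set_option autoImplicit false
open Cfsg

namespace Cfsg.Agent.S2762

/-- Structure of Qd over a finite field F of characteristic p (the affine subgroup of SL₃(F)): its largest normal p-subgroup is the group of translations (matrices with upper-left block the identity), the block-diagonal matrices form a complement isomorphic to SL₂(F), and the translation subgroup is a natural SL₂(F)-module for that complement. -/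
theorem result {F : Type*} [Field F] [Fintype F] {p : ℕ} [Fact p.Prime] [CharP F p] : (∀ M : ↥(Cfsg.qdOver F), M ∈ Cfsg.pCore p ↥(Cfsg.qdOver F) ↔ ((M : Matrix.SpecialLinearGroup (Fin 3) F) : Matrix (Fin 3) (Fin 3) F) 0 0 = 1 ∧ ((M : Matrix.SpecialLinearGroup (Fin 3) F) : Matrix (Fin 3) (Fin 3) F) 0 1 = 0 ∧ ((M : Matrix.SpecialLinearGroup (Fin 3) F) : Matrix (Fin 3) (Fin 3) F) 1 0 = 0 ∧ ((M : Matrix.SpecialLinearGroup (Fin 3) F) : Matrix (Fin 3) (Fin 3) F) 1 1 = 1) ∧ ∃ K : Subgroup ↥(Cfsg.qdOver F), (∀ M : ↥(Cfsg.qdOver F), M ∈ K ↔ ((M : Matrix.SpecialLinearGroup (Fin 3) F) : Matrix (Fin 3) (Fin 3) F) 0 2 = 0 ∧ ((M : Matrix.SpecialLinearGroup (Fin 3) F) : Matrix (Fin 3) (Fin 3) F) 1 2 = 0) ∧ K ⊓ Cfsg.pCore p ↥(Cfsg.qdOver F) = ⊥ ∧ K ⊔ Cfsg.pCore p ↥(Cfsg.qdOver F) = ⊤ ∧ Nonempty (↥K ≃* Matrix.SpecialLinearGroup (Fin 2) F) ∧ Cfsg.IsNaturalSL2Module F (Cfsg.pCore p ↥(Cfsg.qdOver F)) K := by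
  exact Cfsg.Agent.Helper39.qd_structure

end Cfsg.Agent.S2762
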