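import Cfsg.Statements.S2780
import Cfsg.Agent.Helper39.NatSL2b

set_option autoImplicit false
open Cfsg

namespace Cfsg.Agent.S2780

/-- Let L act on the elementary abelian p-group V (inside a finite group, faithfully) as SL₂(F) on its natural module, F a field with p^n elements, S a Sylow p-subgroup of L. Then: for every g ∈ L not normalizing S, V is the internal direct product of C_V(S) and C_V(gSg⁻¹); every nonidentity element of L of order prime to p acts on V without nonidentity fixed points; and C_V(S) and V/C_V(S) are irreducible for N_L(S): the only N_L(S)-invariant subgroups of C_V(S) are 1 and C_V(S), and the only N_L(S)-invariant subgroups between C_V(S) and V are those two. -/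
theorem result {G : Type*} [Group G] [Finite G] {p : ℕ} [Fact p.Prime] {F : Type*} [Field F] [Fintype F] (n : ℕ) (hF : Fintype.card F = p ^ n) (V L : Subgroup G) (hnat : Cfsg.IsNaturalSL2Module F V L) (hf : L ⊓ Subgroup.centralizer (V : Set G) = ⊥) (S : Sylow p ↥L) (T : Subgroup G) (hT : T = ((S : Subgroup ↥L).map L.subtype)) : (∀ g ∈ L, g ∉ Subgroup.normalizer (T : Set G) → Cfsg.IsInternalDirectProduct (V ⊓ Subgroup.centralizer ((T : Subgroup G) : Set G)) (V ⊓ Subgroup.centralizer ((T.map (MulAut.conj g).toMonoidHom : Subgroup G) : Set G)) V) ∧ (∀ x ∈ L, x ≠ 1 → (orderOf x).Coprime p → (V ⊓ Subgroup.centralizer ({x} : Set G)) = ⊥) ∧ (∀ U : Subgroup G, U ≤ (V ⊓ Subgroup.centralizer ((T : Subgroup G) : Set G)) → L ⊓ Subgroup.normalizer (T : Set G) ≤ Subgroup.normalizer (U : Set G) → U = ⊥ ∨ U = (V ⊓ Subgroup.centralizer ((T : Subgroup G) : Set G))) ∧ (∀ U : Subgroup G, (V ⊓ Subgroup.centralizer ((T : Subgroup G) : Set G)) ≤ U → U ≤ V → L ⊓ Subgroup.normalizer (T : Set G) ≤ Subgroup.normalizer (U : Set G) → U = (V ⊓ Subgroup.centralizer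 ((T : Subgroup G) : Set G)) ∨ U = V) := by
  exact Cfsg.Agent.Helper39.nat_decomp n hF V L hnat hf S T hT

end Cfsg.Agent.S2780
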