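-- Statement S2781 (row 2781).
import Cfsg.Statements.S2781
import Cfsg.Agent.Helper46.Transfer

set_option autoImplicit false
open Cfsg

namespace Cfsg.Agent.S2781

/-- Let H act faithfully by conjugation on the elementary abelian p-subgroup V of a finite group, let O^p(H) be the subgroup of H generated by its elements of order prime to p, and T a Sylow p-subgroup of O^p(H). If V is generated by the H-conjugates of C_V(T) (V is the smallest H-invariant subgroup containing C_V(T)), then V = [V, O^p(H)]·C_V(O^p(H)). -/
theorem result {G : Type*} [Group G] [Finite G] {p : ℕ} [Fact p.Prime] (V H : Subgroup G) (hV : Cfsg.IsElementaryAbelian p V) (hHV : H ≤ Subgroup.normalizer (V : Set G)) (hf : H ⊓ Subgroup.centralizer (V : Set G) = ⊥) (R : Subgroup G) (hR : R = (Cfsg.pResidual p ↥H).map H.subtype) (S : Sylow p ↥R) (T : Subgroup G) (hT : T = ((S : Subgroup ↥R).map R.subtype)) (hgen : ∀ W : Subgroup G, H ≤ Subgroup.normalizer (W : Set G) → (V ⊓ Subgroup.centralizer ((T : Subgroup G) : Set G)) ≤ W → V ≤ W) : ⁅V, R⁆ ⊔ (V ⊓ Subgroup.centralizer ((R : Subgroup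 G) : Set G)) = V := by
  exact Helper46.commutator_sup_centralizer_eq V H hV hHV R hR S T hT hgen

end Cfsg.Agent.S2781
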