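-- Statement S2799 (row 2799).
import Cfsg.Statements.S2799
import Cfsg.Agent.Helper46.WeakG

set_option autoImplicit false
open Cfsg

namespace Cfsg.Agent.S2799

/-- Let S be a Sylow p-subgroup of the finite group G, J(S) the subgroup generated by the abelian subgroups of S of largest order, and x an element of S lying in the centre of N_G(J(S)). Assume that p is odd, or that x is a p-th power of an element of Z(S), or that the symmetric group of degree 4 is not involved in G. Then x is weakly closed in S with respect to G: every G-conjugate of x that lies in S equals x. -/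
theorem result {G : Type*} [Group G] [Finite G] {p : ℕ} [Fact p.Prime] (S : Sylow p G) (x : G) (hxS : x ∈ (S : Subgroup G)) (hxZ : x ∈ (Subgroup.center ↥(Subgroup.normalizer ((Cfsg.thompsonSubgroupAOf (S : Subgroup G)) : Set G))).map (Subgroup.normalizer ((Cfsg.thompsonSubgroupAOf (S : Subgroup G)) : Set G)).subtype) (h : p ≠ 2 ∨ (∃ z ∈ (S : Subgroup G) ⊓ Subgroup.centralizer ((S : Subgroup G) : Set G), z ^ p = x) ∨ ¬ Cfsg.Involves (Equiv.Perm (Fin 4)) G) : ∀ g : G, g * x * g⁻¹ ∈ (S : Subgroup G) → g * x * g⁻¹ = x := by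
  classical
  obtain ⟨z, hz, rfl⟩ := hxZ
  have hN : Subgroup.normalizer (Cfsg.Agent.Helper46.JA (S : Subgroup G) : Set G) ≤
      Subgroup.centralizer ({(z : G)} : Set G) := by
    intro m hm
    rw [Cfsg.Agent.Helper46.wc_mem_cent]
    have hm' : m ∈ Subgroup.normalizer
        ((Cfsg.thompsonSubgroupAOf (S : Subgroup G) : Subgroup G) : Set G) := by
      rw [Cfsg.Agent.Helper46.thompsonSubgroupAOf_eq_JA]
      exact hm
    have h1 := Subgroup.mem_center_iff.mp hz ⟨m, hm'⟩
    exact (congrArg Subtype.val h1).symm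
  have hcond : Cfsg.Agent.Helper46.WCond p (S : Subgroup G) (z : G) := by
    rcases h with h1 | ⟨w, hw, hwx⟩ | h1
    · exact Or.inl h1
    · exact Or.inr (Or.inl ⟨w, hw.1, hw.2, hwx⟩)
    · exact Or.inr (Or.inr h1)
  exact Cfsg.Agent.Helper46.wc_main p _ G rfl S _ hxS hN hcond

end Cfsg.Agent.S2799
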