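import Cfsg.Statements.S2943
import Mathlib
import Cfsg.Agent.Helper11.JCompConj

set_option autoImplicit false
open Cfsg

namespace Cfsg.Agent.S2943

/-- Let G be a finite group of characteristic 2 type in which every 2-local subgroup is solvable and the centralizer of Ω₁(Z(S)) lies in N_G(S) for every Sylow 2-subgroup S, and let T be a nontrivial 2-subgroup (below, J is the Thompson subgroup generated by the elementary abelian 2-subgroups of largest order), L a subgroup in which T is a Sylow 2-subgroup with J(T) not contained in O₂(L) and C_G(O₂(L)) ≤ O₂(L), and K a J(T)-component contained in L. If Z(T) meets W_K = [Ω₁(Z(O₂(K))), K] nontrivially, then T normalizes K. -/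
theorem result {G : Type*} [Group G] [Finite G] (hL : Cfsg.IsCharacteristicTwoType G) (hN : ∀ N : Subgroup G, Cfsg.IsTwoLocal N → Group.IsSolvable ↥N)
    (hZ : ∀ S : Sylow 2 G, Subgroup.centralizer (Cfsg.omegaCenterOf (S : Subgroup G) : Set G) ≤ Subgroup.normalizer ((S : Subgroup G) : Set G)) (T : Subgroup G) (hT : IsPGroup 2 ↥T) (hT1 : T ≠ ⊥) (L : Subgroup G) (hLT : L ∈ Cfsg.jOvergroups T)
    (K : Subgroup G) (hK : Cfsg.IsJComponent T K) (hKL : K ≤ L)
    (hZW : T ⊓ Subgroup.centralizer (T : Set G) ⊓ Cfsg.wOf K ≠ ⊥) : T ≤ Subgroup.normalizer (K : Set G) := by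
  classical
  haveI : Fact (Nat.Prime 2) := ⟨Nat.prime_two⟩
  have F := Cfsg.Agent.Helper11.jComp_facts hL hN hZ T hT hT1 L hLT K hK hKL
  have h := Cfsg.Agent.Helper49.JC.of_isJComponent hT hK
  obtain ⟨z, hz1⟩ := (Subgroup.ne_bot_iff_exists_ne_one).mp hZW
  obtain ⟨z, hzmem⟩ := z
  have hz1' : z ≠ 1 := fun h0 => hz1 (Subtype.ext h0)
  obtain ⟨⟨hzT, hzc⟩, hzW⟩ := hzmem
  have hzc' : ∀ t ∈ T, t * z = z * t := by
    intro t ht
    have hzc'' : z ∈ Subgroup.centralizer (T : Set G) := hzc
    rw [Subgroup.mem_centralizer_iff] at hzc''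
    exact hzc'' t ht
  intro t ht
  have htJ : t ∈ Subgroup.normalizer (Cfsg.thompsonSubgroupOf 2 T : Set G) :=
    (Cfsg.Agent.Helper49.normalizer_le_normalizer_thompsonOf 2 T) (Subgroup.le_normalizer ht)
  have htW : t ∈ Subgroup.normalizer (Cfsg.wOf K : Set G) := by
    apply Subgroup.mem_normalizer_fintype
    intro w hw
    exact Cfsg.Agent.Helper11.jComp_W_conj F h hzW hz1' hzT hzc' ht w hw
  apply Subgroup.mem_normalizer_fintype
  intro k hk
  exact Cfsg.Agent.Helper11.jComp_conj_mem F h (F.TL ht) htJ htW k hk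

end Cfsg.Agent.S2943
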