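import Cfsg.Statements.S2947
import Cfsg.Agent.Helper49.StronglyEmbedded

set_option autoImplicit false
open Cfsg

namespace Cfsg.Agent.S2947

open Cfsg.Agent.Helper49

/-- Let G be a finite group of characteristic 2 type in which every 2-local subgroup is solvable and the centralizer of Ω₁(Z(S)) lies in N_G(S) for every Sylow 2-subgroup S; suppose O₂(G) = 1, fix a Sylow 2-subgroup S and a 2-local subgroup M containing N_G(J(S)) (J the Thompson subgroup generated by the elementary abelian 2-subgroups of largest order). Then M is strongly embedded in G (a proper subgroup of even order whose intersection with each conjugate by an element outside M has odd order) if and only if no nontrivial 2-subgroup of M lies in a 2-local subgroup of G not contained in M. -/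
theorem result {G : Type*} [Group G] [Finite G] (hL : Cfsg.IsCharacteristicTwoType G) (hN : ∀ N : Subgroup G, Cfsg.IsTwoLocal N → Group.IsSolvable ↥N)
    (hZ : ∀ S : Sylow 2 G, Subgroup.centralizer (Cfsg.omegaCenterOf (S : Subgroup G) : Set G) ≤ Subgroup.normalizer ((S : Subgroup G) : Set G)) (hO : Cfsg.pCore 2 G = ⊥) (S : Sylow 2 G) (M : Subgroup G) (hM : Cfsg.IsTwoLocal M)
    (hMJ : Subgroup.normalizer (Cfsg.thompsonSubgroupOf 2 (S : Subgroup G) : Set G) ≤ M) :
    Cfsg.IsStronglyEmbedded M ↔ Cfsg.straddlingTwoSubgroups M = ∅ := by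
  have : Fact (Nat.Prime 2) := ⟨Nat.prime_two⟩
  constructor
  · rintro ⟨-, -, hodd⟩
    have hF : ∀ U : Subgroup G, IsPGroup 2 U → U ≠ ⊥ → U ≤ M → Subgroup.normalizer (U : Set G) ≤ M :=
      normalizer_le_of_not_dvd_card_inf_conj M
        (fun g hg => by
          have h1 := hodd g hg
          rw [← Nat.not_even_iff_odd, even_iff_two_dvd] at h1
          exact h1)
    rw [Set.eq_empty_iff_forall_notMem]
    rintro T ⟨hT2, hT1, hTM, L, ⟨R, hR2, hR1, rfl⟩, hTL, hLM⟩
    have hRM : R ≤ M := le_of_normalized_by_pgroup M hF hT2 hT1 hTM hR2 hTL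
    exact hLM (hF R hR2 hR1 hRM)
  · intro hempty
    have hF : ∀ U : Subgroup G, IsPGroup 2 U → U ≠ ⊥ → U ≤ M → Subgroup.normalizer (U : Set G) ≤ M := by
      intro U hU hU1 hUM
      by_contra hcon
      have : U ∈ Cfsg.straddlingTwoSubgroups M :=
        ⟨hU, hU1, hUM, Subgroup.normalizer (U : Set G), ⟨U, hU, hU1, rfl⟩, Subgroup.le_normalizer, hcon⟩
      rw [hempty] at this
      exact this
    obtain ⟨R₀, hR₀, hR₀1, rfl⟩ := hM
    refine ⟨?_, ?_, ?_⟩
    · intro htop
      apply hR₀1
      have hn : R₀.Normal := Subgroup.normalizer_eq_top_iff.mp htop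
      have := le_pCore hn hR₀
      rw [hO] at this
      exact le_bot_iff.mp this
    · have h1 : 2 ∣ Nat.card R₀ := dvd_card_of_isPGroup_ne_bot hR₀ hR₀1
      exact even_iff_two_dvd.mpr (h1.trans (Subgroup.card_dvd_of_le Subgroup.le_normalizer))
    · intro g hg
      have := not_dvd_card_inf_conj_of_normalizer_le _ hF g hg
      rw [← Nat.not_even_iff_odd, even_iff_two_dvd]
      exact this

end Cfsg.Agent.S2947
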