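import Cfsg.Statements.S3084
import Cfsg.Agent.Helper90.ClifMain

set_option autoImplicit false
set_option linter.style.haveILetI false
open Cfsg

namespace Cfsg.Agent.S3084

/-- Let K be a group acting faithfully and linearly on a finite-dimensional vector space U of dimension 2n ≥ 2 over the field with two elements, preserving a quadratic form q whose polar bilinear form is non-degenerate and which vanishes on some n-dimensional subspace (a non-singular form of plus type). Then there is a finite group R with a normal extraspecial 2-subgroup Q of order 2^(2n+1), an isomorphism of R/Q with K, and a surjective homomorphism χ from Q onto (the additive group of) U with kernel the centre of Q, such that χ carries conjugation by any r in R to the action of the image of r in K, and an element a of Q squares to the identity exactly when q vanishes at χ(a). -/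
theorem result {K : Type*} [Group K] {U : Type*} [AddCommGroup U] [Module (ZMod 2) U] [Module.Finite (ZMod 2) U] (n : ℕ) (hn1 : 1 ≤ n) (hn : Module.finrank (ZMod 2) U = 2 * n) (ρ : Representation (ZMod 2) K U) (hρ : Function.Injective ρ) (q : QuadraticForm (ZMod 2) U) (hq : ∀ (k : K) (u : U), q (ρ k u) = q u) (hnd : (QuadraticMap.polarBilin q).Nondegenerate) (hplus : ∃ W : Submodule (ZMod 2) U, Module.finrank (ZMod 2) ↥W = n ∧ ∀ w ∈ W, q w = 0) : ∃ (R : Type) (_ : Group R) (_ : Finite R) (Q : Subgroup R) (hN : Q.Normal) (e : R ⧸ Q ≃* K) (χ : ↥Q →* Multiplicative U), Cfsg.IsExtraspecial 2 ↥Q ∧ Nat.card ↥Q = 2 ^ (2 * n + 1) ∧ Function.Surjective χ ∧ χ.ker = Subgroup.center ↥Q ∧ (∀ (r : R) (a : ↥Q), χ ⟨r * a * r⁻¹, hN.conj_mem (a : R) a.2 r⟩ = Multiplicative.ofAdd (ρ (e (r : R ⧸ Q)) (Multiplicative.toAdd (χ a)))) ∧ ∀ a : ↥Q, a * a = 1 ↔ q (Multiplicative.toAdd (χ a)) = 0 := by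
  classical
  haveI : Finite U := Module.finite_of_finite (ZMod 2)
  letI : Fintype U := Fintype.ofFinite U
  haveI : Finite K := Finite.of_injective (fun (k : K) (u : U) => ρ k u)
    (fun k k' h => hρ (LinearMap.ext fun u => congrFun h u))
  obtain ⟨β, hβ⟩ := LinearMap.BilinMap.toQuadraticMap_surjective q
  have hβq : ∀ u, β u u = q u := fun u => by rw [← hβ]; rfl
  have hpolar : ∀ u w, QuadraticMap.polarBilin q u w = β u w + β w u := by
    intro u w
    rw [← hβ, LinearMap.BilinMap.polarBilin_toQuadraticMap]
    rfl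
  have hnd' : ∀ w : U, (∀ u, β u w + β w u = 0) → w = 0 := by
    intro w hw
    apply hnd.2 w
    intro u
    rw [hpolar]
    exact hw u
  have hcardU : Nat.card U = 2 ^ (2 * n) := by
    rw [Module.natCard_eq_pow_finrank (K := ZMod 2), hn]
    simp
  have hV : (Fintype.card U : ZMod 3) ≠ 0 := by
    rw [← Nat.card_eq_fintype_card, hcardU]
    push_cast
    exact pow_ne_zero _ (by decide)
  have hV2 : ∃ w : U, w ≠ 0 := by
    have h1 : 1 < Nat.card U := by
      rw [hcardU]
      exact Nat.one_lt_two_pow (by omega)
    haveI : Nontrivial U := (Finite.one_lt_card_iff_nontrivial).mp h1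
    exact exists_ne 0
  obtain ⟨R, hG, hF, θ, χ, hsurj, hES, hcard, hχs, hχk, hconj, hsq⟩ :=
    Cfsg.Agent.Helper90.Clif.exists_extension β ρ hnd' hV hV2
      (fun k u => by rw [hβq, hβq, hq])
  refine ⟨R, hG, hF, θ.ker, MonoidHom.normal_ker θ,
    QuotientGroup.quotientKerEquivOfSurjective θ hsurj, χ, hES, ?_, hχs, hχk, ?_, ?_⟩
  · rw [hcard, hcardU]
    ring
  · intro r a
    exact hconj r a _
  · intro a
    rw [hsq a, hβq]

end Cfsg.Agent.S3084
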