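import Cfsg.Statements.S3085
import Cfsg.Agent.Helper90.GriessMain

set_option autoImplicit false
open Cfsg

namespace Cfsg.Agent.S3085

/-- Let Q be an extraspecial 2-group of order 2^(2n+1) with n ≥ 3 that is of plus type (it contains an elementary abelian subgroup of order 2^(n+1)). Then the group of inner automorphisms of Q has no complement in the full automorphism group of Q: the extension of the inner automorphism group (elementary abelian of order 2^(2n)) by the outer automorphism group (the orthogonal group of plus type) does not split. -/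
theorem result {Q : Type*} [Group Q] [Finite Q] (n : ℕ) (hn : 3 ≤ n) (hQ : Cfsg.IsExtraspecial 2 Q) (hcard : Nat.card Q = 2 ^ (2 * n + 1)) (hplus : ∃ E : Subgroup Q, Cfsg.IsElementaryAbelian 2 E ∧ Nat.card ↥E = 2 ^ (n + 1)) (L : Subgroup (MulAut Q)) : ¬ (Cfsg.Inn Q).IsComplement' L := by
  obtain ⟨z, h⟩ := Cfsg.Agent.Helper90.Griess.exists_esdata hQ
  obtain ⟨E, hE, hEcard⟩ := hplus
  have h16 : 16 ≤ Nat.card E := by
    rw [hEcard]
    calc 16 = 2 ^ 4 := by norm_num
      _ ≤ 2 ^ (n + 1) := Nat.pow_le_pow_right (by norm_num) (by omega)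
  obtain ⟨a, b, c, hc, ha, hb, hab, hac, hbc, ha1, haz, hb1, hbz, hab1, habz⟩ :=
    Cfsg.Agent.Helper90.Griess.exists_abc h E hE h16
  exact Cfsg.Agent.Helper90.Griess.no_complement h hc ha hb hab hac hbc ha1 haz hb1 hbz hab1 habz L

end Cfsg.Agent.S3085
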