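import Mathlib
import Cfsg.Statements.S3116

set_option autoImplicit false
open Cfsg

namespace Cfsg.Agent.S3116

/-- General criterion: a finite group generated by `x` of order `2^k` and `y`, in which `⟨x⟩` has
index two and is preserved by every automorphism, has a 2-group of automorphisms. -/
theorem aut_two_group {X : Type*} [Group X] [Finite X] (x y : X) (k : ℕ) (hk : 1 ≤ k)
    (hx : orderOf x = 2 ^ k)
    (hgen : ∀ g : X, g ∈ Subgroup.zpowers x ∨ ∃ c ∈ Subgroup.zpowers x, g = y * c)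
    (hchar : ∀ φ : MulAut X, φ x ∈ Subgroup.zpowers x) (hy : y ∉ Subgroup.zpowers x) :
    IsPGroup 2 (MulAut X) := by
  intro φ
  -- φ x = x ^ i
  obtain ⟨i, hi⟩ : ∃ i : ℕ, x ^ i = φ x := by
    have h1 := hchar φ
    rw [← mem_powers_iff_mem_zpowers] at h1
    exact (Submonoid.mem_powers_iff _ _).mp h1
  have hcop : Nat.Coprime i (2 ^ k) := by
    have h1 : orderOf (φ x) = orderOf x := MulEquiv.orderOf_eq φ x
    rw [← hi, orderOf_pow, hx] at h1
    have h2 : 0 < 2 ^ k := by positivity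
    have h3 : Nat.gcd (2 ^ k) i = 1 :=
      (Nat.div_eq_self.mp h1).resolve_left (by positivity)
    exact (Nat.coprime_comm).mp h3
  -- powers of φ on x
  have hpow : ∀ m : ℕ, (φ ^ m) x = x ^ (i ^ m) := by
    intro m
    induction m with
    | zero => simp
    | succ m ih =>
      rw [pow_succ', MulAut.mul_apply, ih, map_pow, ← hi, ← pow_mul, pow_succ']
  -- ψ = φ ^ (2^(k-1)) fixes x
  have hψx : (φ ^ (2 ^ (k - 1))) x = x := by
    rw [hpow]
    have h0 := Nat.ModEq.pow_totient hcop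
    rw [Nat.totient_prime_pow Nat.prime_two (by omega)] at h0
    simp only [Nat.add_one_sub_one, mul_one] at h0
    have h1 : x ^ (i ^ (2 ^ (k - 1))) = x ^ 1 := by
      rw [pow_eq_pow_iff_modEq, hx]
      exact h0
    rw [h1, pow_one]
  set ψ := φ ^ (2 ^ (k - 1)) with hψ
  have hψc : ∀ c ∈ Subgroup.zpowers x, ψ c = c := by
    intro c hc
    obtain ⟨j, rfl⟩ := Subgroup.mem_zpowers_iff.mp hc
    rw [map_zpow, hψx]
  have hψpc : ∀ (m : ℕ), ∀ c ∈ Subgroup.zpowers x, (ψ ^ m) c = c := by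
    intro m
    induction m with
    | zero => intro c _; simp
    | succ m ih =>
      intro c hc
      rw [pow_succ', MulAut.mul_apply, ih c hc, hψc c hc]
  -- ψ y = y * c
  have hψy : ψ y ∉ Subgroup.zpowers x := by
    intro h
    apply hy
    obtain ⟨j, hj⟩ := Subgroup.mem_zpowers_iff.mp h
    have h1 : y = ψ.symm (x ^ j) := by rw [hj]; simp
    rw [h1, map_zpow]
    exact Subgroup.zpow_mem _ (hchar ψ.symm) j
  obtain ⟨c, hc, hyc⟩ : ∃ c ∈ Subgroup.zpowers x, ψ y = y * c := by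
    rcases hgen (ψ y) with h | h
    · exact absurd h hψy
    · exact h
  have hψpy : ∀ m : ℕ, (ψ ^ m) y = y * c ^ m := by
    intro m
    induction m with
    | zero => simp
    | succ m ih =>
      rw [pow_succ', MulAut.mul_apply, ih, map_mul, hyc, map_pow, hψc c hc, mul_assoc, ← pow_succ']
  have hc2 : c ^ (2 ^ k) = 1 := by
    obtain ⟨j, rfl⟩ := Subgroup.mem_zpowers_iff.mp hc
    rw [← zpow_natCast, ← zpow_mul, mul_comm, zpow_mul, zpow_natCast, ← hx, pow_orderOf_eq_one, one_zpow]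
  refine ⟨(k - 1) + k, ?_⟩
  rw [pow_add, pow_mul, ← hψ]
  apply MulEquiv.ext
  intro g
  rw [MulAut.one_apply]
  rcases hgen g with h | ⟨d, hd, rfl⟩
  · exact hψpc _ g h
  · rw [map_mul, hψpy, hψpc _ d hd, hc2, mul_one]


theorem r_mem_zpowers (n : ℕ) [NeZero n] (j : ZMod n) :
    (DihedralGroup.r j : DihedralGroup n) ∈ Subgroup.zpowers (DihedralGroup.r 1 : DihedralGroup n) := by
  rw [Subgroup.mem_zpowers_iff]
  refine ⟨(j.val : ℤ), ?_⟩
  rw [DihedralGroup.r_one_zpow]
  simp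

theorem dihedral_case (n : ℕ) (hn : 4 ≤ n) (k : ℕ) (hnk : n = 2 ^ k) :
    IsPGroup 2 (MulAut (DihedralGroup n)) := by
  have : NeZero n := ⟨by omega⟩
  have hk : 1 ≤ k := by
    rcases Nat.eq_zero_or_pos k with h | h
    · rw [h] at hnk; omega
    · exact h
  apply aut_two_group (DihedralGroup.r 1) (DihedralGroup.sr 0) k hk
  · rw [DihedralGroup.orderOf_r_one, hnk]
  · intro g
    cases g with
    | r j => left; exact r_mem_zpowers n j
    | sr j =>
      right
      refine ⟨DihedralGroup.r j, r_mem_zpowers n j, ?_⟩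
      rw [DihedralGroup.sr_mul_r, zero_add]
  · intro φ
    have h1 : orderOf (φ (DihedralGroup.r 1)) = n := by
      rw [MulEquiv.orderOf_eq, DihedralGroup.orderOf_r_one]
    cases hφ : φ (DihedralGroup.r 1) with
    | r j => exact r_mem_zpowers n j
    | sr j => rw [hφ, DihedralGroup.orderOf_sr] at h1; omega
  · intro h
    obtain ⟨j, hj⟩ := Subgroup.mem_zpowers_iff.mp h
    rw [DihedralGroup.r_one_zpow] at hj
    exact absurd hj (by simp)

theorem quasi_case {X : Type*} [Group X] [Finite X] (h : Cfsg.IsQuasiDihedral X) :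
    IsPGroup 2 (MulAut X) := by
  obtain ⟨n, hn, hcard, x, y, hx, hy, hxy⟩ := h
  have hpow4 : 4 ≤ 2 ^ (n - 1) := by
    calc 4 = 2 ^ 2 := by norm_num
      _ ≤ 2 ^ (n - 1) := Nat.pow_le_pow_right (by norm_num) (by omega)
  have hpow8 : 2 ^ n = 2 * 2 ^ (n - 1) := by
    rw [← pow_succ']; congr 1; omega
  have hidx : (Subgroup.zpowers x).index = 2 := by
    have h1 := Subgroup.card_mul_index (Subgroup.zpowers x)
    rw [Nat.card_zpowers, hx, hcard, pow_succ] at h1
    exact Nat.eq_of_mul_eq_mul_left (by positivity) h1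
  have hy2 : y * y = 1 := by rw [← sq, ← hy]; exact pow_orderOf_eq_one y
  have hyinv : y⁻¹ = y := inv_eq_of_mul_eq_one_left hy2
  have hyx : y ∉ Subgroup.zpowers x := by
    intro h
    obtain ⟨j, hj⟩ := Subgroup.mem_zpowers_iff.mp h
    have hcomm : y * x * y⁻¹ = x := by
      rw [← hj]; group
    rw [hxy] at hcomm
    have h1 : x ^ (2 ^ (n - 1) - 1) = x ^ 1 := by rw [hcomm, pow_one]
    rw [pow_eq_pow_iff_modEq, hx] at h1
    rw [Nat.ModEq, Nat.mod_eq_of_lt (by omega : 2 ^ (n - 1) - 1 < 2 ^ n),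
      Nat.mod_eq_of_lt (by omega : 1 < 2 ^ n)] at h1
    omega
  have hgen : ∀ g : X, g ∈ Subgroup.zpowers x ∨ ∃ c ∈ Subgroup.zpowers x, g = y * c := by
    intro g
    by_cases hg : g ∈ Subgroup.zpowers x
    · left; exact hg
    · right
      refine ⟨y⁻¹ * g, ?_, by group⟩
      rw [Subgroup.mul_mem_iff_of_index_two hidx, hyinv]
      exact ⟨fun h => absurd h hyx, fun h => absurd h hg⟩
  have hfour : ∀ g : X, g ∉ Subgroup.zpowers x → g ^ 4 = 1 := by
    intro g hg
    rcases hgen g with h | ⟨c, hc, rfl⟩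
    · exact absurd h hg
    · rw [← mem_powers_iff_mem_zpowers] at hc
      obtain ⟨j, rfl⟩ := (Submonoid.mem_powers_iff _ _).mp hc
      have h1 : y * x ^ j * y⁻¹ = x ^ ((2 ^ (n - 1) - 1) * j) := by
        rw [← conj_pow, hxy, ← pow_mul]
      have h2 : (y * x ^ j) * (y * x ^ j) = x ^ (2 ^ (n - 1) * j) := by
        calc (y * x ^ j) * (y * x ^ j) = (y * x ^ j * y⁻¹) * x ^ j := by rw [hyinv]; group
          _ = x ^ (2 ^ (n - 1) * j) := by
            rw [h1, ← pow_add]; congr 1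
            have : 2 ^ (n - 1) = (2 ^ (n - 1) - 1) + 1 := by omega
            nth_rewrite 2 [this]
            ring
      have h3 : (y * x ^ j) ^ 4 = ((y * x ^ j) * (y * x ^ j)) ^ 2 := by
        rw [← sq, ← pow_mul]
      rw [h3, h2, ← pow_mul]
      have h4 : 2 ^ (n - 1) * j * 2 = 2 ^ n * j := by rw [hpow8]; ring
      rw [h4, pow_mul, ← hx, pow_orderOf_eq_one, one_pow]
  apply aut_two_group x y n (by omega) hx hgen _ hyx
  intro φ
  by_contra h
  have h1 := hfour _ h
  have h2 : orderOf (φ x) ∣ 4 := orderOf_dvd_of_pow_eq_one h1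
  rw [MulEquiv.orderOf_eq, hx] at h2
  have h3 := Nat.le_of_dvd (by norm_num) h2
  omega

theorem result {X : Type*} [Group X] [Finite X] (h2 : IsPGroup 2 X)
    (h : (∃ n : ℕ, 4 ≤ n ∧ Nonempty (X ≃* DihedralGroup n)) ∨ Cfsg.IsQuasiDihedral X) : IsPGroup 2 (MulAut X) := by
  rcases h with ⟨n, hn, ⟨e⟩⟩ | h
  · have : NeZero n := ⟨by omega⟩
    have : Fact (Nat.Prime 2) := ⟨Nat.prime_two⟩
    have hD : IsPGroup 2 (DihedralGroup n) := h2.of_equiv e
    obtain ⟨m, hm⟩ := (IsPGroup.iff_card).mp hD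
    rw [DihedralGroup.nat_card] at hm
    have hm1 : 1 ≤ m := by
      rcases Nat.eq_zero_or_pos m with h0 | h0
      · rw [h0] at hm; omega
      · exact h0
    have hn2 : n = 2 ^ (m - 1) := by
      have : 2 ^ m = 2 * 2 ^ (m - 1) := by rw [← pow_succ']; congr 1; omega
      omega
    exact (dihedral_case n hn (m - 1) hn2).of_equiv (MulAut.congr e).symm
  · exact quasi_case h

end Cfsg.Agent.S3116
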