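import Mathlib
import Cfsg.Statements.S3356
import Cfsg.Agent.Helper56.HalfTrans
-- import your own Cfsg.Agent.* helpers here

set_option autoImplicit false
open Cfsg

namespace Cfsg.Agent.S3356

/-- Let G be a finite 3/2-transitive permutation group: G acts faithfully and transitively on a finite set, the point stabilizers are non-trivial, and for each point a all orbits of G_a on the remaining points have the same size. Suppose G has a regular normal subgroup N and G is not a Frobenius group (some two-point stabilizer is non-trivial). Then N is an elementary abelian p-group for some prime p, and every non-trivial normal subgroup of G contains N (so N is the unique minimal normal subgroup). -/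
theorem result {G Ω : Type*} [Group G] [Finite G]
    [MulAction G Ω] [FaithfulSMul G Ω] [Finite Ω] (htrans : MulAction.IsPretransitive G Ω)
    (hne : ∀ a : Ω, MulAction.stabilizer G a ≠ ⊥)
    (hhalf : ∀ a b c : Ω, b ≠ a → c ≠ a →
      Nat.card (MulAction.orbit (MulAction.stabilizer G a) b) = Nat.card (MulAction.orbit (MulAction.stabilizer G a) c))
    (N : Subgroup G) [hN : N.Normal] (hNt : MulAction.IsPretransitive N Ω) (hNr : ∀ a : Ω, MulAction.stabilizer N a = ⊥)
    (hnotF : ∃ a b : Ω, a ≠ b ∧ MulAction.stabilizer G a ⊓ MulAction.stabilizer G b ≠ ⊥) :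
    (∃ p : ℕ, p.Prime ∧ IsMulCommutative N ∧ ∀ x ∈ N, x ^ p = 1) ∧
    (∀ M : Subgroup G, M.Normal → M ≠ ⊥ → N ≤ M) := by
  obtain ⟨m, k, h⟩ := Cfsg.Agent.Helper56.HT.of_half htrans hhalf N hNt hNr hnotF
  obtain ⟨a, -⟩ := hnotF
  refine ⟨?_, fun M hM hM1 => h.le_normal a M hM hM1⟩
  obtain ⟨p, hp, hpx⟩ := h.exponent a
  refine ⟨p, hp, ⟨⟨fun x y => Subtype.ext (h.abelian a x x.2 y y.2).eq⟩⟩, hpx⟩

end Cfsg.Agent.S3356
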