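import Mathlib
import Cfsg.Statements.S3362

set_option autoImplicit false
open Cfsg

namespace Cfsg.Agent.S3362

open Equiv

abbrev P12 := Perm (Fin 12)

def gS : P12 := Equiv.swap (3 : Fin 12) 5 * Equiv.swap (3 : Fin 12) 4 * Equiv.swap (6 : Fin 12) 8 * Equiv.swap (6 : Fin 12) 7 * Equiv.swap (9 : Fin 12) 11 * Equiv.swap (9 : Fin 12) 10
def gT : P12 := Equiv.swap (3 : Fin 12) 9 * Equiv.swap (3 : Fin 12) 6 * Equiv.swap (4 : Fin 12) 10 * Equiv.swap (4 : Fin 12) 7 * Equiv.swap (5 : Fin 12) 11 * Equiv.swap (5 : Fin 12) 8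
def gU : P12 := Equiv.swap (4 : Fin 12) 9 * Equiv.swap (4 : Fin 12) 5 * Equiv.swap (4 : Fin 12) 6 * Equiv.swap (7 : Fin 12) 10 * Equiv.swap (7 : Fin 12) 11 * Equiv.swap (7 : Fin 12) 8
def gV : P12 := Equiv.swap (4 : Fin 12) 11 * Equiv.swap (4 : Fin 12) 5 * Equiv.swap (4 : Fin 12) 7 * Equiv.swap (6 : Fin 12) 8 * Equiv.swap (6 : Fin 12) 9 * Equiv.swap (6 : Fin 12) 10
def gW : P12 := Equiv.swap (4 : Fin 12) 8 * Equiv.swap (4 : Fin 12) 5 * Equiv.swap (4 : Fin 12) 10 * Equiv.swap (6 : Fin 12) 7 * Equiv.swap (6 : Fin 12) 9 * Equiv.swap (6 : Fin 12) 11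
def gX1 : P12 := Equiv.swap (0 : Fin 12) 3 * Equiv.swap (6 : Fin 12) 7 * Equiv.swap (8 : Fin 12) 10 * Equiv.swap (9 : Fin 12) 11
def gX2 : P12 := Equiv.swap (0 : Fin 12) 1 * Equiv.swap (6 : Fin 12) 9 * Equiv.swap (7 : Fin 12) 10 * Equiv.swap (8 : Fin 12) 11
def gX3 : P12 := Equiv.swap (1 : Fin 12) 2 * Equiv.swap (6 : Fin 12) 11 * Equiv.swap (7 : Fin 12) 9 * Equiv.swap (8 : Fin 12) 10

/-- the generators, reordered: u, v, w, s, t, x₁, x₂, x₃ -/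
def gen : ℕ → P12
  | 0 => gU
  | 1 => gV
  | 2 => gW
  | 3 => gS
  | 4 => gT
  | 5 => gX1
  | 6 => gX2
  | 7 => gX3
  | _ => 1

/-- evaluation of a word -/
def ev : List ℕ → P12
  | [] => 1
  | j :: w => gen j * ev w

theorem ev_nil : ev [] = 1 := rfl

theorem ev_cons (j : ℕ) (w : List ℕ) : ev (j :: w) = gen j * ev w := rfl

theorem ev_append (a b : List ℕ) : ev (a ++ b) = ev a * ev b := by
  induction a with
  | nil => simp [ev_nil]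
  | cons j a ih => rw [List.cons_append, ev_cons, ev_cons, ih, mul_assoc]

/-- the group generated by the first `n` generators -/
def K (n : ℕ) : Subgroup P12 := Subgroup.closure (gen '' {j | j < n})

theorem gen_mem {n j : ℕ} (h : j < n) : gen j ∈ K n := Subgroup.subset_closure ⟨j, h, rfl⟩

theorem ev_mem (n : ℕ) (w : List ℕ) (h : ∀ j ∈ w, j < n) : ev w ∈ K n := by
  induction w with
  | nil => exact Subgroup.one_mem _
  | cons j w ih =>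
    rw [ev_cons]
    exact Subgroup.mul_mem _ (gen_mem (h j (by simp))) (ih (fun l hl => h l (by simp [hl])))

theorem K_mono {m n : ℕ} (h : m ≤ n) : K m ≤ K n :=
  Subgroup.closure_mono (Set.image_mono (fun j (hj : j < m) => lt_of_lt_of_le hj h))

/-- certificate lookup -/
def look (tbl : List ((ℕ × List ℕ) × (List ℕ × List ℕ))) (j : ℕ) (w : List ℕ) : List ℕ × List ℕ :=
  (tbl.lookup (j, w)).getD ([], [])

structure LevelOK (n m : ℕ) (b : Fin 12) (T : List (List ℕ))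
    (tbl : List ((ℕ × List ℕ) × (List ℕ × List ℕ))) : Prop where
  hmn : m ≤ n
  letters : ∀ w ∈ T, ∀ j ∈ w, j < n
  one : [] ∈ T
  fixb : ∀ j < m, gen j b = b
  nodup : (T.map (fun w => ev w b)).Nodup
  closed : ∀ j < n, ∀ w ∈ T, (look tbl j w).1 ∈ T ∧ (∀ l ∈ (look tbl j w).2, l < m) ∧
      ev (j :: w) = ev ((look tbl j w).1 ++ (look tbl j w).2)

section level

variable {n m : ℕ} {b : Fin 12} {T : List (List ℕ)}
  {tbl : List ((ℕ × List ℕ) × (List ℕ × List ℕ))} (L : LevelOK n m b T tbl)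

include L

theorem Km_fix : ∀ h ∈ K m, h b = b := by
  intro h hh
  have hle : K m ≤ MulAction.stabilizer P12 b := by
    rw [K, Subgroup.closure_le]
    rintro _ ⟨j, hj, rfl⟩
    exact L.fixb j hj
  exact hle hh

theorem inj_T : ∀ w ∈ T, ∀ w' ∈ T, ev w b = ev w' b → w = w' :=
  fun _ hw _ hw' h => List.inj_on_of_nodup_map L.nodup hw hw' h

theorem decomp : ∀ g ∈ K n, ∃ w ∈ T, ∃ h ∈ K m, g = ev w * h := by
  set X : Set P12 := {g | ∃ w ∈ T, ∃ h ∈ K m, g = ev w * h} with hX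
  have hgen : ∀ j < n, ∀ x ∈ X, gen j * x ∈ X := by
    rintro j hj _ ⟨w, hw, h, hh, rfl⟩
    obtain ⟨h1, h2, h3⟩ := L.closed j hj w hw
    refine ⟨_, h1, ev (look tbl j w).2 * h, Subgroup.mul_mem _ (ev_mem m _ h2) hh, ?_⟩
    calc gen j * (ev w * h) = ev (j :: w) * h := by rw [ev_cons, mul_assoc]
      _ = ev ((look tbl j w).1 ++ (look tbl j w).2) * h := by rw [h3]
      _ = ev (look tbl j w).1 * (ev (look tbl j w).2 * h) := by rw [ev_append, mul_assoc]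
  have hall : ∀ g ∈ K n, ∀ x ∈ X, g * x ∈ X := by
    intro g hg
    refine Subgroup.closure_induction (p := fun g _ => ∀ x ∈ X, g * x ∈ X) ?_ ?_ ?_ ?_ hg
    · rintro _ ⟨j, hj, rfl⟩
      exact hgen j hj
    · intro x hx
      rwa [one_mul]
    · intro g₁ g₂ _ _ ih₁ ih₂ x hx
      rw [mul_assoc]
      exact ih₁ _ (ih₂ x hx)
    · intro g _ ih x hx
      let f : X → X := fun y => ⟨g * y.1, ih y.1 y.2⟩
      have hf : Function.Injective f := by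
        intro y y' h
        exact Subtype.ext (mul_left_cancel (congrArg Subtype.val h))
      obtain ⟨y, hy⟩ := (Finite.injective_iff_surjective.mp hf) ⟨x, hx⟩
      have hgy : g * y.1 = x := congrArg Subtype.val hy
      rw [← hgy, inv_mul_cancel_left]
      exact y.2
  intro g hg
  have h1 : (1 : P12) ∈ X := ⟨[], L.one, 1, Subgroup.one_mem _, by rw [ev_nil, mul_one]⟩
  have := hall g hg 1 h1
  rwa [mul_one] at this

theorem stab : K n ⊓ MulAction.stabilizer P12 b = K m := by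
  apply le_antisymm
  · rintro g ⟨hg, hgb⟩
    obtain ⟨w, hw, h, hh, rfl⟩ := decomp L g hg
    have hgb' : (ev w * h) b = b := hgb
    have h1 : ev w b = b := by
      rw [Perm.mul_apply, Km_fix L h hh] at hgb'
      exact hgb'
    have h2 : w = [] := inj_T L w hw [] L.one (by rw [h1, ev_nil]; rfl)
    subst h2
    rw [ev_nil, one_mul]
    exact hh
  · intro g hg
    exact ⟨K_mono L.hmn hg, Km_fix L g hg⟩

theorem card : Nat.card (K n) = T.length * Nat.card (K m) := by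
  classical
  have hTnodup : T.Nodup := List.Nodup.of_map _ L.nodup
  let φ : {w // w ∈ T} × K m → K n := fun p =>
    ⟨ev p.1.1 * p.2.1, Subgroup.mul_mem _ (ev_mem n _ (L.letters _ p.1.2)) (K_mono L.hmn p.2.2)⟩
  have hinj : Function.Injective φ := by
    rintro ⟨⟨w, hw⟩, ⟨h, hh⟩⟩ ⟨⟨w', hw'⟩, ⟨h', hh'⟩⟩ heq
    have e : ev w * h = ev w' * h' := congrArg Subtype.val heq
    have e1 : ev w b = ev w' b := by
      have := congrArg (fun g : P12 => g b) e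
      simp only [Perm.mul_apply, Km_fix L h hh, Km_fix L h' hh'] at this
      exact this
    have e2 : w = w' := inj_T L w hw w' hw' e1
    subst e2
    have e3 : h = h' := mul_left_cancel e
    subst e3
    rfl
  have hsurj : Function.Surjective φ := by
    rintro ⟨g, hg⟩
    obtain ⟨w, hw, h, hh, rfl⟩ := decomp L g hg
    exact ⟨(⟨w, hw⟩, ⟨h, hh⟩), rfl⟩
  rw [← Nat.card_congr (Equiv.ofBijective φ ⟨hinj, hsurj⟩), Nat.card_prod]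
  congr 1
  have h1 : Nat.card {w // w ∈ T} = T.toFinset.card := by
    rw [← Nat.card_eq_finsetCard T.toFinset]
    exact Nat.card_congr (Equiv.subtypeEquivRight (fun w => by simp))
  rw [h1, List.toFinset_card_of_nodup hTnodup]

theorem step {E : List (Fin 12)} (C : ∀ p : Fin 12, p ∉ E → ∃ w ∈ T, ev w b = p)
    (hE : ∀ e ∈ E, ∀ k ∈ K n, k e = e) (g : P12) (p : Fin 12) (hp : ∀ e ∈ E, g e ≠ p) :
    ∃ a ∈ K n, (g * a) b = p ∧ ∀ e ∈ E, (g * a) e = g e := by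
  have hnot : g⁻¹ p ∉ E := fun hmem => hp _ hmem (by simp)
  obtain ⟨w, hw, e⟩ := C _ hnot
  have hmem : ev w ∈ K n := ev_mem n w (L.letters w hw)
  refine ⟨ev w, hmem, ?_, ?_⟩
  · rw [Perm.mul_apply, e]; simp
  · intro e' he'
    rw [Perm.mul_apply, hE e' he' _ hmem]

end level

def T1 : List (List ℕ) :=
  [[], [0], [1], [2], [0, 0], [2, 0], [0, 1], [1, 2]]

def C1 : List ((ℕ × List ℕ) × (List ℕ × List ℕ)) :=
  [
   ((0, []), ([0], [])), ((0, [0]), ([0, 0], [])), ((0, [1]), ([0, 1], [])),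
   ((0, [2]), ([1], [])), ((0, [0, 0]), ([1, 2], [])), ((0, [2, 0]), ([2], [])),
   ((0, [0, 1]), ([2, 0], [])), ((0, [1, 2]), ([], [])), ((1, []), ([1], [])),
   ((1, [0]), ([2], [])), ((1, [1]), ([0, 0], [])), ((1, [2]), ([1, 2], [])),
   ((1, [0, 0]), ([2, 0], [])), ((1, [2, 0]), ([], [])), ((1, [0, 1]), ([0], [])),
   ((1, [1, 2]), ([0, 1], [])), ((2, []), ([2], [])), ((2, [0]), ([2, 0], [])),
   ((2, [1]), ([0], [])), ((2, [2]), ([0, 0], [])), ((2, [0, 0]), ([0, 1], [])),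
   ((2, [2, 0]), ([1, 2], [])), ((2, [0, 1]), ([], [])), ((2, [1, 2]), ([1], []))]

def T2 : List (List ℕ) :=
  [[], [3], [4], [1, 3], [2, 3], [3, 3], [2, 4], [4, 4], [0, 1, 3]]

def C2 : List ((ℕ × List ℕ) × (List ℕ × List ℕ)) :=
  [
   ((0, []), ([], [0])), ((0, [3]), ([4], [0])), ((0, [4]), ([3, 3], [0])),
   ((0, [1, 3]), ([0, 1, 3], [])), ((0, [2, 3]), ([1, 3], [])), ((0, [3, 3]), ([4, 4], [0])),
   ((0, [2, 4]), ([2, 3], [1, 2])), ((0, [4, 4]), ([3], [0])), ((0, [0, 1, 3]), ([2, 4], [0])),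
   ((1, []), ([], [1])), ((1, [3]), ([1, 3], [])), ((1, [4]), ([2, 3], [1, 2])),
   ((1, [1, 3]), ([3, 3], [0, 0])), ((1, [2, 3]), ([4, 4], [1, 2])), ((1, [3, 3]), ([2, 4], [1, 2])),
   ((1, [2, 4]), ([3], [1, 2])), ((1, [4, 4]), ([0, 1, 3], [0])), ((1, [0, 1, 3]), ([4], [0])),
   ((2, []), ([], [2])), ((2, [3]), ([2, 3], [])), ((2, [4]), ([2, 4], [])),
   ((2, [1, 3]), ([4], [0])), ((2, [2, 3]), ([3, 3], [0, 0])), ((2, [3, 3]), ([0, 1, 3], [0, 0])),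
   ((2, [2, 4]), ([4, 4], [0, 0])), ((2, [4, 4]), ([1, 3], [0])), ((2, [0, 1, 3]), ([3], [])),
   ((3, []), ([3], [])), ((3, [3]), ([3, 3], [])), ((3, [4]), ([1, 3], [2, 0])),
   ((3, [1, 3]), ([0, 1, 3], [0])), ((3, [2, 3]), ([2, 4], [])), ((3, [3, 3]), ([], [])),
   ((3, [2, 4]), ([4, 4], [2])), ((3, [4, 4]), ([2, 3], [0, 1])), ((3, [0, 1, 3]), ([4], [0, 1])),
   ((4, []), ([4], [])), ((4, [3]), ([1, 3], [2, 0])), ((4, [4]), ([4, 4], [])),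
   ((4, [1, 3]), ([2, 3], [1, 2])), ((4, [2, 3]), ([3], [2])), ((4, [3, 3]), ([0, 1, 3], [2])),
   ((4, [2, 4]), ([3, 3], [2])), ((4, [4, 4]), ([], [])), ((4, [0, 1, 3]), ([2, 4], [0, 0]))]

def T3 : List (List ℕ) :=
  [[], [5], [3, 5], [4, 5], [1, 3, 5], [2, 3, 5], [3, 3, 5], [2, 4, 5], [4, 4, 5], [0, 1, 3, 5]]

def C3 : List ((ℕ × List ℕ) × (List ℕ × List ℕ)) :=
  [
   ((0, []), ([], [0])), ((0, [5]), ([5], [1])), ((0, [3, 5]), ([4, 5], [1])),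
   ((0, [4, 5]), ([3, 3, 5], [1])), ((0, [1, 3, 5]), ([0, 1, 3, 5], [])), ((0, [2, 3, 5]), ([1, 3, 5], [])),
   ((0, [3, 3, 5]), ([4, 4, 5], [1])), ((0, [2, 4, 5]), ([2, 3, 5], [2, 0])), ((0, [4, 4, 5]), ([3, 5], [1])),
   ((0, [0, 1, 3, 5]), ([2, 4, 5], [1])), ((1, []), ([], [1])), ((1, [5]), ([5], [0])),
   ((1, [3, 5]), ([1, 3, 5], [])), ((1, [4, 5]), ([2, 3, 5], [2, 0])), ((1, [1, 3, 5]), ([3, 3, 5], [0, 0])),
   ((1, [2, 3, 5]), ([4, 4, 5], [2, 0])), ((1, [3, 3, 5]), ([2, 4, 5], [2, 0])), ((1, [2, 4, 5]), ([3, 5], [2, 0])),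
   ((1, [4, 4, 5]), ([0, 1, 3, 5], [1])), ((1, [0, 1, 3, 5]), ([4, 5], [1])), ((2, []), ([], [2])),
   ((2, [5]), ([5], [0, 1])), ((2, [3, 5]), ([2, 3, 5], [])), ((2, [4, 5]), ([2, 4, 5], [])),
   ((2, [1, 3, 5]), ([4, 5], [1])), ((2, [2, 3, 5]), ([3, 3, 5], [0, 0])), ((2, [3, 3, 5]), ([0, 1, 3, 5], [0, 0])),
   ((2, [2, 4, 5]), ([4, 4, 5], [0, 0])), ((2, [4, 4, 5]), ([1, 3, 5], [1])), ((2, [0, 1, 3, 5]), ([3, 5], [])),
   ((3, []), ([], [3])), ((3, [5]), ([3, 5], [])), ((3, [3, 5]), ([3, 3, 5], [])),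
   ((3, [4, 5]), ([1, 3, 5], [1, 2])), ((3, [1, 3, 5]), ([0, 1, 3, 5], [1])), ((3, [2, 3, 5]), ([2, 4, 5], [])),
   ((3, [3, 3, 5]), ([5], [])), ((3, [2, 4, 5]), ([4, 4, 5], [0, 1])), ((3, [4, 4, 5]), ([2, 3, 5], [2])),
   ((3, [0, 1, 3, 5]), ([4, 5], [2])), ((4, []), ([], [4])), ((4, [5]), ([4, 5], [])),
   ((4, [3, 5]), ([1, 3, 5], [1, 2])), ((4, [4, 5]), ([4, 4, 5], [])), ((4, [1, 3, 5]), ([2, 3, 5], [2, 0])),
   ((4, [2, 3, 5]), ([3, 5], [0, 1])), ((4, [3, 3, 5]), ([0, 1, 3, 5], [0, 1])), ((4, [2, 4, 5]), ([3, 3, 5], [0, 1])),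
   ((4, [4, 4, 5]), ([5], [])), ((4, [0, 1, 3, 5]), ([2, 4, 5], [0, 0])), ((5, []), ([5], [])),
   ((5, [5]), ([], [])), ((5, [3, 5]), ([3, 5], [3, 3, 0, 0])), ((5, [4, 5]), ([1, 3, 5], [3, 3, 1])),
   ((5, [1, 3, 5]), ([4, 5], [2, 4, 0])), ((5, [2, 3, 5]), ([0, 1, 3, 5], [3, 3, 0, 0])), ((5, [3, 3, 5]), ([3, 3, 5], [3, 0, 0])),
   ((5, [2, 4, 5]), ([4, 4, 5], [1, 3, 2, 0])), ((5, [4, 4, 5]), ([2, 4, 5], [2, 4, 0, 1])), ((5, [0, 1, 3, 5]), ([2, 3, 5], [3, 3, 0, 0]))]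

def T4 : List (List ℕ) :=
  [[], [6], [5, 6], [3, 5, 6], [4, 5, 6], [1, 3, 5, 6], [2, 3, 5, 6], [3, 3, 5, 6], [2, 4, 5, 6], [4, 4, 5, 6], [0, 1, 3, 5, 6]]

def C4 : List ((ℕ × List ℕ) × (List ℕ × List ℕ)) :=
  [
   ((0, []), ([], [0])), ((0, [6]), ([6], [1, 2])), ((0, [5, 6]), ([5, 6], [2])),
   ((0, [3, 5, 6]), ([4, 5, 6], [2])), ((0, [4, 5, 6]), ([3, 3, 5, 6], [2])), ((0, [1, 3, 5, 6]), ([0, 1, 3, 5, 6], [])),
   ((0, [2, 3, 5, 6]), ([1, 3, 5, 6], [])), ((0, [3, 3, 5, 6]), ([4, 4, 5, 6], [2])), ((0, [2, 4, 5, 6]), ([2, 3, 5, 6], [0, 1])),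
   ((0, [4, 4, 5, 6]), ([3, 5, 6], [2])), ((0, [0, 1, 3, 5, 6]), ([2, 4, 5, 6], [2])), ((1, []), ([], [1])),
   ((1, [6]), ([6], [2])), ((1, [5, 6]), ([5, 6], [1, 2])), ((1, [3, 5, 6]), ([1, 3, 5, 6], [])),
   ((1, [4, 5, 6]), ([2, 3, 5, 6], [0, 1])), ((1, [1, 3, 5, 6]), ([3, 3, 5, 6], [0, 0])), ((1, [2, 3, 5, 6]), ([4, 4, 5, 6], [0, 1])),
   ((1, [3, 3, 5, 6]), ([2, 4, 5, 6], [0, 1])), ((1, [2, 4, 5, 6]), ([3, 5, 6], [0, 1])), ((1, [4, 4, 5, 6]), ([0, 1, 3, 5, 6], [2])),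
   ((1, [0, 1, 3, 5, 6]), ([4, 5, 6], [2])), ((2, []), ([], [2])), ((2, [6]), ([6], [1])),
   ((2, [5, 6]), ([5, 6], [2, 0])), ((2, [3, 5, 6]), ([2, 3, 5, 6], [])), ((2, [4, 5, 6]), ([2, 4, 5, 6], [])),
   ((2, [1, 3, 5, 6]), ([4, 5, 6], [2])), ((2, [2, 3, 5, 6]), ([3, 3, 5, 6], [0, 0])), ((2, [3, 3, 5, 6]), ([0, 1, 3, 5, 6], [0, 0])),
   ((2, [2, 4, 5, 6]), ([4, 4, 5, 6], [0, 0])), ((2, [4, 4, 5, 6]), ([1, 3, 5, 6], [2])), ((2, [0, 1, 3, 5, 6]), ([3, 5, 6], [])),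
   ((3, []), ([], [3])), ((3, [6]), ([6], [3])), ((3, [5, 6]), ([3, 5, 6], [])),
   ((3, [3, 5, 6]), ([3, 3, 5, 6], [])), ((3, [4, 5, 6]), ([1, 3, 5, 6], [0])), ((3, [1, 3, 5, 6]), ([0, 1, 3, 5, 6], [2])),
   ((3, [2, 3, 5, 6]), ([2, 4, 5, 6], [])), ((3, [3, 3, 5, 6]), ([5, 6], [])), ((3, [2, 4, 5, 6]), ([4, 4, 5, 6], [2, 0])),
   ((3, [4, 4, 5, 6]), ([2, 3, 5, 6], [1])), ((3, [0, 1, 3, 5, 6]), ([4, 5, 6], [1])), ((4, []), ([], [4])),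
   ((4, [6]), ([6], [4, 4])), ((4, [5, 6]), ([4, 5, 6], [])), ((4, [3, 5, 6]), ([1, 3, 5, 6], [0])),
   ((4, [4, 5, 6]), ([4, 4, 5, 6], [])), ((4, [1, 3, 5, 6]), ([2, 3, 5, 6], [0, 1])), ((4, [2, 3, 5, 6]), ([3, 5, 6], [2, 0])),
   ((4, [3, 3, 5, 6]), ([0, 1, 3, 5, 6], [2, 0])), ((4, [2, 4, 5, 6]), ([3, 3, 5, 6], [2, 0])), ((4, [4, 4, 5, 6]), ([5, 6], [])),
   ((4, [0, 1, 3, 5, 6]), ([2, 4, 5, 6], [0, 0])), ((5, []), ([], [5])), ((5, [6]), ([5, 6], [])),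
   ((5, [5, 6]), ([6], [])), ((5, [3, 5, 6]), ([3, 5, 6], [3, 3, 0, 0])), ((5, [4, 5, 6]), ([1, 3, 5, 6], [3, 3, 2])),
   ((5, [1, 3, 5, 6]), ([4, 5, 6], [0, 1, 3])), ((5, [2, 3, 5, 6]), ([0, 1, 3, 5, 6], [3, 3, 0, 0])), ((5, [3, 3, 5, 6]), ([3, 3, 5, 6], [3, 0, 0])),
   ((5, [2, 4, 5, 6]), ([4, 4, 5, 6], [2, 3, 0, 1])), ((5, [4, 4, 5, 6]), ([2, 4, 5, 6], [0, 1, 3, 2])), ((5, [0, 1, 3, 5, 6]), ([2, 3, 5, 6], [3, 3, 0, 0])),
   ((6, []), ([6], [])), ((6, [6]), ([], [])), ((6, [5, 6]), ([5, 6], [5])),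
   ((6, [3, 5, 6]), ([3, 5, 6], [5])), ((6, [4, 5, 6]), ([4, 4, 5, 6], [5])), ((6, [1, 3, 5, 6]), ([2, 3, 5, 6], [5])),
   ((6, [2, 3, 5, 6]), ([1, 3, 5, 6], [5])), ((6, [3, 3, 5, 6]), ([3, 3, 5, 6], [5])), ((6, [2, 4, 5, 6]), ([0, 1, 3, 5, 6], [5, 0, 1])),
   ((6, [4, 4, 5, 6]), ([4, 5, 6], [5])), ((6, [0, 1, 3, 5, 6]), ([2, 4, 5, 6], [5, 0, 1]))]

def T5 : List (List ℕ) :=
  [[], [7], [6, 7], [5, 6, 7], [3, 5, 6, 7], [4, 5, 6, 7], [1, 3, 5, 6, 7], [2, 3, 5, 6, 7], [3, 3, 5, 6, 7], [2, 4, 5, 6, 7], [4, 4, 5, 6, 7], [0, 1, 3, 5, 6, 7]]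

def C5 : List ((ℕ × List ℕ) × (List ℕ × List ℕ)) :=
  [
   ((0, []), ([], [0])), ((0, [7]), ([7], [2, 0])), ((0, [6, 7]), ([6, 7], [1])),
   ((0, [5, 6, 7]), ([5, 6, 7], [0, 1])), ((0, [3, 5, 6, 7]), ([4, 5, 6, 7], [0, 1])), ((0, [4, 5, 6, 7]), ([3, 3, 5, 6, 7], [0, 1])),
   ((0, [1, 3, 5, 6, 7]), ([0, 1, 3, 5, 6, 7], [])), ((0, [2, 3, 5, 6, 7]), ([1, 3, 5, 6, 7], [])), ((0, [3, 3, 5, 6, 7]), ([4, 4, 5, 6, 7], [0, 1])),
   ((0, [2, 4, 5, 6, 7]), ([2, 3, 5, 6, 7], [2])), ((0, [4, 4, 5, 6, 7]), ([3, 5, 6, 7], [0, 1])), ((0, [0, 1, 3, 5, 6, 7]), ([2, 4, 5, 6, 7], [0, 1])),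
   ((1, []), ([], [1])), ((1, [7]), ([7], [1, 2])), ((1, [6, 7]), ([6, 7], [0, 1])),
   ((1, [5, 6, 7]), ([5, 6, 7], [1])), ((1, [3, 5, 6, 7]), ([1, 3, 5, 6, 7], [])), ((1, [4, 5, 6, 7]), ([2, 3, 5, 6, 7], [2])),
   ((1, [1, 3, 5, 6, 7]), ([3, 3, 5, 6, 7], [0, 0])), ((1, [2, 3, 5, 6, 7]), ([4, 4, 5, 6, 7], [2])), ((1, [3, 3, 5, 6, 7]), ([2, 4, 5, 6, 7], [2])),
   ((1, [2, 4, 5, 6, 7]), ([3, 5, 6, 7], [2])), ((1, [4, 4, 5, 6, 7]), ([0, 1, 3, 5, 6, 7], [0, 1])), ((1, [0, 1, 3, 5, 6, 7]), ([4, 5, 6, 7], [0, 1])),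
   ((2, []), ([], [2])), ((2, [7]), ([7], [0, 1])), ((2, [6, 7]), ([6, 7], [1, 2])),
   ((2, [5, 6, 7]), ([5, 6, 7], [0])), ((2, [3, 5, 6, 7]), ([2, 3, 5, 6, 7], [])), ((2, [4, 5, 6, 7]), ([2, 4, 5, 6, 7], [])),
   ((2, [1, 3, 5, 6, 7]), ([4, 5, 6, 7], [0, 1])), ((2, [2, 3, 5, 6, 7]), ([3, 3, 5, 6, 7], [0, 0])), ((2, [3, 3, 5, 6, 7]), ([0, 1, 3, 5, 6, 7], [0, 0])),
   ((2, [2, 4, 5, 6, 7]), ([4, 4, 5, 6, 7], [0, 0])), ((2, [4, 4, 5, 6, 7]), ([1, 3, 5, 6, 7], [0, 1])), ((2, [0, 1, 3, 5, 6, 7]), ([3, 5, 6, 7], [])),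
   ((3, []), ([], [3])), ((3, [7]), ([7], [3])), ((3, [6, 7]), ([6, 7], [3])),
   ((3, [5, 6, 7]), ([3, 5, 6, 7], [])), ((3, [3, 5, 6, 7]), ([3, 3, 5, 6, 7], [])), ((3, [4, 5, 6, 7]), ([1, 3, 5, 6, 7], [2, 0])),
   ((3, [1, 3, 5, 6, 7]), ([0, 1, 3, 5, 6, 7], [0, 1])), ((3, [2, 3, 5, 6, 7]), ([2, 4, 5, 6, 7], [])), ((3, [3, 3, 5, 6, 7]), ([5, 6, 7], [])),
   ((3, [2, 4, 5, 6, 7]), ([4, 4, 5, 6, 7], [0])), ((3, [4, 4, 5, 6, 7]), ([2, 3, 5, 6, 7], [1, 2])), ((3, [0, 1, 3, 5, 6, 7]), ([4, 5, 6, 7], [1, 2])),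
   ((4, []), ([], [4])), ((4, [7]), ([7], [2, 4, 0, 1])), ((4, [6, 7]), ([6, 7], [1, 3, 2, 0])),
   ((4, [5, 6, 7]), ([4, 5, 6, 7], [])), ((4, [3, 5, 6, 7]), ([1, 3, 5, 6, 7], [2, 0])), ((4, [4, 5, 6, 7]), ([4, 4, 5, 6, 7], [])),
   ((4, [1, 3, 5, 6, 7]), ([2, 3, 5, 6, 7], [2])), ((4, [2, 3, 5, 6, 7]), ([3, 5, 6, 7], [0])), ((4, [3, 3, 5, 6, 7]), ([0, 1, 3, 5, 6, 7], [0])),
   ((4, [2, 4, 5, 6, 7]), ([3, 3, 5, 6, 7], [0])), ((4, [4, 4, 5, 6, 7]), ([5, 6, 7], [])), ((4, [0, 1, 3, 5, 6, 7]), ([2, 4, 5, 6, 7], [0, 0])),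
   ((5, []), ([], [5])), ((5, [7]), ([7], [5])), ((5, [6, 7]), ([5, 6, 7], [])),
   ((5, [5, 6, 7]), ([6, 7], [])), ((5, [3, 5, 6, 7]), ([3, 5, 6, 7], [3, 3, 0, 0])), ((5, [4, 5, 6, 7]), ([1, 3, 5, 6, 7], [3, 3, 0, 1])),
   ((5, [1, 3, 5, 6, 7]), ([4, 5, 6, 7], [2, 3])), ((5, [2, 3, 5, 6, 7]), ([0, 1, 3, 5, 6, 7], [3, 3, 0, 0])), ((5, [3, 3, 5, 6, 7]), ([3, 3, 5, 6, 7], [3, 0, 0])),
   ((5, [2, 4, 5, 6, 7]), ([4, 4, 5, 6, 7], [0, 1, 3, 2])), ((5, [4, 4, 5, 6, 7]), ([2, 4, 5, 6, 7], [2, 3, 0, 1])), ((5, [0, 1, 3, 5, 6, 7]), ([2, 3, 5, 6, 7], [3, 3, 0, 0])),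
   ((6, []), ([], [6])), ((6, [7]), ([6, 7], [])), ((6, [6, 7]), ([7], [])),
   ((6, [5, 6, 7]), ([5, 6, 7], [5])), ((6, [3, 5, 6, 7]), ([3, 5, 6, 7], [5])), ((6, [4, 5, 6, 7]), ([4, 4, 5, 6, 7], [5])),
   ((6, [1, 3, 5, 6, 7]), ([2, 3, 5, 6, 7], [5])), ((6, [2, 3, 5, 6, 7]), ([1, 3, 5, 6, 7], [5])), ((6, [3, 3, 5, 6, 7]), ([3, 3, 5, 6, 7], [5])),
   ((6, [2, 4, 5, 6, 7]), ([0, 1, 3, 5, 6, 7], [5, 2])), ((6, [4, 4, 5, 6, 7]), ([4, 5, 6, 7], [5])), ((6, [0, 1, 3, 5, 6, 7]), ([2, 4, 5, 6, 7], [5, 2])),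
   ((7, []), ([7], [])), ((7, [7]), ([], [])), ((7, [6, 7]), ([6, 7], [6])),
   ((7, [5, 6, 7]), ([5, 6, 7], [6])), ((7, [3, 5, 6, 7]), ([3, 5, 6, 7], [6])), ((7, [4, 5, 6, 7]), ([2, 4, 5, 6, 7], [6, 0])),
   ((7, [1, 3, 5, 6, 7]), ([4, 4, 5, 6, 7], [6, 1])), ((7, [2, 3, 5, 6, 7]), ([0, 1, 3, 5, 6, 7], [6])), ((7, [3, 3, 5, 6, 7]), ([3, 3, 5, 6, 7], [6])),
   ((7, [2, 4, 5, 6, 7]), ([4, 5, 6, 7], [6, 0])), ((7, [4, 4, 5, 6, 7]), ([1, 3, 5, 6, 7], [6, 0, 1])), ((7, [0, 1, 3, 5, 6, 7]), ([2, 3, 5, 6, 7], [6]))]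

set_option maxRecDepth 100000 in
theorem L1 : LevelOK 3 0 4 T1 C1 :=
  ⟨by decide +kernel, by decide +kernel, by decide +kernel, by decide +kernel, by decide +kernel,
    by decide +kernel⟩

set_option maxRecDepth 100000 in
theorem L2 : LevelOK 5 3 3 T2 C2 :=
  ⟨by decide +kernel, by decide +kernel, by decide +kernel, by decide +kernel, by decide +kernel,
    by decide +kernel⟩

set_option maxRecDepth 100000 in
theorem L3 : LevelOK 6 5 0 T3 C3 :=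
  ⟨by decide +kernel, by decide +kernel, by decide +kernel, by decide +kernel, by decide +kernel,
    by decide +kernel⟩

set_option maxRecDepth 100000 in
theorem L4 : LevelOK 7 6 1 T4 C4 :=
  ⟨by decide +kernel, by decide +kernel, by decide +kernel, by decide +kernel, by decide +kernel,
    by decide +kernel⟩

set_option maxRecDepth 100000 in
theorem L5 : LevelOK 8 7 2 T5 C5 :=
  ⟨by decide +kernel, by decide +kernel, by decide +kernel, by decide +kernel, by decide +kernel,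
    by decide +kernel⟩

theorem cov1 : ∀ p : Fin 12, p ∉ ([2, 1, 0, 3] : List (Fin 12)) → ∃ w ∈ T1, ev w 4 = p := by
  decide +kernel
theorem cov2 : ∀ p : Fin 12, p ∉ ([2, 1, 0] : List (Fin 12)) → ∃ w ∈ T2, ev w 3 = p := by
  decide +kernel
theorem cov3 : ∀ p : Fin 12, p ∉ ([2, 1] : List (Fin 12)) → ∃ w ∈ T3, ev w 0 = p := by
  decide +kernel
theorem cov4 : ∀ p : Fin 12, p ∉ ([2] : List (Fin 12)) → ∃ w ∈ T4, ev w 1 = p := by
  decide +kernel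
theorem cov5 : ∀ p : Fin 12, p ∉ ([] : List (Fin 12)) → ∃ w ∈ T5, ev w 2 = p := by
  decide +kernel

theorem K0 : K 0 = ⊥ := by
  rw [K]
  have : gen '' {j | j < 0} = ∅ := by
    ext g; simp
  rw [this, Subgroup.closure_empty]

theorem cardK3 : Nat.card (K 3) = 8 := by
  rw [card L1, K0, Subgroup.card_bot]; rfl
theorem cardK5 : Nat.card (K 5) = 72 := by
  rw [card L2, cardK3]; rfl
theorem cardK6 : Nat.card (K 6) = 720 := by
  rw [card L3, cardK5]; rfl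
theorem cardK7 : Nat.card (K 7) = 7920 := by
  rw [card L4, cardK6]; rfl
theorem cardK8 : Nat.card (K 8) = 95040 := by
  rw [card L5, cardK7]; rfl

theorem fix2 : ∀ k ∈ K 7, k 2 = 2 := Km_fix L5
theorem fix1 : ∀ k ∈ K 6, k 1 = 1 := Km_fix L4
theorem fix0 : ∀ k ∈ K 5, k 0 = 0 := Km_fix L3
theorem fix3 : ∀ k ∈ K 3, k 3 = 3 := Km_fix L2

theorem five (y : Fin 5 ↪ Fin 12) :
    ∃ g ∈ K 8, g 2 = y 0 ∧ g 1 = y 1 ∧ g 0 = y 2 ∧ g 3 = y 3 ∧ g 4 = y 4 := by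
  have hne : ∀ i j : Fin 5, i ≠ j → y i ≠ y j := fun i j h e => h (y.injective e)
  obtain ⟨a5, ha5, e5, -⟩ := step L5 (E := []) cov5 (by simp) 1 (y 0) (by simp)
  rw [one_mul] at e5
  obtain ⟨a4, ha4, e4, f4⟩ := step L4 (E := [2]) cov4
    (by
      intro e he k hk
      simp only [List.mem_singleton] at he
      subst he
      exact fix2 k hk) a5 (y 1)
    (by
      intro e he
      simp only [List.mem_singleton] at he
      subst he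
      rw [e5]; exact hne 0 1 (by decide))
  have f4_2 : (a5 * a4) 2 = y 0 := by rw [f4 2 (by simp), e5]
  obtain ⟨a3, ha3, e3, f3⟩ := step L3 (E := [2, 1]) cov3
    (by
      intro e he k hk
      simp only [List.mem_cons, List.mem_nil_iff, or_false] at he
      rcases he with rfl | rfl
      · exact fix2 k (K_mono (by norm_num) hk)
      · exact fix1 k hk) (a5 * a4) (y 2)
    (by
      intro e he
      simp only [List.mem_cons, List.mem_nil_iff, or_false] at he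
      rcases he with rfl | rfl
      · rw [f4_2]; exact hne 0 2 (by decide)
      · rw [e4]; exact hne 1 2 (by decide))
  have f3_2 : (a5 * a4 * a3) 2 = y 0 := by rw [f3 2 (by simp), f4_2]
  have f3_1 : (a5 * a4 * a3) 1 = y 1 := by rw [f3 1 (by simp), e4]
  obtain ⟨a2, ha2, e2, f2⟩ := step L2 (E := [2, 1, 0]) cov2
    (by
      intro e he k hk
      simp only [List.mem_cons, List.mem_nil_iff, or_false] at he
      rcases he with rfl | rfl | rfl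
      · exact fix2 k (K_mono (by norm_num) hk)
      · exact fix1 k (K_mono (by norm_num) hk)
      · exact fix0 k hk) (a5 * a4 * a3) (y 3)
    (by
      intro e he
      simp only [List.mem_cons, List.mem_nil_iff, or_false] at he
      rcases he with rfl | rfl | rfl
      · rw [f3_2]; exact hne 0 3 (by decide)
      · rw [f3_1]; exact hne 1 3 (by decide)
      · rw [e3]; exact hne 2 3 (by decide))
  have f2_2 : (a5 * a4 * a3 * a2) 2 = y 0 := by rw [f2 2 (by simp), f3_2]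
  have f2_1 : (a5 * a4 * a3 * a2) 1 = y 1 := by rw [f2 1 (by simp), f3_1]
  have f2_0 : (a5 * a4 * a3 * a2) 0 = y 2 := by rw [f2 0 (by simp), e3]
  obtain ⟨a1, ha1, e1, f1⟩ := step L1 (E := [2, 1, 0, 3]) cov1
    (by
      intro e he k hk
      simp only [List.mem_cons, List.mem_nil_iff, or_false] at he
      rcases he with rfl | rfl | rfl | rfl
      · exact fix2 k (K_mono (by norm_num) hk)
      · exact fix1 k (K_mono (by norm_num) hk)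
      · exact fix0 k (K_mono (by norm_num) hk)
      · exact fix3 k hk) (a5 * a4 * a3 * a2) (y 4)
    (by
      intro e he
      simp only [List.mem_cons, List.mem_nil_iff, or_false] at he
      rcases he with rfl | rfl | rfl | rfl
      · rw [f2_2]; exact hne 0 4 (by decide)
      · rw [f2_1]; exact hne 1 4 (by decide)
      · rw [f2_0]; exact hne 2 4 (by decide)
      · rw [e2]; exact hne 3 4 (by decide))
  refine ⟨a5 * a4 * a3 * a2 * a1, ?_, ?_, ?_, ?_, ?_, e1⟩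
  · exact Subgroup.mul_mem _ (Subgroup.mul_mem _ (Subgroup.mul_mem _ (Subgroup.mul_mem _ ha5
      (K_mono (by norm_num) ha4)) (K_mono (by norm_num) ha3)) (K_mono (by norm_num) ha2))
      (K_mono (by norm_num) ha1)
  · rw [f1 2 (by simp), f2_2]
  · rw [f1 1 (by simp), f2_1]
  · rw [f1 0 (by simp), f2_0]
  · rw [f1 3 (by simp), e2]

theorem five_trans : MulAction.IsMultiplyPretransitive (K 8) (Fin 12) 5 := by
  refine ⟨fun y y' => ?_⟩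
  obtain ⟨g, hg, g0, g1, g2, g3, g4⟩ := five y
  obtain ⟨g', hg', g0', g1', g2', g3', g4'⟩ := five y'
  refine ⟨⟨g' * g⁻¹, Subgroup.mul_mem _ hg' (Subgroup.inv_mem _ hg)⟩, ?_⟩
  ext i
  rw [Function.Embedding.smul_apply]
  show ((g' * g⁻¹) (y i) : ℕ) = y' i
  congr 1
  fin_cases i
  · show (g' * g⁻¹) (y 0) = y' 0
    rw [← g0, ← g0']; simp
  · show (g' * g⁻¹) (y 1) = y' 1
    rw [← g1, ← g1']; simp
  · show (g' * g⁻¹) (y 2) = y' 2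
    rw [← g2, ← g2']; simp
  · show (g' * g⁻¹) (y 3) = y' 3
    rw [← g3, ← g3']; simp
  · show (g' * g⁻¹) (y 4) = y' 4
    rw [← g4, ← g4']; simp

theorem sharp (y : Fin 5 ↪ Fin 12) : MulAction.stabilizer (K 8) y = ⊥ := by
  apply Subgroup.eq_bot_of_card_eq
  have h1 := Subgroup.card_mul_index (MulAction.stabilizer (K 8) y)
  have h0 : (MulAction.stabilizer (K 8) y).index = Nat.card (Fin 5 ↪ Fin 12) :=
    @MulAction.index_stabilizer_of_transitive (K 8) _ _ _ y five_trans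
  rw [h0, cardK8] at h1
  have h2 : Nat.card (Fin 5 ↪ Fin 12) = 95040 := by
    rw [Nat.card_eq_fintype_card, Fintype.card_embedding_eq, Fintype.card_fin, Fintype.card_fin]
    rfl
  rw [h2] at h1
  omega

theorem K8_eq : Subgroup.closure ({gS, gT, gU, gV, gW, gX1, gX2, gX3} : Set P12) = K 8 := by
  rw [K]
  congr 1
  ext g
  constructor
  · intro hg
    simp only [Set.mem_insert_iff, Set.mem_singleton_iff] at hg
    rcases hg with rfl | rfl | rfl | rfl | rfl | rfl | rfl | rfl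
    · exact ⟨3, by norm_num, rfl⟩
    · exact ⟨4, by norm_num, rfl⟩
    · exact ⟨0, by norm_num, rfl⟩
    · exact ⟨1, by norm_num, rfl⟩
    · exact ⟨2, by norm_num, rfl⟩
    · exact ⟨5, by norm_num, rfl⟩
    · exact ⟨6, by norm_num, rfl⟩
    · exact ⟨7, by norm_num, rfl⟩
  · rintro ⟨j, hj, rfl⟩
    have hj' : j < 8 := hj
    interval_cases j <;> simp [gen]

theorem K7_eq : Subgroup.closure ({gS, gT, gU, gV, gW, gX1, gX2} : Set P12) = K 7 := by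
  rw [K]
  congr 1
  ext g
  constructor
  · intro hg
    simp only [Set.mem_insert_iff, Set.mem_singleton_iff] at hg
    rcases hg with rfl | rfl | rfl | rfl | rfl | rfl | rfl
    · exact ⟨3, by norm_num, rfl⟩
    · exact ⟨4, by norm_num, rfl⟩
    · exact ⟨0, by norm_num, rfl⟩
    · exact ⟨1, by norm_num, rfl⟩
    · exact ⟨2, by norm_num, rfl⟩
    · exact ⟨5, by norm_num, rfl⟩
    · exact ⟨6, by norm_num, rfl⟩
  · rintro ⟨j, hj, rfl⟩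
    have hj' : j < 7 := hj
    interval_cases j <;> simp [gen]

/-- An explicit construction of the Mathieu groups of degrees 11 and 12. On the points 0, …, 11 let s = (3 4 5)(6 7 8)(9 10 11), t = (3 6 9)(4 7 10)(5 8 11), u = (4 6 5 9)(7 8 11 10), v = (4 7 5 11)(6 10 9 8), w = (4 10 5 8)(6 11 9 7), x₁ = (0 3)(6 7)(8 10)(9 11), x₂ = (0 1)(6 9)(7 10)(8 11), x₃ = (1 2)(6 11)(7 9)(8 10) (each written as a product of transpositions). Then the group M₁₂ generated by all eight permutations is sharply 5-transitive on the 12 points and has order 95040, and the group M₁₁ generated by the first seven has order 7920 and is the stabilizer of the point 2 in M₁₂. -/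
theorem result
    (s t u v w x₁ x₂ x₃ : Equiv.Perm (Fin 12))
    (hs : s = Equiv.swap (3 : Fin 12) 5 * Equiv.swap (3 : Fin 12) 4 * Equiv.swap (6 : Fin 12) 8 * Equiv.swap (6 : Fin 12) 7 * Equiv.swap (9 : Fin 12) 11 * Equiv.swap (9 : Fin 12) 10) (ht : t = Equiv.swap (3 : Fin 12) 9 * Equiv.swap (3 : Fin 12) 6 * Equiv.swap (4 : Fin 12) 10 * Equiv.swap (4 : Fin 12) 7 * Equiv.swap (5 : Fin 12) 11 * Equiv.swap (5 : Fin 12) 8)
    (hu : u = Equiv.swap (4 : Fin 12) 9 * Equiv.swap (4 : Fin 12) 5 * Equiv.swap (4 : Fin 12) 6 * Equiv.swap (7 : Fin 12) 10 * Equiv.swap (7 : Fin 12) 11 * Equiv.swap (7 : Fin 12) 8) (hv : v = Equiv.swap (4 : Fin 12) 11 * Equiv.swap (4 : Fin 12) 5 * Equiv.swap (4 : Fin 12) 7 * Equiv.swap (6 : Fin 12) 8 * Equiv.swap (6 : Fin 12) 9 * Equiv.swap (6 : Fin 12) 10) (hw : w = Equiv.swap (4 : Fin 12) 8 * Equiv.swap (4 : Fin 12) 5 * Equiv.swap (4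 : Fin 12) 10 * Equiv.swap (6 : Fin 12) 7 * Equiv.swap (6 : Fin 12) 9 * Equiv.swap (6 : Fin 12) 11)
    (hx₁ : x₁ = Equiv.swap (0 : Fin 12) 3 * Equiv.swap (6 : Fin 12) 7 * Equiv.swap (8 : Fin 12) 10 * Equiv.swap (9 : Fin 12) 11) (hx₂ : x₂ = Equiv.swap (0 : Fin 12) 1 * Equiv.swap (6 : Fin 12) 9 * Equiv.swap (7 : Fin 12) 10 * Equiv.swap (8 : Fin 12) 11)
    (hx₃ : x₃ = Equiv.swap (1 : Fin 12) 2 * Equiv.swap (6 : Fin 12) 11 * Equiv.swap (7 : Fin 12) 9 * Equiv.swap (8 : Fin 12) 10)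
    (M₁₂ M₁₁ : Subgroup (Equiv.Perm (Fin 12))) (hM₁₂ : M₁₂ = Subgroup.closure {s, t, u, v, w, x₁, x₂, x₃})
    (hM₁₁ : M₁₁ = Subgroup.closure {s, t, u, v, w, x₁, x₂}) :
    MulAction.IsMultiplyPretransitive M₁₂ (Fin 12) 5 ∧ (∀ y : Fin 5 ↪ Fin 12, MulAction.stabilizer M₁₂ y = ⊥) ∧
    Nat.card M₁₂ = 95040 ∧ Nat.card M₁₁ = 7920 ∧
    M₁₁ = M₁₂ ⊓ MulAction.stabilizer (Equiv.Perm (Fin 12)) (2 : Fin 12) := by
  have hs' : s = gS := hs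
  have ht' : t = gT := ht
  have hu' : u = gU := hu
  have hv' : v = gV := hv
  have hw' : w = gW := hw
  have hx₁' : x₁ = gX1 := hx₁
  have hx₂' : x₂ = gX2 := hx₂
  have hx₃' : x₃ = gX3 := hx₃
  have h12 : M₁₂ = K 8 := by
    rw [hM₁₂, hs', ht', hu', hv', hw', hx₁', hx₂', hx₃']
    exact K8_eq
  have h11 : M₁₁ = K 7 := by
    rw [hM₁₁, hs', ht', hu', hv', hw', hx₁', hx₂']
    exact K7_eq
  rw [h12, h11]
  exact ⟨five_trans, sharp, cardK8, cardK7, (stab L5).symm⟩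

end Cfsg.Agent.S3362
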