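import Cfsg.Statements.S3370
import Mathlib
import Cfsg.Agent.Helper69.Q8
-- import your own Cfsg.Agent.* helpers here

set_option autoImplicit false
open Cfsg

namespace Cfsg.Agent.S3370

open Subgroup



theorem nt_L1 (u : ℕ) : ∀ k : ℕ, ∃ s : ℕ, (2 * u + 1) ^ (2 * k + 1) + 1 = (2 * u + 2) * (2 * s + 1) := by
  intro k
  induction k with
  | zero => exact ⟨0, by ring⟩
  | succ k ih =>
    obtain ⟨s, hs⟩ := ih
    refine ⟨(2 * u + 1) ^ 2 * s + 2 * u ^ 2 + u, ?_⟩
    have h := congrArg (Nat.cast : ℕ → ℤ) hs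
    push_cast at h
    apply Nat.cast_injective (R := ℤ)
    push_cast
    have e : 2 * (k + 1) + 1 = (2 * k + 1) + 2 := by ring
    rw [e, pow_add]
    linear_combination (2 * (u : ℤ) + 1) ^ 2 * h

theorem nt_L2 (u : ℕ) : ∀ k : ℕ, ∃ s : ℕ, (2 * u + 1) ^ (2 * k + 1) = 1 + 2 * u * (2 * s + 1) := by
  intro k
  induction k with
  | zero => exact ⟨0, by ring⟩
  | succ k ih =>
    obtain ⟨s, hs⟩ := ih
    refine ⟨(2 * u + 1) ^ 2 * s + 2 * u ^ 2 + 3 * u + 1, ?_⟩
    have h := congrArg (Nat.cast : ℕ → ℤ) hs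
    push_cast at h
    apply Nat.cast_injective (R := ℤ)
    push_cast
    have e : 2 * (k + 1) + 1 = (2 * k + 1) + 2 := by ring
    rw [e, pow_add]
    linear_combination (2 * (u : ℤ) + 1) ^ 2 * h

theorem odd_dvd_two_pow {s b : ℕ} (h : 2 * s + 1 ∣ 2 ^ b) : s = 0 := by
  obtain ⟨j, hj, hj2⟩ := (Nat.dvd_prime_pow Nat.prime_two).mp h
  rcases Nat.eq_zero_or_pos j with rfl | hpos
  · simp at hj2; exact hj2
  · exfalso
    have : 2 ∣ 2 ^ j := dvd_pow_self 2 (by omega)
    omega

theorem nt_main (q p d b : ℕ) (hq : q.Prime) (hp : p.Prime) (hd : 1 ≤ d) (hb : 1 ≤ b)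
    (h : q ^ d = p ^ b + 1) :
    (q = 2 ∧ b = 1) ∨ (p = 2 ∧ d = 1) ∨ (p = 2 ∧ q = 3 ∧ d = 2) := by
  rcases hq.eq_two_or_odd' with rfl | hqodd
  · -- q = 2
    left
    refine ⟨rfl, ?_⟩
    have hpodd : Odd p := by
      rcases hp.eq_two_or_odd' with rfl | hpo
      · exfalso
        have h1 : 2 ∣ 2 ^ d := dvd_pow_self 2 (by omega)
        have h2 : 2 ∣ 2 ^ b := dvd_pow_self 2 (by omega)
        omega
      · exact hpo
    obtain ⟨u, hu⟩ := hpodd
    rcases Nat.even_or_odd' b with ⟨c, hc | hc⟩
    · -- b even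
      exfalso
      have hc1 : 1 ≤ c := by omega
      have hsq : p ^ b % 4 = 1 := by
        rw [hc, pow_mul]
        have : Odd (p ^ 2) := (Odd.pow ⟨u, hu⟩)
        have h8 : p ^ 2 % 4 = 1 := by
          rw [hu]
          have : (2 * u + 1) ^ 2 = 4 * (u ^ 2 + u) + 1 := by ring
          rw [this]; omega
        rw [Nat.pow_mod, h8]; simp
      have hd1 : d = 1 := by
        by_contra hne
        have : 4 ∣ 2 ^ d := by
          have : (2:ℕ) ^ 2 ∣ 2 ^ d := pow_dvd_pow 2 (by omega)
          simpa using this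
        omega
      rw [hd1] at h
      have : 2 ≤ p ^ b := by
        calc 2 ≤ p := hp.two_le
          _ = p ^ 1 := (pow_one p).symm
          _ ≤ p ^ b := Nat.pow_le_pow_right hp.pos hb
      omega
    · -- b odd
      obtain ⟨s, hs⟩ := nt_L1 u c
      rw [← hu, ← hc] at hs
      have hdvd : 2 * s + 1 ∣ 2 ^ d := by
        rw [h, hs]; exact Dvd.intro_left _ rfl
      have hs0 := odd_dvd_two_pow hdvd
      rw [hs0] at hs
      have : p ^ b = p ^ 1 := by rw [pow_one]; omega
      exact Nat.pow_right_injective hp.two_le this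
  · -- q odd
    right
    obtain ⟨u, hu⟩ := hqodd
    have hp2 : p = 2 := by
      rcases hp.eq_two_or_odd' with rfl | hpo
      · rfl
      · exfalso
        have h1 : Odd (p ^ b) := Odd.pow hpo
        have h2 : Odd (q ^ d) := Odd.pow ⟨u, hu⟩
        rw [h] at h2
        rcases h1 with ⟨x, hx⟩
        rcases h2 with ⟨y, hy⟩
        omega
    subst hp2
    rcases Nat.even_or_odd' d with ⟨e, he | he⟩
    · -- d even
      right
      have he1 : 1 ≤ e := by omega
      set y := q ^ e with hy
      have hyy : y * y = 2 ^ b + 1 := by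
        rw [← h, he, hy, ← pow_add]; congr 1; ring
      have hy2 : 2 ≤ y := by
        calc 2 ≤ q := hq.two_le
          _ = q ^ 1 := (pow_one q).symm
          _ ≤ q ^ e := Nat.pow_le_pow_right hq.pos he1
      have hprod : (y - 1) * (y + 1) = 2 ^ b := by
        obtain ⟨t, ht⟩ : ∃ t, y = t + 1 := ⟨y - 1, by omega⟩
        rw [ht] at hyy ⊢
        simp only [Nat.add_sub_cancel]
        nlinarith
      obtain ⟨i, -, hi⟩ := (Nat.dvd_prime_pow Nat.prime_two).mp (Dvd.intro _ hprod)
      obtain ⟨j, -, hj⟩ := (Nat.dvd_prime_pow Nat.prime_two).mp (Dvd.intro_left _ hprod)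
      have hij : 2 ^ j = 2 ^ i + 2 := by omega
      have hi1 : i = 1 := by
        rcases Nat.lt_or_ge i 2 with hlt | hge
        · interval_cases i
          · exfalso
            rcases Nat.lt_or_ge j 2 with hj2 | hj2
            · interval_cases j <;> omega
            · have : (2:ℕ) ^ 2 ∣ 2 ^ j := pow_dvd_pow 2 hj2
              omega
          · rfl
        · exfalso
          have h4i : (2:ℕ) ^ 2 ∣ 2 ^ i := pow_dvd_pow 2 hge
          have hj2 : 2 ≤ j := by
            by_contra hlt
            have : j = 0 ∨ j = 1 := by omega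
            rcases this with rfl | rfl <;> omega
          have h4j : (2:ℕ) ^ 2 ∣ 2 ^ j := pow_dvd_pow 2 hj2
          omega
      rw [hi1] at hi
      have hy3 : y = 3 := by omega
      have hq3 : q = 3 := by
        have : q ∣ 3 := by
          rw [← hy3, hy]; exact dvd_pow_self q (by omega)
        exact (Nat.prime_dvd_prime_iff_eq hq Nat.prime_three).mp this
      refine ⟨rfl, hq3, ?_⟩
      have h3e : 3 ^ e = 3 ^ 1 := by
        have : q ^ e = 3 := hy3
        rw [hq3] at this
        rw [this]; norm_num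
      have := Nat.pow_right_injective (by norm_num : 2 ≤ 3) h3e
      omega
    · -- d odd
      left
      refine ⟨rfl, ?_⟩
      obtain ⟨s, hs⟩ := nt_L2 u e
      rw [← hu, ← he] at hs
      have hu1 : 1 ≤ u := by
        have := hq.two_le
        by_contra hne
        have : u = 0 := by omega
        subst this
        have : q = 1 := by omega
        omega
      have hdvd : 2 * s + 1 ∣ 2 ^ b := by
        have : 2 ^ b = 2 * u * (2 * s + 1) := by omega
        rw [this]; exact Dvd.intro_left _ rfl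
      have hs0 := odd_dvd_two_pow hdvd
      rw [hs0] at hs
      have : q ^ d = q ^ 1 := by rw [pow_one]; omega
      exact Nat.pow_right_injective hq.two_le this



section
variable {q : ℕ} [Fact q.Prime] {V : Type*} [AddCommGroup V] [Module (ZMod q) V] [Finite V]
  {G : Type*} [Group G] [Finite G]

/-- orbit-stabilizer for the nonzero vectors -/
theorem orbit_stab (ρ : G →* (V ≃ₗ[ZMod q] V))
    (htrans : ∀ v w : V, v ≠ 0 → w ≠ 0 → ∃ g : G, ρ g v = w) (v₀ : V) (hv₀ : v₀ ≠ 0) :
    ∃ S : Subgroup G, (∀ g, g ∈ S ↔ ρ g v₀ = v₀) ∧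
      (Nat.card V - 1) * Nat.card S = Nat.card G := by
  let _ : MulAction G V := MulAction.compHom V ρ
  have hsmul : ∀ (g : G) (v : V), g • v = ρ g v := fun g v => rfl
  refine ⟨MulAction.stabilizer G v₀, fun g => ?_, ?_⟩
  · rw [MulAction.mem_stabilizer_iff, hsmul]
  · have h := MulAction.index_stabilizer G v₀
    have h' := Subgroup.card_mul_index (MulAction.stabilizer G v₀)
    have horb : MulAction.orbit G v₀ = ({0}ᶜ : Set V) := by
      ext w
      rw [MulAction.mem_orbit_iff]
      constructor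
      · rintro ⟨g, rfl⟩
        rw [hsmul]
        simp only [Set.mem_compl_iff, Set.mem_singleton_iff]
        intro h0
        exact hv₀ ((ρ g).map_eq_zero_iff.mp h0)
      · intro hw
        obtain ⟨g, hg⟩ := htrans v₀ w hv₀ hw
        exact ⟨g, hg⟩
    have hc : (MulAction.orbit G v₀).ncard = Nat.card V - 1 := by
      rw [horb, Set.ncard_compl, Set.ncard_singleton]
    rw [← hc, ← h, mul_comm]; exact h'

theorem caseA (ρ : G →* (V ≃ₗ[ZMod q] V)) (hρ : Function.Injective ρ) (p : ℕ) [Fact p.Prime]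
    (hG : IsPGroup p G) [Nontrivial G] (hV : Nat.card V = p + 1) : Nat.card G = p := by
  let f : G →* Equiv.Perm V :=
    { toFun := fun g => (ρ g).toEquiv
      map_one' := by ext; simp
      map_mul' := by intros; ext; simp }
  have hf : Function.Injective f := by
    intro g h hgh
    apply hρ
    ext v
    exact congrArg (fun e : Equiv.Perm V => e v) hgh
  have hdvd : Nat.card G ∣ (p + 1).factorial := by
    have := Subgroup.card_dvd_of_injective f hf
    rwa [Nat.card_perm, hV] at this
  obtain ⟨a, ha⟩ := IsPGroup.iff_card.mp hG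
  have hp := (Fact.out : p.Prime)
  have hp2 := hp.two_le
  have ha1 : a ≠ 0 := by
    rintro rfl
    have : 1 < Nat.card G := Finite.one_lt_card
    rw [pow_zero] at ha
    omega
  have ha2 : a ≤ 1 := by
    rw [ha] at hdvd
    have hlog : Nat.log p (p + 1) < 2 := Nat.log_lt_of_lt_pow (by omega) (by nlinarith)
    have h1 := (hp.pow_dvd_factorial_iff hlog).mp hdvd
    have h2 : (p + 1) / p = 1 := Nat.div_eq_of_lt_le (by omega) (by omega)
    simpa [h2] using h1
  have : a = 1 := by omega
  rw [ha, this, pow_one]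

theorem caseB (ρ : G →* (V ≃ₗ[ZMod q] V)) (hρ : Function.Injective ρ) (hV : Nat.card V = q) :
    IsCyclic G ∧ Nat.card G ∣ q - 1 := by
  have hq := (Fact.out : q.Prime)
  have : Nontrivial V := by
    apply Finite.one_lt_card_iff_nontrivial.mp; rw [hV]; exact hq.one_lt
  obtain ⟨v₀, hv₀⟩ := exists_ne (0 : V)
  have hinj : Function.Injective (fun c : ZMod q => c • v₀) := smul_left_injective (ZMod q) hv₀
  have hbij : Function.Bijective (fun c : ZMod q => c • v₀) := by
    rw [Nat.bijective_iff_injective_and_card]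
    exact ⟨hinj, by rw [hV, Nat.card_zmod]⟩
  have hex : ∀ v : V, ∃ c : ZMod q, c • v₀ = v := hbij.2
  choose χ hχ using fun g : G => hex (ρ g v₀)
  have hmul : ∀ g h, χ (g * h) = χ g * χ h := by
    intro g h
    apply hinj
    show χ (g * h) • v₀ = (χ g * χ h) • v₀
    rw [hχ, map_mul, LinearEquiv.mul_apply, ← hχ h, map_smul, ← hχ g, smul_smul, mul_comm]
  have hone : χ 1 = 1 := by
    apply hinj
    show χ 1 • v₀ = (1 : ZMod q) • v₀
    rw [hχ, map_one, one_smul]; rfl
  let f : G →* ZMod q := { toFun := χ, map_one' := hone, map_mul' := hmul }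
  have hf : Function.Injective f := by
    intro g h hgh
    apply hρ
    ext v
    obtain ⟨c, rfl⟩ := hex v
    have : χ g = χ h := hgh
    rw [map_smul, map_smul, ← hχ g, ← hχ h, this]
  refine ⟨isCyclic_of_injective_ringHom f hf, ?_⟩
  have hfu : Function.Injective f.toHomUnits := by
    intro g h hgh
    apply hf
    have := congrArg (fun u : (ZMod q)ˣ => (u : ZMod q)) hgh
    simpa using this
  have := Subgroup.card_dvd_of_injective f.toHomUnits hfu
  rwa [Nat.card_eq_fintype_card (α := (ZMod q)ˣ), ZMod.card_units] at this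

theorem caseC8 (ρ : G →* (V ≃ₗ[ZMod q] V)) (hρ : Function.Injective ρ)
    (hfree : ∀ g : G, ∀ v : V, v ≠ 0 → ρ g v = v → g = 1) :
    ∀ s t : G, orderOf s = 2 → orderOf t = 2 → s = t := by
  have key : ∀ t : G, orderOf t = 2 → ∀ v, ρ t v = -v := by
    intro t ht v
    have ht2 : t * t = 1 := by rw [← pow_two, ← ht]; exact pow_orderOf_eq_one t
    have ht1 : t ≠ 1 := by rintro rfl; simp at ht
    by_contra hne
    have hw : ρ t v + v ≠ 0 := fun h => hne (eq_neg_of_add_eq_zero_left h)
    have hfix : ρ t (ρ t v + v) = ρ t v + v := by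
      rw [map_add]
      have h1 : ρ t * ρ t = 1 := by rw [← map_mul, ht2, map_one]
      have h2 : ρ t (ρ t v) = v := congrArg (fun e : V ≃ₗ[ZMod q] V => e v) h1
      rw [h2, add_comm]
    exact ht1 (hfree t _ hw hfix)
  intro s t hs ht
  apply hρ
  ext v
  rw [key s hs, key t ht]

end



theorem card8_unique_involution {G : Type*} [Group G] [Finite G] (h8 : Nat.card G = 8)
    (huniq : ∀ s t : G, orderOf s = 2 → orderOf t = 2 → s = t) :
    IsCyclic G ∨ Nonempty (G ≃* QuaternionGroup 2) := by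
  by_cases hc : ∃ g : G, orderOf g = 8
  · left
    obtain ⟨g, hg⟩ := hc
    exact isCyclic_of_orderOf_eq_card g (by rw [hg, h8])
  · right
    push Not at hc
    have hord : ∀ g : G, orderOf g = 1 ∨ orderOf g = 2 ∨ orderOf g = 4 := by
      intro g
      have h1 : orderOf g ∣ 8 := h8 ▸ orderOf_dvd_natCard g
      have h2 : orderOf g ≤ 8 := Nat.le_of_dvd (by norm_num) h1
      have h3 := hc g
      have h4 : 0 < orderOf g := orderOf_pos g
      interval_cases (orderOf g) <;> simp_all <;> omega
    obtain ⟨z, hz⟩ := exists_prime_orderOf_dvd_card' (G := G) 2 (h8 ▸ (by norm_num : 2 ∣ 8))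
    have hsq : ∀ g : G, orderOf g = 4 → g ^ 2 = z := by
      intro g hg
      apply huniq _ _ _ hz
      rw [orderOf_pow' g (by norm_num), hg]; rfl
    obtain ⟨a, ha1, haz⟩ : ∃ a : G, a ≠ 1 ∧ a ≠ z := by
      by_contra hcon
      push Not at hcon
      have : Nat.card G ≤ 2 := by
        have hsub : (Set.univ : Set G) ⊆ {1, z} := by
          intro a _
          by_cases h : a = 1
          · left; exact h
          · right; exact hcon a h
        calc Nat.card G = (Set.univ : Set G).ncard := (Set.ncard_univ G).symm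
          _ ≤ ({1, z} : Set G).ncard := Set.ncard_le_ncard hsub (Set.toFinite _)
          _ ≤ 2 := by
              calc ({1, z} : Set G).ncard ≤ ({z} : Set G).ncard + 1 := Set.ncard_insert_le 1 {z}
                _ = 2 := by rw [Set.ncard_singleton]
      omega
    have ha4 : orderOf a = 4 := by
      rcases hord a with h | h | h
      · exact absurd (orderOf_eq_one_iff.mp h) ha1
      · exact absurd (huniq a z h hz) haz
      · exact h
    have hcardH : Nat.card (zpowers a) = 4 := by rw [Nat.card_zpowers, ha4]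
    obtain ⟨b, hb⟩ : ∃ b : G, b ∉ zpowers a := by
      by_contra hcon
      push Not at hcon
      have : zpowers a = ⊤ := eq_top_iff.mpr (fun x _ => hcon x)
      rw [this, Subgroup.card_top] at hcardH
      omega
    have ha2z : a ^ 2 = z := hsq a ha4
    have hb4 : orderOf b = 4 := by
      rcases hord b with h | h | h
      · exfalso; apply hb; rw [orderOf_eq_one_iff.mp h]; exact one_mem _
      · exfalso; apply hb; rw [huniq b z h hz, ← ha2z]; exact pow_mem (mem_zpowers a) 2
      · exact h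
    have hb2 : b ^ 2 = a ^ 2 := by rw [hsq b hb4, ha2z]
    have ha44 : a ^ 4 = 1 := by rw [← ha4]; exact pow_orderOf_eq_one a
    have hidx : (zpowers a).index = 2 := by
      have := Subgroup.card_mul_index (zpowers a)
      rw [hcardH, h8] at this; omega
    have hnorm : (zpowers a).Normal := Subgroup.normal_of_index_eq_two hidx
    have hconj : b * a * b⁻¹ ∈ zpowers a := hnorm.conj_mem a (mem_zpowers a) b
    obtain ⟨k, hk⟩ := mem_zpowers_iff.mp hconj
    have hk4 : a ^ k = a ^ (k % 4) := by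
      have := zpow_mod_orderOf a k
      rw [ha4] at this; exact this.symm
    have ha_sq_ne : a ^ 2 ≠ 1 := by
      intro h
      have := orderOf_dvd_of_pow_eq_one h
      rw [ha4] at this; omega
    have hbab : b * a * b⁻¹ = a ∨ b * a * b⁻¹ = a⁻¹ := by
      have hlt : k % 4 < 4 := Int.emod_lt_of_pos k (by norm_num)
      have hge : 0 ≤ k % 4 := Int.emod_nonneg k (by norm_num)
      rw [← hk, hk4]
      obtain h | h | h | h : k % 4 = 0 ∨ k % 4 = 1 ∨ k % 4 = 2 ∨ k % 4 = 3 := by omega
      · exfalso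
        rw [hk4, h, zpow_zero] at hk
        have : a = 1 := by
          have h1 : b * a * b⁻¹ = 1 := hk.symm
          calc a = b⁻¹ * (b * a * b⁻¹) * b := by group
            _ = 1 := by rw [h1]; group
        exact ha1 this
      · left; rw [h, zpow_one]
      · exfalso
        rw [hk4, h] at hk
        have h1 : b * a * b⁻¹ = a ^ 2 := by rw [← hk]; exact zpow_natCast a 2
        have h2 : (b * a * b⁻¹) ^ 2 = b * a ^ 2 * b⁻¹ := conj_pow
        rw [h1, ← pow_mul, ha44] at h2
        apply ha_sq_ne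
        calc a ^ 2 = b⁻¹ * (b * a ^ 2 * b⁻¹) * b := by group
          _ = 1 := by rw [← h2]; group
      · right
        rw [h]
        have : a ^ (3 : ℤ) = a ^ 3 := zpow_natCast a 3
        rw [this]
        apply eq_inv_of_mul_eq_one_left
        rw [← pow_succ, ha44]
    have hbab' : b * a * b⁻¹ = a⁻¹ := by
      rcases hbab with h | h
      · exfalso
        have hcomm : b * a = a * b := by
          calc b * a = (b * a * b⁻¹) * b := by group
            _ = a * b := by rw [h]
        have hcomm' : Commute a b⁻¹ := (Commute.inv_right (hcomm.symm : Commute a b))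
        have hc2 : (a * b⁻¹) ^ 2 = 1 := by
          rw [hcomm'.mul_pow, inv_pow, hb2, mul_inv_cancel]
        rcases hord (a * b⁻¹) with h1 | h1 | h1
        · apply hb
          have : a * b⁻¹ = 1 := orderOf_eq_one_iff.mp h1
          have : b = a := by
            calc b = (a * b⁻¹)⁻¹ * a := by group
              _ = a := by rw [this]; group
          rw [this]; exact mem_zpowers a
        · apply hb
          have : a * b⁻¹ = a ^ 2 := by rw [huniq _ z h1 hz, ha2z]
          have : b = a⁻¹ := by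
            calc b = (a * b⁻¹)⁻¹ * a := by group
              _ = a⁻¹ := by rw [this]; group
          rw [this]; exact inv_mem (mem_zpowers a)
        · have := orderOf_dvd_of_pow_eq_one hc2
          rw [h1] at this; omega
      · exact h
    have hgen : closure {a, b} = ⊤ := by
      have hle : zpowers a ≤ closure {a, b} := by
        rw [zpowers_le]; exact subset_closure (Or.inl rfl)
      have hbm : b ∈ closure {a, b} := subset_closure (Or.inr rfl)
      have hd1 : 4 ∣ Nat.card (closure {a, b}) := hcardH ▸ Subgroup.card_dvd_of_le hle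
      have hd2 : Nat.card (closure {a, b}) ∣ 8 := h8 ▸ Subgroup.card_subgroup_dvd_card _
      have hne : Nat.card (closure {a, b}) ≠ 4 := by
        intro h
        have : zpowers a = closure {a, b} :=
          Subgroup.eq_of_le_of_card_ge hle (by rw [h, hcardH])
        exact hb (this ▸ hbm)
      have h8' : Nat.card (closure {a, b}) = 8 := by
        have hle8 : Nat.card (closure {a, b}) ≤ 8 := Nat.le_of_dvd (by norm_num) hd2
        obtain ⟨c, hc⟩ := hd1
        have : c = 1 ∨ c = 2 := by
          have : c ≤ 2 := by omega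
          have : c ≠ 0 := by
            rintro rfl
            have : 0 < Nat.card (closure {a, b}) := Nat.card_pos
            omega
          omega
        rcases this with rfl | rfl <;> omega
      exact (Subgroup.card_eq_iff_eq_top _).mp (by rw [h8', h8])
    exact Cfsg.Agent.Helper69.nonempty_mulEquiv_quaternionGroup_two a b h8 hgen ha44 hb2 hbab'



/-- element of order 8 -/
def mX : GL (Fin 2) (ZMod 3) :=
  ⟨!![0, 1; 1, 1], !![2, 1; 1, 0], by decide, by decide⟩

def mY : GL (Fin 2) (ZMod 3) :=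
  ⟨!![1, 1; 0, 2], !![1, 1; 0, 2], by decide, by decide⟩

theorem mX_pow4 : ¬ mX ^ 2 ^ 2 = 1 := by decide
theorem mX_pow8 : mX ^ 2 ^ (2 + 1) = 1 := by decide
theorem mY_sq : mY ^ 2 = 1 := by decide
theorem mY_ne : mY ≠ 1 := by decide
theorem mYX : mY * mX * mY⁻¹ = mX ^ 3 := by decide
theorem mYX' : mY⁻¹ * mX * mY = mX ^ 3 := by decide

theorem orderOf_mX : orderOf mX = 8 := orderOf_eq_prime_pow mX_pow4 mX_pow8

theorem orderOf_mY : orderOf mY = 2 := orderOf_eq_prime mY_sq mY_ne

theorem card_GL23 [Fact (Nat.Prime 3)] : Nat.card (GL (Fin 2) (ZMod 3)) = 48 := by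
  rw [Matrix.card_GL_field]
  simp [Fin.prod_univ_two, ZMod.card]

theorem sd16_in_GL [Fact (Nat.Prime 3)] (R : Subgroup (GL (Fin 2) (ZMod 3))) (hR : Nat.card R = 16) :
    ∃ x y : GL (Fin 2) (ZMod 3), x ∈ R ∧ y ∈ R ∧ orderOf x = 8 ∧ orderOf y = 2 ∧
      y * x * y⁻¹ = x ^ 3 := by
  have : Fact (Nat.Prime 2) := ⟨Nat.prime_two⟩
  -- R is a Sylow 2-subgroup
  have hRp : IsPGroup 2 R := IsPGroup.of_card (n := 4) (by rw [hR]; norm_num)
  obtain ⟨P, hP⟩ := hRp.exists_le_sylow
  have hPR : (P : Subgroup (GL (Fin 2) (ZMod 3))) = R := by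
    symm
    apply Subgroup.eq_of_le_of_card_ge hP
    obtain ⟨k, hk⟩ := IsPGroup.iff_card.mp P.2
    have hdvd : Nat.card (P : Subgroup (GL (Fin 2) (ZMod 3))) ∣ 48 :=
      card_GL23 ▸ Subgroup.card_subgroup_dvd_card _
    rw [hk] at hdvd ⊢
    rw [hR]
    have hk4 : k ≤ 4 := by
      by_contra hlt
      have h32 : (2:ℕ) ^ 5 ∣ 2 ^ k := pow_dvd_pow 2 (by omega)
      have : (2:ℕ) ^ 5 ∣ 48 := h32.trans hdvd
      omega
    calc 2 ^ k ≤ 2 ^ 4 := Nat.pow_le_pow_right (by norm_num) hk4
      _ = 16 := by norm_num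
  -- the semidihedral subgroup
  have hX : IsPGroup 2 (zpowers mX) := by
    apply IsPGroup.of_card (n := 3)
    rw [Nat.card_zpowers, orderOf_mX]; norm_num
  have hY : IsPGroup 2 (zpowers mY) := by
    apply IsPGroup.of_card (n := 1)
    rw [Nat.card_zpowers, orderOf_mY]; norm_num
  have hnorm : zpowers mY ≤ normalizer (zpowers mX : Set (GL (Fin 2) (ZMod 3))) := by
    rw [zpowers_le, mem_normalizer_iff]
    intro h
    constructor
    · rintro ⟨k, rfl⟩
      refine ⟨3 * k, ?_⟩
      show mX ^ (3 * k) = mY * mX ^ k * mY⁻¹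
      rw [← conj_zpow, mYX, zpow_mul]
      rfl
    · rintro ⟨k, hk⟩
      refine ⟨3 * k, ?_⟩
      have hk' : mX ^ k = mY * h * mY⁻¹ := hk
      have : h = mY⁻¹ * mX ^ k * mY := by rw [hk']; group
      have h2 : (mY⁻¹ * mX * mY) ^ k = mY⁻¹ * mX ^ k * mY := by
        have := conj_zpow (a := mY⁻¹) (b := mX) (i := k)
        rw [inv_inv] at this; exact this
      rw [this, ← h2]
      show mX ^ (3 * k) = (mY⁻¹ * mX * mY) ^ k
      rw [mYX', zpow_mul]
      rfl
  have hS : IsPGroup 2 (zpowers mX ⊔ zpowers mY : Subgroup (GL (Fin 2) (ZMod 3))) :=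
    IsPGroup.to_sup_of_normal_left' hX hY hnorm
  obtain ⟨P', hP'⟩ := hS.exists_le_sylow
  obtain ⟨γ, hγ⟩ := MulAction.exists_smul_eq (GL (Fin 2) (ZMod 3)) P' P
  have hmem : ∀ w ∈ (P' : Subgroup (GL (Fin 2) (ZMod 3))), γ * w * γ⁻¹ ∈ R := by
    intro w hw
    rw [← hPR, ← hγ, Sylow.coe_subgroup_smul]
    exact Subgroup.smul_mem_pointwise_smul w (MulAut.conj γ) P' hw
  have hXm : mX ∈ (P' : Subgroup (GL (Fin 2) (ZMod 3))) := hP' (mem_sup_left (mem_zpowers mX))
  have hYm : mY ∈ (P' : Subgroup (GL (Fin 2) (ZMod 3))) := hP' (mem_sup_right (mem_zpowers mY))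
  have hord : ∀ w : GL (Fin 2) (ZMod 3), orderOf (γ * w * γ⁻¹) = orderOf w := by
    intro w
    exact orderOf_injective (MulAut.conj γ).toMonoidHom (MulAut.conj γ).injective w
  refine ⟨γ * mX * γ⁻¹, γ * mY * γ⁻¹, hmem _ hXm, hmem _ hYm, ?_, ?_, ?_⟩
  · rw [hord, orderOf_mX]
  · rw [hord, orderOf_mY]
  · rw [conj_pow, ← mYX]; group

/-- Let q be a prime, V a non-trivial finite vector space over the field with q elements, and G a non-trivial finite p-group (p prime) acting faithfully and linearly on V and transitively on the non-zero vectors. Then either q = 2 and G has prime order p = |V| − 1; or p = 2, V has q elements with q = 2^m + 1 and G is cyclic of order 2^m; or p = 2, q = 3, V has 9 elements and G is cyclic of order 8, quaternion of order 8, or semidihedral of order 16. -/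
theorem result (q : ℕ) [Fact q.Prime] {V : Type*} [AddCommGroup V] [Module (ZMod q) V] [Finite V] [Nontrivial V]
    {G : Type*} [Group G] [Finite G] [Nontrivial G] (p : ℕ) [Fact p.Prime] (hG : IsPGroup p G)
    (ρ : G →* (V ≃ₗ[ZMod q] V)) (hρ : Function.Injective ρ)
    (htrans : ∀ v w : V, v ≠ 0 → w ≠ 0 → ∃ g : G, ρ g v = w) :
    (q = 2 ∧ p = Nat.card V - 1 ∧ Nat.card G = p) ∨
    (p = 2 ∧ Nat.card V = q ∧ (∃ m : ℕ, q = 2 ^ m + 1 ∧ Nat.card G = 2 ^ m) ∧ IsCyclic G) ∨
    (p = 2 ∧ q = 3 ∧ Nat.card V = 9 ∧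
      ((IsCyclic G ∧ Nat.card G = 8) ∨ Nonempty (G ≃* QuaternionGroup 2) ∨ (Cfsg.IsQuasiDihedral G ∧ Nat.card G = 16))) := by
  have hq := (Fact.out : q.Prime)
  have hp := (Fact.out : p.Prime)
  obtain ⟨v₀, hv₀⟩ := exists_ne (0 : V)
  obtain ⟨S, hSmem, hScard⟩ := orbit_stab ρ htrans v₀ hv₀
  have hVcard : Nat.card V = q ^ Module.finrank (ZMod q) V := by
    rw [Module.natCard_eq_pow_finrank (K := ZMod q), Nat.card_zmod]
  have hd1 : 1 ≤ Module.finrank (ZMod q) V := Module.finrank_pos
  obtain ⟨a, ha⟩ := IsPGroup.iff_card.mp hG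
  have hdvd : Nat.card V - 1 ∣ p ^ a := ha ▸ Dvd.intro _ hScard
  obtain ⟨b, hba, hb⟩ := (Nat.dvd_prime_pow hp).mp hdvd
  have hVpos : 2 ≤ Nat.card V := Finite.one_lt_card
  have hb1 : 1 ≤ b := by
    by_contra hb0
    have hb0 : b = 0 := by omega
    rw [hb0, pow_zero] at hb
    have hV2 : Nat.card V = 2 := by omega
    have hall : ∀ g : G, g = 1 := by
      intro g
      apply hρ
      rw [map_one]
      ext v
      show ρ g v = v
      by_cases hv : v = 0
      · rw [hv, map_zero]
      · have h1 : ρ g v ≠ 0 := fun h0 => hv ((ρ g).map_eq_zero_iff.mp h0)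
        obtain ⟨y, hy1, hy2⟩ := (Nat.card_eq_two_iff' (0 : V)).mp hV2
        rw [hy2 _ h1, hy2 _ hv]
    obtain ⟨g, hg⟩ := exists_ne (1 : G)
    exact hg (hall g)
  have hmain : q ^ Module.finrank (ZMod q) V = p ^ b + 1 := by omega
  rcases nt_main q p _ b hq hp hd1 hb1 hmain with ⟨hq2, hb1'⟩ | ⟨hp2, hd1'⟩ | ⟨hp2, hq3, hd2⟩
  · left
    have hpV : p = Nat.card V - 1 := by rw [hb, hb1', pow_one]
    exact ⟨hq2, hpV, caseA ρ hρ p hG (by omega)⟩
  · right; left
    have hVq : Nat.card V = q := by rw [hVcard, hd1', pow_one]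
    obtain ⟨hcyc, hdvd2⟩ := caseB ρ hρ hVq
    refine ⟨hp2, hVq, ⟨b, ?_, ?_⟩, hcyc⟩
    · rw [hp2] at hb; omega
    · have h1 : q - 1 ∣ Nat.card G := by rw [← hVq]; exact Dvd.intro _ hScard
      have h2 := Nat.dvd_antisymm hdvd2 h1
      rw [h2, ← hVq, hb, hp2]
  · right; right
    subst hq3
    subst hp2
    have hV9 : Nat.card V = 9 := by rw [hVcard, hd2]; norm_num
    refine ⟨rfl, rfl, hV9, ?_⟩
    let bas := Module.finBasisOfFinrankEq (ZMod 3) V hd2
    let Φ : (V ≃ₗ[ZMod 3] V) ≃* GL (Fin 2) (ZMod 3) :=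
      (LinearMap.GeneralLinearGroup.generalLinearEquiv (ZMod 3) V).symm.trans
        (Units.mapEquiv (LinearMap.toMatrixAlgEquiv bas).toMulEquiv)
    let f : G →* GL (Fin 2) (ZMod 3) := Φ.toMonoidHom.comp ρ
    have hf : Function.Injective f := Φ.injective.comp hρ
    have hdvd48 : Nat.card G ∣ 48 := card_GL23 ▸ Subgroup.card_dvd_of_injective f hf
    have h8dvd : 8 ∣ Nat.card G := by
      rw [hV9] at hScard; exact Dvd.intro _ hScard
    have hcases : Nat.card G = 8 ∨ Nat.card G = 16 := by
      rw [ha] at h8dvd hdvd48 ⊢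
      have h3 : 3 ≤ a := by
        have : (2:ℕ) ^ 3 ∣ 2 ^ a := h8dvd
        exact (Nat.pow_dvd_pow_iff_le_right (by norm_num)).mp this
      have h4 : a ≤ 4 := by
        by_contra hlt
        have h32 : (2:ℕ) ^ 5 ∣ 2 ^ a := pow_dvd_pow 2 (by omega)
        have : (2:ℕ) ^ 5 ∣ 48 := h32.trans hdvd48
        omega
      have : a = 3 ∨ a = 4 := by omega
      rcases this with rfl | rfl
      · left; norm_num
      · right; norm_num
    rcases hcases with h8 | h16
    · have hfree : ∀ g : G, ∀ v : V, v ≠ 0 → ρ g v = v → g = 1 := by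
        intro g v hv hgv
        obtain ⟨S', hS'mem, hS'card⟩ := orbit_stab ρ htrans v hv
        have hS'1 : Nat.card S' = 1 := by rw [hV9, h8] at hS'card; omega
        have hbot : S' = ⊥ := Subgroup.card_eq_one.mp hS'1
        have hgS : g ∈ S' := (hS'mem g).mpr hgv
        rw [hbot] at hgS; exact Subgroup.mem_bot.mp hgS
      rcases card8_unique_involution h8 (caseC8 ρ hρ hfree) with hc | hQ
      · left; exact ⟨hc, h8⟩
      · right; left; exact hQ
    · right; right
      refine ⟨?_, h16⟩
      have hrange : Nat.card f.range = 16 := by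
        rw [← h16]; exact (Nat.card_congr (MonoidHom.ofInjective hf).toEquiv).symm
      obtain ⟨x', y', hx', hy', hox, hoy, hrel⟩ := sd16_in_GL f.range hrange
      obtain ⟨x, rfl⟩ := hx'
      obtain ⟨y, rfl⟩ := hy'
      refine ⟨3, le_refl 3, by rw [h16]; norm_num, x, y, ?_, ?_, ?_⟩
      · rw [← orderOf_injective f hf x, hox]; norm_num
      · rw [← orderOf_injective f hf y, hoy]
      · apply hf
        rw [map_mul, map_mul, map_inv, map_pow]
        exact hrel


end Cfsg.Agent.S3370
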