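import Mathlib
import Cfsg.Statements.S3375

set_option autoImplicit false
open Cfsg

namespace Cfsg.Agent.S3375

/-- Let γ be an automorphism of order 2 of a finite group H. (i) If γ fixes only the identity, then H is abelian and γ inverts every element. (ii) If γ has exactly two fixed points and H has a subgroup of index 2, then H has a γ-invariant abelian subgroup of index 2 on which γ acts by inversion. -/
theorem result {H : Type*} [Group H] [Finite H] (γ : MulAut H) (hγ : orderOf γ = 2) :
    ((∀ h : H, γ h = h → h = 1) → (∀ a b : H, a * b = b * a) ∧ ∀ h : H, γ h = h⁻¹) ∧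
    ((Nat.card {h : H // γ h = h} = 2 ∧ ∃ M : Subgroup H, M.index = 2) →
      ∃ A : Subgroup H, A.index = 2 ∧ IsMulCommutative A ∧ (∀ a ∈ A, γ a ∈ A) ∧ ∀ a ∈ A, γ a = a⁻¹) := by
  classical
  have hγ2 : ∀ h : H, γ (γ h) = h := by
    intro h
    have h1 : γ ^ 2 = 1 := by rw [← hγ]; exact pow_orderOf_eq_one γ
    have h2 := congrArg (fun f : MulAut H => f h) h1
    simpa [pow_two, MulAut.mul_apply] using h2
  have hφinv : ∀ h : H, γ (γ h * h⁻¹) = (γ h * h⁻¹)⁻¹ := by
    intro h; rw [map_mul, hγ2, map_inv, mul_inv_rev, inv_inv]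
  have hφeq : ∀ h k : H, γ h * h⁻¹ = γ k * k⁻¹ → γ (k⁻¹ * h) = k⁻¹ * h := by
    intro h k hk
    rw [map_mul, map_inv]
    have h1 : (γ k)⁻¹ * (γ h * h⁻¹) * h = (γ k)⁻¹ * (γ k * k⁻¹) * h := by rw [hk]
    simpa [mul_assoc] using h1
  have hcomm_of_inv : ∀ a b : H, γ a = a⁻¹ → γ b = b⁻¹ → γ (a * b) = (a * b)⁻¹ → a * b = b * a := by
    intro a b ha hb hab
    rw [map_mul, ha, hb, mul_inv_rev] at hab
    have h1 := congrArg (fun x => x⁻¹) hab
    simp only [mul_inv_rev, inv_inv] at h1
    exact h1.symm
  constructor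
  · intro hfpf
    have hinj : Function.Injective (fun h : H => γ h * h⁻¹) := by
      intro h k hk
      have h1 := hfpf _ (hφeq h k hk)
      exact (inv_mul_eq_one.mp h1).symm
    have hsurj := Finite.surjective_of_injective hinj
    have hinvall : ∀ g : H, γ g = g⁻¹ := by
      intro g
      obtain ⟨h, rfl⟩ := hsurj g
      exact hφinv h
    exact ⟨fun a b => hcomm_of_inv a b (hinvall a) (hinvall b) (hinvall _), hinvall⟩
  · rintro ⟨hfix, M, hM⟩
    let C : Subgroup H :=
      { carrier := {h | γ h = h}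
        mul_mem' := by
          intro a b ha hb
          show γ (a * b) = a * b
          rw [map_mul, ha, hb]
        one_mem' := map_one γ
        inv_mem' := by
          intro a ha
          show γ a⁻¹ = a⁻¹
          rw [map_inv, ha] }
    have hCcard : Nat.card C = 2 := hfix
    obtain ⟨A, hA, hAφ⟩ : ∃ A : Subgroup H, A.index = 2 ∧ ∀ h : H, γ h * h⁻¹ ∈ A := by
      by_cases hinv : ∀ h, γ h ∈ M ↔ h ∈ M
      · refine ⟨M, hM, fun h => ?_⟩
        rw [Subgroup.mul_mem_iff_of_index_two hM, inv_mem_iff]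
        exact hinv h
      · push Not at hinv
        obtain ⟨a₀, ha₀⟩ := hinv
        let A : Subgroup H :=
          { carrier := {h | h ∈ M ↔ γ h ∈ M}
            mul_mem' := by
              intro a b ha hb
              show a * b ∈ M ↔ γ (a * b) ∈ M
              rw [map_mul, Subgroup.mul_mem_iff_of_index_two hM, Subgroup.mul_mem_iff_of_index_two hM]
              have ha' : a ∈ M ↔ γ a ∈ M := ha
              have hb' : b ∈ M ↔ γ b ∈ M := hb
              rw [ha', hb']
            one_mem' := by
              show (1 : H) ∈ M ↔ γ 1 ∈ M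
              rw [map_one]
            inv_mem' := by
              intro a ha
              show a⁻¹ ∈ M ↔ γ a⁻¹ ∈ M
              have ha' : a ∈ M ↔ γ a ∈ M := ha
              rw [map_inv, inv_mem_iff, inv_mem_iff, ha'] }
        refine ⟨A, ?_, ?_⟩
        · rw [Subgroup.index_eq_two_iff]
          refine ⟨a₀, fun b => ?_⟩
          show Xor (b * a₀ ∈ M ↔ γ (b * a₀) ∈ M) (b ∈ M ↔ γ b ∈ M)
          rw [map_mul, Subgroup.mul_mem_iff_of_index_two hM, Subgroup.mul_mem_iff_of_index_two hM]
          unfold Xor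
          by_cases h1 : b ∈ M <;> by_cases h2 : γ b ∈ M <;> by_cases h3 : a₀ ∈ M <;>
            by_cases h4 : γ a₀ ∈ M <;> simp_all
        · intro h
          show γ h * h⁻¹ ∈ M ↔ γ (γ h * h⁻¹) ∈ M
          rw [hφinv, inv_mem_iff]
    have hAcard : Nat.card A * 2 = Nat.card H := by rw [← hA]; exact Subgroup.card_mul_index A
    have hCidx : 2 * C.index = Nat.card H := by rw [← hCcard]; exact Subgroup.card_mul_index C
    let ψ : H ⧸ C → A := Quotient.lift (fun h : H => (⟨γ h * h⁻¹, hAφ h⟩ : A)) (by
      intro h k hk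
      have hk' : h⁻¹ * k ∈ C := QuotientGroup.leftRel_apply.mp hk
      have hk'' : γ (h⁻¹ * k) = h⁻¹ * k := hk'
      apply Subtype.ext
      show γ h * h⁻¹ = γ k * k⁻¹
      rw [map_mul, map_inv] at hk''
      have h1 : γ h * ((γ h)⁻¹ * γ k) * k⁻¹ = γ h * (h⁻¹ * k) * k⁻¹ := by rw [hk'']
      simp only [mul_assoc, mul_inv_cancel_left, mul_inv_cancel, mul_one] at h1
      exact h1.symm)
    have hψinj : Function.Injective ψ := by
      intro q₁ q₂ hq
      induction q₁ using QuotientGroup.induction_on with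
      | H h =>
        induction q₂ using QuotientGroup.induction_on with
        | H k =>
          have h1 : γ h * h⁻¹ = γ k * k⁻¹ := congrArg Subtype.val hq
          have h2 : γ (k⁻¹ * h) = k⁻¹ * h := hφeq h k h1
          have h3 : k⁻¹ * h ∈ C := h2
          exact (QuotientGroup.eq.mpr h3).symm
    have hψsurj : Function.Surjective ψ := by
      apply (hψinj.bijective_of_nat_card_le ?_).2
      rw [← Subgroup.index_eq_card]
      omega
    have hAinv : ∀ a ∈ A, γ a = a⁻¹ := by
      intro a ha
      obtain ⟨q, hq⟩ := hψsurj ⟨a, ha⟩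
      induction q using QuotientGroup.induction_on with
      | H h =>
        have h1 : γ h * h⁻¹ = a := congrArg Subtype.val hq
        rw [← h1]; exact hφinv h
    refine ⟨A, hA, ⟨⟨fun a b => ?_⟩⟩, ?_, hAinv⟩
    · apply Subtype.ext
      exact hcomm_of_inv a b (hAinv a a.2) (hAinv b b.2) (hAinv _ (A.mul_mem a.2 b.2))
    · intro a ha
      rw [hAinv a ha]; exact A.inv_mem ha

end Cfsg.Agent.S3375
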