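import Cfsg.Statements.S3379

set_option autoImplicit false
open Cfsg

namespace Cfsg.Agent.S3379

/-- Let G be a finite group all of whose Sylow subgroups are cyclic. Then G is generated by two elements x and y of coprime orders n and m with x⁻¹yx = y^r, where gcd(r − 1, m) = 1 and r^n ≡ 1 (mod m). -/
theorem result {G : Type*} [Group G] [Finite G]
    (hZ : ∀ (p : ℕ) [Fact p.Prime] (P : Sylow p G), IsCyclic (P : Subgroup G)) :
    ∃ (x y : G) (n m r : ℕ), Subgroup.closure {x, y} = ⊤ ∧ orderOf x = n ∧ orderOf y = m ∧
      x⁻¹ * y * x = y ^ r ∧ Nat.Coprime (r - 1) m ∧ Nat.Coprime n m ∧ 1 ≤ r ∧ r ^ n % m = 1 % m := by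
  classical
  have hG : IsZGroup G := ⟨fun p hp P => by
    have hpf : Fact p.Prime := Fact.mk hp
    exact hZ p P⟩
  obtain ⟨H, hH⟩ := Subgroup.exists_right_complement'_of_coprime (IsZGroup.coprime_commutator_index G)
  have h1 : Abelianization G ≃* H := hH.symm.QuotientMulEquiv
  have hHc : IsCyclic H := isCyclic_of_surjective _ h1.surjective
  have hNc : IsCyclic (commutator G) := IsZGroup.isCyclic_commutator G
  obtain ⟨x', hx'⟩ := hHc.exists_generator
  obtain ⟨y', hy'⟩ := hNc.exists_generator
  set x : G := (x' : G) with hxdef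
  set y : G := (y' : G) with hydef
  -- zpowers
  have hzx : Subgroup.zpowers x = H := by
    apply le_antisymm
    · rw [Subgroup.zpowers_le]; exact x'.2
    · intro g hg
      obtain ⟨k, hk⟩ := Subgroup.mem_zpowers_iff.mp (hx' ⟨g, hg⟩)
      refine Subgroup.mem_zpowers_iff.mpr ⟨k, ?_⟩
      have := congrArg (Subtype.val) hk
      simpa using this
  have hzy : Subgroup.zpowers y = commutator G := by
    apply le_antisymm
    · rw [Subgroup.zpowers_le]; exact y'.2
    · intro g hg
      obtain ⟨k, hk⟩ := Subgroup.mem_zpowers_iff.mp (hy' ⟨g, hg⟩)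
      refine Subgroup.mem_zpowers_iff.mpr ⟨k, ?_⟩
      have := congrArg (Subtype.val) hk
      simpa using this
  have hgen : Subgroup.closure {x, y} = ⊤ := by
    have h2 : commutator G ⊔ H = ⊤ := hH.sup_eq_top
    rw [eq_top_iff, ← h2, ← hzx, ← hzy]
    apply sup_le
    · rw [Subgroup.zpowers_le]; exact Subgroup.subset_closure (by simp)
    · rw [Subgroup.zpowers_le]; exact Subgroup.subset_closure (by simp)
  have hm : orderOf y = Nat.card (commutator G) := by
    rw [← Nat.card_zpowers, hzy]
  have hn : orderOf x = Nat.card H := by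
    rw [← Nat.card_zpowers, hzx]
  have hmpos : 0 < orderOf y := orderOf_pos y
  have hcop : Nat.Coprime (orderOf x) (orderOf y) := by
    rw [hm, hn]
    have := IsZGroup.coprime_commutator_index G
    have hidx : (commutator G).index = Nat.card H := by
      rw [Subgroup.index_eq_card]; exact Nat.card_congr h1.toEquiv
    rw [hidx] at this
    exact this.symm
  -- conjugation stays in zpowers y
  have hconj : ∀ g : G, g⁻¹ * y * g ∈ Subgroup.zpowers y := by
    intro g
    rw [hzy]
    have hy : y ∈ commutator G := y'.2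
    have := (inferInstance : (commutator G).Normal).conj_mem y hy g⁻¹
    simpa using this
  obtain ⟨r0, hr0⟩ : ∃ r0 : ℕ, y ^ r0 = x⁻¹ * y * x := by
    have := hconj x
    rw [← mem_powers_iff_mem_zpowers] at this
    exact this
  set r := r0 + orderOf y with hrdef
  have hr : x⁻¹ * y * x = y ^ r := by
    rw [hrdef, pow_add, pow_orderOf_eq_one, mul_one, hr0]
  have hr1 : 1 ≤ r := by omega
  -- iterate conjugation
  have hiter : ∀ j : ℕ, (x ^ j)⁻¹ * y * x ^ j = y ^ (r ^ j) := by
    intro j
    induction j with
    | zero => simp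
    | succ j ih =>
      have : (x ^ (j + 1))⁻¹ * y * x ^ (j + 1) = x⁻¹ * ((x ^ j)⁻¹ * y * x ^ j) * x := by
        rw [pow_succ]; group
      rw [this, ih]
      have h3 : x⁻¹ * y ^ (r ^ j) * x = (x⁻¹ * y * x) ^ (r ^ j) := by
        have := conj_pow (a := x⁻¹) (b := y) (i := r ^ j)
        rw [inv_inv] at this
        exact this.symm
      rw [h3, hr, ← pow_mul, pow_succ, mul_comm]
  have hrn : r ^ orderOf x % orderOf y = 1 % orderOf y := by
    have := hiter (orderOf x)
    rw [pow_orderOf_eq_one] at this
    simp only [inv_one, one_mul, mul_one] at this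
    have h4 : y ^ (r ^ orderOf x) = y ^ 1 := by rw [← this, pow_one]
    exact (pow_eq_pow_iff_modEq.mp h4)
  -- coprimality of r - 1 and m
  have hcop2 : Nat.Coprime (r - 1) (orderOf y) := by
    set K : Subgroup G := Subgroup.zpowers (y ^ (r - 1)) with hK
    have hKn : K.Normal := by
      constructor
      intro a ha g
      obtain ⟨k, rfl⟩ := Subgroup.mem_zpowers_iff.mp ha
      obtain ⟨j, hj⟩ := Subgroup.mem_zpowers_iff.mp (hconj g⁻¹)
      rw [inv_inv] at hj
      have e1 : g * (y ^ (r - 1)) ^ k * g⁻¹ = ((g * y * g⁻¹) ^ (r - 1)) ^ k := by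
        rw [conj_pow, conj_zpow]
      have e2 : (y ^ j) ^ (r - 1) = (y ^ (r - 1)) ^ j := by
        rw [← zpow_natCast, ← zpow_natCast, ← zpow_mul, ← zpow_mul, mul_comm]
      rw [e1, ← hj, e2]
      refine Subgroup.zpow_mem _ ?_ _
      refine Subgroup.zpow_mem _ ?_ _
      exact Subgroup.mem_zpowers _
    have hcommle : commutator G ≤ K := by
      -- images of x and y commute in the quotient
      have hxy : (QuotientGroup.mk' K x) * (QuotientGroup.mk' K y) = (QuotientGroup.mk' K y) * (QuotientGroup.mk' K x) := by
        rw [← map_mul, ← map_mul]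
        apply (QuotientGroup.eq (s := K)).mpr
        -- (x*y)⁻¹ * (y * x) ∈ K
        have e2 : (x * y)⁻¹ * (y * x) = y⁻¹ * (x⁻¹ * y * x) := by group
        rw [e2, hr]
        have e3 : y⁻¹ * y ^ r = y ^ (r - 1) := by
          have : r = (r - 1) + 1 := by omega
          rw [this, pow_succ']
          simp
        rw [e3]
        exact Subgroup.mem_zpowers _
      have hcommQ : ∀ a b : G ⧸ K, a * b = b * a := by
        have htop : Subgroup.closure {QuotientGroup.mk' K x, QuotientGroup.mk' K y} = ⊤ := by
          have := congrArg (Subgroup.map (QuotientGroup.mk' K)) hgen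
          rw [MonoidHom.map_closure, Subgroup.map_top_of_surjective _ (QuotientGroup.mk'_surjective K)] at this
          rw [← this]
          congr 1
          ext z
          simp [Set.image_pair]
        have hc : ∀ a ∈ ({QuotientGroup.mk' K x, QuotientGroup.mk' K y} : Set (G ⧸ K)),
            ∀ b ∈ ({QuotientGroup.mk' K x, QuotientGroup.mk' K y} : Set (G ⧸ K)), a * b = b * a := by
          intro a ha b hb
          rcases ha with rfl | rfl <;> rcases hb with rfl | rfl
          · rfl
          · exact hxy
          · exact hxy.symm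
          · rfl
        have hcc := Subgroup.isMulCommutative_closure hc
        intro a b
        have ha : a ∈ Subgroup.closure {QuotientGroup.mk' K x, QuotientGroup.mk' K y} := by rw [htop]; trivial
        have hb : b ∈ Subgroup.closure {QuotientGroup.mk' K x, QuotientGroup.mk' K y} := by rw [htop]; trivial
        have := hcc.is_comm.comm (⟨a, ha⟩ : Subgroup.closure {QuotientGroup.mk' K x, QuotientGroup.mk' K y}) ⟨b, hb⟩
        exact congrArg Subtype.val this
      rw [commutator_def, Subgroup.commutator_le]
      intro g₁ _ g₂ _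
      rw [← QuotientGroup.eq_one_iff, ← QuotientGroup.mk'_apply, map_commutatorElement]
      rw [commutatorElement_eq_one_iff_mul_comm]
      exact hcommQ _ _
    have hyK : y ∈ K := hcommle y'.2
    -- so orderOf (y^(r-1)) = orderOf y
    have hle : Subgroup.zpowers y ≤ K := by rw [Subgroup.zpowers_le]; exact hyK
    have hle2 : K ≤ Subgroup.zpowers y := by
      rw [hK, Subgroup.zpowers_le]; exact Subgroup.pow_mem _ (Subgroup.mem_zpowers y) _
    have heq : K = Subgroup.zpowers y := le_antisymm hle2 hle
    have hord : orderOf (y ^ (r - 1)) = orderOf y := by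
      rw [← Nat.card_zpowers, ← Nat.card_zpowers y, ← hK, heq]
    rw [orderOf_pow] at hord
    have hg : Nat.gcd (orderOf y) (r - 1) = 1 := by
      rcases Nat.div_eq_self.mp hord with h0 | h1
      · omega
      · exact h1
    rw [Nat.coprime_comm]
    exact hg
  exact ⟨x, y, orderOf x, orderOf y, r, hgen, rfl, rfl, hr, hcop2, hcop, hr1, hrn⟩

end Cfsg.Agent.S3379
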