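import Mathlib
import Cfsg.Statements.S3381

set_option autoImplicit false
open Cfsg

namespace Cfsg.Agent.S3381

section basic

variable {q : ℕ} [hq : Fact q.Prime] {V : Type*} [AddCommGroup V] [Module (ZMod q) V] [Finite V]
  {G : Type*} [Group G] [Finite G] (ρ : G →* (V ≃ₗ[ZMod q] V))

theorem rho_mul (a b : G) (v : V) : ρ (a * b) v = ρ a (ρ b v) := by
  rw [map_mul]; rfl

theorem rho_one (v : V) : ρ 1 v = v := by
  rw [map_one]; rfl

/-- two non-identity elements fixing a nonzero vector coincide -/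
theorem stab_unique (hstab : ∀ v : V, v ≠ 0 → Nat.card {g : G // ρ g v = v} = 2)
    {v : V} (hv : v ≠ 0) {s t : G} (hs1 : s ≠ 1) (ht1 : t ≠ 1) (hs : ρ s v = v) (ht : ρ t v = v) :
    s = t := by
  by_contra hne
  have h2 : Nat.card ({g : G | ρ g v = v} : Set G) = 2 := hstab v hv
  rw [Nat.card_coe_set_eq] at h2
  have hsub : ({1, s, t} : Set G) ⊆ {g : G | ρ g v = v} := by
    intro y hy
    rcases hy with rfl | rfl | rfl
    · exact rho_one ρ v
    · exact hs
    · exact ht
  have h3 : ({1, s, t} : Set G).ncard = 3 :=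
    Set.ncard_eq_three.mpr ⟨1, s, t, fun h => hs1 h.symm, fun h => ht1 h.symm, hne, rfl⟩
  have hle := Set.ncard_le_ncard hsub (Set.toFinite _)
  omega

theorem exists_stab (hstab : ∀ v : V, v ≠ 0 → Nat.card {g : G // ρ g v = v} = 2)
    {v : V} (hv : v ≠ 0) : ∃ t : G, t ≠ 1 ∧ ρ t v = v := by
  obtain ⟨a, b, hab, -⟩ := Nat.card_eq_two_iff.mp (hstab v hv)
  by_cases ha : (a : G) = 1
  · refine ⟨b, ?_, b.2⟩
    intro hb
    exact hab (Subtype.ext (ha.trans hb.symm))
  · exact ⟨a, ha, a.2⟩

theorem stab_invol (hstab : ∀ v : V, v ≠ 0 → Nat.card {g : G // ρ g v = v} = 2)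
    {v : V} (hv : v ≠ 0) {t : G} (ht1 : t ≠ 1) (ht : ρ t v = v) : orderOf t = 2 := by
  have h2 : ρ (t * t) v = v := by rw [rho_mul, ht, ht]
  have h3 : t * t = 1 := by
    by_contra hne
    have := stab_unique ρ hstab hv hne ht1 h2 ht
    exact ht1 (mul_eq_left.mp this)
  exact orderOf_eq_prime (by rw [pow_two]; exact h3) ht1

theorem central_fix_or_neg (hstab : ∀ v : V, v ≠ 0 → Nat.card {g : G // ρ g v = v} = 2)
    (z : G) (hz : orderOf z = 2) (hzc : z ∈ Subgroup.center G) (w : V) :
    ρ z w = w ∨ ρ z w = -w := by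
  by_cases hw : w = 0
  · left; rw [hw, map_zero]
  by_cases hzw : ρ z w = w
  · left; exact hzw
  right
  by_contra hcon
  have hu : ρ z w + w ≠ 0 := fun h => hcon (eq_neg_of_add_eq_zero_left h)
  obtain ⟨t, ht1, ht⟩ := exists_stab ρ hstab hw
  have hz1 : z ≠ 1 := by
    rintro rfl; exact hzw (rho_one ρ w)
  have htz : t ≠ z := by
    rintro rfl; exact hzw ht
  have hz2 : z * z = 1 := by
    rw [← pow_two, ← hz]; exact pow_orderOf_eq_one z
  have hzu : ρ z (ρ z w + w) = ρ z w + w := by
    rw [map_add, ← rho_mul, hz2, rho_one, add_comm]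
  have htu : ρ t (ρ z w + w) = ρ z w + w := by
    rw [map_add, ht, ← rho_mul, (Subgroup.mem_center_iff.mp hzc t), rho_mul, ht]
  exact htz (stab_unique ρ hstab hu ht1 hz1 htu hzu)

theorem central_neg (hρ : Function.Injective ρ)
    (hstab : ∀ v : V, v ≠ 0 → Nat.card {g : G // ρ g v = v} = 2)
    (z : G) (hz : orderOf z = 2) (hzc : z ∈ Subgroup.center G) :
    (∀ v : V, v + v = 0 → v = 0) ∧ ∀ v, ρ z v = -v := by
  have hz1 : z ≠ 1 := by
    rintro rfl; simp at hz
  have hne : ρ z ≠ 1 := fun h => hz1 (hρ (h.trans (map_one ρ).symm))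
  obtain ⟨a, ha⟩ : ∃ a, ρ z a ≠ a := by
    by_contra hcon
    push Not at hcon
    exact hne (LinearEquiv.ext hcon)
  have ha' : ρ z a = -a := (central_fix_or_neg ρ hstab z hz hzc a).resolve_left ha
  have haa : a + a ≠ 0 := by
    intro h
    apply ha; rw [ha']; exact neg_eq_of_add_eq_zero_left h
  have hq2 : (2 : ZMod q) ≠ 0 := by
    intro h
    apply haa
    rw [← two_smul (ZMod q) a, h, zero_smul]
  have hodd : ∀ v : V, v + v = 0 → v = 0 := by
    intro v hv
    rw [← two_smul (ZMod q) v] at hv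
    exact (smul_eq_zero.mp hv).resolve_left hq2
  refine ⟨hodd, fun b => ?_⟩
  rcases central_fix_or_neg ρ hstab z hz hzc b with hb | hb
  · rcases central_fix_or_neg ρ hstab z hz hzc (a + b) with h | h
    · rw [map_add, ha', hb] at h
      have h2 : -a = a := add_right_cancel h
      have h3 : a + a = 0 := by
        nth_rewrite 1 [← h2]; exact neg_add_cancel a
      exact absurd h3 haa
    · rw [map_add, ha', hb, neg_add] at h
      have h2 : b = -b := add_left_cancel h
      have h3 : b = 0 := hodd b (by nth_rewrite 2 [h2]; exact add_neg_cancel b)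
      rw [h3]; simp
  · exact hb

variable [Fintype V] [DecidableEq V]

/-- fixed vectors -/
def fx (t : G) : Finset V := Finset.univ.filter (fun v => ρ t v = v)

theorem mem_fx (t : G) (v : V) : v ∈ fx ρ t ↔ ρ t v = v := by
  simp [fx]

theorem card_mul_le (hstab : ∀ v : V, v ≠ 0 → Nat.card {g : G // ρ g v = v} = 2)
    {s t : G} (hs1 : s ≠ 1) (ht1 : t ≠ 1) (hst : s ≠ t) :
    (fx ρ s).card * (fx ρ t).card ≤ Fintype.card V := by
  rw [← Finset.card_product, ← Finset.card_univ]
  apply Finset.card_le_card_of_injOn (fun p => p.1 + p.2)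
  · intro p _; exact Finset.mem_coe.mpr (Finset.mem_univ _)
  · rintro ⟨a, b⟩ hab ⟨a', b'⟩ hab' h
    simp only [Finset.coe_product, Set.mem_prod, Finset.mem_coe, mem_fx] at hab hab'
    have h' : a + b = a' + b' := h
    have h1 : a - a' = b' - b := sub_eq_sub_iff_add_eq_add.mpr (by rw [h', add_comm])
    have hfs : ρ s (a - a') = a - a' := by rw [map_sub, hab.1, hab'.1]
    have hft : ρ t (a - a') = a - a' := by rw [h1, map_sub, hab'.2, hab.2]
    have h0 : a - a' = 0 := by
      by_contra hne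
      exact hst (stab_unique ρ hstab hne hs1 ht1 hfs hft)
    have h0' : b' - b = 0 := h1 ▸ h0
    exact Prod.ext (sub_eq_zero.mp h0) (sub_eq_zero.mp h0').symm

theorem le_card_mul (hodd : ∀ v : V, v + v = 0 → v = 0) (z : G) (hneg : ∀ v, ρ z v = -v)
    {t : G} (ht : t * t = 1) :
    Fintype.card V ≤ (fx ρ t).card * (fx ρ (t * z)).card := by
  rw [← Finset.card_product, ← Finset.card_univ]
  apply Finset.card_le_card_of_injOn (fun v => (v + ρ t v, v - ρ t v))
  · intro v _
    simp only [Finset.coe_product, Set.mem_prod, Finset.mem_coe, mem_fx]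
    constructor
    · rw [map_add, ← rho_mul, ht, rho_one, add_comm]
    · rw [rho_mul, hneg, map_neg, map_sub, ← rho_mul, ht, rho_one]; abel
  · intro v _ w _ h
    simp only [Prod.mk.injEq] at h
    obtain ⟨h1, h2⟩ := h
    have h3 : (v - w) + (v - w) = 0 := by
      have e : (v + ρ t v) + (v - ρ t v) = (w + ρ t w) + (w - ρ t w) := by rw [h1, h2]
      have e1 : (v + ρ t v) + (v - ρ t v) = v + v := by abel
      have e2 : (w + ρ t w) + (w - ρ t w) = w + w := by abel
      rw [e1, e2] at e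
      have e3 : (v - w) + (v - w) = (v + v) - (w + w) := by abel
      rw [e3, e, sub_self]
    exact sub_eq_zero.mp (hodd _ h3)

variable [Fintype G] [DecidableEq G]

theorem card_partition (hstab : ∀ v : V, v ≠ 0 → Nat.card {g : G // ρ g v = v} = 2)
    (hodd : ∀ v : V, v + v = 0 → v = 0) (z : G) (hneg : ∀ v, ρ z v = -v) :
    Fintype.card V - 1 =
      ∑ t ∈ Finset.univ.filter (fun g : G => orderOf g = 2 ∧ g ≠ z), ((fx ρ t).card - 1) := by
  have h1 : (Finset.univ.erase (0 : V)) =
      (Finset.univ.filter (fun g : G => orderOf g = 2 ∧ g ≠ z)).biUnion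
        (fun t => (fx ρ t).erase 0) := by
    ext v
    simp only [Finset.mem_erase, Finset.mem_univ, and_true, Finset.mem_biUnion, Finset.mem_filter,
      true_and, mem_fx]
    constructor
    · intro hv
      obtain ⟨t, ht1, ht⟩ := exists_stab ρ hstab hv
      refine ⟨t, ⟨stab_invol ρ hstab hv ht1 ht, ?_⟩, hv, ht⟩
      rintro rfl
      rw [hneg] at ht
      apply hv
      apply hodd
      nth_rewrite 1 [← ht]; exact neg_add_cancel v
    · rintro ⟨t, -, hv, -⟩; exact hv
  have h2 : (Finset.univ.erase (0:V)).card = Fintype.card V - 1 := by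
    rw [Finset.card_erase_of_mem (Finset.mem_univ _), Finset.card_univ]
  rw [← h2, h1, Finset.card_biUnion]
  · apply Finset.sum_congr rfl
    intro t _
    rw [Finset.card_erase_of_mem]
    rw [mem_fx, map_zero]
  · intro s hs t ht hst
    simp only [Finset.coe_filter, Finset.mem_univ, true_and, Set.mem_setOf_eq] at hs ht
    show Disjoint ((fx ρ s).erase 0) ((fx ρ t).erase 0)
    rw [Finset.disjoint_left]
    intro v hvs hvt
    simp only [Finset.mem_erase, mem_fx] at hvs hvt
    have hs1 : s ≠ 1 := by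
      rintro rfl; simp at hs
    have ht1 : t ≠ 1 := by
      rintro rfl; simp at ht
    exact hst (stab_unique ρ hstab hvs.1 hs1 ht1 hvs.2 hvt.2)

end basic

theorem count_lemma {G : Type*} [Group G] [DecidableEq G] (T : Finset G) (z : G) (hz : z * z = 1)
    (hz1 : z ≠ 1) (c : G → ℕ) (N : ℕ)
    (hT : T.Nonempty) (hTz : ∀ t ∈ T, t * z ∈ T)
    (hc2 : ∀ t ∈ T, 2 ≤ c t)
    (hle : ∀ t ∈ T, N ≤ c t * c (t * z))
    (hge : ∀ s ∈ T, ∀ t ∈ T, s ≠ t → c s * c t ≤ N)
    (hsum : N - 1 = ∑ t ∈ T, (c t - 1)) :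
    ∃ c0, N = c0 ^ 2 ∧ T.card = c0 + 1 := by
  obtain ⟨t0, ht0⟩ := hT
  have hne : ∀ t : G, t * z ≠ t := fun t h => hz1 (mul_eq_left.mp h)
  have step1 : ∀ t ∈ T, ∃ s ∈ T, s ≠ t ∧ s ≠ t * z := by
    intro t ht
    by_contra hcon
    push Not at hcon
    have hTeq : T = {t, t * z} := by
      ext s
      simp only [Finset.mem_insert, Finset.mem_singleton]
      constructor
      · intro hs
        by_cases h : s = t
        · left; exact h
        · right; exact hcon s hs h
      · rintro (rfl | rfl)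
        · exact ht
        · exact hTz _ ht
    rw [hTeq, Finset.sum_pair (hne t).symm] at hsum
    have h1 := hle t ht
    have h2 := hge t ht (t * z) (hTz t ht) (hne t).symm
    have ha := hc2 t ht
    have hb := hc2 (t * z) (hTz t ht)
    have hN : N = c t * c (t * z) := le_antisymm h1 h2
    obtain ⟨a', ha'⟩ : ∃ a', c t = a' + 2 := ⟨c t - 2, by omega⟩
    obtain ⟨b', hb'⟩ : ∃ b', c (t * z) = b' + 2 := ⟨c (t * z) - 2, by omega⟩
    rw [ha', hb'] at hN hsum
    have h3 : (a' + 2) * (b' + 2) = a' * b' + 2 * a' + 2 * b' + 4 := by ring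
    rw [h3] at hN
    omega
  have step2 : ∀ t ∈ T, ∀ s ∈ T, s ≠ t → s ≠ t * z → c s ≤ c t := by
    intro t ht s hs hst hstz
    have h1 := hle t ht
    have h2 := hge s hs (t * z) (hTz t ht) hstz
    have hpos : 0 < c (t * z) := by
      have := hc2 _ (hTz t ht); omega
    exact Nat.le_of_mul_le_mul_right (h2.trans h1) hpos
  have step3 : ∀ t ∈ T, N = c t ^ 2 := by
    intro t ht
    obtain ⟨s, hs, hst, hstz⟩ := step1 t ht
    have htz := hTz t ht
    have hzz : t * z * z = t := by rw [mul_assoc, hz, mul_one]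
    have e1 : c s ≤ c t := step2 t ht s hs hst hstz
    have e2 : c t ≤ c s := step2 s hs t ht hst.symm (by
      intro h; apply hstz; rw [h, mul_assoc, hz, mul_one])
    have e3 : c s ≤ c (t * z) := step2 (t * z) htz s hs hstz (by rw [hzz]; exact hst)
    have e4 : c (t * z) ≤ c s := step2 s hs (t * z) htz (Ne.symm hstz) (by
      intro h; apply hst; exact (mul_right_cancel h).symm)
    have e5 : c (t * z) = c t := by omega
    have h1 := hle t ht
    have h2 := hge t ht (t * z) htz (hne t).symm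
    rw [e5] at h1 h2
    rw [pow_two]; exact le_antisymm h1 h2
  have step4 : ∀ t ∈ T, c t = c t0 := by
    intro t ht
    have h1 := step3 t ht
    have h2 := step3 t0 ht0
    exact Nat.pow_left_injective (by norm_num : 2 ≠ 0) (h1.symm.trans h2)
  refine ⟨c t0, step3 t0 ht0, ?_⟩
  have hsum' : ∑ t ∈ T, (c t - 1) = T.card * (c t0 - 1) := by
    rw [Finset.sum_congr rfl (fun t ht => by rw [step4 t ht]), Finset.sum_const, smul_eq_mul]
  rw [hsum', step3 t0 ht0] at hsum
  have h2 := hc2 t0 ht0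
  obtain ⟨d, hd⟩ : ∃ d, c t0 = d + 1 := ⟨c t0 - 1, by omega⟩
  rw [hd] at hsum ⊢
  have h3 : (d + 1) ^ 2 - 1 = (d + 2) * d := by
    have : (d + 1) ^ 2 = (d + 2) * d + 1 := by ring
    omega
  rw [h3, Nat.add_sub_cancel] at hsum
  have hd0 : 0 < d := by omega
  have := Nat.eq_of_mul_eq_mul_right hd0 hsum
  omega

/-- Let G be a finite group acting faithfully and linearly on a non-trivial finite vector space V over the field with q elements (q prime) so that every non-zero vector has a stabilizer of order 2, and suppose G has a central involution. Then V has q^(2r) elements for some r and G contains exactly q^r + 1 non-central involutions. -/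
theorem result
    (q : ℕ) [Fact q.Prime] {V : Type*} [AddCommGroup V] [Module (ZMod q) V] [Finite V] [Nontrivial V]
    {G : Type*} [Group G] [Finite G] (ρ : G →* (V ≃ₗ[ZMod q] V)) (hρ : Function.Injective ρ)
    (hstab : ∀ v : V, v ≠ 0 → Nat.card {g : G // ρ g v = v} = 2)
    (z : G) (hz : orderOf z = 2) (hzc : z ∈ Subgroup.center G) :
    ∃ r : ℕ, Nat.card V = q ^ (2 * r) ∧
      Nat.card {g : G // orderOf g = 2 ∧ g ∉ Subgroup.center G} = q ^ r + 1 := by
  classical
  have hq : q.Prime := Fact.out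
  haveI : Fintype V := Fintype.ofFinite V
  haveI : Fintype G := Fintype.ofFinite G
  obtain ⟨hodd, hneg⟩ := central_neg ρ hρ hstab z hz hzc
  have hz2 : z * z = 1 := by
    rw [← pow_two, ← hz]; exact pow_orderOf_eq_one z
  have hz1 : z ≠ 1 := by
    rintro rfl; simp at hz
  set T : Finset G := Finset.univ.filter (fun g : G => orderOf g = 2 ∧ g ≠ z) with hT
  have hmemT : ∀ t : G, t ∈ T ↔ orderOf t = 2 ∧ t ≠ z := by
    intro t; simp [hT]
  have hinv : ∀ t ∈ T, t * t = 1 ∧ t ≠ 1 ∧ t ≠ z := by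
    intro t ht
    rw [hmemT] at ht
    refine ⟨?_, ?_, ht.2⟩
    · rw [← pow_two, ← ht.1]; exact pow_orderOf_eq_one t
    · rintro rfl
      simp at ht
  have hTz : ∀ t ∈ T, t * z ∈ T := by
    intro t ht
    obtain ⟨h1, h2, h3⟩ := hinv t ht
    rw [hmemT]
    have hcomm : z * t = t * z := (Subgroup.mem_center_iff.mp hzc t).symm
    have hne1 : t * z ≠ 1 := by
      intro h
      apply h3
      have : t * z = z * z := by rw [h, hz2]
      exact mul_right_cancel this
    refine ⟨?_, fun h => h2 (mul_eq_right.mp h)⟩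
    apply orderOf_eq_prime _ hne1
    rw [pow_two]
    calc t * z * (t * z) = t * (z * t) * z := by group
      _ = t * (t * z) * z := by rw [hcomm]
      _ = (t * t) * (z * z) := by group
      _ = 1 := by rw [h1, hz2, one_mul]
  have hnonempty : T.Nonempty := by
    obtain ⟨v, hv⟩ := exists_ne (0 : V)
    obtain ⟨t, ht1, ht⟩ := exists_stab ρ hstab hv
    refine ⟨t, (hmemT t).mpr ⟨stab_invol ρ hstab hv ht1 ht, ?_⟩⟩
    rintro rfl
    rw [hneg] at ht
    apply hv
    apply hodd
    nth_rewrite 1 [← ht]; exact neg_add_cancel v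
  have hc2 : ∀ t ∈ T, 2 ≤ (fx ρ t).card := by
    intro t ht
    obtain ⟨h1, h2, h3⟩ := hinv t ht
    by_contra hcon
    apply h3
    apply hρ
    ext v
    rw [hneg]
    have hmem : v + ρ t v ∈ fx ρ t := by
      rw [mem_fx, map_add, ← rho_mul, h1, rho_one, add_comm]
    have h0 : (0 : V) ∈ fx ρ t := by
      rw [mem_fx, map_zero]
    have : v + ρ t v = 0 := by
      by_contra hne
      exact hcon (Finset.one_lt_card.mpr ⟨_, hmem, _, h0, hne⟩)
    exact eq_neg_of_add_eq_zero_right this
  have hle : ∀ t ∈ T, Fintype.card V ≤ (fx ρ t).card * (fx ρ (t * z)).card := by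
    intro t ht
    exact le_card_mul ρ hodd z hneg (hinv t ht).1
  have hge : ∀ s ∈ T, ∀ t ∈ T, s ≠ t → (fx ρ s).card * (fx ρ t).card ≤ Fintype.card V := by
    intro s hs t ht hst
    exact card_mul_le ρ hstab (hinv s hs).2.1 (hinv t ht).2.1 hst
  have hsum := card_partition ρ hstab hodd z hneg
  obtain ⟨c0, hN, hTc⟩ := count_lemma T z hz2 hz1 (fun t => (fx ρ t).card) (Fintype.card V)
    hnonempty hTz hc2 hle hge hsum
  have hcard : Fintype.card V = q ^ (Module.finrank (ZMod q) V) := by
    rw [Module.card_eq_pow_finrank (K := ZMod q) (V := V), ZMod.card]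
  have hdvd : c0 ∣ q ^ (Module.finrank (ZMod q) V) := ⟨c0, by rw [← hcard, hN, pow_two]⟩
  obtain ⟨r, hr, rfl⟩ := (Nat.dvd_prime_pow hq).mp hdvd
  refine ⟨r, ?_, ?_⟩
  · rw [Nat.card_eq_fintype_card, hN, ← pow_mul, mul_comm]
  · rw [← hTc, Nat.card_eq_fintype_card, Fintype.card_subtype]
    congr 1
    ext g
    simp only [Finset.mem_filter, Finset.mem_univ, true_and, hT]
    constructor
    · rintro ⟨h1, h2⟩
      exact ⟨h1, fun h => h2 (h ▸ hzc)⟩
    · rintro ⟨h1, h2⟩
      refine ⟨h1, fun hc => h2 ?_⟩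
      obtain ⟨-, hneg'⟩ := central_neg ρ hρ hstab g h1 hc
      apply hρ
      ext v
      rw [hneg', hneg]

end Cfsg.Agent.S3381
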