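import Mathlib
import Cfsg.Statements.S3382

set_option autoImplicit false
open Cfsg

namespace Cfsg.Agent.S3382

/-- An automorphism of odd order of a 2-group which fixes `N` pointwise, and such that `M` is
invariant with `M ∖ N` a single coset of `N`, fixes `M` pointwise. -/
theorem fix_step {G : Type*} [Group G] (ψ : MulAut G) (k : ℕ) (hk : Odd k) (hψ : ψ ^ k = 1)
    (h2 : ∀ x : G, ∃ n, x ^ (2 ^ n) = 1) (N M : Set G) (hN : ∀ x ∈ N, ψ x = x)
    (hM : ∀ x ∈ M, ψ x ∈ M) (hstep : ∀ x ∈ M, ∀ y ∈ M, x ∉ N → y ∉ N → x⁻¹ * y ∈ N) :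
    ∀ x ∈ M, ψ x = x := by
  intro x hx
  by_cases hxN : x ∈ N
  · exact hN x hxN
  have hψxN : ψ x ∉ N := by
    intro h
    have h1 := hN _ h
    have h2 : ψ x = x := ψ.injective h1
    exact hxN (h2 ▸ h)
  set n := x⁻¹ * ψ x with hn
  have hnN : n ∈ N := hstep x hx (ψ x) (hM x hx) hxN hψxN
  have hψn : ψ n = n := hN n hnN
  have hx' : ψ x = x * n := by rw [hn, mul_inv_cancel_left]
  have hiter : ∀ i : ℕ, (ψ ^ i) x = x * n ^ i := by
    intro i
    induction i with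
    | zero => simp
    | succ i ih =>
      rw [pow_succ', MulAut.mul_apply, ih, map_mul, map_pow, hψn, hx', mul_assoc, ← pow_succ']
  have h1 : x = x * n ^ k := by
    have := hiter k
    rw [hψ, MulAut.one_apply] at this
    exact this
  have hnk : n ^ k = 1 := by
    have : x * 1 = x * n ^ k := by rw [mul_one]; exact h1
    exact (mul_left_cancel this).symm
  obtain ⟨e, he⟩ := h2 n
  have hn1 : n = 1 := by
    have hd1 : orderOf n ∣ k := orderOf_dvd_of_pow_eq_one hnk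
    have hd2 : orderOf n ∣ 2 ^ e := orderOf_dvd_of_pow_eq_one he
    have hcop : Nat.Coprime k (2 ^ e) := Nat.Coprime.pow_right e (Nat.coprime_two_right.mpr hk)
    have h3 : orderOf n ∣ 1 := by
      have := Nat.dvd_gcd hd1 hd2
      rwa [hcop] at this
    exact orderOf_eq_one_iff.mp (Nat.dvd_one.mp h3)
  rw [hx', hn1, mul_one]

section forms

variable {q : ℕ} [Fact q.Prime]

abbrev V (q : ℕ) := Fin 2 → ZMod q
abbrev GLV (q : ℕ) := V q ≃ₗ[ZMod q] V q

/-- diagonal form -/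
def IsD (f : GLV q) (a s : ZMod q) : Prop := ∀ v, f v = ![a * v 0, s * a⁻¹ * v 1]
/-- anti-diagonal form -/
def IsW (f : GLV q) (a s : ZMod q) : Prop := ∀ v, f v = ![s * a⁻¹ * v 1, a * v 0]

theorem glv_mul_apply (f g : GLV q) (v : V q) : (f * g) v = f (g v) := rfl
theorem glv_one_apply (v : V q) : (1 : GLV q) v = v := rfl

theorem isD_one : IsD (1 : GLV q) 1 1 := by
  intro v
  rw [glv_one_apply]
  ext i; fin_cases i <;> simp

theorem isD_ext {f g : GLV q} {a s : ZMod q} (hf : IsD f a s) (hg : IsD g a s) : f = g := by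
  ext v : 1
  rw [hf v, hg v]

theorem isW_ext {f g : GLV q} {a s : ZMod q} (hf : IsW f a s) (hg : IsW g a s) : f = g := by
  ext v : 1
  rw [hf v, hg v]

theorem eq_one_of_isD {f : GLV q} (hf : IsD f 1 1) : f = 1 := isD_ext hf isD_one

theorem isD_mul {f g : GLV q} {a s b t : ZMod q} (hf : IsD f a s) (hg : IsD g b t) :
    IsD (f * g) (a * b) (s * t) := by
  intro v
  rw [glv_mul_apply, hg v, hf]
  ext i; fin_cases i
  · simp; ring
  · simp [mul_inv]; ring

theorem isD_pow {f : GLV q} {a s : ZMod q} (hf : IsD f a s) (n : ℕ) :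
    IsD (f ^ n) (a ^ n) (s ^ n) := by
  induction n with
  | zero => simpa using (isD_one (q := q))
  | succ n ih =>
    rw [pow_succ, pow_succ, pow_succ]
    exact isD_mul ih hf

theorem isD_comm {f g : GLV q} {a s b t : ZMod q} (hf : IsD f a s) (hg : IsD g b t) :
    f * g = g * f := by
  have h1 := isD_mul hf hg
  have h2 := isD_mul hg hf
  rw [mul_comm b a, mul_comm t s] at h2
  exact isD_ext h1 h2

/-- parameters of a diagonal form are determined -/
theorem isD_param {f : GLV q} {a s b t : ZMod q} (hf : IsD f a s) (hg : IsD f b t) :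
    a = b ∧ s * a⁻¹ = t * b⁻¹ := by
  constructor
  · have := congrFun ((hf ![1, 0]).symm.trans (hg ![1, 0])) 0
    simpa using this
  · have := congrFun ((hf ![0, 1]).symm.trans (hg ![0, 1])) 1
    simpa using this

theorem isW_sq {f : GLV q} {a s : ZMod q} (hf : IsW f a s) (ha : a ≠ 0) (hs : s = 1 ∨ s = -1) :
    IsD (f * f) s 1 := by
  intro v
  rw [glv_mul_apply, hf v, hf]
  rcases hs with rfl | rfl
  · ext i; fin_cases i
    · simp [ha]
    · simp [ha]
  · ext i; fin_cases i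
    · simp [ha]
    · simp [ha, inv_neg]

/-- `x⁻¹ * y` for two elements of the same kind -/
theorem isD_inv_mul_DD {f g : GLV q} {a s b t : ZMod q} (hf : IsD f a s) (hg : IsD g b t)
    (ha : a ≠ 0) (hs : s = 1 ∨ s = -1) : IsD (f⁻¹ * g) (a⁻¹ * b) (s * t) := by
  intro v
  apply f.injective
  have h1 : f ((f⁻¹ * g) v) = g v := by
    rw [← glv_mul_apply, ← mul_assoc, mul_inv_cancel, one_mul]
  rw [h1, hg v, hf]
  rcases hs with rfl | rfl <;> ext i <;> fin_cases i <;> simp [mul_inv] <;> (try field_simp) <;>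
    (try ring)

theorem isD_inv_mul_WW {f g : GLV q} {a s b t : ZMod q} (hf : IsW f a s) (hg : IsW g b t)
    (ha : a ≠ 0) (hs : s = 1 ∨ s = -1) : IsD (f⁻¹ * g) (a⁻¹ * b) (s * t) := by
  intro v
  apply f.injective
  have h1 : f ((f⁻¹ * g) v) = g v := by
    rw [← glv_mul_apply, ← mul_assoc, mul_inv_cancel, one_mul]
  rw [h1, hg v, hf]
  rcases hs with rfl | rfl <;> ext i <;> fin_cases i <;> simp [mul_inv] <;> (try field_simp) <;>
    (try ring)

theorem isW_inv_mul_DW {f g : GLV q} {a s b t : ZMod q} (hf : IsD f a s) (hg : IsW g b t)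
    (ha : a ≠ 0) (hb : b ≠ 0) (hs : s = 1 ∨ s = -1) : IsW (f⁻¹ * g) (s * a * b) (s * t) := by
  intro v
  apply f.injective
  have h1 : f ((f⁻¹ * g) v) = g v := by
    rw [← glv_mul_apply, ← mul_assoc, mul_inv_cancel, one_mul]
  rw [h1, hg v, hf]
  rcases hs with rfl | rfl <;> ext i <;> fin_cases i <;> simp [mul_inv] <;> (try field_simp) <;>
    (try ring)

theorem isW_inv_mul_WD {f g : GLV q} {a s b t : ZMod q} (hf : IsW f a s) (hg : IsD g b t)
    (ha : a ≠ 0) (hb : b ≠ 0) (hs : s = 1 ∨ s = -1) : IsW (f⁻¹ * g) (s * a * b) (s * t) := by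
  intro v
  apply f.injective
  have h1 : f ((f⁻¹ * g) v) = g v := by
    rw [← glv_mul_apply, ← mul_assoc, mul_inv_cancel, one_mul]
  rw [h1, hg v, hf]
  rcases hs with rfl | rfl <;> ext i <;> fin_cases i <;> simp [mul_inv] <;> (try field_simp) <;>
    (try ring)

end forms

section main

variable {q : ℕ} [Fact q.Prime]

def mkD (a b : ZMod q) (ha : a ≠ 0) (hb : b ≠ 0) : GLV q where
  toFun v := ![a * v 0, b * v 1]
  map_add' v w := by ext i; fin_cases i <;> simp [mul_add]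
  map_smul' c v := by ext i; fin_cases i <;> simp <;> ring
  invFun v := ![a⁻¹ * v 0, b⁻¹ * v 1]
  left_inv v := by ext i; fin_cases i <;> simp [ha, hb]
  right_inv v := by ext i; fin_cases i <;> simp [ha, hb]

def mkW (a b : ZMod q) (ha : a ≠ 0) (hb : b ≠ 0) : GLV q where
  toFun v := ![b * v 1, a * v 0]
  map_add' v w := by ext i; fin_cases i <;> simp [mul_add]
  map_smul' c v := by ext i; fin_cases i <;> simp <;> ring
  invFun v := ![a⁻¹ * v 1, b⁻¹ * v 0]
  left_inv v := by ext i; fin_cases i <;> simp [ha, hb]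
  right_inv v := by ext i; fin_cases i <;> simp [ha, hb]

theorem mkD_apply (a b : ZMod q) (ha : a ≠ 0) (hb : b ≠ 0) (v : V q) :
    mkD a b ha hb v = ![a * v 0, b * v 1] := rfl

theorem mkW_apply (a b : ZMod q) (ha : a ≠ 0) (hb : b ≠ 0) (v : V q) :
    mkW a b ha hb v = ![b * v 1, a * v 0] := rfl

variable (T : Subgroup (GLV q))
  (hT : ∀ f, f ∈ T ↔ ∃ a s : ZMod q, a ≠ 0 ∧ (s = 1 ∨ s = -1) ∧
      ((∀ v, f v = ![a * v 0, s * a⁻¹ * v 1]) ∨ (∀ v, f v = ![s * a⁻¹ * v 1, a * v 0])))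

include hT in
theorem forms (x : T) : ∃ a s : ZMod q, a ≠ 0 ∧ (s = 1 ∨ s = -1) ∧
    (IsD (x : GLV q) a s ∨ IsW (x : GLV q) a s) := (hT x).mp x.2

include hT in
theorem mem_of_isD {f : GLV q} {a s : ZMod q} (ha : a ≠ 0) (hs : s = 1 ∨ s = -1)
    (hf : IsD f a s) : f ∈ T := (hT f).mpr ⟨a, s, ha, hs, Or.inl hf⟩

include hT in
theorem mem_of_isW {f : GLV q} {a s : ZMod q} (ha : a ≠ 0) (hs : s = 1 ∨ s = -1)
    (hf : IsW f a s) : f ∈ T := (hT f).mpr ⟨a, s, ha, hs, Or.inr hf⟩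

theorem pm_sq {s : ZMod q} (hs : s = 1 ∨ s = -1) : s * s = 1 := by
  rcases hs with rfl | rfl <;> simp

theorem pm_pow {s : ZMod q} (hs : s = 1 ∨ s = -1) (j : ℕ) (hj : 1 ≤ j) : s ^ (2 ^ j) = 1 := by
  obtain ⟨i, rfl⟩ : ∃ i, j = i + 1 := ⟨j - 1, by omega⟩
  rw [pow_succ, mul_comm, pow_mul, pow_two, pm_sq hs, one_pow]

/-- the 4th power of any element is of diagonal form -/
theorem pow4_isD (hT : ∀ f, f ∈ T ↔ ∃ a s : ZMod q, a ≠ 0 ∧ (s = 1 ∨ s = -1) ∧
      ((∀ v, f v = ![a * v 0, s * a⁻¹ * v 1]) ∨ (∀ v, f v = ![s * a⁻¹ * v 1, a * v 0])))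
    (y : T) : ∃ c u : ZMod q, IsD ((y : GLV q) ^ 4) c u := by
  obtain ⟨b, t, hb, ht, h | h⟩ := forms T hT y
  · exact ⟨_, _, isD_pow h 4⟩
  · have h2 := isW_sq h hb ht
    have h4 := isD_mul h2 h2
    have e : (y : GLV q) ^ 4 = (y : GLV q) * y * (y * y) := by
      simp [pow_succ, mul_assoc]
    rw [e]
    exact ⟨_, _, h4⟩

/-- the diagonal subgroup, defined group-theoretically -/
def Dset : Set T := {x | ∀ y : T, x * y ^ 4 = y ^ 4 * x}

/-- central elements of square one -/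
def Bset : Set T := {x | x ∈ Subgroup.center T ∧ x * x = 1}

/-- the filtration of the diagonal subgroup -/
def Aset (j : ℕ) : Set T := {x | x ∈ Dset T ∧ x ^ (2 ^ j) = 1}

/-- (for `q = 3`) elements of order four together with the central elements of square one -/
def Cset : Set T := {x | x * x = 1 → x ∈ Bset T}

include hT in
theorem Dset_of_isD {x : T} {a s : ZMod q} (hx : IsD (x : GLV q) a s) : x ∈ Dset T := by
  intro y
  obtain ⟨c, u, hy⟩ := pow4_isD T hT y
  apply Subtype.ext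
  rw [Subgroup.coe_mul, Subgroup.coe_mul, Subgroup.coe_pow]
  exact isD_comm hx hy

theorem scalar_central {x : T} {c : ZMod q} (hx : IsD (x : GLV q) c 1) (hc : c * c = 1) :
    x ∈ Bset T := by
  have hcinv : c⁻¹ = c := (eq_inv_of_mul_eq_one_left hc).symm
  have hxv : ∀ v : V q, (x : GLV q) v = c • v := by
    intro v
    rw [hx v, hcinv]
    ext i; fin_cases i <;> simp
  constructor
  · rw [Subgroup.mem_center_iff]
    intro y
    apply Subtype.ext
    rw [Subgroup.coe_mul, Subgroup.coe_mul]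
    ext v : 1
    rw [glv_mul_apply, glv_mul_apply, hxv, hxv, map_smul]
  · apply Subtype.ext
    rw [Subgroup.coe_mul, Subgroup.coe_one]
    have h := isD_mul hx hx
    rw [hc, one_mul] at h
    exact eq_one_of_isD h

include hT in
theorem Bset_elems (h2 : (2 : ZMod q) ≠ 0) {x : T} (hx : x ∈ Bset T) :
    x = 1 ∨ IsD (x : GLV q) (-1) 1 := by
  obtain ⟨hc, hsq⟩ := hx
  have hsq' : (x : GLV q) * x = 1 := by
    have := congrArg Subtype.val hsq
    simpa using this
  obtain ⟨a, s, ha, hs, h | h⟩ := forms T hT x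
  · -- diagonal: commute with the swap
    have hwT : mkW (1 : ZMod q) 1 one_ne_zero one_ne_zero ∈ T :=
      mem_of_isW T hT (a := 1) (s := 1) one_ne_zero (Or.inl rfl) (by
        intro v
        rw [mkW_apply]
        ext i; fin_cases i <;> simp)
    have hcomm := Subgroup.mem_center_iff.mp hc ⟨_, hwT⟩
    have hcomm' : mkW (1 : ZMod q) 1 one_ne_zero one_ne_zero * (x : GLV q) =
        (x : GLV q) * mkW (1 : ZMod q) 1 one_ne_zero one_ne_zero := by
      have := congrArg Subtype.val hcomm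
      simpa using this
    have e := congrFun (congrArg (fun f : GLV q => f ![0, 1]) hcomm') 0
    simp only [glv_mul_apply, h _, mkW_apply] at e
    have e' : s * a⁻¹ = a := by simpa using e
    have h1 := isD_mul h h
    rw [hsq'] at h1
    have hp := (isD_param h1 isD_one).1
    have hs1 : s = 1 := by
      have : s = a * a := by
        calc s = s * a⁻¹ * a := by field_simp
          _ = a * a := by rw [e']
      rw [this, hp]
    subst hs1
    rcases mul_self_eq_one_iff.mp hp with rfl | rfl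
    · left
      exact Subtype.ext (eq_one_of_isD h)
    · right
      exact h
  · -- anti-diagonal: does not commute with diag(1,-1)
    exfalso
    have hdT : mkD (1 : ZMod q) (-1) one_ne_zero (neg_ne_zero.mpr one_ne_zero) ∈ T :=
      mem_of_isD T hT (a := 1) (s := -1) one_ne_zero (Or.inr rfl) (by
        intro v
        rw [mkD_apply]
        ext i; fin_cases i <;> simp)
    have hcomm := Subgroup.mem_center_iff.mp hc ⟨_, hdT⟩
    have hcomm' : mkD (1 : ZMod q) (-1) one_ne_zero (neg_ne_zero.mpr one_ne_zero) * (x : GLV q) =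
        (x : GLV q) * mkD (1 : ZMod q) (-1) one_ne_zero (neg_ne_zero.mpr one_ne_zero) := by
      have := congrArg Subtype.val hcomm
      simpa using this
    have e := congrFun (congrArg (fun f : GLV q => f ![1, 0]) hcomm') 1
    simp only [glv_mul_apply, h _, mkD_apply] at e
    have e' : -a = a := by simpa using e
    have : (2 : ZMod q) * a = 0 := by
      have : a + a = 0 := by
        nth_rewrite 1 [← e']; exact neg_add_cancel a
      rw [two_mul]; exact this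
    rcases mul_eq_zero.mp this with h0 | h0
    · exact h2 h0
    · exact ha h0

end main

section auto

variable {q : ℕ} [Fact q.Prime] (T : Subgroup (GLV q)) (ψ : MulAut T)

theorem Bset_inv {x : T} (hx : x ∈ Bset T) : ψ x ∈ Bset T := by
  obtain ⟨hc, hsq⟩ := hx
  constructor
  · rw [Subgroup.mem_center_iff]
    intro y
    have h1 := Subgroup.mem_center_iff.mp hc (ψ.symm y)
    have h2 := congrArg ψ h1
    simpa using h2
  · rw [← map_mul, hsq, map_one]

theorem Dset_inv {x : T} (hx : x ∈ Dset T) : ψ x ∈ Dset T := by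
  intro y
  have h1 := hx (ψ.symm y)
  have h2 := congrArg ψ h1
  simpa using h2

theorem Aset_inv (j : ℕ) {x : T} (hx : x ∈ Aset T j) : ψ x ∈ Aset T j :=
  ⟨Dset_inv T ψ hx.1, by rw [← map_pow, hx.2, map_one]⟩

theorem Cset_inv {x : T} (hx : x ∈ Cset T) : ψ x ∈ Cset T := by
  intro h
  have : x * x = 1 := by
    apply ψ.injective
    rw [map_mul, h, map_one]
  exact Bset_inv T ψ (hx this)

variable (hT : ∀ f, f ∈ T ↔ ∃ a s : ZMod q, a ≠ 0 ∧ (s = 1 ∨ s = -1) ∧
      ((∀ v, f v = ![a * v 0, s * a⁻¹ * v 1]) ∨ (∀ v, f v = ![s * a⁻¹ * v 1, a * v 0])))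

include hT in
theorem step_B (h2 : (2 : ZMod q) ≠ 0) : ∀ x ∈ Bset T, ∀ y ∈ Bset T,
    x ∉ ({1} : Set T) → y ∉ ({1} : Set T) → x⁻¹ * y ∈ ({1} : Set T) := by
  intro x hx y hy hx1 hy1
  rcases Bset_elems T hT h2 hx with rfl | hx'
  · exact absurd rfl hx1
  rcases Bset_elems T hT h2 hy with rfl | hy'
  · exact absurd rfl hy1
  have : x = y := Subtype.ext (isD_ext hx' hy')
  rw [this, inv_mul_cancel]; rfl

include hT in
theorem isD_of_Dset (a₀ : ZMod q) (ha₀ : a₀ ≠ 0) (h8 : a₀ ^ 8 ≠ 1) {x : T} (hx : x ∈ Dset T) :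
    ∃ a s : ZMod q, a ≠ 0 ∧ (s = 1 ∨ s = -1) ∧ IsD (x : GLV q) a s := by
  obtain ⟨a, s, ha, hs, h | h⟩ := forms T hT x
  · exact ⟨a, s, ha, hs, h⟩
  · exfalso
    have hyD : IsD (mkD a₀ a₀⁻¹ ha₀ (inv_ne_zero ha₀)) a₀ 1 := by
      intro v; rw [mkD_apply, one_mul]
    have hyT : mkD a₀ a₀⁻¹ ha₀ (inv_ne_zero ha₀) ∈ T := mem_of_isD T hT ha₀ (Or.inl rfl) hyD
    have hcomm := hx ⟨_, hyT⟩
    have hcomm' : (x : GLV q) * (mkD a₀ a₀⁻¹ ha₀ (inv_ne_zero ha₀)) ^ 4 =
        (mkD a₀ a₀⁻¹ ha₀ (inv_ne_zero ha₀)) ^ 4 * (x : GLV q) := by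
      have := congrArg Subtype.val hcomm
      simpa using this
    have h4 := isD_pow hyD 4
    have e := congrFun (congrArg (fun f : GLV q => f ![1, 0]) hcomm') 1
    simp only [glv_mul_apply, h _, h4 _] at e
    have e' : a * a₀ ^ 4 = (a₀ ^ 4)⁻¹ * a := by simpa using e
    have h0 : a₀ ^ 4 ≠ 0 := pow_ne_zero 4 ha₀
    have h44 : a₀ ^ 4 * a₀ ^ 4 = 1 := by
      apply mul_left_cancel₀ ha
      calc a * (a₀ ^ 4 * a₀ ^ 4) = (a * a₀ ^ 4) * a₀ ^ 4 := by ring
        _ = (a₀ ^ 4)⁻¹ * a * a₀ ^ 4 := by rw [e']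
        _ = a * 1 := by field_simp
    exact h8 (by rw [show (8 : ℕ) = 4 + 4 from rfl, pow_add]; exact h44)

include hT in
theorem step_A1 (a₀ : ZMod q) (ha₀ : a₀ ≠ 0) (h8 : a₀ ^ 8 ≠ 1) : ∀ x ∈ Aset T 1, ∀ y ∈ Aset T 1,
    x ∉ Bset T → y ∉ Bset T → x⁻¹ * y ∈ Bset T := by
  intro x hx y hy hxB hyB
  obtain ⟨a, s, ha, hs, hxD⟩ := isD_of_Dset T hT a₀ ha₀ h8 hx.1
  obtain ⟨b, t, hb, ht, hyD⟩ := isD_of_Dset T hT a₀ ha₀ h8 hy.1
  have key : ∀ (z : T) (c u : ZMod q), (u = 1 ∨ u = -1) → IsD (z : GLV q) c u →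
      z ^ (2 ^ 1) = 1 → z ∉ Bset T → c * c = 1 ∧ u = -1 := by
    intro z c u hu hz hz2 hzB
    have h1 : IsD ((z : GLV q) * (z : GLV q)) (c * c) (u * u) := isD_mul hz hz
    have h2 : (z : GLV q) * (z : GLV q) = 1 := by
      have := congrArg Subtype.val hz2
      simpa [pow_two] using this
    rw [h2] at h1
    have hcc := (isD_param h1 isD_one).1
    refine ⟨hcc, ?_⟩
    rcases hu with rfl | rfl
    · exact absurd (scalar_central T hz hcc) hzB
    · rfl
  obtain ⟨haa, rfl⟩ := key x a s hs hxD hx.2 hxB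
  obtain ⟨hbb, rfl⟩ := key y b t ht hyD hy.2 hyB
  have h := isD_inv_mul_DD hxD hyD ha (Or.inr rfl)
  have e : (-1 : ZMod q) * -1 = 1 := by ring
  rw [e] at h
  have hcc : (a⁻¹ * b) * (a⁻¹ * b) = 1 := by
    have : (a⁻¹ * b) * (a⁻¹ * b) = (a * a)⁻¹ * (b * b) := by rw [mul_inv]; ring
    rw [this, haa, hbb]; simp
  exact scalar_central T (x := x⁻¹ * y) h hcc

include hT in
theorem step_Aj (a₀ : ZMod q) (ha₀ : a₀ ≠ 0) (h8 : a₀ ^ 8 ≠ 1) (j : ℕ) (hj : 1 ≤ j) :
    ∀ x ∈ Aset T (j + 1), ∀ y ∈ Aset T (j + 1), x ∉ Aset T j → y ∉ Aset T j →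
      x⁻¹ * y ∈ Aset T j := by
  intro x hx y hy hxA hyA
  obtain ⟨a, s, ha, hs, hxD⟩ := isD_of_Dset T hT a₀ ha₀ h8 hx.1
  obtain ⟨b, t, hb, ht, hyD⟩ := isD_of_Dset T hT a₀ ha₀ h8 hy.1
  have key : ∀ (z : T) (c u : ZMod q), (u = 1 ∨ u = -1) → IsD (z : GLV q) c u →
      z ^ (2 ^ (j + 1)) = 1 → z ∉ Aset T j → c ^ (2 ^ j) = -1 := by
    intro z c u hu hz hz2 hzA
    have h1 := isD_pow hz (2 ^ (j + 1))
    have h2 : (z : GLV q) ^ (2 ^ (j + 1)) = 1 := by
      have := congrArg Subtype.val hz2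
      simpa using this
    rw [h2] at h1
    have hcc := (isD_param h1 isD_one).1
    have hsq : c ^ (2 ^ j) * c ^ (2 ^ j) = 1 := by
      rw [← pow_add, ← two_mul, ← pow_succ']; exact hcc
    rcases mul_self_eq_one_iff.mp hsq with h | h
    · exfalso
      apply hzA
      refine ⟨Dset_of_isD T hT hz, ?_⟩
      apply Subtype.ext
      rw [Subgroup.coe_pow, Subgroup.coe_one]
      have h3 := isD_pow hz (2 ^ j)
      rw [h, pm_pow hu j hj] at h3
      exact eq_one_of_isD h3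
    · exact h
  have hac := key x a s hs hxD hx.2 hxA
  have hbc := key y b t ht hyD hy.2 hyA
  have h := isD_inv_mul_DD hxD hyD ha hs
  refine ⟨Dset_of_isD T hT (x := x⁻¹ * y) h, ?_⟩
  apply Subtype.ext
  rw [Subgroup.coe_pow, Subgroup.coe_one]
  have h3 := isD_pow h (2 ^ j)
  have e1 : (a⁻¹ * b) ^ (2 ^ j) = 1 := by
    rw [mul_pow, inv_pow, hac, hbc]; simp
  have e2 : (s * t) ^ (2 ^ j) = 1 := by
    rw [mul_pow, pm_pow hs j hj, pm_pow ht j hj, one_mul]
  rw [e1, e2] at h3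
  exact eq_one_of_isD h3

include hT in
theorem step_T : ∀ x ∈ (Set.univ : Set T), ∀ y ∈ (Set.univ : Set T),
    x ∉ Dset T → y ∉ Dset T → x⁻¹ * y ∈ Dset T := by
  intro x _ y _ hxD hyD
  obtain ⟨a, s, ha, hs, hx | hx⟩ := forms T hT x
  · exact absurd (Dset_of_isD T hT hx) hxD
  obtain ⟨b, t, hb, ht, hy | hy⟩ := forms T hT y
  · exact absurd (Dset_of_isD T hT hy) hyD
  exact Dset_of_isD T hT (x := x⁻¹ * y) (isD_inv_mul_WW hx hy ha hs)

include hT in
theorem Dset_sub_A (m : ℕ) (hm : 1 ≤ m) (hq1 : q - 1 = 2 ^ m) (a₀ : ZMod q) (ha₀ : a₀ ≠ 0)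
    (h8 : a₀ ^ 8 ≠ 1) {x : T} (hx : x ∈ Dset T) : x ∈ Aset T m := by
  obtain ⟨a, s, ha, hs, hxD⟩ := isD_of_Dset T hT a₀ ha₀ h8 hx
  refine ⟨hx, ?_⟩
  apply Subtype.ext
  rw [Subgroup.coe_pow, Subgroup.coe_one]
  have h3 := isD_pow hxD (2 ^ m)
  have e1 : a ^ (2 ^ m) = 1 := by
    have := ZMod.pow_card_sub_one_eq_one ha
    rwa [hq1] at this
  rw [e1, pm_pow hs m hm] at h3
  exact eq_one_of_isD h3

include hT in
theorem two_group (m : ℕ) (hq1 : q - 1 = 2 ^ m) (x : T) : ∃ n, x ^ (2 ^ n) = 1 := by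
  obtain ⟨a, s, ha, hs, h | h⟩ := forms T hT x
  · refine ⟨m + 1, ?_⟩
    apply Subtype.ext
    rw [Subgroup.coe_pow, Subgroup.coe_one]
    have h3 := isD_pow h (2 ^ (m + 1))
    have e1 : a ^ (2 ^ (m + 1)) = 1 := by
      have := ZMod.pow_card_sub_one_eq_one ha
      rw [hq1] at this
      rw [pow_succ, pow_mul, this, one_pow]
    rw [e1, pm_pow hs (m + 1) (by omega)] at h3
    exact eq_one_of_isD h3
  · refine ⟨2, ?_⟩
    apply Subtype.ext
    rw [Subgroup.coe_pow, Subgroup.coe_one]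
    have h2 := isW_sq h ha hs
    have h4 := isD_mul h2 h2
    rw [pm_sq hs, one_mul] at h4
    have e : (x : GLV q) ^ (2 ^ 2) = (x : GLV q) * x * (x * x) := by
      norm_num [pow_succ, mul_assoc]
    rw [e]
    exact eq_one_of_isD h4

include hT in
theorem main_large (m : ℕ) (hm : 4 ≤ m) (hq : q = 2 ^ m + 1) (k : ℕ) (hk : Odd k)
    (hψ : ψ ^ k = 1) : ∀ x : T, ψ x = x := by
  have hq1 : q - 1 = 2 ^ m := by rw [hq, Nat.add_sub_cancel]
  have h16 : 2 ^ 4 ≤ 2 ^ m := Nat.pow_le_pow_right (by norm_num) hm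
  have hq17 : 17 ≤ q := by rw [hq]; exact Nat.succ_le_succ h16
  obtain ⟨a₀, ha₀, h8⟩ : ∃ a₀ : ZMod q, a₀ ≠ 0 ∧ a₀ ^ 8 ≠ 1 := by
    obtain ⟨g, hg⟩ := IsCyclic.exists_generator (α := (ZMod q)ˣ)
    have ho : orderOf g = 2 ^ m := by
      rw [orderOf_eq_card_of_forall_mem_zpowers hg, Nat.card_eq_fintype_card, ZMod.card_units, hq1]
    refine ⟨(g : ZMod q), g.ne_zero, ?_⟩
    intro h
    have h' : g ^ 8 = 1 := by
      apply Units.ext
      rw [Units.val_pow_eq_pow_val, h]; rfl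
    have hd := orderOf_dvd_of_pow_eq_one h'
    rw [ho] at hd
    have h8le := Nat.le_of_dvd (by norm_num) hd
    exact absurd (le_trans h16 h8le) (by norm_num)
  have h2 : (2 : ZMod q) ≠ 0 := by
    intro h
    have h' : ((2 : ℕ) : ZMod q) = 0 := by exact_mod_cast h
    rw [ZMod.natCast_eq_zero_iff] at h'
    have := Nat.le_of_dvd (by norm_num) h'
    omega
  have h2g := two_group T hT m hq1
  have key := fix_step ψ k hk hψ h2g
  have fixB : ∀ x ∈ Bset T, ψ x = x :=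
    key {1} (Bset T) (by intro x hx; rw [Set.mem_singleton_iff.mp hx, map_one])
      (fun x hx => Bset_inv T ψ hx) (step_B T hT h2)
  have fixA1 : ∀ x ∈ Aset T 1, ψ x = x :=
    key (Bset T) (Aset T 1) fixB (fun x hx => Aset_inv T ψ 1 hx) (step_A1 T hT a₀ ha₀ h8)
  have fixA : ∀ j, 1 ≤ j → ∀ x ∈ Aset T j, ψ x = x := by
    intro j hj
    induction j, hj using Nat.le_induction with
    | base => exact fixA1
    | succ j hj ih =>
      exact key (Aset T j) (Aset T (j + 1)) ih (fun x hx => Aset_inv T ψ (j + 1) hx)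
        (step_Aj T hT a₀ ha₀ h8 j hj)
  have fixD : ∀ x ∈ Dset T, ψ x = x := fun x hx =>
    fixA m (by omega) x (Dset_sub_A T hT m (by omega) hq1 a₀ ha₀ h8 hx)
  intro x
  exact key (Dset T) Set.univ fixD (fun x _ => Set.mem_univ _) (step_T T hT) x (Set.mem_univ x)

end auto

section small

theorem main_two (T : Subgroup (GLV 2)) (ψ : MulAut T)
    (hT : ∀ f, f ∈ T ↔ ∃ a s : ZMod 2, a ≠ 0 ∧ (s = 1 ∨ s = -1) ∧
      ((∀ v, f v = ![a * v 0, s * a⁻¹ * v 1]) ∨ (∀ v, f v = ![s * a⁻¹ * v 1, a * v 0])))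
    (k : ℕ) (hk : Odd k) (hψ : ψ ^ k = 1) : ∀ x : T, ψ x = x := by
  have h1 : ∀ a : ZMod 2, a ≠ 0 → a = 1 := by decide
  have hs1 : ∀ s : ZMod 2, (s = 1 ∨ s = -1) → s = 1 := by decide
  have h2g := two_group T hT 0 (by norm_num)
  have key := fix_step ψ k hk hψ h2g
  intro x
  refine key {1} Set.univ (by intro x hx; rw [Set.mem_singleton_iff.mp hx, map_one])
    (fun x _ => Set.mem_univ _) ?_ x (Set.mem_univ x)
  intro x _ y _ hx1 hy1
  have W11 : ∀ z : T, z ∉ ({1} : Set T) → IsW (z : GLV 2) 1 1 := by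
    intro z hz
    obtain ⟨c, u, hc, hu, h | h⟩ := forms T hT z
    · exfalso; apply hz
      rw [h1 c hc, hs1 u hu] at h
      exact Set.mem_singleton_iff.mpr (Subtype.ext (eq_one_of_isD h))
    · rw [h1 c hc, hs1 u hu] at h; exact h
  have : x = y := Subtype.ext (isW_ext (W11 x hx1) (W11 y hy1))
  rw [this, inv_mul_cancel]; rfl

theorem main_three (T : Subgroup (GLV 3)) (ψ : MulAut T)
    (hT : ∀ f, f ∈ T ↔ ∃ a s : ZMod 3, a ≠ 0 ∧ (s = 1 ∨ s = -1) ∧
      ((∀ v, f v = ![a * v 0, s * a⁻¹ * v 1]) ∨ (∀ v, f v = ![s * a⁻¹ * v 1, a * v 0])))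
    (k : ℕ) (hk : Odd k) (hψ : ψ ^ k = 1) : ∀ x : T, ψ x = x := by
  have hsq3 : ∀ a : ZMod 3, a ≠ 0 → a * a = 1 := by decide
  have h2 : (2 : ZMod 3) ≠ 0 := by decide
  have hne : (-1 : ZMod 3) ≠ 1 := by decide
  have h2g := two_group T hT 1 (by norm_num)
  have key := fix_step ψ k hk hψ h2g
  have fixB : ∀ x ∈ Bset T, ψ x = x :=
    key {1} (Bset T) (by intro x hx; rw [Set.mem_singleton_iff.mp hx, map_one])
      (fun x hx => Bset_inv T ψ hx) (step_B T hT h2)
  have coe_sq : ∀ z : T, z * z = 1 ↔ (z : GLV 3) * z = 1 := by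
    intro z
    constructor
    · intro h
      have := congrArg Subtype.val h
      simpa using this
    · intro h
      exact Subtype.ext (by simpa using h)
  -- elements of `Cset` outside `Bset` have order four
  have order4 : ∀ z ∈ Cset T, z ∉ Bset T → ∃ c : ZMod 3, c ≠ 0 ∧ IsW (z : GLV 3) c (-1) := by
    intro z hzC hzB
    have hzz : ¬ (z * z = 1) := fun h => hzB (hzC h)
    obtain ⟨c, u, hc, hu, h | h⟩ := forms T hT z
    · exfalso
      apply hzz
      rw [coe_sq]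
      have h1 := isD_mul h h
      rw [hsq3 c hc, pm_sq hu] at h1
      exact eq_one_of_isD h1
    · rcases hu with rfl | rfl
      · exfalso
        apply hzz
        rw [coe_sq]
        exact eq_one_of_isD (isW_sq h hc (Or.inl rfl))
      · exact ⟨c, hc, h⟩
  have stepC : ∀ x ∈ Cset T, ∀ y ∈ Cset T, x ∉ Bset T → y ∉ Bset T → x⁻¹ * y ∈ Bset T := by
    intro x hx y hy hxB hyB
    obtain ⟨a, ha, hxW⟩ := order4 x hx hxB
    obtain ⟨b, hb, hyW⟩ := order4 y hy hyB
    have h := isD_inv_mul_WW hxW hyW ha (Or.inr rfl)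
    have e : (-1 : ZMod 3) * -1 = 1 := by decide
    rw [e] at h
    exact scalar_central T (x := x⁻¹ * y) h (hsq3 _ (mul_ne_zero (inv_ne_zero ha) hb))
  have fixC : ∀ x ∈ Cset T, ψ x = x :=
    key (Bset T) (Cset T) fixB (fun x hx => Cset_inv T ψ hx) stepC
  -- elements outside `Cset`
  have formsNotC : ∀ z : T, z ∉ Cset T →
      (∃ c : ZMod 3, c ≠ 0 ∧ IsD (z : GLV 3) c (-1)) ∨ (∃ c : ZMod 3, c ≠ 0 ∧ IsW (z : GLV 3) c 1) := by
    intro z hz
    have hz' : z * z = 1 ∧ z ∉ Bset T := by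
      by_contra hcon
      apply hz
      intro h1
      by_contra h2
      exact hcon ⟨h1, h2⟩
    obtain ⟨hzz, hzB⟩ := hz'
    obtain ⟨c, u, hc, hu, h | h⟩ := forms T hT z
    · left
      rcases hu with rfl | rfl
      · exact absurd (scalar_central T h (hsq3 c hc)) hzB
      · exact ⟨c, hc, h⟩
    · right
      have h1 := isW_sq h hc hu
      rw [(coe_sq z).mp hzz] at h1
      have hp := (isD_param h1 isD_one).1
      rw [hp] at h
      exact ⟨c, hc, h⟩
  have notOne : ∀ (z : T) (c : ZMod 3), c ≠ 0 → IsW (z : GLV 3) c (-1) → z ∈ Cset T := by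
    intro z c hc h hzz
    exfalso
    have h1 := isW_sq h hc (Or.inr rfl)
    rw [(coe_sq z).mp hzz] at h1
    exact hne (isD_param h1 isD_one).1
  have stepT : ∀ x ∈ (Set.univ : Set T), ∀ y ∈ (Set.univ : Set T), x ∉ Cset T → y ∉ Cset T →
      x⁻¹ * y ∈ Cset T := by
    intro x _ y _ hxC hyC
    have e : (-1 : ZMod 3) * -1 = 1 := by decide
    rcases formsNotC x hxC with ⟨a, ha, hx⟩ | ⟨a, ha, hx⟩
    · rcases formsNotC y hyC with ⟨b, hb, hy⟩ | ⟨b, hb, hy⟩
      · have h := isD_inv_mul_DD hx hy ha (Or.inr rfl)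
        rw [e] at h
        have hB := scalar_central T (x := x⁻¹ * y) h (hsq3 _ (mul_ne_zero (inv_ne_zero ha) hb))
        exact fun _ => hB
      · have h := isW_inv_mul_DW hx hy ha hb (Or.inr rfl)
        rw [mul_one] at h
        exact notOne (x⁻¹ * y) _ (mul_ne_zero (mul_ne_zero (neg_ne_zero.mpr one_ne_zero) ha) hb) h
    · rcases formsNotC y hyC with ⟨b, hb, hy⟩ | ⟨b, hb, hy⟩
      · have h := isW_inv_mul_WD hx hy ha hb (Or.inl rfl)
        rw [one_mul (-1 : ZMod 3)] at h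
        exact notOne (x⁻¹ * y) _ (mul_ne_zero (mul_ne_zero one_ne_zero ha) hb) h
      · have h := isD_inv_mul_WW hx hy ha (Or.inl rfl)
        rw [one_mul (1 : ZMod 3)] at h
        have hB := scalar_central T (x := x⁻¹ * y) h (hsq3 _ (mul_ne_zero (inv_ne_zero ha) hb))
        exact fun _ => hB
  intro x
  exact key (Cset T) Set.univ fixC (fun x _ => Set.mem_univ _) stepT x (Set.mem_univ x)

end small

/-- Let q = 2^m + 1 be a prime other than 5. Then the automorphism group of the group of linear maps of F_q² of the forms (x, y) ↦ (a x, ± a⁻¹ y) and (x, y) ↦ (± a⁻¹ y, a x) with a ≠ 0 is itself a 2-group. -/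
theorem result (q m : ℕ) [Fact q.Prime] (hq : q = 2 ^ m + 1) (hq5 : q ≠ 5)
    (T : Subgroup ((Fin 2 → ZMod q) ≃ₗ[ZMod q] (Fin 2 → ZMod q)))
    (hT : ∀ f, f ∈ T ↔ ∃ a s : ZMod q, a ≠ 0 ∧ (s = 1 ∨ s = -1) ∧
      ((∀ v, f v = ![a * v 0, s * a⁻¹ * v 1]) ∨ (∀ v, f v = ![s * a⁻¹ * v 1, a * v 0]))) :
    IsPGroup 2 (MulAut T) := by
  have hfin : Finite (GLV q) :=
    Finite.of_injective (fun f : GLV q => (f : V q → V q)) DFunLike.coe_injective
  have main : ∀ (ψ : MulAut T) (k : ℕ), Odd k → ψ ^ k = 1 → ψ = 1 := by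
    intro ψ k hk hψ
    have hall : ∀ x : T, ψ x = x := by
      rcases m with _ | _ | _ | _ | m
      · have hq2 : q = 2 := by simpa using hq
        subst hq2
        exact main_two T ψ hT k hk hψ
      · have hq3 : q = 3 := by simpa using hq
        subst hq3
        exact main_three T ψ hT k hk hψ
      · exact absurd (by simpa using hq) hq5
      · exfalso
        have hp : Nat.Prime q := Fact.out
        rw [hq] at hp
        norm_num at hp
      · exact main_large T ψ hT (m + 4) (by omega) hq k hk hψ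
    exact MulEquiv.ext hall
  intro ψ
  have hpos : 0 < orderOf ψ := orderOf_pos ψ
  obtain ⟨n, k, hk, hnk⟩ := Nat.exists_eq_two_pow_mul_odd hpos.ne'
  refine ⟨n, main (ψ ^ (2 ^ n)) k hk ?_⟩
  rw [← pow_mul, ← hnk, pow_orderOf_eq_one]

end Cfsg.Agent.S3382
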