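import Cfsg.Statements.S3419
import Cfsg.Agent.Helper57.PrimeSection

set_option autoImplicit false
open Cfsg

namespace Cfsg.Agent.S3419

open Cfsg.Agent.Helper57

/-- The arithmetic data used for degree `n`: primes `p`, `r` with `p` odd, `n/2 < p ≤ n`,
`n < p + r`, and the conditions of `alt_section`. -/
theorem exists_primes (n : ℕ) (hn : 5 ≤ n) :
    ∃ p r : ℕ, p.Prime ∧ r.Prime ∧ p ≠ 2 ∧ p ≤ n ∧ n < 2 * p ∧ r ≠ p ∧ n < p + r ∧
      r ∣ Nat.card ↥(alternatingGroup (Fin n)) ∧ ¬ r ∣ p - 1 ∧
      ∀ c : ℕ, 1 ≤ c → r ^ c ∣ Nat.card ↥(alternatingGroup (Fin n)) → ¬ p ∣ r ^ c - 1 := by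
  -- the generic case: two odd primes in `(n/2, n]`
  have generic : ∀ r p : ℕ, r.Prime → p.Prime → r ≠ p → n < 2 * r → r ≤ n → n < 2 * p → p ≤ n →
      ∃ p r : ℕ, p.Prime ∧ r.Prime ∧ p ≠ 2 ∧ p ≤ n ∧ n < 2 * p ∧ r ≠ p ∧ n < p + r ∧
        r ∣ Nat.card ↥(alternatingGroup (Fin n)) ∧ ¬ r ∣ p - 1 ∧
        ∀ c : ℕ, 1 ≤ c → r ^ c ∣ Nat.card ↥(alternatingGroup (Fin n)) → ¬ p ∣ r ^ c - 1 := by
    intro r p hr hp hne hrn hrn' hpn hpn'
    have hr2 : r ≠ 2 := by omega
    have hp2 : p ≠ 2 := by omega
    obtain ⟨hrA, hrA2⟩ := prime_dvd_card_alternatingGroup r n hr hr2 hrn' hrn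
    refine ⟨p, r, hp, hr, hp2, hpn', hpn, hne, by omega, hrA,
      prime_not_dvd_pred r p n hr hp hr2 hp2 hpn' hrn, ?_⟩
    intro c hc hd
    have hc1 : c = 1 := by
      by_contra hcne
      have h2 : 2 ≤ c := by omega
      exact hrA2 ((pow_dvd_pow r h2).trans hd)
    subst hc1
    rw [pow_one]
    exact prime_not_dvd_pred p r n hp hr hp2 hr2 hrn' hpn
  rcases Nat.lt_or_ge n 12 with h12 | h12
  · interval_cases n
    · -- n = 5
      exact generic 3 5 (by norm_num) (by norm_num) (by norm_num) (by norm_num) (by norm_num)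
        (by norm_num) (by norm_num)
    · -- n = 6 : p = 5, r = 3
      have hA : Nat.card ↥(alternatingGroup (Fin 6)) = 360 := by
        have h := two_mul_card_alternatingGroup_fin 6 (by norm_num)
        have h6 : Nat.factorial 6 = 720 := by decide
        omega
      refine ⟨5, 3, by norm_num, by norm_num, by norm_num, by norm_num, by norm_num, by norm_num,
        by norm_num, ?_, by norm_num, ?_⟩
      · rw [hA]; norm_num
      · intro c hc hd
        rw [hA] at hd
        have hc2 : c ≤ 2 := by
          by_contra hcon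
          have h3 : 3 ≤ c := by omega
          have : 3 ^ 3 ∣ 360 := (pow_dvd_pow 3 h3).trans hd
          norm_num at this
        interval_cases c <;> norm_num
    · -- n = 7
      exact generic 5 7 (by norm_num) (by norm_num) (by norm_num) (by norm_num) (by norm_num)
        (by norm_num) (by norm_num)
    · -- n = 8
      exact generic 5 7 (by norm_num) (by norm_num) (by norm_num) (by norm_num) (by norm_num)
        (by norm_num) (by norm_num)
    · -- n = 9
      exact generic 5 7 (by norm_num) (by norm_num) (by norm_num) (by norm_num) (by norm_num)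
        (by norm_num) (by norm_num)
    · -- n = 10 : p = 7, r = 5
      have hA : Nat.card ↥(alternatingGroup (Fin 10)) = 1814400 := by
        have h := two_mul_card_alternatingGroup_fin 10 (by norm_num)
        have h10 : Nat.factorial 10 = 3628800 := by decide
        omega
      refine ⟨7, 5, by norm_num, by norm_num, by norm_num, by norm_num, by norm_num, by norm_num,
        by norm_num, ?_, by norm_num, ?_⟩
      · rw [hA]; norm_num
      · intro c hc hd
        rw [hA] at hd
        have hc2 : c ≤ 2 := by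
          by_contra hcon
          have h3 : 3 ≤ c := by omega
          have : 5 ^ 3 ∣ 1814400 := (pow_dvd_pow 5 h3).trans hd
          norm_num at this
        interval_cases c <;> norm_num
    · -- n = 11
      exact generic 7 11 (by norm_num) (by norm_num) (by norm_num) (by norm_num) (by norm_num)
        (by norm_num) (by norm_num)
  · obtain ⟨r, p, hr, hp, h1, h2, h3⟩ := exists_two_primes (n / 2) (by omega)
    exact generic r p hr hp (by omega) (by omega) (by omega) (by omega) (by omega)

/-- Let n ≥ 5 and let G be a finite group with the same order and the same set of element orders as the alternating group of degree n. Then G is not solvable. -/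
theorem result {G : Type*} [Group G] [Finite G] (n : ℕ) (hn : 5 ≤ n)
    (hcard : Nat.card G = Nat.card ↥(alternatingGroup (Fin n)))
    (hspec : Set.range (orderOf : G → ℕ) = Set.range (orderOf : ↥(alternatingGroup (Fin n)) → ℕ)) :
    ¬ Group.IsSolvable G := by
  obtain ⟨p, r, hp, hr, hp2, hpn, hnp, hrp, hnpr, hrA, hrp1, hcond⟩ := exists_primes n hn
  obtain ⟨N, H, hNn, hHn, hNH, hsimple, hpdvd, hall⟩ :=
    alt_section n hcard hspec p hp hp2 hpn hnp
  have hrdvd : r ∣ Nat.card (↥H ⧸ N.subgroupOf H) :=
    hall r hr hrp hnpr (hcard ▸ hrA) hrp1 (fun c hc hd => hcond c hc (hcard ▸ hd))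
  intro hsolv
  have hcomm : ∀ a b : ↥H ⧸ N.subgroupOf H, a * b = b * a :=
    IsSimpleGroup.comm_iff_isSolvable.2 inferInstance
  exact not_comm_of_simple_of_two_primes p r hp hr (Ne.symm hrp) hpdvd hrdvd hcomm

end Cfsg.Agent.S3419
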