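import Cfsg.Statements.S3420
import Cfsg.Agent.Helper57.PrimeSection

set_option autoImplicit false
open Cfsg

namespace Cfsg.Agent.S3420

open Cfsg.Agent.Helper57

/-- Two odd primes in `(n/2, n]` for `n ≥ 11`. -/
theorem two_primes_half (n : ℕ) (hn : 11 ≤ n) :
    ∃ r p : ℕ, r.Prime ∧ p.Prime ∧ r ≠ p ∧ n < 2 * r ∧ r ≤ n ∧ n < 2 * p ∧ p ≤ n := by
  rcases Nat.lt_or_ge n 12 with h | h
  · have h11 : n = 11 := by omega
    subst h11
    exact ⟨7, 11, by norm_num, by norm_num, by norm_num, by norm_num, by norm_num, by norm_num,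
      by norm_num⟩
  · obtain ⟨r, p, hr, hp, h1, h2, h3⟩ := exists_two_primes (n / 2) (by omega)
    exact ⟨r, p, hr, hp, by omega, by omega, by omega, by omega, by omega⟩

/-- Let n ≥ 11 and let G be a finite group with the same order and the same set of element orders as the alternating group of degree n. Then G has normal subgroups N < H such that H/N is a non-abelian simple group whose order is divisible by every prime p with n/2 < p ≤ n. -/
theorem result {G : Type*} [Group G] [Finite G] (n : ℕ) (hn : 11 ≤ n)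
    (hcard : Nat.card G = Nat.card ↥(alternatingGroup (Fin n)))
    (hspec : Set.range (orderOf : G → ℕ) = Set.range (orderOf : ↥(alternatingGroup (Fin n)) → ℕ)) :
    ∃ (N H : Subgroup G) (_ : N.Normal), H.Normal ∧ N < H ∧
      IsSimpleGroup (↥H ⧸ N.subgroupOf H) ∧ ¬ IsMulCommutative (↥H ⧸ N.subgroupOf H) ∧
      ∀ p : ℕ, p.Prime → n < 2 * p → p ≤ n → p ∣ Nat.card (↥H ⧸ N.subgroupOf H) := by
  obtain ⟨r₀, p₀, hr₀, hp₀, hne, hr₀n, hr₀n', hp₀n, hp₀n'⟩ := two_primes_half n hn
  have hodd : ∀ q : ℕ, n < 2 * q → q ≠ 2 := by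
    intro q hq h2
    omega
  obtain ⟨N, H, hNn, hHn, hNH, hsimple, hpdvd, hall⟩ :=
    alt_section n hcard hspec p₀ hp₀ (hodd p₀ hp₀n) hp₀n' hp₀n
  have key : ∀ q : ℕ, q.Prime → n < 2 * q → q ≤ n → q ∣ Nat.card (↥H ⧸ N.subgroupOf H) := by
    intro q hq hqn hqn'
    by_cases hqp : q = p₀
    · rw [hqp]; exact hpdvd
    · obtain ⟨hqA, hqA2⟩ := prime_dvd_card_alternatingGroup q n hq (hodd q hqn) hqn' hqn
      rw [← hcard] at hqA hqA2
      apply hall q hq hqp (by omega) hqA
      · exact prime_not_dvd_pred q p₀ n hq hp₀ (hodd q hqn) (hodd p₀ hp₀n) hp₀n' hqn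
      · intro c hc hd
        have hc1 : c = 1 := by
          by_contra hcne
          have h2 : 2 ≤ c := by omega
          exact hqA2 ((pow_dvd_pow q h2).trans hd)
        subst hc1
        rw [pow_one]
        exact prime_not_dvd_pred p₀ q n hp₀ hq (hodd p₀ hp₀n) (hodd q hqn) hqn' hp₀n
  refine ⟨N, H, hNn, hHn, hNH, hsimple, ?_, key⟩
  intro hc
  have hcomm : ∀ a b : ↥H ⧸ N.subgroupOf H, a * b = b * a := fun a b => hc.is_comm.comm a b
  exact not_comm_of_simple_of_two_primes r₀ p₀ hr₀ hp₀ hne (key r₀ hr₀ hr₀n hr₀n')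
    (key p₀ hp₀ hp₀n hp₀n') hcomm

end Cfsg.Agent.S3420
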