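import Mathlib
import Cfsg.Statements.S3704

set_option autoImplicit false
open Cfsg

namespace Cfsg.Agent.S3704

/-! ### Linear algebra: a square matrix whose Gram matrix is `c • 1 + l • J` is invertible -/

theorem la_inj {X Ω : Type*} [Fintype X] [Fintype Ω] [DecidableEq Ω]
    (A : X → Ω → ℚ) (c l : ℚ) (hc : 0 < c) (hl : 0 ≤ l)
    (hA : ∀ ω ω', ∑ x, A x ω * A x ω' = if ω = ω' then c + l else l)
    (v : Ω → ℚ) (hv : ∀ x, ∑ ω, A x ω * v ω = 0) : v = 0 := by
  have key : ∀ ω, c * v ω + l * ∑ ω', v ω' = 0 := by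
    intro ω
    have h1 : ∑ x, A x ω * ∑ ω', A x ω' * v ω' = 0 := by
      apply Finset.sum_eq_zero
      intro x _
      rw [hv x, mul_zero]
    have h2 : ∑ x, A x ω * ∑ ω', A x ω' * v ω' = ∑ ω', (∑ x, A x ω * A x ω') * v ω' := by
      simp_rw [Finset.mul_sum, Finset.sum_mul]
      rw [Finset.sum_comm]
      apply Finset.sum_congr rfl
      intro ω' _
      apply Finset.sum_congr rfl
      intro x _
      ring
    rw [h2] at h1
    simp_rw [hA] at h1
    have h3 : ∑ ω', (if ω = ω' then c + l else l) * v ω' = c * v ω + l * ∑ ω', v ω' := by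
      have : ∀ ω', (if ω = ω' then c + l else l) * v ω'
          = (if ω = ω' then c * v ω' else 0) + l * v ω' := by
        intro ω'
        split_ifs <;> ring
      simp_rw [this, Finset.sum_add_distrib, Finset.sum_ite_eq, Finset.mem_univ, if_true,
        Finset.mul_sum]
    rw [h3] at h1
    exact h1
  have hS : ∑ ω', v ω' = 0 := by
    have h4 : ∑ ω, (c * v ω + l * ∑ ω', v ω') = 0 := Finset.sum_eq_zero (fun ω _ => key ω)
    rw [Finset.sum_add_distrib, ← Finset.mul_sum, Finset.sum_const, Finset.card_univ,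
      nsmul_eq_mul] at h4
    have h5 : (c + Fintype.card Ω * l) * ∑ ω', v ω' = 0 := by linear_combination h4
    rcases mul_eq_zero.mp h5 with h6 | h6
    · have : 0 ≤ (Fintype.card Ω : ℚ) * l := mul_nonneg (Nat.cast_nonneg _) hl
      linarith
    · exact h6
  funext ω
  have := key ω
  rw [hS, mul_zero, add_zero] at this
  exact (mul_eq_zero.mp this).resolve_left hc.ne'

theorem la {X Ω : Type*} [Fintype X] [Fintype Ω] [DecidableEq Ω]
    (hcard : Fintype.card X = Fintype.card Ω)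
    (A : X → Ω → ℚ) (c l : ℚ) (hc : 0 < c) (hl : 0 ≤ l)
    (hA : ∀ ω ω', ∑ x, A x ω * A x ω' = if ω = ω' then c + l else l)
    (w : X → ℚ) (hw : ∀ ω, ∑ x, A x ω * w x = 0) : w = 0 := by
  let f : (Ω → ℚ) →ₗ[ℚ] (X → ℚ) :=
    { toFun := fun v x => ∑ ω, A x ω * v ω
      map_add' := by
        intro v v'
        funext x
        simp [mul_add, Finset.sum_add_distrib]
      map_smul' := by
        intro r v
        funext x
        simp [Finset.mul_sum, mul_left_comm] }
  have hinj : Function.Injective f := by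
    rw [← LinearMap.ker_eq_bot, LinearMap.ker_eq_bot']
    intro v hv
    exact la_inj A c l hc hl hA v (fun x => congrFun hv x)
  have hsurj : Function.Surjective f :=
    (LinearMap.injective_iff_surjective_of_finrank_eq_finrank (by simp [hcard])).mp hinj
  obtain ⟨v, hv⟩ := hsurj w
  have hwx : ∀ x, w x = ∑ ω, A x ω * v ω := fun x => (congrFun hv x).symm
  have h0 : ∑ x, w x * w x = 0 := by
    calc ∑ x, w x * w x = ∑ x, w x * ∑ ω, A x ω * v ω := by
          apply Finset.sum_congr rfl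
          intro x _
          rw [← hwx x]
      _ = ∑ ω, v ω * ∑ x, A x ω * w x := by
          simp_rw [Finset.mul_sum]
          rw [Finset.sum_comm]
          apply Finset.sum_congr rfl
          intro ω _
          apply Finset.sum_congr rfl
          intro x _
          ring
      _ = 0 := by
          apply Finset.sum_eq_zero
          intro ω _
          rw [hw ω, mul_zero]
  funext x
  have := (Finset.sum_eq_zero_iff_of_nonneg (fun x _ => mul_self_nonneg (w x))).mp h0 x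
    (Finset.mem_univ x)
  exact mul_self_eq_zero.mp this

/-! ### The orbit of `x⁻¹ • ω` -/

section Cls

variable {G Ω : Type*} [Group G] [MulAction G Ω] (H : Subgroup G)

/-- the `H`-orbit of `x⁻¹ • ω` for a coset `x = gH` -/
noncomputable def cls (x : G ⧸ H) (ω : Ω) : MulAction.orbitRel.Quotient H Ω :=
  Quotient.mk'' (x.out⁻¹ • ω)

theorem cls_mk (g : G) (ω : Ω) :
    cls H (g : G ⧸ H) ω = (Quotient.mk'' (g⁻¹ • ω) : MulAction.orbitRel.Quotient H Ω) := by
  obtain ⟨h, hh⟩ := QuotientGroup.mk_out_eq_mul H g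
  unfold cls
  rw [hh, mul_inv_rev, mul_smul]
  exact MulAction.orbitRel.Quotient.quotient_smul_eq (g := h⁻¹) (a := g⁻¹ • ω)

theorem cls_smul (k : G) (x : G ⧸ H) (ω : Ω) : cls H (k • x) (k • ω) = cls H x ω := by
  induction x using QuotientGroup.induction_on with
  | H g =>
    rw [MulAction.Quotient.smul_mk, cls_mk, cls_mk, smul_eq_mul, mul_inv_rev, mul_smul,
      inv_smul_smul]

end Cls

/-- Let G be a finite group acting faithfully and 2-transitively on a finite set Ω of size n, and let H be a subgroup of index n in G which is not transitive on Ω and fixes no point of Ω. Then H has exactly two orbits on Ω. -/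
theorem result {G Ω : Type*} [Group G] [Finite G] [MulAction G Ω] [FaithfulSMul G Ω] [Finite Ω] (h2 : MulAction.IsMultiplyPretransitive G Ω 2) (H : Subgroup G) (hidx : H.index = Nat.card Ω) (hnt : ¬ MulAction.IsPretransitive H Ω) (hfix : ∀ a : Ω, ∃ h : H, h • a ≠ a) : Nat.card (MulAction.orbitRel.Quotient H Ω) = 2 := by
  classical
  by_contra hne
  have hfX : Fintype (G ⧸ H) := Fintype.ofFinite _
  have hfΩ : Fintype Ω := Fintype.ofFinite _
  have hcard : Fintype.card (G ⧸ H) = Fintype.card Ω := by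
    rw [← Nat.card_eq_fintype_card, ← Nat.card_eq_fintype_card]
    exact hidx
  have h2t : ∀ {a b c d : Ω}, a ≠ b → c ≠ d → ∃ g : G, g • a = c ∧ g • b = d :=
    fun hab hcd => MulAction.is_two_pretransitive_iff.mp h2 hab hcd
  -- three distinct orbits
  obtain ⟨q₁, q₂, h12⟩ : ∃ q₁ q₂ : MulAction.orbitRel.Quotient H Ω, q₁ ≠ q₂ := by
    by_contra hcon
    push Not at hcon
    apply hnt
    constructor
    intro a b
    have : (Quotient.mk'' b : MulAction.orbitRel.Quotient H Ω) = Quotient.mk'' a := hcon _ _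
    rw [Quotient.eq''] at this
    obtain ⟨h, hh⟩ := this
    exact ⟨h, hh⟩
  obtain ⟨q₃, h31, h32⟩ : ∃ q₃ : MulAction.orbitRel.Quotient H Ω, q₃ ≠ q₁ ∧ q₃ ≠ q₂ := by
    by_contra hcon
    push Not at hcon
    apply hne
    rw [Nat.card_eq_two_iff]
    refine ⟨q₁, q₂, h12, ?_⟩
    ext q
    simp only [Set.mem_insert_iff, Set.mem_singleton_iff, Set.mem_univ, iff_true]
    by_cases h : q = q₁
    · exact Or.inl h
    · exact Or.inr (hcon q h)
  obtain ⟨o₁, ho₁⟩ : ∃ o : Ω, (Quotient.mk'' o : MulAction.orbitRel.Quotient H Ω) = q₁ :=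
    Quotient.exists_rep q₁
  obtain ⟨o₂, ho₂⟩ : ∃ o : Ω, (Quotient.mk'' o : MulAction.orbitRel.Quotient H Ω) = q₂ :=
    Quotient.exists_rep q₂
  obtain ⟨o₃, ho₃⟩ : ∃ o : Ω, (Quotient.mk'' o : MulAction.orbitRel.Quotient H Ω) = q₃ :=
    Quotient.exists_rep q₃
  have ho12 : o₁ ≠ o₂ := fun h => h12 (by rw [← ho₁, ← ho₂, h])
  have ho13 : o₁ ≠ o₃ := fun h => h31 (by rw [← ho₁, ← ho₃, h])
  -- existence of cosets with prescribed classes
  have hex : ∀ (o o' ω ω' : Ω), o ≠ o' → ω ≠ ω' →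
      ∃ x : G ⧸ H, cls H x ω = Quotient.mk'' o ∧ cls H x ω' = Quotient.mk'' o' := by
    intro o o' ω ω' hoo hωω
    obtain ⟨g, hg1, hg2⟩ := h2t hoo hωω
    refine ⟨(g : G ⧸ H), ?_, ?_⟩
    · rw [cls_mk, ← hg1, inv_smul_smul]
    · rw [cls_mk, ← hg2, inv_smul_smul]
  -- the incidence matrices
  let A : MulAction.orbitRel.Quotient H Ω → G ⧸ H → Ω → ℚ :=
    fun q x ω => if cls H x ω = q then 1 else 0
  have hA01 : ∀ q x ω, 0 ≤ A q x ω := by
    intro q x ω
    simp only [A]
    split_ifs <;> norm_num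
  have hE : ∀ (q q' : MulAction.orbitRel.Quotient H Ω) (k : G) (ω ω' : Ω),
      ∑ x, A q x (k • ω) * A q' x (k • ω') = ∑ x, A q x ω * A q' x ω' := by
    intro q q' k ω ω'
    symm
    apply Fintype.sum_equiv (MulAction.toPerm k)
    intro x
    simp only [A, MulAction.toPerm_apply, cls_smul]
  set ω₀ := o₁ with hω₀
  set ω₁ := o₂ with hω₁
  have hω : ω₁ ≠ ω₀ := Ne.symm ho12
  have hconst : ∀ (q q' : MulAction.orbitRel.Quotient H Ω) (ω ω' : Ω), ω ≠ ω' →
      ∑ x, A q x ω * A q' x ω' = ∑ x, A q x ω₁ * A q' x ω₀ := by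
    intro q q' ω ω' hωω
    obtain ⟨k, hk1, hk2⟩ := h2t hω hωω
    rw [← hk1, ← hk2, hE]
  have hdiag : ∀ (q : MulAction.orbitRel.Quotient H Ω) (ω : Ω),
      ∑ x, A q x ω * A q x ω = ∑ x, A q x ω₀ * A q x ω₀ := by
    intro q ω
    have : MulAction.IsPretransitive G Ω := MulAction.isPretransitive_of_is_two_pretransitive
    obtain ⟨k, hk⟩ := MulAction.exists_smul_eq G ω₀ ω
    rw [← hk, hE]
  have hdisj : ∀ (q q' : MulAction.orbitRel.Quotient H Ω) (ω : Ω), q ≠ q' →
      ∑ x, A q x ω * A q' x ω = 0 := by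
    intro q q' ω hqq
    apply Finset.sum_eq_zero
    intro x _
    simp only [A]
    by_cases h : cls H x ω = q
    · rw [if_pos h, if_neg (fun h' => hqq (h.symm.trans h')), mul_zero]
    · rw [if_neg h, zero_mul]
  -- the Gram matrix of A q₁
  set l : ℚ := ∑ x, A q₁ x ω₁ * A q₁ x ω₀ with hl
  set c : ℚ := ∑ x, A q₁ x ω₀ * A q₁ x ω₀ - l with hc
  have hl0 : 0 ≤ l := Finset.sum_nonneg (fun x _ => mul_nonneg (hA01 _ _ _) (hA01 _ _ _))
  have hc0 : 0 < c := by
    have : c = ∑ x, A q₁ x ω₀ * (A q₁ x ω₀ - A q₁ x ω₁) := by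
      rw [hc, hl, ← Finset.sum_sub_distrib]
      apply Finset.sum_congr rfl
      intro x _
      ring
    rw [this]
    apply Finset.sum_pos'
    · intro x _
      simp only [A]
      split_ifs <;> norm_num
    · obtain ⟨x, hx1, hx2⟩ := hex o₁ o₂ ω₀ ω₁ ho12 (Ne.symm hω)
      refine ⟨x, Finset.mem_univ x, ?_⟩
      simp only [A]
      rw [if_pos (hx1.trans ho₁), if_neg (fun h => h12 (h.symm.trans (hx2.trans ho₂)))]
      norm_num
  have hGram : ∀ ω ω', ∑ x, A q₁ x ω * A q₁ x ω' = if ω = ω' then c + l else l := by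
    intro ω ω'
    split_ifs with h
    · rw [← h, hdiag q₁ ω, hc]; ring
    · rw [hconst q₁ q₁ ω ω' h]
  -- the vector w
  set μ₂ : ℚ := ∑ x, A q₁ x ω₁ * A q₂ x ω₀ with hμ₂
  set μ₃ : ℚ := ∑ x, A q₁ x ω₁ * A q₃ x ω₀ with hμ₃
  have hμ₃pos : 0 < μ₃ := by
    apply Finset.sum_pos'
    · intro x _
      exact mul_nonneg (hA01 _ _ _) (hA01 _ _ _)
    · obtain ⟨x, hx1, hx2⟩ := hex o₁ o₃ ω₁ ω₀ ho13 hω
      refine ⟨x, Finset.mem_univ x, ?_⟩
      simp only [A]
      rw [if_pos (hx1.trans ho₁), if_pos (hx2.trans ho₃)]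
      norm_num
  let w : G ⧸ H → ℚ := fun x => μ₃ * A q₂ x ω₀ - μ₂ * A q₃ x ω₀
  have hw : ∀ ω, ∑ x, A q₁ x ω * w x = 0 := by
    intro ω
    have hsplit : ∑ x, A q₁ x ω * w x
        = μ₃ * ∑ x, A q₁ x ω * A q₂ x ω₀ - μ₂ * ∑ x, A q₁ x ω * A q₃ x ω₀ := by
      rw [Finset.mul_sum, Finset.mul_sum, ← Finset.sum_sub_distrib]
      apply Finset.sum_congr rfl
      intro x _
      simp only [w]
      ring
    rw [hsplit]
    by_cases h : ω = ω₀
    · rw [h, hdisj q₁ q₂ ω₀ h12, hdisj q₁ q₃ ω₀ (Ne.symm h31)]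
      ring
    · rw [hconst q₁ q₂ ω ω₀ h, hconst q₁ q₃ ω ω₀ h]
      ring
  have hw0 : w = 0 := la hcard (A q₁) c l hc0 hl0 hGram w hw
  obtain ⟨x, hx1, _⟩ := hex o₂ o₁ ω₀ ω₁ (Ne.symm ho12) (Ne.symm hω)
  have hwx : w x = μ₃ := by
    simp only [w, A]
    rw [if_pos (hx1.trans ho₂), if_neg (fun h => h32 (h.symm.trans (hx1.trans ho₂)))]
    ring
  rw [hw0] at hwx
  exact hμ₃pos.ne' hwx.symm

end Cfsg.Agent.S3704
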