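import Mathlib
import Cfsg.Statements.S3707

set_option autoImplicit false
open Cfsg

namespace Cfsg.Agent.S3707

open scoped Classical Pointwise

section Core

variable {G Ω : Type*} [Group G] [MulAction G Ω]

/-- the ternary relation: `γ` and `δ` lie in a common translate `g • B'` with `g • a = α`. -/
def Rel (G : Type*) {Ω : Type*} [Group G] [MulAction G Ω] (a : Ω) (B' : Finset Ω)
    (α γ δ : Ω) : Prop :=
  ∃ g : G, g • a = α ∧ g⁻¹ • γ ∈ B' ∧ g⁻¹ • δ ∈ B'

theorem rel_symm {a : Ω} {B' : Finset Ω} {α γ δ : Ω} (h : Rel G a B' α γ δ) :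
    Rel G a B' α δ γ := by
  obtain ⟨g, hg, h1, h2⟩ := h
  exact ⟨g, hg, h2, h1⟩

theorem rel_witness {a : Ω} {B' : Finset Ω}
    (hblock : ∀ g : G, g • a = a → ∀ x ∈ B', g • x ∈ B' → ∀ y ∈ B', g • y ∈ B')
    {α γ δ : Ω} {g : G} (hg : g • a = α) (h1 : g⁻¹ • γ ∈ B') (hr : Rel G a B' α γ δ) :
    g⁻¹ • δ ∈ B' := by
  obtain ⟨g', hg', h3, h4⟩ := hr
  have hs : (g⁻¹ * g') • a = a := by rw [mul_smul, hg', ← hg, inv_smul_smul]
  have h5 := hblock (g⁻¹ * g') hs (g'⁻¹ • γ) h3 (by rw [mul_smul, smul_inv_smul]; exact h1)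
    (g'⁻¹ • δ) h4
  rwa [mul_smul, smul_inv_smul] at h5

theorem rel_trans {a : Ω} {B' : Finset Ω}
    (hblock : ∀ g : G, g • a = a → ∀ x ∈ B', g • x ∈ B' → ∀ y ∈ B', g • y ∈ B')
    {α γ δ ε : Ω} (h : Rel G a B' α γ δ) (h' : Rel G a B' α δ ε) : Rel G a B' α γ ε := by
  obtain ⟨g, hg, h1, h2⟩ := h
  exact ⟨g, hg, h1, rel_witness hblock hg h2 h'⟩

theorem rel_smul {a : Ω} {B' : Finset Ω} {α γ δ : Ω} (h : G) (hr : Rel G a B' α γ δ) :
    Rel G a B' (h • α) (h • γ) (h • δ) := by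
  obtain ⟨g, hg, h1, h2⟩ := hr
  refine ⟨h * g, by rw [mul_smul, hg], ?_, ?_⟩
  · rw [mul_inv_rev, mul_smul, inv_smul_smul]; exact h1
  · rw [mul_inv_rev, mul_smul, inv_smul_smul]; exact h2

theorem rel_ne_left {a : Ω} {B' : Finset Ω} (haB : a ∉ B') {α γ δ : Ω}
    (hr : Rel G a B' α γ δ) : γ ≠ α := by
  obtain ⟨g, hg, h1, h2⟩ := hr
  rintro rfl
  rw [← hg, inv_smul_smul] at h1
  exact haB h1

theorem rel_exists {a : Ω} {B' : Finset Ω} (haB : a ∉ B') (hB : B'.Nonempty)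
    (h2t : ∀ {x y z w : Ω}, x ≠ y → z ≠ w → ∃ g : G, g • x = z ∧ g • y = w)
    {α γ : Ω} (h : α ≠ γ) : ∃ g : G, g • a = α ∧ g⁻¹ • γ ∈ B' := by
  obtain ⟨b, hb⟩ := hB
  have hab : a ≠ b := fun h' => haB (h' ▸ hb)
  obtain ⟨g, hg1, hg2⟩ := h2t hab h
  exact ⟨g, hg1, by rw [← hg2, inv_smul_smul]; exact hb⟩

theorem rel_card [Fintype Ω] {a : Ω} {B' : Finset Ω} (haB : a ∉ B') (hB : B'.Nonempty)
    (hblock : ∀ g : G, g • a = a → ∀ x ∈ B', g • x ∈ B' → ∀ y ∈ B', g • y ∈ B')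
    (h2t : ∀ {x y z w : Ω}, x ≠ y → z ≠ w → ∃ g : G, g • x = z ∧ g • y = w)
    {α γ : Ω} (h : α ≠ γ) :
    (Finset.univ.filter (fun δ => Rel G a B' α γ δ)).card = B'.card ∧
      γ ∈ Finset.univ.filter (fun δ => Rel G a B' α γ δ) := by
  obtain ⟨g, hg1, hg2⟩ := rel_exists haB hB h2t h
  have heq : Finset.univ.filter (fun δ => Rel G a B' α γ δ) = B'.image (fun x => g • x) := by
    ext δ
    simp only [Finset.mem_filter, Finset.mem_univ, true_and, Finset.mem_image]
    constructor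
    · intro hr
      exact ⟨g⁻¹ • δ, rel_witness hblock hg1 hg2 hr, smul_inv_smul g δ⟩
    · rintro ⟨x, hx, rfl⟩
      exact ⟨g, hg1, hg2, by rw [inv_smul_smul]; exact hx⟩
  refine ⟨?_, ?_⟩
  · rw [heq, Finset.card_image_of_injective _ (MulAction.injective g)]
  · simp only [Finset.mem_filter, Finset.mem_univ, true_and]
    exact ⟨g, hg1, hg2, hg2⟩

theorem rel_jordan {a : Ω} {B' : Finset Ω}
    (hblock : ∀ g : G, g • a = a → ∀ x ∈ B', g • x ∈ B' → ∀ y ∈ B', g • y ∈ B')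
    {Γ : Finset Ω} (htr : ∀ x ∈ Γ, ∀ y ∈ Γ, ∃ g : G, (∀ z, z ∉ Γ → g • z = z) ∧ g • x = y)
    {α γ : Ω} (hα : α ∉ Γ) (hγ : γ ∈ Γ) :
    (∀ δ, Rel G a B' α γ δ → δ ∈ Γ) ∨ (∀ γ' ∈ Γ, Rel G a B' α γ γ') := by
  by_cases hc : ∀ δ, Rel G a B' α γ δ → δ ∈ Γ
  · exact Or.inl hc
  · right
    push Not at hc
    obtain ⟨β, hβ, hβΓ⟩ := hc
    intro γ' hγ'
    obtain ⟨h, hfix, hh⟩ := htr γ hγ γ' hγ'
    have h1 := rel_smul h hβ
    rw [hfix α hα, hh, hfix β hβΓ] at h1
    exact rel_trans hblock hβ (rel_symm h1)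

theorem count_eq [Fintype Ω] {a : Ω} {B' : Finset Ω} (haB : a ∉ B') (hB : B'.Nonempty)
    (hblock : ∀ g : G, g • a = a → ∀ x ∈ B', g • x ∈ B' → ∀ y ∈ B', g • y ∈ B')
    (h2t : ∀ {x y z w : Ω}, x ≠ y → z ≠ w → ∃ g : G, g • x = z ∧ g • y = w)
    {γ δ₀ : Ω} (h : γ ≠ δ₀) :
    (Finset.univ.filter (fun α => Rel G a B' α γ δ₀)).card = B'.card - 1 := by
  have key := Finset.sum_card_bipartiteAbove_eq_sum_card_bipartiteBelow
    (s := (Finset.univ : Finset Ω).erase γ) (t := (Finset.univ : Finset Ω).erase γ)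
    (fun α δ => Rel G a B' α γ δ)
  have hL : ∀ α ∈ (Finset.univ : Finset Ω).erase γ,
      (((Finset.univ : Finset Ω).erase γ).bipartiteAbove (fun α δ => Rel G a B' α γ δ) α).card
        = B'.card - 1 := by
    intro α hα
    have hαγ : α ≠ γ := (Finset.mem_erase.mp hα).1
    obtain ⟨hc, hmem⟩ := rel_card haB hB hblock h2t hαγ
    have : ((Finset.univ : Finset Ω).erase γ).bipartiteAbove (fun α δ => Rel G a B' α γ δ) α
        = (Finset.univ.filter (fun δ => Rel G a B' α γ δ)).erase γ := by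
      ext δ
      simp only [Finset.bipartiteAbove, Finset.mem_filter, Finset.mem_erase, Finset.mem_univ,
        true_and, and_true]
    rw [this, Finset.card_erase_of_mem hmem, hc]
  have hR : ∀ δ ∈ (Finset.univ : Finset Ω).erase γ,
      (((Finset.univ : Finset Ω).erase γ).bipartiteBelow (fun α δ => Rel G a B' α γ δ) δ).card
        = (Finset.univ.filter (fun α => Rel G a B' α γ δ₀)).card := by
    intro δ hδ
    have hδγ : δ ≠ γ := (Finset.mem_erase.mp hδ).1
    obtain ⟨k, hk1, hk2⟩ := h2t h (Ne.symm hδγ)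
    have : ((Finset.univ : Finset Ω).erase γ).bipartiteBelow (fun α δ => Rel G a B' α γ δ) δ
        = (Finset.univ.filter (fun α => Rel G a B' α γ δ₀)).image (fun x => k • x) := by
      ext α
      simp only [Finset.bipartiteBelow, Finset.mem_filter, Finset.mem_erase, Finset.mem_univ,
        true_and, and_true, Finset.mem_image]
      constructor
      · rintro ⟨_, hr⟩
        refine ⟨k⁻¹ • α, ?_, smul_inv_smul k α⟩
        have h1 := rel_smul k⁻¹ hr
        have e1 : k⁻¹ • γ = γ := by rw [inv_smul_eq_iff, hk1]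
        have e2 : k⁻¹ • δ = δ₀ := by rw [inv_smul_eq_iff, hk2]
        rwa [e1, e2] at h1
      · rintro ⟨x, hx, rfl⟩
        have h1 := rel_smul k hx
        rw [hk1, hk2] at h1
        exact ⟨(rel_ne_left haB h1).symm, h1⟩
    rw [this, Finset.card_image_of_injective _ (MulAction.injective k)]
  rw [Finset.sum_congr rfl hL, Finset.sum_congr rfl hR, Finset.sum_const, Finset.sum_const,
    smul_eq_mul, smul_eq_mul] at key
  have hpos : 0 < ((Finset.univ : Finset Ω).erase γ).card :=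
    Finset.card_pos.mpr ⟨δ₀, Finset.mem_erase.mpr ⟨Ne.symm h, Finset.mem_univ _⟩⟩
  exact (Nat.eq_of_mul_eq_mul_left hpos key).symm

theorem core [Fintype Ω] (a : Ω) (B' : Finset Ω) (haB : a ∉ B')
    (hblock : ∀ g : G, g • a = a → ∀ x ∈ B', g • x ∈ B' → ∀ y ∈ B', g • y ∈ B')
    (h2t : ∀ {x y z w : Ω}, x ≠ y → z ≠ w → ∃ g : G, g • x = z ∧ g • y = w)
    (Γ : Finset Ω) (htr : ∀ x ∈ Γ, ∀ y ∈ Γ, ∃ g : G, (∀ z, z ∉ Γ → g • z = z) ∧ g • x = y)
    (hk2 : 2 ≤ B'.card) (hkn : 2 * B'.card ≤ Fintype.card Ω - 1)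
    (hm2 : 2 ≤ Γ.card) (hmn : 2 * Γ.card ≤ Fintype.card Ω) : False := by
  have hB : B'.Nonempty := Finset.card_pos.mp (by omega)
  obtain ⟨γ₀, hγ₀⟩ : Γ.Nonempty := Finset.card_pos.mp (by omega)
  have key := Finset.sum_card_bipartiteAbove_eq_sum_card_bipartiteBelow
    (s := Γᶜ) (t := Γ.erase γ₀) (fun α δ => Rel G a B' α γ₀ δ)
  have hlow : ∀ α ∈ Γᶜ, min B'.card Γ.card - 1 ≤
      ((Γ.erase γ₀).bipartiteAbove (fun α δ => Rel G a B' α γ₀ δ) α).card := by
    intro α hα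
    have hαΓ : α ∉ Γ := Finset.mem_compl.mp hα
    have hαγ : α ≠ γ₀ := fun h => hαΓ (h ▸ hγ₀)
    obtain ⟨hc, hmem⟩ := rel_card haB hB hblock h2t hαγ
    rcases rel_jordan hblock htr hαΓ hγ₀ with hA | hBB
    · have : (Γ.erase γ₀).bipartiteAbove (fun α δ => Rel G a B' α γ₀ δ) α
          = (Finset.univ.filter (fun δ => Rel G a B' α γ₀ δ)).erase γ₀ := by
        ext δ
        simp only [Finset.bipartiteAbove, Finset.mem_filter, Finset.mem_erase, Finset.mem_univ,
          true_and]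
        constructor
        · rintro ⟨⟨h1, _⟩, h3⟩
          exact ⟨h1, h3⟩
        · rintro ⟨h1, h3⟩
          exact ⟨⟨h1, hA δ h3⟩, h3⟩
      rw [this, Finset.card_erase_of_mem hmem, hc]
      have := min_le_left B'.card Γ.card
      omega
    · have : (Γ.erase γ₀).bipartiteAbove (fun α δ => Rel G a B' α γ₀ δ) α = Γ.erase γ₀ := by
        ext δ
        simp only [Finset.bipartiteAbove, Finset.mem_filter, Finset.mem_erase]
        constructor
        · rintro ⟨h1, _⟩
          exact h1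
        · rintro ⟨h1, h2⟩
          exact ⟨⟨h1, h2⟩, hBB δ h2⟩
      rw [this, Finset.card_erase_of_mem hγ₀]
      have := min_le_right B'.card Γ.card
      omega
  have hup : ∀ δ ∈ Γ.erase γ₀,
      (Γᶜ.bipartiteBelow (fun α δ => Rel G a B' α γ₀ δ) δ).card ≤ B'.card - 1 := by
    intro δ hδ
    have hδγ : γ₀ ≠ δ := (Finset.mem_erase.mp hδ).1.symm
    rw [← count_eq haB hB hblock h2t hδγ]
    apply Finset.card_le_card
    intro α hα
    simp only [Finset.bipartiteBelow, Finset.mem_filter] at hα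
    simp only [Finset.mem_filter, Finset.mem_univ, true_and]
    exact hα.2
  have h1 := Finset.card_nsmul_le_sum _ _ _ hlow
  have h2 := Finset.sum_le_card_nsmul _ _ _ hup
  rw [key] at h1
  have h3 := le_trans h1 h2
  rw [smul_eq_mul, smul_eq_mul, Finset.card_compl, Finset.card_erase_of_mem hγ₀] at h3
  -- (n - m) * (min k m - 1) ≤ (m - 1) * (k - 1)
  rcases le_total B'.card Γ.card with hkm | hmk
  · rw [min_eq_left hkm] at h3
    have h4 : Fintype.card Ω - Γ.card ≤ Γ.card - 1 :=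
      Nat.le_of_mul_le_mul_right h3 (by omega)
    omega
  · rw [min_eq_right hmk, mul_comm (Γ.card - 1)] at h3
    have h4 : Fintype.card Ω - Γ.card ≤ B'.card - 1 :=
      Nat.le_of_mul_le_mul_right h3 (by omega)
    omega

end Core

open MulAction in
/-- Let G be a finite primitive permutation group on Ω of degree n and Γ ⊂ Ω a subset with 1 < #Γ ≤ n/2 such that the pointwise stabilizer of Ω ∖ Γ is transitive on Γ. Then G is 3-transitive on Ω. -/
theorem result {G Ω : Type*} [Group G] [Finite G] [MulAction G Ω] [FaithfulSMul G Ω] [Finite Ω] (hprim : MulAction.IsPreprimitive G Ω) (Γ : Set Ω) (h1 : 1 < Γ.ncard) (h2 : 2 * Γ.ncard ≤ Nat.card Ω) (htr : ∀ x ∈ Γ, ∀ y ∈ Γ, ∃ g : G, (∀ z ∉ Γ, g • z = z) ∧ g • x = y) : MulAction.IsMultiplyPretransitive G Ω 3 := by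
  have hfin : Fintype Ω := Fintype.ofFinite Ω
  have hpt : IsPretransitive G Ω := hprim.toIsPretransitive
  have hcard : Γ.ncard + Γᶜ.ncard = Nat.card Ω := Set.ncard_add_ncard_compl Γ
  -- step 1: 2-transitivity
  have h2trans : IsMultiplyPretransitive G Ω 2 := by
    have hn : Γᶜ.ncard = (Γᶜ.ncard - 1) + 1 := by omega
    apply hprim.is_two_pretransitive hn (by omega)
    constructor
    rintro ⟨x, hx⟩ ⟨y, hy⟩
    have hxΓ : x ∈ Γ := by
      by_contra h; exact hx h
    have hyΓ : y ∈ Γ := by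
      by_contra h; exact hy h
    obtain ⟨g, hgfix, hgxy⟩ := htr x hxΓ y hyΓ
    have hg : g ∈ fixingSubgroup G Γᶜ := by
      rw [mem_fixingSubgroup_iff]
      intro z hz
      exact hgfix z hz
    exact ⟨⟨g, hg⟩, Subtype.ext hgxy⟩
  have h2t : ∀ {x y z w : Ω}, x ≠ y → z ≠ w → ∃ g : G, g • x = z ∧ g • y = w :=
    fun hxy hzw => is_two_pretransitive_iff.mp h2trans hxy hzw
  -- a base point outside Γ
  obtain ⟨a, ha⟩ : (Γᶜ).Nonempty := by
    rw [← Set.ncard_pos]; omega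
  have haΓ : a ∉ Γ := ha
  have hptX : IsPretransitive (stabilizer G a) (SubMulAction.ofStabilizer G a) := by
    rw [← is_one_pretransitive_iff]
    exact (SubMulAction.ofStabilizer.isMultiplyPretransitive (n := 1) (a := a)).mp
      (isMultiplyPretransitive_of_le (n := 2) (by norm_num) (by omega))
  have hcardX : Nat.card (SubMulAction.ofStabilizer G a) = Nat.card Ω - 1 :=
    SubMulAction.nat_card_ofStabilizer_eq G a
  -- step 2: the stabilizer of `a` is primitive on the remaining points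
  have hprimX : IsPreprimitive (stabilizer G a) (SubMulAction.ofStabilizer G a) := by
    refine ⟨fun {B} hB => ?_⟩
    by_contra htriv
    rw [IsTrivialBlock, not_or] at htriv
    obtain ⟨hns, hnu⟩ := htriv
    have hBnt : B.Nontrivial := Set.not_subsingleton_iff.mp hns
    have hk2 : 2 ≤ B.ncard := Set.one_lt_ncard_iff_nontrivial.mpr hBnt
    have hkn : 2 * B.ncard ≤ Nat.card Ω - 1 := by
      by_contra hlt
      apply hnu
      apply hB.eq_univ_of_card_lt
      rw [hcardX]; omega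
    let B' : Finset Ω := (Subtype.val '' B).toFinset
    have hB'card : B'.card = B.ncard := by
      rw [← Set.ncard_eq_toFinset_card', Set.ncard_image_of_injective _ Subtype.val_injective]
    have haB : a ∉ B' := by
      simp only [B', Set.mem_toFinset, Set.mem_image, not_exists, not_and]
      intro x _ hxa
      exact x.2 hxa
    have hblock : ∀ g : G, g • a = a → ∀ x ∈ B', g • x ∈ B' → ∀ y ∈ B', g • y ∈ B' := by
      intro g hg x hx hgx y hy
      simp only [B', Set.mem_toFinset, Set.mem_image] at hx hgx hy ⊢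
      obtain ⟨x', hx', rfl⟩ := hx
      obtain ⟨z', hz', hz⟩ := hgx
      obtain ⟨y', hy', rfl⟩ := hy
      have hs : ((⟨g, hg⟩ : stabilizer G a) • x') = z' := Subtype.ext hz.symm
      have hsB : (⟨g, hg⟩ : stabilizer G a) • B = B :=
        hB.smul_eq_of_mem hx' (by rw [hs]; exact hz')
      refine ⟨(⟨g, hg⟩ : stabilizer G a) • y', ?_, rfl⟩
      rw [← hsB]
      exact Set.smul_mem_smul_set hy'
    have htr' : ∀ x ∈ Γ.toFinset, ∀ y ∈ Γ.toFinset,
        ∃ g : G, (∀ z, z ∉ Γ.toFinset → g • z = z) ∧ g • x = y := by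
      intro x hx y hy
      rw [Set.mem_toFinset] at hx hy
      obtain ⟨g, hg1, hg2⟩ := htr x hx y hy
      exact ⟨g, fun z hz => hg1 z (by rwa [Set.mem_toFinset] at hz), hg2⟩
    have hΓcard : Γ.toFinset.card = Γ.ncard := (Set.ncard_eq_toFinset_card' Γ).symm
    have hΩ : Fintype.card Ω = Nat.card Ω := (Nat.card_eq_fintype_card).symm
    exact core (G := G) a B' haB hblock h2t Γ.toFinset htr' (by omega) (by omega) (by omega)
      (by omega)
  -- step 3: the stabilizer of `a` is 2-transitive on the remaining points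
  have h2X : IsMultiplyPretransitive (stabilizer G a) (SubMulAction.ofStabilizer G a) 2 := by
    let s' : Set (SubMulAction.ofStabilizer G a) := {x | (x : Ω) ∉ Γ}
    have hs'img : Subtype.val '' s' = Γᶜ \ {a} := by
      ext x
      simp only [Set.mem_image, Set.mem_sdiff, Set.mem_compl_iff, Set.mem_singleton_iff, s',
        Set.mem_ofPred_eq]
      constructor
      · rintro ⟨y, hy, rfl⟩
        exact ⟨hy, y.2⟩
      · rintro ⟨hx, hxa⟩
        exact ⟨⟨x, hxa⟩, hx, rfl⟩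
    have hs'card : s'.ncard = Γᶜ.ncard - 1 := by
      rw [← Set.ncard_image_of_injective _ Subtype.val_injective, hs'img,
        Set.ncard_sdiff_singleton_of_mem ha]
    have hn : s'.ncard = (Γᶜ.ncard - 2) + 1 := by omega
    apply hprimX.is_two_pretransitive hn (by rw [hcardX]; omega)
    constructor
    rintro ⟨⟨x, hxa⟩, hx⟩ ⟨⟨y, hya⟩, hy⟩
    have hxΓ : x ∈ Γ := by
      by_contra h; exact hx h
    have hyΓ : y ∈ Γ := by
      by_contra h; exact hy h
    obtain ⟨g, hgfix, hgxy⟩ := htr x hxΓ y hyΓ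
    have hga : g ∈ stabilizer G a := hgfix a haΓ
    have hg : (⟨g, hga⟩ : stabilizer G a) ∈ fixingSubgroup (stabilizer G a) s' := by
      rw [mem_fixingSubgroup_iff]
      intro z hz
      exact Subtype.ext (hgfix z hz)
    exact ⟨⟨⟨g, hga⟩, hg⟩, Subtype.ext (Subtype.ext hgxy)⟩
  -- step 4
  exact (SubMulAction.ofStabilizer.isMultiplyPretransitive (n := 2) (a := a)).mpr h2X

end Cfsg.Agent.S3707
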