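-- Statement S3733: a partitioned group acting on an abelian group has a member with fixed points.
import Cfsg.Statements.S3733

set_option autoImplicit false
open Cfsg
open scoped IsMulCommutative

namespace Cfsg.Agent.S3733

variable {G : Type*} [Group G]

/-- conjugation by an element normalizing `V`, as an endomorphism of `V` (trivial map for other elements) -/
noncomputable def cjHom (V : Subgroup G) (g : G) : ↥V →* ↥V := by
  classical
  exact if hg : g ∈ Subgroup.normalizer (V : Set G) then
    { toFun := fun v => ⟨g * v * g⁻¹, (Subgroup.mem_normalizer_iff.1 hg v).1 v.2⟩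
      map_one' := by ext; simp
      map_mul' := by intro a b; ext; simp [mul_assoc] }
  else 1

theorem cjHom_coe (V : Subgroup G) (g : G) (hg : g ∈ Subgroup.normalizer (V : Set G)) (v : ↥V) :
    ((cjHom V g v : ↥V) : G) = g * v * g⁻¹ := by
  unfold cjHom
  simp [hg]

theorem cjHom_mul (V : Subgroup G) (g h : G) (hg : g ∈ Subgroup.normalizer (V : Set G))
    (hh : h ∈ Subgroup.normalizer (V : Set G)) (v : ↥V) :
    cjHom V (g * h) v = cjHom V g (cjHom V h v) := by
  apply Subtype.ext
  rw [cjHom_coe V _ (mul_mem hg hh), cjHom_coe V _ hg, cjHom_coe V _ hh]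
  simp [mul_assoc]

theorem cjHom_one (V : Subgroup G) (v : ↥V) : cjHom V 1 v = v := by
  apply Subtype.ext
  rw [cjHom_coe V _ (one_mem _)]
  simp

/-- Let A and V be subgroups of a finite group with V abelian and nontrivial and A normalizing V. Suppose a nonempty finite family of proper subgroups of A partitions A: every non-identity element of A lies in exactly one member. If the number of members minus one is coprime to the order of V, then some member B of the family has a non-identity fixed point on V, that is V ∩ C(B) ≠ 1. -/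
theorem result {G : Type*} [Group G] [Finite G] (A V : Subgroup G) (hVab : IsMulCommutative V) (hV : V ≠ ⊥) (hAV : A ≤ Subgroup.normalizer (V : Set G)) (𝒜 : Finset (Subgroup G)) (hne : 𝒜.Nonempty) (hprop : ∀ B ∈ 𝒜, B < A) (hpart : ∀ a ∈ A, a ≠ 1 → ∃! B, B ∈ 𝒜 ∧ a ∈ B) (hk : (𝒜.card - 1).Coprime (Nat.card V)) : ∃ B ∈ 𝒜, V ⊓ Subgroup.centralizer (B : Set G) ≠ ⊥ := by
  classical
  haveI : Fintype G := Fintype.ofFinite G
  haveI : IsMulCommutative V := hVab
  by_contra hcon
  push Not at hcon
  -- the norm map of a subgroup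
  let nrm : Subgroup G → ↥V → ↥V := fun B v => ∏ g ∈ Finset.univ.filter (fun g => g ∈ B), cjHom V g v
  -- the norm is fixed by B
  have hfix : ∀ B : Subgroup G, B ≤ A → ∀ v : ↥V, ((nrm B v : ↥V) : G) ∈ V ⊓ Subgroup.centralizer (B : Set G) := by
    intro B hBA v
    refine Subgroup.mem_inf.2 ⟨(nrm B v).2, ?_⟩
    rw [Subgroup.mem_centralizer_iff]
    intro b hb
    have hbN : b ∈ Subgroup.normalizer (V : Set G) := hAV (hBA hb)
    have h1 : cjHom V b (nrm B v) = nrm B v := by
      show cjHom V b (∏ g ∈ Finset.univ.filter (fun g => g ∈ B), cjHom V g v) = _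
      rw [map_prod]
      apply Finset.prod_equiv (Equiv.mulLeft b)
      · intro g
        simp only [Finset.mem_filter, Finset.mem_univ, true_and, Equiv.coe_mulLeft]
        exact ⟨fun hg => mul_mem hb hg, fun hg => by simpa using mul_mem (inv_mem hb) hg⟩
      · intro g hg
        have hg' : g ∈ B := by simpa using hg
        rw [Equiv.coe_mulLeft, cjHom_mul V b g hbN (hAV (hBA hg'))]
    have h2 := congrArg Subtype.val h1
    rw [cjHom_coe V b hbN] at h2
    have h3 : b * ((nrm B v : ↥V) : G) = (b * ((nrm B v : ↥V) : G) * b⁻¹) * b := by simp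
    rw [h3, h2]
  -- all norms are trivial
  have hB1 : ∀ B ∈ 𝒜, ∀ v : ↥V, nrm B v = 1 := by
    intro B hB v
    have := hfix B (hprop B hB).le v
    rw [hcon B hB] at this
    exact Subtype.ext this
  obtain ⟨B0, hB0⟩ := hne
  have hA1 : ∀ v : ↥V, nrm A v = 1 := by
    intro v
    have h1 := hfix A le_rfl v
    have h2 : V ⊓ Subgroup.centralizer (A : Set G) ≤ V ⊓ Subgroup.centralizer (B0 : Set G) :=
      inf_le_inf_left V (Subgroup.centralizer_le (hprop B0 hB0).le)
    have h3 := h2 h1
    rw [hcon B0 hB0] at h3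
    exact Subtype.ext h3
  -- the counting identity
  have hcount : ∀ v : ↥V, ∏ B ∈ 𝒜, nrm B v = nrm A v * v ^ (𝒜.card - 1) := by
    intro v
    have step1 : ∀ B ∈ 𝒜, nrm B v = ∏ g ∈ Finset.univ.filter (fun g => g ∈ A), if g ∈ B then cjHom V g v else 1 := by
      intro B hB
      show ∏ g ∈ Finset.univ.filter (fun g => g ∈ B), cjHom V g v = _
      rw [← Finset.prod_filter, Finset.filter_filter]
      apply Finset.prod_congr _ (fun _ _ => rfl)
      ext g
      simp only [Finset.mem_filter, Finset.mem_univ, true_and]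
      exact ⟨fun h => ⟨(hprop B hB).le h, h⟩, fun h => h.2⟩
    rw [Finset.prod_congr rfl step1, Finset.prod_comm]
    have step2 : ∀ g ∈ Finset.univ.filter (fun g => g ∈ A),
        (∏ B ∈ 𝒜, if g ∈ B then cjHom V g v else 1) = cjHom V g v * (if g = 1 then v ^ (𝒜.card - 1) else 1) := by
      intro g hg
      have hgA : g ∈ A := by simpa using hg
      rw [← Finset.prod_filter, Finset.prod_const]
      by_cases hg1 : g = 1
      · subst hg1
        have : 𝒜.filter (fun B => (1 : G) ∈ B) = 𝒜 := by
          apply Finset.filter_true_of_mem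
          intro B _; exact one_mem B
        rw [this, cjHom_one, if_pos rfl, ← pow_succ']
        congr 1
        have : 0 < 𝒜.card := Finset.card_pos.2 ⟨B0, hB0⟩
        omega
      · rw [if_neg hg1, mul_one]
        obtain ⟨B, hB, huniq⟩ := hpart g hgA hg1
        have : 𝒜.filter (fun B => g ∈ B) = {B} := by
          ext B'
          simp only [Finset.mem_filter, Finset.mem_singleton]
          exact ⟨fun h => huniq B' h, fun h => h ▸ hB⟩
        rw [this, Finset.card_singleton, pow_one]
    rw [Finset.prod_congr rfl step2, Finset.prod_mul_distrib]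
    congr 1
    rw [Finset.prod_ite_eq' ]
    simp
  -- hence v ^ k = 1 for all v
  have hpow : ∀ v : ↥V, v ^ (𝒜.card - 1) = 1 := by
    intro v
    have := hcount v
    rw [hA1 v, one_mul, Finset.prod_congr rfl (fun B hB => hB1 B hB v), Finset.prod_const_one] at this
    exact this.symm
  apply hV
  rw [eq_bot_iff]
  intro x hx
  have h1 : orderOf (⟨x, hx⟩ : ↥V) ∣ 𝒜.card - 1 := orderOf_dvd_of_pow_eq_one (hpow ⟨x, hx⟩)
  have h2 : orderOf (⟨x, hx⟩ : ↥V) ∣ Nat.card V := orderOf_dvd_natCard _
  have h3 : orderOf (⟨x, hx⟩ : ↥V) = 1 := Nat.eq_one_of_dvd_coprimes hk h1 h2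
  rw [orderOf_eq_one_iff] at h3
  exact congrArg Subtype.val h3

end Cfsg.Agent.S3733
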