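import Cfsg.Statements.S3734
import Cfsg.Agent.Helper35.CoprimeGen2

set_option autoImplicit false
open Cfsg

namespace Cfsg.Agent.S3734

open scoped Pointwise commutatorElement
open Cfsg.Agent.Helper35

/-- Let A and G be subgroups of a finite group with A abelian, A normalizing G and the orders of A and G coprime. Then G is generated by the fixed-point subgroups C_G(B) of those subgroups B of A for which A/B is cyclic (that is, A = ⟨B, a⟩ for some a), and [G, A] is generated by the commutator subgroups [C_G(B), A] over the same subgroups B. -/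
theorem result {X : Type*} [Group X] [Finite X] (A G : Subgroup X) (hAab : IsMulCommutative A) (hAG : A ≤ Subgroup.normalizer (G : Set X)) (hcop : (Nat.card A).Coprime (Nat.card G)) : (⨆ B ∈ {B : Subgroup X | B ≤ A ∧ ∃ a ∈ A, B ⊔ Subgroup.zpowers a = A}, G ⊓ Subgroup.centralizer (B : Set X)) = G ∧ (⨆ B ∈ {B : Subgroup X | B ≤ A ∧ ∃ a ∈ A, B ⊔ Subgroup.zpowers a = A}, ⁅G ⊓ Subgroup.centralizer (B : Set X), A⁆) = ⁅G, A⁆ := by
  have hab : ∀ a ∈ A, ∀ b ∈ A, a * b = b * a := by
    intro a ha b hb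
    have := hAab.is_comm.comm ⟨a, ha⟩ ⟨b, hb⟩
    exact congrArg Subtype.val this
  have hsolvA : Group.IsSolvable A := isSolvable_of_forall_comm hab
  have key := coprime_gen_cyclic_quotient hab hAG hcop
  refine ⟨key.symm, ?_⟩
  apply le_antisymm
  · exact iSup₂_le (fun B _ => Subgroup.commutator_mono inf_le_left le_rfl)
  · -- the subgroup `W` generated by the `⁅C_G(B), A⁆`
    have hinv : ∀ B ∈ {B : Subgroup X | B ≤ A ∧ ∃ a ∈ A, B ⊔ Subgroup.zpowers a = A},
        A ≤ Subgroup.normalizer ((G ⊓ Subgroup.centralizer (B : Set X) : Subgroup X) : Set X) :=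
      fun B hB => le_normalizer_inf_centralizer hab hAG hB.1
    have hAW : A ≤ Subgroup.normalizer
        ((⨆ B ∈ {B : Subgroup X | B ≤ A ∧ ∃ a ∈ A, B ⊔ Subgroup.zpowers a = A},
          ⁅G ⊓ Subgroup.centralizer (B : Set X), A⁆ : Subgroup X) : Set X) :=
      le_normalizer_biSup _ _ (fun B hB => le_normalizer_commutator (hinv B hB))
    have hCW : G ⊓ Subgroup.centralizer (A : Set X) ≤ Subgroup.normalizer
        ((⨆ B ∈ {B : Subgroup X | B ≤ A ∧ ∃ a ∈ A, B ⊔ Subgroup.zpowers a = A},
          ⁅G ⊓ Subgroup.centralizer (B : Set X), A⁆ : Subgroup X) : Set X) := by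
      refine le_normalizer_biSup _ _ (fun B hB => ?_)
      apply le_normalizer_commutator'
      · refine (le_inf (inf_le_left.trans Subgroup.le_normalizer) ?_).trans
          Subgroup.inf_normalizer_le_normalizer_inf
        exact inf_le_right.trans ((Subgroup.centralizer_le hB.1).trans Subgroup.le_normalizer)
      · exact inf_le_right.trans (Subgroup.centralizer_le_normalizer _)
    -- `G ≤ W C_G(A)`
    have hG : G ≤ (⨆ B ∈ {B : Subgroup X | B ≤ A ∧ ∃ a ∈ A, B ⊔ Subgroup.zpowers a = A},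
        ⁅G ⊓ Subgroup.centralizer (B : Set X), A⁆) ⊔ (G ⊓ Subgroup.centralizer (A : Set X)) := by
      conv_lhs => rw [key]
      refine iSup₂_le (fun B hB => ?_)
      intro k hk
      obtain ⟨n, hn, c, hc, rfl⟩ := exists_commutator_mul_fixed (hinv B hB)
        (Nat.Coprime.coprime_dvd_right (Subgroup.card_dvd_of_le inf_le_left) hcop)
        (Or.inl hsolvA) hk
      refine Subgroup.mul_mem _ (Subgroup.mem_sup_left ?_) (Subgroup.mem_sup_right ?_)
      · exact (le_biSup (fun B : Subgroup X => ⁅G ⊓ Subgroup.centralizer (B : Set X), A⁆) hB) hn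
      · exact ⟨hc.1.1, hc.2⟩
    rw [Subgroup.commutator_le]
    intro g hg a ha
    obtain ⟨w, hw, c, hc, rfl⟩ := exists_mul_of_mem_sup_of_le_normalizer hCW (hG hg)
    rw [commutatorElement_mul_of_commute w c a ((Subgroup.mem_centralizer_iff.mp hc.2) a ha)]
    have h1 : a * w⁻¹ * a⁻¹ ∈ (⨆ B ∈ {B : Subgroup X | B ≤ A ∧ ∃ a ∈ A, B ⊔ Subgroup.zpowers a = A},
        ⁅G ⊓ Subgroup.centralizer (B : Set X), A⁆) :=
      (Subgroup.mem_normalizer_iff.mp (hAW ha) _).mp (Subgroup.inv_mem _ hw)
    have h2 : ⁅w, a⁆ = w * (a * w⁻¹ * a⁻¹) := by rw [commutatorElement_def]; group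
    rw [h2]
    exact Subgroup.mul_mem _ hw h1

end Cfsg.Agent.S3734
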