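-- Statement S3735: Clifford, semisimplicity passes to a normal subgroup (actions on abelian groups).
import Cfsg.Statements.S3735

set_option autoImplicit false
open Cfsg

namespace Cfsg.Agent.S3735

variable {G : Type*} [Group G]

/-- conjugate of a subgroup -/
def cj (g : G) (W : Subgroup G) : Subgroup G := W.map (MulAut.conj g).toMonoidHom

theorem mem_cj (g : G) (W : Subgroup G) (y : G) : y ∈ cj g W ↔ g⁻¹ * y * g ∈ W := by
  unfold cj
  constructor
  · rintro ⟨k, hk, rfl⟩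
    have : g⁻¹ * ((MulAut.conj g).toMonoidHom k) * g = k := by
      simp [MulAut.conj_apply, mul_assoc]
    rw [this]; exact hk
  · intro h
    refine ⟨g⁻¹ * y * g, h, ?_⟩
    simp [MulAut.conj_apply, mul_assoc]

theorem cj_mul (g h : G) (W : Subgroup G) : cj (g * h) W = cj g (cj h W) := by
  ext y
  simp only [mem_cj]
  have : (g * h)⁻¹ * y * (g * h) = h⁻¹ * (g⁻¹ * y * g) * h := by simp [mul_assoc]
  rw [this]

theorem cj_one (W : Subgroup G) : cj 1 W = W := by
  ext y; simp [mem_cj]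

theorem cj_mono (g : G) {W W' : Subgroup G} (h : W ≤ W') : cj g W ≤ cj g W' :=
  Subgroup.map_mono h

theorem cj_sup (g : G) (W W' : Subgroup G) : cj g (W ⊔ W') = cj g W ⊔ cj g W' :=
  Subgroup.map_sup _ _ _

theorem cj_inf (g : G) (W W' : Subgroup G) : cj g (W ⊓ W') = cj g W ⊓ cj g W' :=
  Subgroup.map_inf _ _ _ (MulAut.conj g).injective

theorem cj_bot (g : G) : cj g (⊥ : Subgroup G) = ⊥ := Subgroup.map_bot _

theorem cj_inv_cj (g : G) (W : Subgroup G) : cj g⁻¹ (cj g W) = W := by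
  rw [← cj_mul]; simp [cj_one]

theorem cj_cj_inv (g : G) (W : Subgroup G) : cj g (cj g⁻¹ W) = W := by
  rw [← cj_mul]; simp [cj_one]

theorem mem_normalizer_iff_cj (g : G) (W : Subgroup G) :
    g ∈ Subgroup.normalizer (W : Set G) ↔ cj g W = W := by
  constructor
  · intro h
    ext y
    rw [mem_cj]
    have hn : g⁻¹ ∈ Subgroup.normalizer (W : Set G) := inv_mem h
    rw [Subgroup.mem_normalizer_iff] at hn
    have := hn y
    simp only [inv_inv] at this
    exact ⟨fun h1 => this.2 h1, fun h1 => this.1 h1⟩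
  · intro h
    rw [Subgroup.mem_normalizer_iff]
    intro y
    constructor
    · intro hy
      have : g * y * g⁻¹ ∈ cj g W := by
        rw [mem_cj]
        simpa [mul_assoc] using hy
      rw [h] at this; exact this
    · intro hy
      have hy' : g * y * g⁻¹ ∈ W := hy
      rw [← h, mem_cj] at hy'
      simpa [mul_assoc] using hy'

/-- `W` is invariant under conjugation by `A` -/
def Inv (A W : Subgroup G) : Prop := ∀ a ∈ A, cj a W = W

theorem inv_iff (A W : Subgroup G) : A ≤ Subgroup.normalizer (W : Set G) ↔ Inv A W :=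
  ⟨fun h a ha => (mem_normalizer_iff_cj a W).1 (h ha),
   fun h a ha => (mem_normalizer_iff_cj a W).2 (h a ha)⟩

theorem Inv.sup {A W W' : Subgroup G} (h : Inv A W) (h' : Inv A W') : Inv A (W ⊔ W') :=
  fun a ha => by rw [cj_sup, h a ha, h' a ha]

theorem Inv.inf {A W W' : Subgroup G} (h : Inv A W) (h' : Inv A W') : Inv A (W ⊓ W') :=
  fun a ha => by rw [cj_inf, h a ha, h' a ha]

theorem Inv.bot (A : Subgroup G) : Inv A (⊥ : Subgroup G) := fun a _ => cj_bot a

theorem Inv.cj {A W : Subgroup G} (h : Inv A W) (g : G) (hg : ∀ a ∈ A, g⁻¹ * a * g ∈ A) :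
    Inv A (cj g W) := by
  intro a ha
  have : a * g = g * (g⁻¹ * a * g) := by group
  rw [← cj_mul, this, cj_mul, h _ (hg a ha)]

/-- minimal nontrivial `A`-invariant subgroups of `V` -/
def IsMin (A V M : Subgroup G) : Prop :=
  M ≤ V ∧ M ≠ ⊥ ∧ Inv A M ∧ ∀ M' : Subgroup G, M' ≤ M → Inv A M' → M' = ⊥ ∨ M' = M

theorem IsMin.cj {A V M : Subgroup G} (hM : IsMin A V M) (g : G) (hgV : cj g V = V)
    (hg : ∀ a ∈ A, g⁻¹ * a * g ∈ A) (hg' : ∀ a ∈ A, g * a * g⁻¹ ∈ A) : IsMin A V (cj g M) := by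
  obtain ⟨h1, h2, h3, h4⟩ := hM
  refine ⟨?_, ?_, h3.cj g hg, ?_⟩
  · rw [← hgV]; exact cj_mono g h1
  · intro h
    apply h2
    rw [← cj_inv_cj g M, h, cj_bot]
  · intro M' hM' hinv
    have hinv' : Inv A (Cfsg.Agent.S3735.cj g⁻¹ M') := by
      apply hinv.cj
      intro a ha
      simpa using hg' a ha
    have hle : Cfsg.Agent.S3735.cj g⁻¹ M' ≤ M := by
      rw [← cj_inv_cj g M]; exact cj_mono _ hM'
    rcases h4 _ hle hinv' with h | h
    · left
      rw [← cj_cj_inv g M', h, cj_bot]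
    · right
      rw [← cj_cj_inv g M', h]

theorem exists_isMin [Finite G] (A V T : Subgroup G) (hTV : T ≤ V) (hT : T ≠ ⊥) (hinv : Inv A T) :
    ∃ M : Subgroup G, M ≤ T ∧ IsMin A V M := by
  obtain ⟨M, hMT, hmin⟩ := Finite.exists_le_minimal (p := fun M : Subgroup G => M ≠ ⊥ ∧ Inv A M)
    (a := T) ⟨hT, hinv⟩
  refine ⟨M, hMT, hMT.trans hTV, hmin.prop.1, hmin.prop.2, ?_⟩
  intro M' hM' hinv'
  by_cases hb : M' = ⊥
  · exact Or.inl hb
  · right
    exact le_antisymm hM' (hmin.le_of_le ⟨hb, hinv'⟩ hM')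

/-- product decomposition of elements of a join of two commuting subgroups -/
theorem mem_sup_of_commute (W M : Subgroup G) (hc : ∀ w ∈ W, ∀ m ∈ M, w * m = m * w) (x : G)
    (hx : x ∈ W ⊔ M) : ∃ w ∈ W, ∃ m ∈ M, x = w * m := by
  let P : Subgroup G :=
    { carrier := {x | ∃ w ∈ W, ∃ m ∈ M, x = w * m}
      mul_mem' := by
        rintro a b ⟨w, hw, m, hm, rfl⟩ ⟨w', hw', m', hm', rfl⟩
        refine ⟨w * w', mul_mem hw hw', m * m', mul_mem hm hm', ?_⟩
        have := hc w' hw' m hm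
        calc w * m * (w' * m') = w * (m * w') * m' := by simp [mul_assoc]
          _ = w * (w' * m) * m' := by rw [this]
          _ = w * w' * (m * m') := by simp [mul_assoc]
      one_mem' := ⟨1, one_mem _, 1, one_mem _, by simp⟩
      inv_mem' := by
        rintro a ⟨w, hw, m, hm, rfl⟩
        refine ⟨w⁻¹, inv_mem hw, m⁻¹, inv_mem hm, ?_⟩
        have := hc w⁻¹ (inv_mem hw) m⁻¹ (inv_mem hm)
        rw [mul_inv_rev, this] }
  have h1 : W ≤ P := fun w hw => ⟨w, hw, 1, one_mem _, by simp⟩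
  have h2 : M ≤ P := fun m hm => ⟨1, one_mem _, m, hm, by simp⟩
  exact (sup_le h1 h2) hx

/-- Clifford's Theorem for actions on finite abelian groups, first part. Let H and V be subgroups of a finite group with V abelian and H normalizing V, and let A be a normal subgroup of H. If every H-invariant subgroup of V has an H-invariant complement in V, then every A-invariant subgroup of V has an A-invariant complement in V. -/
theorem result {G : Type*} [Group G] [Finite G] (H A V : Subgroup G) (hVab : IsMulCommutative V) (hHV : H ≤ Subgroup.normalizer (V : Set G)) (hAH : A ≤ H) (hAn : H ≤ Subgroup.normalizer (A : Set G)) (hss : ∀ U : Subgroup G, U ≤ V → H ≤ Subgroup.normalizer (U : Set G) → ∃ W : Subgroup G, W ≤ V ∧ H ≤ Subgroup.normalizer (W : Set G) ∧ U ⊓ W = ⊥ ∧ U ⊔ W = V) (U : Subgroup G) (hUV : U ≤ V) (hAU : A ≤ Subgroup.normalizer (U : Set G)) : ∃ W : Subgroup G, W ≤ V ∧ A ≤ Subgroup.normalizer (W : Set G) ∧ U ⊓ W = ⊥ ∧ U ⊔ W = V := by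
  -- commutativity of V in element form
  have hcomm : ∀ v ∈ V, ∀ v' ∈ V, v * v' = v' * v := by
    intro v hv v' hv'
    have := hVab.is_comm.comm ⟨v, hv⟩ ⟨v', hv'⟩
    exact congrArg Subtype.val this
  have hHVinv : Inv H V := (inv_iff H V).1 hHV
  have hAUinv : Inv A U := (inv_iff A U).1 hAU
  -- H normalizes A, in element form
  have hA1 : ∀ h ∈ H, ∀ a ∈ A, h * a * h⁻¹ ∈ A := by
    intro h hh a ha
    exact (Subgroup.mem_normalizer_iff.1 (hAn hh) a).1 ha
  have hA2 : ∀ h ∈ H, ∀ a ∈ A, h⁻¹ * a * h ∈ A := by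
    intro h hh a ha
    have := hA1 h⁻¹ (inv_mem hh) a ha
    simpa using this
  -- the socle
  set S : Subgroup G := sSup {M : Subgroup G | IsMin A V M} with hS
  have hSV : S ≤ V := sSup_le (fun M hM => hM.1)
  have hSle : ∀ h ∈ H, cj h S ≤ S := by
    intro h hh
    unfold cj
    rw [Subgroup.map_le_iff_le_comap]
    apply sSup_le
    intro M hM
    rw [← Subgroup.map_le_iff_le_comap]
    exact le_sSup (hM.cj h (hHVinv h hh) (hA2 h hh) (hA1 h hh))
  have hSinv : Inv H S := by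
    intro h hh
    apply le_antisymm (hSle h hh)
    have := cj_mono h (hSle h⁻¹ (inv_mem hh))
    rwa [cj_cj_inv] at this
  obtain ⟨T, hTV, hTH, hST, hSTV⟩ := hss S hSV ((inv_iff H S).2 hSinv)
  have hTinv : Inv A T := fun a ha => (inv_iff H T).1 hTH a (hAH ha)
  have hTbot : T = ⊥ := by
    by_contra hT
    obtain ⟨M, hMT, hM⟩ := exists_isMin A V T hTV hT hTinv
    have hMS : M ≤ S := le_sSup hM
    have : M ≤ S ⊓ T := le_inf hMS hMT
    rw [hST] at this
    exact hM.2.1 (le_bot_iff.1 this)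
  have hSV' : S = V := by rw [← hSTV, hTbot, sup_bot_eq]
  -- a maximal invariant subgroup meeting U trivially
  obtain ⟨W, -, hWmax⟩ := Finite.exists_le_maximal
    (p := fun W : Subgroup G => W ≤ V ∧ Inv A W ∧ U ⊓ W = ⊥) (a := ⊥)
    ⟨bot_le, Inv.bot A, inf_bot_eq U⟩
  obtain ⟨hWV, hWinv, hUW⟩ := hWmax.prop
  refine ⟨W, hWV, (inv_iff A W).2 hWinv, hUW, ?_⟩
  by_contra hne
  have hle : U ⊔ W ≤ V := sup_le hUV hWV
  -- some minimal subgroup is not inside U ⊔ W
  have hex : ∃ M : Subgroup G, IsMin A V M ∧ ¬ M ≤ U ⊔ W := by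
    by_contra hcon
    push Not at hcon
    apply hne
    apply le_antisymm hle
    rw [← hSV']
    exact sSup_le (fun M hM => hcon M hM)
  obtain ⟨M, hM, hMnot⟩ := hex
  have hMint : M ⊓ (U ⊔ W) = ⊥ := by
    rcases hM.2.2.2 (M ⊓ (U ⊔ W)) inf_le_left (hM.2.2.1.inf (hAUinv.sup hWinv)) with h | h
    · exact h
    · exfalso; apply hMnot
      rw [← h]; exact inf_le_right
  have hnew : U ⊓ (W ⊔ M) = ⊥ := by
    rw [eq_bot_iff]
    intro u hu
    obtain ⟨huU, huWM⟩ := hu
    obtain ⟨w, hw, m, hm, rfl⟩ := mem_sup_of_commute W M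
      (fun w hw m hm => hcomm w (hWV hw) m (hM.1 hm)) u huWM
    have hm' : m ∈ U ⊔ W := by
      have : m = w⁻¹ * (w * m) := by simp
      rw [this]
      exact mul_mem (Subgroup.mem_sup_right (inv_mem hw)) (Subgroup.mem_sup_left huU)
    have hm1 : m = 1 := by
      have : m ∈ M ⊓ (U ⊔ W) := ⟨hm, hm'⟩
      rw [hMint] at this
      exact this
    rw [hm1, mul_one] at huU ⊢
    have : w ∈ U ⊓ W := ⟨huU, hw⟩
    rw [hUW] at this
    exact this
  have hWM : W ⊔ M ≤ W :=
    hWmax.le_of_ge ⟨sup_le hWV hM.1, hWinv.sup hM.2.2.1, hnew⟩ le_sup_left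
  exact hMnot ((le_sup_right.trans hWM).trans le_sup_right)

end Cfsg.Agent.S3735
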