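-- Statement S3737: Thompson's strengthened P × Q lemma for odd primes.
import Cfsg.Statements.S3737
import Cfsg.Agent.S3736
import Cfsg.Agent.Helper62.Baer
import Cfsg.Agent.Helper31.CoprimeGen
import Cfsg.Agent.Helper48.CoprimeGen

set_option autoImplicit false
open Cfsg

namespace Cfsg.Agent.S3737

open scoped commutatorElement
open Cfsg.Agent.Helper62

/-- Thompson's strengthening of the P × Q lemma for odd primes. Let p be an odd prime and let P, Q and G be subgroups of a finite group with P a p-group, Q of order prime to p and normalized by P, and G a p-group normalized by both P and Q. If every element of G centralized by P is centralized by Q, then Q centralizes G. -/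
theorem result {X : Type*} [Group X] [Finite X] {p : ℕ} [Fact p.Prime] (hp : p ≠ 2) (P Q G : Subgroup X) (hP : IsPGroup p P) (hQ : (Nat.card Q).Coprime p) (hPQ : P ≤ Subgroup.normalizer (Q : Set X)) (hG : IsPGroup p G) (hPG : P ≤ Subgroup.normalizer (G : Set X)) (hQG : Q ≤ Subgroup.normalizer (G : Set X)) (hC : G ⊓ Subgroup.centralizer (P : Set X) ≤ Subgroup.centralizer (Q : Set X)) : Q ≤ Subgroup.centralizer (G : Set X) := by
  have hpp : p.Prime := Fact.out
  by_contra hcon
  have hex : ({U : Subgroup X | U ≤ G ∧ P ⊔ Q ≤ Subgroup.normalizer (U : Set X) ∧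
      ⁅U, Q⁆ ≠ ⊥} : Set (Subgroup X)).Nonempty := by
    refine ⟨G, le_rfl, sup_le hPG hQG, ?_⟩
    intro h
    rw [Subgroup.commutator_eq_bot_iff_le_centralizer] at h
    exact hcon (Subgroup.le_centralizer_iff.1 h)
  obtain ⟨G₀, ⟨hG₀G, hBG₀, hnt⟩, hminG₀⟩ := (wellFounded_lt (α := Subgroup X)).has_min _ hex
  have hG₀ : IsPGroup p G₀ := hG.to_le hG₀G
  have hAn : P ⊔ Q ≤ Subgroup.normalizer (Q : Set X) := sup_le hPQ Subgroup.le_normalizer
  have hmin : ∀ U : Subgroup X, U < G₀ → P ⊔ Q ≤ Subgroup.normalizer (U : Set X) →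
      ⁅U, Q⁆ = ⊥ := by
    intro U hU hBU
    by_contra hne
    exact hminG₀ U ⟨hU.le.trans hG₀G, hBU, hne⟩ hU
  obtain ⟨-, hstr, -, hexp⟩ :=
    Cfsg.Agent.S3736.result (P ⊔ Q) Q G₀ hG₀ hBG₀ le_sup_right hAn hQ hnt hmin
  have hexp' := hexp hp
  obtain ⟨k, hk⟩ : ∃ k, p = 2 * k + 1 := hpp.eq_two_or_odd'.resolve_left hp
  have hPG₀ : P ≤ Subgroup.normalizer (G₀ : Set X) := le_sup_left.trans hBG₀
  have hQG₀ : Q ≤ Subgroup.normalizer (G₀ : Set X) := le_sup_right.trans hBG₀
  -- class two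
  have hcc : ∀ x y g : ↥G₀, g * ⁅x, y⁆ = ⁅x, y⁆ * g := by
    rcases hstr with hab | hsp
    · intro x y g
      have : ⁅x, y⁆ = 1 := commutatorElement_eq_one_iff_commute.2 (hab.1.is_comm.comm x y)
      rw [this]; simp
    · intro x y g
      have hmem : ⁅x, y⁆ ∈ commutator ↥G₀ :=
        Subgroup.commutator_mem_commutator (Subgroup.mem_top x) (Subgroup.mem_top y)
      rw [hsp.2.2] at hmem
      exact Subgroup.mem_center_iff.1 hmem g
  have hexpH : ∀ x : ↥G₀, x ^ (2 * k + 1) = 1 := by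
    intro x
    rw [← hk]
    exact Subtype.ext (by rw [Subgroup.coe_pow]; exact hexp' x x.2)
  letI instB : AddCommGroup ↥G₀ := baerAddCommGroup k hcc hexpH
  have hadd : ∀ x y : ↥G₀, x + y = x * y * ⁅x, y⁆ ^ k := fun _ _ => rfl
  have h0 : (0 : ↥G₀) = 1 := rfl
  haveI : Fintype ↥Q := Fintype.ofFinite _
  -- the conjugation maps and the trace
  let θ : ↥Q → (↥G₀ →* ↥G₀) := fun q => conjHomOn G₀ q (hQG₀ q.2)
  let τ : ↥G₀ →+ ↥G₀ := ∑ q : ↥Q, baerHom k hadd (θ q)
  have hτapp : ∀ x, τ x = ∑ q : ↥Q, θ q x := by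
    intro x
    show (∑ q : ↥Q, baerHom k hadd (θ q)) x = _
    rw [AddMonoidHom.finsetSum_apply]
    rfl
  have hfix : ∀ (q₀ : ↥Q) (x : ↥G₀), θ q₀ (τ x) = τ x := by
    intro q₀ x
    have h1 : θ q₀ (τ x) = baerHom k hadd (θ q₀) (τ x) := rfl
    rw [h1, hτapp, map_sum]
    exact Fintype.sum_equiv (Equiv.mulLeft q₀) _ _ (fun q => by
      show θ q₀ (θ q x) = θ (q₀ * q) x
      exact Subtype.ext (by simp [θ, conjHomOn_coe, mul_assoc]))
  have hPcomm : ∀ (g : X) (hg : g ∈ P) (x : ↥G₀),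
      conjHomOn G₀ g (hPG₀ hg) (τ x) = τ (conjHomOn G₀ g (hPG₀ hg) x) := by
    intro g hg x
    have h1 : conjHomOn G₀ g (hPG₀ hg) (τ x) = baerHom k hadd (conjHomOn G₀ g (hPG₀ hg)) (τ x) :=
      rfl
    rw [h1, hτapp, hτapp, map_sum]
    exact Fintype.sum_equiv (conjEquivOn Q g (hPQ hg)) _ _ (fun q => by
      show conjHomOn G₀ g (hPG₀ hg) (θ q x) = θ (conjEquivOn Q g (hPQ hg) q) _
      exact Subtype.ext (by simp [θ, conjHomOn_coe, conjEquivOn_coe, mul_assoc]))
  have hfixed : ∀ t : ↥G₀, (∀ q : ↥Q, θ q t = t) → τ t = t ^ (Nat.card Q) := by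
    intro t ht
    rw [hτapp, Finset.sum_congr rfl (fun q _ => ht q), Finset.sum_const, Finset.card_univ,
      Nat.card_eq_fintype_card]
    exact baer_nsmul_eq_pow k hadd _ t
  by_cases hK : τ.ker = ⊥
  · have hinj : Function.Injective τ := (AddMonoidHom.ker_eq_bot_iff τ).1 hK
    have hsurj : Function.Surjective τ := Finite.surjective_of_injective hinj
    apply hnt
    rw [Subgroup.commutator_eq_bot_iff_le_centralizer]
    intro x hx
    rw [Subgroup.mem_centralizer_iff]
    intro q hq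
    obtain ⟨y, hy⟩ := hsurj ⟨x, hx⟩
    have h1 := hfix ⟨q, hq⟩ y
    rw [hy] at h1
    have h2 : q * x * q⁻¹ = x := congrArg Subtype.val h1
    calc q * x = q * x * q⁻¹ * q := by group
      _ = x * q := by rw [h2]
  · -- the kernel is a non-trivial `p`-group
    obtain ⟨n, hn⟩ := (IsPGroup.iff_card).1 hG₀
    have hdvd : Nat.card τ.ker ∣ p ^ n := hn ▸ AddSubgroup.card_addSubgroup_dvd_card τ.ker
    obtain ⟨j, -, hj⟩ := (Nat.dvd_prime_pow hpp).1 hdvd
    have hj0 : j ≠ 0 := by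
      rintro rfl
      rw [pow_zero] at hj
      exact hK (AddSubgroup.eq_bot_of_card_eq _ hj)
    let T : Set ↥G₀ := (τ.ker : Set ↥G₀) \ {(0 : ↥G₀)}
    have hTcard : Nat.card T + 1 = p ^ j := by
      rw [Nat.card_coe_set_eq, Set.ncard_sdiff_singleton_add_one (zero_mem τ.ker)
        (Set.toFinite _), ← hj, ← Nat.card_coe_set_eq]
      rfl
    have hcard : ¬ p ∣ Nat.card T := by
      intro h
      have h2 : p ∣ p ^ j := dvd_pow_self p hj0
      rw [← hTcard] at h2
      exact hpp.one_lt.ne' (Nat.dvd_one.1 ((Nat.dvd_add_right h).1 h2))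
    letI := Cfsg.Agent.Helper31.conjActOn P G₀ hPG₀
    have hsmul : ∀ (s : ↥P) (x : ↥G₀), s • x = conjHomOn G₀ s (hPG₀ s.2) x := fun _ _ => rfl
    have hTinv : ∀ s : ↥P, ∀ x ∈ T, s • x ∈ T := by
      intro s x hx
      refine ⟨?_, ?_⟩
      · show τ (s • x) = 0
        rw [hsmul, ← hPcomm s s.2 x]
        have : τ x = 0 := hx.1
        rw [this, h0, map_one]
      · intro h
        apply hx.2
        have h2 : s • x = (0 : ↥G₀) := h
        rw [hsmul, h0] at h2
        have h3 : (s : X) * x * (s : X)⁻¹ = 1 := congrArg Subtype.val h2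
        have h4 : (x : X) = 1 := by
          calc (x : X) = (s : X)⁻¹ * ((s : X) * x * (s : X)⁻¹) * s := by group
            _ = 1 := by rw [h3]; group
        show x = (0 : ↥G₀)
        rw [h0]
        exact Subtype.ext h4
    obtain ⟨t, htT, htfix⟩ :=
      Cfsg.Agent.Helper48.exists_fixed_of_invariant_of_not_dvd_card hP T hTinv hcard
    have htP : (t : X) ∈ Subgroup.centralizer (P : Set X) := by
      rw [Subgroup.mem_centralizer_iff]
      intro g hg
      have h1 := htfix ⟨g, hg⟩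
      rw [hsmul] at h1
      have h2 : g * t * g⁻¹ = t := congrArg Subtype.val h1
      calc g * t = g * t * g⁻¹ * g := by group
        _ = t * g := by rw [h2]
    have htQ : (t : X) ∈ Subgroup.centralizer (Q : Set X) := hC ⟨hG₀G t.2, htP⟩
    have htθ : ∀ q : ↥Q, θ q t = t := by
      intro q
      apply Subtype.ext
      show (q : X) * t * (q : X)⁻¹ = t
      have := (Subgroup.mem_centralizer_iff.1 htQ) q q.2
      rw [this]; group
    have h1 : t ^ (Nat.card Q) = 1 := by
      rw [← hfixed t htθ]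
      exact htT.1
    have h2 : t ^ p = 1 := by rw [hk]; exact hexpH t
    have h3 : t ^ (Nat.gcd (Nat.card Q) p) = 1 := pow_gcd_eq_one.2 ⟨h1, h2⟩
    rw [Nat.Coprime.gcd_eq_one hQ, pow_one] at h3
    exact htT.2 h3

end Cfsg.Agent.S3737
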