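-- Statement S3772: number of solutions of x^2 = 1 in a 2-group with Frattini subgroup of order 2.
import Cfsg.Statements.S3772
import Cfsg.Agent.Helper2.PGroup

set_option autoImplicit false
open Cfsg

namespace Cfsg.Agent.S3772

open scoped commutatorElement

open scoped Classical in
/-- the sign of the square -/
noncomputable def chi {G : Type*} [Group G] (x : G) : ℤ := if x * x = 1 then 1 else -1

open scoped Classical in
/-- the sign of the commutator -/
noncomputable def eps {G : Type*} [Group G] (x w : G) : ℤ := if x * w = w * x then 1 else -1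

/-- the situation: `z` a central involution, squares and commutators lie in `{1, z}` -/
structure Setup (G : Type*) [Group G] (z : G) : Prop where
  hz1 : z ≠ 1
  hz2 : z * z = 1
  hzc : ∀ g : G, g * z = z * g
  hsq : ∀ x : G, x * x = 1 ∨ x * x = z
  hcomm : ∀ x w : G, x * w = w * x ∨ x * w = z * (w * x)

variable {G : Type*} [Group G] {z : G}

theorem chi_sq (x : G) : chi x * chi x = 1 := by
  unfold chi
  split_ifs <;> norm_num

theorem Setup.chi_mul_comm (h : Setup G z) {x w : G} (hxw : x * w = w * x) :
    chi (x * w) = chi x * chi w := by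
  have h1 : (x * w) * (x * w) = (x * x) * (w * w) := by
    calc (x * w) * (x * w) = x * (w * x) * w := by group
      _ = x * (x * w) * w := by rw [hxw]
      _ = (x * x) * (w * w) := by group
  have hz1 := h.hz1
  have hz2 := h.hz2
  unfold chi
  rw [h1]
  rcases h.hsq x with hx | hx <;> rcases h.hsq w with hw | hw <;> simp [hx, hw, hz1, hz2]

theorem Setup.chi_mul_noncomm (h : Setup G z) {x w : G} (hxw : x * w ≠ w * x) :
    chi (x * w) = -(chi x * chi w) := by
  have hz1 := h.hz1
  have hz2 := h.hz2
  have h0 : x * w = z * (w * x) := (h.hcomm x w).resolve_left hxw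
  have hwx : w * x = z * (x * w) := by rw [h0, ← mul_assoc, hz2, one_mul]
  have h1 : (x * w) * (x * w) = z * ((x * x) * (w * w)) := by
    calc (x * w) * (x * w) = x * (w * x) * w := by group
      _ = x * (z * (x * w)) * w := by rw [hwx]
      _ = (x * z) * (x * w * w) := by group
      _ = (z * x) * (x * w * w) := by rw [h.hzc x]
      _ = z * ((x * x) * (w * w)) := by group
  unfold chi
  rw [h1]
  rcases h.hsq x with hx | hx <;> rcases h.hsq w with hw | hw <;> simp [hx, hw, hz1, hz2]

theorem Setup.chi_mul (h : Setup G z) (x w : G) :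
    chi (x * w) = chi x * chi w * eps x w := by
  by_cases hxw : x * w = w * x
  · rw [h.chi_mul_comm hxw]; simp [eps, hxw]
  · rw [h.chi_mul_noncomm hxw]; simp [eps, hxw]

theorem Setup.eps_mul (h : Setup G z) {x₀ w : G} (h0 : x₀ * w ≠ w * x₀) (x : G) :
    eps (x₀ * x) w = -eps x w := by
  have hz1 := h.hz1
  have hz2 := h.hz2
  have h0' : x₀ * w = z * (w * x₀) := (h.hcomm x₀ w).resolve_left h0
  rcases h.hcomm x w with hx | hx
  · have h1 : (x₀ * x) * w = z * (w * (x₀ * x)) := by
      calc (x₀ * x) * w = x₀ * (x * w) := by group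
        _ = x₀ * (w * x) := by rw [hx]
        _ = (x₀ * w) * x := by group
        _ = z * (w * x₀) * x := by rw [h0']
        _ = z * (w * (x₀ * x)) := by group
    have h2 : (x₀ * x) * w ≠ w * (x₀ * x) := by
      rw [h1]
      intro h3
      exact hz1 (mul_eq_right.1 h3)
    simp [eps, hx, h2]
  · have hne : x * w ≠ w * x := by
      rw [hx]
      intro h3
      exact hz1 (mul_eq_right.1 h3)
    have h1 : (x₀ * x) * w = w * (x₀ * x) := by
      calc (x₀ * x) * w = x₀ * (x * w) := by group
        _ = x₀ * (z * (w * x)) := by rw [hx]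
        _ = (x₀ * z) * (w * x) := by group
        _ = (z * x₀) * (w * x) := by rw [h.hzc x₀]
        _ = z * ((x₀ * w) * x) := by group
        _ = z * (z * (w * x₀) * x) := by rw [h0']
        _ = (z * z) * (w * (x₀ * x)) := by group
        _ = w * (x₀ * x) := by rw [hz2, one_mul]
    simp [eps, hne, h1]

open scoped Classical in
theorem Setup.sum_eps (h : Setup G z) [Fintype G] (w : G) :
    ∑ x : G, eps x w = if w ∈ Subgroup.center G then (Fintype.card G : ℤ) else 0 := by
  split_ifs with hw
  · have : ∀ x : G, eps x w = 1 := by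
      intro x
      have := (Subgroup.mem_center_iff.1 hw x)
      simp [eps, this]
    simp [this]
  · have hex : ∃ x₀ : G, x₀ * w ≠ w * x₀ := by
      by_contra hcon
      push Not at hcon
      exact hw (Subgroup.mem_center_iff.2 hcon)
    obtain ⟨x₀, hx₀⟩ := hex
    have h1 : ∑ x : G, eps (x₀ * x) w = ∑ x : G, eps x w :=
      Fintype.sum_equiv (Equiv.mulLeft x₀) (fun x => eps (x₀ * x) w) (fun x => eps x w) (fun x => rfl)
    have h2 : ∑ x : G, eps (x₀ * x) w = -∑ x : G, eps x w := by
      rw [← Finset.sum_neg_distrib]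
      exact Finset.sum_congr rfl (fun x _ => h.eps_mul hx₀ x)
    linarith

open scoped Classical in
/-- the Gauss-sum identity -/
theorem Setup.sq_sum (h : Setup G z) [Fintype G] :
    (∑ x : G, chi x) ^ 2 =
      (Fintype.card G : ℤ) * ∑ w : G, (if w ∈ Subgroup.center G then chi w else 0) := by
  have h1 : (∑ x : G, chi x) ^ 2 = ∑ x : G, ∑ w : G, chi w * eps x w := by
    rw [sq, Finset.sum_mul_sum]
    refine Finset.sum_congr rfl (fun x _ => ?_)
    have h2 : ∑ y : G, chi x * chi (x * y) = ∑ y : G, chi x * chi y :=
      Fintype.sum_equiv (Equiv.mulLeft x) (fun y => chi x * chi (x * y)) (fun y => chi x * chi y)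
        (fun y => rfl)
    rw [← h2]
    refine Finset.sum_congr rfl (fun w _ => ?_)
    rw [h.chi_mul x w]
    calc chi x * (chi x * chi w * eps x w) = (chi x * chi x) * (chi w * eps x w) := by ring
      _ = chi w * eps x w := by rw [chi_sq, one_mul]
  rw [h1, Finset.sum_comm, Finset.mul_sum]
  refine Finset.sum_congr rfl (fun w _ => ?_)
  rw [← Finset.mul_sum, h.sum_eps w]
  split_ifs <;> ring

open scoped Classical in
/-- the central sum is `0` or `|Z(G)|` -/
theorem Setup.central_sum (h : Setup G z) [Fintype G] :
    (∃ w₀ ∈ Subgroup.center G, w₀ * w₀ ≠ 1) ∧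
        ∑ w : G, (if w ∈ Subgroup.center G then chi w else 0) = 0 ∨
      (∀ w ∈ Subgroup.center G, w * w = 1) ∧
        ∑ w : G, (if w ∈ Subgroup.center G then chi w else 0) = (Nat.card (Subgroup.center G) : ℤ) := by
  by_cases hex : ∃ w₀ ∈ Subgroup.center G, w₀ * w₀ ≠ 1
  · left
    refine ⟨hex, ?_⟩
    obtain ⟨w₀, hw₀, hw₀sq⟩ := hex
    have hchi0 : chi w₀ = -1 := by simp [chi, hw₀sq]
    set f : G → ℤ := fun w => if w ∈ Subgroup.center G then chi w else 0 with hf
    have h1 : ∑ w : G, f (w₀ * w) = ∑ w : G, f w :=
      Fintype.sum_equiv (Equiv.mulLeft w₀) (fun w => f (w₀ * w)) f (fun w => rfl)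
    have h2 : ∑ w : G, f (w₀ * w) = -∑ w : G, f w := by
      rw [← Finset.sum_neg_distrib]
      refine Finset.sum_congr rfl (fun w _ => ?_)
      have hiff : w₀ * w ∈ Subgroup.center G ↔ w ∈ Subgroup.center G := by
        constructor
        · intro h3
          have := mul_mem (inv_mem hw₀) h3
          simpa using this
        · intro h3
          exact mul_mem hw₀ h3
      simp only [hf]
      by_cases hw : w ∈ Subgroup.center G
      · rw [if_pos (hiff.2 hw), if_pos hw, h.chi_mul_comm (Subgroup.mem_center_iff.1 hw w₀), hchi0]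
        ring
      · rw [if_neg (fun h3 => hw (hiff.1 h3)), if_neg hw]
        ring
    linarith
  · right
    push Not at hex
    refine ⟨hex, ?_⟩
    have h1 : ∀ w : G, (if w ∈ Subgroup.center G then chi w else 0) =
        (if w ∈ Subgroup.center G then (1 : ℤ) else 0) := by
      intro w
      split_ifs with hw
      · simp [chi, hex w hw]
      · rfl
    rw [Finset.sum_congr rfl (fun w _ => h1 w), Finset.sum_boole]
    rw [Nat.card_eq_fintype_card, Fintype.card_subtype]

open scoped Classical in
theorem sum_chi [Fintype G] :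
    ∑ x : G, chi x = 2 * (Nat.card {x : G // x ^ 2 = 1} : ℤ) - (Fintype.card G : ℤ) := by
  have h1 : ∀ x : G, chi x = 2 * (if x ^ 2 = 1 then (1 : ℤ) else 0) - 1 := by
    intro x
    unfold chi
    rw [sq]
    split_ifs <;> norm_num
  rw [Finset.sum_congr rfl (fun x _ => h1 x), Finset.sum_sub_distrib, ← Finset.mul_sum,
    Finset.sum_boole, Nat.card_eq_fintype_card, Fintype.card_subtype]
  simp

/-- a finite group of exponent two has trivial Frattini subgroup -/
theorem frattini_eq_bot_of_sq {G : Type*} [Group G] [Finite G] (h : ∀ x : G, x * x = 1) :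
    frattini G = ⊥ := by
  have hinv : ∀ x : G, x⁻¹ = x := fun x => inv_eq_of_mul_eq_one_left (h x)
  have hcomm : ∀ a b : G, a * b = b * a := by
    intro a b
    have h1 := h (a * b)
    have h2 : a * b = (a * b)⁻¹ := (hinv _).symm
    rw [h2, mul_inv_rev, hinv, hinv]
  rw [eq_bot_iff]
  intro z hz
  rw [Subgroup.mem_bot]
  by_contra hz1
  obtain ⟨H, -, hH⟩ := Finite.exists_le_maximal (p := fun H : Subgroup G => z ∉ H) (a := ⊥)
    (by rw [Subgroup.mem_bot]; exact hz1)
  have hzH : z ∉ H := hH.prop
  -- every element lies in H or Hz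
  have key : ∀ x : G, x ∈ H ∨ x * z ∈ H := by
    intro x
    by_cases hx : x ∈ H
    · exact Or.inl hx
    right
    let Hx : Subgroup G :=
      { carrier := {g | g ∈ H ∨ g * x ∈ H}
        one_mem' := Or.inl (one_mem H)
        mul_mem' := by
          rintro a b (ha | ha) (hb | hb)
          · exact Or.inl (mul_mem ha hb)
          · right
            have := mul_mem ha hb
            rwa [← mul_assoc] at this
          · right
            have := mul_mem ha hb
            have e : a * x * b = a * b * x := by rw [mul_assoc, hcomm x b, ← mul_assoc]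
            rwa [e] at this
          · left
            have := mul_mem ha hb
            have e : a * x * (b * x) = a * b := by
              calc a * x * (b * x) = a * (x * b) * x := by group
                _ = a * (b * x) * x := by rw [hcomm x b]
                _ = a * b * (x * x) := by group
                _ = a * b := by rw [h x, mul_one]
            rwa [e] at this
        inv_mem' := by
          intro a ha
          show a⁻¹ ∈ H ∨ a⁻¹ * x ∈ H
          rw [hinv a]
          exact ha }
    have hle : H ≤ Hx := fun g hg => Or.inl hg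
    have hxHx : x ∈ Hx := Or.inr (by rw [h x]; exact one_mem H)
    have hzHx : z ∈ Hx := by
      by_contra hcon
      exact hx (hH.le_of_ge hcon hle hxHx)
    rcases hzHx with h1 | h1
    · exact absurd h1 hzH
    · rwa [hcomm z x] at h1
  have hco : IsCoatom H := by
    refine ⟨fun htop => hzH (by rw [htop]; exact Subgroup.mem_top z), ?_⟩
    intro K hK
    obtain ⟨k, hkK, hkH⟩ := SetLike.exists_of_lt hK
    have hzK : z ∈ K := by
      have h1 : k * z ∈ K := hK.le ((key k).resolve_left hkH)
      have h2 := mul_mem (inv_mem hkK) h1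
      simpa using h2
    rw [eq_top_iff]
    intro x _
    rcases key x with h1 | h1
    · exact hK.le h1
    · have h2 := mul_mem (hK.le h1) (inv_mem hzK)
      simpa using h2
  exact hzH (frattini_le_coatom hco hz)

/-- Let G be a finite 2-group whose Frattini subgroup Φ(G) has order 2, with |G : Φ(G)| = 2^d, and let j be the number of elements x of G with x² = 1. Then j = 2^d, or j = 2^d + 2^(d−r) or j = 2^d − 2^(d−r) for some positive integer r with 2r ≤ d. Moreover if d = 2r and j is 2^d + 2^r or 2^d − 2^r, then G is extraspecial. -/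
theorem result {G : Type*} [Group G] [Finite G] (hG : IsPGroup 2 G) (hΦ : Nat.card (frattini G) = 2) (d : ℕ) (hd : (frattini G).index = 2 ^ d) : (Nat.card {x : G // x ^ 2 = 1} = 2 ^ d ∨ ∃ r : ℕ, 1 ≤ r ∧ 2 * r ≤ d ∧ (Nat.card {x : G // x ^ 2 = 1} = 2 ^ d + 2 ^ (d - r) ∨ Nat.card {x : G // x ^ 2 = 1} + 2 ^ (d - r) = 2 ^ d)) ∧ (∀ r : ℕ, d = 2 * r → (Nat.card {x : G // x ^ 2 = 1} = 2 ^ d + 2 ^ r ∨ Nat.card {x : G // x ^ 2 = 1} + 2 ^ r = 2 ^ d) → Cfsg.IsExtraspecial 2 G) := by
  classical
  haveI : Fact (Nat.Prime 2) := ⟨Nat.prime_two⟩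
  haveI : Fintype G := Fintype.ofFinite G
  -- the element z
  obtain ⟨z', hz'1, hz'u⟩ := (Nat.card_eq_two_iff' (1 : ↥(frattini G))).1 hΦ
  set z : G := (z' : G) with hz
  have hzΦ : z ∈ frattini G := z'.2
  have hz1 : z ≠ 1 := fun h => hz'1 (Subtype.ext h)
  have hΦ2 : ∀ y ∈ frattini G, y = 1 ∨ y = z := by
    intro y hy
    by_cases hy1 : y = 1
    · exact Or.inl hy1
    · right
      have := hz'u ⟨y, hy⟩ (fun h => hy1 (congrArg Subtype.val h))
      exact congrArg Subtype.val this
  have hsetup : Setup G z := by
    refine ⟨hz1, ?_, ?_, ?_, ?_⟩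
    · rcases hΦ2 (z * z) (mul_mem hzΦ hzΦ) with h | h
      · exact h
      · exact absurd (mul_eq_left.1 h) hz1
    · intro g
      have hn : (frattini G).Normal := inferInstance
      rcases hΦ2 (g * z * g⁻¹) (hn.conj_mem z hzΦ g) with h | h
      · exfalso
        apply hz1
        have : z = g⁻¹ * (g * z * g⁻¹) * g := by group
        rw [this, h]; group
      · have : g * z = (g * z * g⁻¹) * g := by group
        rw [this, h]
    · intro x
      have := Cfsg.Agent.Helper2.pow_mem_frattini_of_isPGroup hG x
      rw [sq] at this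
      exact hΦ2 _ this
    · intro x w
      have h1 : ⁅x, w⁆ ∈ frattini G :=
        Cfsg.Agent.Helper2.commutator_le_frattini_of_isPGroup hG
          (Subgroup.commutator_mem_commutator (Subgroup.mem_top x) (Subgroup.mem_top w))
      have h2 : x * w = ⁅x, w⁆ * (w * x) := by
        rw [commutatorElement_def]; group
      rcases hΦ2 _ h1 with h | h
      · left; rw [h2, h, one_mul]
      · right; rw [h2, h]
  -- orders
  have hcardG : Nat.card G = 2 * 2 ^ d := by
    rw [← Subgroup.card_mul_index (frattini G), hΦ, hd]
  have hcardG' : (Fintype.card G : ℤ) = 2 * 2 ^ d := by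
    rw [← Nat.card_eq_fintype_card, hcardG]; push_cast; ring
  set j := Nat.card {x : G // x ^ 2 = 1} with hj
  have hS : ∑ x : G, chi x = 2 * (j : ℤ) - 2 * 2 ^ d := by rw [sum_chi, hcardG']
  have hsq := hsetup.sq_sum
  rw [hS, hcardG'] at hsq
  -- the centre
  have hzcen : z ∈ Subgroup.center G := Subgroup.mem_center_iff.2 (fun g => hsetup.hzc g)
  have hΦle : frattini G ≤ Subgroup.center G := by
    intro y hy
    rcases hΦ2 y hy with h | h
    · rw [h]; exact one_mem _
    · rw [h]; exact hzcen
  obtain ⟨k, hk⟩ := (IsPGroup.iff_card (p := 2)).1 (hG.to_subgroup (Subgroup.center G))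
  have hk1 : 1 ≤ k := by
    by_contra hcon
    have hk0 : k = 0 := by omega
    rw [hk0, pow_zero, Subgroup.card_eq_one] at hk
    rw [hk, Subgroup.mem_bot] at hzcen
    exact hz1 hzcen
  rcases hsetup.central_sum with ⟨-, hT⟩ | ⟨hall, hT⟩
  · -- the sum vanishes: j = 2^d
    rw [hT, mul_zero] at hsq
    have h0 : 2 * (j : ℤ) - 2 * 2 ^ d = 0 := by
      have := pow_eq_zero_iff (n := 2) (by norm_num) |>.1 hsq
      exact this
    have hjd : j = 2 ^ d := by
      have : (j : ℤ) = 2 ^ d := by linarith
      exact_mod_cast this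
    refine ⟨Or.inl hjd, ?_⟩
    intro r hr hjr
    exfalso
    have hpos : 0 < 2 ^ r := by positivity
    rcases hjr with h | h <;> omega
  · -- the sum is |Z(G)|
    rw [hT, hk] at hsq
    -- the centre is proper
    have hkd : k ≤ d := by
      by_contra hcon
      have h1 : Nat.card G ≤ Nat.card (Subgroup.center G) := by
        rw [hk, hcardG, ← pow_succ']
        exact Nat.pow_le_pow_right (by norm_num) (by omega)
      have htop : Subgroup.center G = ⊤ := by
        have := Subgroup.card_eq_iff_eq_top (Subgroup.center G) |>.1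
          (le_antisymm (Subgroup.card_le_card_group _) h1)
        exact this
      have hall' : ∀ x : G, x * x = 1 := fun x => hall x (by rw [htop]; exact Subgroup.mem_top x)
      have := frattini_eq_bot_of_sq hall'
      rw [this, Subgroup.mem_bot] at hzΦ
      exact hz1 hzΦ
    -- integer arithmetic
    set s : ℕ := (2 * (j : ℤ) - 2 * 2 ^ d).natAbs with hs
    have hss : s * s = 2 ^ (d + 1 + k) := by
      have h1 : ((s * s : ℕ) : ℤ) = (2 * (j : ℤ) - 2 * 2 ^ d) ^ 2 := by
        rw [hs, Nat.cast_mul, Int.natAbs_mul_self', sq]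
      have h2 : ((s * s : ℕ) : ℤ) = ((2 ^ (d + 1 + k) : ℕ) : ℤ) := by
        rw [h1, hsq]; push_cast; ring
      exact_mod_cast h2
    obtain ⟨a, -, ha⟩ := (Nat.dvd_prime_pow Nat.prime_two).1 (Dvd.intro _ hss)
    have haa : a + a = d + 1 + k := by
      rw [ha, ← pow_add] at hss
      exact Nat.pow_right_injective (le_refl 2) hss
    have ha1 : 1 ≤ a := by omega
    have had : a ≤ d := by omega
    obtain ⟨a', rfl⟩ : ∃ a', a = a' + 1 := ⟨a - 1, by omega⟩
    have hcases : j = 2 ^ d + 2 ^ a' ∨ j + 2 ^ a' = 2 ^ d := by
      rcases Int.natAbs_eq (2 * (j : ℤ) - 2 * 2 ^ d) with h | h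
      · left
        rw [← hs, ha] at h
        have : (j : ℤ) = 2 ^ d + 2 ^ a' := by
          push_cast at h
          rw [pow_succ] at h
          linarith
        exact_mod_cast this
      · right
        rw [← hs, ha] at h
        have : (j : ℤ) + 2 ^ a' = 2 ^ d := by
          push_cast at h
          rw [pow_succ] at h
          linarith
        exact_mod_cast this
    refine ⟨Or.inr ⟨d - a', by omega, by omega, ?_⟩, ?_⟩
    · have e : d - (d - a') = a' := by omega
      rw [e]
      exact hcases
    · intro r hr hjr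
      -- then |Z(G)| = 2
      have har : a' = r := by
        have hlt : ∀ m n : ℕ, m < n → (2 : ℕ) ^ m < 2 ^ n := fun m n h =>
          Nat.pow_lt_pow_right (by norm_num) h
        have hpa : 0 < 2 ^ a' := by positivity
        have hpr : 0 < 2 ^ r := by positivity
        have heq : 2 ^ a' = 2 ^ r := by
          rcases hcases with h1 | h1 <;> rcases hjr with h2 | h2 <;> omega
        exact Nat.pow_right_injective (le_refl 2) heq
      have hk1' : k = 1 := by omega
      rw [hk1', pow_one] at hk
      have hΦZ : frattini G = Subgroup.center G := by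
        apply Subgroup.eq_of_le_of_card_ge hΦle
        rw [hk, hΦ]
      have hcomm_ne : commutator G ≠ ⊥ := by
        intro hbot
        have habel : ∀ a b : G, a * b = b * a := by
          intro a b
          have h1 : ⁅a, b⁆ ∈ commutator G :=
            Subgroup.commutator_mem_commutator (Subgroup.mem_top a) (Subgroup.mem_top b)
          rw [hbot, Subgroup.mem_bot, commutatorElement_eq_one_iff_mul_comm] at h1
          exact h1
        have htop : Subgroup.center G = ⊤ := by
          rw [eq_top_iff]
          intro x _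
          exact Subgroup.mem_center_iff.2 (fun g => habel g x)
        have h2 : frattini G = ⊤ := by rw [hΦZ, htop]
        have h3 : (⊥ : Subgroup G) = ⊤ := by
          apply frattini_nongenerating
          rw [h2, bot_sup_eq]
        have h4 : z ∈ (⊥ : Subgroup G) := by rw [h3]; exact Subgroup.mem_top z
        exact hz1 (Subgroup.mem_bot.1 h4)
      have hcommΦ : commutator G = frattini G := by
        have hle := Cfsg.Agent.Helper2.commutator_le_frattini_of_isPGroup hG
        apply Subgroup.eq_of_le_of_card_ge hle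
        rw [hΦ]
        by_contra hcon
        push Not at hcon
        have hpos : 0 < Nat.card (commutator G) := Nat.card_pos
        have h1 : Nat.card (commutator G) = 1 := by omega
        exact hcomm_ne (Subgroup.card_eq_one.1 h1)
      exact ⟨⟨hG, hΦZ, hcommΦ.trans hΦZ⟩, hk⟩

end Cfsg.Agent.S3772
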