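-- Statement S3773: 2-groups of class two and exponent four whose involutions form a subgroup.
import Cfsg.Statements.S3773
import Cfsg.Agent.S3772
import Cfsg.Agent.Helper2.PGroup

set_option autoImplicit false
open Cfsg

namespace Cfsg.Agent.S3773

open scoped commutatorElement

/-- sum of a sign-valued homomorphism -/
theorem sum_hom {X : Type*} [Group X] [Fintype X] [DecidableEq (X →* ℤˣ)] (φ : X →* ℤˣ) :
    ∑ x : X, ((φ x : ℤˣ) : ℤ) = if φ = 1 then (Fintype.card X : ℤ) else 0 := by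
  split_ifs with h
  · subst h; simp
  · have hex : ∃ x₀, φ x₀ ≠ 1 := by
      by_contra hcon
      push Not at hcon
      exact h (MonoidHom.ext hcon)
    obtain ⟨x₀, hx₀⟩ := hex
    have hm1 : ((φ x₀ : ℤˣ) : ℤ) = -1 := by
      rcases Int.units_eq_one_or (φ x₀) with h1 | h1
      · exact absurd h1 hx₀
      · rw [h1]; rfl
    have h1 : ∑ x : X, ((φ (x₀ * x) : ℤˣ) : ℤ) = ∑ x : X, ((φ x : ℤˣ) : ℤ) :=
      Fintype.sum_equiv (Equiv.mulLeft x₀) (fun x => ((φ (x₀ * x) : ℤˣ) : ℤ))
        (fun x => ((φ x : ℤˣ) : ℤ)) (fun x => rfl)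
    have h2 : ∑ x : X, ((φ (x₀ * x) : ℤˣ) : ℤ) = -∑ x : X, ((φ x : ℤˣ) : ℤ) := by
      rw [← Finset.sum_neg_distrib]
      refine Finset.sum_congr rfl (fun x _ => ?_)
      rw [map_mul, Units.val_mul, hm1]; ring
    linarith

open scoped Classical in
/-- the sign character of a subgroup of index two -/
noncomputable def signHom {E : Type*} [Group E] (K : Subgroup E) (hK : K.index = 2) : E →* ℤˣ where
  toFun x := if x ∈ K then 1 else -1
  map_one' := by simp [one_mem]
  map_mul' x y := by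
    have := Subgroup.mul_mem_iff_of_index_two hK (a := x) (b := y)
    by_cases hx : x ∈ K <;> by_cases hy : y ∈ K <;> simp [this, hx, hy]

theorem signHom_eq_one_iff {E : Type*} [Group E] (K : Subgroup E) (hK : K.index = 2) (x : E) :
    signHom K hK x = 1 ↔ x ∈ K := by
  classical
  show (if x ∈ K then (1 : ℤˣ) else -1) = 1 ↔ x ∈ K
  by_cases hx : x ∈ K
  · simp [hx]
  · simp [hx]

/-- in a finite group of exponent two, a proper subgroup lies in a subgroup of index two -/
theorem exists_index_two {E : Type*} [Group E] [Finite E] (h : ∀ x : E, x * x = 1)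
    (K : Subgroup E) (hK : K ≠ ⊤) : ∃ M : Subgroup E, K ≤ M ∧ M.index = 2 := by
  haveI : Fact (Nat.Prime 2) := ⟨Nat.prime_two⟩
  have hE : IsPGroup 2 E := by
    intro x
    exact ⟨1, by rw [pow_one, sq]; exact h x⟩
  obtain ⟨M, hM, hKM⟩ := (eq_top_or_exists_le_coatom K).resolve_left hK
  exact ⟨M, hKM, Cfsg.Agent.Helper2.coatom_index_of_isPGroup hE M hM⟩

/-- characters separate the points of a group of exponent two -/
theorem exists_char {E : Type*} [Group E] [Finite E] (h : ∀ x : E, x * x = 1) (u : E)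
    (hu : u ≠ 1) : ∃ lam : E →* ℤˣ, lam u ≠ 1 := by
  haveI : Fact (Nat.Prime 2) := ⟨Nat.prime_two⟩
  have hE : IsPGroup 2 E := by
    intro x
    exact ⟨1, by rw [pow_one, sq]; exact h x⟩
  have hfr := Cfsg.Agent.S3772.frattini_eq_bot_of_sq h
  by_contra hcon
  push Not at hcon
  apply hu
  have hmem : u ∈ frattini E := by
    unfold frattini Order.radical
    simp only [Subgroup.mem_iInf]
    intro M hM
    by_contra huM
    have h2 := Cfsg.Agent.Helper2.coatom_index_of_isPGroup hE M hM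
    have := hcon (signHom M h2)
    exact huM ((signHom_eq_one_iff M h2 u).1 this)
  rw [hfr] at hmem
  exact Subgroup.mem_bot.1 hmem

/-- the hypotheses of the counting lemma: `H` is a central subgroup of exponent two containing
all squares and all commutators -/
structure Setup {G : Type*} [Group G] (H : Subgroup G) : Prop where
  cen : ∀ u ∈ H, ∀ g : G, g * u = u * g
  sq1 : ∀ u ∈ H, u * u = 1
  sq : ∀ x : G, x * x ∈ H
  comm : ∀ x y : G, ⁅x, y⁆ ∈ H

variable {G : Type*} [Group G] {H : Subgroup G}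

theorem comm_mul_right (hcc : ∀ x y g : G, g * ⁅x, y⁆ = ⁅x, y⁆ * g) (y x x' : G) :
    ⁅y, x * x'⁆ = ⁅y, x⁆ * ⁅y, x'⁆ := by
  have h1 : ⁅y, x * x'⁆ = ⁅y, x⁆ * (x * ⁅y, x'⁆) * x⁻¹ := by
    simp only [commutatorElement_def]; group
  rw [h1, hcc y x' x]
  group

theorem comm_mul_left (hcc : ∀ x y g : G, g * ⁅x, y⁆ = ⁅x, y⁆ * g) (y y' x : G) :
    ⁅y * y', x⁆ = ⁅y, x⁆ * ⁅y', x⁆ := by
  have h1 : ⁅y * y', x⁆ = (y * ⁅y', x⁆) * x * y⁻¹ * x⁻¹ := by
    simp only [commutatorElement_def]; group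
  have h2 : ⁅y', x⁆ * y * x * y⁻¹ * x⁻¹ = ⁅y', x⁆ * ⁅y, x⁆ := by
    simp only [commutatorElement_def]; group
  rw [h1, hcc y' x y, h2]
  exact hcc y x ⁅y', x⁆

theorem sq_mul (hcc : ∀ x y g : G, g * ⁅x, y⁆ = ⁅x, y⁆ * g) (x y : G) :
    (x * y) * (x * y) = ⁅y, x⁆ * (x * x) * (y * y) := by
  have h1 : (x * y) * (x * y) = (x * ⁅y, x⁆) * x * y * y := by
    simp only [commutatorElement_def]; group
  rw [h1, hcc y x x]
  group

theorem Setup.hcc (hS : Setup H) : ∀ x y g : G, g * ⁅x, y⁆ = ⁅x, y⁆ * g :=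
  fun x y g => hS.cen _ (hS.comm x y) g

theorem Setup.comm_mul_right (hS : Setup H) (y x x' : G) :
    ⁅y, x * x'⁆ = ⁅y, x⁆ * ⁅y, x'⁆ := Cfsg.Agent.S3773.comm_mul_right hS.hcc y x x'

theorem Setup.comm_mul_left (hS : Setup H) (y y' x : G) :
    ⁅y * y', x⁆ = ⁅y, x⁆ * ⁅y', x⁆ := Cfsg.Agent.S3773.comm_mul_left hS.hcc y y' x

theorem Setup.sq_mul (hS : Setup H) (x y : G) :
    (x * y) * (x * y) = ⁅y, x⁆ * (x * x) * (y * y) := Cfsg.Agent.S3773.sq_mul hS.hcc x y

/-- the bicharacter attached to a character of `H` -/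
noncomputable def epsHom (hS : Setup H) (lam : ↥H →* ℤˣ) : G →* (G →* ℤˣ) where
  toFun y :=
    { toFun := fun x => lam ⟨⁅y, x⁆, hS.comm y x⟩
      map_one' := by
        have : (⟨⁅y, (1 : G)⁆, hS.comm y 1⟩ : ↥H) = 1 := Subtype.ext (by simp)
        rw [this, map_one]
      map_mul' := fun x x' => by
        rw [← map_mul]
        congr 1
        exact Subtype.ext (hS.comm_mul_right y x x') }
  map_one' := by
    refine MonoidHom.ext (fun x => ?_)
    have : (⟨⁅(1 : G), x⁆, hS.comm 1 x⟩ : ↥H) = 1 := Subtype.ext (by simp)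
    show lam ⟨⁅(1 : G), x⁆, hS.comm 1 x⟩ = 1
    rw [this, map_one]
  map_mul' := fun y y' => by
    refine MonoidHom.ext (fun x => ?_)
    have : (⟨⁅y * y', x⁆, hS.comm (y * y') x⟩ : ↥H) =
        ⟨⁅y, x⁆, hS.comm y x⟩ * ⟨⁅y', x⁆, hS.comm y' x⟩ := Subtype.ext (hS.comm_mul_left y y' x)
    show lam ⟨⁅y * y', x⁆, hS.comm (y * y') x⟩ =
      lam ⟨⁅y, x⁆, hS.comm y x⟩ * lam ⟨⁅y', x⁆, hS.comm y' x⟩
    rw [this, map_mul]

theorem epsHom_apply (hS : Setup H) (lam : ↥H →* ℤˣ) (y x : G) :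
    epsHom hS lam y x = lam ⟨⁅y, x⁆, hS.comm y x⟩ := rfl

/-- the quadratic character attached to a character of `H` -/
noncomputable def chi (hS : Setup H) (lam : ↥H →* ℤˣ) (x : G) : ℤ :=
  ((lam ⟨x * x, hS.sq x⟩ : ℤˣ) : ℤ)

theorem chi_sq (hS : Setup H) (lam : ↥H →* ℤˣ) (x : G) : chi hS lam x * chi hS lam x = 1 := by
  unfold chi
  rw [← Units.val_mul, Int.units_mul_self, Units.val_one]

theorem chi_mul (hS : Setup H) (lam : ↥H →* ℤˣ) (x y : G) :
    chi hS lam (x * y) = chi hS lam x * chi hS lam y * ((epsHom hS lam y x : ℤˣ) : ℤ) := by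
  have h1 : (⟨(x * y) * (x * y), hS.sq (x * y)⟩ : ↥H) =
      ⟨⁅y, x⁆, hS.comm y x⟩ * ⟨x * x, hS.sq x⟩ * ⟨y * y, hS.sq y⟩ := Subtype.ext (hS.sq_mul x y)
  unfold chi
  rw [h1, map_mul, map_mul, Units.val_mul, Units.val_mul, epsHom_apply]
  ring

/-- the Gauss sum -/
noncomputable def gsum [Fintype G] (hS : Setup H) (lam : ↥H →* ℤˣ) : ℤ := ∑ x : G, chi hS lam x

/-- the quadratic character restricted to the radical of the bicharacter -/
noncomputable def chiZ (hS : Setup H) (lam : ↥H →* ℤˣ) : ↥(epsHom hS lam).ker →* ℤˣ where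
  toFun y := lam ⟨(y : G) * (y : G), hS.sq y⟩
  map_one' := by
    have : (⟨((1 : ↥(epsHom hS lam).ker) : G) * ((1 : ↥(epsHom hS lam).ker) : G), hS.sq _⟩ : ↥H)
        = 1 := Subtype.ext (by simp)
    rw [this, map_one]
  map_mul' := fun y y' => by
    have h1 : (⟨((y * y' : ↥(epsHom hS lam).ker) : G) * ((y * y' : ↥(epsHom hS lam).ker) : G),
        hS.sq _⟩ : ↥H) =
      ⟨⁅(y' : G), (y : G)⁆, hS.comm y' y⟩ * ⟨(y : G) * (y : G), hS.sq y⟩ *
        ⟨(y' : G) * (y' : G), hS.sq y'⟩ := Subtype.ext (hS.sq_mul y y')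
    have h2 : lam ⟨⁅(y' : G), (y : G)⁆, hS.comm y' y⟩ = 1 := by
      have := y'.2
      rw [MonoidHom.mem_ker] at this
      have h3 := congrArg (fun f : G →* ℤˣ => f (y : G)) this
      exact h3
    rw [h1, map_mul, map_mul, h2, one_mul]

open scoped Classical in
/-- the Gauss-sum identity -/
theorem gsum_sq [Fintype G] (hS : Setup H) (lam : ↥H →* ℤˣ) :
    gsum hS lam ^ 2 = (Fintype.card G : ℤ) *
      (if chiZ hS lam = 1 then (Fintype.card ↥(epsHom hS lam).ker : ℤ) else 0) := by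
  have h1 : gsum hS lam ^ 2 =
      ∑ x : G, ∑ y : G, chi hS lam y * ((epsHom hS lam y x : ℤˣ) : ℤ) := by
    unfold gsum
    rw [sq, Finset.sum_mul_sum]
    refine Finset.sum_congr rfl (fun x _ => ?_)
    have h2 : ∑ y : G, chi hS lam x * chi hS lam (x * y) = ∑ y : G, chi hS lam x * chi hS lam y :=
      Fintype.sum_equiv (Equiv.mulLeft x) (fun y => chi hS lam x * chi hS lam (x * y))
        (fun y => chi hS lam x * chi hS lam y) (fun y => rfl)
    rw [← h2]
    refine Finset.sum_congr rfl (fun y _ => ?_)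
    rw [chi_mul hS lam x y]
    calc chi hS lam x * (chi hS lam x * chi hS lam y * ((epsHom hS lam y x : ℤˣ) : ℤ))
        = (chi hS lam x * chi hS lam x) * (chi hS lam y * ((epsHom hS lam y x : ℤˣ) : ℤ)) := by
          ring
      _ = chi hS lam y * ((epsHom hS lam y x : ℤˣ) : ℤ) := by rw [chi_sq, one_mul]
  rw [h1, Finset.sum_comm]
  have h3 : ∀ y : G, ∑ x : G, chi hS lam y * ((epsHom hS lam y x : ℤˣ) : ℤ) =
      if y ∈ (epsHom hS lam).ker then (Fintype.card G : ℤ) * chi hS lam y else 0 := by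
    intro y
    rw [← Finset.mul_sum, sum_hom (epsHom hS lam y)]
    by_cases hy : y ∈ (epsHom hS lam).ker
    · rw [if_pos hy, if_pos (MonoidHom.mem_ker.1 hy)]; ring
    · rw [if_neg hy, if_neg (fun h => hy (MonoidHom.mem_ker.2 h))]; ring
  rw [Finset.sum_congr rfl (fun y _ => h3 y), ← Finset.sum_filter,
    Finset.sum_subtype (Finset.univ.filter (fun y => y ∈ (epsHom hS lam).ker))
      (p := fun y => y ∈ (epsHom hS lam).ker) (by simp), ← Finset.mul_sum]
  congr 1
  exact sum_hom (chiZ hS lam)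

theorem dvd_gsum_sq [Fintype G] (hS : Setup H) (lam : ↥H →* ℤˣ) (C : Subgroup G)
    (hC : C ≤ Subgroup.center G) :
    ((Nat.card G : ℤ) * (Nat.card C : ℤ)) ∣ gsum hS lam ^ 2 := by
  classical
  rw [gsum_sq]
  have hCle : C ≤ (epsHom hS lam).ker := by
    intro c hc
    rw [MonoidHom.mem_ker]
    refine MonoidHom.ext (fun x => ?_)
    have : (⟨⁅c, x⁆, hS.comm c x⟩ : ↥H) = 1 := Subtype.ext (by
      show ⁅c, x⁆ = 1
      rw [commutatorElement_eq_one_iff_mul_comm]
      exact (Subgroup.mem_center_iff.1 (hC hc) x).symm)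
    show lam ⟨⁅c, x⁆, hS.comm c x⟩ = 1
    rw [this, map_one]
  split_ifs
  · rw [Nat.card_eq_fintype_card]
    apply mul_dvd_mul_left
    rw [← Nat.card_eq_fintype_card]
    exact Int.natCast_dvd_natCast.2 (Subgroup.card_dvd_of_le hCle)
  · simp

theorem two_pow_dvd_of_sq : ∀ (k : ℕ) (S : ℤ), (2 : ℤ) ^ k ∣ S ^ 2 → (2 : ℤ) ^ ((k + 1) / 2) ∣ S
  | 0, S, _ => by simp
  | 1, S, h => by
    have : (2 : ℤ) ∣ S := Int.prime_two.dvd_of_dvd_pow (by simpa using h)
    simpa using this
  | (k + 2), S, h => by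
    have h2 : (2 : ℤ) ∣ S :=
      Int.prime_two.dvd_of_dvd_pow (dvd_trans (dvd_pow_self 2 (by omega)) h)
    obtain ⟨t, rfl⟩ := h2
    have h3 : (2 : ℤ) ^ k ∣ t ^ 2 := by
      have e1 : (2 : ℤ) ^ (k + 2) = 4 * 2 ^ k := by ring
      have e2 : (2 * t) ^ 2 = 4 * t ^ 2 := by ring
      rw [e1, e2] at h
      exact (mul_dvd_mul_iff_left (by norm_num)).1 h
    have ih := two_pow_dvd_of_sq k t h3
    have e3 : (k + 2 + 1) / 2 = (k + 1) / 2 + 1 := by omega
    rw [e3, pow_succ, mul_comm]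
    exact mul_dvd_mul_left 2 ih

theorem sum_dual {E : Type*} [Group E] [Fintype E] [Fintype (E →* ℤˣ)] [DecidableEq E]
    (h : ∀ x : E, x * x = 1) (u : E) :
    ∑ lam : (E →* ℤˣ), ((lam u : ℤˣ) : ℤ) =
      if u = 1 then (Fintype.card (E →* ℤˣ) : ℤ) else 0 := by
  classical
  have h1 := sum_hom (MonoidHom.eval u : (E →* ℤˣ) →* ℤˣ)
  have h2 : (MonoidHom.eval u : (E →* ℤˣ) →* ℤˣ) = 1 ↔ u = 1 := by
    constructor
    · intro h3
      by_contra hu
      obtain ⟨lam, hlam⟩ := exists_char h u hu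
      exact hlam (congrArg (fun f : (E →* ℤˣ) →* ℤˣ => f lam) h3)
    · intro hu
      subst hu
      refine MonoidHom.ext (fun lam => ?_)
      exact map_one lam
  by_cases hu : u = 1
  · rw [if_pos hu]
    rw [if_pos (h2.2 hu)] at h1
    exact h1
  · rw [if_neg hu]
    rw [if_neg (fun h3 => hu (h2.1 h3))] at h1
    exact h1

theorem card_dual {E : Type*} [Group E] [Fintype E] [Fintype (E →* ℤˣ)]
    (h : ∀ x : E, x * x = 1) : Fintype.card (E →* ℤˣ) = Fintype.card E := by
  classical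
  have h1 : ∑ u : E, ∑ lam : (E →* ℤˣ), ((lam u : ℤˣ) : ℤ) = (Fintype.card (E →* ℤˣ) : ℤ) := by
    rw [Finset.sum_congr rfl (fun u _ => sum_dual h u)]
    simp
  have h2 : ∑ lam : (E →* ℤˣ), ∑ u : E, ((lam u : ℤˣ) : ℤ) = (Fintype.card E : ℤ) := by
    rw [Finset.sum_congr rfl (fun lam _ => sum_hom lam)]
    simp
  rw [Finset.sum_comm, h2] at h1
  exact_mod_cast h1.symm

/-- the counting lemma -/
theorem counting [Finite G] (hS : Setup H) (C : Subgroup G) (hC : C ≤ Subgroup.center G)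
    (a c : ℕ) (ha : Nat.card G = 2 ^ a) (hc : Nat.card C = 2 ^ c) :
    (2 : ℤ) ^ ((a + c + 1) / 2) ∣
      (Nat.card H : ℤ) * (Nat.card {x : G // x ^ 2 = 1} : ℤ) := by
  classical
  haveI : Fintype G := Fintype.ofFinite G
  haveI : Fintype (↥H →* ℤˣ) := Fintype.ofFinite _
  have hH2 : ∀ x : ↥H, x * x = 1 := fun x => Subtype.ext (hS.sq1 x x.2)
  have hsum : ∑ lam : (↥H →* ℤˣ), gsum hS lam =
      (Nat.card H : ℤ) * (Nat.card {x : G // x ^ 2 = 1} : ℤ) := by
    unfold gsum
    rw [Finset.sum_comm]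
    have h1 : ∀ x : G, ∑ lam : (↥H →* ℤˣ), chi hS lam x =
        if x ^ 2 = 1 then (Nat.card H : ℤ) else 0 := by
      intro x
      have h2 := sum_dual hH2 (⟨x * x, hS.sq x⟩ : ↥H)
      rw [card_dual hH2] at h2
      rw [Nat.card_eq_fintype_card]
      have hiff : (⟨x * x, hS.sq x⟩ : ↥H) = 1 ↔ x ^ 2 = 1 := by
        rw [sq]
        exact Subtype.ext_iff
      by_cases hx : x ^ 2 = 1
      · rw [if_pos hx]
        rw [if_pos (hiff.2 hx)] at h2
        exact h2
      · rw [if_neg hx]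
        rw [if_neg (fun h3 => hx (hiff.1 h3))] at h2
        exact h2
    rw [Finset.sum_congr rfl (fun x _ => h1 x), Finset.sum_ite, Finset.sum_const_zero, add_zero,
      Finset.sum_const, Nat.card_eq_fintype_card (α := {x : G // x ^ 2 = 1}), Fintype.card_subtype]
    simp
    ring
  rw [← hsum]
  apply Finset.dvd_sum
  intro lam _
  apply two_pow_dvd_of_sq
  have := dvd_gsum_sq hS lam C hC
  rw [ha, hc] at this
  rw [pow_add]
  exact_mod_cast this

/-- Let G be a finite 2-group of nilpotency class at most 2 and exponent dividing 4 in which the elements x with x² = 1 form a subgroup N. Then |G| ≤ |N|³, and |G| < |N|³ unless G is special. -/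
theorem result {G : Type*} [Group G] [Finite G] (hG : IsPGroup 2 G) (hcl : (⊤ : Subgroup G).lowerCentralSeries 2 = ⊥) (hexp : ∀ x : G, x ^ 4 = 1) (hN : ∀ x y : G, x ^ 2 = 1 → y ^ 2 = 1 → (x * y) ^ 2 = 1) : Nat.card G ≤ Nat.card {x : G // x ^ 2 = 1} ^ 3 ∧ (¬ Cfsg.IsSpecial 2 G → Nat.card G < Nat.card {x : G // x ^ 2 = 1} ^ 3) := by
  classical
  haveI : Fact (Nat.Prime 2) := ⟨Nat.prime_two⟩
  -- commutators are central
  have hcc : ∀ x y g : G, g * ⁅x, y⁆ = ⁅x, y⁆ * g := by
    intro x y g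
    have h1 : ⁅⁅x, y⁆, g⁆ ∈ (⊤ : Subgroup G).lowerCentralSeries 2 :=
      Subgroup.commutator_mem_commutator
        (Subgroup.commutator_mem_commutator (Subgroup.mem_top x) (Subgroup.mem_top y))
        (Subgroup.mem_top g)
    rw [hcl, Subgroup.mem_bot, commutatorElement_eq_one_iff_mul_comm] at h1
    exact h1.symm
  have hx4 : ∀ x : G, (x * x) * (x * x) = 1 := by
    intro x
    have := hexp x
    rw [← this]
    simp only [pow_succ, pow_zero, one_mul, mul_assoc]
  -- commutators are involutions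
  have hc2 : ∀ x y : G, ⁅y, x⁆ * ⁅y, x⁆ = 1 := by
    intro x y
    have h1 : ⁅y * y, x * x⁆ = 1 := by
      rw [comm_mul_left hcc, comm_mul_right hcc]
      exact hx4 _
    have h2 : ((x * x) * (y * y)) * ((x * x) * (y * y)) = 1 := by
      rw [sq_mul hcc, h1, hx4, hx4]; simp
    have h3 : ((x * y) * (x * y)) * ((x * y) * (x * y)) = ⁅y, x⁆ * ⁅y, x⁆ := by
      rw [sq_mul hcc x y]
      have e : (⁅y, x⁆ * (x * x) * (y * y)) * (⁅y, x⁆ * (x * x) * (y * y)) =
          ⁅y, x⁆ * (((x * x) * (y * y)) * ⁅y, x⁆) * ((x * x) * (y * y)) := by group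
      rw [e, hcc y x ((x * x) * (y * y)), mul_assoc, mul_assoc, h2, mul_one]
    rw [← h3]
    exact hx4 _
  -- squares are central
  have hsqc : ∀ x g : G, g * (x * x) = (x * x) * g := by
    intro x g
    have h1 : ⁅x * x, g⁆ = 1 := by
      rw [comm_mul_left hcc]; exact hc2 g x
    rw [commutatorElement_eq_one_iff_mul_comm] at h1
    exact h1.symm
  -- the subgroups N and W
  let N : Subgroup G :=
    { carrier := {x | x ^ 2 = 1}
      mul_mem' := fun {x y} hx hy => hN x y hx hy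
      one_mem' := one_pow 2
      inv_mem' := fun {x} hx => by
        show (x⁻¹) ^ 2 = 1
        rw [inv_pow, show x ^ 2 = 1 from hx, inv_one] }
  have hNmem : ∀ x : G, x ∈ N ↔ x ^ 2 = 1 := fun x => Iff.rfl
  set W : Subgroup G := Subgroup.center G ⊓ N with hWdef
  have hSW : Setup W := by
    refine ⟨?_, ?_, ?_, ?_⟩
    · intro u hu g
      exact Subgroup.mem_center_iff.1 (Subgroup.mem_inf.1 hu).1 g
    · intro u hu
      have := (hNmem u).1 (Subgroup.mem_inf.1 hu).2
      rwa [sq] at this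
    · intro x
      refine Subgroup.mem_inf.2 ⟨Subgroup.mem_center_iff.2 (hsqc x), (hNmem _).2 ?_⟩
      rw [sq]; exact hx4 x
    · intro x y
      refine Subgroup.mem_inf.2 ⟨Subgroup.mem_center_iff.2 (hcc x y), (hNmem _).2 ?_⟩
      rw [sq]; exact hc2 y x
  -- orders
  obtain ⟨a, ha⟩ := (IsPGroup.iff_card (p := 2)).1 hG
  obtain ⟨ζ, hζ⟩ := (IsPGroup.iff_card (p := 2)).1 (hG.to_subgroup (Subgroup.center G))
  obtain ⟨w, hw⟩ := (IsPGroup.iff_card (p := 2)).1 (hG.to_subgroup W)
  obtain ⟨ν, hν⟩ := (IsPGroup.iff_card (p := 2)).1 (hG.to_subgroup N)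
  have hj : Nat.card {x : G // x ^ 2 = 1} = 2 ^ ν := hν
  have hwζ : w ≤ ζ := by
    have := Subgroup.card_dvd_of_le (inf_le_left : W ≤ Subgroup.center G)
    rw [hw, hζ] at this
    exact (Nat.pow_dvd_pow_iff_le_right (by norm_num)).1 this
  have hwν : w ≤ ν := by
    have := Subgroup.card_dvd_of_le (inf_le_right : W ≤ N)
    rw [hw, hν] at this
    exact (Nat.pow_dvd_pow_iff_le_right (by norm_num)).1 this
  have hmain : (a + ζ + 1) / 2 ≤ w + ν := by
    have h1 := counting hSW (Subgroup.center G) le_rfl a ζ ha hζ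
    rw [hw, hj] at h1
    have h2 : (2 : ℕ) ^ ((a + ζ + 1) / 2) ∣ 2 ^ (w + ν) := by
      rw [pow_add]
      exact_mod_cast h1
    exact (Nat.pow_dvd_pow_iff_le_right (by norm_num)).1 h2
  have hle : a ≤ 3 * ν := by omega
  refine ⟨?_, ?_⟩
  · rw [ha, hj, ← pow_mul]
    exact Nat.pow_le_pow_right (by norm_num) (by omega)
  · intro hns
    by_contra hlt
    push Not at hlt
    rw [ha, hj, ← pow_mul] at hlt
    have hge : ν * 3 ≤ a := (Nat.pow_le_pow_iff_right (by norm_num)).1 hlt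
    have ha3 : a = 3 * ν := by omega
    have hwν' : w = ν := by omega
    have hζw : ζ = w := by omega
    apply hns
    have hWZ : W = Subgroup.center G :=
      Subgroup.eq_of_le_of_card_ge inf_le_left (by rw [hw, hζ, hζw])
    have hcomW : commutator G ≤ W := by
      rw [commutator_def]
      exact Subgroup.commutator_le.2 (fun x _ y _ => hSW.comm x y)
    have hGW : commutator G = W := by
      by_contra hne
      have hK : (commutator G).subgroupOf W ≠ ⊤ := by
        intro h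
        rw [Subgroup.subgroupOf_eq_top] at h
        exact hne (le_antisymm hcomW h)
      have hW2 : ∀ x : ↥W, x * x = 1 := fun x => Subtype.ext (hSW.sq1 x x.2)
      obtain ⟨M, hKM, hM2⟩ := exists_index_two hW2 _ hK
      have hlam : ∀ x y : G, signHom M hM2 ⟨⁅y, x⁆, hSW.comm y x⟩ = 1 := by
        intro x y
        rw [signHom_eq_one_iff]
        apply hKM
        rw [Subgroup.mem_subgroupOf]
        exact Subgroup.commutator_mem_commutator (Subgroup.mem_top y) (Subgroup.mem_top x)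
      let chi₀ : G →* ℤˣ :=
        { toFun := fun x => signHom M hM2 ⟨x * x, hSW.sq x⟩
          map_one' := by
            have : (⟨(1 : G) * 1, hSW.sq 1⟩ : ↥W) = 1 := Subtype.ext (by simp)
            rw [this, map_one]
          map_mul' := fun x y => by
            have h1 : (⟨(x * y) * (x * y), hSW.sq (x * y)⟩ : ↥W) =
                ⟨⁅y, x⁆, hSW.comm y x⟩ * ⟨x * x, hSW.sq x⟩ * ⟨y * y, hSW.sq y⟩ :=
              Subtype.ext (hSW.sq_mul x y)
            rw [h1, map_mul, map_mul, hlam, one_mul] }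
      have hchi₀ : ∀ x : G, x ∈ chi₀.ker ↔ (⟨x * x, hSW.sq x⟩ : ↥W) ∈ M := by
        intro x
        rw [MonoidHom.mem_ker]
        exact signHom_eq_one_iff M hM2 _
      set G₁ : Subgroup G := chi₀.ker with hG₁
      set H₁ : Subgroup G := M.map W.subtype with hH₁
      have hH₁W : H₁ ≤ W := Subgroup.map_subtype_le M
      have hNG₁ : N ≤ G₁ := by
        intro x hx
        rw [hchi₀]
        have : (⟨x * x, hSW.sq x⟩ : ↥W) = 1 := Subtype.ext (by
          show x * x = 1
          rw [← sq]; exact hx)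
        rw [this]; exact one_mem M
      have hWG₁ : W ≤ G₁ := le_trans inf_le_right hNG₁
      have hS₁ : Setup (H₁.subgroupOf G₁) := by
        refine ⟨?_, ?_, ?_, ?_⟩
        · intro u hu g
          exact Subtype.ext (hSW.cen (u : G) (hH₁W (Subgroup.mem_subgroupOf.1 hu)) (g : G))
        · intro u hu
          exact Subtype.ext (hSW.sq1 (u : G) (hH₁W (Subgroup.mem_subgroupOf.1 hu)))
        · intro x
          rw [Subgroup.mem_subgroupOf]
          exact ⟨⟨(x : G) * (x : G), hSW.sq x⟩, (hchi₀ x).1 x.2, rfl⟩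
        · intro x y
          rw [Subgroup.mem_subgroupOf]
          refine ⟨⟨⁅(x : G), (y : G)⁆, hSW.comm x y⟩, hKM ?_, rfl⟩
          rw [Subgroup.mem_subgroupOf]
          exact Subgroup.commutator_mem_commutator (Subgroup.mem_top _) (Subgroup.mem_top _)
      have hC₁ : W.subgroupOf G₁ ≤ Subgroup.center ↥G₁ := by
        intro c hc
        rw [Subgroup.mem_center_iff]
        intro g
        exact Subtype.ext (hSW.cen (c : G) (Subgroup.mem_subgroupOf.1 hc) (g : G))
      obtain ⟨a₁, ha₁⟩ := (IsPGroup.iff_card (p := 2)).1 (hG.to_subgroup G₁)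
      obtain ⟨μ, hμ⟩ := (IsPGroup.iff_card (p := 2)).1
        ((IsPGroup.to_subgroup hG W).to_subgroup M)
      have hμw : μ + 1 = w := by
        have h1 := Subgroup.card_mul_index M
        rw [hM2, hμ, hw, ← pow_succ] at h1
        exact Nat.pow_right_injective (le_refl 2) h1
      have haa₁ : a ≤ a₁ + 1 := by
        have h1 := Subgroup.card_mul_index G₁
        have h2 : G₁.index ≤ 2 := by
          rw [hG₁, Subgroup.index_ker]
          have h3 : Nat.card ↥chi₀.range ≤ Nat.card ℤˣ :=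
            Nat.card_le_card_of_injective _ Subtype.val_injective
          have h4 : Nat.card ℤˣ = 2 := by
            rw [Nat.card_eq_fintype_card]; rfl
          omega
        have h5 : 2 ^ a ≤ 2 ^ (a₁ + 1) := by
          rw [← ha, ← h1, ha₁, pow_succ]
          exact Nat.mul_le_mul_left _ h2
        exact (Nat.pow_le_pow_iff_right (by norm_num)).1 h5
      have hcW : Nat.card ↥(W.subgroupOf G₁) = 2 ^ w := by
        rw [← hw]
        exact Nat.card_congr (Subgroup.subgroupOfEquivOfLe hWG₁).toEquiv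
      have hcH : Nat.card ↥(H₁.subgroupOf G₁) = 2 ^ μ := by
        rw [← hμ]
        have h1 : Nat.card ↥(H₁.subgroupOf G₁) = Nat.card ↥H₁ :=
          Nat.card_congr (Subgroup.subgroupOfEquivOfLe (le_trans hH₁W hWG₁)).toEquiv
        rw [h1, hH₁]
        exact Subgroup.card_map_of_injective W.subtype_injective
      have hj₁ : Nat.card {x : ↥G₁ // x ^ 2 = 1} = 2 ^ ν := by
        rw [← hν]
        refine Nat.card_congr
          { toFun := fun x => ⟨((x.1 : ↥G₁) : G), ?_⟩
            invFun := fun y => ⟨⟨(y : G), hNG₁ y.2⟩, ?_⟩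
            left_inv := fun x => rfl
            right_inv := fun y => rfl }
        · have h := congrArg Subtype.val x.2
          exact h
        · exact Subtype.ext y.2
      have h1 := counting hS₁ (W.subgroupOf G₁) hC₁ a₁ w ha₁ hcW
      rw [hcH, hj₁] at h1
      have h2 : (2 : ℕ) ^ ((a₁ + w + 1) / 2) ∣ 2 ^ (μ + ν) := by
        rw [pow_add]
        exact_mod_cast h1
      have h3 := (Nat.pow_dvd_pow_iff_le_right (by norm_num)).1 h2
      omega
    have hcomZ : commutator G = Subgroup.center G := hGW.trans hWZ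
    refine ⟨hG, ?_, hcomZ⟩
    apply le_antisymm
    · have hq : ∀ q : G ⧸ Subgroup.center G, q * q = 1 := by
        intro q
        induction q using QuotientGroup.induction_on with
        | H x =>
          rw [← QuotientGroup.mk_mul, QuotientGroup.eq_one_iff]
          exact Subgroup.mem_center_iff.2 (hsqc x)
      have h1 := Cfsg.Agent.S3772.frattini_eq_bot_of_sq hq
      have h2 := frattini_le_comap_frattini_of_surjective
        (QuotientGroup.mk'_surjective (Subgroup.center G))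
      rw [h1, MonoidHom.comap_bot, QuotientGroup.ker_mk'] at h2
      exact h2
    · rw [← hcomZ]
      exact Cfsg.Agent.Helper2.commutator_le_frattini_of_isPGroup hG

end Cfsg.Agent.S3773
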