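-- Statement S3738: a fixed-point-free faithful 3-element on a 2-group of rank at most two has order 3.
import Cfsg.Statements.S3738
import Cfsg.Agent.S3736
import Cfsg.Agent.S3773
import Cfsg.Agent.Helper62.Baer
import Cfsg.Agent.Helper31.CoprimeGen

set_option autoImplicit false
open Cfsg

namespace Cfsg.Agent.S3738

open scoped commutatorElement
open Cfsg.Agent.Helper62

/-- a free action of a finite group on a finite set: the order of the group divides the size -/
theorem card_dvd_of_free {K T : Type*} [Group K] [MulAction K T] [Finite K] [Finite T]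
    (hfree : ∀ (g : K) (x : T), g • x = x → g = 1) : Nat.card K ∣ Nat.card T := by
  classical
  let Ω := MulAction.orbitRel.Quotient K T
  let f : K × Ω → T := fun gω => gω.1 • gω.2.out
  have h2 : ∀ (k : K) (x : T), (Quotient.mk'' (k • x) : Ω) = Quotient.mk'' x :=
    fun k x => Quotient.sound' (MulAction.mem_orbit x k)
  have hf : Function.Bijective f := by
    constructor
    · rintro ⟨g, ω⟩ ⟨g', ω'⟩ h
      have h' : g • ω.out = g' • ω'.out := h
      have hω : ω = ω' := by
        have h1 : (Quotient.mk'' (g • ω.out) : Ω) = Quotient.mk'' (g' • ω'.out) := by rw [h']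
        rw [h2, h2, Quotient.out_eq', Quotient.out_eq'] at h1
        exact h1
      subst hω
      have hg : g'⁻¹ * g = 1 := hfree _ ω.out (by rw [mul_smul, h', inv_smul_smul])
      have : g = g' := by
        calc g = g' * (g'⁻¹ * g) := by group
          _ = g' := by rw [hg, mul_one]
      rw [this]
    · intro x
      have h1 : (MulAction.orbitRel K T).r x (Quotient.mk'' x : Ω).out :=
        Quotient.exact' (Quotient.out_eq' _).symm
      obtain ⟨g, hg⟩ := h1
      exact ⟨(g, Quotient.mk'' x), hg⟩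
  have e := Equiv.ofBijective f hf
  rw [← Nat.card_congr e, Nat.card_prod]
  exact dvd_mul_right _ _

/-- in a cyclic `p`-group every non-trivial subgroup contains the subgroup of order `p` -/
theorem pow_mem_zpowers_of_ne_one {X : Type*} [Group X] [Finite X] {p : ℕ} (hp : p.Prime)
    (d : X) (n : ℕ) (hn : 1 ≤ n) (hd : orderOf d = p ^ n) (g : X)
    (hg : g ∈ Subgroup.zpowers d) (hg1 : g ≠ 1) :
    d ^ (p ^ (n - 1)) ∈ Subgroup.zpowers g := by
  haveI : Fact p.Prime := ⟨hp⟩
  obtain ⟨i, rfl⟩ := Subgroup.mem_zpowers_iff.1 hg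
  have hgpow : (d ^ i) ^ (p ^ n) = 1 := by
    rw [← zpow_natCast, ← zpow_mul, mul_comm, zpow_mul, zpow_natCast, ← hd, pow_orderOf_eq_one,
      one_zpow]
  obtain ⟨j, -, hj⟩ := (Nat.dvd_prime_pow hp).1 (orderOf_dvd_of_pow_eq_one hgpow)
  have hj0 : j ≠ 0 := by
    rintro rfl
    rw [pow_zero, orderOf_eq_one_iff] at hj
    exact hg1 hj
  set g' := (d ^ i) ^ (p ^ (j - 1)) with hg'
  have hg'p : g' ^ p = 1 := by
    rw [hg', ← pow_mul, ← pow_succ, Nat.sub_add_cancel (Nat.one_le_iff_ne_zero.2 hj0), ← hj]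
    exact pow_orderOf_eq_one _
  have hg'1 : g' ≠ 1 := by
    apply pow_ne_one_of_lt_orderOf (pow_pos hp.pos _).ne'
    rw [hj]
    exact Nat.pow_lt_pow_right hp.one_lt (by omega)
  set e := d ^ (p ^ (n - 1)) with he
  have hep : e ^ p = 1 := by
    rw [he, ← pow_mul, ← pow_succ, Nat.sub_add_cancel hn, ← hd]
    exact pow_orderOf_eq_one _
  have he1 : e ≠ 1 := by
    apply pow_ne_one_of_lt_orderOf (pow_pos hp.pos _).ne'
    rw [hd]
    exact Nat.pow_lt_pow_right hp.one_lt (by omega)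
  have hg'e : g' ∈ Subgroup.zpowers e := by
    have h1 : g' = d ^ (i * (p ^ (j - 1) : ℕ)) := by
      rw [hg', zpow_mul, zpow_natCast]
    have h2 : d ^ (i * (p ^ (j - 1) : ℕ) * (p : ℕ)) = 1 := by
      rw [zpow_mul, ← h1, zpow_natCast]; exact hg'p
    have h3 : ((p ^ n : ℕ) : ℤ) ∣ i * (p ^ (j - 1) : ℕ) * (p : ℕ) := by
      rw [← hd]; exact orderOf_dvd_iff_zpow_eq_one.2 h2
    have h4 : ((p ^ n : ℕ) : ℤ) = ((p ^ (n - 1) : ℕ) : ℤ) * (p : ℕ) := by
      rw [← Nat.cast_mul, ← pow_succ, Nat.sub_add_cancel hn]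
    rw [h4] at h3
    have hp0 : ((p : ℕ) : ℤ) ≠ 0 := by exact_mod_cast hp.ne_zero
    obtain ⟨c, hc⟩ := (mul_dvd_mul_iff_right hp0).1 h3
    rw [h1, hc, zpow_mul, zpow_natCast]
    exact Subgroup.zpow_mem _ (Subgroup.mem_zpowers _) _
  have hle : Subgroup.zpowers g' ≤ Subgroup.zpowers e := Subgroup.zpowers_le.2 hg'e
  have hcard : Nat.card (Subgroup.zpowers e) ≤ Nat.card (Subgroup.zpowers g') := by
    rw [Nat.card_zpowers, Nat.card_zpowers, orderOf_eq_prime hep he1, orderOf_eq_prime hg'p hg'1]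
  have heq := Subgroup.eq_of_le_of_card_ge hle hcard
  have h5 : e ∈ Subgroup.zpowers g' := by rw [heq]; exact Subgroup.mem_zpowers e
  exact (Subgroup.zpowers_le.2 (Subgroup.pow_mem _ (Subgroup.mem_zpowers _) _)) h5

theorem two_pow_mod_nine (m : ℕ) (h : 2 ^ m % 9 = 1) : m % 6 = 0 := by
  have h1 : 2 ^ m = 64 ^ (m / 6) * 2 ^ (m % 6) := by
    conv_lhs => rw [← Nat.div_add_mod m 6, pow_add, pow_mul]
    norm_num
  have h2 : 64 ^ (m / 6) % 9 = 1 := by
    rw [Nat.pow_mod]; norm_num
  rw [h1, Nat.mul_mod, h2] at h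
  have h3 : m % 6 < 6 := Nat.mod_lt _ (by norm_num)
  revert h
  generalize m % 6 = r at h3
  interval_cases r <;> simp

/-- adjoining a commuting involution to a central elementary abelian subgroup -/
theorem elemAb_sup {H : Type*} [Group H] (Z : Subgroup H)
    (hZc : ∀ u ∈ Z, ∀ g : H, g * u = u * g) (hZ2 : ∀ u ∈ Z, u * u = 1) (x : H)
    (hx : x * x = 1) :
    (∀ a ∈ Z ⊔ Subgroup.zpowers x, ∀ b ∈ Z ⊔ Subgroup.zpowers x, a * b = b * a) ∧
      (∀ a ∈ Z ⊔ Subgroup.zpowers x, a * a = 1) := by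
  set E := Z ⊔ Subgroup.zpowers x with hE
  have h1 : E ≤ Subgroup.centralizer {x} := by
    apply sup_le
    · intro u hu
      rw [Subgroup.mem_centralizer_singleton_iff]
      exact (hZc u hu x).symm
    · apply Subgroup.zpowers_le.2
      rw [Subgroup.mem_centralizer_singleton_iff]
  have h2 : E ≤ Subgroup.centralizer (E : Set H) := by
    apply sup_le
    · intro u hu
      rw [Subgroup.mem_centralizer_iff]
      intro g _
      exact hZc u hu g
    · apply Subgroup.zpowers_le.2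
      rw [Subgroup.mem_centralizer_iff]
      intro g hg
      have := h1 hg
      rw [Subgroup.mem_centralizer_singleton_iff] at this
      exact this
  have hcomm : ∀ a ∈ E, ∀ b ∈ E, a * b = b * a := by
    intro a ha b hb
    exact (Subgroup.mem_centralizer_iff.1 (h2 hb) a ha)
  refine ⟨hcomm, ?_⟩
  let S₂ : Subgroup H :=
    { carrier := {y | y ∈ E ∧ y * y = 1}
      mul_mem' := by
        rintro a b ⟨ha, ha2⟩ ⟨hb, hb2⟩
        refine ⟨mul_mem ha hb, ?_⟩
        calc a * b * (a * b) = a * (b * a) * b := by group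
          _ = a * (a * b) * b := by rw [hcomm b hb a ha]
          _ = (a * a) * (b * b) := by group
          _ = 1 := by rw [ha2, hb2, mul_one]
      one_mem' := ⟨one_mem _, by simp⟩
      inv_mem' := by
        rintro a ⟨ha, ha2⟩
        refine ⟨inv_mem ha, ?_⟩
        rw [← mul_inv_rev, ha2, inv_one] }
  have h3 : E ≤ S₂ := by
    apply sup_le
    · intro u hu
      exact ⟨Subgroup.mem_sup_left hu, hZ2 u hu⟩
    · apply Subgroup.zpowers_le.2
      exact ⟨Subgroup.mem_sup_right (Subgroup.mem_zpowers x), hx⟩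
  intro a ha
  exact (h3 ha).2

/-- Let d be a non-identity 3-element of a finite group and P a 2-subgroup normalized by d on which ⟨d⟩ acts faithfully (no non-identity power of d centralizes P) and without non-identity fixed points (C_P(d) = 1). If every abelian subgroup of P has 2-rank at most 2, then d has order 3. -/
theorem result {X : Type*} [Group X] [Finite X] (d : X) (n : ℕ) (hn : 1 ≤ n) (hd : orderOf d = 3 ^ n) (P : Subgroup X) (hP : IsPGroup 2 P) (hdP : d ∈ Subgroup.normalizer (P : Set X)) (hfaith : Subgroup.zpowers d ⊓ Subgroup.centralizer (P : Set X) = ⊥) (hfpf : P ⊓ Subgroup.centralizer {d} = ⊥) (hrank : ∀ V : Subgroup X, V ≤ P → IsMulCommutative V → Cfsg.PRankLE 2 2 V) : orderOf d = 3 := by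
  classical
  by_contra hne
  have hn2 : 2 ≤ n := by
    by_contra h
    have h1 : n = 1 := by omega
    subst h1
    rw [pow_one] at hd
    exact hne hd
  haveI : Fact (Nat.Prime 2) := ⟨Nat.prime_two⟩
  haveI : Fact (Nat.Prime 3) := ⟨Nat.prime_three⟩
  set e : X := d ^ (3 ^ (n - 1)) with he
  set K : Subgroup X := Subgroup.zpowers d with hK
  set A : Subgroup X := Subgroup.zpowers e with hA
  have heK : e ∈ K := Subgroup.pow_mem _ (Subgroup.mem_zpowers d) _
  have hAK : A ≤ K := Subgroup.zpowers_le.2 heK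
  have he1 : e ≠ 1 := by
    apply pow_ne_one_of_lt_orderOf (pow_pos (by norm_num) _).ne'
    rw [hd]
    exact Nat.pow_lt_pow_right (by norm_num) (by omega)
  have he3 : e ^ 3 = 1 := by
    rw [he, ← pow_mul, ← pow_succ, Nat.sub_add_cancel hn, ← hd]
    exact pow_orderOf_eq_one d
  have hAcard : Nat.card A = 3 := by
    rw [Nat.card_zpowers]; exact orderOf_eq_prime he3 he1
  have hKP : K ≤ Subgroup.normalizer (P : Set X) := Subgroup.zpowers_le.2 hdP
  have hnt : ⁅P, A⁆ ≠ ⊥ := by
    intro h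
    rw [Subgroup.commutator_eq_bot_iff_le_centralizer] at h
    have h1 : e ∈ K ⊓ Subgroup.centralizer (P : Set X) :=
      ⟨heK, (Subgroup.le_centralizer_iff.1 h) (Subgroup.mem_zpowers e)⟩
    rw [hfaith] at h1
    exact he1 (Subgroup.mem_bot.1 h1)
  have hex : ({U : Subgroup X | U ≤ P ∧ K ≤ Subgroup.normalizer (U : Set X) ∧
      ⁅U, A⁆ ≠ ⊥} : Set (Subgroup X)).Nonempty := ⟨P, le_rfl, hKP, hnt⟩
  obtain ⟨P₀, ⟨hP₀P, hKP₀, hnt₀⟩, hminP₀⟩ := (wellFounded_lt (α := Subgroup X)).has_min _ hex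
  have hP₀ : IsPGroup 2 P₀ := hP.to_le hP₀P
  have hKA : K ≤ Subgroup.normalizer (A : Set X) := by
    refine le_trans ?_ (Subgroup.centralizer_le_normalizer _)
    apply Subgroup.zpowers_le.2
    rw [Subgroup.mem_centralizer_iff]
    intro h hh
    obtain ⟨i, rfl⟩ := Subgroup.mem_zpowers_iff.1 hh
    exact (((Commute.refl d).pow_left _).zpow_left i).eq
  have hmin : ∀ U : Subgroup X, U < P₀ → K ≤ Subgroup.normalizer (U : Set X) →
      ⁅U, A⁆ = ⊥ := by
    intro U hU hBU
    by_contra hne'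
    exact hminP₀ U ⟨hU.le.trans hP₀P, hBU, hne'⟩ hU
  have hAcop : (Nat.card A).Coprime 2 := by rw [hAcard]; decide
  obtain ⟨hPA, hstr, -, -⟩ :=
    Cfsg.Agent.S3736.result K A P₀ hP₀ hKP₀ hAK hKA hAcop hnt₀ hmin
  -- class two
  have hcc : ∀ x y g : ↥P₀, g * ⁅x, y⁆ = ⁅x, y⁆ * g := by
    rcases hstr with hab | hsp
    · intro x y g
      have : ⁅x, y⁆ = 1 := commutatorElement_eq_one_iff_commute.2 (hab.1.is_comm.comm x y)
      rw [this]; simp
    · intro x y g
      have hmem : ⁅x, y⁆ ∈ commutator ↥P₀ :=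
        Subgroup.commutator_mem_commutator (Subgroup.mem_top x) (Subgroup.mem_top y)
      rw [hsp.2.2] at hmem
      exact Subgroup.mem_center_iff.1 hmem g
  set Z : Subgroup ↥P₀ := commutator ↥P₀ with hZ
  have hsq : ∀ x : ↥P₀, x * x ∈ Z := by
    rcases hstr with hab | hsp
    · intro x
      have : x * x = 1 := Subtype.ext (by
        have := hab.2 x x.2
        rw [pow_two] at this
        exact this)
      rw [this]; exact one_mem _
    · intro x
      rw [hZ, hsp.2.2, ← hsp.2.1, ← pow_two]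
      exact Cfsg.Agent.Helper2.pow_mem_frattini_of_isPGroup hP₀ x
  have hZcen : Z ≤ Subgroup.center ↥P₀ := by
    rw [hZ, commutator_def]
    exact Subgroup.commutator_le.2 (fun x _ y _ => Subgroup.mem_center_iff.2 (hcc x y))
  have hZc : ∀ u ∈ Z, ∀ g : ↥P₀, g * u = u * g :=
    fun u hu g => Subgroup.mem_center_iff.1 (hZcen hu) g
  have hZ2 : ∀ u ∈ Z, u * u = 1 := by
    intro u hu
    rw [hZ, commutator_def, Subgroup.commutator_def] at hu
    induction hu using Subgroup.closure_induction with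
    | mem x hx =>
      obtain ⟨a, -, b, -, rfl⟩ := hx
      rw [← baer_comm_mul_left hcc]
      exact baer_comm_central_left _ _ (hZc _ (hsq a))
    | one => simp
    | mul x y hx' hy' hx hy =>
      have hxZ : x ∈ Z := by rw [hZ, commutator_def, Subgroup.commutator_def]; exact hx'
      calc x * y * (x * y) = x * (y * x) * y := by group
        _ = x * (x * y) * y := by rw [hZc x hxZ y]
        _ = (x * x) * (y * y) := by group
        _ = 1 := by rw [hx, hy, mul_one]
    | inv x _ hx => rw [← mul_inv_rev, hx, inv_one]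
  have hS : Cfsg.Agent.S3773.Setup Z :=
    { cen := hZc
      sq1 := hZ2
      sq := hsq
      comm := fun x y =>
        Subgroup.commutator_mem_commutator (Subgroup.mem_top x) (Subgroup.mem_top y) }
  -- cardinalities
  obtain ⟨a, ha⟩ := (IsPGroup.iff_card).1 hP₀
  have hZp : IsPGroup 2 Z := hP₀.to_subgroup Z
  obtain ⟨z, hz⟩ := (IsPGroup.iff_card).1 hZp
  have hza : z ≤ a := by
    have h1 : Nat.card Z ∣ Nat.card ↥P₀ := Subgroup.card_subgroup_dvd_card Z
    rw [ha, hz] at h1
    exact (Nat.pow_dvd_pow_iff_le_right (by norm_num)).1 h1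
  -- the rank hypothesis
  have hrk : ∀ E : Subgroup ↥P₀, (∀ a ∈ E, ∀ b ∈ E, a * b = b * a) → (∀ a ∈ E, a * a = 1) →
      Nat.card E ≤ 4 := by
    intro E hEc hE2
    have hVP : E.map P₀.subtype ≤ P := by
      rintro v ⟨u, -, rfl⟩
      exact hP₀P u.2
    have hVc : IsMulCommutative ↥(E.map P₀.subtype) := ⟨⟨by
      rintro ⟨v, v', hv', rfl⟩ ⟨w, w', hw', rfl⟩
      exact Subtype.ext (show (v' : X) * (w' : X) = (w' : X) * (v' : X) from
        congrArg Subtype.val (hEc v' hv' w' hw'))⟩⟩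
    have h := hrank (E.map P₀.subtype) hVP hVc ⊤
      ⟨⟨fun v w => Subtype.ext (hVc.is_comm.comm v.1 w.1)⟩⟩
      (by
        rintro ⟨v, v', hv', rfl⟩ -
        apply Subtype.ext
        have := congrArg Subtype.val (hE2 v' hv')
        rw [pow_two]
        exact this)
    rw [Subgroup.card_top] at h
    have h2 : Nat.card ↥(E.map P₀.subtype) = Nat.card E :=
      (Nat.card_congr (E.equivMapOfInjective _ (Subgroup.subtype_injective _)).toEquiv).symm
    rw [h2] at h
    exact h
  -- the action of `K` on `P₀`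
  letI act := Cfsg.Agent.Helper31.conjActOn K P₀ hKP₀
  have hsmul : ∀ (g : ↥K) (x : ↥P₀), g • x = conjHomOn P₀ g (hKP₀ g.2) x := fun _ _ => rfl
  have hZinv : ∀ (g : ↥K) (u : ↥P₀), u ∈ Z → g • u ∈ Z := by
    intro g u hu
    rw [hsmul]
    have h1 : conjHomOn P₀ g (hKP₀ g.2) u ∈ Z.map (conjHomOn P₀ g (hKP₀ g.2)) :=
      Subgroup.mem_map_of_mem _ hu
    have h2 : Z.map (conjHomOn P₀ g (hKP₀ g.2)) ≤ Z := by
      rw [hZ, commutator_def, Subgroup.map_commutator]
      exact Subgroup.commutator_mono le_top le_top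
    exact h2 h1
  have hcop : (Nat.card A).Coprime (Nat.card P₀) := by
    rw [hAcard, ha]; exact Nat.Coprime.pow_right a (by decide)
  have hfixZ : ∀ (g : ↥K) (x : ↥P₀), g ≠ 1 → g • x = x → x ∈ Z := by
    intro g x hg hx
    have hgx : (g : X) * x * (g : X)⁻¹ = x := congrArg Subtype.val hx
    have he_g : e ∈ Subgroup.zpowers (g : X) :=
      pow_mem_zpowers_of_ne_one Nat.prime_three d n hn hd g g.2 (fun h => hg (Subtype.ext h))
    have hxA : (x : X) ∈ Subgroup.centralizer (A : Set X) := by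
      rw [Subgroup.mem_centralizer_iff]
      intro h hh
      have h1 : Subgroup.zpowers (g : X) ≤ Subgroup.centralizer {(x : X)} := by
        apply Subgroup.zpowers_le.2
        rw [Subgroup.mem_centralizer_singleton_iff]
        calc (g : X) * x = ((g : X) * x * (g : X)⁻¹) * g := by group
          _ = x * g := by rw [hgx]
      have h2 : h ∈ Subgroup.centralizer {(x : X)} := h1 (Subgroup.zpowers_le.2 he_g hh)
      rw [Subgroup.mem_centralizer_singleton_iff] at h2
      exact h2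
    obtain ⟨y, hy, hyx⟩ :=
      Cfsg.Agent.S3736.fixed_le_commutator (hAK.trans hKP₀) hcop hPA ⟨x.2, hxA⟩
    have : y = x := Subtype.ext hyx
    rw [← this]; exact hy
  let T' : SubMulAction ↥K ↥P₀ :=
    { carrier := {x | x ∉ Z}
      smul_mem' := by
        intro g x hx h
        apply hx
        have := hZinv g⁻¹ (g • x) h
        rwa [inv_smul_smul] at this }
  have hfree : ∀ (g : ↥K) (x : ↥T'), g • x = x → g = 1 := by
    intro g x h
    by_contra hg
    exact x.2 (hfixZ g x.1 hg (congrArg Subtype.val h))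
  have hdvd : Nat.card ↥K ∣ Nat.card ↥T' := card_dvd_of_free hfree
  have hKcard : Nat.card ↥K = 3 ^ n := by rw [hK, Nat.card_zpowers, hd]
  have hT'card : Nat.card ↥T' + 2 ^ z = 2 ^ a := by
    have h1 := Set.ncard_add_ncard_compl (Z : Set ↥P₀)
    rw [ha] at h1
    have h2 : (Z : Set ↥P₀).ncard = 2 ^ z := by rw [← hz, ← Nat.card_coe_set_eq]; rfl
    have h3 : Nat.card ↥T' = ((Z : Set ↥P₀)ᶜ).ncard := by rw [← Nat.card_coe_set_eq]; rfl
    rw [h3, ← h2, add_comm]; exact h1
  -- arithmetic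
  obtain ⟨m, rfl⟩ : ∃ m, a = z + m := ⟨a - z, by omega⟩
  obtain ⟨w, hw⟩ : ∃ w, 2 ^ m = w + 1 := ⟨2 ^ m - 1, by have := Nat.one_le_two_pow (n := m); omega⟩
  have hTw : Nat.card ↥T' = 2 ^ z * w := by
    rw [pow_add, hw, mul_add, mul_one] at hT'card
    exact Nat.add_right_cancel hT'card
  have h9 : 9 ∣ w := by
    have h1 : 9 ∣ 3 ^ n := by
      obtain ⟨k, rfl⟩ : ∃ k, n = 2 + k := ⟨n - 2, by omega⟩
      rw [pow_add]; exact Dvd.intro _ rfl
    have h2 : 9 ∣ 2 ^ z * w := by rw [← hTw]; exact h1.trans (hKcard ▸ hdvd)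
    exact Nat.Coprime.dvd_of_dvd_mul_left (Nat.Coprime.pow_right z (by decide)) h2
  have hm6 : m % 6 = 0 := by
    apply two_pow_mod_nine
    obtain ⟨c, rfl⟩ := h9
    rw [hw]; omega
  have hm0 : m ≠ 0 := by
    rintro rfl
    -- `Z = ⊤`, hence `P₀` is abelian, hence trivial
    have hZtop : Z = ⊤ := by
      apply Subgroup.eq_top_of_card_eq
      rw [hz, ha]; simp
    have hab : ∀ x y : ↥P₀, x * y = y * x := fun x y => hZc y (hZtop ▸ Subgroup.mem_top y) x
    have hZbot : Z = ⊥ := by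
      rw [eq_bot_iff, hZ, commutator_def]
      exact Subgroup.commutator_le.2 (fun x _ y _ => by
        rw [Subgroup.mem_bot, commutatorElement_eq_one_iff_commute]; exact hab x y)
    have hP₀bot : P₀ = ⊥ := by
      rw [eq_bot_iff]
      intro x hx
      have : (⟨x, hx⟩ : ↥P₀) ∈ Z := hZtop ▸ Subgroup.mem_top _
      rw [hZbot, Subgroup.mem_bot] at this
      exact Subgroup.mem_bot.2 (congrArg Subtype.val this)
    apply hnt₀
    rw [hP₀bot]
    exact Subgroup.commutator_bot_left A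
  have hm : 6 ≤ m := by omega
  -- counting involutions
  have hcount := Cfsg.Agent.S3773.counting hS Z hZcen (z + m) z ha hz
  rw [hz] at hcount
  have hI : 8 ≤ Nat.card {x : ↥P₀ // x ^ 2 = 1} := by
    have h1 : (2 : ℤ) ^ (z + 3) ∣ (2 : ℤ) ^ ((z + m + z + 1) / 2) :=
      pow_dvd_pow 2 (by omega)
    have h2 := h1.trans hcount
    have h3 : (2 ^ z * 8 : ℕ) ∣ 2 ^ z * Nat.card {x : ↥P₀ // x ^ 2 = 1} := by
      have : ((2 ^ z * 8 : ℕ) : ℤ) ∣ ((2 ^ z * Nat.card {x : ↥P₀ // x ^ 2 = 1} : ℕ) : ℤ) := by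
        push_cast
        rw [pow_add] at h2
        exact h2
      exact Int.natCast_dvd_natCast.1 this
    have h4 : 8 ∣ Nat.card {x : ↥P₀ // x ^ 2 = 1} :=
      (Nat.mul_dvd_mul_iff_left (by positivity)).1 h3
    haveI : Nonempty {x : ↥P₀ // x ^ 2 = 1} := ⟨⟨1, one_pow 2⟩⟩
    exact Nat.le_of_dvd Nat.card_pos h4
  have hz2 : z ≤ 2 := by
    have h1 := hrk Z (fun a ha b _ => (hZc a ha b).symm) hZ2
    rw [hz] at h1
    by_contra h
    have h2 : 2 ^ 3 ≤ 2 ^ z := Nat.pow_le_pow_right (by norm_num) (by omega)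
    omega
  have hzcases : z = 0 ∨ z = 1 ∨ z = 2 := by omega
  rcases hzcases with rfl | rfl | rfl
  · -- `P₀` is elementary abelian of order at least `64`
    have hZbot : Z = ⊥ := Subgroup.eq_bot_of_card_eq Z (by rw [hz]; simp)
    have hab : ∀ x y : ↥P₀, x * y = y * x := by
      intro x y
      have h1 : ⁅x, y⁆ ∈ Z :=
        Subgroup.commutator_mem_commutator (Subgroup.mem_top x) (Subgroup.mem_top y)
      rw [hZbot, Subgroup.mem_bot, commutatorElement_eq_one_iff_commute] at h1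
      exact h1
    have h2 : ∀ x : ↥P₀, x * x = 1 := by
      intro x
      have h1 := hsq x
      rw [hZbot, Subgroup.mem_bot] at h1
      exact h1
    have h3 := hrk ⊤ (fun a _ b _ => hab a b) (fun a _ => h2 a)
    rw [Subgroup.card_top, ha] at h3
    have h4 : 2 ^ 6 ≤ 2 ^ (0 + m) := Nat.pow_le_pow_right (by norm_num) (by omega)
    omega
  · -- `|Z| = 2`: the involution of `Z` is fixed by `d`
    have hZ2card : Nat.card ↥Z = 2 := by rw [hz]; norm_num
    obtain ⟨u, hu1, huniq⟩ := (Nat.card_eq_two_iff' (1 : ↥Z)).1 hZ2card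
    let g₀ : ↥K := ⟨d, Subgroup.mem_zpowers d⟩
    have h1 : g₀ • (u : ↥P₀) ∈ Z := hZinv g₀ u u.2
    have h2 : (⟨g₀ • (u : ↥P₀), h1⟩ : ↥Z) ≠ 1 := by
      intro h
      have h3 : g₀ • (u : ↥P₀) = 1 := congrArg Subtype.val h
      have h4 : (u : ↥P₀) = 1 := by
        have := congrArg (fun t => g₀⁻¹ • t) h3
        simpa using this
      exact hu1 (Subtype.ext h4)
    have h3 : g₀ • (u : ↥P₀) = u := congrArg Subtype.val (huniq _ h2)
    have h4 : d * ((u : ↥P₀) : X) * d⁻¹ = ((u : ↥P₀) : X) := congrArg Subtype.val h3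
    have h5 : ((u : ↥P₀) : X) ∈ P ⊓ Subgroup.centralizer {d} := by
      refine ⟨hP₀P (u : ↥P₀).2, ?_⟩
      show ((u : ↥P₀) : X) ∈ Subgroup.centralizer {d}
      rw [Subgroup.mem_centralizer_singleton_iff]
      calc ((u : ↥P₀) : X) * d = (d * ((u : ↥P₀) : X) * d⁻¹) * d := by rw [h4]
        _ = d * ((u : ↥P₀) : X) := by group
    rw [hfpf, Subgroup.mem_bot] at h5
    exact hu1 (Subtype.ext (Subtype.ext h5))
  · -- `|Z| = 4`: an involution outside `Z` gives an elementary abelian subgroup of order `8`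
    have hZ4 : Nat.card ↥Z = 4 := by rw [hz]; norm_num
    have hexx : ∃ x : ↥P₀, x ^ 2 = 1 ∧ x ∉ Z := by
      by_contra hcon
      push Not at hcon
      have hinj : Function.Injective (fun x : {x : ↥P₀ // x ^ 2 = 1} => (⟨x.1, hcon x.1 x.2⟩ : ↥Z)) := by
        intro x y hxy
        exact Subtype.ext (congrArg (fun t : ↥Z => (t : ↥P₀)) hxy)
      have := Nat.card_le_card_of_injective _ hinj
      omega
    obtain ⟨x, hx2, hxZ⟩ := hexx
    rw [pow_two] at hx2
    obtain ⟨hEc, hE2⟩ := elemAb_sup Z hZc hZ2 x hx2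
    have h1 := hrk _ hEc hE2
    have hle : Z ≤ Z ⊔ Subgroup.zpowers x := le_sup_left
    have hne' : Z ≠ Z ⊔ Subgroup.zpowers x := by
      intro h
      apply hxZ
      rw [h]
      exact Subgroup.mem_sup_right (Subgroup.mem_zpowers x)
    have h2 : ¬ Nat.card ↥(Z ⊔ Subgroup.zpowers x) ≤ Nat.card ↥Z :=
      fun h => hne' (Subgroup.eq_of_le_of_card_ge hle h)
    omega

end Cfsg.Agent.S3738
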