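-- Statement S3739: an elementary abelian subgroup of order 8 from a fixed-point-free 3-element.
import Cfsg.Statements.S3739
import Cfsg.Agent.S3738
import Cfsg.Agent.Helper22.Generation
import Cfsg.Agent.Helper22.Signalizer
import Cfsg.Agent.Helper22.NormalElemAb
import Cfsg.Agent.Helper22.Fitting
import Cfsg.Agent.Helper31.CoprimeGen

set_option autoImplicit false
open Cfsg

namespace Cfsg.Agent.S3739

open Subgroup

variable {G : Type*} [Group G] [Finite G]

/-- Fixed-point congruence for conjugation by a `p`-element. -/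
theorem card_modEq_card_inf_centralizer (p : ℕ) [Fact p.Prime] (d : G)
    (hd : IsPGroup p (zpowers d)) (K : Subgroup G) (hdK : d ∈ normalizer (K : Set G)) :
    Nat.card K ≡ Nat.card (K ⊓ centralizer {d} : Subgroup G) [MOD p] := by
  have hAK : zpowers d ≤ normalizer (K : Set G) := zpowers_le.mpr hdK
  letI := Helper31.conjActOn (zpowers d) K hAK
  have h := hd.card_modEq_card_fixedPoints (↥K)
  have e : MulAction.fixedPoints (↥(zpowers d)) (↥K) ≃ ↥(K ⊓ centralizer {d} : Subgroup G) :=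
    { toFun := fun x => ⟨((x : ↥K) : G), ⟨(x : ↥K).2, by
        show ((x : ↥K) : G) ∈ centralizer {d}
        rw [mem_centralizer_singleton_iff]
        have h1 := x.2 ⟨d, mem_zpowers d⟩
        have h2 : d * ((x : ↥K) : G) * d⁻¹ = ((x : ↥K) : G) := congrArg Subtype.val h1
        calc ((x : ↥K) : G) * d = (d * ((x : ↥K) : G) * d⁻¹) * d := by rw [h2]
          _ = d * ((x : ↥K) : G) := by group⟩⟩
      invFun := fun y => ⟨⟨(y : G), y.2.1⟩, by
        intro a
        obtain ⟨a, ha⟩ := a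
        apply Subtype.ext
        show a * (y : G) * a⁻¹ = (y : G)
        have hy : (y : G) * d = d * (y : G) := mem_centralizer_singleton_iff.mp y.2.2
        obtain ⟨k, rfl⟩ := mem_zpowers_iff.mp ha
        have hc : Commute (y : G) (d ^ k) := Commute.zpow_right hy k
        rw [← hc.eq, mul_inv_cancel_right]⟩
      left_inv := fun x => rfl
      right_inv := fun y => rfl }
  rw [Nat.card_congr e] at h
  exact h

/-- Image in `G` of an elementary abelian subgroup of a subgroup. -/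
theorem elemAb_map_subtype (V : Subgroup G) (A : Subgroup ↥V) (hA : IsMulCommutative A)
    (hexp : ∀ a ∈ A, a ^ 2 = 1) : Cfsg.IsElementaryAbelian 2 (A.map V.subtype) := by
  refine ⟨⟨⟨?_⟩⟩, ?_⟩
  · rintro ⟨x, a, ha, rfl⟩ ⟨y, b, hb, rfl⟩
    apply Subtype.ext
    show (a : G) * (b : G) = b * a
    have := hA.is_comm.comm ⟨a, ha⟩ ⟨b, hb⟩
    exact congrArg (fun z : ↥A => ((z : ↥V) : G)) this
  · rintro _ ⟨a, ha, rfl⟩
    have := hexp a ha
    exact congrArg (fun z : ↥V => (z : G)) this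

/-- Without an elementary abelian subgroup of order 8, elementary abelian `2`-subgroups have
order at most 4. -/
theorem card_le_four (hno : ∀ E : Subgroup G, Cfsg.IsElementaryAbelian 2 E → Nat.card E ≠ 8)
    (E : Subgroup G) (hE : Cfsg.IsElementaryAbelian 2 E) : Nat.card E ≤ 4 := by
  haveI : Fact (Nat.Prime 2) := ⟨Nat.prime_two⟩
  by_contra hlt
  rw [not_le] at hlt
  have hEp : IsPGroup 2 E := Helper22.IsElementaryAbelian.isPGroup' hE
  obtain ⟨k, hk⟩ := IsPGroup.exists_card_eq hEp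
  have hk3 : 3 ≤ k := by
    by_contra h
    have hk2 : k ≤ 2 := by omega
    have : 2 ^ k ≤ 2 ^ 2 := Nat.pow_le_pow_right (by norm_num) hk2
    omega
  have hdvd : 2 ^ 3 ∣ Nat.card E := by
    rw [hk]
    exact pow_dvd_pow 2 hk3
  obtain ⟨K, hK⟩ := Sylow.exists_subgroup_card_pow_prime 2 hdvd
  refine hno (K.map E.subtype)
    (Helper22.isElementaryAbelian_of_le hE (Subgroup.map_subtype_le K)) ?_
  rw [Subgroup.card_map_of_injective E.subtype_injective, hK]
  norm_num

/-- A nontrivial element of a `2`-subgroup has a power which is an involution. -/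
theorem exists_pow_involution {Q : Subgroup G} (hQ : IsPGroup 2 Q) {x : G} (hx : x ∈ Q)
    (hx1 : x ≠ 1) : ∃ m : ℕ, (x ^ m) ^ 2 = 1 ∧ x ^ m ≠ 1 := by
  obtain ⟨k, hk⟩ := hQ ⟨x, hx⟩
  have hk' : x ^ 2 ^ k = 1 := by
    have := congrArg Subtype.val hk
    simpa using this
  obtain ⟨j, -, hj⟩ := (Nat.dvd_prime_pow Nat.prime_two).1 (orderOf_dvd_of_pow_eq_one hk')
  have hj0 : j ≠ 0 := by
    rintro rfl
    rw [pow_zero, orderOf_eq_one_iff] at hj
    exact hx1 hj
  refine ⟨2 ^ (j - 1), ?_, ?_⟩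
  · rw [← pow_mul, ← pow_succ, Nat.sub_add_cancel (Nat.one_le_iff_ne_zero.mpr hj0), ← hj,
      pow_orderOf_eq_one]
  · apply pow_ne_one_of_lt_orderOf (by positivity)
    rw [hj]
    exact Nat.pow_lt_pow_right (by norm_num) (by omega)

/-- A nontrivial element of a `3`-subgroup has a power of order `3`. -/
theorem exists_pow_order_three {x : G} (hx : IsPGroup 3 (zpowers x))
    (hx1 : x ≠ 1) : ∃ m : ℕ, (x ^ m) ^ 3 = 1 ∧ x ^ m ≠ 1 := by
  obtain ⟨k, hk⟩ := hx ⟨x, mem_zpowers x⟩
  have hk' : x ^ 3 ^ k = 1 := by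
    have := congrArg Subtype.val hk
    simpa using this
  obtain ⟨j, -, hj⟩ := (Nat.dvd_prime_pow Nat.prime_three).1 (orderOf_dvd_of_pow_eq_one hk')
  have hj0 : j ≠ 0 := by
    rintro rfl
    rw [pow_zero, orderOf_eq_one_iff] at hj
    exact hx1 hj
  refine ⟨3 ^ (j - 1), ?_, ?_⟩
  · rw [← pow_mul, ← pow_succ, Nat.sub_add_cancel (Nat.one_le_iff_ne_zero.mpr hj0), ← hj,
      pow_orderOf_eq_one]
  · apply pow_ne_one_of_lt_orderOf (by positivity)
    rw [hj]
    exact Nat.pow_lt_pow_right (by norm_num) (by omega)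

/-- `Ω₁(Z(Q))` as a subgroup of `G`. -/
def omegaCenter (Q : Subgroup G) : Subgroup G where
  carrier := {x | x ∈ Q ∧ (∀ y ∈ Q, x * y = y * x) ∧ x ^ 2 = 1}
  one_mem' := ⟨Q.one_mem, fun y _ => by rw [one_mul, mul_one], one_pow 2⟩
  mul_mem' := by
    rintro a b ⟨ha, hac, ha2⟩ ⟨hb, hbc, hb2⟩
    refine ⟨Q.mul_mem ha hb, fun y hy => ?_, ?_⟩
    · rw [mul_assoc, hbc y hy, ← mul_assoc, hac y hy, mul_assoc]
    · have hab : Commute a b := hac b hb
      rw [hab.mul_pow, ha2, hb2, one_mul]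
  inv_mem' := by
    rintro a ⟨ha, hac, ha2⟩
    refine ⟨Q.inv_mem ha, fun y hy => ?_, ?_⟩
    · have := hac y hy
      calc a⁻¹ * y = a⁻¹ * (y * a) * a⁻¹ := by group
        _ = a⁻¹ * (a * y) * a⁻¹ := by rw [this]
        _ = y * a⁻¹ := by group
    · rw [inv_pow, ha2, inv_one]

theorem mem_omegaCenter {Q : Subgroup G} {x : G} :
    x ∈ omegaCenter Q ↔ x ∈ Q ∧ (∀ y ∈ Q, x * y = y * x) ∧ x ^ 2 = 1 := Iff.rfl

theorem conj_mem_omegaCenter {Q : Subgroup G} (hQ : Q.Normal) (g : G) {x : G}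
    (hx : x ∈ omegaCenter Q) : g * x * g⁻¹ ∈ omegaCenter Q := by
  obtain ⟨hxQ, hxc, hx2⟩ := hx
  refine ⟨hQ.conj_mem x hxQ g, fun y hy => ?_, ?_⟩
  · have h1 : g⁻¹ * y * g ∈ Q := by
      have := hQ.conj_mem y hy g⁻¹
      rwa [inv_inv] at this
    have h2 := hxc _ h1
    calc g * x * g⁻¹ * y = g * (x * (g⁻¹ * y * g)) * g⁻¹ := by group
      _ = g * ((g⁻¹ * y * g) * x) * g⁻¹ := by rw [h2]
      _ = y * (g * x * g⁻¹) := by group
  · rw [conj_pow, hx2, mul_one, mul_inv_cancel]

theorem omegaCenter_ne_bot {Q : Subgroup G} (hQ : IsPGroup 2 Q) (hQ1 : Q ≠ ⊥) :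
    omegaCenter Q ≠ ⊥ := by
  haveI : Fact (Nat.Prime 2) := ⟨Nat.prime_two⟩
  haveI : Nontrivial ↥Q := (Subgroup.nontrivial_iff_ne_bot Q).mpr hQ1
  haveI := hQ.center_nontrivial
  obtain ⟨z, hz⟩ := exists_ne (1 : ↥(Subgroup.center ↥Q))
  have hzG : ((z : ↥Q) : G) ≠ 1 := by
    intro h
    apply hz
    apply Subtype.ext
    apply Subtype.ext
    exact h
  obtain ⟨m, hm2, hm1⟩ := exists_pow_involution hQ (z : ↥Q).2 hzG
  intro hbot
  apply hm1
  have hmem : ((z : ↥Q) : G) ^ m ∈ omegaCenter Q := by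
    refine ⟨Q.pow_mem (z : ↥Q).2 m, fun y hy => ?_, hm2⟩
    have hc : ∀ y : ↥Q, y * (z : ↥Q) = (z : ↥Q) * y := fun y =>
      (Subgroup.mem_center_iff.mp z.2 y)
    have h1 : Commute ((z : ↥Q) : G) y := (congrArg Subtype.val (hc ⟨y, hy⟩)).symm
    exact (h1.pow_left m).eq
  rw [hbot] at hmem
  exact Subgroup.mem_bot.mp hmem

theorem isPGroup_zpowers_of_pow_eq_one (p : ℕ) (x : G) (hx : x ^ p = 1) :
    IsPGroup p (zpowers x) := by
  rintro ⟨y, hy⟩
  obtain ⟨k, rfl⟩ := mem_zpowers_iff.mp hy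
  refine ⟨1, Subtype.ext ?_⟩
  show (x ^ k) ^ p ^ 1 = 1
  rw [pow_one, ← zpow_natCast, ← zpow_mul, mul_comm, zpow_mul, zpow_natCast, hx, one_zpow]

open scoped Pointwise in
/-- A `3`-element `d` normalizing a subgroup `N` of order divisible by `3` commutes with some
nontrivial `3`-element of `N`. -/
theorem exists_commuting_three_element (d : G) (hd : IsPGroup 3 (zpowers d)) (N : Subgroup G)
    (hdN : zpowers d ≤ normalizer (N : Set G)) (h3N : 3 ∣ Nat.card N) :
    ∃ b ∈ N, b ≠ 1 ∧ d * b = b * d ∧ IsPGroup 3 (zpowers b) := by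
  classical
  haveI : Fact (Nat.Prime 3) := ⟨Nat.prime_three⟩
  letI act : MulDistribMulAction ↥(zpowers d) ↥N := Helper31.conjActOn (zpowers d) N hdN
  have hfix := hd.card_modEq_card_fixedPoints (Sylow 3 ↥N)
  have hone := card_sylow_modEq_one 3 ↥N
  have hne : Nat.card (MulAction.fixedPoints ↥(zpowers d) (Sylow 3 ↥N)) ≠ 0 := by
    intro h0
    rw [h0] at hfix
    have h2 : 3 ∣ 1 := (Nat.modEq_zero_iff_dvd.1 (hone.symm.trans hfix))
    omega
  obtain ⟨⟨P, hP⟩⟩ : Nonempty (MulAction.fixedPoints ↥(zpowers d) (Sylow 3 ↥N)) := by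
    by_contra hemp
    rw [not_nonempty_iff] at hemp
    exact hne Nat.card_of_isEmpty
  set P' : Subgroup G := (P : Subgroup ↥N).map N.subtype with hP'def
  have hP'N : P' ≤ N := Subgroup.map_subtype_le _
  have hRP' : zpowers d ≤ Subgroup.normalizer (P' : Set G) := by
    apply Helper22.le_normalizer_of_conj_mem
    rintro r hr _ ⟨x, hx, rfl⟩
    have h1 : (⟨r, hr⟩ : ↥(zpowers d)) • x ∈ ((⟨r, hr⟩ : ↥(zpowers d)) • (P : Subgroup ↥N)) :=
      Subgroup.smul_mem_pointwise_smul x _ _ hx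
    rw [← Sylow.pointwise_smul_def, hP ⟨r, hr⟩] at h1
    exact ⟨_, h1, rfl⟩
  letI act2 : MulDistribMulAction ↥(zpowers d) ↥P' := Helper31.conjActOn (zpowers d) P' hRP'
  have hPp : IsPGroup 3 ↥P' := P.isPGroup'.map N.subtype
  have hPne : (P : Subgroup ↥N) ≠ ⊥ := P.ne_bot_of_dvd_card h3N
  have hP'ne : P' ≠ ⊥ := by
    intro h
    apply hPne
    rw [eq_bot_iff]
    intro x hx
    have : (x : G) ∈ P' := ⟨x, hx, rfl⟩
    rw [h] at this
    exact Subgroup.mem_bot.mpr (Subtype.ext (Subgroup.mem_bot.mp this))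
  have hdvd : 3 ∣ Nat.card ↥P' :=
    (hPp.card_eq_or_dvd).resolve_left (fun h => hP'ne (Subgroup.card_eq_one.mp h))
  have h1fix : (1 : ↥P') ∈ MulAction.fixedPoints ↥(zpowers d) ↥P' := fun e => smul_one e
  obtain ⟨b, hb, hb1⟩ := hd.exists_fixed_point_of_prime_dvd_card_of_fixed_point ↥P' hdvd h1fix
  refine ⟨(b : G), hP'N b.2, fun h => hb1 (Subtype.ext h.symm), ?_, ?_⟩
  · have h2 : d * (b : G) * d⁻¹ = (b : G) := congrArg Subtype.val (hb ⟨d, mem_zpowers d⟩)
    calc d * (b : G) = (d * (b : G) * d⁻¹) * d := by group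
      _ = (b : G) * d := by rw [h2]
  · exact hPp.to_le (zpowers_le.mpr b.2)

/-- Let G be a finite group with C_G(O₂(G)) ≤ O₂(G) containing an element of order 6, and let d be a non-identity 3-element of G normalizing a nontrivial elementary abelian 2-subgroup W with C_W(d) = 1. Then G has an elementary abelian subgroup of order 8. -/
theorem result {G : Type*} [Group G] [Finite G] (hchar : Subgroup.centralizer (Cfsg.pCore 2 G : Set G) ≤ Cfsg.pCore 2 G) (hsix : ∃ g : G, orderOf g = 6) (d : G) (hd1 : d ≠ 1) (hd : IsPGroup 3 ↥(Subgroup.zpowers d)) (W : Subgroup G) (hW : Cfsg.IsElementaryAbelian 2 W) (hW1 : W ≠ ⊥) (hdW : d ∈ Subgroup.normalizer (W : Set G)) (hfpf : W ⊓ Subgroup.centralizer {d} = ⊥) : ∃ E : Subgroup G, Cfsg.IsElementaryAbelian 2 E ∧ Nat.card E = 8 := by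
  classical
  by_contra hcon
  have hno : ∀ E : Subgroup G, Cfsg.IsElementaryAbelian 2 E → Nat.card E ≠ 8 :=
    fun E hE hc => hcon ⟨E, hE, hc⟩
  haveI : Fact (Nat.Prime 2) := ⟨Nat.prime_two⟩
  haveI : Fact (Nat.Prime 3) := ⟨Nat.prime_three⟩
  have hle4 := card_le_four hno
  -- |W| = 4
  have hW4 : Nat.card W = 4 := by
    have h1 := card_modEq_card_inf_centralizer 3 d hd W hdW
    rw [hfpf, Subgroup.card_bot] at h1
    have h2 := hle4 W hW
    have h3 : Nat.card W ≠ 1 := fun h => hW1 (Subgroup.card_eq_one.mp h)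
    have h0 : 0 < Nat.card W := Nat.card_pos
    have h1' : Nat.card W % 3 = 1 := h1
    omega
  -- involutions centralizing W lie in W
  have hN3 : ∀ u : G, u ^ 2 = 1 → (∀ w ∈ W, u * w = w * u) → u ∈ W := by
    intro u hu huc
    by_contra huW
    obtain ⟨h1, h2⟩ := Helper22.elemAb_sup_zpowers' W hW u huW hu huc
    have := hle4 _ h1
    rw [h2, hW4] at this
    omega
  set Q := Cfsg.pCore 2 G with hQdef
  have hQn : Q.Normal := by
    haveI := Helper22.pCore_characteristic 2 G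
    exact Subgroup.normal_of_characteristic _
  have hQ2 : IsPGroup 2 Q := Helper22.pCore_isPGroup 2 G
  obtain ⟨g, hg⟩ := hsix
  have hQ1 : Q ≠ ⊥ := by
    intro h
    have hg1 : g ∈ Q := hchar (by
      rw [Subgroup.mem_centralizer_iff]
      intro y hy
      rw [h] at hy
      have : y = 1 := Subgroup.mem_bot.mp hy
      rw [this, one_mul, mul_one])
    rw [h, Subgroup.mem_bot] at hg1
    rw [hg1, orderOf_one] at hg
    omega
  set Z₀ := omegaCenter Q with hZ₀
  have hZ1 : Z₀ ≠ ⊥ := omegaCenter_ne_bot hQ2 hQ1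
  have hZconj : ∀ (g : G) (x : G), x ∈ Z₀ → g * x * g⁻¹ ∈ Z₀ :=
    fun g x hx => conj_mem_omegaCenter hQn g hx
  have hZ2 : IsPGroup 2 Z₀ := hQ2.to_le (fun x hx => hx.1)
  have hWp : IsPGroup 2 W := Helper22.IsElementaryAbelian.isPGroup' hW
  have hWZ : W ≤ normalizer (Z₀ : Set G) :=
    Helper22.le_normalizer_of_conj_mem (fun b _ u hu => hZconj b u hu)
  obtain ⟨z, hzZ, hz1, hzW⟩ : ∃ z ∈ Z₀, z ≠ 1 ∧ ∀ w ∈ W, z * w = w * z := by
    letI := Helper31.conjActOn W Z₀ hWZ
    have hdvd : 2 ∣ Nat.card Z₀ :=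
      (hZ2.card_eq_or_dvd).resolve_left (fun h => hZ1 (Subgroup.card_eq_one.mp h))
    have h1fix : (1 : ↥Z₀) ∈ MulAction.fixedPoints ↥W ↥Z₀ := fun e => smul_one e
    obtain ⟨b, hb, hb1⟩ := hWp.exists_fixed_point_of_prime_dvd_card_of_fixed_point ↥Z₀ hdvd h1fix
    refine ⟨(b : G), b.2, fun h => hb1 (Subtype.ext h.symm), fun w hw => ?_⟩
    have h2 : w * (b : G) * w⁻¹ = (b : G) := congrArg Subtype.val (hb ⟨w, hw⟩)
    calc (b : G) * w = (w * (b : G) * w⁻¹) * w := by rw [h2]
      _ = w * (b : G) := by group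
  have hzWmem : z ∈ W := hN3 z hzZ.2.2 hzW
  have hWle : W ≤ Z₀ := by
    set K := W ⊓ Z₀ with hK
    have hdK : d ∈ normalizer (K : Set G) := by
      have : zpowers d ≤ normalizer (K : Set G) :=
        Helper22.le_normalizer_of_conj_mem (fun b hb u hu =>
          ⟨Helper22.conj_mem_of_le_normalizer (zpowers_le.mpr hdW) b hb u hu.1, hZconj b u hu.2⟩)
      exact this (mem_zpowers d)
    have h1 := card_modEq_card_inf_centralizer 3 d hd K hdK
    have hKfix : K ⊓ centralizer {d} = ⊥ := by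
      rw [eq_bot_iff, ← hfpf]
      exact inf_le_inf_right _ inf_le_left
    rw [hKfix, Subgroup.card_bot] at h1
    have h2 : Nat.card K ∣ Nat.card W := Subgroup.card_dvd_of_le inf_le_left
    have h3 : Nat.card K ≠ 1 := by
      intro h
      have hKb : K = ⊥ := Subgroup.card_eq_one.mp h
      have hzK : z ∈ K := ⟨hzWmem, hzZ⟩
      rw [hKb] at hzK
      exact hz1 (Subgroup.mem_bot.mp hzK)
    have h4 : Nat.card K = 4 := by
      rw [hW4] at h2
      have hle : Nat.card K ≤ 4 := Nat.le_of_dvd (by norm_num) h2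
      have h0 : 0 < Nat.card K := Nat.card_pos
      have h1' : Nat.card K % 3 = 1 := h1
      omega
    have hKW : K = W := Subgroup.eq_of_le_of_card_ge inf_le_left (by rw [h4, hW4])
    rw [← hKW]
    exact inf_le_right
  have hWQ : W ≤ Q := fun w hw => (hWle hw).1
  have hWcent : ∀ w ∈ W, ∀ y ∈ Q, w * y = y * w := fun w hw y hy => (hWle hw).2.1 y hy
  have hN2 : ∀ u ∈ Q, u ^ 2 = 1 → u ∈ W :=
    fun u hu hu2 => hN3 u hu2 (fun w hw => (hWcent w hw u hu).symm)
  have hWn : ∀ (g : G) (w : G), w ∈ W → g * w * g⁻¹ ∈ W := by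
    intro g w hw
    apply hN2 _ (hQn.conj_mem w (hWQ hw) g)
    rw [conj_pow, hW.2 w hw, mul_one, mul_inv_cancel]
  have hfpfQ : ∀ x : G, W ⊓ centralizer {x} = ⊥ → Q ⊓ centralizer {x} = ⊥ := by
    intro x hx
    rw [eq_bot_iff]
    intro y hy
    rw [Subgroup.mem_bot]
    by_contra hy1
    obtain ⟨m, hm2, hm1⟩ := exists_pow_involution hQ2 hy.1 hy1
    have hmW : y ^ m ∈ W := hN2 _ (Q.pow_mem hy.1 m) hm2
    have hmc : y ^ m ∈ centralizer {x} := (centralizer {x}).pow_mem hy.2 m
    have : y ^ m ∈ W ⊓ centralizer {x} := ⟨hmW, hmc⟩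
    rw [hx] at this
    exact hm1 (Subgroup.mem_bot.mp this)
  have hnQ : ∀ x : G, x ∈ normalizer (Q : Set G) := fun x =>
    (Helper22.le_normalizer_of_conj_mem (A := ⊤) (fun b _ u hu => hQn.conj_mem u hu b))
      (Subgroup.mem_top x)
  have hd3 : orderOf d = 3 := by
    obtain ⟨k, hk⟩ := hd ⟨d, mem_zpowers d⟩
    have hk' : d ^ 3 ^ k = 1 := by
      have := congrArg Subtype.val hk
      simpa using this
    obtain ⟨n, -, hn⟩ := (Nat.dvd_prime_pow Nat.prime_three).1 (orderOf_dvd_of_pow_eq_one hk')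
    have hn0 : 1 ≤ n := by
      by_contra h
      have hn' : n = 0 := by omega
      rw [hn', pow_zero, orderOf_eq_one_iff] at hn
      exact hd1 hn
    refine Cfsg.Agent.S3738.result d n hn0 hn Q hQ2 (hnQ d) ?_ (hfpfQ d hfpf) ?_
    · rw [eq_bot_iff]
      have hdis := IsPGroup.disjoint_of_ne 3 2 (by norm_num) (zpowers d) Q hd hQ2
      exact (inf_le_inf_left _ hchar).trans hdis.le_bot
    · intro V hVQ hVc A hA hexp
      have h1 := elemAb_map_subtype V A hA hexp
      have h2 := hle4 _ h1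
      rw [Subgroup.card_map_of_injective V.subtype_injective] at h2
      exact le_trans h2 (by norm_num)
  -- the element of order 6
  have hg6 : g ^ 6 = 1 := by rw [← hg]; exact pow_orderOf_eq_one g
  set t := g ^ 3 with ht
  set s := g ^ 2 with hs
  have ht2 : t ^ 2 = 1 := by rw [ht, ← pow_mul]; simpa using hg6
  have hs3 : s ^ 3 = 1 := by rw [hs, ← pow_mul]; simpa using hg6
  have ht1 : t ≠ 1 := pow_ne_one_of_lt_orderOf (by norm_num) (by rw [hg]; norm_num)
  have hs1 : s ≠ 1 := pow_ne_one_of_lt_orderOf (by norm_num) (by rw [hg]; norm_num)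
  have hst : Commute s t := (Commute.refl g).pow_pow 2 3
  have hnormW : ∀ x : G, x ∈ normalizer (W : Set G) := fun x =>
    (Helper22.le_normalizer_of_conj_mem (A := ⊤) (fun b _ u hu => hWn b u hu)) (Subgroup.mem_top x)
  have hs3g : IsPGroup 3 (zpowers s) := isPGroup_zpowers_of_pow_eq_one 3 s hs3
  have hsW : W ⊓ centralizer {s} = W := by
    have h1 := card_modEq_card_inf_centralizer 3 s hs3g W (hnormW s)
    have h2 : Nat.card (W ⊓ centralizer {s} : Subgroup G) ∣ Nat.card W :=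
      Subgroup.card_dvd_of_le inf_le_left
    rw [hW4] at h1 h2
    have hle : Nat.card (W ⊓ centralizer {s} : Subgroup G) ≤ 4 := Nat.le_of_dvd (by norm_num) h2
    have h0 : 0 < Nat.card (W ⊓ centralizer {s} : Subgroup G) := Nat.card_pos
    have h1' : 4 % 3 = Nat.card (W ⊓ centralizer {s} : Subgroup G) % 3 := h1
    have hcases : Nat.card (W ⊓ centralizer {s} : Subgroup G) = 1 ∨
        Nat.card (W ⊓ centralizer {s} : Subgroup G) = 4 := by
      have h2' : Nat.card (W ⊓ centralizer {s} : Subgroup G) ≠ 2 := by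
        intro h; rw [h] at h1'; omega
      have h3' : Nat.card (W ⊓ centralizer {s} : Subgroup G) ≠ 3 := by
        intro h; rw [h] at h2; omega
      omega
    rcases hcases with hc | hc
    · exfalso
      have hsfix : W ⊓ centralizer {s} = ⊥ := Subgroup.card_eq_one.mp hc
      set D := W ⊓ centralizer {t} with hD
      have hsD : s ∈ normalizer (D : Set G) := by
        have : zpowers s ≤ normalizer (D : Set G) :=
          Helper22.le_normalizer_of_conj_mem (fun b hb u hu => ⟨hWn b u hu.1, by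
            obtain ⟨k, rfl⟩ := mem_zpowers_iff.mp hb
            have hbt : Commute (s ^ k) t := hst.zpow_left k
            have hut : Commute u t := mem_centralizer_singleton_iff.mp hu.2
            exact mem_centralizer_singleton_iff.mpr
              ((hbt.mul_left hut).mul_left hbt.inv_left).eq⟩)
        exact this (mem_zpowers s)
      have e1 := card_modEq_card_inf_centralizer 3 s hs3g D hsD
      have hDfix : D ⊓ centralizer {s} = ⊥ := by
        rw [eq_bot_iff, ← hsfix]
        exact inf_le_inf_right _ inf_le_left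
      rw [hDfix, Subgroup.card_bot] at e1
      have e2 := card_modEq_card_inf_centralizer 2 t (isPGroup_zpowers_of_pow_eq_one 2 t ht2) W
        (hnormW t)
      rw [hW4] at e2
      have e3 : Nat.card D ∣ 4 := by rw [← hW4]; exact Subgroup.card_dvd_of_le inf_le_left
      have hle : Nat.card D ≤ 4 := Nat.le_of_dvd (by norm_num) e3
      have h0 : 0 < Nat.card D := Nat.card_pos
      have e1' : Nat.card D % 3 = 1 := e1
      have e2' : 4 % 2 = Nat.card D % 2 := e2
      have hD4 : Nat.card D = 4 := by omega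
      have hDW : D = W := Subgroup.eq_of_le_of_card_ge inf_le_left (by rw [hD4, hW4])
      have htW : t ∈ W := hN3 t ht2 (fun w hw => by
        have hwD : w ∈ D := by rw [hDW]; exact hw
        exact (mem_centralizer_singleton_iff.mp hwD.2).symm)
      have htmem : t ∈ W ⊓ centralizer {s} := ⟨htW, mem_centralizer_singleton_iff.mpr hst.eq.symm⟩
      rw [hsfix] at htmem
      exact ht1 (Subgroup.mem_bot.mp htmem)
    · exact Subgroup.eq_of_le_of_card_ge inf_le_left (by rw [hc, hW4])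
  set N := centralizer (W : Set G) with hN
  have hsN : s ∈ N := by
    rw [hN, Subgroup.mem_centralizer_iff]
    intro w hw
    have hw' : w ∈ W ⊓ centralizer {s} := by rw [hsW]; exact hw
    exact mem_centralizer_singleton_iff.mp hw'.2
  have hdN : zpowers d ≤ normalizer (N : Set G) := by
    apply Helper22.le_normalizer_of_conj_mem
    intro b _ c hc
    rw [hN, Subgroup.mem_centralizer_iff] at hc ⊢
    intro w hw
    have h1 := hc _ (hWn b⁻¹ w hw)
    calc w * (b * c * b⁻¹) = b * ((b⁻¹ * w * b⁻¹⁻¹) * c) * b⁻¹ := by group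
      _ = b * (c * (b⁻¹ * w * b⁻¹⁻¹)) * b⁻¹ := by rw [h1]
      _ = b * c * b⁻¹ * w := by group
  have h3N : 3 ∣ Nat.card N := by
    have h1 : orderOf (⟨s, hsN⟩ : ↥N) = 3 := by
      rw [← Subgroup.orderOf_coe]
      exact orderOf_eq_prime hs3 hs1
    rw [← h1]
    exact orderOf_dvd_natCard _
  obtain ⟨b, hbN, hb1, hbd, hb3⟩ := exists_commuting_three_element d hd N hdN h3N
  obtain ⟨m, hm3, hm1⟩ := exists_pow_order_three hb3 hb1
  set a := b ^ m with ha
  have haN : a ∈ N := N.pow_mem hbN m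
  have had : a * d = d * a := by
    have hc : Commute d b := hbd
    exact (hc.pow_right m).eq.symm
  have haW : ∀ w ∈ W, a * w = w * a := by
    intro w hw
    rw [hN, Subgroup.mem_centralizer_iff] at haN
    exact (haN w hw).symm
  have hd3' : d ^ 3 = 1 := by rw [← hd3]; exact pow_orderOf_eq_one d
  have hQle : Q ≤ centralizer {a} := by
    have hsolv : Group.IsSolvable Q := by
      haveI : Group.IsNilpotent Q := hQ2.isNilpotent
      infer_instance
    have hnd : ¬ 3 ∣ Nat.card Q := by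
      obtain ⟨k, hk⟩ := IsPGroup.exists_card_eq hQ2
      rw [hk]
      intro h
      have := Nat.Prime.dvd_of_dvd_pow Nat.prime_three h
      omega
    refine Helper22.le_of_centralizer_le_of_commuting 3 a d had hm3 hd3' (centralizer {a})
      (Nat.card Q) Q le_rfl hsolv hnd (hnQ a) (hnQ d) inf_le_right ?_
    intro k
    have hfix : W ⊓ centralizer {a ^ k * d} = ⊥ := by
      rw [eq_bot_iff, ← hfpf]
      intro w hw
      refine ⟨hw.1, ?_⟩
      show w ∈ centralizer {d}
      rw [mem_centralizer_singleton_iff]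
      have h1 : w * (a ^ k * d) = a ^ k * d * w := mem_centralizer_singleton_iff.mp hw.2
      have h2 : Commute (a ^ k) w := (show Commute a w from haW w hw.1).pow_left k
      have h3 : a ^ k * (w * d) = a ^ k * (d * w) := by
        calc a ^ k * (w * d) = (a ^ k * w) * d := by rw [mul_assoc]
          _ = (w * a ^ k) * d := by rw [h2.eq]
          _ = w * (a ^ k * d) := by rw [mul_assoc]
          _ = a ^ k * d * w := h1
          _ = a ^ k * (d * w) := by rw [mul_assoc]
      exact mul_left_cancel h3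
    rw [hfpfQ _ hfix]
    exact bot_le
  have haQ : a ∈ Q := hchar (by
    rw [Subgroup.mem_centralizer_iff]
    intro y hy
    exact mem_centralizer_singleton_iff.mp (hQle hy))
  have hdis := IsPGroup.disjoint_of_ne 3 2 (by norm_num) (zpowers a) Q
    (isPGroup_zpowers_of_pow_eq_one 3 a hm3) hQ2
  have hamem : a ∈ zpowers a ⊓ Q := ⟨mem_zpowers a, haQ⟩
  rw [hdis.eq_bot] at hamem
  exact hm1 (Subgroup.mem_bot.mp hamem)

end Cfsg.Agent.S3739
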