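import Cfsg.Statements.S3740
import Cfsg.Agent.Helper5.PAct

set_option autoImplicit false
open Cfsg

namespace Cfsg.Agent.S3740

open Cfsg.Agent.Helper5 Matrix
open scoped commutatorElement

/-- Let F be a finite field of odd characteristic p and let a be a p-element of SL₂(F) normalizing a subgroup R of order prime to p with [R, a] ≠ 1. Then p = 3, R is a quaternion group of order 8, and R⟨a⟩ is isomorphic to SL₂(3). -/
theorem result (F : Type) [Field F] [Fintype F] {p : ℕ} [Fact p.Prime] [CharP F p] (hp : p ≠ 2) (a : Matrix.SpecialLinearGroup (Fin 2) F) (ha : IsPGroup p ↥(Subgroup.zpowers a)) (R : Subgroup (Matrix.SpecialLinearGroup (Fin 2) F)) (hR : (Nat.card R).Coprime p) (haR : a ∈ Subgroup.normalizer (R : Set (Matrix.SpecialLinearGroup (Fin 2) F))) (hnt : ⁅R, Subgroup.zpowers a⁆ ≠ ⊥) : p = 3 ∧ Nonempty (↥R ≃* QuaternionGroup 2) ∧ Nonempty (↥(R ⊔ Subgroup.zpowers a) ≃* Matrix.SpecialLinearGroup (Fin 2) (ZMod 3)) := by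
  classical
  obtain ⟨k, hk⟩ := ha ⟨a, Subgroup.mem_zpowers a⟩
  have hak : a ^ (p ^ k) = 1 := by
    have := congrArg Subtype.val hk
    rw [Subgroup.coe_pow] at this
    exact this
  obtain ⟨r, hrR, hra⟩ : ∃ r ∈ R, a * r ≠ r * a := by
    by_contra hcon
    push Not at hcon
    apply hnt
    rw [eq_bot_iff, Subgroup.commutator_le]
    intro x hx y hy
    obtain ⟨j, rfl⟩ := Subgroup.mem_zpowers_iff.1 hy
    rw [Subgroup.mem_bot, commutatorElement_eq_one_iff_commute]
    have h1 : Commute a x := hcon x hx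
    exact (h1.zpow_left j).symm
  obtain ⟨hp3, hcard⟩ := pact_dickson p hp a k hak R hR haR r hrR hra
  subst hp3
  have hfin : Finite ↥(R ⊔ Subgroup.center (Matrix.SpecialLinearGroup (Fin 2) F) ⊔
      Subgroup.zpowers a) := Nat.finite_of_card_ne_zero (by rw [hcard]; norm_num)
  have haH : a ∈ R ⊔ Subgroup.center (Matrix.SpecialLinearGroup (Fin 2) F) ⊔
      Subgroup.zpowers a := (le_sup_right : Subgroup.zpowers a ≤ _) (Subgroup.mem_zpowers a)
  have hRH : R ≤ R ⊔ Subgroup.center (Matrix.SpecialLinearGroup (Fin 2) F) ⊔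
      Subgroup.zpowers a := le_sup_left.trans le_sup_left
  have ha3 : a ^ 3 = 1 := by
    have h24 : a ^ 24 = 1 := by
      have : (⟨a, haH⟩ : ↥(R ⊔ Subgroup.center (Matrix.SpecialLinearGroup (Fin 2) F) ⊔
          Subgroup.zpowers a)) ^ Nat.card ↥(R ⊔ Subgroup.center
            (Matrix.SpecialLinearGroup (Fin 2) F) ⊔ Subgroup.zpowers a) = 1 := pow_card_eq_one'
      rw [hcard] at this
      exact congrArg Subtype.val this
    have h1 : orderOf a ∣ 3 ^ k := orderOf_dvd_of_pow_eq_one hak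
    obtain ⟨j, -, hj⟩ := (Nat.dvd_prime_pow Nat.prime_three).1 h1
    have h2 : orderOf a ∣ 24 := orderOf_dvd_of_pow_eq_one h24
    rw [hj] at h2
    have hj1 : j ≤ 1 := by
      by_contra hcon
      have : 3 ^ 2 ∣ 3 ^ j := pow_dvd_pow 3 (by omega)
      have h9 : 3 ^ 2 ∣ 24 := this.trans h2
      norm_num at h9
    have h3 : orderOf a ∣ 3 := by
      rw [hj]
      exact (pow_dvd_pow 3 hj1).trans (by norm_num)
    exact orderOf_dvd_iff_pow_eq_one.1 h3
  have h2 : (2 : F) ≠ 0 := by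
    intro h
    have h' : ((2 : ℕ) : F) = 0 := by exact_mod_cast h
    rw [CharP.cast_eq_zero_iff F 3] at h'
    norm_num at h'
  exact ⟨rfl, pact_end h2 a ha3 R _ hcard hRH haH hR haR r hrR hra⟩

end Cfsg.Agent.S3740
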