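-- Statement S3741: |A : C_A(B)| = |B : C_B(A)| when [A,B] has order at most p.
import Cfsg.Statements.S3741

set_option autoImplicit false
open Cfsg
open Classical
open scoped commutatorElement

namespace Cfsg.Agent.S3741

variable {G : Type*} [Group G]

/-- the index in `B` of the centralizer of `x ∈ A` is at most `|[A,B]|` -/
theorem relIndex_le [Finite G] (A B : Subgroup G) (x : G) (hx : x ∈ A) :
    (Subgroup.centralizer ({x} : Set G)).relIndex B ≤ Nat.card ↥⁅A, B⁆ := by
  rw [Subgroup.relIndex, Subgroup.index_eq_card]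
  set K := (Subgroup.centralizer ({x} : Set G)).subgroupOf B with hK
  let f0 : ↥B → ↥⁅A, B⁆ := fun b => ⟨⁅x, (b : G)⁆, Subgroup.commutator_mem_commutator hx b.2⟩
  have hwd : ∀ b b' : ↥B, (QuotientGroup.leftRel K) b b' → f0 b = f0 b' := by
    intro b b' h
    rw [QuotientGroup.leftRel_apply] at h
    have h' : ((b : G))⁻¹ * (b' : G) ∈ Subgroup.centralizer ({x} : Set G) := by
      simpa [hK, Subgroup.mem_subgroupOf] using h
    rw [Subgroup.mem_centralizer_iff] at h'
    have hc : Commute x (((b : G))⁻¹ * (b' : G)) := h' x rfl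
    apply Subtype.ext
    show ⁅x, (b : G)⁆ = ⁅x, (b' : G)⁆
    have hb' : (b' : G) = (b : G) * (((b : G))⁻¹ * (b' : G)) := by simp
    set c := ((b : G))⁻¹ * (b' : G) with hcdef
    have hcx : c * x⁻¹ * c⁻¹ = x⁻¹ := by
      have := hc.symm.inv_right
      rw [this.eq, mul_inv_cancel_right]
    rw [commutatorElement_def, commutatorElement_def, hb']
    calc x * (b : G) * x⁻¹ * (b : G)⁻¹ = x * (b : G) * (c * x⁻¹ * c⁻¹) * (b : G)⁻¹ := by rw [hcx]
      _ = x * ((b : G) * c) * x⁻¹ * ((b : G) * c)⁻¹ := by group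
  let f : ↥B ⧸ K → ↥⁅A, B⁆ := Quotient.lift f0 hwd
  apply Nat.card_le_card_of_injective f
  intro q q'
  refine Quotient.inductionOn₂ q q' ?_
  intro b b' h
  have h0 : f0 b = f0 b' := h
  have h1 : ⁅x, (b : G)⁆ = ⁅x, (b' : G)⁆ := congrArg Subtype.val h0
  rw [commutatorElement_def, commutatorElement_def] at h1
  apply Quotient.sound
  show (QuotientGroup.leftRel K) b b'
  rw [QuotientGroup.leftRel_apply]
  have h2 : ((b : G))⁻¹ * (b' : G) ∈ Subgroup.centralizer ({x} : Set G) := by
    rw [Subgroup.mem_centralizer_iff]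
    intro y hy
    rw [Set.mem_singleton_iff] at hy
    subst hy
    have h3 : (b : G) * y⁻¹ * (b : G)⁻¹ = (b' : G) * y⁻¹ * (b' : G)⁻¹ := by
      have := congrArg (fun t => y⁻¹ * t) h1
      simpa [mul_assoc] using this
    have h4 : y⁻¹ * ((b : G)⁻¹ * (b' : G)) = ((b : G)⁻¹ * (b' : G)) * y⁻¹ := by
      calc y⁻¹ * ((b : G)⁻¹ * (b' : G)) = (b : G)⁻¹ * ((b : G) * y⁻¹ * (b : G)⁻¹) * (b' : G) := by group
        _ = (b : G)⁻¹ * ((b' : G) * y⁻¹ * (b' : G)⁻¹) * (b' : G) := by rw [h3]
        _ = ((b : G)⁻¹ * (b' : G)) * y⁻¹ := by group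
    have h5 : Commute y⁻¹ ((b : G)⁻¹ * (b' : G)) := h4
    exact (Commute.inv_left_iff.1 h5).eq
  simpa [hK, Subgroup.mem_subgroupOf] using h2

theorem key [Finite G] {p : ℕ} [Fact p.Prime] (hG : IsPGroup p G) (A B : Subgroup G)
    (hcard : Nat.card ↥⁅A, B⁆ ≤ p) (x : G) (hx : x ∈ A) :
    p * Nat.card ↥(B ⊓ Subgroup.centralizer ({x} : Set G)) =
      if x ∈ Subgroup.centralizer (B : Set G) then p * Nat.card B else Nat.card B := by
  have h1 : Nat.card ↥(B ⊓ Subgroup.centralizer ({x} : Set G)) *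
      (Subgroup.centralizer ({x} : Set G)).relIndex B = Nat.card B := by
    have := Subgroup.relIndex_inf_mul_relIndex (⊥ : Subgroup G) (Subgroup.centralizer ({x} : Set G)) B
    rw [bot_inf_eq, Subgroup.relIndex_bot_left, Subgroup.relIndex_bot_left, inf_comm] at this
    exact this
  have h2 := relIndex_le A B x hx
  obtain ⟨n, hn⟩ : ∃ n, (Subgroup.centralizer ({x} : Set G)).relIndex B = p ^ n :=
    (hG.to_subgroup B).index _
  split_ifs with hxc
  · have : (Subgroup.centralizer ({x} : Set G)).relIndex B = 1 := by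
      rw [Subgroup.relIndex_eq_one]
      intro b hb
      rw [Subgroup.mem_centralizer_iff]
      intro y hy
      rw [Set.mem_singleton_iff] at hy
      subst hy
      exact ((Subgroup.mem_centralizer_iff.1 hxc) b hb).symm
    rw [this, mul_one] at h1
    rw [h1]
  · have hne : (Subgroup.centralizer ({x} : Set G)).relIndex B ≠ 1 := by
      rw [Ne, Subgroup.relIndex_eq_one]
      intro hle
      apply hxc
      rw [Subgroup.mem_centralizer_iff]
      intro b hb
      have := hle hb
      rw [Subgroup.mem_centralizer_iff] at this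
      exact (this x rfl).symm
    have hp := (Fact.out : p.Prime)
    have hn1 : n = 1 := by
      rw [hn] at h2 hne
      have h0 : n ≠ 0 := by rintro rfl; exact hne (pow_zero p)
      by_contra h
      have h3 : 2 ≤ n := by omega
      have h4 : p ^ 2 ≤ p ^ n := Nat.pow_le_pow_right hp.pos h3
      have h5 : p < p ^ 2 := by nlinarith [hp.two_le]
      omega
    rw [hn, hn1, pow_one] at h1
    rw [← h1, mul_comm]

theorem half [Finite G] {p : ℕ} [Fact p.Prime] (hG : IsPGroup p G) (A B : Subgroup G)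
    (hcard : Nat.card ↥⁅A, B⁆ ≤ p) [Fintype G] :
    p * (∑ x ∈ Finset.univ.filter (fun x => x ∈ A), Nat.card ↥(B ⊓ Subgroup.centralizer ({x} : Set G))) =
      Nat.card ↥(A ⊓ Subgroup.centralizer (B : Set G)) * (p * Nat.card B) +
        (Nat.card A - Nat.card ↥(A ⊓ Subgroup.centralizer (B : Set G))) * Nat.card B := by
  rw [Finset.mul_sum]
  rw [Finset.sum_congr rfl (fun x hx => key hG A B hcard x (by simpa using hx))]
  rw [Finset.sum_ite, Finset.sum_const, Finset.sum_const, smul_eq_mul, smul_eq_mul]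
  have e1 : Nat.card ↥(A ⊓ Subgroup.centralizer (B : Set G)) =
      ((Finset.univ.filter (fun x => x ∈ A)).filter (fun x => x ∈ Subgroup.centralizer (B : Set G))).card := by
    rw [Nat.card_eq_fintype_card, Fintype.card_subtype, Finset.filter_filter]
    congr 1
    ext x
    simp
  have e2 : Nat.card A = (Finset.univ.filter (fun x => x ∈ A)).card := by
    rw [Nat.card_eq_fintype_card, Fintype.card_subtype]
  have e3 := Finset.card_filter_add_card_filter_not (s := Finset.univ.filter (fun x => x ∈ A))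
    (fun x => x ∈ Subgroup.centralizer (B : Set G))
  rw [e1, e2]
  congr 2
  omega

theorem symm_count [Finite G] (A B : Subgroup G) [Fintype G] :
    (∑ x ∈ Finset.univ.filter (fun x => x ∈ A), Nat.card ↥(B ⊓ Subgroup.centralizer ({x} : Set G))) =
      ∑ y ∈ Finset.univ.filter (fun y => y ∈ B), Nat.card ↥(A ⊓ Subgroup.centralizer ({y} : Set G)) := by
  have e : ∀ (A B : Subgroup G) (x : G), Nat.card ↥(B ⊓ Subgroup.centralizer ({x} : Set G)) =
      ∑ y ∈ Finset.univ.filter (fun y => y ∈ B), if x * y = y * x then 1 else 0 := by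
    intro A B x
    rw [Nat.card_eq_fintype_card, Fintype.card_subtype, ← Finset.card_filter, Finset.filter_filter]
    congr 1
    ext y
    simp only [Finset.mem_filter, Finset.mem_univ, true_and, Subgroup.mem_inf,
      Subgroup.mem_centralizer_iff, Set.mem_singleton_iff, forall_eq]
  rw [Finset.sum_congr rfl (fun x _ => e A B x), Finset.sum_comm]
  apply Finset.sum_congr rfl
  intro y _
  rw [e B A y]
  apply Finset.sum_congr rfl
  intro x _
  by_cases h : x * y = y * x
  · rw [if_pos h, if_pos h.symm]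
  · rw [if_neg h, if_neg (fun h' => h h'.symm)]

theorem arith (q N a b cA cB iA iB : ℕ) (hq : 0 < q)
    (h1 : (q + 1) * N = cA * ((q + 1) * b) + (a - cA) * b)
    (h2 : (q + 1) * N = cB * ((q + 1) * a) + (b - cB) * a)
    (hA : cA * iA = a) (hB : cB * iB = b) (hcA : 0 < cA) (hcB : 0 < cB) (ha : 0 < a) (hb : 0 < b) :
    iA = iB := by
  have hiA : 0 < iA := Nat.pos_of_ne_zero (by rintro rfl; rw [mul_zero] at hA; omega)
  have hiB : 0 < iB := Nat.pos_of_ne_zero (by rintro rfl; rw [mul_zero] at hB; omega)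
  have hle1 : cA ≤ a := by rw [← hA]; exact Nat.le_mul_of_pos_right _ hiA
  have hle2 : cB ≤ b := by rw [← hB]; exact Nat.le_mul_of_pos_right _ hiB
  obtain ⟨a', rfl⟩ := Nat.exists_eq_add_of_le hle1
  obtain ⟨b', rfl⟩ := Nat.exists_eq_add_of_le hle2
  rw [Nat.add_sub_cancel_left] at h1 h2
  have e : q * (cA * b') = q * (cB * a') := by nlinarith [h1, h2]
  have e' : cA * b' = cB * a' := Nat.eq_of_mul_eq_mul_left hq e
  have e2 : cA * (cB + b') = cB * (cA + a') := by nlinarith [e']
  rw [← hA, ← hB] at e2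
  have e3 : (cA * cB) * iB = (cA * cB) * iA := by nlinarith [e2]
  exact (Nat.eq_of_mul_eq_mul_left (Nat.mul_pos hcA hcB) e3).symm

/-- Let A and B be subgroups of a finite p-group with [A, B] ≤ A ∩ B and [A, B] of order at most p. Then |A : C_A(B)| = |B : C_B(A)|. -/
theorem result {G : Type*} [Group G] [Finite G] {p : ℕ} [Fact p.Prime] (hG : IsPGroup p G) (A B : Subgroup G) (hAB : ⁅A, B⁆ ≤ A ⊓ B) (hcard : Nat.card ↥⁅A, B⁆ ≤ p) : (A ⊓ Subgroup.centralizer (B : Set G)).relIndex A = (B ⊓ Subgroup.centralizer (A : Set G)).relIndex B := by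
  haveI : Fintype G := Fintype.ofFinite G
  have hp := (Fact.out : p.Prime)
  obtain ⟨q, rfl⟩ : ∃ q, p = q + 1 := ⟨p - 1, by have := hp.two_le; omega⟩
  have hq : 0 < q := by have := hp.two_le; omega
  have hcard' : Nat.card ↥⁅B, A⁆ ≤ q + 1 := by rw [Subgroup.commutator_comm]; exact hcard
  have h1 := half hG A B hcard
  have h2 := half hG B A hcard'
  rw [← symm_count A B] at h2
  have hA : Nat.card ↥(A ⊓ Subgroup.centralizer (B : Set G)) *
      (A ⊓ Subgroup.centralizer (B : Set G)).relIndex A = Nat.card A := by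
    have := Subgroup.relIndex_mul_relIndex (⊥ : Subgroup G) (A ⊓ Subgroup.centralizer (B : Set G)) A
      bot_le inf_le_left
    rw [Subgroup.relIndex_bot_left, Subgroup.relIndex_bot_left] at this
    exact this
  have hB : Nat.card ↥(B ⊓ Subgroup.centralizer (A : Set G)) *
      (B ⊓ Subgroup.centralizer (A : Set G)).relIndex B = Nat.card B := by
    have := Subgroup.relIndex_mul_relIndex (⊥ : Subgroup G) (B ⊓ Subgroup.centralizer (A : Set G)) B
      bot_le inf_le_left
    rw [Subgroup.relIndex_bot_left, Subgroup.relIndex_bot_left] at this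
    exact this
  exact arith q _ _ _ _ _ _ _ hq h1 h2 hA hB Nat.card_pos Nat.card_pos Nat.card_pos Nat.card_pos

end Cfsg.Agent.S3741
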