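-- Statement S3743: subnormal nilpotent subgroups lie in F(G), subnormal π-subgroups lie in O_π(G).
import Cfsg.Statements.S3743
import Cfsg.Agent.Helper22.Fitting
import Cfsg.Agent.Helper23.FittingHall

set_option autoImplicit false
open Cfsg

namespace Cfsg.Agent.S3743

/-- the π-core of a finite group is a π-group -/
theorem piCore_isPi {G : Type*} [Group G] [Finite G] (π : Set ℕ) :
    ∀ p : ℕ, p.Prime → p ∣ Nat.card ↥(Cfsg.piCore π G) → p ∈ π := by
  intro p hp hdvd
  by_contra hnot
  exact Cfsg.Agent.Helper23.not_dvd_card_sSup hp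
    {N : Subgroup G | N.Normal ∧ ∀ p : ℕ, p.Prime → p ∣ Nat.card N → p ∈ π}
    (fun N hN => ⟨hN.1, fun h => hnot (hN.2 p hp h)⟩) hdvd

/-- In a finite group G, every subnormal nilpotent subgroup lies in the Fitting subgroup F(G), and, for a set of primes π, every subnormal subgroup all of whose prime divisors lie in π lies in O_π(G). -/
theorem result {G : Type*} [Group G] [Finite G] (A : Subgroup G) (hA : A.IsSubnormal) : (Group.IsNilpotent A → A ≤ Cfsg.fittingSubgroup G) ∧ ∀ π : Set ℕ, (∀ p : ℕ, p.Prime → p ∣ Nat.card A → p ∈ π) → A ≤ Cfsg.piCore π G := by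
  refine ⟨fun hn => Cfsg.Agent.Helper22.le_fittingSubgroup_of_isSubnormal hA hn, ?_⟩
  intro π hπ
  exact Cfsg.Agent.Helper22.le_radical_of_isSubnormal
    (fun H _ => ∀ p : ℕ, p.Prime → p ∣ Nat.card H → p ∈ π)
    (fun e h p hp hdvd => h p hp (by rw [Nat.card_congr e.toEquiv]; exact hdvd))
    (fun K => piCore_isPi (G := K) π) hA hπ

end Cfsg.Agent.S3743
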