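import Cfsg.Statements.S3744
import Cfsg.Agent.Helper35.HallCoprime
import Cfsg.Agent.Helper32.PSolvable
import Cfsg.Agent.Helper69.HallPrime

set_option autoImplicit false
open Cfsg

namespace Cfsg.Agent.S3744

universe u

open Subgroup Cfsg.Agent.Helper35
open scoped Pointwise

theorem inf_eq_bot_of_pgroup_of_coprime {G : Type u} [Group G] [Finite G] {p : ℕ} (hp : p.Prime)
    {D K : Subgroup G} (hD : IsPGroup p D) (hK : (Nat.card K).Coprime p) : D ⊓ K = ⊥ := by
  have : Fact p.Prime := ⟨hp⟩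
  obtain ⟨a, ha⟩ := hD.exists_card_eq
  have h1 : Nat.card (D ⊓ K : Subgroup G) ∣ Nat.card D := Subgroup.card_dvd_of_le inf_le_left
  have h2 : Nat.card (D ⊓ K : Subgroup G) ∣ Nat.card K := Subgroup.card_dvd_of_le inf_le_right
  have h3 : (Nat.card D).Coprime (Nat.card K) := by
    rw [ha]; exact Nat.Coprime.pow_left a hK.symm
  have h4 : Nat.card (D ⊓ K : Subgroup G) = 1 := Nat.eq_one_of_dvd_coprimes h3 h1 h2
  exact Subgroup.card_eq_one.mp h4

theorem local_step {G : Type u} [Group G] [Finite G] {p : ℕ} (hp : p.Prime)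
    (D U K : Subgroup G) [hDn : D.Normal] (hD : IsPGroup p D ∨ (Nat.card D).Coprime p)
    (hU : (Nat.card U).Coprime p) (hK : (Nat.card K).Coprime p) (hKi : ∃ n : ℕ, K.index = p ^ n)
    (hle : U ≤ D ⊔ K) : ∃ g : G, U ≤ MulAut.conj g • K := by
  have : Fact p.Prime := ⟨hp⟩
  have hnorm : ∀ H : Subgroup G, H ≤ normalizer (D : Set G) := fun H => by
    rw [normalizer_eq_top_iff.mpr hDn]; exact le_top
  rcases hD with hD | hD
  · set K₁ : Subgroup G := (D ⊔ U) ⊓ K with hK₁
    have hK₁K : K₁ ≤ K := inf_le_right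
    have hK₁cop : (Nat.card K₁).Coprime p :=
      Nat.Coprime.coprime_dvd_left (Subgroup.card_dvd_of_le hK₁K) hK
    obtain ⟨a, ha⟩ := hD.exists_card_eq
    have hUle : U ≤ D ⊔ K₁ := by
      intro u hu
      obtain ⟨d, hd, k, hk, rfl⟩ := exists_mul_of_mem_sup_of_le_normalizer (hnorm K) (hle hu)
      have hk1 : k ∈ K₁ := by
        refine ⟨?_, hk⟩
        have : k = d⁻¹ * (d * k) := by group
        rw [this]
        exact (D ⊔ U).mul_mem ((D ⊔ U).inv_mem (mem_sup_left hd)) (mem_sup_right hu)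
      exact (D ⊔ K₁).mul_mem (mem_sup_left hd) (mem_sup_right hk1)
    have hsup : D ⊔ U = D ⊔ K₁ :=
      le_antisymm (sup_le le_sup_left hUle) (sup_le le_sup_left inf_le_left)
    have hc1 := card_sup_of_le_normalizer (hnorm U) (inf_eq_bot_of_pgroup_of_coprime hp hD hU)
    have hc2 := card_sup_of_le_normalizer (hnorm K₁)
      (inf_eq_bot_of_pgroup_of_coprime hp hD hK₁cop)
    have hcard : Nat.card U = Nat.card K₁ := by
      rw [hsup, hc2] at hc1
      exact (Nat.eq_of_mul_eq_mul_left Nat.card_pos hc1).symm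
    have hsolvD : Group.IsSolvable D := by
      have := hD.isNilpotent
      infer_instance
    obtain ⟨n, hn, hconj⟩ := isz (hnorm K₁)
      (by rw [ha]; exact Nat.Coprime.pow_right a hK₁cop) (Or.inr hsolvD) hUle hcard
    refine ⟨n, ?_⟩
    rw [← hconj]
    exact conj_smul_le_conj_smul hK₁K
  · refine ⟨1, ?_⟩
    rw [map_one, one_smul]
    obtain ⟨n, hn⟩ := hKi
    have h1 : K.relIndex (D ⊔ K) ∣ p ^ n := by
      rw [← hn]; exact Subgroup.relIndex_dvd_index_of_le le_sup_right
    have h2 : Nat.card (D ⊔ K : Subgroup G) = Nat.card D * D.relIndex K := by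
      rw [← card_mul_relIndex_of_le (le_sup_left : D ≤ D ⊔ K), Subgroup.relIndex_sup_left]
    have h3 : (Nat.card (D ⊔ K : Subgroup G)).Coprime p := by
      rw [h2]
      exact Nat.Coprime.mul_left hD
        (Nat.Coprime.coprime_dvd_left (Subgroup.relIndex_dvd_card D K) hK)
    have h4 : K.relIndex (D ⊔ K) = 1 :=
      Nat.eq_one_of_dvd_coprimes (Nat.Coprime.pow_right n h3)
        (Subgroup.relIndex_dvd_card K (D ⊔ K)) h1
    exact hle.trans (Subgroup.relIndex_eq_one.mp h4)

theorem sub_conj_aux (p : ℕ) (hp : p.Prime) (k : ℕ) : ∀ (G : Type u) [Group G] [Finite G],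
    Nat.card G ≤ k → Cfsg.IsPSolvable p G → ∀ U K : Subgroup G, (Nat.card U).Coprime p →
    (Nat.card K).Coprime p → (∃ n : ℕ, K.index = p ^ n) → ∃ g : G, U ≤ MulAut.conj g • K := by
  induction k with
  | zero =>
    intro G _ _ hk
    exact absurd hk (by have := Nat.card_pos (α := G); omega)
  | succ k ih =>
    intro G _ _ hk hsol U K hU hK hKi
    by_cases htriv : (⊤ : Subgroup G) = ⊥
    · refine ⟨1, ?_⟩
      intro u hu
      have : u ∈ (⊤ : Subgroup G) := mem_top u
      rw [htriv, mem_bot] at this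
      rw [this]; exact one_mem _
    · obtain ⟨D, hDn, -, hDne, hD⟩ :=
        Cfsg.Agent.Helper32.exists_normal_le_of_isPSolvable hp hsol ⊤ htriv
      have := hDn
      have hcard : Nat.card (G ⧸ D) ≤ k := by
        have h1 : Nat.card G = Nat.card (G ⧸ D) * Nat.card D :=
          Subgroup.card_eq_card_quotient_mul_card_subgroup D
        have h2 : 1 < Nat.card D := by
          rcases Nat.lt_or_ge 1 (Nat.card D) with h | h
          · exact h
          · exact absurd (Subgroup.card_eq_one.mp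
              (le_antisymm h Nat.card_pos)) hDne
        have h3 : 0 < Nat.card (G ⧸ D) := Nat.card_pos
        nlinarith
      have hqsol := Cfsg.Agent.Helper32.isPSolvable_quotient hp hsol D
      obtain ⟨n, hn⟩ := hKi
      have hKi' : ∃ m : ℕ, (K.map (QuotientGroup.mk' D)).index = p ^ m := by
        have hdvd : (K.map (QuotientGroup.mk' D)).index ∣ p ^ n := by
          rw [← hn]; exact Subgroup.index_map_dvd K (QuotientGroup.mk'_surjective D)
        obtain ⟨m, -, hm⟩ := (Nat.dvd_prime_pow hp).mp hdvd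
        exact ⟨m, hm⟩
      obtain ⟨g', hg'⟩ := ih (G ⧸ D) hcard hqsol (U.map (QuotientGroup.mk' D))
        (K.map (QuotientGroup.mk' D))
        (Nat.Coprime.coprime_dvd_left (Subgroup.card_map_dvd _ _) hU)
        (Nat.Coprime.coprime_dvd_left (Subgroup.card_map_dvd _ _) hK) hKi'
      obtain ⟨g, rfl⟩ := QuotientGroup.mk'_surjective D g'
      have hle : U ≤ D ⊔ MulAut.conj g • K := by
        intro u hu
        have h1 : (QuotientGroup.mk' D) u ∈
            MulAut.conj ((QuotientGroup.mk' D) g) • K.map (QuotientGroup.mk' D) :=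
          hg' (Subgroup.mem_map_of_mem _ hu)
        rw [mem_conj_smul] at h1
        obtain ⟨k', hk', hk'e⟩ := Subgroup.mem_map.mp h1
        have h2 : (QuotientGroup.mk' D) (g * k' * g⁻¹) = (QuotientGroup.mk' D) u := by
          rw [map_mul, map_mul, hk'e, map_inv]; group
        have h3 : u * (g * k' * g⁻¹)⁻¹ ∈ D :=
          (QuotientGroup.eq_one_iff _).mp (by
            show (QuotientGroup.mk' D) (u * (g * k' * g⁻¹)⁻¹) = 1
            rw [map_mul, map_inv, h2, mul_inv_cancel])
        have h4 : g * k' * g⁻¹ ∈ MulAut.conj g • K := by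
          rw [mem_conj_smul]
          have : g⁻¹ * (g * k' * g⁻¹) * g = k' := by group
          rw [this]; exact hk'
        have h5 : u = (u * (g * k' * g⁻¹)⁻¹) * (g * k' * g⁻¹) := by group
        rw [h5]
        exact mul_mem (mem_sup_left h3) (mem_sup_right h4)
      have hcK : Nat.card (MulAut.conj g • K : Subgroup G) = Nat.card K := card_conj_smul g K
      have hiK : (MulAut.conj g • K : Subgroup G).index = K.index := by
        have e1 := Subgroup.card_mul_index (MulAut.conj g • K : Subgroup G)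
        have e2 := Subgroup.card_mul_index K
        rw [hcK, ← e2] at e1
        exact Nat.eq_of_mul_eq_mul_left Nat.card_pos e1
      obtain ⟨x, hx⟩ := local_step hp D U (MulAut.conj g • K) hD hU (by rw [hcK]; exact hK)
        ⟨n, by rw [hiK]; exact hn⟩ hle
      exact ⟨x * g, by rw [← conj_smul_conj_smul]; exact hx⟩

/-- A finite p-soluble group has a p-complement, all its p-complements are conjugate, and every subgroup of order prime to p lies in one of them. Here a p-complement is a subgroup of order prime to p whose index is a power of p. -/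
theorem result {G : Type*} [Group G] [Finite G] {p : ℕ} [Fact p.Prime] (hG : Cfsg.IsPSolvable p G) : (∃ H : Subgroup G, (Nat.card H).Coprime p ∧ ∃ n : ℕ, H.index = p ^ n) ∧ (∀ H₁ H₂ : Subgroup G, (Nat.card H₁).Coprime p → (∃ n : ℕ, H₁.index = p ^ n) → (Nat.card H₂).Coprime p → (∃ n : ℕ, H₂.index = p ^ n) → ∃ g : G, H₂ = H₁.map (MulAut.conj g).toMonoidHom) ∧ (∀ U : Subgroup G, (Nat.card U).Coprime p → ∃ H : Subgroup G, (Nat.card H).Coprime p ∧ (∃ n : ℕ, H.index = p ^ n) ∧ ∃ g : G, U.map (MulAut.conj g).toMonoidHom ≤ H) := by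
  have hp : p.Prime := Fact.out
  have hD := sub_conj_aux p hp (Nat.card G) G le_rfl hG
  obtain ⟨Q, hQ, j, hj⟩ := Cfsg.Agent.Helper69.exists_pComplement hp hG
  have hQi : Q.index = p ^ j := by
    have h1 := Subgroup.card_mul_index Q
    rw [hj] at h1
    exact Nat.eq_of_mul_eq_mul_left Nat.card_pos h1
  refine ⟨⟨Q, hQ, j, hQi⟩, ?_, ?_⟩
  · intro H₁ H₂ h1 h1i h2 h2i
    obtain ⟨g, hg⟩ := hD H₂ H₁ h2 h1 h1i
    refine ⟨g, ?_⟩
    obtain ⟨n₁, hn₁⟩ := h1i
    obtain ⟨n₂, hn₂⟩ := h2i
    have e1 := Subgroup.card_mul_index H₁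
    have e2 := Subgroup.card_mul_index H₂
    rw [hn₁] at e1; rw [hn₂] at e2
    have d1 : Nat.card H₁ ∣ Nat.card H₂ := by
      have : Nat.card H₁ ∣ Nat.card H₂ * p ^ n₂ := by
        rw [e2, ← e1]; exact dvd_mul_right _ _
      exact (Nat.Coprime.dvd_mul_right (Nat.Coprime.pow_right n₂ h1)).mp this
    have d2 : Nat.card H₂ ∣ Nat.card H₁ := by
      have : Nat.card H₂ ∣ Nat.card H₁ * p ^ n₁ := by
        rw [e1, ← e2]; exact dvd_mul_right _ _
      exact (Nat.Coprime.dvd_mul_right (Nat.Coprime.pow_right n₁ h2)).mp this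
    have hc : Nat.card H₁ = Nat.card H₂ := Nat.dvd_antisymm d1 d2
    have hfin : H₂ = MulAut.conj g • H₁ := by
      apply Subgroup.eq_of_le_of_card_ge hg
      rw [Cfsg.Agent.Helper35.card_conj_smul, hc]
    rw [hfin]; rfl
  · intro U hU
    obtain ⟨g, hg⟩ := hD U Q hU hQ ⟨j, hQi⟩
    refine ⟨Q, hQ, ⟨j, hQi⟩, g⁻¹, ?_⟩
    intro x hx
    obtain ⟨u, hu, rfl⟩ := Subgroup.mem_map.mp hx
    have h3 := hg hu
    rw [Cfsg.Agent.Helper35.mem_conj_smul] at h3
    simpa [MulAut.conj_apply] using h3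

end Cfsg.Agent.S3744
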