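-- Statement S3746: if E/Z is a component of G/Z with Z central, then [E,E] is a component of G.
import Cfsg.Statements.S3746
import Cfsg.Agent.Helper34.PComp2
import Cfsg.Agent.Helper62.Subnormal

set_option autoImplicit false
open Cfsg
open scoped commutatorElement
open scoped Pointwise

namespace Cfsg.Agent.S3746

open Cfsg.Agent.Helper62

theorem comm_mul_central_left {G : Type*} [Group G] (a z b : G) (hz : ∀ g : G, g * z = z * g) :
    ⁅a * z, b⁆ = ⁅a, b⁆ := by
  rw [commutatorElement_def, commutatorElement_def]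
  have : a * z * b * (a * z)⁻¹ * b⁻¹ = a * (z * b * z⁻¹) * a⁻¹ * b⁻¹ := by group
  rw [this, ← hz b, mul_inv_cancel_right]

theorem comm_mul_central_right {G : Type*} [Group G] (a b z : G) (hz : ∀ g : G, g * z = z * g) :
    ⁅a, b * z⁆ = ⁅a, b⁆ := by
  rw [commutatorElement_def, commutatorElement_def]
  have : a * (b * z) * a⁻¹ * (b * z)⁻¹ = a * b * (z * a⁻¹ * z⁻¹) * b⁻¹ := by group
  rw [this, ← hz a⁻¹, mul_inv_cancel_right]

/-- Let Z ≤ Z(G) be a central subgroup of a finite group G and E a subgroup of G containing Z whose image E/Z is a component of G/Z (subnormal and quasisimple). Then the derived subgroup [E, E] is a component of G. -/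
theorem result {G : Type*} [Group G] [Finite G] (Z : Subgroup G) (hZ : Z ≤ Subgroup.center G) [Z.Normal] (E : Subgroup G) (hZE : Z ≤ E) (hE : Cfsg.IsComponent (E.map (QuotientGroup.mk' Z))) : Cfsg.IsComponent ⁅E, E⁆ := by
  obtain ⟨hsub, hqs⟩ := hE
  set π := QuotientGroup.mk' Z with hπ
  set D : Subgroup G := ⁅E, E⁆ with hD
  have hperf : Group.IsPerfect ↥(E.map π) := hqs.1
  have h1 : ⁅E.map π, E.map π⁆ = E.map π := Subgroup.isPerfect_iff.1 hperf
  have h2 : D.map π = E.map π := by rw [hD, Subgroup.map_commutator]; exact h1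
  have h3 : E ≤ D ⊔ Z := by
    have := congrArg (Subgroup.comap π) h2
    rw [Subgroup.comap_map_eq, Subgroup.comap_map_eq, hπ, QuotientGroup.ker_mk'] at this
    calc E ≤ E ⊔ Z := le_sup_left
      _ = D ⊔ Z := this.symm
  have hcZ : ∀ z ∈ Z, ∀ g : G, g * z = z * g := fun z hz g => Subgroup.mem_center_iff.1 (hZ hz) g
  have hDE : D ≤ E := by
    rw [hD, Subgroup.commutator_le]
    intro a ha b hb
    rw [commutatorElement_def]
    exact E.mul_mem (E.mul_mem (E.mul_mem ha hb) (E.inv_mem ha)) (E.inv_mem hb)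
  have h4 : ⁅D, D⁆ = D := by
    apply le_antisymm
    · rw [Subgroup.commutator_le]
      intro a ha b hb
      rw [commutatorElement_def]
      exact D.mul_mem (D.mul_mem (D.mul_mem ha hb) (D.inv_mem ha)) (D.inv_mem hb)
    · calc D = ⁅E, E⁆ := hD
        _ ≤ ⁅D ⊔ Z, D ⊔ Z⁆ := Subgroup.commutator_mono h3 h3
        _ ≤ ⁅D, D⁆ := by
          rw [Subgroup.commutator_le]
          intro g₁ hg₁ g₂ hg₂
          have hg₁' : g₁ ∈ (D : Set G) * (Z : Set G) := by rw [← Subgroup.mul_normal]; exact hg₁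
          have hg₂' : g₂ ∈ (D : Set G) * (Z : Set G) := by rw [← Subgroup.mul_normal]; exact hg₂
          obtain ⟨d₁, hd₁, z₁, hz₁, rfl⟩ := Set.mem_mul.1 hg₁'
          obtain ⟨d₂, hd₂, z₂, hz₂, rfl⟩ := Set.mem_mul.1 hg₂'
          have hz₁c : ∀ g : G, g * z₁ = z₁ * g := hcZ z₁ hz₁
          have hz₂c : ∀ g : G, g * z₂ = z₂ * g := hcZ z₂ hz₂
          have key : ⁅d₁ * z₁, d₂ * z₂⁆ = ⁅d₁, d₂⁆ := by
            rw [comm_mul_central_left _ _ _ hz₁c, comm_mul_central_right _ _ _ hz₂c]
          rw [key]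
          exact Subgroup.commutator_mem_commutator hd₁ hd₂
  haveI : Group.IsPerfect ↥D := Subgroup.isPerfect_iff.2 h4
  let f0 : ↥D →* ↥(D.map π) := π.subgroupMap D
  let e : ↥(D.map π) ≃* ↥(E.map π) := MulEquiv.subgroupCongr h2
  let f : ↥D →* ↥(E.map π) := e.toMonoidHom.comp f0
  have hf : Function.Surjective f := e.surjective.comp (π.subgroupMap_surjective D)
  have hker : f.ker ≤ Subgroup.center ↥D := by
    intro x hx
    rw [MonoidHom.mem_ker] at hx
    have hx1 : π (x : G) = 1 := by
      have := congrArg (fun y : ↥(E.map π) => (y : G ⧸ Z)) hx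
      simpa [f, f0, e] using this
    have hxZ : (x : G) ∈ Z := by
      rw [← QuotientGroup.ker_mk' Z, MonoidHom.mem_ker]; exact hx1
    rw [Subgroup.mem_center_iff]
    intro y
    apply Subtype.ext
    exact hcZ _ hxZ y
  have hqsD : IsQuasisimple ↥D := Cfsg.Agent.Helper34.qs_of_central_extension hqs f hf hker
  have hEsub : E.IsSubnormal := by
    have := hsub.comap π
    rw [Subgroup.comap_map_eq, hπ, QuotientGroup.ker_mk', sup_eq_left.2 hZE] at this
    exact this
  have hnorm : E ≤ Subgroup.normalizer (D : Set G) := by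
    apply le_normalizer_of_map_conj_le
    intro s hs
    rw [hD, Subgroup.map_commutator, map_conj_eq_of_mem_normalizer E s (Subgroup.le_normalizer hs)]
  have hDsub : D.IsSubnormal :=
    Subgroup.IsSubnormal.step D E hDE hEsub ((Subgroup.normal_subgroupOf_iff_le_normalizer hDE).2 hnorm)
  exact ⟨hDsub, hqsD⟩

end Cfsg.Agent.S3746
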