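-- Statement S3747: components with trivial centre and minimal normal subgroups.
import Cfsg.Statements.S3747
import Cfsg.Agent.Helper22.Bender
import Cfsg.Agent.Helper35.Coprime

set_option autoImplicit false
open Cfsg

namespace Cfsg.Agent.S3747

open Cfsg.Agent.Helper22
open scoped IsMulCommutative

variable {G : Type*} [Group G]

/-- an element of a join of finitely many centreless components which centralizes each of them
is trivial -/
theorem eq_one_of_mem_sup_components (S : Finset (Subgroup G))
    (hS : ∀ K' ∈ S, Cfsg.IsComponent K' ∧ Subgroup.center ↥K' = ⊥) :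
    ∀ z ∈ S.sup id, (∀ K' ∈ S, z ∈ Subgroup.centralizer (K' : Set G)) → z = 1 := by
  classical
  induction S using Finset.induction_on with
  | empty =>
    intro z hz _
    rw [Finset.sup_empty, Subgroup.mem_bot] at hz
    exact hz
  | insert K' S' hnot ih =>
    intro z hz hcen
    rw [Finset.sup_insert, id] at hz
    have hK' := hS K' (Finset.mem_insert_self _ _)
    have hle : S'.sup id ≤ Subgroup.centralizer (K' : Set G) := by
      apply Finset.sup_le
      intro K'' hK''
      have hne : K'' ≠ K' := fun h => hnot (h ▸ hK'')
      exact Subgroup.commutator_eq_bot_iff_le_centralizer.1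
        (components_commute (hS K'' (Finset.mem_insert_of_mem hK'')).1 hK'.1 hne)
    obtain ⟨k, hk, c, hc, rfl⟩ := Cfsg.Agent.Helper35.exists_mul_of_mem_sup_of_le_normalizer
      (hle.trans (Subgroup.centralizer_le_normalizer _)) hz
    have hkc : k ∈ Subgroup.centralizer (K' : Set G) := by
      have h1 := mul_mem (hcen K' (Finset.mem_insert_self _ _)) (inv_mem (hle hc))
      simpa using h1
    have hk1 : k = 1 := by
      have h2 : (⟨k, hk⟩ : ↥K') ∈ Subgroup.center ↥K' := by
        rw [Subgroup.mem_center_iff]
        intro g
        apply Subtype.ext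
        exact Subgroup.mem_centralizer_iff.1 hkc g g.2
      rw [hK'.2, Subgroup.mem_bot] at h2
      exact congrArg Subtype.val h2
    rw [hk1, one_mul]
    apply ih (fun K'' hK'' => hS K'' (Finset.mem_insert_of_mem hK'')) c hc
    intro K'' hK''
    have := hcen K'' (Finset.mem_insert_of_mem hK'')
    rwa [hk1, one_mul] at this

/-- (a) -/
theorem normalClosure_minimal [Finite G] (K : Subgroup G) (hK : Cfsg.IsComponent K)
    (hZ : Subgroup.center ↥K = ⊥) :
    Subgroup.normalClosure (K : Set G) ≠ ⊥ ∧ ∀ N : Subgroup G, N.Normal →
      N ≤ Subgroup.normalClosure (K : Set G) → N = ⊥ ∨ N = Subgroup.normalClosure (K : Set G) := by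
  classical
  refine ⟨?_, ?_⟩
  · intro h
    apply quasisimple_ne_bot hK.2
    rw [eq_bot_iff, ← h]
    exact Subgroup.le_normalClosure
  · intro N hN hNL
    by_cases hKN : K ≤ N
    · right
      exact le_antisymm hNL (Subgroup.normalClosure_le_normal hKN)
    · left
      set S : Finset (Subgroup G) :=
        (Set.toFinite (Set.range (fun g : G => K.map (MulAut.conj g).toMonoidHom))).toFinset with hS
      have hmem : ∀ K' : Subgroup G, K' ∈ S ↔ ∃ g : G, K.map (MulAut.conj g).toMonoidHom = K' := by
        intro K'
        rw [hS, Set.Finite.mem_toFinset, Set.mem_range]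
      have hScomp : ∀ K' ∈ S, Cfsg.IsComponent K' ∧ Subgroup.center ↥K' = ⊥ := by
        intro K' hK'
        obtain ⟨g, rfl⟩ := (hmem K').1 hK'
        refine ⟨isComponent_conj hK g, ?_⟩
        have := map_center_of_mulEquiv
          (K.equivMapOfInjective (MulAut.conj g).toMonoidHom (MulAut.conj g).injective)
        rw [← this, hZ, Subgroup.map_bot]
      have hLS : Subgroup.normalClosure (K : Set G) ≤ S.sup id := by
        rw [Finset.sup_id_eq_sSup]
        haveI : (sSup (S : Set (Subgroup G))).Normal := by
          apply sSup_normal_of_conj_mem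
          intro K' hK' g
          obtain ⟨g', rfl⟩ := (hmem K').1 (Finset.mem_coe.1 hK')
          refine Finset.mem_coe.2 ((hmem _).2 ⟨g * g', ?_⟩)
          rw [Subgroup.map_map]
          congr 1
          ext y
          simp [MulAut.conj_apply, mul_assoc]
        apply Subgroup.normalClosure_le_normal
        have : K ≤ sSup (S : Set (Subgroup G)) := by
          apply le_sSup
          refine Finset.mem_coe.2 ((hmem K).2 ⟨1, ?_⟩)
          ext y
          simp
        exact this
      rw [eq_bot_iff]
      intro z hz
      rw [Subgroup.mem_bot]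
      apply eq_one_of_mem_sup_components S hScomp z (hLS (hNL hz))
      intro K' hK'
      obtain ⟨g, rfl⟩ := (hmem K').1 hK'
      rcases component_le_or_commutator_eq_bot_of_normal (isComponent_conj hK g) hN with h | h
      · exfalso
        apply hKN
        intro k hk
        have h1 : g * k * g⁻¹ ∈ N := h ⟨k, hk, rfl⟩
        have h2 := hN.conj_mem _ h1 g⁻¹
        simpa [mul_assoc] using h2
      · rw [Subgroup.commutator_comm, Subgroup.commutator_eq_bot_iff_le_centralizer] at h
        exact h hz

/-- Let G be a finite group. (a) If K is a component of G with trivial centre, then the normal closure of K in G is a minimal normal subgroup of G. (b) If the Fitting subgroup of G is trivial, then the layer E(G) is generated by the minimal normal subgroups of G. -/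
theorem result {G : Type*} [Group G] [Finite G] : (∀ K : Subgroup G, Cfsg.IsComponent K → Subgroup.center ↥K = ⊥ → (Subgroup.normalClosure (K : Set G) ≠ ⊥ ∧ ∀ N : Subgroup G, N.Normal → N ≤ Subgroup.normalClosure (K : Set G) → N = ⊥ ∨ N = Subgroup.normalClosure (K : Set G))) ∧ (Cfsg.fittingSubgroup G = ⊥ → sSup {N : Subgroup G | N ≠ ⊥ ∧ N.Normal ∧ ∀ N' : Subgroup G, N'.Normal → N' ≤ N → N' = ⊥ ∨ N' = N} = Cfsg.layer G) := by
  refine ⟨fun K hK hZ => normalClosure_minimal K hK hZ, ?_⟩
  intro hF
  have hEn : (Cfsg.layer G).Normal := layer_normal G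
  apply le_antisymm
  · apply sSup_le
    rintro N ⟨hNne, hNn, hNmin⟩
    have hinf : (N ⊓ Cfsg.layer G).Normal := inferInstance
    rcases hNmin _ hinf inf_le_left with h | h
    · exfalso
      apply hNne
      have hcomm : ⁅N, Cfsg.layer G⁆ = ⊥ := by
        rw [eq_bot_iff, ← h]
        exact le_inf (Subgroup.commutator_le_left N _) (Subgroup.commutator_le_right N _)
      have h1 : N ≤ Subgroup.centralizer (Cfsg.layer G : Set G) :=
        Subgroup.commutator_eq_bot_iff_le_centralizer.1 hcomm
      have h2 : Cfsg.generalizedFittingSubgroup G = Cfsg.layer G := by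
        unfold Cfsg.generalizedFittingSubgroup
        rw [hF, sup_bot_eq]
      have h3 := centralizer_generalizedFittingSubgroup_le G
      rw [h2] at h3
      rw [eq_bot_iff, ← h]
      exact le_inf le_rfl (h1.trans h3)
    · rw [← h]
      exact inf_le_right
  · apply sSup_le
    intro K hK
    have hK' : Cfsg.IsComponent K := hK
    have hZ : Subgroup.center ↥K = ⊥ := by
      have hsub : ((Subgroup.center ↥K).map K.subtype).IsSubnormal :=
        (Subgroup.Normal.isSubnormal inferInstance).trans' hK'.1
      have hnil : Group.IsNilpotent ↥((Subgroup.center ↥K).map K.subtype) :=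
        (Group.isNilpotent_congr ((Subgroup.center ↥K).equivMapOfInjective K.subtype
          K.subtype_injective)).mp inferInstance
      have := le_fittingSubgroup_of_isSubnormal hsub hnil
      rw [hF, le_bot_iff] at this
      exact (Subgroup.map_eq_bot_iff_of_injective _ K.subtype_injective).1 this
    obtain ⟨h1, h2⟩ := normalClosure_minimal K hK' hZ
    exact Subgroup.le_normalClosure.trans
      (le_sSup ⟨h1, Subgroup.normalClosure_normal, fun N' hN' hle => h2 N' hN' hle⟩)

end Cfsg.Agent.S3747
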