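-- Statement S3748: a primitive subgroup contains no nontrivial subnormal subgroup of G.
import Cfsg.Statements.S3748
import Cfsg.Agent.Helper62.Subnormal
import Cfsg.Agent.Helper22.Fitting

set_option autoImplicit false
open Cfsg

namespace Cfsg.Agent.S3748

open Cfsg.Agent.Helper62

/-- a primitive subgroup contains no nontrivial subnormal subgroup -/
theorem no_subnormal {G : Type*} [Group G] [Finite G] (M : Subgroup G) (hM : M ≠ ⊤)
    (hprim : ∀ N : Subgroup G, N ≤ M → M ≤ Subgroup.normalizer (N : Set G) → N ≠ ⊥ →
      Subgroup.normalizer (N : Set G) = M)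
    (L : Subgroup G) (hL : L.IsSubnormal) (hLM : L ≤ M) : L = ⊥ := by
  by_contra hne
  -- the normal closure of L in M
  set N : Subgroup G := ⨆ m : M, L.map (MulAut.conj (m : G)).toMonoidHom with hN
  have hLN : L ≤ N := by
    calc L = L.map (MulAut.conj ((1 : M) : G)).toMonoidHom := by
          rw [Subgroup.coe_one, map_conj_one]
      _ ≤ N := le_iSup (fun m : M => L.map (MulAut.conj (m : G)).toMonoidHom) (1 : M)
  have hNM : N ≤ M := by
    apply iSup_le
    intro m
    calc L.map (MulAut.conj (m : G)).toMonoidHom ≤ M.map (MulAut.conj (m : G)).toMonoidHom :=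
          Subgroup.map_mono hLM
      _ = M := map_conj_eq_of_mem_normalizer M m (Subgroup.le_normalizer m.2)
  have hMN : M ≤ Subgroup.normalizer (N : Set G) := by
    apply le_normalizer_of_map_conj_le
    intro s hs
    rw [hN, Subgroup.map_iSup]
    apply iSup_le
    intro t
    rw [← map_conj_mul]
    exact le_iSup (fun m : M => L.map (MulAut.conj (m : G)).toMonoidHom) (⟨s, hs⟩ * t)
  have hNne : N ≠ ⊥ := fun h => hne (le_bot_iff.mp (h ▸ hLN))
  have hnormN := hprim N hNM hMN hNne
  -- G is nontrivial
  haveI : Nontrivial G := by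
    by_contra hnt
    rw [not_nontrivial_iff_subsingleton] at hnt
    exact hM (Subsingleton.elim _ _)
  obtain ⟨B, hB⟩ := exists_isMinNormal (X := G)
  have hBN : B ≤ Subgroup.normalizer (N : Set G) := by
    apply le_normalizer_of_map_conj_le
    intro b hb
    rw [hN, Subgroup.map_iSup]
    apply iSup_le
    intro t
    have h1 := hB.le_normalizer_of_isSubnormal (isSubnormal_map_conj hL (t : G))
    rw [map_conj_eq_of_mem_normalizer _ b (h1 hb)]
    exact le_iSup (fun m : M => L.map (MulAut.conj (m : G)).toMonoidHom) t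
  have hBM : B ≤ M := hnormN ▸ hBN
  have h2 := hprim B hBM (by rw [hB.normalizer_eq_top]; exact le_top) hB.ne_bot
  rw [hB.normalizer_eq_top] at h2
  exact hM h2.symm

/-- Call a proper subgroup M of G primitive when M = N_G(N) for every non-trivial normal subgroup N of M. If M is a primitive subgroup of the finite group G, then no non-trivial subnormal subgroup of G is contained in M; in particular M ∩ F(G) = 1. -/
theorem result {G : Type*} [Group G] [Finite G] (M : Subgroup G) (hM : M ≠ ⊤) (hprim : ∀ N : Subgroup G, N ≤ M → M ≤ Subgroup.normalizer (N : Set G) → N ≠ ⊥ → Subgroup.normalizer (N : Set G) = M) : (∀ L : Subgroup G, L.IsSubnormal → L ≤ M → L = ⊥) ∧ M ⊓ Cfsg.fittingSubgroup G = ⊥ := by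
  refine ⟨fun L hL hLM => no_subnormal M hM hprim L hL hLM, ?_⟩
  apply no_subnormal M hM hprim _ _ inf_le_left
  haveI := Cfsg.Agent.Helper22.fittingSubgroup_normal G
  exact isSubnormal_of_le_of_isNilpotent inf_le_right
    (Subgroup.Normal.isSubnormal inferInstance)
    (Cfsg.Agent.Helper22.fittingSubgroup_isNilpotent G)

end Cfsg.Agent.S3748
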