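-- Statement S3749: a primitive subgroup M with O_p(M) ≠ 1 and a normal subgroup N meeting M trivially.
import Cfsg.Statements.S3749
import Cfsg.Agent.Helper35.CoprimeSylow
import Cfsg.Agent.Helper22.Fitting

set_option autoImplicit false
open Cfsg
open scoped Pointwise

namespace Cfsg.Agent.S3749

open Cfsg.Agent.Helper35

/-- product decomposition in a join `M ⊔ Q` when `M` normalizes `Q` -/
theorem mem_sup_of_le_normalizer {G : Type*} [Group G] {M Q : Subgroup G}
    (h : M ≤ Subgroup.normalizer (Q : Set G)) {g : G} (hg : g ∈ M ⊔ Q) :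
    ∃ m ∈ M, ∃ x ∈ Q, g = m * x := by
  let T : Subgroup G :=
    { carrier := {g | ∃ m ∈ M, ∃ x ∈ Q, g = m * x}
      mul_mem' := by
        rintro a b ⟨m, hm, x, hx, rfl⟩ ⟨m', hm', x', hx', rfl⟩
        have h1 : m'⁻¹ * x * m' ∈ Q := by
          have := (Subgroup.mem_normalizer_iff.1 (h (inv_mem hm')) x).1 hx
          simpa using this
        exact ⟨m * m', mul_mem hm hm', (m'⁻¹ * x * m') * x', mul_mem h1 hx', by group⟩
      one_mem' := ⟨1, one_mem _, 1, one_mem _, by simp⟩
      inv_mem' := by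
        rintro a ⟨m, hm, x, hx, rfl⟩
        have h1 : m * x⁻¹ * m⁻¹ ∈ Q := (Subgroup.mem_normalizer_iff.1 (h hm) x⁻¹).1 (inv_mem hx)
        exact ⟨m⁻¹, inv_mem hm, m * x⁻¹ * m⁻¹, h1, by group⟩ }
  have h1 : M ≤ T := fun m hm => ⟨m, hm, 1, one_mem _, by simp⟩
  have h2 : Q ≤ T := fun x hx => ⟨1, one_mem _, x, hx, by simp⟩
  exact (sup_le h1 h2) hg

/-- Call a proper subgroup M of G primitive when M = N_G(N) for every non-trivial normal subgroup N of M. Let M be a primitive subgroup of the finite group G, p a prime with O_p(M) ≠ 1, and N a normal subgroup of G with M ∩ N = 1. Then p does not divide the order of N; for every prime q there is exactly one Sylow q-subgroup of N normalized by M; and if the order of N has at least two prime divisors then M is not a maximal subgroup of G. -/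
theorem result {G : Type*} [Group G] [Finite G] (M : Subgroup G) (hM : M ≠ ⊤) (hprim : ∀ N : Subgroup G, N ≤ M → M ≤ Subgroup.normalizer (N : Set G) → N ≠ ⊥ → Subgroup.normalizer (N : Set G) = M) {p : ℕ} [Fact p.Prime] (hOp : Cfsg.pCore p ↥M ≠ ⊥) (N : Subgroup G) [N.Normal] (hMN : M ⊓ N = ⊥) : ¬ p ∣ Nat.card N ∧ (∀ q : ℕ, [Fact q.Prime] → ∃! Q : Sylow q ↥N, M ≤ Subgroup.normalizer ((Q : Subgroup ↥N).map N.subtype : Set G)) ∧ ((∃ q r : ℕ, q.Prime ∧ r.Prime ∧ q ≠ r ∧ q ∣ Nat.card N ∧ r ∣ Nat.card N) → ¬ IsCoatom M) := by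
  have hp := (Fact.out : p.Prime)
  set P : Subgroup G := (Cfsg.pCore p ↥M).map M.subtype with hP
  have hPM : P ≤ M := Subgroup.map_subtype_le _
  have hPp : IsPGroup p P := (Cfsg.Agent.Helper22.pCore_isPGroup p ↥M).map M.subtype
  have hPne : P ≠ ⊥ := by
    intro h
    apply hOp
    exact (Subgroup.map_eq_bot_iff_of_injective _ M.subtype_injective).1 h
  have hMP : M ≤ Subgroup.normalizer (P : Set G) := by
    haveI := Cfsg.Agent.Helper22.pCore_characteristic p ↥M
    exact (Subgroup.le_normalizer).trans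
      (Cfsg.Agent.Helper22.normalizer_le_normalizer_map_subtype M _)
  have hnormP : Subgroup.normalizer (P : Set G) = M := hprim P hPM hMP hPne
  have hCN : N ⊓ Subgroup.centralizer (P : Set G) = ⊥ := by
    rw [eq_bot_iff, ← hMN]
    apply le_inf
    · calc N ⊓ Subgroup.centralizer (P : Set G) ≤ Subgroup.centralizer (P : Set G) := inf_le_right
        _ ≤ Subgroup.normalizer (P : Set G) := Subgroup.centralizer_le_normalizer _
        _ = M := hnormP
    · exact inf_le_left
  -- (a) p does not divide |N|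
  have hpN : ¬ p ∣ Nat.card N := by
    letI : MulDistribMulAction ↥P ↥N :=
      MulDistribMulAction.compHom ↥N ((MulAut.conjNormal (H := N)).comp P.subtype)
    have hmod := hPp.card_modEq_card_fixedPoints ↥N
    have hfix : Nat.card (MulAction.fixedPoints ↥P ↥N) = 1 := by
      rw [Nat.card_eq_one_iff_unique]
      refine ⟨⟨?_⟩, ⟨⟨1, fun g => smul_one g⟩⟩⟩
      have hone : ∀ a : MulAction.fixedPoints ↥P ↥N, a = ⟨1, fun g => smul_one g⟩ := by
        rintro ⟨a, ha⟩
        apply Subtype.ext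
        have hmem : (a : G) ∈ N ⊓ Subgroup.centralizer (P : Set G) := by
          refine Subgroup.mem_inf.2 ⟨a.2, ?_⟩
          rw [Subgroup.mem_centralizer_iff]
          intro g hg
          have h1 : (⟨g, hg⟩ : ↥P) • a = a := ha ⟨g, hg⟩
          have h2 : (((⟨g, hg⟩ : ↥P) • a : ↥N) : G) = g * a * g⁻¹ := rfl
          rw [h1] at h2
          have h3 : g * (a : G) = (g * a * g⁻¹) * g := by simp
          rw [h3, ← h2]
        rw [hCN, Subgroup.mem_bot] at hmem
        exact Subtype.ext hmem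
      intro a b
      rw [hone a, hone b]
    rw [hfix] at hmod
    intro hdvd
    have h1 : Nat.card ↥N % p = 0 := Nat.mod_eq_zero_of_dvd hdvd
    have h2 : Nat.card ↥N % p = 1 % p := hmod
    rw [h1, Nat.mod_eq_of_lt hp.one_lt] at h2
    exact absurd h2 (by norm_num)
  -- coprime action of P on N
  have hPN : P ≤ Subgroup.normalizer (N : Set G) := by
    rw [Subgroup.normalizer_eq_top_iff.mpr inferInstance]; exact le_top
  have hcop : (Nat.card P).Coprime (Nat.card N) := by
    obtain ⟨k, hk⟩ := (IsPGroup.iff_card (p := p)).1 hPp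
    rw [hk]
    exact Nat.Coprime.pow_left k ((Nat.Prime.coprime_iff_not_dvd hp).2 hpN)
  have hsolv : Group.IsSolvable P ∨ Group.IsSolvable N := by
    left
    haveI := hPp.isNilpotent
    infer_instance
  have key : ∀ (q : ℕ) [Fact q.Prime], ∃ Q0 ∈ sylowSet q N, M ≤ Subgroup.normalizer (Q0 : Set G) ∧
      ∀ Q1 ∈ sylowSet q N, P ≤ Subgroup.normalizer (Q1 : Set G) → Q1 = Q0 := by
    intro q _
    obtain ⟨Q0, hQ0, hQ0P⟩ := exists_invariant_sylow hPN hcop hsolv q
    have huniq : ∀ Q1 ∈ sylowSet q N, P ≤ Subgroup.normalizer (Q1 : Set G) → Q1 = Q0 := by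
      intro Q1 hQ1 hQ1P
      obtain ⟨c, hc, hcQ⟩ := exists_conj_invariant_sylow hPN hcop hsolv hQ1 hQ0 hQ1P hQ0P
      rw [hCN, Subgroup.mem_bot] at hc
      rw [hc, map_one, one_smul] at hcQ
      exact hcQ
    refine ⟨Q0, hQ0, ?_, huniq⟩
    intro m hm
    rw [mem_normalizer_iff_conj_smul_eq]
    apply huniq
    · exact conj_mem_sylowSet (hg := by
        rw [Subgroup.normalizer_eq_top_iff.mpr inferInstance]; exact Subgroup.mem_top m) hQ0
    · have := conj_smul_le_normalizer hQ0P m
      rwa [conj_smul_eq_self_of_mem_normalizer (hMP hm)] at this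
  refine ⟨hpN, ?_, ?_⟩
  · intro q _
    obtain ⟨Q0, hQ0, hMQ0, huniq⟩ := key q
    obtain ⟨Q, hQ⟩ := exists_sylow_of_mem_sylowSet hQ0
    refine ⟨Q, ?_, ?_⟩
    · show M ≤ Subgroup.normalizer (((Q : Subgroup ↥N).map N.subtype : Subgroup G) : Set G)
      rw [hQ]; exact hMQ0
    · intro Q' hQ'
      have h1 : (Q' : Subgroup N).map N.subtype = Q0 :=
        huniq _ (sylow_map_mem_sylowSet Q') (hPM.trans hQ')
      apply Sylow.ext
      apply Subgroup.map_injective N.subtype_injective
      rw [h1, hQ]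
  · rintro ⟨q, r, hq, hr, hqr, hqN, hrN⟩ hcoatom
    haveI : Fact q.Prime := ⟨hq⟩
    obtain ⟨Q0, hQ0, hMQ0, -⟩ := key q
    have hQ0N : Q0 ≤ N := hQ0.1
    have hQ0card : Nat.card Q0 = q ^ (Nat.card N).factorization q := hQ0.2
    have hfac : 1 ≤ (Nat.card N).factorization q :=
      (Nat.Prime.dvd_iff_one_le_factorization hq Nat.card_pos.ne').1 hqN
    have hQ0ne : Q0 ≠ ⊥ := by
      intro h
      rw [h, Subgroup.card_bot] at hQ0card
      have h5 : q ^ 1 ≤ q ^ (Nat.card N).factorization q := Nat.pow_le_pow_right hq.pos hfac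
      rw [pow_one] at h5
      have := hq.two_le
      omega
    have hlt : M < M ⊔ Q0 := by
      apply lt_of_le_of_ne le_sup_left
      intro h
      apply hQ0ne
      rw [eq_bot_iff, ← hMN]
      exact le_inf (by rw [h]; exact le_sup_right) hQ0N
    have htop : M ⊔ Q0 = ⊤ := hcoatom.2 _ hlt
    have hNQ : N ≤ Q0 := by
      intro n hn
      have hn' : n ∈ M ⊔ Q0 := by rw [htop]; exact Subgroup.mem_top n
      obtain ⟨m, hm, x, hx, rfl⟩ := mem_sup_of_le_normalizer hMQ0 hn'
      have hmN : m ∈ N := by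
        have : m = (m * x) * x⁻¹ := by simp
        rw [this]
        exact mul_mem hn (inv_mem (hQ0N hx))
      have : m ∈ M ⊓ N := ⟨hm, hmN⟩
      rw [hMN, Subgroup.mem_bot] at this
      rw [this, one_mul]; exact hx
    have hNeq : N = Q0 := le_antisymm hNQ hQ0N
    rw [hNeq, hQ0card] at hrN
    exact hqr ((Nat.prime_dvd_prime_iff_eq hr hq).1 (hr.dvd_of_dvd_pow hrN)).symm

end Cfsg.Agent.S3749
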