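-- Statement S3750: a primitive subgroup meeting F*(N) nontrivially, N normal in G.
import Cfsg.Statements.S3750
import Cfsg.Agent.S3748
import Cfsg.Agent.Helper22.Fitting

set_option autoImplicit false
open Cfsg

namespace Cfsg.Agent.S3750

open Cfsg.Agent.Helper62 Cfsg.Agent.Helper22

/-- Call a proper subgroup M of G primitive when M = N_G(N) for every non-trivial normal subgroup N of M. Let M be a primitive subgroup of the finite group G and N a normal subgroup of G with M ∩ F*(N) ≠ 1. Then F(G) = 1 and F*(N) = F*(G) = E(G); in particular every minimal normal subgroup of G is contained in N. -/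
theorem result {G : Type*} [Group G] [Finite G] (M : Subgroup G) (hM : M ≠ ⊤) (hprim : ∀ N : Subgroup G, N ≤ M → M ≤ Subgroup.normalizer (N : Set G) → N ≠ ⊥ → Subgroup.normalizer (N : Set G) = M) (N : Subgroup G) [N.Normal] (hMF : M ⊓ (Cfsg.generalizedFittingSubgroup ↥N).map N.subtype ≠ ⊥) : Cfsg.fittingSubgroup G = ⊥ ∧ (Cfsg.generalizedFittingSubgroup ↥N).map N.subtype = Cfsg.generalizedFittingSubgroup G ∧ Cfsg.generalizedFittingSubgroup G = Cfsg.layer G ∧ ∀ K : Subgroup G, K.Normal → K ≠ ⊥ → (∀ K' : Subgroup G, K'.Normal → K' ≤ K → K' = ⊥ ∨ K' = K) → K ≤ N := by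
  have hNsub : N.IsSubnormal := Subgroup.Normal.isSubnormal inferInstance
  have hnosub := Cfsg.Agent.S3748.no_subnormal M hM hprim
  set X : Subgroup G := (Cfsg.generalizedFittingSubgroup ↥N).map N.subtype with hX
  set EN : Subgroup G := (Cfsg.layer ↥N).map N.subtype with hEN
  set FN : Subgroup G := (Cfsg.fittingSubgroup ↥N).map N.subtype with hFN
  have hXsup : X = EN ⊔ FN := by
    rw [hX, hEN, hFN, ← Subgroup.map_sup]; rfl
  have hXN : X ≤ N := Subgroup.map_subtype_le _
  haveI hXnormal : X.Normal := by
    haveI := generalizedFittingSubgroup_characteristic ↥N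
    exact normal_map_subtype_of_characteristic N _
  haveI hFNnormal : FN.Normal := by
    haveI := fittingSubgroup_characteristic ↥N
    exact normal_map_subtype_of_characteristic N _
  set D : Subgroup G := M ⊓ X with hD
  have hDM : D ≤ M := inf_le_left
  have hMD : M ≤ Subgroup.normalizer (D : Set G) := by
    apply le_normalizer_of_map_conj_le
    intro s hs
    rw [hD]
    apply le_inf
    · calc (M ⊓ X).map (MulAut.conj s).toMonoidHom ≤ M.map (MulAut.conj s).toMonoidHom :=
            Subgroup.map_mono inf_le_left
        _ = M := map_conj_eq_of_mem_normalizer M s (Subgroup.le_normalizer hs)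
    · calc (M ⊓ X).map (MulAut.conj s).toMonoidHom ≤ X.map (MulAut.conj s).toMonoidHom :=
            Subgroup.map_mono inf_le_right
        _ = X := map_conj_eq_of_mem_normalizer X s
            (by rw [Subgroup.normalizer_eq_top_iff.mpr hXnormal]; exact Subgroup.mem_top s)
  have hnormD : Subgroup.normalizer (D : Set G) = M := hprim D hDM hMD hMF
  -- anything centralizing X lies in M
  have hcent : ∀ T : Subgroup G, T ≤ Subgroup.centralizer (X : Set G) → T ≤ M := by
    intro T hT
    calc T ≤ Subgroup.centralizer (X : Set G) := hT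
      _ ≤ Subgroup.centralizer (D : Set G) := Subgroup.centralizer_le (by
          intro x hx; exact (inf_le_right : D ≤ X) hx)
      _ ≤ Subgroup.normalizer (D : Set G) := Subgroup.centralizer_le_normalizer _
      _ = M := hnormD
  -- a normal subgroup centralizing X is trivial
  have htriv : ∀ T : Subgroup G, T.Normal → T ≤ Subgroup.centralizer (X : Set G) → T = ⊥ :=
    fun T hTn hT => hnosub T hTn.isSubnormal (hcent T hT)
  have hENle : EN ≤ Cfsg.layer G := layer_map_subtype_le hNsub
  have hFNle : FN ≤ Cfsg.fittingSubgroup G := fittingSubgroup_map_subtype_le hNsub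
  have hLF : Cfsg.layer G ≤ Subgroup.centralizer (Cfsg.fittingSubgroup G : Set G) :=
    Subgroup.commutator_eq_bot_iff_le_centralizer.1 (layer_commutator_fitting G)
  -- the centre of F(N) is trivial, hence F(N) is trivial
  have hFNbot : FN = ⊥ := by
    by_contra hne
    set Z : Subgroup G := FN ⊓ Subgroup.centralizer (FN : Set G) with hZ
    haveI : Z.Normal := by rw [hZ]; infer_instance
    have hZX : Z ≤ Subgroup.centralizer (X : Set G) := by
      rw [Subgroup.le_centralizer_iff, hXsup]
      apply sup_le
      · -- EN centralizes Z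
        calc EN ≤ Cfsg.layer G := hENle
          _ ≤ Subgroup.centralizer (Cfsg.fittingSubgroup G : Set G) := hLF
          _ ≤ Subgroup.centralizer (Z : Set G) := Subgroup.centralizer_le (by
              intro x hx; exact hFNle ((inf_le_left : Z ≤ FN) hx))
      · rw [← Subgroup.le_centralizer_iff]
        exact inf_le_right
    have hZbot := htriv Z inferInstance hZX
    -- but the centre of the nilpotent group FN is nontrivial
    haveI : Group.IsNilpotent ↥FN := by
      have h1 : Group.IsNilpotent ↥(Cfsg.fittingSubgroup ↥N) := fittingSubgroup_isNilpotent ↥N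
      exact (Group.isNilpotent_congr ((Cfsg.fittingSubgroup ↥N).equivMapOfInjective N.subtype
        N.subtype_injective)).mp h1
    haveI : Nontrivial ↥FN := (Subgroup.nontrivial_iff_ne_bot FN).2 hne
    have hc := Group.IsNilpotent.center_ne_bot (G := ↥FN)
    obtain ⟨c, hc2⟩ := (Subgroup.ne_bot_iff_exists_ne_one).1 hc
    have hcmem : (((c : ↥FN)) : G) ∈ Z := by
      have hcc : (c : ↥FN) ∈ Subgroup.center ↥FN := c.2
      refine Subgroup.mem_inf.2 ⟨(c : ↥FN).2, ?_⟩
      rw [Subgroup.mem_centralizer_iff]
      intro y hy
      have := Subgroup.mem_center_iff.1 hcc ⟨y, hy⟩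
      exact congrArg Subtype.val this
    rw [hZbot, Subgroup.mem_bot] at hcmem
    apply hc2
    apply Subtype.ext
    apply Subtype.ext
    exact hcmem
  have hXEN : X = EN := by rw [hXsup, hFNbot, sup_bot_eq]
  -- F(G) centralizes X
  have hFG : Cfsg.fittingSubgroup G = ⊥ := by
    apply htriv _ (fittingSubgroup_normal G)
    rw [Subgroup.le_centralizer_iff, hXEN]
    exact hENle.trans hLF
  have hFstar : Cfsg.generalizedFittingSubgroup G = Cfsg.layer G := by
    unfold Cfsg.generalizedFittingSubgroup
    rw [hFG, sup_bot_eq]
  -- a nontrivial normal or component subgroup commuting with N would lie in M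
  have hcentN : ∀ T : Subgroup G, T.IsSubnormal → T ≤ Subgroup.centralizer (N : Set G) → T = ⊥ := by
    intro T hTs hT
    apply hnosub T hTs
    apply hcent
    exact hT.trans (Subgroup.centralizer_le (by intro x hx; exact hXN hx))
  refine ⟨hFG, ?_, hFstar, ?_⟩
  · rw [hFstar]
    apply le_antisymm
    · rw [hXEN]; exact hENle
    · apply sSup_le
      intro K hK
      have hK' : Cfsg.IsComponent K := hK
      rcases component_le_or_le_centralizer hK' hNsub with h | h
      · have h1 : Cfsg.IsComponent (K.subgroupOf N) := isComponent_subgroupOf hK' h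
        have h2 : K.subgroupOf N ≤ Cfsg.layer ↥N := component_le_layer h1
        calc K = (K.subgroupOf N).map N.subtype := (Subgroup.map_subgroupOf_eq_of_le h).symm
          _ ≤ (Cfsg.layer ↥N).map N.subtype := Subgroup.map_mono h2
          _ = EN := rfl
          _ = X := hXEN.symm
      · exact absurd (hcentN K hK'.1 h) (quasisimple_ne_bot hK'.2)
  · intro K hKn hKne hKmin
    haveI := hKn
    rcases hKmin (K ⊓ N) inferInstance inf_le_left with h | h
    · exfalso
      apply hKne
      apply hcentN K hKn.isSubnormal
      rw [← Subgroup.commutator_eq_bot_iff_le_centralizer, eq_bot_iff, ← h]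
      exact Subgroup.commutator_le_inf K N
    · rw [← h]; exact inf_le_right

end Cfsg.Agent.S3750
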