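-- Statement S3751: primitive pairs of characteristic p or strongly p-embedded maximal p-locals.
import Cfsg.Statements.S3751
import Cfsg.Agent.Helper62.Subnormal
import Cfsg.Agent.Helper22.Fitting

set_option autoImplicit false
open Cfsg

namespace Cfsg.Agent.S3751

open Cfsg.Agent.Helper62 Cfsg.Agent.Helper22

variable {G : Type*} [Group G]

/-- a `p`-local subgroup -/
def PLoc (p : ℕ) (M : Subgroup G) : Prop :=
  ∃ T : Subgroup G, IsPGroup p T ∧ T ≠ ⊥ ∧ M = Subgroup.normalizer (T : Set G)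

/-- a maximal `p`-local subgroup -/
def MaxPLoc (p : ℕ) (M : Subgroup G) : Prop :=
  PLoc p M ∧ ∀ L : Subgroup G, PLoc p L → M ≤ L → L = M

/-- `T` is a maximal `p`-subgroup of `M` -/
def PMax (p : ℕ) (T M : Subgroup G) : Prop :=
  IsPGroup p T ∧ T ≤ M ∧ ∀ Q : Subgroup G, IsPGroup p Q → T ≤ Q → Q ≤ M → Q = T

theorem exists_maxPLoc_ge [Finite G] {p : ℕ} {L : Subgroup G} (hL : PLoc p L) :
    ∃ M, MaxPLoc p M ∧ L ≤ M := by
  obtain ⟨M, hLM, hM⟩ := Finite.exists_le_maximal (p := fun M : Subgroup G => PLoc p M) (a := L) hL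
  exact ⟨M, ⟨hM.prop, fun L' hL' hML' => le_antisymm (hM.le_of_ge hL' hML') hML'⟩, hLM⟩

theorem PLoc.core {p : ℕ} {M : Subgroup G} (hM : PLoc p M) :
    (Cfsg.pCore p ↥M).map M.subtype ≠ ⊥ ∧ IsPGroup p ((Cfsg.pCore p ↥M).map M.subtype : Subgroup G) ∧
      (Cfsg.pCore p ↥M).map M.subtype ≤ M ∧
      Subgroup.normalizer (M : Set G) ≤
        Subgroup.normalizer (((Cfsg.pCore p ↥M).map M.subtype : Subgroup G) : Set G) := by
  obtain ⟨T, hT, hTne, rfl⟩ := hM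
  have hTle : T ≤ (Cfsg.pCore p ↥(Subgroup.normalizer (T : Set G))).map (Subgroup.normalizer (T : Set G)).subtype := by
    intro t ht
    refine ⟨⟨t, Subgroup.le_normalizer ht⟩, ?_, rfl⟩
    have h1 : T.subgroupOf (Subgroup.normalizer (T : Set G)) ≤ Cfsg.pCore p ↥(Subgroup.normalizer (T : Set G)) :=
      le_sSup ⟨Subgroup.normal_in_normalizer, hT.comap_subtype⟩
    exact h1 (Subgroup.mem_subgroupOf.2 ht)
  refine ⟨?_, (pCore_isPGroup p _).map _, Subgroup.map_subtype_le _, ?_⟩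
  · intro h
    apply hTne
    rw [eq_bot_iff, ← h]
    exact hTle
  · haveI := pCore_characteristic p ↥(Subgroup.normalizer (T : Set G))
    exact normalizer_le_normalizer_map_subtype _ _

theorem MaxPLoc.normalizer_core_eq {p : ℕ} {M : Subgroup G} (hM : MaxPLoc p M) :
    Subgroup.normalizer (((Cfsg.pCore p ↥M).map M.subtype : Subgroup G) : Set G) = M := by
  obtain ⟨hne, hp, hle, hn⟩ := hM.1.core
  exact hM.2 _ ⟨_, hp, hne, rfl⟩ (Subgroup.le_normalizer.trans hn)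

theorem MaxPLoc.normalizer_eq {p : ℕ} {M : Subgroup G} (hM : MaxPLoc p M) :
    Subgroup.normalizer (M : Set G) = M := by
  obtain ⟨hne, hp, hle, hn⟩ := hM.1.core
  exact le_antisymm (hn.trans hM.normalizer_core_eq.le) Subgroup.le_normalizer

theorem PLoc.conj {p : ℕ} {M : Subgroup G} (hM : PLoc p M) (g : G) :
    PLoc p (M.map (MulAut.conj g).toMonoidHom) := by
  obtain ⟨T, hT, hTne, rfl⟩ := hM
  refine ⟨T.map (MulAut.conj g).toMonoidHom, hT.map _, ?_, ?_⟩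
  · intro h
    exact hTne ((Subgroup.map_eq_bot_iff_of_injective _ (MulAut.conj g).injective).1 h)
  · exact Subgroup.map_equiv_normalizer_eq T (MulAut.conj g)

theorem MaxPLoc.conj {p : ℕ} {M : Subgroup G} (hM : MaxPLoc p M) (g : G) :
    MaxPLoc p (M.map (MulAut.conj g).toMonoidHom) := by
  refine ⟨hM.1.conj g, ?_⟩
  intro L hL hML
  have h1 : M ≤ L.map (MulAut.conj g⁻¹).toMonoidHom := by
    have := Subgroup.map_mono (f := (MulAut.conj g⁻¹).toMonoidHom) hML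
    rwa [← map_conj_mul, inv_mul_cancel, map_conj_one] at this
  have h2 := hM.2 _ (hL.conj g⁻¹) h1
  rw [← h2, ← map_conj_mul, mul_inv_cancel, map_conj_one]

/-- a nontrivial normal subgroup of a maximal `p`-local of characteristic `p` has that `p`-local
as its normalizer -/
theorem MaxPLoc.normalizer_eq_of_normal {p : ℕ} {M : Subgroup G} (hM : MaxPLoc p M)
    (hchar : Subgroup.centralizer (Cfsg.pCore p ↥M : Set ↥M) ≤ Cfsg.pCore p ↥M)
    (A : Subgroup G) (hA : A ≠ ⊥) (hAM : A ≤ M) (hMA : M ≤ Subgroup.normalizer (A : Set G)) :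
    Subgroup.normalizer (A : Set G) = M := by
  obtain ⟨hPne, hPp, hPle, hPn⟩ := hM.1.core
  set P : Subgroup G := (Cfsg.pCore p ↥M).map M.subtype with hP
  have hMP : M ≤ Subgroup.normalizer (P : Set G) := Subgroup.le_normalizer.trans hPn
  set B : Subgroup G := (Cfsg.pCore p ↥A).map A.subtype with hB
  have hBp : IsPGroup p B := (pCore_isPGroup p _).map _
  have hAB : Subgroup.normalizer (A : Set G) ≤ Subgroup.normalizer (B : Set G) := by
    haveI := pCore_characteristic p ↥A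
    exact normalizer_le_normalizer_map_subtype _ _
  by_cases hBne : B = ⊥
  · exfalso
    have hcore : Cfsg.pCore p ↥A = ⊥ :=
      (Subgroup.map_eq_bot_iff_of_injective _ A.subtype_injective).1 hBne
    have hAP : A ⊓ P = ⊥ := by
      rw [eq_bot_iff]
      intro y hy
      have hn : ((A ⊓ P).subgroupOf A).Normal := by
        constructor
        intro n hn a
        rw [Subgroup.mem_subgroupOf] at hn ⊢
        refine Subgroup.mem_inf.2 ⟨(a * n * a⁻¹).2, ?_⟩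
        have h1 := (Subgroup.mem_normalizer_iff.1 (hMP (hAM a.2)) (n : G)).1 (Subgroup.mem_inf.1 hn).2
        simpa using h1
      have hpg : IsPGroup p ((A ⊓ P).subgroupOf A) :=
        (hPp.to_le inf_le_right).comap_subtype
      have hle : (A ⊓ P).subgroupOf A ≤ Cfsg.pCore p ↥A := le_sSup ⟨hn, hpg⟩
      rw [hcore] at hle
      have h2 : (⟨y, (Subgroup.mem_inf.1 hy).1⟩ : ↥A) ∈ (A ⊓ P).subgroupOf A :=
        Subgroup.mem_subgroupOf.2 hy
      have h3 := hle h2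
      rw [Subgroup.mem_bot] at h3
      rw [Subgroup.mem_bot]
      exact congrArg Subtype.val h3
    apply hA
    rw [eq_bot_iff]
    intro a ha
    rw [← hAP]
    refine Subgroup.mem_inf.2 ⟨ha, ?_⟩
    have hcen : (⟨a, hAM ha⟩ : ↥M) ∈ Subgroup.centralizer (Cfsg.pCore p ↥M : Set ↥M) := by
      rw [Subgroup.mem_centralizer_iff]
      intro x hx
      have hxP : (x : G) ∈ P := ⟨x, hx, rfl⟩
      have h1 : a * (x : G) * a⁻¹ * (x : G)⁻¹ ∈ A ⊓ P := by
        refine Subgroup.mem_inf.2 ⟨?_, ?_⟩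
        · have h2 := (Subgroup.mem_normalizer_iff.1 (hMA x.2) a⁻¹).1 (inv_mem ha)
          have h3 : a * ((x : G) * a⁻¹ * (x : G)⁻¹) ∈ A := mul_mem ha h2
          simpa [mul_assoc] using h3
        · have h2 := (Subgroup.mem_normalizer_iff.1 (hMP (hAM ha)) (x : G)).1 hxP
          exact mul_mem h2 (inv_mem hxP)
      rw [hAP, Subgroup.mem_bot] at h1
      apply Subtype.ext
      show (x : G) * a = a * (x : G)
      have h4 : a * (x : G) = (a * (x : G) * a⁻¹ * (x : G)⁻¹) * ((x : G) * a) := by group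
      rw [h4, h1, one_mul]
    exact ⟨⟨a, hAM ha⟩, hchar hcen, rfl⟩
  · have h1 := hM.2 _ ⟨B, hBp, hBne, rfl⟩ (hMA.trans hAB)
    exact le_antisymm (hAB.trans h1.le) hMA

theorem PMax.core_le {p : ℕ} {T M : Subgroup G} (hT : PMax p T M) (hM : PLoc p M) :
    (Cfsg.pCore p ↥M).map M.subtype ≤ T := by
  obtain ⟨hPne, hPp, hPle, hPn⟩ := hM.core
  have h1 : IsPGroup p (T ⊔ (Cfsg.pCore p ↥M).map M.subtype : Subgroup G) :=
    hT.1.to_sup_of_normal_right' hPp (hT.2.1.trans (Subgroup.le_normalizer.trans hPn))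
  have h2 := hT.2.2 _ h1 le_sup_left (sup_le hT.2.1 hPle)
  rw [← h2]
  exact le_sup_right

/-- normalizers grow in `p`-groups -/
theorem exists_mem_normalizer_not_mem [Finite G] {p : ℕ} [Fact p.Prime] {T Q : Subgroup G}
    (hQ : IsPGroup p Q) (hTQ : T ≤ Q) (hne : Q ≠ T) :
    ∃ x ∈ Q, x ∉ T ∧ x ∈ Subgroup.normalizer (T : Set G) := by
  haveI := hQ.isNilpotent
  have hnc : NormalizerCondition ↥Q := normalizerCondition_of_isNilpotent
  have hlt : T.subgroupOf Q < ⊤ := by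
    rw [lt_top_iff_ne_top]
    intro h
    rw [Subgroup.subgroupOf_eq_top] at h
    exact hne (le_antisymm h hTQ)
  obtain ⟨x, hx, hxT⟩ := SetLike.exists_of_lt (hnc _ hlt)
  refine ⟨x, x.2, fun h => hxT (Subgroup.mem_subgroupOf.2 h), ?_⟩
  rw [Subgroup.mem_normalizer_iff] at hx ⊢
  intro h
  constructor
  · intro hh
    have := (hx ⟨h, hTQ hh⟩).1 (Subgroup.mem_subgroupOf.2 hh)
    exact Subgroup.mem_subgroupOf.1 this
  · intro hh
    have hhQ : h ∈ Q := by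
      have h1 : (x : G)⁻¹ * ((x : G) * h * (x : G)⁻¹) * (x : G) ∈ Q :=
        mul_mem (mul_mem (inv_mem x.2) (hTQ hh)) x.2
      simpa [mul_assoc] using h1
    have := (hx ⟨h, hhQ⟩).2 (Subgroup.mem_subgroupOf.2 hh)
    exact Subgroup.mem_subgroupOf.1 this

/-- the triples over which we maximise -/
def Triple (p : ℕ) (M₁ M₂ T : Subgroup G) : Prop :=
  MaxPLoc p M₁ ∧ MaxPLoc p M₂ ∧ M₁ ≠ M₂ ∧ IsPGroup p T ∧ T ≠ ⊥ ∧ T ≤ M₁ ⊓ M₂

theorem Triple.symm {p : ℕ} {M₁ M₂ T : Subgroup G} (h : Triple p M₁ M₂ T) : Triple p M₂ M₁ T :=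
  ⟨h.2.1, h.1, h.2.2.1.symm, h.2.2.2.1, h.2.2.2.2.1, by rw [inf_comm]; exact h.2.2.2.2.2⟩

theorem key [Finite G] {p : ℕ} [Fact p.Prime] {M₁ M₂ T : Subgroup G} (h : Triple p M₁ M₂ T)
    (hmax : ∀ M₁' M₂' T' : Subgroup G, Triple p M₁' M₂' T' → Nat.card T' ≤ Nat.card T)
    (hnot : ¬ PMax p T M₁) :
    ∃ N₁ N₂ U : Subgroup G, MaxPLoc p N₁ ∧ MaxPLoc p N₂ ∧ N₁ ≠ N₂ ∧ PMax p U N₁ ∧ PMax p U N₂ := by
  obtain ⟨hM₁, hM₂, hne, hT, hTne, hTle⟩ := h
  have hTM₁ : T ≤ M₁ := hTle.trans inf_le_left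
  have hTM₂ : T ≤ M₂ := hTle.trans inf_le_right
  -- a strictly larger p-subgroup of any of the two, inside the normalizer of T
  have grow : ∀ Q : Subgroup G, IsPGroup p Q → T ≤ Q → Q ≠ T →
      ∃ x ∈ Q, x ∉ T ∧ x ∈ Subgroup.normalizer (T : Set G) ∧
        IsPGroup p (T ⊔ Subgroup.zpowers x : Subgroup G) ∧
        Nat.card T < Nat.card (T ⊔ Subgroup.zpowers x : Subgroup G) := by
    intro Q hQ hTQ hQne
    obtain ⟨x, hxQ, hxT, hxN⟩ := exists_mem_normalizer_not_mem hQ hTQ hQne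
    refine ⟨x, hxQ, hxT, hxN, hQ.to_le (sup_le hTQ (by simpa using hxQ)), ?_⟩
    by_contra hcon
    push Not at hcon
    have := Subgroup.eq_of_le_of_card_ge (le_sup_left : T ≤ T ⊔ Subgroup.zpowers x) hcon
    apply hxT
    rw [this]
    exact (le_sup_right : Subgroup.zpowers x ≤ T ⊔ Subgroup.zpowers x) (Subgroup.mem_zpowers x)
  have supne : ∀ x : G, T ⊔ Subgroup.zpowers x ≠ ⊥ := by
    intro x h
    apply hTne
    rw [eq_bot_iff, ← h]
    exact le_sup_left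
  have hnot' : ∃ Q : Subgroup G, IsPGroup p Q ∧ T ≤ Q ∧ Q ≤ M₁ ∧ Q ≠ T := by
    by_contra hcon
    push Not at hcon
    exact hnot ⟨hT, hTM₁, fun Q hQ hTQ hQM => hcon Q hQ hTQ hQM⟩
  obtain ⟨Q, hQ, hTQ, hQM, hQne⟩ := hnot'
  obtain ⟨x, hxQ, hxT, hxN, hRp, hRcard⟩ := grow Q hQ hTQ hQne
  have hRM₁ : T ⊔ Subgroup.zpowers x ≤ M₁ := sup_le hTM₁ (by simpa using hQM hxQ)
  have hRN : T ⊔ Subgroup.zpowers x ≤ Subgroup.normalizer (T : Set G) :=
    sup_le Subgroup.le_normalizer (by simpa using hxN)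
  -- N(T) ≤ M₁
  have hNT : Subgroup.normalizer (T : Set G) ≤ M₁ := by
    obtain ⟨L, hL, hNL⟩ := exists_maxPLoc_ge (p := p) ⟨T, hT, hTne, rfl⟩
    by_cases hLM : M₁ = L
    · rw [hLM]; exact hNL
    · exfalso
      have := hmax M₁ L _ ⟨hM₁, hL, hLM, hRp, supne x, le_inf hRM₁ (hRN.trans hNL)⟩
      omega
  -- T is a maximal p-subgroup of M₂
  have hPM₂ : PMax p T M₂ := by
    refine ⟨hT, hTM₂, ?_⟩
    intro Q₂ hQ₂ hTQ₂ hQ₂M
    by_contra hQ₂ne
    obtain ⟨x₂, hx₂Q, hx₂T, hx₂N, hR₂p, hR₂card⟩ := grow Q₂ hQ₂ hTQ₂ hQ₂ne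
    have h1 : T ⊔ Subgroup.zpowers x₂ ≤ M₂ := sup_le hTM₂ (by simpa using hQ₂M hx₂Q)
    have h2 : T ⊔ Subgroup.zpowers x₂ ≤ M₁ :=
      (sup_le Subgroup.le_normalizer (by simpa using hx₂N)).trans hNT
    have := hmax M₁ M₂ _ ⟨hM₁, hM₂, hne, hR₂p, supne x₂, le_inf h2 h1⟩
    omega
  have hxM₂ : x ∉ M₂ := by
    intro hx
    have h1 : T ⊔ Subgroup.zpowers x ≤ M₂ := sup_le hTM₂ (by simpa using hx)
    have := hmax M₁ M₂ _ ⟨hM₁, hM₂, hne, hRp, supne x, le_inf hRM₁ h1⟩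
    omega
  refine ⟨M₂, M₂.map (MulAut.conj x).toMonoidHom, T, hM₂, hM₂.conj x, ?_, hPM₂, ?_⟩
  · intro h
    apply hxM₂
    have := mem_normalizer_of_map_conj_eq M₂ x h.symm
    rwa [hM₂.normalizer_eq] at this
  · have hTx : T.map (MulAut.conj x).toMonoidHom = T := map_conj_eq_of_mem_normalizer T x hxN
    have hTx' : T.map (MulAut.conj x⁻¹).toMonoidHom = T :=
      map_conj_eq_of_mem_normalizer T x⁻¹ (inv_mem hxN)
    refine ⟨hT, ?_, ?_⟩
    · rw [← hTx]; exact Subgroup.map_mono hTM₂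
    · intro Q' hQ' hTQ' hQ'M
      have h1 : T ≤ Q'.map (MulAut.conj x⁻¹).toMonoidHom := by
        rw [← hTx']; exact Subgroup.map_mono hTQ'
      have h2 : Q'.map (MulAut.conj x⁻¹).toMonoidHom ≤ M₂ := by
        have := Subgroup.map_mono (f := (MulAut.conj x⁻¹).toMonoidHom) hQ'M
        rwa [← map_conj_mul, inv_mul_cancel, map_conj_one] at this
      have h3 := hPM₂.2.2 _ (hQ'.map _) h1 h2
      have h4 : Q' = (Q'.map (MulAut.conj x⁻¹).toMonoidHom).map (MulAut.conj x).toMonoidHom := by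
        rw [← map_conj_mul, mul_inv_cancel, map_conj_one]
      rw [h4, h3, hTx]

/-- Two distinct subgroups M₁, M₂ of G form a primitive pair when, for {i, j} = {1, 2}, every non-trivial normal subgroup A of M_i contained in M₁ ∩ M₂ satisfies N_{M_j}(A) = M₁ ∩ M₂; the pair has characteristic p when moreover C_{M_i}(O_p(M_i)) ≤ O_p(M_i) for both i and O_p(M₁)O_p(M₂) ≤ M₁ ∩ M₂. Let G be a finite group, p a prime dividing its order, with O_p(G) = 1 and every p-local subgroup of characteristic p. Then either G has a primitive pair of characteristic p, or every maximal p-local subgroup M of G is strongly p-embedded in G: M is a proper subgroup, p divides its order, and for every g ∉ M the order of M ∩ gMg⁻¹ is prime to p. -/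
theorem result {G : Type*} [Group G] [Finite G] {p : ℕ} [Fact p.Prime] (hloc : Cfsg.IsOfLocalCharacteristic p G) (hOp : Cfsg.pCore p G = ⊥) : (∃ M₁ M₂ : Subgroup G, M₁ ≠ M₂ ∧ (∀ A : Subgroup G, A ≠ ⊥ → A ≤ M₁ ⊓ M₂ → (M₁ ≤ Subgroup.normalizer (A : Set G) → M₂ ⊓ Subgroup.normalizer (A : Set G) = M₁ ⊓ M₂) ∧ (M₂ ≤ Subgroup.normalizer (A : Set G) → M₁ ⊓ Subgroup.normalizer (A : Set G) = M₁ ⊓ M₂)) ∧ Subgroup.centralizer (Cfsg.pCore p ↥M₁ : Set ↥M₁) ≤ Cfsg.pCore p ↥M₁ ∧ Subgroup.centralizer (Cfsg.pCore p ↥M₂ : Set ↥M₂) ≤ Cfsg.pCore p ↥M₂ ∧ (Cfsg.pCore p ↥M₁).map M₁.subtype ⊔ (Cfsg.pCore p ↥M₂).map M₂.subtype ≤ M₁ ⊓ M₂) ∨ (∀ M : Subgroup G, (∃ T : Subgroup G, IsPGroup p T ∧ T ≠ ⊥ ∧ M = Subgroup.normalizer (T : Set G)) → (∀ L : Subgroup G, (∃ T : Subgroup G, IsPGroup p T ∧ T ≠ ⊥ ∧ L = Subgroup.normalizer (T : Set G)) → M ≤ L → L = M) → M ≠ ⊤ ∧ p ∣ Nat.card M ∧ ∀ g : G, g ∉ M → ¬ p ∣ Nat.card ↥(M ⊓ M.map (MulAut.conj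 g).toMonoidHom)) := by
  have hp := (Fact.out : p.Prime)
  have hchar : ∀ M : Subgroup G, PLoc p M →
      Subgroup.centralizer (Cfsg.pCore p ↥M : Set ↥M) ≤ Cfsg.pCore p ↥M := by
    rintro M ⟨T, hT, hTne, rfl⟩
    exact hloc.2 T hT hTne
  by_cases hII : (∀ M : Subgroup G, (∃ T : Subgroup G, IsPGroup p T ∧ T ≠ ⊥ ∧ M = Subgroup.normalizer (T : Set G)) → (∀ L : Subgroup G, (∃ T : Subgroup G, IsPGroup p T ∧ T ≠ ⊥ ∧ L = Subgroup.normalizer (T : Set G)) → M ≤ L → L = M) → M ≠ ⊤ ∧ p ∣ Nat.card M ∧ ∀ g : G, g ∉ M → ¬ p ∣ Nat.card ↥(M ⊓ M.map (MulAut.conj g).toMonoidHom))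
  · exact Or.inr hII
  left
  push Not at hII
  obtain ⟨M, hMloc, hMmax, hMnot⟩ := hII
  have hM : MaxPLoc p M := ⟨hMloc, hMmax⟩
  -- M is proper and of order divisible by p
  have hMtop : M ≠ ⊤ := by
    obtain ⟨T, hT, hTne, rfl⟩ := hMloc
    intro h
    apply hTne
    rw [eq_bot_iff, ← hOp]
    exact le_sSup ⟨Subgroup.normalizer_eq_top_iff.1 h, hT⟩
  have hMdvd : p ∣ Nat.card M := by
    obtain ⟨T, hT, hTne, rfl⟩ := hMloc
    obtain ⟨k, hk⟩ := (IsPGroup.iff_card (p := p)).1 hT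
    have hk0 : k ≠ 0 := by
      rintro rfl
      rw [pow_zero, Subgroup.card_eq_one] at hk
      exact hTne hk
    have h1 : p ∣ Nat.card T := by rw [hk]; exact dvd_pow_self p hk0
    exact h1.trans (Subgroup.card_dvd_of_le Subgroup.le_normalizer)
  obtain ⟨g, hgM, hgdvd⟩ := hMnot hMtop hMdvd
  -- a first triple
  have hex : ∃ M₁ M₂ T : Subgroup G, Triple p M₁ M₂ T := by
    obtain ⟨y, hy⟩ := exists_prime_orderOf_dvd_card' (G := ↥(M ⊓ M.map (MulAut.conj g).toMonoidHom)) p hgdvd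
    have hyo : orderOf (y : G) = p := by rw [Subgroup.orderOf_coe]; exact hy
    refine ⟨M, M.map (MulAut.conj g).toMonoidHom, Subgroup.zpowers (y : G), hM, hM.conj g, ?_, ?_, ?_, ?_⟩
    · intro h
      apply hgM
      have := mem_normalizer_of_map_conj_eq M g h.symm
      rwa [hM.normalizer_eq] at this
    · apply IsPGroup.of_card (n := 1)
      rw [Nat.card_zpowers, hyo, pow_one]
    · intro h
      rw [Subgroup.zpowers_eq_bot] at h
      rw [h, orderOf_one] at hyo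
      exact hp.one_lt.ne hyo
    · rw [Subgroup.zpowers_le]
      exact y.2
  -- a triple with T of maximal order
  have hex2 : ∃ M₁ M₂ T : Subgroup G, Triple p M₁ M₂ T ∧
      ∀ M₁' M₂' T' : Subgroup G, Triple p M₁' M₂' T' → Nat.card T' ≤ Nat.card T := by
    set S : Set ℕ := {n | ∃ M₁ M₂ T : Subgroup G, Triple p M₁ M₂ T ∧ Nat.card T = n} with hS
    have hSne : S.Nonempty := by
      obtain ⟨M₁, M₂, T, hT⟩ := hex
      exact ⟨Nat.card T, M₁, M₂, T, hT, rfl⟩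
    have hSbdd : BddAbove S := by
      refine ⟨Nat.card G, ?_⟩
      rintro n ⟨M₁, M₂, T, -, rfl⟩
      exact Subgroup.card_le_card_group T
    obtain ⟨M₁, M₂, T, hT, hTcard⟩ := Nat.sSup_mem hSne hSbdd
    refine ⟨M₁, M₂, T, hT, ?_⟩
    intro M₁' M₂' T' hT'
    rw [hTcard]
    exact le_csSup hSbdd ⟨M₁', M₂', T', hT', rfl⟩
  obtain ⟨M₁, M₂, T, hT, hTmax⟩ := hex2
  -- two distinct maximal p-locals with a common maximal p-subgroup
  have hex3 : ∃ N₁ N₂ U : Subgroup G, MaxPLoc p N₁ ∧ MaxPLoc p N₂ ∧ N₁ ≠ N₂ ∧ PMax p U N₁ ∧ PMax p U N₂ := by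
    by_cases h1 : PMax p T M₁
    · by_cases h2 : PMax p T M₂
      · exact ⟨M₁, M₂, T, hT.1, hT.2.1, hT.2.2.1, h1, h2⟩
      · exact key hT.symm hTmax h2
    · exact key hT hTmax h1
  obtain ⟨N₁, N₂, U, hN₁, hN₂, hne, hU₁, hU₂⟩ := hex3
  refine ⟨N₁, N₂, hne, ?_, hchar N₁ hN₁.1, hchar N₂ hN₂.1, ?_⟩
  · intro A hA hAle
    constructor
    · intro h
      rw [hN₁.normalizer_eq_of_normal (hchar N₁ hN₁.1) A hA (hAle.trans inf_le_left) h, inf_comm]
    · intro h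
      rw [hN₂.normalizer_eq_of_normal (hchar N₂ hN₂.1) A hA (hAle.trans inf_le_right) h]
  · exact sup_le ((hU₁.core_le hN₁.1).trans (le_inf hU₁.2.1 hU₂.2.1))
      ((hU₂.core_le hN₂.1).trans (le_inf hU₁.2.1 hU₂.2.1))

end Cfsg.Agent.S3751
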