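-- Statement S3754: a p-subgroup A of a p-soluble group M with Φ(A) ≤ O_p(M), A ≰ O_p(M).
import Cfsg.Statements.S3754
import Cfsg.Agent.Helper47.PCl
import Cfsg.Agent.Helper63.HHPSol
import Cfsg.Agent.Helper35.CoprimeGen2
import Cfsg.Agent.Helper35.CoprimeAbelian
import Cfsg.Agent.Helper32.PSolvable
import Cfsg.Agent.Helper2.PGroup
import Cfsg.Agent.Helper62.Subnormal
import Cfsg.Agent.Helper22.Fitting

set_option autoImplicit false
open Cfsg

namespace Cfsg.Agent.S3754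

open scoped commutatorElement

/-- elements of `K ⊔ J` are products when `J` normalizes `K` -/
theorem exists_mul_of_mem_sup' {G : Type*} [Group G] {K J : Subgroup G}
    (hJ : J ≤ Subgroup.normalizer (K : Set G)) {x : G} (hx : x ∈ K ⊔ J) :
    ∃ k ∈ K, ∃ j ∈ J, x = k * j := by
  let M : Subgroup G :=
    { carrier := {x | ∃ k ∈ K, ∃ j ∈ J, x = k * j}
      one_mem' := ⟨1, K.one_mem, 1, J.one_mem, by simp⟩
      mul_mem' := by
        rintro _ _ ⟨k₁, hk₁, j₁, hj₁, rfl⟩ ⟨k₂, hk₂, j₂, hj₂, rfl⟩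
        refine ⟨k₁ * (j₁ * k₂ * j₁⁻¹),
          K.mul_mem hk₁ ((Subgroup.mem_normalizer_iff.1 (hJ hj₁) k₂).1 hk₂),
          j₁ * j₂, J.mul_mem hj₁ hj₂, by group⟩
      inv_mem' := by
        rintro _ ⟨k, hk, j, hj, rfl⟩
        refine ⟨j⁻¹ * k⁻¹ * j⁻¹⁻¹,
          (Subgroup.mem_normalizer_iff.1 (hJ (J.inv_mem hj)) k⁻¹).1 (K.inv_mem hk),
          j⁻¹, J.inv_mem hj, by group⟩ }
  have h : K ⊔ J ≤ M := by
    apply sup_le
    · intro k hk; exact ⟨k, hk, 1, J.one_mem, by simp⟩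
    · intro j hj; exact ⟨1, K.one_mem, j, hj, by simp⟩
  exact h hx

/-- a `p'`-element of `N ⊔ P`, `P` a `p`-group normalizing `N`, lies in `N` -/
theorem mem_of_coprime_of_mem_sup {G : Type*} [Group G] [Finite G] {p : ℕ} [Fact p.Prime]
    (N P : Subgroup G) (hPN : P ≤ Subgroup.normalizer (N : Set G)) (hP : IsPGroup p P) (g : G)
    (hg : g ∈ N ⊔ P) (hcop : (orderOf g).Coprime p) : g ∈ N := by
  obtain ⟨n, hn, u, hu, rfl⟩ := exists_mul_of_mem_sup' hPN hg
  have hpow : ∀ k : ℕ, ∃ n' ∈ N, (n * u) ^ k = n' * u ^ k := by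
    intro k
    induction k with
    | zero => exact ⟨1, N.one_mem, by simp⟩
    | succ k ih =>
      obtain ⟨n', hn', h⟩ := ih
      refine ⟨n' * (u ^ k * n * (u ^ k)⁻¹),
        N.mul_mem hn' ((Subgroup.mem_normalizer_iff.1 (hPN (P.pow_mem hu k)) n).1 hn), ?_⟩
      rw [pow_succ, h, pow_succ]; group
  obtain ⟨j, hj⟩ := hP ⟨u, hu⟩
  have hj' : u ^ p ^ j = 1 := congrArg Subtype.val hj
  obtain ⟨n', hn', h⟩ := hpow (p ^ j)
  rw [hj', mul_one] at h
  have hmem : (n * u) ^ p ^ j ∈ N := h ▸ hn'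
  obtain ⟨m, hm⟩ := exists_pow_eq_self_of_coprime (Nat.Coprime.pow_left j hcop.symm)
  rw [← hm]
  exact N.pow_mem hmem m

/-- a non-trivial element of a group of prime order generates it -/
theorem mem_zpowers_of_prime {G : Type*} [Group G] [Finite G] {p : ℕ} [Fact p.Prime] (a : G)
    (ha : a ^ p = 1) (z : G) (hz : z ∈ Subgroup.zpowers a) (hz1 : z ≠ 1) :
    a ∈ Subgroup.zpowers z := by
  have ha1 : a ≠ 1 := by
    rintro rfl
    rw [Subgroup.zpowers_one_eq_bot, Subgroup.mem_bot] at hz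
    exact hz1 hz
  have hzp : z ^ p = 1 := by
    obtain ⟨i, rfl⟩ := Subgroup.mem_zpowers_iff.1 hz
    rw [← zpow_natCast, ← zpow_mul, mul_comm, zpow_mul, zpow_natCast, ha, one_zpow]
  have hle : Subgroup.zpowers z ≤ Subgroup.zpowers a := Subgroup.zpowers_le.2 hz
  have hcard : Nat.card (Subgroup.zpowers a) ≤ Nat.card (Subgroup.zpowers z) := by
    rw [Nat.card_zpowers, Nat.card_zpowers, orderOf_eq_prime ha ha1, orderOf_eq_prime hzp hz1]
  rw [Subgroup.eq_of_le_of_card_ge hle hcard]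
  exact Subgroup.mem_zpowers a

/-- the order of a product of subgroups with trivial intersection -/
theorem card_sup_of_inf_eq_bot {G : Type*} [Group G] [Finite G] (B Z : Subgroup G)
    (hZB : Z ≤ Subgroup.normalizer (B : Set G)) (h : B ⊓ Z = ⊥) :
    Nat.card ↥(B ⊔ Z) = Nat.card B * Nat.card Z := by
  rw [← Nat.card_prod]
  symm
  apply Nat.card_congr
  refine Equiv.ofBijective (fun bz : ↥B × ↥Z => (⟨(bz.1 : G) * (bz.2 : G),
    (B ⊔ Z).mul_mem (Subgroup.mem_sup_left bz.1.2) (Subgroup.mem_sup_right bz.2.2)⟩ : ↥(B ⊔ Z)))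
    ⟨?_, ?_⟩
  · rintro ⟨b, z⟩ ⟨b', z'⟩ hh
    have h1 : (b : G) * z = b' * z' := congrArg Subtype.val hh
    have h2 : (b' : G)⁻¹ * b = z' * (z : G)⁻¹ := by
      calc (b' : G)⁻¹ * b = (b' : G)⁻¹ * ((b : G) * z) * (z : G)⁻¹ := by group
        _ = z' * (z : G)⁻¹ := by rw [h1]; group
    have h3 : (b' : G)⁻¹ * b ∈ B ⊓ Z :=
      ⟨B.mul_mem (B.inv_mem b'.2) b.2, h2 ▸ Z.mul_mem z'.2 (Z.inv_mem z.2)⟩
    rw [h, Subgroup.mem_bot] at h3
    have hb : (b : G) = b' := by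
      calc (b : G) = b' * ((b' : G)⁻¹ * b) := by group
        _ = b' := by rw [h3, mul_one]
    have hz : (z : G) = z' := by
      have : (b : G) * z = b * z' := by rw [h1, hb]
      exact mul_left_cancel this
    exact Prod.ext (Subtype.ext hb) (Subtype.ext hz)
  · rintro ⟨x, hx⟩
    obtain ⟨b, hb, z, hz, rfl⟩ := exists_mul_of_mem_sup' hZB hx
    exact ⟨(⟨b, hb⟩, ⟨z, hz⟩), rfl⟩

/-- the configuration in the quotient: a hyperplane `B` of `A`, an element `a ∈ A ∖ B`, and a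
`p'`-subgroup `D` centralized by `B`, normalized but not centralized by `a`, with an element
`x ∈ D` such that `D ≤ ⟨a, a^x⟩` -/
theorem exists_config {Q : Type*} [Group Q] [Finite Q] {p : ℕ} [Fact p.Prime]
    (K A : Subgroup Q) [hKn : K.Normal] (hK : (Nat.card K).Coprime p)
    (hCK : Subgroup.centralizer (K : Set Q) ≤ K)
    (hAc : ∀ a ∈ A, ∀ b ∈ A, a * b = b * a) (hAp : ∀ a ∈ A, a ^ p = 1) (hA1 : A ≠ ⊥) :
    ∃ (B : Subgroup Q) (a : Q) (D : Subgroup Q) (x : Q),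
      B ≤ A ∧ a ∈ A ∧ a ∉ B ∧ B ⊔ Subgroup.zpowers a = A ∧
      D ≤ K ∧ D ≤ Subgroup.centralizer (B : Set Q) ∧
      Subgroup.zpowers a ≤ Subgroup.normalizer (D : Set Q) ∧
      ⁅D, Subgroup.zpowers a⁆ ≠ ⊥ ∧ x ∈ D ∧ D ≤ Subgroup.closure {a, x * a * x⁻¹} := by
  have hpp : p.Prime := Fact.out
  have hApg : IsPGroup p A := fun a => ⟨1, Subtype.ext (by simpa using hAp a a.2)⟩
  obtain ⟨k, hk⟩ := (IsPGroup.iff_card).1 hApg
  have hcop : (Nat.card A).Coprime (Nat.card K) := by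
    rw [hk]; exact (Nat.Coprime.pow_right k hK).symm
  have hAK : A ≤ Subgroup.normalizer (K : Set Q) := by
    rw [Subgroup.normalizer_eq_top_iff.2 hKn]; exact le_top
  -- `A` does not centralize `K`
  have hKA : ¬ K ≤ Subgroup.centralizer (A : Set Q) := by
    intro h
    have h1 : A ≤ K := (Subgroup.le_centralizer_iff.1 h).trans hCK
    apply hA1
    rw [eq_bot_iff]
    intro a ha
    have h2 : orderOf a ∣ Nat.card K := by
      have := orderOf_dvd_natCard (⟨a, h1 ha⟩ : ↥K)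
      rwa [Subgroup.orderOf_mk] at this
    have h3 : orderOf a ∣ p := orderOf_dvd_of_pow_eq_one (hAp a ha)
    have h4 : orderOf a = 1 := Nat.eq_one_of_dvd_coprimes hK h2 h3
    exact Subgroup.mem_bot.2 (orderOf_eq_one_iff.1 h4)
  have hgen := Cfsg.Agent.Helper35.coprime_gen_cyclic_quotient hAc hAK hcop
  obtain ⟨B, ⟨hBA, a, haA, hBa⟩, hBnt⟩ : ∃ B ∈ {B : Subgroup Q | B ≤ A ∧ ∃ a ∈ A,
      B ⊔ Subgroup.zpowers a = A}, ¬ K ⊓ Subgroup.centralizer (B : Set Q) ≤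
        Subgroup.centralizer (A : Set Q) := by
    by_contra hcon
    push Not at hcon
    apply hKA
    rw [hgen]
    exact iSup₂_le (fun B hB => hcon B hB)
  set K₀ := K ⊓ Subgroup.centralizer (B : Set Q) with hK₀
  set Z := Subgroup.zpowers a with hZ
  have haB : a ∉ B := by
    intro h
    have h1 : B = A := by
      rw [← hBa]; exact (sup_eq_left.2 (Subgroup.zpowers_le.2 h)).symm
    apply hBnt
    calc K₀ ≤ Subgroup.centralizer (B : Set Q) := inf_le_right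
      _ = Subgroup.centralizer (A : Set Q) := by rw [h1]
  have hZA : Z ≤ A := Subgroup.zpowers_le.2 haA
  have hK₀Z : ⁅K₀, Z⁆ ≠ ⊥ := by
    intro h
    rw [Subgroup.commutator_eq_bot_iff_le_centralizer] at h
    apply hBnt
    rw [Subgroup.le_centralizer_iff, ← hBa]
    exact sup_le (Subgroup.le_centralizer_iff.1 inf_le_right) (Subgroup.le_centralizer_iff.1 h)
  have hAB : A ≤ Subgroup.normalizer (B : Set Q) := by
    refine le_trans ?_ (Subgroup.centralizer_le_normalizer _)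
    intro g hg
    rw [Subgroup.mem_centralizer_iff]
    intro b hb
    exact hAc b (hBA hb) g hg
  have hAK₀ : A ≤ Subgroup.normalizer (K₀ : Set Q) := by
    refine le_trans ?_ Subgroup.inf_normalizer_le_normalizer_inf
    exact le_inf hAK (hAB.trans (Cfsg.Agent.Helper47.normalizer_le_normalizer_centralizer B))
  -- a minimal `a`-invariant subgroup of `K₀` not centralized by `a`
  have hex : ({D : Subgroup Q | D ≤ K₀ ∧ Z ≤ Subgroup.normalizer (D : Set Q) ∧ ⁅D, Z⁆ ≠ ⊥} :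
      Set (Subgroup Q)).Nonempty := ⟨K₀, le_rfl, hZA.trans hAK₀, hK₀Z⟩
  obtain ⟨D, ⟨hDK₀, hZD, hDZ⟩, hDmin⟩ := (wellFounded_lt (α := Subgroup Q)).has_min _ hex
  have hDK : D ≤ K := hDK₀.trans inf_le_left
  have hZp : IsPGroup p Z := hApg.to_le hZA
  obtain ⟨kz, hkz⟩ := (IsPGroup.iff_card).1 hZp
  have hcopD : (Nat.card Z).Coprime (Nat.card D) := by
    rw [hkz]
    exact (Nat.Coprime.pow_right kz
      (Nat.Coprime.coprime_dvd_left (Subgroup.card_dvd_of_le hDK) hK)).symm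
  haveI : IsCyclic Z := by rw [hZ]; infer_instance
  have hsolv : Group.IsSolvable Z ∨ Group.IsSolvable D := Or.inl inferInstance
  have hcc := Cfsg.Agent.Helper35.commutator_commutator_eq_of_coprime hZD hcopD hsolv
  -- an element whose commutator with `a` is not centralized by `a`
  have hexx : ∃ x ∈ D, ¬ (a * ⁅x, a⁆ = ⁅x, a⁆ * a) := by
    by_contra hcon
    push Not at hcon
    apply hDZ
    rw [← hcc, Subgroup.commutator_eq_bot_iff_le_centralizer]
    have hpow : ∀ n : ℕ, ∀ d ∈ D, a * ⁅d, a ^ n⁆ = ⁅d, a ^ n⁆ * a := by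
      intro n
      induction n with
      | zero => intro d _; simp
      | succ n ih =>
        intro d hd
        have e1 : ⁅d, a ^ (n + 1)⁆ = ⁅d, a⁆ * (a * ⁅d, a ^ n⁆ * a⁻¹) := by
          rw [pow_succ']; simp only [commutatorElement_def]; group
        have e2 : a * ⁅d, a ^ n⁆ * a⁻¹ = ⁅d, a ^ n⁆ := by rw [ih d hd]; group
        rw [e1, e2, ← mul_assoc, hcon d hd, mul_assoc, ih d hd, mul_assoc]
    rw [Subgroup.commutator_le]
    intro d hd z hz
    obtain ⟨n, rfl⟩ := (Submonoid.mem_powers_iff _ _).1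
      ((isOfFinOrder_of_finite a).mem_powers_iff_mem_zpowers.2 hz)
    rw [Subgroup.mem_centralizer_iff]
    intro w hw
    obtain ⟨i, rfl⟩ := Subgroup.mem_zpowers_iff.1 hw
    have hc : Commute a ⁅d, a ^ n⁆ := hpow n d hd
    exact (hc.zpow_left i).eq
  obtain ⟨x, hxD, hxa⟩ := hexx
  set La := Subgroup.closure ({a, x * a * x⁻¹} : Set Q) with hLa
  have haLa : a ∈ La := Subgroup.subset_closure (by simp)
  have hcLa : ⁅x, a⁆ ∈ La := by
    have h1 : x * a * x⁻¹ ∈ La := Subgroup.subset_closure (by simp)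
    have h2 : ⁅x, a⁆ = (x * a * x⁻¹) * a⁻¹ := by rw [commutatorElement_def]
    rw [h2]
    exact La.mul_mem h1 (La.inv_mem haLa)
  have hcD : ⁅x, a⁆ ∈ D := by
    have h1 : a * x⁻¹ * a⁻¹ ∈ D :=
      (Subgroup.mem_normalizer_iff.1 (hZD (Subgroup.mem_zpowers a)) x⁻¹).1 (D.inv_mem hxD)
    have h2 : ⁅x, a⁆ = x * (a * x⁻¹ * a⁻¹) := by rw [commutatorElement_def]; group
    rw [h2]
    exact D.mul_mem hxD h1
  have hZLa : Z ≤ Subgroup.normalizer (La : Set Q) :=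
    (Subgroup.zpowers_le.2 haLa).trans Subgroup.le_normalizer
  have hmem : La ⊓ D ∈ {D : Subgroup Q | D ≤ K₀ ∧ Z ≤ Subgroup.normalizer (D : Set Q) ∧
      ⁅D, Z⁆ ≠ ⊥} := by
    refine ⟨inf_le_right.trans hDK₀,
      (le_inf hZLa hZD).trans Subgroup.inf_normalizer_le_normalizer_inf, ?_⟩
    intro h
    rw [Subgroup.commutator_eq_bot_iff_le_centralizer] at h
    have h1 := h (⟨hcLa, hcD⟩ : ⁅x, a⁆ ∈ La ⊓ D)
    rw [Subgroup.mem_centralizer_iff] at h1
    exact hxa (h1 a (Subgroup.mem_zpowers a))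
  have hDLa : D ≤ La := by
    have h1 : ¬ La ⊓ D < D := hDmin _ hmem
    have h2 : La ⊓ D = D := by
      by_contra hne
      exact h1 (lt_of_le_of_ne inf_le_right hne)
    rw [← h2]; exact inf_le_left
  exact ⟨B, a, D, x, hBA, haA, haB, hBa, hDK, hDK₀.trans inf_le_right, hZD, hDZ, hxD, hDLa⟩

/-- the image of `⟨A, A^x⟩` contains `D` -/
theorem D_le_map {M : Type*} [Group M] (A N : Subgroup M) [N.Normal] (a xbar : M ⧸ N)
    (D : Subgroup (M ⧸ N)) (haA : a ∈ A.map (QuotientGroup.mk' N))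
    (hDLa : D ≤ Subgroup.closure {a, xbar * a * xbar⁻¹}) (x : M)
    (hx : QuotientGroup.mk' N x = xbar) :
    D ≤ (A ⊔ A.map (MulAut.conj x).toMonoidHom).map (QuotientGroup.mk' N) := by
  refine hDLa.trans ?_
  rw [Subgroup.closure_le]
  rintro y hy
  rcases hy with rfl | rfl
  · exact Subgroup.map_mono le_sup_left haA
  · obtain ⟨a', ha', rfl⟩ := haA
    refine ⟨x * a' * x⁻¹, Subgroup.mem_sup_right ⟨a', ha', rfl⟩, ?_⟩
    rw [map_mul, map_mul, map_inv, hx]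

/-- the conclusion for a lift `x` of `xbar` lying in `O^p(⟨A, A^x⟩)` -/
theorem final {M : Type*} [Group M] [Finite M] {p : ℕ} [Fact p.Prime] (A : Subgroup M)
    (hA : IsPGroup p A) (O : Subgroup M) [hOn : O.Normal] (hOp : IsPGroup p O) (Bbar : Subgroup (M ⧸ O)) (a : (M ⧸ O)) (D : Subgroup (M ⧸ O)) (xbar : (M ⧸ O))
    (hAc : ∀ a ∈ A.map (QuotientGroup.mk' O), ∀ b ∈ A.map (QuotientGroup.mk' O), a * b = b * a)
    (hAp : ∀ a ∈ A.map (QuotientGroup.mk' O), a ^ p = 1)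
    (hBA : Bbar ≤ A.map (QuotientGroup.mk' O)) (haA : a ∈ A.map (QuotientGroup.mk' O)) (haB : a ∉ Bbar)
    (hBa : Bbar ⊔ Subgroup.zpowers a = A.map (QuotientGroup.mk' O))
    (hDK : D ≤ Cfsg.pPrimeCore p (M ⧸ O)) (hDB : D ≤ Subgroup.centralizer (Bbar : Set (M ⧸ O)))
    (hZD : Subgroup.zpowers a ≤ Subgroup.normalizer (D : Set (M ⧸ O)))
    (hDZ : ⁅D, Subgroup.zpowers a⁆ ≠ ⊥) (hxD : xbar ∈ D)
    (hDLa : D ≤ Subgroup.closure {a, xbar * a * xbar⁻¹})
    (x : M) (hx : (QuotientGroup.mk' O) x = xbar)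
    (hxR : x ∈ (Cfsg.pResidual p ↥(A ⊔ A.map (MulAut.conj x).toMonoidHom)).map (A ⊔ A.map (MulAut.conj x).toMonoidHom).subtype) :
    x ∈ (Cfsg.pPrimeCore p (M ⧸ O)).comap (QuotientGroup.mk' O) ∧
    x ∈ (Cfsg.pResidual p ↥(A ⊔ A.map (MulAut.conj x).toMonoidHom)).map (A ⊔ A.map (MulAut.conj x).toMonoidHom).subtype ∧
    (Cfsg.pResidual p ↥(A ⊔ A.map (MulAut.conj x).toMonoidHom)).map (A ⊔ A.map (MulAut.conj x).toMonoidHom).subtype ≤ (Cfsg.pPrimeCore p (M ⧸ O)).comap (QuotientGroup.mk' O) ∧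
    ⁅(Cfsg.pResidual p ↥(A ⊔ A.map (MulAut.conj x).toMonoidHom)).map (A ⊔ A.map (MulAut.conj x).toMonoidHom).subtype, A⁆ = (Cfsg.pResidual p ↥(A ⊔ A.map (MulAut.conj x).toMonoidHom)).map (A ⊔ A.map (MulAut.conj x).toMonoidHom).subtype ∧
    (A ⊓ (Cfsg.pCore p ↥(A ⊔ A.map (MulAut.conj x).toMonoidHom)).map (A ⊔ A.map (MulAut.conj x).toMonoidHom).subtype).relIndex A = p ∧
    ⁅A ⊓ (Cfsg.pCore p ↥(A ⊔ A.map (MulAut.conj x).toMonoidHom)).map (A ⊔ A.map (MulAut.conj x).toMonoidHom).subtype, (A ⊔ A.map (MulAut.conj x).toMonoidHom)⁆ ≤ O := by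
  classical
  have hpp : p.Prime := Fact.out
  set π := QuotientGroup.mk' O with hπ
  set Kbar := Cfsg.pPrimeCore p (M ⧸ O) with hKbar
  set L := A ⊔ A.map (MulAut.conj x).toMonoidHom with hL
  set R := (Cfsg.pResidual p ↥L).map L.subtype with hR
  set PL := (Cfsg.pCore p ↥L).map L.subtype with hPL
  set Abar := A.map π with hAbar
  set Z := Subgroup.zpowers a with hZ
  haveI hKn : Kbar.Normal := Subgroup.sSup_normal _ (fun _ h => h.1)
  have hKcop : (Nat.card Kbar).Coprime p := Cfsg.Agent.Helper22.card_pPrimeCore_coprime p _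
  have hker : ∀ g : M, π g = 1 ↔ g ∈ O := fun g => QuotientGroup.eq_one_iff g
  have hAL : A ≤ L := le_sup_left
  have hxK : x ∈ Kbar.comap π := Subgroup.mem_comap.2 (by rw [hx]; exact hDK hxD)
  have ha1 : a ≠ 1 := fun h => haB (by rw [h]; exact Bbar.one_mem)
  -- generators of `L`
  have hLgen : ∀ N : Subgroup M, A ≤ N → (∀ a' ∈ A, x * a' * x⁻¹ ∈ N) → L ≤ N := by
    intro N h1 h2
    apply sup_le h1
    rintro _ ⟨a', ha', rfl⟩
    exact h2 a' ha'
  have hRle : ∀ N : Subgroup M, (∀ g ∈ L, (orderOf g).Coprime p → g ∈ N) → R ≤ N := by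
    intro N h
    rw [hR]
    unfold Cfsg.pResidual
    rw [MonoidHom.map_closure, Subgroup.closure_le]
    rintro _ ⟨g, hg, rfl⟩
    exact h g g.2 (by rw [Subgroup.orderOf_coe]; exact hg)
  -- (1b)
  have hRK : R ≤ Kbar.comap π := by
    apply hRle
    intro g hg hcop
    refine mem_of_coprime_of_mem_sup (Kbar.comap π) A ?_ hA g ?_ hcop
    · rw [Subgroup.normalizer_eq_top_iff.2 inferInstance]; exact le_top
    · refine hLgen (Kbar.comap π ⊔ A) le_sup_right (fun a' ha' => ?_) hg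
      have h1 : x * a' * x⁻¹ = (x * (a' * x⁻¹ * a'⁻¹)) * a' := by group
      rw [h1]
      have hn : (Kbar.comap π).Normal := inferInstance
      exact Subgroup.mul_mem _ (Subgroup.mem_sup_left ((Kbar.comap π).mul_mem hxK
        (hn.conj_mem _ ((Kbar.comap π).inv_mem hxK) a'))) (Subgroup.mem_sup_right ha')
  -- (2)
  have hLR : L ≤ Subgroup.normalizer (R : Set M) :=
    Cfsg.Agent.Helper47.le_normalizer_pResidual_map L
  have hAR : A ≤ Subgroup.normalizer (R : Set M) := hAL.trans hLR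
  have hRA_le : ⁅R, A⁆ ≤ R := Cfsg.Agent.Helper35.commutator_le_of_le_normalizer hAR
  have hAnRA : A ≤ Subgroup.normalizer ((⁅R, A⁆ : Subgroup M) : Set M) := by
    apply Cfsg.Agent.Helper62.le_normalizer_of_map_conj_le
    intro b hb
    rw [Subgroup.map_commutator, Cfsg.Agent.Helper62.map_conj_eq_of_mem_normalizer R b (hAR hb),
      Cfsg.Agent.Helper62.map_conj_eq_of_mem_normalizer A b (Subgroup.le_normalizer hb)]
  have hR_le : R ≤ ⁅R, A⁆ := by
    apply hRle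
    intro g hg hcop
    refine mem_of_coprime_of_mem_sup ⁅R, A⁆ A hAnRA hA g ?_ hcop
    refine hLgen (⁅R, A⁆ ⊔ A) le_sup_right (fun a' ha' => ?_) hg
    have h1 : x * a' * x⁻¹ = ⁅x, a'⁆ * a' := by rw [commutatorElement_def]; group
    rw [h1]
    exact Subgroup.mul_mem _ (Subgroup.mem_sup_left (Subgroup.commutator_mem_commutator hxR ha'))
      (Subgroup.mem_sup_right ha')
  -- the image of `L`
  have hBcD : Bbar ≤ Subgroup.centralizer (D : Set (M ⧸ O)) := Subgroup.le_centralizer_iff.1 hDB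
  have hAbarND : Abar ≤ Subgroup.normalizer (D : Set (M ⧸ O)) := by
    rw [← hBa]; exact sup_le (hBcD.trans (Subgroup.centralizer_le_normalizer _)) hZD
  have hAbarCB : Abar ≤ Subgroup.centralizer (Bbar : Set (M ⧸ O)) := by
    intro g hg
    rw [Subgroup.mem_centralizer_iff]
    intro h hh
    exact hAc h (hBA hh) g hg
  have hZB : Z ≤ Subgroup.normalizer (Bbar : Set (M ⧸ O)) :=
    ((Subgroup.zpowers_le.2 haA).trans hAbarCB).trans (Subgroup.centralizer_le_normalizer _)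
  have hπL : ∀ l ∈ L, π l ∈ Subgroup.centralizer (Bbar : Set (M ⧸ O)) ⊓
      Subgroup.normalizer (D : Set (M ⧸ O)) := by
    have h : L ≤ (Subgroup.centralizer (Bbar : Set (M ⧸ O)) ⊓
        Subgroup.normalizer (D : Set (M ⧸ O))).comap π := by
      apply hLgen
      · intro a' ha'
        have h1 : π a' ∈ Abar := Subgroup.mem_map_of_mem π ha'
        exact ⟨hAbarCB h1, hAbarND h1⟩
      · intro a' ha'
        have h1 : π a' ∈ Abar := Subgroup.mem_map_of_mem π ha'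
        have hxin : xbar ∈ Subgroup.centralizer (Bbar : Set (M ⧸ O)) ⊓
            Subgroup.normalizer (D : Set (M ⧸ O)) := ⟨hDB hxD, Subgroup.le_normalizer hxD⟩
        rw [Subgroup.mem_comap, map_mul, map_mul, map_inv, hx]
        exact Subgroup.mul_mem _ (Subgroup.mul_mem _ hxin ⟨hAbarCB h1, hAbarND h1⟩)
          (Subgroup.inv_mem _ hxin)
    exact fun l hl => h hl
  have hDL : ∀ d ∈ D, ∃ l ∈ L, π l = d := by
    intro d hd
    obtain ⟨l, hl, rfl⟩ := D_le_map A O a xbar D haA hDLa x hx hd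
    exact ⟨l, hl, rfl⟩
  -- (3)
  set Bfull := Bbar.comap π with hBfull
  have hBfp : IsPGroup p Bfull := by
    rintro ⟨g, hg⟩
    have h1 : (π g) ^ p = 1 := hAp _ (hBA (Subgroup.mem_comap.1 hg))
    rw [← map_pow, hker] at h1
    obtain ⟨j, hj⟩ := hOp ⟨g ^ p, h1⟩
    have h2 : (g ^ p) ^ p ^ j = 1 := congrArg Subtype.val hj
    refine ⟨j + 1, Subtype.ext ?_⟩
    show g ^ p ^ (j + 1) = 1
    rw [pow_succ', pow_mul]; exact h2
  have hconj : ∀ l ∈ L, ∀ g ∈ Bfull, l * g * l⁻¹ ∈ Bfull := by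
    intro l hl g hg
    show π (l * g * l⁻¹) ∈ Bbar
    rw [map_mul, map_mul, map_inv]
    have h1 : π g ∈ Bbar := hg
    have h2 : π l ∈ Subgroup.centralizer (Bbar : Set (M ⧸ O)) := (hπL l hl).1
    rw [Subgroup.mem_centralizer_iff] at h2
    have h3 : π l * π g * (π l)⁻¹ = π g := by rw [← h2 _ h1]; group
    rw [h3]; exact h1
  have hLN : L ≤ Subgroup.normalizer ((Bfull ⊓ L : Subgroup M) : Set M) := by
    apply Cfsg.Agent.Helper62.le_normalizer_of_map_conj_le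
    intro l hl
    rintro _ ⟨g, ⟨hg1, hg2⟩, rfl⟩
    exact ⟨hconj l hl g hg1, L.mul_mem (L.mul_mem hl hg2) (L.inv_mem hl)⟩
  have hge : A ⊓ Bfull ≤ PL := by
    have h1 : Bfull ⊓ L ≤ Cfsg.pCoreOf p L :=
      Cfsg.Agent.Helper47.le_pCoreOf inf_le_right (hBfp.to_le inf_le_left) hLN
    intro g hg
    exact h1 ⟨hg.2, hAL hg.1⟩
  have hle : A ⊓ PL ≤ Bfull := by
    intro g hg
    have hgA : π g ∈ Abar := Subgroup.mem_map_of_mem π hg.1
    have hcen : π g ∈ Subgroup.centralizer (D : Set (M ⧸ O)) := by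
      rw [Subgroup.mem_centralizer_iff]
      intro d hd
      obtain ⟨l, hl, rfl⟩ := hDL d hd
      have h1 : ⁅g, l⁆ ∈ PL := by
        have hn := Cfsg.Agent.Helper47.le_normalizer_pCoreOf (p := p) L hl
        have h2 : l * g⁻¹ * l⁻¹ ∈ PL :=
          (Subgroup.mem_normalizer_iff.1 hn g⁻¹).1 (PL.inv_mem hg.2)
        have h3 : ⁅g, l⁆ = g * (l * g⁻¹ * l⁻¹) := by rw [commutatorElement_def]; group
        rw [h3]; exact PL.mul_mem hg.2 h2
      have h3 : π ⁅g, l⁆ ∈ D := by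
        rw [map_commutatorElement]
        have hn : π g ∈ Subgroup.normalizer (D : Set (M ⧸ O)) := hAbarND hgA
        have h4 : π g * π l * (π g)⁻¹ ∈ D := (Subgroup.mem_normalizer_iff.1 hn (π l)).1 hd
        have h5 : ⁅π g, π l⁆ = (π g * π l * (π g)⁻¹) * (π l)⁻¹ := by rw [commutatorElement_def]
        rw [h5]; exact D.mul_mem h4 (D.inv_mem hd)
      have h5 : π ⁅g, l⁆ = 1 := by
        obtain ⟨j, hj⟩ := (Cfsg.Agent.Helper47.pCoreOf_isPGroup (p := p) L) ⟨⁅g, l⁆, h1⟩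
        have hj' : ⁅g, l⁆ ^ p ^ j = 1 := congrArg Subtype.val hj
        have h6 : (π ⁅g, l⁆) ^ p ^ j = 1 := by rw [← map_pow, hj', map_one]
        have h7 : orderOf (π ⁅g, l⁆) ∣ Nat.card Kbar := by
          have := orderOf_dvd_natCard (⟨π ⁅g, l⁆, hDK h3⟩ : ↥Kbar)
          rwa [Subgroup.orderOf_mk] at this
        have h8 : orderOf (π ⁅g, l⁆) ∣ p ^ j := orderOf_dvd_of_pow_eq_one h6
        have h9 : orderOf (π ⁅g, l⁆) = 1 :=
          Nat.eq_one_of_dvd_coprimes (Nat.Coprime.pow_right j hKcop) h7 h8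
        exact orderOf_eq_one_iff.1 h9
      rw [map_commutatorElement, commutatorElement_eq_one_iff_commute] at h5
      exact h5.eq.symm
    rw [← hBa] at hgA
    obtain ⟨b, hb, z, hz, hbz⟩ := exists_mul_of_mem_sup' hZB hgA
    have hz1 : z = 1 := by
      by_contra hz1
      have hazp := mem_zpowers_of_prime a (hAp a haA) z hz hz1
      have hzc : z ∈ Subgroup.centralizer (D : Set (M ⧸ O)) := by
        have h1 : z = b⁻¹ * π g := by rw [hbz]; group
        rw [h1]; exact Subgroup.mul_mem _ (Subgroup.inv_mem _ (hBcD hb)) hcen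
      apply hDZ
      rw [Subgroup.commutator_eq_bot_iff_le_centralizer, Subgroup.le_centralizer_iff]
      exact (Subgroup.zpowers_le.2 hazp).trans (Subgroup.zpowers_le.2 hzc)
    show π g ∈ Bbar
    rw [hbz, hz1, mul_one]; exact hb
  have hAB : A ⊓ PL = A ⊓ Bfull :=
    le_antisymm (le_inf inf_le_left hle) (le_inf inf_le_left hge)
  have hindex : (A ⊓ PL).relIndex A = p := by
    rw [hAB, Subgroup.inf_relIndex_left, hBfull, Subgroup.relIndex_comap]
    show Bbar.relIndex Abar = p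
    have h1 : Nat.card Bbar * Bbar.relIndex Abar = Nat.card Abar := by
      have := Subgroup.relIndex_mul_relIndex ⊥ Bbar Abar bot_le hBA
      rwa [Subgroup.relIndex_bot_left, Subgroup.relIndex_bot_left] at this
    have h2 : Nat.card Abar = Nat.card Bbar * p := by
      have hinf : Bbar ⊓ Z = ⊥ := by
        rw [eq_bot_iff]
        intro z hz
        by_contra hz1
        exact haB ((Subgroup.zpowers_le.2 hz.1) (mem_zpowers_of_prime a (hAp a haA) z hz.2
          (fun h => hz1 (Subgroup.mem_bot.2 h))))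
      have h3 := card_sup_of_inf_eq_bot Bbar Z hZB hinf
      rw [hBa] at h3
      rw [h3, Nat.card_zpowers, orderOf_eq_prime (hAp a haA) ha1]
    have hpos : 0 < Nat.card Bbar := Nat.card_pos
    rw [h2] at h1
    exact Nat.eq_of_mul_eq_mul_left hpos h1
  -- (4)
  have hcomm : ⁅A ⊓ PL, L⁆ ≤ O := by
    rw [Subgroup.commutator_le]
    intro b hb l hl
    rw [← hker, map_commutatorElement, commutatorElement_eq_one_iff_commute]
    have h1 : π b ∈ Bbar := hle hb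
    have h2 : π l ∈ Subgroup.centralizer (Bbar : Set (M ⧸ O)) := (hπL l hl).1
    rw [Subgroup.mem_centralizer_iff] at h2
    exact h2 _ h1
  exact ⟨hxK, hxR, hRK, le_antisymm hRA_le hR_le, hindex, hcomm⟩

/-- Let M be a finite p-soluble group and A a p-subgroup of M with Φ(A) ≤ O_p(M) but A ≰ O_p(M). Then there is x ∈ O_{p,p'}(M) such that L = ⟨A, xAx⁻¹⟩ satisfies: x ∈ O^p(L) and O^p(L) ≤ O_{p,p'}(M); [O^p(L), A] = O^p(L); A ∩ O_p(L) has index p in A; and [A ∩ O_p(L), L] ≤ O_p(M). Here O^p(L) is the subgroup generated by the p'-elements of L and O_{p,p'}(M) the preimage of O_{p'}(M/O_p(M)). -/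
theorem result {M : Type*} [Group M] [Finite M] {p : ℕ} [Fact p.Prime] (hM : Cfsg.IsPSolvable p M) (A : Subgroup M) (hA : IsPGroup p A) (hΦ : (frattini ↥A).map A.subtype ≤ Cfsg.pCore p M) (hnot : ¬ A ≤ Cfsg.pCore p M) : ∃ x ∈ (Cfsg.pPrimeCore p (M ⧸ Cfsg.pCore p M)).comap (QuotientGroup.mk' (Cfsg.pCore p M)), x ∈ (Cfsg.pResidual p ↥(A ⊔ A.map (MulAut.conj x).toMonoidHom)).map (A ⊔ A.map (MulAut.conj x).toMonoidHom).subtype ∧ (Cfsg.pResidual p ↥(A ⊔ A.map (MulAut.conj x).toMonoidHom)).map (A ⊔ A.map (MulAut.conj x).toMonoidHom).subtype ≤ (Cfsg.pPrimeCore p (M ⧸ Cfsg.pCore p M)).comap (QuotientGroup.mk' (Cfsg.pCore p M)) ∧ ⁅(Cfsg.pResidual p ↥(A ⊔ A.map (MulAut.conj x).toMonoidHom)).map (A ⊔ A.map (MulAut.conj x).toMonoidHom).subtype, A⁆ = (Cfsg.pResidual p ↥(A ⊔ A.map (MulAut.conj x).toMonoidHom)).map (A ⊔ A.map (MulAut.conj x).toMonoidHom).subtype ∧ (A ⊓ (Cfsg.pCore p ↥(A ⊔ A.map (MulAut.conj x).toMonoidHom)).map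 (A ⊔ A.map (MulAut.conj x).toMonoidHom).subtype).relIndex A = p ∧ ⁅A ⊓ (Cfsg.pCore p ↥(A ⊔ A.map (MulAut.conj x).toMonoidHom)).map (A ⊔ A.map (MulAut.conj x).toMonoidHom).subtype, A ⊔ A.map (MulAut.conj x).toMonoidHom⁆ ≤ Cfsg.pCore p M := by
  classical
  have hpp : p.Prime := Fact.out
  have hOp : IsPGroup p (Cfsg.pCore p M) := Cfsg.Agent.Helper47.pCore_isPGroup p M
  have hker : ∀ g : M, QuotientGroup.mk' (Cfsg.pCore p M) g = 1 ↔ g ∈ Cfsg.pCore p M :=
    fun g => QuotientGroup.eq_one_iff g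
  haveI hKn : (Cfsg.pPrimeCore p (M ⧸ Cfsg.pCore p M)).Normal :=
    Subgroup.sSup_normal _ (fun _ h => h.1)
  have hKcop : (Nat.card (Cfsg.pPrimeCore p (M ⧸ Cfsg.pCore p M))).Coprime p :=
    Cfsg.Agent.Helper22.card_pPrimeCore_coprime p _
  have hQsolv : Cfsg.IsPSolvable p (M ⧸ Cfsg.pCore p M) :=
    Cfsg.Agent.Helper32.isPSolvable_quotient hpp hM (Cfsg.pCore p M)
  have hOpQ : Cfsg.pCore p (M ⧸ Cfsg.pCore p M) = ⊥ :=
    Cfsg.Agent.Helper63.HHP.pCore_quotient_pCore_eq_bot p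
  have hCK := Cfsg.Agent.Helper63.HHP.centralizer_pPrimeCore_le hQsolv hOpQ
  have hfr : ∀ g : ↥A, g ∈ frattini ↥A → QuotientGroup.mk' (Cfsg.pCore p M) (g : M) = 1 :=
    fun g hg => (hker _).2 (hΦ ⟨g, hg, rfl⟩)
  have hAc : ∀ a ∈ A.map (QuotientGroup.mk' (Cfsg.pCore p M)),
      ∀ b ∈ A.map (QuotientGroup.mk' (Cfsg.pCore p M)), a * b = b * a := by
    rintro _ ⟨a, ha, rfl⟩ _ ⟨b, hb, rfl⟩
    have h1 : ⁅(⟨a, ha⟩ : ↥A), ⟨b, hb⟩⁆ ∈ frattini ↥A :=
      Cfsg.Agent.Helper2.commutator_le_frattini_of_isPGroup hA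
        (Subgroup.commutator_mem_commutator (Subgroup.mem_top _) (Subgroup.mem_top _))
    have h3 : QuotientGroup.mk' (Cfsg.pCore p M) ⁅a, b⁆ = 1 := hfr _ h1
    rw [map_commutatorElement, commutatorElement_eq_one_iff_commute] at h3
    exact h3.eq
  have hAp : ∀ a ∈ A.map (QuotientGroup.mk' (Cfsg.pCore p M)), a ^ p = 1 := by
    rintro _ ⟨a, ha, rfl⟩
    have h1 := Cfsg.Agent.Helper2.pow_mem_frattini_of_isPGroup hA (⟨a, ha⟩ : ↥A)
    have h2 : QuotientGroup.mk' (Cfsg.pCore p M) (a ^ p) = 1 := hfr _ h1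
    rw [← map_pow]; exact h2
  have hA1 : A.map (QuotientGroup.mk' (Cfsg.pCore p M)) ≠ ⊥ := by
    intro h
    apply hnot
    intro g hg
    have h1 : QuotientGroup.mk' (Cfsg.pCore p M) g ∈ A.map (QuotientGroup.mk' (Cfsg.pCore p M)) :=
      Subgroup.mem_map_of_mem _ hg
    rw [h, Subgroup.mem_bot] at h1
    exact (hker g).1 h1
  obtain ⟨Bbar, a, D, xbar, hBA, haA, haB, hBa, hDK, hDB, hZD, hDZ, hxD, hDLa⟩ :=
    exists_config (Cfsg.pPrimeCore p (M ⧸ Cfsg.pCore p M))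
      (A.map (QuotientGroup.mk' (Cfsg.pCore p M))) hKcop hCK hAc hAp hA1
  -- a lift of `xbar` with `⟨A, A^x⟩` of least order
  obtain ⟨x₀, hx₀⟩ := QuotientGroup.mk'_surjective (Cfsg.pCore p M) xbar
  obtain ⟨x, hx, hxmin⟩ := (measure (fun x : M =>
    Nat.card ↥(A ⊔ A.map (MulAut.conj x).toMonoidHom))).wf.has_min
      {x : M | QuotientGroup.mk' (Cfsg.pCore p M) x = xbar} ⟨x₀, hx₀⟩
  have hx' : QuotientGroup.mk' (Cfsg.pCore p M) x = xbar := hx
  have hDL := D_le_map A (Cfsg.pCore p M) a xbar D haA hDLa x hx'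
  have hxbarL : xbar ∈ (A ⊔ A.map (MulAut.conj x).toMonoidHom).map
      (QuotientGroup.mk' (Cfsg.pCore p M)) := hDL hxD
  have hcopx : (orderOf xbar).Coprime p := by
    have h7 : orderOf xbar ∣ Nat.card (Cfsg.pPrimeCore p (M ⧸ Cfsg.pCore p M)) := by
      have := orderOf_dvd_natCard
        (⟨xbar, hDK hxD⟩ : ↥(Cfsg.pPrimeCore p (M ⧸ Cfsg.pCore p M)))
      rwa [Subgroup.orderOf_mk] at this
    exact Nat.Coprime.coprime_dvd_left h7 hKcop
  have hres : (⟨xbar, hxbarL⟩ : ↥((A ⊔ A.map (MulAut.conj x).toMonoidHom).map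
      (QuotientGroup.mk' (Cfsg.pCore p M)))) ∈ Cfsg.pResidual p _ :=
    Cfsg.Agent.Helper47.mem_pResidual_of_coprime (by rw [Subgroup.orderOf_mk]; exact hcopx)
  rw [← Cfsg.Agent.Helper47.pResidual_map_of_surjective
    ((QuotientGroup.mk' (Cfsg.pCore p M)).subgroupMap (A ⊔ A.map (MulAut.conj x).toMonoidHom))
    ((QuotientGroup.mk' (Cfsg.pCore p M)).subgroupMap_surjective _)] at hres
  obtain ⟨y', hy', hy'x⟩ := hres
  have hπy : QuotientGroup.mk' (Cfsg.pCore p M) (y' : M) = xbar := congrArg Subtype.val hy'x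
  have hyR : (y' : M) ∈ (Cfsg.pResidual p ↥(A ⊔ A.map (MulAut.conj x).toMonoidHom)).map
      (A ⊔ A.map (MulAut.conj x).toMonoidHom).subtype := ⟨y', hy', rfl⟩
  have hLy_le : A ⊔ A.map (MulAut.conj (y' : M)).toMonoidHom ≤
      A ⊔ A.map (MulAut.conj x).toMonoidHom := by
    apply sup_le le_sup_left
    rintro _ ⟨a', ha', rfl⟩
    exact Subgroup.mul_mem _ (Subgroup.mul_mem _ y'.2 (Subgroup.mem_sup_left ha'))
      (Subgroup.inv_mem _ y'.2)
  have hLy : A ⊔ A.map (MulAut.conj (y' : M)).toMonoidHom =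
      A ⊔ A.map (MulAut.conj x).toMonoidHom := by
    apply Subgroup.eq_of_le_of_card_ge hLy_le
    exact not_lt.1 (hxmin (y' : M) hπy)
  exact ⟨(y' : M), final A hA (Cfsg.pCore p M) hOp Bbar a D xbar hAc hAp hBA haA haB hBa hDK hDB
    hZD hDZ hxD hDLa (y' : M) hπy (by rw [hLy]; exact hyR)⟩

end Cfsg.Agent.S3754
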