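-- Statement S3755: an over-offender on a faithful F₂-module forces a section isomorphic to S₃.
import Cfsg.Statements.S3755
import Cfsg.Agent.Helper35.CoprimeGen2
import Cfsg.Agent.Helper1.PQ
import Cfsg.Agent.Helper22.Fitting

set_option autoImplicit false
open Cfsg

namespace Cfsg.Agent.S3755

/-- the stabilizer of a set under conjugation (in both directions) -/
def conjStab {G : Type*} [Group G] (T : Set G) : Subgroup G where
  carrier := {g | ∀ t ∈ T, g * t * g⁻¹ ∈ T ∧ g⁻¹ * t * g ∈ T}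
  one_mem' := fun t ht => by simpa using ht
  mul_mem' := by
    intro g h hg hh t ht
    constructor
    · have := (hg _ (hh t ht).1).1
      have e : g * h * t * (g * h)⁻¹ = g * (h * t * h⁻¹) * g⁻¹ := by group
      rw [e]; exact this
    · have := (hh _ (hg t ht).2).2
      have e : (g * h)⁻¹ * t * (g * h) = h⁻¹ * (g⁻¹ * t * g) * h := by group
      rw [e]; exact this
  inv_mem' := by
    intro g hg t ht
    constructor
    · have := (hg t ht).2
      rwa [inv_inv]
    · have := (hg t ht).1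
      rwa [inv_inv]

/-- the permutation representation of the stabilizer -/
def conjPerm {G : Type*} [Group G] (T : Set G) : ↥(conjStab T) →* Equiv.Perm ↥T where
  toFun g :=
    { toFun := fun t => ⟨(g : G) * t * (g : G)⁻¹, (g.2 t t.2).1⟩
      invFun := fun t => ⟨(g : G)⁻¹ * t * (g : G), (g.2 t t.2).2⟩
      left_inv := fun t => Subtype.ext (by
        show (g : G)⁻¹ * ((g : G) * t * (g : G)⁻¹) * (g : G) = t
        group)
      right_inv := fun t => Subtype.ext (by
        show (g : G) * ((g : G)⁻¹ * t * (g : G)) * (g : G)⁻¹ = t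
        group) }
  map_one' := by
    ext t
    show ((1 : ↥(conjStab T)) : G) * t * ((1 : ↥(conjStab T)) : G)⁻¹ = t
    simp
  map_mul' := fun g h => by
    ext t
    show ((g * h : ↥(conjStab T)) : G) * t * ((g * h : ↥(conjStab T)) : G)⁻¹ =
      (g : G) * ((h : G) * t * (h : G)⁻¹) * (g : G)⁻¹
    rw [Subgroup.coe_mul]
    group

theorem conjPerm_apply {G : Type*} [Group G] (T : Set G) (g : ↥(conjStab T)) (t : ↥T) :
    ((conjPerm T g t : ↥T) : G) = (g : G) * t * (g : G)⁻¹ := rfl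

/-- a dihedral pair of elements of orders two and three gives a section isomorphic to `S₃` -/
theorem involves_S3 {G : Type*} [Group G] (a y : G) (ha : a * a = 1) (hy : y * y * y = 1)
    (hy1 : y ≠ 1) (hay : a * y * a⁻¹ = y⁻¹) : Cfsg.Involves (Equiv.Perm (Fin 3)) G := by
  have hainv : a⁻¹ = a := inv_eq_of_mul_eq_one_right ha
  have hyinv : y⁻¹ = y * y := inv_eq_of_mul_eq_one_right (by rw [← mul_assoc]; exact hy)
  have hayinv : a * y⁻¹ * a⁻¹ = y := by
    have : a * y⁻¹ * a⁻¹ = (a * y * a⁻¹)⁻¹ := by group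
    rw [this, hay, inv_inv]
  have hyy : y * y ≠ 1 := by
    intro h
    apply hy1
    have := hy
    rw [h, one_mul] at this
    exact this
  set t₁ : G := y * a * y⁻¹ with ht₁
  set t₂ : G := y⁻¹ * a * y with ht₂
  set T : Set G := {a, t₁, t₂} with hT
  -- conjugation table
  have a0 : a * a * a⁻¹ = a := by group
  have a1 : a * t₁ * a⁻¹ = t₂ := by
    have e : a * (y * a * y⁻¹) * a⁻¹ = (a * y * a⁻¹) * a * (a * y⁻¹ * a⁻¹) := by group
    rw [ht₁, ht₂, e, hay, hayinv]
  have a2 : a * t₂ * a⁻¹ = t₁ := by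
    have e : a * (y⁻¹ * a * y) * a⁻¹ = (a * y⁻¹ * a⁻¹) * a * (a * y * a⁻¹) := by group
    rw [ht₁, ht₂, e, hay, hayinv]
  have y0 : y * a * y⁻¹ = t₁ := rfl
  have y1 : y * t₁ * y⁻¹ = t₂ := by
    have e : y * (y * a * y⁻¹) * y⁻¹ = (y * y) * a * (y * y)⁻¹ := by group
    rw [ht₁, ht₂, e, ← hyinv, inv_inv]
  have y2 : y * t₂ * y⁻¹ = a := by rw [ht₂]; group
  have z0 : y⁻¹ * a * y = t₂ := rfl
  have z1 : y⁻¹ * t₁ * y = a := by rw [ht₁]; group
  have z2 : y⁻¹ * t₂ * y = t₁ := by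
    have e : y⁻¹ * (y⁻¹ * a * y) * y = (y * y)⁻¹ * a * (y * y) := by group
    rw [ht₁, ht₂, e, ← hyinv, inv_inv]
  -- distinctness
  have h01 : a ≠ t₁ := by
    intro h
    apply hyy
    have h1 : a * y = y * a := by
      have : a * y = (y * a * y⁻¹) * y := by rw [← ht₁, ← h]
      rw [this]; group
    have h2 : a * y = y⁻¹ * a := by
      have : a * y = (a * y * a⁻¹) * a := by group
      rw [this, hay]
    have h3 : y * a = y⁻¹ * a := h1.symm.trans h2
    have h4 : y = y⁻¹ := mul_right_cancel h3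
    calc y * y = y * y⁻¹ := by rw [← h4]
      _ = 1 := mul_inv_cancel y
  have h02 : a ≠ t₂ := by
    intro h
    apply h01
    have : y * a * y⁻¹ = y * t₂ * y⁻¹ := by rw [← h]
    rw [y0, y2] at this
    exact this.symm
  have h12 : t₁ ≠ t₂ := by
    intro h
    apply h01
    have : y⁻¹ * t₁ * y = y⁻¹ * t₂ * y := by rw [← h]
    rw [z1, z2] at this
    exact this
  have hcardT : Nat.card ↥T = 3 := by
    rw [Nat.card_coe_set_eq, Set.ncard_eq_three]
    exact ⟨a, t₁, t₂, h01, h02, h12, rfl⟩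
  have hmemT : ∀ t, t ∈ T ↔ t = a ∨ t = t₁ ∨ t = t₂ := fun t => Iff.rfl
  have haK : a ∈ conjStab T := by
    intro t ht
    have key : a * t * a⁻¹ ∈ T := by
      rcases (hmemT t).1 ht with h | h | h
      · rw [h, a0]; exact Or.inl rfl
      · rw [h, a1]; exact Or.inr (Or.inr rfl)
      · rw [h, a2]; exact Or.inr (Or.inl rfl)
    have e : a⁻¹ * t * a = a * t * a⁻¹ := by rw [hainv]
    exact ⟨key, by rw [e]; exact key⟩
  have hyK : y ∈ conjStab T := by
    intro t ht
    rcases (hmemT t).1 ht with h | h | h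
    · rw [h, y0, z0]; exact ⟨Or.inr (Or.inl rfl), Or.inr (Or.inr rfl)⟩
    · rw [h, y1, z1]; exact ⟨Or.inr (Or.inr rfl), Or.inl rfl⟩
    · rw [h, y2, z2]; exact ⟨Or.inl rfl, Or.inr (Or.inl rfl)⟩
  haveI hfin : Finite ↥T := Nat.finite_of_card_ne_zero (by rw [hcardT]; norm_num)
  have hcardP : Nat.card (Equiv.Perm ↥T) = 6 := by
    rw [Nat.card_perm, hcardT]; rfl
  haveI hp2 : Fact (Nat.Prime 2) := ⟨Nat.prime_two⟩
  haveI hp3 : Fact (Nat.Prime 3) := ⟨Nat.prime_three⟩
  set ψ := conjPerm T with hψ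
  have ho2 : orderOf (ψ ⟨a, haK⟩) = 2 := by
    apply orderOf_eq_prime
    · rw [← map_pow]
      have : (⟨a, haK⟩ : ↥(conjStab T)) ^ 2 = 1 := Subtype.ext (by
        rw [Subgroup.coe_pow, sq]; exact ha)
      rw [this, map_one]
    · intro hh
      have h1 := congrArg (fun σ : Equiv.Perm ↥T => ((σ ⟨t₁, Or.inr (Or.inl rfl)⟩ : ↥T) : G)) hh
      have h2 : a * t₁ * a⁻¹ = t₁ := h1
      rw [a1] at h2
      exact h12 h2.symm
  have ho3 : orderOf (ψ ⟨y, hyK⟩) = 3 := by
    apply orderOf_eq_prime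
    · rw [← map_pow]
      have : (⟨y, hyK⟩ : ↥(conjStab T)) ^ 3 = 1 := Subtype.ext (by
        rw [Subgroup.coe_pow, pow_succ, sq]; exact hy)
      rw [this, map_one]
    · intro hh
      have h1 := congrArg (fun σ : Equiv.Perm ↥T => ((σ ⟨a, Or.inl rfl⟩ : ↥T) : G)) hh
      have h2 : y * a * y⁻¹ = a := h1
      rw [y0] at h2
      exact h01 h2.symm
  have hdvd : Nat.card ψ.range ∣ 6 := by
    rw [← hcardP]; exact Subgroup.card_subgroup_dvd_card _
  have h2dvd : 2 ∣ Nat.card ψ.range := by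
    have := orderOf_dvd_natCard (⟨ψ ⟨a, haK⟩, MonoidHom.mem_range.mpr ⟨_, rfl⟩⟩ : ψ.range)
    rwa [Subgroup.orderOf_mk, ho2] at this
  have h3dvd : 3 ∣ Nat.card ψ.range := by
    have := orderOf_dvd_natCard (⟨ψ ⟨y, hyK⟩, MonoidHom.mem_range.mpr ⟨_, rfl⟩⟩ : ψ.range)
    rwa [Subgroup.orderOf_mk, ho3] at this
  have h6 : Nat.card ψ.range = 6 :=
    Nat.dvd_antisymm hdvd (Nat.Coprime.mul_dvd_of_dvd_of_dvd (by norm_num) h2dvd h3dvd)
  have htop : ψ.range = ⊤ := Subgroup.eq_top_of_card_eq _ (by rw [h6, hcardP])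
  have hsurj : Function.Surjective ψ := MonoidHom.range_eq_top.mp htop
  -- the section
  have hR : (ψ.ker.map (conjStab T).subtype).subgroupOf (conjStab T) = ψ.ker := by
    ext x
    rw [Subgroup.mem_subgroupOf]
    constructor
    · rintro ⟨z, hz, hzx⟩
      have : z = x := Subtype.ext hzx
      rw [← this]; exact hz
    · intro hx
      exact ⟨x, hx, rfl⟩
  have hn : ((ψ.ker.map (conjStab T).subtype).subgroupOf (conjStab T)).Normal := by
    rw [hR]; exact MonoidHom.normal_ker _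
  refine ⟨conjStab T, ψ.ker.map (conjStab T).subtype, hn, ?_⟩
  have e1 : ↥(conjStab T) ⧸ (ψ.ker.map (conjStab T).subtype).subgroupOf (conjStab T) ≃*
      ↥(conjStab T) ⧸ ψ.ker := QuotientGroup.quotientMulEquivOfEq hR
  have e2 := QuotientGroup.quotientKerEquivOfSurjective ψ hsurj
  have e3 : Equiv.Perm ↥T ≃* Equiv.Perm (Fin 3) :=
    Equiv.permCongrHom ((Finite.equivFin _).trans (finCongr hcardT))
  exact ⟨(e1.trans e2).trans e3⟩

theorem relIndex_ne_zero' {X : Type*} [Group X] [Finite X] (H K : Subgroup X) :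
    H.relIndex K ≠ 0 :=
  (Subgroup.index_ne_zero_of_finite : (H.subgroupOf K).index ≠ 0)

/-- an element acting on an elementary abelian 2-group with at most four cosets of fixed points:
its 48th power acts trivially -/
theorem pow_centralizes {X : Type*} [Group X] [Finite X] (W : Subgroup X)
    (hWc : ∀ u ∈ W, ∀ v ∈ W, u * v = v * u) (hW2 : ∀ u ∈ W, u * u = 1) (y : X)
    (hy : y ∈ Subgroup.normalizer (W : Set X))
    (hidx : (W ⊓ Subgroup.centralizer {y}).relIndex W ≤ 4) :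
    ∀ w ∈ W, y ^ 48 * w = w * y ^ 48 := by
  classical
  have hyW : ∀ w ∈ W, y * w * y⁻¹ ∈ W := fun w hw => (Subgroup.mem_normalizer_iff.mp hy w).mp hw
  have hyW' : ∀ w ∈ W, y⁻¹ * w * y ∈ W := fun w hw => by
    refine (Subgroup.mem_normalizer_iff.mp hy (y⁻¹ * w * y)).mpr ?_
    have e : y * (y⁻¹ * w * y) * y⁻¹ = w := by group
    rw [e]; exact hw
  -- the commutator map
  let δ : ↥W →* ↥W :=
    { toFun := fun w => ⟨(w : X) * (y * (w : X)⁻¹ * y⁻¹), W.mul_mem w.2 (hyW _ (W.inv_mem w.2))⟩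
      map_one' := Subtype.ext (by simp)
      map_mul' := fun w w' => Subtype.ext (by
        show ((w * w' : ↥W) : X) * (y * ((w * w' : ↥W) : X)⁻¹ * y⁻¹) =
          (w : X) * (y * (w : X)⁻¹ * y⁻¹) * ((w' : X) * (y * (w' : X)⁻¹ * y⁻¹))
        rw [Subgroup.coe_mul]
        have h1 := hWc _ (hyW _ (W.inv_mem w'.2)) _ (hyW _ (W.inv_mem w.2))
        have h2 := hWc _ w'.2 _ (hyW _ (W.inv_mem w.2))
        calc (w : X) * w' * (y * ((w : X) * w')⁻¹ * y⁻¹)
            = (w : X) * w' * ((y * (w' : X)⁻¹ * y⁻¹) * (y * (w : X)⁻¹ * y⁻¹)) := by group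
          _ = (w : X) * w' * ((y * (w : X)⁻¹ * y⁻¹) * (y * (w' : X)⁻¹ * y⁻¹)) := by rw [h1]
          _ = (w : X) * ((w' : X) * (y * (w : X)⁻¹ * y⁻¹)) * (y * (w' : X)⁻¹ * y⁻¹) := by
            simp only [mul_assoc]
          _ = (w : X) * ((y * (w : X)⁻¹ * y⁻¹) * (w' : X)) * (y * (w' : X)⁻¹ * y⁻¹) := by rw [h2]
          _ = (w : X) * (y * (w : X)⁻¹ * y⁻¹) * ((w' : X) * (y * (w' : X)⁻¹ * y⁻¹)) := by
            simp only [mul_assoc]) }
  have hδ : ∀ w : ↥W, ((δ w : ↥W) : X) = (w : X) * (y * (w : X)⁻¹ * y⁻¹) := fun w => rfl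
  have hker : δ.ker = (Subgroup.centralizer ({y} : Set X)).subgroupOf W := by
    ext w
    rw [MonoidHom.mem_ker, Subgroup.mem_subgroupOf, Subgroup.mem_centralizer_iff]
    constructor
    · intro h z hz
      rw [Set.mem_singleton_iff] at hz
      subst hz
      have h1 : (w : X) * (z * (w : X)⁻¹ * z⁻¹) = 1 := by
        have := congrArg Subtype.val h
        rw [hδ] at this
        exact this
      have h2 : z * (w : X) = (w : X) * (z * (w : X)⁻¹ * z⁻¹) * (z * (w : X)) := by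
        rw [h1, one_mul]
      rw [h2]; group
    · intro h
      apply Subtype.ext
      rw [hδ]
      have h1 := h y rfl
      show (w : X) * (y * (w : X)⁻¹ * y⁻¹) = 1
      have h2 : (w : X) * (y * (w : X)⁻¹ * y⁻¹) = (w : X) * y * ((y * (w : X))⁻¹) := by group
      rw [h2, h1]; group
  have hcard : Nat.card δ.range ≤ 4 := by
    rw [← Subgroup.index_ker, hker]
    have : ((Subgroup.centralizer ({y} : Set X)).subgroupOf W).index =
        (W ⊓ Subgroup.centralizer {y}).relIndex W := by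
      rw [Subgroup.inf_relIndex_left]; rfl
    rw [this]; exact hidx
  -- conjugation by `y` on the range
  have hθ : ∀ w : ↥W, (⟨y * (δ w : ↥W) * y⁻¹, hyW _ (δ w).2⟩ : ↥W) =
      δ ⟨y * w * y⁻¹, hyW _ w.2⟩ := by
    intro w
    apply Subtype.ext
    show y * ((w : X) * (y * (w : X)⁻¹ * y⁻¹)) * y⁻¹ =
      (y * (w : X) * y⁻¹) * (y * (y * (w : X) * y⁻¹)⁻¹ * y⁻¹)
    group
  have hθ' : ∀ w : ↥W, (⟨y⁻¹ * (δ w : ↥W) * y, hyW' _ (δ w).2⟩ : ↥W) =
      δ ⟨y⁻¹ * w * y, hyW' _ w.2⟩ := by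
    intro w
    apply Subtype.ext
    show y⁻¹ * ((w : X) * (y * (w : X)⁻¹ * y⁻¹)) * y =
      (y⁻¹ * (w : X) * y) * (y * (y⁻¹ * (w : X) * y)⁻¹ * y⁻¹)
    group
  let σ : Equiv.Perm ↥δ.range :=
    { toFun := fun u => ⟨⟨y * ((u : ↥W) : X) * y⁻¹, hyW _ (u : ↥W).2⟩, by
        obtain ⟨w, hw⟩ := u.2
        exact ⟨_, (hθ w).symm.trans (Subtype.ext (by rw [hw]))⟩⟩
      invFun := fun u => ⟨⟨y⁻¹ * ((u : ↥W) : X) * y, hyW' _ (u : ↥W).2⟩, by
        obtain ⟨w, hw⟩ := u.2
        exact ⟨_, (hθ' w).symm.trans (Subtype.ext (by rw [hw]))⟩⟩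
      left_inv := fun u => Subtype.ext (Subtype.ext (by
        show y⁻¹ * (y * ((u : ↥W) : X) * y⁻¹) * y = ((u : ↥W) : X)
        group))
      right_inv := fun u => Subtype.ext (Subtype.ext (by
        show y * (y⁻¹ * ((u : ↥W) : X) * y) * y⁻¹ = ((u : ↥W) : X)
        group)) }
  have hσ1 : ∀ u : ↥δ.range, (((σ u : ↥δ.range) : ↥W) : X) = y * ((u : ↥W) : X) * y⁻¹ :=
    fun u => rfl
  have hσ : ∀ (n : ℕ) (u : ↥δ.range),
      ((((σ ^ n) u : ↥δ.range) : ↥W) : X) = y ^ n * ((u : ↥W) : X) * (y ^ n)⁻¹ := by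
    intro n
    induction n with
    | zero => intro u; simp
    | succ n ih =>
      intro u
      rw [pow_succ', Equiv.Perm.mul_apply, hσ1, ih, pow_succ']
      group
  have hσ24 : σ ^ 24 = 1 := by
    haveI : Finite ↥δ.range := inferInstance
    have h1 : σ ^ Nat.card (Equiv.Perm ↥δ.range) = 1 := pow_card_eq_one'
    rw [Nat.card_perm] at h1
    have h2 : (Nat.card ↥δ.range).factorial ∣ (4 : ℕ).factorial :=
      Nat.factorial_dvd_factorial hcard
    obtain ⟨c, hc⟩ := h2
    have h3 : (24 : ℕ) = (Nat.card ↥δ.range).factorial * c := by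
      rw [← hc]; rfl
    rw [h3, pow_mul, h1, one_pow]
  have hU : ∀ (n : ℕ) (w : ↥W), ∃ u : ↥δ.range,
      ((u : ↥W) : X) = (w : X) * (y ^ n * (w : X)⁻¹ * (y ^ n)⁻¹) := by
    intro n
    induction n with
    | zero => intro w; exact ⟨1, by simp⟩
    | succ n ih =>
      intro w
      obtain ⟨u, hu⟩ := ih w
      refine ⟨⟨δ w, ⟨w, rfl⟩⟩ * σ u, ?_⟩
      show ((δ w : ↥W) : X) * (((σ u : ↥δ.range) : ↥W) : X) = _
      rw [hδ, hσ1, hu, pow_succ']
      group
  intro w hw
  obtain ⟨u, hu⟩ := hU 24 ⟨w, hw⟩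
  have hzu : y ^ 24 * ((u : ↥W) : X) * (y ^ 24)⁻¹ = ((u : ↥W) : X) := by
    rw [← hσ 24 u, hσ24]; rfl
  have hUU : ((u : ↥W) : X) * ((u : ↥W) : X) = 1 := hW2 _ (u : ↥W).2
  have e48 : y ^ 48 = y ^ 24 * y ^ 24 := by rw [← pow_add]
  rw [e48]
  generalize ((u : ↥W) : X) = U at hu hzu hUU
  generalize y ^ 24 = z at hu hzu
  have h1 : z * w * z⁻¹ = U⁻¹ * w := by rw [hu]; group
  calc z * z * w = z * (z * w * z⁻¹) * z := by group
    _ = z * (U⁻¹ * w) * z := by rw [h1]
    _ = (z * U * z⁻¹)⁻¹ * (z * w * z⁻¹) * (z * z) := by group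
    _ = U⁻¹ * (U⁻¹ * w) * (z * z) := by rw [hzu, h1]
    _ = (U * U)⁻¹ * w * (z * z) := by group
    _ = w * (z * z) := by rw [hUU, inv_one, one_mul]

/-- the index bound coming from the dihedral structure -/
theorem relIndex_le_four {X : Type*} [Group X] [Finite X] (W : Subgroup X) (a y : X)
    (ha : a * a = 1) (hay : a * y * a⁻¹ = y⁻¹) (m : ℕ) (hm : Odd m) (hym : y ^ m = 1)
    (hyW : y ∈ Subgroup.normalizer (W : Set X))
    (hidx : (W ⊓ Subgroup.centralizer {a}).relIndex W ≤ 2) :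
    (W ⊓ Subgroup.centralizer {y}).relIndex W ≤ 4 := by
  have hainv : a⁻¹ = a := inv_eq_of_mul_eq_one_right ha
  -- the conjugate involution
  have hmap : (W ⊓ Subgroup.centralizer {a}).map (MulAut.conj y).toMonoidHom ≤
      W ⊓ Subgroup.centralizer {y * a * y⁻¹} := by
    rintro _ ⟨x, hx, rfl⟩
    obtain ⟨hxW, hxa⟩ := Subgroup.mem_inf.1 hx
    refine Subgroup.mem_inf.2 ⟨(Subgroup.mem_normalizer_iff.mp hyW x).mp hxW, ?_⟩
    rw [Subgroup.mem_centralizer_iff] at hxa ⊢
    intro z hz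
    rw [Set.mem_singleton_iff] at hz
    subst hz
    have h1 := hxa a rfl
    show y * a * y⁻¹ * (y * x * y⁻¹) = y * x * y⁻¹ * (y * a * y⁻¹)
    have e1 : y * a * y⁻¹ * (y * x * y⁻¹) = y * (a * x) * y⁻¹ := by group
    have e2 : y * x * y⁻¹ * (y * a * y⁻¹) = y * (x * a) * y⁻¹ := by group
    rw [e1, e2, h1]
  have hWmap : W.map (MulAut.conj y).toMonoidHom = W := by
    ext x
    constructor
    · rintro ⟨w, hw, rfl⟩
      exact (Subgroup.mem_normalizer_iff.mp hyW w).mp hw
    · intro hx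
      refine ⟨y⁻¹ * x * y, ?_, ?_⟩
      · refine (Subgroup.mem_normalizer_iff.mp hyW (y⁻¹ * x * y)).mpr ?_
        have e : y * (y⁻¹ * x * y) * y⁻¹ = x := by group
        rw [e]; exact hx
      · show y * (y⁻¹ * x * y) * y⁻¹ = x
        group
  have h2 : (W ⊓ Subgroup.centralizer {y * a * y⁻¹}).relIndex W ≤ 2 := by
    have h3 := Subgroup.relIndex_dvd_of_le_left W hmap
    have h4 : ((W ⊓ Subgroup.centralizer {a}).map (MulAut.conj y).toMonoidHom).relIndex W =
        (W ⊓ Subgroup.centralizer {a}).relIndex W := by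
      have h5 := Subgroup.relIndex_map_map_of_injective (f := (MulAut.conj y).toMonoidHom)
        (W ⊓ Subgroup.centralizer {a}) W (MulAut.conj y).injective
      rw [hWmap] at h5
      exact h5
    rw [h4] at h3
    exact le_trans (Nat.le_of_dvd (Nat.pos_of_ne_zero (relIndex_ne_zero' _ _)) h3) hidx
  have h5 : (W ⊓ Subgroup.centralizer {a}) ⊓ (W ⊓ Subgroup.centralizer {y * a * y⁻¹}) ≤
      W ⊓ Subgroup.centralizer {y} := by
    intro x hx
    obtain ⟨hx1, hx2⟩ := Subgroup.mem_inf.1 hx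
    obtain ⟨hxW, hxa⟩ := Subgroup.mem_inf.1 hx1
    obtain ⟨-, hxa'⟩ := Subgroup.mem_inf.1 hx2
    refine Subgroup.mem_inf.2 ⟨hxW, ?_⟩
    rw [Subgroup.mem_centralizer_iff] at hxa hxa' ⊢
    have c1 := hxa a rfl
    have c2 := hxa' _ rfl
    -- x commutes with y⁻¹ * y⁻¹
    have e : a * (y * a * y⁻¹) = y⁻¹ * y⁻¹ := by
      have : a * (y * a * y⁻¹) = (a * y * a⁻¹) * y⁻¹ := by rw [hainv]; group
      rw [this, hay]
    have c3 : y⁻¹ * y⁻¹ * x = x * (y⁻¹ * y⁻¹) := by
      rw [← e]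
      calc a * (y * a * y⁻¹) * x = a * ((y * a * y⁻¹) * x) := by group
        _ = a * (x * (y * a * y⁻¹)) := by rw [c2]
        _ = (a * x) * (y * a * y⁻¹) := by group
        _ = (x * a) * (y * a * y⁻¹) := by rw [c1]
        _ = x * (a * (y * a * y⁻¹)) := by group
    have c4 : Commute (y ^ 2) x := by
      have : Commute (y⁻¹ * y⁻¹) x := c3
      have h6 := this.inv_left
      have e2 : (y⁻¹ * y⁻¹)⁻¹ = y ^ 2 := by group
      rwa [e2] at h6
    intro z hz
    rw [Set.mem_singleton_iff] at hz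
    subst hz
    obtain ⟨j, hj⟩ := hm
    have e3 : z = (z ^ 2) ^ (j + 1) := by
      rw [← pow_mul]
      have : 2 * (j + 1) = m + 1 := by omega
      rw [this, pow_succ, hym, one_mul]
    have := (c4.pow_left (j + 1)).eq
    rw [← e3] at this
    exact this
  have h6 := Subgroup.relIndex_dvd_of_le_left W h5
  have h7 := Subgroup.relIndex_inf_le (H := W ⊓ Subgroup.centralizer {a})
    (K := W ⊓ Subgroup.centralizer {y * a * y⁻¹}) (L := W)
  have h8 : (W ⊓ Subgroup.centralizer {a}).relIndex W *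
      (W ⊓ Subgroup.centralizer {y * a * y⁻¹}).relIndex W ≤ 4 := by
    calc _ ≤ 2 * 2 := Nat.mul_le_mul hidx h2
      _ = 4 := rfl
  exact le_trans (Nat.le_of_dvd (Nat.pos_of_ne_zero (relIndex_ne_zero' _ _)) h6) (le_trans h7 h8)

theorem card_eq_mul_relIndex {X : Type*} [Group X] {H K : Subgroup X} (h : H ≤ K) :
    Nat.card K = Nat.card H * H.relIndex K := by
  have := Subgroup.relIndex_mul_relIndex ⊥ H K bot_le h
  rw [Subgroup.relIndex_bot_left, Subgroup.relIndex_bot_left] at this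
  exact this.symm

/-- Let M and V be subgroups of a finite group with V an elementary abelian 2-group, M normalizing V and acting faithfully on it (M ∩ C(V) = 1), and C_M(O_{2'}(M)) ≤ O_{2'}(M). If some elementary abelian 2-subgroup A of M satisfies |V : C_V(A)| < |A|², then M has a section isomorphic to the symmetric group of degree 3. -/
theorem result {X : Type*} [Group X] [Finite X] (M V : Subgroup X) (hV : Cfsg.IsElementaryAbelian 2 V) (hMV : M ≤ Subgroup.normalizer (V : Set X)) (hfaith : M ⊓ Subgroup.centralizer (V : Set X) = ⊥) (hcon : Subgroup.centralizer (Cfsg.pPrimeCore 2 ↥M : Set ↥M) ≤ Cfsg.pPrimeCore 2 ↥M) (A : Subgroup X) (hAM : A ≤ M) (hA : Cfsg.IsElementaryAbelian 2 A) (hsmall : (V ⊓ Subgroup.centralizer (A : Set X)).relIndex V < Nat.card A ^ 2) : Cfsg.Involves (Equiv.Perm (Fin 3)) ↥M := by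
  classical
  haveI : Fact (Nat.Prime 2) := ⟨Nat.prime_two⟩
  -- a minimal counterexample `A`
  have hex : ∃ n : ℕ, ∃ A : Subgroup X, Nat.card A = n ∧ A ≤ M ∧ Cfsg.IsElementaryAbelian 2 A ∧
      (V ⊓ Subgroup.centralizer (A : Set X)).relIndex V < Nat.card A ^ 2 :=
    ⟨_, A, rfl, hAM, hA, hsmall⟩
  clear hsmall hA hAM A
  obtain ⟨A, hAn, hAM, hA, hsmall⟩ := Nat.find_spec hex
  have hmin : ∀ B : Subgroup X, Nat.card B < Nat.card A → B ≤ M → Cfsg.IsElementaryAbelian 2 B →
      Nat.card B ^ 2 ≤ (V ⊓ Subgroup.centralizer (B : Set X)).relIndex V := by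
    intro B hlt hBM hB
    by_contra hcon'
    push Not at hcon'
    rw [hAn] at hlt
    exact Nat.find_min hex hlt ⟨B, rfl, hBM, hB, hcon'⟩
  obtain ⟨hAc, hA2⟩ := hA
  have hAcomm : ∀ a ∈ A, ∀ b ∈ A, a * b = b * a := by
    intro a ha b hb
    have := hAc.is_comm.comm (⟨a, ha⟩ : ↥A) ⟨b, hb⟩
    exact congrArg Subtype.val this
  obtain ⟨hVc, hV2⟩ := hV
  have hVcomm : ∀ a ∈ V, ∀ b ∈ V, a * b = b * a := by
    intro a ha b hb
    have := hVc.is_comm.comm (⟨a, ha⟩ : ↥V) ⟨b, hb⟩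
    exact congrArg Subtype.val this
  have hV2group : IsPGroup 2 ↥V := fun g => ⟨1, Subtype.ext (by
    rw [pow_one, Subgroup.coe_pow]; exact hV2 g g.2)⟩
  have hA2group : IsPGroup 2 ↥A := fun g => ⟨1, Subtype.ext (by
    rw [pow_one, Subgroup.coe_pow]; exact hA2 g g.2)⟩
  -- the odd core
  have hKn : (Cfsg.pPrimeCore 2 ↥M).Normal := Subgroup.sSup_normal _ (fun H hH => hH.1)
  set K : Subgroup X := (Cfsg.pPrimeCore 2 ↥M).map M.subtype with hK
  have hKM : K ≤ M := Subgroup.map_subtype_le _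
  have hKodd : (Nat.card K).Coprime 2 := by
    rw [hK, Subgroup.card_map_of_injective M.subtype_injective]
    exact Cfsg.Agent.Helper22.card_pPrimeCore_coprime 2 ↥M
  have hKconj : ∀ m ∈ M, ∀ k ∈ K, m * k * m⁻¹ ∈ K := by
    rintro m hm _ ⟨k, hk, rfl⟩
    exact ⟨_, hKn.conj_mem k hk ⟨m, hm⟩, rfl⟩
  have hMK : M ≤ Subgroup.normalizer (K : Set X) := by
    intro m hm
    rw [Subgroup.mem_normalizer_iff]
    intro x
    constructor
    · exact hKconj m hm x
    · intro h
      have := hKconj m⁻¹ (M.inv_mem hm) _ h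
      have e : m⁻¹ * (m * x * m⁻¹) * m⁻¹⁻¹ = x := by group
      rwa [e] at this
  have hAK : A ≤ Subgroup.normalizer (K : Set X) := hAM.trans hMK
  have hcop : (Nat.card A).Coprime (Nat.card K) := by
    obtain ⟨j, hj⟩ := (IsPGroup.iff_card (p := 2)).1 hA2group
    rw [hj]
    exact Nat.Coprime.pow_left j hKodd.symm
  have hAne : A ≠ ⊥ := by
    rintro rfl
    rw [Subgroup.card_bot, one_pow, Nat.lt_one_iff] at hsmall
    exact relIndex_ne_zero' _ _ hsmall
  have hnotcent : ¬ K ≤ Subgroup.centralizer (A : Set X) := by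
    intro hKA
    apply hAne
    rw [eq_bot_iff]
    intro a ha
    have h1 : (⟨a, hAM ha⟩ : ↥M) ∈ Subgroup.centralizer (Cfsg.pPrimeCore 2 ↥M : Set ↥M) := by
      rw [Subgroup.mem_centralizer_iff]
      intro k hk
      apply Subtype.ext
      have hkK : (k : X) ∈ K := Subgroup.mem_map_of_mem _ hk
      have := hKA hkK
      rw [Subgroup.mem_centralizer_iff] at this
      exact (this a ha).symm
    have h2 := hcon h1
    have h3 : a ∈ K := ⟨_, h2, rfl⟩
    have h4 : orderOf a ∣ 2 := orderOf_dvd_of_pow_eq_one (hA2 a ha)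
    have h5 : orderOf a ∣ Nat.card K := by
      have := orderOf_dvd_natCard (⟨a, h3⟩ : ↥K)
      rwa [Subgroup.orderOf_mk] at this
    have h6 := Nat.dvd_gcd h5 h4
    rw [hKodd.gcd_eq_one, Nat.dvd_one, orderOf_eq_one_iff] at h6
    rw [Subgroup.mem_bot]; exact h6
  -- coprime generation
  have hgen := Cfsg.Agent.Helper35.coprime_gen_cyclic_quotient hAcomm hAK hcop
  have hex2 : ∃ B : Subgroup X, B ≤ A ∧ (∃ a ∈ A, B ⊔ Subgroup.zpowers a = A) ∧
      ¬ (K ⊓ Subgroup.centralizer (B : Set X) ≤ Subgroup.centralizer (A : Set X)) := by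
    by_contra hcon'
    push Not at hcon'
    apply hnotcent
    rw [hgen]
    exact iSup₂_le (fun B hB => hcon' B hB.1 hB.2)
  obtain ⟨B, hBA, ⟨a, haA, hBa⟩, hBnot⟩ := hex2
  obtain ⟨k, hk, hkA⟩ := SetLike.not_le_iff_exists.1 hBnot
  obtain ⟨hkK, hkB⟩ := Subgroup.mem_inf.1 hk
  have hak : a * k ≠ k * a := by
    intro h
    apply hkA
    have h1 : B ⊔ Subgroup.zpowers a ≤ Subgroup.centralizer ({k} : Set X) := by
      apply sup_le
      · intro b hb
        rw [Subgroup.mem_centralizer_iff]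
        intro z hz
        rw [Set.mem_singleton_iff] at hz
        subst hz
        exact ((Subgroup.mem_centralizer_iff.1 hkB) b hb).symm
      · rw [Subgroup.zpowers_le, Subgroup.mem_centralizer_iff]
        intro z hz
        rw [Set.mem_singleton_iff] at hz
        subst hz
        exact h.symm
    rw [hBa] at h1
    rw [Subgroup.mem_centralizer_iff]
    intro x hx
    have := h1 hx
    rw [Subgroup.mem_centralizer_iff] at this
    exact (this k rfl).symm
  have haB : a ∉ B := fun h => hak ((Subgroup.mem_centralizer_iff.1 hkB) a h)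
  have ha2 : a * a = 1 := by rw [← sq]; exact hA2 a haA
  have hainv : a⁻¹ = a := inv_eq_of_mul_eq_one_right ha2
  -- `B` has index two in `A`
  have hcov : ∀ x ∈ A, x ∈ B ∨ x * a ∈ B := by
    let S : Subgroup X :=
      { carrier := {x | x ∈ A ∧ (x ∈ B ∨ x * a ∈ B)}
        one_mem' := ⟨A.one_mem, Or.inl B.one_mem⟩
        mul_mem' := by
          rintro x x' ⟨hxA, hx⟩ ⟨hx'A, hx'⟩
          refine ⟨A.mul_mem hxA hx'A, ?_⟩
          have hc : x' * a = a * x' := hAcomm x' hx'A a haA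
          rcases hx with hx | hx <;> rcases hx' with hx' | hx'
          · exact Or.inl (B.mul_mem hx hx')
          · right
            have := B.mul_mem hx hx'
            rwa [← mul_assoc] at this
          · right
            have := B.mul_mem hx hx'
            have e : x * a * x' = x * x' * a := by rw [mul_assoc, ← hc, ← mul_assoc]
            rwa [e] at this
          · left
            have := B.mul_mem hx hx'
            have e : x * a * (x' * a) = x * x' := by
              calc x * a * (x' * a) = x * (a * x') * a := by group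
                _ = x * (x' * a) * a := by rw [hc]
                _ = x * x' * (a * a) := by group
                _ = x * x' := by rw [ha2, mul_one]
            rwa [e] at this
        inv_mem' := by
          rintro x ⟨hxA, hx⟩
          refine ⟨A.inv_mem hxA, ?_⟩
          rcases hx with hx | hx
          · exact Or.inl (B.inv_mem hx)
          · right
            have := B.inv_mem hx
            have hc : x⁻¹ * a = a * x⁻¹ := hAcomm x⁻¹ (A.inv_mem hxA) a haA
            have e : (x * a)⁻¹ = x⁻¹ * a := by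
              rw [mul_inv_rev, hainv, hc]
            rwa [e] at this }
    have hS : B ⊔ Subgroup.zpowers a ≤ S := by
      apply sup_le
      · intro b hb
        exact ⟨hBA hb, Or.inl hb⟩
      · rw [Subgroup.zpowers_le]
        exact ⟨haA, Or.inr (by rw [ha2]; exact B.one_mem)⟩
    intro x hx
    have hx' : x ∈ B ⊔ Subgroup.zpowers a := by rw [hBa]; exact hx
    exact (hS hx').2
  have hrelBA : B.relIndex A = 2 := by
    show (B.subgroupOf A).index = 2
    rw [Subgroup.index_eq_two_iff]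
    refine ⟨⟨a, haA⟩, fun b => ?_⟩
    have h1 : (b * ⟨a, haA⟩ ∈ B.subgroupOf A) ↔ (b : X) * a ∈ B := Subgroup.mem_subgroupOf
    have h2 : (b ∈ B.subgroupOf A) ↔ (b : X) ∈ B := Subgroup.mem_subgroupOf
    rw [h1, h2]
    rcases hcov b b.2 with h | h
    · right
      refine ⟨h, fun h' => haB ?_⟩
      have := B.mul_mem (B.inv_mem h) h'
      simpa using this
    · left
      refine ⟨h, fun h' => haB ?_⟩
      have := B.mul_mem (B.inv_mem h') h
      simpa using this
  have hcardA : Nat.card A = Nat.card B * 2 := by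
    rw [card_eq_mul_relIndex hBA, hrelBA]
  -- the index of `C_V(A)` in `C_V(B)`
  have hBM : B ≤ M := hBA.trans hAM
  have hB : Cfsg.IsElementaryAbelian 2 B :=
    ⟨⟨⟨fun x y => Subtype.ext (hAcomm x (hBA x.2) y (hBA y.2))⟩⟩, fun b hb => hA2 b (hBA hb)⟩
  have hBlt : Nat.card B < Nat.card A := by
    rw [hcardA]
    have := Nat.card_pos (α := ↥B)
    omega
  have hBbig := hmin B hBlt hBM hB
  set W : Subgroup X := V ⊓ Subgroup.centralizer (B : Set X) with hW
  have hCAW : V ⊓ Subgroup.centralizer (A : Set X) ≤ W :=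
    inf_le_inf_left V (Subgroup.centralizer_le hBA)
  have hchain := Subgroup.relIndex_mul_relIndex (V ⊓ Subgroup.centralizer (A : Set X)) W V hCAW
    inf_le_left
  have hr4 : (V ⊓ Subgroup.centralizer (A : Set X)).relIndex W < 4 := by
    by_contra h
    push Not at h
    have h1 : 4 * Nat.card B ^ 2 ≤
        (V ⊓ Subgroup.centralizer (A : Set X)).relIndex W * W.relIndex V := Nat.mul_le_mul h hBbig
    rw [hchain] at h1
    rw [hcardA] at hsmall
    have e : (Nat.card B * 2) ^ 2 = 4 * Nat.card B ^ 2 := by ring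
    omega
  have hr2 : (V ⊓ Subgroup.centralizer (A : Set X)).relIndex W ≤ 2 := by
    have h1 : (V ⊓ Subgroup.centralizer (A : Set X)).relIndex W ∣ Nat.card W :=
      Subgroup.relIndex_dvd_card _ _
    have h2 : Nat.card W ∣ Nat.card V := Subgroup.card_dvd_of_le inf_le_left
    obtain ⟨n, hn⟩ := (IsPGroup.iff_card (p := 2)).1 hV2group
    rw [hn] at h2
    obtain ⟨j, -, hj⟩ := (Nat.dvd_prime_pow Nat.prime_two).1 (h1.trans h2)
    rw [hj] at hr4 ⊢
    have hj2 : j < 2 := by
      by_contra hj2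
      push Not at hj2
      have := Nat.pow_le_pow_right (show 0 < 2 by norm_num) hj2
      omega
    interval_cases j <;> simp
  have hidxa : (W ⊓ Subgroup.centralizer {a}).relIndex W ≤ 2 := by
    have h1 : V ⊓ Subgroup.centralizer (A : Set X) ≤ W ⊓ Subgroup.centralizer {a} := by
      apply le_inf hCAW
      exact inf_le_right.trans (Subgroup.centralizer_le (by simpa using haA))
    exact le_trans (Nat.le_of_dvd (Nat.pos_of_ne_zero (relIndex_ne_zero' _ _))
      (Subgroup.relIndex_dvd_of_le_left W h1)) hr2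
  -- the element `y`
  have haM : a ∈ M := hAM haA
  have hkM : k ∈ M := hKM hkK
  set y : X := k⁻¹ * (a * k * a⁻¹) with hy
  have hyK : y ∈ K := K.mul_mem (K.inv_mem hkK) (hKconj a haM k hkK)
  have hyM : y ∈ M := hKM hyK
  have haCB : a ∈ Subgroup.centralizer (B : Set X) := by
    rw [Subgroup.mem_centralizer_iff]
    intro b hb
    exact hAcomm b (hBA hb) a haA
  have hyCB : y ∈ Subgroup.centralizer (B : Set X) :=
    mul_mem (inv_mem hkB) (mul_mem (mul_mem haCB hkB) (inv_mem haCB))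
  have hy1 : y ≠ 1 := by
    intro h
    apply hak
    have h' : a * k * a⁻¹ = k := by
      have e : a * k * a⁻¹ = k * y := by rw [hy]; group
      rw [e, h, mul_one]
    calc a * k = (a * k * a⁻¹) * a := by group
      _ = k * a := by rw [h']
  have hay : a * y * a⁻¹ = y⁻¹ := by
    have e1 : a * (k⁻¹ * (a * k * a⁻¹)) * a⁻¹ =
        (a * k⁻¹ * a⁻¹) * ((a * a) * k * (a⁻¹ * a⁻¹)) := by group
    have e2 : (k⁻¹ * (a * k * a⁻¹))⁻¹ = (a * k⁻¹ * a⁻¹) * k := by group
    have e3 : a⁻¹ * a⁻¹ = 1 := by rw [hainv]; exact ha2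
    rw [hy, e1, e2, ha2, e3, one_mul, mul_one]
  have hym : y ^ Nat.card K = 1 := by
    have h1 : (⟨y, hyK⟩ : ↥K) ^ Nat.card K = 1 := pow_card_eq_one'
    have h2 := congrArg Subtype.val h1
    rwa [Subgroup.coe_pow] at h2
  have hmodd : Odd (Nat.card K) := Nat.Coprime.odd_of_right hKodd
  have hnormW : ∀ g, g ∈ Subgroup.normalizer (V : Set X) → g ∈ Subgroup.centralizer (B : Set X) →
      g ∈ Subgroup.normalizer (W : Set X) := by
    intro g hgV hgB
    rw [Subgroup.mem_normalizer_iff]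
    intro x
    rw [hW, Subgroup.mem_inf, Subgroup.mem_inf, ← Subgroup.mem_normalizer_iff.mp hgV x]
    constructor
    · rintro ⟨h1, h2⟩
      exact ⟨h1, mul_mem (mul_mem hgB h2) (inv_mem hgB)⟩
    · rintro ⟨h1, h2⟩
      refine ⟨h1, ?_⟩
      have := mul_mem (mul_mem (inv_mem hgB) h2) hgB
      have e : g⁻¹ * (g * x * g⁻¹) * g = x := by group
      rwa [e] at this
  have hyW : y ∈ Subgroup.normalizer (W : Set X) := hnormW y (hMV hyM) hyCB
  have hWc : ∀ u ∈ W, ∀ v ∈ W, u * v = v * u := fun u hu v hv =>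
    hVcomm u (Subgroup.mem_inf.1 hu).1 v (Subgroup.mem_inf.1 hv).1
  have hW2 : ∀ u ∈ W, u * u = 1 := fun u hu => by
    rw [← sq]; exact hV2 u (Subgroup.mem_inf.1 hu).1
  have hidxy := relIndex_le_four W a y ha2 hay (Nat.card K) hmodd hym hyW hidxa
  have h48 := pow_centralizes W hWc hW2 y hyW hidxy
  -- Thompson's P × Q lemma
  have hzK : y ^ 48 ∈ K := K.pow_mem hyK 48
  have hzM : y ^ 48 ∈ M := M.pow_mem hyM 48
  have hzCB : y ^ 48 ∈ Subgroup.centralizer (B : Set X) := Subgroup.pow_mem _ hyCB 48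
  have hB2group : IsPGroup 2 ↥B := fun g => ⟨1, Subtype.ext (by
    rw [pow_one, Subgroup.coe_pow]; exact hA2 g (hBA g.2))⟩
  have hzodd : (Nat.card (Subgroup.zpowers (y ^ 48))).Coprime 2 := by
    rw [Nat.card_zpowers]
    have h5 : orderOf (y ^ 48) ∣ Nat.card K := by
      have := orderOf_dvd_natCard (⟨y ^ 48, hzK⟩ : ↥K)
      rwa [Subgroup.orderOf_mk] at this
    exact Nat.Coprime.coprime_dvd_left h5 hKodd
  have hBz : B ≤ Subgroup.centralizer (Subgroup.zpowers (y ^ 48) : Set X) := by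
    intro b hb
    rw [Subgroup.mem_centralizer_iff]
    intro h hh
    have h1 : h ∈ Subgroup.centralizer (B : Set X) := (Subgroup.zpowers_le.2 hzCB) hh
    exact ((Subgroup.mem_centralizer_iff.1 h1) b hb).symm
  have hzNV : Subgroup.zpowers (y ^ 48) ≤ Subgroup.normalizer (V : Set X) :=
    Subgroup.zpowers_le.2 (hMV hzM)
  have hWz : V ⊓ Subgroup.centralizer (B : Set X) ≤
      Subgroup.centralizer (Subgroup.zpowers (y ^ 48) : Set X) := by
    intro w hw
    rw [Subgroup.mem_centralizer_iff]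
    intro h hh
    have h1 : y ^ 48 ∈ Subgroup.centralizer ({w} : Set X) := by
      rw [Subgroup.mem_centralizer_iff]
      intro x hx
      rw [Set.mem_singleton_iff] at hx
      subst hx
      exact (h48 x hw).symm
    have h2 := (Subgroup.zpowers_le.2 h1) hh
    rw [Subgroup.mem_centralizer_iff] at h2
    exact (h2 w rfl).symm
  have hzV := Cfsg.Agent.Helper1.thompson_PQ_aux 2 B (Subgroup.zpowers (y ^ 48)) hB2group hzodd hBz
    (Nat.card V) V rfl hV2group (hBM.trans hMV) hzNV hWz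
  have hz1 : y ^ 48 = 1 := by
    have h1 : y ^ 48 ∈ M ⊓ Subgroup.centralizer (V : Set X) :=
      Subgroup.mem_inf.2 ⟨hzM, hzV (Subgroup.mem_zpowers _)⟩
    rw [hfaith] at h1
    exact Subgroup.mem_bot.1 h1
  have hy3 : y * y * y = 1 := by
    have h1 : orderOf y ∣ 16 * 3 := orderOf_dvd_of_pow_eq_one hz1
    have h2 : orderOf y ∣ Nat.card K := orderOf_dvd_of_pow_eq_one hym
    have h3 : (orderOf y).Coprime 16 :=
      Nat.Coprime.coprime_dvd_left h2 (Nat.Coprime.pow_right 4 hKodd)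
    have h4 : orderOf y ∣ 3 := (Nat.Coprime.dvd_mul_left h3).1 h1
    have h5 := orderOf_dvd_iff_pow_eq_one.1 h4
    rw [← h5, pow_succ, pow_succ, pow_one]
  exact involves_S3 (⟨a, haM⟩ : ↥M) ⟨y, hyM⟩ (Subtype.ext ha2) (Subtype.ext hy3)
    (fun h => hy1 (congrArg Subtype.val h)) (Subtype.ext hay)

end Cfsg.Agent.S3755
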