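-- Statement S3760: normalizer transitive on fixed points iff fusion controlled in the stabilizer.
import Cfsg.Statements.S3760

set_option autoImplicit false
open Cfsg

namespace Cfsg.Agent.S3760

/-- membership in a conjugate -/
theorem mem_map_conj {G : Type*} [Group G] (K : Subgroup G) (g y : G) :
    y ∈ K.map (MulAut.conj g).toMonoidHom ↔ g⁻¹ * y * g ∈ K := by
  constructor
  · rintro ⟨k, hk, rfl⟩
    have : g⁻¹ * ((MulAut.conj g).toMonoidHom k) * g = k := by
      simp [MulAut.conj_apply, mul_assoc]
    rw [this]; exact hk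
  · intro h
    refine ⟨g⁻¹ * y * g, h, ?_⟩
    simp [MulAut.conj_apply, mul_assoc]

theorem mem_normalizer_of_map_eq {G : Type*} [Group G] (K : Subgroup G) (n : G)
    (h : K.map (MulAut.conj n).toMonoidHom = K) : n ∈ Subgroup.normalizer (K : Set G) := by
  rw [Subgroup.mem_normalizer_iff]
  intro y
  constructor
  · intro hy
    have : n * y * n⁻¹ ∈ K.map (MulAut.conj n).toMonoidHom := by
      rw [mem_map_conj]
      simpa [mul_assoc] using hy
    rw [h] at this; exact this
  · intro hy
    have hy' : n * y * n⁻¹ ∈ K := hy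
    rw [← h, mem_map_conj] at hy'
    simpa [mul_assoc] using hy'

theorem map_eq_of_mem_normalizer {G : Type*} [Group G] (K : Subgroup G) (n : G)
    (h : n ∈ Subgroup.normalizer (K : Set G)) : K.map (MulAut.conj n).toMonoidHom = K := by
  ext y
  rw [mem_map_conj]
  have hn : n⁻¹ ∈ Subgroup.normalizer (K : Set G) := inv_mem h
  rw [Subgroup.mem_normalizer_iff] at hn
  have := hn y
  simp only [inv_inv] at this
  exact ⟨fun h1 => this.2 h1, fun h1 => this.1 h1⟩

/-- Let the group G act transitively on a set X, let x ∈ X with stabilizer H = G_x, and let K ≤ H. Then N_G(K) acts transitively on the set of fixed points of K if and only if every G-conjugate of K contained in H is already an H-conjugate of K. -/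
theorem result {G : Type*} [Group G] {X : Type*} [MulAction G X] (htrans : ∀ a b : X, ∃ g : G, g • a = b) (x : X) (K : Subgroup G) (hK : K ≤ MulAction.stabilizer G x) : (∀ a b : X, (∀ k ∈ K, k • a = a) → (∀ k ∈ K, k • b = b) → ∃ g ∈ Subgroup.normalizer (K : Set G), g • a = b) ↔ ∀ g : G, K.map (MulAut.conj g).toMonoidHom ≤ MulAction.stabilizer G x → ∃ h ∈ MulAction.stabilizer G x, K.map (MulAut.conj g).toMonoidHom = K.map (MulAut.conj h).toMonoidHom := by
  constructor
  · intro hN g hg
    -- K fixes g⁻¹ • x
    have h1 : ∀ k ∈ K, k • (g⁻¹ • x) = g⁻¹ • x := by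
      intro k hk
      have hmem : g * k * g⁻¹ ∈ K.map (MulAut.conj g).toMonoidHom := by
        rw [mem_map_conj]; simpa [mul_assoc] using hk
      have hst := hg hmem
      rw [MulAction.mem_stabilizer_iff] at hst
      have : k • (g⁻¹ • x) = g⁻¹ • ((g * k * g⁻¹) • x) := by
        simp [mul_smul]
      rw [this, hst]
    have h2 : ∀ k ∈ K, k • x = x := fun k hk => MulAction.mem_stabilizer_iff.1 (hK hk)
    obtain ⟨n, hn, hnx⟩ := hN (g⁻¹ • x) x h1 h2
    refine ⟨g * n⁻¹, ?_, ?_⟩
    · rw [MulAction.mem_stabilizer_iff, mul_smul]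
      have : n⁻¹ • x = g⁻¹ • x := by
        rw [inv_smul_eq_iff]; exact hnx.symm
      rw [this]; simp
    · ext y
      rw [mem_map_conj, mem_map_conj]
      have h3 := (Subgroup.mem_normalizer_iff.1 hn) (g⁻¹ * y * g)
      have h4 : (g * n⁻¹)⁻¹ * y * (g * n⁻¹) = n * (g⁻¹ * y * g) * n⁻¹ := by
        simp [mul_assoc]
      rw [h4]
      exact h3
  · intro hF a b ha hb
    -- key: every fixed point of K is n • x with n in the normalizer
    have key : ∀ c : X, (∀ k ∈ K, k • c = c) → ∃ n ∈ Subgroup.normalizer (K : Set G), n • x = c := by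
      intro c hc
      obtain ⟨g, hg⟩ := htrans x c
      have hle : K.map (MulAut.conj g⁻¹).toMonoidHom ≤ MulAction.stabilizer G x := by
        intro y hy
        rw [mem_map_conj] at hy
        rw [MulAction.mem_stabilizer_iff]
        simp only [inv_inv] at hy
        have h3 := hc _ hy
        rw [← hg] at h3
        have : y • x = g⁻¹ • ((g * y * g⁻¹) • (g • x)) := by
          simp [mul_smul]
        rw [this, h3]; simp
      obtain ⟨h, hh, he⟩ := hF g⁻¹ hle
      refine ⟨g * h, ?_, ?_⟩
      · apply mem_normalizer_of_map_eq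
        ext y
        rw [mem_map_conj]
        have : (g * h)⁻¹ * y * (g * h) = h⁻¹ * (g⁻¹ * y * g) * h := by
          simp [mul_assoc]
        rw [this, ← mem_map_conj, ← he, mem_map_conj]
        simp [mul_assoc]
      · rw [mul_smul, MulAction.mem_stabilizer_iff.1 hh, hg]
    obtain ⟨n1, hn1, e1⟩ := key a ha
    obtain ⟨n2, hn2, e2⟩ := key b hb
    refine ⟨n2 * n1⁻¹, mul_mem hn2 (inv_mem hn1), ?_⟩
    rw [mul_smul, ← e1, ← e2]; simp

end Cfsg.Agent.S3760
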