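import Cfsg.Statements.S3763
import Cfsg.Agent.Helper48.ES2Iso2

set_option autoImplicit false
open Cfsg

namespace Cfsg.Agent.S3763

/-- Let E be an extraspecial 2-group of order 2^(2n+1). Then the largest elementary abelian subgroups of E have order 2^n or 2^(n+1); and two extraspecial 2-groups of the same order whose largest elementary abelian subgroups have the same order are isomorphic. -/
theorem result {E : Type*} [Group E] [Finite E] (hE : Cfsg.IsExtraspecial 2 E) (n : ℕ) (hn : Nat.card E = 2 ^ (2 * n + 1)) : ((Cfsg.PRankLE 2 n E ∧ ¬ Cfsg.PRankLE 2 (n - 1) E) ∨ (Cfsg.PRankLE 2 (n + 1) E ∧ ¬ Cfsg.PRankLE 2 n E)) ∧ ∀ (E' : Type*) [Group E'] [Finite E'], Cfsg.IsExtraspecial 2 E' → Nat.card E' = Nat.card E → (∀ k : ℕ, Cfsg.PRankLE 2 k E ↔ Cfsg.PRankLE 2 k E') → Nonempty (E ≃* E') := by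
  have hc := Cfsg.Agent.Helper48.comm_mem_center_of_isExtraspecial hE
  have h2 : Nat.card (Subgroup.center E) = 2 := hE.2
  refine ⟨?_, ?_⟩
  · rcases Cfsg.Agent.Helper48.es2_dichotomy hc h2 n hn with ⟨h, -⟩ | ⟨hn1, h, ⟨A, hA, hAc⟩, -⟩
    · right
      exact ⟨Cfsg.Agent.Helper48.pRankLE_succ_of_es2 hc h2 n hn,
        (Cfsg.Agent.Helper48.es2Plus_iff_not_pRankLE hc h2 n hn).mp h⟩
    · left
      refine ⟨?_, ?_⟩
      · by_contra hR
        exact h ((Cfsg.Agent.Helper48.es2Plus_iff_not_pRankLE hc h2 n hn).mpr hR)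
      · intro hR
        have := hR A (Cfsg.Agent.Helper48.isMulCommutative_of_sq_eq_one A hA) hA
        rw [hAc] at this
        have hlt : 2 ^ (n - 1) < 2 ^ n := Nat.pow_lt_pow_right (by norm_num) (by omega)
        omega
  · intro E' _ _ hE' hcard' hiff
    have hc' := Cfsg.Agent.Helper48.comm_mem_center_of_isExtraspecial hE'
    have h2' : Nat.card (Subgroup.center E') = 2 := hE'.2
    have hcard'' : Nat.card E' = 2 ^ (2 * n + 1) := by rw [hcard', hn]
    refine Cfsg.Agent.Helper48.es2_iso n E E' hc h2 hc' h2' hn hcard'' ?_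
    rw [Cfsg.Agent.Helper48.es2Plus_iff_not_pRankLE hc h2 n hn,
      Cfsg.Agent.Helper48.es2Plus_iff_not_pRankLE hc' h2' n hcard'', hiff n]

end Cfsg.Agent.S3763
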