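import Cfsg.Statements.S3764
import Cfsg.Agent.Helper63.ShultGroup
import Cfsg.Agent.Helper63.Extraspecial

set_option autoImplicit false

open Cfsg

namespace Cfsg.Agent.S3764

open Module Cfsg.Agent.Helper63 Cfsg.Agent.Helper63.Shult Cfsg.Agent.Helper63.ProjRep
  Cfsg.Agent.Helper63.AddCharRep

/-- Let p, q, r be distinct primes and let X, Q, V be subgroups of a finite group with X of order r, Q an extraspecial q-group normalized by X with C_Q(X) = Z(Q), and V an elementary abelian p-group normalized by X and Q on which XQ acts faithfully ((X ⊔ Q) ∩ C(V) = 1). If C_V(X) = 1, then q = 2, r = 2^n + 1 for some n, and Q has order 2^(2n+1). -/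
theorem result {G : Type*} [Group G] [Finite G] {p q r : ℕ} (hp : p.Prime) (hq : q.Prime) (hr : r.Prime) (hpq : p ≠ q) (hpr : p ≠ r) (hqr : q ≠ r) (X Q V : Subgroup G) (hX : Nat.card X = r) (hQ : Cfsg.IsExtraspecial q ↥Q) (hXQ : X ≤ Subgroup.normalizer (Q : Set G)) (hCQ : Q ⊓ Subgroup.centralizer (X : Set G) = (Subgroup.center ↥Q).map Q.subtype) (hV : Cfsg.IsElementaryAbelian p V) (hXV : X ≤ Subgroup.normalizer (V : Set G)) (hQV : Q ≤ Subgroup.normalizer (V : Set G)) (hfaith : (X ⊔ Q) ⊓ Subgroup.centralizer (V : Set G) = ⊥) (hCV : V ⊓ Subgroup.centralizer (X : Set G) = ⊥) : q = 2 ∧ ∃ n : ℕ, r = 2 ^ n + 1 ∧ Nat.card Q = 2 ^ (2 * n + 1) := by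
  classical
  haveI : Fact p.Prime := ⟨hp⟩
  haveI : Fact q.Prime := ⟨hq⟩
  -- a generator of `X`
  haveI : Nontrivial ↥X := by
    apply (Finite.one_lt_card_iff_nontrivial).mp
    rw [hX]
    exact hr.one_lt
  obtain ⟨x', hx'⟩ := exists_ne (1 : ↥X)
  obtain ⟨x, hx⟩ := x'
  have hx1 : x ≠ 1 := by
    intro h
    apply hx'
    apply Subtype.ext
    exact h
  have hxr : x ^ r = 1 := pow_eq_one_of_mem_of_card X hX hx
  have hgen := exists_pow_of_card_prime X hr hX hx hx1
  have hxN : x ∈ Subgroup.normalizer (Q : Set G) := hXQ hx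
  have hxV : x ∈ Subgroup.normalizer (V : Set G) := hXV hx
  have hcentX : ∀ a : G, x * a = a * x → a ∈ Subgroup.centralizer (X : Set G) := by
    intro a hax
    rw [Subgroup.mem_centralizer_iff]
    intro y hy
    obtain ⟨k, rfl⟩ := hgen y hy
    exact ((Commute.pow_left (show Commute x a from hax) k)).eq
  have hfixV : ∀ a ∈ V, x * a = a * x → a = 1 := by
    intro a ha hax
    have h1 : a ∈ V ⊓ Subgroup.centralizer (X : Set G) := ⟨ha, hcentX a hax⟩
    rw [hCV] at h1
    exact Subgroup.mem_bot.mp h1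
  -- the group `Q`
  have hQp : IsPGroup q ↥Q := hQ.1.1
  have hZcard : Nat.card (Subgroup.center ↥Q) = q := hQ.2
  have hcc : ∀ g h : ↥Q, cm g h ∈ Subgroup.center ↥Q :=
    fun g h => extraspecial_comm_mem_center hQ g h
  obtain ⟨m', hm'1, hm'⟩ := extraspecial_card_odd hQ
  obtain ⟨φ, hφdef⟩ : ∃ φ : MulAut ↥Q, φ = conjAut Q x hxN := ⟨_, rfl⟩
  have hφval : ∀ g : ↥Q, ((φ g : ↥Q) : G) = x * g * x⁻¹ := by
    intro g
    rw [hφdef]
    rfl
  have hφr : φ ^ r = 1 := by
    rw [hφdef]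
    exact conjAut_pow_eq_one Q x hxN hxr
  have hφZ : ∀ z ∈ Subgroup.center ↥Q, φ z = z := by
    intro z hz
    have h1 : (z : G) ∈ (Subgroup.center ↥Q).map Q.subtype := ⟨z, hz, rfl⟩
    rw [← hCQ] at h1
    have h2 := Subgroup.mem_centralizer_iff.mp h1.2 x hx
    apply Subtype.ext
    rw [hφval, h2]
    group
  have hφiZ : ∀ (i : ℕ), ∀ z ∈ Subgroup.center ↥Q, (φ ^ i) z = z := by
    intro i z hz
    induction i with
    | zero => simp
    | succ i ih => rw [pow_succ, MulAut.mul_apply, hφZ z hz, ih]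
  have hfree : ∀ g : ↥Q, ∀ i, 0 < i → i < r → (φ ^ i) g * g⁻¹ ∈ Subgroup.center ↥Q →
      g ∈ Subgroup.center ↥Q := by
    intro g i hi0 hir hg
    have h1 : (φ ^ i) g = g * ((φ ^ i) g * g⁻¹) := by
      have h2 := Subgroup.mem_center_iff.mp hg g
      rw [h2]
      group
    have h3 := eq_one_of_aut hq hr hqr hQp (φ ^ i)
      (by rw [← pow_mul, mul_comm, pow_mul, hφr, one_pow]) g _ h1 (hφiZ i _ hg)
    have h4 : (φ ^ i) g = g := mul_inv_eq_one.mp h3
    obtain ⟨m, hm⟩ := exists_pow_pow_eq_self φ hr hφr hi0 hir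
    have h5 : ∀ m : ℕ, ((φ ^ i) ^ m) g = g := by
      intro m
      induction m with
      | zero => simp
      | succ m ih => rw [pow_succ, MulAut.mul_apply, h4, ih]
    have h6 : φ g = g := by
      have := h5 m
      rw [hm] at this
      exact this
    have h7 : x * (g : G) = g * x := by
      have h8 := congrArg Subtype.val h6
      rw [hφval] at h8
      calc x * (g : G) = (x * g * x⁻¹) * x := by group
        _ = g * x := by rw [h8]
    have h9 : (g : G) ∈ Q ⊓ Subgroup.centralizer (X : Set G) := ⟨g.2, hcentX _ h7⟩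
    rw [hCQ] at h9
    obtain ⟨z, hz, hzg⟩ := h9
    have h10 : z = g := Subtype.ext hzg
    rw [← h10]
    exact hz
  -- the field and the module
  obtain ⟨K, _, _, _, hK⟩ : ∃ (K : Type) (_ : Field K) (_ : IsAlgClosed K) (_ : CharP K p),
      True := ⟨AlgebraicClosure (ZMod p), inferInstance, inferInstance, inferInstance, trivial⟩
  have hqK : (q : K) ≠ 0 := by
    intro h
    have h1 := (CharP.cast_eq_zero_iff K p q).mp h
    exact hpq ((Nat.prime_dvd_prime_iff_eq hp hq).mp h1)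
  have hrK : (r : K) ≠ 0 := by
    intro h
    have h1 := (CharP.cast_eq_zero_iff K p r).mp h
    exact hpr ((Nat.prime_dvd_prime_iff_eq hp hr).mp h1)
  obtain ⟨hVc, hVe⟩ := hV
  have hcomm : ∀ a b : ↥V, a * b = b * a := fun a b => hVc.is_comm.comm a b
  have hexp : ∀ a : ↥V, a ^ p = 1 := by
    intro a
    apply Subtype.ext
    rw [Subgroup.coe_pow]
    exact hVe a a.2
  obtain ⟨ρ, hρdef⟩ : ∃ ρ : ↥Q →* Module.End K ↥(addChar V K),
      ρ = (rho V K).comp (Subgroup.inclusion hQV) := ⟨_, rfl⟩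
  obtain ⟨ξ, hξdef⟩ : ∃ ξ : Module.End K ↥(addChar V K), ξ = rho V K ⟨x, hxV⟩ := ⟨_, rfl⟩
  obtain ⟨ξi, hξidef⟩ : ∃ ξi : Module.End K ↥(addChar V K),
      ξi = rho V K (⟨x, hxV⟩ : ↥(Subgroup.normalizer (V : Set G)))⁻¹ := ⟨_, rfl⟩
  have hξ : ξ * ξi = 1 := by
    rw [hξdef, hξidef, ← map_mul, mul_inv_cancel, map_one]
  have hξ' : ξi * ξ = 1 := by
    rw [hξdef, hξidef, ← map_mul, inv_mul_cancel, map_one]
  have hequiv : ∀ g, ξ * ρ g * ξi = ρ (φ g) := by
    intro g
    rw [hξdef, hξidef, hρdef, MonoidHom.comp_apply, MonoidHom.comp_apply, ← map_mul, ← map_mul]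
    congr 1
    apply Subtype.ext
    show x * (g : G) * x⁻¹ = ((φ g : ↥Q) : G)
    rw [hφval]
  have hξr : ξ ^ r = 1 := by
    rw [hξdef, ← map_pow]
    have h : (⟨x, hxV⟩ : ↥(Subgroup.normalizer (V : Set G))) ^ r = 1 := by
      apply Subtype.ext
      rw [Subgroup.coe_pow]
      exact hxr
    rw [h, map_one]
  have hfix : ∀ f, ξ f = f → f = 0 := by
    intro f hf
    rw [hξdef] at hf
    apply eq_zero_of_rho_fixed hcomm ⟨x, hxV⟩ _ f hf
    intro a ha
    apply Subtype.ext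
    apply hfixV a a.2
    have h3 := congrArg Subtype.val ha
    rw [conjV_coe] at h3
    have h4 : x * (a : G) = x * (x⁻¹ * a * x) := by rw [h3]
    rw [h4]
    group
  -- a generator of the centre and its eigenvalue
  haveI : Nontrivial ↥(Subgroup.center ↥Q) := by
    apply (Finite.one_lt_card_iff_nontrivial).mp
    rw [hZcard]
    exact hq.one_lt
  obtain ⟨z₀', hz₀'⟩ := exists_ne (1 : ↥(Subgroup.center ↥Q))
  obtain ⟨z₀, hz₀⟩ := z₀'
  have hz₀1 : z₀ ≠ 1 := by
    intro h
    apply hz₀'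
    apply Subtype.ext
    exact h
  have hz₀q : z₀ ^ q = 1 := pow_eq_one_of_mem_of_card _ hZcard hz₀
  have hZgen := exists_pow_of_card_prime (Subgroup.center ↥Q) hq hZcard hz₀ hz₀1
  obtain ⟨ζ, hζdef⟩ : ∃ ζ : Module.End K ↥(addChar V K), ζ = ρ z₀ := ⟨_, rfl⟩
  have hζ1 : ζ ≠ 1 := by
    intro h
    apply hz₀1
    rw [hζdef, hρdef, MonoidHom.comp_apply] at h
    have h0 : (z₀ : G) ∈ Subgroup.centralizer (V : Set G) := by
      rw [Subgroup.mem_centralizer_iff]
      intro a ha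
      exact commute_of_rho_eq_one hcomm hexp _ h ⟨a, ha⟩
    have h1 : (z₀ : G) ∈ (X ⊔ Q) ⊓ Subgroup.centralizer (V : Set G) :=
      ⟨(le_sup_right : Q ≤ X ⊔ Q) z₀.2, h0⟩
    rw [hfaith] at h1
    exact Subtype.ext (Subgroup.mem_bot.mp h1)
  have hζq : ζ ^ q = 1 := by rw [hζdef, ← map_pow, hz₀q, map_one]
  have hζss : ζ.IsSemisimple := isSemisimple_of_pow_eq_one ζ q hζq hqK
  have htop := hζss.iSup_eigenspace_eq_top
  obtain ⟨ω, hω1, hωbot⟩ : ∃ ω : K, ω ≠ 1 ∧ Module.End.eigenspace ζ ω ≠ ⊥ := by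
    by_contra hcon
    push Not at hcon
    apply hζ1
    have h1 : (⊤ : Submodule K ↥(addChar V K)) ≤ Module.End.eigenspace ζ 1 := by
      rw [← htop]
      apply iSup_le
      intro μ
      by_cases hμ : μ = 1
      · rw [hμ]
      · rw [hcon μ hμ]
        exact bot_le
    apply LinearMap.ext
    intro v
    have hv := h1 (Submodule.mem_top (x := v))
    rw [Module.End.mem_eigenspace_iff] at hv
    rw [hv, one_smul]
    rfl
  haveI : Nontrivial ↥(Module.End.eigenspace ζ ω) := Submodule.nontrivial_iff_ne_bot.mpr hωbot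
  have hζpow : ∀ (k : ℕ) (w : ↥(addChar V K)), w ∈ Module.End.eigenspace ζ ω →
      (ζ ^ k) w = ω ^ k • w := by
    intro k w hw
    rw [Module.End.mem_eigenspace_iff] at hw
    induction k with
    | zero => simp
    | succ k ih => rw [pow_succ, Module.End.mul_apply, hw, map_smul, ih, smul_smul, pow_succ']
  have hωq : ω ^ q = 1 := by
    obtain ⟨w, hw, hw0⟩ := (Submodule.ne_bot_iff _).mp hωbot
    have h1 := hζpow q w hw
    rw [hζq, Module.End.one_apply] at h1
    apply smul_left_injective K hw0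
    show ω ^ q • w = (1 : K) • w
    rw [one_smul]
    exact h1.symm
  have hωord : orderOf ω = q := by
    have h1 : orderOf ω ∣ q := orderOf_dvd_of_pow_eq_one hωq
    rcases (Nat.dvd_prime hq).mp h1 with h2 | h2
    · exact (hω1 (orderOf_eq_one_iff.mp h2)).elim
    · exact h2
  -- the restricted representation
  have hcommζ : ∀ g, ρ g * ζ = ζ * ρ g := by
    intro g
    rw [hζdef, ← map_mul, ← map_mul, Subgroup.mem_center_iff.mp hz₀ g]
  have hξζ : ξ * ζ = ζ * ξ := by
    have h1 := hequiv z₀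
    rw [hφZ z₀ hz₀, ← hζdef] at h1
    calc ξ * ζ = ξ * ζ * (ξi * ξ) := by rw [hξ', mul_one]
      _ = (ξ * ζ * ξi) * ξ := by simp only [mul_assoc]
      _ = ζ * ξ := by rw [h1]
  have hξiζ : ξi * ζ = ζ * ξi := by
    calc ξi * ζ = ξi * ζ * (ξ * ξi) := by rw [hξ, mul_one]
      _ = ξi * (ζ * ξ) * ξi := by simp only [mul_assoc]
      _ = ξi * (ξ * ζ) * ξi := by rw [hξζ]
      _ = (ξi * ξ) * ζ * ξi := by simp only [mul_assoc]
      _ = ζ * ξi := by rw [hξ', one_mul]
  have hξW : ∀ w ∈ Module.End.eigenspace ζ ω, ξ w ∈ Module.End.eigenspace ζ ω :=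
    fun _ hw => mem_eigenspace_of_comm hξζ hw
  have hξiW : ∀ w ∈ Module.End.eigenspace ζ ω, ξi w ∈ Module.End.eigenspace ζ ω :=
    fun _ hw => mem_eigenspace_of_comm hξiζ hw
  obtain ⟨ρW, hρWdef⟩ : ∃ ρW : ↥Q →* Module.End K ↥(Module.End.eigenspace ζ ω),
      ρW = eigRes ρ ζ ω hcommζ := ⟨_, rfl⟩
  have hρWval : ∀ (g : ↥Q) (w : ↥(Module.End.eigenspace ζ ω)),
      ((ρW g w : ↥(Module.End.eigenspace ζ ω)) : ↥(addChar V K)) = ρ g w := by
    intro g w
    rw [hρWdef]
    rfl
  obtain ⟨ξW, hξWdef⟩ : ∃ ξW : Module.End K ↥(Module.End.eigenspace ζ ω),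
      ξW = ξ.restrict hξW := ⟨_, rfl⟩
  obtain ⟨ξiW, hξiWdef⟩ : ∃ ξiW : Module.End K ↥(Module.End.eigenspace ζ ω),
      ξiW = ξi.restrict hξiW := ⟨_, rfl⟩
  have hξWval : ∀ w : ↥(Module.End.eigenspace ζ ω),
      ((ξW w : ↥(Module.End.eigenspace ζ ω)) : ↥(addChar V K)) = ξ w := by
    intro w
    rw [hξWdef]
    rfl
  have hξiWval : ∀ w : ↥(Module.End.eigenspace ζ ω),
      ((ξiW w : ↥(Module.End.eigenspace ζ ω)) : ↥(addChar V K)) = ξi w := by
    intro w
    rw [hξiWdef]
    rfl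
  have hξWmul : ξW * ξiW = 1 := by
    apply LinearMap.ext
    intro w
    apply Subtype.ext
    rw [Module.End.mul_apply, hξWval, hξiWval]
    exact LinearMap.congr_fun hξ (w : ↥(addChar V K))
  have hξWmul' : ξiW * ξW = 1 := by
    apply LinearMap.ext
    intro w
    apply Subtype.ext
    rw [Module.End.mul_apply, hξiWval, hξWval]
    exact LinearMap.congr_fun hξ' (w : ↥(addChar V K))
  have hequivW : ∀ g, ξW * ρW g * ξiW = ρW (φ g) := by
    intro g
    apply LinearMap.ext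
    intro w
    apply Subtype.ext
    rw [Module.End.mul_apply, Module.End.mul_apply, hξWval, hρWval, hξiWval, hρWval]
    exact LinearMap.congr_fun (hequiv g) (w : ↥(addChar V K))
  have hξWr : ξW ^ r = 1 := by
    apply LinearMap.ext
    intro w
    apply Subtype.ext
    rw [hξWdef, restrict_pow_coe, hξr]
    rfl
  have hfixW : ∀ w, ξW w = w → w = 0 := by
    intro w hw
    apply Subtype.ext
    have h1 := congrArg Subtype.val hw
    rw [hξWval] at h1
    exact hfix _ h1
  have hρWz₀ : ∀ k : ℕ, ρW (z₀ ^ k) = ω ^ k • (1 : Module.End K ↥(Module.End.eigenspace ζ ω)) := by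
    intro k
    apply LinearMap.ext
    intro w
    apply Subtype.ext
    rw [hρWval, map_pow, ← hζdef, hζpow k _ w.2]
    rfl
  let lam : ↥Q → K := fun z =>
    if h : ∃ c : K, ρW z = c • (1 : Module.End K ↥(Module.End.eigenspace ζ ω)) then h.choose
    else 0
  have H : Hyp (M := ↥(Module.End.eigenspace ζ ω)) ρW lam := by
    refine ⟨hcc, ?_, ?_, ?_⟩
    · intro z hz
      have h : ∃ c : K, ρW z = c • (1 : Module.End K ↥(Module.End.eigenspace ζ ω)) := by
        obtain ⟨k, hk⟩ := hZgen z hz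
        exact ⟨ω ^ k, by rw [hk, hρWz₀]⟩
      have h1 : lam z = h.choose := dif_pos h
      rw [h1]
      exact h.choose_spec
    · intro g hg
      rw [Subgroup.mem_center_iff] at hg
      push Not at hg
      obtain ⟨h, hh⟩ := hg
      refine ⟨h, ?_⟩
      have hc1 : cm g h ≠ 1 := by
        intro h1
        apply hh
        rw [cm_def] at h1
        have h3 : g * h = h * g := by
          calc g * h = (g * h * g⁻¹ * h⁻¹) * (h * g) := by group
            _ = h * g := by rw [h1, one_mul]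
        exact h3.symm
      obtain ⟨k, hk⟩ := hZgen _ (hcc g h)
      rw [hk, hρWz₀]
      intro h1
      have h2 : ω ^ k = 1 := by
        apply smul_one_injective (M := ↥(Module.End.eigenspace ζ ω))
        rw [h1, one_smul]
      have h3 : q ∣ k := by
        rw [← hωord]
        exact orderOf_dvd_of_pow_eq_one h2
      obtain ⟨j, hj⟩ := h3
      apply hc1
      rw [hk, hj, pow_mul, hz₀q, one_pow]
    · obtain ⟨kQ, hkQ⟩ := IsPGroup.iff_card.mp hQp
      have h1 : (Subgroup.center ↥Q).index ∣ q ^ kQ := by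
        rw [← hkQ]
        exact Subgroup.index_dvd_card _
      obtain ⟨j, -, hj⟩ := (Nat.dvd_prime_pow hq).mp h1
      rw [hj, Nat.cast_pow]
      exact pow_ne_zero _ hqK
  obtain ⟨m, hidx, hm⟩ := hyp_fermat H hr hQp φ ξW ξiW hξWmul hξWmul' hequivW hφr hfree hξWr
    hrK hfixW
  have hmm : m = m' := by
    have h1 := Subgroup.index_mul_card (Subgroup.center ↥Q)
    rw [hidx, hZcard, hm', ← pow_succ] at h1
    have h2 := Nat.pow_right_injective hq.two_le h1
    omega
  obtain ⟨hq2, hrm⟩ := hm (by omega)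
  refine ⟨hq2, m, hrm, ?_⟩
  rw [hm', hq2, hmm]
  congr 1
  omega

end Cfsg.Agent.S3764
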