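import Cfsg.Statements.S3765
import Cfsg.Agent.Helper63.ShultGroup
import Cfsg.Agent.Helper63.Extraspecial

set_option autoImplicit false

open Cfsg

namespace Cfsg.Agent.S3765

open Cfsg.Agent.Helper63 Cfsg.Agent.Helper63.Shult

/-- Let p, q, r be distinct primes and let X, Q, V be subgroups of a finite group with X of order r normalizing the q-group Q and acting faithfully on it (X ∩ C(Q) = 1), and V a nontrivial elementary abelian p-group normalized by X and Q on which XQ acts faithfully. If q = 2 and r has the form 2^n + 1, assume in addition that Q is abelian. Then C_V(X) ≠ 1. -/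
theorem result {G : Type*} [Group G] [Finite G] {p q r : ℕ} (hp : p.Prime) (hq : q.Prime) (hr : r.Prime) (hpq : p ≠ q) (hpr : p ≠ r) (hqr : q ≠ r) (X Q V : Subgroup G) (hX : Nat.card X = r) (hQ : IsPGroup q Q) (hXQ : X ≤ Subgroup.normalizer (Q : Set G)) (hXfaith : X ⊓ Subgroup.centralizer (Q : Set G) = ⊥) (hV : Cfsg.IsElementaryAbelian p V) (hV1 : V ≠ ⊥) (hXV : X ≤ Subgroup.normalizer (V : Set G)) (hQV : Q ≤ Subgroup.normalizer (V : Set G)) (hfaith : (X ⊔ Q) ⊓ Subgroup.centralizer (V : Set G) = ⊥) (hexc : q = 2 → (∃ n : ℕ, r = 2 ^ n + 1) → IsMulCommutative Q) : V ⊓ Subgroup.centralizer (X : Set G) ≠ ⊥ := by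
  intro hCV
  -- a generator of `X`
  haveI : Nontrivial ↥X := by
    apply (Finite.one_lt_card_iff_nontrivial).mp
    rw [hX]
    exact hr.one_lt
  obtain ⟨x', hx'⟩ := exists_ne (1 : ↥X)
  obtain ⟨x, hx⟩ := x'
  have hx1 : x ≠ 1 := by
    intro h
    apply hx'
    apply Subtype.ext
    exact h
  have hxr : x ^ r = 1 := pow_eq_one_of_mem_of_card X hX hx
  have hgen := exists_pow_of_card_prime X hr hX hx hx1
  have hxQ : ∀ g ∈ Q, x * g * x⁻¹ ∈ Q := by
    intro g hg
    exact (Subgroup.mem_normalizer_iff.mp (hXQ hx) g).mp hg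
  have hfixV : ∀ a ∈ V, x * a = a * x → a = 1 := by
    intro a ha hax
    have h0 : a ∈ Subgroup.centralizer (X : Set G) := by
      rw [Subgroup.mem_centralizer_iff]
      intro y hy
      obtain ⟨k, rfl⟩ := hgen y hy
      exact ((Commute.pow_left (show Commute x a from hax) k)).eq
    have h1 : a ∈ V ⊓ Subgroup.centralizer (X : Set G) := ⟨ha, h0⟩
    rw [hCV] at h1
    exact Subgroup.mem_bot.mp h1
  have hne : ∃ g ∈ Q, x * g * x⁻¹ * g⁻¹ ∉ Subgroup.centralizer (V : Set G) := by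
    have h1 : x ∉ Subgroup.centralizer (Q : Set G) := by
      intro h
      have h2 : x ∈ X ⊓ Subgroup.centralizer (Q : Set G) := ⟨hx, h⟩
      rw [hXfaith] at h2
      exact hx1 (Subgroup.mem_bot.mp h2)
    rw [Subgroup.mem_centralizer_iff] at h1
    push Not at h1
    obtain ⟨g, hg, hgx⟩ := h1
    refine ⟨g, hg, ?_⟩
    intro hc
    have h3 : x * g * x⁻¹ * g⁻¹ ∈ X ⊔ Q := by
      have hxX : x ∈ X ⊔ Q := (le_sup_left : X ≤ X ⊔ Q) hx
      have hgQ : g ∈ X ⊔ Q := (le_sup_right : Q ≤ X ⊔ Q) hg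
      exact Subgroup.mul_mem _ (Subgroup.mul_mem _ (Subgroup.mul_mem _ hxX hgQ)
        (Subgroup.inv_mem _ hxX)) (Subgroup.inv_mem _ hgQ)
    have h4 : x * g * x⁻¹ * g⁻¹ ∈ (X ⊔ Q) ⊓ Subgroup.centralizer (V : Set G) := ⟨h3, hc⟩
    rw [hfaith] at h4
    have h5 := Subgroup.mem_bot.mp h4
    apply hgx
    calc g * x = (x * g * x⁻¹ * g⁻¹)⁻¹ * (x * g) := by group
      _ = x * g := by rw [h5, inv_one, one_mul]
  obtain ⟨hq2, hrk, a, ha, b, hb, hab⟩ := shult_group hp hq hr hpq hpr hqr Q V hQ hV hQV x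
    (hXV hx) hxr hxQ hfixV hne
  have hcomm := hexc hq2 hrk
  apply hab
  have h6 := hcomm.is_comm.comm (⟨a, ha⟩ : ↥Q) ⟨b, hb⟩
  exact congrArg Subtype.val h6

end Cfsg.Agent.S3765
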