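-- Statement S3766: the Fitting subgroup of a normal subgroup and centralizers of chief factors.
import Cfsg.Statements.S3766
import Cfsg.Agent.Helper22.Fitting

set_option autoImplicit false
open Cfsg

namespace Cfsg.Agent.S3766

open Cfsg.Agent.Helper22
open scoped commutatorElement

variable {G : Type*} [Group G]

/-- chief factors -/
def Chief (U V : Subgroup G) : Prop :=
  U.Normal ∧ V.Normal ∧ V < U ∧ ∀ W : Subgroup G, W.Normal → V ≤ W → W ≤ U → W = V ∨ W = U

/-- commutators with a join -/
theorem commutator_sup_le {H₁ H₂ K X : Subgroup G} (hX : X.Normal) (h1 : ⁅H₁, K⁆ ≤ X)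
    (h2 : ⁅H₂, K⁆ ≤ X) : ⁅H₁ ⊔ H₂, K⁆ ≤ X := by
  let S : Subgroup G :=
    { carrier := {a | ∀ b ∈ K, ⁅a, b⁆ ∈ X}
      one_mem' := by
        intro b hb
        rw [commutatorElement_one_left]
        exact one_mem X
      mul_mem' := by
        intro a a' ha ha' b hb
        have e : ⁅a * a', b⁆ = a * ⁅a', b⁆ * a⁻¹ * ⁅a, b⁆ := by
          simp only [commutatorElement_def]; group
        rw [e]
        exact mul_mem (hX.conj_mem _ (ha' b hb) a) (ha b hb)
      inv_mem' := by
        intro a ha b hb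
        have e : ⁅a⁻¹, b⁆ = a⁻¹ * ⁅a, b⁆⁻¹ * a⁻¹⁻¹ := by
          simp only [commutatorElement_def]; group
        rw [e]
        exact hX.conj_mem _ (inv_mem (ha b hb)) a⁻¹ }
  have hS1 : H₁ ≤ S := fun a ha b hb => h1 (Subgroup.commutator_mem_commutator ha hb)
  have hS2 : H₂ ≤ S := fun a ha b hb => h2 (Subgroup.commutator_mem_commutator ha hb)
  rw [Subgroup.commutator_le]
  intro a ha b hb
  exact (sup_le hS1 hS2) ha b hb

/-- iterated commutators with `K` -/
def iter (K : Subgroup G) : ℕ → Subgroup G → Subgroup G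
  | 0, A => A
  | n + 1, A => iter K n ⁅A, K⁆

theorem iter_mono (K : Subgroup G) (n : ℕ) : ∀ {A B : Subgroup G}, A ≤ B → iter K n A ≤ iter K n B := by
  induction n with
  | zero => intro A B h; exact h
  | succ n ih => intro A B h; exact ih (Subgroup.commutator_mono h le_rfl)

theorem iter_succ' (K : Subgroup G) (n : ℕ) : ∀ A : Subgroup G, iter K (n + 1) A = ⁅iter K n A, K⁆ := by
  induction n with
  | zero => intro A; rfl
  | succ n ih => intro A; exact ih ⁅A, K⁆

theorem iter_lcs (K : Subgroup G) (n : ℕ) :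
    ∀ m : ℕ, iter K n (K.lowerCentralSeries m) = K.lowerCentralSeries (m + n) := by
  induction n with
  | zero => intro m; rfl
  | succ n ih =>
    intro m
    have : iter K (n + 1) (K.lowerCentralSeries m) = iter K n (K.lowerCentralSeries (m + 1)) := rfl
    rw [this, ih (m + 1)]
    congr 1
    omega

/-- a nilpotent normal subgroup centralizes every chief factor -/
theorem commutator_le_of_chief {U V F : Subgroup G} (hc : Chief U V) (hF : F.Normal)
    (hnil : ∃ n, F.lowerCentralSeries n = ⊥) : ⁅U, F⁆ ≤ V := by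
  obtain ⟨hU, hV, hlt, hmin⟩ := hc
  by_contra hcon
  have hW : V ⊔ ⁅U, F⁆ = U := by
    rcases hmin (V ⊔ ⁅U, F⁆) inferInstance le_sup_left
      (sup_le hlt.le (Subgroup.commutator_le_left U F)) with h | h
    · exact absurd (by rw [← h]; exact le_sup_right) hcon
    · exact h
  have hstep : ∀ n : ℕ, U ≤ V ⊔ iter F n U := by
    intro n
    induction n with
    | zero => exact le_sup_right
    | succ n ih =>
      have hVn : (V ⊔ iter F (n + 1) U).Normal := by
        have h1 : ∀ m : ℕ, (iter F m U).Normal := by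
          intro m
          induction m with
          | zero => exact hU
          | succ m ihm => rw [iter_succ']; infer_instance
        have := h1 (n + 1)
        infer_instance
      have h2 : ⁅U, F⁆ ≤ V ⊔ iter F (n + 1) U := by
        refine (Subgroup.commutator_mono ih le_rfl).trans ?_
        apply commutator_sup_le hVn
        · exact (Subgroup.commutator_le_left V F).trans le_sup_left
        · rw [iter_succ']; exact le_sup_right
      calc U = V ⊔ ⁅U, F⁆ := hW.symm
        _ ≤ V ⊔ iter F (n + 1) U := sup_le le_sup_left h2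
  obtain ⟨n, hn⟩ := hnil
  have h3 : iter F (n + 1) U ≤ ⊥ := by
    have : iter F (n + 1) U = iter F n ⁅U, F⁆ := rfl
    rw [this, ← hn]
    have h4 := iter_lcs F n 0
    rw [zero_add] at h4
    rw [← h4]
    exact iter_mono F n (Subgroup.commutator_le_right U F)
  have h5 := hstep (n + 1)
  rw [le_bot_iff.1 h3, sup_bot_eq] at h5
  exact absurd h5 (not_le_of_gt hlt)

/-- if `K` centralizes all chief factors below `F`, then iterated commutators of normal subgroups
of `F` with `K` vanish -/
theorem exists_iter_eq_bot [Finite G] {K F : Subgroup G}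
    (hK : ∀ U V : Subgroup G, Chief U V → U ≤ F → ⁅U, K⁆ ≤ V) :
    ∀ A : Subgroup G, A.Normal → A ≤ F → ∃ n, iter K n A = ⊥ := by
  intro A
  induction A using WellFoundedLT.induction with
  | ind A ih =>
    intro hA hAF
    by_cases hbot : A = ⊥
    · exact ⟨0, hbot⟩
    obtain ⟨B, -, hB⟩ := Finite.exists_le_maximal (p := fun B : Subgroup G => B.Normal ∧ B < A)
      (a := ⊥) ⟨inferInstance, bot_lt_iff_ne_bot.2 hbot⟩
    obtain ⟨hBn, hBA⟩ := hB.prop
    have hchief : Chief A B := by
      refine ⟨hA, hBn, hBA, ?_⟩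
      intro W hW hBW hWA
      by_cases hWeq : W = A
      · exact Or.inr hWeq
      · left
        exact le_antisymm (hB.le_of_ge ⟨hW, lt_of_le_of_ne hWA hWeq⟩ hBW) hBW
    have h1 : ⁅A, K⁆ ≤ B := hK A B hchief hAF
    obtain ⟨n, hn⟩ := ih B hBA hBn (hBA.le.trans hAF)
    refine ⟨n + 1, ?_⟩
    rw [eq_bot_iff, ← hn]
    exact iter_mono K n h1

/-- the derived series of a subgroup, computed in the ambient group -/
def dser (C : Subgroup G) : ℕ → Subgroup G
  | 0 => C
  | n + 1 => ⁅dser C n, dser C n⁆

theorem dser_normal {C : Subgroup G} (hC : C.Normal) : ∀ n, (dser C n).Normal := by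
  intro n
  induction n with
  | zero => exact hC
  | succ n ih =>
    show (⁅dser C n, dser C n⁆ : Subgroup G).Normal
    infer_instance

theorem dser_le_derivedSeries (C : Subgroup G) : ∀ n, dser C n ≤ derivedSeries G n := by
  intro n
  induction n with
  | zero => exact le_top
  | succ n ih => exact Subgroup.commutator_mono ih ih

theorem dser_le (C : Subgroup G) : ∀ n, dser C n ≤ C := by
  intro n
  induction n with
  | zero => exact le_rfl
  | succ n ih =>
    show (⁅dser C n, dser C n⁆ : Subgroup G) ≤ C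
    rw [Subgroup.commutator_le]
    intro a ha b hb
    rw [commutatorElement_def]
    exact mul_mem (mul_mem (mul_mem (ih ha) (ih hb)) (inv_mem (ih ha))) (inv_mem (ih hb))

/-- Let G be a finite solvable group and N a normal subgroup of G. Call a pair V < U of normal subgroups of G a chief factor of G when no normal subgroup of G lies strictly between them; an element g centralizes the chief factor U/V when u g u⁻¹ g⁻¹ ∈ V for all u ∈ U. Then an element of G lies in the Fitting subgroup F(N) if and only if it lies in N and centralizes every chief factor of G; and also if and only if it lies in N and centralizes every chief factor U/V of G with U ≤ F(N). -/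
theorem result {G : Type*} [Group G] [Finite G] (hG : Group.IsSolvable G) (N : Subgroup G) [N.Normal] (g : G) : (g ∈ (Cfsg.fittingSubgroup ↥N).map N.subtype ↔ g ∈ N ∧ ∀ U V : Subgroup G, (U.Normal ∧ V.Normal ∧ V < U ∧ ∀ W : Subgroup G, W.Normal → V ≤ W → W ≤ U → W = V ∨ W = U) → ∀ u ∈ U, u * g * u⁻¹ * g⁻¹ ∈ V) ∧ (g ∈ (Cfsg.fittingSubgroup ↥N).map N.subtype ↔ g ∈ N ∧ ∀ U V : Subgroup G, (U.Normal ∧ V.Normal ∧ V < U ∧ ∀ W : Subgroup G, W.Normal → V ≤ W → W ≤ U → W = V ∨ W = U) → U ≤ (Cfsg.fittingSubgroup ↥N).map N.subtype → ∀ u ∈ U, u * g * u⁻¹ * g⁻¹ ∈ V) := by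
  set F : Subgroup G := (Cfsg.fittingSubgroup ↥N).map N.subtype with hF
  have hFN : F ≤ N := Subgroup.map_subtype_le _
  have hFnormal : F.Normal := by
    haveI := fittingSubgroup_characteristic ↥N
    exact normal_map_subtype_of_characteristic N _
  have hFnil : ∃ n, F.lowerCentralSeries n = ⊥ := by
    rw [← Subgroup.isNilpotent_iff_lowerCentralSeries]
    have h1 : Group.IsNilpotent ↥(Cfsg.fittingSubgroup ↥N) := fittingSubgroup_isNilpotent ↥N
    exact (Group.isNilpotent_congr ((Cfsg.fittingSubgroup ↥N).equivMapOfInjective N.subtype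
      N.subtype_injective)).mp h1
  have hfwd : ∀ x ∈ F, ∀ U V : Subgroup G, Chief U V → ∀ u ∈ U, u * x * u⁻¹ * x⁻¹ ∈ V := by
    intro x hx U V hc u hu
    have := commutator_le_of_chief hc hFnormal hFnil (Subgroup.commutator_mem_commutator hu hx)
    rwa [commutatorElement_def] at this
  have hbwd : g ∈ N → (∀ U V : Subgroup G, Chief U V → U ≤ F → ∀ u ∈ U, u * g * u⁻¹ * g⁻¹ ∈ V) →
      g ∈ F := by
    intro hgN hg
    -- the subgroup of all such elements
    let C : Subgroup G :=
      { carrier := {x | x ∈ N ∧ ∀ U V : Subgroup G, Chief U V → U ≤ F → ∀ u ∈ U, u * x * u⁻¹ * x⁻¹ ∈ V}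
        one_mem' := ⟨one_mem N, fun U V hc _ u hu => by simp⟩
        mul_mem' := by
          rintro a b ⟨haN, ha⟩ ⟨hbN, hb⟩
          refine ⟨mul_mem haN hbN, fun U V hc hUF u hu => ?_⟩
          have e : u * (a * b) * u⁻¹ * (a * b)⁻¹ =
              (u * a * u⁻¹ * a⁻¹) * (a * (u * b * u⁻¹ * b⁻¹) * a⁻¹) := by group
          rw [e]
          exact mul_mem (ha U V hc hUF u hu) (hc.2.1.conj_mem _ (hb U V hc hUF u hu) a)
        inv_mem' := by
          rintro a ⟨haN, ha⟩
          refine ⟨inv_mem haN, fun U V hc hUF u hu => ?_⟩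
          have e : u * a⁻¹ * u⁻¹ * a⁻¹⁻¹ = a⁻¹ * (u * a * u⁻¹ * a⁻¹)⁻¹ * a⁻¹⁻¹ := by group
          rw [e]
          exact hc.2.1.conj_mem _ (inv_mem (ha U V hc hUF u hu)) a⁻¹ }
    have hCnormal : C.Normal := by
      constructor
      rintro x ⟨hxN, hx⟩ h
      refine ⟨(inferInstance : N.Normal).conj_mem x hxN h, fun U V hc hUF u hu => ?_⟩
      have e : u * (h * x * h⁻¹) * u⁻¹ * (h * x * h⁻¹)⁻¹ =
          h * ((h⁻¹ * u * h⁻¹⁻¹) * x * (h⁻¹ * u * h⁻¹⁻¹)⁻¹ * x⁻¹) * h⁻¹ := by group
      rw [e]
      exact hc.2.1.conj_mem _ (hx U V hc hUF _ (hc.1.conj_mem u hu h⁻¹)) h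
    have hCN : C ≤ N := fun x hx => hx.1
    have hFC : F ≤ C := fun x hx => ⟨hFN hx, fun U V hc _ u hu => hfwd x hx U V hc u hu⟩
    have hgC : g ∈ C := ⟨hgN, hg⟩
    have hCK : ∀ U V : Subgroup G, Chief U V → U ≤ F → ⁅U, C⁆ ≤ V := by
      intro U V hc hUF
      rw [Subgroup.commutator_le]
      intro u hu x hx
      rw [commutatorElement_def]
      exact hx.2 U V hc hUF u hu
    by_contra hgF
    have hCF : ¬ C ≤ F := fun h => hgF (h hgC)
    -- the last term of the derived series of C not inside F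
    have hex : ∃ k, dser C k ≤ F := by
      obtain ⟨n, hn⟩ := (isSolvable_def G).1 hG
      refine ⟨n, ?_⟩
      have := dser_le_derivedSeries C n
      rw [hn] at this
      exact this.trans bot_le
    classical
    set k := Nat.find hex with hk
    have hk0 : k ≠ 0 := by
      intro h0
      have := Nat.find_spec hex
      rw [← hk, h0] at this
      exact hCF this
    obtain ⟨k', hk'⟩ : ∃ k', k = k' + 1 := ⟨k - 1, by omega⟩
    have hD1 : dser C (k' + 1) ≤ F := by
      have := Nat.find_spec hex
      rwa [← hk, hk'] at this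
    have hD0 : ¬ dser C k' ≤ F := Nat.find_min hex (by omega)
    set D := dser C k' with hD
    have hDn : D.Normal := dser_normal hCnormal k'
    set K : Subgroup G := F ⊔ D with hKdef
    have hKn : K.Normal := inferInstance
    have hKC : K ≤ C := sup_le hFC (dser_le C k')
    have hKF : ¬ K ≤ F := fun h => hD0 (le_sup_right.trans h)
    have hKK : ⁅K, K⁆ ≤ F := by
      apply commutator_sup_le hFnormal
      · exact Subgroup.commutator_le_left F K
      · rw [Subgroup.commutator_comm]
        apply commutator_sup_le hFnormal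
        · exact Subgroup.commutator_le_left F D
        · exact hD1
    have hKcent : ∀ U V : Subgroup G, Chief U V → U ≤ F → ⁅U, K⁆ ≤ V := fun U V hc hUF =>
      (Subgroup.commutator_mono le_rfl hKC).trans (hCK U V hc hUF)
    obtain ⟨n, hn⟩ := exists_iter_eq_bot hKcent F hFnormal le_rfl
    have hKnil : Group.IsNilpotent ↥K := by
      rw [Subgroup.isNilpotent_iff_lowerCentralSeries]
      refine ⟨1 + n, ?_⟩
      rw [← iter_lcs K n 1, eq_bot_iff, ← hn]
      exact iter_mono K n hKK
    -- so K ≤ F(N)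
    apply hKF
    have hKN : K ≤ N := hKC.trans hCN
    have h1 : K.subgroupOf N ≤ Cfsg.fittingSubgroup ↥N := by
      apply le_sSup
      refine ⟨inferInstance, ?_⟩
      exact (Group.isNilpotent_congr (Subgroup.subgroupOfEquivOfLe hKN)).mpr hKnil
    intro x hx
    exact ⟨⟨x, hKN hx⟩, h1 (Subgroup.mem_subgroupOf.2 hx), rfl⟩
  refine ⟨⟨fun h => ⟨hFN h, fun U V hc u hu => hfwd g h U V hc u hu⟩,
    fun h => hbwd h.1 (fun U V hc _ u hu => h.2 U V hc u hu)⟩,
    ⟨fun h => ⟨hFN h, fun U V hc _ u hu => hfwd g h U V hc u hu⟩,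
    fun h => hbwd h.1 (fun U V hc hUF u hu => h.2 U V hc hUF u hu)⟩⟩

end Cfsg.Agent.S3766
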