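import Cfsg.Statements.S3767
import Cfsg.Agent.Helper70.ExtraCycF
import Cfsg.Agent.Helper2.PGroup

set_option autoImplicit false
open Cfsg

namespace Cfsg.Agent.S3767

/-- Conjugation by a normalizing element as an endomorphism of the subgroup. -/
def conjHom {G : Type*} [Group G] (P : Subgroup G) (y : G)
    (hy : y ∈ Subgroup.normalizer (P : Set G)) : ↥P →* ↥P where
  toFun a := ⟨y * a * y⁻¹, (Subgroup.mem_normalizer_iff.mp hy a).mp a.2⟩
  map_one' := by
    apply Subtype.ext
    simp
  map_mul' a b := by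
    apply Subtype.ext
    simp [mul_assoc]

theorem conjHom_iter {G : Type*} [Group G] (P : Subgroup G) (y : G)
    (hy : y ∈ Subgroup.normalizer (P : Set G)) (k : ℕ) (a : ↥P) :
    (((conjHom P y hy)^[k] a : ↥P) : G) = y ^ k * a * (y ^ k)⁻¹ := by
  induction k generalizing a with
  | zero => simp
  | succ k ih =>
    rw [Function.iterate_succ_apply, ih]
    show y ^ k * (y * a * y⁻¹) * (y ^ k)⁻¹ = y ^ (k + 1) * a * (y ^ (k + 1))⁻¹
    rw [pow_succ]; group

/-- Let P be an extraspecial p-group of order p^(2n+1) and H a cyclic group of order h prime to p acting on P (inside a common finite group: H normalizes P) so that C_P(x) = Z(P) for every non-identity x ∈ H. Then h divides p^n + 1 or h divides p^n − 1. -/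
theorem result {G : Type*} [Group G] [Finite G] {p : ℕ} [Fact p.Prime] (P H : Subgroup G) (hP : Cfsg.IsExtraspecial p ↥P) (n : ℕ) (hn : Nat.card P = p ^ (2 * n + 1)) (hH : IsCyclic H) (hcop : (Nat.card H).Coprime p) (hHP : H ≤ Subgroup.normalizer (P : Set G)) (hfix : ∀ x ∈ H, x ≠ 1 → P ⊓ Subgroup.centralizer {x} = (Subgroup.center ↥P).map P.subtype) : Nat.card H ∣ p ^ n + 1 ∨ Nat.card H ∣ p ^ n - 1 := by
  obtain ⟨⟨hPp, hfrat, hcomm⟩, hZ⟩ := hP
  have hp : p.Prime := Fact.out
  have hpos : 0 < Nat.card H := Nat.card_pos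
  by_cases h3 : 2 < Nat.card H
  · obtain ⟨g, hg⟩ := hH.exists_generator
    have hord : orderOf (g : G) = Nat.card H := by
      rw [Subgroup.orderOf_coe, orderOf_eq_card_of_forall_mem_zpowers hg]
    have hxN : (g : G) ∈ Subgroup.normalizer (P : Set G) := hHP g.2
    have hx1 : (g : G) ≠ 1 := by
      intro h1
      rw [h1, orderOf_one] at hord
      omega
    have hadd : ∀ v : Additive (Abelianization ↥P), p • v = 0 := by
      intro v
      obtain ⟨a, rfl⟩ := Cfsg.Agent.Helper70.ab_surj v
      have h1 : a ^ p ∈ commutator ↥P := by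
        rw [hcomm, ← hfrat]
        exact Cfsg.Agent.Helper2.pow_mem_frattini_of_isPGroup hPp a
      have h2 : Abelianization.of (a ^ p) = 1 := by
        rw [← MonoidHom.mem_ker, Abelianization.ker_of]; exact h1
      rw [map_pow] at h2
      show Additive.ofMul ((Abelianization.of a) ^ p) = 0
      rw [h2]; rfl
    have hfg : ∀ a, conjHom P (g : G) hxN (conjHom P (g : G)⁻¹ (inv_mem hxN) a) = a := by
      intro a
      apply Subtype.ext
      show (g : G) * ((g : G)⁻¹ * a * (g : G)⁻¹⁻¹) * (g : G)⁻¹ = a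
      group
    have hfh : ∀ a, (conjHom P (g : G) hxN)^[Nat.card H] a = a := by
      intro a
      apply Subtype.ext
      rw [conjHom_iter, ← hord, pow_orderOf_eq_one]
      simp
    have hz : ∀ z ∈ Subgroup.center ↥P, conjHom P (g : G) hxN z = z := by
      intro z hzc
      apply Subtype.ext
      show (g : G) * z * (g : G)⁻¹ = z
      have h1 : (z : G) ∈ (Subgroup.center ↥P).map P.subtype := ⟨z, hzc, rfl⟩
      rw [← hfix _ g.2 hx1] at h1
      have h2 := Subgroup.mem_centralizer_iff.mp h1.2 (g : G) rfl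
      rw [h2]; group
    have hfree : ∀ k, 0 < k → k < Nat.card H → ∀ a : ↥P,
        ((conjHom P (g : G) hxN)^[k] a) * a⁻¹ ∈ Subgroup.center ↥P → a ∈ Subgroup.center ↥P := by
      intro k hk0 hk a hza
      have hy1 : (g : G) ^ k ≠ 1 := pow_ne_one_of_lt_orderOf hk0.ne' (hord ▸ hk)
      have hyH : (g : G) ^ k ∈ H := H.pow_mem g.2 k
      have hfy := hfix _ hyH hy1
      obtain ⟨z, hz'⟩ : ∃ z : ↥P, z = ((conjHom P (g : G) hxN)^[k] a) * a⁻¹ := ⟨_, rfl⟩
      rw [← hz'] at hza
      have hzG : (z : G) = (g : G) ^ k * a * ((g : G) ^ k)⁻¹ * (a : G)⁻¹ := by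
        rw [hz']
        show (((conjHom P (g : G) hxN)^[k] a : ↥P) : G) * ((a⁻¹ : ↥P) : G) = _
        rw [conjHom_iter]; rfl
      have hzmem : (z : G) ∈ (Subgroup.center ↥P).map P.subtype := ⟨z, hza, rfl⟩
      rw [← hfy] at hzmem
      have hcomz : (g : G) ^ k * (z : G) = (z : G) * (g : G) ^ k :=
        Subgroup.mem_centralizer_iff.mp hzmem.2 _ rfl
      have hstep : (g : G) ^ k * a * ((g : G) ^ k)⁻¹ = (z : G) * a := by
        rw [hzG]; group
      have hiter : ∀ j : ℕ, ((g : G) ^ k) ^ j * a * (((g : G) ^ k) ^ j)⁻¹ = (z : G) ^ j * a := by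
        intro j
        induction j with
        | zero => simp
        | succ j ih =>
          have h1 : ((g : G) ^ k) ^ (j + 1) * a * (((g : G) ^ k) ^ (j + 1))⁻¹ =
              ((g : G) ^ k) ^ j * ((g : G) ^ k * a * ((g : G) ^ k)⁻¹) * (((g : G) ^ k) ^ j)⁻¹ := by
            rw [pow_succ]; group
          have hcomj : ((g : G) ^ k) ^ j * (z : G) = (z : G) * ((g : G) ^ k) ^ j :=
            (Commute.pow_left (show Commute ((g : G) ^ k) (z : G) from hcomz) j).eq
          have h2 : ((g : G) ^ k) ^ j * ((z : G) * a) * (((g : G) ^ k) ^ j)⁻¹ =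
              (z : G) * (((g : G) ^ k) ^ j * a * (((g : G) ^ k) ^ j)⁻¹) := by
            rw [← mul_assoc, hcomj]; group
          rw [h1, hstep, h2, ih, ← mul_assoc, ← pow_succ']
      have hzo : (z : G) ^ orderOf ((g : G) ^ k) = 1 := by
        have := hiter (orderOf ((g : G) ^ k))
        rw [pow_orderOf_eq_one] at this
        simp only [one_mul, inv_one, mul_one] at this
        exact mul_eq_right.mp this.symm
      have hzp : (z : G) ^ p = 1 := by
        have h1 : (⟨z, hza⟩ : Subgroup.center ↥P) ^ p = 1 := by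
          rw [← hZ]; exact pow_card_eq_one'
        have h2 := congrArg (fun c : Subgroup.center ↥P => ((c : ↥P) : G)) h1
        simpa using h2
      have hdvd : orderOf ((g : G) ^ k) ∣ Nat.card H := by
        apply orderOf_dvd_of_pow_eq_one
        rw [← pow_mul, mul_comm, pow_mul, ← hord, pow_orderOf_eq_one, one_pow]
      have hz1 : (z : G) = 1 := by
        have h1 := orderOf_dvd_of_pow_eq_one hzo
        have h2 := orderOf_dvd_of_pow_eq_one hzp
        have h3 : orderOf (z : G) ∣ Nat.gcd (Nat.card H) p := Nat.dvd_gcd (h1.trans hdvd) h2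
        rw [hcop] at h3
        exact orderOf_eq_one_iff.mp (Nat.dvd_one.mp h3)
      have hcomm_a : (a : G) ∈ P ⊓ Subgroup.centralizer {(g : G) ^ k} := by
        refine ⟨a.2, ?_⟩
        show (a : G) ∈ Subgroup.centralizer {(g : G) ^ k}
        rw [Subgroup.mem_centralizer_iff]
        intro y hy
        rw [Set.mem_singleton_iff] at hy
        subst hy
        rw [hz1, one_mul] at hstep
        have : (g : G) ^ k * a = (g : G) ^ k * a * ((g : G) ^ k)⁻¹ * (g : G) ^ k := by group
        rw [this, hstep]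
      rw [hfy] at hcomm_a
      obtain ⟨c, hc, hca⟩ := hcomm_a
      have : c = a := Subtype.ext hca
      rw [← this]; exact hc
    exact @Cfsg.Agent.Helper70.cyc_group ↥P _ _ p _ (AddCommGroup.zmodModule hadd) hcomm hZ n
      (Nat.card H) hn (conjHom P (g : G) hxN) (conjHom P (g : G)⁻¹ (inv_mem hxN)) hfg hfh hfree hz
      hcop.symm h3
  · have h12 : Nat.card H = 1 ∨ Nat.card H = 2 := by omega
    rcases h12 with h1 | h2
    · left; rw [h1]; exact one_dvd _
    · left
      rw [h2] at hcop ⊢
      have hodd : Odd p := by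
        rcases hp.eq_two_or_odd' with h | h
        · rw [h] at hcop; norm_num at hcop
        · exact h
      have : Odd (p ^ n) := hodd.pow
      exact (this.add_odd odd_one).two_dvd

end Cfsg.Agent.S3767
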