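import Cfsg.Statements.S3768
import Cfsg.Agent.Helper29.FrobConj
import Cfsg.Agent.S3383

set_option autoImplicit false
open Cfsg

namespace Cfsg.Agent.S3768

/-- Let G be a finite Frobenius group with Frobenius complement R and Frobenius kernel K (the identity together with the elements in no conjugate of R), and let N be a normal subgroup of G not containing K. Then G/N is a Frobenius group with Frobenius complement RN/N whose Frobenius kernel is the image of K. -/
theorem result {G : Type*} [Group G] [Finite G] (R : Subgroup G) (hR : Cfsg.IsFrobeniusComplement R) (N : Subgroup G) [N.Normal] (hKN : ¬ Cfsg.frobeniusKernel R ⊆ N) : Cfsg.IsFrobeniusComplement (R.map (QuotientGroup.mk' N)) ∧ Cfsg.frobeniusKernel (R.map (QuotientGroup.mk' N)) = QuotientGroup.mk' N '' Cfsg.frobeniusKernel R := by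
  classical
  obtain ⟨K, hK, hp⟩ := Cfsg.Agent.Helper29.exists_frobPair R hR
  have hKn := hp.normal
  have hNK : N ≤ K := by
    rcases (Cfsg.Agent.S3383.result R hR K hK).2 N inferInstance with h | h
    · exfalso
      apply hKN
      rw [← hK]
      exact h
    · exact h
  obtain ⟨k₀, hk₀K, hk₀N⟩ : ∃ k ∈ K, k ∉ N := by
    by_contra hcon
    push Not at hcon
    apply hKN
    rw [← hK]
    exact fun x hx => hcon x hx
  have hπ : ∀ a b : G, QuotientGroup.mk' N a = QuotientGroup.mk' N b ↔ a⁻¹ * b ∈ N :=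
    fun a b => QuotientGroup.eq
  have hπ1 : ∀ a : G, QuotientGroup.mk' N a = 1 ↔ a ∈ N := fun a => QuotientGroup.eq_one_iff a
  have hRN : ∀ r ∈ R, r ∈ N → r = 1 := fun r hr hrN => hp.disjoint (hNK hrN) hr
  have hmemR : ∀ y : G, QuotientGroup.mk' N y ∈ R.map (QuotientGroup.mk' N) →
      ∃ r ∈ R, r⁻¹ * y ∈ N := by
    intro y hy
    obtain ⟨r, hr, hry⟩ := Subgroup.mem_map.mp hy
    exact ⟨r, hr, (hπ r y).mp hry⟩
  -- injectivity of the commutator map on `K`
  have hinj : ∀ x ∈ R, x ≠ 1 → ∀ k ∈ K, ∀ k' ∈ K, x⁻¹ * k⁻¹ * x * k = x⁻¹ * k'⁻¹ * x * k' →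
      k = k' := by
    intro x hx hx1 k hk k' hk' he
    have hxK : x ∉ K := fun hxK => hx1 (hp.disjoint hxK hx)
    have h1 : x * (k * k'⁻¹) = (k * k'⁻¹) * x := by
      calc x * (k * k'⁻¹) = k * x * (x⁻¹ * k⁻¹ * x * k) * k'⁻¹ := by group
        _ = k * x * (x⁻¹ * k'⁻¹ * x * k') * k'⁻¹ := by rw [he]
        _ = (k * k'⁻¹) * x := by group
    have h2 := hp.eq_one_of_commute hxK (K.mul_mem hk (K.inv_mem hk')) h1
    exact mul_inv_eq_one.mp h2
  have hcent : ∀ x ∈ R, x ≠ 1 → ∀ k ∈ K, x⁻¹ * k⁻¹ * x * k ∈ N → k ∈ N := by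
    intro x hx hx1 k hk hxk
    let f : N → N := fun n => ⟨x⁻¹ * (n : G)⁻¹ * x * n, by
      have h1 : x⁻¹ * (n : G)⁻¹ * x⁻¹⁻¹ ∈ N := (inferInstance : N.Normal).conj_mem _ (N.inv_mem n.2) x⁻¹
      have h2 : x⁻¹ * (n : G)⁻¹ * x * n = x⁻¹ * (n : G)⁻¹ * x⁻¹⁻¹ * n := by group
      rw [h2]
      exact N.mul_mem h1 n.2⟩
    have hf : Function.Injective f := by
      intro a b hab
      apply Subtype.ext
      exact hinj x hx hx1 a (hNK a.2) b (hNK b.2) (congrArg Subtype.val hab)
    obtain ⟨n, hn⟩ := Finite.surjective_of_injective hf ⟨_, hxk⟩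
    have h3 : x⁻¹ * (n : G)⁻¹ * x * n = x⁻¹ * k⁻¹ * x * k := congrArg Subtype.val hn
    have h4 := hinj x hx hx1 n (hNK n.2) k hk h3
    rw [← h4]
    exact n.2
  refine ⟨?_, ?_⟩
  · rw [Cfsg.Agent.Helper71.isFrobeniusComplement_iff]
    refine ⟨?_, ?_, ?_⟩
    · intro hbot
      apply hp.ne_bot
      rw [Subgroup.eq_bot_iff_forall]
      intro r hr
      have h1 : QuotientGroup.mk' N r ∈ R.map (QuotientGroup.mk' N) := Subgroup.mem_map_of_mem _ hr
      rw [hbot, Subgroup.mem_bot, hπ1] at h1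
      exact hRN r hr h1
    · intro htop
      have h1 : QuotientGroup.mk' N k₀ ∈ R.map (QuotientGroup.mk' N) := by
        rw [htop]; exact Subgroup.mem_top _
      obtain ⟨r, hr, hrk⟩ := hmemR k₀ h1
      have h2 : r ∈ K := by
        have : r = k₀ * (r⁻¹ * k₀)⁻¹ := by group
        rw [this]
        exact K.mul_mem hk₀K (K.inv_mem (hNK hrk))
      have h3 := hp.disjoint h2 hr
      rw [h3] at hrk
      exact hk₀N (by simpa using hrk)
    · intro gbar hg xbar hx hgx
      obtain ⟨g, rfl⟩ := QuotientGroup.mk'_surjective N gbar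
      obtain ⟨x, hxR, rfl⟩ := Subgroup.mem_map.mp hx
      obtain ⟨k, hk, r, hr, rfl⟩ := hp.exists_mul g
      by_contra hx1
      have hx1' : x ≠ 1 := by
        rintro rfl
        exact hx1 (map_one _)
      have h1 : QuotientGroup.mk' N ((k * r)⁻¹ * x * (k * r)) ∈ R.map (QuotientGroup.mk' N) := by
        simpa using hgx
      obtain ⟨r', hr', hr'e⟩ := hmemR _ h1
      -- `r'' = r r' r⁻¹`
      have h2 : (r * r' * r⁻¹)⁻¹ * x * (x⁻¹ * k⁻¹ * x * k) ∈ N := by
        have h3 : (r * r' * r⁻¹)⁻¹ * x * (x⁻¹ * k⁻¹ * x * k) =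
            r * (r'⁻¹ * ((k * r)⁻¹ * x * (k * r))) * r⁻¹ := by group
        rw [h3]
        exact (inferInstance : N.Normal).conj_mem _ hr'e r
      have h4 : x⁻¹ * k⁻¹ * x * k ∈ K := by
        have h5 : x⁻¹ * k⁻¹ * x⁻¹⁻¹ ∈ K := hKn.conj_mem _ (K.inv_mem hk) x⁻¹
        have h6 : x⁻¹ * k⁻¹ * x * k = x⁻¹ * k⁻¹ * x⁻¹⁻¹ * k := by group
        rw [h6]
        exact K.mul_mem h5 hk
      have h7 : (r * r' * r⁻¹)⁻¹ * x ∈ K := by
        have h8 : (r * r' * r⁻¹)⁻¹ * x =
            (r * r' * r⁻¹)⁻¹ * x * (x⁻¹ * k⁻¹ * x * k) * (x⁻¹ * k⁻¹ * x * k)⁻¹ := by group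
        rw [h8]
        exact K.mul_mem (hNK h2) (K.inv_mem h4)
      have h9 : (r * r' * r⁻¹)⁻¹ * x ∈ R :=
        R.mul_mem (R.inv_mem (R.mul_mem (R.mul_mem hr hr') (R.inv_mem hr))) hxR
      have h10 := hp.disjoint h7 h9
      rw [h10, one_mul] at h2
      have hkN : k ∈ N := hcent x hxR hx1' k hk h2
      apply hg
      have h11 : QuotientGroup.mk' N (k * r) = QuotientGroup.mk' N r := by
        rw [hπ]
        have : (k * r)⁻¹ * r = r⁻¹ * k⁻¹ * r⁻¹⁻¹ := by group
        rw [this]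
        exact (inferInstance : N.Normal).conj_mem _ (N.inv_mem hkN) r⁻¹
      rw [h11]
      exact Subgroup.mem_map_of_mem _ hr
  · ext ybar
    obtain ⟨y, rfl⟩ := QuotientGroup.mk'_surjective N ybar
    rw [Cfsg.Agent.Helper29.mem_frobeniusKernel_iff]
    constructor
    · intro hy
      by_cases hyK : y ∈ K
      · exact ⟨y, by rw [← hK]; exact hyK, rfl⟩
      · obtain ⟨u, hu⟩ := hp.exists_conj hyK
        rcases hy with hy | hy
        · refine ⟨1, ?_, ?_⟩
          · rw [← hK]; exact K.one_mem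
          · rw [hy]; exact map_one _
        · exfalso
          apply hy (QuotientGroup.mk' N u)
          have : (QuotientGroup.mk' N u)⁻¹ * QuotientGroup.mk' N y * QuotientGroup.mk' N u =
              QuotientGroup.mk' N (u⁻¹ * y * u) := by simp
          rw [this]
          exact Subgroup.mem_map_of_mem _ hu
    · rintro ⟨k, hk, hky⟩
      rw [← hK] at hk
      have hkK : k ∈ K := hk
      by_cases hkN : k ∈ N
      · left
        rw [← hky]
        exact (hπ1 k).mpr hkN
      · right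
        intro gbar hmem
        obtain ⟨g, rfl⟩ := QuotientGroup.mk'_surjective N gbar
        apply hkN
        have h1 : QuotientGroup.mk' N (g⁻¹ * k * g) ∈ R.map (QuotientGroup.mk' N) := by
          rw [← hky] at hmem
          simpa using hmem
        obtain ⟨r, hr, hre⟩ := hmemR _ h1
        have h2 : g⁻¹ * k * g ∈ K := by
          have := hKn.conj_mem k hkK g⁻¹
          simpa using this
        have h3 : r ∈ K := by
          have : r = (g⁻¹ * k * g) * (r⁻¹ * (g⁻¹ * k * g))⁻¹ := by group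
          rw [this]
          exact K.mul_mem h2 (K.inv_mem (hNK hre))
        have h4 := hp.disjoint h3 hr
        rw [h4, inv_one, one_mul] at hre
        have h5 := (inferInstance : N.Normal).conj_mem _ hre g
        have h6 : g * (g⁻¹ * k * g) * g⁻¹ = k := by group
        rw [h6] at h5
        exact h5

end Cfsg.Agent.S3768
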