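import Cfsg.Statements.S3769
import Cfsg.Agent.Helper63.ShultGroup
import Cfsg.Agent.Helper63.Extraspecial

set_option autoImplicit false

open Cfsg

namespace Cfsg.Agent.S3769

open Cfsg.Agent.Helper63 Cfsg.Agent.Helper63.Shult

open scoped Pointwise

/-- Let G and V be subgroups of a finite group with G solvable of odd order normalizing V, V an elementary abelian ℓ-group for a prime ℓ not dividing the order of G, and suppose G has a normal Hall subgroup K with a complement R of prime order. If C_V(R) = 1, then [R, K] centralizes V. -/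
theorem result {X : Type*} [Group X] [Finite X] (G : Subgroup X) (hsolv : Group.IsSolvable G) (hodd : Odd (Nat.card G)) (V : Subgroup X) {ℓ : ℕ} (hℓ : ℓ.Prime) (hV : Cfsg.IsElementaryAbelian ℓ V) (hℓG : ¬ ℓ ∣ Nat.card G) (hGV : G ≤ Subgroup.normalizer (V : Set X)) (K R : Subgroup X) (hKG : K ≤ G) (hKn : G ≤ Subgroup.normalizer (K : Set X)) (hHall : (Nat.card K).Coprime (K.relIndex G)) (hRG : R ≤ G) (hR : (Nat.card R).Prime) (hKR : K ⊓ R = ⊥) (hKRG : K ⊔ R = G) (hCV : V ⊓ Subgroup.centralizer (R : Set X) = ⊥) : ⁅R, K⁆ ≤ Subgroup.centralizer (V : Set X) := by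
  obtain ⟨r, hrdef⟩ : ∃ r, r = Nat.card R := ⟨_, rfl⟩
  rw [← hrdef] at hR
  haveI : Fact r.Prime := ⟨hR⟩
  -- `r` does not divide `|K|`
  haveI hKnormal : (K.subgroupOf G).Normal := Subgroup.normal_subgroupOf_of_le_normalizer hKn
  have hrK : ¬ r ∣ Nat.card K := by
    intro hdvd
    have h1 : r ∣ K.relIndex G := by
      let f : ↥R →* ↥G ⧸ K.subgroupOf G :=
        (QuotientGroup.mk' (K.subgroupOf G)).comp (Subgroup.inclusion hRG)
      have hf : Function.Injective f := by
        rw [injective_iff_map_eq_one]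
        intro a ha
        have h2 : Subgroup.inclusion hRG a ∈ K.subgroupOf G := (QuotientGroup.eq_one_iff _).mp ha
        rw [Subgroup.mem_subgroupOf] at h2
        have h3 : (a : X) ∈ K ⊓ R := ⟨h2, a.2⟩
        rw [hKR] at h3
        exact Subtype.ext (Subgroup.mem_bot.mp h3)
      have h4 := Subgroup.card_dvd_of_injective f hf
      rw [← hrdef] at h4
      exact h4
    have h5 := Nat.dvd_gcd hdvd h1
    rw [hHall.gcd_eq_one] at h5
    exact hR.one_lt.ne' (Nat.dvd_one.mp h5)
  -- main claim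
  have claim : ∀ x ∈ R, x ≠ 1 → ∀ k ∈ K,
      x * k * x⁻¹ * k⁻¹ ∈ Subgroup.centralizer (V : Set X) := by
    intro x hx hx1
    have hxr : x ^ r = 1 := pow_eq_one_of_mem_of_card R hrdef.symm hx
    have hgen := exists_pow_of_card_prime R hR hrdef.symm hx hx1
    have hxV : x ∈ Subgroup.normalizer (V : Set X) := hGV (hRG hx)
    have hxKn : x ∈ Subgroup.normalizer (K : Set X) := hKn (hRG hx)
    have hfixV : ∀ a ∈ V, x * a = a * x → a = 1 := by
      intro a ha hax
      have h0 : a ∈ Subgroup.centralizer (R : Set X) := by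
        rw [Subgroup.mem_centralizer_iff]
        intro y hy
        obtain ⟨k, rfl⟩ := hgen y hy
        exact ((Commute.pow_left (show Commute x a from hax) k)).eq
      have h1 : a ∈ V ⊓ Subgroup.centralizer (R : Set X) := ⟨ha, h0⟩
      rw [hCV] at h1
      exact Subgroup.mem_bot.mp h1
    have hCn : ∀ g ∈ Subgroup.normalizer (V : Set X), ∀ c ∈ Subgroup.centralizer (V : Set X),
        g * c * g⁻¹ ∈ Subgroup.centralizer (V : Set X) := by
      intro g hg c hc
      rw [Subgroup.mem_centralizer_iff] at hc ⊢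
      intro v hv
      have hv' : g⁻¹ * v * g ∈ V := (Subgroup.mem_normalizer_iff''.mp hg v).mp hv
      have h1 := hc _ hv'
      calc v * (g * c * g⁻¹) = g * ((g⁻¹ * v * g) * c) * g⁻¹ := by group
        _ = g * (c * (g⁻¹ * v * g)) * g⁻¹ := by rw [h1]
        _ = g * c * g⁻¹ * v := by group
    let D : Subgroup X :=
      { carrier := {g | g ∈ K ∧ x * g * x⁻¹ * g⁻¹ ∈ Subgroup.centralizer (V : Set X)}
        one_mem' := by
          refine ⟨Subgroup.one_mem _, ?_⟩
          have h1 : x * 1 * x⁻¹ * (1 : X)⁻¹ = 1 := by group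
          rw [h1]
          exact Subgroup.one_mem _
        mul_mem' := by
          rintro a b ⟨ha, ha'⟩ ⟨hb, hb'⟩
          refine ⟨Subgroup.mul_mem _ ha hb, ?_⟩
          have h1 : x * (a * b) * x⁻¹ * (a * b)⁻¹ =
              (x * a * x⁻¹ * a⁻¹) * (a * (x * b * x⁻¹ * b⁻¹) * a⁻¹) := by group
          rw [h1]
          exact Subgroup.mul_mem _ ha' (hCn a (hGV (hKG ha)) _ hb')
        inv_mem' := by
          rintro a ⟨ha, ha'⟩
          refine ⟨Subgroup.inv_mem _ ha, ?_⟩
          have h1 : x * a⁻¹ * x⁻¹ * a⁻¹⁻¹ = a⁻¹ * (x * a * x⁻¹ * a⁻¹)⁻¹ * a⁻¹⁻¹ := by group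
          rw [h1]
          exact hCn a⁻¹ (Subgroup.inv_mem _ (hGV (hKG ha))) _ (Subgroup.inv_mem _ ha') }
    have hDmem : ∀ g, g ∈ D ↔
        g ∈ K ∧ x * g * x⁻¹ * g⁻¹ ∈ Subgroup.centralizer (V : Set X) := fun g => Iff.rfl
    have hidx : (D.subgroupOf K).index = 1 := by
      by_contra hne1
      obtain ⟨q, hq, hqdvd⟩ := Nat.exists_prime_and_dvd hne1
      haveI : Fact q.Prime := ⟨hq⟩
      have hqK : q ∣ Nat.card K := dvd_trans hqdvd (Subgroup.index_dvd_card _)
      have hqG : q ∣ Nat.card G := dvd_trans hqK (Subgroup.card_dvd_of_le hKG)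
      have hqr : q ≠ r := by
        intro h
        rw [h] at hqK
        exact hrK hqK
      have hℓq : ℓ ≠ q := by
        intro h
        rw [← h] at hqG
        exact hℓG hqG
      have hℓr : ℓ ≠ r := by
        intro h
        apply hℓG
        rw [h, hrdef]
        exact Subgroup.card_dvd_of_le hRG
      have hq2 : q ≠ 2 := by
        intro h
        rw [h] at hqG
        exact (Nat.not_even_iff_odd.mpr hodd) (even_iff_two_dvd.mpr hqG)
      let φ : MulAut ↥K := conjAut K x hxKn
      have hφr : φ ^ r = 1 := conjAut_pow_eq_one K x hxKn hxr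
      have hZ : IsPGroup r ↥(Subgroup.zpowers φ) := by
        rintro ⟨g, hg⟩
        obtain ⟨k, rfl⟩ := Subgroup.mem_zpowers_iff.mp hg
        refine ⟨1, ?_⟩
        apply Subtype.ext
        rw [pow_one]
        show (φ ^ k) ^ r = 1
        rw [← zpow_natCast, ← zpow_mul, mul_comm, zpow_mul, zpow_natCast, hφr, one_zpow]
      obtain ⟨P₀⟩ : Nonempty (Sylow q ↥K) := inferInstance
      have hnd : ¬ r ∣ Nat.card (Sylow q ↥K) := by
        intro h
        exact hrK (dvd_trans h (dvd_trans (Sylow.card_dvd_index P₀) (Subgroup.index_dvd_card _)))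
      obtain ⟨S, hS⟩ := hZ.nonempty_fixed_point_of_prime_not_dvd_card (Sylow q ↥K) hnd
      have hSφ : ∀ s ∈ (S : Subgroup ↥K), φ s ∈ (S : Subgroup ↥K) := by
        intro s hs
        have h1 : (⟨φ, Subgroup.mem_zpowers φ⟩ : ↥(Subgroup.zpowers φ)) • S = S := hS _
        have h2 : φ • S = S := h1
        have h3 : φ • s ∈ φ • (S : Subgroup ↥K) := Subgroup.smul_mem_pointwise_smul s φ _ hs
        rw [← Sylow.pointwise_smul_def, h2] at h3
        exact h3
      have hSD : (S : Subgroup ↥K) ≤ D.subgroupOf K := by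
        intro s hs
        rw [Subgroup.mem_subgroupOf, hDmem]
        refine ⟨s.2, ?_⟩
        by_contra hcon
        have hQ : IsPGroup q ↥((S : Subgroup ↥K).map K.subtype) := S.isPGroup'.map _
        have hQle : (S : Subgroup ↥K).map K.subtype ≤ K := by
          rintro _ ⟨a, _, rfl⟩
          exact a.2
        obtain ⟨h2, -, -⟩ := shult_group hℓ hq hR hℓq hℓr hqr
          ((S : Subgroup ↥K).map K.subtype) V hQ hV (le_trans hQle (le_trans hKG hGV)) x hxV hxr
          (by
            rintro _ ⟨a, ha, rfl⟩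
            exact ⟨φ a, hSφ a ha, rfl⟩)
          hfixV ⟨s, ⟨s, hs, rfl⟩, hcon⟩
        exact hq2 h2
      have h6 : (D.subgroupOf K).index ∣ (S : Subgroup ↥K).index := Subgroup.index_dvd_of_le hSD
      exact S.not_dvd_index (dvd_trans hqdvd h6)
    intro k hk
    have h7 : D.subgroupOf K = ⊤ := Subgroup.index_eq_one.mp hidx
    have h8 : (⟨k, hk⟩ : ↥K) ∈ D.subgroupOf K := by
      rw [h7]
      exact Subgroup.mem_top _
    rw [Subgroup.mem_subgroupOf, hDmem] at h8
    exact h8.2
  rw [Subgroup.commutator_le]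
  intro a ha k hk
  rw [commutatorElement_def]
  by_cases ha1 : a = 1
  · rw [ha1]
    have h1 : (1 : X) * k * 1⁻¹ * k⁻¹ = 1 := by group
    rw [h1]
    exact Subgroup.one_mem _
  · exact claim a ha ha1 k hk

end Cfsg.Agent.S3769
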