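import Cfsg.Statements.S3770
import Cfsg.Agent.Helper70.FrobAct
import Cfsg.Agent.Helper11.FrobThm

set_option autoImplicit false
open Cfsg

namespace Cfsg.Agent.S3770

/-- Let G and V be subgroups of a finite group with G a Frobenius group with complement R of prime order and kernel K, G normalizing V, and V an elementary abelian ℓ-group for a prime ℓ not dividing the order of G. If C_V(R) has order ℓ, then the derived subgroup of K centralizes V. -/
theorem result {X : Type*} [Group X] [Finite X] (G : Subgroup X) (V : Subgroup X) {ℓ : ℕ} (hℓ : ℓ.Prime) (hV : Cfsg.IsElementaryAbelian ℓ V) (hℓG : ¬ ℓ ∣ Nat.card G) (hGV : G ≤ Subgroup.normalizer (V : Set X)) (R : Subgroup ↥G) (hR : Cfsg.IsFrobeniusComplement R) (hRp : (Nat.card R).Prime) (hCV : Nat.card ↥(V ⊓ Subgroup.centralizer ((R.map G.subtype : Subgroup X) : Set X)) = ℓ) : ⁅Subgroup.closure (Subtype.val '' Cfsg.frobeniusKernel R), Subgroup.closure (Subtype.val '' Cfsg.frobeniusKernel R)⁆ ≤ Subgroup.centralizer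 (V : Set X) := by
  obtain ⟨N, hNset, hNn, hNc⟩ := Cfsg.Agent.Helper11.frobenius_kernel_subgroup R hR
  obtain ⟨hR1, -, hFrob⟩ := (Cfsg.Agent.Helper71.isFrobeniusComplement_iff R).mp hR
  have hclos : Subgroup.closure (Subtype.val '' Cfsg.frobeniusKernel R) = N.map G.subtype := by
    rw [← hNset, ← Subgroup.closure_eq (N.map G.subtype), Subgroup.coe_map]
    rfl
  rw [hclos]
  have hNR : ∀ n : ↥G, n ∈ N → n ∈ R → n = 1 := by
    intro n hn hr
    have := hNc.disjoint.le_bot (show n ∈ N ⊓ R from ⟨hn, hr⟩)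
    exact Subgroup.mem_bot.mp this
  have hE1 : R.map G.subtype ≠ ⊥ := by
    intro h
    exact hR1 ((Subgroup.map_eq_bot_iff_of_injective R (Subgroup.subtype_injective G)).mp h)
  have hUn : ∀ e ∈ R.map G.subtype, ∀ u ∈ N.map G.subtype, e * u * e⁻¹ ∈ N.map G.subtype := by
    rintro _ ⟨r, hr, rfl⟩ _ ⟨n, hn, rfl⟩
    exact ⟨r * n * r⁻¹, hNn.conj_mem n hn r, rfl⟩
  have hfpf : ∀ e ∈ R.map G.subtype, e ≠ 1 → ∀ u ∈ N.map G.subtype, e * u = u * e → u = 1 := by
    rintro _ ⟨r, hr, rfl⟩ hne _ ⟨n, hn, rfl⟩ hcomm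
    have hcomm' : r * n = n * r := Subtype.ext hcomm
    by_contra hn1
    have hnR : n ∉ R := fun h => hn1 (by rw [hNR n hn h]; rfl)
    have h1 : n⁻¹ * r * n = r := by
      rw [mul_assoc, hcomm', ← mul_assoc, inv_mul_cancel, one_mul]
    have h2 := hFrob n hnR r hr (by rw [h1]; exact hr)
    exact hne (by rw [h2]; rfl)
  have hle : N.map G.subtype ⊔ R.map G.subtype ≤ G :=
    sup_le (Subgroup.map_subtype_le _) (Subgroup.map_subtype_le _)
  have hHn : ∀ x ∈ N.map G.subtype ⊔ R.map G.subtype, ∀ h ∈ V, x * h * x⁻¹ ∈ V := by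
    intro x hx h hh
    exact (Subgroup.mem_normalizer_iff.mp (hGV (hle hx)) h).mp hh
  have hfact := Fact.mk hℓ
  have hsolv : Group.IsSolvable ↥V := Group.isSolvable_of_comm (fun a b => hV.1.is_comm.comm a b)
  have hVp : IsPGroup ℓ ↥V := by
    intro a
    refine ⟨1, ?_⟩
    rw [pow_one]
    exact Subtype.ext (hV.2 a a.2)
  obtain ⟨k, hk⟩ := IsPGroup.iff_card.mp hVp
  have hcop : Nat.Coprime (Nat.card V) (Nat.card ↥(N.map G.subtype ⊔ R.map G.subtype)) := by
    rw [hk]
    apply Nat.Coprime.pow_left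
    rw [Nat.Prime.coprime_iff_not_dvd hℓ]
    intro hdvd
    exact hℓG (hdvd.trans (Subgroup.card_dvd_of_le hle))
  have main := (Cfsg.Agent.Helper70.frob_group_main (N.map G.subtype) (R.map G.subtype) V hE1 hUn
    hfpf hHn hsolv hcop).2
  have hcyc : IsCyclic ↥(V ⊓ Subgroup.centralizer ((R.map G.subtype : Subgroup X) : Set X)) :=
    isCyclic_of_prime_card hCV
  have main' := main hcyc
  rw [Subgroup.commutator_le]
  intro g₁ h₁ g₂ h₂
  rw [Subgroup.mem_centralizer_iff]
  intro h hh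
  rw [commutatorElement_def]
  exact (main' g₁ h₁ g₂ h₂ h hh).symm

end Cfsg.Agent.S3770
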