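-- Statement S3774: 2-groups whose automorphism group is transitive on involutions.
import Cfsg.Statements.S3774

set_option autoImplicit false
open Cfsg

namespace Cfsg.Agent.S3774

/-- the power of `x` lying at the bottom of the cyclic group generated by `x` -/
noncomputable def botPow {G : Type*} [Group G] (x : G) : G := x ^ (orderOf x / 2)

theorem botPow_map {G : Type*} [Group G] (α : MulAut G) (x : G) : botPow (α x) = α (botPow x) := by
  unfold botPow
  rw [map_pow]
  have h : orderOf (α x) = orderOf x := orderOf_injective α.toMonoidHom α.injective x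
  rw [h]

theorem botPow_spec {G : Type*} [Group G] (hG : IsPGroup 2 G) (x : G) (hx : x ≠ 1) :
    botPow x ≠ 1 ∧ botPow x ^ 2 = 1 := by
  obtain ⟨k, hk⟩ := hG x
  have hdvd : orderOf x ∣ 2 ^ k := orderOf_dvd_of_pow_eq_one hk
  obtain ⟨j, hj, hjo⟩ := (Nat.dvd_prime_pow Nat.prime_two).1 hdvd
  have hj1 : j ≠ 0 := by
    rintro rfl
    rw [pow_zero, orderOf_eq_one_iff] at hjo
    exact hx hjo
  obtain ⟨i, rfl⟩ := Nat.exists_eq_succ_of_ne_zero hj1
  unfold botPow
  rw [hjo, pow_succ, Nat.mul_div_cancel _ (by norm_num)]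
  constructor
  · apply pow_ne_one_of_lt_orderOf (by positivity)
    rw [hjo, pow_succ]
    have : 0 < 2 ^ i := by positivity
    omega
  · rw [← pow_mul, ← pow_succ, ← hjo]; exact pow_orderOf_eq_one x

theorem pow_arith (n N r : ℕ) (hn : 1 ≤ n) (h : 2 ^ N - 1 = (2 ^ n - 1) * r) : ∃ m, 2 ^ N = (2 ^ n) ^ m := by
  have hdvd : 2 ^ n - 1 ∣ 2 ^ N - 1 := ⟨r, h⟩
  have hg := Nat.pow_sub_one_gcd_pow_sub_one 2 n N
  rw [Nat.gcd_eq_left hdvd] at hg
  have h1 : 1 ≤ 2 ^ n := Nat.one_le_two_pow
  have h2 : 1 ≤ 2 ^ (Nat.gcd n N) := Nat.one_le_two_pow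
  have h3 : 2 ^ n = 2 ^ (Nat.gcd n N) := by omega
  have h4 : n = Nat.gcd n N := Nat.pow_right_injective (le_refl 2) h3
  have h5 : n ∣ N := by rw [h4]; exact Nat.gcd_dvd_right _ _
  obtain ⟨m, rfl⟩ := h5
  exact ⟨m, by rw [pow_mul]⟩

/-- Let G be a nontrivial finite 2-group whose automorphism group permutes the involutions of G transitively. Then every involution of G is central, so that the involutions together with 1 form the subgroup Ω₁(Z(G)), and if this subgroup has order q then |G| is a power of q. -/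
theorem result {G : Type*} [Group G] [Finite G] [Nontrivial G] (hG : IsPGroup 2 G) (htrans : ∀ x y : G, x ≠ 1 → x ^ 2 = 1 → y ≠ 1 → y ^ 2 = 1 → ∃ a : MulAut G, a x = y) : (∀ x : G, x ^ 2 = 1 → x ∈ Subgroup.center G) ∧ ∃ m : ℕ, Nat.card G = Nat.card {z : G // z ^ 2 = 1} ^ m := by
  classical
  haveI : Fintype G := Fintype.ofFinite G
  -- a central involution
  have hc : ∃ z : G, z ∈ Subgroup.center G ∧ z ≠ 1 ∧ z ^ 2 = 1 := by
    haveI := hG.center_nontrivial
    obtain ⟨w, hw⟩ := exists_ne (1 : Subgroup.center G)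
    have hw1 : (w : G) ≠ 1 := fun h => hw (Subtype.ext h)
    exact ⟨botPow (w : G), pow_mem w.2 _, (botPow_spec hG w hw1).1, (botPow_spec hG w hw1).2⟩
  obtain ⟨z0, hz0c, hz01, hz02⟩ := hc
  have part1 : ∀ x : G, x ^ 2 = 1 → x ∈ Subgroup.center G := by
    intro x hx
    by_cases hx1 : x = 1
    · rw [hx1]; exact one_mem _
    obtain ⟨a, ha⟩ := htrans z0 x hz01 hz02 hx1 hx
    have hchar : (Subgroup.center G).Characteristic := inferInstance
    have hfix := hchar.fixed a
    have h2 : z0 ∈ (Subgroup.center G).comap a.toMonoidHom := by rw [hfix]; exact hz0c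
    rw [← ha]
    exact h2
  refine ⟨part1, ?_⟩
  -- the subgroup of elements of order dividing 2
  let Z1 : Subgroup G :=
    { carrier := {z : G | z ^ 2 = 1}
      mul_mem' := by
        intro a b ha hb
        have ha' : a ^ 2 = 1 := ha
        have hb' : b ^ 2 = 1 := hb
        have hcomm : Commute a b := (Subgroup.mem_center_iff.1 (part1 a ha') b).symm
        show (a * b) ^ 2 = 1
        rw [hcomm.mul_pow, ha', hb', one_mul]
      one_mem' := by show (1 : G) ^ 2 = 1; simp
      inv_mem' := by
        intro a ha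
        have ha' : a ^ 2 = 1 := ha
        show (a⁻¹) ^ 2 = 1
        rw [inv_pow, ha', inv_one] }
  have hZ1card : Nat.card {z : G // z ^ 2 = 1} = Nat.card Z1 := rfl
  obtain ⟨n, hn⟩ := (IsPGroup.iff_card (p := 2)).1 (hG.to_subgroup Z1)
  obtain ⟨N, hN⟩ := (IsPGroup.iff_card (p := 2)).1 hG
  have hn1 : 1 ≤ n := by
    by_contra hcon
    have hn0 : n = 0 := by omega
    rw [hn0, pow_zero] at hn
    have hsub : Subsingleton Z1 := (Nat.card_eq_one_iff_unique.1 hn).1
    have : (⟨z0, hz02⟩ : Z1) = ⟨1, Z1.one_mem⟩ := Subsingleton.elim _ _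
    exact hz01 (congrArg Subtype.val this)
  -- counting
  set S : Finset G := Finset.univ.filter (fun x => x ≠ 1) with hS
  set T : Finset G := Finset.univ.filter (fun z => z ≠ 1 ∧ z ^ 2 = 1) with hT
  have hmaps : (S : Set G).MapsTo botPow T := by
    intro x hx
    have hx' : x ≠ 1 := by simpa [hS] using hx
    have := botPow_spec hG x hx'
    simp only [hT, Finset.coe_filter, Finset.mem_univ, true_and, Set.mem_setOf_eq]
    exact this
  have hcount := Finset.card_eq_sum_card_fiberwise hmaps
  have hfib : ∀ b ∈ T, (S.filter (fun a => botPow a = b)).card = (S.filter (fun a => botPow a = z0)).card := by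
    intro b hb
    have hb' : b ≠ 1 ∧ b ^ 2 = 1 := by simpa [hT] using hb
    obtain ⟨a, ha⟩ := htrans z0 b hz01 hz02 hb'.1 hb'.2
    symm
    apply Finset.card_bij (fun x _ => a x)
    · intro x hx
      have hx' : x ≠ 1 ∧ botPow x = z0 := by simpa [hS] using hx
      have h1 : a x ≠ 1 := by
        intro h
        apply hx'.1
        apply a.injective
        rw [h, map_one]
      have h2 : botPow (a x) = b := by rw [botPow_map, hx'.2, ha]
      simp only [hS, Finset.mem_filter, Finset.mem_univ, true_and]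
      exact ⟨h1, h2⟩
    · intro x _ y _ h; exact a.injective h
    · intro y hy
      have hy' : y ≠ 1 ∧ botPow y = b := by simpa [hS] using hy
      refine ⟨a.symm y, ?_, by simp⟩
      have h1 : a.symm y ≠ 1 := by
        intro h
        apply hy'.1
        have := congrArg a h
        simpa using this
      have h2 : botPow (a.symm y) = z0 := by
        apply a.injective
        rw [← botPow_map]
        simp [hy'.2, ha]
      simp only [hS, Finset.mem_filter, Finset.mem_univ, true_and]
      exact ⟨h1, h2⟩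
  rw [Finset.sum_congr rfl hfib, Finset.sum_const, smul_eq_mul] at hcount
  -- |S| = |G| - 1
  have hScard : S.card = Nat.card G - 1 := by
    rw [hS, Finset.filter_ne' Finset.univ (1 : G), Finset.card_erase_of_mem (Finset.mem_univ _),
      Finset.card_univ, Nat.card_eq_fintype_card]
  -- |T| = q - 1
  have hTcard : T.card = Nat.card {z : G // z ^ 2 = 1} - 1 := by
    rw [Nat.card_eq_fintype_card, Fintype.card_subtype]
    have : T = (Finset.univ.filter (fun z : G => z ^ 2 = 1)).erase 1 := by
      ext z
      simp only [hT, Finset.mem_filter, Finset.mem_univ, true_and, Finset.mem_erase]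
    rw [this, Finset.card_erase_of_mem]
    simp
  rw [hScard, hTcard, hZ1card, hn, hN] at hcount
  rw [hZ1card, hn, hN]
  exact pow_arith n N _ hn1 hcount

end Cfsg.Agent.S3774
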