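-- Statement S3775: indecomposable coprime action on an abelian p-group.
import Cfsg.Statements.S3775

set_option autoImplicit false
open Cfsg

namespace Cfsg.Agent.S3775

variable {A : Type*} [CommGroup A]

/-- forward invariance under a group of automorphisms -/
def Inv (X : Subgroup (MulAut A)) (B : Subgroup A) : Prop := ∀ x ∈ X, ∀ b ∈ B, x b ∈ B

theorem inv_iff (X : Subgroup (MulAut A)) (B : Subgroup A) :
    (∀ x ∈ X, B.map x.toMonoidHom = B) ↔ Inv X B := by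
  constructor
  · intro h x hx b hb
    have : x b ∈ B.map x.toMonoidHom := ⟨b, hb, rfl⟩
    rwa [h x hx] at this
  · intro h x hx
    apply le_antisymm
    · rintro _ ⟨b, hb, rfl⟩
      exact h x hx b hb
    · intro a ha
      exact ⟨x⁻¹ a, h x⁻¹ (inv_mem hx) a ha, by simp⟩

theorem Inv.bot (X : Subgroup (MulAut A)) : Inv X ⊥ := by
  intro x _ b hb
  rw [Subgroup.mem_bot] at hb ⊢
  rw [hb, map_one]

theorem Inv.top (X : Subgroup (MulAut A)) : Inv X ⊤ := fun _ _ _ _ => Subgroup.mem_top _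

theorem Inv.inf {X : Subgroup (MulAut A)} {B C : Subgroup A} (hB : Inv X B) (hC : Inv X C) :
    Inv X (B ⊓ C) := fun x hx b hb => ⟨hB x hx b hb.1, hC x hx b hb.2⟩

theorem inv_powKer (X : Subgroup (MulAut A)) (n : ℕ) : Inv X (powMonoidHom n : A →* A).ker := by
  intro x _ b hb
  rw [MonoidHom.mem_ker, powMonoidHom_apply] at hb ⊢
  rw [← map_pow, hb, map_one]

theorem Inv.mapPow {X : Subgroup (MulAut A)} {B : Subgroup A} (hB : Inv X B) (n : ℕ) :
    Inv X (B.map (powMonoidHom n : A →* A)) := by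
  rintro x hx _ ⟨b, hb, rfl⟩
  refine ⟨x b, hB x hx b hb, ?_⟩
  rw [powMonoidHom_apply, powMonoidHom_apply, _root_.map_pow]

theorem Inv.comapPow {X : Subgroup (MulAut A)} {B : Subgroup A} (hB : Inv X B) (n : ℕ) :
    Inv X (B.comap (powMonoidHom n : A →* A)) := by
  intro x hx b hb
  rw [Subgroup.mem_comap, powMonoidHom_apply] at hb ⊢
  rw [← _root_.map_pow]
  exact hB x hx _ hb

/-- Bezout -/
theorem mem_of_zpow_mem {S : Subgroup A} {g : A} {p : ℕ} (hp : p.Prime) {k : ℤ}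
    (hk : ¬ (p : ℤ) ∣ k) (h1 : g ^ k ∈ S) (h2 : g ^ p ∈ S) : g ∈ S := by
  have hcop : IsCoprime k (p : ℤ) := by
    rw [Int.isCoprime_iff_gcd_eq_one]
    rw [Int.natCast_dvd] at hk
    have := (Nat.Prime.coprime_iff_not_dvd hp).2 hk
    rw [Int.gcd_comm]
    simpa [Int.gcd, Nat.Coprime] using this
  obtain ⟨u, v, huv⟩ := hcop
  have h3 : g = (g ^ k) ^ u * (g ^ (p : ℤ)) ^ v := by
    rw [← zpow_mul, ← zpow_mul, ← zpow_add, mul_comm k u, mul_comm (p : ℤ) v, huv, zpow_one]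
  rw [h3]
  refine mul_mem (zpow_mem h1 u) (zpow_mem ?_ v)
  rw [zpow_natCast]
  exact h2

theorem mem_of_pow_mem_of_coprime {S : Subgroup A} {g : A} {n : ℕ}
    (hn : n.Coprime (orderOf g)) (h : g ^ n ∈ S) : g ∈ S := by
  obtain ⟨m, hm⟩ := exists_pow_eq_self_of_coprime hn
  rw [← hm]
  exact pow_mem h m

/-- extending by one element of `p`-th power in `T` -/
theorem mem_of_mem_sup_zpowers {S T : Subgroup A} {d : A} {p : ℕ} (hp : p.Prime)
    (hdp : d ^ p ∈ T) (hd : d ∉ S ⊔ T) {y : A} (hyS : y ∈ S) (hy : y ∈ T ⊔ Subgroup.zpowers d) :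
    y ∈ T := by
  obtain ⟨t, ht, z, hz, rfl⟩ := Subgroup.mem_sup.1 hy
  obtain ⟨j, rfl⟩ := Subgroup.mem_zpowers_iff.1 hz
  by_cases hj : (p : ℤ) ∣ j
  · obtain ⟨j', rfl⟩ := hj
    refine mul_mem ht ?_
    rw [zpow_mul, zpow_natCast]
    exact zpow_mem hdp j'
  · exfalso
    apply hd
    refine mem_of_zpow_mem hp hj ?_ ((le_sup_right : T ≤ S ⊔ T) hdp)
    have : d ^ j = t⁻¹ * (t * d ^ j) := by group
    rw [this]
    exact mul_mem (inv_mem ((le_sup_right : T ≤ S ⊔ T) ht)) ((le_sup_left : S ≤ S ⊔ T) hyS)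

theorem aux_comm {a b c k k' k'' d d' : A} (h : a * k = d) (h' : b * k' = d')
    (h'' : c * k'' = d * d') : c⁻¹ * (a * b) = k'' * (k * k')⁻¹ := by
  subst h h'
  rw [inv_mul_eq_iff_eq_mul, ← mul_assoc, h'', eq_mul_inv_iff_mul_eq]
  exact mul_mul_mul_comm a b k k'

/-- **Maschke's theorem** for sections of an abelian `p`-group under a `p'`-group of automorphisms:
an invariant subgroup `M` with a complement `M₀` modulo `B` in `D` has an invariant one. -/
theorem maschke [Finite A] {p : ℕ} [Fact p.Prime] (hA : IsPGroup p A) (X : Subgroup (MulAut A))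
    (hX : (Nat.card X).Coprime p) {B M D M₀ : Subgroup A} (hB : Inv X B) (hM : Inv X M)
    (hD : Inv X D) (hBM : B ≤ M) (hMD : M ≤ D) (h1 : M ⊓ M₀ ≤ B) (h2 : D ≤ M ⊔ M₀) :
    ∃ M' : Subgroup A, Inv X M' ∧ B ≤ M' ∧ M' ≤ D ∧ M ⊓ M' ≤ B ∧ D ≤ M ⊔ M' := by
  classical
  haveI : Fintype ↥X := Fintype.ofFinite _
  -- a (set-theoretic) projection
  have hex : ∀ d : A, ∃ m : A, d ∈ D → m ∈ M ∧ ∃ m₀ ∈ M₀, m * m₀ = d := by
    intro d
    by_cases hd : d ∈ D
    · obtain ⟨m, hm, m₀, hm₀, h⟩ := Subgroup.mem_sup.1 (h2 hd)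
      exact ⟨m, fun _ => ⟨hm, m₀, hm₀, h⟩⟩
    · exact ⟨1, fun h => absurd h hd⟩
  choose π hπ using hex
  have hcoprime : ∀ g : A, (Nat.card X).Coprime (orderOf g) := by
    intro g
    obtain ⟨k, hk⟩ := hA g
    exact Nat.Coprime.coprime_dvd_right (orderOf_dvd_of_pow_eq_one hk) (Nat.Coprime.pow_right k hX)
  -- congruences modulo B
  have hcongr : ∀ x ∈ X, ∀ a b : A, (a : A ⧸ B) = (b : A ⧸ B) →
      ((x a : A) : A ⧸ B) = ((x b : A) : A ⧸ B) := by
    intro x hx a b hab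
    rw [QuotientGroup.eq] at hab ⊢
    have := hB x hx _ hab
    rwa [map_mul, map_inv] at this
  have hπmul : ∀ d ∈ D, ∀ d' ∈ D, ((π (d * d') : A) : A ⧸ B) = ((π d * π d' : A) : A ⧸ B) := by
    intro d hd d' hd'
    obtain ⟨hm, k, hk, hmk⟩ := hπ d hd
    obtain ⟨hm', k', hk', hmk'⟩ := hπ d' hd'
    obtain ⟨hm'', k'', hk'', hmk''⟩ := hπ (d * d') (mul_mem hd hd')
    rw [QuotientGroup.eq]
    apply h1
    refine Subgroup.mem_inf.2 ⟨mul_mem (inv_mem hm'') (mul_mem hm hm'), ?_⟩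
    have e : (π (d * d'))⁻¹ * (π d * π d') = k'' * (k * k')⁻¹ := aux_comm hmk hmk' hmk''
    rw [e]
    exact mul_mem hk'' (inv_mem (mul_mem hk hk'))
  have hπid : ∀ m ∈ M, ((π m : A) : A ⧸ B) = ((m : A) : A ⧸ B) := by
    intro m hm
    obtain ⟨hm', k, hk, hmk⟩ := hπ m (hMD hm)
    rw [QuotientGroup.eq]
    apply h1
    refine Subgroup.mem_inf.2 ⟨mul_mem (inv_mem hm') hm, ?_⟩
    have e : (π m)⁻¹ * m = k := by rw [inv_mul_eq_iff_eq_mul, hmk]
    rw [e]
    exact hk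
  -- the averaged projection
  set θ : A → A := fun d => ∏ x : ↥X, (x : MulAut A) (π ((x : MulAut A)⁻¹ d)) with hθ
  have hθM : ∀ d ∈ D, θ d ∈ M := by
    intro d hd
    apply Subgroup.prod_mem
    intro x _
    exact hM x x.2 _ (hπ _ (hD _ (inv_mem x.2) d hd)).1
  have hθmul : ∀ d ∈ D, ∀ d' ∈ D, ((θ (d * d') : A) : A ⧸ B) = ((θ d : A) : A ⧸ B) * ((θ d' : A) : A ⧸ B) := by
    intro d hd d' hd'
    simp only [hθ]
    rw [QuotientGroup.mk_prod, QuotientGroup.mk_prod, QuotientGroup.mk_prod, ← Finset.prod_mul_distrib]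
    refine Finset.prod_congr rfl (fun x _ => ?_)
    rw [← QuotientGroup.mk_mul, ← map_mul, map_mul ((x : MulAut A)⁻¹)]
    exact hcongr x x.2 _ _ (hπmul _ (hD _ (inv_mem x.2) d hd) _ (hD _ (inv_mem x.2) d' hd'))
  have hθid : ∀ m ∈ M, ((θ m : A) : A ⧸ B) = ((m : A) : A ⧸ B) ^ Nat.card X := by
    intro m hm
    simp only [hθ]
    rw [QuotientGroup.mk_prod]
    have : ∀ x ∈ (Finset.univ : Finset ↥X),
        (((x : MulAut A) (π ((x : MulAut A)⁻¹ m)) : A) : A ⧸ B) = ((m : A) : A ⧸ B) := by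
      intro x _
      have h3 := hcongr x x.2 _ _ (hπid _ (hM _ (inv_mem x.2) m hm))
      rw [h3, MulAut.apply_inv_self]
    rw [Finset.prod_congr rfl this, Finset.prod_const, Finset.card_univ, Nat.card_eq_fintype_card]
  have hθequiv : ∀ y ∈ X, ∀ d : A, θ (y d) = y (θ d) := by
    intro y hy d
    simp only [hθ]
    rw [map_prod]
    have := Fintype.prod_equiv (Equiv.mulLeft (⟨y, hy⟩ : ↥X))
      (fun x : ↥X => y ((x : MulAut A) (π ((x : MulAut A)⁻¹ d))))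
      (fun x : ↥X => (x : MulAut A) (π ((x : MulAut A)⁻¹ (y d)))) (fun x => by
        simp [mul_inv_rev, MulAut.mul_apply])
    exact this.symm
  have hθone : ((θ 1 : A) : A ⧸ B) = 1 := by
    rw [hθid 1 (one_mem M), QuotientGroup.mk_one, one_pow]
  have hθinv : ∀ d ∈ D, ((θ d⁻¹ : A) : A ⧸ B) = ((θ d : A) : A ⧸ B)⁻¹ := by
    intro d hd
    have := hθmul d hd d⁻¹ (inv_mem hd)
    rw [mul_inv_cancel, hθone] at this
    exact eq_inv_of_mul_eq_one_right this.symm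
  let M' : Subgroup A :=
    { carrier := {d | d ∈ D ∧ ((θ d : A) : A ⧸ B) = 1}
      one_mem' := ⟨one_mem D, hθone⟩
      mul_mem' := by
        rintro a b ⟨ha, ha'⟩ ⟨hb, hb'⟩
        exact ⟨mul_mem ha hb, by rw [hθmul a ha b hb, ha', hb', one_mul]⟩
      inv_mem' := by
        rintro a ⟨ha, ha'⟩
        exact ⟨inv_mem ha, by rw [hθinv a ha, ha', inv_one]⟩ }
  refine ⟨M', ?_, ?_, fun d hd => hd.1, ?_, ?_⟩
  · intro y hy d hd
    refine ⟨hD y hy d hd.1, ?_⟩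
    rw [hθequiv y hy d]
    have := hcongr y hy (θ d) 1 (by rw [hd.2, QuotientGroup.mk_one])
    rw [this, map_one, QuotientGroup.mk_one]
  · intro b hb
    refine ⟨hMD (hBM hb), ?_⟩
    rw [hθid b (hBM hb), (QuotientGroup.eq_one_iff b).2 hb, one_pow]
  · rintro m ⟨hm, hm'⟩
    have h3 := hθid m hm
    rw [hm'.2, ← QuotientGroup.mk_pow] at h3
    have h4 : m ^ Nat.card X ∈ B := (QuotientGroup.eq_one_iff _).1 h3.symm
    exact mem_of_pow_mem_of_coprime (hcoprime m) h4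
  · intro d hd
    obtain ⟨u, hu⟩ := exists_pow_eq_self_of_coprime (hcoprime (θ d))
    have hm₁ : (θ d) ^ u ∈ M := pow_mem (hθM d hd) u
    have h3 : (((θ ((θ d) ^ u) : A)) : A ⧸ B) = ((θ d : A) : A ⧸ B) := by
      rw [hθid _ hm₁, ← QuotientGroup.mk_pow, ← pow_mul, mul_comm, pow_mul, hu]
    have h4 : d * ((θ d) ^ u)⁻¹ ∈ M' := by
      refine ⟨mul_mem hd (inv_mem (hMD hm₁)), ?_⟩
      rw [hθmul d hd _ (inv_mem (hMD hm₁)), hθinv _ (hMD hm₁), h3, mul_inv_cancel]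
    have h5 : d = (θ d) ^ u * (d * ((θ d) ^ u)⁻¹) := by
      rw [mul_comm d, mul_inv_cancel_left]
    rw [h5]
    exact mul_mem ((le_sup_left : M ≤ M ⊔ M') hm₁) ((le_sup_right : M' ≤ M ⊔ M') h4)

/-- a subgroup which is "homocyclic of the top exponent" has a complement -/
theorem exists_complement [Finite A] {p : ℕ} [Fact p.Prime] (e' : ℕ)
    (hexp : ∀ a : A, a ^ p ^ (e' + 1) = 1) (W : Subgroup A)
    (hW : ∀ w ∈ W, w ^ p ^ e' = 1 → ∃ w₁ ∈ W, w₁ ^ p = w) :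
    ∃ C : Subgroup A, W ⊓ C = ⊥ ∧ W ⊔ C = ⊤ := by
  have hp := (Fact.out : p.Prime)
  obtain ⟨C, -, hC⟩ := Finite.exists_le_maximal (p := fun C : Subgroup A => W ⊓ C = ⊥) (a := ⊥)
    (inf_bot_eq W)
  have hWC : W ⊓ C = ⊥ := hC.prop
  refine ⟨C, hWC, ?_⟩
  by_contra hne
  obtain ⟨a, ha⟩ : ∃ a, a ∉ W ⊔ C := by
    by_contra h
    push Not at h
    exact hne (eq_top_iff.2 fun x _ => h x)
  have hex : ∃ k, a ^ p ^ k ∈ W ⊔ C := ⟨e' + 1, by rw [hexp]; exact one_mem _⟩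
  classical
  have hk0 : Nat.find hex ≠ 0 := by
    intro h0
    have := Nat.find_spec hex
    rw [h0, pow_zero, pow_one] at this
    exact ha this
  obtain ⟨k', hk'⟩ : ∃ k', Nat.find hex = k' + 1 := ⟨Nat.find hex - 1, by omega⟩
  have ha'1 : a ^ p ^ k' ∉ W ⊔ C := Nat.find_min hex (by omega)
  have ha'2 : (a ^ p ^ k') ^ p ∈ W ⊔ C := by
    have := Nat.find_spec hex
    rwa [hk', pow_succ, pow_mul] at this
  set a' := a ^ p ^ k' with ha'
  obtain ⟨w, hw, c, hc, hwc⟩ := Subgroup.mem_sup.1 ha'2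
  have hw1 : w ^ p ^ e' = 1 := by
    have h1 : (w * c) ^ p ^ e' = 1 := by
      rw [hwc, ← pow_mul, ← pow_succ']
      exact hexp a'
    rw [mul_pow] at h1
    have h2 : w ^ p ^ e' ∈ W ⊓ C := by
      refine Subgroup.mem_inf.2 ⟨pow_mem hw _, ?_⟩
      rw [eq_inv_of_mul_eq_one_left h1]
      exact inv_mem (pow_mem hc _)
    rw [hWC, Subgroup.mem_bot] at h2
    exact h2
  obtain ⟨w₁, hw₁, hw₁p⟩ := hW w hw hw1
  set a'' := a' * w₁⁻¹ with ha''
  have ha''1 : a'' ∉ W ⊔ C := by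
    intro h
    apply ha'1
    have : a' = a'' * w₁ := by rw [ha'', inv_mul_cancel_right]
    rw [this]
    exact mul_mem h ((le_sup_left : W ≤ W ⊔ C) hw₁)
  have ha''2 : a'' ^ p = c := by
    rw [ha'', mul_pow, inv_pow, hw₁p, ← hwc, mul_comm w c, mul_inv_cancel_right]
  have hmax : ¬ (W ⊓ (C ⊔ Subgroup.zpowers a'') = ⊥) := by
    intro h
    have := hC.le_of_ge h le_sup_left
    exact ha''1 ((le_sup_right : C ≤ W ⊔ C) (this ((le_sup_right : Subgroup.zpowers a'' ≤ C ⊔ Subgroup.zpowers a'') (Subgroup.mem_zpowers a''))))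
  apply hmax
  rw [eq_bot_iff, ← hWC]
  intro y hy
  exact Subgroup.mem_inf.2 ⟨hy.1, mem_of_mem_sup_zpowers hp (by rw [ha''2]; exact hc) ha''1 hy.1 hy.2⟩

/-- indecomposable implies irreducible socle -/
theorem irreducible_of_indecomposable [Finite A] {p : ℕ} [Fact p.Prime] (hA : IsPGroup p A)
    (X : Subgroup (MulAut A)) (hX : (Nat.card X).Coprime p)
    (hind : ¬ ∃ B C : Subgroup A, B ≠ ⊥ ∧ C ≠ ⊥ ∧ Inv X B ∧ Inv X C ∧ B ⊓ C = ⊥ ∧ B ⊔ C = ⊤) :
    ∀ V : Subgroup A, Inv X V → (∀ v ∈ V, v ^ p = 1) → V = ⊥ ∨ ∀ a : A, a ^ p = 1 → a ∈ V := by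
  have hp := (Fact.out : p.Prime)
  intro V hV hVp
  by_cases hVbot : V = ⊥
  · exact Or.inl hVbot
  right
  -- the exponent
  have hexp : ∃ e, ∀ a : A, a ^ p ^ e = 1 := by
    obtain ⟨n, hn⟩ := (IsPGroup.iff_card (p := p)).1 hA
    exact ⟨n, fun a => by rw [← hn]; exact pow_card_eq_one'⟩
  classical
  have he0 : Nat.find hexp ≠ 0 := by
    intro h0
    have := Nat.find_spec hexp
    rw [h0] at this
    apply hVbot
    rw [eq_bot_iff]
    intro v _
    have := this v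
    rw [pow_zero, pow_one] at this
    rw [Subgroup.mem_bot]; exact this
  obtain ⟨e', he'⟩ : ∃ e', Nat.find hexp = e' + 1 := ⟨Nat.find hexp - 1, by omega⟩
  have hexp1 : ∀ a : A, a ^ p ^ (e' + 1) = 1 := by
    have := Nat.find_spec hexp
    rwa [he'] at this
  have hexp2 : ∃ a : A, a ^ p ^ e' ≠ 1 := by
    have := Nat.find_min hexp (m := e') (by omega)
    push Not at this
    exact this
  -- complemented invariant subgroups are trivial
  have hstar : ∀ W : Subgroup A, Inv X W → (∃ C : Subgroup A, W ⊓ C = ⊥ ∧ W ⊔ C = ⊤) →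
      W = ⊥ ∨ W = ⊤ := by
    intro W hW ⟨C, hC1, hC2⟩
    obtain ⟨M', hM'inv, -, -, hM'1, hM'2⟩ := maschke hA X hX (Inv.bot X) hW (Inv.top X)
      bot_le le_top hC1.le hC2.ge
    by_cases hWbot : W = ⊥
    · exact Or.inl hWbot
    right
    by_cases hM'bot : M' = ⊥
    · rw [hM'bot, sup_bot_eq] at hM'2
      exact eq_top_iff.2 hM'2
    · exact absurd ⟨W, M', hWbot, hM'bot, hW, hM'inv, le_bot_iff.1 hM'1, eq_top_iff.2 hM'2⟩ hind
  -- a minimal invariant subgroup not of exponent p^e'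
  obtain ⟨W, -, hWmin⟩ := Finite.exists_le_minimal
    (p := fun W : Subgroup A => Inv X W ∧ ∃ w ∈ W, w ^ p ^ e' ≠ 1) (a := ⊤)
    ⟨Inv.top X, by obtain ⟨a, ha⟩ := hexp2; exact ⟨a, Subgroup.mem_top a, ha⟩⟩
  obtain ⟨hWinv, w₀, hw₀W, hw₀⟩ := hWmin.prop
  have hstepB : ∀ W' : Subgroup A, Inv X W' → W' ≤ W → W' ≠ W → ∀ w ∈ W', w ^ p ^ e' = 1 := by
    intro W' hW' hle hne w hw
    by_contra hcon
    exact hne (le_antisymm hle (hWmin.le_of_le ⟨hW', w, hw, hcon⟩ hle))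
  -- Step C
  have hstepC : ∀ w ∈ W, w ^ p ^ e' = 1 → ∃ w₁ ∈ W, w₁ ^ p = w := by
    set N : Subgroup A := W ⊓ (powMonoidHom (p ^ e') : A →* A).ker with hN
    set Wp : Subgroup A := W.map (powMonoidHom p : A →* A) with hWp
    have hNinv : Inv X N := hWinv.inf (inv_powKer X _)
    have hWpinv : Inv X Wp := hWinv.mapPow p
    have hWpW : Wp ≤ W := by
      rintro _ ⟨w, hw, rfl⟩
      rw [powMonoidHom_apply]
      exact pow_mem hw p
    have hWpN : Wp ≤ N := by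
      rintro _ ⟨w, hw, rfl⟩
      refine Subgroup.mem_inf.2 ⟨pow_mem hw p, ?_⟩
      rw [MonoidHom.mem_ker, powMonoidHom_apply, powMonoidHom_apply, ← pow_mul, ← pow_succ']
      exact hexp1 w
    have hNW : N ≤ W := inf_le_left
    -- a complement modulo Wp
    obtain ⟨M₀, -, hM₀⟩ := Finite.exists_le_maximal
      (p := fun M₀ : Subgroup A => Wp ≤ M₀ ∧ M₀ ≤ W ∧ N ⊓ M₀ ≤ Wp) (a := Wp)
      ⟨le_rfl, hWpW, inf_le_right⟩
    obtain ⟨hM₀1, hM₀2, hM₀3⟩ := hM₀.prop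
    have hWsup : W ≤ N ⊔ M₀ := by
      intro d hdW
      by_contra hd
      have hdp : d ^ p ∈ M₀ := hM₀1 ⟨d, hdW, by rw [powMonoidHom_apply]⟩
      have h3 : N ⊓ (M₀ ⊔ Subgroup.zpowers d) ≤ Wp := by
        intro y hy
        exact hM₀3 (Subgroup.mem_inf.2 ⟨hy.1, mem_of_mem_sup_zpowers hp hdp hd hy.1 hy.2⟩)
      have h4 := hM₀.le_of_ge ⟨hM₀1.trans le_sup_left,
        sup_le hM₀2 (by rw [Subgroup.zpowers_le]; exact hdW), h3⟩ le_sup_left
      exact hd ((le_sup_right : M₀ ≤ N ⊔ M₀) (h4 ((le_sup_right : Subgroup.zpowers d ≤ M₀ ⊔ Subgroup.zpowers d) (Subgroup.mem_zpowers d))))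
    obtain ⟨M', hM'inv, hM'1, hM'2, hM'3, hM'4⟩ := maschke hA X hX hWpinv hNinv hWinv hWpN hNW
      hM₀3 hWsup
    have hM'W : M' = W := by
      by_contra hne
      have h5 : M' ≤ N := by
        intro m hm
        refine Subgroup.mem_inf.2 ⟨hM'2 hm, ?_⟩
        rw [MonoidHom.mem_ker, powMonoidHom_apply]
        exact hstepB M' hM'inv hM'2 hne m hm
      have h6 : W ≤ N := hM'4.trans (sup_le le_rfl h5)
      have h7 := (Subgroup.mem_inf.1 (h6 hw₀W)).2
      rw [MonoidHom.mem_ker, powMonoidHom_apply] at h7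
      exact hw₀ h7
    intro w hw hw1
    have h8 : w ∈ N ⊓ M' := by
      rw [hM'W]
      exact Subgroup.mem_inf.2 ⟨Subgroup.mem_inf.2 ⟨hw, by
        rw [MonoidHom.mem_ker, powMonoidHom_apply]; exact hw1⟩, hw⟩
    obtain ⟨w₁, hw₁, hw₁p⟩ := hM'3 h8
    exact ⟨w₁, hw₁, by rw [← hw₁p, powMonoidHom_apply]⟩
  -- Step D
  have hWtop : W = ⊤ := by
    rcases hstar W hWinv (exists_complement e' hexp1 W hstepC) with h | h
    · rw [h, Subgroup.mem_bot] at hw₀W
      rw [hw₀W, one_pow] at hw₀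
      exact absurd rfl hw₀
    · exact h
  subst hWtop
  have hD1 : ∀ W' : Subgroup A, Inv X W' → W' ≠ ⊤ → ∀ w ∈ W', w ^ p ^ e' = 1 :=
    fun W' hW' hne => hstepB W' hW' le_top hne
  have hD2 : ∀ a : A, a ^ p ^ e' = 1 → ∃ b : A, b ^ p = a := by
    intro a ha
    obtain ⟨b, -, hb⟩ := hstepC a (Subgroup.mem_top a) ha
    exact ⟨b, hb⟩
  -- the socle lies in the image of the p^e' power map
  have hsoc : ∀ k : ℕ, k ≤ e' → ∀ a : A, a ^ p = 1 → ∃ b : A, b ^ p ^ k = a := by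
    intro k
    induction k with
    | zero => intro _ a _; exact ⟨a, by rw [pow_zero, pow_one]⟩
    | succ k ih =>
      intro hk a ha
      obtain ⟨b, hb⟩ := ih (by omega) a ha
      have hb1 : b ^ p ^ e' = 1 := by
        have h1 : b ^ p ^ (k + 1) = 1 := by rw [pow_succ, pow_mul, hb, ha]
        obtain ⟨j, hj⟩ : ∃ j, e' = (k + 1) + j := ⟨e' - (k + 1), by omega⟩
        rw [hj, pow_add, pow_mul, h1, one_pow]
      obtain ⟨c, hc⟩ := hD2 b hb1
      exact ⟨c, by rw [pow_succ', pow_mul, hc, hb]⟩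
  -- Step E
  have hVtop : V.comap (powMonoidHom (p ^ e') : A →* A) = ⊤ := by
    by_contra hne
    have h1 := hD1 _ (hV.comapPow (p ^ e')) hne
    obtain ⟨v, hv, hv1⟩ : ∃ v ∈ V, v ≠ 1 := by
      by_contra hcon
      push Not at hcon
      exact hVbot (eq_bot_iff.2 fun v hv => Subgroup.mem_bot.2 (hcon v hv))
    obtain ⟨b, hb⟩ := hsoc e' le_rfl v (hVp v hv)
    have h2 := h1 b (by rw [Subgroup.mem_comap, powMonoidHom_apply, hb]; exact hv)
    rw [hb] at h2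
    exact hv1 h2
  intro a ha
  obtain ⟨b, hb⟩ := hsoc e' le_rfl a ha
  have h3 : b ∈ V.comap (powMonoidHom (p ^ e') : A →* A) := by rw [hVtop]; exact Subgroup.mem_top b
  rw [Subgroup.mem_comap, powMonoidHom_apply, hb] at h3
  exact h3

/-- irreducible socle implies that the invariant subgroups are the `Ω_i` -/
theorem omega_of_irreducible [Finite A] {p : ℕ} [Fact p.Prime] (hA : IsPGroup p A)
    (X : Subgroup (MulAut A))
    (hirr : ∀ V : Subgroup A, Inv X V → (∀ v ∈ V, v ^ p = 1) → V = ⊥ ∨ ∀ a : A, a ^ p = 1 → a ∈ V) :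
    ∀ B : Subgroup A, Inv X B → ∃ i : ℕ, ∀ a : A, a ∈ B ↔ a ^ p ^ i = 1 := by
  have key : ∀ i : ℕ, ∀ B : Subgroup A, Inv X B → (∀ b ∈ B, b ^ p ^ i = 1) →
      (∀ j, i = j + 1 → ∃ b ∈ B, b ^ p ^ j ≠ 1) → ∀ a : A, a ^ p ^ i = 1 → a ∈ B := by
    intro i
    induction i with
    | zero =>
      intro B _ _ _ a ha
      rw [pow_zero, pow_one] at ha
      rw [ha]; exact one_mem B
    | succ j ih =>
      intro B hB hB1 hB2 a ha
      obtain ⟨b₀, hb₀B, hb₀⟩ := hB2 j rfl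
      -- the image of the p^j power map is the socle
      have hVinv : Inv X (B.map (powMonoidHom (p ^ j) : A →* A)) := hB.mapPow _
      have hV1 : ∀ v ∈ B.map (powMonoidHom (p ^ j) : A →* A), v ^ p = 1 := by
        rintro _ ⟨b, hb, rfl⟩
        rw [powMonoidHom_apply, ← pow_mul, ← pow_succ]
        exact hB1 b hb
      have hVne : B.map (powMonoidHom (p ^ j) : A →* A) ≠ ⊥ := by
        intro h
        have : b₀ ^ p ^ j ∈ B.map (powMonoidHom (p ^ j) : A →* A) := ⟨b₀, hb₀B, by rw [powMonoidHom_apply]⟩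
        rw [h, Subgroup.mem_bot] at this
        exact hb₀ this
      have hsoc := (hirr _ hVinv hV1).resolve_left hVne
      -- the part of B of exponent p^j
      have hB' : ∀ c : A, c ^ p ^ j = 1 → c ∈ B ⊓ (powMonoidHom (p ^ j) : A →* A).ker := by
        apply ih _ (hB.inf (inv_powKer X _))
        · intro b hb
          have := (Subgroup.mem_inf.1 hb).2
          rwa [MonoidHom.mem_ker, powMonoidHom_apply] at this
        · intro j' hj'
          refine ⟨b₀ ^ p, Subgroup.mem_inf.2 ⟨pow_mem hb₀B p, ?_⟩, ?_⟩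
          · rw [MonoidHom.mem_ker, powMonoidHom_apply, ← pow_mul, ← pow_succ']
            exact hB1 b₀ hb₀B
          · rw [← pow_mul, ← pow_succ', ← hj']
            exact hb₀
      have h1 : (a ^ p ^ j) ^ p = 1 := by rw [← pow_mul, ← pow_succ]; exact ha
      obtain ⟨b, hb, hbe⟩ := hsoc _ h1
      rw [powMonoidHom_apply] at hbe
      have h2 : (a * b⁻¹) ^ p ^ j = 1 := by rw [mul_pow, inv_pow, hbe, mul_inv_cancel]
      have h3 : a = (a * b⁻¹) * b := by rw [inv_mul_cancel_right]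
      rw [h3]
      exact mul_mem (hB' _ h2).1 hb
  intro B hB
  have hex : ∃ i, ∀ b ∈ B, b ^ p ^ i = 1 := by
    obtain ⟨n, hn⟩ := (IsPGroup.iff_card (p := p)).1 hA
    exact ⟨n, fun a _ => by rw [← hn]; exact pow_card_eq_one'⟩
  classical
  refine ⟨Nat.find hex, fun a => ⟨fun ha => Nat.find_spec hex a ha, ?_⟩⟩
  apply key _ B hB (Nat.find_spec hex)
  intro j hj
  have := Nat.find_min hex (m := j) (by omega)
  push Not at this
  exact this

/-- Let A be a finite abelian p-group and X a group of automorphisms of A of order prime to p. Call a subgroup of A invariant when every element of X maps it onto itself. Then the following are equivalent: (i) A is not the direct product of two nontrivial invariant subgroups; (ii) every invariant subgroup of A is one of the subgroups Ω_i(A) = {a : a^(p^i) = 1}; (iii) the subgroup Ω₁(A) of elements of order dividing p has no invariant subgroups other than 1 and itself.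 -/
theorem result {A : Type*} [CommGroup A] [Finite A] {p : ℕ} [Fact p.Prime] (hA : IsPGroup p A) (X : Subgroup (MulAut A)) (hX : (Nat.card X).Coprime p) : ((¬ ∃ B C : Subgroup A, B ≠ ⊥ ∧ C ≠ ⊥ ∧ (∀ x ∈ X, B.map x.toMonoidHom = B) ∧ (∀ x ∈ X, C.map x.toMonoidHom = C) ∧ B ⊓ C = ⊥ ∧ B ⊔ C = ⊤) ↔ (∀ B : Subgroup A, (∀ x ∈ X, B.map x.toMonoidHom = B) → ∃ i : ℕ, ∀ a : A, a ∈ B ↔ a ^ p ^ i = 1)) ∧ ((∀ B : Subgroup A, (∀ x ∈ X, B.map x.toMonoidHom = B) → ∃ i : ℕ, ∀ a : A, a ∈ B ↔ a ^ p ^ i = 1) ↔ (∀ B : Subgroup A, (∀ x ∈ X, B.map x.toMonoidHom = B) → (∀ b ∈ B, b ^ p = 1) → B = ⊥ ∨ ∀ a : A, a ∈ B ↔ a ^ p = 1)) := by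
  have hp := (Fact.out : p.Prime)
  simp only [inv_iff]
  have h23 : (∀ B : Subgroup A, Inv X B → ∃ i : ℕ, ∀ a : A, a ∈ B ↔ a ^ p ^ i = 1) →
      (∀ B : Subgroup A, Inv X B → (∀ b ∈ B, b ^ p = 1) → B = ⊥ ∨ ∀ a : A, a ∈ B ↔ a ^ p = 1) := by
    intro h B hB hBp
    obtain ⟨i, hi⟩ := h B hB
    rcases Nat.eq_zero_or_pos i with h0 | h0
    · left
      rw [eq_bot_iff]
      intro b hb
      have := (hi b).1 hb
      rw [h0, pow_zero, pow_one] at this
      rw [Subgroup.mem_bot]; exact this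
    · right
      intro a
      refine ⟨fun ha => hBp a ha, fun ha => (hi a).2 ?_⟩
      obtain ⟨i', rfl⟩ : ∃ i', i = i' + 1 := ⟨i - 1, by omega⟩
      rw [pow_succ', pow_mul, ha, one_pow]
  have h32 : (∀ B : Subgroup A, Inv X B → (∀ b ∈ B, b ^ p = 1) → B = ⊥ ∨ ∀ a : A, a ∈ B ↔ a ^ p = 1) →
      (∀ B : Subgroup A, Inv X B → ∃ i : ℕ, ∀ a : A, a ∈ B ↔ a ^ p ^ i = 1) := by
    intro h
    apply omega_of_irreducible hA X
    intro V hV hVp
    rcases h V hV hVp with h1 | h1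
    · exact Or.inl h1
    · exact Or.inr (fun a ha => (h1 a).2 ha)
  refine ⟨⟨?_, ?_⟩, ⟨h23, h32⟩⟩
  · intro hind
    apply omega_of_irreducible hA X
    exact irreducible_of_indecomposable hA X hX hind
  · rintro h ⟨B, C, hBne, hCne, hB, hC, hBC, -⟩
    obtain ⟨i, hi⟩ := h B hB
    obtain ⟨j, hj⟩ := h C hC
    rcases le_total i j with hij | hij
    · apply hBne
      rw [eq_bot_iff, ← hBC]
      intro b hb
      refine Subgroup.mem_inf.2 ⟨hb, (hj b).2 ?_⟩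
      obtain ⟨k, rfl⟩ : ∃ k, j = i + k := ⟨j - i, by omega⟩
      rw [pow_add, pow_mul, (hi b).1 hb, one_pow]
    · apply hCne
      rw [eq_bot_iff, ← hBC]
      intro c hc
      refine Subgroup.mem_inf.2 ⟨(hi c).2 ?_, hc⟩
      obtain ⟨k, rfl⟩ : ∃ k, i = j + k := ⟨i - j, by omega⟩
      rw [pow_add, pow_mul, (hj c).1 hc, one_pow]

end Cfsg.Agent.S3775
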