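-- Statement S3781: P. Hall's lemma on lower central factors of normal subgroups inside γ_n(G).
import Cfsg.Statements.S3781
import Cfsg.Agent.S3766
import Cfsg.Agent.Helper70.Basic

set_option autoImplicit false
open Cfsg

namespace Cfsg.Agent.S3781

open Cfsg.Agent.S3766

variable {G : Type*} [Group G]

theorem iter_normal (n : ℕ) : ∀ A : Subgroup G, A.Normal → (iter (⊤ : Subgroup G) n A).Normal := by
  induction n with
  | zero => intro A hA; exact hA
  | succ n ih =>
    intro A hA
    exact ih ⁅A, ⊤⁆ inferInstance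

theorem iter_succ_le (n : ℕ) (A : Subgroup G) (hA : A.Normal) :
    iter (⊤ : Subgroup G) (n + 1) A ≤ iter (⊤ : Subgroup G) n A := by
  rw [iter_succ']
  have := iter_normal n A hA
  exact Subgroup.commutator_le_left _ _

theorem iter_antitone (A : Subgroup G) (hA : A.Normal) {j m : ℕ} (h : j ≤ m) :
    iter (⊤ : Subgroup G) m A ≤ iter (⊤ : Subgroup G) j A := by
  induction m with
  | zero =>
    have : j = 0 := by omega
    subst this; exact le_rfl
  | succ m ih =>
    by_cases hj : j = m + 1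
    · subst hj; exact le_rfl
    · exact (iter_succ_le m A hA).trans (ih (by omega))

/-- `[K, γ_{j+1}(G)] ≤ [K, G, …, G]` (`j+1` times) -/
theorem comm_lcs_le (j : ℕ) : ∀ K : Subgroup G, K.Normal →
    ⁅K, (⊤ : Subgroup G).lowerCentralSeries j⁆ ≤ iter (⊤ : Subgroup G) (j + 1) K := by
  induction j with
  | zero => intro K _; exact le_rfl
  | succ j ih =>
    intro K hK
    have hN : (iter (⊤ : Subgroup G) (j + 2) K).Normal := iter_normal _ K hK
    rw [Subgroup.lowerCentralSeries_succ, Subgroup.commutator_comm]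
    apply Cfsg.Agent.Helper70.three_subgroups_le
    · rw [Subgroup.commutator_comm ⊤ K]
      exact ih ⁅K, ⊤⁆ inferInstance
    · have h1 : iter (⊤ : Subgroup G) (j + 2) K = ⁅iter (⊤ : Subgroup G) (j + 1) K, ⊤⁆ :=
        iter_succ' _ (j + 1) K
      rw [h1]
      exact Subgroup.commutator_mono (ih K hK) le_rfl

/-- in a nilpotent group, `C ≤ [C, G] B` forces `C ≤ B` -/
theorem le_of_le_commutator_sup {C B : Subgroup G} (hC : C.Normal) (hB : B.Normal) {c : ℕ}
    (hc : (⊤ : Subgroup G).lowerCentralSeries c = ⊥) (h : C ≤ ⁅C, ⊤⁆ ⊔ B) : C ≤ B := by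
  have hstep : ∀ m : ℕ, C ≤ iter (⊤ : Subgroup G) m C ⊔ B := by
    intro m
    induction m with
    | zero => exact le_sup_left
    | succ m ih =>
      have hn : (iter (⊤ : Subgroup G) (m + 1) C ⊔ B).Normal := by
        have := iter_normal (m + 1) C hC
        infer_instance
      have h2 : ⁅C, ⊤⁆ ≤ iter (⊤ : Subgroup G) (m + 1) C ⊔ B := by
        refine (Subgroup.commutator_mono ih le_rfl).trans ?_
        apply commutator_sup_le hn
        · rw [iter_succ']; exact le_sup_left
        · exact (Subgroup.commutator_le_left B ⊤).trans le_sup_right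
      exact h.trans (sup_le h2 le_sup_right)
  have h3 : iter (⊤ : Subgroup G) c C ≤ ⊥ := by
    rw [← hc]
    have h4 := iter_lcs (⊤ : Subgroup G) c 0
    rw [zero_add] at h4
    rw [← h4]
    exact iter_mono _ c le_top
  have h5 := hstep c
  rw [le_bot_iff.1 h3, bot_sup_eq] at h5
  exact h5

theorem lcs_normal (N : Subgroup G) [N.Normal] (k : ℕ) : (N.lowerCentralSeries k).Normal := by
  induction k with
  | zero => exact inferInstanceAs N.Normal
  | succ k ih =>
    rw [Subgroup.lowerCentralSeries_succ]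
    infer_instance

/-- Let G be a finite p-group and n ≥ 1, and write γ_1(G) = G, γ_{k+1}(G) = [γ_k(G), G], and likewise γ_k(N) for a subgroup N. Let N be a normal subgroup of G contained in γ_n(G). If i > 1 and γ_{i+1}(N) ≠ 1, then |γ_i(N) : γ_{i+1}(N)| ≥ p^n. -/
theorem result {G : Type*} [Group G] [Finite G] {p : ℕ} [Fact p.Prime] (hG : IsPGroup p G) (n : ℕ) (hn : 1 ≤ n) (N : Subgroup G) [N.Normal] (hN : N ≤ (⊤ : Subgroup G).lowerCentralSeries (n - 1)) (i : ℕ) (hi : 1 < i) (hne : N.lowerCentralSeries i ≠ ⊥) : p ^ n ≤ (N.lowerCentralSeries i).relIndex (N.lowerCentralSeries (i - 1)) := by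
  have hp := (Fact.out : p.Prime)
  haveI := hG.isNilpotent
  obtain ⟨c, hc⟩ := Subgroup.nilpotent_iff_lowerCentralSeries.1 (inferInstance : Group.IsNilpotent G)
  obtain ⟨i', rfl⟩ : ∃ i', i = i' + 1 := ⟨i - 1, by omega⟩
  obtain ⟨n', rfl⟩ : ∃ n', n = n' + 1 := ⟨n - 1, by omega⟩
  simp only [Nat.add_sub_cancel] at hN ⊢
  set A := N.lowerCentralSeries i' with hA
  set B := N.lowerCentralSeries (i' + 1) with hB
  have hBA : B = ⁅A, N⁆ := rfl
  have hAn : A.Normal := lcs_normal N i'
  have hBn : B.Normal := lcs_normal N (i' + 1)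
  have hBleA : B ≤ A := by rw [hBA]; exact Subgroup.commutator_le_left A N
  -- (a)
  have ha : ∀ j ≤ n', ¬ iter (⊤ : Subgroup G) j A ≤ B := by
    intro j hj hcon
    have h1 : iter (⊤ : Subgroup G) n' A ≤ B := (iter_antitone A hAn hj).trans hcon
    have h2 : B ≤ ⁅B, ⊤⁆ ⊔ ⊥ := by
      rw [sup_bot_eq]
      calc B = ⁅A, N⁆ := hBA
        _ ≤ ⁅A, (⊤ : Subgroup G).lowerCentralSeries n'⁆ := Subgroup.commutator_mono le_rfl hN
        _ ≤ iter (⊤ : Subgroup G) (n' + 1) A := comm_lcs_le n' A hAn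
        _ = ⁅iter (⊤ : Subgroup G) n' A, ⊤⁆ := iter_succ' _ n' A
        _ ≤ ⁅B, ⊤⁆ := Subgroup.commutator_mono h1 le_rfl
    have h3 := le_of_le_commutator_sup hBn inferInstance hc h2
    exact hne (le_bot_iff.1 h3)
  -- the chain
  set L : ℕ → Subgroup G := fun j => iter (⊤ : Subgroup G) j A ⊔ B with hL
  have hLle : ∀ j, L (j + 1) ≤ L j := fun j => sup_le_sup_right (iter_succ_le j A hAn) B
  have hLne : ∀ j ≤ n', ¬ L j ≤ L (j + 1) := by
    intro j hj hcon
    have h1 : iter (⊤ : Subgroup G) j A ≤ ⁅iter (⊤ : Subgroup G) j A, ⊤⁆ ⊔ B := by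
      have h2 : iter (⊤ : Subgroup G) j A ≤ L (j + 1) := le_sup_left.trans hcon
      have h3 : L (j + 1) = ⁅iter (⊤ : Subgroup G) j A, ⊤⁆ ⊔ B := by
        simp only [hL]; rw [iter_succ']
      rwa [h3] at h2
    exact ha j hj (le_of_le_commutator_sup (iter_normal j A hAn) hBn hc h1)
  have hLidx : ∀ j ≤ n', p ≤ (L (j + 1)).relIndex (L j) := by
    intro j hj
    obtain ⟨k, hk⟩ := (hG.to_subgroup (L j)).index ((L (j + 1)).subgroupOf (L j))
    have hk' : (L (j + 1)).relIndex (L j) = p ^ k := hk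
    rw [hk']
    have hk0 : k ≠ 0 := by
      rintro rfl
      rw [pow_zero, Subgroup.relIndex_eq_one] at hk'
      exact hLne j hj hk'
    calc p = p ^ 1 := (pow_one p).symm
      _ ≤ p ^ k := Nat.pow_le_pow_right hp.pos (by omega)
  have hLanti : ∀ m, L m ≤ L 0 := by
    intro m
    induction m with
    | zero => exact le_rfl
    | succ m ih => exact (hLle m).trans ih
  have hchain : ∀ m ≤ n' + 1, p ^ m ≤ (L m).relIndex (L 0) := by
    intro m
    induction m with
    | zero =>
      intro _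
      rw [pow_zero]
      exact Nat.one_le_iff_ne_zero.2 (by
        have : (L 0).relIndex (L 0) = 1 := Subgroup.relIndex_eq_one.2 le_rfl
        rw [this]; exact one_ne_zero)
    | succ m ih =>
      intro hm
      rw [← Subgroup.relIndex_mul_relIndex (L (m + 1)) (L m) (L 0) (hLle m) (hLanti m), pow_succ,
        mul_comm]
      exact Nat.mul_le_mul (hLidx m (by omega)) (ih (by omega))
  have hL0 : L 0 = A := by
    simp only [hL]
    exact sup_eq_left.2 hBleA
  have hBL : B ≤ L (n' + 1) := le_sup_right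
  have hfin := hchain (n' + 1) le_rfl
  rw [hL0] at hfin
  have hmul := Subgroup.relIndex_mul_relIndex B (L (n' + 1)) A hBL (by rw [← hL0]; exact hLanti _)
  rw [← hmul]
  have hpos : 0 < B.relIndex (L (n' + 1)) := by
    apply Nat.pos_of_ne_zero
    exact Subgroup.index_ne_zero_of_finite
  calc p ^ (n' + 1) ≤ (L (n' + 1)).relIndex A := hfin
    _ = 1 * (L (n' + 1)).relIndex A := (one_mul _).symm
    _ ≤ B.relIndex (L (n' + 1)) * (L (n' + 1)).relIndex A := Nat.mul_le_mul hpos le_rfl

end Cfsg.Agent.S3781
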