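-- Statement S3778: the breadth and the class of a finite p-group (Leedham-Green, Neumann, Wiegold).
import Cfsg.Statements.S3778
import Cfsg.Agent.S3781

set_option autoImplicit false
open Cfsg

namespace Cfsg.Agent.S3778

open scoped commutatorElement

/-- the lower central series of `G` -/
abbrev L (G : Type*) [Group G] (i : ℕ) : Subgroup G := (⊤ : Subgroup G).lowerCentralSeries i

variable {G : Type*} [Group G]

theorem L_normal (i : ℕ) : (L G i).Normal := Cfsg.Agent.S3781.lcs_normal ⊤ i

theorem L_succ (i : ℕ) : L G (i + 1) = ⁅L G i, ⊤⁆ := rfl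

theorem L_succ_le (i : ℕ) : L G (i + 1) ≤ L G i :=
  Subgroup.lowerCentralSeries_antitone ⊤ (Nat.le_succ i)

theorem comm_mem_L (i : ℕ) {l : G} (hl : l ∈ L G i) (x : G) : ⁅x, l⁆ ∈ L G (i + 1) := by
  rw [L_succ, ← commutatorElement_inv l x]
  exact inv_mem (Subgroup.commutator_mem_commutator hl (Subgroup.mem_top x))

/-- the two-step centralizer of `γ_i / γ_{i+2}` -/
def twoStep (G : Type*) [Group G] (i : ℕ) : Subgroup G where
  carrier := {x | ∀ y ∈ L G i, ⁅x, y⁆ ∈ L G (i + 2)}
  one_mem' := fun y _ => by rw [commutatorElement_one_left]; exact one_mem _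
  mul_mem' := by
    intro x x' hx hx' y hy
    have hn := L_normal (G := G) (i + 2)
    have e : ⁅x * x', y⁆ = x * ⁅x', y⁆ * x⁻¹ * ⁅x, y⁆ := by
      simp only [commutatorElement_def]; group
    rw [e]
    exact mul_mem (hn.conj_mem _ (hx' y hy) x) (hx y hy)
  inv_mem' := by
    intro x hx y hy
    have hn := L_normal (G := G) (i + 2)
    have e : ⁅x⁻¹, y⁆ = x⁻¹ * ⁅x, y⁆⁻¹ * x⁻¹⁻¹ := by
      simp only [commutatorElement_def]; group
    rw [e]
    exact hn.conj_mem _ (inv_mem (hx y hy)) x⁻¹

theorem mem_twoStep (i : ℕ) (x : G) : x ∈ twoStep G i ↔ ∀ y ∈ L G i, ⁅x, y⁆ ∈ L G (i + 2) :=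
  Iff.rfl

theorem twoStep_ne_top {c : ℕ} (hc : L G c = ⊥) (i : ℕ) (hi : L G (i + 1) ≠ ⊥) :
    twoStep G i ≠ ⊤ := by
  intro htop
  have h1 : L G (i + 1) ≤ L G (i + 2) := by
    rw [L_succ i, Subgroup.commutator_le]
    intro y hy x _
    have hx : x ∈ twoStep G i := by rw [htop]; trivial
    have := hx y hy
    rw [← commutatorElement_inv x y]
    exact inv_mem this
  have h2 : L G (i + 2) = L G (i + 1) := le_antisymm (L_succ_le (i + 1)) h1
  have h3 : ∀ k, L G (i + 1 + k) = L G (i + 1) := by
    intro k
    induction k with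
    | zero => rfl
    | succ k ih =>
      have : L G (i + 1 + (k + 1)) = ⁅L G (i + 1 + k), ⊤⁆ := L_succ (i + 1 + k)
      rw [this, ih, ← L_succ (i + 1)]
      exact h2
  apply hi
  by_cases hci : c ≤ i + 1
  · have h4 : L G (i + 1) ≤ L G c := Subgroup.lowerCentralSeries_antitone ⊤ hci
    rw [hc] at h4
    exact le_bot_iff.1 h4
  · have := h3 (c - (i + 1))
    rw [show i + 1 + (c - (i + 1)) = c by omega, hc] at this
    exact this.symm

theorem key_step [Finite G] {p : ℕ} [Fact p.Prime] (hG : IsPGroup p G) (x : G) (i : ℕ) :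
    ∃ t : ℕ, (L G (i + 1)).relIndex (L G i) =
        t * ((Subgroup.centralizer {x} ⊓ L G (i + 1)).relIndex
          (Subgroup.centralizer {x} ⊓ L G i)) ∧
      (x ∉ twoStep G i → p ∣ t) := by
  haveI := L_normal (G := G) (i + 1)
  have hn2 := L_normal (G := G) (i + 2)
  set Cx := Subgroup.centralizer ({x} : Set G) with hCx
  set K := (Cx ⊓ L G i) ⊔ L G (i + 1) with hK
  have hKL : K ≤ L G i := sup_le inf_le_right (L_succ_le i)
  have hLK : L G (i + 1) ≤ K := le_sup_right
  refine ⟨K.relIndex (L G i), ?_, ?_⟩
  · rw [← Subgroup.relIndex_mul_relIndex _ _ _ hLK hKL, mul_comm]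
    congr 1
    rw [hK, Subgroup.relIndex_sup_right, ← Subgroup.inf_relIndex_right]
    congr 1
    rw [inf_comm, inf_assoc, inf_eq_right.2 (L_succ_le i)]
  · intro hx
    have h1 : K.relIndex (L G i) ≠ 1 := by
      rw [Ne, Subgroup.relIndex_eq_one]
      intro hle
      apply hx
      intro y hy
      have hy' : y ∈ ((Cx ⊓ L G i) ⊔ L G (i + 1) : Subgroup G) := hle hy
      rw [← SetLike.mem_coe, Subgroup.mul_normal] at hy'
      obtain ⟨c, hc, l, hl, rfl⟩ := Set.mem_mul.1 hy'
      have hcx : c * x = x * c := by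
        have := (Subgroup.mem_inf.1 hc).1
        rw [hCx, Subgroup.mem_centralizer_iff] at this
        exact (this x rfl).symm
      have e : ⁅x, c * l⁆ = c * ⁅x, l⁆ * c⁻¹ := by
        have e1 : ⁅x, c * l⁆ = (x * c) * l * x⁻¹ * l⁻¹ * c⁻¹ := by
          simp only [commutatorElement_def]; group
        rw [e1, ← hcx]
        simp only [commutatorElement_def]; group
      rw [e]
      exact hn2.conj_mem _ (comm_mem_L (i + 1) hl x) c
    obtain ⟨k, hk⟩ := (hG.to_subgroup (L G i)).index (K.subgroupOf (L G i))
    have hk' : K.relIndex (L G i) = p ^ k := hk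
    rw [hk'] at h1 ⊢
    have hk0 : k ≠ 0 := by
      rintro rfl
      exact h1 (pow_zero p)
    exact dvd_pow_self p hk0

theorem card_eq_relIndex_mul {H K : Subgroup G} (h : H ≤ K) :
    Nat.card K = Nat.card H * H.relIndex K := by
  have := Subgroup.relIndex_mul_relIndex ⊥ H K bot_le h
  rw [Subgroup.relIndex_bot_left, Subgroup.relIndex_bot_left] at this
  exact this.symm

open scoped Classical in
theorem chain [Finite G] {p : ℕ} [Fact p.Prime] (hG : IsPGroup p G) (x : G) (i : ℕ) :
    p ^ ((Finset.range i).filter (fun j => x ∉ twoStep G j)).card *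
        Nat.card ↥(Subgroup.centralizer {x} ⊓ L G 0) * Nat.card ↥(L G i) ∣
      Nat.card ↥(L G 0) * Nat.card ↥(Subgroup.centralizer {x} ⊓ L G i) := by
  induction i with
  | zero =>
    simp only [Finset.range_zero, Finset.filter_empty, Finset.card_empty, pow_zero, one_mul]
    rw [mul_comm]
  | succ i ih =>
    obtain ⟨t, ht, hpt⟩ := key_step hG x i
    have hl := card_eq_relIndex_mul (L_succ_le (G := G) i)
    have hc := card_eq_relIndex_mul
      (inf_le_inf_left (Subgroup.centralizer {x}) (L_succ_le (G := G) i))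
    set r := (Subgroup.centralizer {x} ⊓ L G (i + 1)).relIndex
      (Subgroup.centralizer {x} ⊓ L G i) with hr
    have hrpos : 0 < r := by
      rcases Nat.eq_zero_or_pos r with h0 | h0
      · rw [h0, mul_zero] at hc
        exact absurd hc (Nat.card_pos).ne'
      · exact h0
    rw [hl, hc, ht] at ih
    set m := ((Finset.range i).filter (fun j => x ∉ twoStep G j)).card with hm
    have hm' : ((Finset.range (i + 1)).filter (fun j => x ∉ twoStep G j)).card =
        m + (if x ∉ twoStep G i then 1 else 0) := by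
      rw [Finset.range_add_one, Finset.filter_insert]
      by_cases h : x ∉ twoStep G i
      · rw [if_pos h, if_pos h, Finset.card_insert_of_notMem (by simp)]
      · rw [if_neg h, if_neg h, Nat.add_zero]
    rw [hm']
    have h1 : p ^ (m + (if x ∉ twoStep G i then 1 else 0)) ∣ p ^ m * t := by
      rw [pow_add]
      apply mul_dvd_mul_left
      by_cases h : x ∉ twoStep G i
      · rw [if_pos h, pow_one]; exact hpt h
      · rw [if_neg h, pow_zero]; exact one_dvd _
    have h2 : p ^ m * Nat.card ↥(Subgroup.centralizer {x} ⊓ L G 0) *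
        (Nat.card ↥(L G (i + 1)) * t) * r ∣
        Nat.card ↥(L G 0) * Nat.card ↥(Subgroup.centralizer {x} ⊓ L G (i + 1)) * r := by
      have e1 : p ^ m * Nat.card ↥(Subgroup.centralizer {x} ⊓ L G 0) *
          (Nat.card ↥(L G (i + 1)) * t) * r =
          p ^ m * Nat.card ↥(Subgroup.centralizer {x} ⊓ L G 0) *
          (Nat.card ↥(L G (i + 1)) * (t * r)) := by ring
      have e2 : Nat.card ↥(L G 0) * Nat.card ↥(Subgroup.centralizer {x} ⊓ L G (i + 1)) * r =
          Nat.card ↥(L G 0) * (Nat.card ↥(Subgroup.centralizer {x} ⊓ L G (i + 1)) * r) := by ring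
      rw [e1, e2]
      exact ih
    have h3 := Nat.dvd_of_mul_dvd_mul_right hrpos h2
    refine dvd_trans ?_ h3
    have e3 : p ^ m * Nat.card ↥(Subgroup.centralizer {x} ⊓ L G 0) *
        (Nat.card ↥(L G (i + 1)) * t) =
        (p ^ m * t) * (Nat.card ↥(Subgroup.centralizer {x} ⊓ L G 0) * Nat.card ↥(L G (i + 1))) := by
      ring
    rw [e3, mul_assoc]
    exact mul_dvd_mul_right h1 _

open scoped Classical in
theorem card_filter_le [Finite G] {p : ℕ} [Fact p.Prime] (hG : IsPGroup p G) (b : ℕ)
    (hb : ∀ x : G, (Subgroup.centralizer ({x} : Set G)).index ≤ p ^ b) (x : G) (i : ℕ) :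
    ((Finset.range i).filter (fun j => x ∉ twoStep G j)).card ≤ b := by
  have hp := (Fact.out : p.Prime)
  have h1 := chain hG x i
  set m := ((Finset.range i).filter (fun j => x ∉ twoStep G j)).card with hm
  have h2 : Nat.card ↥(Subgroup.centralizer {x} ⊓ L G i) ∣ Nat.card ↥(L G i) :=
    Subgroup.card_dvd_of_le inf_le_right
  have h3 : p ^ m * Nat.card ↥(Subgroup.centralizer {x} ⊓ L G 0) * Nat.card ↥(L G i) ∣
      Nat.card ↥(L G 0) * Nat.card ↥(L G i) := dvd_trans h1 (mul_dvd_mul_left _ h2)
  have h4 := Nat.dvd_of_mul_dvd_mul_right Nat.card_pos h3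
  have e0 : L G 0 = ⊤ := rfl
  rw [e0, inf_top_eq, Subgroup.card_top,
    ← Subgroup.card_mul_index (Subgroup.centralizer ({x} : Set G)), mul_comm] at h4
  have h5 := Nat.dvd_of_mul_dvd_mul_left Nat.card_pos h4
  have h6 : p ^ m ≤ p ^ b := le_trans (Nat.le_of_dvd (Nat.pos_of_ne_zero
    (Subgroup.index_ne_zero_of_finite)) h5) (hb x)
  exact (Nat.pow_le_pow_iff_right hp.one_lt).1 h6

/-- If G is a finite p-group in which every conjugacy class has at most p^b elements (every element has centralizer of index at most p^b), then G is abelian when b = 0, and when b ≥ 1 its nilpotency class c satisfies (c − 1)(p − 1) < bp, that is c < bp/(p − 1) + 1, and hence c ≤ 2b. -/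
theorem result {G : Type*} [Group G] [Finite G] {p : ℕ} [Fact p.Prime] (hG : IsPGroup p G) (b : ℕ) (hb : ∀ x : G, (Subgroup.centralizer ({x} : Set G)).index ≤ p ^ b) : ∃ c : ℕ, (⊤ : Subgroup G).lowerCentralSeries c = ⊥ ∧ (b ≠ 0 → (c - 1) * (p - 1) < b * p ∧ c ≤ 2 * b) ∧ (b = 0 → c ≤ 1) := by
  classical
  have hp := (Fact.out : p.Prime)
  haveI := hG.isNilpotent
  have hnil : ∃ c, L G c = ⊥ :=
    Subgroup.nilpotent_iff_lowerCentralSeries.1 (inferInstance : Group.IsNilpotent G)
  have hc : L G (Nat.find hnil) = ⊥ := Nat.find_spec hnil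
  have hcmin : ∀ m < Nat.find hnil, L G m ≠ ⊥ := fun m hm => Nat.find_min hnil hm
  generalize Nat.find hnil = c at hc hcmin
  refine ⟨c, hc, ?_, ?_⟩
  · intro hb0
    by_cases hc2 : c ≤ 1
    · constructor
      · have : c - 1 = 0 := by omega
        rw [this, zero_mul]
        exact Nat.mul_pos (Nat.pos_of_ne_zero hb0) hp.pos
      · omega
    · push Not at hc2
      haveI : Fintype G := Fintype.ofFinite G
      have hprop : ∀ i ∈ Finset.range (c - 1), p * Nat.card (twoStep G i) ≤ Nat.card G := by
        intro i hi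
        rw [Finset.mem_range] at hi
        have hne := twoStep_ne_top hc i (hcmin (i + 1) (by omega))
        obtain ⟨k, hk⟩ := hG.index (twoStep G i)
        have hk0 : k ≠ 0 := by
          rintro rfl
          rw [pow_zero, Subgroup.index_eq_one] at hk
          exact hne hk
        rw [← Subgroup.card_mul_index (twoStep G i), hk, mul_comm]
        exact Nat.mul_le_mul_left _ (Nat.le_of_dvd (pow_pos hp.pos k) (dvd_pow_self p hk0))
      have hex : ∃ x : G,
          p * ((Finset.range (c - 1)).filter (fun i => x ∈ twoStep G i)).card < c - 1 := by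
        by_contra hcon
        push Not at hcon
        have h1 : ∑ _x : G, (c - 1) <
            ∑ x : G, p * ((Finset.range (c - 1)).filter (fun i => x ∈ twoStep G i)).card := by
          apply Finset.sum_lt_sum (fun x _ => hcon x)
          refine ⟨1, Finset.mem_univ _, ?_⟩
          have : (Finset.range (c - 1)).filter (fun i => (1 : G) ∈ twoStep G i) =
              Finset.range (c - 1) := Finset.filter_true_of_mem (fun i _ => one_mem _)
          rw [this, Finset.card_range]
          have h2le := hp.two_le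
          have hd : 1 ≤ c - 1 := by omega
          calc c - 1 < 2 * (c - 1) := by omega
            _ ≤ p * (c - 1) := Nat.mul_le_mul_right _ h2le
        have h2 : ∑ x : G, p * ((Finset.range (c - 1)).filter (fun i => x ∈ twoStep G i)).card =
            ∑ i ∈ Finset.range (c - 1), p * Nat.card (twoStep G i) := by
          rw [← Finset.mul_sum, ← Finset.mul_sum]
          congr 1
          simp only [Finset.card_filter]
          rw [Finset.sum_comm]
          refine Finset.sum_congr rfl (fun i _ => ?_)
          rw [← Finset.card_filter, Nat.card_eq_fintype_card, Fintype.card_subtype]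
        have h3 : ∑ i ∈ Finset.range (c - 1), p * Nat.card (twoStep G i) ≤
            ∑ _i ∈ Finset.range (c - 1), Nat.card G := Finset.sum_le_sum hprop
        rw [h2] at h1
        rw [Finset.sum_const, Finset.card_univ, smul_eq_mul] at h1
        rw [Finset.sum_const, Finset.card_range, smul_eq_mul] at h3
        rw [← Nat.card_eq_fintype_card] at h1
        have : Nat.card G * (c - 1) = (c - 1) * Nat.card G := mul_comm _ _
        omega
      obtain ⟨x, hx⟩ := hex
      have hm := card_filter_le hG b hb x (c - 1)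
      have hsplit := Finset.card_filter_add_card_filter_not (s := Finset.range (c - 1))
        (fun i => x ∈ twoStep G i)
      rw [Finset.card_range] at hsplit
      set k := ((Finset.range (c - 1)).filter (fun i => x ∈ twoStep G i)).card with hk
      set m := ((Finset.range (c - 1)).filter (fun j => x ∉ twoStep G j)).card with hmdef
      obtain ⟨q, rfl⟩ : ∃ q, p = q + 1 := ⟨p - 1, by have := hp.pos; omega⟩
      have hq : 1 ≤ q := by have := hp.two_le; omega
      obtain ⟨d, rfl⟩ : ∃ d, c = d + 1 := ⟨c - 1, by omega⟩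
      simp only [Nat.add_sub_cancel] at hx hsplit ⊢
      have hmq : m * q ≤ b * q := Nat.mul_le_mul_right q hm
      have key : d * q < b * (q + 1) := by nlinarith
      refine ⟨key, ?_⟩
      by_contra hcon
      push Not at hcon
      have h7 : 2 * b ≤ d := by omega
      have h8 : 2 * b * q ≤ d * q := Nat.mul_le_mul_right q h7
      have h9 : b ≤ b * q := Nat.le_mul_of_pos_right b hq
      nlinarith
  · intro hb0
    subst hb0
    have hcomm : ∀ x y : G, x * y = y * x := by
      intro x y
      have h1 := hb x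
      rw [pow_zero] at h1
      have h2 : (Subgroup.centralizer ({x} : Set G)).index = 1 := by
        have := Subgroup.index_ne_zero_of_finite (H := Subgroup.centralizer ({x} : Set G))
        omega
      rw [Subgroup.index_eq_one] at h2
      have h3 : y ∈ Subgroup.centralizer ({x} : Set G) := by rw [h2]; trivial
      rw [Subgroup.mem_centralizer_iff] at h3
      exact h3 x rfl
    have h1 : L G 1 = ⊥ := by
      rw [L_succ, Subgroup.commutator_eq_bot_iff_le_centralizer]
      intro x _
      rw [Subgroup.mem_centralizer_iff]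
      intro y _
      exact hcomm y x
    by_contra hcon
    push Not at hcon
    exact hcmin 1 hcon h1

end Cfsg.Agent.S3778
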