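-- Statement S3780: an abelian p-group with an automorphism of order p having p^n fixed points is pn-generated.
import Mathlib
import Cfsg.Statements.S3780

set_option autoImplicit false
open Cfsg

namespace Cfsg.Agent.S3780

/-- an endomorphism `a` with `a ^ p = 1` of a finite abelian group: the elements killed by `p`
are at most `|fixed points| ^ p` in number -/
theorem core {A : Type*} [AddCommGroup A] [Finite A] {p : ℕ} (hp : p.Prime) (a : AddMonoid.End A)
    (ha : a ^ p = 1) :
    Nat.card {x : A // p • x = 0} ≤ Nat.card {x : A // a x = x} ^ p := by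
  classical
  haveI : Fintype A := Fintype.ofFinite A
  set N : AddMonoid.End A := a - 1 with hN
  have hNp : ∃ r : AddMonoid.End A, N ^ p = (p : AddMonoid.End A) * r := by
    have hc : Commute a (-1 : AddMonoid.End A) := (Commute.one_right a).neg_right
    obtain ⟨r, hr⟩ := hc.exists_add_pow_prime_eq hp
    rw [← sub_eq_add_neg, ha] at hr
    rcases hp.eq_two_or_odd' with h2 | hodd
    · subst h2
      refine ⟨1 + a * (-1) * r, ?_⟩
      rw [hN, hr]
      simp only [neg_one_sq, Nat.cast_ofNat]
      noncomm_ring
    · refine ⟨a * (-1) * r, ?_⟩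
      rw [hN, hr, hodd.neg_one_pow]
      noncomm_ring
  obtain ⟨r, hr⟩ := hNp
  have hNapply : ∀ x : A, N x = a x - x := by
    intro x
    rw [hN]
    rfl
  have hpow_succ : ∀ (i : ℕ) (x : A), (N ^ (i + 1)) x = (N ^ i) (N x) := by
    intro i x
    rw [pow_succ]
    rfl
  let K : ℕ → Finset A := fun i => Finset.univ.filter (fun x => p • x = 0 ∧ (N ^ i) x = 0)
  have memK : ∀ (i : ℕ) (x : A), x ∈ K i ↔ (p • x = 0 ∧ (N ^ i) x = 0) := by
    intro i x
    simp only [K, Finset.mem_filter, Finset.mem_univ, true_and]
  have hK0 : (K 0).card = 1 := by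
    have : K 0 = {0} := by
      ext x
      simp only [K, Finset.mem_filter, Finset.mem_univ, true_and, pow_zero, Finset.mem_singleton]
      constructor
      · rintro ⟨_, h⟩; exact h
      · rintro rfl; exact ⟨smul_zero _, rfl⟩
    rw [this, Finset.card_singleton]
  have hstep : ∀ i, (K (i + 1)).card ≤ (K 1).card * (K i).card := by
    intro i
    have h1 := Finset.card_le_mul_card_image (f := fun x => N x) (K (i + 1)) (K 1).card (by
      intro y hy
      obtain ⟨x0, hx0, rfl⟩ := Finset.mem_image.1 hy
      apply Finset.card_le_card_of_injOn (fun x => x - x0)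
      · intro x hx
        have hx1 := Finset.mem_filter.1 hx
        have hx' : p • x = 0 ∧ (N ^ (i + 1)) x = 0 := (memK _ _).1 hx1.1
        have hx0' : p • x0 = 0 ∧ (N ^ (i + 1)) x0 = 0 := (memK _ _).1 hx0
        have : p • (x - x0) = 0 ∧ (N ^ 1) (x - x0) = 0 := by
          refine ⟨by rw [smul_sub, hx'.1, hx0'.1, sub_zero], ?_⟩
          rw [pow_one, map_sub, hx1.2, sub_self]
        exact (memK _ _).2 this
      · intro x _ x' _ h
        simpa using h)
    have h2 : ((K (i + 1)).image (fun x => N x)).card ≤ (K i).card := by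
      apply Finset.card_le_card
      intro y hy
      obtain ⟨x, hx, rfl⟩ := Finset.mem_image.1 hy
      have hx' : p • x = 0 ∧ (N ^ (i + 1)) x = 0 := (memK _ _).1 hx
      have : p • (N x) = 0 ∧ (N ^ i) (N x) = 0 := by
        refine ⟨by rw [← map_nsmul, hx'.1, map_zero], ?_⟩
        rw [← hpow_succ]; exact hx'.2
      exact (memK _ _).2 this
    exact h1.trans (Nat.mul_le_mul_left _ h2)
  have hKi : ∀ i, (K i).card ≤ (K 1).card ^ i := by
    intro i
    induction i with
    | zero => rw [hK0, pow_zero]
    | succ i ih =>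
      calc (K (i + 1)).card ≤ (K 1).card * (K i).card := hstep i
        _ ≤ (K 1).card * (K 1).card ^ i := Nat.mul_le_mul_left _ ih
        _ = (K 1).card ^ (i + 1) := by rw [pow_succ, mul_comm]
  have hKp : K p = Finset.univ.filter (fun x => p • x = 0) := by
    ext x
    simp only [K, Finset.mem_filter, Finset.mem_univ, true_and]
    constructor
    · exact fun h => h.1
    · intro h
      refine ⟨h, ?_⟩
      rw [hr]
      show (p : AddMonoid.End A) (r x) = 0
      rw [AddMonoid.End.natCast_apply, ← map_nsmul, h, map_zero]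
  have hK1 : (K 1).card ≤ (Finset.univ.filter (fun x => a x = x)).card := by
    apply Finset.card_le_card
    intro x hx
    have hx' : p • x = 0 ∧ (N ^ 1) x = 0 := (memK _ _).1 hx
    have h2 : a x - x = 0 := by rw [← hNapply, ← pow_one N]; exact hx'.2
    simp only [Finset.mem_filter, Finset.mem_univ, true_and]
    exact sub_eq_zero.1 h2
  rw [Nat.card_eq_fintype_card, Nat.card_eq_fintype_card, Fintype.card_subtype, Fintype.card_subtype,
    ← hKp]
  exact (hKi p).trans (Nat.pow_le_pow_left hK1 p)

/-- a finite abelian `p`-group is generated by a set `S` with `p ^ |S| ≤ |Ω₁|` -/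
theorem exists_gens {V : Type*} [CommGroup V] [Finite V] {p : ℕ} [Fact p.Prime] (hV : IsPGroup p V) :
    ∃ S : Finset V, p ^ S.card ≤ Nat.card {v : V // v ^ p = 1} ∧ Subgroup.closure (S : Set V) = ⊤ := by
  classical
  obtain ⟨ι, _, n, hn, ⟨e⟩⟩ := CommGroup.equiv_prod_multiplicative_zmod_of_finite V
  haveI : ∀ i, NeZero (n i) := fun i => ⟨by have := hn i; omega⟩
  haveI : ∀ i, Fact (1 < n i) := fun i => ⟨hn i⟩
  have hgen : ∀ i, ∃ g : Multiplicative (ZMod (n i)), ∀ x, x ∈ Subgroup.zpowers g :=
    fun i => IsCyclic.exists_generator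
  choose g hg using hgen
  -- each factor is a p-group
  have hPi : ∀ i, ∀ x : Multiplicative (ZMod (n i)), ∃ k : ℕ, x ^ p ^ k = 1 := by
    intro i x
    obtain ⟨k, hk⟩ := hV (e.symm (Pi.mulSingle i x))
    refine ⟨k, ?_⟩
    rw [← map_pow] at hk
    have h1 : (Pi.mulSingle i x : (j : ι) → Multiplicative (ZMod (n j))) ^ p ^ k = 1 := by
      have := congrArg e hk
      simpa using this
    have h2 : (Pi.mulSingle i (x ^ p ^ k) : (j : ι) → Multiplicative (ZMod (n j))) = Pi.mulSingle i 1 := by
      rw [Pi.mulSingle_one, ← h1]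
      exact (map_pow (MonoidHom.mulSingle (fun j => Multiplicative (ZMod (n j))) i) x (p ^ k))
    exact Pi.mulSingle_injective i h2
  -- elements of order p in each factor
  have hz : ∀ i, ∃ z : Multiplicative (ZMod (n i)), orderOf z = p := by
    intro i
    obtain ⟨x, hx⟩ := exists_ne (1 : Multiplicative (ZMod (n i)))
    obtain ⟨k, hk⟩ := hPi i x
    have hfind : ∃ k : ℕ, x ^ p ^ k = 1 := ⟨k, hk⟩
    have hk0 : Nat.find hfind ≠ 0 := by
      intro h0
      have := Nat.find_spec hfind
      rw [h0, pow_zero, pow_one] at this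
      exact hx this
    obtain ⟨m, hm⟩ := Nat.exists_eq_succ_of_ne_zero hk0
    refine ⟨x ^ p ^ m, orderOf_eq_prime ?_ ?_⟩
    · rw [← pow_mul, ← pow_succ, ← Nat.succ_eq_add_one, ← hm]
      exact Nat.find_spec hfind
    · intro h
      have := Nat.find_min hfind (m := m) (by omega)
      exact this h
  choose z hzo using hz
  -- the generating set
  let T : Finset ((i : ι) → Multiplicative (ZMod (n i))) := Finset.univ.image (fun i => Pi.mulSingle i (g i))
  refine ⟨T.image e.symm, ?_, ?_⟩
  · -- counting
    have hcard : (T.image e.symm).card ≤ Fintype.card ι :=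
      (Finset.card_image_le).trans ((Finset.card_image_le).trans (le_of_eq Finset.card_univ))
    let f : (ι → Fin p) → {v : V // v ^ p = 1} := fun ε =>
      ⟨e.symm (fun i => z i ^ (ε i : ℕ)), by
        rw [← map_pow]
        have : (fun i => z i ^ (ε i : ℕ) : (i : ι) → Multiplicative (ZMod (n i))) ^ p = 1 := by
          funext i
          show (z i ^ (ε i : ℕ)) ^ p = 1
          have hzp : z i ^ p = 1 := by
            have := pow_orderOf_eq_one (z i)
            rwa [hzo i] at this
          rw [← pow_mul, mul_comm, pow_mul, hzp, one_pow]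
        rw [this, map_one]⟩
    have hf : Function.Injective f := by
      intro ε ε' h
      have h1 : e.symm (fun i => z i ^ (ε i : ℕ)) = e.symm (fun i => z i ^ (ε' i : ℕ)) :=
        congrArg Subtype.val h
      have h2 := e.symm.injective h1
      funext i
      have h3 : z i ^ (ε i : ℕ) = z i ^ (ε' i : ℕ) := congrFun h2 i
      apply Fin.ext
      apply pow_injOn_Iio_orderOf (x := z i)
      · rw [hzo i]; exact (ε i).2
      · rw [hzo i]; exact (ε' i).2
      · exact h3
    have h4 := Nat.card_le_card_of_injective f hf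
    rw [Nat.card_eq_fintype_card, Fintype.card_fun, Fintype.card_fin] at h4
    exact (Nat.pow_le_pow_right (Fact.out : p.Prime).pos hcard).trans h4
  · -- generation
    rw [eq_top_iff]
    intro v _
    have h1 : e v ∈ Subgroup.closure (T : Set ((i : ι) → Multiplicative (ZMod (n i)))) := by
      rw [← Finset.univ_prod_mulSingle (e v)]
      apply Subgroup.prod_mem
      intro i _
      obtain ⟨k, hk⟩ := Subgroup.mem_zpowers_iff.1 (hg i (e v i))
      rw [← hk]
      have h2 : (Pi.mulSingle i (g i ^ k) : (j : ι) → Multiplicative (ZMod (n j))) =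
          (Pi.mulSingle i (g i)) ^ k :=
        map_zpow (MonoidHom.mulSingle (fun j => Multiplicative (ZMod (n j))) i) (g i) k
      rw [h2]
      apply Subgroup.zpow_mem
      apply Subgroup.subset_closure
      simp only [T, Finset.coe_image, Finset.coe_univ, Set.image_univ, Set.mem_range]
      exact ⟨i, rfl⟩
    have h3 : e.symm (e v) ∈ (Subgroup.closure (T : Set ((i : ι) → Multiplicative (ZMod (n i))))).map
        e.symm.toMonoidHom := Subgroup.mem_map_of_mem _ h1
    rw [MonoidHom.map_closure] at h3
    simp only [MulEquiv.symm_apply_apply] at h3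
    convert h3 using 2
    simp

/-- Let V be a finite abelian p-group and α an automorphism of V of order p whose fixed-point subgroup has order p^n. Then V can be generated by pn elements: some subset of V with at most pn elements generates V. -/
theorem result {V : Type*} [CommGroup V] [Finite V] {p : ℕ} [Fact p.Prime] (hV : IsPGroup p V) (α : MulAut V) (hα : orderOf α = p) (n : ℕ) (hfix : Nat.card {v : V // α v = v} = p ^ n) : ∃ S : Finset V, S.card ≤ p * n ∧ Subgroup.closure (S : Set V) = ⊤ := by
  have hp := (Fact.out : p.Prime)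
  obtain ⟨S, hS1, hS2⟩ := exists_gens hV
  refine ⟨S, ?_, hS2⟩
  -- the additive endomorphism induced by α
  let a : AddMonoid.End (Additive V) := MonoidHom.toAdditive α.toMonoidHom
  have hapow : ∀ (k : ℕ) (x : Additive V), (a ^ k) x = Additive.ofMul ((α ^ k) (Additive.toMul x)) := by
    intro k
    induction k with
    | zero => intro x; simp
    | succ k ih =>
      intro x
      rw [pow_succ, pow_succ]
      show (a ^ k) (a x) = _
      rw [ih]
      rfl
  have ha : a ^ p = 1 := by
    ext x
    rw [hapow, ← hα, pow_orderOf_eq_one]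
    rfl
  have hcore := core hp a ha
  have e1 : Nat.card {x : Additive V // p • x = 0} = Nat.card {v : V // v ^ p = 1} :=
    Nat.card_congr (Equiv.subtypeEquiv Additive.toMul (fun x => Iff.rfl))
  have e2 : Nat.card {x : Additive V // a x = x} = Nat.card {v : V // α v = v} :=
    Nat.card_congr (Equiv.subtypeEquiv Additive.toMul (fun x => Iff.rfl))
  rw [e1, e2, hfix, ← pow_mul] at hcore
  have h := hS1.trans hcore
  have h2 := (Nat.pow_le_pow_iff_right hp.one_lt).1 h
  rw [mul_comm]; exact h2

end Cfsg.Agent.S3780
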