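import Cfsg.Statements.S3782
import Cfsg.Agent.Helper53.AlpSolv

set_option autoImplicit false
open Cfsg

namespace Cfsg.Agent.S3782

/-- Alperin's Theorem: for each prime p and each n ≥ 0 there is an integer l such that every finite solvable group admitting an automorphism of order p with exactly p^n fixed points has derived length at most l. -/
theorem result (p : ℕ) (hp : p.Prime) (n : ℕ) : ∃ l : ℕ, ∀ (G : Type) [Group G] [Finite G], Group.IsSolvable G → ∀ α : MulAut G, orderOf α = p → Nat.card {g : G // α g = g} = p ^ n → derivedSeries G l = ⊥ := by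
  have : Fact p.Prime := ⟨hp⟩
  refine ⟨(p ^ (p * n)) ^ (p ^ (p * n)) + Cfsg.Agent.Helper53.Alp.Fb p (n + 1) +
    Cfsg.Agent.Helper53.Alp.xi p, ?_⟩
  intro G _ _ hsol α hα hfix
  have hper : ∀ x : G, (⇑α.toMonoidHom)^[p] x = x := by
    intro x
    have h1 := Cfsg.Agent.Helper53.HK.iter_eq_pow α p x
    have h2 : α ^ p = 1 := by
      rw [← hα]
      exact pow_orderOf_eq_one α
    rw [h2] at h1
    exact h1
  have hfix' : Nat.card (Cfsg.Agent.Helper53.Alp.Fx α.toMonoidHom) = p ^ n := hfix
  exact Cfsg.Agent.Helper53.Alp.alperin_solvable n G α.toMonoidHom hper hfix'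

end Cfsg.Agent.S3782
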