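import Cfsg.Statements.S3783
import Cfsg.Agent.Helper63.PLength
import Cfsg.Agent.Helper63.HHPSol
import Cfsg.Agent.Helper32.HallHigman
import Cfsg.Agent.Helper76.CoprimeSylow

set_option autoImplicit false
open Cfsg

namespace Cfsg.Agent.S3783

open Cfsg.Agent.Helper63.PLen Cfsg.Agent.Helper63.HHA Cfsg.Agent.Helper63.HHP

universe u

/-- `p`-elements lift. -/
theorem exists_lift {G : Type*} [Group G] [Finite G] {p : ℕ} [hp : Fact p.Prime] (N : Subgroup G)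
    [N.Normal] (y : G ⧸ N) (hy : ∃ k : ℕ, y ^ p ^ k = 1) :
    ∃ x : G, QuotientGroup.mk' N x = y ∧ ∃ k : ℕ, x ^ p ^ k = 1 := by
  obtain ⟨k, hk⟩ := hy
  obtain ⟨j, _, hj⟩ := (Nat.dvd_prime_pow hp.out).mp (orderOf_dvd_of_pow_eq_one hk)
  obtain ⟨x, hx, k', hk'⟩ := Cfsg.Agent.Helper76.exists_qpow_lift N y ⟨j, hj⟩
  exact ⟨x, hx, k', by rw [← hk']; exact pow_orderOf_eq_one x⟩

/-- Every `p`-element has order dividing `p ^ n`. -/
def Hexp (p n : ℕ) (G : Type*) [Group G] : Prop :=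
  ∀ x : G, (∃ k : ℕ, x ^ p ^ k = 1) → x ^ p ^ n = 1

/-- Every `q`-subgroup, `q ≠ p`, is abelian. -/
def Hab (p : ℕ) (G : Type*) [Group G] : Prop :=
  ∀ q : ℕ, q.Prime → q ≠ p → ∀ A : Subgroup G, IsPGroup q A → ∀ a ∈ A, ∀ b ∈ A, a * b = b * a

theorem hexp_quot {p n : ℕ} [Fact p.Prime] {G : Type*} [Group G] [Finite G] (N : Subgroup G)
    [N.Normal] (h : Hexp p n G) : Hexp p n (G ⧸ N) := by
  intro y hy
  obtain ⟨x, rfl, hx⟩ := exists_lift N y hy
  rw [← map_pow, h x hx, map_one]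

theorem hab_quot {p : ℕ} {G : Type*} [Group G] [Finite G] (N : Subgroup G) [N.Normal]
    (h : Hab p G) : Hab p (G ⧸ N) := by
  intro q hq hqp A hA a ha b hb
  haveI : Fact q.Prime := ⟨hq⟩
  obtain ⟨S', hS'⟩ := hA.exists_le_sylow
  obtain ⟨S, rfl⟩ := Sylow.mapSurjective_surjective (QuotientGroup.mk'_surjective N) q S'
  rw [Sylow.coe_mapSurjective] at hS'
  obtain ⟨a', ha', rfl⟩ := hS' ha
  obtain ⟨b', hb', rfl⟩ := hS' hb
  rw [← map_mul, ← map_mul, h q hq hqp S S.isPGroup' a' ha' b' hb']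

/-- The key step: the exponent of the Sylow `p`-subgroup drops in `G / O_p(G)`. -/
theorem key (p : ℕ) [hp : Fact p.Prime] {G : Type u} [Group G] [Finite G]
    (hsol : IsPSolvable p G) (hred : pPrimeCore p G = ⊥) (hab : Hab p G) (n : ℕ)
    (hexp : Hexp p (n + 1) G) : Hexp p n (G ⧸ pCore p G) := by
  intro xh hxh
  by_contra hne
  have hQp : IsPGroup p (pCore p G) := Cfsg.Agent.Helper24.isPGroup_pCore p G
  have hC := Cfsg.Agent.Helper32.centralizer_pCore_le_of_isPSolvable hsol hred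
  have hOp : pCore p (G ⧸ pCore p G) = ⊥ := pCore_quotient_pCore_eq_bot p
  have hsolH := Cfsg.Agent.Helper32.isPSolvable_quotient hp.out hsol (pCore p G)
  have hdual := centralizer_pPrimeCore_le hsolH hOp
  have habH : Hab p (G ⧸ pCore p G) := hab_quot _ hab
  have hexpH : Hexp p (n + 1) (G ⧸ pCore p G) := hexp_quot _ hexp
  have hxhN : xh ^ p ^ (n + 1) = 1 := hexpH xh hxh
  have hNcop : (Nat.card (pPrimeCore p (G ⧸ pCore p G))).Coprime p :=
    Cfsg.Agent.Helper24.coprime_card_pPrimeCore p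
  obtain ⟨yh, hyh⟩ : ∃ yh, yh = xh ^ p ^ n := ⟨_, rfl⟩
  rw [← hyh] at hne
  have hyhp : yh ^ p = 1 := by rw [hyh, ← pow_mul, ← pow_succ]; exact hxhN
  have hyhN : yh ∉ pPrimeCore p (G ⧸ pCore p G) := by
    intro hmem
    have h1 : yh ^ Nat.card (pPrimeCore p (G ⧸ pCore p G)) = 1 := mem_pow_eq_one _ hmem
    exact hne (eq_one_of_pow_coprime' h1 hyhp hNcop)
  have hyhC : yh ∉ Subgroup.centralizer (pPrimeCore p (G ⧸ pCore p G) : Set (G ⧸ pCore p G)) :=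
    fun h => hyhN (hdual h)
  obtain ⟨k, hk, hky⟩ : ∃ k ∈ pPrimeCore p (G ⧸ pCore p G), k * yh ≠ yh * k := by
    by_contra hcon
    apply hyhC
    rw [Subgroup.mem_centralizer_iff]
    intro h hh
    by_contra hne'
    exact hcon ⟨h, hh, hne'⟩
  obtain ⟨q, hq, Rh, hRhN, hRhq, hRhx, r₁, hr₁, hr₁y⟩ :=
    exists_invariant_not_centralized (pPrimeCore p (G ⧸ pCore p G)) hNcop xh hxh yh k hk hky
  have hqp : q ≠ p := by
    intro hqp
    rw [hqp] at hRhq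
    have : r₁ = 1 := eq_one_of_mem_of_mem Rh (pPrimeCore p (G ⧸ pCore p G)) hRhq hNcop hr₁
      (hRhN hr₁)
    rw [this] at hr₁y
    simp at hr₁y
  have hpq : Nat.Coprime p q := (Nat.coprime_primes hp.out hq.out).mpr (Ne.symm hqp)
  have hRhab := habH q hq.out hqp Rh hRhq
  have hxy : xh * yh = yh * xh := by
    rw [hyh]; exact (Commute.pow_right (Commute.refl xh) _).eq
  have hRhy : ∀ r ∈ Rh, yh * r * yh⁻¹ ∈ Rh := by
    intro r hr
    rw [hyh]
    exact conj_pow_mem Rh hRhx (p ^ n) hr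
  obtain ⟨R1, hR1mem⟩ : ∃ R1 : Subgroup (G ⧸ pCore p G),
      ∀ s, s ∈ R1 ↔ ∃ r ∈ Rh, s = r⁻¹ * (yh * r * yh⁻¹) :=
    ⟨{ carrier := {s | ∃ r ∈ Rh, s = r⁻¹ * (yh * r * yh⁻¹)}
       one_mem' := ⟨1, Rh.one_mem, by group⟩
       mul_mem' := by
         rintro _ _ ⟨a, ha, rfl⟩ ⟨b, hb, rfl⟩
         refine ⟨a * b, Rh.mul_mem ha hb, ?_⟩
         have h1 := hRhab _ (hRhy a ha) _ (Rh.inv_mem hb)
         have h2 := hRhab _ (Rh.inv_mem ha) _ (Rh.inv_mem hb)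
         calc a⁻¹ * (yh * a * yh⁻¹) * (b⁻¹ * (yh * b * yh⁻¹))
             = a⁻¹ * ((yh * a * yh⁻¹) * b⁻¹) * (yh * b * yh⁻¹) := by group
           _ = a⁻¹ * (b⁻¹ * (yh * a * yh⁻¹)) * (yh * b * yh⁻¹) := by rw [h1]
           _ = (a⁻¹ * b⁻¹) * (yh * (a * b) * yh⁻¹) := by group
           _ = (b⁻¹ * a⁻¹) * (yh * (a * b) * yh⁻¹) := by rw [h2]
           _ = (a * b)⁻¹ * (yh * (a * b) * yh⁻¹) := by group
       inv_mem' := by
         rintro _ ⟨a, ha, rfl⟩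
         refine ⟨a⁻¹, Rh.inv_mem ha, ?_⟩
         have h1 := hRhab _ (hRhy _ (Rh.inv_mem ha)) _ ha
         calc (a⁻¹ * (yh * a * yh⁻¹))⁻¹ = (yh * a⁻¹ * yh⁻¹) * a := by group
           _ = a * (yh * a⁻¹ * yh⁻¹) := h1
           _ = a⁻¹⁻¹ * (yh * a⁻¹ * yh⁻¹) := by group }, fun s => Iff.rfl⟩
  have hR1le : R1 ≤ Rh := by
    intro s hs
    obtain ⟨a, ha, rfl⟩ := (hR1mem s).mp hs
    exact Rh.mul_mem (Rh.inv_mem ha) (hRhy a ha)
  have hR1q : IsPGroup q R1 := hRhq.to_le hR1le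
  have hR1x : ∀ s ∈ R1, xh * s * xh⁻¹ ∈ R1 := by
    intro s hs
    obtain ⟨a, ha, rfl⟩ := (hR1mem s).mp hs
    refine (hR1mem _).mpr ⟨xh * a * xh⁻¹, hRhx a ha, ?_⟩
    calc xh * (a⁻¹ * (yh * a * yh⁻¹)) * xh⁻¹
        = (xh * a * xh⁻¹)⁻¹ * ((xh * yh) * a * (xh * yh)⁻¹) := by group
      _ = (xh * a * xh⁻¹)⁻¹ * ((yh * xh) * a * (yh * xh)⁻¹) := by rw [hxy]
      _ = (xh * a * xh⁻¹)⁻¹ * (yh * (xh * a * xh⁻¹) * yh⁻¹) := by group
  have hR1fix : ∀ s ∈ R1, yh * s = s * yh → s = 1 := by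
    intro s hs hcomm
    obtain ⟨a, ha, hsa⟩ := (hR1mem s).mp hs
    have hsa' : s * a = a * s := hRhab _ (hR1le hs) _ ha
    have h1 : yh * a = s * a * yh := by rw [hsa', hsa]; group
    have h2 := pow_mul_of_stab' h1 hcomm p
    rw [hyhp, one_mul, mul_one] at h2
    have h3 : s ^ p = 1 := by
      have : s ^ p * a = 1 * a := by rw [one_mul]; exact h2.symm
      exact mul_right_cancel this
    obtain ⟨j, hj⟩ := hR1q ⟨s, hs⟩
    have h4 : s ^ q ^ j = 1 := congrArg Subtype.val hj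
    exact eq_one_of_pow_coprime' h3 h4 (Nat.Coprime.pow_right j hpq)
  have hs₁ : r₁⁻¹ * (yh * r₁ * yh⁻¹) ∈ R1 := (hR1mem _).mpr ⟨r₁, hr₁, rfl⟩
  have hs₁ne : r₁⁻¹ * (yh * r₁ * yh⁻¹) ≠ 1 := by
    intro h
    apply hr₁y
    have h' : yh * r₁ * yh⁻¹ = r₁ := by
      calc yh * r₁ * yh⁻¹ = r₁ * (r₁⁻¹ * (yh * r₁ * yh⁻¹)) := by group
        _ = r₁ := by rw [h, mul_one]
    calc r₁ * yh = (yh * r₁ * yh⁻¹) * yh := by rw [h']
      _ = yh * r₁ := by group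
  -- lift to `G`
  obtain ⟨x, hxπ, hxp⟩ := exists_lift (pCore p G) xh hxh
  have hR1x' : ∀ r ∈ R1, (QuotientGroup.mk' (pCore p G) x) * r *
      (QuotientGroup.mk' (pCore p G) x)⁻¹ ∈ R1 := by rw [hxπ]; exact hR1x
  obtain ⟨R, u, hRq, huQ, hRx, hRπ, hRsurj⟩ :=
    exists_lift_invariant (pCore p G) q R1 hR1q x hR1x'
  have hπu : QuotientGroup.mk' (pCore p G) u = 1 := (QuotientGroup.eq_one_iff u).mpr huQ
  have hπx₁ : QuotientGroup.mk' (pCore p G) (u⁻¹ * x) = xh := by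
    rw [map_mul, map_inv, hxπ, hπu, inv_one, one_mul]
  have hRab := hab q hq.out hqp R hRq
  have hRcop : (Nat.card R).Coprime p := by
    obtain ⟨j, hj⟩ := IsPGroup.iff_card.mp hRq
    rw [hj]; exact Nat.Coprime.pow_left j hpq.symm
  have hRQ : ∀ c, c ∈ pCore p G → c ∈ R → c = 1 := fun c h1 h2 =>
    eq_one_of_mem_of_mem (pCore p G) R hQp hRcop h1 h2
  have hfix : ∀ r ∈ R, ∀ i, 0 < i → i < p ^ (n + 1) →
      (u⁻¹ * x) ^ i * r = r * (u⁻¹ * x) ^ i → r = 1 := by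
    intro r hr i hi hiN hcomm
    have h1 : xh ^ i * (QuotientGroup.mk' (pCore p G) r) =
        (QuotientGroup.mk' (pCore p G) r) * xh ^ i := by
      have := congrArg (QuotientGroup.mk' (pCore p G)) hcomm
      rwa [map_mul, map_mul, map_pow, hπx₁] at this
    have h2 : Commute (QuotientGroup.mk' (pCore p G) r) (xh ^ p ^ n) :=
      commute_pow_of_commute hp.out hxhN hi hiN h1.symm
    rw [← hyh] at h2
    have h3 := hR1fix _ (hRπ r hr) h2.eq.symm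
    exact hRQ r ((QuotientGroup.eq_one_iff r).mp h3) hr
  have hlt : 1 < p ^ (n + 1) := Nat.one_lt_pow (Nat.succ_ne_zero n) hp.out.one_lt
  have hexpX : ∀ r ∈ R, ∀ w ∈ pCore p G, (w * (r * (u⁻¹ * x))) ^ p ^ (n + 1) = 1 := by
    intro r hr w hw
    apply hexp
    obtain ⟨g, hg, hconj⟩ := exists_conj R hRab hRx
      (fun r hr h => hfix r hr 1 Nat.one_pos hlt (by simpa using h)) hr
    have hπw : QuotientGroup.mk' (pCore p G) w = 1 := (QuotientGroup.eq_one_iff w).mpr hw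
    have h1 : QuotientGroup.mk' (pCore p G) ((w * (r * (u⁻¹ * x))) ^ p ^ (n + 1)) = 1 := by
      rw [map_pow, map_mul, hπw, one_mul, hconj, map_mul, map_mul, map_inv, hπx₁, conj_pow, hxhN,
        mul_one, mul_inv_cancel]
    have h2 : (w * (r * (u⁻¹ * x))) ^ p ^ (n + 1) ∈ pCore p G := (QuotientGroup.eq_one_iff _).mp h1
    obtain ⟨j, hj⟩ := hQp ⟨_, h2⟩
    have h3 : ((w * (r * (u⁻¹ * x))) ^ p ^ (n + 1)) ^ p ^ j = 1 := congrArg Subtype.val hj
    exact ⟨n + 1 + j, by rw [pow_add, pow_mul]; exact h3⟩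
  have hcent := centralizes p _ G (pCore p G) hQp rfl R hRab hRcop (u⁻¹ * x) hRx (p ^ (n + 1))
    (pow_pos hp.out.pos _) hfix hexpX
  obtain ⟨r, hr, hrπ⟩ := hRsurj _ hs₁
  have hrC : r ∈ Subgroup.centralizer (pCore p G : Set G) :=
    Subgroup.mem_centralizer_iff.mpr (fun w hw => (hcent r hr w hw).symm)
  have hr1 : r = 1 := hRQ r (hC hrC) hr
  rw [hr1, map_one] at hrπ
  exact hs₁ne hrπ.symm

theorem aux (p : ℕ) [hp : Fact p.Prime] : ∀ (n : ℕ) (G : Type u) [Group G] [Finite G],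
    IsPSolvable p G → Hab p G → Hexp p n G → PLengthLE p n G := by
  intro n
  induction n with
  | zero =>
    intro G _ _ hsol hab hexp
    apply pLengthLE_of_coprime
    rw [Nat.coprime_comm, Nat.Prime.coprime_iff_not_dvd hp.out]
    intro hdvd
    obtain ⟨x, hx⟩ := exists_prime_orderOf_dvd_card' p hdvd
    have h1 : x ^ p ^ 0 = 1 := hexp x ⟨1, by rw [pow_one, ← hx]; exact pow_orderOf_eq_one x⟩
    rw [pow_zero, pow_one] at h1
    rw [h1, orderOf_one] at hx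
    exact hp.out.one_lt.ne hx
  | succ n ih =>
    intro G _ _ hsol hab hexp
    have hsol1 := Cfsg.Agent.Helper32.isPSolvable_quotient hp.out hsol (pPrimeCore p G)
    have hred := Cfsg.Agent.Helper55.pPrimeCore_quotient_eq_bot p G
    have hab1 : Hab p (G ⧸ pPrimeCore p G) := hab_quot _ hab
    have hexp1 : Hexp p (n + 1) (G ⧸ pPrimeCore p G) := hexp_quot _ hexp
    have hsol2 := Cfsg.Agent.Helper32.isPSolvable_quotient hp.out hsol1
      (pCore p (G ⧸ pPrimeCore p G))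
    have hab2 : Hab p ((G ⧸ pPrimeCore p G) ⧸ pCore p (G ⧸ pPrimeCore p G)) := hab_quot _ hab1
    have hexp2 : Hexp p n ((G ⧸ pPrimeCore p G) ⧸ pCore p (G ⧸ pPrimeCore p G)) :=
      key p hsol1 hred hab1 n hexp1
    have ih' := ih _ hsol2 hab2 hexp2
    have h1 : PLengthLE p 1 ↥(pCore p (G ⧸ pPrimeCore p G)) :=
      pLengthLE_one_of_isPGroup p (Cfsg.Agent.Helper24.isPGroup_pCore p _)
    have h2 := pLengthLE_extension p (pCore p (G ⧸ pPrimeCore p G)) h1 ih'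
    have h3 : PLengthLE p 0 ↥(pPrimeCore p G) :=
      pLengthLE_of_coprime p (Cfsg.Agent.Helper24.coprime_card_pPrimeCore p)
    have h4 := pLengthLE_extension p (pPrimeCore p G) h3 h2
    have e : 0 + (1 + n) = n + 1 := by omega
    rw [e] at h4
    exact h4

/-- Let G be a finite p-soluble group in which, for every prime q ≠ p, the Sylow q-subgroups are abelian. If the Sylow p-subgroups of G have exponent dividing p^n, then G has p-length at most n. -/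
theorem result {G : Type*} [Group G] [Finite G] {p : ℕ} [Fact p.Prime] (hG : Cfsg.IsPSolvable p G) (hab : ∀ (q : ℕ) [Fact q.Prime], q ≠ p → ∀ Q : Sylow q G, IsMulCommutative (Q : Subgroup G)) (n : ℕ) (hexp : ∀ (P : Sylow p G), ∀ x ∈ (P : Subgroup G), x ^ p ^ n = 1) : Cfsg.PLengthLE p n G := by
  refine aux p n G hG ?_ ?_
  · intro q hq hqp A hA a ha b hb
    haveI : Fact q.Prime := ⟨hq⟩
    obtain ⟨S, hS⟩ := hA.exists_le_sylow
    have h1 := (hab q hqp S).is_comm.comm ⟨a, hS ha⟩ ⟨b, hS hb⟩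
    exact congrArg Subtype.val h1
  · intro x hx
    obtain ⟨P, hP⟩ := (isPGroup_zpowers hx).exists_le_sylow
    exact hexp P x (hP (Subgroup.mem_zpowers x))

end Cfsg.Agent.S3783
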