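-- Statement S3784: prime powers differing by one.
import Cfsg.Statements.S3784
import Mathlib.NumberTheory.Fermat

set_option autoImplicit false
open Cfsg

namespace Cfsg.Agent.S3784

/-- For odd `q` and an odd exponent, `q ^ (2k+1) + 1 = (q + 1) * f` with `f` odd. -/
theorem exists_odd_cofactor_add (q : ℕ) (hq : Odd q) (k : ℕ) :
    ∃ f, Odd f ∧ (q + 1) * f = q ^ (2 * k + 1) + 1 := by
  induction k with
  | zero => exact ⟨1, odd_one, by ring⟩
  | succ k ih =>
    obtain ⟨f, hf, he⟩ := ih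
    have hf1 : 1 ≤ f := hf.pos
    have hq1 : 1 ≤ q := hq.pos
    have h1 : q - 1 ≤ q ^ 2 * f := by
      have : q ≤ q ^ 2 * f := by nlinarith
      omega
    refine ⟨q ^ 2 * f - (q - 1), ?_, ?_⟩
    · exact Nat.Odd.sub_even h1 ((hq.pow).mul hf) (Nat.Odd.sub_odd hq odd_one)
    · zify [h1, hq1]
      have he' : ((q : ℤ) + 1) * f = (q : ℤ) ^ (2 * k + 1) + 1 := by exact_mod_cast he
      have h2 : (q : ℤ) ^ (2 * (k + 1) + 1) = (q : ℤ) ^ 2 * (q : ℤ) ^ (2 * k + 1) := by ring
      rw [h2]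
      linear_combination (q : ℤ) ^ 2 * he'

/-- For odd `p`: `p ^ a - 1 = (p - 1) * g` with `g` of the same parity as `a`. -/
theorem exists_cofactor_sub (p : ℕ) (hp : Odd p) (a : ℕ) :
    ∃ g, (p - 1) * g + 1 = p ^ a ∧ (Odd g ↔ Odd a) := by
  induction a with
  | zero => exact ⟨0, by simp, by simp⟩
  | succ a ih =>
    obtain ⟨g, hg, hpar⟩ := ih
    have hp1 : 1 ≤ p := hp.pos
    refine ⟨p * g + 1, ?_, ?_⟩
    · rw [pow_succ, ← hg]
      zify [hp1]
      ring
    · rw [Nat.odd_add_one, Nat.odd_add_one, ← hpar, Nat.not_odd_iff_even, Nat.not_odd_iff_even,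
        Nat.even_mul]
      constructor
      · rintro (h | h)
        · exact absurd hp (Nat.not_odd_iff_even.mpr h)
        · exact h
      · intro h
        exact Or.inr h

theorem odd_dvd_two_pow (f n : ℕ) (hf : Odd f) (h : f ∣ 2 ^ n) : f = 1 := by
  obtain ⟨j, _, rfl⟩ := (Nat.dvd_prime_pow Nat.prime_two).mp h
  rcases Nat.eq_zero_or_pos j with rfl | hj
  · simp
  · exfalso
    have : Even (2 ^ j) := (Nat.even_pow.mpr ⟨even_two, by omega⟩)
    exact (Nat.not_odd_iff_even.mpr this) hf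

/-- `2 ^ a = q ^ b + 1` with `q` an odd prime forces `b = 1`. -/
theorem key1 (q a b : ℕ) (hq : q.Prime) (hqo : Odd q) (ha : 1 ≤ a) (hb : 2 ≤ b)
    (h : 2 ^ a = q ^ b + 1) : False := by
  rcases Nat.even_or_odd b with hbe | hbo
  · -- `b` even: work modulo 4
    obtain ⟨c, rfl⟩ := hbe
    have hx : Odd (q ^ c) := hqo.pow
    obtain ⟨y, hy⟩ := hx
    have h1 : q ^ (c + c) = (2 * y + 1) ^ 2 := by rw [← hy]; ring
    have h2 : (2 * y + 1) ^ 2 + 1 = 4 * (y * y + y) + 2 := by ring
    rw [h1, h2] at h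
    by_cases ha2 : 2 ≤ a
    · obtain ⟨a', rfl⟩ : ∃ a', a = a' + 2 := ⟨a - 2, by omega⟩
      rw [pow_add] at h
      omega
    · have ha1 : a = 1 := by omega
      subst ha1
      have hy0 : y = 0 := by
        rcases Nat.eq_zero_or_pos y with h0 | h0
        · exact h0
        · exfalso
          have : 1 ≤ y * y := Nat.mul_pos h0 h0
          omega
      subst hy0
      have hq1 : q ^ c = 1 := by simpa using hy
      have hc : 1 ≤ c := by omega
      have : 1 < q ^ c := Nat.one_lt_pow (by omega) hq.one_lt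
      omega
  · -- `b` odd: odd cofactor
    obtain ⟨k, rfl⟩ := hbo
    obtain ⟨f, hf, he⟩ := exists_odd_cofactor_add q hqo k
    rw [← h] at he
    have hf1 : f = 1 := odd_dvd_two_pow f a hf ⟨q + 1, by rw [← he]; ring⟩
    subst hf1
    rw [mul_one, h] at he
    have h3 : q ^ 1 < q ^ (2 * k + 1) := Nat.pow_lt_pow_right hq.one_lt (by omega)
    rw [pow_one] at h3
    omega

/-- `p ^ a = 2 ^ b + 1` with `p` an odd prime and `a ≥ 2` forces `9 = 8 + 1`. -/
theorem key2 (p a b : ℕ) (hp : p.Prime) (hpo : Odd p) (ha : 2 ≤ a)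
    (h : p ^ a = 2 ^ b + 1) : p ^ a = 9 ∧ 2 ^ b = 8 := by
  rcases Nat.even_or_odd a with hae | hao
  · obtain ⟨c, rfl⟩ := hae
    have hc : 1 ≤ c := by omega
    have hx2 : 2 ≤ p ^ c := by
      have : 1 < p ^ c := Nat.one_lt_pow (by omega) hp.one_lt
      omega
    have hxo : Odd (p ^ c) := hpo.pow
    have hfac : (p ^ c - 1) * (p ^ c + 1) = 2 ^ b := by
      have h1 : p ^ (c + c) = p ^ c * p ^ c := by rw [pow_add]
      rw [h1] at h
      have h2 : 1 ≤ p ^ c := by omega
      zify [h2]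
      have h' : ((p : ℤ) ^ c) * (p : ℤ) ^ c = 2 ^ b + 1 := by exact_mod_cast h
      linear_combination h'
    have hd1 : p ^ c - 1 ∣ 2 ^ b := ⟨p ^ c + 1, hfac.symm⟩
    have hd2 : p ^ c + 1 ∣ 2 ^ b := ⟨p ^ c - 1, by rw [← hfac, mul_comm]⟩
    obtain ⟨i, _, hi⟩ := (Nat.dvd_prime_pow Nat.prime_two).mp hd1
    obtain ⟨j, _, hj⟩ := (Nat.dvd_prime_pow Nat.prime_two).mp hd2
    have hij : 2 ^ j = 2 ^ i + 2 := by omega
    have hi1 : i = 1 := by
      rcases Nat.lt_or_ge i 1 with hi0 | hi1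
      · have hi0' : i = 0 := by omega
        subst hi0'
        exfalso
        have hx : p ^ c = 2 := by simp at hi; omega
        rw [hx] at hxo
        exact (Nat.not_odd_iff_even.mpr even_two) hxo
      · rcases Nat.lt_or_ge i 2 with hi2 | hi2
        · omega
        · exfalso
          have hji : i < j := by
            by_contra hcon
            have : 2 ^ j ≤ 2 ^ i := Nat.pow_le_pow_right (by norm_num) (by omega)
            omega
          obtain ⟨i', rfl⟩ : ∃ i', i = i' + 2 := ⟨i - 2, by omega⟩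
          obtain ⟨j', rfl⟩ : ∃ j', j = j' + 2 := ⟨j - 2, by omega⟩
          rw [pow_add, pow_add] at hij
          omega
    subst hi1
    have hx : p ^ c = 3 := by simp at hi; omega
    have h9 : p ^ (c + c) = 9 := by rw [pow_add, hx]; norm_num
    refine ⟨h9, ?_⟩
    omega
  · exfalso
    obtain ⟨g, hg, hpar⟩ := exists_cofactor_sub p hpo a
    have hgo : Odd g := hpar.mpr hao
    have hp1 : 1 ≤ p := hp.pos
    have hg2 : (p - 1) * g = 2 ^ b := by omega
    have hg1 : g = 1 := odd_dvd_two_pow g b hgo ⟨p - 1, by rw [← hg2]; ring⟩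
    subst hg1
    have h3 : p ^ 1 < p ^ a := Nat.pow_lt_pow_right hp.one_lt (by omega)
    rw [pow_one] at h3
    omega

/-- Let p, q be primes and a, b positive integers with p^a = q^b + 1. Then either p = 2, b = 1, a is prime and q = 2^a − 1; or q = 2, a = 1, b is a power of 2 and p = 2^b + 1; or p^a = 9 and q^b = 8. -/
theorem result (p q a b : ℕ) (hp : p.Prime) (hq : q.Prime) (ha : 1 ≤ a) (hb : 1 ≤ b) (h : p ^ a = q ^ b + 1) : (p = 2 ∧ b = 1 ∧ a.Prime ∧ q + 1 = 2 ^ a) ∨ (q = 2 ∧ a = 1 ∧ (∃ m : ℕ, b = 2 ^ m) ∧ p = 2 ^ b + 1) ∨ (p ^ a = 9 ∧ q ^ b = 8) := by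
  rcases hp.eq_two_or_odd' with rfl | hpo
  · -- p = 2
    rcases hq.eq_two_or_odd' with rfl | hqo
    · exfalso
      have h1 : Even (2 ^ a) := Nat.even_pow.mpr ⟨even_two, by omega⟩
      have h2 : Even (2 ^ b) := Nat.even_pow.mpr ⟨even_two, by omega⟩
      rw [h] at h1
      exact (Nat.even_add_one.mp h1) h2
    · have hb1 : b = 1 := by
        by_contra hb1
        exact key1 q a b hq hqo ha (by omega) h
      subst hb1
      rw [pow_one] at h
      left
      refine ⟨rfl, rfl, ?_, h.symm⟩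
      have ha1 : a ≠ 1 := by
        rintro rfl
        have : q = 1 := by omega
        exact hq.one_lt.ne' this
      have hP : (2 ^ a - 1).Prime := by
        have : 2 ^ a - 1 = q := by omega
        rw [this]; exact hq
      exact (Nat.prime_of_pow_sub_one_prime ha1 hP).2
  · -- p odd
    rcases hq.eq_two_or_odd' with rfl | hqo
    · by_cases ha1 : a = 1
      · subst ha1
        rw [pow_one] at h
        right; left
        refine ⟨rfl, rfl, ?_, h⟩
        have hP : (2 ^ b + 1).Prime := by rw [← h]; exact hp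
        exact Nat.pow_of_pow_add_prime (by norm_num) (by omega) hP
      · right; right
        exact key2 p a b hp hpo (by omega) h
    · exfalso
      have h1 : Odd (p ^ a) := hpo.pow
      have h2 : Odd (q ^ b) := hqo.pow
      rw [h] at h1
      exact (Nat.odd_add_one.mp h1) h2

end Cfsg.Agent.S3784
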