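-- Statement S3785: solvable G, F(G) of odd order: centralizing the prime-order elements of F(G) forces membership.
import Cfsg.Statements.S3785
import Cfsg.Agent.Helper22.Bender
import Cfsg.Agent.Helper24.Coprime

set_option autoImplicit false
open Cfsg

namespace Cfsg.Agent.S3785

/-- In a solvable group there are no components, so the layer is trivial. -/
theorem layer_eq_bot {G : Type*} [Group G] (hG : Group.IsSolvable G) : Cfsg.layer G = ⊥ := by
  unfold Cfsg.layer
  rw [eq_bot_iff]
  apply sSup_le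
  rintro K ⟨_, hperf, hsimple⟩
  exfalso
  haveI : Group.IsSolvable K := inferInstance
  haveI : Group.IsPerfect K := hperf
  by_cases hnt : Nontrivial K
  · exact Group.IsPerfect.not_isSolvable (G := ↥K) inferInstance
  · rw [not_nontrivial_iff_subsingleton] at hnt
    haveI : Subsingleton (↥K ⧸ Subgroup.center ↥K) := by
      refine ⟨fun a b => ?_⟩
      obtain ⟨x, rfl⟩ := QuotientGroup.mk_surjective a
      obtain ⟨y, rfl⟩ := QuotientGroup.mk_surjective b
      rw [Subsingleton.elim x y]
    exact not_nontrivial (↥K ⧸ Subgroup.center ↥K) hsimple.toNontrivial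

/-- In a finite solvable group the Fitting subgroup contains its centralizer. -/
theorem centralizer_fitting_le {G : Type*} [Group G] [Finite G] (hG : Group.IsSolvable G) :
    Subgroup.centralizer (Cfsg.fittingSubgroup G : Set G) ≤ Cfsg.fittingSubgroup G := by
  have h := Cfsg.Agent.Helper22.centralizer_generalizedFittingSubgroup_le G
  have h2 : Cfsg.generalizedFittingSubgroup G = Cfsg.fittingSubgroup G := by
    unfold Cfsg.generalizedFittingSubgroup
    rw [layer_eq_bot hG, bot_sup_eq]
  rw [h2] at h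
  exact h

/-- The subgroup of elements commuting with all elements of prime order of the Fitting subgroup. -/
def cOmega (G : Type*) [Group G] : Subgroup G :=
  Subgroup.centralizer {x : G | x ∈ Cfsg.fittingSubgroup G ∧ (orderOf x).Prime}

theorem mem_cOmega {G : Type*} [Group G] (c : G) :
    c ∈ cOmega G ↔ ∀ x ∈ Cfsg.fittingSubgroup G, (orderOf x).Prime → c * x = x * c := by
  unfold cOmega
  rw [Subgroup.mem_centralizer_iff]
  constructor
  · intro h x hx hp
    exact (h x ⟨hx, hp⟩).symm
  · rintro h x ⟨hx, hp⟩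
    exact (h x hx hp).symm

theorem cOmega_normal (G : Type*) [Group G] : (cOmega G).Normal := by
  have hFn : (Cfsg.fittingSubgroup G).Normal := Subgroup.sSup_normal _ (fun _ h => h.1)
  refine ⟨fun n hn s => ?_⟩
  rw [mem_cOmega] at hn ⊢
  intro x hx hp
  have hx' : s⁻¹ * x * s ∈ Cfsg.fittingSubgroup G := by
    have := hFn.conj_mem x hx s⁻¹
    rwa [inv_inv] at this
  have hp' : (orderOf (s⁻¹ * x * s)).Prime := by
    have : orderOf (s⁻¹ * x * s) = orderOf x := by
      have h1 := orderOf_injective (MulAut.conj s⁻¹).toMonoidHom (MulAut.conj s⁻¹).injective x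
      simpa [MulAut.conj_apply] using h1
    rw [this]; exact hp
  have h := hn _ hx' hp'
  calc s * n * s⁻¹ * x = s * (n * (s⁻¹ * x * s)) * s⁻¹ := by group
    _ = s * ((s⁻¹ * x * s) * n) * s⁻¹ := by rw [h]
    _ = x * (s * n * s⁻¹) := by group

/-- Elements of `cOmega` of order prime to `r` centralize `O_r(G)`, when `F(G)` has odd order. -/
theorem pCore_le_centralizer {G : Type*} [Group G] [Finite G]
    (hodd : Odd (Nat.card (Cfsg.fittingSubgroup G))) (r : ℕ) (hr : r.Prime) (c : G)
    (hc : c ∈ cOmega G) (hcop : (orderOf c).Coprime r) :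
    ∀ y ∈ Cfsg.pCore r G, c * y = y * c := by
  haveI : Fact r.Prime := ⟨hr⟩
  have hPF : Cfsg.pCore r G ≤ Cfsg.fittingSubgroup G :=
    le_sSup ⟨Cfsg.pCore_normal r G, (Cfsg.Agent.Helper22.pCore_isPGroup r G).isNilpotent⟩
  have hP : IsPGroup r (Cfsg.pCore r G) := Cfsg.Agent.Helper22.pCore_isPGroup r G
  by_cases hr2 : r = 2
  · subst hr2
    obtain ⟨k, hk⟩ := IsPGroup.iff_card.mp hP
    have hdvd : Nat.card (Cfsg.pCore 2 G) ∣ Nat.card (Cfsg.fittingSubgroup G) :=
      Subgroup.card_dvd_of_le hPF
    have hk0 : k = 0 := by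
      by_contra hk0
      have h2 : 2 ∣ Nat.card (Cfsg.pCore 2 G) := by
        rw [hk]; exact dvd_pow_self 2 hk0
      have h3 : 2 ∣ Nat.card (Cfsg.fittingSubgroup G) := h2.trans hdvd
      exact (Nat.not_even_iff_odd.mpr hodd) (even_iff_two_dvd.mpr h3)
    rw [hk0, pow_zero] at hk
    have hbot := Subgroup.eq_bot_of_card_eq _ hk
    intro y hy
    rw [hbot, Subgroup.mem_bot] at hy
    rw [hy, mul_one, one_mul]
  · have hAcop : (Nat.card (Subgroup.zpowers c)).Coprime r := by
      rw [Nat.card_zpowers]; exact hcop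
    have hAP : Subgroup.zpowers c ≤ Subgroup.normalizer ((Cfsg.pCore r G : Subgroup G) : Set G) := by
      rw [Subgroup.normalizer_eq_top]; exact le_top
    have hΩ : ∀ x ∈ Cfsg.pCore r G, x ^ r = 1 → ∀ a ∈ Subgroup.zpowers c, a * x = x * a := by
      intro x hx hxr a ha
      by_cases hx1 : x = 1
      · rw [hx1, mul_one, one_mul]
      · have hord : orderOf x = r := orderOf_eq_prime hxr hx1
        have hcx : c * x = x * c := (mem_cOmega c).mp hc x (hPF hx) (by rw [hord]; exact hr)
        have hle : Subgroup.zpowers c ≤ Subgroup.centralizer ({x} : Set G) := by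
          rw [Subgroup.zpowers_le, Subgroup.mem_centralizer_iff]
          intro y hy
          rw [Set.mem_singleton_iff] at hy
          subst hy
          exact hcx.symm
        exact (Subgroup.mem_centralizer_iff.mp (hle ha) x rfl).symm
    have hmain := Cfsg.Agent.Helper24.le_centralizer_of_odd_of_centralizes_omega hr2
      (Subgroup.zpowers c) hAcop (Nat.card (Cfsg.pCore r G)) (Cfsg.pCore r G) le_rfl hP hAP hΩ
    intro y hy
    exact Subgroup.mem_centralizer_iff.mp (hmain hy) c (Subgroup.mem_zpowers c)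

/-- `q`-elements of `cOmega` lie in the Fitting subgroup. -/
theorem mem_fitting_of_pow {G : Type*} [Group G] [Finite G] (hG : Group.IsSolvable G)
    (hodd : Odd (Nat.card (Cfsg.fittingSubgroup G))) (q : ℕ) (hq : q.Prime) (c : G)
    (hc : c ∈ cOmega G) (k : ℕ) (hck : c ^ (q ^ k) = 1) : c ∈ Cfsg.fittingSubgroup G := by
  haveI : Fact q.Prime := ⟨hq⟩
  have hCn : (cOmega G).Normal := cOmega_normal G
  have hFeq := Cfsg.Agent.Helper22.fittingSubgroup_eq_iSup_pCore G
  -- W = product of the O_r(G), r ≠ q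
  set W : Subgroup G := sSup {N : Subgroup G | ∃ r : ℕ, r.Prime ∧ r ≠ q ∧ N = Cfsg.pCore r G}
    with hW
  haveI hWn : W.Normal := Subgroup.sSup_normal _ (by
    rintro N ⟨r, _, _, rfl⟩
    exact Cfsg.pCore_normal r G)
  have hFle : Cfsg.fittingSubgroup G ≤ Cfsg.pCore q G ⊔ W := by
    rw [hFeq]
    apply iSup_le
    intro p
    by_cases hpq : (p : ℕ) = q
    · rw [hpq]; exact le_sup_left
    · exact le_trans (le_sSup (show Cfsg.pCore (p : ℕ) G ∈
        {N : Subgroup G | ∃ r : ℕ, r.Prime ∧ r ≠ q ∧ N = Cfsg.pCore r G} from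
        ⟨(p : ℕ), p.2, hpq, rfl⟩)) le_sup_right
  -- elements of cOmega whose order is prime to all r ≠ q centralize W
  have hWcent : ∀ d ∈ cOmega G, (∀ r : ℕ, r.Prime → r ≠ q → (orderOf d).Coprime r) →
      d ∈ Subgroup.centralizer (W : Set G) := by
    intro d hd hcop
    have hle : W ≤ Subgroup.centralizer ({d} : Set G) := by
      apply sSup_le
      rintro N ⟨r, hr, hrq, rfl⟩
      intro y hy
      rw [Subgroup.mem_centralizer_iff]
      intro z hz
      rw [Set.mem_singleton_iff] at hz
      subst hz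
      exact pCore_le_centralizer hodd r hr z hd (hcop r hr hrq) y hy
    rw [Subgroup.mem_centralizer_iff]
    intro w hw
    exact (Subgroup.mem_centralizer_iff.mp (hle hw) d rfl).symm
  set D : Subgroup G := cOmega G ⊓ Subgroup.centralizer (W : Set G) with hD
  haveI hDn : D.Normal := by
    rw [hD]; infer_instance
  have hcD : c ∈ D := by
    refine ⟨hc, hWcent c hc ?_⟩
    intro r hr hrq
    have h1 : orderOf c ∣ q ^ k := orderOf_dvd_of_pow_eq_one hck
    have h2 : (q ^ k).Coprime r := Nat.Coprime.pow_left k ((Nat.coprime_primes hq hr).mpr (Ne.symm hrq))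
    exact Nat.Coprime.coprime_dvd_left h1 h2
  -- D is nilpotent
  have hcentral : W.subgroupOf D ≤ Subgroup.center ↥D := by
    intro y hy
    rw [Subgroup.mem_subgroupOf] at hy
    rw [Subgroup.mem_center_iff]
    intro d
    apply Subtype.ext
    have hd : (d : G) ∈ Subgroup.centralizer (W : Set G) := d.2.2
    exact (Subgroup.mem_centralizer_iff.mp hd (y : G) hy).symm
  haveI hYn : (W.subgroupOf D).Normal := inferInstance
  have hpg : IsPGroup q (↥D ⧸ W.subgroupOf D) := by
    intro a
    obtain ⟨x, rfl⟩ := QuotientGroup.mk_surjective a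
    -- x ∈ D
    obtain ⟨e, m, hm, hem⟩ := Nat.exists_eq_pow_mul_and_not_dvd (orderOf_pos (x : G)).ne' q hq.ne_one
    have hx1m : ((x : G) ^ (q ^ e)) ^ m = 1 := by
      rw [← pow_mul, ← hem]; exact pow_orderOf_eq_one _
    have hx1D : (x : G) ^ (q ^ e) ∈ D := D.pow_mem x.2 _
    have hcopm : m.Coprime q := ((Nat.Prime.coprime_iff_not_dvd hq).mpr hm).symm
    have hord : (orderOf ((x : G) ^ (q ^ e))).Coprime q :=
      Nat.Coprime.coprime_dvd_left (orderOf_dvd_of_pow_eq_one hx1m) hcopm
    -- x1 centralizes F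
    have hx1F : (x : G) ^ (q ^ e) ∈ Subgroup.centralizer (Cfsg.fittingSubgroup G : Set G) := by
      have hle : Cfsg.fittingSubgroup G ≤ Subgroup.centralizer ({(x : G) ^ (q ^ e)} : Set G) := by
        refine hFle.trans (sup_le ?_ ?_)
        · intro y hy
          rw [Subgroup.mem_centralizer_iff]
          intro z hz
          rw [Set.mem_singleton_iff] at hz
          subst hz
          exact pCore_le_centralizer hodd q hq _ hx1D.1 hord y hy
        · intro w hw
          rw [Subgroup.mem_centralizer_iff]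
          intro z hz
          rw [Set.mem_singleton_iff] at hz
          subst hz
          exact (Subgroup.mem_centralizer_iff.mp hx1D.2 w hw).symm
      rw [Subgroup.mem_centralizer_iff]
      intro f hf
      exact (Subgroup.mem_centralizer_iff.mp (hle hf) _ rfl).symm
    have hx1inF : (x : G) ^ (q ^ e) ∈ Cfsg.pCore q G ⊔ W :=
      hFle (centralizer_fitting_le hG hx1F)
    rw [Subgroup.mem_sup_of_normal_right] at hx1inF
    obtain ⟨u, hu, w, hw, huw⟩ := hx1inF
    obtain ⟨b, hb⟩ := IsPGroup.iff_card.mp (Cfsg.Agent.Helper22.pCore_isPGroup q G)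
    have hub : u ^ (q ^ b) = 1 := by
      have h1 := pow_card_eq_one' (G := Cfsg.pCore q G) (x := ⟨u, hu⟩)
      rw [hb] at h1
      have h2 := congrArg Subtype.val h1
      simpa using h2
    have hx2W : ((x : G) ^ (q ^ e)) ^ (q ^ b) ∈ W := by
      rw [← QuotientGroup.eq_one_iff, ← huw, QuotientGroup.mk_pow, QuotientGroup.mk_mul,
        (QuotientGroup.eq_one_iff w).mpr hw, mul_one, ← QuotientGroup.mk_pow, hub]
      rfl
    refine ⟨e + b, ?_⟩
    rw [← QuotientGroup.mk_pow, QuotientGroup.eq_one_iff, Subgroup.mem_subgroupOf]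
    have : ((x ^ (q ^ (e + b)) : ↥D) : G) = ((x : G) ^ (q ^ e)) ^ (q ^ b) := by
      rw [Subgroup.coe_pow, ← pow_mul, pow_add]
    rw [this]
    exact hx2W
  haveI : Group.IsNilpotent (↥D ⧸ W.subgroupOf D) := hpg.isNilpotent
  have hDnil : Group.IsNilpotent ↥D :=
    Subgroup.isNilpotent_of_ker_le_center (QuotientGroup.mk' (W.subgroupOf D))
      (by rw [QuotientGroup.ker_mk']; exact hcentral)
  exact (le_sSup (a := D) ⟨hDn, hDnil⟩ : D ≤ Cfsg.fittingSubgroup G) hcD

/-- Let G be a finite solvable group whose Fitting subgroup F(G) has odd order. If an element g of G commutes with every element of prime order of F(G), then g ∈ F(G). -/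
theorem result {G : Type*} [Group G] [Finite G] (hG : Group.IsSolvable G) (hodd : Odd (Nat.card (Cfsg.fittingSubgroup G))) (g : G) (hg : ∀ x ∈ Cfsg.fittingSubgroup G, (orderOf x).Prime → g * x = x * g) : g ∈ Cfsg.fittingSubgroup G := by
  have hgC : g ∈ cOmega G := (mem_cOmega g).mpr hg
  haveI hFn : (Cfsg.fittingSubgroup G).Normal := Subgroup.sSup_normal _ (fun _ h => h.1)
  rw [← QuotientGroup.eq_one_iff]
  by_contra hne
  have hd : orderOf (g : G ⧸ Cfsg.fittingSubgroup G) ≠ 1 := by rwa [Ne, orderOf_eq_one_iff]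
  obtain ⟨q, hq, hqd⟩ := Nat.exists_prime_and_dvd hd
  obtain ⟨e, m, hm, hem⟩ := Nat.exists_eq_pow_mul_and_not_dvd (orderOf_pos g).ne' q hq.ne_one
  have h1 : (g ^ m) ^ (q ^ e) = 1 := by
    rw [← pow_mul, mul_comm, ← hem]; exact pow_orderOf_eq_one _
  have h2 : g ^ m ∈ Cfsg.fittingSubgroup G :=
    mem_fitting_of_pow hG hodd q hq (g ^ m) ((cOmega G).pow_mem hgC m) e h1
  have h3 : (g : G ⧸ Cfsg.fittingSubgroup G) ^ m = 1 := by
    rw [← QuotientGroup.mk_pow, QuotientGroup.eq_one_iff]; exact h2
  exact hm (hqd.trans (orderOf_dvd_of_pow_eq_one h3))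

end Cfsg.Agent.S3785
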