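import Cfsg.Statements.S4218
import Cfsg.Agent.Helper32.HallHigman
import Cfsg.Agent.Helper32.PPrime
import Cfsg.Agent.Helper32.PConstrained
import Cfsg.Agent.Helper35.CoprimeAbelian
import Cfsg.Agent.Helper47.Coprime
import Cfsg.Agent.Helper2.PGroup
import Cfsg.Agent.Helper51.PCore

set_option autoImplicit false
open Cfsg

namespace Cfsg.Agent.S4218

open Subgroup
open scoped commutatorElement

/-- Burnside: a `p'`-element normalising the `p`-group `P` and acting trivially on `P / Φ(P)`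
centralises `P`. -/
theorem centralizes_of_coprime_of_frattini {X : Type*} [Group X] [Finite X] {p : ℕ}
    [Fact p.Prime] {P : Subgroup X} (hP : IsPGroup p P) {h : X}
    (hh : h ∈ normalizer (P : Set X)) (hcop : (orderOf h).Coprime p)
    (hF : ∀ y ∈ P, h * y * h⁻¹ * y⁻¹ ∈ (frattini ↥P).map P.subtype) :
    ∀ y ∈ P, h * y = y * h := by
  have hFn : normalizer (P : Set X) ≤
      normalizer (((frattini ↥P).map P.subtype : Subgroup X) : Set X) :=
    Helper47.normalizer_le_normalizer_map_of_characteristic P (frattini ↥P)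
  let T : Subgroup X :=
    { carrier := {x | x ∈ normalizer (P : Set X) ∧
        ∀ y ∈ P, x * y * x⁻¹ * y⁻¹ ∈ (frattini ↥P).map P.subtype}
      one_mem' := ⟨Subgroup.one_mem _, fun y _ => by
        have e : (1 : X) * y * 1⁻¹ * y⁻¹ = 1 := by group
        rw [e]; exact Subgroup.one_mem _⟩
      mul_mem' := by
        rintro a b ⟨ha, ha'⟩ ⟨hb, hb'⟩
        refine ⟨Subgroup.mul_mem _ ha hb, fun y hy => ?_⟩
        have e : a * b * y * (a * b)⁻¹ * y⁻¹ =
            a * (b * y * b⁻¹ * y⁻¹) * a⁻¹ * (a * y * a⁻¹ * y⁻¹) := by group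
        rw [e]
        exact Subgroup.mul_mem _ ((Subgroup.mem_normalizer_iff.mp (hFn ha) _).mp (hb' y hy))
          (ha' y hy)
      inv_mem' := by
        rintro a ⟨ha, ha'⟩
        refine ⟨Subgroup.inv_mem _ ha, fun y hy => ?_⟩
        have e : a⁻¹ * y * a⁻¹⁻¹ * y⁻¹ = a⁻¹ * (a * y * a⁻¹ * y⁻¹)⁻¹ * a⁻¹⁻¹ := by group
        rw [e]
        exact (Subgroup.mem_normalizer_iff.mp (hFn (Subgroup.inv_mem _ ha)) _).mp
          (Subgroup.inv_mem _ (ha' y hy)) }
  have hT : zpowers h ≤ T := by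
    rw [zpowers_le]; exact ⟨hh, hF⟩
  have hAP : zpowers h ≤ normalizer (P : Set X) := fun a ha => (hT ha).1
  have hcomm : ⁅P, zpowers h⁆ ≤ (frattini ↥P).map P.subtype := by
    rw [Subgroup.commutator_le]
    intro y hy a ha
    have := Subgroup.inv_mem _ ((hT ha).2 y hy)
    have e : (a * y * a⁻¹ * y⁻¹)⁻¹ = ⁅y, a⁆ := by rw [commutatorElement_def]; group
    rwa [e] at this
  have hcard : (Nat.card (zpowers h)).Coprime (Nat.card P) := by
    obtain ⟨k, hk⟩ := IsPGroup.iff_card.mp hP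
    rw [Nat.card_zpowers, hk]
    exact Nat.Coprime.pow_right k hcop
  have hsolv : Group.IsSolvable (zpowers h) ∨ Group.IsSolvable P := by
    right
    have : Group.IsNilpotent ↥P := hP.isNilpotent
    infer_instance
  have hPC : (centralizer ((zpowers h : Subgroup X) : Set X)).subgroupOf P = ⊤ := by
    apply frattini_nongenerating
    rw [eq_top_iff]
    intro y _
    obtain ⟨n, hn, c, hc, hyc⟩ := Helper35.exists_commutator_mul_fixed hAP hcard hsolv y.2
    obtain ⟨n', hn', hnn⟩ := hcomm hn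
    have hcP : c ∈ P := hc.1
    have e : y = n' * ⟨c, hcP⟩ := by
      apply Subtype.ext
      rw [Subgroup.coe_mul, hyc, ← hnn]
      rfl
    rw [e]
    exact Subgroup.mul_mem _ (Subgroup.mem_sup_right hn')
      (Subgroup.mem_sup_left (Subgroup.mem_subgroupOf.mpr hc.2))
  intro y hy
  have h1 : (⟨y, hy⟩ : ↥P) ∈ (centralizer ((zpowers h : Subgroup X) : Set X)).subgroupOf P := by
    rw [hPC]; exact Subgroup.mem_top _
  rw [Subgroup.mem_subgroupOf] at h1
  exact (Subgroup.mem_centralizer_iff.mp h1) h (mem_zpowers h)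

/-- In a `p`-solvable group with `O_{p'} = 1`, an element acting trivially on
`O_p / Φ(O_p)` lies in `O_p`. -/
theorem mem_pCore_of_frattini {H : Type*} [Group H] [Finite H] {p : ℕ} [Fact p.Prime]
    (hH : Cfsg.IsPSolvable p H) (hred : Cfsg.pPrimeCore p H = ⊥) (g : H)
    (hg : ∀ y ∈ Cfsg.pCore p H, g * y * g⁻¹ * y⁻¹ ∈
      (frattini ↥(Cfsg.pCore p H)).map (Cfsg.pCore p H).subtype) : g ∈ Cfsg.pCore p H := by
  have hPn : (Cfsg.pCore p H).Normal := Cfsg.pCore_normal p H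
  have hPp : IsPGroup p (Cfsg.pCore p H) := Helper51.pCore_isPGroup p H
  have hNtop : normalizer ((Cfsg.pCore p H : Subgroup H) : Set H) = ⊤ :=
    Subgroup.normalizer_eq_top_iff.mpr hPn
  have hFn : ((frattini ↥(Cfsg.pCore p H)).map (Cfsg.pCore p H).subtype).Normal := by
    rw [← Subgroup.normalizer_eq_top_iff, eq_top_iff, ← hNtop]
    exact Helper47.normalizer_le_normalizer_map_of_characteristic _ _
  let T : Subgroup H :=
    { carrier := {x | ∀ y ∈ Cfsg.pCore p H, x * y * x⁻¹ * y⁻¹ ∈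
        (frattini ↥(Cfsg.pCore p H)).map (Cfsg.pCore p H).subtype}
      one_mem' := fun y _ => by
        have e : (1 : H) * y * 1⁻¹ * y⁻¹ = 1 := by group
        rw [e]; exact Subgroup.one_mem _
      mul_mem' := by
        intro a b ha hb y hy
        have e : a * b * y * (a * b)⁻¹ * y⁻¹ =
            a * (b * y * b⁻¹ * y⁻¹) * a⁻¹ * (a * y * a⁻¹ * y⁻¹) := by group
        rw [e]
        exact Subgroup.mul_mem _ (hFn.conj_mem _ (hb y hy) a) (ha y hy)
      inv_mem' := by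
        intro a ha y hy
        have e : a⁻¹ * y * a⁻¹⁻¹ * y⁻¹ = a⁻¹ * (a * y * a⁻¹ * y⁻¹)⁻¹ * a⁻¹⁻¹ := by group
        rw [e]
        exact hFn.conj_mem _ (Subgroup.inv_mem _ (ha y hy)) a⁻¹ }
  have hTn : T.Normal := by
    refine ⟨fun x hx k y hy => ?_⟩
    have e : k * x * k⁻¹ * y * (k * x * k⁻¹)⁻¹ * y⁻¹ =
        k * (x * (k⁻¹ * y * k⁻¹⁻¹) * x⁻¹ * (k⁻¹ * y * k⁻¹⁻¹)⁻¹) * k⁻¹ := by group
    rw [e]
    exact hFn.conj_mem _ (hx _ (hPn.conj_mem y hy k⁻¹)) k
  have hTp : IsPGroup p T := by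
    apply Helper47.isPGroup_of_forall_coprime_eq_one
    intro x hx
    have hx' : (orderOf (x : H)).Coprime p := by rw [Subgroup.orderOf_coe]; exact hx
    have hcent := centralizes_of_coprime_of_frattini hPp
      (by rw [hNtop]; exact Subgroup.mem_top _) hx' x.2
    have hxC : (x : H) ∈ centralizer ((Cfsg.pCore p H : Subgroup H) : Set H) := by
      rw [Subgroup.mem_centralizer_iff]
      intro y hy
      exact (hcent y hy).symm
    have hxP : (x : H) ∈ Cfsg.pCore p H :=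
      Helper32.centralizer_pCore_le_of_isPSolvable hH hred hxC
    obtain ⟨k, hk⟩ := hPp ⟨x, hxP⟩
    have hk' : (x : H) ^ (p ^ k) = 1 := congrArg Subtype.val hk
    have h1 : (x : H) = 1 :=
      Helper47.eq_one_of_pow_prime_pow_of_pow_coprime hk' (pow_orderOf_eq_one (x : H)) hx'
    exact Subtype.ext h1
  exact Helper51.le_pCore T hTn hTp hg

/-- Let `G` be a finite `p`-solvable group, `N₀ = O_{p'}(G)`, `P₁ = O_{p',p}(G)`, and let `F ≤ P₁` be the preimage of the Frattini subgroup of `P₁/N₀`. Then an element `g` of `G` induces the identity on `P₁/F` by conjugation (that is, `g x g⁻¹ x⁻¹ ∈ F` for all `x ∈ P₁`) if and only if `g ∈ P₁`: the group `G/P₁` acts faithfully on `P₁/F`. -/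
theorem result {G : Type*} [Group G] [Finite G] {p : ℕ} [Fact p.Prime] (hG : Cfsg.IsPSolvable p G) (g : G) : (∀ x ∈ Cfsg.pPrimePCore p G, g * x * g⁻¹ * x⁻¹ ∈ ((frattini (↥(Cfsg.pPrimePCore p G) ⧸ (Cfsg.pPrimeCore p G).subgroupOf (Cfsg.pPrimePCore p G))).comap (QuotientGroup.mk' ((Cfsg.pPrimeCore p G).subgroupOf (Cfsg.pPrimePCore p G)))).map (Cfsg.pPrimePCore p G).subtype) ↔ g ∈ Cfsg.pPrimePCore p G := by
  have hKn : (Cfsg.pPrimeCore p G).Normal := Cfsg.pPrimeCore_normal p G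
  have hπsurj : Function.Surjective (QuotientGroup.mk' (Cfsg.pPrimeCore p G)) :=
    QuotientGroup.mk'_surjective _
  have hW : ∀ x : G, x ∈ Cfsg.pPrimePCore p G ↔
      QuotientGroup.mk' (Cfsg.pPrimeCore p G) x ∈ Cfsg.pCore p (G ⧸ Cfsg.pPrimeCore p G) :=
    fun x => Iff.rfl
  constructor
  · intro hg
    rw [hW]
    apply mem_pCore_of_frattini (Helper32.isPSolvable_quotient Fact.out hG _)
      (Helper32.pPrimeCore_quotient_eq_bot' p G)
    intro y hy
    obtain ⟨x, rfl⟩ := hπsurj y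
    have hx : x ∈ Cfsg.pPrimePCore p G := (hW x).mpr hy
    obtain ⟨w, hw, hwc⟩ := hg x hx
    rw [SetLike.mem_coe, Subgroup.mem_comap] at hw
    -- the surjection `W → O_p(G / K)`
    let θ : ↥(Cfsg.pPrimePCore p G) →* ↥(Cfsg.pCore p (G ⧸ Cfsg.pPrimeCore p G)) :=
      ((QuotientGroup.mk' (Cfsg.pPrimeCore p G)).comp (Cfsg.pPrimePCore p G).subtype).codRestrict _
        (fun v => (hW v).mp v.2)
    have hθ : ∀ v : ↥(Cfsg.pPrimePCore p G),
        (θ v).1 = QuotientGroup.mk' (Cfsg.pPrimeCore p G) (v : G) := fun v => rfl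
    have hθker : (Cfsg.pPrimeCore p G).subgroupOf (Cfsg.pPrimePCore p G) ≤ θ.ker := by
      intro v hv
      rw [Subgroup.mem_subgroupOf] at hv
      rw [MonoidHom.mem_ker]
      apply Subtype.ext
      rw [hθ]
      exact (QuotientGroup.eq_one_iff _).mpr hv
    have hlsurj : Function.Surjective
        (QuotientGroup.lift ((Cfsg.pPrimeCore p G).subgroupOf (Cfsg.pPrimePCore p G)) θ hθker) := by
      rintro ⟨z, hz⟩
      obtain ⟨v, rfl⟩ := hπsurj z
      refine ⟨QuotientGroup.mk' _ ⟨v, (hW v).mpr hz⟩, ?_⟩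
      rw [QuotientGroup.mk'_apply, QuotientGroup.lift_mk]
      exact Subtype.ext rfl
    have hfr := frattini_le_comap_frattini_of_surjective hlsurj hw
    rw [Subgroup.mem_comap, QuotientGroup.mk'_apply, QuotientGroup.lift_mk] at hfr
    refine ⟨θ w, hfr, ?_⟩
    rw [Subgroup.coe_subtype, hθ]
    have hwc' : (w : G) = g * x * g⁻¹ * x⁻¹ := hwc
    rw [hwc']
    simp only [map_mul, map_inv]
  · intro hg x hx
    have hQ : IsPGroup p (↥(Cfsg.pPrimePCore p G) ⧸
        (Cfsg.pPrimeCore p G).subgroupOf (Cfsg.pPrimePCore p G)) := by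
      obtain ⟨k, hk⟩ := Helper32.relIndex_pPrimeCore_pPrimePCore p G
      apply IsPGroup.of_card (n := k)
      rw [← Subgroup.index_eq_card]
      exact hk
    have hcf := Helper2.commutator_le_frattini_of_isPGroup hQ
    refine ⟨⟨g, hg⟩ * ⟨x, hx⟩ * ⟨g, hg⟩⁻¹ * ⟨x, hx⟩⁻¹, ?_, rfl⟩
    rw [SetLike.mem_coe, Subgroup.mem_comap]
    apply hcf
    have e : QuotientGroup.mk' ((Cfsg.pPrimeCore p G).subgroupOf (Cfsg.pPrimePCore p G))
        ((⟨g, hg⟩ : ↥(Cfsg.pPrimePCore p G)) * ⟨x, hx⟩ * ⟨g, hg⟩⁻¹ * ⟨x, hx⟩⁻¹) =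
        ⁅QuotientGroup.mk' ((Cfsg.pPrimeCore p G).subgroupOf (Cfsg.pPrimePCore p G))
          (⟨g, hg⟩ : ↥(Cfsg.pPrimePCore p G)),
         QuotientGroup.mk' ((Cfsg.pPrimeCore p G).subgroupOf (Cfsg.pPrimePCore p G))
          (⟨x, hx⟩ : ↥(Cfsg.pPrimePCore p G))⁆ := by
      rw [commutatorElement_def, map_mul, map_mul, map_mul, map_inv, map_inv]
    rw [e]
    exact Subgroup.commutator_mem_commutator (Subgroup.mem_top _) (Subgroup.mem_top _)

end Cfsg.Agent.S4218
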