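import Cfsg.Statements.S3787
import Cfsg.Agent.Helper63.PLength
import Cfsg.Agent.Helper55.TwoClosed
import Cfsg.Agent.Helper32.WreathC
import Cfsg.Agent.Helper32.PSolvable
import Cfsg.Agent.Helper24.PLen
import Cfsg.Agent.Helper2.PGroup
import Cfsg.Agent.Helper47.Coprime
import Cfsg.Agent.Helper51.PCore
import Cfsg.Agent.S4218

set_option autoImplicit false
open Cfsg

namespace Cfsg.Agent.S3787

open Cfsg.Agent.Helper63.PLen Cfsg.Agent.Helper32.HH

open scoped commutatorElement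

universe u v

/-- The wreath section produced by an element of order `p` modulo `O_p(H)` when `O_{p'}(H) = 1`
and `p` is an odd non-Fermat prime. -/
theorem key {H : Type u} [Group H] [Finite H] {p : ℕ} [hpF : Fact p.Prime] (hp2 : p ≠ 2)
    (hnf : ¬ ∃ k : ℕ, p = 2 ^ k + 1) (hH : Cfsg.IsPSolvable p H)
    (hred : Cfsg.pPrimeCore p H = ⊥) (g : H) (hg : g ∉ Cfsg.pCore p H)
    (hgp : g ^ p ∈ Cfsg.pCore p H) :
    ∃ (W : Type) (_ : Group W) (_ : Finite W),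
      (∃ (B : Subgroup W) (t : W), B.Normal ∧ IsMulCommutative B ∧ (∀ b ∈ B, b ^ p = 1) ∧
        Nat.card B = p ^ p ∧ orderOf t = p ∧ t ∉ B ∧ Nat.card W = p ^ (p + 1) ∧
        Nat.card ↥(B ⊓ Subgroup.centralizer ({t} : Set W)) = p) ∧
      ∀ {A : Type v} [Group A] (f : A →* H), Cfsg.pCore p H ≤ f.range → g ∈ f.range →
        Cfsg.Involves W A := by
  classical
  have hp : p.Prime := hpF.out
  have hPn : (Cfsg.pCore p H).Normal := Cfsg.pCore_normal p H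
  have hPp : IsPGroup p (Cfsg.pCore p H) := Cfsg.Agent.Helper51.pCore_isPGroup p H
  have hNtop : Subgroup.normalizer ((Cfsg.pCore p H : Subgroup H) : Set H) = ⊤ :=
    Subgroup.normalizer_eq_top_iff.mpr hPn
  haveI hFn : ((frattini ↥(Cfsg.pCore p H)).map (Cfsg.pCore p H).subtype).Normal := by
    rw [← Subgroup.normalizer_eq_top_iff, eq_top_iff, ← hNtop]
    exact Cfsg.Agent.Helper47.normalizer_le_normalizer_map_of_characteristic _ _
  obtain ⟨Φ, hΦdef⟩ : ∃ Φ : Subgroup H,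
      Φ = (frattini ↥(Cfsg.pCore p H)).map (Cfsg.pCore p H).subtype := ⟨_, rfl⟩
  rw [← hΦdef] at hFn
  have hΦle : Φ ≤ Cfsg.pCore p H := by
    rw [hΦdef]
    exact Subgroup.map_subtype_le _
  have hπ : Function.Surjective (QuotientGroup.mk' Φ) := QuotientGroup.mk'_surjective Φ
  have hcommΦ : ∀ a ∈ Cfsg.pCore p H, ∀ b ∈ Cfsg.pCore p H, a * b * a⁻¹ * b⁻¹ ∈ Φ := by
    intro a ha b hb
    have h1 : ⁅(⟨a, ha⟩ : ↥(Cfsg.pCore p H)), ⟨b, hb⟩⁆ ∈ frattini ↥(Cfsg.pCore p H) := by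
      apply Cfsg.Agent.Helper2.commutator_le_frattini_of_isPGroup hPp
      rw [commutator_def]
      exact Subgroup.commutator_mem_commutator (Subgroup.mem_top _) (Subgroup.mem_top _)
    rw [hΦdef]
    exact ⟨_, h1, rfl⟩
  have hpowΦ : ∀ a ∈ Cfsg.pCore p H, a ^ p ∈ Φ := by
    intro a ha
    have h1 := Cfsg.Agent.Helper2.pow_mem_frattini_of_isPGroup hPp (⟨a, ha⟩ : ↥(Cfsg.pCore p H))
    rw [hΦdef]
    exact ⟨_, h1, rfl⟩
  have hE : Cfsg.IsPSolvable p (H ⧸ Φ) := Cfsg.Agent.Helper32.isPSolvable_quotient hp hH Φ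
  haveI hVn : ((Cfsg.pCore p H).map (QuotientGroup.mk' Φ)).Normal := hPn.map _ hπ
  have hmemV : ∀ h : H, QuotientGroup.mk' Φ h ∈ (Cfsg.pCore p H).map (QuotientGroup.mk' Φ) →
      h ∈ Cfsg.pCore p H := by
    rintro h ⟨y, hy, hyh⟩
    have h1 : y⁻¹ * h ∈ Φ := by
      rw [← QuotientGroup.eq]
      exact hyh
    have h2 : h = y * (y⁻¹ * h) := by group
    rw [h2]
    exact (Cfsg.pCore p H).mul_mem hy (hΦle h1)
  have hVc : ∀ a ∈ (Cfsg.pCore p H).map (QuotientGroup.mk' Φ),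
      ∀ b ∈ (Cfsg.pCore p H).map (QuotientGroup.mk' Φ), a * b = b * a := by
    rintro a ⟨a₀, ha₀, rfl⟩ b ⟨b₀, hb₀, rfl⟩
    rw [← map_mul, ← map_mul]
    show ((a₀ * b₀ : H) : H ⧸ Φ) = ((b₀ * a₀ : H) : H ⧸ Φ)
    rw [QuotientGroup.eq]
    have h1 := hcommΦ b₀⁻¹ ((Cfsg.pCore p H).inv_mem hb₀) a₀⁻¹ ((Cfsg.pCore p H).inv_mem ha₀)
    have h2 : (a₀ * b₀)⁻¹ * (b₀ * a₀) = b₀⁻¹ * a₀⁻¹ * b₀⁻¹⁻¹ * a₀⁻¹⁻¹ := by group
    rw [h2]
    exact h1
  have hVe : ∀ a ∈ (Cfsg.pCore p H).map (QuotientGroup.mk' Φ), a ^ p = 1 := by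
    rintro a ⟨a₀, ha₀, rfl⟩
    rw [← map_pow]
    exact (QuotientGroup.eq_one_iff _).mpr (hpowΦ a₀ ha₀)
  have hCV : ∀ e : H ⧸ Φ, (∀ v ∈ (Cfsg.pCore p H).map (QuotientGroup.mk' Φ), e * v = v * e) →
      e ∈ (Cfsg.pCore p H).map (QuotientGroup.mk' Φ) := by
    intro e he
    obtain ⟨h, rfl⟩ := hπ e
    refine ⟨h, ?_, rfl⟩
    apply Cfsg.Agent.S4218.mem_pCore_of_frattini hH hred h
    intro y hy
    rw [← hΦdef]
    have h1 := he _ ⟨y, hy, rfl⟩
    have h2 : QuotientGroup.mk' Φ (h * y * h⁻¹ * y⁻¹) = 1 := by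
      rw [map_mul, map_mul, map_mul, h1, map_inv, map_inv]
      group
    exact (QuotientGroup.eq_one_iff _).mp h2
  have hVmax : ∀ N : Subgroup (H ⧸ Φ), N.Normal → IsPGroup p N →
      N ≤ (Cfsg.pCore p H).map (QuotientGroup.mk' Φ) := by
    intro N hNn hNp
    have hM : IsPGroup p (N.comap (QuotientGroup.mk' Φ)) := by
      rintro ⟨m, hm⟩
      obtain ⟨k, hk⟩ := hNp ⟨QuotientGroup.mk' Φ m, hm⟩
      have h1 : (QuotientGroup.mk' Φ m) ^ p ^ k = 1 := congrArg Subtype.val hk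
      rw [← map_pow] at h1
      have h2 : m ^ p ^ k ∈ Cfsg.pCore p H := hΦle ((QuotientGroup.eq_one_iff _).mp h1)
      obtain ⟨j, hj⟩ := hPp ⟨m ^ p ^ k, h2⟩
      have h3 : (m ^ p ^ k) ^ p ^ j = 1 := congrArg Subtype.val hj
      refine ⟨k + j, Subtype.ext ?_⟩
      show m ^ p ^ (k + j) = 1
      rw [pow_add, pow_mul]
      exact h3
    have hle : N.comap (QuotientGroup.mk' Φ) ≤ Cfsg.pCore p H :=
      Cfsg.Agent.Helper24.le_pCore (hNn.comap _) hM
    intro y hy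
    obtain ⟨h, rfl⟩ := hπ y
    exact ⟨h, hle hy, rfl⟩
  have hxV : QuotientGroup.mk' Φ g ∉ (Cfsg.pCore p H).map (QuotientGroup.mk' Φ) :=
    fun h => hg (hmemV g h)
  have hxp : (QuotientGroup.mk' Φ g) ^ p ∈ (Cfsg.pCore p H).map (QuotientGroup.mk' Φ) := by
    rw [← map_pow]
    exact ⟨_, hgp, rfl⟩
  obtain ⟨a, haV, hane⟩ := exists_cprod_ne_one hp2 hnf hE _ hVc hVe hCV hVmax _ hxV hxp
  obtain ⟨W, iG, iF, K', φ, hK', hφ, hprops⟩ :=
    exists_wreath_involved _ hVc hVe _ hxV hxp a haV hane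
  refine ⟨W, iG, iF, hprops, ?_⟩
  intro A _ f hf1 hf2
  refine involves_of_le_range ((QuotientGroup.mk' Φ).comp f) K' (hK'.trans ?_) φ hφ
  refine sup_le ?_ (Subgroup.zpowers_le.mpr ?_)
  · rintro y ⟨y₀, hy₀, rfl⟩
    obtain ⟨a₀, rfl⟩ := hf1 hy₀
    exact ⟨a₀, rfl⟩
  · obtain ⟨a₀, rfl⟩ := hf2
    exact ⟨a₀, rfl⟩

/-- Let G be a finite p-soluble group, p an odd prime not of the form 2^k + 1, and suppose the wreath product C_p ≀ C_p (of order p^(p+1)) is not involved in a Sylow p-subgroup of G: no section of a Sylow p-subgroup is isomorphic to it. Then G has p-length at most 1. -/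
theorem result {G : Type*} [Group G] [Finite G] {p : ℕ} [Fact p.Prime] (hp2 : p ≠ 2) (hnf : (¬ ∃ k : ℕ, p = 2 ^ k + 1)) (hG : Cfsg.IsPSolvable p G) (P : Sylow p G) (hwr : ∀ (W : Type) [Group W] [Finite W], (∃ (B : Subgroup W) (t : W), B.Normal ∧ IsMulCommutative B ∧ (∀ b ∈ B, b ^ p = 1) ∧ Nat.card B = p ^ p ∧ orderOf t = p ∧ t ∉ B ∧ Nat.card W = p ^ (p + 1) ∧ Nat.card ↥(B ⊓ Subgroup.centralizer ({t} : Set W)) = p) → ¬ Cfsg.Involves W ↥(P : Subgroup G)) : Cfsg.PLengthLE p 1 G := by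
  classical
  have hp : p.Prime := Fact.out
  have hf : Function.Surjective (QuotientGroup.mk' (pPrimeCore p G)) :=
    QuotientGroup.mk'_surjective _
  have hsol1 : Cfsg.IsPSolvable p (G ⧸ pPrimeCore p G) :=
    Cfsg.Agent.Helper32.isPSolvable_quotient hp hG _
  have hred : pPrimeCore p (G ⧸ pPrimeCore p G) = ⊥ :=
    Cfsg.Agent.Helper55.pPrimeCore_quotient_eq_bot p G
  have hQS : pCore p (G ⧸ pPrimeCore p G) ≤ (P : Subgroup G).map (QuotientGroup.mk' _) := by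
    have := Cfsg.Agent.Helper24.normal_isPGroup_le_sylow
      (inferInstance : (pCore p (G ⧸ pPrimeCore p G)).Normal)
      (Cfsg.Agent.Helper24.isPGroup_pCore p _) (P.mapSurjective hf)
    rwa [Sylow.coe_mapSurjective] at this
  have hg : Function.Surjective (QuotientGroup.mk' (pCore p (G ⧸ pPrimeCore p G))) :=
    QuotientGroup.mk'_surjective _
  have hgf : Function.Surjective ((QuotientGroup.mk' (pCore p (G ⧸ pPrimeCore p G))).comp
      (QuotientGroup.mk' (pPrimeCore p G))) := hg.comp hf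
  have hmain : (Nat.card ((G ⧸ pPrimeCore p G) ⧸ pCore p (G ⧸ pPrimeCore p G))).Coprime p := by
    by_contra hnc
    rw [Nat.coprime_comm, Nat.Prime.coprime_iff_not_dvd hp, not_not] at hnc
    obtain ⟨T, hT⟩ : ∃ T : Sylow p ((G ⧸ pPrimeCore p G) ⧸ pCore p (G ⧸ pPrimeCore p G)),
        (T : Subgroup ((G ⧸ pPrimeCore p G) ⧸ pCore p (G ⧸ pPrimeCore p G))) =
          (P : Subgroup G).map ((QuotientGroup.mk' (pCore p (G ⧸ pPrimeCore p G))).comp
            (QuotientGroup.mk' (pPrimeCore p G))) :=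
      ⟨P.mapSurjective hgf, Sylow.coe_mapSurjective hgf P⟩
    obtain ⟨y, hy⟩ := exists_prime_orderOf_dvd_card' p (T.dvd_card_of_dvd_card hnc)
    obtain ⟨s, hs, hsy⟩ := hT.le y.2
    have hy1 : y ≠ 1 := by
      intro h
      rw [h, orderOf_one] at hy
      exact hp.one_lt.ne hy
    have hyp : y ^ p = 1 := by
      have h := pow_orderOf_eq_one y
      rw [hy] at h
      exact h
    have hg1 : QuotientGroup.mk' (pPrimeCore p G) s ∉ pCore p (G ⧸ pPrimeCore p G) := by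
      intro h
      apply hy1
      apply Subtype.ext
      rw [← hsy]
      exact (QuotientGroup.eq_one_iff _).mpr h
    have hg2 : (QuotientGroup.mk' (pPrimeCore p G) s) ^ p ∈ pCore p (G ⧸ pPrimeCore p G) := by
      rw [← QuotientGroup.eq_one_iff]
      have h1 : ((y ^ p : ↥(T : Subgroup ((G ⧸ pPrimeCore p G) ⧸ pCore p (G ⧸ pPrimeCore p G)))) :
          (G ⧸ pPrimeCore p G) ⧸ pCore p (G ⧸ pPrimeCore p G)) = 1 := by
        rw [hyp]
        rfl
      rw [Subgroup.coe_pow, ← hsy] at h1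
      exact h1
    obtain ⟨W, iG, iF, hprops, hinv⟩ := key hp2 hnf hsol1 hred _ hg1 hg2
    refine @hwr W iG iF hprops
      (hinv ((QuotientGroup.mk' (pPrimeCore p G)).comp (P : Subgroup G).subtype) ?_ ?_)
    · intro z hz
      obtain ⟨s', hs', rfl⟩ := hQS hz
      exact ⟨⟨s', hs'⟩, rfl⟩
    · exact ⟨⟨s, hs⟩, rfl⟩
  have h0 : PLengthLE p 0 ((G ⧸ pPrimeCore p G) ⧸ pCore p (G ⧸ pPrimeCore p G)) :=
    pLengthLE_of_coprime p hmain
  have h1 : PLengthLE p 1 ↥(pCore p (G ⧸ pPrimeCore p G)) :=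
    pLengthLE_one_of_isPGroup p (Cfsg.Agent.Helper24.isPGroup_pCore p _)
  have h2 := pLengthLE_extension p (pCore p (G ⧸ pPrimeCore p G)) h1 h0
  have h3 : PLengthLE p 0 ↥(pPrimeCore p G) :=
    pLengthLE_of_coprime p (Cfsg.Agent.Helper24.coprime_card_pPrimeCore p)
  have h4 := pLengthLE_extension p (pPrimeCore p G) h3 h2
  exact h4

end Cfsg.Agent.S3787
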