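import Cfsg.Statements.S3788
import Cfsg.Agent.Helper62.CycCore
import Cfsg.Agent.Helper35.Burnside
import Cfsg.Agent.Helper63.HHPSol
import Cfsg.Agent.Helper32.HallHigman
import Cfsg.Agent.Helper32.PSolvable
import Cfsg.Agent.Helper1.PPrimeCore
import Cfsg.Agent.Helper22.Fitting
import Cfsg.Agent.Helper47.Basic
import Cfsg.Agent.Helper46.Involves
import Cfsg.Agent.Helper2.PGroup

set_option autoImplicit false
open Cfsg

namespace Cfsg.Agent.S3788

open Cfsg.Agent
open scoped commutatorElement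

/-- The reduced case `O_{p'}(G) = 1`: a `p`-element whose cyclic group is normalized by `O_p(G)`
lies in `O_p(G)`. -/
theorem reduced {G : Type*} [Group G] [Finite G] {p : ℕ} [hp : Fact p.Prime]
    (hG : IsPSolvable p G) (hO : pPrimeCore p G = ⊥)
    (h : p ≠ 2 ∨ ¬ Involves (Equiv.Perm (Fin 4)) G) :
    ∀ (n : ℕ) (a : G), orderOf a = p ^ n →
      (∀ y ∈ pCore p G, y * a * y⁻¹ ∈ Subgroup.zpowers a) → a ∈ pCore p G := by
  intro n
  induction n with
  | zero =>
    intro a ha _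
    rw [pow_zero, orderOf_eq_one_iff] at ha
    rw [ha]; exact Subgroup.one_mem _
  | succ n ih =>
    intro a ha hnorm
    by_contra haQ
    haveI hQn : (pCore p G).Normal := inferInstance
    have hQp : IsPGroup p (pCore p G) := Helper47.pCore_isPGroup p G
    generalize hQdef : pCore p G = Q at hQn hQp haQ hnorm ih
    -- `b = a ^ p` lies in `Q`
    have hb : a ^ p ∈ Q := by
      apply ih
      · rw [orderOf_pow' a hp.out.ne_zero, ha,
          Nat.gcd_eq_right (dvd_pow_self p (Nat.succ_ne_zero n)), pow_succ]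
        exact Nat.mul_div_cancel _ hp.out.pos
      · intro y hy
        obtain ⟨k, hk⟩ := Subgroup.mem_zpowers_iff.mp (hnorm y hy)
        refine Subgroup.mem_zpowers_iff.mpr ⟨k, ?_⟩
        have e1 : y * a ^ p * y⁻¹ = (y * a * y⁻¹) ^ p := conj_pow.symm
        rw [e1, ← hk, ← zpow_natCast, ← zpow_natCast, ← zpow_mul, ← zpow_mul, mul_comm]
    -- `[Q, a] ≤ ⟨a ^ p⟩`
    have hQa : ∀ y ∈ Q, a * y * a⁻¹ * y⁻¹ ∈ Subgroup.zpowers (a ^ p) := by
      intro y hy
      have h1 : a * y * a⁻¹ * y⁻¹ ∈ Q := Q.mul_mem (hQn.conj_mem y hy a) (Q.inv_mem hy)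
      have h2 : a * y * a⁻¹ * y⁻¹ ∈ Subgroup.zpowers a := by
        have h3 := hnorm y hy
        have e : a * y * a⁻¹ * y⁻¹ = a * (y * a * y⁻¹)⁻¹ := by group
        rw [e]
        exact Subgroup.mul_mem _ (Subgroup.mem_zpowers a) (Subgroup.inv_mem _ h3)
      obtain ⟨k, hk⟩ := (Submonoid.mem_powers_iff _ _).mp
        ((isOfFinOrder_of_finite a).mem_powers_iff_mem_zpowers.mpr h2)
      by_cases hpk : p ∣ k
      · obtain ⟨k', rfl⟩ := hpk
        rw [← hk, pow_mul]
        exact Subgroup.npow_mem_zpowers _ _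
      · exfalso
        apply haQ
        have hcop : k.Coprime (orderOf a) := by
          rw [ha]
          exact Nat.Coprime.pow_right _ ((Nat.Prime.coprime_iff_not_dvd hp.out).mpr hpk).symm
        obtain ⟨l, hl⟩ := exists_pow_eq_self_of_coprime hcop
        rw [← hl, hk]
        exact Q.pow_mem h1 l
    -- the Frattini subgroup of `Q`
    have hΦQ : (frattini ↥Q).map Q.subtype ≤ Q := Subgroup.map_subtype_le _
    haveI hΦn : ((frattini ↥Q).map Q.subtype).Normal := by
      have h1 := Helper47.normalizer_le_normalizer_map_of_characteristic Q (frattini ↥Q)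
      rw [Subgroup.normalizer_eq_top] at h1
      exact Subgroup.normalizer_eq_top_iff.mp (top_le_iff.mp h1)
    have hcomm : ∀ y ∈ Q, ∀ z ∈ Q, y * z * y⁻¹ * z⁻¹ ∈ (frattini ↥Q).map Q.subtype := by
      intro y hy z hz
      have h0 : ⁅(⟨y, hy⟩ : Q), ⟨z, hz⟩⁆ ∈ commutator ↥Q := by
        rw [commutator_def]
        exact Subgroup.commutator_mem_commutator (Subgroup.mem_top _) (Subgroup.mem_top _)
      exact ⟨_, Helper2.commutator_le_frattini_of_isPGroup hQp h0, rfl⟩
    have hpow : ∀ y ∈ Q, y ^ p ∈ (frattini ↥Q).map Q.subtype := by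
      intro y hy
      exact ⟨_, Helper2.pow_mem_frattini_of_isPGroup hQp (⟨y, hy⟩ : Q), rfl⟩
    have hCQ : Subgroup.centralizer (Q : Set G) ≤ Q := by
      rw [← hQdef]
      exact Helper32.centralizer_pCore_le_of_isPSolvable hG hO
    generalize hΦdef : (frattini ↥Q).map Q.subtype = Φ at hΦQ hΦn hcomm hpow
    have hBurn : ∀ g : G, (orderOf g).Coprime p → (∀ y ∈ Q, g * y * g⁻¹ * y⁻¹ ∈ Φ) →
        ∀ y ∈ Q, g * y = y * g := by
      intro g hcop hF
      refine Helper35.centralizes_of_coprime_of_frattini hQp (h := g)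
        (by rw [Subgroup.normalizer_eq_top]; exact Subgroup.mem_top _) hcop ?_
      rw [hΦdef]; exact hF
    clear hΦdef
    -- the quotient by `Φ`
    have hπ : Function.Surjective (QuotientGroup.mk' Φ) := QuotientGroup.mk'_surjective Φ
    have hker : ∀ g : G, QuotientGroup.mk' Φ g = 1 ↔ g ∈ Φ := fun g => QuotientGroup.eq_one_iff g
    haveI hVn : (Q.map (QuotientGroup.mk' Φ)).Normal := hQn.map _ hπ
    have hmemV : ∀ g : G, QuotientGroup.mk' Φ g ∈ Q.map (QuotientGroup.mk' Φ) ↔ g ∈ Q := by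
      intro g
      constructor
      · rintro ⟨q, hq, hqg⟩
        have h1 : q⁻¹ * g ∈ Φ := by rw [← hker, map_mul, map_inv, hqg, inv_mul_cancel]
        have h2 := Q.mul_mem hq (hΦQ h1)
        simpa using h2
      · intro hg; exact Subgroup.mem_map_of_mem _ hg
    have hVab : ∀ y ∈ Q.map (QuotientGroup.mk' Φ), ∀ z ∈ Q.map (QuotientGroup.mk' Φ),
        y * z = z * y := by
      rintro _ ⟨y, hy, rfl⟩ _ ⟨z, hz, rfl⟩
      have h3 := (hker _).mpr (hcomm y hy z hz)
      rw [map_mul, map_mul, map_mul, map_inv, map_inv] at h3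
      exact commutatorElement_eq_one_iff_mul_comm.mp h3
    have hVexp : ∀ y ∈ Q.map (QuotientGroup.mk' Φ), y ^ p = 1 := by
      rintro _ ⟨y, hy, rfl⟩
      rw [← map_pow]; exact (hker _).mpr (hpow y hy)
    have hCV : Subgroup.centralizer ((Q.map (QuotientGroup.mk' Φ) : Subgroup (G ⧸ Φ)) : Set (G ⧸ Φ)) ≤
        Q.map (QuotientGroup.mk' Φ) := by
      haveI hCn : ((Subgroup.centralizer ((Q.map (QuotientGroup.mk' Φ) : Subgroup (G ⧸ Φ)) :
          Set (G ⧸ Φ))).comap (QuotientGroup.mk' Φ)).Normal :=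
        (inferInstance : (Subgroup.centralizer ((Q.map (QuotientGroup.mk' Φ) :
          Subgroup (G ⧸ Φ)) : Set (G ⧸ Φ))).Normal).comap _
      have hCmem : ∀ g ∈ (Subgroup.centralizer ((Q.map (QuotientGroup.mk' Φ) :
          Subgroup (G ⧸ Φ)) : Set (G ⧸ Φ))).comap (QuotientGroup.mk' Φ),
          ∀ y ∈ Q, g * y * g⁻¹ * y⁻¹ ∈ Φ := by
        intro g hg y hy
        have h1 := Subgroup.mem_centralizer_iff.mp hg (QuotientGroup.mk' Φ y)
          (Subgroup.mem_map_of_mem _ hy)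
        rw [← hker, map_mul, map_mul, map_mul, map_inv, map_inv, ← h1]; group
      have hCp : IsPGroup p ((Subgroup.centralizer ((Q.map (QuotientGroup.mk' Φ) :
          Subgroup (G ⧸ Φ)) : Set (G ⧸ Φ))).comap (QuotientGroup.mk' Φ)) := by
        rintro ⟨g, hg⟩
        obtain ⟨k, m', hm', hkm⟩ :=
          Nat.exists_eq_pow_mul_and_not_dvd (orderOf_pos g).ne' p hp.out.ne_one
        have hg' := Subgroup.pow_mem _ hg (p ^ k)
        have hm1 : (g ^ p ^ k) ^ m' = 1 := by
          rw [← pow_mul, ← hkm]; exact pow_orderOf_eq_one g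
        have hm'cop : m'.Coprime p := ((Nat.Prime.coprime_iff_not_dvd hp.out).mpr hm').symm
        have hcop : (orderOf (g ^ p ^ k)).Coprime p :=
          Nat.Coprime.coprime_dvd_left (orderOf_dvd_of_pow_eq_one hm1) hm'cop
        have hcen := hBurn (g ^ p ^ k) hcop (hCmem _ hg')
        have h1 : g ^ p ^ k ∈ Q :=
          hCQ (Subgroup.mem_centralizer_iff.mpr (fun y hy => (hcen y hy).symm))
        obtain ⟨j, hj⟩ := hQp ⟨_, h1⟩
        have hj' : (g ^ p ^ k) ^ p ^ j = 1 := by simpa using congrArg Subtype.val hj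
        have h2 : (g ^ p ^ k) ^ Nat.gcd (p ^ j) m' = 1 := pow_gcd_eq_one.mpr ⟨hj', hm1⟩
        have hg1 : Nat.gcd (p ^ j) m' = 1 := Nat.Coprime.pow_left j hm'cop.symm
        rw [hg1, pow_one] at h2
        exact ⟨k, Subtype.ext (by rw [Subgroup.coe_pow]; exact h2)⟩
      have hCQ' := Helper47.le_pCore hCn hCp
      rw [hQdef] at hCQ'
      intro g hg
      obtain ⟨g, rfl⟩ := hπ g
      exact (hmemV g).mpr (hCQ' hg)
    -- the quotient by `Q`
    have hOp : pCore p (G ⧸ Q) = ⊥ := by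
      subst hQdef; exact Helper63.HHP.pCore_quotient_pCore_eq_bot p
    have hG' : IsPSolvable p (G ⧸ Q) := Helper32.isPSolvable_quotient hp.out hG Q
    have hCK := Helper63.HHP.centralizer_pPrimeCore_le hG' hOp
    have hKcop : (Nat.card (pPrimeCore p (G ⧸ Q))).Coprime p :=
      Helper22.card_pPrimeCore_coprime p (G ⧸ Q)
    have ha1 : QuotientGroup.mk' Q a ∉ pPrimeCore p (G ⧸ Q) := by
      intro haK
      have h1 : orderOf (QuotientGroup.mk' Q a) ∣ p ^ (n + 1) := by
        rw [← ha]; exact orderOf_map_dvd _ a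
      have h2 : orderOf (QuotientGroup.mk' Q a) ∣ Nat.card (pPrimeCore p (G ⧸ Q)) :=
        Subgroup.orderOf_dvd_natCard _ haK
      have h3 : orderOf (QuotientGroup.mk' Q a) = 1 :=
        Nat.eq_one_of_dvd_coprimes (Nat.Coprime.pow_right _ hKcop) h2 h1
      exact haQ ((QuotientGroup.eq_one_iff a).mp (orderOf_eq_one_iff.mp h3))
    have ha2 : QuotientGroup.mk' Q a ∉
        Subgroup.centralizer ((pPrimeCore p (G ⧸ Q) : Subgroup (G ⧸ Q)) : Set (G ⧸ Q)) :=
      fun h => ha1 (hCK h)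
    rw [Subgroup.mem_centralizer_iff] at ha2
    push Not at ha2
    obtain ⟨xb, hxK, hxa⟩ := ha2
    obtain ⟨x, rfl⟩ := QuotientGroup.mk'_surjective Q xb
    have hKn : (pPrimeCore p (G ⧸ Q)).Normal := inferInstance
    have hrK : QuotientGroup.mk' Q (a⁻¹ * (x * a * x⁻¹)) ∈ pPrimeCore p (G ⧸ Q) := by
      have e : QuotientGroup.mk' Q (a⁻¹ * (x * a * x⁻¹)) =
          ((QuotientGroup.mk' Q a)⁻¹ * QuotientGroup.mk' Q x * (QuotientGroup.mk' Q a)⁻¹⁻¹) *
            (QuotientGroup.mk' Q x)⁻¹ := by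
        simp only [map_mul, map_inv]; group
      rw [e]
      exact Subgroup.mul_mem _ (hKn.conj_mem _ hxK _) (Subgroup.inv_mem _ hxK)
    have hrm : (a⁻¹ * (x * a * x⁻¹)) ^ Nat.card (pPrimeCore p (G ⧸ Q)) ∈ Q := by
      have h1 : (QuotientGroup.mk' Q (a⁻¹ * (x * a * x⁻¹))) ^ Nat.card (pPrimeCore p (G ⧸ Q)) = 1 := by
        have h2 := pow_card_eq_one' (G := pPrimeCore p (G ⧸ Q)) (x := ⟨_, hrK⟩)
        exact congrArg Subtype.val h2
      rw [← map_pow] at h1
      exact (QuotientGroup.eq_one_iff _).mp h1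
    have hrQ : a⁻¹ * (x * a * x⁻¹) ∉ Q := by
      intro hmem
      apply hxa
      have h1 : QuotientGroup.mk' Q (a⁻¹ * (x * a * x⁻¹)) = 1 :=
        (QuotientGroup.eq_one_iff _).mpr hmem
      rw [map_mul, map_mul, map_mul, map_inv, map_inv] at h1
      have h2 : QuotientGroup.mk' Q x * QuotientGroup.mk' Q a * (QuotientGroup.mk' Q x)⁻¹ =
          QuotientGroup.mk' Q a := by
        have h3 := congrArg (fun t => QuotientGroup.mk' Q a * t) h1
        simpa using h3
      calc QuotientGroup.mk' Q x * QuotientGroup.mk' Q a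
          = (QuotientGroup.mk' Q x * QuotientGroup.mk' Q a * (QuotientGroup.mk' Q x)⁻¹) *
              QuotientGroup.mk' Q x := by group
        _ = QuotientGroup.mk' Q a * QuotientGroup.mk' Q x := by rw [h2]
    -- apply the core lemma in `G ⧸ Φ`
    have hinv : p ≠ 2 ∨ ¬ Involves (Equiv.Perm (Fin 4)) (G ⧸ Φ) :=
      h.imp id (fun hS hI => hS (Helper46.involves_of_quotient Φ hI))
    have e : (QuotientGroup.mk' Φ a)⁻¹ * (QuotientGroup.mk' Φ x * QuotientGroup.mk' Φ a *
        (QuotientGroup.mk' Φ x)⁻¹) = QuotientGroup.mk' Φ (a⁻¹ * (x * a * x⁻¹)) := by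
      simp only [map_mul, map_inv]
    refine Helper62.cyc_core (Q.map (QuotientGroup.mk' Φ)) hVab hVexp hCV (QuotientGroup.mk' Φ a)
      (QuotientGroup.mk' Φ x) ?_ ?_ (Nat.card (pPrimeCore p (G ⧸ Q))) hKcop ?_ ?_ hinv
    · rw [← map_pow]; exact (hmemV _).mpr hb
    · rintro _ ⟨y, hy, rfl⟩
      have h1 := hQa y hy
      rw [← map_pow, ← MonoidHom.map_zpowers]
      exact ⟨_, h1, by simp only [map_mul, map_inv]⟩
    · rw [e, ← map_pow]; exact (hmemV _).mpr hrm
    · rw [e]; exact fun hmem => hrQ ((hmemV _).mp hmem)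

/-- Let G be a finite p-soluble group, P a Sylow p-subgroup of G and A a cyclic normal subgroup of P. If p is odd, or if no section of G is isomorphic to the symmetric group of degree 4, then A ≤ O_{p',p}(G). -/
theorem result {G : Type*} [Group G] [Finite G] {p : ℕ} [Fact p.Prime] (hG : Cfsg.IsPSolvable p G) (P : Sylow p G) (A : Subgroup G) (hAP : A ≤ (P : Subgroup G)) (hAn : (P : Subgroup G) ≤ Subgroup.normalizer (A : Set G)) (hA : IsCyclic A) (h : p ≠ 2 ∨ ¬ Cfsg.Involves (Equiv.Perm (Fin 4)) G) : A ≤ Cfsg.pPrimePCore p G := by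
  have hp : p.Prime := Fact.out
  obtain ⟨⟨a, haA⟩, hgen⟩ := hA.exists_generator
  have hAeq : ∀ y ∈ A, y ∈ Subgroup.zpowers a := by
    intro y hy
    obtain ⟨k, hk⟩ := Subgroup.mem_zpowers_iff.mp (hgen ⟨y, hy⟩)
    exact Subgroup.mem_zpowers_iff.mpr ⟨k, by simpa using congrArg Subtype.val hk⟩
  have hπ : Function.Surjective (QuotientGroup.mk' (pPrimeCore p G)) :=
    QuotientGroup.mk'_surjective _
  have hG' : IsPSolvable p (G ⧸ pPrimeCore p G) := Helper32.isPSolvable_quotient hp hG _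
  have hO : pPrimeCore p (G ⧸ pPrimeCore p G) = ⊥ := Helper1.pPrimeCore_quotient_eq_bot p
  have hinv : p ≠ 2 ∨ ¬ Involves (Equiv.Perm (Fin 4)) (G ⧸ pPrimeCore p G) :=
    h.imp id (fun hS hI => hS (Helper46.involves_of_quotient _ hI))
  have haP : a ∈ (P : Subgroup G) := hAP haA
  obtain ⟨k, hk⟩ := (IsPGroup.iff_orderOf.mp P.isPGroup') ⟨a, haP⟩
  have hk' : orderOf a = p ^ k := by rw [← hk, Subgroup.orderOf_mk]
  have hdvd : orderOf (QuotientGroup.mk' (pPrimeCore p G) a) ∣ p ^ k := by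
    rw [← hk']; exact orderOf_map_dvd _ a
  obtain ⟨n, -, hn⟩ := (Nat.dvd_prime_pow hp).mp hdvd
  have key : QuotientGroup.mk' (pPrimeCore p G) a ∈ pCore p (G ⧸ pPrimeCore p G) := by
    refine reduced hG' hO hinv n _ hn ?_
    intro y hy
    have h1 : pCore p (G ⧸ pPrimeCore p G) ≤ (P.mapSurjective hπ : Subgroup (G ⧸ pPrimeCore p G)) :=
      Helper47.pCore_le_sylow (P.mapSurjective hπ)
    obtain ⟨y₀, hy₀, rfl⟩ := h1 hy
    have h2 : y₀ * a * y₀⁻¹ ∈ A := (Subgroup.mem_normalizer_iff.mp (hAn hy₀) a).mp haA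
    have h3 := hAeq _ h2
    rw [← MonoidHom.map_zpowers]
    exact ⟨_, h3, by simp only [map_mul, map_inv]⟩
  intro y hy
  have h4 : Subgroup.zpowers a ≤ pPrimePCore p G := by
    rw [Subgroup.zpowers_le]
    exact key
  exact h4 (hAeq y hy)

end Cfsg.Agent.S3788
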