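import Cfsg.Statements.S3790
import Cfsg.Agent.Helper63.PLength

set_option autoImplicit false
open Cfsg

namespace Cfsg.Agent.S3790

open Cfsg.Agent.Helper63.PLen

universe u

theorem aux (p : ℕ) [hp : Fact p.Prime] : ∀ (r : ℕ) (G : Type u) [Group G] [Finite G]
    (q : Fin r → ℕ) (_ : ∀ i, (q i).Prime ∧ q i ≠ p)
    (_ : ∀ s : ℕ, s.Prime → s ∣ Nat.card G → s ≠ p → ∃ i, q i = s) (l : Fin r → ℕ)
    (_ : ∀ i, Cfsg.PLengthLE (q i) (l i) G),
    Cfsg.PLengthLE p (Finset.univ.prod fun i => 1 + l i) G := by
  intro r
  induction r with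
  | zero =>
    intro G _ _ q hq hcover l hl
    have hcard : Nat.card G = p ^ (Nat.card G).primeFactorsList.length := by
      apply Nat.eq_prime_pow_of_unique_prime_dvd Nat.card_pos.ne'
      intro d hd hdvd
      by_contra hne
      obtain ⟨i, _⟩ := hcover d hd hdvd hne
      exact i.elim0
    rw [Finset.univ_eq_empty, Finset.prod_empty]
    exact pLengthLE_one_of_isPGroup p (IsPGroup.of_card hcard)
  | succ r ih =>
    intro G _ _ q hq hcover l hl
    obtain ⟨q₀, hq₀⟩ : ∃ q₀, q₀ = q (Fin.last r) := ⟨_, rfl⟩
    haveI : Fact q₀.Prime := ⟨by rw [hq₀]; exact (hq (Fin.last r)).1⟩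
    have hq₀p : q₀ ≠ p := by rw [hq₀]; exact (hq (Fin.last r)).2
    obtain ⟨Pr, hPr⟩ : ∃ Pr, Pr = Finset.univ.prod fun i : Fin r => 1 + l (Fin.castSucc i) := ⟨_, rfl⟩
    have key : ∀ j : ℕ, NChain p (⊥ : Subgroup G) (2 * ((j + 1) / 2 * Pr) + 1)
        (upperPSeries q₀ G j).1 := by
      intro j
      induction j with
      | zero =>
        rw [upper_zero]
        have e : 2 * ((0 + 1) / 2 * Pr) + 1 = 0 + 1 := by simp
        rw [e]
        exact nchain_succ.mpr ⟨⊥, nchain_zero.mpr rfl, le_rfl, inferInstance,
          by rw [Subgroup.relIndex_self]; exact fac_one p 0⟩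
      | succ j ihj =>
        haveI : (upperPSeries q₀ G j).1.Normal := (upperPSeries q₀ G j).2
        have step : ∀ (N : Subgroup (G ⧸ (upperPSeries q₀ G j).1)) [N.Normal] (k : ℕ),
            PLengthLE p k N → NChain p (⊥ : Subgroup G) (2 * ((j + 1) / 2 * Pr + k) + 1)
              (N.comap (QuotientGroup.mk' _)) := by
          intro N _ k hk
          have h1 := nchain_of_normal_pLengthLE p N hk
          have h2 := nchain_comap (QuotientGroup.mk' (upperPSeries q₀ G j).1)
            (inferInstance : (⊥ : Subgroup (G ⧸ (upperPSeries q₀ G j).1)).Normal) h1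
          rw [MonoidHom.comap_bot, QuotientGroup.ker_mk'] at h2
          have h3 := nchain_concat ((j + 1) / 2 * Pr) ihj h2
          rwa [show 2 * ((j + 1) / 2 * Pr) + (2 * k + 1) = 2 * ((j + 1) / 2 * Pr + k) + 1 by ring]
            at h3
        by_cases hj : Even j
        · rw [upper_succ_even q₀ hj]
          have hk : PLengthLE p Pr (pPrimeCore q₀ (G ⧸ (upperPSeries q₀ G j).1)) := by
            rw [hPr]
            apply ih _ (fun i => q (Fin.castSucc i)) (fun i => hq _) _
              (fun i => l (Fin.castSucc i))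
            · intro i
              haveI : Fact (q (Fin.castSucc i)).Prime := ⟨(hq _).1⟩
              exact pLengthLE_subgroup _ _ (pLengthLE_of_surjective _ (QuotientGroup.mk' _)
                (QuotientGroup.mk'_surjective _) (hl _))
            · intro s hs hdvd hsp
              have hcop := Cfsg.Agent.Helper24.coprime_card_pPrimeCore
                (G := G ⧸ (upperPSeries q₀ G j).1) q₀
              have hsq : s ≠ q₀ := by
                intro h
                rw [h] at hdvd hs
                exact (Nat.Prime.coprime_iff_not_dvd hs).mp hcop.symm hdvd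
              have hdvdG : s ∣ Nat.card G :=
                hdvd.trans ((Subgroup.card_subgroup_dvd_card _).trans
                  (Subgroup.card_quotient_dvd_card _))
              obtain ⟨i, hi⟩ := hcover s hs hdvdG hsp
              rcases Fin.eq_castSucc_or_eq_last i with ⟨i', rfl⟩ | rfl
              · exact ⟨i', hi⟩
              · exact absurd (hi.symm.trans hq₀.symm) hsq
          have h4 := step _ Pr hk
          have e : (j + 1 + 1) / 2 * Pr = (j + 1) / 2 * Pr + Pr := by
            obtain ⟨m, rfl⟩ := hj
            have e1 : (m + m + 1 + 1) / 2 = m + 1 := by omega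
            have e2 : (m + m + 1) / 2 = m := by omega
            rw [e1, e2]; ring
          rw [e]; exact h4
        · rw [upper_succ_odd q₀ hj]
          have hk : PLengthLE p 0 (pCore q₀ (G ⧸ (upperPSeries q₀ G j).1)) := by
            apply pLengthLE_of_coprime
            obtain ⟨m, hm⟩ := (IsPGroup.iff_card).mp
              (Cfsg.Agent.Helper24.isPGroup_pCore q₀ (G ⧸ (upperPSeries q₀ G j).1))
            rw [hm]
            apply Nat.Coprime.pow_left
            exact (Nat.coprime_primes Fact.out hp.out).mpr hq₀p
          have h4 := step _ 0 hk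
          have e : (j + 1 + 1) / 2 * Pr = (j + 1) / 2 * Pr + 0 := by
            obtain ⟨m, rfl⟩ := Nat.not_even_iff_odd.mp hj
            have e1 : (2 * m + 1 + 1 + 1) / 2 = m + 1 := by omega
            have e2 : (2 * m + 1 + 1) / 2 = m + 1 := by omega
            rw [e1, e2]; ring
          rw [e]; exact h4
    have hfin := key (2 * l (Fin.last r) + 1)
    have htop : (upperPSeries q₀ G (2 * l (Fin.last r) + 1)).1 = ⊤ := by
      rw [hq₀]; exact hl (Fin.last r)
    rw [htop] at hfin
    rw [Fin.prod_univ_castSucc, ← hPr, pLengthLE_iff]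
    have e : (2 * l (Fin.last r) + 1 + 1) / 2 * Pr = Pr * (1 + l (Fin.last r)) := by
      have e1 : (2 * l (Fin.last r) + 1 + 1) / 2 = l (Fin.last r) + 1 := by omega
      rw [e1]; ring
    rw [e] at hfin
    exact hfin

/-- Let G be a finite solvable group and p a prime. Suppose p₁, …, p_r are distinct primes, all different from p, that include every prime dividing the order of G other than p, and that G has p_i-length at most l_i for each i. Then G has p-length at most the product of the numbers 1 + l_i. -/
theorem result {G : Type*} [Group G] [Finite G] (hG : Group.IsSolvable G) (p : ℕ) [Fact p.Prime] (r : ℕ) (q : Fin r → ℕ) (hq : ∀ i, (q i).Prime ∧ q i ≠ p) (hinj : Function.Injective q) (hcover : ∀ s : ℕ, s.Prime → s ∣ Nat.card G → s ≠ p → ∃ i, q i = s) (l : Fin r → ℕ) (hl : ∀ i, Cfsg.PLengthLE (q i) (l i) G) : Cfsg.PLengthLE p (Finset.univ.prod fun i => 1 + l i) G := by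
  exact aux p r G q hq hcover l hl

end Cfsg.Agent.S3790
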