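import Cfsg.Statements.S3791
import Cfsg.Agent.Helper63.PLength
import Cfsg.Agent.Helper55.TwoClosed

set_option autoImplicit false
open Cfsg

namespace Cfsg.Agent.S3791

open Cfsg.Agent.Helper63.PLen

universe u

theorem ds_of_injective {H K : Type*} [Group H] [Group K] (f : H →* K)
    (hf : Function.Injective f) (n : ℕ) (h : derivedSeries K n = ⊥) : derivedSeries H n = ⊥ := by
  have h1 := map_derivedSeries_le_derivedSeries f n
  rw [h, le_bot_iff] at h1
  exact (Subgroup.map_eq_bot_iff_of_injective _ hf).mp h1

theorem ds_of_surjective {H K : Type*} [Group H] [Group K] (f : H →* K)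
    (hf : Function.Surjective f) (n : ℕ) (h : derivedSeries H n = ⊥) : derivedSeries K n = ⊥ := by
  rw [← map_derivedSeries_eq hf n, h, Subgroup.map_bot]

theorem ds_le_of_quotient {G : Type*} [Group G] (N : Subgroup G) [N.Normal] (m : ℕ)
    (h : derivedSeries (G ⧸ N) m = ⊥) : derivedSeries G m ≤ N := by
  have h1 := map_derivedSeries_eq (QuotientGroup.mk'_surjective N) m
  rw [h, Subgroup.map_eq_bot_iff, QuotientGroup.ker_mk'] at h1
  exact h1

theorem ds_add {G : Type*} [Group G] (N : Subgroup G) (m a : ℕ) (h1 : derivedSeries G m ≤ N)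
    (h2 : derivedSeries ↥N a = ⊥) : derivedSeries G (m + a) = ⊥ := by
  have key : ∀ b : ℕ, derivedSeries G (m + b) ≤ (derivedSeries ↥N b).map N.subtype := by
    intro b
    induction b with
    | zero =>
      rw [derivedSeries_zero, ← MonoidHom.range_eq_map, Subgroup.range_subtype]
      exact h1
    | succ b ih =>
      rw [← add_assoc, derivedSeries_succ, derivedSeries_succ, Subgroup.map_commutator]
      exact Subgroup.commutator_mono ih ih
  have h3 := key a
  rw [h2, Subgroup.map_bot, le_bot_iff] at h3
  exact h3

/-- Bounded derived length of `p`-subgroups passes to quotients. -/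
theorem pSub_quot {G G' : Type*} [Group G] [Finite G] [Group G'] (f : G →* G')
    (hf : Function.Surjective f) (p : ℕ) [Fact p.Prime] (n : ℕ)
    (h : ∀ P : Subgroup G, IsPGroup p P → derivedSeries ↥P n = ⊥) :
    ∀ P : Subgroup G', IsPGroup p P → derivedSeries ↥P n = ⊥ := by
  intro P hP
  obtain ⟨S', hS'⟩ := hP.exists_le_sylow
  obtain ⟨S, rfl⟩ := Sylow.mapSurjective_surjective hf p S'
  rw [Sylow.coe_mapSurjective] at hS'
  have h1 : derivedSeries ↥((S : Subgroup G).map f) n = ⊥ :=
    ds_of_surjective (f.subgroupMap (S : Subgroup G)) (f.subgroupMap_surjective _) n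
      (h _ S.isPGroup')
  exact ds_of_injective (Subgroup.inclusion hS') (Subgroup.inclusion_injective hS') n h1

theorem sum_update {r : ℕ} (d l : Fin r → ℕ) (i : Fin r) (k : ℕ) (h : l i = k + 1) :
    ∑ j, d j * l j = ∑ j, d j * Function.update l i k j + d i := by
  rw [← Finset.add_sum_erase Finset.univ (fun j => d j * l j) (Finset.mem_univ i),
    ← Finset.add_sum_erase Finset.univ (fun j => d j * Function.update l i k j)
      (Finset.mem_univ i)]
  have e : ∑ x ∈ Finset.univ.erase i, d x * Function.update l i k x =
      ∑ x ∈ Finset.univ.erase i, d x * l x :=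
    Finset.sum_congr rfl (fun x hx => by
      rw [Function.update_of_ne (Finset.ne_of_mem_erase hx)])
  rw [e]
  simp only [Function.update_self]
  rw [h]; ring

theorem aux (r : ℕ) (q : Fin r → ℕ) (hq : ∀ i, (q i).Prime) (d : Fin r → ℕ) :
    ∀ (n : ℕ) (G : Type u) [Group G] [Finite G] (l : Fin r → ℕ),
      ∑ i, l i = n →
      (∀ s : ℕ, s.Prime → s ∣ Nat.card G → ∃ i, q i = s) →
      (∀ i, ∀ P : Subgroup G, IsPGroup (q i) P → derivedSeries ↥P (d i) = ⊥) →
      (∀ i, Cfsg.PLengthLE (q i) (l i) G) →
      derivedSeries G (∑ i, d i * l i) = ⊥ := by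
  intro n
  induction n using Nat.strong_induction_on with
  | _ n ih =>
    intro G _ _ l hsum hcover hd hl
    have key : ∀ i, derivedSeries G (∑ j, d j * l j) ≤ pPrimeCore (q i) G := by
      intro i
      haveI : Fact (q i).Prime := ⟨hq i⟩
      apply ds_le_of_quotient
      have hf : Function.Surjective (QuotientGroup.mk' (pPrimeCore (q i) G)) :=
        QuotientGroup.mk'_surjective _
      have hone : (upperPSeries (q i) (G ⧸ pPrimeCore (q i) G) 1).1 = ⊥ := by
        rw [upper_one_eq]
        exact Cfsg.Agent.Helper55.pPrimeCore_quotient_eq_bot (q i) G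
      have hl' : ∀ j, PLengthLE (q j) (l j) (G ⧸ pPrimeCore (q i) G) := by
        intro j
        haveI : Fact (q j).Prime := ⟨hq j⟩
        exact pLengthLE_of_surjective _ _ hf (hl j)
      have hd' : ∀ j, ∀ P : Subgroup (G ⧸ pPrimeCore (q i) G), IsPGroup (q j) P →
          derivedSeries ↥P (d j) = ⊥ := by
        intro j
        haveI : Fact (q j).Prime := ⟨hq j⟩
        exact pSub_quot _ hf (q j) (d j) (hd j)
      rcases Nat.eq_zero_or_pos (l i) with h0 | hpos
      · have h1 := hl' i
        rw [h0] at h1
        have h2 : (⊤ : Subgroup (G ⧸ pPrimeCore (q i) G)) = ⊥ := by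
          rw [← hone]; exact h1.symm
        rw [eq_bot_iff, ← h2]
        exact le_top
      · obtain ⟨k, hk⟩ : ∃ k, l i = k + 1 := ⟨l i - 1, by omega⟩
        haveI : (upperPSeries (q i) (G ⧸ pPrimeCore (q i) G) 2).1.Normal :=
          (upperPSeries (q i) (G ⧸ pPrimeCore (q i) G) 2).2
        have hR : IsPGroup (q i) (upperPSeries (q i) (G ⧸ pPrimeCore (q i) G) 2).1 :=
          isPGroup_upper_two (q i) hone
        have hf2 : Function.Surjective
            (QuotientGroup.mk' (upperPSeries (q i) (G ⧸ pPrimeCore (q i) G) 2).1) :=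
          QuotientGroup.mk'_surjective _
        have hshift : PLengthLE (q i) k
            ((G ⧸ pPrimeCore (q i) G) ⧸ (upperPSeries (q i) (G ⧸ pPrimeCore (q i) G) 2).1) := by
          apply pLengthLE_quotient_upper_two
          rw [← hk]; exact hl' i
        have hsum' : ∑ j, Function.update l i k j = n - 1 := by
          have := sum_update (fun _ => 1) l i k hk
          simp only [one_mul] at this
          omega
        have hn : n - 1 < n := by
          have := sum_update (fun _ => 1) l i k hk
          simp only [one_mul] at this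
          omega
        have hih := ih (n - 1) hn
          ((G ⧸ pPrimeCore (q i) G) ⧸ (upperPSeries (q i) (G ⧸ pPrimeCore (q i) G) 2).1)
          (Function.update l i k) hsum'
          (by
            intro s hs hdvd
            exact hcover s hs (hdvd.trans ((Subgroup.card_quotient_dvd_card _).trans
              (Subgroup.card_quotient_dvd_card _))))
          (by
            intro j
            haveI : Fact (q j).Prime := ⟨hq j⟩
            exact pSub_quot _ hf2 (q j) (d j) (hd' j))
          (by
            intro j
            haveI : Fact (q j).Prime := ⟨hq j⟩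
            by_cases hji : j = i
            · subst hji
              rw [Function.update_self]
              exact hshift
            · rw [Function.update_of_ne hji]
              exact pLengthLE_of_surjective _ _ hf2 (hl' j))
        rw [sum_update d l i k hk]
        exact ds_add _ _ _ (ds_le_of_quotient _ _ hih) (hd' i _ hR)
    by_contra hne
    have hcard : Nat.card (derivedSeries G (∑ j, d j * l j)) ≠ 1 := by
      intro h
      exact hne (Subgroup.card_eq_one.mp h)
    obtain ⟨s, hs, hdvd⟩ := Nat.exists_prime_and_dvd hcard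
    obtain ⟨i, rfl⟩ := hcover s hs (hdvd.trans (Subgroup.card_subgroup_dvd_card _))
    haveI : Fact (q i).Prime := ⟨hq i⟩
    have hcop := Cfsg.Agent.Helper24.coprime_card_pPrimeCore (G := G) (q i)
    exact (Nat.Prime.coprime_iff_not_dvd hs).mp hcop.symm
      (hdvd.trans (Subgroup.card_dvd_of_le (key i)))

/-- The Hall–Higman bound on derived length: let G be a finite solvable group, let p₁, …, p_r be distinct primes that include every prime dividing the order of G, and suppose that for each i the Sylow p_i-subgroups of G have derived length at most d_i and G has p_i-length at most l_i. Then G has derived length at most Σ d_i l_i. -/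
theorem result {G : Type*} [Group G] [Finite G] (hG : Group.IsSolvable G) (r : ℕ) (q : Fin r → ℕ) (hq : ∀ i, (q i).Prime) (hinj : Function.Injective q) (hcover : ∀ s : ℕ, s.Prime → s ∣ Nat.card G → ∃ i, q i = s) (d l : Fin r → ℕ) (hd : ∀ i, ∀ P : Subgroup G, (haveI := Fact.mk (hq i); ∃ S : Sylow (q i) G, (S : Subgroup G) = P) → derivedSeries ↥P (d i) = ⊥) (hl : ∀ i, Cfsg.PLengthLE (q i) (l i) G) : derivedSeries G (Finset.univ.sum fun i => d i * l i) = ⊥ := by
  refine aux r q hq d _ G l rfl hcover ?_ hl
  intro i P hP
  haveI : Fact (q i).Prime := ⟨hq i⟩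
  obtain ⟨S, hS⟩ := hP.exists_le_sylow
  have h1 : derivedSeries ↥(S : Subgroup G) (d i) = ⊥ := hd i _ ⟨S, rfl⟩
  exact ds_of_injective (Subgroup.inclusion hS) (Subgroup.inclusion_injective hS) _ h1

end Cfsg.Agent.S3791
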