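import Cfsg.Statements.S3795
import Cfsg.Agent.Helper63.Gross2RepCore
import Cfsg.Agent.Helper63.Gross2TwoLayer
import Cfsg.Agent.Helper47.Gross2Final
import Cfsg.Agent.Helper47.Gross2Lin
import Cfsg.Agent.Helper47.Gross2Ssl
import Cfsg.Agent.Helper93.Gross2Dual
import Cfsg.Agent.Helper80.Gross2MinSub
import Cfsg.Agent.Helper34.Gross2GRP
import Cfsg.Agent.Helper61.Gross2Fit
import Cfsg.Agent.Helper46.Gross2Claim

set_option autoImplicit false
open Cfsg

namespace Cfsg.Agent.S3795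

/-- Gross's Theorem: let G be a finite solvable group with an automorphism σ of order 2^n, n > 1, fixing only the identity. Then G has Fitting height at most 2n − 2: G has Fitting height at most m when there is a chain of normal subgroups 1 = F₀ ≤ F₁ ≤ ⋯ ≤ F_m = G with each F_{i+1}/F_i nilpotent. -/
theorem result {G : Type*} [Group G] [Finite G] (hG : Group.IsSolvable G) (σ : MulAut G) (n : ℕ) (hn : 1 < n) (hσ : orderOf σ = 2 ^ n) (hfpf : ∀ g : G, σ g = g → g = 1) : ∃ F : Fin ((2 * n - 2) + 1) → Subgroup G, F 0 = ⊥ ∧ F (Fin.last (2 * n - 2)) = ⊤ ∧ Monotone F ∧ (∀ i, (F i).Normal) ∧ ∀ i : Fin (2 * n - 2), ∃ k : ℕ, (F i.succ).lowerCentralSeries k ≤ F i.castSucc := by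
  have hσn : σ ^ 2 ^ n = 1 := by
    rw [← hσ]
    exact pow_orderOf_eq_one σ
  have hrep := Cfsg.Agent.Helper63.Gross2.rep_core_of Cfsg.Agent.Helper63.Gross2.two_layer
    (Cfsg.Agent.Helper93.dual_of_ssl Cfsg.Agent.Helper47.small_support)
  have hlin := Cfsg.Agent.Helper47.lin_of_repcore hrep Cfsg.Agent.Helper80.min_sub_stmt
  have hgrp := Cfsg.Agent.Helper34.group_of_lin hlin
  exact Cfsg.Agent.Helper47.chain_of_claim
    (fun k => Cfsg.Agent.Helper46.claim_of_group hgrp Cfsg.Agent.Helper61.fit_stmt k)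
    n hn G hG σ hσn hfpf

end Cfsg.Agent.S3795
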