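import Cfsg.Statements.S3796
import Cfsg.Agent.Helper63.WardGroup

set_option autoImplicit false

open Cfsg

namespace Cfsg.Agent.S3796

/-- Ward's Theorem: let G be a finite solvable group and A an elementary abelian group of automorphisms of G of order p² (p a prime) with no non-identity common fixed point. Then G has Fitting height at most 2: G has Fitting height at most m when there is a chain of normal subgroups 1 = F₀ ≤ F₁ ≤ ⋯ ≤ F_m = G with each F_{i+1}/F_i nilpotent. -/
theorem result {G : Type*} [Group G] [Finite G] (hG : Group.IsSolvable G) {p : ℕ} (hp : p.Prime) (A : Subgroup (MulAut G)) (hA : Cfsg.IsElementaryAbelian p A) (hcard : Nat.card A = p ^ 2) (hfpf : ∀ g : G, (∀ a ∈ A, a g = g) → g = 1) : ∃ F : Fin (2 + 1) → Subgroup G, F 0 = ⊥ ∧ F (Fin.last 2) = ⊤ ∧ Monotone F ∧ (∀ i, (F i).Normal) ∧ ∀ i : Fin 2, ∃ k : ℕ, (F i.succ).lowerCentralSeries k ≤ F i.castSucc := by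
  haveI : Finite ↥A := Nat.finite_of_card_ne_zero (by
    rw [hcard]
    exact pow_ne_zero 2 hp.ne_zero)
  obtain ⟨hcomm, hexp⟩ := hA
  have hAcomm : ∀ x y : ↥A, x * y = y * x := fun x y => hcomm.is_comm.comm x y
  have hAexp : ∀ x : ↥A, x ^ p = 1 := by
    intro x
    apply Subtype.ext
    rw [Subgroup.coe_pow]
    exact hexp x x.2
  obtain ⟨N, hNn, hNnil, -, hk⟩ := Cfsg.Agent.Helper63.Ward.ward_main hp hAcomm hAexp hcard _ G
    rfl hG A.subtype (fun g hg => hfpf g (fun a ha => hg ⟨a, ha⟩))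
  haveI := hNn
  exact Cfsg.Agent.Helper63.Ward.chain_of_two N
    ((Subgroup.isNilpotent_iff_lowerCentralSeries N).mp hNnil) hk

end Cfsg.Agent.S3796
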