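import Cfsg.Statements.S3950
import Cfsg.Agent.Helper65.BiExt

set_option autoImplicit false
open Cfsg

namespace Cfsg.Agent.S3950

open Cfsg.Agent.Helper65

/-- A non-cyclic finite abelian group has two independent additive characters modulo a prime. -/
theorem exists_chars_of_not_cyclic {G : Type*} [CommGroup G] [Finite G] (h : ¬ IsCyclic G) :
    ∃ (p : ℕ) (_ : p.Prime) (α β : G → ZMod p), (∀ x y, α (x * y) = α x + α y) ∧
      (∀ x y, β (x * y) = β x + β y) ∧ ∃ g k, α g * β k - α k * β g ≠ 0 := by
  classical
  obtain ⟨ι, _, n, hn, ⟨e⟩⟩ := CommGroup.equiv_prod_multiplicative_zmod_of_finite G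
  by_cases hcop : Pairwise (Function.onFun Nat.Coprime n)
  · exfalso
    apply h
    let R := ZMod.prodEquivPi n hcop
    let F : Multiplicative (ZMod (∏ i, n i)) →* G :=
      { toFun := fun x => e.symm (fun i => Multiplicative.ofAdd (R (Multiplicative.toAdd x) i))
        map_one' := by
          rw [← map_one e.symm]
          congr 1
          funext i
          simp
        map_mul' := fun x y => by
          rw [← map_mul e.symm]
          congr 1
          funext i
          simp }
    refine isCyclic_of_surjective F ?_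
    intro g
    refine ⟨Multiplicative.ofAdd (R.symm (fun i => Multiplicative.toAdd (e g i))), ?_⟩
    show e.symm (fun i => Multiplicative.ofAdd (R (Multiplicative.toAdd (Multiplicative.ofAdd
      (R.symm (fun i => Multiplicative.toAdd (e g i))))) i)) = g
    rw [MulEquiv.symm_apply_eq]
    funext i
    simp
  · rw [Pairwise] at hcop
    push Not at hcop
    obtain ⟨i, j, hij, hnc⟩ := hcop
    obtain ⟨p, hp, hpi, hpj⟩ := Nat.Prime.not_coprime_iff_dvd.mp hnc
    have : Fact p.Prime := ⟨hp⟩
    refine ⟨p, hp, fun g => ZMod.castHom hpi (ZMod p) (Multiplicative.toAdd (e g i)),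
      fun g => ZMod.castHom hpj (ZMod p) (Multiplicative.toAdd (e g j)), ?_, ?_, ?_⟩
    · intro x y
      show ZMod.castHom hpi (ZMod p) (Multiplicative.toAdd (e (x * y) i)) = _
      rw [map_mul, Pi.mul_apply, toAdd_mul, map_add]
    · intro x y
      show ZMod.castHom hpj (ZMod p) (Multiplicative.toAdd (e (x * y) j)) = _
      rw [map_mul, Pi.mul_apply, toAdd_mul, map_add]
    · refine ⟨e.symm (Pi.mulSingle i (Multiplicative.ofAdd 1)),
        e.symm (Pi.mulSingle j (Multiplicative.ofAdd 1)), ?_⟩
      simp only [MulEquiv.apply_symm_apply, Pi.mulSingle_eq_same, toAdd_ofAdd, map_one]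
      rw [Pi.mulSingle_eq_of_ne hij, Pi.mulSingle_eq_of_ne (Ne.symm hij)]
      simp

/-- A finite abelian group has trivial Schur multiplier if and only if it is cyclic. -/
theorem result {G : Type*} [CommGroup G] [Finite G] : Cfsg.HasCyclicSchurMultiplier G 1 ↔ IsCyclic G := by
  constructor
  · intro hA
    by_contra hnc
    obtain ⟨p, hp, α, β, hα, hβ, g, k, hgk⟩ := exists_chars_of_not_cyclic hnc
    have : Fact p.Prime := ⟨hp⟩
    let f : BiMul G (ZMod p) :=
      { toFun := fun x y => α x * β y
        map_mul_left := fun x y z => by rw [hα]; ring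
        map_mul_right := fun x y z => by rw [hβ]; ring }
    have hstem : Cfsg.IsStemExtension (BiExt.proj f) := by
      apply BiExt.isStemExtension_proj f (fun x y => mul_comm x y)
      rw [eq_top_iff]
      intro c _
      have hmem : α g * β k - α k * β g ∈ AddSubgroup.closure
          (Set.range (fun q : G × G => f.toFun q.1 q.2 - f.toFun q.2 q.1)) :=
        AddSubgroup.subset_closure ⟨(g, k), rfl⟩
      have hc : c = (c * (α g * β k - α k * β g)⁻¹).val • (α g * β k - α k * β g) := by
        rw [nsmul_eq_mul, ZMod.natCast_val, ZMod.cast_id', id, inv_mul_cancel_right₀ hgk]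
      rw [hc]
      exact AddSubgroup.nsmul_mem _ hmem _
    obtain ⟨π, hπ⟩ := hA.2 (BiExt f) (BiExt.proj f) hstem
    have hsub : ∀ x y : (BiExt.proj f).ker, x = y := by
      intro x y
      obtain ⟨a, rfl⟩ := hπ x
      obtain ⟨b, rfl⟩ := hπ y
      rw [Subsingleton.elim a b]
    have h1 : (⟨BiExt.incl f (Multiplicative.ofAdd 1), by
        rw [BiExt.ker_proj_eq_range]; exact ⟨_, rfl⟩⟩ : (BiExt.proj f).ker) = 1 := hsub _ _
    have h2 := congrArg (fun t : (BiExt.proj f).ker => (t : BiExt f).fst) h1
    have h3 : (1 : ZMod p) = 0 := h2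
    exact one_ne_zero h3
  · intro hc
    refine ⟨⟨G, inferInstance, inferInstance, MonoidHom.id G,
      ⟨Function.surjective_id, ?_, ?_⟩, ⟨?_⟩⟩, ?_⟩
    · rw [MonoidHom.ker_id]; exact bot_le
    · rw [MonoidHom.ker_id]; exact bot_le
    · have hu : ∀ x : (MonoidHom.id G).ker, x = 1 := by
        intro x
        apply Subtype.ext
        exact x.2
      exact
        { toFun := fun _ => 1
          invFun := fun _ => 1
          left_inv := fun x => (hu x).symm
          right_inv := fun x => Subsingleton.elim _ _
          map_mul' := fun _ _ => (mul_one _).symm }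
    · intro Γ _ _ σ hσ
      obtain ⟨hσs, hσc, hσd⟩ := hσ
      have hcomm : ∀ a b : Γ, a * b = b * a :=
        (σ.isMulCommutative_of_isCyclic_of_ker_le_center hσc).is_comm.comm
      have hbot : commutator Γ = ⊥ := by
        rw [commutator_eq_closure, Subgroup.closure_eq_bot_iff]
        rintro _ ⟨a, b, rfl⟩
        rw [Set.mem_singleton_iff, commutatorElement_def, hcomm a b, mul_inv_cancel_right,
          mul_inv_cancel]
      refine ⟨1, ?_⟩
      intro x
      refine ⟨1, ?_⟩
      have hx : (x : Γ) ∈ commutator Γ := hσd x.2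
      rw [hbot] at hx
      apply Subtype.ext
      exact hx.symm

end Cfsg.Agent.S3950
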