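import Cfsg.Statements.S3952
import Cfsg.Agent.Helper81.ClassAlgebra

set_option autoImplicit false
open Cfsg

namespace Cfsg.Agent.S3952

open Cfsg.Agent.Helper81

/-- A finite abelian group has a complex character whose order is the exponent of the group. -/
theorem exists_character_orderOf_eq_exponent (A : Type*) [CommGroup A] [Finite A] :
    ∃ l : A →* ℂˣ, orderOf l = Monoid.exponent A := by
  have h1 : NeZero ((Monoid.exponent A : ℕ) : ℂ) :=
    ⟨Nat.cast_ne_zero.mpr Monoid.exponent_ne_zero_of_finite⟩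
  obtain ⟨d⟩ := CommGroup.monoidHom_mulEquiv_of_hasEnoughRootsOfUnity A ℂ
  obtain ⟨a, ha⟩ := Monoid.exists_orderOf_eq_exponent (G := A) Monoid.ExponentExists.of_finite
  refine ⟨d.symm a, ?_⟩
  rw [← ha]
  exact MulEquiv.orderOf_eq d.symm a

/-- Facts about the values of an irreducible character on central elements. -/
theorem irr_central_facts {Γ : Type*} [Group Γ] [Fintype Γ] (ψ : Cfsg.IrrCharacter Γ) :
    ∃ n : ℕ, (ψ : Γ → ℂ) 1 = n ∧
      (∀ z ∈ Subgroup.center Γ, ∀ w ∈ Subgroup.center Γ,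
        (ψ : Γ → ℂ) (z * w) * (ψ : Γ → ℂ) 1 = (ψ : Γ → ℂ) z * (ψ : Γ → ℂ) w) ∧
      (∀ z ∈ Subgroup.center Γ, z ∈ commutator Γ → ((ψ : Γ → ℂ) z / (ψ : Γ → ℂ) 1) ^ n = 1) := by
  classical
  obtain ⟨n, ρ, hρ, hψ⟩ := ψ.2
  have h1 : (ψ : Γ → ℂ) 1 = n := by
    rw [← hψ, Representation.char_one]; simp
  have hne : (ψ : Γ → ℂ) 1 ≠ 0 := irr_one_ne_zero ψ
  have hn0 : (n : ℂ) ≠ 0 := by rw [← h1]; exact hne
  -- central elements act as scalars
  have hscal : ∀ z ∈ Subgroup.center Γ,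
      ρ z = ((ψ : Γ → ℂ) z / (ψ : Γ → ℂ) 1) • LinearMap.id := by
    intro z hz
    have hcl : Cfsg.IsClassFunction Γ (fun g : Γ => if g = z then (1 : ℂ) else 0) := by
      intro g h
      have hiff : h * g * h⁻¹ = z ↔ g = z := by
        constructor
        · intro hh
          have h2 := Subgroup.mem_center_iff.mp hz h
          have h3 : g = h⁻¹ * z * h := by rw [← hh]; group
          rw [h3, mul_assoc, ← h2, inv_mul_cancel_left]
        · intro hh
          have h2 := Subgroup.mem_center_iff.mp hz h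
          rw [hh, h2, mul_inv_cancel_right]
      show (if h * g * h⁻¹ = z then (1 : ℂ) else 0) = if g = z then 1 else 0
      by_cases hg : g = z
      · rw [if_pos hg, if_pos (hiff.mpr hg)]
      · rw [if_neg hg, if_neg (fun hh => hg (hiff.mp hh))]
    have h3 := repSum_eq_omega_smul ρ hρ hcl
    have h4 : repSum ρ (fun g : Γ => if g = z then (1 : ℂ) else 0) = ρ z := by
      rw [repSum, Finset.sum_eq_single z]
      · rw [if_pos rfl, one_smul]
      · intro g _ hg
        rw [if_neg hg, zero_smul]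
      · intro h; exact absurd (Finset.mem_univ _) h
    have h5 : omega ρ.character (fun g : Γ => if g = z then (1 : ℂ) else 0) =
        (ψ : Γ → ℂ) z / (ψ : Γ → ℂ) 1 := by
      rw [omega, hψ, Finset.sum_eq_single z]
      · rw [if_pos rfl, one_mul]
      · intro g _ hg
        rw [if_neg hg, zero_mul]
      · intro h; exact absurd (Finset.mem_univ _) h
    rw [← h4, h3, h5]
  have htr : ∀ c : ℂ, LinearMap.trace ℂ (Fin n → ℂ) (c • LinearMap.id) = c * n := by
    intro c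
    rw [map_smul, LinearMap.trace_id, smul_eq_mul]; simp
  refine ⟨n, h1, ?_, ?_⟩
  · intro z hz w hw
    have h2 : ρ (z * w) = ρ z * ρ w := map_mul ρ z w
    rw [hscal z hz, hscal w hw, hscal (z * w) (Subgroup.mul_mem _ hz hw)] at h2
    have h3 : ((ψ : Γ → ℂ) z / (ψ : Γ → ℂ) 1) • (LinearMap.id : (Fin n → ℂ) →ₗ[ℂ] (Fin n → ℂ)) *
        ((ψ : Γ → ℂ) w / (ψ : Γ → ℂ) 1) • LinearMap.id =
        (((ψ : Γ → ℂ) z / (ψ : Γ → ℂ) 1) * ((ψ : Γ → ℂ) w / (ψ : Γ → ℂ) 1)) • LinearMap.id := by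
      ext v i
      simp
      ring
    rw [h3] at h2
    have h4 := congrArg (LinearMap.trace ℂ (Fin n → ℂ)) h2
    rw [htr, htr] at h4
    have h5 := mul_right_cancel₀ hn0 h4
    field_simp at h5
    linear_combination h5
  · intro z hz hzc
    let D : Γ →* ℂ := (LinearMap.det : ((Fin n → ℂ) →ₗ[ℂ] (Fin n → ℂ)) →* ℂ).comp ρ
    have hD : D z = 1 := by
      have h6 := Abelianization.commutator_subset_ker D.toHomUnits
      have h7 : D.toHomUnits z = 1 := h6 hzc
      have h8 := congrArg Units.val h7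
      exact h8
    have h9 : D z = ((ψ : Γ → ℂ) z / (ψ : Γ → ℂ) 1) ^ n := by
      show LinearMap.det (ρ z) = _
      rw [hscal z hz, LinearMap.det_smul, LinearMap.det_id, mul_one]
      simp
    rw [← h9, hD]

/-- If `A` is the Schur multiplier of the finite group `Q`, then the square of the exponent of `A` divides the order of `Q`. -/
theorem result {Q : Type*} [Group Q] [Finite Q] {A : Type*} [CommGroup A] (hA : Cfsg.HasSchurMultiplier Q A) : Monoid.exponent A ^ 2 ∣ Nat.card Q := by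
  classical
  obtain ⟨⟨Γ, _, _, σ, ⟨hσs, hσc, hσd⟩, ⟨e⟩⟩, -⟩ := hA
  have hfinA : Finite A := Finite.of_equiv _ e.toEquiv
  have : Fintype Γ := Fintype.ofFinite Γ
  have : Fintype (Cfsg.IrrCharacter Γ) := Fintype.ofFinite _
  obtain ⟨lam0, hlam0⟩ := exists_character_orderOf_eq_exponent A
  let lam : σ.ker →* ℂˣ := lam0.comp e.toMonoidHom
  choose d hd1 hdmul hddet using fun ψ : Cfsg.IrrCharacter Γ => irr_central_facts ψ
  have hne : ∀ ψ : Cfsg.IrrCharacter Γ, (ψ : Γ → ℂ) 1 ≠ 0 := irr_one_ne_zero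
  -- the central character of `ψ` on the kernel
  let mu : Cfsg.IrrCharacter Γ → σ.ker →* ℂˣ := fun ψ =>
    MonoidHom.toHomUnits
      { toFun := fun z => (ψ : Γ → ℂ) (z : Γ) / (ψ : Γ → ℂ) 1
        map_one' := div_self (hne ψ)
        map_mul' := fun z w => by
          have h := hdmul ψ (z : Γ) (hσc z.2) (w : Γ) (hσc w.2)
          show (ψ : Γ → ℂ) ((z : Γ) * (w : Γ)) / (ψ : Γ → ℂ) 1 =
            (ψ : Γ → ℂ) (z : Γ) / (ψ : Γ → ℂ) 1 * ((ψ : Γ → ℂ) (w : Γ) / (ψ : Γ → ℂ) 1)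
          rw [div_mul_div_comm, ← h, mul_div_mul_right _ _ (hne ψ)] }
  have hmu : ∀ ψ (z : σ.ker), ((mu ψ z : ℂˣ) : ℂ) = (ψ : Γ → ℂ) (z : Γ) / (ψ : Γ → ℂ) 1 :=
    fun ψ z => rfl
  -- the class function attached to `lam`
  let a : Γ → ℂ := fun g => if h : g ∈ σ.ker then (((lam ⟨g, h⟩)⁻¹ : ℂˣ) : ℂ) else 0
  have ha1 : a 1 = 1 := by
    show (if h : (1 : Γ) ∈ σ.ker then (((lam ⟨1, h⟩)⁻¹ : ℂˣ) : ℂ) else 0) = 1
    rw [dif_pos (Subgroup.one_mem _)]
    have : (⟨1, Subgroup.one_mem _⟩ : σ.ker) = 1 := rfl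
    rw [this, map_one, inv_one, Units.val_one]
  have hsum := sum_irr_sq_omega (G := Γ) a
  rw [ha1, mul_one] at hsum
  have homega : ∀ ψ : Cfsg.IrrCharacter Γ, omega (ψ : Γ → ℂ) a =
      if mu ψ = lam then (Nat.card σ.ker : ℂ) else 0 := by
    intro ψ
    have h1 : ∑ g : Γ, a g * (ψ : Γ → ℂ) g = ∑ z : σ.ker, a (z : Γ) * (ψ : Γ → ℂ) (z : Γ) := by
      rw [← Finset.sum_subtype (Finset.univ.filter (fun g => g ∈ σ.ker))
        (fun x => by simp) (fun g => a g * (ψ : Γ → ℂ) g)]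
      symm
      apply Finset.sum_subset (Finset.filter_subset _ _)
      intro g _ hg
      have hg' : g ∉ σ.ker := by simpa using hg
      show (if h : g ∈ σ.ker then (((lam ⟨g, h⟩)⁻¹ : ℂˣ) : ℂ) else 0) * _ = 0
      rw [dif_neg hg', zero_mul]
    let nu : σ.ker →* ℂˣ :=
      { toFun := fun z => mu ψ z * (lam z)⁻¹
        map_one' := by simp
        map_mul' := fun x y => by
          rw [map_mul, map_mul, mul_inv, mul_mul_mul_comm] }
    have hnu : ∀ z, nu z = mu ψ z * (lam z)⁻¹ := fun z => rfl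
    have h2 : ∀ z : σ.ker, a (z : Γ) * (ψ : Γ → ℂ) (z : Γ) =
        (ψ : Γ → ℂ) 1 * ((nu z : ℂˣ) : ℂ) := by
      intro z
      show (if h : (z : Γ) ∈ σ.ker then (((lam ⟨(z : Γ), h⟩)⁻¹ : ℂˣ) : ℂ) else 0) * _ = _
      rw [dif_pos z.2, hnu, Units.val_mul, hmu]
      have hz : (⟨(z : Γ), z.2⟩ : σ.ker) = z := rfl
      rw [hz]
      have := hne ψ
      field_simp
    rw [omega, h1, Finset.sum_congr rfl (fun z _ => h2 z), ← Finset.mul_sum,
      mul_div_assoc, mul_comm, div_mul_cancel₀ _ (hne ψ)]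
    by_cases hml : mu ψ = lam
    · rw [if_pos hml]
      have h3 : ∀ z : σ.ker, ((nu z : ℂˣ) : ℂ) = 1 := by
        intro z
        rw [hnu, hml, mul_inv_cancel, Units.val_one]
      rw [Finset.sum_congr rfl (fun z _ => h3 z)]
      simp
    · rw [if_neg hml]
      have hne2 : (Units.coeHom ℂ).comp nu ≠ 1 := by
        intro h
        apply hml
        ext z
        have h4 := congrArg (fun f : σ.ker →* ℂ => f z) h
        have h5 : ((nu z : ℂˣ) : ℂ) = 1 := h4
        have h6 : nu z = 1 := Units.ext h5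
        rw [hnu, mul_inv_eq_one] at h6
        rw [h6]
      exact sum_hom_units_eq_zero ((Units.coeHom ℂ).comp nu) hne2
  -- divisibility of the degrees
  have hdvd : ∀ ψ : Cfsg.IrrCharacter Γ, mu ψ = lam → Monoid.exponent A ∣ d ψ := by
    intro ψ hml
    rw [← hlam0]
    apply orderOf_dvd_of_pow_eq_one
    ext x
    obtain ⟨z, rfl⟩ := e.surjective x
    have h1 := hddet ψ (z : Γ) (hσc z.2) (hσd z.2)
    rw [← hmu, hml] at h1
    rw [MonoidHom.pow_apply, MonoidHom.one_apply, Units.val_pow_eq_pow_val, Units.val_one]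
    exact h1
  -- the count
  have hcount : (∑ ψ ∈ Finset.univ.filter (fun ψ : Cfsg.IrrCharacter Γ => mu ψ = lam), d ψ ^ 2) *
      Nat.card σ.ker = Nat.card Γ := by
    have h1 : ((∑ ψ ∈ Finset.univ.filter (fun ψ : Cfsg.IrrCharacter Γ => mu ψ = lam), d ψ ^ 2 : ℕ) : ℂ) *
        (Nat.card σ.ker : ℂ) = (Nat.card Γ : ℂ) := by
      rw [← hsum, Nat.cast_sum, Finset.sum_mul, Finset.sum_filter]
      apply Finset.sum_congr rfl
      intro ψ _
      rw [homega, hd1]
      by_cases hml : mu ψ = lam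
      · rw [if_pos hml, if_pos hml]; push_cast; ring
      · rw [if_neg hml, if_neg hml, mul_zero]
    exact_mod_cast h1
  have hcard : Nat.card Γ = Nat.card σ.ker * Nat.card Q := by
    rw [← Subgroup.card_mul_index σ.ker, Subgroup.index_ker, MonoidHom.range_eq_top.mpr hσs,
      Nat.card_congr Subgroup.topEquiv.toEquiv]
  have hpos : 0 < Nat.card σ.ker := Nat.card_pos
  have hQ : ∑ ψ ∈ Finset.univ.filter (fun ψ : Cfsg.IrrCharacter Γ => mu ψ = lam), d ψ ^ 2 =
      Nat.card Q := by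
    have h2 : (∑ ψ ∈ Finset.univ.filter (fun ψ : Cfsg.IrrCharacter Γ => mu ψ = lam), d ψ ^ 2) *
        Nat.card σ.ker = Nat.card Q * Nat.card σ.ker := by
      rw [hcount, hcard, mul_comm]
    exact Nat.eq_of_mul_eq_mul_right hpos h2
  rw [← hQ]
  apply Finset.dvd_sum
  intro ψ hψ
  rw [Finset.mem_filter] at hψ
  exact pow_dvd_pow_of_dvd (hdvd ψ hψ.2) 2

end Cfsg.Agent.S3952
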