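import Cfsg.Statements.S3953
import Cfsg.Agent.Helper65.ResCor

set_option autoImplicit false
universe u v w
open Cfsg

namespace Cfsg.Agent.S3953

open Cfsg.Agent.Helper65

/-- If `c ∘ r` is the `m`-th power map on a finite abelian group `A` and `p ∤ m`, then the
`p`-primary component of `A` is isomorphic to a direct factor of `B`. -/
theorem exists_direct_factor {A B : Type*} [CommGroup A] [CommGroup B] [Finite A] (p : ℕ)
    [hp : Fact p.Prime] (m : ℕ) (hm : ¬ p ∣ m) (r : A →* B) (c : B →* A)
    (h : ∀ a, c (r a) = a ^ m) :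
    ∃ C D : Subgroup B, C ⊓ D = ⊥ ∧ C ⊔ D = ⊤ ∧
      Nonempty (CommGroup.primaryComponent A p ≃* C) := by
  set n := Nat.card A with hn
  have hn0 : n ≠ 0 := Nat.card_pos.ne'
  set N := n.factorization p with hN
  set s := n / p ^ N with hs
  have hns : p ^ N * s = n := Nat.ordProj_mul_ordCompl_eq_self n p
  have hcop_s : Nat.Coprime p s := Nat.coprime_ordCompl hp.out hn0
  have hcop_m : Nat.Coprime p m := (Nat.Prime.coprime_iff_not_dvd hp.out).mpr hm
  have hcop : Nat.Coprime (m * s) (p ^ N) :=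
    (Nat.Coprime.pow_left N (Nat.Coprime.mul_right hcop_m hcop_s)).symm
  -- elements of the primary component
  have hAp : ∀ a ∈ CommGroup.primaryComponent A p, a ^ p ^ N = 1 := by
    intro a ha
    obtain ⟨k, hk⟩ := CommGroup.mem_primaryComponent_iff_orderOf.mp ha
    have h1 : p ^ k ∣ n := hk ▸ orderOf_dvd_natCard a
    have h2 : k ≤ N := (Nat.Prime.pow_dvd_iff_le_factorization hp.out hn0).mp h1
    apply orderOf_dvd_iff_pow_eq_one.mp
    rw [hk]
    exact pow_dvd_pow p h2
  obtain ⟨w, hw⟩ : ∃ w : ℕ, ∀ a ∈ CommGroup.primaryComponent A p, a ^ (m * s * w) = a := by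
    by_cases h1 : p ^ N = 1
    · refine ⟨0, fun a ha => ?_⟩
      have := hAp a ha
      rw [h1, pow_one] at this
      rw [this, one_pow]
    · have h2 : 1 < p ^ N := lt_of_le_of_ne (Nat.one_le_pow _ _ hp.out.pos) (Ne.symm h1)
      obtain ⟨w, -, hw⟩ := Nat.exists_mul_mod_eq_one_of_coprime hcop h2
      refine ⟨w, fun a ha => ?_⟩
      have h3 : m * s * w = p ^ N * (m * s * w / p ^ N) + 1 := by
        have := Nat.div_add_mod (m * s * w) (p ^ N)
        rw [hw] at this
        exact this.symm
      rw [h3, pow_add, pow_mul, hAp a ha, one_pow, one_mul, pow_one]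
  let κ : B →* A := (powMonoidHom (s * w)).comp c
  have hκ : ∀ b, κ b = c b ^ (s * w) := fun b => rfl
  have k1 : ∀ b, κ b ∈ CommGroup.primaryComponent A p := by
    intro b
    rw [CommGroup.mem_primaryComponent]
    refine ⟨N, ?_⟩
    rw [hκ, ← pow_mul, mul_comm (s * w), ← mul_assoc, hns, pow_mul, pow_card_eq_one', one_pow]
  have k2 : ∀ a ∈ CommGroup.primaryComponent A p, κ (r a) = a := by
    intro a ha
    rw [hκ, h, ← pow_mul, ← mul_assoc]
    exact hw a ha
  let f : CommGroup.primaryComponent A p →* B :=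
    r.comp (CommGroup.primaryComponent A p).subtype
  have hf : Function.Injective f := by
    intro a a' haa
    have h1 : κ (r a.1) = κ (r a'.1) := congrArg κ haa
    rw [k2 a.1 a.2, k2 a'.1 a'.2] at h1
    exact Subtype.ext h1
  refine ⟨f.range, κ.ker, ?_, ?_, ⟨MonoidHom.ofInjective hf⟩⟩
  · rw [eq_bot_iff]
    rintro x ⟨⟨a, rfl⟩, hx⟩
    have hx' : κ (r a.1) = 1 := hx
    rw [k2 a.1 a.2] at hx'
    have : a = 1 := Subtype.ext hx'
    rw [this, map_one]
    exact Subgroup.one_mem _
  · rw [eq_top_iff]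
    intro b _
    have e : b = r (κ b) * ((r (κ b))⁻¹ * b) := by group
    rw [e]
    refine Subgroup.mul_mem _ (Subgroup.mem_sup_left ⟨⟨κ b, k1 b⟩, rfl⟩)
      (Subgroup.mem_sup_right ?_)
    rw [MonoidHom.mem_ker, map_mul, map_inv, k2 _ (k1 b), inv_mul_cancel]

/-- Let `P` be a Sylow `p`-subgroup of the finite group `G`, let `A` be the Schur multiplier of `G` and `B` that of `P`. Then the `p`-primary component of `A` is isomorphic to a direct factor of `B`: there are subgroups `C` and `D` of `B` meeting trivially and generating `B`, with `C` isomorphic to the `p`-primary component of `A`. -/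
theorem result {G : Type*} [Group G] [Finite G] (p : ℕ) [Fact p.Prime] (P : Sylow p G) {A B : Type*} [CommGroup A] [CommGroup B] (hA : Cfsg.HasSchurMultiplier G A) (hB : Cfsg.HasSchurMultiplier P B) : ∃ C D : Subgroup B, C ⊓ D = ⊥ ∧ C ⊔ D = ⊤ ∧ Nonempty (CommGroup.primaryComponent A p ≃* C) := by
  have hfinA : Finite A := by
    obtain ⟨⟨Γ, _, _, σ, -, ⟨e⟩⟩, -⟩ := hA
    exact Finite.of_equiv _ e.toEquiv
  obtain ⟨r, c, h⟩ := exists_res_cor (P : Subgroup G) hA hB
  exact exists_direct_factor p (P : Subgroup G).index (Sylow.not_dvd_index P) r c h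

end Cfsg.Agent.S3953
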