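import Cfsg.Statements.S3954
import Cfsg.Agent.Helper65.Hopf3

set_option autoImplicit false
open Cfsg

namespace Cfsg.Agent.S3954

open Cfsg.Agent.Helper65

/-- Let `U` be a subgroup of index `m` in the finite group `G`, let `A` be the Schur multiplier of `G` and `B` that of `U`. Then the subgroup of `m`-th powers of `A` is isomorphic to a subgroup of `B`. -/
theorem result {G : Type*} [Group G] [Finite G] (U : Subgroup G) {A B : Type*} [CommGroup A] [CommGroup B] (hA : Cfsg.HasSchurMultiplier G A) (hB : Cfsg.HasSchurMultiplier U B) : ∃ C : Subgroup B, Nonempty ((powMonoidHom U.index : A →* A).range ≃* C) := by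
  obtain ⟨f, hf⟩ := exists_hom_range_ge_pow U hA hB
  have hfinA : Finite A := by
    obtain ⟨⟨Γ, _, _, σ, -, ⟨e⟩⟩, -⟩ := hA
    exact Finite.of_equiv _ e.toEquiv
  have hfinB : Finite B := by
    obtain ⟨⟨Γ, _, _, σ, -, ⟨e⟩⟩, -⟩ := hB
    exact Finite.of_equiv _ e.toEquiv
  let B₁ : Subgroup B := ((powMonoidHom U.index : A →* A).range).comap f
  let f₁ : B₁ →* (powMonoidHom U.index : A →* A).range :=
    f.subgroupComap (powMonoidHom U.index : A →* A).range
  have hf₁ : Function.Surjective f₁ := by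
    rintro ⟨x, hx⟩
    obtain ⟨b, rfl⟩ := hf hx
    exact ⟨⟨b, hx⟩, rfl⟩
  obtain ⟨j, hj⟩ := exists_injective_of_surjective_finite_comm f₁ hf₁
  have hj' : Function.Injective (B₁.subtype.comp j) := Subtype.val_injective.comp hj
  exact ⟨(B₁.subtype.comp j).range, ⟨MonoidHom.ofInjective hj'⟩⟩

end Cfsg.Agent.S3954
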