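import Cfsg.Statements.S3955
import Cfsg.Agent.Helper65.Hopf2

set_option autoImplicit false
open Cfsg

namespace Cfsg.Agent.S3955

open Cfsg.Agent.Helper65

theorem center_GL_div (n : ℕ) (m : ℤ) (hm : m ≠ 0) (z : Subgroup.center (GL (Fin n) ℂ)) :
    ∃ w : Subgroup.center (GL (Fin n) ℂ), w ^ m = z := by
  obtain ⟨z, hz⟩ := z
  have hz' := hz
  rw [Matrix.GeneralLinearGroup.center_eq_range_scalar] at hz'
  obtain ⟨u, rfl⟩ := hz'
  have hpos : 0 < m.natAbs := Int.natAbs_pos.mpr hm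
  obtain ⟨v, hv⟩ := IsAlgClosed.exists_pow_nat_eq (u : ℂ) hpos
  have hv0 : v ≠ 0 := by
    rintro rfl
    rw [zero_pow hpos.ne'] at hv
    exact u.ne_zero hv.symm
  let v' : ℂˣ := Units.mk0 v hv0
  have hv' : v' ^ m.natAbs = u := by
    apply Units.ext
    simp [v', hv]
  have hmem : ∀ t : ℂˣ, Matrix.GeneralLinearGroup.scalar (Fin n) t ∈
      Subgroup.center (GL (Fin n) ℂ) := by
    intro t
    rw [Matrix.GeneralLinearGroup.center_eq_range_scalar]
    exact ⟨t, rfl⟩
  rcases Int.natAbs_eq m with h | h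
  · refine ⟨⟨Matrix.GeneralLinearGroup.scalar (Fin n) v', hmem v'⟩, ?_⟩
    apply Subtype.ext
    rw [h]
    simp only [zpow_natCast, Subgroup.coe_pow]
    rw [← map_pow, hv']
  · refine ⟨⟨Matrix.GeneralLinearGroup.scalar (Fin n) v'⁻¹, hmem v'⁻¹⟩, ?_⟩
    apply Subtype.ext
    rw [h]
    simp only [zpow_neg, zpow_natCast, Subgroup.coe_inv, Subgroup.coe_pow]
    rw [← map_pow, ← map_inv, inv_pow, inv_inv, hv']

theorem exists_twist {E G : Type*} [Group E] [Group G] (θ : E →* G) (K₀ : Subgroup E)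
    (hK : K₀ ≤ Subgroup.center E) (hK' : K₀ ⊓ commutator E = ⊥)
    (hθK : ∀ k : K₀, (θ.comp K₀.subtype) k ∈ Subgroup.center G)
    (hdiv : ∀ m : ℤ, m ≠ 0 → ∀ z : Subgroup.center G, ∃ w : Subgroup.center G, w ^ m = z) :
    ∃ ρ' : E →* G, K₀ ≤ ρ'.ker ∧
      ∀ x, QuotientGroup.mk' (Subgroup.center G) (ρ' x) =
        QuotientGroup.mk' (Subgroup.center G) (θ x) := by
  let g : K₀ →* Subgroup.center G := (θ.comp K₀.subtype).codRestrict (Subgroup.center G) hθK
  let cg : CommGroup (Subgroup.center G) :=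
    { (inferInstance : Group (Subgroup.center G)) with
      mul_comm := fun a b => Subtype.ext ((Subgroup.mem_center_iff.mp b.2 a)) }
  obtain ⟨χ, hχ⟩ := @exists_hom_extension_of_divisible E (Subgroup.center G) _ cg hdiv K₀ hK hK' g
  have hcomm : ∀ (x : E) (y : G), y * ((χ x : Subgroup.center G) : G) =
      ((χ x : Subgroup.center G) : G) * y := fun x y =>
    Subgroup.mem_center_iff.mp (χ x).2 y
  let ρ' : E →* G :=
    { toFun := fun x => θ x * ((χ x : Subgroup.center G) : G)⁻¹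
      map_one' := by simp
      map_mul' := fun x y => by
        have h1 : ((χ (x * y) : Subgroup.center G) : G) =
            (χ x : Subgroup.center G) * (χ y : Subgroup.center G) := by
          rw [map_mul]; rfl
        rw [h1, map_mul, mul_inv_rev]
        have h2 : θ y * ((χ y : Subgroup.center G) : G)⁻¹ * ((χ x : Subgroup.center G) : G)⁻¹ =
            ((χ x : Subgroup.center G) : G)⁻¹ * (θ y * ((χ y : Subgroup.center G) : G)⁻¹) := by
          rw [eq_inv_mul_iff_mul_eq, ← mul_assoc, ← hcomm, mul_assoc, mul_inv_cancel, mul_one]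
        calc θ x * θ y * (((χ y : Subgroup.center G) : G)⁻¹ * ((χ x : Subgroup.center G) : G)⁻¹)
            = θ x * (θ y * ((χ y : Subgroup.center G) : G)⁻¹ *
                ((χ x : Subgroup.center G) : G)⁻¹) := by
              simp only [mul_assoc]
          _ = θ x * ((χ x : Subgroup.center G) : G)⁻¹ *
                (θ y * ((χ y : Subgroup.center G) : G)⁻¹) := by
              rw [h2]; simp only [mul_assoc] }
  refine ⟨ρ', ?_, ?_⟩
  · intro k hk'
    rw [MonoidHom.mem_ker]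
    show θ k * ((χ k : Subgroup.center G) : G)⁻¹ = 1
    have h3 := hχ ⟨k, hk'⟩
    have h4 : ((χ k : Subgroup.center G) : G) = θ k := by
      have := congrArg (fun t : Subgroup.center G => (t : G)) h3
      exact this
    rw [h4, mul_inv_cancel]
  · intro x
    show QuotientGroup.mk' (Subgroup.center G) (θ x * ((χ x : Subgroup.center G) : G)⁻¹) = _
    rw [map_mul]
    have h6 : QuotientGroup.mk' (Subgroup.center G) (((χ x : Subgroup.center G) : G)⁻¹) = 1 := by
      rw [QuotientGroup.mk'_apply, QuotientGroup.eq_one_iff]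
      exact (Subgroup.center G).inv_mem (χ x).2
    rw [h6, mul_one]

/-- Let `Q` be a finite group with Schur multiplier `A`, and let `σ : Γ →* Q` be a finite stem extension whose kernel is isomorphic to `A` (a Schur covering group of `Q`). Then every homomorphism `γ` from `Q` to the quotient of `GL n ℂ` by its centre lifts along `σ`: there is a homomorphism `ρ : Γ →* GL n ℂ` which, followed by the quotient map, equals `γ ∘ σ`. -/
theorem result {Q : Type*} [Group Q] [Finite Q] {A : Type*} [CommGroup A] (hA : Cfsg.HasSchurMultiplier Q A) {Γ : Type*} [Group Γ] [Finite Γ] (σ : Γ →* Q) (hσ : Cfsg.IsStemExtension σ) (hk : Nonempty (σ.ker ≃* A)) (n : ℕ) (γ : Q →* (GL (Fin n) ℂ ⧸ Subgroup.center (GL (Fin n) ℂ))) : ∃ ρ : Γ →* GL (Fin n) ℂ, (QuotientGroup.mk' (Subgroup.center (GL (Fin n) ℂ))).comp ρ = γ.comp σ := by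
  classical
  let φ : FreeGroup Q →* Q := FreeGroup.lift id
  have hφ : Function.Surjective φ := fun q => ⟨FreeGroup.of q, by simp [φ]⟩
  obtain ⟨hσs, hσc, hσd⟩ := id hσ
  obtain ⟨ψ, hψ⟩ := exists_hopf_lift φ σ hσs hσc
  obtain ⟨hψs, hψM⟩ := hopf_lift_stem φ hφ σ hσ ψ hψ
  have hψ' : ∀ x, σ (ψ x) = hopfBar φ x := fun x => congrArg (fun f => f x) hψ
  have hcard : Nat.card (hopfM φ) ≤ Nat.card σ.ker := by
    obtain ⟨e⟩ := hk
    rw [Nat.card_congr e.toEquiv]
    exact card_hopfM_le_of_hasSchurMultiplier φ hφ hA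
  have hker := hopf_lift_ker_inf_commutator φ hφ σ hσ ψ hψ hcard
  have hmk : Function.Surjective (QuotientGroup.mk' (Subgroup.center (GL (Fin n) ℂ))) :=
    QuotientGroup.mk'_surjective _
  choose s hs using hmk
  let θ₀ : FreeGroup Q →* GL (Fin n) ℂ := FreeGroup.lift (fun q => s (γ q))
  have hθ₀ : ∀ f, QuotientGroup.mk' (Subgroup.center (GL (Fin n) ℂ)) (θ₀ f) = γ (φ f) := by
    have h1 : (QuotientGroup.mk' (Subgroup.center (GL (Fin n) ℂ))).comp θ₀ = γ.comp φ := by
      ext q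
      simp only [MonoidHom.coe_comp, Function.comp_apply, θ₀, φ, FreeGroup.lift_apply_of, id]
      exact hs _
    intro f
    exact congrArg (fun g => g f) h1
  have hθ₀C : hopfC φ ≤ θ₀.ker := by
    unfold hopfC
    rw [Subgroup.commutator_le]
    intro a _ r hr
    have hr' : θ₀ r ∈ Subgroup.center (GL (Fin n) ℂ) := by
      have h2 := hθ₀ r
      rw [MonoidHom.mem_ker.mp hr, map_one] at h2
      exact (QuotientGroup.eq_one_iff _).mp h2
    rw [MonoidHom.mem_ker, map_commutatorElement, commutatorElement_eq_one_iff_commute]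
    exact Subgroup.mem_center_iff.mp hr' (θ₀ a)
  let θ : HopfE φ →* GL (Fin n) ℂ := QuotientGroup.lift (hopfC φ) θ₀ hθ₀C
  have hθ : ∀ x, QuotientGroup.mk' (Subgroup.center (GL (Fin n) ℂ)) (θ x) = γ (hopfBar φ x) := by
    intro x
    obtain ⟨f, rfl⟩ := hopfMk_surjective φ x
    exact hθ₀ f
  have hK0 : ∀ x ∈ ψ.ker, hopfBar φ x = 1 := by
    intro x hx
    rw [← hψ', MonoidHom.mem_ker.mp hx, map_one]
  have hK1 : ψ.ker ≤ Subgroup.center (HopfE φ) := fun x hx =>
    hopfBar_ker_le_center φ (MonoidHom.mem_ker.mpr (hK0 x hx))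
  have hθK : ∀ k : ψ.ker, (θ.comp ψ.ker.subtype) k ∈ Subgroup.center (GL (Fin n) ℂ) := by
    intro k
    have h2 := hθ (k : HopfE φ)
    rw [hK0 _ k.2, map_one] at h2
    exact (QuotientGroup.eq_one_iff _).mp h2
  obtain ⟨ρ', hρ'K, hρ'⟩ := exists_twist θ ψ.ker hK1 hker hθK (center_GL_div n)
  let e := QuotientGroup.quotientKerEquivOfSurjective ψ hψs
  refine ⟨(QuotientGroup.lift ψ.ker ρ' hρ'K).comp e.symm.toMonoidHom, ?_⟩
  ext y
  obtain ⟨x, rfl⟩ := hψs y
  have h5 : e.symm (ψ x) = (QuotientGroup.mk x : HopfE φ ⧸ ψ.ker) := by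
    rw [MulEquiv.symm_apply_eq]; rfl
  show QuotientGroup.mk' (Subgroup.center (GL (Fin n) ℂ))
    ((QuotientGroup.lift ψ.ker ρ' hρ'K) (e.symm (ψ x))) = γ (σ (ψ x))
  rw [h5, QuotientGroup.lift_mk, hψ', ← hθ, hρ']

end Cfsg.Agent.S3955
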