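import Cfsg.Statements.S3956
import Cfsg.Agent.Helper65.Hopf2
import Cfsg.Agent.Helper65.Monomial

set_option autoImplicit false
universe u v
open Cfsg

namespace Cfsg.Agent.S3956

open Cfsg.Agent.Helper65
open scoped commutatorElement

theorem exists_character_ne_one {E : Type*} [Group E] (Z : Subgroup E) [Finite Z]
    (hZ : Z ≤ Subgroup.center E) (a : Z) (ha : a ≠ 1) : ∃ lam : Z →* ℂˣ, lam a ≠ 1 := by
  let cg : CommGroup Z :=
    { (inferInstance : Group Z) with
      mul_comm := fun a b => Subtype.ext ((Subgroup.mem_center_iff.mp (hZ b.2) a)) }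
  have : NeZero ((Monoid.exponent Z : ℕ) : ℂ) :=
    ⟨Nat.cast_ne_zero.mpr Monoid.exponent_ne_zero_of_finite⟩
  exact @CommGroup.exists_apply_ne_one_of_hasEnoughRootsOfUnity Z ℂ cg _ _ _ a ha

/-- Let `σ : Γ →* Q` be a finite stem extension of the finite group `Q` such that every homomorphism from `Q` to the quotient of `GL n ℂ` by its centre, for every `n`, lifts along `σ` to a homomorphism `Γ →* GL n ℂ`. Then `σ` is a Schur covering group of `Q`: for every finite stem extension `τ : Δ →* Q` with `Δ` in the same universe as `Q`, the kernel of `τ` is a homomorphic image of the kernel of `σ`. -/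
theorem result {Q : Type u} [Group Q] [Finite Q] {Γ : Type v} [Group Γ] [Finite Γ] (σ : Γ →* Q) (hσ : Cfsg.IsStemExtension σ) (hlift : ∀ (n : ℕ) (γ : Q →* (GL (Fin n) ℂ ⧸ Subgroup.center (GL (Fin n) ℂ))), ∃ ρ : Γ →* GL (Fin n) ℂ, (QuotientGroup.mk' (Subgroup.center (GL (Fin n) ℂ))).comp ρ = γ.comp σ) (Δ : Type u) [Group Δ] [Finite Δ] (τ : Δ →* Q) (hτ : Cfsg.IsStemExtension τ) : ∃ π : σ.ker →* τ.ker, Function.Surjective π := by
  classical
  let φ : FreeGroup Q →* Q := FreeGroup.lift id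
  have hφ : Function.Surjective φ := fun q => ⟨FreeGroup.of q, by simp [φ]⟩
  obtain ⟨hσs, hσc, hσd⟩ := id hσ
  obtain ⟨ψ, hψ⟩ := exists_hopf_lift φ σ hσs hσc
  obtain ⟨hψs, hψM⟩ := hopf_lift_stem φ hφ σ hσ ψ hψ
  have hψ' : ∀ x, σ (ψ x) = hopfBar φ x := fun x => congrArg (fun f => f x) hψ
  obtain ⟨ψ₂, hψ₂⟩ := exists_hopf_lift φ τ hτ.1 hτ.2.1
  obtain ⟨-, hψ₂M⟩ := hopf_lift_stem φ hφ τ hτ ψ₂ hψ₂
  -- key: `ψ` is injective on the Hopf multiplier
  have hinj : ∀ m ∈ hopfM φ, ψ m = 1 → m = 1 := by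
    intro m hm hm1
    by_contra hne
    obtain ⟨S, hS, h1, h2⟩ := exists_hopf_complement φ (hopfBar φ).ker le_rfl
    have hSn : S.Normal := normal_of_le_center_aux S (hS.trans (hopfBar_ker_le_center φ))
    obtain ⟨hstem, hfin, -⟩ := hopf_quotient_stem φ hφ S hS h1 (by rw [← h2]; exact le_rfl)
    have hmS : m ∉ S := fun h => hne (by
      have h3 : m ∈ S ⊓ commutator (HopfE φ) := ⟨h, hm.2⟩
      rw [h1] at h3
      exact h3)
    have hmk : (QuotientGroup.mk m : HopfE φ ⧸ S) ∈ (QuotientGroup.lift S (hopfBar φ) hS).ker := by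
      rw [MonoidHom.mem_ker]
      exact hm.1
    obtain ⟨lam, hlam⟩ := exists_character_ne_one (QuotientGroup.lift S (hopfBar φ) hS).ker
      hstem.2.1 ⟨_, hmk⟩ (by
        intro h
        apply hmS
        have h4 := congrArg Subtype.val h
        exact (QuotientGroup.eq_one_iff m).mp h4)
    obtain ⟨θb, hθb⟩ := exists_monomial_rep (QuotientGroup.lift S (hopfBar φ) hS) hstem.1
      hstem.2.1 lam
    let θ : HopfE φ →* GL (Fin (Nat.card Q)) ℂ := θb.comp (QuotientGroup.mk' S)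
    have hθN : ∀ x ∈ (hopfBar φ).ker, θ x ∈ Subgroup.center (GL (Fin (Nat.card Q)) ℂ) := by
      intro x hx
      have hxk : (QuotientGroup.mk x : HopfE φ ⧸ S) ∈
          (QuotientGroup.lift S (hopfBar φ) hS).ker := hx
      have h5 := hθb ⟨_, hxk⟩
      show θb (QuotientGroup.mk x) ∈ _
      rw [h5, Matrix.GeneralLinearGroup.center_eq_range_scalar]
      exact ⟨_, rfl⟩
    have hbs := hopfBar_surjective φ hφ
    let e := QuotientGroup.quotientKerEquivOfSurjective (hopfBar φ) hbs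
    have hle : (hopfBar φ).ker ≤
        ((QuotientGroup.mk' (Subgroup.center (GL (Fin (Nat.card Q)) ℂ))).comp θ).ker := by
      intro x hx
      rw [MonoidHom.mem_ker]
      show QuotientGroup.mk' _ (θ x) = 1
      rw [QuotientGroup.mk'_apply, QuotientGroup.eq_one_iff]
      exact hθN x hx
    let γ : Q →* GL (Fin (Nat.card Q)) ℂ ⧸ Subgroup.center (GL (Fin (Nat.card Q)) ℂ) :=
      (QuotientGroup.lift (hopfBar φ).ker _ hle).comp e.symm.toMonoidHom
    have hγ : ∀ x, γ (hopfBar φ x) =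
        QuotientGroup.mk' (Subgroup.center (GL (Fin (Nat.card Q)) ℂ)) (θ x) := by
      intro x
      have h5 : e.symm (hopfBar φ x) = (QuotientGroup.mk x : HopfE φ ⧸ (hopfBar φ).ker) := by
        rw [MulEquiv.symm_apply_eq]; rfl
      show (QuotientGroup.lift (hopfBar φ).ker _ hle) (e.symm (hopfBar φ x)) = _
      rw [h5, QuotientGroup.lift_mk]
      rfl
    obtain ⟨ρ, hρ⟩ := hlift (Nat.card Q) γ
    have hρ' : ∀ y, QuotientGroup.mk' (Subgroup.center (GL (Fin (Nat.card Q)) ℂ)) (ρ y) =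
        γ (σ y) := fun y => congrArg (fun f => f y) hρ
    have hcen : ∀ x, (ρ (ψ x))⁻¹ * θ x ∈ Subgroup.center (GL (Fin (Nat.card Q)) ℂ) := by
      intro x
      have h6 : QuotientGroup.mk' (Subgroup.center (GL (Fin (Nat.card Q)) ℂ)) (ρ (ψ x)) =
          QuotientGroup.mk' _ (θ x) := by
        rw [hρ', ← hγ, hψ']
      exact QuotientGroup.eq.mp h6
    have hcomm : ∀ x ∈ commutator (HopfE φ), θ x = ρ (ψ x) := by
      intro x hx
      rw [commutator_eq_closure] at hx
      have hEq : Set.EqOn θ (ρ.comp ψ) (commutatorSet (HopfE φ)) := by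
        rintro _ ⟨a, b, rfl⟩
        show θ ⁅a, b⁆ = ρ (ψ ⁅a, b⁆)
        rw [map_commutatorElement, map_commutatorElement, map_commutatorElement]
        exact commutatorElement_eq_of_central (hcen a) (hcen b)
      exact MonoidHom.eqOn_closure hEq hx
    have h7 := hcomm m hm.2
    rw [hm1, map_one] at h7
    have h8 := hθb ⟨_, hmk⟩
    have h9 : θ m = θb (QuotientGroup.mk m) := rfl
    rw [h9, h8] at h7
    apply hlam
    have hpos : 0 < Nat.card Q := Nat.card_pos
    have : Nonempty (Fin (Nat.card Q)) := ⟨⟨0, hpos⟩⟩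
    have h10 := congrArg (fun g : GL (Fin (Nat.card Q)) ℂ =>
      (g : Matrix (Fin (Nat.card Q)) (Fin (Nat.card Q)) ℂ)) h7
    simp only [Matrix.GeneralLinearGroup.coe_scalar, Units.val_one] at h10
    rw [← map_one (Matrix.scalar (Fin (Nat.card Q))), Matrix.scalar_inj] at h10
    exact Units.ext h10
  -- the comparison map
  let f₁ : hopfM φ →* σ.ker := (ψ.comp (hopfM φ).subtype).codRestrict σ.ker (fun m => by
    rw [← hψM]; exact ⟨m, m.2, rfl⟩)
  let f₂ : hopfM φ →* τ.ker := (ψ₂.comp (hopfM φ).subtype).codRestrict τ.ker (fun m => by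
    rw [← hψ₂M]; exact ⟨m, m.2, rfl⟩)
  have hf₁ : Function.Bijective f₁ := by
    constructor
    · rw [injective_iff_map_eq_one]
      intro m hm
      have h1 : ψ m = 1 := congrArg Subtype.val hm
      exact Subtype.ext (hinj m m.2 h1)
    · rintro ⟨k, hk⟩
      rw [← hψM] at hk
      obtain ⟨m, hm, rfl⟩ := hk
      exact ⟨⟨m, hm⟩, rfl⟩
  have hf₂ : Function.Surjective f₂ := by
    rintro ⟨k, hk⟩
    rw [← hψ₂M] at hk
    obtain ⟨m, hm, rfl⟩ := hk
    exact ⟨⟨m, hm⟩, rfl⟩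
  refine ⟨f₂.comp (MulEquiv.ofBijective f₁ hf₁).symm.toMonoidHom, ?_⟩
  intro k
  obtain ⟨m, rfl⟩ := hf₂ k
  refine ⟨f₁ m, ?_⟩
  show f₂ ((MulEquiv.ofBijective f₁ hf₁).symm (f₁ m)) = f₂ m
  congr 1
  rw [MulEquiv.symm_apply_eq]
  rfl

end Cfsg.Agent.S3956
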