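import Cfsg.Statements.S3957
import Cfsg.Agent.Helper65.Hopf

set_option autoImplicit false
universe u v
open Cfsg

namespace Cfsg.Agent.S3957

open Cfsg.Agent.Helper65

/-- Let `Q` be a finite group with Schur multiplier `A` and let `τ : Δ →* Q` be a finite stem extension, `Δ` in the universe of `Q`. Then there is a finite stem extension `σ : Γ →* Q` with kernel isomorphic to `A` (a Schur covering group) and a surjective homomorphism `β : Γ →* Δ` with `τ ∘ β = σ`. -/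
theorem result {Q : Type u} [Group Q] [Finite Q] {A : Type v} [CommGroup A] (hA : Cfsg.HasSchurMultiplier Q A) {Δ : Type u} [Group Δ] [Finite Δ] (τ : Δ →* Q) (hτ : Cfsg.IsStemExtension τ) : ∃ (Γ : Type u) (_ : Group Γ) (_ : Finite Γ) (σ : Γ →* Q), Cfsg.IsStemExtension σ ∧ Nonempty (σ.ker ≃* A) ∧ ∃ β : Γ →* Δ, Function.Surjective β ∧ τ.comp β = σ := by
  let φ : FreeGroup Q →* Q := FreeGroup.lift id
  have hφ : Function.Surjective φ := fun q => ⟨FreeGroup.of q, by simp [φ]⟩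
  obtain ⟨ψ, hψ⟩ := exists_hopf_lift φ τ hτ.1 hτ.2.1
  have hψ' : ∀ x, τ (ψ x) = hopfBar φ x := fun x => congrArg (fun f => f x) hψ
  obtain ⟨hψs, hψM⟩ := hopf_lift_stem φ hφ τ hτ ψ hψ
  let N₀ : Subgroup (HopfE φ) := (hopfBar φ).ker ⊓ ψ.ker
  obtain ⟨S, hSN, hS1, hS2⟩ := exists_hopf_complement φ N₀ inf_le_left
  have hSR : S ≤ (hopfBar φ).ker := hSN.trans inf_le_left
  have hSψ : S ≤ ψ.ker := hSN.trans inf_le_right
  have : S.Normal := normal_of_le_center_aux S (hSR.trans (hopfBar_ker_le_center φ))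
  have h2 : (hopfBar φ).ker ≤ S ⊔ hopfM φ := by
    intro r hr
    have hr' : ψ r ∈ τ.ker := by
      rw [MonoidHom.mem_ker, hψ' r]; exact hr
    rw [← hψM] at hr'
    obtain ⟨m, hm, hmr⟩ := hr'
    have hm1 : m ∈ (hopfBar φ).ker := hm.1
    have hn1 : m⁻¹ * r ∈ (hopfBar φ).ker := Subgroup.mul_mem _ (Subgroup.inv_mem _ hm1) hr
    have hn2 : m⁻¹ * r ∈ ψ.ker := by
      show ψ (m⁻¹ * r) = 1
      rw [map_mul, map_inv, hmr, inv_mul_cancel]
    have hn : m⁻¹ * r ∈ N₀ := ⟨hn1, hn2⟩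
    have hle : S ⊔ N₀ ⊓ commutator (HopfE φ) ≤ S ⊔ hopfM φ :=
      sup_le le_sup_left (le_sup_of_le_right (inf_le_inf_right _ inf_le_left))
    have hn' : m⁻¹ * r ∈ S ⊔ hopfM φ := by
      rw [← hS2] at hn
      exact hle hn
    have e : r = m * (m⁻¹ * r) := by group
    rw [e]
    exact Subgroup.mul_mem _ (Subgroup.mem_sup_right hm) hn'
  obtain ⟨hstem, hfin, ⟨eM⟩⟩ := hopf_quotient_stem φ hφ S hSR hS1 h2
  refine ⟨HopfE φ ⧸ S, inferInstance, hfin, QuotientGroup.lift S (hopfBar φ) hSR, hstem, ?_, ?_⟩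
  · exact ker_equiv_of_hasSchurMultiplier φ hφ hA _ hstem (le_of_eq (Nat.card_congr eM.toEquiv))
  · refine ⟨QuotientGroup.lift S ψ hSψ, ?_, ?_⟩
    · intro d
      obtain ⟨x, rfl⟩ := hψs d
      exact ⟨QuotientGroup.mk x, rfl⟩
    · apply MonoidHom.ext
      intro x
      obtain ⟨y, rfl⟩ := QuotientGroup.mk_surjective x
      exact hψ' y

end Cfsg.Agent.S3957
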