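import Cfsg.Statements.S3959
import Cfsg.Agent.Helper65.BiExt
import Cfsg.Agent.Helper65.Hopf3
import Cfsg.Agent.Helper65.ProdMult

set_option autoImplicit false
universe u v w
open Cfsg

namespace Cfsg.Agent.S3959

open Cfsg.Agent.Helper65
open scoped commutatorElement TensorProduct

section Part1

variable {Q₁ : Type u} {Q₂ : Type v} [Group Q₁] [Group Q₂]
  {Γ₁ : Type u} {Γ₂ : Type v} [Group Γ₁] [Group Γ₂] (σ₁ : Γ₁ →* Q₁) (σ₂ : Γ₂ →* Q₂)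

/-- The bimultiplicative pairing on `Γ₁ × Γ₂` with values in the tensor product. -/
def pairing : BiMul (Γ₁ × Γ₂)
    (TensorProduct ℤ (Additive (Abelianization Q₁)) (Additive (Abelianization Q₂))) where
  toFun g h := (Additive.ofMul (Abelianization.of (σ₁ g.1))) ⊗ₜ[ℤ]
    (Additive.ofMul (Abelianization.of (σ₂ h.2)))
  map_mul_left g h k := by
    simp only [Prod.fst_mul, map_mul, ofMul_mul, TensorProduct.add_tmul]
  map_mul_right g h k := by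
    simp only [Prod.snd_mul, map_mul, ofMul_mul, TensorProduct.tmul_add]

theorem pairing_apply (g h : Γ₁ × Γ₂) : (pairing σ₁ σ₂).toFun g h =
    (Additive.ofMul (Abelianization.of (σ₁ g.1))) ⊗ₜ[ℤ]
    (Additive.ofMul (Abelianization.of (σ₂ h.2))) := rfl

theorem pairing_eq_zero_left (g h : Γ₁ × Γ₂) (hg : σ₁ g.1 = 1) :
    (pairing σ₁ σ₂).toFun g h = 0 := by
  rw [pairing_apply, hg, map_one, ofMul_one, TensorProduct.zero_tmul]

theorem pairing_eq_zero_right (g h : Γ₁ × Γ₂) (hh : σ₂ h.2 = 1) :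
    (pairing σ₁ σ₂).toFun g h = 0 := by
  rw [pairing_apply, hh, map_one, ofMul_one, TensorProduct.tmul_zero]

/-- The embedding of the first factor. -/
def j₁ : Γ₁ →* BiExt (pairing σ₁ σ₂) where
  toFun g := ⟨0, (g, 1)⟩
  map_one' := rfl
  map_mul' g h := by
    apply BiExt.ext
    · rw [BiExt.mul_fst, pairing_eq_zero_right σ₁ σ₂ _ _ (map_one σ₂)]
      simp
    · rw [BiExt.mul_snd]
      exact Prod.ext rfl (mul_one 1).symm

/-- The embedding of the second factor. -/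
def j₂ : Γ₂ →* BiExt (pairing σ₁ σ₂) where
  toFun g := ⟨0, (1, g)⟩
  map_one' := rfl
  map_mul' g h := by
    apply BiExt.ext
    · rw [BiExt.mul_fst, pairing_eq_zero_left σ₁ σ₂ _ _ (map_one σ₁)]
      simp
    · rw [BiExt.mul_snd]
      exact Prod.ext (mul_one 1).symm rfl

/-- The extension of `Q₁ × Q₂`. -/
def bigσ : BiExt (pairing σ₁ σ₂) →* Q₁ × Q₂ := (σ₁.prodMap σ₂).comp (BiExt.proj (pairing σ₁ σ₂))

theorem bigσ_apply (x : BiExt (pairing σ₁ σ₂)) : bigσ σ₁ σ₂ x = (σ₁ x.snd.1, σ₂ x.snd.2) := rfl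

theorem mem_ker_bigσ (x : BiExt (pairing σ₁ σ₂)) :
    x ∈ (bigσ σ₁ σ₂).ker ↔ σ₁ x.snd.1 = 1 ∧ σ₂ x.snd.2 = 1 := by
  rw [MonoidHom.mem_ker, bigσ_apply, Prod.mk_eq_one]

theorem incl_mem_commutator (h₁ : Function.Surjective σ₁) (h₂ : Function.Surjective σ₂)
    (t : TensorProduct ℤ (Additive (Abelianization Q₁)) (Additive (Abelianization Q₂))) :
    BiExt.incl (pairing σ₁ σ₂) (Multiplicative.ofAdd t) ∈ commutator (BiExt (pairing σ₁ σ₂)) := by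
  induction t using TensorProduct.induction_on with
  | zero =>
    rw [ofAdd_zero, map_one]
    exact Subgroup.one_mem _
  | tmul x y =>
    obtain ⟨q₁, hq₁⟩ := QuotientGroup.mk_surjective (Additive.toMul x)
    obtain ⟨q₂, hq₂⟩ := QuotientGroup.mk_surjective (Additive.toMul y)
    obtain ⟨g₁, rfl⟩ := h₁ q₁
    obtain ⟨g₂, rfl⟩ := h₂ q₂
    have hc := BiExt.commutator_of_commute (pairing σ₁ σ₂) (j₁ σ₁ σ₂ g₁) (j₂ σ₁ σ₂ g₂)
      (show ((g₁, 1) : Γ₁ × Γ₂) * (1, g₂) = (1, g₂) * (g₁, 1) by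
        simp only [Prod.mk_mul_mk, mul_one, one_mul])
    have e1 : (pairing σ₁ σ₂).toFun (j₂ σ₁ σ₂ g₂).snd (j₁ σ₁ σ₂ g₁).snd = 0 :=
      pairing_eq_zero_left σ₁ σ₂ _ _ (map_one σ₁)
    have e2 : (pairing σ₁ σ₂).toFun (j₁ σ₁ σ₂ g₁).snd (j₂ σ₁ σ₂ g₂).snd = x ⊗ₜ[ℤ] y := by
      rw [pairing_apply]
      show Additive.ofMul (Abelianization.of (σ₁ g₁)) ⊗ₜ[ℤ]
        Additive.ofMul (Abelianization.of (σ₂ g₂)) = x ⊗ₜ[ℤ] y
      have e3 : Abelianization.of (σ₁ g₁) = Additive.toMul x := hq₁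
      have e4 : Abelianization.of (σ₂ g₂) = Additive.toMul y := hq₂
      rw [e3, e4]
      rfl
    rw [e1, e2, sub_zero] at hc
    rw [← hc]
    exact Subgroup.commutator_mem_commutator (Subgroup.mem_top _) (Subgroup.mem_top _)
  | add x y hx hy =>
    rw [ofAdd_add, map_mul]
    exact Subgroup.mul_mem _ hx hy

theorem map_mem_commutator {G H : Type*} [Group G] [Group H] (f : G →* H) {g : G}
    (hg : g ∈ commutator G) : f g ∈ commutator H := by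
  have h1 : f g ∈ (commutator G).map f := Subgroup.mem_map_of_mem f hg
  rw [commutator_def, Subgroup.map_commutator] at h1
  rw [commutator_def]
  exact Subgroup.commutator_mono le_top le_top h1

theorem bigσ_stem (h₁ : IsStemExtension σ₁) (h₂ : IsStemExtension σ₂) :
    IsStemExtension (bigσ σ₁ σ₂) := by
  refine ⟨?_, ?_, ?_⟩
  · rintro ⟨q₁, q₂⟩
    obtain ⟨g₁, rfl⟩ := h₁.1 q₁
    obtain ⟨g₂, rfl⟩ := h₂.1 q₂
    exact ⟨⟨0, (g₁, g₂)⟩, rfl⟩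
  · intro x hx
    rw [mem_ker_bigσ] at hx
    rw [Subgroup.mem_center_iff]
    intro y
    have hx1 : x.snd.1 ∈ Subgroup.center Γ₁ := h₁.2.1 hx.1
    have hx2 : x.snd.2 ∈ Subgroup.center Γ₂ := h₂.2.1 hx.2
    apply BiExt.ext
    · rw [BiExt.mul_fst, BiExt.mul_fst, pairing_eq_zero_left σ₁ σ₂ _ _ hx.1,
        pairing_eq_zero_right σ₁ σ₂ _ _ hx.2]
      abel
    · rw [BiExt.mul_snd, BiExt.mul_snd]
      exact Prod.ext (Subgroup.mem_center_iff.mp hx1 y.snd.1)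
        (Subgroup.mem_center_iff.mp hx2 y.snd.2)
  · intro x hx
    rw [mem_ker_bigσ] at hx
    have e : x = BiExt.incl (pairing σ₁ σ₂) (Multiplicative.ofAdd x.fst) * j₁ σ₁ σ₂ x.snd.1 *
        j₂ σ₁ σ₂ x.snd.2 := by
      apply BiExt.ext
      · rw [BiExt.mul_fst, BiExt.mul_fst]
        have e1 : (pairing σ₁ σ₂).toFun (BiExt.incl (pairing σ₁ σ₂)
            (Multiplicative.ofAdd x.fst)).snd (j₁ σ₁ σ₂ x.snd.1).snd = 0 :=
          (pairing σ₁ σ₂).map_one_left _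
        have e2 : (pairing σ₁ σ₂).toFun (BiExt.incl (pairing σ₁ σ₂)
            (Multiplicative.ofAdd x.fst) * j₁ σ₁ σ₂ x.snd.1).snd (j₂ σ₁ σ₂ x.snd.2).snd = 0 :=
          pairing_eq_zero_right σ₁ σ₂ _ _ hx.2
        rw [e1, e2]
        show x.fst = x.fst + 0 + 0 + 0 + 0
        simp
      · rw [BiExt.mul_snd, BiExt.mul_snd]
        show x.snd = (1 : Γ₁ × Γ₂) * (x.snd.1, 1) * (1, x.snd.2)
        simp
    rw [e]
    exact Subgroup.mul_mem _ (Subgroup.mul_mem _ (incl_mem_commutator σ₁ σ₂ h₁.1 h₂.1 _)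
      (map_mem_commutator _ (h₁.2.2 hx.1))) (map_mem_commutator _ (h₂.2.2 hx.2))

/-- The kernel of the extension. -/
def bigKerEquiv : (bigσ σ₁ σ₂).ker ≃* σ₁.ker × σ₂.ker × Multiplicative
    (TensorProduct ℤ (Additive (Abelianization Q₁)) (Additive (Abelianization Q₂))) where
  toFun x := (⟨x.1.snd.1, ((mem_ker_bigσ σ₁ σ₂ x.1).1 x.2).1⟩,
    ⟨x.1.snd.2, ((mem_ker_bigσ σ₁ σ₂ x.1).1 x.2).2⟩, Multiplicative.ofAdd x.1.fst)
  invFun y := ⟨⟨Multiplicative.toAdd y.2.2, (y.1.1, y.2.1.1)⟩,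
    (mem_ker_bigσ σ₁ σ₂ _).2 ⟨y.1.2, y.2.1.2⟩⟩
  left_inv x := rfl
  right_inv y := rfl
  map_mul' x y := by
    refine Prod.ext rfl (Prod.ext rfl ?_)
    show Multiplicative.ofAdd (x.1 * y.1).fst = Multiplicative.ofAdd x.1.fst *
      Multiplicative.ofAdd y.1.fst
    rw [BiExt.mul_fst, pairing_eq_zero_left σ₁ σ₂ _ _ ((mem_ker_bigσ σ₁ σ₂ x.1).1 x.2).1,
      add_zero]
    rfl

end Part1

section Part2

variable {Q₁ : Type u} {Q₂ : Type v} [Group Q₁] [Group Q₂] [Finite Q₁] [Finite Q₂]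
  {A B : Type w} [CommGroup A] [CommGroup B]

theorem part2 (hA : HasSchurMultiplier Q₁ A) (hB : HasSchurMultiplier Q₂ B)
    {Γ : Type*} [Group Γ] (σ : Γ →* Q₁ × Q₂) (hσ : IsStemExtension σ) :
    ∃ π : A × B × Multiplicative (TensorProduct ℤ (Additive (Abelianization Q₁))
      (Additive (Abelianization Q₂))) →* σ.ker, Function.Surjective π := by
  obtain ⟨hsurj, hcent, hcomm⟩ := hσ
  have hKcomm : ∀ x y : σ.ker, x * y = y * x := fun x y =>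
    Subtype.ext (Subgroup.mem_center_iff.mp (hcent y.2) x.1)
  let Δ₁ : Subgroup Γ := ((MonoidHom.snd Q₁ Q₂).comp σ).ker
  let Δ₂ : Subgroup Γ := ((MonoidHom.fst Q₁ Q₂).comp σ).ker
  have hn₁ : Δ₁.Normal := MonoidHom.normal_ker _
  have hn₂ : Δ₂.Normal := MonoidHom.normal_ker _
  have hΔ₁ : ∀ g, g ∈ Δ₁ ↔ (σ g).2 = 1 := fun g => Iff.rfl
  have hΔ₂ : ∀ g, g ∈ Δ₂ ↔ (σ g).1 = 1 := fun g => Iff.rfl
  let τ₁ : Δ₁ →* Q₁ := ((MonoidHom.fst Q₁ Q₂).comp σ).comp Δ₁.subtype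
  let τ₂ : Δ₂ →* Q₂ := ((MonoidHom.snd Q₁ Q₂).comp σ).comp Δ₂.subtype
  have hτ₁ : Function.Surjective τ₁ := by
    intro q
    obtain ⟨g, hg⟩ := hsurj (q, 1)
    exact ⟨⟨g, by rw [hΔ₁, hg]⟩, by show (σ g).1 = q; rw [hg]⟩
  have hτ₂ : Function.Surjective τ₂ := by
    intro q
    obtain ⟨g, hg⟩ := hsurj (1, q)
    exact ⟨⟨g, by rw [hΔ₂, hg]⟩, by show (σ g).2 = q; rw [hg]⟩
  have hτ₁k : ∀ x : Δ₁, x ∈ τ₁.ker ↔ σ x.1 = 1 := by
    intro x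
    rw [MonoidHom.mem_ker]
    show (σ x.1).1 = 1 ↔ _
    constructor
    · intro h
      exact Prod.ext h ((hΔ₁ _).1 x.2)
    · intro h
      rw [h]; rfl
  have hτ₂k : ∀ x : Δ₂, x ∈ τ₂.ker ↔ σ x.1 = 1 := by
    intro x
    rw [MonoidHom.mem_ker]
    show (σ x.1).2 = 1 ↔ _
    constructor
    · intro h
      exact Prod.ext ((hΔ₂ _).1 x.2) h
    · intro h
      rw [h]; rfl
  have hc₁ : τ₁.ker ≤ Subgroup.center Δ₁ := by
    intro x hx
    rw [Subgroup.mem_center_iff]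
    intro y
    apply Subtype.ext
    exact Subgroup.mem_center_iff.mp (hcent ((hτ₁k x).1 hx)) y.1
  have hc₂ : τ₂.ker ≤ Subgroup.center Δ₂ := by
    intro x hx
    rw [Subgroup.mem_center_iff]
    intro y
    apply Subtype.ext
    exact Subgroup.mem_center_iff.mp (hcent ((hτ₂k x).1 hx)) y.1
  obtain ⟨π₁, hπ₁⟩ := exists_surjective_of_central_ext hA τ₁ hτ₁ hc₁
  obtain ⟨π₂, hπ₂⟩ := exists_surjective_of_central_ext hB τ₂ hτ₂ hc₂
  -- the commutator pairing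
  let s : Q₁ × Q₂ → Γ := Function.surjInv hsurj
  have hs : ∀ q, σ (s q) = q := Function.surjInv_eq hsurj
  have hcomm_ker : ∀ g h : Γ, (σ g).2 = 1 → (σ h).1 = 1 → ⁅g, h⁆ ∈ σ.ker := by
    intro g h hg hh
    rw [MonoidHom.mem_ker, map_commutatorElement, commutatorElement_def]
    refine Prod.ext ?_ ?_
    · simp [hh]
    · simp [hg]
  let c : Q₁ → Q₂ → σ.ker := fun q₁ q₂ => ⟨⁅s (q₁, 1), s (1, q₂)⁆,
    hcomm_ker _ _ (by rw [hs]) (by rw [hs])⟩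
  have hc : ∀ g h : Γ, (σ g).2 = 1 → (σ h).1 = 1 → ⁅g, h⁆ = (c (σ g).1 (σ h).2).1 := by
    intro g h hg hh
    show ⁅g, h⁆ = ⁅s ((σ g).1, 1), s (1, (σ h).2)⁆
    apply commutatorElement_eq_of_central
    · apply hcent
      rw [MonoidHom.mem_ker, map_mul, map_inv, hs, inv_mul_eq_one]
      exact Prod.ext rfl hg.symm
    · apply hcent
      rw [MonoidHom.mem_ker, map_mul, map_inv, hs, inv_mul_eq_one]
      exact Prod.ext hh.symm rfl
  have hcL : ∀ q q' r, c (q * q') r = c q r * c q' r := by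
    intro q q' r
    apply Subtype.ext
    have h1 : (σ (s (q, 1) * s (q', 1))).2 = 1 := by rw [map_mul, hs, hs]; simp
    have h2 : (σ (s ((1 : Q₁), r))).1 = 1 := by rw [hs]
    have h3 := hc (s (q, 1) * s (q', 1)) (s (1, r)) h1 h2
    have h4 : (σ (s (q, 1) * s (q', 1))).1 = q * q' := by rw [map_mul, hs, hs]; rfl
    have h5 : (σ (s ((1 : Q₁), r))).2 = r := by rw [hs]
    rw [h4, h5] at h3
    rw [← h3]
    show ⁅s (q, 1) * s (q', 1), s (1, r)⁆ = ⁅s (q, 1), s (1, r)⁆ * ⁅s (q', 1), s (1, r)⁆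
    have hz : ⁅s (q', 1), s (1, r)⁆ ∈ Subgroup.center Γ :=
      hcent (hcomm_ker _ _ (by rw [hs]) (by rw [hs]))
    have e : ⁅s (q, 1) * s (q', 1), s (1, r)⁆ =
        s (q, 1) * ⁅s (q', 1), s (1, r)⁆ * (s (q, 1))⁻¹ * ⁅s (q, 1), s (1, r)⁆ := by
      simp only [commutatorElement_def]; group
    rw [e, Subgroup.mem_center_iff.mp hz (s (q, 1)), mul_inv_cancel_right]
    exact (Subgroup.mem_center_iff.mp hz _).symm
  have hcR : ∀ q r r', c q (r * r') = c q r * c q r' := by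
    intro q r r'
    apply Subtype.ext
    have h1 : (σ (s ((1 : Q₁), r) * s ((1 : Q₁), r'))).1 = 1 := by rw [map_mul, hs, hs]; simp
    have h2 : (σ (s (q, (1 : Q₂)))).2 = 1 := by rw [hs]
    have h3 := hc (s (q, 1)) (s (1, r) * s (1, r')) h2 h1
    have h4 : (σ (s ((1 : Q₁), r) * s ((1 : Q₁), r'))).2 = r * r' := by
      rw [map_mul, hs, hs]; rfl
    have h5 : (σ (s (q, (1 : Q₂)))).1 = q := by rw [hs]
    rw [h4, h5] at h3
    rw [← h3]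
    show ⁅s (q, 1), s (1, r) * s (1, r')⁆ = ⁅s (q, 1), s (1, r)⁆ * ⁅s (q, 1), s (1, r')⁆
    have hz : ⁅s (q, 1), s (1, r')⁆ ∈ Subgroup.center Γ :=
      hcent (hcomm_ker _ _ (by rw [hs]) (by rw [hs]))
    have e : ⁅s (q, 1), s (1, r) * s (1, r')⁆ =
        ⁅s (q, 1), s (1, r)⁆ * (s (1, r) * ⁅s (q, 1), s (1, r')⁆ * (s (1, r))⁻¹) := by
      simp only [commutatorElement_def]; group
    rw [e, Subgroup.mem_center_iff.mp hz (s (1, r)), mul_inv_cancel_right]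
  obtain ⟨θ, hθ⟩ := exists_tensor_lift hKcomm c hcL hcR
  -- the inclusions
  let ι₁ : ↥(τ₁.ker ⊓ commutator Δ₁) →* σ.ker :=
    MonoidHom.mk' (fun x => ⟨x.1.1, (hτ₁k x.1).1 x.2.1⟩) (fun _ _ => rfl)
  let ι₂ : ↥(τ₂.ker ⊓ commutator Δ₂) →* σ.ker :=
    MonoidHom.mk' (fun x => ⟨x.1.1, (hτ₂k x.1).1 x.2.1⟩) (fun _ _ => rfl)
  obtain ⟨π, hπ⟩ := exists_coprod3 hKcomm (ι₁.comp π₁) (ι₂.comp π₂) θ
  refine ⟨π, ?_⟩
  intro k
  have hdec : ∀ g : Γ, ∃ g₁ ∈ Δ₁, ∃ g₂ ∈ Δ₂, g = g₁ * g₂ := by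
    intro g
    refine ⟨s ((σ g).1, 1), by rw [hΔ₁, hs], (s ((σ g).1, 1))⁻¹ * g, ?_, by group⟩
    rw [hΔ₂, map_mul, map_inv, hs]
    simp
  obtain ⟨d₁, hd₁, d₂, hd₂, c₀, hc₀, hk⟩ := commutator_decomp Δ₁ Δ₂ hdec k.1 (hcomm k.2)
  have hc₀K : σ c₀ = 1 := by
    have hle : ⁅Δ₁, Δ₂⁆ ≤ σ.ker := by
      rw [Subgroup.commutator_le]
      intro g hg h hh
      exact hcomm_ker g h ((hΔ₁ g).1 hg) ((hΔ₂ h).1 hh)
    exact hle hc₀
  have hd₁Δ : (σ d₁).2 = 1 := (hΔ₁ d₁).1 (Subgroup.commutator_le_self Δ₁ hd₁)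
  have hd₂Δ : (σ d₂).1 = 1 := (hΔ₂ d₂).1 (Subgroup.commutator_le_self Δ₂ hd₂)
  have hk1 : σ d₁ * σ d₂ = 1 := by
    have := k.2
    rw [MonoidHom.mem_ker, hk, map_mul, map_mul, hc₀K, mul_one] at this
    exact this
  have hσd₁ : σ d₁ = 1 := by
    refine Prod.ext ?_ hd₁Δ
    have := congrArg Prod.fst hk1
    rw [Prod.fst_mul, hd₂Δ, mul_one] at this
    exact this
  have hσd₂ : σ d₂ = 1 := by
    rw [hσd₁, one_mul] at hk1
    exact hk1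
  -- preimages
  rw [← Subgroup.map_subtype_commutator] at hd₁ hd₂
  obtain ⟨x₁, hx₁, rfl⟩ := hd₁
  obtain ⟨x₂, hx₂, rfl⟩ := hd₂
  obtain ⟨a, ha⟩ := hπ₁ ⟨x₁, (hτ₁k x₁).2 hσd₁, hx₁⟩
  obtain ⟨b, hb⟩ := hπ₂ ⟨x₂, (hτ₂k x₂).2 hσd₂, hx₂⟩
  have hθc : ∀ y ∈ ⁅Δ₁, Δ₂⁆, ∃ t, (θ t).1 = y := by
    have hle : ⁅Δ₁, Δ₂⁆ ≤ θ.range.map σ.ker.subtype := by
      rw [Subgroup.commutator_le]
      intro g hg h hh
      refine ⟨c (σ g).1 (σ h).2, ⟨_, hθ _ _⟩, ?_⟩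
      exact (hc g h ((hΔ₁ g).1 hg) ((hΔ₂ h).1 hh)).symm
    intro y hy
    obtain ⟨z, ⟨t, rfl⟩, rfl⟩ := hle hy
    exact ⟨t, rfl⟩
  obtain ⟨t, ht⟩ := hθc c₀ hc₀
  refine ⟨(a, b, t), ?_⟩
  apply Subtype.ext
  rw [hπ, hk]
  show (ι₁ (π₁ a)).1 * (ι₂ (π₂ b)).1 * (θ t).1 = _
  rw [ha, hb, ht]
  rfl

end Part2

/-- Let `Q₁` and `Q₂` be finite groups with Schur multipliers `A` and `B`. Then the Schur multiplier of `Q₁ × Q₂` is isomorphic to `A × B × (Q₁ᵃᵇ ⊗ Q₂ᵃᵇ)`, the last factor being the tensor product over the integers of the commutator quotients, written multiplicatively. -/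
theorem result {Q₁ : Type u} {Q₂ : Type v} [Group Q₁] [Group Q₂] [Finite Q₁] [Finite Q₂] {A B : Type w} [CommGroup A] [CommGroup B] (hA : Cfsg.HasSchurMultiplier Q₁ A) (hB : Cfsg.HasSchurMultiplier Q₂ B) : Cfsg.HasSchurMultiplier (Q₁ × Q₂) (A × B × Multiplicative (TensorProduct ℤ (Additive (Abelianization Q₁)) (Additive (Abelianization Q₂)))) := by
  refine ⟨?_, ?_⟩
  · obtain ⟨⟨Γ₁, _, _, σ₁, hσ₁, ⟨e₁⟩⟩, -⟩ := hA
    obtain ⟨⟨Γ₂, _, _, σ₂, hσ₂, ⟨e₂⟩⟩, -⟩ := hB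
    have : Finite (TensorProduct ℤ (Additive (Abelianization Q₁))
        (Additive (Abelianization Q₂))) := finite_tensorProduct_int _ _
    refine ⟨BiExt (pairing σ₁ σ₂), inferInstance, inferInstance, bigσ σ₁ σ₂,
      bigσ_stem σ₁ σ₂ hσ₁ hσ₂, ⟨?_⟩⟩
    exact (bigKerEquiv σ₁ σ₂).trans (MulEquiv.prodCongr e₁ (MulEquiv.prodCongr e₂
      (MulEquiv.refl _)))
  · intro Γ _ _ σ hσ
    exact part2 hA hB σ hσ

end Cfsg.Agent.S3959
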