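import Cfsg.Statements.S3960
import Cfsg.Agent.Helper65.Hopf

set_option autoImplicit false
universe u
open Cfsg

namespace Cfsg.Agent.S3960

open Cfsg.Agent.Helper65

/-- A finite perfect group `Q` has a universal central extension: a finite perfect group `G` in the universe of `Q` and a surjective homomorphism `π : G →* Q` with central kernel such that for every group `X` in that universe and every surjective homomorphism `ξ : X →* Q` with central kernel there is exactly one homomorphism `η : G →* X` with `ξ ∘ η = π`. -/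
theorem result {Q : Type u} [Group Q] [Finite Q] (hQ : Group.IsPerfect Q) : ∃ (G : Type u) (_ : Group G) (_ : Finite G) (π : G →* Q), Group.IsPerfect G ∧ Function.Surjective π ∧ π.ker ≤ Subgroup.center G ∧ ∀ (X : Type u) [Group X] (ξ : X →* Q), Function.Surjective ξ → ξ.ker ≤ Subgroup.center X → ∃! η : G →* X, ξ.comp η = π := by
  have hQp : commutator Q = ⊤ := Group.isPerfect_def.mp hQ
  let φ : FreeGroup Q →* Q := FreeGroup.lift id
  have hφ : Function.Surjective φ := fun q => ⟨FreeGroup.of q, by simp [φ]⟩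
  let D : Subgroup (HopfE φ) := commutator (HopfE φ)
  let π : D →* Q := (hopfBar φ).comp D.subtype
  have hfin : Finite D := finite_commutator_hopfE φ
  -- every value of hopfBar is attained on the commutator subgroup
  have hsurj : ∀ g : HopfE φ, ∃ d ∈ commutator (HopfE φ), hopfBar φ d = hopfBar φ g := by
    intro g
    have hg : hopfBar φ g ∈ (commutator (HopfE φ)).map (hopfBar φ) := by
      rw [map_commutator_eq, MonoidHom.range_eq_top.mpr (hopfBar_surjective φ hφ), ← commutator_def,
        hQp]
      trivial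
    obtain ⟨d, hd, hdg⟩ := hg
    exact ⟨d, hd, hdg⟩
  have hDp : commutator D = ⊤ :=
    commutator_commutator_eq_top_of_central (hopfBar φ) (hopfBar_ker_le_center φ) hsurj
  have hπs : Function.Surjective π := by
    intro q
    obtain ⟨g, rfl⟩ := hopfBar_surjective φ hφ q
    obtain ⟨d, hd, hdg⟩ := hsurj g
    exact ⟨⟨d, hd⟩, hdg⟩
  have hπc : π.ker ≤ Subgroup.center D := by
    intro d hd
    rw [Subgroup.mem_center_iff]
    intro e
    have : (d : HopfE φ) ∈ (hopfBar φ).ker := hd
    exact Subtype.ext (Subgroup.mem_center_iff.mp (hopfBar_ker_le_center φ this) (e : HopfE φ))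
  refine ⟨D, inferInstance, hfin, π, Group.isPerfect_def.mpr hDp, hπs, hπc, ?_⟩
  intro X _ ξ hξ hξc
  obtain ⟨ψ, hψ⟩ := exists_hopf_lift φ ξ hξ hξc
  have hψ' : ∀ x, ξ (ψ x) = hopfBar φ x := fun x => congrArg (fun f => f x) hψ
  refine ⟨ψ.comp D.subtype, ?_, ?_⟩
  · apply MonoidHom.ext
    intro d
    exact hψ' d
  · intro η' hη'
    have hη'' : ∀ d : D, ξ (η' d) = hopfBar φ (d : HopfE φ) := fun d => congrArg (fun f => f d) hη'
    have hcen : ∀ d : D, η' d * (ψ (d : HopfE φ))⁻¹ ∈ Subgroup.center X := by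
      intro d
      apply hξc
      rw [MonoidHom.mem_ker, map_mul, map_inv, hη'', hψ', mul_inv_cancel]
    apply MonoidHom.ext
    intro d
    have hd := eq_one_of_perfect_of_central hDp (fun d : D => η' d * (ψ (d : HopfE φ))⁻¹) ?_ ?_ d
    · exact mul_inv_eq_one.mp hd
    · intro a b
      have hb' := Subgroup.mem_center_iff.mp (hcen b) (ψ (a : HopfE φ))⁻¹
      simp only [map_mul, Subgroup.coe_mul]
      calc η' a * η' b * (ψ (a : HopfE φ) * ψ (b : HopfE φ))⁻¹
          = η' a * ((η' b * (ψ (b : HopfE φ))⁻¹) * (ψ (a : HopfE φ))⁻¹) := by group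
        _ = η' a * ((ψ (a : HopfE φ))⁻¹ * (η' b * (ψ (b : HopfE φ))⁻¹)) := by rw [hb']
        _ = η' a * (ψ (a : HopfE φ))⁻¹ * (η' b * (ψ (b : HopfE φ))⁻¹) := by group
    · intro a b
      exact (Subgroup.mem_center_iff.mp (hcen a) _).symm

end Cfsg.Agent.S3960
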