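import Cfsg.Statements.S3961
import Cfsg.Agent.Helper65.Central

set_option autoImplicit false
universe u v
open Cfsg

namespace Cfsg.Agent.S3961

open Cfsg.Agent.Helper65
open scoped commutatorElement

/-- Let `π : G →* Q` be a surjective homomorphism with central kernel from a finite perfect group `G` (a perfect cover of `Q`). Then `π` is universal, in the sense that every surjective homomorphism `ξ : X →* Q` with central kernel from a group `X` in the universe of `G` admits a homomorphism `η : G →* X` with `ξ ∘ η = π`, if and only if `G` has trivial Schur multiplier. -/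
theorem result {G : Type u} {Q : Type v} [Group G] [Group Q] [Finite G] (hG : Group.IsPerfect G) (π : G →* Q) (hπ : Function.Surjective π) (hker : π.ker ≤ Subgroup.center G) : (∀ (X : Type u) [Group X] (ξ : X →* Q), Function.Surjective ξ → ξ.ker ≤ Subgroup.center X → ∃ η : G →* X, ξ.comp η = π) ↔ Cfsg.HasCyclicSchurMultiplier G 1 := by
  have hGp : commutator G = ⊤ := Group.isPerfect_def.mp hG
  constructor
  · intro huniv
    refine ⟨⟨G, inferInstance, inferInstance, MonoidHom.id G, ⟨Function.surjective_id, ?_, ?_⟩, ?_⟩, ?_⟩
    · rw [MonoidHom.ker_id]; exact bot_le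
    · rw [MonoidHom.ker_id]; exact bot_le
    · have : Unique (MonoidHom.id G).ker := by
        rw [MonoidHom.ker_id]; infer_instance
      exact ⟨MulEquiv.ofUnique⟩
    · intro Γ _ _ σ hσ
      obtain ⟨hσs, hσc, hσd⟩ := hσ
      -- Γ is perfect
      have hΓp : commutator Γ = ⊤ := by
        rw [eq_top_iff]
        intro x _
        have hx : σ x ∈ (commutator Γ).map σ := by
          rw [map_commutator_eq, MonoidHom.range_eq_top.mpr hσs, ← commutator_def, hGp]
          trivial
        obtain ⟨c, hc, hcx⟩ := hx
        have : x * c⁻¹ ∈ σ.ker := by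
          rw [MonoidHom.mem_ker, map_mul, map_inv, hcx, mul_inv_cancel]
        have h2 := (commutator Γ).mul_mem (hσd this) hc
        simpa using h2
      -- the kernel of π ∘ σ is central
      have hcen : (π.comp σ).ker ≤ Subgroup.center Γ := by
        intro x hx
        apply mem_center_of_perfect hΓp
        intro g
        apply hσc
        rw [MonoidHom.mem_ker]
        have hσx : σ x ∈ Subgroup.center G := hker hx
        simp only [map_mul, map_inv]
        rw [← (Subgroup.mem_center_iff.mp hσx) (σ g)]
        group
      obtain ⟨η, hη⟩ := huniv Γ (π.comp σ) (hπ.comp hσs) hcen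
      have hη' : ∀ g : G, π (σ (η g)) = π g := fun g => congrArg (fun f => f g) hη
      -- σ ∘ η = id
      have hcenG : ∀ g : G, σ (η g) * g⁻¹ ∈ Subgroup.center G := by
        intro g
        apply hker
        rw [MonoidHom.mem_ker, map_mul, map_inv, hη', mul_inv_cancel]
      have hση : ∀ g : G, σ (η g) = g := by
        intro g
        have hd := eq_one_of_perfect_of_central hGp (fun g => σ (η g) * g⁻¹) ?_ ?_ g
        · exact mul_inv_eq_one.mp hd
        · intro a b
          have hb' := Subgroup.mem_center_iff.mp (hcenG b) a⁻¹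
          simp only [map_mul]
          calc σ (η a) * σ (η b) * (a * b)⁻¹ = σ (η a) * ((σ (η b) * b⁻¹) * a⁻¹) := by group
            _ = σ (η a) * (a⁻¹ * (σ (η b) * b⁻¹)) := by rw [hb']
            _ = σ (η a) * a⁻¹ * (σ (η b) * b⁻¹) := by group
        · intro a b
          exact (Subgroup.mem_center_iff.mp (hcenG a) _).symm
      -- η ∘ σ = id
      have hcenΓ : ∀ x : Γ, x * (η (σ x))⁻¹ ∈ Subgroup.center Γ := by
        intro x
        apply hσc
        rw [MonoidHom.mem_ker, map_mul, map_inv, hση, mul_inv_cancel]
      have hησ : ∀ x : Γ, η (σ x) = x := by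
        intro x
        have hd := eq_one_of_perfect_of_central hΓp (fun x => x * (η (σ x))⁻¹) ?_ ?_ x
        · exact (mul_inv_eq_one.mp hd).symm
        · intro a b
          have hb' := Subgroup.mem_center_iff.mp (hcenΓ b) (η (σ a))⁻¹
          simp only [map_mul]
          calc a * b * (η (σ a) * η (σ b))⁻¹ = a * ((b * (η (σ b))⁻¹) * (η (σ a))⁻¹) := by group
            _ = a * ((η (σ a))⁻¹ * (b * (η (σ b))⁻¹)) := by rw [hb']
            _ = a * (η (σ a))⁻¹ * (b * (η (σ b))⁻¹) := by group
        · intro a b
          exact (Subgroup.mem_center_iff.mp (hcenΓ a) _).symm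
      have hkt : ∀ k : σ.ker, k = 1 := by
        rintro ⟨k, hk⟩
        apply Subtype.ext
        have := hησ k
        rw [MonoidHom.mem_ker.mp hk, map_one] at this
        exact this.symm
      refine ⟨1, fun k => ⟨1, ?_⟩⟩
      rw [hkt k]; rfl
  · intro hM X _ ξ hξ hξc
    obtain ⟨-, hM2⟩ := hM
    -- the pullback
    let P₀ : Subgroup (G × X) := (π.comp (MonoidHom.fst G X)).eqLocus (ξ.comp (MonoidHom.snd G X))
    let pr₁ : P₀ →* G := (MonoidHom.fst G X).comp P₀.subtype
    let pr₂ : P₀ →* X := (MonoidHom.snd G X).comp P₀.subtype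
    have hpr : ∀ y : P₀, π (pr₁ y) = ξ (pr₂ y) := fun y => y.2
    have hpr₁s : Function.Surjective pr₁ := by
      intro g
      obtain ⟨x, hx⟩ := hξ (π g)
      exact ⟨⟨(g, x), hx.symm⟩, rfl⟩
    have hkc : pr₁.ker ≤ Subgroup.center P₀ := by
      intro y hy
      rw [Subgroup.mem_center_iff]
      intro z
      have hy1 : (y : G × X).1 = 1 := hy
      have hx : (y : G × X).2 ∈ ξ.ker := by
        rw [MonoidHom.mem_ker]
        have h3 := hpr y
        have h4 : pr₁ y = 1 := hy
        rw [h4, map_one] at h3
        exact h3.symm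
      have hxc := Subgroup.mem_center_iff.mp (hξc hx) (z : G × X).2
      apply Subtype.ext
      apply Prod.ext
      · simp [hy1]
      · simpa using hxc
    let D : Subgroup P₀ := commutator P₀
    have hDfin : Finite D := finite_commutator_of_central_ker pr₁ hkc
    let τ : D →* G := pr₁.comp D.subtype
    have hτs : Function.Surjective τ := by
      intro g
      have hg : g ∈ (commutator P₀).map pr₁ := by
        rw [map_commutator_eq, MonoidHom.range_eq_top.mpr hpr₁s, ← commutator_def, hGp]
        trivial
      obtain ⟨d, hd, hdg⟩ := hg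
      exact ⟨⟨d, hd⟩, hdg⟩
    have hτc : τ.ker ≤ Subgroup.center D := by
      intro d hd
      rw [Subgroup.mem_center_iff]
      intro e
      have : (d : P₀) ∈ pr₁.ker := hd
      have h2 := Subgroup.mem_center_iff.mp (hkc this) (e : P₀)
      exact Subtype.ext h2
    -- D is perfect
    have hDp : commutator D = ⊤ := by
      have hle : commutator P₀ ≤ (commutator D).map D.subtype := by
        rw [commutator_def, Subgroup.commutator_le]
        intro a _ b _
        obtain ⟨a', ha'⟩ := hτs (pr₁ a)
        obtain ⟨b', hb'⟩ := hτs (pr₁ b)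
        have hza : (a' : P₀)⁻¹ * a ∈ Subgroup.center P₀ := by
          apply hkc
          rw [MonoidHom.mem_ker, map_mul, map_inv]
          have : pr₁ (a' : P₀) = pr₁ a := ha'
          rw [this, inv_mul_cancel]
        have hzb : (b' : P₀)⁻¹ * b ∈ Subgroup.center P₀ := by
          apply hkc
          rw [MonoidHom.mem_ker, map_mul, map_inv]
          have : pr₁ (b' : P₀) = pr₁ b := hb'
          rw [this, inv_mul_cancel]
        refine ⟨⁅a', b'⁆, ?_, ?_⟩
        · exact Subgroup.commutator_mem_commutator (Subgroup.mem_top _) (Subgroup.mem_top _)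
        · rw [commutatorElement_eq_of_central hza hzb]
          simp [commutatorElement_def]
      rw [eq_top_iff]
      intro d _
      obtain ⟨e, he, hed⟩ := hle d.2
      have : e = d := Subtype.ext hed
      rw [← this]; exact he
    have hτd : τ.ker ≤ commutator D := by rw [hDp]; exact le_top
    obtain ⟨f, hf⟩ := hM2 D τ ⟨hτs, hτc, hτd⟩
    have hτi : Function.Injective τ := by
      rw [← MonoidHom.ker_eq_bot_iff, eq_bot_iff]
      intro d hd
      obtain ⟨z, hz⟩ := hf ⟨d, hd⟩
      have : z = 1 := Subsingleton.elim _ _
      rw [this, map_one] at hz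
      have := congrArg Subtype.val hz
      simpa using this.symm
    let e : D ≃* G := MulEquiv.ofBijective τ ⟨hτi, hτs⟩
    refine ⟨(pr₂.comp D.subtype).comp e.symm.toMonoidHom, ?_⟩
    ext g
    have h1 := hpr ((e.symm g : D) : P₀)
    have h2 : pr₁ ((e.symm g : D) : P₀) = g := e.apply_symm_apply g
    rw [h2] at h1
    exact h1.symm

end Cfsg.Agent.S3961
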