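import Cfsg.Statements.S3962

set_option autoImplicit false
open Cfsg

namespace Cfsg.Agent.S3962

/-- Let `G` be a perfect group and `π : G →* Q` a surjective homomorphism whose kernel is central. Then `π` maps the centre of `G` onto the centre of `Q`. Taking `π` to be the map to `G ⧸ Z(G)` shows that the central quotient of a perfect group has trivial centre. -/
theorem result {G Q : Type*} [Group G] [Group Q] (hG : Group.IsPerfect G) (π : G →* Q) (hπ : Function.Surjective π) (hker : π.ker ≤ Subgroup.center G) : (Subgroup.center G).map π = Subgroup.center Q := by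
  apply le_antisymm
  · rintro _ ⟨z, hz, rfl⟩
    rw [Subgroup.mem_center_iff]
    intro q
    obtain ⟨g, rfl⟩ := hπ q
    rw [← map_mul, ← map_mul, (Subgroup.mem_center_iff.mp hz) g]
  · intro q hq
    obtain ⟨g, rfl⟩ := hπ q
    refine ⟨g, ?_, rfl⟩
    -- the map h ↦ g * h * g⁻¹ * h⁻¹ is a homomorphism into the centre
    have hcomm : ∀ h : G, g * h * g⁻¹ * h⁻¹ ∈ Subgroup.center G := by
      intro h
      apply hker
      rw [MonoidHom.mem_ker]
      have := (Subgroup.mem_center_iff.mp hq) (π h)
      simp only [map_mul, map_inv]
      rw [← this]
      group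
    let f : G →* G :=
      { toFun := fun h => g * h * g⁻¹ * h⁻¹
        map_one' := by group
        map_mul' := by
          intro a b
          have hb := Subgroup.mem_center_iff.mp (hcomm b) a⁻¹
          have : g * (a * b) * g⁻¹ * (a * b)⁻¹ = g * a * g⁻¹ * ((g * b * g⁻¹ * b⁻¹) * a⁻¹) := by group
          rw [this, ← hb]
          group }
    have hf : ∀ h, f h = g * h * g⁻¹ * h⁻¹ := fun _ => rfl
    -- f kills commutators since its image is commutative
    have hfc : ∀ a b : G, f a * f b = f b * f a := by
      intro a b
      exact (Subgroup.mem_center_iff.mp (hcomm a) (f b)).symm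
    have hker' : commutator G ≤ f.ker := by
      rw [commutator_def, Subgroup.commutator_le]
      intro a _ b _
      rw [MonoidHom.mem_ker, commutatorElement_def]
      simp only [map_mul, map_inv]
      rw [hfc a b]
      group
    have htop : f.ker = ⊤ := by
      rw [Group.isPerfect_def] at hG
      rw [hG] at hker'
      exact top_le_iff.mp hker'
    show g ∈ Subgroup.center G
    rw [Subgroup.mem_center_iff]
    intro h
    have h1 : f h = 1 := by
      have : h ∈ f.ker := by rw [htop]; trivial
      exact this
    rw [hf] at h1
    have : g * h = h * g := by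
      have h2 : g * h * g⁻¹ * h⁻¹ * h * g = 1 * h * g := by rw [h1]
      simpa using h2
    exact this.symm

end Cfsg.Agent.S3962
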