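import Cfsg.Statements.S3963
import Cfsg.Agent.Helper66.Dihedral

set_option autoImplicit false
open Cfsg

namespace Cfsg.Agent.S3963

/-- For every `n ≥ 1` the dicyclic (generalized quaternion) group of order `4 n` has trivial Schur multiplier. -/
theorem result (n : ℕ) [NeZero n] : Cfsg.HasCyclicSchurMultiplier (QuaternionGroup n) 1 := by
  apply Cfsg.Agent.Helper66.hasCyclicSchurMultiplier_one_of_forall_ker
  intro Γ _ _ σ hσ
  open QuaternionGroup in
  refine Cfsg.Agent.Helper66.stem_dihedral_like_ker_eq_bot σ hσ (a 1) (xa 0) ?_ ?_ n ?_ ?_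
  · rw [eq_top_iff]
    rintro (i | i) -
    · have : a i = (a 1 : QuaternionGroup n) ^ i.val := by
        rw [a_one_pow, ZMod.natCast_zmod_val]
      rw [this]
      exact pow_mem (Subgroup.subset_closure (by simp)) _
    · have : xa i = xa 0 * (a 1 : QuaternionGroup n) ^ i.val := by
        rw [a_one_pow, ZMod.natCast_zmod_val, xa_mul_a, zero_add]
      rw [this]
      exact mul_mem (Subgroup.subset_closure (by simp))
        (pow_mem (Subgroup.subset_closure (by simp)) _)
  · simp
  · right
    rw [a_one_pow, xa_sq]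
  · rw [orderOf_pow' _ two_ne_zero, orderOf_a_one, Nat.gcd_eq_right (dvd_mul_right 2 n),
      Nat.mul_div_cancel_left n (by norm_num : 0 < 2)]

end Cfsg.Agent.S3963
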