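import Cfsg.Statements.S3964
import Cfsg.Agent.Helper66.Dihedral

set_option autoImplicit false
open Cfsg

namespace Cfsg.Agent.S3964

/-- For odd `n` the dihedral group of order `2 n` has trivial Schur multiplier. -/
theorem result (n : ℕ) (hn : Odd n) : Cfsg.HasCyclicSchurMultiplier (DihedralGroup n) 1 := by
  have hn0 : NeZero n := ⟨by rintro rfl; simp at hn⟩
  apply Cfsg.Agent.Helper66.hasCyclicSchurMultiplier_one_of_forall_ker
  intro Γ _ _ σ hσ
  open DihedralGroup in
  refine Cfsg.Agent.Helper66.stem_dihedral_like_ker_eq_bot σ hσ (r 1) (sr 0) ?_ ?_ n ?_ ?_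
  · rw [eq_top_iff]
    rintro (i | i) -
    · have : r i = (r 1 : DihedralGroup n) ^ i.val := by
        rw [r_one_pow, ZMod.natCast_zmod_val]
      rw [this]
      exact pow_mem (Subgroup.subset_closure (by simp)) _
    · have : sr i = sr 0 * (r 1 : DihedralGroup n) ^ i.val := by
        rw [r_one_pow, ZMod.natCast_zmod_val, sr_mul_r, zero_add]
      rw [this]
      exact mul_mem (Subgroup.subset_closure (by simp))
        (pow_mem (Subgroup.subset_closure (by simp)) _)
  · simp
  · left
    exact r_one_pow_n
  · rw [orderOf_pow' _ two_ne_zero, orderOf_r_one, Nat.Coprime.gcd_eq_one (Nat.Coprime.symm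
      (Nat.coprime_two_left.mpr hn)), Nat.div_one]

end Cfsg.Agent.S3964
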