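import Cfsg.Statements.S3965
import Cfsg.Agent.Helper66.QuatDih

set_option autoImplicit false
open Cfsg

namespace Cfsg.Agent.S3965

/-- For even `n ≥ 2` the dihedral group of order `2 n` has Schur multiplier cyclic of order `2`. -/
theorem result (n : ℕ) [NeZero n] (hn : Even n) : Cfsg.HasCyclicSchurMultiplier (DihedralGroup n) 2 := by
  refine ⟨⟨QuaternionGroup n, inferInstance, inferInstance, Cfsg.Agent.Helper66.quatToDih n,
    Cfsg.Agent.Helper66.quatToDih_isStemExtension n hn,
    Cfsg.Agent.Helper66.nonempty_mulEquiv_zmod_two (Cfsg.Agent.Helper66.quatToDih_card_ker n)⟩, ?_⟩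
  intro Γ _ _ σ hσ
  apply Cfsg.Agent.Helper66.exists_surjective_zmod_two
  open DihedralGroup in
  refine Cfsg.Agent.Helper66.stem_dihedral_like_card_ker_le σ hσ (r 1) (sr 0)
    (Cfsg.Agent.Helper66.dihedral_closure_eq_top n) ?_ n ?_ ?_
  · simp
  · left
    exact r_one_pow_n
  · obtain ⟨m, hm⟩ := hn
    have hm0 : 0 < m := by
      have := NeZero.pos n
      omega
    rw [orderOf_pow' _ two_ne_zero, orderOf_r_one]
    have h1 : n = 2 * m := by omega
    rw [h1, Nat.gcd_eq_right (dvd_mul_right 2 m), Nat.mul_div_cancel_left m (by norm_num : 0 < 2)]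

end Cfsg.Agent.S3965
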