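import Cfsg.Statements.S3967
import Cfsg.Agent.Helper65.Metacyclic
import Cfsg.Agent.Helper65.Hopf2
import Cfsg.Agent.S3951

set_option autoImplicit false
open Cfsg

namespace Cfsg.Agent.S3967

open Cfsg.Agent.Helper65

open scoped commutatorElement

/-- The geometric sum identity in the natural numbers. -/
theorem geom (r n : ℕ) (hr : 0 < r) : r ^ n = 1 + (r - 1) * ∑ i ∈ Finset.range n, r ^ i := by
  induction n with
  | zero => simp
  | succ n ih =>
    rw [Finset.sum_range_succ, mul_add, ← add_assoc, ← ih, pow_succ]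
    obtain ⟨s, rfl⟩ : ∃ s, r = s + 1 := ⟨r - 1, by omega⟩
    simp only [Nat.add_sub_cancel]
    ring

theorem dvd_gcd_mul_gcd (m a b : ℕ) (h : m ∣ a * b) : m ∣ Nat.gcd m a * Nat.gcd m b := by
  rw [← Nat.gcd_mul_right]
  apply Nat.dvd_gcd
  · exact Dvd.intro _ rfl
  · rw [← Nat.gcd_mul_left]
    exact Nat.dvd_gcd (Dvd.intro_left _ rfl) h

/-- The arithmetic of the parameters of the cover. -/
theorem cover_param (m n r l : ℕ) (hm : 0 < m) (hr : 0 < r) (hrn : r ^ n ≡ 1 [MOD m])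
    (d S e h g m' : ℕ) (hd : d = Nat.gcd m (r - 1)) (hS : S = ∑ i ∈ Finset.range n, r ^ i)
    (he : e = Nat.gcd m S) (hh : h = d * e / m) (hg : g = Nat.gcd l h) (hm' : m' = m / d) :
    0 < g ∧ m = d * m' ∧ m * l / d = m' * l ∧ m' * h = e ∧ Nat.Coprime m' ((r - 1) / d) ∧
    ∃ j u : ℕ, (r + j * m) ^ n ≡ 1 [MOD m * g] ∧ (r + j * m) * (m' * l) ≡ m' * l [MOD m * g] ∧
      (r + j * m) * m ≡ m [MOD m * g] ∧ (r + j * m - 1) * u ≡ m [MOD m * g] := by
  have hdm : d ∣ m := hd ▸ Nat.gcd_dvd_left _ _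
  have hdr : d ∣ r - 1 := hd ▸ Nat.gcd_dvd_right _ _
  have hdpos : 0 < d := hd ▸ Nat.gcd_pos_of_pos_left _ hm
  have hmm' : m = d * m' := by rw [hm', Nat.mul_div_cancel' hdm]
  have hcop0 : Nat.Coprime m' ((r - 1) / d) := by
    have := Nat.coprime_div_gcd_div_gcd (m := m) (n := r - 1) (hd ▸ hdpos)
    rw [← hd] at this; rwa [← hm'] at this
  obtain ⟨r', hr'⟩ := hdr
  have hcop : Nat.Coprime m' r' := by
    rwa [hr', Nat.mul_div_cancel_left _ hdpos] at hcop0
  have hgeo := geom r n hr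
  have hmS : m ∣ (r - 1) * S := by
    have h1 : m ∣ r ^ n - 1 := (Nat.modEq_iff_dvd' (Nat.one_le_pow _ _ hr)).mp hrn.symm
    rw [hS]; rwa [hgeo, Nat.add_sub_cancel_left] at h1
  have hmde : m ∣ d * e := by rw [hd, he]; exact dvd_gcd_mul_gcd m (r - 1) S hmS
  have hmh : m * h = d * e := by rw [hh, Nat.mul_div_cancel' hmde]
  have hem : e ∣ m := he ▸ Nat.gcd_dvd_left _ _
  have heS : e ∣ S := he ▸ Nat.gcd_dvd_right _ _
  have hepos : 0 < e := he ▸ Nat.gcd_pos_of_pos_left _ hm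
  have hhpos : 0 < h := by
    rcases Nat.eq_zero_or_pos h with h0 | h0
    · rw [h0, mul_zero] at hmh; have := Nat.mul_pos hdpos hepos; omega
    · exact h0
  have hgpos : 0 < g := hg ▸ Nat.gcd_pos_of_pos_right _ hhpos
  have hgl : g ∣ l := hg ▸ Nat.gcd_dvd_left _ _
  have hgh : g ∣ h := hg ▸ Nat.gcd_dvd_right _ _
  have hm'h : m' * h = e := by
    apply Nat.eq_of_mul_eq_mul_left hdpos
    rw [← mul_assoc, ← hmm', hmh]
  have hm'pos : 0 < m' := by
    rcases Nat.eq_zero_or_pos m' with h0 | h0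
    · rw [h0, mul_zero] at hmm'; omega
    · exact h0
  have ht : m * l / d = m' * l := by rw [hmm', mul_assoc, Nat.mul_div_cancel_left _ hdpos]
  have hhd : h ∣ d := by
    obtain ⟨e', he'⟩ := hem
    refine ⟨e', ?_⟩
    apply Nat.eq_of_mul_eq_mul_left hepos
    calc e * d = d * e := mul_comm _ _
      _ = m * h := hmh.symm
      _ = e * e' * h := by rw [he']
      _ = e * (h * e') := by ring
  have hgd : g ∣ d := hgh.trans hhd
  refine ⟨hgpos, hmm', ht, hm'h, hcop0, ?_⟩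
  have : NeZero (m' * g) := ⟨(Nat.mul_pos hm'pos hgpos).ne'⟩
  obtain ⟨v, hv⟩ := ZMod.unitsMap_surjective (Dvd.intro g rfl : m' ∣ m' * g)
    (ZMod.unitOfCoprime r' hcop.symm)
  obtain ⟨q₀, hq₀⟩ : ∃ q₀ : ℕ, q₀ = (v : ZMod (m' * g)).val := ⟨_, rfl⟩
  have hq₀cop : Nat.Coprime q₀ (m' * g) := hq₀ ▸ ZMod.val_coe_unit_coprime v
  have hq₀mod : q₀ ≡ r' [MOD m'] := by
    rw [← ZMod.natCast_eq_natCast_iff]
    have h1 := congrArg (fun x : (ZMod m')ˣ => (x : ZMod m')) hv
    simp only [ZMod.unitsMap_def, Units.coe_map, ZMod.coe_unitOfCoprime] at h1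
    rw [← h1, hq₀]
    rw [ZMod.natCast_val]; rfl
  obtain ⟨q, hq⟩ : ∃ q : ℕ, q = q₀ + r' * (m' * g) := ⟨_, rfl⟩
  have hqcop : Nat.Coprime q (m' * g) := by
    rw [hq]; exact (Nat.coprime_add_mul_right_left q₀ (m' * g) r').mpr hq₀cop
  have hqmod : q ≡ r' [MOD m'] := by
    rw [hq]
    have h1 : r' * (m' * g) ≡ 0 [MOD m'] :=
      Nat.modEq_zero_iff_dvd.mpr (Dvd.intro_left (r' * g) (by ring))
    simpa using hq₀mod.add h1
  have hqge : r' ≤ q := by
    rw [hq]
    have : r' * 1 ≤ r' * (m' * g) := Nat.mul_le_mul_left _ (Nat.mul_pos hm'pos hgpos)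
    omega
  obtain ⟨j, hj⟩ := (Nat.modEq_iff_dvd' hqge).mp hqmod.symm
  have hqj : q = r' + m' * j := by omega
  have hr1 : r = 1 + d * r' := by omega
  have hR1 : r + j * m = 1 + d * q := by
    rw [hqj, hr1, hmm']; ring
  have hR1' : r + j * m - 1 = d * q := by omega
  refine ⟨j, (((q : ZMod (m' * g))⁻¹ * (m' : ZMod (m' * g)) : ZMod (m' * g))).val, ?_, ?_, ?_, ?_⟩
  · have hgeoR := geom (r + j * m) n (by omega)
    have heSR : e ∣ ∑ i ∈ Finset.range n, (r + j * m) ^ i := by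
      rw [← ZMod.natCast_eq_zero_iff]
      have hm0 : (m : ZMod e) = 0 := (ZMod.natCast_eq_zero_iff m e).mpr hem
      have hS0 : (S : ZMod e) = 0 := (ZMod.natCast_eq_zero_iff S e).mpr heS
      rw [hS] at hS0
      push_cast at hS0 ⊢
      rw [hm0, mul_zero, add_zero]
      exact hS0
    obtain ⟨s', hs'⟩ := heSR
    obtain ⟨g', hg'⟩ := hgh
    rw [hgeoR, hR1', hs']
    have h1 : d * q * (e * s') ≡ 0 [MOD m * g] := by
      apply Nat.modEq_zero_iff_dvd.mpr
      refine ⟨g' * q * s', ?_⟩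
      calc d * q * (e * s') = (d * e) * (q * s') := by ring
        _ = m * h * (q * s') := by rw [hmh]
        _ = m * g * (g' * q * s') := by rw [hg']; ring
    simpa using h1.add_left 1
  · obtain ⟨l', hl'⟩ := hgl
    have h1 : d * q * (m' * l) ≡ 0 [MOD m * g] := by
      apply Nat.modEq_zero_iff_dvd.mpr
      refine ⟨q * l', ?_⟩
      rw [hl', hmm']; ring
    have h2 : (r + j * m) * (m' * l) = m' * l + d * q * (m' * l) := by rw [hR1]; ring
    rw [h2]
    simpa using h1.add_left (m' * l)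
  · obtain ⟨d', hd'⟩ := hgd
    have h1 : d * q * m ≡ 0 [MOD m * g] := by
      apply Nat.modEq_zero_iff_dvd.mpr
      refine ⟨d' * q, ?_⟩
      calc d * q * m = m * d * q := by ring
        _ = m * (g * d') * q := by rw [← hd']
        _ = m * g * (d' * q) := by ring
    have h2 : (r + j * m) * m = m + d * q * m := by rw [hR1]; ring
    rw [h2]
    simpa using h1.add_left m
  · rw [hR1']
    have h1 : q * (((q : ZMod (m' * g))⁻¹ * (m' : ZMod (m' * g)) : ZMod (m' * g))).val ≡ m'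
        [MOD m' * g] := by
      rw [← ZMod.natCast_eq_natCast_iff]
      push_cast
      rw [ZMod.natCast_zmod_val, ← mul_assoc, ZMod.coe_mul_inv_eq_one q hqcop, one_mul]
    have h2 := Nat.ModEq.mul_left' d h1
    rw [← mul_assoc, ← mul_assoc, ← hmm'] at h2
    exact h2

theorem pow_mul_inv_self {Γ : Type*} [Group Γ] (c : Γ) (r : ℕ) (hr : 0 < r) :
    c ^ r * c⁻¹ = c ^ (r - 1) := by
  obtain ⟨s, rfl⟩ : ∃ s, r = s + 1 := ⟨r - 1, by omega⟩
  rw [pow_succ, mul_inv_cancel_right, Nat.add_sub_cancel]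

/-- Powers with congruent exponents agree on an element killed by the modulus. -/
theorem pow_eq_of_modEq {Γ : Type*} [Group Γ] (c : Γ) (M a b : ℕ) (hc : c ^ M = 1)
    (hab : a ≡ b [MOD M]) : c ^ a = c ^ b :=
  pow_eq_pow_iff_modEq.mpr (Nat.ModEq.of_dvd (orderOf_dvd_of_pow_eq_one hc) hab)

/-- In a stem extension of a group generated by `a`, `b` with `a ^ m = 1`, `b ^ n = a ^ t`,
`b a b⁻¹ = a ^ r`, the kernel lies in a cyclic subgroup `⟨c⟩` with `c ^ m = c ^ t = c ^ S = 1`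
(`S = 1 + r + ⋯ + r ^ (n - 1)`), and `c` lies over `a ^ (r - 1)`. -/
theorem exists_zpowers_of_stem {G Γ : Type*} [Group G] [Group Γ] (a b : G) (m n r t : ℕ)
    (hn : 0 < n) (hr : 0 < r) (hrn : r ^ n ≡ 1 [MOD m])
    (hgen : Subgroup.closure ({a, b} : Set G) = ⊤) (ham : a ^ m = 1) (hb : b ^ n = a ^ t)
    (hab : b * a * b⁻¹ = a ^ r) (σ : Γ →* G) (hσ : Cfsg.IsStemExtension σ) :
    ∃ c : Γ, σ.ker ≤ Subgroup.zpowers c ∧ c ^ m = 1 ∧ c ^ t = 1 ∧
      c ^ (∑ i ∈ Finset.range n, r ^ i) = 1 ∧ σ c = a ^ (r - 1) := by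
  obtain ⟨hσs, hσc, hσd⟩ := hσ
  obtain ⟨α, hα⟩ := hσs a
  obtain ⟨β, hβ⟩ := hσs b
  have hcen : ∀ z ∈ σ.ker, ∀ x : Γ, Commute z x := fun z hz x =>
    (Subgroup.mem_center_iff.mp (hσc hz) x).symm
  have hsup : ∀ T : Subgroup Γ, α ∈ T → β ∈ T → σ.ker ≤ T → T = ⊤ := by
    intro T hx' hy' hk'
    rw [eq_top_iff]
    intro c _
    have hc : σ c ∈ Subgroup.closure ({a, b} : Set G) := by rw [hgen]; trivial
    have himg : Subgroup.closure ({a, b} : Set G) =
        (Subgroup.closure ({α, β} : Set Γ)).map σ := by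
      rw [MonoidHom.map_closure, Set.image_pair, hα, hβ]
    rw [himg] at hc
    obtain ⟨w, hw, hwc⟩ := hc
    have hwT : w ∈ T := by
      have hle : Subgroup.closure ({α, β} : Set Γ) ≤ T := by
        rw [Subgroup.closure_le]
        intro t ht
        rcases ht with rfl | rfl
        · exact hx'
        · exact hy'
      exact hle hw
    have hk : w⁻¹ * c ∈ σ.ker := by
      rw [MonoidHom.mem_ker, map_mul, map_inv, hwc, inv_mul_cancel]
    have : c = w * (w⁻¹ * c) := by group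
    rw [this]
    exact T.mul_mem hwT (hk' hk)
  have hr1 : r = (r - 1) + 1 := by omega
  -- the central correction term
  obtain ⟨z₁, hz₁def⟩ : ∃ z₁ : Γ, z₁ = β * α * β⁻¹ * (α ^ r)⁻¹ := ⟨_, rfl⟩
  have hz₁ : z₁ ∈ σ.ker := by
    rw [MonoidHom.mem_ker, hz₁def]
    simp only [map_mul, map_inv, map_pow, hα, hβ, hab, mul_inv_cancel]
  have hz₁c : ∀ x : Γ, Commute z₁ x := hcen z₁ hz₁
  have hconj : β * α * β⁻¹ = z₁ * α ^ r := by rw [hz₁def]; group
  have hconjk : ∀ k : ℕ, β * α ^ k * β⁻¹ = z₁ ^ k * α ^ (r * k) := by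
    intro k
    rw [← conj_pow, hconj, (hz₁c (α ^ r)).mul_pow, ← pow_mul]
  obtain ⟨c, hcdef⟩ : ∃ c : Γ, c = β * α * β⁻¹ * α⁻¹ := ⟨_, rfl⟩
  have hc : c = z₁ * α ^ (r - 1) := by
    rw [hcdef, hconj]
    nth_rewrite 1 [hr1]
    rw [pow_succ]; group
  have hck : ∀ k : ℕ, c ^ k = z₁ ^ k * α ^ ((r - 1) * k) := by
    intro k
    rw [hc, (hz₁c (α ^ (r - 1))).mul_pow, ← pow_mul]
  -- the key cancellation
  have hL : ∀ k : ℕ, β * α ^ k * β⁻¹ = α ^ k → c ^ k = 1 := by
    intro k hk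
    rw [hconjk] at hk
    have h1 : r * k = (r - 1) * k + k := by
      nth_rewrite 1 [hr1]; ring
    rw [h1, pow_add, ← mul_assoc] at hk
    rw [hck]
    exact mul_right_cancel (hk.trans (one_mul _).symm)
  have hcm : c ^ m = 1 := by
    apply hL
    have h0 : α ^ m ∈ σ.ker := by rw [MonoidHom.mem_ker, map_pow, hα, ham]
    have := (hcen _ h0 β).eq
    rw [← this, mul_inv_cancel_right]
  -- β ^ n is α ^ t up to a central element
  obtain ⟨z₂, hz₂def⟩ : ∃ z₂ : Γ, z₂ = (β ^ n)⁻¹ * α ^ t := ⟨_, rfl⟩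
  have hz₂ : z₂ ∈ σ.ker := by
    rw [MonoidHom.mem_ker, hz₂def]
    simp only [map_mul, map_inv, map_pow, hα, hβ, hb, inv_mul_cancel]
  have hαt : α ^ t = β ^ n * z₂ := by rw [hz₂def]; group
  have hβn : β ^ n = α ^ t * z₂⁻¹ := by rw [hαt]; group
  have hct : c ^ t = 1 := by
    apply hL
    rw [hαt]
    have h1 := (hcen _ hz₂ β).eq
    have h2 : β * (β ^ n * z₂) * β⁻¹ = (β * β ^ n * β⁻¹) * (β * z₂ * β⁻¹) := by group
    rw [h2, ← h1, mul_inv_cancel_right, ← pow_succ', pow_succ, mul_inv_cancel_right]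
  have hcS : c ^ (∑ i ∈ Finset.range n, r ^ i) = 1 := by
    have hind : ∀ k : ℕ, β ^ k * α * (β ^ k)⁻¹ =
        z₁ ^ (∑ i ∈ Finset.range k, r ^ i) * α ^ (r ^ k) := by
      intro k
      induction k with
      | zero => simp
      | succ k ih =>
        have h1 : β ^ (k + 1) * α * (β ^ (k + 1))⁻¹ = β * (β ^ k * α * (β ^ k)⁻¹) * β⁻¹ := by
          rw [pow_succ']; group
        rw [h1, ih]
        have h2 : β * (z₁ ^ (∑ i ∈ Finset.range k, r ^ i) * α ^ r ^ k) * β⁻¹ =
            z₁ ^ (∑ i ∈ Finset.range k, r ^ i) * (β * α ^ r ^ k * β⁻¹) := by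
          have := ((hz₁c β).pow_left (∑ i ∈ Finset.range k, r ^ i)).eq
          rw [mul_assoc, mul_assoc, ← mul_assoc β, ← this]; group
        rw [h2, hconjk, ← mul_assoc, ← pow_add, Finset.sum_range_succ, ← pow_succ']
    have h1 := hind n
    have h2 : β ^ n * α * (β ^ n)⁻¹ = α := by
      rw [hβn]
      have h3 := (hcen _ (σ.ker.inv_mem hz₂) α).eq
      have h4 : α ^ t * z₂⁻¹ * α * (α ^ t * z₂⁻¹)⁻¹ = α ^ t * (z₂⁻¹ * α) * z₂ * (α ^ t)⁻¹ := by
        group
      rw [h4, h3]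
      have h5 : α ^ t * (α * z₂⁻¹) * z₂ * (α ^ t)⁻¹ = α ^ t * α * (α ^ t)⁻¹ := by group
      rw [h5, ← pow_succ, pow_succ', mul_inv_cancel_right]
    rw [h2, geom r n hr, add_comm 1, pow_succ, ← mul_assoc] at h1
    rw [hck]
    exact (mul_right_cancel (h1.symm.trans (one_mul _).symm))
  -- conjugation action on `c`
  have hαc : α * c * α⁻¹ = c := by
    rw [hc]
    have h1 := (hz₁c α).eq
    have h2 : α * (z₁ * α ^ (r - 1)) * α⁻¹ = (α * z₁) * α ^ (r - 1) * α⁻¹ := by group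
    rw [h2, ← h1]
    have h3 : z₁ * α * α ^ (r - 1) * α⁻¹ = z₁ * (α * α ^ (r - 1) * α⁻¹) := by group
    rw [h3, ← pow_succ', pow_succ, mul_inv_cancel_right]
  have hβc : β * c * β⁻¹ = c ^ r := by
    rw [hck r, hc]
    have h1 := (hz₁c β).eq
    have h2 : β * (z₁ * α ^ (r - 1)) * β⁻¹ = (β * z₁) * α ^ (r - 1) * β⁻¹ := by group
    rw [h2, ← h1]
    have h3 : z₁ * β * α ^ (r - 1) * β⁻¹ = z₁ * (β * α ^ (r - 1) * β⁻¹) := by group
    rw [h3, hconjk, ← mul_assoc, ← pow_succ', ← hr1, mul_comm r]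
  have hβc' : β⁻¹ * c * β = c ^ (r ^ (n - 1)) := by
    have h1 : c ^ (r ^ n) = c ^ 1 := pow_eq_of_modEq c m _ _ hcm hrn
    have hn1 : n = (n - 1) + 1 := by omega
    rw [pow_one] at h1
    nth_rewrite 1 [hn1] at h1
    rw [pow_succ', pow_mul, ← hβc, conj_pow] at h1
    nth_rewrite 1 [← h1]
    group
  obtain ⟨C, hCdef⟩ : ∃ C : Subgroup Γ, C = Subgroup.zpowers c := ⟨_, rfl⟩
  have hcC : c ∈ C := hCdef ▸ Subgroup.mem_zpowers c
  -- `C` is normal
  have hCn : C.Normal := by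
    let T : Subgroup Γ :=
      { carrier := {g | ∀ y ∈ C, g * y * g⁻¹ ∈ C ∧ g⁻¹ * y * g ∈ C}
        mul_mem' := by
          intro g g' hg hg' y hy
          constructor
          · have := (hg _ (hg' y hy).1).1
            have h : g * g' * y * (g * g')⁻¹ = g * (g' * y * g'⁻¹) * g⁻¹ := by group
            rw [h]; exact this
          · have := (hg' _ (hg y hy).2).2
            have h : (g * g')⁻¹ * y * (g * g') = g'⁻¹ * (g⁻¹ * y * g) * g' := by group
            rw [h]; exact this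
        one_mem' := by
          intro y hy
          simp only [one_mul, inv_one, mul_one]
          exact ⟨hy, hy⟩
        inv_mem' := by
          intro g hg y hy
          rw [inv_inv]
          exact ⟨(hg y hy).2, (hg y hy).1⟩ }
    have hT : T = ⊤ := by
      apply hsup
      · intro y hy
        rw [hCdef] at hy ⊢
        obtain ⟨i, rfl⟩ := Subgroup.mem_zpowers_iff.mp hy
        have h1 : α * c ^ i * α⁻¹ = c ^ i := by rw [← conj_zpow, hαc]
        have h2 : α⁻¹ * c ^ i * α = c ^ i := by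
          nth_rewrite 1 [← h1]; group
        rw [h1, h2]
        exact ⟨Subgroup.zpow_mem_zpowers c i, Subgroup.zpow_mem_zpowers c i⟩
      · intro y hy
        rw [hCdef] at hy ⊢
        obtain ⟨i, rfl⟩ := Subgroup.mem_zpowers_iff.mp hy
        have h1 : β * c ^ i * β⁻¹ = (c ^ r) ^ i := by rw [← conj_zpow, hβc]
        have h2 : β⁻¹ * c ^ i * β = (c ^ (r ^ (n - 1))) ^ i := by
          rw [← hβc']
          have := conj_zpow (i := i) (a := β⁻¹) (b := c)
          rw [inv_inv] at this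
          exact this.symm
        rw [h1, h2]
        exact ⟨Subgroup.zpow_mem _ (Subgroup.pow_mem _ (Subgroup.mem_zpowers c) _) i,
          Subgroup.zpow_mem _ (Subgroup.pow_mem _ (Subgroup.mem_zpowers c) _) i⟩
      · intro k hk y hy
        have h1 := (hcen k hk y).eq
        have h2 : k * y * k⁻¹ = y := by rw [h1, mul_inv_cancel_right]
        have h3 : k⁻¹ * y * k = y := by rw [mul_assoc, ← h1, inv_mul_cancel_left]
        rw [h2, h3]
        exact ⟨hy, hy⟩
    exact ⟨fun y hy g => by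
      have hg : g ∈ T := by rw [hT]; trivial
      exact (hg y hy).1⟩
  -- the quotient by `C` is abelian
  have hcomm : commutator Γ ≤ C := by
    let q : Γ →* Γ ⧸ C := QuotientGroup.mk' C
    have hq : ∀ x y : Γ, x * y * x⁻¹ * y⁻¹ ∈ C → q x * q y = q y * q x := by
      intro x y hxy
      have h1 : q (x * y) = q (y * x) := by
        show ((x * y : Γ) : Γ ⧸ C) = ((y * x : Γ) : Γ ⧸ C)
        rw [QuotientGroup.eq_iff_div_mem]
        have h : x * y / (y * x) = x * y * x⁻¹ * y⁻¹ := by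
          rw [div_eq_mul_inv, mul_inv_rev, mul_assoc, mul_assoc, mul_assoc]
        rw [h]; exact hxy
      rwa [map_mul, map_mul] at h1
    have hTg : ∀ g : Γ, q g * q α = q α * q g → q g * q β = q β * q g →
        ∀ x : Γ, q g * q x = q x * q g := by
      intro g h1 h2
      let T : Subgroup Γ := (Subgroup.centralizer {q g}).comap q
      have hmem : ∀ x : Γ, x ∈ T ↔ q g * q x = q x * q g := by
        intro x
        show q x ∈ Subgroup.centralizer {q g} ↔ _
        rw [Subgroup.mem_centralizer_iff]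
        constructor
        · intro h; exact h (q g) rfl
        · intro h y hy; rw [Set.mem_singleton_iff.mp hy]; exact h
      have hT : T = ⊤ := by
        apply hsup
        · exact (hmem α).mpr h1
        · exact (hmem β).mpr h2
        · intro k hk
          rw [hmem]
          have := (hcen k hk g).eq
          rw [← map_mul, ← map_mul, this]
      intro x
      exact (hmem x).mp (by rw [hT]; trivial)
    have hβα : q β * q α = q α * q β := by
      apply hq
      rw [← hcdef]; exact hcC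
    have hα' : ∀ x : Γ, q α * q x = q x * q α := hTg α rfl hβα.symm
    have hβ' : ∀ x : Γ, q β * q x = q x * q β := hTg β hβα rfl
    have hall : ∀ g x : Γ, q g * q x = q x * q g := fun g =>
      hTg g (hα' g).symm (hβ' g).symm
    rw [commutator_eq_closure, Subgroup.closure_le]
    rintro _ ⟨x, y, rfl⟩
    have h1 := hall x y
    rw [← map_mul, ← map_mul] at h1
    have h2 : ((x * y : Γ) : Γ ⧸ C) = ((y * x : Γ) : Γ ⧸ C) := h1
    rw [QuotientGroup.eq_iff_div_mem] at h2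
    have h : ⁅x, y⁆ = x * y / (y * x) := by
      rw [commutatorElement_def, div_eq_mul_inv, mul_inv_rev, mul_assoc, mul_assoc]
    rw [h]; exact h2
  refine ⟨c, ?_, hcm, hct, hcS, ?_⟩
  · rw [← hCdef]; exact hσd.trans hcomm
  · rw [hcdef]
    simp only [map_mul, map_inv, hα, hβ, hab]
    nth_rewrite 1 [hr1]
    rw [pow_succ, mul_inv_cancel_right]

/-- The kernel of a stem extension of a metacyclic group lies in a cyclic subgroup generated by
an element whose order divides `gcd(l, h)`. -/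
theorem exists_zpowers_pow_eq_one {G Γ : Type*} [Group G] [Group Γ] (a b : G) (m n r l : ℕ)
    (hm : 0 < m) (hn : 0 < n) (hr : 0 < r) (hrn : r ^ n ≡ 1 [MOD m])
    (d S e h g m' : ℕ) (hd : d = Nat.gcd m (r - 1)) (hS : S = ∑ i ∈ Finset.range n, r ^ i)
    (he : e = Nat.gcd m S) (hh : h = d * e / m) (hg : g = Nat.gcd l h) (hm' : m' = m / d)
    (hgen : Subgroup.closure ({a, b} : Set G) = ⊤) (ha : orderOf a = m)
    (hb : b ^ n = a ^ (m * l / d)) (hab : b * a * b⁻¹ = a ^ r) (σ : Γ →* G)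
    (hσ : Cfsg.IsStemExtension σ) :
    ∃ z : Γ, z ^ g = 1 ∧ σ.ker ≤ Subgroup.zpowers z := by
  obtain ⟨-, hmm', ht, hm'h, hcop, -⟩ :=
    cover_param m n r l hm hr hrn d S e h g m' hd hS he hh hg hm'
  have hdpos : 0 < d := hd ▸ Nat.gcd_pos_of_pos_left _ hm
  have hdr : d ∣ r - 1 := hd ▸ Nat.gcd_dvd_right _ _
  have ham : a ^ m = 1 := ha ▸ pow_orderOf_eq_one a
  obtain ⟨c, hle, hcm, hct, hcS, hσc⟩ :=
    exists_zpowers_of_stem a b m n r (m * l / d) hn hr hrn hgen ham hb hab σ hσ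
  refine ⟨c ^ m', ?_, ?_⟩
  · rw [hg]
    apply pow_gcd_eq_one.mpr
    constructor
    · rw [← pow_mul, ← ht]; exact hct
    · rw [← pow_mul, hm'h, he, hS]; exact pow_gcd_eq_one.mpr ⟨hcm, hcS⟩
  · intro k hk
    obtain ⟨i, rfl⟩ := Subgroup.mem_zpowers_iff.mp (hle hk)
    have h1 : (a ^ (r - 1)) ^ i = 1 := by rw [← hσc, ← map_zpow]; exact hk
    rw [← zpow_natCast, ← zpow_mul] at h1
    have h2 : (orderOf a : ℤ) ∣ ((r - 1 : ℕ) : ℤ) * i := orderOf_dvd_iff_zpow_eq_one.mpr h1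
    obtain ⟨r', hr'⟩ := hdr
    have hcop' : Nat.Coprime m' r' := by
      rwa [hr', Nat.mul_div_cancel_left _ hdpos] at hcop
    have h3 : (m' : ℤ) ∣ i := by
      rw [ha, hr'] at h2
      have h2' : ((d * m' : ℕ) : ℤ) ∣ ((d * r' : ℕ) : ℤ) * i := hmm' ▸ h2
      push_cast at h2'
      rw [mul_assoc] at h2'
      have h4 : (m' : ℤ) ∣ (r' : ℤ) * i :=
        (mul_dvd_mul_iff_left (by exact_mod_cast hdpos.ne')).mp h2'
      have h5 : IsCoprime (m' : ℤ) (r' : ℤ) := by exact_mod_cast hcop'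
      exact h5.dvd_of_dvd_mul_left h4
    obtain ⟨i', rfl⟩ := h3
    rw [zpow_mul, zpow_natCast]
    exact Subgroup.zpow_mem_zpowers _ i'

/-- A group generated by `a`, `b` with `a ^ m = 1`, `b ^ n = a ^ t`, `b a b⁻¹ = a ^ r` is
finite. -/
theorem finite_of_rel {G : Type*} [Group G] (a b : G) (m n r t : ℕ) (hm : 0 < m) (hn : 0 < n)
    (hgen : Subgroup.closure ({a, b} : Set G) = ⊤) (ham : a ^ m = 1) (hb : b ^ n = a ^ t)
    (hab : b * a * b⁻¹ = a ^ r) : Finite G := by
  have hbnm : b ^ (n * m) = 1 := by rw [pow_mul, hb, ← pow_mul, mul_comm, pow_mul, ham, one_pow]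
  have hnm : 0 < n * m := Nat.mul_pos hn hm
  have hba : ∀ i : ℕ, b * a ^ i = a ^ (r * i) * b := by
    intro i
    have h1 : b * a ^ i * b⁻¹ = a ^ (r * i) := by rw [← conj_pow, hab, ← pow_mul]
    rw [← h1, inv_mul_cancel_right]
  have hbka : ∀ k i : ℕ, b ^ k * a ^ i = a ^ (r ^ k * i) * b ^ k := by
    intro k
    induction k with
    | zero => intro i; simp
    | succ k ih =>
      intro i
      rw [pow_succ, mul_assoc, hba, ← mul_assoc, ih, mul_assoc, ← mul_assoc (r ^ k), ← pow_succ]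
  let X : Set G := {g | ∃ i j : ℕ, g = a ^ i * b ^ j}
  let T : Subgroup G :=
    { carrier := {g | (∀ x ∈ X, g * x ∈ X) ∧ (∀ x ∈ X, g⁻¹ * x ∈ X)}
      mul_mem' := by
        intro g g' hg hg'
        refine ⟨fun x hx => ?_, fun x hx => ?_⟩
        · rw [mul_assoc]; exact hg.1 _ (hg'.1 x hx)
        · rw [mul_inv_rev, mul_assoc]; exact hg'.2 _ (hg.2 x hx)
      one_mem' := by
        refine ⟨fun x hx => ?_, fun x hx => ?_⟩
        · rwa [one_mul]
        · rwa [inv_one, one_mul]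
      inv_mem' := by
        intro g hg
        refine ⟨hg.2, ?_⟩
        rw [inv_inv]; exact hg.1 }
  have hainv : a⁻¹ = a ^ (m - 1) := by
    rw [inv_eq_iff_mul_eq_one, ← pow_succ']
    have : m - 1 + 1 = m := by omega
    rw [this, ham]
  have hbinv : b⁻¹ = b ^ (n * m - 1) := by
    rw [inv_eq_iff_mul_eq_one, ← pow_succ']
    have : n * m - 1 + 1 = n * m := by omega
    rw [this, hbnm]
  have haT : a ∈ T := by
    refine ⟨?_, ?_⟩
    · rintro x ⟨i, j, rfl⟩
      exact ⟨i + 1, j, by rw [← mul_assoc, ← pow_succ']⟩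
    · rintro x ⟨i, j, rfl⟩
      exact ⟨m - 1 + i, j, by rw [hainv, ← mul_assoc, ← pow_add]⟩
  have hbT : b ∈ T := by
    refine ⟨?_, ?_⟩
    · rintro x ⟨i, j, rfl⟩
      exact ⟨r * i, j + 1, by rw [← mul_assoc, hba, mul_assoc, ← pow_succ']⟩
    · rintro x ⟨i, j, rfl⟩
      exact ⟨r ^ (n * m - 1) * i, n * m - 1 + j, by
        rw [hbinv, ← mul_assoc, hbka, mul_assoc, ← pow_add]⟩
  have hT : T = ⊤ := by
    rw [eq_top_iff, ← hgen, Subgroup.closure_le]
    intro x hx
    rcases hx with rfl | rfl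
    · exact haT
    · exact hbT
  have hX : ∀ g : G, g ∈ X := by
    intro g
    have hg : g ∈ T := by rw [hT]; trivial
    have := hg.1 1 ⟨0, 0, by simp⟩
    rwa [mul_one] at this
  apply Finite.of_surjective (fun p : Fin m × Fin (n * m) => a ^ (p.1 : ℕ) * b ^ (p.2 : ℕ))
  intro g
  obtain ⟨i, j, rfl⟩ := hX g
  refine ⟨(⟨i % m, Nat.mod_lt _ hm⟩, ⟨j % (n * m), Nat.mod_lt _ hnm⟩), ?_⟩
  show a ^ (i % m) * b ^ (j % (n * m)) = a ^ i * b ^ j
  rw [← pow_eq_pow_mod i ham, ← pow_eq_pow_mod j hbnm]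

/-- The relators of the metacyclic presentation. -/
def mrels (m n r t : ℕ) : Set (FreeGroup Bool) :=
  {FreeGroup.of true ^ m, (FreeGroup.of false) ^ n * (FreeGroup.of true ^ t)⁻¹,
    FreeGroup.of false * FreeGroup.of true * (FreeGroup.of false)⁻¹ * (FreeGroup.of true ^ r)⁻¹}

theorem mrels_rel (m n r t : ℕ) :
    (PresentedGroup.of true : PresentedGroup (mrels m n r t)) ^ m = 1 ∧
    (PresentedGroup.of false : PresentedGroup (mrels m n r t)) ^ n =
      (PresentedGroup.of true : PresentedGroup (mrels m n r t)) ^ t ∧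
    (PresentedGroup.of false : PresentedGroup (mrels m n r t)) * PresentedGroup.of true *
      (PresentedGroup.of false)⁻¹ = (PresentedGroup.of true : PresentedGroup (mrels m n r t)) ^ r := by
  refine ⟨?_, ?_, ?_⟩
  · have := PresentedGroup.one_of_mem (rels := mrels m n r t) (x := FreeGroup.of true ^ m)
      (by simp [mrels])
    rwa [map_pow] at this
  · have := PresentedGroup.one_of_mem (rels := mrels m n r t)
      (x := (FreeGroup.of false) ^ n * (FreeGroup.of true ^ t)⁻¹) (by simp [mrels])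
    rw [map_mul, map_inv, map_pow, map_pow] at this
    exact mul_inv_eq_one.mp this
  · have := PresentedGroup.one_of_mem (rels := mrels m n r t)
      (x := FreeGroup.of false * FreeGroup.of true * (FreeGroup.of false)⁻¹ *
        (FreeGroup.of true ^ r)⁻¹) (by simp [mrels])
    rw [map_mul, map_inv, map_pow, map_mul, map_mul, map_inv] at this
    exact mul_inv_eq_one.mp this

theorem mrels_gen (m n r t : ℕ) :
    Subgroup.closure ({PresentedGroup.of true, PresentedGroup.of false} :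
      Set (PresentedGroup (mrels m n r t))) = ⊤ := by
  rw [← PresentedGroup.closure_range_of, Bool.range_eq, Set.pair_comm]

/-- A homomorphism out of the presented group, from elements satisfying the relations. -/
theorem mrels_lift_eq_one {K : Type*} [Group K] (m n r t : ℕ) (α β : K) (h1 : α ^ m = 1)
    (h2 : β ^ n = α ^ t) (h3 : β * α * β⁻¹ = α ^ r) :
    ∀ x ∈ mrels m n r t, FreeGroup.lift (fun i : Bool => if i then α else β) x = 1 := by
  intro x hx
  simp only [mrels, Set.mem_insert_iff, Set.mem_singleton_iff] at hx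
  rcases hx with rfl | rfl | rfl
  · simp [h1]
  · simp [h2]
  · simp [h3]

/-- The generator `a` of the presented metacyclic group has order exactly `m`. -/
theorem mrels_orderOf (m n r t : ℕ) (hn : 0 < n) (hrn : r ^ n ≡ 1 [MOD m])
    (hT : r * t ≡ t [MOD m]) :
    orderOf (PresentedGroup.of true : PresentedGroup (mrels m n r t)) = m := by
  obtain ⟨K, _, α, β, h1, h2, h3, h4, -⟩ := Metacyclic.exists_model m n r t hn hrn hT
  have hf := mrels_lift_eq_one m n r t α β h1 h2 h3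
  apply Nat.dvd_antisymm
  · exact orderOf_dvd_of_pow_eq_one (mrels_rel m n r t).1
  · apply h4
    have h5 := congrArg (PresentedGroup.toGroup hf)
      (pow_orderOf_eq_one (PresentedGroup.of true : PresentedGroup (mrels m n r t)))
    rw [map_pow, PresentedGroup.toGroup.of, map_one] at h5
    simpa using h5

/-- The Hopf multiplier of the presented metacyclic group has order divisible by `gcd(l, h)`:
a larger metacyclic group provides the central extension. -/
theorem dvd_card_hopfM (m n r l : ℕ) (hm : 0 < m) (hn : 0 < n) (hr : 0 < r)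
    (hrn : r ^ n ≡ 1 [MOD m])
    (d S e h g m' : ℕ) (hd : d = Nat.gcd m (r - 1)) (hS : S = ∑ i ∈ Finset.range n, r ^ i)
    (he : e = Nat.gcd m S) (hh : h = d * e / m) (hg : g = Nat.gcd l h) (hm' : m' = m / d) :
    g ∣ Nat.card (hopfM (PresentedGroup.mk (mrels m n r (m * l / d)))) := by
  obtain ⟨hgpos, hmm', ht, hm'h, hcop, j, u, hN1, hN3, hN4, hN2⟩ :=
    cover_param m n r l hm hr hrn d S e h g m' hd hS he hh hg hm'
  rw [ht]
  obtain ⟨φ, hφ⟩ : ∃ φ : FreeGroup Bool →* PresentedGroup (mrels m n r (m' * l)),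
    φ = PresentedGroup.mk (mrels m n r (m' * l)) := ⟨_, rfl⟩
  rw [← hφ]
  obtain ⟨K, _, α, β, h1, h2, h3, h4, h5⟩ :=
    Metacyclic.exists_model (m * g) n (r + j * m) (m' * l) hn hN1 hN3
  have hαm : α ^ m ∈ Subgroup.center K :=
    Subgroup.mem_center_iff.mpr (fun x => (h5 m hN4 x).symm)
  obtain ⟨ψ₀, hψ₀⟩ : ∃ ψ₀ : FreeGroup Bool →* K,
    ψ₀ = FreeGroup.lift (fun i : Bool => if i then α else β) := ⟨_, rfl⟩
  have hψt : ψ₀ (FreeGroup.of true) = α := by rw [hψ₀]; simp
  have hψf : ψ₀ (FreeGroup.of false) = β := by rw [hψ₀]; simp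
  have hcen : ∀ y ∈ φ.ker, ψ₀ y ∈ Subgroup.center K := by
    intro y hy
    rw [MonoidHom.mem_ker, hφ, PresentedGroup.mk_eq_one_iff] at hy
    have hle : Subgroup.normalClosure (mrels m n r (m' * l)) ≤ (Subgroup.center K).comap ψ₀ := by
      apply Subgroup.normalClosure_le_normal
      intro x hx
      simp only [mrels, Set.mem_insert_iff, Set.mem_singleton_iff] at hx
      show ψ₀ x ∈ Subgroup.center K
      rcases hx with rfl | rfl | rfl
      · rw [map_pow, hψt]; exact hαm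
      · rw [map_mul, map_inv, map_pow, map_pow, hψt, hψf, h2, mul_inv_cancel]
        exact Subgroup.one_mem _
      · rw [map_mul, map_inv, map_pow, map_mul, map_mul, map_inv, hψt, hψf, h3, pow_add,
          mul_comm j m, pow_mul]
        have hc : (α ^ m) ^ j ∈ Subgroup.center K := Subgroup.pow_mem _ hαm j
        rw [Subgroup.mem_center_iff.mp hc (α ^ r), mul_inv_cancel_right]
        exact hc
    exact hle hy
  have hker : hopfC φ ≤ ψ₀.ker := by
    unfold hopfC
    rw [Subgroup.commutator_le]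
    intro x _ y hy
    rw [MonoidHom.mem_ker, map_commutatorElement, commutatorElement_def,
      Subgroup.mem_center_iff.mp (hcen y hy) (ψ₀ x)]
    group
  obtain ⟨ψ, hψ⟩ : ∃ ψ : HopfE φ →* K, ∀ f, ψ (hopfMk φ f) = ψ₀ f :=
    ⟨QuotientGroup.lift (hopfC φ) ψ₀ hker, fun f => rfl⟩
  obtain ⟨x, hx⟩ : ∃ x : HopfE φ,
    x = hopfMk φ (⁅FreeGroup.of false, FreeGroup.of true⁆ ^ u) := ⟨_, rfl⟩
  obtain ⟨hrel1, -, hrel3⟩ := mrels_rel m n r (m' * l)
  have hx1 : x ∈ (hopfBar φ).ker := by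
    rw [MonoidHom.mem_ker, hx, hopfBar_mk, map_pow, map_commutatorElement, commutatorElement_def,
      hφ]
    show (PresentedGroup.of false * PresentedGroup.of true * (PresentedGroup.of false)⁻¹ *
      (PresentedGroup.of true : PresentedGroup (mrels m n r (m' * l)))⁻¹) ^ u = 1
    rw [hrel3, pow_mul_inv_self _ r hr, ← pow_mul]
    have hdvd : m ∣ (r - 1) * u := by
      have h6 : m ∣ (r + j * m - 1) * u := by
        have h7 : (r + j * m - 1) * u ≡ m [MOD m] := Nat.ModEq.of_dvd (Dvd.intro g rfl) hN2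
        exact (Nat.modEq_zero_iff_dvd).mp (h7.trans (by simp [Nat.ModEq]))
      have h8 : (r + j * m - 1) * u = (r - 1) * u + m * (j * u) := by
        have : r + j * m - 1 = (r - 1) + j * m := by omega
        rw [this]; ring
      rw [h8] at h6
      exact (Nat.dvd_add_left (Dvd.intro _ rfl)).mp h6
    obtain ⟨w, hw⟩ := hdvd
    rw [hw, pow_mul, hrel1, one_pow]
  have hx2 : x ∈ commutator (HopfE φ) := by
    rw [hx, map_pow, map_commutatorElement, commutator_def]
    exact Subgroup.pow_mem _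
      (Subgroup.commutator_mem_commutator (Subgroup.mem_top _) (Subgroup.mem_top _)) u
  have hψx : ψ x = α ^ m := by
    rw [hx, hψ, map_pow, map_commutatorElement, commutatorElement_def, hψt, hψf, h3,
      pow_mul_inv_self _ _ (by omega), ← pow_mul]
    exact pow_eq_of_modEq α (m * g) _ _ h1 hN2
  have hgo : g ∣ orderOf (ψ x) := by
    rw [hψx]
    have h6 : α ^ (m * orderOf (α ^ m)) = 1 := by rw [pow_mul, pow_orderOf_eq_one]
    exact Nat.dvd_of_mul_dvd_mul_left hm (h4 _ h6)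
  have hxM : x ∈ hopfM φ := ⟨hx1, hx2⟩
  have h7 : orderOf x ∣ Nat.card (hopfM φ) := by
    have := orderOf_dvd_natCard (⟨x, hxM⟩ : hopfM φ)
    rwa [← Subgroup.orderOf_coe] at this
  exact hgo.trans ((orderOf_map_dvd ψ x).trans h7)

/-- The main theorem, for the relator set `mrels`. -/
theorem main (m n r l : ℕ) (hm : 0 < m) (hn : 0 < n) (hr : 0 < r) (hrn : r ^ n ≡ 1 [MOD m]) :
    Cfsg.HasCyclicSchurMultiplier
      (PresentedGroup (mrels m n r (m * l / Nat.gcd m (r - 1))))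
      (Nat.gcd l (Nat.gcd m (r - 1) * Nat.gcd m (∑ i ∈ Finset.range n, r ^ i) / m)) := by
  obtain ⟨d, hd⟩ : ∃ d : ℕ, d = Nat.gcd m (r - 1) := ⟨_, rfl⟩
  obtain ⟨S, hS⟩ : ∃ S : ℕ, S = ∑ i ∈ Finset.range n, r ^ i := ⟨_, rfl⟩
  obtain ⟨e, he⟩ : ∃ e : ℕ, e = Nat.gcd m S := ⟨_, rfl⟩
  obtain ⟨h, hh⟩ : ∃ h : ℕ, h = d * e / m := ⟨_, rfl⟩
  obtain ⟨g, hg⟩ : ∃ g : ℕ, g = Nat.gcd l h := ⟨_, rfl⟩
  obtain ⟨m', hm'⟩ : ∃ m' : ℕ, m' = m / d := ⟨_, rfl⟩
  rw [← hS, ← hd, ← he, ← hh, ← hg]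
  obtain ⟨hgpos, hmm', ht, hm'h, hcop, -⟩ :=
    cover_param m n r l hm hr hrn d S e h g m' hd hS he hh hg hm'
  obtain ⟨hrel1, hrel2, hrel3⟩ := mrels_rel m n r (m * l / d)
  have hgen := mrels_gen m n r (m * l / d)
  have hfinG : Finite (PresentedGroup (mrels m n r (m * l / d))) :=
    finite_of_rel _ _ m n r (m * l / d) hm hn hgen hrel1 hrel2 hrel3
  have hdr : d ∣ r - 1 := hd ▸ Nat.gcd_dvd_right _ _
  have hT : r * (m * l / d) ≡ m * l / d [MOD m] := by
    rw [ht]
    obtain ⟨r', hr'⟩ := hdr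
    have h1 : r * (m' * l) = m' * l + m * (r' * l) := by
      have : r = 1 + d * r' := by omega
      rw [this, hmm']; ring
    rw [h1]
    have h2 : m * (r' * l) ≡ 0 [MOD m] := Nat.modEq_zero_iff_dvd.mpr (Dvd.intro _ rfl)
    exact h2.add_left (m' * l)
  have hord := mrels_orderOf m n r (m * l / d) hn hrn hT
  have key2 : ∀ (Γ : Type) [Group Γ] (σ : Γ →* PresentedGroup (mrels m n r (m * l / d))),
      Cfsg.IsStemExtension σ → ∃ z : Γ, z ^ g = 1 ∧ σ.ker ≤ Subgroup.zpowers z := by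
    intro Γ _ σ hσ
    exact exists_zpowers_pow_eq_one _ _ m n r l hm hn hr hrn d S e h g m' hd hS he hh hg hm'
      hgen hord hrel2 hrel3 σ hσ
  have key1 := dvd_card_hopfM m n r l hm hn hr hrn d S e h g m' hd hS he hh hg hm'
  obtain ⟨φ, hφdef⟩ : ∃ φ : FreeGroup Bool →* PresentedGroup (mrels m n r (m * l / d)),
    φ = PresentedGroup.mk (mrels m n r (m * l / d)) := ⟨_, rfl⟩
  rw [← hφdef] at key1
  have hφ : Function.Surjective φ := hφdef ▸ PresentedGroup.mk_surjective _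
  obtain ⟨S₀, hS₀, h1, h2⟩ := exists_hopf_complement φ (hopfBar φ).ker le_rfl
  have hSn : S₀.Normal := normal_of_le_center_aux S₀ (hS₀.trans (hopfBar_ker_le_center φ))
  obtain ⟨hstem, hfin, ⟨eqv⟩⟩ := hopf_quotient_stem φ hφ S₀ hS₀ h1 (by
    rw [← h2]; exact le_rfl)
  have hgne : NeZero g := ⟨hgpos.ne'⟩
  refine ⟨⟨HopfE φ ⧸ S₀, inferInstance, hfin, QuotientGroup.lift S₀ (hopfBar φ) hS₀, hstem, ?_⟩,
    ?_⟩
  · obtain ⟨z, hz, hle⟩ := key2 (HopfE φ ⧸ S₀) (QuotientGroup.lift S₀ (hopfBar φ) hS₀) hstem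
    have hcard_dvd : Nat.card (QuotientGroup.lift S₀ (hopfBar φ) hS₀).ker ∣ g :=
      (Subgroup.card_dvd_of_le hle).trans
        ((Nat.card_zpowers z).symm ▸ orderOf_dvd_of_pow_eq_one hz)
    have hcard : Nat.card (QuotientGroup.lift S₀ (hopfBar φ) hS₀).ker = g :=
      Nat.dvd_antisymm hcard_dvd (by rw [← Nat.card_congr eqv.toEquiv]; exact key1)
    obtain ⟨π, hπ⟩ := Cfsg.Agent.S3951.exists_surjective_of_le_zpowers
      (QuotientGroup.lift S₀ (hopfBar φ) hS₀).ker z g hz hle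
    have hfinZ : Finite (Multiplicative (ZMod g)) := inferInstanceAs (Finite (ZMod g))
    have hbij : Function.Bijective π := by
      rw [Nat.bijective_iff_surjective_and_card]
      refine ⟨hπ, ?_⟩
      rw [hcard]
      exact Nat.card_zmod g
    exact ⟨(MulEquiv.ofBijective π hbij).symm⟩
  · intro Γ _ _ σ hσ
    obtain ⟨z, hz, hle⟩ := key2 Γ σ hσ
    exact Cfsg.Agent.S3951.exists_surjective_of_le_zpowers σ.ker z g hz hle

/-- Let `m, n ≥ 1`, `r ≥ 1` with `r ^ n ≡ 1 (mod m)`, and `l` a natural number; put `d = gcd(m, r - 1)`, `t = m l / d` and `h = d · gcd(m, 1 + r + ⋯ + r^(n-1)) / m`. The group presented by generators `a, b` and relations `a ^ m = 1`, `b ^ n = a ^ t`, `b a b⁻¹ = a ^ r` (a metacyclic group of order `m n`) has Schur multiplier cyclic of order `gcd(l, h)`. -/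
theorem result (m n r l : ℕ) (hm : 0 < m) (hn : 0 < n) (hr : 0 < r) (hrn : r ^ n ≡ 1 [MOD m]) : Cfsg.HasCyclicSchurMultiplier (PresentedGroup ({FreeGroup.of true ^ m, (FreeGroup.of false) ^ n * (FreeGroup.of true ^ (m * l / Nat.gcd m (r - 1)))⁻¹, FreeGroup.of false * FreeGroup.of true * (FreeGroup.of false)⁻¹ * (FreeGroup.of true ^ r)⁻¹} : Set (FreeGroup Bool))) (Nat.gcd l (Nat.gcd m (r - 1) * Nat.gcd m (∑ i ∈ Finset.range n, r ^ i) / m)) := by
  exact main m n r l hm hn hr hrn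

end Cfsg.Agent.S3967
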