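import Cfsg.Statements.S3968
import Mathlib
import Cfsg.Agent.S0138
import Cfsg.Agent.S0142
import Cfsg.Agent.Helper75.InnerLin
import Cfsg.Agent.Helper15.CharInner
import Cfsg.Agent.Helper79.Basic
import Cfsg.Agent.Helper79.Codegree
import Cfsg.Agent.Helper80.CharSchur

set_option autoImplicit false
open Cfsg

namespace Cfsg.Agent.S3968

open scoped ComplexConjugate

/-- Let `p` be a prime and `G` a finite group with a faithful irreducible complex character of degree `p` (so `G` is an irreducible linear group in `p` variables). If `p ^ 2` divides the order of `G`, then the centre of `G` is nontrivial. -/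
theorem result {G : Type*} [Group G] [Finite G] (p : ℕ) (hp : p.Prime) (χ : Cfsg.IrrCharacter G) (hdeg : χ.1 1 = p) (hfaith : ∀ g : G, χ.1 g = χ.1 1 → g = 1) (hdiv : p ^ 2 ∣ Nat.card G) : Subgroup.center G ≠ ⊥ := by
  classical
  intro hZ
  haveI : Fact p.Prime := ⟨hp⟩
  obtain ⟨n, ρ, hρ, hχ⟩ := χ.2
  haveI : ρ.IsIrreducible := hρ
  have hχ1 : ρ.character 1 = (n : ℂ) := by rw [Representation.char_one]; simp
  have hn : n = p := by
    rw [hχ, hdeg] at hχ1; exact_mod_cast hχ1.symm
  have hfin : Module.finrank ℂ (Fin n → ℂ) = p := by rw [Module.finrank_fin_fun, hn]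
  let P : Sylow p G := default
  -- key: a nontrivial element centralizing P has character value 0
  have key : ∀ z : G, (∀ x ∈ (P : Subgroup G), x * z = z * x) → z ≠ 1 → χ.1 z = 0 := by
    intro z hz hz1
    have hcop : Nat.Coprime (Module.finrank ℂ (Fin n → ℂ))
        (Subgroup.centralizer ({z} : Set G)).index := by
      rw [hfin]
      have hle : (P : Subgroup G) ≤ Subgroup.centralizer {z} := by
        intro x hx
        rw [Subgroup.mem_centralizer_iff]
        intro y hy
        rw [Set.mem_singleton_iff] at hy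
        subst hy
        exact (hz x hx).symm
      have hdvd := Subgroup.index_dvd_of_le hle
      have hnd : ¬ p ∣ (P : Subgroup G).index := P.not_dvd_index
      exact (Nat.Prime.coprime_iff_not_dvd hp).2 (fun h => hnd (h.trans hdvd))
    rcases Cfsg.Agent.S0142.result ρ z hcop with h0 | hnorm
    · rw [← hχ]; exact h0
    · exfalso
      obtain ⟨ω, hω⟩ := (Cfsg.Agent.S0138.result ρ z).1 hnorm
      have hcen : z ∈ Subgroup.center G := by
        rw [Subgroup.mem_center_iff]
        intro h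
        have h1 : ρ (h * z * h⁻¹ * z⁻¹) = 1 := by
          have e1 : ρ (h * z * h⁻¹) = ρ z := by
            have hcomm : ρ h * ρ z = ρ z * ρ h := by
              rw [hω]; ext v; simp
            rw [map_mul, map_mul, hcomm, mul_assoc, ← map_mul, mul_inv_cancel, map_one, mul_one]
          rw [map_mul, e1, ← map_mul, mul_inv_cancel, map_one]
        have h2 : χ.1 (h * z * h⁻¹ * z⁻¹) = χ.1 1 := by
          rw [← hχ]
          show LinearMap.trace ℂ _ (ρ _) = LinearMap.trace ℂ _ (ρ 1)
          rw [h1, show ρ (1 : G) = 1 from map_one ρ]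
        have h3 := hfaith _ h2
        have : h * z = z * h := by
          have := congrArg (fun w => w * z * h) h3
          simpa [mul_assoc] using this
        exact this
      rw [hZ] at hcen
      exact hz1 (Subgroup.mem_bot.1 hcen)
  -- order of P
  have hPcard : p ^ 2 ∣ Nat.card (P : Subgroup G) := by
    rw [Sylow.card_eq_multiplicity]
    have hG0 : Nat.card G ≠ 0 := Nat.card_pos.ne'
    exact pow_dvd_pow p ((hp.pow_dvd_iff_le_factorization hG0).1 hdiv)
  have hPpos : 0 < Nat.card (P : Subgroup G) := Nat.card_pos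
  have hPge : p ^ 2 ≤ Nat.card (P : Subgroup G) := Nat.le_of_dvd hPpos hPcard
  have hp2 : 2 ≤ p := hp.two_le
  haveI : Nontrivial ↥(P : Subgroup G) := by
    rw [← Finite.one_lt_card_iff_nontrivial]
    nlinarith
  -- a nontrivial central element of P
  obtain ⟨z₀, hz₀c, hz₀1⟩ : ∃ z₀ : ↥(P : Subgroup G), z₀ ∈ Subgroup.center ↥(P : Subgroup G) ∧ z₀ ≠ 1 := by
    haveI := (P.isPGroup').center_nontrivial
    obtain ⟨w, hw⟩ := exists_ne (1 : Subgroup.center ↥(P : Subgroup G))
    exact ⟨w.1, w.2, fun h => hw (Subtype.ext h)⟩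
  have hz₀comm : ∀ x ∈ (P : Subgroup G), x * (z₀ : G) = (z₀ : G) * x := by
    intro x hx
    have := (Subgroup.mem_center_iff.1 hz₀c) ⟨x, hx⟩
    exact congrArg Subtype.val this
  have hz₀ne : (z₀ : G) ≠ 1 := fun h => hz₀1 (Subtype.ext h)
  have hχz₀ : χ.1 (z₀ : G) = 0 := key _ hz₀comm hz₀ne
  -- the restriction to P
  letI : Fintype ↥(P : Subgroup G) := Fintype.ofFinite _
  set ψ : ↥(P : Subgroup G) → ℂ := fun x => χ.1 (x : G) with hψdef
  have hψchar : IsCharacter ↥(P : Subgroup G) ψ :=
    Cfsg.Agent.Helper79.isCharacter_restrict (Cfsg.Agent.Helper79.irr_isCharacter χ) _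
  have hψ1 : ψ 1 = (p : ℂ) := hdeg
  have hψdeg : charDegree ψ = p := by
    have := Cfsg.Agent.Helper79.isCharacter_one_eq_charDegree hψchar
    rw [hψ1] at this
    exact_mod_cast this.symm
  have hψne : ψ ≠ 0 := by
    intro h
    have := congrFun h 1
    rw [hψ1] at this
    have hp0 : (p : ℂ) ≠ 0 := by exact_mod_cast hp.ne_zero
    exact hp0 this
  -- every constituent is linear
  have hlin : ∀ θ : IrrCharacter ↥(P : Subgroup G), classInner ψ (θ : ↥(P : Subgroup G) → ℂ) ≠ 0 →
      charDegree (θ : ↥(P : Subgroup G) → ℂ) = 1 := by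
    intro θ hθ
    by_contra hne1
    have hdvd := Cfsg.Agent.Helper79.isIrrCharacter_charDegree_dvd_card θ.2
    obtain ⟨m, hm⟩ := IsPGroup.iff_card.1 P.isPGroup'
    rw [hm] at hdvd
    obtain ⟨k, hk, hk2⟩ := (Nat.dvd_prime_pow hp).1 hdvd
    have hk0 : k ≠ 0 := by rintro rfl; exact hne1 (by simpa using hk2)
    have hple : charDegree ψ ≤ charDegree (θ : ↥(P : Subgroup G) → ℂ) := by
      rw [hψdeg, hk2]
      calc p = p ^ 1 := (pow_one p).symm
        _ ≤ p ^ k := Nat.pow_le_pow_right hp.pos (Nat.one_le_iff_ne_zero.2 hk0)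
    have heq := Cfsg.Agent.Helper75.eq_irr_of_constituent_of_le hψchar θ hθ hple
    obtain ⟨m', σ, hσ, hσθ⟩ := θ.2
    haveI : σ.IsIrreducible := hσ
    obtain ⟨c, hc⟩ := Cfsg.Agent.Helper80.schur_scalar σ (σ z₀) (fun g => by
      rw [← map_mul, ← map_mul, (Subgroup.mem_center_iff.1 hz₀c g)])
    have hnorm : ‖σ.character z₀‖ = (Module.finrank ℂ (Fin m' → ℂ) : ℝ) :=
      (Cfsg.Agent.S0138.result σ z₀).2 ⟨c, hc⟩
    have hval : σ.character z₀ = 0 := by rw [hσθ, ← heq]; exact hχz₀
    rw [hval, norm_zero] at hnorm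
    have hpos := Cfsg.Agent.Helper80.rep_finrank_pos σ
    have : (0:ℝ) < (Module.finrank ℂ (Fin m' → ℂ) : ℝ) := by exact_mod_cast hpos
    linarith
  -- P is abelian
  letI : Fintype (IrrCharacter ↥(P : Subgroup G)) := Fintype.ofFinite _
  have hsum := Cfsg.Agent.Helper75.character_eq_sum_irr hψchar
  have hcommP : ∀ x y : ↥(P : Subgroup G), x * y = y * x := by
    intro x y
    have hval : ψ (x * y * x⁻¹ * y⁻¹) = ψ 1 := by
      have h1 := congrFun hsum (x * y * x⁻¹ * y⁻¹)
      have h2 := congrFun hsum 1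
      rw [h1, h2]
      simp only [Finset.sum_apply, Pi.smul_apply]
      apply Finset.sum_congr rfl
      intro θ _
      by_cases hθ : classInner ψ (θ : ↥(P : Subgroup G) → ℂ) = 0
      · rw [hθ]; simp
      · have h1 := hlin θ hθ
        have hθ1 : (θ : ↥(P : Subgroup G) → ℂ) 1 = 1 := by
          rw [Cfsg.Agent.Helper79.isCharacter_one_eq_charDegree
            (Cfsg.Agent.Helper79.irr_isCharacter θ), h1]; simp
        obtain ⟨f, hf⟩ := Cfsg.Agent.Helper79.isCharacter_linear
          (Cfsg.Agent.Helper79.irr_isCharacter θ) hθ1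
        rw [hf, hf]
        have : f (x * y * x⁻¹ * y⁻¹) = 1 := by
          rw [map_mul, map_mul, map_mul, map_inv, map_inv]
          rw [mul_comm (f x) (f y), mul_assoc (f y), mul_inv_cancel, mul_one, mul_inv_cancel]
        rw [this, map_one]
    have h3 := hfaith _ (show χ.1 ((x * y * x⁻¹ * y⁻¹ : ↥(P : Subgroup G)) : G) = χ.1 1 from hval)
    have h4 : x * y * x⁻¹ * y⁻¹ = 1 := Subtype.ext h3
    have := congrArg (fun w => w * y * x) h4
    simpa [mul_assoc] using this
  -- ψ vanishes off 1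
  have hvan : ∀ x : ↥(P : Subgroup G), x ≠ 1 → ψ x = 0 := by
    intro x hx
    apply key
    · intro y hy
      exact congrArg Subtype.val (hcommP ⟨y, hy⟩ x)
    · exact fun h => hx (Subtype.ext h)
  -- a constituent
  obtain ⟨θ, hθ⟩ := Cfsg.Agent.Helper15.exists_constituent
    (Cfsg.Agent.Helper75.isCharacter_isClassFunction' hψchar) hψne
  obtain ⟨mult, hmult⟩ := Cfsg.Agent.Helper75.exists_nat_mult hψchar
  have hθ1 : (θ : ↥(P : Subgroup G) → ℂ) 1 = 1 := by
    rw [Cfsg.Agent.Helper79.isCharacter_one_eq_charDegree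
      (Cfsg.Agent.Helper79.irr_isCharacter θ), hlin θ hθ]; simp
  have hinner : classInner ψ (θ : ↥(P : Subgroup G) → ℂ)
      = (Nat.card ↥(P : Subgroup G) : ℂ)⁻¹ * (p : ℂ) := by
    unfold classInner
    rw [Finset.sum_eq_single 1]
    · rw [hψ1, hθ1]; simp
    · intro x _ hx; rw [hvan x hx, zero_mul]
    · intro h; exact absurd (Finset.mem_univ _) h
  rw [hmult θ] at hinner hθ
  have hm1 : 1 ≤ mult θ := Nat.one_le_iff_ne_zero.2 (by intro h; rw [h] at hθ; simp at hθ)
  have hPc : (Nat.card ↥(P : Subgroup G) : ℂ) ≠ 0 := by exact_mod_cast hPpos.ne'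
  have hmc : (mult θ : ℂ) * (Nat.card ↥(P : Subgroup G) : ℂ) = (p : ℂ) := by
    rw [hinner]; field_simp
  have hnat : mult θ * Nat.card ↥(P : Subgroup G) = p := by exact_mod_cast hmc
  nlinarith

end Cfsg.Agent.S3968
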