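import Cfsg.Statements.S3969
import Cfsg.Agent.Helper66.AutRank

set_option autoImplicit false
open Cfsg

namespace Cfsg.Agent.S3969

/-- Let `P` be an abelian Sylow `p`-subgroup of the finite group `G`, generated by `d` elements (`d` its minimal number of generators). If the order of `G` is coprime to `(p - 1)(p ^ 2 - 1) ⋯ (p ^ d - 1)`, then `G` has a normal `p`-complement. (The classical statement needs only the largest number of cyclic factors of `P` of equal order in place of `d`; the form here follows from it.) -/
theorem result {G : Type*} [Group G] [Finite G] (p : ℕ) [Fact p.Prime] (P : Sylow p G) (hab : IsMulCommutative (P : Subgroup G)) (hcop : Nat.Coprime (Nat.card G) (∏ i ∈ Finset.Icc 1 (Group.rank (P : Subgroup G)), (p ^ i - 1))) : Cfsg.HasNormalPComplement p G := by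
  have hP : Subgroup.normalizer ((P : Subgroup G) : Set G) ≤
      Subgroup.centralizer ((P : Subgroup G) : Set G) := by
    apply Cfsg.Agent.Helper66.normalizer_le_centralizer_of_rank p P
    intro q hq hqp hqG i hi1 hid hdvd
    have h1 : q ∣ ∏ i ∈ Finset.Icc 1 (Group.rank (P : Subgroup G)), (p ^ i - 1) :=
      hdvd.trans (Finset.dvd_prod_of_mem _ (Finset.mem_Icc.mpr ⟨hi1, hid⟩))
    have h2 := Nat.dvd_gcd hqG h1
    rw [Nat.Coprime.gcd_eq_one hcop] at h2
    exact hq.one_lt.ne' (Nat.dvd_one.mp h2)
  exact ⟨P, (MonoidHom.transferSylow P hP).ker, MonoidHom.normal_ker _,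
    MonoidHom.ker_transferSylow_isComplement' P hP⟩

end Cfsg.Agent.S3969
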