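import Cfsg.Statements.S3970
import Cfsg.Agent.Helper66.AutRank
import Mathlib.GroupTheory.Nilpotent

set_option autoImplicit false
open Cfsg

namespace Cfsg.Agent.S3970

universe u

/-- A group with at most two elements has rank at most one. -/
theorem rank_le_one_of_card_le_two {H : Type*} [Group H] [Finite H] (hH : Nat.card H ≤ 2) :
    Group.rank H ≤ 1 := by
  have hpos : 0 < Nat.card H := Nat.card_pos
  rcases (show Nat.card H = 1 ∨ Nat.card H = 2 by omega) with h1 | h2
  · have : Subsingleton H := (Nat.card_eq_one_iff_unique.mp h1).1
    rw [Group.rank_eq_zero]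
    exact Nat.zero_le 1
  · have : Fact (Nat.Prime 2) := ⟨Nat.prime_two⟩
    have hcyc : IsCyclic H := isCyclic_of_prime_card h2
    obtain ⟨g, hg⟩ := hcyc.exists_generator
    have hcl : Subgroup.closure ((({g} : Finset H)) : Set H) = ⊤ := by
      rw [eq_top_iff]
      intro x _
      rw [Finset.coe_singleton, ← Subgroup.zpowers_eq_closure]
      exact hg x
    exact (Group.rank_le hcl).trans (by simp)

theorem aux : ∀ (n : ℕ) (G : Type u) [Group G] [Finite G], Nat.card G = n →
    (∀ p : ℕ, p.Prime → p ∣ Nat.card G → (∃ q : ℕ, q.Prime ∧ q ∣ Nat.card G ∧ p < q) →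
      ∀ P : Sylow p G, IsMulCommutative (P : Subgroup G) ∧ Group.rank (P : Subgroup G) ≤ 2) →
    ¬ 12 ∣ n → Group.IsSolvable G := by
  intro n
  induction n using Nat.strong_induction_on with
  | _ n ih =>
    intro G _ _ hn h h12
    by_cases hn1 : n = 1
    · have : Subsingleton G := (Nat.card_eq_one_iff_unique.mp (hn.trans hn1)).1
      infer_instance
    have hn0 : n ≠ 0 := by
      rw [← hn]; exact Nat.card_pos.ne'
    have hp : (Nat.minFac n).Prime := Nat.minFac_prime hn1
    set p := Nat.minFac n with hpdef
    have : Fact p.Prime := ⟨hp⟩
    have hpn : p ∣ n := Nat.minFac_dvd n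
    by_cases hcase : ∀ q : ℕ, q.Prime → q ∣ n → q = p
    · -- p-group
      have hcard : Nat.card G = p ^ n.primeFactorsList.length := by
        rw [hn]
        exact Nat.eq_prime_pow_of_unique_prime_dvd hn0 (fun {d} hd hdn => hcase d hd hdn)
      have hpg : IsPGroup p G := IsPGroup.of_card hcard
      have := IsPGroup.isNilpotent hpg
      infer_instance
    · push Not at hcase
      obtain ⟨q, hq, hqn, hqp⟩ := hcase
      have hlt : ∀ q' : ℕ, q'.Prime → q' ∣ n → q' ≠ p → p < q' := by
        intro q' hq' hq'n hq'p
        exact lt_of_le_of_ne (Nat.minFac_le_of_dvd hq'.two_le hq'n) (Ne.symm hq'p)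
      let P : Sylow p G := default
      obtain ⟨hab, hrank⟩ := h p hp (hn ▸ hpn) ⟨q, hq, hn ▸ hqn, hlt q hq hqn hqp⟩ P
      have hNC : Subgroup.normalizer ((P : Subgroup G) : Set G) ≤
          Subgroup.centralizer ((P : Subgroup G) : Set G) := by
        apply Cfsg.Agent.Helper66.normalizer_le_centralizer_of_rank p P
        intro q' hq' hq'p hq'G i hi1 hid hdvd
        have hpq' : p < q' := hlt q' hq' (hn ▸ hq'G) hq'p
        have hp2 : 2 ≤ p := hp.two_le
        have hnot1 : ¬ q' ∣ p - 1 := by
          intro hd1
          have := Nat.le_of_dvd (by omega) hd1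
          omega
        have hi : i = 1 ∨ i = 2 := by omega
        rcases hi with rfl | rfl
        · rw [pow_one] at hdvd
          exact hnot1 hdvd
        · have hfac' : ∀ m : ℕ, 1 ≤ m → m ^ 2 - 1 = (m - 1) * (m + 1) := by
            intro m hm
            cases m with
            | zero => omega
            | succ k =>
              apply Nat.sub_eq_of_eq_add
              simp only [Nat.add_sub_cancel]
              ring
          have hfac : p ^ 2 - 1 = (p - 1) * (p + 1) := hfac' p (by omega)
          rw [hfac] at hdvd
          rcases (Nat.Prime.dvd_mul hq').mp hdvd with hd1 | hd1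
          · exact hnot1 hd1
          · have hle := Nat.le_of_dvd (by omega) hd1
            have hq'eq : q' = p + 1 := by omega
            -- p and p + 1 both prime: p = 2
            have hp_eq : p = 2 := by
              rcases Nat.Prime.eq_two_or_odd hp with h2 | hodd
              · exact h2
              · have h2q : 2 ∣ q' := by rw [hq'eq]; omega
                have := (Nat.prime_dvd_prime_iff_eq Nat.prime_two hq').mp h2q
                omega
            have hq'3 : q' = 3 := by omega
            -- 4 does not divide n
            have h4 : ¬ 4 ∣ n := by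
              intro h4
              have h3 : 3 ∣ n := by rw [← hq'3, ← hn]; exact hq'G
              exact h12 (Nat.Coprime.mul_dvd_of_dvd_of_dvd (by norm_num : Nat.Coprime 4 3) h4 h3)
            obtain ⟨k, hk⟩ := IsPGroup.iff_card.mp P.2
            have hPn : Nat.card (P : Subgroup G) ∣ n := hn ▸ Subgroup.card_subgroup_dvd_card _
            have hk1 : k ≤ 1 := by
              by_contra hk1
              have h2k : 2 ≤ k := by omega
              apply h4
              have : (4 : ℕ) ∣ p ^ k := by
                rw [hp_eq]
                exact (show (4 : ℕ) = 2 ^ 2 by norm_num) ▸ pow_dvd_pow 2 h2k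
              exact this.trans (hk ▸ hPn)
            have hcardP : Nat.card (P : Subgroup G) ≤ 2 := by
              rw [hk, hp_eq]
              calc 2 ^ k ≤ 2 ^ 1 := Nat.pow_le_pow_right (by norm_num) hk1
                _ = 2 := by norm_num
            have := rank_le_one_of_card_le_two hcardP
            omega
      -- the normal p-complement
      set K := (MonoidHom.transferSylow P hNC).ker with hK
      have hcomp : K.IsComplement' (P : Subgroup G) :=
        MonoidHom.ker_transferSylow_isComplement' P hNC
      have hKP : Nat.card K * Nat.card (P : Subgroup G) = Nat.card G := hcomp.card_mul_card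
      have hPbot : (P : Subgroup G) ≠ ⊥ := P.ne_bot_of_dvd_card (hn ▸ hpn)
      have hP1 : 1 < Nat.card (P : Subgroup G) := by
        rw [Finite.one_lt_card_iff_nontrivial]
        exact (Subgroup.nontrivial_iff_ne_bot _).mpr hPbot
      have hKpos : 0 < Nat.card K := Nat.card_pos
      have hKlt : Nat.card K < n := by
        rw [← hn, ← hKP]
        nlinarith
      have hKdvd : Nat.card K ∣ Nat.card G := Subgroup.card_subgroup_dvd_card K
      have hpK : ¬ p ∣ Nat.card K := MonoidHom.not_dvd_card_ker_transferSylow P hNC
      have hKsolv : Group.IsSolvable K := by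
        refine ih (Nat.card K) hKlt K rfl ?_ (fun h12K => h12 (hn ▸ h12K.trans hKdvd))
        intro r hr hrK ⟨s, hs, hsK, hrs⟩ R'
        have : Fact r.Prime := ⟨hr⟩
        have hrp : r ≠ p := by
          rintro rfl
          exact hpK hrK
        have hR : IsPGroup r ((R' : Subgroup K).map K.subtype) := R'.2.map K.subtype
        have hidx : ¬ r ∣ ((R' : Subgroup K).map K.subtype).index := by
          rw [Subgroup.index_map_subtype, hcomp.symm.index_eq_card]
          intro hdvd
          rcases (Nat.Prime.dvd_mul hr).mp hdvd with hd1 | hd1
          · exact R'.not_dvd_index hd1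
          · obtain ⟨k, hk⟩ := IsPGroup.iff_card.mp P.2
            rw [hk] at hd1
            exact hrp ((Nat.prime_dvd_prime_iff_eq hr hp).mp (hr.dvd_of_dvd_pow hd1))
        obtain ⟨hab', hrank'⟩ := h r hr (hrK.trans hKdvd) ⟨s, hs, hsK.trans hKdvd, hrs⟩
          (hR.toSylow hidx)
        have e : (R' : Subgroup K) ≃* ((R' : Subgroup K).map K.subtype) :=
          Subgroup.equivMapOfInjective _ K.subtype K.subtype_injective
        have hab'' : IsMulCommutative ((R' : Subgroup K).map K.subtype) := hab'
        refine ⟨⟨⟨fun a b => e.injective ?_⟩⟩, ?_⟩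
        · rw [map_mul, map_mul, mul_comm']
        · rw [Group.rank_congr e]
          exact hrank'
      have hPsolv : Group.IsSolvable (P : Subgroup G) := by
        have := IsPGroup.isNilpotent P.2
        infer_instance
      refine Group.isSolvable_of_ker_le_range K.subtype (MonoidHom.transferSylow P hNC) ?_
      rw [Subgroup.range_subtype]

/-- Let `G` be a finite group such that for every prime `p` dividing its order, other than the largest such prime, the Sylow `p`-subgroups are abelian and generated by at most two elements, and suppose `12` does not divide the order of `G`. Then `G` is solvable. In particular a group of cube-free order not divisible by `12` is solvable. -/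
theorem result {G : Type*} [Group G] [Finite G] (h : ∀ p : ℕ, p.Prime → p ∣ Nat.card G → (∃ q : ℕ, q.Prime ∧ q ∣ Nat.card G ∧ p < q) → ∀ P : Sylow p G, IsMulCommutative (P : Subgroup G) ∧ Group.rank (P : Subgroup G) ≤ 2) (h12 : ¬ 12 ∣ Nat.card G) : Group.IsSolvable G :=
  aux (Nat.card G) G rfl h h12

end Cfsg.Agent.S3970
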