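import Cfsg.Statements.S3971
import Cfsg.Agent.S0071
import Cfsg.Agent.Helper70.FrattiniAut2

set_option autoImplicit false
open Cfsg

namespace Cfsg.Agent.S3971

open Cfsg.Agent.Helper70

/-- The automorphism group of a `2`-group with a cyclic subgroup of index at most `2` has order
dividing `2 ^ k * 6`. -/
theorem card_mulAut_dvd_of_cyclic_index_two {Q : Type*} [Group Q] [Finite Q] (hQ : IsPGroup 2 Q)
    (c : Q) (hc : (Subgroup.zpowers c).index ≤ 2) : ∃ k, Nat.card (MulAut Q) ∣ 2 ^ k * 6 := by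
  have : Fact (Nat.Prime 2) := ⟨Nat.prime_two⟩
  obtain ⟨n, hn⟩ := IsPGroup.iff_card.mp hQ
  obtain ⟨r, hr⟩ : ∃ r, (frattini Q).index = 2 ^ r := by
    have h1 : (frattini Q).index ∣ Nat.card Q := Subgroup.index_dvd_card _
    rw [hn] at h1
    obtain ⟨r, -, hr⟩ := (Nat.dvd_prime_pow Nat.prime_two).mp h1
    exact ⟨r, hr⟩
  have hr2 : r ≤ 2 := by
    have h1 : Subgroup.zpowers (c ^ 2) ≤ frattini Q := by
      rw [Subgroup.zpowers_le]; exact (frattini_pGroup_facts hQ).2 c
    have h2 : (frattini Q).index ∣ (Subgroup.zpowers (c ^ 2)).index :=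
      Subgroup.index_dvd_of_le h1
    have h3 : (Subgroup.zpowers (c ^ 2)).index ≤ 4 := by
      have h4 := (Subgroup.zpowers (c ^ 2)).index_mul_card
      have h5 := (Subgroup.zpowers c).index_mul_card
      rw [Nat.card_zpowers] at h4 h5
      have ho : 0 < orderOf c := orderOf_pos c
      have h6 : orderOf (c ^ 2) * Nat.gcd (orderOf c) 2 = orderOf c := by
        rw [orderOf_pow]
        exact Nat.div_mul_cancel (Nat.gcd_dvd_left _ _)
      have h7 : Nat.gcd (orderOf c) 2 ≤ 2 := Nat.gcd_le_right _ (by norm_num)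
      have ho2 : 0 < orderOf (c ^ 2) := orderOf_pos _
      have h8 : (Subgroup.zpowers (c ^ 2)).index * orderOf (c ^ 2)
          = ((Subgroup.zpowers c).index * Nat.gcd (orderOf c) 2) * orderOf (c ^ 2) := by
        calc (Subgroup.zpowers (c ^ 2)).index * orderOf (c ^ 2) = Nat.card Q := h4
          _ = (Subgroup.zpowers c).index * orderOf c := h5.symm
          _ = (Subgroup.zpowers c).index * (orderOf (c ^ 2) * Nat.gcd (orderOf c) 2) := by
            rw [h6]
          _ = _ := by ring
      have h9 := Nat.eq_of_mul_eq_mul_right ho2 h8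
      rw [h9]
      calc (Subgroup.zpowers c).index * Nat.gcd (orderOf c) 2 ≤ 2 * 2 := Nat.mul_le_mul hc h7
        _ = 4 := by norm_num
    have h4 : 2 ^ r ≤ 4 := by
      rw [← hr]
      refine (Nat.le_of_dvd ?_ h2).trans h3
      exact Nat.pos_of_ne_zero (Subgroup.index_ne_zero_of_finite)
    by_contra hcon
    have h5 : 2 ^ 3 ≤ 2 ^ r := Nat.pow_le_pow_right (by norm_num) (by omega)
    omega
  have hdvd := card_mulAut_dvd hn hr
  refine ⟨r * (n - r), hdvd.trans (Nat.mul_dvd_mul_left _ ?_)⟩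
  interval_cases r <;> simp [Finset.prod_range_succ]

/-- Let `G` be a finite group of order `2 ^ a * n` with `n` odd and not divisible by `3`, and suppose `G` has an element of order `2 ^ (a - 1)` (so a Sylow `2`-subgroup has a cyclic subgroup of index at most `2`). Then `G` has a normal subgroup of order `n`. -/
theorem result {G : Type*} [Group G] [Finite G] (a n : ℕ) (hG : Nat.card G = 2 ^ a * n) (hn : Odd n) (h3 : ¬ 3 ∣ n) (hx : ∃ x : G, orderOf x = 2 ^ (a - 1)) : ∃ N : Subgroup G, N.Normal ∧ Nat.card N = n := by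
  have : Fact (Nat.Prime 2) := ⟨Nat.prime_two⟩
  obtain ⟨x, hx⟩ := hx
  have hxp : IsPGroup 2 (Subgroup.zpowers x) := by
    apply IsPGroup.of_card (n := a - 1)
    rw [Nat.card_zpowers, hx]
  obtain ⟨P, hP⟩ := hxp.exists_le_sylow
  have hn0 : 0 < n := hn.pos
  have hcop2 : Nat.Coprime 2 n := (Nat.Prime.coprime_iff_not_dvd Nat.prime_two).mpr
      (fun h => (Nat.not_even_iff_odd.mpr hn) (even_iff_two_dvd.mpr h))
  have hPcard : Nat.card P = 2 ^ a := by
    obtain ⟨m, hm⟩ := IsPGroup.iff_card.mp P.isPGroup'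
    have h1 : (2 : ℕ) ^ a ∣ Nat.card P :=
      P.pow_dvd_card_of_pow_dvd_card (hG ▸ Dvd.intro _ rfl)
    have h2 : Nat.card P ∣ 2 ^ a * n := hG ▸ Subgroup.card_subgroup_dvd_card _
    rw [hm] at h1 h2 ⊢
    have h3 : (2 : ℕ) ^ m ∣ 2 ^ a := (Nat.Coprime.pow_left m hcop2).dvd_of_dvd_mul_right h2
    exact Nat.dvd_antisymm h3 h1
  have key : ∀ Q : Subgroup G, Q ≤ (P : Subgroup G) →
      ∀ g ∈ Subgroup.normalizer (Q : Set G), Nat.Coprime (orderOf g) 2 →
        g ∈ Subgroup.centralizer (Q : Set G) := by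
    intro Q hQ g hg hcop
    have hQp : IsPGroup 2 Q := P.isPGroup'.to_le hQ
    obtain ⟨c, hc⟩ : ∃ c : Q, (Subgroup.zpowers c).index ≤ 2 := by
      have : IsCyclic (Subgroup.zpowers x ⊓ Q : Subgroup G) :=
        Subgroup.isCyclic_of_le (inf_le_left : Subgroup.zpowers x ⊓ Q ≤ Subgroup.zpowers x)
      obtain ⟨y, hy⟩ := (Subgroup.isCyclic_iff_exists_zpowers_eq_top _).mp
        (inferInstance : IsCyclic (Subgroup.zpowers x ⊓ Q : Subgroup G))
      have hyQ : y ∈ Q := by
        have : y ∈ Subgroup.zpowers x ⊓ Q := hy ▸ Subgroup.mem_zpowers y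
        exact this.2
      refine ⟨⟨y, hyQ⟩, ?_⟩
      have h1 : Subgroup.zpowers (⟨y, hyQ⟩ : Q) = (Subgroup.zpowers y).subgroupOf Q := by
        ext z
        rw [Subgroup.mem_subgroupOf, Subgroup.mem_zpowers_iff, Subgroup.mem_zpowers_iff]
        constructor
        · rintro ⟨k, rfl⟩; exact ⟨k, by simp⟩
        · rintro ⟨k, hk⟩; exact ⟨k, Subtype.ext (by simpa using hk)⟩
      have h2 : (Subgroup.zpowers (⟨y, hyQ⟩ : Q)).index = (Subgroup.zpowers x).relIndex Q := by
        rw [h1, hy, ← Subgroup.inf_relIndex_right]; rfl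
      rw [h2]
      have h3 : (Subgroup.zpowers x).relIndex (P : Subgroup G) ≤ 2 := by
        have h4 := Subgroup.relIndex_mul_index hP
        have h5 := (Subgroup.zpowers x).index_mul_card
        have h6 := (P : Subgroup G).index_mul_card
        rw [Nat.card_zpowers, hx] at h5
        rw [hPcard] at h6
        have hPi : 0 < (P : Subgroup G).index := Nat.pos_of_ne_zero Subgroup.index_ne_zero_of_finite
        have h7 : (Subgroup.zpowers x).relIndex (P : Subgroup G) * 2 ^ (a - 1) *
            (P : Subgroup G).index = 2 ^ a * (P : Subgroup G).index := by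
          calc (Subgroup.zpowers x).relIndex (P : Subgroup G) * 2 ^ (a - 1) *
                (P : Subgroup G).index
              = ((Subgroup.zpowers x).relIndex (P : Subgroup G) * (P : Subgroup G).index)
                  * 2 ^ (a - 1) := by ring
            _ = Nat.card G := by rw [h4, h5]
            _ = 2 ^ a * (P : Subgroup G).index := by rw [← h6]; ring
        have h8 := Nat.eq_of_mul_eq_mul_right hPi h7
        have h9 : (2 : ℕ) ^ a ≤ 2 * 2 ^ (a - 1) := by
          rcases Nat.eq_zero_or_pos a with h | h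
          · subst h; norm_num
          · have : a = (a - 1) + 1 := by omega
            rw [this, pow_succ]; simp; ring_nf; exact le_rfl
        have h10 : 0 < (2 : ℕ) ^ (a - 1) := by positivity
        rw [← h8] at h9
        exact Nat.le_of_mul_le_mul_right h9 h10
      refine (Subgroup.relIndex_le_of_le_right hQ ?_).trans h3
      intro h0
      have := Subgroup.relIndex_dvd_card (Subgroup.zpowers x) (P : Subgroup G)
      rw [h0, zero_dvd_iff] at this
      exact Nat.card_pos.ne' this
    obtain ⟨k, hk⟩ := card_mulAut_dvd_of_cyclic_index_two hQp c hc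
    have h1 : orderOf (Q.normalizerMonoidHom ⟨g, hg⟩) ∣ orderOf g := by
      have := orderOf_map_dvd Q.normalizerMonoidHom (⟨g, hg⟩ : Subgroup.normalizer (Q : Set G))
      rwa [Subgroup.orderOf_mk] at this
    have h2 : orderOf (Q.normalizerMonoidHom ⟨g, hg⟩) ∣ 2 ^ k * 6 :=
      (orderOf_dvd_natCard _).trans hk
    have h3' : Nat.Coprime (orderOf g) 3 := by
      rw [Nat.coprime_comm, Nat.Prime.coprime_iff_not_dvd Nat.prime_three]
      intro h
      have h4 : 3 ∣ 2 ^ a * n := hG ▸ h.trans (orderOf_dvd_natCard g)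
      have h5 : Nat.Coprime 3 (2 ^ a) := Nat.Coprime.pow_right a (by norm_num)
      exact h3 (h5.dvd_of_dvd_mul_left h4)
    have h4 : Nat.Coprime (orderOf g) (2 ^ k * 6) := by
      have h6 : (6 : ℕ) = 2 * 3 := by norm_num
      rw [h6]
      exact Nat.Coprime.mul_right (Nat.Coprime.pow_right k hcop)
        (Nat.Coprime.mul_right hcop h3')
    have h5 : orderOf (Q.normalizerMonoidHom ⟨g, hg⟩) = 1 :=
      Nat.eq_one_of_dvd_coprimes h4 h1 h2
    have h6 : (⟨g, hg⟩ : Subgroup.normalizer (Q : Set G)) ∈ Q.normalizerMonoidHom.ker :=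
      orderOf_eq_one_iff.mp h5
    rw [Subgroup.normalizerMonoidHom_ker] at h6
    exact h6
  obtain ⟨N, hN, hc⟩ := (Cfsg.Agent.S0071.result P).mpr key
  refine ⟨N, hN, ?_⟩
  have h1 := hc.card_mul_card
  rw [hPcard, hG] at h1
  have h2 : Nat.card N * 2 ^ a = n * 2 ^ a := by rw [h1]; ring
  exact Nat.eq_of_mul_eq_mul_right (by positivity) h2

end Cfsg.Agent.S3971
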