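import Cfsg.Statements.S3973
import Cfsg.Agent.Helper65.Hopf2
import Cfsg.Agent.Helper66.Deficiency

set_option autoImplicit false
open Cfsg

namespace Cfsg.Agent.S3973

open Cfsg.Agent.Helper65 Cfsg.Agent.Helper66

/-- If a finite group is presented by `n` generators and a finite set of `r` relators, then its Schur multiplier can be generated by `r - n` elements. In particular a finite group with a presentation having as many relators as generators has trivial Schur multiplier. -/
theorem result (n : ℕ) (rels : Finset (FreeGroup (Fin n))) [Finite (PresentedGroup (rels : Set (FreeGroup (Fin n))))] {A : Type*} [CommGroup A] [Finite A] (hA : Cfsg.HasSchurMultiplier (PresentedGroup (rels : Set (FreeGroup (Fin n)))) A) : Group.rank A ≤ rels.card - n := by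
  classical
  have hφ : Function.Surjective (PresentedGroup.mk (rels : Set (FreeGroup (Fin n)))) :=
    PresentedGroup.mk_surjective _
  have hker : (PresentedGroup.mk (rels : Set (FreeGroup (Fin n)))).ker
      = Subgroup.normalClosure (rels : Set (FreeGroup (Fin n))) := QuotientGroup.ker_mk' _
  generalize hφdef : PresentedGroup.mk (rels : Set (FreeGroup (Fin n))) = φ at hφ hker
  -- generators of the image of the relation subgroup
  have hTker : ∀ r : rels, hopfMk φ r.1 ∈ (hopfBar φ).ker := by
    intro r
    rw [MonoidHom.mem_ker, hopfBar_mk]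
    have h1 : r.1 ∈ φ.ker := by rw [hker]; exact Subgroup.subset_normalClosure r.2
    exact h1
  have hT : ∀ r : rels, hopfMk φ r.1 ∈ Subgroup.center (HopfE φ) :=
    fun r => hopfBar_ker_le_center φ (hTker r)
  have hcl : Subgroup.closure (Set.range (fun r : rels => hopfMk φ r.1)) = (hopfBar φ).ker := by
    apply le_antisymm
    · rw [Subgroup.closure_le]; rintro _ ⟨r, rfl⟩; exact hTker r
    · intro x hx
      obtain ⟨f, rfl⟩ := hopfMk_surjective φ x
      have hf : f ∈ φ.ker := hx
      have hKc : Subgroup.closure (Set.range (fun r : rels => hopfMk φ r.1))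
          ≤ Subgroup.center (HopfE φ) := by
        rw [Subgroup.closure_le]; rintro _ ⟨r, rfl⟩; exact hT r
      have hKn : (Subgroup.closure (Set.range (fun r : rels => hopfMk φ r.1))).Normal :=
        normal_of_le_center_aux _ hKc
      have h2 : Subgroup.normalClosure (rels : Set (FreeGroup (Fin n))) ≤
          (Subgroup.closure (Set.range (fun r : rels => hopfMk φ r.1))).comap (hopfMk φ) :=
        Subgroup.normalClosure_le_normal (fun r hr => Subgroup.subset_closure ⟨⟨r, hr⟩, rfl⟩)
      rw [hker] at hf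
      exact h2 hf
  have hd : Nat.card (PresentedGroup (rels : Set (FreeGroup (Fin n)))) ≠ 0 := Nat.card_pos.ne'
  obtain ⟨S, hScard, hS⟩ := exists_finset_closure_inf_ker (fun r : rels => hopfMk φ r.1) hT
    (hopfAb φ) (FreeAbelianGroup.equivFinsupp (Fin n)) (by
      intro a
      obtain ⟨f, rfl⟩ := QuotientGroup.mk'_surjective _ a
      exact ⟨hopfMk φ f, rfl⟩) (Nat.card (PresentedGroup (rels : Set (FreeGroup (Fin n))))) hd (by
      intro x
      rw [hcl, MonoidHom.mem_ker, map_pow]; exact pow_card_eq_one')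
  rw [Module.finrank_finsupp_self, Fintype.card_fin, Fintype.card_coe] at hScard
  rw [hcl, hopfAb_ker] at hS
  have hfin := finite_hopfM φ
  have h1 : Group.rank (hopfM φ) ≤ rels.card - n :=
    (rank_le_of_closure_eq (hopfM φ) S hS).trans hScard
  -- a surjection from the Hopf multiplier onto `A`
  obtain ⟨⟨Γ₁, _, _, σ₁, hσ₁, ⟨e₁⟩⟩, -⟩ := hA
  obtain ⟨ψ, hψ⟩ := exists_hopf_lift φ σ₁ hσ₁.1 hσ₁.2.1
  obtain ⟨-, hψM⟩ := hopf_lift_stem φ hφ σ₁ hσ₁ ψ hψ
  let g : hopfM φ →* A := e₁.toMonoidHom.comp
    ((ψ.comp (hopfM φ).subtype).codRestrict σ₁.ker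
      (fun m => by rw [← hψM]; exact ⟨m, m.2, rfl⟩))
  have hg : Function.Surjective g := by
    intro a
    obtain ⟨k, hk⟩ : ∃ k : σ₁.ker, e₁ k = a := e₁.surjective a
    have hk2 : (k : Γ₁) ∈ (hopfM φ).map ψ := by rw [hψM]; exact k.2
    obtain ⟨m, hm, hmk⟩ := hk2
    refine ⟨⟨m, hm⟩, ?_⟩
    rw [← hk]
    show e₁ _ = e₁ k
    congr 1
    exact Subtype.ext hmk
  exact (Group.rank_le_of_surjective g hg).trans h1

end Cfsg.Agent.S3973
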