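import Cfsg.Statements.S3974
import Cfsg.Agent.Helper65.Hopf3

set_option autoImplicit false
universe u v
open Cfsg

namespace Cfsg.Agent.S3974

open Cfsg.Agent.Helper65
open scoped commutatorElement

/-- A homomorphism from a subgroup `K₀` meeting the commutator subgroup trivially into an abelian
group of exponent dividing `a` extends to the whole group, provided the `b`-th powers lie in
`K₀` modulo the commutator subgroup and `a`, `b` are coprime. -/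
theorem exists_hom_extension_of_coprime {E Z : Type*} [Group E] [CommGroup Z]
    (K₀ : Subgroup E) (hK' : K₀ ⊓ commutator E = ⊥) (a b : ℕ) (hab : Nat.Coprime b a)
    (hZ : ∀ z : Z, z ^ a = 1)
    (hb : ∀ x : E, ∃ k ∈ K₀, ∃ c ∈ commutator E, x ^ b = k * c)
    (g : K₀ →* Z) : ∃ χ : E →* Z, ∀ k : K₀, χ (k : E) = g k := by
  classical
  let ι : K₀ →* Abelianization E := (Abelianization.of).comp K₀.subtype
  have hι : Function.Injective ι := by
    rw [injective_iff_map_eq_one]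
    intro k hk
    have h1 : (k : E) ∈ (Abelianization.of : E →* Abelianization E).ker := hk
    rw [Abelianization.ker_of] at h1
    have h2 : (k : E) ∈ K₀ ⊓ commutator E := ⟨k.2, h1⟩
    rw [hK'] at h2
    exact Subtype.ext h2
  have hpow : ∀ y : Abelianization E, ∃ k : K₀, ι k = y ^ b := by
    intro y
    obtain ⟨x, rfl⟩ := QuotientGroup.mk_surjective y
    obtain ⟨k, hk, c, hc, hx⟩ := hb x
    refine ⟨⟨k, hk⟩, ?_⟩
    show Abelianization.of k = (Abelianization.of x) ^ b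
    have hc1 : Abelianization.of c = 1 := by
      rw [← MonoidHom.mem_ker, Abelianization.ker_of]; exact hc
    rw [← map_pow, hx, map_mul, hc1, mul_one]
  choose κ hκ using hpow
  have hκmul : ∀ y y', κ (y * y') = κ y * κ y' := by
    intro y y'
    apply hι
    rw [map_mul, hκ, hκ, hκ, mul_pow]
  obtain ⟨u, v, huv⟩ := Nat.isCoprime_iff_coprime.mpr hab
  let χ₀ : Abelianization E →* Z := MonoidHom.mk' (fun y => g (κ y) ^ u) (by
    intro y y'
    show g (κ (y * y')) ^ u = g (κ y) ^ u * g (κ y') ^ u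
    rw [hκmul, map_mul, mul_zpow])
  refine ⟨χ₀.comp Abelianization.of, fun k => ?_⟩
  show g (κ (Abelianization.of (k : E))) ^ u = g k
  have h3 : κ (Abelianization.of (k : E)) = k ^ b := by
    apply hι
    rw [hκ, map_pow]; rfl
  have h4 : u * (b : ℤ) = 1 - v * (a : ℤ) := by linarith
  have h5 : (g k ^ b) ^ u = g k ^ (u * (b : ℤ)) := by
    rw [← zpow_natCast, ← zpow_mul, mul_comm]
  rw [h3, map_pow, h5, h4, zpow_sub, zpow_one, mul_comm, zpow_mul, zpow_natCast, hZ, inv_one,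
    one_mul]

/-- A subgroup `S` embedded in a free abelian group of finite rank through `lam`: if the `p`-th
power of `lam x` is `lam s₀` but `lam x` is not in `lam S`, then some homomorphism from `S` to
any abelian group maps `s₀` to a power of a prescribed element with exponent prime to `p`. -/
theorem exists_hom_not_dvd {E B L M : Type*} [Group E] [CommGroup B] [AddCommGroup L]
    [Module.Free ℤ L] [Module.Finite ℤ L] [CommGroup M] (lam : E →* B) (e : Additive B →+ L)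
    (he : Function.Injective e) (S : Subgroup E) (hS : S ≤ Subgroup.center E)
    (p : ℕ) (hp : p.Prime) (x : E) (s₀ : S) (hx : lam x ^ p = lam (s₀ : E))
    (hxS : ∀ s : S, lam x ≠ lam (s : E)) (m₀ : M) :
    ∃ (Θ : S →* M) (k : ℤ), ¬ (p : ℤ) ∣ k ∧ Θ s₀ = m₀ ^ k := by
  classical
  let cg : CommGroup S :=
    { (inferInstance : Group S) with
      mul_comm := fun a b => Subtype.ext ((Subgroup.mem_center_iff.mp (hS b.2) a)) }
  let f : Additive S →+ L := e.comp (MonoidHom.toAdditive (lam.comp S.subtype))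
  have hf : ∀ y : S, f (Additive.ofMul y) = e (Additive.ofMul (lam (y : E))) := fun y => rfl
  let fl : Additive S →ₗ[ℤ] L := f.toIntLinearMap
  let b := Module.Free.chooseBasis ℤ L
  obtain ⟨n, ⟨bN⟩⟩ := Submodule.nonempty_basis_of_pid b (LinearMap.range fl)
  let c : Fin n → Additive S →ₗ[ℤ] ℤ := fun i => (bN.coord i).comp fl.rangeRestrict
  have hex : ∃ i, ¬ (p : ℤ) ∣ c i (Additive.ofMul s₀) := by
    by_contra hcon
    push Not at hcon
    choose d hd using hcon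
    let y : LinearMap.range fl := ∑ i, d i • bN i
    have hy : fl.rangeRestrict (Additive.ofMul s₀) = (p : ℤ) • y := by
      rw [← bN.sum_repr (fl.rangeRestrict (Additive.ofMul s₀)), Finset.smul_sum]
      apply Finset.sum_congr rfl
      intro i _
      have : bN.repr (fl.rangeRestrict (Additive.ofMul s₀)) i = (p : ℤ) * d i := hd i
      rw [this, mul_smul]
    obtain ⟨t, ht⟩ := y.2
    have h1 : e (Additive.ofMul (lam (s₀ : E))) =
        (p : ℤ) • e (Additive.ofMul (lam ((Additive.toMul t : S) : E))) := by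
      have h0 := congrArg (fun z : LinearMap.range fl => (z : L)) hy
      have h00 : (fl.rangeRestrict (Additive.ofMul s₀) : L) = (p : ℤ) • (y : L) := h0
      rw [← ht] at h00
      exact h00
    have h2 : (p : ℤ) • e (Additive.ofMul (lam x)) = e (Additive.ofMul (lam (s₀ : E))) := by
      rw [← hx, ofMul_pow, map_nsmul, natCast_zsmul]
    have h3 : e (Additive.ofMul (lam x)) =
        e (Additive.ofMul (lam ((Additive.toMul t : S) : E))) := by
      have h4 : (p : ℤ) • (e (Additive.ofMul (lam x)) -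
          e (Additive.ofMul (lam ((Additive.toMul t : S) : E)))) = 0 := by
        rw [smul_sub, h2, h1, sub_self]
      have hp0 : (p : ℤ) ≠ 0 := by exact_mod_cast hp.ne_zero
      exact sub_eq_zero.mp ((smul_eq_zero.mp h4).resolve_left hp0)
    exact hxS (Additive.toMul t) (he h3)
  obtain ⟨i, hi⟩ := hex
  let Θ : S →* M := MonoidHom.mk' (fun s => m₀ ^ (c i (Additive.ofMul s))) (by
    intro s t
    show m₀ ^ (c i (Additive.ofMul (s * t))) = m₀ ^ (c i (Additive.ofMul s)) * m₀ ^ (c i (Additive.ofMul t))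
    rw [ofMul_mul, map_add, zpow_add])
  exact ⟨Θ, _, hi, rfl⟩

/-- Uniqueness of Schur covers over the group when the commutator quotient and the multiplier
have coprime orders. -/
theorem unique_of_coprime {Q : Type u} [Group Q] [Finite Q] {A : Type v} [CommGroup A]
    (hA : Cfsg.HasSchurMultiplier Q A)
    (hcop : Nat.Coprime (Nat.card (Abelianization Q)) (Nat.card A))
    (Γ₁ Γ₂ : Type u) [Group Γ₁] [Finite Γ₁] [Group Γ₂] [Finite Γ₂] (σ₁ : Γ₁ →* Q) (σ₂ : Γ₂ →* Q)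
    (h₁ : Cfsg.IsStemExtension σ₁) (h₂ : Cfsg.IsStemExtension σ₂)
    (e₁ : σ₁.ker ≃* A) (e₂ : σ₂.ker ≃* A) :
    ∃ e : Γ₁ ≃* Γ₂, σ₂.comp e.toMonoidHom = σ₁ := by
  classical
  let φ : FreeGroup Q →* Q := FreeGroup.lift id
  have hφ : Function.Surjective φ := fun q => ⟨FreeGroup.of q, by simp [φ]⟩
  have hfinA : Finite A := Finite.of_equiv _ e₁.toEquiv
  have hMA : Nat.card (hopfM φ) ≤ Nat.card A := card_hopfM_le_of_hasSchurMultiplier φ hφ hA
  obtain ⟨ψ₁, hψ₁⟩ := exists_hopf_lift φ σ₁ h₁.1 h₁.2.1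
  obtain ⟨ψ₂, hψ₂⟩ := exists_hopf_lift φ σ₂ h₂.1 h₂.2.1
  obtain ⟨hs₁, hM₁⟩ := hopf_lift_stem φ hφ σ₁ h₁ ψ₁ hψ₁
  obtain ⟨hs₂, hM₂⟩ := hopf_lift_stem φ hφ σ₂ h₂ ψ₂ hψ₂
  have hψ₁' : ∀ x, σ₁ (ψ₁ x) = hopfBar φ x := fun x => congrArg (fun f => f x) hψ₁
  have hψ₂' : ∀ x, σ₂ (ψ₂ x) = hopfBar φ x := fun x => congrArg (fun f => f x) hψ₂
  have hK₁ : ψ₁.ker ⊓ commutator (HopfE φ) = ⊥ :=
    hopf_lift_ker_inf_commutator φ hφ σ₁ h₁ ψ₁ hψ₁ (by rw [Nat.card_congr e₁.toEquiv]; exact hMA)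
  have hK₂ : ψ₂.ker ⊓ commutator (HopfE φ) = ⊥ :=
    hopf_lift_ker_inf_commutator φ hφ σ₂ h₂ ψ₂ hψ₂ (by rw [Nat.card_congr e₂.toEquiv]; exact hMA)
  have hcommQ : commutator Q = (commutator (HopfE φ)).map (hopfBar φ) := by
    rw [map_commutator_eq, MonoidHom.range_eq_top.mpr (hopfBar_surjective φ hφ), commutator_def]
  -- the `b`-th powers
  have hb : ∀ x : HopfE φ, ∃ k ∈ ψ₁.ker, ∃ c ∈ commutator (HopfE φ),
      x ^ (Nat.card (Abelianization Q)) = k * c := by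
    intro x
    have h1 : (hopfBar φ x) ^ (Nat.card (Abelianization Q)) ∈ commutator Q := by
      rw [← Abelianization.ker_of, MonoidHom.mem_ker, map_pow]
      exact pow_card_eq_one'
    rw [hcommQ] at h1
    obtain ⟨c, hc, hcx⟩ := h1
    have h3 : ψ₁ (x ^ (Nat.card (Abelianization Q)) * c⁻¹) ∈ σ₁.ker := by
      rw [MonoidHom.mem_ker, hψ₁', map_mul, map_inv, map_pow, hcx, mul_inv_cancel]
    rw [← hM₁] at h3
    obtain ⟨m, hm, hmx⟩ := h3
    refine ⟨x ^ (Nat.card (Abelianization Q)) * c⁻¹ * m⁻¹, ?_, m * c, ?_, ?_⟩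
    · rw [MonoidHom.mem_ker, map_mul, map_inv, hmx, mul_inv_cancel]
    · exact Subgroup.mul_mem _ hm.2 hc
    · group
  let g : ψ₁.ker →* A := e₂.toMonoidHom.comp ((ψ₂.comp ψ₁.ker.subtype).codRestrict σ₂.ker (by
      intro k
      show ψ₂ k ∈ σ₂.ker
      rw [MonoidHom.mem_ker, hψ₂', ← hψ₁', (MonoidHom.mem_ker.mp k.2), map_one]))
  have hg : ∀ k : ψ₁.ker, ((e₂.symm (g k) : σ₂.ker) : Γ₂) = ψ₂ k := by
    intro k
    show ((e₂.symm (e₂ _) : σ₂.ker) : Γ₂) = ψ₂ k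
    rw [MulEquiv.symm_apply_apply]
    rfl
  obtain ⟨δ, hδ⟩ := exists_hom_extension_of_coprime ψ₁.ker hK₁ (Nat.card A) _ hcop
    (fun z => pow_card_eq_one') hb g
  have hcen : ∀ a : A, ((e₂.symm a : σ₂.ker) : Γ₂) ∈ Subgroup.center Γ₂ :=
    fun a => h₂.2.1 (e₂.symm a).2
  let e' : HopfE φ →* Γ₂ :=
    MonoidHom.mk' (fun x => ψ₂ x * ((e₂.symm (δ x)⁻¹ : σ₂.ker) : Γ₂)) (by
      intro x y
      show ψ₂ (x * y) * ((e₂.symm (δ (x * y))⁻¹ : σ₂.ker) : Γ₂) =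
        ψ₂ x * ((e₂.symm (δ x)⁻¹ : σ₂.ker) : Γ₂) * (ψ₂ y * ((e₂.symm (δ y)⁻¹ : σ₂.ker) : Γ₂))
      have hc := Subgroup.mem_center_iff.mp (hcen (δ x)⁻¹) (ψ₂ y)
      rw [map_mul, map_mul, mul_inv, map_mul, Subgroup.coe_mul, mul_assoc, mul_assoc,
        ← mul_assoc (ψ₂ y), hc, mul_assoc])
  have he'_apply : ∀ x, e' x = ψ₂ x * ((e₂.symm (δ x)⁻¹ : σ₂.ker) : Γ₂) := fun x => rfl
  have he'K : ψ₁.ker ≤ e'.ker := by
    intro k hk
    rw [MonoidHom.mem_ker, he'_apply, hδ ⟨k, hk⟩, map_inv, Subgroup.coe_inv, hg]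
    exact mul_inv_cancel _
  let e₀ : Γ₁ →* Γ₂ := ψ₁.liftOfSurjective hs₁ ⟨e', he'K⟩
  have he₀ : ∀ x, e₀ (ψ₁ x) = e' x := fun x =>
    MonoidHom.liftOfRightInverse_comp_apply ψ₁ _ _ ⟨e', he'K⟩ x
  have hδc : ∀ m ∈ commutator (HopfE φ), δ m = 1 := fun m hm =>
    Abelianization.commutator_subset_ker δ hm
  have he'M : ∀ m ∈ commutator (HopfE φ), e' m = ψ₂ m := by
    intro m hm
    rw [he'_apply, hδc m hm, inv_one, map_one, Subgroup.coe_one, mul_one]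
  have hσe' : ∀ x, σ₂ (e' x) = hopfBar φ x := by
    intro x
    rw [he'_apply, map_mul, hψ₂', MonoidHom.mem_ker.mp (e₂.symm (δ x)⁻¹).2, mul_one]
  have hσe₀ : ∀ y, σ₂ (e₀ y) = σ₁ y := by
    intro y
    obtain ⟨x, rfl⟩ := hs₁ y
    rw [he₀, hσe', hψ₁']
  have hinj : Function.Injective e₀ := by
    rw [injective_iff_map_eq_one]
    intro y hy
    have hy1 : y ∈ σ₁.ker := by
      rw [MonoidHom.mem_ker, ← hσe₀, hy, map_one]
    rw [← hM₁] at hy1
    obtain ⟨m, hm, rfl⟩ := hy1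
    rw [he₀, he'M m hm.2] at hy
    have hm1 : m ∈ ψ₂.ker ⊓ commutator (HopfE φ) := ⟨hy, hm.2⟩
    rw [hK₂] at hm1
    have hm2 : m = 1 := hm1
    rw [hm2, map_one]
  have hsurj : Function.Surjective e₀ := by
    intro y₂
    obtain ⟨y₁, hy₁⟩ := h₁.1 (σ₂ y₂)
    have hk : (e₀ y₁)⁻¹ * y₂ ∈ σ₂.ker := by
      rw [MonoidHom.mem_ker, map_mul, map_inv, hσe₀, hy₁, inv_mul_cancel]
    rw [← hM₂] at hk
    obtain ⟨m, hm, hmy⟩ := hk
    refine ⟨y₁ * ψ₁ m, ?_⟩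
    rw [map_mul, he₀, he'M m hm.2, hmy, mul_inv_cancel_left]
  refine ⟨MulEquiv.ofBijective e₀ ⟨hinj, hsurj⟩, ?_⟩
  apply MonoidHom.ext
  intro y
  exact hσe₀ y

/-- If all Schur covers are isomorphic over the group, then the commutator quotient and the
multiplier have coprime orders. -/
theorem coprime_of_unique {Q : Type u} [Group Q] [Finite Q] {A : Type v} [CommGroup A]
    (hA : Cfsg.HasSchurMultiplier Q A)
    (h : ∀ (Γ₁ Γ₂ : Type u) [Group Γ₁] [Finite Γ₁] [Group Γ₂] [Finite Γ₂] (σ₁ : Γ₁ →* Q)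
      (σ₂ : Γ₂ →* Q), Cfsg.IsStemExtension σ₁ → Cfsg.IsStemExtension σ₂ →
      Nonempty (σ₁.ker ≃* A) → Nonempty (σ₂.ker ≃* A) →
      ∃ e : Γ₁ ≃* Γ₂, σ₂.comp e.toMonoidHom = σ₁) :
    Nat.Coprime (Nat.card (Abelianization Q)) (Nat.card A) := by
  classical
  by_contra hcop
  obtain ⟨p, hp, hpb, hpa⟩ := Nat.Prime.not_coprime_iff_dvd.mp hcop
  have hpF : Fact p.Prime := Fact.mk hp
  let φ : FreeGroup Q →* Q := FreeGroup.lift id
  have hφ : Function.Surjective φ := fun q => ⟨FreeGroup.of q, by simp [φ]⟩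
  obtain ⟨hfinA, hAM⟩ := card_le_card_hopfM_of_hasSchurMultiplier φ hφ hA
  have hbs := hopfBar_surjective φ hφ
  have hcenR := hopfBar_ker_le_center φ
  have hcommQ : commutator Q = (commutator (HopfE φ)).map (hopfBar φ) := by
    rw [map_commutator_eq, MonoidHom.range_eq_top.mpr hbs, commutator_def]
  obtain ⟨S₁, hS₁, hS₁c, hS₁M⟩ := exists_hopf_complement φ (hopfBar φ).ker le_rfl
  have hS₁M' : S₁ ⊔ hopfM φ = (hopfBar φ).ker := hS₁M
  have hS₁n : S₁.Normal := normal_of_le_center_aux S₁ (hS₁.trans hcenR)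
  obtain ⟨hstem₁, hfin₁, ⟨eM₁⟩⟩ := hopf_quotient_stem φ hφ S₁ hS₁ hS₁c (le_of_eq hS₁M'.symm)
  have hfin₁' : Finite (HopfE φ ⧸ S₁) := hfin₁
  have hkerA₁ : Nonempty ((QuotientGroup.lift S₁ (hopfBar φ) hS₁).ker ≃* A) :=
    ker_equiv_of_hasSchurMultiplier φ hφ hA _ hstem₁ (le_of_eq (Nat.card_congr eM₁.toEquiv))
  obtain ⟨eA₁⟩ := hkerA₁
  let eM : hopfM φ ≃* A := eM₁.trans eA₁
  -- an element of `A` which is not a `p`-th power
  have hm₀ : ∃ m₀ : A, ∀ m : A, m ^ p ≠ m₀ := by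
    by_contra hcon
    push Not at hcon
    have hsurj : Function.Surjective (powMonoidHom p : A →* A) := hcon
    have hinj := (Finite.injective_iff_surjective).mpr hsurj
    obtain ⟨m₁, hm₁⟩ := exists_prime_orderOf_dvd_card' p hpa
    have h1 : m₁ = 1 := hinj (by
      show m₁ ^ p = 1 ^ p
      rw [one_pow, ← hm₁, pow_orderOf_eq_one])
    rw [h1, orderOf_one] at hm₁
    exact hp.one_lt.ne hm₁
  obtain ⟨m₀, hm₀⟩ := hm₀
  -- an element of order `p` in the commutator quotient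
  obtain ⟨qb, hqb⟩ := exists_prime_orderOf_dvd_card' p hpb
  obtain ⟨q, rfl⟩ := QuotientGroup.mk_surjective qb
  obtain ⟨x, rfl⟩ := hbs q
  have hxne : Abelianization.of (hopfBar φ x) ≠ 1 := by
    intro h1
    have h2 : orderOf (Abelianization.of (hopfBar φ x)) = p := hqb
    rw [h1, orderOf_one] at h2
    exact hp.one_lt.ne h2
  have hxp : Abelianization.of (hopfBar φ x) ^ p = 1 := by
    have h2 : orderOf (Abelianization.of (hopfBar φ x)) = p := hqb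
    rw [← h2]
    exact pow_orderOf_eq_one _
  have hlamc : ∀ c ∈ commutator (HopfE φ), hopfAb φ c = 1 := by
    intro c hc
    rw [← MonoidHom.mem_ker, hopfAb_ker]
    exact hc
  -- the element `s₀`
  have hs₀ : ∃ s₀ : S₁, hopfAb φ x ^ p = hopfAb φ (s₀ : HopfE φ) := by
    have h1 : hopfBar φ (x ^ p) ∈ commutator Q := by
      rw [← Abelianization.ker_of, MonoidHom.mem_ker, map_pow, map_pow]
      exact hxp
    rw [hcommQ] at h1
    obtain ⟨c, hc, hcx⟩ := h1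
    have h2 : x ^ p * c⁻¹ ∈ S₁ ⊔ hopfM φ := by
      rw [hS₁M', MonoidHom.mem_ker, map_mul, map_inv, hcx, mul_inv_cancel]
    rw [← SetLike.mem_coe, Subgroup.normal_mul] at h2
    obtain ⟨s, hs, m, hm, hsm⟩ := h2
    refine ⟨⟨s, hs⟩, ?_⟩
    have h3 : x ^ p = s * (m * c) := by
      have hsm' : s * m = x ^ p * c⁻¹ := hsm
      rw [← mul_assoc, hsm', inv_mul_cancel_right]
    rw [← map_pow, h3, map_mul, hlamc _ (Subgroup.mul_mem _ hm.2 hc), mul_one]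
  obtain ⟨s₀, hs₀⟩ := hs₀
  have hxS : ∀ s : S₁, hopfAb φ x ≠ hopfAb φ (s : HopfE φ) := by
    intro s hs
    have h1 : (s : HopfE φ)⁻¹ * x ∈ commutator (HopfE φ) := by
      rw [← hopfAb_ker, MonoidHom.mem_ker, map_mul, map_inv, hs, inv_mul_cancel]
    have h2 : hopfBar φ ((s : HopfE φ)⁻¹ * x) ∈ commutator Q := by
      rw [hcommQ]
      exact ⟨_, h1, rfl⟩
    rw [map_mul, map_inv, MonoidHom.mem_ker.mp (hS₁ s.2), inv_one, one_mul,
      ← Abelianization.ker_of, MonoidHom.mem_ker] at h2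
    exact hxne h2
  obtain ⟨Θ, k, hk, hΘ⟩ := exists_hom_not_dvd (hopfAb φ)
    (FreeAbelianGroup.equivFinsupp Q).toAddMonoidHom (FreeAbelianGroup.equivFinsupp Q).injective
    S₁ (hS₁.trans hcenR) p hp x s₀ hs₀ hxS m₀
  -- the second complement
  let Θ' : S₁ →* hopfM φ := eM.symm.toMonoidHom.comp Θ
  have hMcen : ∀ m : hopfM φ, (m : HopfE φ) ∈ Subgroup.center (HopfE φ) := fun m => hcenR m.2.1
  let τ : S₁ →* HopfE φ := MonoidHom.mk' (fun s => (s : HopfE φ) * (Θ' s : HopfE φ)) (by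
    intro s t
    show ((s * t : S₁) : HopfE φ) * ((Θ' (s * t) : hopfM φ) : HopfE φ) =
      (s : HopfE φ) * (Θ' s : HopfE φ) * ((t : HopfE φ) * (Θ' t : HopfE φ))
    have hc := Subgroup.mem_center_iff.mp (hMcen (Θ' s)) (t : HopfE φ)
    rw [map_mul, Subgroup.coe_mul, Subgroup.coe_mul, mul_assoc, mul_assoc,
      ← mul_assoc (t : HopfE φ), hc, mul_assoc])
  have hτ : ∀ s : S₁, τ s = (s : HopfE φ) * (Θ' s : HopfE φ) := fun s => rfl
  obtain ⟨S₂, hS₂def⟩ : ∃ S₂ : Subgroup (HopfE φ), S₂ = τ.range := ⟨_, rfl⟩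
  have hS₂ : S₂ ≤ (hopfBar φ).ker := by
    rw [hS₂def]
    rintro _ ⟨s, rfl⟩
    rw [hτ]
    exact Subgroup.mul_mem _ (hS₁ s.2) (Θ' s).2.1
  have hS₂c : S₂ ⊓ commutator (HopfE φ) = ⊥ := by
    rw [hS₂def, eq_bot_iff]
    rintro _ ⟨⟨s, rfl⟩, hc⟩
    have hc' : (s : HopfE φ) * (Θ' s : HopfE φ) ∈ commutator (HopfE φ) := hc
    have hs : (s : HopfE φ) ∈ commutator (HopfE φ) := by
      have h1 := Subgroup.mul_mem _ hc' (Subgroup.inv_mem _ (Θ' s).2.2)
      rwa [mul_inv_cancel_right] at h1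
    have hs1 : (s : HopfE φ) ∈ S₁ ⊓ commutator (HopfE φ) := ⟨s.2, hs⟩
    rw [hS₁c] at hs1
    have hs2 : s = 1 := Subtype.ext hs1
    rw [hs2, map_one]
    exact Subgroup.one_mem _
  have hS₂M : (hopfBar φ).ker ≤ S₂ ⊔ hopfM φ := by
    intro r hr
    rw [← hS₁M', ← SetLike.mem_coe, Subgroup.normal_mul] at hr
    obtain ⟨s, hs, m, hm, rfl⟩ := hr
    have h1 : s * m = τ ⟨s, hs⟩ * (((Θ' ⟨s, hs⟩ : hopfM φ) : HopfE φ)⁻¹ * m) := by
      rw [hτ]
      group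
    show s * m ∈ S₂ ⊔ hopfM φ
    rw [h1]
    refine Subgroup.mul_mem _ (Subgroup.mem_sup_left ?_) (Subgroup.mem_sup_right
      (Subgroup.mul_mem _ (Subgroup.inv_mem _ (Θ' _).2) hm))
    rw [hS₂def]
    exact ⟨_, rfl⟩
  have hS₂n : S₂.Normal := normal_of_le_center_aux S₂ (hS₂.trans hcenR)
  obtain ⟨hstem₂, hfin₂, ⟨eM₂⟩⟩ := hopf_quotient_stem φ hφ S₂ hS₂ hS₂c hS₂M
  have hfin₂' : Finite (HopfE φ ⧸ S₂) := hfin₂
  obtain ⟨ε, hε⟩ := h (HopfE φ ⧸ S₁) (HopfE φ ⧸ S₂) _ _ hstem₁ hstem₂ ⟨eA₁⟩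
    ⟨eM₂.symm.trans eM⟩
  have hε' : ∀ y : HopfE φ, (QuotientGroup.lift S₂ (hopfBar φ) hS₂)
      (ε (QuotientGroup.mk' S₁ y)) = hopfBar φ y := by
    intro y
    have h1 := congrArg (fun f => f (QuotientGroup.mk' S₁ y)) hε
    exact h1
  -- `ε ∘ mk₁` and `mk₂` differ by central elements
  have hcent : ∀ y : HopfE φ, (QuotientGroup.mk' S₂ y)⁻¹ * ε (QuotientGroup.mk' S₁ y) ∈
      (QuotientGroup.lift S₂ (hopfBar φ) hS₂).ker := by
    intro y
    rw [MonoidHom.mem_ker, map_mul, map_inv, hε']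
    exact inv_mul_cancel _
  -- they agree on the commutator subgroup
  have hagree : ∀ c ∈ commutator (HopfE φ),
      ε (QuotientGroup.mk' S₁ c) = QuotientGroup.mk' S₂ c := by
    intro c hc
    rw [commutator_eq_closure] at hc
    have h1 : Set.EqOn (ε.toMonoidHom.comp (QuotientGroup.mk' S₁)) (QuotientGroup.mk' S₂)
        (commutatorSet (HopfE φ)) := by
      rintro _ ⟨a, b, rfl⟩
      show ε (QuotientGroup.mk' S₁ ⁅a, b⁆) = QuotientGroup.mk' S₂ ⁅a, b⁆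
      rw [map_commutatorElement, map_commutatorElement, map_commutatorElement]
      exact commutatorElement_eq_of_central (hstem₂.2.1 (hcent a)) (hstem₂.2.1 (hcent b))
    exact MonoidHom.eqOn_closure h1 hc
  -- the image of `x`
  have hx1 : ∃ m₁ : hopfM φ, ε (QuotientGroup.mk' S₁ x) =
      QuotientGroup.mk' S₂ (x * (m₁ : HopfE φ)) := by
    obtain ⟨y, hy⟩ := QuotientGroup.mk'_surjective S₂
      ((QuotientGroup.mk' S₂ x)⁻¹ * ε (QuotientGroup.mk' S₁ x))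
    have hy1 : y ∈ (hopfBar φ).ker := by
      have h1 := hcent x
      rw [← hy] at h1
      exact h1
    have hy2 := hS₂M hy1
    rw [← SetLike.mem_coe, Subgroup.normal_mul] at hy2
    obtain ⟨s, hs, m, hm, rfl⟩ := hy2
    refine ⟨⟨m, hm⟩, ?_⟩
    have hs1 : QuotientGroup.mk' S₂ s = 1 := (QuotientGroup.eq_one_iff s).mpr hs
    have hy' : QuotientGroup.mk' S₂ (s * m) =
        (QuotientGroup.mk' S₂ x)⁻¹ * ε (QuotientGroup.mk' S₁ x) := hy
    rw [map_mul, hs1, one_mul] at hy'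
    rw [map_mul]
    show _ = _ * QuotientGroup.mk' S₂ m
    rw [hy', mul_inv_cancel_left]
  obtain ⟨m₁, hm₁⟩ := hx1
  -- the commutator `c` with `x ^ p = s₀ * c`
  obtain ⟨c, hcdef⟩ : ∃ c : HopfE φ, c = (s₀ : HopfE φ)⁻¹ * x ^ p := ⟨_, rfl⟩
  have hc : c ∈ commutator (HopfE φ) := by
    rw [hcdef, ← hopfAb_ker, MonoidHom.mem_ker, map_mul, map_inv, map_pow, hs₀, inv_mul_cancel]
  have hxp' : x ^ p = (s₀ : HopfE φ) * c := by
    rw [hcdef, mul_inv_cancel_left]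
  have hcomm_xm : Commute x (m₁ : HopfE φ) := Subgroup.mem_center_iff.mp (hMcen m₁) x
  have h3 : ε (QuotientGroup.mk' S₁ (x ^ p)) =
      QuotientGroup.mk' S₂ (x ^ p * (m₁ : HopfE φ) ^ p) := by
    rw [map_pow, map_pow, hm₁, ← map_pow, hcomm_xm.mul_pow]
  have hs₀1 : QuotientGroup.mk' S₁ (s₀ : HopfE φ) = 1 := (QuotientGroup.eq_one_iff _).mpr s₀.2
  have h4 : ε (QuotientGroup.mk' S₁ (x ^ p)) = QuotientGroup.mk' S₂ c := by
    rw [hxp', map_mul, hs₀1, one_mul, hagree c hc]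
  have h5 : c⁻¹ * (x ^ p * (m₁ : HopfE φ) ^ p) ∈ S₂ := by
    have h6 : QuotientGroup.mk' S₂ c = QuotientGroup.mk' S₂ (x ^ p * (m₁ : HopfE φ) ^ p) :=
      h4.symm.trans h3
    exact QuotientGroup.eq.mp h6
  have hcomm_s : x ^ p * (s₀ : HopfE φ) = (s₀ : HopfE φ) * x ^ p :=
    Subgroup.mem_center_iff.mp (hcenR (hS₁ s₀.2)) (x ^ p)
  have h7 : c⁻¹ * (x ^ p * (m₁ : HopfE φ) ^ p) = (s₀ : HopfE φ) * (m₁ : HopfE φ) ^ p := by
    rw [hcdef, mul_inv_rev, inv_inv, mul_assoc, ← mul_assoc (s₀ : HopfE φ), ← hcomm_s, mul_assoc,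
      inv_mul_cancel_left]
  rw [h7, hS₂def] at h5
  obtain ⟨s, hs⟩ := h5
  rw [hτ] at hs
  have h8 : (s₀ : HopfE φ)⁻¹ * (s : HopfE φ) =
      (m₁ : HopfE φ) ^ p * ((Θ' s : hopfM φ) : HopfE φ)⁻¹ := by
    calc (s₀ : HopfE φ)⁻¹ * (s : HopfE φ)
        = (s₀ : HopfE φ)⁻¹ * ((s : HopfE φ) * ((Θ' s : hopfM φ) : HopfE φ)) *
          ((Θ' s : hopfM φ) : HopfE φ)⁻¹ := by group
      _ = (s₀ : HopfE φ)⁻¹ * ((s₀ : HopfE φ) * (m₁ : HopfE φ) ^ p) *
          ((Θ' s : hopfM φ) : HopfE φ)⁻¹ := by rw [hs]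
      _ = (m₁ : HopfE φ) ^ p * ((Θ' s : hopfM φ) : HopfE φ)⁻¹ := by group
  have h9 : (s₀ : HopfE φ)⁻¹ * (s : HopfE φ) ∈ S₁ ⊓ commutator (HopfE φ) := by
    refine ⟨Subgroup.mul_mem _ (Subgroup.inv_mem _ s₀.2) s.2, ?_⟩
    show (s₀ : HopfE φ)⁻¹ * (s : HopfE φ) ∈ commutator (HopfE φ)
    rw [h8]
    exact Subgroup.mul_mem _ (Subgroup.pow_mem _ m₁.2.2 p) (Subgroup.inv_mem _ (Θ' s).2.2)
  rw [hS₁c] at h9
  have h10 : s = s₀ := by
    apply Subtype.ext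
    have h11 : (s₀ : HopfE φ)⁻¹ * (s : HopfE φ) = 1 := h9
    exact (inv_mul_eq_one.mp h11).symm
  rw [h10] at hs
  have h12 : Θ' s₀ = m₁ ^ p := by
    apply Subtype.ext
    rw [Subgroup.coe_pow]
    exact mul_left_cancel hs
  have h13 : Θ s₀ = (eM m₁) ^ p := by
    have h14 : eM (Θ' s₀) = Θ s₀ := eM.apply_symm_apply (Θ s₀)
    rw [← h14, h12, map_pow]
  rw [hΘ] at h13
  obtain ⟨a, b, hab⟩ := (Nat.prime_iff_prime_int.mp hp).irreducible.coprime_iff_not_dvd.mpr hk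
  apply hm₀ (m₀ ^ a * (eM m₁) ^ b)
  have e1 : (m₀ ^ a) ^ p = m₀ ^ (a * (p : ℤ)) := by rw [← zpow_natCast, ← zpow_mul]
  have e2 : ((eM m₁) ^ b) ^ p = ((eM m₁) ^ p) ^ b := by
    rw [← zpow_natCast, ← zpow_mul, mul_comm, zpow_mul, zpow_natCast]
  calc (m₀ ^ a * (eM m₁) ^ b) ^ p = (m₀ ^ a) ^ p * ((eM m₁) ^ b) ^ p := mul_pow _ _ _
    _ = m₀ ^ (a * (p : ℤ)) * ((eM m₁) ^ p) ^ b := by rw [e1, e2]
    _ = m₀ ^ (a * (p : ℤ)) * (m₀ ^ k) ^ b := by rw [h13]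
    _ = m₀ ^ (a * (p : ℤ) + k * b) := by rw [← zpow_mul, ← zpow_add]
    _ = m₀ := by rw [show a * (p : ℤ) + k * b = 1 by linarith, zpow_one]

/-- Let `Q` be a finite group with Schur multiplier `A`. Any two Schur covering groups of `Q` (finite stem extensions `σ₁ : Γ₁ →* Q`, `σ₂ : Γ₂ →* Q` with kernels isomorphic to `A`, `Γ₁, Γ₂` in the universe of `Q`) are isomorphic over `Q` — there is a group isomorphism `e : Γ₁ ≃* Γ₂` with `σ₂ ∘ e = σ₁` — if and only if the order of the commutator quotient of `Q` is coprime to the order of `A`. In particular a finite perfect group has a unique Schur covering group up to isomorphism over it. -/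
theorem result {Q : Type u} [Group Q] [Finite Q] {A : Type v} [CommGroup A] (hA : Cfsg.HasSchurMultiplier Q A) : (∀ (Γ₁ Γ₂ : Type u) [Group Γ₁] [Finite Γ₁] [Group Γ₂] [Finite Γ₂] (σ₁ : Γ₁ →* Q) (σ₂ : Γ₂ →* Q), Cfsg.IsStemExtension σ₁ → Cfsg.IsStemExtension σ₂ → Nonempty (σ₁.ker ≃* A) → Nonempty (σ₂.ker ≃* A) → ∃ e : Γ₁ ≃* Γ₂, σ₂.comp e.toMonoidHom = σ₁) ↔ Nat.Coprime (Nat.card (Abelianization Q)) (Nat.card A) := by
  constructor
  · intro h
    exact coprime_of_unique hA h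
  · intro hcop Γ₁ Γ₂ _ _ _ _ σ₁ σ₂ h₁ h₂ e₁ e₂
    obtain ⟨e₁⟩ := e₁
    obtain ⟨e₂⟩ := e₂
    exact unique_of_coprime hA hcop Γ₁ Γ₂ σ₁ σ₂ h₁ h₂ e₁ e₂

end Cfsg.Agent.S3974
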