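import Cfsg.Statements.S3975
import Cfsg.Agent.Helper66.Wielandt

set_option autoImplicit false
open Cfsg

namespace Cfsg.Agent.S3975

/-- Let `p` be a prime and `G` a finite group whose order is divisible by `p ^ β`. Then the number of subgroups of `G` of order `p ^ β` is congruent to `1` modulo `p`. (When `p ^ β` is the full power of `p` dividing the order, these are the Sylow `p`-subgroups and this is the usual Sylow count.) -/
theorem result {G : Type*} [Group G] [Finite G] (p β : ℕ) (hp : p.Prime) (hdiv : p ^ β ∣ Nat.card G) : Nat.card {H : Subgroup G // Nat.card H = p ^ β} ≡ 1 [MOD p] :=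
  Cfsg.Agent.Helper66.card_subgroups_prime_pow_modEq_one p β hp hdiv

end Cfsg.Agent.S3975
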