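import Cfsg.Statements.S3977
import Cfsg.Agent.Helper49.OddCyclic
import Cfsg.Agent.Helper53.Quat

set_option autoImplicit false
open Cfsg

namespace Cfsg.Agent.S3977

/-- In a finite cyclic group, subgroups of the same order are equal. -/
theorem eq_of_card_eq_of_isCyclic {C : Type*} [Group C] [Finite C] [IsCyclic C]
    (A B : Subgroup C) (h : Nat.card A = Nat.card B) : A = B := by
  classical
  have : Fintype C := Fintype.ofFinite C
  have hpos : 0 < Nat.card A := Nat.card_pos
  have h1 := IsCyclic.card_pow_eq_one_le (α := C) hpos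
  have key : ∀ D : Subgroup C, Nat.card D = Nat.card A →
      (D : Set C) = ((Finset.univ.filter (fun a : C => a ^ Nat.card A = 1) : Finset C) : Set C) := by
    intro D hD
    apply Set.eq_of_subset_of_ncard_le
    · intro y hy
      rw [Finset.mem_coe, Finset.mem_filter]
      refine ⟨Finset.mem_univ _, ?_⟩
      have h2 : (⟨y, hy⟩ : D) ^ Nat.card D = 1 := pow_card_eq_one'
      rw [← hD]; exact congrArg Subtype.val h2
    · rw [Set.ncard_coe_finset]
      have h3 : (D : Set C).ncard = Nat.card D := Nat.card_coe_set_eq _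
      rw [h3, hD]; exact h1
    · exact Set.toFinite _
  exact SetLike.coe_injective ((key A rfl).trans (key B h.symm).symm)

/-- Let `p` be a prime and `G` a group of order `p ^ m` which has exactly one subgroup of order `p ^ s`, where `1 ≤ s < m`, and where `s ≥ 2` if `p = 2`. Then `G` is cyclic. (For `p = 2` and `s = 1` the generalized quaternion groups also occur; that case is the classical criterion for a unique involution.) -/
theorem result {G : Type*} [Group G] [Finite G] (p m s : ℕ) (hp : p.Prime) (hG : Nat.card G = p ^ m) (hs : 1 ≤ s) (hsm : s < m) (h2 : p ≠ 2 ∨ 2 ≤ s) (huniq : ∀ H K : Subgroup G, Nat.card H = p ^ s → Nat.card K = p ^ s → H = K) : IsCyclic G := by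
  have hfact : Fact p.Prime := ⟨hp⟩
  have hPG : IsPGroup p G := IsPGroup.of_card hG
  have hdvd : p ^ s ∣ Nat.card G := hG ▸ pow_dvd_pow p hsm.le
  obtain ⟨H, hH⟩ := Sylow.exists_subgroup_card_pow_prime p hdvd
  -- small subgroups lie in `H`
  have F1 : ∀ L : Subgroup G, ∀ j, j ≤ s → Nat.card L = p ^ j → L ≤ H := by
    intro L j hj hL
    obtain ⟨K, hK, hLK⟩ := Sylow.exists_subgroup_card_pow_prime_le p hdvd L hL hj
    rw [← huniq K H hK hH]; exact hLK
  -- elements outside `H` generate subgroups containing `H`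
  have F2 : ∀ x : G, x ∉ H → H ≤ Subgroup.zpowers x := by
    intro x hx
    obtain ⟨j, hj⟩ := IsPGroup.iff_card.mp (hPG.to_subgroup (Subgroup.zpowers x))
    have hjs : s < j := by
      by_contra hcon
      exact hx (F1 _ j (not_lt.mp hcon) hj (Subgroup.mem_zpowers x))
    obtain ⟨K', hK'⟩ := Sylow.exists_subgroup_card_pow_prime (G := Subgroup.zpowers x) p
      (n := s) (hj ▸ pow_dvd_pow p hjs.le)
    have hK : Nat.card (K'.map (Subgroup.zpowers x).subtype) = p ^ s := by
      rw [Subgroup.card_map_of_injective (Subgroup.subtype_injective _), hK']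
    rw [← huniq _ H hK hH]
    exact Subgroup.map_subtype_le _
  obtain ⟨x₀, hx₀⟩ : ∃ x : G, x ∉ H := by
    by_contra hcon
    have h1 : H = ⊤ := (Subgroup.eq_top_iff' H).mpr (fun x => by
      by_contra hx; exact hcon ⟨x, hx⟩)
    rw [h1, Subgroup.card_top, hG] at hH
    have h3 := Nat.pow_right_injective hp.two_le hH
    omega
  have hHcyc : IsCyclic H := Subgroup.isCyclic_of_le (F2 x₀ hx₀)
  -- uniqueness of subgroups of small order
  have F3 : ∀ L₁ L₂ : Subgroup G, ∀ j, j ≤ s → Nat.card L₁ = p ^ j → Nat.card L₂ = p ^ j →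
      L₁ = L₂ := by
    intro L₁ L₂ j hj h1 h2
    have hle1 := F1 L₁ j hj h1
    have hle2 := F1 L₂ j hj h2
    have h3 := eq_of_card_eq_of_isCyclic (L₁.subgroupOf H) (L₂.subgroupOf H) (by
      rw [Nat.card_congr (Subgroup.subgroupOfEquivOfLe hle1).toEquiv,
        Nat.card_congr (Subgroup.subgroupOfEquivOfLe hle2).toEquiv, h1, h2])
    rw [Subgroup.subgroupOf_inj, inf_of_le_left hle1, inf_of_le_left hle2] at h3
    exact h3
  by_cases hp2 : p = 2
  · -- the case `p = 2`, `s ≥ 2`
    subst hp2
    have hs2 : 2 ≤ s := by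
      rcases h2 with h | h
      · exact absurd rfl h
      · exact h
    have hdvd2 : 2 ∣ Nat.card G := by
      rw [hG]; exact dvd_pow_self 2 (by omega)
    obtain ⟨z, hz⟩ := exists_prime_orderOf_dvd_card' 2 hdvd2
    have hzu : ∀ t : G, orderOf t = 2 → t = z := by
      intro t ht
      have h1 : Subgroup.zpowers t = Subgroup.zpowers z := by
        apply F3 _ _ 1 hs
        · rw [Nat.card_zpowers, ht, pow_one]
        · rw [Nat.card_zpowers, hz, pow_one]
      have h3 : t ∈ Subgroup.zpowers z := h1 ▸ Subgroup.mem_zpowers t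
      classical
      rw [mem_zpowers_iff_mem_range_orderOf, hz] at h3
      simp [Finset.range_add_one] at h3
      rcases h3 with h3 | h3
      · exact h3
      · rw [h3, orderOf_one] at ht; omega
    rcases Cfsg.Agent.Helper53.unique_invol_structure hPG z hz hzu with ⟨x, hx⟩ | h
    · exact ⟨x, hx⟩
    · exfalso
      obtain ⟨a, y, k, hk, hak, -, hya, -, hyy, haz⟩ := h
      have hz1 : z ≠ 1 := by
        intro h1; rw [h1, orderOf_one] at hz; omega
      have hz2 : z ^ 2 = 1 := by rw [← hz]; exact pow_orderOf_eq_one z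
      have hy4 : orderOf y = 2 ^ 2 := by
        apply orderOf_eq_prime_pow
        · rw [pow_one, pow_two, hyy]; exact hz1
        · have : y ^ 2 ^ (1 + 1) = (y * y) ^ 2 := by rw [← pow_two, ← pow_mul]; norm_num
          rw [this, hyy, hz2]
      have hb4 : orderOf (a ^ 2 ^ (k - 2)) = 2 ^ 2 := by
        have hb2 : (a ^ 2 ^ (k - 2)) ^ 2 = z := by
          rw [← pow_mul, ← pow_succ, ← haz]; congr 2; omega
        apply orderOf_eq_prime_pow
        · rw [pow_one, hb2]; exact hz1
        · have : (a ^ 2 ^ (k - 2)) ^ 2 ^ (1 + 1) = ((a ^ 2 ^ (k - 2)) ^ 2) ^ 2 := by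
            rw [← pow_mul (a ^ 2 ^ (k - 2))]; norm_num
          rw [this, hb2, hz2]
      have h1 : Subgroup.zpowers y = Subgroup.zpowers (a ^ 2 ^ (k - 2)) := by
        apply F3 _ _ 2 hs2
        · rw [Nat.card_zpowers, hy4]
        · rw [Nat.card_zpowers, hb4]
      have h3 : y ∈ Subgroup.zpowers (a ^ 2 ^ (k - 2)) := h1 ▸ Subgroup.mem_zpowers y
      have h4 : Subgroup.zpowers (a ^ 2 ^ (k - 2)) ≤ Subgroup.zpowers a := by
        rw [Subgroup.zpowers_le]; exact Subgroup.pow_mem _ (Subgroup.mem_zpowers a) _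
      exact hya (h4 h3)
  · -- the case of odd `p`
    apply Cfsg.Agent.Helper49.isCyclic_of_pRankLE_one hp2 hPG
    intro A hA hAp
    by_cases hbot : A = ⊥
    · rw [hbot, Subgroup.card_bot]; exact Nat.one_le_pow _ _ hp.pos
    · obtain ⟨a₀, ha₀1⟩ := (Subgroup.ne_bot_iff_exists_ne_one).mp hbot
      have ha₀A : (a₀ : G) ∈ A := a₀.2
      have hord : ∀ a : G, a ∈ A → a ≠ 1 → Nat.card (Subgroup.zpowers a) = p ^ 1 := by
        intro a ha ha1
        rw [Nat.card_zpowers, pow_one]
        exact orderOf_eq_prime (hAp a ha) ha1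
      have ha₀1' : (a₀ : G) ≠ 1 := fun h => ha₀1 (Subtype.ext h)
      have hle : A ≤ Subgroup.zpowers (a₀ : G) := by
        intro a ha
        by_cases ha1 : a = 1
        · rw [ha1]; exact Subgroup.one_mem _
        · have h1 := F3 _ _ 1 hs (hord a ha ha1) (hord a₀ ha₀A ha₀1')
          exact h1 ▸ Subgroup.mem_zpowers a
      calc Nat.card A ≤ Nat.card (Subgroup.zpowers (a₀ : G)) := Subgroup.card_le_of_le hle
        _ = p ^ 1 := hord a₀ ha₀A ha₀1'

end Cfsg.Agent.S3977
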