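import Cfsg.Statements.S3980
import Cfsg.Agent.Helper65.Hopf2

set_option autoImplicit false
universe u v w
open Cfsg

namespace Cfsg.Agent.S3980

open Cfsg.Agent.Helper65
open scoped commutatorElement

/-- A surjection from an abstract Schur multiplier onto the Hopf multiplier. -/
theorem exists_surj_hopfM {Q : Type u} [Group Q] [Finite Q] {A : Type w} [CommGroup A]
    (hA : Cfsg.HasSchurMultiplier Q A) (φ : FreeGroup Q →* Q) (hφ : Function.Surjective φ) :
    ∃ π : A →* hopfM φ, Function.Surjective π := by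
  obtain ⟨S, hS, h1, h2⟩ := exists_hopf_complement φ (hopfBar φ).ker le_rfl
  have hSn : S.Normal := normal_of_le_center_aux S (hS.trans (hopfBar_ker_le_center φ))
  obtain ⟨hstem, hfin, ⟨e⟩⟩ := hopf_quotient_stem φ hφ S hS h1 (le_of_eq h2.symm)
  obtain ⟨π, hπ⟩ := hA.2 (HopfE φ ⧸ S) (QuotientGroup.lift S (hopfBar φ) hS) hstem
  exact ⟨e.symm.toMonoidHom.comp π, e.symm.surjective.comp hπ⟩

theorem comm_mul_aux {Γ : Type*} [Group Γ] (a b y : Γ)
    (hb : ∀ g : Γ, g * ⁅b, y⁆ = ⁅b, y⁆ * g) : ⁅a * b, y⁆ = ⁅a, y⁆ * ⁅b, y⁆ := by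
  have hb' := hb
  simp only [commutatorElement_def] at hb' ⊢
  calc a * b * y * (a * b)⁻¹ * y⁻¹
      = (a * (b * y * b⁻¹ * y⁻¹)) * y * a⁻¹ * y⁻¹ := by group
    _ = ((b * y * b⁻¹ * y⁻¹) * a) * y * a⁻¹ * y⁻¹ := by rw [hb' a]
    _ = (b * y * b⁻¹ * y⁻¹) * (a * y * a⁻¹ * y⁻¹) := by group
    _ = (a * y * a⁻¹ * y⁻¹) * (b * y * b⁻¹ * y⁻¹) := (hb' _).symm

/-- The homomorphism `e ↦ ⁅θ e, y⁆` into the center. -/
noncomputable def kappa {E Γ : Type*} [Group E] [Group Γ] (θ : E →* Γ) (y : Γ)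
    (h1 : ∀ e, ⁅θ e, y⁆ ∈ Subgroup.center Γ) : E →* Subgroup.center Γ :=
  MonoidHom.mk' (fun e => ⟨⁅θ e, y⁆, h1 e⟩) (fun a b => Subtype.ext (by
    show ⁅θ (a * b), y⁆ = ⁅θ a, y⁆ * ⁅θ b, y⁆
    rw [map_mul]
    exact comm_mul_aux _ _ _ (Subgroup.mem_center_iff.mp (h1 b))))

theorem kappa_coe {E Γ : Type*} [Group E] [Group Γ] (θ : E →* Γ) (y : Γ)
    (h1 : ∀ e, ⁅θ e, y⁆ ∈ Subgroup.center Γ) (x : E) :
    ((kappa θ y h1 x : Subgroup.center Γ) : Γ) = ⁅θ x, y⁆ := rfl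

theorem index_dvd_card_abelianization {E Q : Type*} [Group E] [Group Q] [Finite Q]
    (β : E →* Q) (hβ : Function.Surjective β) (K : Subgroup E) (hK : β.ker ≤ K)
    (hcomm : commutator E ≤ K) : K.index ∣ Nat.card (Abelianization Q) := by
  have hcomap : (K.map β).comap β = K := by
    apply le_antisymm
    · intro x hx
      obtain ⟨k, hk, hkx⟩ := hx
      have h3 : k⁻¹ * x ∈ β.ker := by
        rw [MonoidHom.mem_ker, map_mul, map_inv, hkx, inv_mul_cancel]
      have h4 := K.mul_mem hk (hK h3)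
      rwa [mul_inv_cancel_left] at h4
    · exact Subgroup.le_comap_map _ _
  rw [← hcomap, Subgroup.index_comap_of_surjective _ hβ]
  have h3 : commutator Q ≤ K.map β := by
    have h4 : (commutator E).map β = commutator Q := by
      rw [map_commutator_eq, MonoidHom.range_eq_top.mpr hβ, commutator_def]
    rw [← h4]; exact Subgroup.map_mono hcomm
  have h5 : (K.map β).index ∣ (commutator Q).index := Subgroup.index_dvd_of_le h3
  have h6 : (commutator Q).index = Nat.card (Abelianization Q) :=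
    Subgroup.index_eq_card _
  rw [h6] at h5
  exact h5

/-- If `e ↦ ⁅θ e, y⁆` takes central values and kills the kernel of a surjection `β : E → Q`, then
these commutators have order dividing the order of the abelianization of `Q`. -/
theorem commutator_pow_card_abelianization {E Γ Q : Type*} [Group E] [Group Γ] [Group Q]
    [Finite Q] (β : E →* Q) (hβ : Function.Surjective β) (θ : E →* Γ) (y : Γ)
    (h1 : ∀ e, ⁅θ e, y⁆ ∈ Subgroup.center Γ) (h2 : ∀ r ∈ β.ker, ⁅θ r, y⁆ = 1) (e : E) :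
    ⁅θ e, y⁆ ^ Nat.card (Abelianization Q) = 1 := by
  have hK : β.ker ≤ (kappa θ y h1).ker := fun r hr => by
    rw [MonoidHom.mem_ker]; exact Subtype.ext (h2 r hr)
  have hcomm : commutator E ≤ (kappa θ y h1).ker := by
    rw [commutator_def, Subgroup.commutator_le]
    intro a _ b _
    rw [MonoidHom.mem_ker, map_commutatorElement, commutatorElement_eq_one_iff_commute]
    apply Subtype.ext
    show ((kappa θ y h1 a : Subgroup.center Γ) : Γ) * ((kappa θ y h1 b : Subgroup.center Γ) : Γ)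
      = ((kappa θ y h1 b : Subgroup.center Γ) : Γ) * ((kappa θ y h1 a : Subgroup.center Γ) : Γ)
    exact Subgroup.mem_center_iff.mp (kappa θ y h1 b).2 _
  have hidx := index_dvd_card_abelianization β hβ _ hK hcomm
  have h6 : e ^ (kappa θ y h1).ker.index ∈ (kappa θ y h1).ker := Subgroup.pow_index_mem _ e
  obtain ⟨m, hm⟩ := hidx
  have h7 : kappa θ y h1 (e ^ Nat.card (Abelianization Q)) = 1 := by
    rw [hm, pow_mul]; exact MonoidHom.mem_ker.mp (Subgroup.pow_mem _ h6 m)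
  rw [map_pow] at h7
  have h8 : ((kappa θ y h1 e ^ Nat.card (Abelianization Q) : Subgroup.center Γ) : Γ) = 1 := by
    rw [h7]; rfl
  rw [Subgroup.coe_pow, kappa_coe] at h8
  exact h8

/-- A lift of a surjection through a stem extension maps the part of the kernel inside the
commutator subgroup onto the kernel of the stem extension. -/
theorem lift_stem {E Γ Q : Type*} [Group E] [Group Γ] [Group Q] (β : E →* Q)
    (hβ : Function.Surjective β) (σ : Γ →* Q) (hσ : Cfsg.IsStemExtension σ) (Ψ : E →* Γ)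
    (hΨ : σ.comp Ψ = β) : ∀ z ∈ σ.ker, ∃ c ∈ β.ker ⊓ commutator E, Ψ c = z := by
  obtain ⟨hσs, hσc, hσd⟩ := hσ
  have hΨ' : ∀ x, σ (Ψ x) = β x := fun x => congrArg (fun f => f x) hΨ
  have hdec : ∀ g : Γ, ∃ x : E, (Ψ x)⁻¹ * g ∈ Subgroup.center Γ := by
    intro g
    obtain ⟨x, hx⟩ := hβ (σ g)
    refine ⟨x, hσc ?_⟩
    rw [MonoidHom.mem_ker, map_mul, map_inv, hΨ', hx, inv_mul_cancel]
  have hcomm : commutator Γ ≤ (commutator E).map Ψ := by
    rw [commutator_def, Subgroup.commutator_le]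
    intro a _ b _
    obtain ⟨x, hx⟩ := hdec a
    obtain ⟨y, hy⟩ := hdec b
    rw [commutatorElement_eq_of_central hx hy]
    exact ⟨⁅x, y⁆, Subgroup.commutator_mem_commutator (Subgroup.mem_top x) (Subgroup.mem_top y),
      by rw [map_commutatorElement]⟩
  intro z hz
  obtain ⟨c, hc, rfl⟩ := hcomm (hσd hz)
  refine ⟨c, Subgroup.mem_inf.mpr ⟨?_, hc⟩, rfl⟩
  rw [MonoidHom.mem_ker, ← hΨ']
  exact hz

theorem commutator_prod (G H : Type*) [Group G] [Group H] :
    commutator (G × H) = (commutator G).prod (commutator H) := by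
  rw [commutator_def, commutator_def, commutator_def, ← Subgroup.top_prod_top,
    Subgroup.commutator_prod_prod]

/-- Let `Q₁` and `Q₂` be finite groups whose commutator quotients have coprime orders, with Schur multipliers `A` and `B`. Then the Schur multiplier of `Q₁ × Q₂` is isomorphic to `A × B`. -/
theorem result {Q₁ : Type u} {Q₂ : Type v} [Group Q₁] [Group Q₂] [Finite Q₁] [Finite Q₂] {A B : Type w} [CommGroup A] [CommGroup B] (hA : Cfsg.HasSchurMultiplier Q₁ A) (hB : Cfsg.HasSchurMultiplier Q₂ B) (hcop : Nat.Coprime (Nat.card (Abelianization Q₁)) (Nat.card (Abelianization Q₂))) : Cfsg.HasSchurMultiplier (Q₁ × Q₂) (A × B) := by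
  constructor
  · obtain ⟨Γ₁, _, _, σ₁, hσ₁, ⟨e₁⟩⟩ := hA.1
    obtain ⟨Γ₂, _, _, σ₂, hσ₂, ⟨e₂⟩⟩ := hB.1
    refine ⟨Γ₁ × Γ₂, inferInstance, inferInstance, σ₁.prodMap σ₂, ⟨?_, ?_, ?_⟩, ⟨?_⟩⟩
    · exact Function.Surjective.prodMap hσ₁.1 hσ₂.1
    · rw [MonoidHom.ker_prodMap, Subgroup.center_prod]
      exact Subgroup.prod_mono hσ₁.2.1 hσ₂.2.1
    · rw [MonoidHom.ker_prodMap, commutator_prod]
      exact Subgroup.prod_mono hσ₁.2.2 hσ₂.2.2
    · have hk : (σ₁.prodMap σ₂).ker = σ₁.ker.prod σ₂.ker := MonoidHom.ker_prodMap σ₁ σ₂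
      exact ((MulEquiv.subgroupCongr hk).trans (Subgroup.prodEquiv σ₁.ker σ₂.ker)).trans
        (MulEquiv.prodCongr e₁ e₂)
  · intro Γ _ _ σ hσ
    obtain ⟨hσs, hσc, hσd⟩ := id hσ
    let φ₁ : FreeGroup Q₁ →* Q₁ := FreeGroup.lift id
    have hφ₁ : Function.Surjective φ₁ := fun q => ⟨FreeGroup.of q, by simp [φ₁]⟩
    let φ₂ : FreeGroup Q₂ →* Q₂ := FreeGroup.lift id
    have hφ₂ : Function.Surjective φ₂ := fun q => ⟨FreeGroup.of q, by simp [φ₂]⟩
    obtain ⟨πA, hπA⟩ := exists_surj_hopfM hA φ₁ hφ₁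
    obtain ⟨πB, hπB⟩ := exists_surj_hopfM hB φ₂ hφ₂
    obtain ⟨θ₁, hθ₁⟩ : ∃ θ₁ : HopfE φ₁ →* Γ, ∀ e, σ (θ₁ e) = (hopfBar φ₁ e, 1) := by
      let G₁ : Subgroup Γ := ((MonoidHom.snd Q₁ Q₂).comp σ).ker
      let τ₁ : G₁ →* Q₁ := ((MonoidHom.fst Q₁ Q₂).comp σ).comp G₁.subtype
      have hτs : Function.Surjective τ₁ := by
        intro q
        obtain ⟨g, hg⟩ := hσs (q, 1)
        exact ⟨⟨g, by show (σ g).2 = 1; rw [hg]⟩, by show (σ g).1 = q; rw [hg]⟩
      have hτc : τ₁.ker ≤ Subgroup.center G₁ := by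
        intro x hx
        have h1 : (σ x.1).1 = 1 := hx
        have h2 : (σ x.1).2 = 1 := x.2
        have h3 : x.1 ∈ Subgroup.center Γ :=
          hσc (by rw [MonoidHom.mem_ker]; exact Prod.ext h1 h2)
        rw [Subgroup.mem_center_iff] at h3 ⊢
        intro g
        exact Subtype.ext (h3 g.1)
      obtain ⟨ψ₁, hψ₁⟩ := exists_hopf_lift φ₁ τ₁ hτs hτc
      refine ⟨G₁.subtype.comp ψ₁, fun e => ?_⟩
      have h1 : (σ (ψ₁ e).1).1 = hopfBar φ₁ e := congrArg (fun f => f e) hψ₁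
      have h2 : (σ (ψ₁ e).1).2 = 1 := (ψ₁ e).2
      exact Prod.ext h1 h2
    obtain ⟨θ₂, hθ₂⟩ : ∃ θ₂ : HopfE φ₂ →* Γ, ∀ e, σ (θ₂ e) = (1, hopfBar φ₂ e) := by
      let G₂ : Subgroup Γ := ((MonoidHom.fst Q₁ Q₂).comp σ).ker
      let τ₂ : G₂ →* Q₂ := ((MonoidHom.snd Q₁ Q₂).comp σ).comp G₂.subtype
      have hτs : Function.Surjective τ₂ := by
        intro q
        obtain ⟨g, hg⟩ := hσs (1, q)
        exact ⟨⟨g, by show (σ g).1 = 1; rw [hg]⟩, by show (σ g).2 = q; rw [hg]⟩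
      have hτc : τ₂.ker ≤ Subgroup.center G₂ := by
        intro x hx
        have h1 : (σ x.1).2 = 1 := hx
        have h2 : (σ x.1).1 = 1 := x.2
        have h3 : x.1 ∈ Subgroup.center Γ :=
          hσc (by rw [MonoidHom.mem_ker]; exact Prod.ext h2 h1)
        rw [Subgroup.mem_center_iff] at h3 ⊢
        intro g
        exact Subtype.ext (h3 g.1)
      obtain ⟨ψ₂, hψ₂⟩ := exists_hopf_lift φ₂ τ₂ hτs hτc
      refine ⟨G₂.subtype.comp ψ₂, fun e => ?_⟩
      have h1 : (σ (ψ₂ e).1).2 = hopfBar φ₂ e := congrArg (fun f => f e) hψ₂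
      have h2 : (σ (ψ₂ e).1).1 = 1 := (ψ₂ e).2
      exact Prod.ext h2 h1
    have hcomm : ∀ e₁ e₂, Commute (θ₁ e₁) (θ₂ e₂) := by
      intro e₁ e₂
      have hcen : ∀ a b, ⁅θ₁ a, θ₂ b⁆ ∈ Subgroup.center Γ := by
        intro a b
        apply hσc
        rw [MonoidHom.mem_ker, map_commutatorElement, hθ₁, hθ₂, commutatorElement_def]
        exact Prod.ext (by simp) (by simp)
      have hc1 := commutator_pow_card_abelianization (hopfBar φ₁) (hopfBar_surjective φ₁ hφ₁) θ₁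
        (θ₂ e₂) (fun a => hcen a e₂) (fun r hr => by
          rw [commutatorElement_eq_one_iff_commute]
          have h1 : θ₁ r ∈ Subgroup.center Γ := hσc (by
            rw [MonoidHom.mem_ker, hθ₁, MonoidHom.mem_ker.mp hr]; rfl)
          exact (Subgroup.mem_center_iff.mp h1 (θ₂ e₂)).symm) e₁
      have hc2 := commutator_pow_card_abelianization (hopfBar φ₂) (hopfBar_surjective φ₂ hφ₂) θ₂
        (θ₁ e₁) (fun b => by
          rw [← commutatorElement_inv]; exact Subgroup.inv_mem _ (hcen e₁ b)) (fun r hr => by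
          rw [commutatorElement_eq_one_iff_commute]
          have h1 : θ₂ r ∈ Subgroup.center Γ := hσc (by
            rw [MonoidHom.mem_ker, hθ₂, MonoidHom.mem_ker.mp hr]; rfl)
          exact (Subgroup.mem_center_iff.mp h1 (θ₁ e₁)).symm) e₂
      rw [← commutatorElement_inv, inv_pow, inv_eq_one] at hc2
      have h3 : orderOf ⁅θ₁ e₁, θ₂ e₂⁆ ∣
          Nat.gcd (Nat.card (Abelianization Q₁)) (Nat.card (Abelianization Q₂)) :=
        Nat.dvd_gcd (orderOf_dvd_of_pow_eq_one hc1) (orderOf_dvd_of_pow_eq_one hc2)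
      rw [Nat.Coprime.gcd_eq_one hcop, Nat.dvd_one, orderOf_eq_one_iff] at h3
      exact commutatorElement_eq_one_iff_commute.mp h3
    let Ψ : HopfE φ₁ × HopfE φ₂ →* Γ := θ₁.noncommCoprod θ₂ hcomm
    have hΨapp : ∀ c : HopfE φ₁ × HopfE φ₂, σ (Ψ c) = (hopfBar φ₁ c.1, hopfBar φ₂ c.2) := by
      intro c
      show σ (θ₁ c.1 * θ₂ c.2) = (hopfBar φ₁ c.1, hopfBar φ₂ c.2)
      rw [map_mul, hθ₁, hθ₂]
      exact Prod.ext (by simp) (by simp)
    have hΨ : σ.comp Ψ = (hopfBar φ₁).prodMap (hopfBar φ₂) := by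
      apply MonoidHom.ext
      intro c
      exact hΨapp c
    have hβs : Function.Surjective ((hopfBar φ₁).prodMap (hopfBar φ₂)) :=
      Function.Surjective.prodMap (hopfBar_surjective φ₁ hφ₁) (hopfBar_surjective φ₂ hφ₂)
    have hlift := lift_stem _ hβs σ hσ Ψ hΨ
    let μ : hopfM φ₁ × hopfM φ₂ →* σ.ker :=
      (Ψ.comp ((hopfM φ₁).subtype.prodMap (hopfM φ₂).subtype)).codRestrict σ.ker (by
        rintro ⟨m₁, m₂⟩
        rw [MonoidHom.mem_ker]
        show σ (Ψ (m₁.1, m₂.1)) = 1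
        rw [hΨapp]
        exact Prod.ext m₁.2.1 m₂.2.1)
    refine ⟨μ.comp (πA.prodMap πB), ?_⟩
    have hμ : Function.Surjective μ := by
      rintro ⟨z, hz⟩
      obtain ⟨c, ⟨hc1, hc2⟩, hcz⟩ := hlift z hz
      have hc1' : hopfBar φ₁ c.1 = 1 ∧ hopfBar φ₂ c.2 = 1 := by
        have h1 : ((hopfBar φ₁).prodMap (hopfBar φ₂)) c = 1 := hc1
        exact ⟨congrArg Prod.fst h1, congrArg Prod.snd h1⟩
      have hc2' : c.1 ∈ commutator (HopfE φ₁) ∧ c.2 ∈ commutator (HopfE φ₂) := by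
        have h1 : c ∈ (commutator (HopfE φ₁)).prod (commutator (HopfE φ₂)) := by
          rw [← commutator_prod]; exact hc2
        exact h1
      refine ⟨(⟨c.1, hc1'.1, hc2'.1⟩, ⟨c.2, hc1'.2, hc2'.2⟩), Subtype.ext ?_⟩
      exact hcz
    exact hμ.comp (Function.Surjective.prodMap hπA hπB)

end Cfsg.Agent.S3980
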