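import Cfsg.Statements.S3992
import Cfsg.Agent.S1475
import Cfsg.Agent.S0721
import Cfsg.Agent.Helper1.FpfMain

set_option autoImplicit false
open Cfsg

namespace Cfsg.Agent.S3992

open scoped commutatorElement

/-- The hypothesis in the form used by `S1475`. -/
theorem eppo_or {G : Type*} [Group G] (hpp : ∀ g : G, g ≠ 1 → IsPrimePow (orderOf g)) (g : G) :
    IsPrimePow (orderOf g) ∨ g = 1 := by
  by_cases h : g = 1
  · exact Or.inr h
  · exact Or.inl (hpp g h)

/-- Elements commuting with a nontrivial `q`-element are `q`-elements. -/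
theorem orderOf_of_commute {G : Type*} [Group G]
    (hpp : ∀ g : G, g ≠ 1 → IsPrimePow (orderOf g)) {q : ℕ} (hq : q.Prime) {x y : G} (hx : x ≠ 1)
    (hxq : ∃ a, orderOf x = q ^ a) (hc : Commute x y) : ∃ b, orderOf y = q ^ b := by
  by_cases hy : y = 1
  · exact ⟨0, by rw [hy, orderOf_one, pow_zero]⟩
  obtain ⟨a, ha⟩ := hxq
  obtain ⟨s, b, hs, hb, hsb⟩ := (isPrimePow_nat_iff _).mp (hpp y hy)
  by_cases hsq : s = q
  · exact ⟨b, by rw [← hsb, hsq]⟩
  exfalso
  exact Cfsg.Agent.S1475.eppo_contra (eppo_or hpp) hc hq hs (Ne.symm hsq) ha hsb.symm hx hy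

/-- Automorphisms of a cyclic group commute. -/
theorem mulAut_comm_of_isCyclic {C : Type*} [Group C] [IsCyclic C] (σ τ : MulAut C) :
    σ * τ = τ * σ := by
  obtain ⟨g, hg⟩ := IsCyclic.exists_generator (α := C)
  obtain ⟨m, hm⟩ := Subgroup.mem_zpowers_iff.mp (hg (σ g))
  obtain ⟨n, hn⟩ := Subgroup.mem_zpowers_iff.mp (hg (τ g))
  ext x
  obtain ⟨k, rfl⟩ := Subgroup.mem_zpowers_iff.mp (hg x)
  have h1 : σ (τ (g ^ k)) = g ^ (m * n * k) := by
    rw [map_zpow, map_zpow, ← hn, map_zpow, ← hm, ← zpow_mul, ← zpow_mul, mul_assoc]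
  have h2 : τ (σ (g ^ k)) = g ^ (n * m * k) := by
    rw [map_zpow, map_zpow, ← hm, map_zpow, ← hn, ← zpow_mul, ← zpow_mul, mul_assoc]
  show σ (τ (g ^ k)) = τ (σ (g ^ k))
  rw [h1, h2, mul_comm m n]

/-- A nontrivial solvable normal subgroup contains a nontrivial abelian normal subgroup of the
whole group. -/
theorem exists_abelian_normal {G : Type*} [Group G] (R : Subgroup G) [R.Normal]
    (hRs : Group.IsSolvable ↥R) (hR1 : R ≠ ⊥) :
    ∃ V : Subgroup G, V.Normal ∧ V ≤ R ∧ V ≠ ⊥ ∧ ∀ a ∈ V, ∀ b ∈ V, a * b = b * a := by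
  classical
  have hex : ∃ n, derivedSeries R n = ⊥ := Group.IsSolvable.solvable
  have hk := Nat.find_spec hex
  have hk0 : Nat.find hex ≠ 0 := by
    intro h0
    rw [h0, derivedSeries_zero] at hk
    apply hR1
    rw [eq_bot_iff]
    intro x hx
    have h1 : (⟨x, hx⟩ : R) ∈ (⊤ : Subgroup R) := Subgroup.mem_top _
    rw [hk, Subgroup.mem_bot] at h1
    exact congrArg Subtype.val h1
  obtain ⟨j, hj⟩ := Nat.exists_eq_succ_of_ne_zero hk0
  have hjne : derivedSeries R j ≠ ⊥ := Nat.find_min hex (by omega)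
  have hchar : (derivedSeries R j).Characteristic := derivedSeries_characteristic R j
  rw [hj] at hk
  refine ⟨(derivedSeries R j).map R.subtype, ConjAct.normal_of_characteristic_of_normal,
    Subgroup.map_subtype_le _, ?_, ?_⟩
  · intro h
    apply hjne
    rwa [Subgroup.map_eq_bot_iff_of_injective _ R.subtype_injective] at h
  · rintro _ ⟨a, ha, rfl⟩ _ ⟨b, hb, rfl⟩
    have h1 : ⁅a, b⁆ ∈ derivedSeries R (j + 1) := by
      rw [derivedSeries_succ]; exact Subgroup.commutator_mem_commutator ha hb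
    rw [hk, Subgroup.mem_bot, commutatorElement_eq_one_iff_mul_comm] at h1
    exact congrArg Subtype.val h1

/-- In a nonsolvable group all of whose elements have prime power order, a solvable normal
subgroup is a `p`-group. -/
theorem radical_isPGroup {G : Type*} [Group G] [Finite G] (hns : ¬ Group.IsSolvable G)
    (hpp : ∀ g : G, g ≠ 1 → IsPrimePow (orderOf g)) (R : Subgroup G) [R.Normal]
    (hRs : Group.IsSolvable ↥R) : ∃ p : ℕ, p.Prime ∧ IsPGroup p ↥R := by
  classical
  by_cases hR1 : R = ⊥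
  · exact ⟨2, Nat.prime_two, by rw [hR1]; exact IsPGroup.of_bot⟩
  obtain ⟨V, hVn, hVR, hV1, hVab⟩ := exists_abelian_normal R hRs hR1
  obtain ⟨v₀', hv₀1'⟩ := (Subgroup.ne_bot_iff_exists_ne_one).mp hV1
  obtain ⟨v₀, hv₀V⟩ := v₀'
  have hv₀1 : v₀ ≠ 1 := fun h => hv₀1' (Subtype.ext h)
  obtain ⟨p, a, hp, ha, hpa⟩ := (isPrimePow_nat_iff _).mp (hpp v₀ hv₀1)
  refine ⟨p, hp, ?_⟩
  by_contra hnp
  have hex : ∃ x : R, ¬ ∃ k : ℕ, x ^ p ^ k = 1 := by
    by_contra h
    apply hnp
    intro x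
    by_contra hx
    exact h ⟨x, hx⟩
  obtain ⟨x, hx⟩ := hex
  have hx1 : (x : G) ≠ 1 := by
    intro h
    apply hx
    refine ⟨0, ?_⟩
    rw [pow_zero, pow_one]
    exact Subtype.ext h
  obtain ⟨q, b, hq, hb, hqb⟩ := (isPrimePow_nat_iff _).mp (hpp (x : G) hx1)
  have hqp : q ≠ p := by
    rintro rfl
    apply hx
    refine ⟨b, Subtype.ext ?_⟩
    rw [Subgroup.coe_pow, hqb]
    exact pow_orderOf_eq_one _
  have hqfact : Fact q.Prime := ⟨hq⟩
  have hqR : q ∣ Nat.card R := by
    have h1 : orderOf x ∣ Nat.card R := orderOf_dvd_natCard x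
    rw [Subgroup.orderOf_coe] at hqb
    rw [← hqb] at h1
    exact (dvd_pow_self q hb.ne').trans h1
  obtain ⟨Q⟩ : Nonempty (Sylow q R) := inferInstance
  have hfrat : Subgroup.normalizer (((Q : Subgroup R).map R.subtype : Subgroup G) : Set G) ⊔ R = ⊤ :=
    Sylow.normalizer_sup_eq_top Q
  have hQgp : IsPGroup q ((Q : Subgroup R).map R.subtype) := Q.isPGroup'.map _
  have hQg1 : (Q : Subgroup R).map R.subtype ≠ ⊥ := by
    intro h
    rw [Subgroup.map_eq_bot_iff_of_injective _ R.subtype_injective] at h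
    exact Q.ne_bot_of_dvd_card hqR h
  generalize (Q : Subgroup R).map R.subtype = Qg at hfrat hQgp hQg1
  have hQnt : Nontrivial Qg := (Subgroup.nontrivial_iff_ne_bot Qg).mpr hQg1
  have hcnt : Nontrivial (Subgroup.center Qg) := hQgp.center_nontrivial
  have hCmem : ∀ c : G, c ∈ (Subgroup.center Qg).map Qg.subtype ↔
      c ∈ Qg ∧ ∀ y ∈ Qg, y * c = c * y := by
    intro c
    constructor
    · rintro ⟨c', hc', rfl⟩
      refine ⟨c'.2, fun y hy => ?_⟩
      have h1 := Subgroup.mem_center_iff.mp hc' ⟨y, hy⟩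
      exact congrArg Subtype.val h1
    · rintro ⟨hc, hcc⟩
      refine ⟨⟨c, hc⟩, Subgroup.mem_center_iff.mpr ?_, rfl⟩
      intro y
      exact Subtype.ext (hcc y.1 y.2)
  have hC1 : (Subgroup.center Qg).map Qg.subtype ≠ ⊥ := by
    intro h
    rw [Subgroup.map_eq_bot_iff_of_injective _ Qg.subtype_injective] at h
    exact (Subgroup.nontrivial_iff_ne_bot _).mp hcnt h
  generalize (Subgroup.center Qg).map Qg.subtype = C at hCmem hC1
  have hCcomm : IsMulCommutative C :=
    ⟨⟨fun a b => Subtype.ext (((hCmem b.1).mp b.2).2 a.1 ((hCmem a.1).mp a.2).1)⟩⟩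
  have hVcomm : IsMulCommutative V := ⟨⟨fun a b => Subtype.ext (hVab a.1 a.2 b.1 b.2)⟩⟩
  have hCq : ∀ c ∈ C, ∃ k, orderOf c = q ^ k := by
    intro c hc
    obtain ⟨k, hk⟩ := (IsPGroup.iff_orderOf.mp hQgp) ⟨c, ((hCmem c).mp hc).1⟩
    exact ⟨k, by rw [← hk, Subgroup.orderOf_mk]⟩
  have hVp : ∀ v ∈ V, ∃ k, orderOf v = p ^ k := fun v hv =>
    orderOf_of_commute hpp hp hv₀1 ⟨a, hpa.symm⟩ (hVab v₀ hv₀V v hv)
  have hcyc : IsCyclic C := by
    apply Cfsg.Agent.Helper1.fpf_abelian_isCyclic C V hV1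
    · have h1 : Subgroup.normalizer (V : Set G) = ⊤ := Subgroup.normalizer_eq_top_iff.mpr hVn
      rw [h1]; exact le_top
    · intro c hc hc1
      rw [eq_bot_iff]
      rintro v ⟨hvV, hvc⟩
      rw [Subgroup.mem_bot]
      by_contra hv1
      obtain ⟨k, hk⟩ := hCq c hc
      obtain ⟨l, hl⟩ := hVp v hvV
      have hcomm : Commute c v := (Subgroup.mem_centralizer_singleton_iff.mp hvc).symm
      exact Cfsg.Agent.S1475.eppo_contra (eppo_or hpp) hcomm hq hp hqp hk hl hc1 hv1
  -- the normalizer of `C` is solvable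
  obtain ⟨c₀', hc₀1'⟩ := (Subgroup.ne_bot_iff_exists_ne_one).mp hC1
  obtain ⟨c₀, hc₀C⟩ := c₀'
  have hc₀1 : c₀ ≠ 1 := fun h => hc₀1' (Subtype.ext h)
  have hN2 : Group.IsSolvable (Subgroup.normalizer (C : Set G)) := by
    have hker : Group.IsSolvable (C.normalizerMonoidHom.ker) := by
      have hq' : IsPGroup q (C.normalizerMonoidHom.ker) := by
        intro y
        have hy : (y.1 : G) ∈ Subgroup.centralizer (C : Set G) :=
          (SetLike.ext_iff.mp (Subgroup.normalizerMonoidHom_ker C) y.1).mp y.2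
        have hcomm : Commute c₀ (y.1 : G) := (Subgroup.mem_centralizer_iff.mp hy c₀ hc₀C)
        obtain ⟨b', hb'⟩ := orderOf_of_commute hpp hq hc₀1 (hCq c₀ hc₀C) hcomm
        refine ⟨b', Subtype.ext (Subtype.ext ?_)⟩
        show (y.1 : G) ^ q ^ b' = 1
        rw [← hb']; exact pow_orderOf_eq_one _
      have := hq'.isNilpotent
      infer_instance
    have hrange : Group.IsSolvable (MulAut C) := Group.isSolvable_of_comm mulAut_comm_of_isCyclic
    exact Group.isSolvable_of_ker_le_range (C.normalizerMonoidHom.ker.subtype)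
      C.normalizerMonoidHom (by rw [Subgroup.range_subtype])
  apply hns
  have hle : Subgroup.normalizer (Qg : Set G) ≤ Subgroup.normalizer (C : Set G) := by
    intro g hg
    rw [Subgroup.mem_normalizer_iff] at hg ⊢
    intro c
    rw [hCmem, hCmem]
    constructor
    · rintro ⟨hcQ, hcc⟩
      refine ⟨(hg c).mp hcQ, fun y hy => ?_⟩
      have hy' : g⁻¹ * y * g ∈ Qg := by
        rw [hg (g⁻¹ * y * g)]
        have h1 : g * (g⁻¹ * y * g) * g⁻¹ = y := by group
        rw [h1]; exact hy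
      have h2 := hcc _ hy'
      calc y * (g * c * g⁻¹) = g * ((g⁻¹ * y * g) * c) * g⁻¹ := by group
        _ = g * (c * (g⁻¹ * y * g)) * g⁻¹ := by rw [h2]
        _ = g * c * g⁻¹ * y := by group
    · rintro ⟨hcQ, hcc⟩
      refine ⟨(hg c).mpr hcQ, fun y hy => ?_⟩
      have hy' : g * y * g⁻¹ ∈ Qg := (hg y).mp hy
      have h2 := hcc _ hy'
      have h3 : g * (y * c) * g⁻¹ = g * (c * y) * g⁻¹ := by
        calc g * (y * c) * g⁻¹ = (g * y * g⁻¹) * (g * c * g⁻¹) := by group
          _ = (g * c * g⁻¹) * (g * y * g⁻¹) := h2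
          _ = g * (c * y) * g⁻¹ := by group
      exact mul_left_cancel (mul_right_cancel h3)
  have htop : Subgroup.normalizer (C : Set G) ⊔ R = ⊤ := by
    rw [eq_top_iff, ← hfrat]; exact sup_le_sup_right hle R
  have hquot : Group.IsSolvable (G ⧸ R) := by
    have hsurj : Function.Surjective
        ((QuotientGroup.mk' R).comp (Subgroup.normalizer (C : Set G)).subtype) := by
      intro x
      obtain ⟨g, rfl⟩ := QuotientGroup.mk'_surjective R x
      have hg : g ∈ (↑(Subgroup.normalizer (C : Set G) ⊔ R) : Set G) := by rw [htop]; trivial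
      rw [Subgroup.mul_normal] at hg
      obtain ⟨n, hn, r, hr, rfl⟩ := hg
      refine ⟨⟨n, hn⟩, ?_⟩
      show (QuotientGroup.mk' R) n = (QuotientGroup.mk' R) (n * r)
      have hr1 : (QuotientGroup.mk' R) r = 1 := (QuotientGroup.eq_one_iff r).mpr hr
      rw [map_mul, hr1, mul_one]
    exact Group.isSolvable_of_surjective hsurj
  exact Group.isSolvable_of_ker_le_range R.subtype (QuotientGroup.mk' R)
    (by rw [QuotientGroup.ker_mk', Subgroup.range_subtype])

/-- In a nonsolvable group all of whose elements have prime power order, for each prime `t` some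
nontrivial element has order a power of another prime. -/
theorem exists_other_prime {H : Type*} [Group H] [Finite H] (hns : ¬ Group.IsSolvable H)
    (hpp : ∀ g : H, g ≠ 1 → IsPrimePow (orderOf g)) (t : ℕ) (ht : t.Prime) :
    ∃ x : H, x ≠ 1 ∧ ∃ s k : ℕ, s.Prime ∧ s ≠ t ∧ orderOf x = s ^ k := by
  by_contra hcon
  apply hns
  have hfact : Fact t.Prime := ⟨ht⟩
  have hP : IsPGroup t H := by
    rw [IsPGroup.iff_orderOf]
    intro g
    by_cases hg : g = 1
    · exact ⟨0, by rw [hg, orderOf_one, pow_zero]⟩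
    obtain ⟨s, k, hs, hk, hsk⟩ := (isPrimePow_nat_iff _).mp (hpp g hg)
    by_cases hst : s = t
    · exact ⟨k, by rw [← hsk, hst]⟩
    · exact absurd ⟨g, hg, s, k, hs, hst, hsk.symm⟩ hcon
  have := hP.isNilpotent
  infer_instance

/-- A nonsolvable group with trivial solvable radical all of whose elements have prime power order
has a unique minimal normal subgroup, and it is nonabelian simple. -/
theorem exists_unique_min_normal {G : Type*} [Group G] [Finite G] (hns : ¬ Group.IsSolvable G)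
    (hpp : ∀ g : G, g ≠ 1 → IsPrimePow (orderOf g))
    (hrad : ∀ N : Subgroup G, N.Normal → Group.IsSolvable ↥N → N = ⊥) :
    ∃ M : Subgroup G, M.Normal ∧ IsSimpleGroup ↥M ∧ ¬ IsMulCommutative ↥M ∧
        ∀ N : Subgroup G, N.Normal → N ≠ ⊥ → M ≤ N := by
  classical
  have hSfin : ({M : Subgroup G | M.Normal ∧ M ≠ ⊥} : Set (Subgroup G)).Finite := Set.toFinite _
  have htop : (⊤ : Subgroup G) ∈ ({M : Subgroup G | M.Normal ∧ M ≠ ⊥} : Set (Subgroup G)) := by
    refine ⟨inferInstance, fun h => hns (Group.isSolvable_of_top_eq_bot G h)⟩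
  -- restriction of the hypothesis to subgroups
  have hppM : ∀ M : Subgroup G, ∀ g : M, g ≠ 1 → IsPrimePow (orderOf g) := by
    intro M g hg
    rw [← Subgroup.orderOf_coe]
    exact hpp g (fun h => hg (Subtype.ext h))
  have hnsM : ∀ M : Subgroup G, M.Normal → M ≠ ⊥ → ¬ Group.IsSolvable M :=
    fun M hMn hM1 h => hM1 (hrad M hMn h)
  -- two minimal normal subgroups coincide
  have huniq : ∀ M M' : Subgroup G,
      Minimal (fun x => x ∈ ({M : Subgroup G | M.Normal ∧ M ≠ ⊥} : Set (Subgroup G))) M →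
      Minimal (fun x => x ∈ ({M : Subgroup G | M.Normal ∧ M ≠ ⊥} : Set (Subgroup G))) M' →
      M = M' := by
    intro M M' hM hM'
    obtain ⟨⟨hMn, hM1⟩, hMmin⟩ := hM
    obtain ⟨⟨hM'n, hM'1⟩, hM'min⟩ := hM'
    by_contra hne
    have hinf : M ⊓ M' = ⊥ := by
      by_contra hinf
      have hmem : M ⊓ M' ∈ ({M : Subgroup G | M.Normal ∧ M ≠ ⊥} : Set (Subgroup G)) :=
        ⟨Subgroup.normal_inf_normal M M', hinf⟩
      have h1 : M ≤ M ⊓ M' := hMmin hmem inf_le_left
      have h2 : M' ≤ M ⊓ M' := hM'min hmem inf_le_right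
      exact hne (le_antisymm (h1.trans inf_le_right) (h2.trans inf_le_left))
    have hdis : Disjoint M M' := disjoint_iff.mpr hinf
    obtain ⟨y', hy1'⟩ := (Subgroup.ne_bot_iff_exists_ne_one).mp hM'1
    obtain ⟨y, hyM'⟩ := y'
    have hy1 : y ≠ 1 := fun h => hy1' (Subtype.ext h)
    obtain ⟨t, b, ht, hb, htb⟩ := (isPrimePow_nat_iff _).mp (hpp y hy1)
    obtain ⟨x, hx1, s, k, hs, hst, hxs⟩ :=
      exists_other_prime (hnsM M hMn hM1) (hppM M) t ht
    have hcomm : Commute (x : G) y :=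
      Subgroup.commute_of_normal_of_disjoint M M' hMn hM'n hdis x y x.2 hyM'
    rw [← Subgroup.orderOf_coe] at hxs
    exact Cfsg.Agent.S1475.eppo_contra (eppo_or hpp) hcomm hs ht hst hxs htb.symm
      (fun h => hx1 (Subtype.ext h)) hy1
  obtain ⟨M₀, -, hM₀⟩ := hSfin.exists_le_minimal htop
  have hM₀n : M₀.Normal := hM₀.1.1
  have hM₀1 : M₀ ≠ ⊥ := hM₀.1.2
  have hM₀ns : ¬ Group.IsSolvable M₀ := hnsM M₀ hM₀n hM₀1
  refine ⟨M₀, hM₀n, ?_, ?_, ?_⟩
  · -- simplicity
    have hmin' : ∀ M' : Subgroup G, M'.Normal → M' ≤ M₀ → M' = ⊥ ∨ M' = M₀ := by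
      intro M' hM'n hle
      by_cases hM'1 : M' = ⊥
      · exact Or.inl hM'1
      · exact Or.inr (le_antisymm hle (hM₀.2 ⟨hM'n, hM'1⟩ hle))
    obtain ⟨T, hTg, m, hTs, hm, ⟨e⟩⟩ := Cfsg.Agent.S0721.result M₀ hM₀1 hmin'
    have hm1 : m = 1 := by
      by_contra hm1
      have hm2 : 2 ≤ m := by omega
      have hij : (⟨0, by omega⟩ : Fin m) ≠ ⟨1, by omega⟩ := by
        intro h; simp [Fin.ext_iff] at h
      obtain ⟨x₁, hx₁⟩ := exists_ne (1 : T)
      have hf₁ : e.symm (Pi.mulSingle (⟨0, by omega⟩ : Fin m) x₁) ≠ 1 := by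
        intro h
        have h1 : Pi.mulSingle (⟨0, by omega⟩ : Fin m) x₁ = (1 : Fin m → T) := by
          rw [← e.symm.map_one] at h
          exact e.symm.injective h
        have h2 := congrFun h1 ⟨0, by omega⟩
        rw [Pi.mulSingle_eq_same] at h2
        exact hx₁ h2
      obtain ⟨t, b, ht, hb, htb⟩ := (isPrimePow_nat_iff _).mp (hppM M₀ _ hf₁)
      obtain ⟨g, hg1, s, k, hs, hst, hgs⟩ := exists_other_prime hM₀ns (hppM M₀) t ht
      have heg : e g ≠ 1 := by
        intro h
        rw [← e.map_one] at h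
        exact hg1 (e.injective h)
      obtain ⟨l, hl⟩ : ∃ l, (e g) l ≠ 1 := by
        by_contra hcon
        apply heg
        funext l
        by_contra hl
        exact hcon ⟨l, hl⟩
      have hdvd : orderOf ((e g) l) ∣ s ^ k := by
        rw [← hgs, ← MulEquiv.orderOf_eq e g]
        exact orderOf_map_dvd (Pi.evalMonoidHom (fun _ : Fin m => T) l) (e g)
      obtain ⟨k', -, hk'⟩ := (Nat.dvd_prime_pow hs).mp hdvd
      have hf₂o : orderOf (e.symm (Pi.mulSingle (⟨1, by omega⟩ : Fin m) ((e g) l))) = s ^ k' := by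
        rw [MulEquiv.orderOf_eq e.symm, ← hk']
        exact orderOf_injective (MonoidHom.mulSingle (fun _ : Fin m => T) ⟨1, by omega⟩)
          (Pi.mulSingle_injective (M := fun _ : Fin m => T) (⟨1, by omega⟩ : Fin m)) _
      have hf₂ : e.symm (Pi.mulSingle (⟨1, by omega⟩ : Fin m) ((e g) l)) ≠ 1 := by
        intro h
        have h1 : Pi.mulSingle (⟨1, by omega⟩ : Fin m) ((e g) l) = (1 : Fin m → T) := by
          rw [← e.symm.map_one] at h
          exact e.symm.injective h
        have h2 := congrFun h1 ⟨1, by omega⟩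
        rw [Pi.mulSingle_eq_same] at h2
        exact hl h2
      have hcomm : Commute (e.symm (Pi.mulSingle (⟨0, by omega⟩ : Fin m) x₁))
          (e.symm (Pi.mulSingle (⟨1, by omega⟩ : Fin m) ((e g) l))) :=
        (Pi.mulSingle_commute hij x₁ ((e g) l)).map e.symm
      exact Cfsg.Agent.S1475.eppo_contra (eppo_or (hppM M₀)) hcomm ht hs (Ne.symm hst) htb.symm
        hf₂o hf₁ hf₂
    subst hm1
    exact MulEquiv.isSimpleGroup (e.trans (MulEquiv.funUnique (Fin 1) T))
  · intro h
    exact hM₀ns (Group.isSolvable_of_comm (fun a b => h.is_comm.comm a b))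
  · intro N hNn hN1
    obtain ⟨M, hMN, hM⟩ := hSfin.exists_le_minimal (show N ∈ _ from ⟨hNn, hN1⟩)
    rw [huniq M₀ M hM₀ hM]
    exact hMN

/-- Let G be a finite non-solvable group in which every element has prime-power order, and let R be its largest solvable normal subgroup. Then R is a p-group for some prime p; G/R has a non-abelian simple normal subgroup contained in every nontrivial normal subgroup of G/R (its unique minimal normal subgroup); and the order of every solvable subgroup of G has at most two prime divisors. -/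
theorem result {G : Type*} [Group G] [Finite G] (hns : ¬ Group.IsSolvable G) (hpp : ∀ g : G, g ≠ 1 → IsPrimePow (orderOf g))
    (R : Subgroup G) [R.Normal] (hRs : Group.IsSolvable ↥R) (hRmax : ∀ N : Subgroup G, N.Normal → Group.IsSolvable ↥N → N ≤ R) :
    (∃ p : ℕ, p.Prime ∧ IsPGroup p ↥R) ∧
      (∃ M : Subgroup (G ⧸ R), M.Normal ∧ IsSimpleGroup ↥M ∧ ¬ IsMulCommutative ↥M ∧
        ∀ N : Subgroup (G ⧸ R), N.Normal → N ≠ ⊥ → M ≤ N) ∧
      ∀ H : Subgroup G, Group.IsSolvable ↥H → (Nat.card ↥H).primeFactors.card ≤ 2 := by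
  have hRs' := hRs
  refine ⟨radical_isPGroup hns hpp R hRs, ?_, ?_⟩
  · have hnsQ : ¬ Group.IsSolvable (G ⧸ R) := by
      intro h
      apply hns
      exact Group.isSolvable_of_ker_le_range R.subtype (QuotientGroup.mk' R)
        (by rw [QuotientGroup.ker_mk', Subgroup.range_subtype])
    have hppQ : ∀ g : G ⧸ R, g ≠ 1 → IsPrimePow (orderOf g) := by
      intro gq hgq
      obtain ⟨g, rfl⟩ := QuotientGroup.mk'_surjective R gq
      have hg1 : g ≠ 1 := by
        rintro rfl
        exact hgq (map_one _)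
      obtain ⟨p, k, hp, hk, hpk⟩ := (isPrimePow_nat_iff _).mp (hpp g hg1)
      have hdvd : orderOf ((QuotientGroup.mk' R) g) ∣ p ^ k := hpk ▸ orderOf_map_dvd _ g
      obtain ⟨j, hj, hjo⟩ := (Nat.dvd_prime_pow hp).mp hdvd
      rw [hjo]
      have hj0 : j ≠ 0 := by
        rintro rfl
        rw [pow_zero] at hjo
        exact hgq (orderOf_eq_one_iff.mp hjo)
      exact hp.isPrimePow.pow hj0
    have hradQ : ∀ N : Subgroup (G ⧸ R), N.Normal → Group.IsSolvable ↥N → N = ⊥ := by
      intro N hN hNs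
      have hcomapN : (N.comap (QuotientGroup.mk' R)).Normal := hN.comap _
      have hRle : R ≤ N.comap (QuotientGroup.mk' R) := by
        intro r hr
        rw [Subgroup.mem_comap]
        have h1 : (QuotientGroup.mk' R) r = 1 := (QuotientGroup.eq_one_iff r).mpr hr
        rw [h1]; exact N.one_mem
      have hsol : Group.IsSolvable ↥(N.comap (QuotientGroup.mk' R)) := by
        refine Group.isSolvable_of_ker_le_range (Subgroup.inclusion hRle)
          ((QuotientGroup.mk' R).subgroupComap N) ?_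
        intro x hx
        rw [MonoidHom.mem_ker] at hx
        have h1 : (QuotientGroup.mk' R) (x : G) = 1 := congrArg Subtype.val hx
        have h2 : (x : G) ∈ R := (QuotientGroup.eq_one_iff _).mp h1
        exact ⟨⟨x.1, h2⟩, Subtype.ext rfl⟩
      have hle := hRmax _ hcomapN hsol
      rw [eq_bot_iff]
      intro y hy
      obtain ⟨g, rfl⟩ := QuotientGroup.mk'_surjective R y
      rw [Subgroup.mem_bot]
      exact (QuotientGroup.eq_one_iff g).mpr (hle hy)
    exact exists_unique_min_normal hnsQ hppQ hradQ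
  · intro H hH
    exact @Cfsg.Agent.S1475.result H _ _ hH (fun g => by
      by_cases hg : g = 1
      · exact Or.inr hg
      · left
        rw [← Subgroup.orderOf_coe]
        exact hpp g (fun h => hg (Subtype.ext h)))

end Cfsg.Agent.S3992
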