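import Cfsg.Statements.S3994
import Cfsg.Agent.Helper66.Frobenius

set_option autoImplicit false
open Cfsg

namespace Cfsg.Agent.S3994

/-- Let G be a finite group and n a positive integer. The number of elements of G whose order is divisible by n is either 0 or divisible by the largest divisor of the order of G that is coprime to n. -/
theorem result {G : Type*} [Group G] [Finite G] (n : ℕ) (hn : 0 < n) :
    Nat.card {g : G // n ∣ orderOf g} = 0 ∨
      (Nat.card G / Nat.gcd (Nat.card G) (n ^ Nat.card G)) ∣ Nat.card {g : G // n ∣ orderOf g} := by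
  right
  classical
  have : Fintype G := Fintype.ofFinite G
  obtain ⟨N, hN⟩ : ∃ N, N = Nat.card G := ⟨_, rfl⟩
  rw [← hN]
  have hN0 : N ≠ 0 := hN ▸ Nat.card_pos.ne'
  obtain ⟨A, hA⟩ : ∃ A, A = Nat.gcd N (n ^ N) := ⟨_, rfl⟩
  obtain ⟨B, hB⟩ : ∃ B, B = N / A := ⟨_, rfl⟩
  rw [← hA, ← hB]
  have hAN : A ∣ N := hA ▸ Nat.gcd_dvd_left _ _
  have hAB : A * B = N := by rw [hB]; exact Nat.mul_div_cancel' hAN
  have hBn : Nat.Coprime B n := by
    apply Nat.coprime_of_dvd
    intro q hq hqB hqn
    have h1 : q ^ N.factorization q ∣ N := Nat.ordProj_dvd N q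
    have h2 : q ^ N.factorization q ∣ n ^ N :=
      (pow_dvd_pow q (Nat.factorization_lt q hN0).le).trans (pow_dvd_pow_of_dvd hqn N)
    have h3 : q ^ N.factorization q ∣ A := hA ▸ Nat.dvd_gcd h1 h2
    have h4 : q ^ (N.factorization q + 1) ∣ N := by
      rw [pow_succ]
      exact (mul_dvd_mul h3 hqB).trans (dvd_of_eq hAB)
    exact Nat.pow_succ_factorization_not_dvd hN0 hq h4
  have hcopAB : Nat.Coprime A B :=
    (Nat.Coprime.coprime_dvd_right (hA ▸ Nat.gcd_dvd_right _ _) (hBn.pow_right N)).symm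
  have h1 := Cfsg.Agent.Helper66.card_cf (G := G) A B hcopAB (fun u => n ∣ orderOf u)
  have h2 : Nat.card {g : G // n ∣ orderOf g} =
      Nat.card {x : G // x ^ (A * B) = 1 ∧
        n ∣ orderOf (x ^ Cfsg.Agent.Helper66.cfExp A B hcopAB)} := by
    apply Nat.card_congr (Equiv.subtypeEquivRight _)
    intro x
    have hx : x ^ (A * B) = 1 := by rw [hAB, hN]; exact pow_card_eq_one'
    constructor
    · intro h
      refine ⟨hx, ?_⟩
      have hmul := Cfsg.Agent.Helper66.pow_cfExp_mul hcopAB hx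
      have hu := Cfsg.Agent.Helper66.pow_cfExp_pow hcopAB hx
      have hw := Cfsg.Agent.Helper66.pow_cfExp_pow' hcopAB hx
      have hcomm : Commute (x ^ Cfsg.Agent.Helper66.cfExp A B hcopAB)
          (x ^ Cfsg.Agent.Helper66.cfExp B A hcopAB.symm) := (Commute.refl x).pow_pow _ _
      have hou := orderOf_dvd_of_pow_eq_one hu
      have how := orderOf_dvd_of_pow_eq_one hw
      have hco := Nat.Coprime.coprime_dvd_left hou (Nat.Coprime.coprime_dvd_right how hcopAB)
      have hord := hcomm.orderOf_mul_eq_mul_orderOf_of_coprime hco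
      rw [hmul] at hord
      rw [hord] at h
      have hcn : Nat.Coprime n (orderOf (x ^ Cfsg.Agent.Helper66.cfExp B A hcopAB.symm)) :=
        (Nat.Coprime.coprime_dvd_left how hBn).symm
      exact hcn.dvd_of_dvd_mul_right h
    · rintro ⟨-, h⟩
      exact h.trans (orderOf_pow_dvd _)
  rw [h2, h1]
  have h3 := Cfsg.Agent.Helper66.dvd_sum_centCount B
    (fun H _ _ => Cfsg.Agent.Helper66.gcd_dvd_card_pow_eq_one B H) G
    (fun u => u ^ A = 1 ∧ n ∣ orderOf u) (by
      rintro g y ⟨hy, hy'⟩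
      refine ⟨by rw [conj_pow, hy]; group, ?_⟩
      have : orderOf (g * y * g⁻¹) = orderOf y := MulEquiv.orderOf_eq (MulAut.conj g) y
      rw [this]
      exact hy')
  have h4 : Nat.gcd B (Nat.card G) = B := Nat.gcd_eq_left (hN ▸ hAB ▸ dvd_mul_left B A)
  rwa [h4] at h3

end Cfsg.Agent.S3994
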