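import Cfsg.Statements.S3995
import Mathlib
import Cfsg.Agent.Helper66.Frobenius
import Cfsg.Agent.Helper66.QuatDih
import Cfsg.Agent.Helper69.Q8

set_option autoImplicit false
open Cfsg

namespace Cfsg.Agent.S3995

/-- The number of elements of order `d`. -/
noncomputable def cnt (H : Type*) [Group H] (d : ℕ) : ℕ := Nat.card {g : H // orderOf g = d}

section Aux

variable {H : Type*} [Group H] [Finite H]

theorem cnt_one : cnt H 1 = 1 := by
  unfold cnt
  rw [Nat.card_eq_one_iff_unique]
  refine ⟨⟨?_⟩, ⟨⟨1, orderOf_one⟩⟩⟩
  rintro ⟨a, ha⟩ ⟨b, hb⟩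
  apply Subtype.ext
  show a = b
  rw [orderOf_eq_one_iff.mp ha, orderOf_eq_one_iff.mp hb]

theorem cnt_eq_zero {d : ℕ} (h : ¬ ∃ g : H, orderOf g = d) : cnt H d = 0 := by
  unfold cnt
  haveI : IsEmpty {g : H // orderOf g = d} := ⟨fun g => h ⟨g.1, g.2⟩⟩
  exact Nat.card_of_isEmpty

theorem cnt_ne_zero {d : ℕ} (g : H) (h : orderOf g = d) : cnt H d ≠ 0 := by
  unfold cnt
  haveI : Nonempty {g : H // orderOf g = d} := ⟨⟨g, h⟩⟩
  exact Nat.card_pos.ne'

theorem two_le_cnt {d : ℕ} (hd : 3 ≤ d) (g : H) (h : orderOf g = d) : 2 ≤ cnt H d := by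
  unfold cnt
  have hne : g ≠ g⁻¹ := by
    intro h2
    have h3 : g ^ 2 = 1 := by
      rw [pow_two]
      nth_rewrite 2 [h2]
      exact mul_inv_cancel g
    have h4 := orderOf_dvd_of_pow_eq_one h3
    rw [h] at h4
    have h5 := Nat.le_of_dvd (by norm_num) h4
    omega
  have h6 : (⟨g, h⟩ : {g : H // orderOf g = d}) ≠ ⟨g⁻¹, by rw [orderOf_inv]; exact h⟩ :=
    fun h2 => hne (congrArg Subtype.val h2)
  exact Finite.one_lt_card_iff_nontrivial.mpr ⟨⟨_, _, h6⟩⟩

theorem cnt_lt_card {d : ℕ} (hd : d ≠ 1) : cnt H d < Nat.card H := by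
  unfold cnt
  exact Finite.card_subtype_lt (x := (1 : H)) (by rw [orderOf_one]; exact fun h => hd h.symm)

theorem dvd_sum_cnt {m : ℕ} (hm : m ∣ Nat.card H) : m ∣ ∑ d ∈ m.divisors, cnt H d := by
  classical
  have hm0 : m ≠ 0 := by
    rintro rfl
    exact Nat.card_pos.ne' (zero_dvd_iff.mp hm)
  have : Fintype H := Fintype.ofFinite H
  have h1 := Cfsg.Agent.Helper66.gcd_dvd_card_pow_eq_one m H
  rw [Nat.gcd_eq_left hm] at h1
  have h3 := sum_card_orderOf_eq_card_pow_eq_one (G := H) hm0
  have h2 : Nat.card {x : H // x ^ m = 1} = ∑ d ∈ m.divisors, cnt H d := by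
    rw [Nat.card_eq_fintype_card, Fintype.card_subtype]
    have h4 : ∀ d, cnt H d = (Finset.univ.filter (fun x : H => orderOf x = d)).card := by
      intro d
      unfold cnt
      rw [Nat.card_eq_fintype_card, Fintype.card_subtype]
    simp only [h4]
    convert h3.symm using 2
  rwa [h2] at h1

theorem sum_divisors_coprime_mul {m n : ℕ} (h : m.Coprime n) (f : ℕ → ℕ) :
    ∑ d ∈ (m * n).divisors, f d = ∑ d₁ ∈ m.divisors, ∑ d₂ ∈ n.divisors, f (d₁ * d₂) := by
  rw [h.divisors_mul, Finset.sum_map, ← Finset.sum_product']
  exact Finset.sum_attach _ (fun x : ℕ × ℕ => f (x.1 * x.2))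

/-- If all non-identity orders occur equally often, the group has prime exponent. -/
theorem lemmaA (n : ℕ) (hnt : Nontrivial H) (h : ∀ g : H, g ≠ 1 → cnt H (orderOf g) = n) :
    ∃ p : ℕ, p.Prime ∧ ∀ g : H, g ^ p = 1 := by
  have hs : ∀ d, d ≠ 1 → (∃ g : H, orderOf g = d) → cnt H d = n := by
    rintro d hd ⟨g, rfl⟩
    exact h g (fun h1 => hd (by rw [h1, orderOf_one]))
  have hcauchy : ∀ p : ℕ, p.Prime → p ∣ Nat.card H → ∃ g : H, orderOf g = p := fun p hp hd => by
    haveI : Fact p.Prime := ⟨hp⟩
    exact exists_prime_orderOf_dvd_card' p hd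
  have h1 : ∀ p : ℕ, p.Prime → p ∣ Nat.card H → p ∣ 1 + n := by
    intro p hp hd
    have h2 := dvd_sum_cnt (H := H) hd
    rw [hp.divisors, Finset.sum_pair hp.one_lt.ne, cnt_one,
      hs p hp.one_lt.ne' (hcauchy p hp hd)] at h2
    exact h2
  have h2 : ∀ p q : ℕ, p.Prime → q.Prime → p ∣ Nat.card H → q ∣ Nat.card H → p = q := by
    intro p q hp hq hpd hqd
    by_contra hpq
    have hcop : p.Coprime q := (Nat.coprime_primes hp hq).mpr hpq
    have hd := dvd_sum_cnt (H := H) (hcop.mul_dvd_of_dvd_of_dvd hpd hqd)
    rw [sum_divisors_coprime_mul hcop, hp.divisors, hq.divisors, Finset.sum_pair hp.one_lt.ne,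
      Finset.sum_pair hq.one_lt.ne, Finset.sum_pair hq.one_lt.ne] at hd
    simp only [one_mul, mul_one] at hd
    rw [cnt_one, hs p hp.one_lt.ne' (hcauchy p hp hpd),
      hs q hq.one_lt.ne' (hcauchy q hq hqd)] at hd
    have hp1 := h1 p hp hpd
    have hq1 := h1 q hq hqd
    by_cases hex : ∃ g : H, orderOf g = p * q
    · rw [hs (p * q) (by
        intro h3
        exact hp.one_lt.ne' (Nat.eq_one_of_mul_eq_one_right h3)) hex] at hd
      have hp2 : p ∣ 2 := by
        have h3 : p ∣ 1 + n + (n + n) := dvd_trans (dvd_mul_right p q) hd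
        have h4 : p ∣ 3 * (1 + n) := Dvd.dvd.mul_left hp1 3
        have h5 : 3 * (1 + n) = (1 + n + (n + n)) + 2 := by ring
        rw [h5] at h4
        exact (Nat.dvd_add_right h3).mp h4
      have hq2 : q ∣ 2 := by
        have h3 : q ∣ 1 + n + (n + n) := dvd_trans (dvd_mul_left q p) hd
        have h4 : q ∣ 3 * (1 + n) := Dvd.dvd.mul_left hq1 3
        have h5 : 3 * (1 + n) = (1 + n + (n + n)) + 2 := by ring
        rw [h5] at h4
        exact (Nat.dvd_add_right h3).mp h4
      have e1 := (Nat.prime_dvd_prime_iff_eq hp Nat.prime_two).mp hp2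
      have e2 := (Nat.prime_dvd_prime_iff_eq hq Nat.prime_two).mp hq2
      exact hpq (by omega)
    · rw [cnt_eq_zero hex] at hd
      have h3 : p ∣ 1 + n + (n + 0) := dvd_trans (dvd_mul_right p q) hd
      have h4 : p ∣ n := by
        have h5 : 1 + n + (n + 0) = (1 + n) + n := by ring
        rw [h5] at h3
        exact (Nat.dvd_add_right hp1).mp h3
      have h5 : p ∣ 1 := (Nat.dvd_add_left h4).mp hp1
      exact hp.one_lt.ne' (Nat.dvd_one.mp h5)
  have hcard1 : Nat.card H ≠ 1 := by
    intro hc
    have h3 := (Nat.card_eq_one_iff_unique.mp hc).1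
    exact not_subsingleton H h3
  have hp : (Nat.card H).minFac.Prime := Nat.minFac_prime hcard1
  have hpd : (Nat.card H).minFac ∣ Nat.card H := Nat.minFac_dvd _
  refine ⟨(Nat.card H).minFac, hp, ?_⟩
  have hk := Nat.eq_prime_pow_of_unique_prime_dvd (p := (Nat.card H).minFac) Nat.card_pos.ne'
    (fun {d} hd hdd => h2 d _ hd hp hdd hpd)
  have hPG : IsPGroup (Nat.card H).minFac H := IsPGroup.of_card hk
  intro g
  haveI : Fact (Nat.card H).minFac.Prime := ⟨hp⟩
  obtain ⟨j, hj⟩ := (IsPGroup.iff_orderOf.mp hPG) g
  rcases j with _ | _ | j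
  · rw [pow_zero, orderOf_eq_one_iff] at hj
    rw [hj, one_pow]
  · rw [zero_add, pow_one] at hj
    rw [← hj]
    exact pow_orderOf_eq_one g
  · exfalso
    have hg' : orderOf (g ^ (Nat.card H).minFac ^ j) = (Nat.card H).minFac ^ 2 := by
      rw [orderOf_pow_of_dvd (pow_ne_zero _ hp.ne_zero)
        (by rw [hj]; exact pow_dvd_pow _ (by omega)), hj]
      rw [show j + 1 + 1 = j + 2 by ring, pow_add, Nat.mul_div_cancel_left _ (pow_pos hp.pos j)]
    have hp2d : (Nat.card H).minFac ^ 2 ∣ Nat.card H := hg' ▸ orderOf_dvd_natCard _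
    have hd := dvd_sum_cnt (H := H) hp2d
    rw [Nat.divisors_prime_pow hp, Finset.sum_map] at hd
    simp only [Function.Embedding.coeFn_mk, Finset.sum_range_succ, Finset.sum_range_zero,
      pow_zero, pow_one, zero_add] at hd
    rw [cnt_one, hs _ hp.one_lt.ne' (hcauchy _ hp hpd),
      hs ((Nat.card H).minFac ^ 2) (by
        intro h3
        exact hp.one_lt.ne' (by simpa using h3)) ⟨_, hg'⟩] at hd
    have h3 : (Nat.card H).minFac ∣ 1 + n + n := dvd_trans (dvd_pow_self _ two_ne_zero) hd
    have hp1 := h1 _ hp hpd
    have h4 : (Nat.card H).minFac ∣ n := (Nat.dvd_add_right hp1).mp h3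
    have h5 : (Nat.card H).minFac ∣ 1 := (Nat.dvd_add_left h4).mp hp1
    exact hp.one_lt.ne' (Nat.dvd_one.mp h5)

theorem exists_type0_mulEquiv (K : Type*) [Group K] [Finite K] :
    ∃ (P : Type) (_ : Group P) (_ : Finite P), Nonempty (K ≃* P) :=
  ⟨Shrink.{0} K, inferInstance, Finite.of_equiv K (equivShrink.{0} K), ⟨(Shrink.mulEquiv).symm⟩⟩

end Aux

/-- Let G be a finite group such that the numbers of elements of each order that occurs in G (the numbers #{g : o(g) = m}, m ranging over the element orders of G) take exactly two values, 1 and some n ≠ 1. Then either G is a p-group of exponent p and order at least 3 for some prime p, or G is the quaternion group of order 8, or G is cyclic of order 4, or G ≅ Z₂ × P for a p-group P of exponent p with p an odd prime. -/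
theorem result {G : Type*} [Group G] [Finite G] (n : ℕ) (hn : n ≠ 1) (h : ((fun m : ℕ => Nat.card {g : G // orderOf g = m}) '' Set.range (orderOf : G → ℕ)) = {1, n}) :
    (∃ p : ℕ, p.Prime ∧ IsPGroup p G ∧ 3 ≤ Nat.card G ∧ Monoid.exponent G = p) ∨
      Nonempty (G ≃* QuaternionGroup 2) ∨ (IsCyclic G ∧ Nat.card G = 4) ∨
      (∃ (p : ℕ) (P : Type) (_ : Group P) (_ : Finite P), p.Prime ∧ p ≠ 2 ∧ IsPGroup p P ∧ Monoid.exponent P = p ∧
        Nonempty (G ≃* Multiplicative (ZMod 2) × P)) := by
  have hval : ∀ g : G, cnt G (orderOf g) = 1 ∨ cnt G (orderOf g) = n := by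
    intro g
    have h1 : cnt G (orderOf g) ∈ ({1, n} : Set ℕ) := by
      rw [← h]
      exact ⟨orderOf g, ⟨g, rfl⟩, rfl⟩
    simpa using h1
  obtain ⟨g₀, hg₀⟩ : ∃ g : G, cnt G (orderOf g) = n := by
    have h1 : n ∈ ((fun m : ℕ => Nat.card {g : G // orderOf g = m}) ''
        Set.range (orderOf : G → ℕ)) := by
      rw [h]; simp
    obtain ⟨m, ⟨g, rfl⟩, hm⟩ := h1
    exact ⟨g, hm⟩
  have hbig : ∀ g : G, 3 ≤ orderOf g → cnt G (orderOf g) = n := by
    intro g hg
    rcases hval g with h1 | h1
    · have := two_le_cnt hg g rfl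
      omega
    · exact h1
  have hn0 : n ≠ 0 := by
    rw [← hg₀]
    exact cnt_ne_zero g₀ rfl
  have hg₀1 : g₀ ≠ 1 := by
    rintro rfl
    rw [orderOf_one, cnt_one] at hg₀
    exact hn hg₀.symm
  have hnt : Nontrivial G := ⟨⟨g₀, 1, hg₀1⟩⟩
  by_cases h2 : cnt G 2 = 1
  · right
    obtain ⟨z, hz⟩ : ∃ z : G, orderOf z = 2 := by
      by_contra hcon
      rw [cnt_eq_zero hcon] at h2
      exact zero_ne_one h2
    have huniq : ∀ w : G, orderOf w = 2 → w = z := by
      intro w hw
      have hsub : Subsingleton {g : G // orderOf g = 2} := (Nat.card_eq_one_iff_unique.mp h2).1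
      exact congrArg Subtype.val
        (Subsingleton.elim (⟨w, hw⟩ : {g : G // orderOf g = 2}) ⟨z, hz⟩)
    have hzz : z * z = 1 := by rw [← pow_two, ← hz]; exact pow_orderOf_eq_one z
    have hzc : ∀ g : G, g * z = z * g := by
      intro g
      have h3 := MulEquiv.orderOf_eq (MulAut.conj g) z
      rw [MulAut.conj_apply] at h3
      have h4 := huniq (g * z * g⁻¹) (by rw [h3]; exact hz)
      calc g * z = (g * z * g⁻¹) * g := by group
        _ = z * g := by rw [h4]
    have hg₀3 : 3 ≤ orderOf g₀ := by
      by_contra hlt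
      have hpos := orderOf_pos g₀
      have h1 : orderOf g₀ ≠ 1 := fun h => hg₀1 (orderOf_eq_one_iff.mp h)
      have h22 : orderOf g₀ = 2 := by omega
      rw [h22, h2] at hg₀
      exact hn hg₀.symm
    have hsq : ∀ g : G, g ^ 2 = 1 → g = 1 ∨ g = z := by
      intro g hg
      have h3 := orderOf_dvd_of_pow_eq_one hg
      rcases (Nat.dvd_prime Nat.prime_two).mp h3 with h4 | h4
      · left; exact orderOf_eq_one_iff.mp h4
      · right; exact huniq g h4
    have hs : ∀ d, 3 ≤ d → (∃ g : G, orderOf g = d) → cnt G d = n := by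
      rintro d hd ⟨g, rfl⟩
      exact hbig g hd
    haveI : Fact (Nat.Prime 2) := ⟨Nat.prime_two⟩
    by_cases h4 : ∃ x : G, orderOf x = 4
    · obtain ⟨x, hx⟩ := h4
      have h4G : 4 ∣ Nat.card G := hx ▸ orderOf_dvd_natCard x
      have hodd : ∀ p : ℕ, p.Prime → p ∣ Nat.card G → p = 2 := by
        intro p hp hpd
        by_contra hp2
        haveI : Fact p.Prime := ⟨hp⟩
        obtain ⟨y, hy⟩ := exists_prime_orderOf_dvd_card' p hpd
        have hp3 : 3 ≤ p := by have := hp.two_le; omega
        have hcop2 : Nat.Coprime 2 p := (Nat.coprime_primes Nat.prime_two hp).mpr (Ne.symm hp2)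
        have hcop : Nat.Coprime 4 p := by
          have h5 : Nat.Coprime (2 ^ 2) p := Nat.Coprime.pow_left 2 hcop2
          exact h5
        have hzy : orderOf (z * y) = 2 * p := by
          rw [(show Commute z y from (hzc y).symm).orderOf_mul_eq_mul_orderOf_of_coprime
            (by rw [hz, hy]; exact hcop2), hz, hy]
        have hd1 := dvd_sum_cnt (H := G) hpd
        rw [hp.divisors, Finset.sum_pair hp.one_lt.ne, cnt_one, hs p hp3 ⟨y, hy⟩] at hd1
        have hd := dvd_sum_cnt (H := G) (hcop.mul_dvd_of_dvd_of_dvd h4G hpd)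
        rw [sum_divisors_coprime_mul hcop, hp.divisors,
          show Nat.divisors 4 = {1, 2, 4} from by decide] at hd
        simp only [Finset.sum_pair hp.one_lt.ne] at hd
        rw [Finset.sum_insert (by decide), Finset.sum_insert (by decide),
          Finset.sum_singleton] at hd
        simp only [one_mul, mul_one] at hd
        rw [cnt_one, h2, hs p hp3 ⟨y, hy⟩, hs (2 * p) (by omega) ⟨z * y, hzy⟩,
          hs 4 (by norm_num) ⟨x, hx⟩] at hd
        have hpd' : p ∣ 1 + n + (1 + n + (n + cnt G (4 * p))) := dvd_trans (dvd_mul_left p 4) hd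
        by_cases hex : ∃ g : G, orderOf g = 4 * p
        · rw [hs (4 * p) (by omega) hex] at hpd'
          have h5 : p ∣ 4 * (1 + n) := Dvd.dvd.mul_left hd1 4
          have h6 : 4 * (1 + n) = (1 + n + (1 + n + (n + n))) + 2 := by ring
          rw [h6] at h5
          have h7 : p ∣ 2 := (Nat.dvd_add_right hpd').mp h5
          exact hp2 ((Nat.prime_dvd_prime_iff_eq hp Nat.prime_two).mp h7)
        · rw [cnt_eq_zero hex] at hpd'
          have h5 : p ∣ 3 * (1 + n) := Dvd.dvd.mul_left hd1 3
          have h6 : 3 * (1 + n) = (1 + n + (1 + n + (n + 0))) + 1 := by ring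
          rw [h6] at h5
          have h7 : p ∣ 1 := (Nat.dvd_add_right hpd').mp h5
          exact hp.one_lt.ne' (Nat.dvd_one.mp h7)
      have hk := Nat.eq_prime_pow_of_unique_prime_dvd (p := 2) Nat.card_pos.ne'
        (fun {d} hd hdd => hodd d hd hdd)
      have hPG : IsPGroup 2 G := IsPGroup.of_card hk
      have h8 : ¬ ∃ y : G, orderOf y = 8 := by
        rintro ⟨y, hy⟩
        have h8G : 8 ∣ Nat.card G := hy ▸ orderOf_dvd_natCard y
        have hd4 := dvd_sum_cnt (H := G) h4G
        rw [show Nat.divisors 4 = {1, 2, 4} from by decide, Finset.sum_insert (by decide),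
          Finset.sum_insert (by decide), Finset.sum_singleton, cnt_one, h2,
          hs 4 (by norm_num) ⟨x, hx⟩] at hd4
        have hd8 := dvd_sum_cnt (H := G) h8G
        rw [show Nat.divisors 8 = {1, 2, 4, 8} from by decide, Finset.sum_insert (by decide),
          Finset.sum_insert (by decide), Finset.sum_insert (by decide), Finset.sum_singleton,
          cnt_one, h2, hs 4 (by norm_num) ⟨x, hx⟩, hs 8 (by norm_num) ⟨y, hy⟩] at hd8
        omega
      have hexp : ∀ g : G, g ^ 4 = 1 := by
        intro g
        obtain ⟨j, hj⟩ := (IsPGroup.iff_orderOf.mp hPG) g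
        by_cases hj2 : j ≤ 2
        · apply orderOf_dvd_iff_pow_eq_one.mp
          rw [hj]
          exact pow_dvd_pow 2 hj2
        · exfalso
          apply h8
          obtain ⟨i, rfl⟩ : ∃ i, j = i + 3 := ⟨j - 3, by omega⟩
          refine ⟨g ^ 2 ^ i, ?_⟩
          rw [orderOf_pow_of_dvd (pow_ne_zero _ two_ne_zero)
            (by rw [hj]; exact pow_dvd_pow _ (by omega)), hj, pow_add,
            Nat.mul_div_cancel_left _ (pow_pos (by norm_num) _)]
          norm_num
      have hsq2 : ∀ g : G, g ^ 2 = 1 ∨ g ^ 2 = z := by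
        intro g
        apply hsq
        rw [← pow_mul]
        exact hexp g
      have hx2 : x ^ 2 = z := by
        rcases hsq2 x with h5 | h5
        · exfalso
          have h6 := orderOf_dvd_of_pow_eq_one h5
          rw [hx] at h6
          omega
        · exact h5
      have hx4 : x ^ 4 = 1 := hexp x
      have hxinv : x⁻¹ = x * z := by
        apply inv_eq_of_mul_eq_one_right
        rw [← mul_assoc, ← pow_two, hx2, hzz]
      have hconj : ∀ y : G, y * x * y⁻¹ = x ∨ y * x * y⁻¹ = x⁻¹ := by
        intro y
        rcases hsq2 y with h5 | h5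
        · left
          rcases hsq y h5 with h6 | h6
          · rw [h6]; group
          · rw [h6, ← hzc x]; group
        · rcases hsq2 (x * y) with h6 | h6
          · left
            rcases hsq (x * y) h6 with h7 | h7
            · have h8' : y = x⁻¹ := eq_inv_of_mul_eq_one_right h7
              rw [h8']; group
            · have h8' : y = x⁻¹ * z := by rw [← h7]; group
              have hz' : z * x = x * z := (hzc x).symm
              rw [h8']
              calc x⁻¹ * z * x * (x⁻¹ * z)⁻¹ = x⁻¹ * (z * x) * z⁻¹ * x := by group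
                _ = x⁻¹ * (x * z) * z⁻¹ * x := by rw [hz']
                _ = x := by group
          · right
            have h7 : x * y * (x * y) = x * x := by rw [← pow_two, ← pow_two, h6, hx2]
            have h8' : y * x * y = x := by
              calc y * x * y = x⁻¹ * (x * y * (x * y)) := by group
                _ = x⁻¹ * (x * x) := by rw [h7]
                _ = x := by group
            have hy2 : y⁻¹ * y⁻¹ = z := by
              have h9 : y⁻¹ * y⁻¹ = (y ^ 2)⁻¹ := by group
              rw [h9, h5]
              exact inv_eq_of_mul_eq_one_right hzz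
            calc y * x * y⁻¹ = (y * x * y) * (y⁻¹ * y⁻¹) := by group
              _ = x * z := by rw [h8', hy2]
              _ = x⁻¹ := hxinv.symm
      have hcent : Subgroup.centralizer ({x} : Set G) = Subgroup.zpowers x := by
        apply le_antisymm
        · intro y hy
          have hyx : x * y = y * x := Subgroup.mem_centralizer_iff.mp hy x (Set.mem_singleton x)
          rcases hsq2 y with h5 | h5
          · rcases hsq y h5 with h6 | h6
            · rw [h6]; exact Subgroup.one_mem _
            · rw [h6, ← hx2]; exact Subgroup.pow_mem _ (Subgroup.mem_zpowers x) 2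
          · have h6 : (x * y⁻¹) ^ 2 = 1 := by
              have hc : Commute x y⁻¹ := Commute.inv_right (show Commute x y from hyx)
              rw [hc.mul_pow, hx2, inv_pow, h5]
              exact mul_inv_cancel z
            rcases hsq (x * y⁻¹) h6 with h7 | h7
            · have h8' : y = x := (mul_inv_eq_one.mp h7).symm
              rw [h8']; exact Subgroup.mem_zpowers x
            · have h8' : y = z⁻¹ * x := by rw [← h7]; group
              rw [h8', ← hx2]
              exact Subgroup.mul_mem _
                (Subgroup.inv_mem _ (Subgroup.pow_mem _ (Subgroup.mem_zpowers x) 2))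
                (Subgroup.mem_zpowers x)
        · rw [Subgroup.zpowers_le]
          exact Subgroup.mem_centralizer_iff.mpr
            (fun h hh => by rw [Set.mem_singleton_iff.mp hh])
      have hcardC : Nat.card (Subgroup.centralizer ({x} : Set G)) = 4 := by
        rw [hcent, Nat.card_zpowers, hx]
      have horb : (MulAction.orbit (ConjAct G) x) ⊆ {x, x⁻¹} := by
        rintro w ⟨g, rfl⟩
        show g • x ∈ ({x, x⁻¹} : Set G)
        rw [ConjAct.smul_def]
        rcases hconj (ConjAct.ofConjAct g) with h5 | h5
        · left; exact h5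
        · right; exact h5
      have hncard : (MulAction.orbit (ConjAct G) x).ncard = 1 ∨
          (MulAction.orbit (ConjAct G) x).ncard = 2 := by
        have h5 : (MulAction.orbit (ConjAct G) x).ncard ≤ 2 := by
          have h7 : ({x, x⁻¹} : Set G).ncard ≤ ({x⁻¹} : Set G).ncard + 1 :=
            Set.ncard_insert_le x {x⁻¹}
          rw [Set.ncard_singleton] at h7
          exact le_trans (Set.ncard_le_ncard horb (Set.toFinite _)) h7
        have h6 : (MulAction.orbit (ConjAct G) x).ncard ≠ 0 :=
          Set.ncard_ne_zero_of_mem (MulAction.mem_orbit_self x)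
        omega
      have hmul := Cfsg.Agent.Helper66.card_centralizer_mul_ncard_conj_orbit x
      rw [hcardC] at hmul
      rcases hncard with h5 | h5
      · right; left
        rw [h5] at hmul
        exact ⟨isCyclic_of_orderOf_eq_card x (by rw [hx]; omega), by omega⟩
      · left
        rw [h5] at hmul
        have hcard8 : Nat.card G = 8 := by omega
        obtain ⟨b, hb⟩ : ∃ b : G, b ∉ Subgroup.centralizer ({x} : Set G) := by
          by_contra hcon
          push Not at hcon
          have h6 : Subgroup.centralizer ({x} : Set G) = ⊤ := (Subgroup.eq_top_iff' _).mpr hcon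
          rw [h6, Subgroup.card_top] at hcardC
          omega
        have hbx : b * x * b⁻¹ = x⁻¹ := by
          rcases hconj b with h6 | h6
          · exfalso
            apply hb
            rw [Subgroup.mem_centralizer_iff]
            intro h hh
            rw [Set.mem_singleton_iff.mp hh]
            calc x * b = (b * x * b⁻¹) * b := by rw [h6]
              _ = b * x := by group
          · exact h6
        have hb2 : b ^ 2 = x ^ 2 := by
          rcases hsq2 b with h6 | h6
          · exfalso
            apply hb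
            rcases hsq b h6 with h7 | h7
            · rw [h7]; exact Subgroup.one_mem _
            · rw [h7, hcent, ← hx2]; exact Subgroup.pow_mem _ (Subgroup.mem_zpowers x) 2
          · rw [h6, hx2]
        have hgen : Subgroup.closure {x, b} = ⊤ := by
          rw [← Subgroup.card_eq_iff_eq_top, hcard8]
          have hle : Subgroup.zpowers x ≤ Subgroup.closure {x, b} := by
            rw [Subgroup.zpowers_le]
            exact Subgroup.subset_closure (by simp)
          have hbm : b ∈ Subgroup.closure {x, b} := Subgroup.subset_closure (by simp)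
          have h6 : 4 ∣ Nat.card (Subgroup.closure {x, b}) := by
            have h7 := Subgroup.card_dvd_of_le hle
            rwa [Nat.card_zpowers, hx] at h7
          have h7 : Nat.card (Subgroup.closure {x, b}) ∣ 8 :=
            hcard8 ▸ Subgroup.card_subgroup_dvd_card _
          have h8' : Nat.card (Subgroup.closure {x, b}) ≠ 4 := by
            intro h9
            have h10 : Subgroup.zpowers x = Subgroup.closure {x, b} :=
              Subgroup.eq_of_le_of_card_ge hle (by rw [h9, Nat.card_zpowers, hx])
            apply hb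
            rw [hcent, h10]
            exact hbm
          have h9 : Nat.card (Subgroup.closure {x, b}) ≤ 8 := Nat.le_of_dvd (by norm_num) h7
          obtain ⟨t, ht⟩ := h6
          have ht2 : t ≤ 2 := by omega
          interval_cases t
          · rw [ht] at h7; omega
          · omega
          · omega
        exact Cfsg.Agent.Helper69.nonempty_mulEquiv_quaternionGroup_two x b hcard8 hgen hx4 hb2 hbx
    · right; right
      have h4G : ¬ 4 ∣ Nat.card G := by
        intro hd
        obtain ⟨K, hK⟩ := Sylow.exists_subgroup_card_pow_prime 2 (show 2 ^ 2 ∣ Nat.card G from hd)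
        have hKle : K ≤ Subgroup.zpowers z := by
          intro k hk
          have h5 : orderOf k ∣ 4 := by
            have h6 := Subgroup.orderOf_dvd_natCard K hk
            rwa [hK] at h6
          have h6 : orderOf k ≤ 4 := Nat.le_of_dvd (by norm_num) h5
          have h7 : orderOf k ≠ 4 := fun h => h4 ⟨k, h⟩
          have h8 : orderOf k ≠ 3 := by
            intro h
            rw [h] at h5
            omega
          have h9 := orderOf_pos k
          have h10 : orderOf k = 1 ∨ orderOf k = 2 := by omega
          rcases h10 with h | h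
          · rw [orderOf_eq_one_iff.mp h]; exact Subgroup.one_mem _
          · rw [huniq k h]; exact Subgroup.mem_zpowers z
        have h5 := Subgroup.card_le_of_le hKle
        rw [hK, Nat.card_zpowers, hz] at h5
        omega
      have h2G : 2 ∣ Nat.card G := hz ▸ orderOf_dvd_natCard z
      obtain ⟨S, hS⟩ := (IsPGroup.of_card (p := 2) (n := 1)
        (by rw [Nat.card_zpowers, hz, pow_one]) : IsPGroup 2 (Subgroup.zpowers z)).exists_le_sylow
      have hScard : Nat.card (S : Subgroup G) = 2 := by
        rw [Sylow.card_eq_multiplicity]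
        have hf : (Nat.card G).factorization 2 = 1 := by
          have h5 : 1 ≤ (Nat.card G).factorization 2 :=
            (Nat.Prime.dvd_iff_one_le_factorization Nat.prime_two Nat.card_pos.ne').mp h2G
          have h6 : ¬ 2 ≤ (Nat.card G).factorization 2 := by
            intro h7
            apply h4G
            have h8 := (Nat.Prime.pow_dvd_iff_le_factorization Nat.prime_two
              Nat.card_pos.ne').mpr h7
            simpa using h8
          omega
        rw [hf, pow_one]
      have hSeq : (S : Subgroup G) = Subgroup.zpowers z :=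
        (Subgroup.eq_of_le_of_card_ge hS (by rw [hScard, Nat.card_zpowers, hz])).symm
      have hSc : ∀ s ∈ (S : Subgroup G), ∀ g : G, g * s = s * g := by
        intro s hs g
        rw [hSeq, Subgroup.mem_zpowers_iff] at hs
        obtain ⟨k, rfl⟩ := hs
        exact Commute.zpow_right (hzc g) k
      have hP : Subgroup.normalizer ((S : Subgroup G) : Set G) ≤
          Subgroup.centralizer ((S : Subgroup G) : Set G) := by
        intro g _
        rw [Subgroup.mem_centralizer_iff]
        intro s hs
        exact (hSc s hs g).symm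
      have hK : Subgroup.IsComplement' (MonoidHom.transferSylow S hP).ker (S : Subgroup G) :=
        MonoidHom.ker_transferSylow_isComplement' S hP
      have hKodd : ¬ 2 ∣ Nat.card (MonoidHom.transferSylow S hP).ker :=
        MonoidHom.not_dvd_card_ker_transferSylow S hP
      have hKcard : Nat.card (MonoidHom.transferSylow S hP).ker * 2 = Nat.card G := by
        have h5 := hK.card_mul_card
        rw [hScard] at h5
        exact h5
      have hmemK : ∀ g : G, ¬ 2 ∣ orderOf g → g ∈ (MonoidHom.transferSylow S hP).ker := by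
        intro g hg
        rw [MonoidHom.mem_ker, ← orderOf_eq_one_iff]
        have h5 : orderOf (MonoidHom.transferSylow S hP g) ∣ orderOf g := orderOf_map_dvd _ g
        have h6 : orderOf (MonoidHom.transferSylow S hP g) ∣ 2 := by
          have h7 := orderOf_dvd_natCard (MonoidHom.transferSylow S hP g)
          rw [hScard] at h7
          exact h7
        rcases (Nat.dvd_prime Nat.prime_two).mp h6 with h7 | h7
        · exact h7
        · exfalso
          exact hg (h7 ▸ h5)
      have hKord : ∀ k : (MonoidHom.transferSylow S hP).ker, ¬ 2 ∣ orderOf (k : G) := by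
        intro k h5
        apply hKodd
        exact dvd_trans h5 (Subgroup.orderOf_dvd_natCard _ k.2)
      have hcntK : ∀ k : (MonoidHom.transferSylow S hP).ker, k ≠ 1 →
          cnt (MonoidHom.transferSylow S hP).ker (orderOf k) = n := by
        intro k hk
        have h5 : ¬ 2 ∣ orderOf (k : G) := hKord k
        have h6 : 3 ≤ orderOf (k : G) := by
          have hpos := orderOf_pos (k : G)
          have h1 : orderOf (k : G) ≠ 1 :=
            fun h => hk (Subtype.ext (orderOf_eq_one_iff.mp h))
          have h22 : orderOf (k : G) ≠ 2 := fun h => h5 (by rw [h])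
          omega
        have h7 := hbig (k : G) h6
        rw [← h7, ← Subgroup.orderOf_coe]
        unfold cnt
        apply Nat.card_congr
        exact
          { toFun := fun w => ⟨(w.1 : G), by rw [Subgroup.orderOf_coe]; exact w.2⟩
            invFun := fun w => ⟨⟨w.1, hmemK w.1 (by rw [w.2]; exact h5)⟩, by
              rw [← Subgroup.orderOf_coe]; exact w.2⟩
            left_inv := fun w => rfl
            right_inv := fun w => rfl }
      have hKnt : Nontrivial (MonoidHom.transferSylow S hP).ker := by
        rw [← Finite.one_lt_card_iff_nontrivial]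
        by_contra hle
        have h5 : Nat.card (MonoidHom.transferSylow S hP).ker = 1 := by
          have := Nat.card_pos (α := (MonoidHom.transferSylow S hP).ker)
          omega
        rw [h5] at hKcard
        have h6 : orderOf g₀ ∣ 2 := by
          rw [show (2 : ℕ) = 1 * 2 from rfl, hKcard]
          exact orderOf_dvd_natCard g₀
        have h7 := Nat.le_of_dvd (by norm_num) h6
        omega
      obtain ⟨p, hp, hpow⟩ := lemmaA n hKnt hcntK
      have hp2 : p ≠ 2 := by
        rintro rfl
        obtain ⟨k, hk⟩ := exists_ne (1 : (MonoidHom.transferSylow S hP).ker)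
        have h5 : orderOf k ∣ 2 := orderOf_dvd_of_pow_eq_one (hpow k)
        rcases (Nat.dvd_prime Nat.prime_two).mp h5 with h6 | h6
        · exact hk (orderOf_eq_one_iff.mp h6)
        · apply hKodd
          have h7 := orderOf_dvd_natCard k
          rw [h6] at h7
          exact h7
      obtain ⟨P₀, instG, instF, ⟨e₂⟩⟩ := exists_type0_mulEquiv (MonoidHom.transferSylow S hP).ker
      obtain ⟨e₁⟩ := Cfsg.Agent.Helper66.nonempty_mulEquiv_zmod_two hScard
      let φ : ↥(S : Subgroup G) × ↥(MonoidHom.transferSylow S hP).ker →* G :=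
        MonoidHom.noncommCoprod (S : Subgroup G).subtype (MonoidHom.transferSylow S hP).ker.subtype
          (fun s k => (hSc s.1 s.2 k.1).symm)
      have hφ : ∀ (s : ↥(S : Subgroup G)) (k : (MonoidHom.transferSylow S hP).ker),
          φ (s, k) = (s : G) * (k : G) := fun s k => rfl
      have hφinj : Function.Injective φ := by
        rw [injective_iff_map_eq_one]
        rintro ⟨s, k⟩ hsk
        rw [hφ] at hsk
        have h5 : (k : G) ∈ (MonoidHom.transferSylow S hP).ker ⊓ (S : Subgroup G) := ⟨k.2, by
          have h6 : (k : G) = (s : G)⁻¹ := eq_inv_of_mul_eq_one_right hsk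
          rw [h6]
          exact Subgroup.inv_mem _ s.2⟩
        rw [disjoint_iff.mp hK.disjoint, Subgroup.mem_bot] at h5
        have h6 : (s : G) = 1 := by
          rw [h5, mul_one] at hsk
          exact hsk
        exact Prod.ext (Subtype.ext h6) (Subtype.ext h5)
      have hφbij : Function.Bijective φ := by
        rw [Nat.bijective_iff_injective_and_card]
        refine ⟨hφinj, ?_⟩
        rw [Nat.card_prod, hScard, ← hKcard, mul_comm]
      refine ⟨p, P₀, instG, instF, hp, hp2, ?_, ?_,
        ⟨(MulEquiv.ofBijective φ hφbij).symm.trans (MulEquiv.prodCongr e₁ e₂)⟩⟩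
      · intro g
        refine ⟨1, ?_⟩
        rw [pow_one, ← e₂.apply_symm_apply g, ← map_pow, hpow, map_one]
      · have h5 : Monoid.exponent P₀ ∣ p := Monoid.exponent_dvd_of_forall_pow_eq_one
          (fun g => by rw [← e₂.apply_symm_apply g, ← map_pow, hpow, map_one])
        rcases (Nat.dvd_prime hp).mp h5 with h6 | h6
        · exfalso
          obtain ⟨k, hk⟩ := exists_ne (1 : (MonoidHom.transferSylow S hP).ker)
          have h7 := Monoid.pow_exponent_eq_one (e₂ k)
          rw [h6, pow_one] at h7
          exact hk (e₂.injective (by rw [h7, map_one]))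
        · exact h6
  · left
    have hall : ∀ g : G, g ≠ 1 → cnt G (orderOf g) = n := by
      intro g hg
      by_cases h3 : 3 ≤ orderOf g
      · exact hbig g h3
      · have hpos := orderOf_pos g
        have h1 : orderOf g ≠ 1 := fun h => hg (orderOf_eq_one_iff.mp h)
        have h22 : orderOf g = 2 := by omega
        rcases hval g with h4 | h4
        · rw [h22] at h4
          exact absurd h4 h2
        · exact h4
    obtain ⟨p, hp, hpow⟩ := lemmaA n hnt hall
    refine ⟨p, hp, fun g => ⟨1, by rw [pow_one]; exact hpow g⟩, ?_, ?_⟩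
    · have h5 := cnt_lt_card (H := G) (d := orderOf g₀) (fun h => hg₀1 (orderOf_eq_one_iff.mp h))
      rw [hg₀] at h5
      omega
    · have h5 : Monoid.exponent G ∣ p := Monoid.exponent_dvd_of_forall_pow_eq_one hpow
      rcases (Nat.dvd_prime hp).mp h5 with h6 | h6
      · exfalso
        have h7 := Monoid.pow_exponent_eq_one g₀
        rw [h6, pow_one] at h7
        exact hg₀1 h7
      · exact h6

end Cfsg.Agent.S3995
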