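import Cfsg.Statements.S3997
import Mathlib

set_option autoImplicit false
open Cfsg

namespace Cfsg.Agent.S3997

/-- Let G and H be finite groups with the same order type: for every m they have the same number of elements of order m. If G is nilpotent then so is H. -/
theorem result {G H : Type*} [Group G] [Finite G] [Group H] [Finite H] (hT : (∀ m : ℕ, Nat.card {g : G // orderOf g = m} = Nat.card {h : H // orderOf h = m})) (hG : Group.IsNilpotent G) :
    Group.IsNilpotent H := by
  classical
  have he : ∀ m : ℕ, Nonempty ({g : G // orderOf g = m} ≃ {h : H // orderOf h = m}) :=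
    fun m => Finite.card_eq.mp (hT m)
  let φ : G ≃ H := (Equiv.sigmaFiberEquiv (orderOf : G → ℕ)).symm.trans
    ((Equiv.sigmaCongrRight (fun m => (he m).some)).trans (Equiv.sigmaFiberEquiv (orderOf : H → ℕ)))
  have hφ : ∀ g : G, orderOf (φ g) = orderOf g := by
    intro g
    exact ((he (orderOf g)).some ⟨g, rfl⟩).2
  have hcard : Nat.card G = Nat.card H := Nat.card_congr φ
  have hGn := ((Group.isNilpotent_of_finite_tfae (G := G)).out 0 3).mp hG
  refine ((Group.isNilpotent_of_finite_tfae (G := H)).out 0 3).mpr ?_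
  intro p hp Q
  obtain ⟨P⟩ : Nonempty (Sylow p G) := inferInstance
  have hPn := hGn p hp P
  have hPmem : ∀ x : G, x ∈ P ↔ ∃ k, orderOf x = p ^ k := by
    intro x
    constructor
    · intro hx
      obtain ⟨k, hk⟩ := P.isPGroup' ⟨x, hx⟩
      have : x ^ p ^ k = 1 := congrArg Subtype.val hk
      exact ((Nat.dvd_prime_pow hp.out).mp (orderOf_dvd_of_pow_eq_one this)).imp (fun j hj => hj.2)
    · rintro ⟨k, hk⟩
      have hpg : IsPGroup p (Subgroup.zpowers x) := by
        apply IsPGroup.of_card (n := k)
        rw [Nat.card_zpowers, hk]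
      obtain ⟨P', hP'⟩ := hpg.exists_le_sylow
      have : P' = P := by
        have := Sylow.unique_of_normal P hPn
        exact Subsingleton.elim _ _
      rw [← this]
      exact hP' (Subgroup.mem_zpowers x)
  have hcG : Nat.card {g : G // ∃ k, orderOf g = p ^ k} = Nat.card P :=
    Nat.card_congr (Equiv.subtypeEquivRight (fun x => (hPmem x).symm))
  have hcH : Nat.card {h : H // ∃ k, orderOf h = p ^ k} =
      Nat.card {g : G // ∃ k, orderOf g = p ^ k} := by
    symm
    apply Nat.card_congr
    exact Equiv.subtypeEquiv φ (fun g => by rw [hφ])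
  have hQ : Nat.card Q = Nat.card P := by
    rw [Sylow.card_eq_multiplicity, Sylow.card_eq_multiplicity, hcard]
  have hsub : (Q : Set H) ⊆ {h : H | ∃ k, orderOf h = p ^ k} := by
    intro h hh
    obtain ⟨k, hk⟩ := Q.isPGroup' ⟨h, hh⟩
    have : h ^ p ^ k = 1 := congrArg Subtype.val hk
    exact ((Nat.dvd_prime_pow hp.out).mp (orderOf_dvd_of_pow_eq_one this)).imp (fun j hj => hj.2)
  have heq : (Q : Set H) = {h : H | ∃ k, orderOf h = p ^ k} := by
    apply Set.eq_of_subset_of_ncard_le hsub _ (Set.toFinite _)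
    rw [← Nat.card_coe_set_eq, ← Nat.card_coe_set_eq]
    show Nat.card {h : H // ∃ k, orderOf h = p ^ k} ≤ Nat.card Q
    rw [hcH, hcG, hQ]
  constructor
  intro h hh g
  have h1 : h ∈ (Q : Set H) := hh
  rw [heq] at h1
  have h2 : g * h * g⁻¹ ∈ (Q : Set H) := by
    rw [heq]
    obtain ⟨k, hk⟩ := h1
    exact ⟨k, by rw [← hk]; exact MulEquiv.orderOf_eq (MulAut.conj g) h⟩
  exact h2

end Cfsg.Agent.S3997
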