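import Cfsg.Statements.S3998
import Cfsg.Agent.Helper9.Supersolvable3
import Mathlib

set_option autoImplicit false
open Cfsg

namespace Cfsg.Agent.S3998

universe u

/-- `x` is an element all of whose order's prime factors are at least `l`. -/
def PiElt {X : Type*} [Group X] (l : ℕ) (x : X) : Prop :=
  ∀ q : ℕ, q.Prime → q ∣ orderOf x → l ≤ q

/-- The number of elements all of whose order's prime factors are at least `l`. -/
noncomputable def cnt (X : Type*) [Group X] (l : ℕ) : ℕ := Nat.card {x : X // PiElt l x}

/-- The counts of `cnt` are the "large prime" parts of the group order. -/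
def QProp (X : Type*) [Group X] : Prop :=
  ∀ l : ℕ, cnt X l ∣ Nat.card X ∧ (∀ q : ℕ, q.Prime → q ∣ cnt X l → l ≤ q) ∧
    (∀ q : ℕ, q.Prime → q ∣ Nat.card X / cnt X l → q < l)

theorem cnt_fiber {X : Type*} [Group X] [Finite X] (N : Subgroup X) [N.Normal] (p : ℕ)
    [Fact p.Prime] (hN : IsPGroup p N) (l : ℕ) (hl : l ≤ p) :
    cnt X l = Nat.card N * cnt (X ⧸ N) l := by
  have hp : p.Prime := Fact.out
  have hiff : ∀ x : X, PiElt l x ↔ PiElt l (QuotientGroup.mk' N x) := by
    intro x
    constructor
    · intro h q hq hqd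
      exact h q hq (hqd.trans (orderOf_map_dvd _ x))
    · intro h q hq hqd
      have h1 : x ^ orderOf (QuotientGroup.mk' N x) ∈ N := by
        rw [← QuotientGroup.eq_one_iff]
        have := pow_orderOf_eq_one (QuotientGroup.mk' N x)
        rw [← map_pow] at this
        exact this
      obtain ⟨k, hk⟩ := hN ⟨_, h1⟩
      have h2 : (x ^ orderOf (QuotientGroup.mk' N x)) ^ p ^ k = 1 := congrArg Subtype.val hk
      rw [← pow_mul] at h2
      have h3 : q ∣ orderOf (QuotientGroup.mk' N x) * p ^ k :=
        hqd.trans (orderOf_dvd_of_pow_eq_one h2)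
      rcases (Nat.Prime.dvd_mul hq).mp h3 with h4 | h4
      · exact h q hq h4
      · have h5 : q = p := (Nat.prime_dvd_prime_iff_eq hq hp).mp (hq.dvd_of_dvd_pow h4)
        rw [h5]; exact hl
  have h1 : Nat.card {x : X // PiElt l x} =
      Nat.card ((QuotientGroup.mk : X → X ⧸ N) ⁻¹' {y : X ⧸ N | PiElt l y}) :=
    Nat.card_congr (Equiv.subtypeEquivRight hiff)
  unfold cnt
  rw [h1, QuotientGroup.card_preimage_mk]
  rfl

theorem cnt_eq_one {X : Type*} [Group X] [Finite X] (l : ℕ)
    (h : ∀ q : ℕ, q.Prime → q ∣ Nat.card X → q < l) : cnt X l = 1 := by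
  have hiff : ∀ x : X, PiElt l x ↔ x = 1 := by
    intro x
    constructor
    · intro hx
      by_contra hx1
      have h1 : orderOf x ≠ 1 := fun h2 => hx1 (orderOf_eq_one_iff.mp h2)
      obtain ⟨q, hq, hqd⟩ := Nat.exists_prime_and_dvd h1
      have h2 := hx q hq hqd
      have h3 := h q hq (hqd.trans (orderOf_dvd_natCard x))
      omega
    · rintro rfl q hq hqd
      rw [orderOf_one] at hqd
      exact absurd (Nat.dvd_one.mp hqd) hq.one_lt.ne'
  unfold cnt
  rw [Nat.card_congr (Equiv.subtypeEquivRight hiff)]
  simp

/-- A finite group of order `> 1` has a largest prime divisor. -/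
theorem exists_max_prime (n : ℕ) (hn : 1 < n) :
    ∃ p : ℕ, p.Prime ∧ p ∣ n ∧ ∀ q : ℕ, q.Prime → q ∣ n → q ≤ p := by
  have hne : n.primeFactors.Nonempty := by
    obtain ⟨q, hq, hqd⟩ := Nat.exists_prime_and_dvd (show n ≠ 1 by omega)
    exact ⟨q, Nat.mem_primeFactors.mpr ⟨hq, hqd, by omega⟩⟩
  refine ⟨n.primeFactors.max' hne, ?_, ?_, ?_⟩
  · exact (Nat.mem_primeFactors.mp (Finset.max'_mem _ hne)).1
  · exact (Nat.mem_primeFactors.mp (Finset.max'_mem _ hne)).2.1
  · intro q hq hqd
    exact Finset.le_max' _ _ (Nat.mem_primeFactors.mpr ⟨hq, hqd, by omega⟩)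

theorem qProp_of_card_eq_one {X : Type*} [Group X] [Finite X] (h : Nat.card X = 1) : QProp X := by
  intro l
  have h1 : cnt X l = 1 := cnt_eq_one l (by
    intro q hq hqd
    rw [h] at hqd
    exact absurd (Nat.dvd_one.mp hqd) hq.one_lt.ne')
  rw [h1, h]
  refine ⟨dvd_rfl, ?_, ?_⟩
  · intro q hq hqd
    exact absurd (Nat.dvd_one.mp hqd) hq.one_lt.ne'
  · intro q hq hqd
    exact absurd (Nat.dvd_one.mp hqd) hq.one_lt.ne'

/-- A supersolvable finite group has the count property. -/
theorem qProp_of_supersolvable (n : ℕ) : ∀ (G : Type u) [Group G] [Finite G],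
    Nat.card G = n → Cfsg.IsSupersolvable G → QProp G := by
  induction n using Nat.strong_induction_on with
  | _ n ih =>
    intro G _ _ hn hG
    rcases Nat.lt_or_ge 1 n with h1 | h1
    · obtain ⟨p, hp, hpd, hmax⟩ := exists_max_prime n h1
      have : Fact p.Prime := ⟨hp⟩
      obtain ⟨N, hNn, hNp⟩ := Cfsg.Agent.Helper9.exists_normal_card_eq_max_prime_aux n G hn hG p hp
        (hn ▸ hpd) (fun q hq hqd => hmax q hq (hn ▸ hqd))
      have hNpg : IsPGroup p N := IsPGroup.of_card (n := 1) (by rw [hNp, pow_one])
      have hcard : Nat.card G = Nat.card (G ⧸ N) * Nat.card N :=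
        Subgroup.card_eq_card_quotient_mul_card_subgroup N
      have hlt : Nat.card (G ⧸ N) < n := by
        rw [← hn, hcard, hNp]
        have hpos : 0 < Nat.card (G ⧸ N) := Nat.card_pos
        have := hp.one_lt
        nlinarith
      have hQ := ih _ hlt (G ⧸ N) rfl (Cfsg.Agent.Helper9.ss_quotient N hG)
      intro l
      rcases Nat.lt_or_ge p l with hl | hl
      · have h2 : cnt G l = 1 := cnt_eq_one l (by
          intro q hq hqd
          exact lt_of_le_of_lt (hmax q hq (hn ▸ hqd)) hl)
        rw [h2]
        refine ⟨one_dvd _, ?_, ?_⟩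
        · intro q hq hqd
          exact absurd (Nat.dvd_one.mp hqd) hq.one_lt.ne'
        · intro q hq hqd
          rw [Nat.div_one] at hqd
          exact lt_of_le_of_lt (hmax q hq (hn ▸ hqd)) hl
      · obtain ⟨hd, hge, hlt'⟩ := hQ l
        have h2 := cnt_fiber N p hNpg l hl
        rw [h2, hcard, hNp]
        refine ⟨?_, ?_, ?_⟩
        · rw [mul_comm]; exact mul_dvd_mul_right hd p
        · intro q hq hqd
          rcases (Nat.Prime.dvd_mul hq).mp hqd with h3 | h3
          · rw [(Nat.prime_dvd_prime_iff_eq hq hp).mp h3]; exact hl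
          · exact hge q hq h3
        · intro q hq hqd
          rw [mul_comm (Nat.card (G ⧸ N)) p, Nat.mul_div_mul_left _ _ hp.pos] at hqd
          exact hlt' q hq hqd
    · have h2 : Nat.card G = 1 := by
        have : 0 < Nat.card G := Nat.card_pos
        omega
      exact qProp_of_card_eq_one h2

/-- A finite group with the count property is solvable. -/
theorem isSolvable_of_qProp (n : ℕ) : ∀ (X : Type u) [Group X] [Finite X],
    Nat.card X = n → QProp X → Group.IsSolvable X := by
  induction n using Nat.strong_induction_on with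
  | _ n ih =>
    intro X _ _ hn hQ
    rcases Nat.lt_or_ge 1 n with h1 | h1
    · obtain ⟨p, hp, hpd, hmax⟩ := exists_max_prime n h1
      have : Fact p.Prime := ⟨hp⟩
      obtain ⟨P⟩ : Nonempty (Sylow p X) := inferInstance
      obtain ⟨hd, hge, hlt⟩ := hQ p
      have hc0 : cnt X p ≠ 0 := by
        intro h0
        rw [h0] at hd
        have : Nat.card X = 0 := Nat.eq_zero_of_zero_dvd hd
        have : 0 < Nat.card X := Nat.card_pos
        omega
      -- cnt X p is a power of p
      have hcpow : cnt X p = p ^ (cnt X p).primeFactorsList.length :=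
        Nat.eq_prime_pow_of_unique_prime_dvd hc0 (by
          intro q hq hqd
          have h2 := hge q hq hqd
          have h3 := hmax q hq (hn ▸ (hqd.trans hd))
          omega)
      have hcP : cnt X p = Nat.card P := by
        apply Nat.dvd_antisymm
        · rw [hcpow]
          apply P.pow_dvd_card_of_pow_dvd_card
          rw [← hcpow]; exact hd
        · obtain ⟨m, hm⟩ := hd
          have hpm : ¬ p ∣ m := by
            intro h2
            have h3 : Nat.card X / cnt X p = m := by
              rw [hm]; exact Nat.mul_div_cancel_left m (Nat.pos_of_ne_zero hc0)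
            have := hlt p hp (h3 ▸ h2)
            omega
          have h4 : Nat.card P ∣ cnt X p * m := hm ▸ Subgroup.card_subgroup_dvd_card _
          have hcop : Nat.Coprime (Nat.card P) m := by
            rw [P.card_eq_multiplicity]
            exact Nat.Coprime.pow_left _ ((Nat.Prime.coprime_iff_not_dvd hp).mpr hpm)
          exact hcop.dvd_of_dvd_mul_right h4
      -- P is the set of PiElt p
      have hsub : (P : Set X) ⊆ {x : X | PiElt p x} := by
        intro x hx q hq hqd
        obtain ⟨k, hk⟩ := P.isPGroup' ⟨x, hx⟩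
        have h2 : x ^ p ^ k = 1 := congrArg Subtype.val hk
        have h3 : q ∣ p ^ k := hqd.trans (orderOf_dvd_of_pow_eq_one h2)
        exact le_of_eq ((Nat.prime_dvd_prime_iff_eq hq hp).mp (hq.dvd_of_dvd_pow h3)).symm
      have heq : (P : Set X) = {x : X | PiElt p x} := by
        apply Set.eq_of_subset_of_ncard_le hsub _ (Set.toFinite _)
        rw [← Nat.card_coe_set_eq, ← Nat.card_coe_set_eq]
        exact le_of_eq hcP
      have hPn : (P : Subgroup X).Normal := by
        constructor
        intro x hx g
        have h2 : x ∈ (P : Set X) := hx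
        rw [heq] at h2
        have h3 : g * x * g⁻¹ ∈ (P : Set X) := by
          rw [heq]
          intro q hq hqd
          have h4 : orderOf (g * x * g⁻¹) = orderOf x := MulEquiv.orderOf_eq (MulAut.conj g) x
          rw [h4] at hqd
          exact h2 q hq hqd
        exact h3
      have hcard : Nat.card X = Nat.card (X ⧸ (P : Subgroup X)) * Nat.card P :=
        Subgroup.card_eq_card_quotient_mul_card_subgroup _
      have hP1 : 1 < Nat.card P := by
        have h2 : p ∣ Nat.card P := P.dvd_card_of_dvd_card (hn ▸ hpd)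
        exact lt_of_lt_of_le hp.one_lt (Nat.le_of_dvd Nat.card_pos h2)
      have hlt2 : Nat.card (X ⧸ (P : Subgroup X)) < n := by
        rw [← hn, hcard]
        have hpos : 0 < Nat.card (X ⧸ (P : Subgroup X)) := Nat.card_pos
        nlinarith
      have hQ' : QProp (X ⧸ (P : Subgroup X)) := by
        intro l
        rcases Nat.lt_or_ge p l with hl | hl
        · have hprimes : ∀ q : ℕ, q.Prime → q ∣ Nat.card (X ⧸ (P : Subgroup X)) → q < l := by
            intro q hq hqd
            have h2 : q ∣ Nat.card X := hcard ▸ (Dvd.dvd.mul_right hqd _)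
            exact lt_of_le_of_lt (hmax q hq (hn ▸ h2)) hl
          have h2 : cnt (X ⧸ (P : Subgroup X)) l = 1 := cnt_eq_one l hprimes
          rw [h2]
          refine ⟨one_dvd _, ?_, ?_⟩
          · intro q hq hqd
            exact absurd (Nat.dvd_one.mp hqd) hq.one_lt.ne'
          · intro q hq hqd
            rw [Nat.div_one] at hqd
            exact hprimes q hq hqd
        · obtain ⟨hd', hge', hlt'⟩ := hQ l
          have h2 := cnt_fiber (P : Subgroup X) p P.isPGroup' l hl
          rw [h2, hcard] at hd' hlt'
          rw [h2] at hge'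
          have hPpos : 0 < Nat.card P := Nat.card_pos
          refine ⟨?_, ?_, ?_⟩
          · rw [mul_comm (Nat.card (X ⧸ (P : Subgroup X)))] at hd'
            exact Nat.dvd_of_mul_dvd_mul_left hPpos hd'
          · intro q hq hqd
            exact hge' q hq (Dvd.dvd.mul_left hqd _)
          · intro q hq hqd
            apply hlt' q hq
            rw [mul_comm (Nat.card (X ⧸ (P : Subgroup X))), Nat.mul_div_mul_left _ _ hPpos]
            exact hqd
      have hsolQ : Group.IsSolvable (X ⧸ (P : Subgroup X)) := ih _ hlt2 _ rfl hQ'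
      have hnil : Group.IsNilpotent (P : Subgroup X) := P.isPGroup'.isNilpotent
      have hsolP : Group.IsSolvable (P : Subgroup X) := inferInstance
      refine Group.isSolvable_of_ker_le_range (P : Subgroup X).subtype
        (QuotientGroup.mk' (P : Subgroup X)) ?_
      rw [QuotientGroup.ker_mk', Subgroup.range_subtype]
    · have h2 : Nat.card X = 1 := by
        have : 0 < Nat.card X := Nat.card_pos
        omega
      have : Subsingleton X := (Nat.card_eq_one_iff_unique.mp h2).1
      infer_instance

/-- Let G and H be finite groups with the same order type (for every m the same number of elements of order m). If G is supersolvable then H is solvable. -/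
theorem result {G H : Type*} [Group G] [Finite G] [Group H] [Finite H] (hT : (∀ m : ℕ, Nat.card {g : G // orderOf g = m} = Nat.card {h : H // orderOf h = m})) (hG : Cfsg.IsSupersolvable G) :
    Group.IsSolvable H := by
  have he : ∀ m : ℕ, Nonempty ({g : G // orderOf g = m} ≃ {h : H // orderOf h = m}) :=
    fun m => Finite.card_eq.mp (hT m)
  let φ : G ≃ H := (Equiv.sigmaFiberEquiv (orderOf : G → ℕ)).symm.trans
    ((Equiv.sigmaCongrRight (fun m => (he m).some)).trans (Equiv.sigmaFiberEquiv (orderOf : H → ℕ)))
  have hφ : ∀ g : G, orderOf (φ g) = orderOf g := by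
    intro g
    exact ((he (orderOf g)).some ⟨g, rfl⟩).2
  have hcard : Nat.card G = Nat.card H := Nat.card_congr φ
  have hcnt : ∀ l, cnt G l = cnt H l := by
    intro l
    apply Nat.card_congr
    exact Equiv.subtypeEquiv φ (fun g => by unfold PiElt; rw [hφ])
  have hQG : QProp G := qProp_of_supersolvable _ G rfl hG
  have hQH : QProp H := by
    intro l
    rw [← hcnt, ← hcard]
    exact hQG l
  exact isSolvable_of_qProp _ H rfl hQH

end Cfsg.Agent.S3998
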