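import Cfsg.Statements.S4001
import Cfsg.Agent.Helper66.FrobTools
import Cfsg.Agent.S0065

set_option autoImplicit false
open Cfsg

namespace Cfsg.Agent.S4001

open Cfsg.Agent.Helper66

/-- Let G be a 2-Frobenius group: it has normal subgroups H < K with K a Frobenius group with kernel H and G/H a Frobenius group with kernel K/H. Then G is solvable; K/H has odd order coprime to the order of H and to the order of G/K (it is the image of an odd-order Hall subgroup); G/K is cyclic; and the prime graph of G has exactly two connected components, both complete: for distinct primes p, q dividing the order of G, G has an element of order pq exactly when p and q either both divide the order of K/H or both do not. -/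
theorem result {G : Type*} [Group G] [Finite G] (H K : Subgroup G) [H.Normal] [K.Normal] (hlt : H < K)
    (hK : ∃ C : Subgroup ↥K, Cfsg.IsFrobeniusComplement C ∧ Cfsg.frobeniusKernel C = (H.subgroupOf K : Set ↥K))
    (hGH : ∃ C : Subgroup (G ⧸ H), Cfsg.IsFrobeniusComplement C ∧ Cfsg.frobeniusKernel C = (K.map (QuotientGroup.mk' H) : Set (G ⧸ H))) :
    Group.IsSolvable G ∧ Odd (Nat.card (↥K ⧸ H.subgroupOf K)) ∧
      Nat.Coprime (Nat.card (↥K ⧸ H.subgroupOf K)) (Nat.card ↥H * Nat.card (G ⧸ K)) ∧ IsCyclic (G ⧸ K) ∧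
      ∀ p q : ℕ, p.Prime → q.Prime → p ≠ q → p ∣ Nat.card G → q ∣ Nat.card G →
        ((∃ g : G, orderOf g = p * q) ↔ (p ∣ Nat.card (↥K ⧸ H.subgroupOf K) ↔ q ∣ Nat.card (↥K ⧸ H.subgroupOf K))) := by
  obtain ⟨C₁, hC₁, hN₁'⟩ := hK
  obtain ⟨C₂, hC₂, hN₂'⟩ := hGH
  have hN₁ := hN₁'.symm
  have hN₂ := hN₂'.symm
  have hHK : H ≤ K := hlt.le
  have hmemN₁ : ∀ k : ↥K, k ∈ H.subgroupOf K ↔ (k : G) ∈ H := fun k => Subgroup.mem_subgroupOf
  have hmemN₂ : ∀ g : G, (QuotientGroup.mk' H g) ∈ K.map (QuotientGroup.mk' H) ↔ g ∈ K := by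
    intro g
    constructor
    · rintro ⟨k, hk, hkg⟩
      have h1 : k⁻¹ * g ∈ H := QuotientGroup.eq.mp hkg
      have h2 := K.mul_mem hk (hHK h1)
      simpa using h2
    · intro hg
      exact ⟨g, hg, rfl⟩
  have hNn₂ : (K.map (QuotientGroup.mk' H)).Normal := (frobT_compl hC₂ hN₂).1
  -- the isomorphism `C₁ ≃ K/H`
  let f : ↥C₁ →* ↥(K.map (QuotientGroup.mk' H)) :=
    ((QuotientGroup.mk' H).comp (K.subtype.comp C₁.subtype)).codRestrict (K.map (QuotientGroup.mk' H))
      (fun c => (hmemN₂ _).mpr (c : ↥K).2)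
  have hf_inj : Function.Injective f := by
    rw [injective_iff_map_eq_one]
    intro c hc
    have h1 : QuotientGroup.mk' H ((c : ↥K) : G) = 1 := congrArg Subtype.val hc
    have h2 : ((c : ↥K) : G) ∈ H := (QuotientGroup.eq_one_iff _).mp h1
    have h3 : (c : ↥K) = 1 := frobT_disj hC₁ hN₁ ((hmemN₁ _).mpr h2) c.2
    exact Subtype.ext h3
  have hf_surj : Function.Surjective f := by
    rintro ⟨y, k, hk, rfl⟩
    obtain ⟨n, hn, c, hc, hnc⟩ := frobT_mul hC₁ hN₁ (⟨k, hk⟩ : ↥K)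
    refine ⟨⟨c, hc⟩, Subtype.ext ?_⟩
    show QuotientGroup.mk' H (c : G) = QuotientGroup.mk' H k
    have h1 : k = (n : G) * (c : G) := congrArg Subtype.val hnc
    rw [h1, map_mul, show QuotientGroup.mk' H (n : G) = 1 from
      (QuotientGroup.eq_one_iff _).mpr ((hmemN₁ n).mp hn), one_mul]
  -- cardinalities
  have hcardN₁ : Nat.card (H.subgroupOf K) = Nat.card H :=
    Nat.card_congr (Subgroup.subgroupOfEquivOfLe hHK).toEquiv
  have hcardKH : Nat.card (↥K ⧸ H.subgroupOf K) = Nat.card C₁ := frobT_index hC₁ hN₁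
  have hcardN₂ : Nat.card (K.map (QuotientGroup.mk' H)) = Nat.card C₁ :=
    (Nat.card_congr (Equiv.ofBijective f ⟨hf_inj, hf_surj⟩)).symm
  have hcardC₂ : Nat.card C₂ = Nat.card (G ⧸ K) := by
    rw [← frobT_index hC₂ hN₂]
    exact Subgroup.index_map_eq K (QuotientGroup.mk'_surjective H)
      (by rw [QuotientGroup.ker_mk']; exact hHK)
  have hcardG : Nat.card G = Nat.card H * Nat.card C₁ * Nat.card (G ⧸ K) := by
    rw [Subgroup.card_eq_card_quotient_mul_card_subgroup K, ← frobT_card hC₁ hN₁, hcardN₁]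
    ring
  -- nilpotency
  have hnilN₁ : Group.IsNilpotent (H.subgroupOf K) := frobT_nilpotent hC₁ hN₁
  have hnilH : Group.IsNilpotent H := Group.nilpotent_of_mulEquiv (Subgroup.subgroupOfEquivOfLe hHK)
  have hnilN₂ : Group.IsNilpotent (K.map (QuotientGroup.mk' H)) := frobT_nilpotent hC₂ hN₂
  have hnilC₁ : Group.IsNilpotent C₁ :=
    Group.nilpotent_of_mulEquiv (MulEquiv.ofBijective f ⟨hf_inj, hf_surj⟩).symm
  -- `K/H` has odd order
  have hoddC₁ : Odd (Nat.card C₁) := by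
    by_contra hodd
    rw [Nat.not_odd_iff_even] at hodd
    have h2 : 2 ∣ Nat.card (K.map (QuotientGroup.mk' H)) := by
      rw [hcardN₂]; exact even_iff_two_dvd.mp hodd
    haveI : Fact (Nat.Prime 2) := ⟨Nat.prime_two⟩
    obtain ⟨z, hz⟩ := exists_prime_orderOf_dvd_card' 2 h2
    have hz2 : orderOf (z : G ⧸ H) = 2 := by rw [Subgroup.orderOf_coe]; exact hz
    have huniq : ∀ w : G ⧸ H, w ∈ K.map (QuotientGroup.mk' H) → orderOf w = 2 →
        w = (z : G ⧸ H) := by
      intro w hw hw2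
      obtain ⟨c, hc⟩ := hf_surj ⟨w, hw⟩
      obtain ⟨d, hd⟩ := hf_surj z
      have hc2 : orderOf (c : ↥K) = 2 := by
        rw [Subgroup.orderOf_coe, ← orderOf_injective f hf_inj c, hc, ← Subgroup.orderOf_coe]
        exact hw2
      have hd2 : orderOf (d : ↥K) = 2 := by
        rw [Subgroup.orderOf_coe, ← orderOf_injective f hf_inj d, hd]
        exact hz
      have hcd : (c : ↥K) = d := frobT_invol hC₁ hN₁ c.2 d.2 hc2 hd2
      have hcd' : c = d := Subtype.ext hcd
      have h3 : (⟨w, hw⟩ : ↥(K.map (QuotientGroup.mk' H))) = z := by rw [← hc, ← hd, hcd']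
      exact congrArg Subtype.val h3
    have hz1 : (z : G ⧸ H) ≠ 1 := by
      intro h
      rw [h, orderOf_one] at hz2
      omega
    have hall : ∀ g : G ⧸ H, g ∈ K.map (QuotientGroup.mk' H) := by
      intro g
      apply frobT_cent hC₂ hN₂ z.2 hz1
      have h4 := MulEquiv.orderOf_eq (MulAut.conj g) (z : G ⧸ H)
      rw [MulAut.conj_apply] at h4
      have h3 := huniq (g * z * g⁻¹) (hNn₂.conj_mem _ z.2 g) (by rw [h4]; exact hz2)
      calc g * (z : G ⧸ H) = (g * z * g⁻¹) * g := by group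
        _ = z * g := by rw [h3]
    apply hC₂.1
    rw [Subgroup.eq_bot_iff_forall]
    intro x hx
    exact frobT_disj hC₂ hN₂ (hall x) hx
  have hcycC₁ : IsCyclic C₁ := frobT_cyclic_of_nilpotent_odd hC₁ hN₁ hoddC₁
  have hcycN₂ : IsCyclic (K.map (QuotientGroup.mk' H)) := isCyclic_of_surjective f hf_surj
  -- the complement of `G/H` is commutative, hence cyclic
  have hcommC₂ : ∀ a b : C₂, a * b = b * a := by
    intro a b
    obtain ⟨n, hn, hn1⟩ := frobT_exists_ne_one hC₂ hN₂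
    obtain ⟨i, hi⟩ := MonoidHom.map_cyclic
      ((MulAut.conjNormal (H := K.map (QuotientGroup.mk' H)) (a : G ⧸ H)).toMonoidHom)
    obtain ⟨j, hj⟩ := MonoidHom.map_cyclic
      ((MulAut.conjNormal (H := K.map (QuotientGroup.mk' H)) (b : G ⧸ H)).toMonoidHom)
    have hi' : (a : G ⧸ H) * n * (a : G ⧸ H)⁻¹ = n ^ i := by
      have h1 := congrArg Subtype.val (hi ⟨n, hn⟩)
      simpa using h1
    have hj' : (b : G ⧸ H) * n * (b : G ⧸ H)⁻¹ = n ^ j := by
      have h1 := congrArg Subtype.val (hj ⟨n, hn⟩)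
      simpa using h1
    have h1 : ((a : G ⧸ H) * b) * n * ((a : G ⧸ H) * b)⁻¹ =
        ((b : G ⧸ H) * a) * n * ((b : G ⧸ H) * a)⁻¹ := by
      have e1 : ((a : G ⧸ H) * b) * n * ((a : G ⧸ H) * b)⁻¹ =
          (a : G ⧸ H) * ((b : G ⧸ H) * n * (b : G ⧸ H)⁻¹) * (a : G ⧸ H)⁻¹ := by group
      have e2 : ((b : G ⧸ H) * a) * n * ((b : G ⧸ H) * a)⁻¹ =
          (b : G ⧸ H) * ((a : G ⧸ H) * n * (a : G ⧸ H)⁻¹) * (b : G ⧸ H)⁻¹ := by group
      rw [e1, e2, hj', hi', ← conj_zpow, ← conj_zpow, hi', hj', ← zpow_mul, ← zpow_mul, mul_comm]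
    have h2 : ((b : G ⧸ H) * a)⁻¹ * ((a : G ⧸ H) * b) * n =
        n * (((b : G ⧸ H) * a)⁻¹ * ((a : G ⧸ H) * b)) := by
      calc ((b : G ⧸ H) * a)⁻¹ * ((a : G ⧸ H) * b) * n
          = ((b : G ⧸ H) * a)⁻¹ * (((a : G ⧸ H) * b) * n * ((a : G ⧸ H) * b)⁻¹) *
              ((a : G ⧸ H) * b) := by group
        _ = ((b : G ⧸ H) * a)⁻¹ * (((b : G ⧸ H) * a) * n * ((b : G ⧸ H) * a)⁻¹) *
              ((a : G ⧸ H) * b) := by rw [h1]
        _ = n * (((b : G ⧸ H) * a)⁻¹ * ((a : G ⧸ H) * b)) := by group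
    have h3 : ((b : G ⧸ H) * a)⁻¹ * ((a : G ⧸ H) * b) = 1 :=
      frobT_disj hC₂ hN₂ (frobT_cent hC₂ hN₂ hn hn1 h2)
        (C₂.mul_mem (C₂.inv_mem (C₂.mul_mem b.2 a.2)) (C₂.mul_mem a.2 b.2))
    apply Subtype.ext
    show (a : G ⧸ H) * b = b * a
    calc (a : G ⧸ H) * b = ((b : G ⧸ H) * a) * (((b : G ⧸ H) * a)⁻¹ * ((a : G ⧸ H) * b)) := by
          group
      _ = b * a := by rw [h3, mul_one]
  have hcycC₂ : IsCyclic C₂ :=
    frobT_abelian_cyclic' hC₂ hN₂ hcommC₂ C₂.subtype C₂.subtype_injective (fun a => a.2)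
  -- `G/K` is cyclic
  let φ : G ⧸ H →* G ⧸ K := QuotientGroup.map H K (MonoidHom.id G) (fun h hh => hHK hh)
  have hφ : ∀ g : G, φ (QuotientGroup.mk' H g) = QuotientGroup.mk' K g := fun g => rfl
  have hcycGK : IsCyclic (G ⧸ K) := by
    apply isCyclic_of_surjective (φ.comp C₂.subtype)
    intro y
    obtain ⟨g, rfl⟩ := QuotientGroup.mk'_surjective K y
    obtain ⟨n, hn, c, hc, hnc⟩ := frobT_mul hC₂ hN₂ (QuotientGroup.mk' H g)
    refine ⟨⟨c, hc⟩, ?_⟩
    show φ c = QuotientGroup.mk' K g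
    rw [← hφ, hnc, map_mul]
    obtain ⟨k, hk, rfl⟩ := hn
    rw [hφ, show QuotientGroup.mk' K k = 1 from (QuotientGroup.eq_one_iff k).mpr hk, one_mul]
  -- solvability
  have hsolK : Group.IsSolvable ↥K := by
    have hcycQ : IsCyclic (↥K ⧸ H.subgroupOf K) := by
      apply isCyclic_of_surjective ((QuotientGroup.mk' (H.subgroupOf K)).comp C₁.subtype)
      intro y
      obtain ⟨k, rfl⟩ := QuotientGroup.mk'_surjective (H.subgroupOf K) y
      obtain ⟨n, hn, c, hc, hnc⟩ := frobT_mul hC₁ hN₁ k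
      refine ⟨⟨c, hc⟩, ?_⟩
      show QuotientGroup.mk' (H.subgroupOf K) c = QuotientGroup.mk' (H.subgroupOf K) k
      rw [hnc, map_mul, show QuotientGroup.mk' (H.subgroupOf K) n = 1 from
        (QuotientGroup.eq_one_iff n).mpr hn, one_mul]
    haveI : Group.IsSolvable (↥K ⧸ H.subgroupOf K) :=
      Group.isSolvable_of_comm (fun a b => mul_comm' a b)
    exact Group.isSolvable_of_ker_le_range (H.subgroupOf K).subtype
      (QuotientGroup.mk' (H.subgroupOf K))
      (by rw [QuotientGroup.ker_mk', Subgroup.range_subtype])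
  have hsolG : Group.IsSolvable G := by
    haveI : Group.IsSolvable (G ⧸ K) := Group.isSolvable_of_comm (fun a b => mul_comm' a b)
    exact Group.isSolvable_of_ker_le_range K.subtype (QuotientGroup.mk' K)
      (by rw [QuotientGroup.ker_mk', Subgroup.range_subtype])
  -- coprimality
  have hcop1 : (Nat.card C₁).Coprime (Nat.card H) := by
    have h1 := frobT_coprime hC₁ hN₁
    rw [hcardN₁] at h1
    exact h1.symm
  have hcop2 : (Nat.card C₁).Coprime (Nat.card (G ⧸ K)) := by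
    have h1 := frobT_coprime hC₂ hN₂
    rw [hcardN₂, hcardC₂] at h1
    exact h1
  refine ⟨hsolG, by rw [hcardKH]; exact hoddC₁, by rw [hcardKH]; exact hcop1.mul_right hcop2,
    hcycGK, ?_⟩
  intro p q hp hq hpq hpG hqG
  rw [hcardKH]
  -- an element of order `p * q` with `p ∣ |K/H|` and `q ∤ |K/H|` is impossible
  have hmixed : ∀ p q : ℕ, p.Prime → q.Prime → p ∣ Nat.card C₁ → ¬ q ∣ Nat.card C₁ →
      ∀ g : G, orderOf g = p * q → False := by
    intro p q hp hq hpC hqC g hg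
    have ha : orderOf (g ^ q) = p := by
      rw [orderOf_pow_of_dvd hq.pos.ne' (hg ▸ dvd_mul_left q p), hg,
        Nat.mul_div_cancel _ hq.pos]
    have hb : orderOf (g ^ p) = q := by
      rw [orderOf_pow_of_dvd hp.pos.ne' (hg ▸ dvd_mul_right p q), hg,
        Nat.mul_div_cancel_left _ hp.pos]
    have hab : g ^ q * g ^ p = g ^ p * g ^ q := by rw [← pow_add, ← pow_add, add_comm]
    have haK : g ^ q ∈ K := by
      rw [← QuotientGroup.eq_one_iff, ← orderOf_eq_one_iff]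
      have h1 : orderOf ((g ^ q : G) : G ⧸ K) ∣ p :=
        ha ▸ orderOf_map_dvd (QuotientGroup.mk' K) (g ^ q)
      have h2 : orderOf ((g ^ q : G) : G ⧸ K) ∣ Nat.card (G ⧸ K) := orderOf_dvd_natCard _
      have h3 : p.Coprime (Nat.card (G ⧸ K)) := Nat.Coprime.coprime_dvd_left hpC hcop2
      exact Nat.eq_one_of_dvd_coprimes h3 h1 h2
    have haH : g ^ q ∉ H := by
      intro h
      have h1 : p ∣ Nat.card H := ha ▸ Subgroup.orderOf_dvd_natCard H h
      have h3 : p.Coprime (Nat.card H) := Nat.Coprime.coprime_dvd_left hpC hcop1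
      exact hp.one_lt.ne' (Nat.eq_one_of_dvd_coprimes h3 dvd_rfl h1)
    have hb1 : g ^ p ≠ 1 := by
      intro h
      rw [h, orderOf_one] at hb
      exact hq.one_lt.ne hb
    have h1 : QuotientGroup.mk' H (g ^ q) ∈ K.map (QuotientGroup.mk' H) := (hmemN₂ _).mpr haK
    have h2 : QuotientGroup.mk' H (g ^ q) ≠ 1 := by
      rw [Ne, QuotientGroup.mk'_apply, QuotientGroup.eq_one_iff]
      exact haH
    have h3 : QuotientGroup.mk' H (g ^ p) ∈ K.map (QuotientGroup.mk' H) :=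
      frobT_cent hC₂ hN₂ h1 h2 (by rw [← map_mul, ← map_mul, hab])
    have hbK : g ^ p ∈ K := (hmemN₂ _).mp h3
    have hbH : g ^ p ∈ H := by
      rw [← QuotientGroup.eq_one_iff, ← orderOf_eq_one_iff]
      have h4 : orderOf ((g ^ p : G) : G ⧸ H) ∣ q :=
        hb ▸ orderOf_map_dvd (QuotientGroup.mk' H) (g ^ p)
      have h5 : orderOf ((g ^ p : G) : G ⧸ H) ∣ Nat.card C₁ := by
        rw [← hcardN₂]
        exact Subgroup.orderOf_dvd_natCard _ h3
      rcases (Nat.dvd_prime hq).mp h4 with h | h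
      · exact h
      · exact absurd (h ▸ h5) hqC
    have h6 : (⟨g ^ q, haK⟩ : ↥K) ∈ H.subgroupOf K :=
      frobT_cent hC₁ hN₁ (n := ⟨g ^ p, hbK⟩) ((hmemN₁ _).mpr hbH)
        (fun h => hb1 (congrArg Subtype.val h)) (Subtype.ext hab)
    exact haH ((hmemN₁ _).mp h6)
  -- both primes divide `|H|`
  have hHH : ∀ p q : ℕ, p.Prime → q.Prime → p ≠ q → p ∣ Nat.card H → q ∣ Nat.card H →
      ∃ g : G, orderOf g = p * q := by
    intro p q hp hq hpq h1 h2
    haveI : Fact p.Prime := ⟨hp⟩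
    haveI : Fact q.Prime := ⟨hq⟩
    obtain ⟨x, hx⟩ := exists_prime_orderOf_dvd_card' p h1
    obtain ⟨y, hy⟩ := exists_prime_orderOf_dvd_card' q h2
    have hcomm : x * y = y * x :=
      Cfsg.Agent.Helper19.commute_of_coprime_of_nilpotent ↥H x y p q
        ((Nat.coprime_primes hp hq).mpr hpq) (hx ▸ pow_orderOf_eq_one x)
        (hy ▸ pow_orderOf_eq_one y)
    refine ⟨((x * y : ↥H) : G), ?_⟩
    rw [Subgroup.orderOf_coe, Commute.orderOf_mul_eq_mul_orderOf_of_coprime hcomm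
      (by rw [hx, hy]; exact (Nat.coprime_primes hp hq).mpr hpq), hx, hy]
  -- both primes divide `|G/K|`
  have hQQ : ∀ p q : ℕ, p.Prime → q.Prime → p ≠ q → p ∣ Nat.card (G ⧸ K) →
      q ∣ Nat.card (G ⧸ K) → ∃ g : G, orderOf g = p * q := by
    intro p q hp hq hpq h1 h2
    obtain ⟨y, hy⟩ := exists_orderOf_eq_of_dvd_card_cyclic (A := G ⧸ K)
      (Nat.Coprime.mul_dvd_of_dvd_of_dvd ((Nat.coprime_primes hp hq).mpr hpq) h1 h2)
    obtain ⟨g, rfl⟩ := QuotientGroup.mk'_surjective K y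
    exact ⟨_, orderOf_pow_div_of_map (QuotientGroup.mk' K) g (p * q) hy⟩
  -- `p ∣ |H|` and `q ∣ |G/K|`
  have hHQ : ∀ p q : ℕ, p.Prime → q.Prime → p ≠ q → p ∣ Nat.card H →
      q ∣ Nat.card (G ⧸ K) → ∃ g : G, orderOf g = p * q := by
    intro p q hp hq hpq h1 h2
    haveI : Fact p.Prime := ⟨hp⟩
    haveI : Fact q.Prime := ⟨hq⟩
    obtain ⟨z, hzH, hzc, hzp⟩ : ∃ z : G, z ∈ H ∧ (∀ h ∈ H, h * z = z * h) ∧ orderOf z = p := by
      let P : Sylow p ↥H := default
      have h03 : Group.IsNilpotent ↥H ↔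
          ∀ (p : ℕ) (_hp : Fact p.Prime) (P : Sylow p ↥H), (P : Subgroup ↥H).Normal :=
        (Group.isNilpotent_of_finite_tfae (G := ↥H)).out 0 3
      have hPn : (P : Subgroup ↥H).Normal := h03.mp hnilH p inferInstance P
      have hP1 : (P : Subgroup ↥H) ≠ ⊥ := P.ne_bot_of_dvd_card h1
      have h3 := Cfsg.Agent.S0065.result (P : Subgroup ↥H) hP1
      have hQ : IsPGroup p ↥((P : Subgroup ↥H) ⊓ Subgroup.center ↥H) :=
        P.isPGroup'.to_le inf_le_left
      have hpd : p ∣ Nat.card ↥((P : Subgroup ↥H) ⊓ Subgroup.center ↥H) := by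
        rcases hQ.card_eq_or_dvd with h | h
        · exact absurd (Subgroup.card_eq_one.mp h) h3
        · exact h
      obtain ⟨w, hw⟩ := exists_prime_orderOf_dvd_card' p hpd
      refine ⟨((w : ↥H) : G), (w : ↥H).2, ?_, ?_⟩
      · intro h hh
        have h4 := Subgroup.mem_center_iff.mp w.2.2 ⟨h, hh⟩
        exact congrArg Subtype.val h4
      · rw [Subgroup.orderOf_coe, Subgroup.orderOf_coe]
        exact hw
    let Ω : Subgroup G :=
      { carrier := {z | z ∈ H ∧ (∀ h ∈ H, h * z = z * h) ∧ z ^ p = 1}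
        one_mem' := ⟨H.one_mem, fun h _ => by simp, one_pow p⟩
        mul_mem' := by
          rintro a b ⟨ha, hac, hap⟩ ⟨hb, hbc, hbp⟩
          refine ⟨H.mul_mem ha hb, fun h hh => ?_, ?_⟩
          · rw [← mul_assoc, hac h hh, mul_assoc, hbc h hh, mul_assoc]
          · rw [(show Commute a b from hbc a ha).mul_pow, hap, hbp, one_mul]
        inv_mem' := by
          rintro a ⟨ha, hac, hap⟩
          refine ⟨H.inv_mem ha, fun h hh => ?_, by rw [inv_pow, hap, inv_one]⟩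
          have h3 := hac h hh
          calc h * a⁻¹ = a⁻¹ * (a * h) * a⁻¹ := by group
            _ = a⁻¹ * (h * a) * a⁻¹ := by rw [h3]
            _ = a⁻¹ * h := by group }
    have hΩmem : ∀ z : G, z ∈ Ω ↔ z ∈ H ∧ (∀ h ∈ H, h * z = z * h) ∧ z ^ p = 1 := fun z => Iff.rfl
    have hΩn : Ω.Normal := by
      constructor
      intro a ha g
      obtain ⟨ha, hac, hap⟩ := (hΩmem a).mp ha
      refine (hΩmem _).mpr ⟨‹H.Normal›.conj_mem a ha g, fun h hh => ?_, by rw [conj_pow, hap]; group⟩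
      have h' := hac (g⁻¹ * h * g) (by simpa using ‹H.Normal›.conj_mem h hh g⁻¹)
      calc h * (g * a * g⁻¹) = g * ((g⁻¹ * h * g) * a) * g⁻¹ := by group
        _ = g * (a * (g⁻¹ * h * g)) * g⁻¹ := by rw [h']
        _ = g * a * g⁻¹ * h := by group
    let ρ₀ : G →* MulAut Ω := MulAut.conjNormal
    have hρ₀ : ∀ (g : G) (w : Ω), ((ρ₀ g w : Ω) : G) = g * w * g⁻¹ := fun g w => rfl
    have hker : H ≤ ρ₀.ker := by
      intro h hh
      rw [MonoidHom.mem_ker]
      ext w
      rw [hρ₀]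
      show h * (w : G) * h⁻¹ = (w : G)
      rw [((hΩmem _).mp w.2).2.1 h hh]
      group
    let ρ : G ⧸ H →* MulAut Ω := QuotientGroup.lift H ρ₀ hker
    have hρ : ∀ (g : G) (w : Ω), ((ρ (QuotientGroup.mk' H g) w : Ω) : G) = g * w * g⁻¹ :=
      fun g w => rfl
    have hΩcomm : ∀ a b : Ω, a * b = b * a :=
      fun a b => Subtype.ext (((hΩmem _).mp b.2).2.1 a ((hΩmem _).mp a.2).1)
    have hΩH : Ω ≤ H := fun z hz => ((hΩmem z).mp hz).1
    have hcopΩ : (Nat.card Ω).Coprime (Nat.card (K.map (QuotientGroup.mk' H))) := by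
      rw [hcardN₂]
      exact Nat.Coprime.coprime_dvd_left (Subgroup.card_dvd_of_le hΩH) hcop1.symm
    have hex : ∃ b : Ω, b ≠ 1 ∧ ∀ c ∈ C₂, ρ c b = b := by
      by_contra hcon
      push Not at hcon
      have hall := Cfsg.Agent.Helper11.frobenius_action_trivial hΩcomm ρ
        (K.map (QuotientGroup.mk' H)) C₂
        (fun x hxN hxC => frobT_disj hC₂ hN₂ hxN hxC)
        (fun x hx h hh hxh => frobT_F hC₂ hx hh hxh)
        (fun g hg => frobT_cover hC₂ hN₂ hg)
        hcopΩ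
        (fun b hb => by
          by_contra hb1
          obtain ⟨k, hkK, hkH⟩ := SetLike.exists_of_lt hlt
          have h3 := hb (QuotientGroup.mk' H k) ((hmemN₂ k).mpr hkK)
          have h4 : k * (b : G) * k⁻¹ = (b : G) := by rw [← hρ k b, h3]
          have h5 : (⟨k, hkK⟩ : ↥K) ∈ H.subgroupOf K :=
            frobT_cent hC₁ hN₁ (n := ⟨(b : G), hHK (hΩH b.2)⟩) ((hmemN₁ _).mpr (hΩH b.2))
              (fun h => hb1 (Subtype.ext (congrArg (Subtype.val : ↥K → G) h)))
              (Subtype.ext (by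
                show k * (b : G) = (b : G) * k
                calc k * (b : G) = (k * (b : G) * k⁻¹) * k := by group
                  _ = (b : G) * k := by rw [h4]))
          exact hkH ((hmemN₁ _).mp h5))
        (fun b hb => by
          by_contra hb1
          obtain ⟨c, hc, hcb⟩ := hcon b hb1
          exact hcb (hb c hc))
      have h3 := hall ⟨z, (hΩmem z).mpr ⟨hzH, hzc, by rw [← hzp]; exact pow_orderOf_eq_one z⟩⟩
      have hz1 : z = 1 := congrArg Subtype.val h3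
      rw [hz1, orderOf_one] at hzp
      exact hp.one_lt.ne hzp
    obtain ⟨b, hb1, hbfix⟩ := hex
    have hq2 : q ∣ Nat.card C₂ := by rw [hcardC₂]; exact h2
    obtain ⟨d, hd⟩ := exists_prime_orderOf_dvd_card' q hq2
    obtain ⟨g₀, hg₀⟩ := QuotientGroup.mk'_surjective H (d : G ⧸ H)
    have hfix : g₀ * (b : G) * g₀⁻¹ = (b : G) := by rw [← hρ g₀ b, hg₀, hbfix d d.2]
    have hg₁ : orderOf (g₀ ^ (orderOf g₀ / q)) = q :=
      orderOf_pow_div_of_map (QuotientGroup.mk' H) g₀ q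
        (by rw [hg₀, Subgroup.orderOf_coe]; exact hd)
    have hbp : orderOf (b : G) = p := by
      have h3 : orderOf (b : G) ∣ p := orderOf_dvd_of_pow_eq_one ((hΩmem _).mp b.2).2.2
      rcases (Nat.dvd_prime hp).mp h3 with h | h
      · exact absurd (Subtype.ext (orderOf_eq_one_iff.mp h)) hb1
      · exact h
    have hcomm : Commute (b : G) (g₀ ^ (orderOf g₀ / q)) := by
      apply Commute.pow_right
      show (b : G) * g₀ = g₀ * (b : G)
      calc (b : G) * g₀ = (g₀ * (b : G) * g₀⁻¹) * g₀ := by rw [hfix]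
        _ = g₀ * (b : G) := by group
    exact ⟨(b : G) * g₀ ^ (orderOf g₀ / q), by
      rw [hcomm.orderOf_mul_eq_mul_orderOf_of_coprime
        (by rw [hbp, hg₁]; exact (Nat.coprime_primes hp hq).mpr hpq), hbp, hg₁]⟩
  constructor
  · rintro ⟨g, hg⟩
    constructor
    · intro hpC
      by_contra hqC
      exact hmixed p q hp hq hpC hqC g hg
    · intro hqC
      by_contra hpC
      exact hmixed q p hq hp hqC hpC g (by rw [hg, mul_comm])
  · intro hiff
    by_cases hpC : p ∣ Nat.card C₁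
    · have hqC := hiff.mp hpC
      obtain ⟨c, hc⟩ := exists_orderOf_eq_of_dvd_card_cyclic (A := C₁)
        (Nat.Coprime.mul_dvd_of_dvd_of_dvd ((Nat.coprime_primes hp hq).mpr hpq) hpC hqC)
      exact ⟨((c : ↥K) : G), by rw [Subgroup.orderOf_coe, Subgroup.orderOf_coe]; exact hc⟩
    · have hqC : ¬ q ∣ Nat.card C₁ := fun h => hpC (hiff.mpr h)
      have hdiv : ∀ r : ℕ, r.Prime → r ∣ Nat.card G → ¬ r ∣ Nat.card C₁ →
          r ∣ Nat.card H ∨ r ∣ Nat.card (G ⧸ K) := by
        intro r hr hrG hrC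
        rw [hcardG] at hrG
        rcases (Nat.Prime.dvd_mul hr).mp hrG with h | h
        · rcases (Nat.Prime.dvd_mul hr).mp h with h | h
          · exact Or.inl h
          · exact absurd h hrC
        · exact Or.inr h
      rcases hdiv p hp hpG hpC with h1 | h1
      · rcases hdiv q hq hqG hqC with h2 | h2
        · exact hHH p q hp hq hpq h1 h2
        · exact hHQ p q hp hq hpq h1 h2
      · rcases hdiv q hq hqG hqC with h2 | h2
        · obtain ⟨g, hg⟩ := hHQ q p hq hp hpq.symm h2 h1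
          exact ⟨g, by rw [hg, mul_comm]⟩
        · exact hQQ p q hp hq hpq h1 h2

end Cfsg.Agent.S4001
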