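import Cfsg.Statements.S4002
import Cfsg.Agent.S1475
import Cfsg.Agent.Helper35.HallCoprime

set_option autoImplicit false
open Cfsg

namespace Cfsg.Agent.S4002

/-- For `n ≥ 7` there are three primes `p < q < r ≤ n` with `p * q > n`. -/
theorem exists_three_primes (n : ℕ) (hn : 7 ≤ n) :
    ∃ p q r : ℕ, p.Prime ∧ q.Prime ∧ r.Prime ∧ p < q ∧ q < r ∧ r ≤ n ∧ n < p * q := by
  by_cases h1 : n ≤ 14
  · exact ⟨3, 5, 7, by norm_num, by norm_num, by norm_num, by norm_num, by norm_num, hn, by omega⟩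
  by_cases h2 : n ≤ 34
  · exact ⟨5, 7, 11, by norm_num, by norm_num, by norm_num, by norm_num, by norm_num, by omega,
      by omega⟩
  obtain ⟨r, hr, hr1, hr2⟩ := Nat.exists_prime_lt_and_le_two_mul (n / 2) (by omega)
  obtain ⟨q, hq, hq1, hq2⟩ := Nat.exists_prime_lt_and_le_two_mul ((r - 1) / 2) (by omega)
  obtain ⟨p, hp, hp1, hp2⟩ := Nat.exists_prime_lt_and_le_two_mul ((q - 1) / 2) (by omega)
  refine ⟨p, q, r, hp, hq, hr, by omega, by omega, by omega, ?_⟩
  have h3 : n + 1 ≤ 8 * p := by omega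
  have h4 : n + 1 ≤ 4 * q := by omega
  nlinarith

/-- If the set of element orders of a finite group G is {1, 2, …, n} with n ≥ 7, then G is not solvable. -/
theorem result {G : Type*} [Group G] [Finite G] (n : ℕ) (hn : 7 ≤ n) (h : Set.range (orderOf : G → ℕ) = {k : ℕ | 1 ≤ k ∧ k ≤ n}) : ¬ Group.IsSolvable G := by
  intro hsol
  obtain ⟨p, q, r, hp, hq, hr, hpq, hqr, hrn, hnpq⟩ := exists_three_primes n hn
  have hle : ∀ g : G, orderOf g ≤ n := by
    intro g
    have h1 : orderOf g ∈ Set.range (orderOf : G → ℕ) := ⟨g, rfl⟩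
    rw [h] at h1
    exact h1.2
  have hex : ∀ k : ℕ, 1 ≤ k → k ≤ n → ∃ g : G, orderOf g = k := by
    intro k hk1 hk2
    have h1 : k ∈ Set.range (orderOf : G → ℕ) := by rw [h]; exact ⟨hk1, hk2⟩
    exact h1
  have hdvd : ∀ k : ℕ, 1 ≤ k → k ≤ n → k ∣ Nat.card G := by
    intro k hk1 hk2
    obtain ⟨g, hg⟩ := hex k hk1 hk2
    rw [← hg]; exact orderOf_dvd_natCard g
  have hpG := hdvd p hp.one_lt.le (by omega)
  have hqG := hdvd q hq.one_lt.le (by omega)
  have hrG := hdvd r hr.one_lt.le hrn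
  obtain ⟨m, n', hmn, hcop, hm, hn'⟩ := Cfsg.Agent.Helper35.exists_pi_factorization
    ({p, q, r} : Set ℕ) (Nat.card G) Nat.card_pos.ne'
  obtain ⟨H, hH⟩ := Cfsg.Agent.Helper1.hall_exists_aux (Nat.card G) G m n' rfl hmn hcop
  have hmem : ∀ s : ℕ, s.Prime → s ∈ ({p, q, r} : Set ℕ) → s ∣ Nat.card G → s ∣ Nat.card H := by
    intro s hs hsm hsG
    rw [hmn] at hsG
    rw [hH]
    rcases (Nat.Prime.dvd_mul hs).mp hsG with h1 | h1
    · exact h1
    · exact absurd h1 (hn' s hs hsm)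
  have hpH := hmem p hp (by simp) hpG
  have hqH := hmem q hq (by simp) hqG
  have hrH := hmem r hr (by simp) hrG
  have hprod : ∀ s t : ℕ, s ∈ ({p, q, r} : Set ℕ) → t ∈ ({p, q, r} : Set ℕ) → s ≠ t → n < s * t := by
    intro s t hs ht hst
    simp only [Set.mem_insert_iff, Set.mem_singleton_iff] at hs ht
    have h12 : p * q < p * r := Nat.mul_lt_mul_of_pos_left hqr hp.pos
    have h13 : p * q < q * r := by
      calc p * q < q * q := Nat.mul_lt_mul_of_pos_right hpq hq.pos
        _ < q * r := Nat.mul_lt_mul_of_pos_left hqr hq.pos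
    rcases hs with rfl | rfl | rfl <;> rcases ht with rfl | rfl | rfl <;>
      first
        | exact absurd rfl hst
        | omega
        | (rw [mul_comm]; omega)
  have hpp : ∀ g : H, IsPrimePow (orderOf g) ∨ g = 1 := by
    intro g
    by_cases hg1 : g = 1
    · exact Or.inr hg1
    left
    have ho1 : orderOf g ≠ 1 := fun h1 => hg1 (orderOf_eq_one_iff.mp h1)
    obtain ⟨s, hs, hsd⟩ := Nat.exists_prime_and_dvd ho1
    rw [isPrimePow_iff_unique_prime_dvd]
    refine ⟨s, ⟨hs, hsd⟩, ?_⟩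
    rintro t ⟨ht, htd⟩
    by_contra hts
    have hoH : orderOf g ∣ m := hH ▸ orderOf_dvd_natCard g
    have hsm : s ∈ ({p, q, r} : Set ℕ) := hm s hs (hsd.trans hoH)
    have htm : t ∈ ({p, q, r} : Set ℕ) := hm t ht (htd.trans hoH)
    have h1 : s * t ∣ orderOf g :=
      Nat.Coprime.mul_dvd_of_dvd_of_dvd ((Nat.coprime_primes hs ht).mpr (Ne.symm hts)) hsd htd
    have h2 : s * t ≤ orderOf g := Nat.le_of_dvd (orderOf_pos g) h1
    have h3 : orderOf g = orderOf (g : G) := (Subgroup.orderOf_coe g).symm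
    have h4 := hle (g : G)
    have h5 := hprod s t hsm htm (Ne.symm hts)
    omega
  have hsolH : Group.IsSolvable H := inferInstance
  have h2 := Cfsg.Agent.S1475.result hpp
  have h3 : ({p, q, r} : Finset ℕ) ⊆ (Nat.card H).primeFactors := by
    intro s hs
    simp only [Finset.mem_insert, Finset.mem_singleton] at hs
    rw [Nat.mem_primeFactors]
    rcases hs with rfl | rfl | rfl
    · exact ⟨hp, hpH, Nat.card_pos.ne'⟩
    · exact ⟨hq, hqH, Nat.card_pos.ne'⟩
    · exact ⟨hr, hrH, Nat.card_pos.ne'⟩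
  have h4 := Finset.card_le_card h3
  have h5 : ({p, q, r} : Finset ℕ).card = 3 := by
    rw [Finset.card_insert_of_notMem, Finset.card_insert_of_notMem, Finset.card_singleton]
    · simp; omega
    · simp; omega
  omega

end Cfsg.Agent.S4002
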