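import Cfsg.Statements.S4004
import Cfsg.Agent.Helper27.SameOrderD

set_option autoImplicit false
open Cfsg

namespace Cfsg.Agent.S4004

/-- Let G be a finite group of odd order in which the numbers of elements of each order that occurs (the numbers #{g : o(g) = m}, m ranging over the element orders of G) take exactly three different values. Then the order of G has at most two prime divisors; and if it has exactly two, then every Sylow subgroup of G for a prime dividing its order has prime exponent, G is a Frobenius group, and some Frobenius complement of G has prime order. -/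
theorem result {G : Type*} [Group G] [Finite G] (hodd : Odd (Nat.card G)) (h : (((fun m : ℕ => Nat.card {g : G // orderOf g = m}) '' Set.range (orderOf : G → ℕ))).ncard = 3) :
    (Nat.card G).primeFactors.card ≤ 2 ∧
      ((Nat.card G).primeFactors.card = 2 →
        (∀ (p : ℕ) [Fact p.Prime] (P : Sylow p G), p ∣ Nat.card G → Monoid.exponent ↥(P : Subgroup G) = p) ∧
        ∃ C : Subgroup G, Cfsg.IsFrobeniusComplement C ∧ (Nat.card ↥C).Prime) := by
  obtain ⟨a, b, hab, ha1, hb1, ha0, hb0, hval⟩ := Cfsg.Agent.Helper27.SO.three_values h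
  have hV := Cfsg.Agent.Helper27.SO.hV_of_values hval
  have h2 := Cfsg.Agent.Helper27.SO.odd_primeFactors_le_two hodd hV
  refine ⟨h2, fun hc => ?_⟩
  obtain ⟨p, q, hpq, hS⟩ := Finset.card_eq_two.mp hc
  have hp : p.Prime := Nat.prime_of_mem_primeFactors (by rw [hS]; simp)
  have hq : q.Prime := Nat.prime_of_mem_primeFactors (by rw [hS]; simp)
  have hpd : p ∣ Nat.card G := Nat.dvd_of_mem_primeFactors (by rw [hS]; simp)
  have hqd : q ∣ Nat.card G := Nat.dvd_of_mem_primeFactors (by rw [hS]; simp)
  have hpf : ∀ t : ℕ, t.Prime → t ∣ Nat.card G → t = p ∨ t = q := by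
    intro t ht htd
    have : t ∈ (Nat.card G).primeFactors := Nat.mem_primeFactors.mpr ⟨ht, htd, Nat.card_pos.ne'⟩
    rw [hS] at this
    simpa using this
  have hord := Cfsg.Agent.Helper27.SO.odd_two_primes_orders hodd hV hp hq hpq hpd hqd hpf
  have hsol := Cfsg.Agent.Helper27.SO.solvable_of_two_primes hp hq hpq hpf
  refine ⟨?_, Cfsg.Agent.Helper27.SO.exists_frobenius_compl hp hq hpq hpd hqd hord hsol⟩
  intro r hr P hrd
  have hrp := hr.out
  have hP : ∀ x : (P : Subgroup G), x ^ r = 1 := by
    intro x
    obtain ⟨k, hk⟩ := P.2 x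
    have hk' : (x : G) ^ r ^ k = 1 := by
      have := congrArg Subtype.val hk
      simpa using this
    have ho : orderOf (x : G) ∣ r ^ k := orderOf_dvd_of_pow_eq_one hk'
    have key : (x : G) ^ r = 1 := by
      rcases hord (x : G) with h1 | h1 | h1
      · rw [orderOf_eq_one_iff.mp h1, one_pow]
      · rw [h1] at ho
        have : p = r := (Nat.prime_dvd_prime_iff_eq hp hrp).mp (hp.dvd_of_dvd_pow ho)
        have h3 := pow_orderOf_eq_one (x : G)
        rw [h1, this] at h3
        exact h3
      · rw [h1] at ho
        have : q = r := (Nat.prime_dvd_prime_iff_eq hq hrp).mp (hq.dvd_of_dvd_pow ho)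
        have h3 := pow_orderOf_eq_one (x : G)
        rw [h1, this] at h3
        exact h3
    apply Subtype.ext
    simpa using key
  have hdvd : Monoid.exponent ↥(P : Subgroup G) ∣ r := Monoid.exponent_dvd_of_forall_pow_eq_one hP
  rcases (Nat.dvd_prime hrp).mp hdvd with h1 | h1
  · exfalso
    have hsub : Subsingleton ↥(P : Subgroup G) := Monoid.exp_eq_one_iff.mp h1
    have hne := Sylow.ne_bot_of_dvd_card P hrd
    apply hne
    exact Subgroup.eq_bot_of_subsingleton _
  · exact h1

end Cfsg.Agent.S4004
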