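import Cfsg.Statements.S4005
import Cfsg.Agent.S1475
import Cfsg.Agent.Helper1.FpfMain
import Cfsg.Agent.Helper3.Burnside2
import Cfsg.Agent.Helper49.OddCyclic
import Cfsg.Agent.Helper66.PGroupMisc

set_option autoImplicit false
open Cfsg

namespace Cfsg.Agent.S4005

/-- A number all of whose prime divisors are `2` or `3` is of the form `2 ^ a * 3 ^ b`. -/
theorem eq_two_pow_mul_three_pow (n : ℕ) (hn : n ≠ 0)
    (h : ∀ r : ℕ, r.Prime → r ∣ n → r = 2 ∨ r = 3) : ∃ a b : ℕ, n = 2 ^ a * 3 ^ b := by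
  obtain ⟨a, n₁, h2, hn1⟩ := Nat.exists_eq_pow_mul_and_not_dvd hn 2 (by norm_num)
  have hn₁ : n₁ ≠ 0 := by
    rintro rfl
    exact hn (by rw [hn1, mul_zero])
  obtain ⟨b, n₂, h3, hn2⟩ := Nat.exists_eq_pow_mul_and_not_dvd hn₁ 3 (by norm_num)
  refine ⟨a, b, ?_⟩
  have hn₂ : n₂ = 1 := by
    by_contra hne
    obtain ⟨r, hr, hrd⟩ := Nat.exists_prime_and_dvd hne
    have h1 : r ∣ n₁ := hrd.trans (hn2 ▸ Dvd.intro_left _ rfl)
    have h4 : r ∣ n := h1.trans (hn1 ▸ Dvd.intro_left _ rfl)
    rcases h r hr h4 with rfl | rfl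
    · exact h2 h1
    · exact h3 hrd
  rw [hn1, hn2, hn₂, mul_one]

theorem factorization_two (a b : ℕ) : (2 ^ a * 3 ^ b).factorization 2 = a := by
  rw [Nat.factorization_mul (by positivity) (by positivity),
    Nat.Prime.factorization_pow Nat.prime_two, Nat.Prime.factorization_pow Nat.prime_three]
  simp

theorem factorization_three (a b : ℕ) : (2 ^ a * 3 ^ b).factorization 3 = b := by
  rw [Nat.factorization_mul (by positivity) (by positivity),
    Nat.Prime.factorization_pow Nat.prime_two, Nat.Prime.factorization_pow Nat.prime_three]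
  simp

/-- A finite group whose set of element orders is exactly {1, 2, 3} has either a normal elementary abelian 3-subgroup of index 2 or a normal elementary abelian 2-subgroup of index 3. -/
theorem result {G : Type*} [Group G] [Finite G] (h : Set.range (orderOf : G → ℕ) = {k : ℕ | 1 ≤ k ∧ k ≤ 3}) :
    (∃ N : Subgroup G, N.Normal ∧ Cfsg.IsElementaryAbelian 3 N ∧ N.index = 2) ∨
      (∃ N : Subgroup G, N.Normal ∧ Cfsg.IsElementaryAbelian 2 N ∧ N.index = 3) := by
  classical
  have hle : ∀ g : G, orderOf g ≤ 3 := by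
    intro g
    have h1 : orderOf g ∈ Set.range (orderOf : G → ℕ) := ⟨g, rfl⟩
    rw [h] at h1
    exact h1.2
  have hex : ∀ k : ℕ, 1 ≤ k → k ≤ 3 → ∃ g : G, orderOf g = k := by
    intro k hk1 hk2
    have h1 : k ∈ Set.range (orderOf : G → ℕ) := by rw [h]; exact ⟨hk1, hk2⟩
    exact h1
  obtain ⟨t, ht⟩ := hex 2 (by norm_num) (by norm_num)
  obtain ⟨y, hy⟩ := hex 3 (by norm_num) (by norm_num)
  have hno : ∀ a b : G, orderOf a = 2 → orderOf b = 3 → Commute a b → False := by
    intro a b ha hb hc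
    have h1 := hc.orderOf_mul_eq_mul_orderOf_of_coprime (by rw [ha, hb]; norm_num)
    have h2 := hle (a * b)
    rw [h1, ha, hb] at h2
    omega
  have hord : ∀ g : G, orderOf g = 1 ∨ orderOf g = 2 ∨ orderOf g = 3 := by
    intro g
    have h1 := hle g
    have h2 := orderOf_pos g
    omega
  have hprimes : ∀ r : ℕ, r.Prime → r ∣ Nat.card G → r = 2 ∨ r = 3 := by
    intro r hr hrd
    have hfr : Fact r.Prime := ⟨hr⟩
    obtain ⟨g, hg⟩ := exists_prime_orderOf_dvd_card' r hrd
    have h1 := hle g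
    have h2 := hr.two_le
    omega
  obtain ⟨a, b, hcard⟩ := eq_two_pow_mul_three_pow (Nat.card G) Nat.card_pos.ne' hprimes
  have hsol : Group.IsSolvable G :=
    Cfsg.Agent.Helper3.isSolvable_of_card_eq 2 3 a b Nat.prime_two Nat.prime_three hcard
  have hnt : Nontrivial G := ⟨⟨t, 1, fun h1 => by rw [h1, orderOf_one] at ht; omega⟩⟩
  have hf2 : Fact (Nat.Prime 2) := ⟨Nat.prime_two⟩
  have hf3 : Fact (Nat.Prime 3) := ⟨Nat.prime_three⟩
  obtain ⟨p, hp, V, hVn, hV1, hVp, hVab⟩ := Cfsg.Agent.S1475.exists_normal_abelian_pGroup G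
  have hVcomm : IsMulCommutative V := ⟨⟨fun x z => Subtype.ext (hVab x.1 x.2 z.1 z.2)⟩⟩
  have hVtop : ∀ A : Subgroup G, A ≤ Subgroup.normalizer (V : Set G) := by
    intro A
    have h1 : Subgroup.normalizer (V : Set G) = ⊤ := Subgroup.normalizer_eq_top_iff.mpr hVn
    rw [h1]; exact le_top
  -- orders of elements of `V`
  have hVord : ∀ v ∈ V, v ≠ 1 → orderOf v = p := by
    intro v hv hv1
    have hfp : Fact p.Prime := ⟨hp⟩
    obtain ⟨k, hk⟩ := (IsPGroup.iff_orderOf.mp hVp) ⟨v, hv⟩
    rw [Subgroup.orderOf_mk] at hk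
    have hk0 : k ≠ 0 := by
      rintro rfl
      rw [pow_zero] at hk
      exact hv1 (orderOf_eq_one_iff.mp hk)
    have h1 : p ∣ orderOf v := hk ▸ dvd_pow_self p hk0
    rcases hord v with h2 | h2 | h2
    · exact absurd (orderOf_eq_one_iff.mp h2) hv1
    · rw [h2] at h1 ⊢
      exact ((Nat.prime_dvd_prime_iff_eq hp Nat.prime_two).mp h1).symm
    · rw [h2] at h1 ⊢
      exact ((Nat.prime_dvd_prime_iff_eq hp Nat.prime_three).mp h1).symm
  obtain ⟨v₀', hv₀1'⟩ := (Subgroup.ne_bot_iff_exists_ne_one).mp hV1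
  obtain ⟨v₀, hv₀V⟩ := v₀'
  have hv₀1 : v₀ ≠ 1 := fun h1 => hv₀1' (Subtype.ext h1)
  have hp23 : p = 2 ∨ p = 3 := by
    have h1 := hVord v₀ hv₀V hv₀1
    rcases hord v₀ with h2 | h2 | h2
    · exact absurd (orderOf_eq_one_iff.mp h2) hv₀1
    · left; rw [← h1, h2]
    · right; rw [← h1, h2]
  -- Sylow subgroups and their orders
  obtain ⟨T, hVT⟩ : ∃ T : Sylow 2 G, p = 2 → V ≤ T := by
    by_cases hp2 : p = 2
    · subst hp2
      obtain ⟨T, hT⟩ := hVp.exists_le_sylow
      exact ⟨T, fun _ => hT⟩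
    · exact ⟨default, fun h1 => absurd h1 hp2⟩
  obtain ⟨Q⟩ : Nonempty (Sylow 3 G) := inferInstance
  have hTcard : Nat.card T = 2 ^ a := by
    rw [Sylow.card_eq_multiplicity, hcard, factorization_two]
  have hQcard : Nat.card Q = 3 ^ b := by
    rw [Sylow.card_eq_multiplicity, hcard, factorization_three]
  have hTsq : ∀ x ∈ (T : Subgroup G), x * x = 1 := by
    intro x hx
    have h1 : orderOf x ∣ 2 ^ a := by
      rw [← hTcard, ← Subgroup.orderOf_mk x hx]; exact orderOf_dvd_natCard _
    rcases hord x with h2 | h2 | h2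
    · rw [orderOf_eq_one_iff.mp h2, one_mul]
    · rw [← pow_two, ← h2]; exact pow_orderOf_eq_one x
    · rw [h2] at h1
      have h3 := (Nat.Prime.dvd_of_dvd_pow Nat.prime_three h1)
      omega
  have hTcomm : IsMulCommutative (T : Subgroup G) := by
    refine ⟨⟨fun x z => Subtype.ext ?_⟩⟩
    have h1 := hTsq x.1 x.2
    have h2 := hTsq z.1 z.2
    have h3 := hTsq (x.1 * z.1) ((T : Subgroup G).mul_mem x.2 z.2)
    show x.1 * z.1 = z.1 * x.1
    calc x.1 * z.1 = (x.1 * z.1)⁻¹ := (inv_eq_of_mul_eq_one_right h3).symm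
      _ = z.1⁻¹ * x.1⁻¹ := mul_inv_rev _ _
      _ = z.1 * x.1 := by rw [inv_eq_of_mul_eq_one_right h1, inv_eq_of_mul_eq_one_right h2]
  have hQcube : ∀ x ∈ (Q : Subgroup G), x ^ 3 = 1 := by
    intro x hx
    have h1 : orderOf x ∣ 3 ^ b := by
      rw [← hQcard, ← Subgroup.orderOf_mk x hx]; exact orderOf_dvd_natCard _
    rcases hord x with h2 | h2 | h2
    · rw [orderOf_eq_one_iff.mp h2, one_pow]
    · rw [h2] at h1
      have h3 := (Nat.Prime.dvd_of_dvd_pow Nat.prime_two h1)
      omega
    · rw [← h2]; exact pow_orderOf_eq_one x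
  rcases hp23 with rfl | rfl
  · -- `V` is a `2`-group: the Sylow `2`-subgroup is normal of index `3`
    right
    have hfpf : ∀ c : G, orderOf c = 3 → V ⊓ Subgroup.centralizer {c} = ⊥ := by
      intro c hc
      rw [eq_bot_iff]
      rintro v ⟨hvV, hvc⟩
      rw [Subgroup.mem_bot]
      by_contra hv1
      exact hno v c (hVord v hvV hv1) hc (Subgroup.mem_centralizer_singleton_iff.mp hvc)
    have hrk : Cfsg.PRankLE 3 1 G := by
      intro A hA hA3
      have hcyc : IsCyclic A := by
        apply Cfsg.Agent.Helper1.fpf_abelian_isCyclic A V hV1 (hVtop A)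
        intro c hc hc1
        apply hfpf
        exact orderOf_eq_prime (hA3 c hc) hc1
      obtain ⟨g, hg⟩ := hcyc.exists_generator
      rw [← orderOf_eq_card_of_forall_mem_zpowers hg, ← Subgroup.orderOf_coe, pow_one]
      exact hle _
    have hQcyc : IsCyclic (Q : Subgroup G) :=
      Cfsg.Agent.Helper49.isCyclic_sylow_of_pRankLE_one (by norm_num) hrk Q
    have hb1 : b = 1 := by
      obtain ⟨g, hg⟩ := hQcyc.exists_generator
      have h1 : Nat.card Q ≤ 3 := by
        rw [← orderOf_eq_card_of_forall_mem_zpowers hg, ← Subgroup.orderOf_coe]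
        exact hle _
      have h2 : 3 ∣ Nat.card Q := by
        have h3 : 3 ∣ Nat.card G := by rw [← hy]; exact orderOf_dvd_natCard y
        exact Q.dvd_card_of_dvd_card h3
      have h4 : Nat.card Q = 3 := le_antisymm h1 (Nat.le_of_dvd Nat.card_pos h2)
      rw [hQcard] at h4
      exact Nat.pow_right_injective (by norm_num : 2 ≤ 3) (by simpa using h4)
    subst hb1
    have hTidx : (T : Subgroup G).index = 3 := by
      have h1 := (T : Subgroup G).card_mul_index
      rw [hTcard, hcard] at h1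
      have h2 : 0 < 2 ^ a := by positivity
      exact Nat.eq_of_mul_eq_mul_left h2 (by simpa using h1)
    have hVT' : V ≤ (T : Subgroup G) := hVT rfl
    have hTC : (T : Subgroup G) ≤ Subgroup.centralizer (V : Set G) := by
      intro x hx
      rw [Subgroup.mem_centralizer_iff]
      intro v hv
      have := hTcomm.is_comm.comm ⟨v, hVT' hv⟩ ⟨x, hx⟩
      exact congrArg Subtype.val this
    have hCne : Subgroup.centralizer (V : Set G) ≠ ⊤ := by
      intro htop
      have h1 : y ∈ Subgroup.centralizer (V : Set G) := by rw [htop]; trivial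
      have h2 := Subgroup.mem_centralizer_iff.mp h1 v₀ hv₀V
      exact hno v₀ y (hVord v₀ hv₀V hv₀1) hy h2
    have hCidx : (Subgroup.centralizer (V : Set G)).index = 3 := by
      have h1 : (Subgroup.centralizer (V : Set G)).index ∣ 3 :=
        hTidx ▸ Subgroup.index_dvd_of_le hTC
      rcases (Nat.dvd_prime Nat.prime_three).mp h1 with h2 | h2
      · exact absurd (Subgroup.index_eq_one.mp h2) hCne
      · exact h2
    have hTeq : (T : Subgroup G) = Subgroup.centralizer (V : Set G) := by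
      apply Subgroup.eq_of_le_of_card_ge hTC
      have h1 := (T : Subgroup G).card_mul_index
      have h2 := (Subgroup.centralizer (V : Set G)).card_mul_index
      rw [hTidx] at h1
      rw [hCidx] at h2
      omega
    refine ⟨T, ?_, ⟨hTcomm, fun x hx => ?_⟩, hTidx⟩
    · rw [hTeq]; infer_instance
    · rw [pow_two]; exact hTsq x hx
  · -- `V` is a `3`-group: the Sylow `3`-subgroup is normal of index `2`
    left
    have hfpf : ∀ c : G, orderOf c = 2 → V ⊓ Subgroup.centralizer {c} = ⊥ := by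
      intro c hc
      rw [eq_bot_iff]
      rintro v ⟨hvV, hvc⟩
      rw [Subgroup.mem_bot]
      by_contra hv1
      exact hno c v hc (hVord v hvV hv1) (Subgroup.mem_centralizer_singleton_iff.mp hvc).symm
    have hTcyc : IsCyclic (T : Subgroup G) := by
      apply Cfsg.Agent.Helper1.fpf_abelian_isCyclic (T : Subgroup G) V hV1 (hVtop _)
      intro c hc hc1
      apply hfpf
      have h1 := hTsq c hc
      rw [← pow_two] at h1
      exact orderOf_eq_prime h1 hc1
    have ha1 : a = 1 := by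
      obtain ⟨g, hg⟩ := hTcyc.exists_generator
      have h1 : Nat.card T ≤ 2 := by
        rw [← orderOf_eq_card_of_forall_mem_zpowers hg, ← Subgroup.orderOf_coe]
        have h2 := hTsq g.1 g.2
        rw [← pow_two] at h2
        exact orderOf_le_of_pow_eq_one (by norm_num) h2
      have h2 : 2 ∣ Nat.card T := by
        have h3 : 2 ∣ Nat.card G := by rw [← ht]; exact orderOf_dvd_natCard t
        exact T.dvd_card_of_dvd_card h3
      have h4 : Nat.card T = 2 := le_antisymm h1 (Nat.le_of_dvd Nat.card_pos h2)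
      rw [hTcard] at h4
      exact Nat.pow_right_injective (le_refl 2) (by simpa using h4)
    subst ha1
    have hQidx : (Q : Subgroup G).index = 2 := by
      have h1 := (Q : Subgroup G).card_mul_index
      rw [hQcard, hcard] at h1
      have h2 : 0 < 3 ^ b := by positivity
      have h3 : 3 ^ b * (Q : Subgroup G).index = 3 ^ b * 2 := by rw [h1]; ring
      exact Nat.eq_of_mul_eq_mul_left h2 h3
    have hQn : (Q : Subgroup G).Normal := Subgroup.normal_of_index_eq_two hQidx
    have htt : t * t = 1 := by rw [← pow_two, ← ht]; exact pow_orderOf_eq_one t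
    have hinv : ∀ x ∈ (Q : Subgroup G), t * x * t⁻¹ = x⁻¹ := by
      apply Cfsg.Agent.Helper66.inverts_of_fpf (Q : Subgroup G) t htt
      · intro x hx
        exact hQn.conj_mem x hx t
      · intro x hx hfix
        by_contra hx1
        have h3 : orderOf x = 3 := orderOf_eq_prime (hQcube x hx) hx1
        have hc : Commute t x := by
          have h4 : t * x = x * t := by
            calc t * x = t * x * t⁻¹ * t := by group
              _ = x * t := by rw [hfix]
          exact h4
        exact hno t x ht h3 hc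
    refine ⟨Q, hQn, ⟨⟨⟨fun x z => Subtype.ext ?_⟩⟩, hQcube⟩, hQidx⟩
    have h1 := hinv x.1 x.2
    have h2 := hinv z.1 z.2
    have h3 := hinv (x.1 * z.1) ((Q : Subgroup G).mul_mem x.2 z.2)
    have h4 : t * (x.1 * z.1) * t⁻¹ = (t * x.1 * t⁻¹) * (t * z.1 * t⁻¹) := by group
    rw [h4, h1, h2, mul_inv_rev] at h3
    show x.1 * z.1 = z.1 * x.1
    have h5 : (x.1⁻¹ * z.1⁻¹)⁻¹ = (z.1⁻¹ * x.1⁻¹)⁻¹ := by rw [h3]
    rw [mul_inv_rev, mul_inv_rev, inv_inv, inv_inv] at h5
    exact h5.symm

end Cfsg.Agent.S4005
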