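import Cfsg.Statements.S4006
-- import your own Cfsg.Agent.* helpers here
import Cfsg.Agent.S1475
import Cfsg.Agent.Helper1.FpfSylow
import Cfsg.Agent.Helper3.Burnside2
import Cfsg.Agent.Helper49.OddCyclic
import Cfsg.Agent.Helper53.QuatIso
import Cfsg.Agent.Helper66.PGroupMisc
import Cfsg.Agent.Helper83.Levi

set_option autoImplicit false
open Cfsg

namespace Cfsg.Agent.S4006

open scoped commutatorElement

theorem d1 : ∀ σ : Equiv.Perm (Fin 3), σ ^ 4 = 1 → σ * σ = 1 := by decide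

theorem d2 : ∀ σ : Equiv.Perm (Fin 3), σ ^ 3 = 1 → σ * σ = 1 → σ = 1 := by decide

theorem d3 : ∀ σ ρ : Equiv.Perm (Fin 3), σ ≠ 1 → σ * σ = 1 → ρ ≠ 1 → ρ ^ 3 = 1 →
    σ * ρ * σ⁻¹ * ρ = 1 := by decide

set_option maxRecDepth 100000 in
theorem d4 : ∀ σ ρ τ : Equiv.Perm (Fin 3), σ ≠ 1 → σ * σ = 1 → ρ ≠ 1 → ρ ^ 3 = 1 →
    (τ = 1 ∨ τ = ρ ∨ τ = ρ * ρ ∨ τ = σ ∨ τ = σ * ρ ∨ τ = σ * ρ * ρ) := by decide

set_option maxRecDepth 100000 in
theorem d5 : ∀ ρ : Equiv.Perm (Fin 3), ρ ≠ 1 → ρ ^ 3 = 1 → ρ * ρ ≠ 1 ∧ (ρ * ρ) ^ 3 = 1 := by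
  decide

section
variable {G : Type*} [Group G]

theorem pow_four_of_ne_three
    (hord : ∀ g : G, orderOf g = 1 ∨ orderOf g = 2 ∨ orderOf g = 3 ∨ orderOf g = 4)
    (g : G) (hg : orderOf g ≠ 3) : g ^ 4 = 1 := by
  rcases hord g with h | h | h | h
  · rw [orderOf_eq_one_iff.mp h, one_pow]
  · have h2 := pow_orderOf_eq_one g
    rw [h] at h2
    rw [show 4 = 2 * 2 from rfl, pow_mul, h2, one_pow]
  · exact absurd h hg
  · rw [← h]; exact pow_orderOf_eq_one g

theorem orderOf_sq_of_four (g : G) (h : orderOf g = 4) : orderOf (g ^ 2) = 2 := by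
  rw [orderOf_pow_of_dvd (by norm_num) (by rw [h]; norm_num), h]

theorem orderOf_conj_eq (g x : G) : orderOf (g * x * g⁻¹) = orderOf x := by
  have h := orderOf_injective (MulAut.conj g).toMonoidHom (MulAut.conj g).injective x
  simpa using h

theorem eq_one_of_pow_three_four (x : G) (h3 : x ^ 3 = 1) (h4 : x ^ 4 = 1) : x = 1 := by
  calc x = x ^ 4 * (x ^ 3)⁻¹ := by group
    _ = 1 := by rw [h4, h3]; simp

theorem comm_of_sq {N : Subgroup G} (hsq : ∀ x ∈ N, x * x = 1) : IsMulCommutative N := by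
  refine ⟨⟨fun x z => Subtype.ext ?_⟩⟩
  have h1 := hsq x.1 x.2
  have h2 := hsq z.1 z.2
  have h3 := hsq (x.1 * z.1) (N.mul_mem x.2 z.2)
  show x.1 * z.1 = z.1 * x.1
  calc x.1 * z.1 = (x.1 * z.1)⁻¹ := (inv_eq_of_mul_eq_one_right h3).symm
    _ = z.1⁻¹ * x.1⁻¹ := mul_inv_rev _ _
    _ = z.1 * x.1 := by rw [inv_eq_of_mul_eq_one_right h1, inv_eq_of_mul_eq_one_right h2]

end

/-- The case where a nontrivial normal abelian `3`-subgroup exists. -/
theorem case_three {G : Type*} [Group G] [Finite G]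
    (hord : ∀ g : G, orderOf g = 1 ∨ orderOf g = 2 ∨ orderOf g = 3 ∨ orderOf g = 4)
    (hno : ∀ a b : G, orderOf a = 2 → orderOf b = 3 → Commute a b → False)
    (z f : G) (hz : orderOf z = 2) (hf : orderOf f = 4)
    (V : Subgroup G) (hVn : V.Normal) (hV1 : V ≠ ⊥)
    (hV3 : ∀ v ∈ V, v ≠ 1 → orderOf v = 3) :
    ∃ (N : Subgroup G) (_ : N.Normal),
      Cfsg.IsElementaryAbelian 3 N ∧
        ((IsCyclic (G ⧸ N) ∧ N.index = 4) ∨ Nonempty (G ⧸ N ≃* QuaternionGroup 2)) := by
  classical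
  have : Fact (Nat.Prime 2) := ⟨Nat.prime_two⟩
  have hzz : z * z = 1 := by rw [← pow_two, ← hz]; exact pow_orderOf_eq_one z
  have hzi : z⁻¹ = z := inv_eq_of_mul_eq_one_right hzz
  have hfpf2 : ∀ c : G, orderOf c = 2 → ∀ v ∈ V, Commute c v → v = 1 := by
    intro c hc v hv hcv
    by_contra hv1
    exact hno c v hc (hV3 v hv hv1) hcv
  have hinv : ∀ c : G, orderOf c = 2 → ∀ v ∈ V, c * v * c⁻¹ = v⁻¹ := by
    intro c hc
    have hcc : c * c = 1 := by rw [← pow_two, ← hc]; exact pow_orderOf_eq_one c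
    apply Cfsg.Agent.Helper66.inverts_of_fpf V c hcc
    · intro x hx; exact hVn.conj_mem x hx c
    · intro x hx hfix
      apply hfpf2 c hc x hx
      show c * x = x * c
      calc c * x = c * x * c⁻¹ * c := by group
        _ = x * c := by rw [hfix]
  obtain ⟨v₀, hv₀V, hv₀1⟩ : ∃ v ∈ V, v ≠ 1 := by
    by_contra hcon
    push Not at hcon
    exact hV1 ((Subgroup.eq_bot_iff_forall V).mpr hcon)
  have hCn : (Subgroup.centralizer (V : Set G)).Normal := Subgroup.normal_centralizer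
  generalize hCdef : Subgroup.centralizer (V : Set G) = C at hCn
  have hCmem : ∀ c : G, c ∈ C ↔ ∀ v ∈ V, v * c = c * v := by
    intro c; rw [← hCdef, Subgroup.mem_centralizer_iff]; rfl
  have hC2 : ∀ c ∈ C, orderOf c ≠ 2 := by
    intro c hc h2
    have h := (hCmem c).mp hc v₀ hv₀V
    exact hv₀1 (hfpf2 c h2 v₀ hv₀V h.symm)
  have hC3 : ∀ c ∈ C, c ^ 3 = 1 := by
    intro c hc
    rcases hord c with h | h | h | h
    · rw [orderOf_eq_one_iff.mp h, one_pow]
    · exact absurd h (hC2 c hc)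
    · rw [← h]; exact pow_orderOf_eq_one c
    · exact absurd (orderOf_sq_of_four c h) (hC2 _ (C.pow_mem hc 2))
  have hzw : ∀ g : G, z * (g * z * g⁻¹) ∈ C := by
    intro g
    have hw : orderOf (g * z * g⁻¹) = 2 := by rw [orderOf_conj_eq, hz]
    rw [hCmem]
    intro v hv
    have h3 := hinv (g * z * g⁻¹) hw v hv
    have h4 := hinv z hz v⁻¹ (V.inv_mem hv)
    rw [inv_inv] at h4
    generalize g * z * g⁻¹ = w at h3 ⊢
    have e3 : w * v = v⁻¹ * w := by
      calc w * v = (w * v * w⁻¹) * w := by group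
        _ = v⁻¹ * w := by rw [h3]
    have e4 : z * v⁻¹ = v * z := by
      calc z * v⁻¹ = (z * v⁻¹ * z⁻¹) * z := by group
        _ = v * z := by rw [h4]
    calc v * (z * w) = (v * z) * w := by group
      _ = (z * v⁻¹) * w := by rw [e4]
      _ = z * (v⁻¹ * w) := by group
      _ = z * (w * v) := by rw [e3]
      _ = z * w * v := by group
  have hTmem : ∀ τ : G, τ ∈ Subgroup.centralizer {z} ↔ z * τ = τ * z :=
    fun τ => ⟨fun h => (Subgroup.mem_centralizer_singleton_iff.mp h).symm,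
      fun h => Subgroup.mem_centralizer_singleton_iff.mpr h.symm⟩
  generalize hTdef : Subgroup.centralizer ({z} : Set G) = T at hTmem
  have hT4 : ∀ τ ∈ T, τ ^ 4 = 1 := by
    intro τ hτ
    apply pow_four_of_ne_three hord
    intro h3
    exact hno z τ hz h3 ((hTmem τ).mp hτ)
  have hTC : ∀ x, x ∈ T → x ∈ C → x = 1 := fun x hxT hxC =>
    eq_one_of_pow_three_four x (hC3 x hxC) (hT4 x hxT)
  have hdec : ∀ g : G, ∃ c ∈ C, ∃ τ ∈ T, g = c * τ := by
    intro g
    have hcC := hzw g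
    have hc3 := hC3 _ hcC
    rw [pow_succ, pow_succ, pow_one] at hc3
    have hww : (g * z * g⁻¹) * (g * z * g⁻¹) = 1 := by
      calc (g * z * g⁻¹) * (g * z * g⁻¹) = g * (z * z) * g⁻¹ := by group
        _ = 1 := by rw [hzz]; group
    have hwg : (g * z * g⁻¹) * g = g * z := by group
    generalize g * z * g⁻¹ = w at hcC hc3 hww hwg
    have hwi : w⁻¹ = w := inv_eq_of_mul_eq_one_right hww
    have hcinv : (z * w)⁻¹ = w * z := by rw [mul_inv_rev, hwi, hzi]
    refine ⟨z * w, hcC, (z * w)⁻¹ * g, ?_, by group⟩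
    rw [hTmem]
    have key : z * w * z = w * z * w := by
      have h : (z * w * z) * (w * z * w) = 1 := by
        calc (z * w * z) * (w * z * w) = (z * w) * (z * w) * (z * w) := by group
          _ = 1 := hc3
      have h' := eq_inv_of_mul_eq_one_left h
      rw [h', mul_inv_rev, mul_inv_rev, hwi, hzi, mul_assoc]
    calc z * ((z * w)⁻¹ * g) = (z * w * z) * g := by rw [hcinv]; group
      _ = (w * z * w) * g := by rw [key]
      _ = (w * z) * (w * g) := by group
      _ = (w * z) * (g * z) := by rw [hwg]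
      _ = (z * w)⁻¹ * g * z := by rw [hcinv]; group
  have hCinv : ∀ x ∈ C, z * x * z⁻¹ = x⁻¹ := by
    apply Cfsg.Agent.Helper66.inverts_of_fpf C z hzz
    · intro x hx; exact hCn.conj_mem x hx z
    · intro x hx hfix
      apply hTC x _ hx
      rw [hTmem]
      calc z * x = z * x * z⁻¹ * z := by group
        _ = x * z := by rw [hfix]
  have hCel : Cfsg.IsElementaryAbelian 3 C := by
    refine ⟨⟨⟨fun x w => Subtype.ext ?_⟩⟩, hC3⟩
    have h1 := hCinv x.1 x.2
    have h2 := hCinv w.1 w.2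
    have h3 := hCinv (x.1 * w.1) (C.mul_mem x.2 w.2)
    have h4 : z * (x.1 * w.1) * z⁻¹ = (z * x.1 * z⁻¹) * (z * w.1 * z⁻¹) := by group
    rw [h4, h1, h2, mul_inv_rev] at h3
    show x.1 * w.1 = w.1 * x.1
    have h5 : (x.1⁻¹ * w.1⁻¹)⁻¹ = (w.1⁻¹ * x.1⁻¹)⁻¹ := by rw [h3]
    rw [mul_inv_rev, mul_inv_rev, inv_inv, inv_inv] at h5
    exact h5.symm
  let φ : T →* G ⧸ C := (QuotientGroup.mk' C).comp T.subtype
  have hφinj : Function.Injective φ := by
    rw [injective_iff_map_eq_one]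
    intro τ hτ
    have h : (τ : G) ∈ C := (QuotientGroup.eq_one_iff _).mp hτ
    exact Subtype.ext (hTC τ.1 τ.2 h)
  have hφsurj : Function.Surjective φ := by
    intro q
    obtain ⟨g, rfl⟩ := QuotientGroup.mk_surjective q
    obtain ⟨c, hc, τ, hτ, rfl⟩ := hdec g
    refine ⟨⟨τ, hτ⟩, ?_⟩
    show ((τ : G) : G ⧸ C) = ((c * τ : G) : G ⧸ C)
    rw [QuotientGroup.mk_mul, (QuotientGroup.eq_one_iff c).mpr hc, one_mul]
  let e : T ≃* G ⧸ C := MulEquiv.ofBijective φ ⟨hφinj, hφsurj⟩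
  have hTp : IsPGroup 2 T := by
    intro τ
    refine ⟨2, Subtype.ext ?_⟩
    have h := hT4 τ.1 τ.2
    simpa using h
  have hTfpf : ∀ h ∈ T, h ≠ 1 → V ⊓ Subgroup.centralizer {h} = ⊥ := by
    intro h hh h1
    rw [eq_bot_iff]
    rintro v ⟨hvV, hvc⟩
    rw [Subgroup.mem_bot]
    have hcom : Commute h v := (Subgroup.mem_centralizer_singleton_iff.mp hvc).symm
    rcases hord h with h' | h' | h' | h'
    · exact absurd (orderOf_eq_one_iff.mp h') h1
    · exact hfpf2 h h' v hvV hcom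
    · exfalso
      have hd : orderOf h ∣ 4 := orderOf_dvd_of_pow_eq_one (hT4 h hh)
      rw [h'] at hd
      omega
    · exact hfpf2 (h ^ 2) (orderOf_sq_of_four h h') v hvV (hcom.pow_left 2)
  have hVtop : T ≤ Subgroup.normalizer (V : Set G) := by
    have h1 : Subgroup.normalizer (V : Set G) = ⊤ := Subgroup.normalizer_eq_top_iff.mpr hVn
    rw [h1]; exact le_top
  have huniq : ∀ A B : Subgroup T, Nat.card A = 2 → Nat.card B = 2 → A = B := by
    intro A B hA hB
    have h := Cfsg.Agent.Helper1.fpf_eq_of_card_prime V T hV1 hVtop hTfpf 2 hTp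
      (A.map T.subtype) (B.map T.subtype) (Subgroup.map_subtype_le A) (Subgroup.map_subtype_le B)
      (by rw [Subgroup.card_map_of_injective T.subtype_injective, hA])
      (by rw [Subgroup.card_map_of_injective T.subtype_injective, hB])
    exact Subgroup.map_injective T.subtype_injective h
  have hzT : z ∈ T := by rw [hTmem]
  have hidx : C.index = Nat.card T := by
    rw [Subgroup.index_eq_card]; exact (Nat.card_congr e.toEquiv).symm
  rcases Cfsg.Agent.Helper53.isCyclic_or_quaternion_of_unique_subgroup hTp huniq with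
    hcyc | ⟨n, hn1, ⟨ψ⟩⟩
  · refine ⟨C, hCn, hCel, Or.inl ⟨(MulEquiv.isCyclic e).mp hcyc, ?_⟩⟩
    rw [hidx]
    obtain ⟨g, hg⟩ := hcyc.exists_generator
    have hcard : Nat.card T = orderOf (g : G) := by
      rw [← orderOf_eq_card_of_forall_mem_zpowers hg, Subgroup.orderOf_coe]
    rcases hord (g : G) with h' | h' | h' | h'
    · exfalso
      rw [h'] at hcard
      have hss : Subsingleton T := (Nat.card_eq_one_iff_unique.mp hcard).1
      have h1 : (⟨z, hzT⟩ : T) = 1 := Subsingleton.elim _ _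
      have hz1 : z = 1 := congrArg Subtype.val h1
      rw [hz1, orderOf_one] at hz
      omega
    · exfalso
      rw [h'] at hcard
      have hi2 : C.index = 2 := by rw [hidx, hcard]
      have hff : f ^ 2 ∈ C := Subgroup.sq_mem_of_index_two hi2 f
      exact hC2 _ hff (orderOf_sq_of_four f hf)
    · exfalso
      have hd : orderOf (g : G) ∣ 4 := orderOf_dvd_of_pow_eq_one (hT4 g.1 g.2)
      rw [h'] at hd
      omega
    · rw [hcard, h']
  · have ha : orderOf (ψ.symm (QuaternionGroup.a 1)) = 2 * 2 ^ n := by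
      rw [MulEquiv.orderOf_eq]
      exact QuaternionGroup.orderOf_a_one
    have h4' : ((ψ.symm (QuaternionGroup.a 1) : T) : G) ^ 4 = 1 :=
      hT4 _ (ψ.symm (QuaternionGroup.a 1)).2
    have hd : 2 * 2 ^ n ∣ 4 := by
      rw [← ha, ← Subgroup.orderOf_coe]; exact orderOf_dvd_of_pow_eq_one h4'
    have hn : n = 1 := by
      have h1 : 2 * 2 ^ n ≤ 4 := Nat.le_of_dvd (by norm_num) hd
      have h2 : 2 ^ n ≤ 2 ^ 1 := by omega
      have h3 : n ≤ 1 := (Nat.pow_le_pow_iff_right (by norm_num)).mp h2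
      omega
    subst hn
    rw [pow_one] at ψ
    exact ⟨C, hCn, hCel, Or.inr ⟨e.symm.trans ψ⟩⟩


/-- The case where the Sylow `2`-subgroups have index `3`. -/
theorem case_two {G : Type*} [Group G] [Finite G]
    (hord : ∀ g : G, orderOf g = 1 ∨ orderOf g = 2 ∨ orderOf g = 3 ∨ orderOf g = 4)
    (hno : ∀ a b : G, orderOf a = 2 → orderOf b = 3 → Commute a b → False)
    (y f : G) (hy : orderOf y = 3) (hf : orderOf f = 4)
    (T : Sylow 2 G) (hTidx : (T : Subgroup G).index = 3) :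
    ∃ (N : Subgroup G) (_ : N.Normal),
      (IsPGroup 2 ↥N ∧ Monoid.exponent ↥N = 4 ∧ Group.nilpotencyClass ↥N ≤ 2 ∧ N.index = 3) ∨
      (Cfsg.IsElementaryAbelian 2 N ∧ Nonempty (G ⧸ N ≃* Equiv.Perm (Fin 3))) := by
  classical
  have : Fact (Nat.Prime 2) := ⟨Nat.prime_two⟩
  let e : (G ⧸ (T : Subgroup G)) ≃ Fin 3 :=
    Finite.equivFinOfCardEq (by rw [← Subgroup.index_eq_card]; exact hTidx)
  obtain ⟨π, hπ⟩ : ∃ π : G →* Equiv.Perm (Fin 3), π.ker ≤ (T : Subgroup G) := by
    refine ⟨(Equiv.permCongrHom e).toMonoidHom.comp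
      (MulAction.toPermHom G (G ⧸ (T : Subgroup G))), ?_⟩
    intro k hk
    rw [MonoidHom.mem_ker] at hk
    have h1 : MulAction.toPermHom G (G ⧸ (T : Subgroup G)) k = 1 := by
      apply (Equiv.permCongrHom e).injective
      rw [map_one]; exact hk
    have h2 : k ∈ (T : Subgroup G).normalCore := by
      rw [Subgroup.normalCore_eq_ker]; exact h1
    exact Subgroup.normalCore_le _ h2
  have hKn : π.ker.Normal := MonoidHom.normal_ker π
  have hKmem : ∀ k : G, k ∈ π.ker ↔ π k = 1 := fun k => MonoidHom.mem_ker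
  have hT3 : ∀ τ ∈ (T : Subgroup G), orderOf τ ≠ 3 := by
    intro τ hτ h3
    obtain ⟨j, hj⟩ := (IsPGroup.iff_orderOf.mp T.isPGroup') ⟨τ, hτ⟩
    rw [Subgroup.orderOf_mk, h3] at hj
    have h2 : 2 ∣ 3 := by
      rw [hj]
      apply dvd_pow_self
      rintro rfl
      simp at hj
    omega
  have hK4 : ∀ k ∈ π.ker, k ^ 4 = 1 := fun k hk =>
    pow_four_of_ne_three hord k (hT3 k (hπ hk))
  have hπpow : ∀ (g : G) (m : ℕ), g ^ m = 1 → (π g) ^ m = 1 := by
    intro g m h; rw [← map_pow, h, map_one]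
  have hE3 : ∀ u : G, π u ≠ 1 → (π u) ^ 3 = 1 → u ^ 3 = 1 := by
    intro u h1 h3
    by_contra hne
    have h4 : u ^ 4 = 1 := by
      apply pow_four_of_ne_three hord
      intro ho
      apply hne
      rw [← ho]; exact pow_orderOf_eq_one u
    exact h1 (d2 _ h3 (d1 _ (hπpow u 4 h4)))
  have hP : ∀ u : G, π u ≠ 1 → (π u) ^ 3 = 1 → ∀ k ∈ π.ker, (k * u) ^ 3 = 1 := by
    intro u h1 h3 k hk
    have e : π (k * u) = π u := by rw [map_mul, (hKmem k).mp hk, one_mul]
    apply hE3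
    · rw [e]; exact h1
    · rw [e]; exact h3
  have hy3 : y ^ 3 = 1 := by rw [← hy]; exact pow_orderOf_eq_one y
  have hπy3 : (π y) ^ 3 = 1 := hπpow y 3 hy3
  have hπy1 : π y ≠ 1 := by
    intro h1
    have h4 := hK4 y ((hKmem y).mpr h1)
    have h5 := eq_one_of_pow_three_four y hy3 h4
    rw [h5, orderOf_one] at hy
    omega
  have hE2 : ∀ g : G, π g * π g = 1 → g ^ 4 = 1 := by
    intro g h2
    apply pow_four_of_ne_three hord
    intro ho
    have h3 : (π g) ^ 3 = 1 := hπpow g 3 (by rw [← ho]; exact pow_orderOf_eq_one g)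
    have h1 : π g = 1 := d2 _ h3 h2
    have h4 := hK4 g ((hKmem g).mpr h1)
    have hd : orderOf g ∣ 4 := orderOf_dvd_of_pow_eq_one h4
    rw [ho] at hd
    omega
  have hfpf : ∀ k ∈ π.ker, Commute y k → k = 1 := by
    intro k hk hc
    have h4 := hK4 k hk
    rcases hord k with h' | h' | h' | h'
    · exact orderOf_eq_one_iff.mp h'
    · exact (hno k y h' hy hc.symm).elim
    · exfalso
      have hd : orderOf k ∣ 4 := orderOf_dvd_of_pow_eq_one h4
      rw [h'] at hd; omega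
    · exact (hno (k ^ 2) y (orderOf_sq_of_four k h') hy (hc.symm.pow_left 2)).elim
  have hEng : ∀ x ∈ π.ker, ∀ g ∈ π.ker, Commute x (g * x * g⁻¹) := by
    intro x hx g hg
    obtain ⟨h51, h52⟩ := d5 (π y) hπy1 hπy3
    refine Cfsg.Agent.Helper83.neumann_engel π.ker y ?_ ?_ x g hx hg
    · intro g hg k hk
      have e : π (y * g) = π y := by rw [map_mul, (hKmem g).mp hg, mul_one]
      exact hP (y * g) (by rw [e]; exact hπy1) (by rw [e]; exact hπy3) k hk
    · intro g hg k hk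
      have e : π (y * y * g) = π y * π y := by
        rw [map_mul, map_mul, (hKmem g).mp hg, mul_one]
      exact hP (y * y * g) (by rw [e]; exact h51) (by rw [e]; exact h52) k hk
  have hcl' : ∀ a b c : π.ker, Commute ⁅a, b⁆ c := by
    apply Cfsg.Agent.Helper83.levi_central
    · intro x g
      exact Subtype.ext (hEng x.1 x.2 g.1 g.2).eq
    · intro c hc
      have h3 : (c : G) ^ 3 = 1 := by
        have h := congrArg Subtype.val hc
        simpa using h
      exact Subtype.ext (eq_one_of_pow_three_four c.1 h3 (hK4 c.1 c.2))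
  have hcl : ∀ a ∈ π.ker, ∀ b ∈ π.ker, ∀ c ∈ π.ker, Commute ⁅a, b⁆ c := by
    intro a ha b hb c hc
    exact congrArg Subtype.val (hcl' ⟨a, ha⟩ ⟨b, hb⟩ ⟨c, hc⟩).eq
  by_cases hinv : ∃ g : G, π g ≠ 1 ∧ π g * π g = 1
  · obtain ⟨g₀, hg₀1, hg₀2⟩ := hinv
    have hsurj : Function.Surjective π := by
      intro τ
      rcases d4 (π g₀) (π y) τ hg₀1 hg₀2 hπy1 hπy3 with h | h | h | h | h | h
      · exact ⟨1, by rw [map_one, h]⟩
      · exact ⟨y, h.symm⟩
      · exact ⟨y * y, by rw [map_mul, h]⟩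
      · exact ⟨g₀, h.symm⟩
      · exact ⟨g₀ * y, by rw [map_mul, h]⟩
      · exact ⟨g₀ * y * y, by rw [map_mul, map_mul, h]⟩
    have hyK : (g₀ * y * g₀⁻¹) * y ∈ π.ker := by
      rw [hKmem, map_mul, map_mul, map_mul, map_inv]
      exact d3 (π g₀) (π y) hg₀1 hg₀2 hπy1 hπy3
    have hfK : ∀ k : π.ker, (k : G) * y⁻¹ * (k : G)⁻¹ * y ∈ π.ker := by
      intro k
      rw [hKmem, map_mul, map_mul, map_mul, map_inv, map_inv, (hKmem k.1).mp k.2]
      group
    have hfinj : Function.Injective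
        (fun k : π.ker => (⟨(k : G) * y⁻¹ * (k : G)⁻¹ * y, hfK k⟩ : π.ker)) := by
      intro k k' hkk
      have h1 : (k : G) * y⁻¹ * (k : G)⁻¹ * y = (k' : G) * y⁻¹ * (k' : G)⁻¹ * y :=
        congrArg Subtype.val hkk
      have h3 : (k : G) * y⁻¹ * (k : G)⁻¹ = (k' : G) * y⁻¹ * (k' : G)⁻¹ := mul_right_cancel h1
      have h2 : Commute y ((k' : G)⁻¹ * (k : G)) := by
        show y * ((k' : G)⁻¹ * (k : G)) = (k' : G)⁻¹ * (k : G) * y
        calc y * ((k' : G)⁻¹ * (k : G))
            = y * (k' : G)⁻¹ * ((k : G) * y⁻¹ * (k : G)⁻¹) * (k : G) * y := by group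
          _ = y * (k' : G)⁻¹ * ((k' : G) * y⁻¹ * (k' : G)⁻¹) * (k : G) * y := by rw [h3]
          _ = _ := by group
      have h4 := hfpf _ (π.ker.mul_mem (π.ker.inv_mem k'.2) k.2) h2
      have h5 : (k : G) = (k' : G) := by
        calc (k : G) = (k' : G) * ((k' : G)⁻¹ * (k : G)) := by group
          _ = k' := by rw [h4, mul_one]
      exact Subtype.ext h5
    obtain ⟨k, hk⟩ := (Finite.injective_iff_surjective.mp hfinj) ⟨(g₀ * y * g₀⁻¹) * y, hyK⟩
    have hk' : (k : G) * y⁻¹ * (k : G)⁻¹ = g₀ * y * g₀⁻¹ :=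
      mul_right_cancel (congrArg Subtype.val hk)
    obtain ⟨s, hs1, hs2⟩ : ∃ s : G, s * y * s⁻¹ = y⁻¹ ∧ π s = π g₀ := by
      refine ⟨(k : G)⁻¹ * g₀, ?_, ?_⟩
      · calc ((k : G)⁻¹ * g₀) * y * ((k : G)⁻¹ * g₀)⁻¹
            = (k : G)⁻¹ * (g₀ * y * g₀⁻¹) * (k : G) := by group
          _ = (k : G)⁻¹ * ((k : G) * y⁻¹ * (k : G)⁻¹) * (k : G) := by rw [hk']
          _ = y⁻¹ := by group
      · rw [map_mul, map_inv, (hKmem k.1).mp k.2, inv_one, one_mul]
    have hssK : s * s ∈ π.ker := by rw [hKmem, map_mul, hs2]; exact hg₀2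
    have hssc : Commute y (s * s) := by
      have h1 : s * y⁻¹ * s⁻¹ = y := by
        calc s * y⁻¹ * s⁻¹ = (s * y * s⁻¹)⁻¹ := by group
          _ = y := by rw [hs1, inv_inv]
      have h2 : s * s * y = y * (s * s) := by
        calc s * s * y = s * (s * y * s⁻¹) * s := by group
          _ = s * y⁻¹ * s := by rw [hs1]
          _ = (s * y⁻¹ * s⁻¹) * s * s := by group
          _ = y * s * s := by rw [h1]
          _ = y * (s * s) := by group
      exact h2.symm
    have hss : s * s = 1 := hfpf _ hssK hssc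
    have hsi : s⁻¹ = s := inv_eq_of_mul_eq_one_right hss
    have hsy : s * y * s = y⁻¹ := by rw [← hs1, hsi]
    have h4 : ∀ t : G, t * t = 1 → ∀ n ∈ π.ker, (t * n) ^ 4 = 1 := by
      intro t ht n hn
      apply hE2
      rw [map_mul, (hKmem n).mp hn, mul_one, ← map_mul, ht, map_one]
    have hyc : ∀ n ∈ π.ker, Commute n (y * n * y⁻¹) := fun n hn =>
      Cfsg.Agent.Helper83.neumann_commute π.ker y (hP y hπy1 hπy3) n hn
    have hsq : ∀ n ∈ π.ker, n * n = 1 := fun n hn =>
      Cfsg.Agent.Helper83.s3_sq_eq_one π.ker hcl y s hfpf hyc hss hsy h4 n hn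
    refine ⟨π.ker, hKn, Or.inr ⟨⟨comm_of_sq hsq, fun x hx => ?_⟩,
      ⟨QuotientGroup.quotientKerEquivOfSurjective π hsurj⟩⟩⟩
    rw [pow_two]; exact hsq x hx
  · push Not at hinv
    have hall : ∀ g : G, g ^ 4 = 1 → g ∈ π.ker := by
      intro g h4
      rw [hKmem]
      by_contra h1
      exact hinv g h1 (d1 _ (hπpow g 4 h4))
    have hTK : (T : Subgroup G) ≤ π.ker := fun τ hτ =>
      hall τ (pow_four_of_ne_three hord τ (hT3 τ hτ))
    have hKT : π.ker = (T : Subgroup G) := le_antisymm hπ hTK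
    have hKp : IsPGroup 2 π.ker := T.isPGroup'.to_le hπ
    have hfK : f ∈ π.ker := hall f (by rw [← hf]; exact pow_orderOf_eq_one f)
    refine ⟨π.ker, hKn, Or.inl ⟨hKp, ?_, ?_, by rw [hKT]; exact hTidx⟩⟩
    · apply Nat.dvd_antisymm
      · apply Monoid.exponent_dvd_of_forall_pow_eq_one
        intro g
        exact Subtype.ext (by simpa using hK4 g.1 g.2)
      · have h1 : orderOf (⟨f, hfK⟩ : π.ker) = 4 := by rw [← Subgroup.orderOf_coe]; exact hf
        rw [← h1]; exact Monoid.order_dvd_exponent _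
    · have : Group.IsNilpotent π.ker := IsPGroup.isNilpotent hKp
      rw [← Subgroup.upperCentralSeries_eq_top_iff_nilpotencyClass_le, eq_top_iff]
      intro x _
      rw [show 2 = 1 + 1 from rfl, Subgroup.mem_upperCentralSeries_succ_iff]
      intro w
      rw [Subgroup.upperCentralSeries_one, Subgroup.mem_center_iff]
      intro g
      exact (hcl' x w g).eq.symm

theorem eq_two_pow_mul_three_pow (n : ℕ) (hn : n ≠ 0)
    (h : ∀ r : ℕ, r.Prime → r ∣ n → r = 2 ∨ r = 3) : ∃ a b : ℕ, n = 2 ^ a * 3 ^ b := by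
  obtain ⟨a, n₁, h2, hn1⟩ := Nat.exists_eq_pow_mul_and_not_dvd hn 2 (by norm_num)
  have hn₁ : n₁ ≠ 0 := by
    rintro rfl
    exact hn (by rw [hn1, mul_zero])
  obtain ⟨b, n₂, h3, hn2⟩ := Nat.exists_eq_pow_mul_and_not_dvd hn₁ 3 (by norm_num)
  refine ⟨a, b, ?_⟩
  have hn₂ : n₂ = 1 := by
    by_contra hne
    obtain ⟨r, hr, hrd⟩ := Nat.exists_prime_and_dvd hne
    have h1 : r ∣ n₁ := hrd.trans (hn2 ▸ Dvd.intro_left _ rfl)
    have h4 : r ∣ n := h1.trans (hn1 ▸ Dvd.intro_left _ rfl)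
    rcases h r hr h4 with rfl | rfl
    · exact h2 h1
    · exact h3 hrd
  rw [hn1, hn2, hn₂, mul_one]

theorem factorization_two (a b : ℕ) : (2 ^ a * 3 ^ b).factorization 2 = a := by
  rw [Nat.factorization_mul (by positivity) (by positivity),
    Nat.Prime.factorization_pow Nat.prime_two, Nat.Prime.factorization_pow Nat.prime_three]
  simp

theorem factorization_three (a b : ℕ) : (2 ^ a * 3 ^ b).factorization 3 = b := by
  rw [Nat.factorization_mul (by positivity) (by positivity),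
    Nat.Prime.factorization_pow Nat.prime_two, Nat.Prime.factorization_pow Nat.prime_three]
  simp

/-- A finite group whose set of element orders is exactly {1, 2, 3, 4} has a normal subgroup N such that either N is a 2-group of exponent 4 and nilpotency class at most 2 with G/N of order 3, or N is an elementary abelian 2-group with G/N isomorphic to the symmetric group of degree 3, or N is an elementary abelian 3-group with G/N cyclic of order 4 or quaternion of order 8. -/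
theorem result {G : Type*} [Group G] [Finite G] (h : Set.range (orderOf : G → ℕ) = {k : ℕ | 1 ≤ k ∧ k ≤ 4}) :
    ∃ (N : Subgroup G) (_ : N.Normal),
      (IsPGroup 2 ↥N ∧ Monoid.exponent ↥N = 4 ∧ Group.nilpotencyClass ↥N ≤ 2 ∧ N.index = 3) ∨
      (Cfsg.IsElementaryAbelian 2 N ∧ Nonempty (G ⧸ N ≃* Equiv.Perm (Fin 3))) ∨
      (Cfsg.IsElementaryAbelian 3 N ∧ ((IsCyclic (G ⧸ N) ∧ N.index = 4) ∨ Nonempty (G ⧸ N ≃* QuaternionGroup 2))) := by
  classical
  have hle : ∀ g : G, orderOf g ≤ 4 := by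
    intro g
    have h1 : orderOf g ∈ Set.range (orderOf : G → ℕ) := ⟨g, rfl⟩
    rw [h] at h1
    exact h1.2
  have hex : ∀ k : ℕ, 1 ≤ k → k ≤ 4 → ∃ g : G, orderOf g = k := by
    intro k hk1 hk2
    have h1 : k ∈ Set.range (orderOf : G → ℕ) := by rw [h]; exact ⟨hk1, hk2⟩
    exact h1
  obtain ⟨t, ht⟩ := hex 2 (by norm_num) (by norm_num)
  obtain ⟨y, hy⟩ := hex 3 (by norm_num) (by norm_num)
  obtain ⟨f, hf⟩ := hex 4 (by norm_num) (by norm_num)
  have hord : ∀ g : G, orderOf g = 1 ∨ orderOf g = 2 ∨ orderOf g = 3 ∨ orderOf g = 4 := by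
    intro g
    have h1 := hle g
    have h2 := orderOf_pos g
    omega
  have hno : ∀ a b : G, orderOf a = 2 → orderOf b = 3 → Commute a b → False := by
    intro a b ha hb hc
    have h1 := hc.orderOf_mul_eq_mul_orderOf_of_coprime (by rw [ha, hb]; norm_num)
    have h2 := hle (a * b)
    rw [h1, ha, hb] at h2
    omega
  have hprimes : ∀ r : ℕ, r.Prime → r ∣ Nat.card G → r = 2 ∨ r = 3 := by
    intro r hr hrd
    have hfr : Fact r.Prime := ⟨hr⟩
    obtain ⟨g, hg⟩ := exists_prime_orderOf_dvd_card' r hrd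
    have h1 := hle g
    have h2 := hr.two_le
    have h3 : r ≠ 4 := by
      rintro rfl
      norm_num at hr
    omega
  obtain ⟨a, b, hcard⟩ := eq_two_pow_mul_three_pow (Nat.card G) Nat.card_pos.ne' hprimes
  have hsol : Group.IsSolvable G :=
    Cfsg.Agent.Helper3.isSolvable_of_card_eq 2 3 a b Nat.prime_two Nat.prime_three hcard
  have hnt : Nontrivial G := ⟨⟨t, 1, fun h1 => by rw [h1, orderOf_one] at ht; omega⟩⟩
  have hf2 : Fact (Nat.Prime 2) := ⟨Nat.prime_two⟩
  have hf3 : Fact (Nat.Prime 3) := ⟨Nat.prime_three⟩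
  obtain ⟨p, hp, V, hVn, hV1, hVp, hVab⟩ := Cfsg.Agent.S1475.exists_normal_abelian_pGroup G
  have hVcomm : IsMulCommutative V := ⟨⟨fun x z => Subtype.ext (hVab x.1 x.2 z.1 z.2)⟩⟩
  have hVtop : ∀ A : Subgroup G, A ≤ Subgroup.normalizer (V : Set G) := by
    intro A
    have h1 : Subgroup.normalizer (V : Set G) = ⊤ := Subgroup.normalizer_eq_top_iff.mpr hVn
    rw [h1]; exact le_top
  have hVdvd : ∀ v ∈ V, v ≠ 1 → p ∣ orderOf v := by
    intro v hv hv1
    have hfp : Fact p.Prime := ⟨hp⟩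
    obtain ⟨k, hk⟩ := (IsPGroup.iff_orderOf.mp hVp) ⟨v, hv⟩
    rw [Subgroup.orderOf_mk] at hk
    have hk0 : k ≠ 0 := by
      rintro rfl
      rw [pow_zero] at hk
      exact hv1 (orderOf_eq_one_iff.mp hk)
    exact hk ▸ dvd_pow_self p hk0
  obtain ⟨v₀', hv₀1'⟩ := (Subgroup.ne_bot_iff_exists_ne_one).mp hV1
  obtain ⟨v₀, hv₀V⟩ := v₀'
  have hv₀1 : v₀ ≠ 1 := fun h1 => hv₀1' (Subtype.ext h1)
  have hp23 : p = 2 ∨ p = 3 := by
    have h1 := hVdvd v₀ hv₀V hv₀1
    rcases hord v₀ with h2 | h2 | h2 | h2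
    · exact absurd (orderOf_eq_one_iff.mp h2) hv₀1
    · left; rw [h2] at h1
      exact (Nat.prime_dvd_prime_iff_eq hp Nat.prime_two).mp h1
    · right; rw [h2] at h1
      exact (Nat.prime_dvd_prime_iff_eq hp Nat.prime_three).mp h1
    · left; rw [h2] at h1
      have h3 : p ∣ 2 ^ 2 := h1
      exact (Nat.prime_dvd_prime_iff_eq hp Nat.prime_two).mp (hp.dvd_of_dvd_pow h3)
  rcases hp23 with rfl | rfl
  · -- `V` is a `2`-group: the Sylow `3`-subgroups have order `3`
    obtain ⟨T⟩ : Nonempty (Sylow 2 G) := inferInstance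
    obtain ⟨Q⟩ : Nonempty (Sylow 3 G) := inferInstance
    have hTcard : Nat.card T = 2 ^ a := by
      rw [Sylow.card_eq_multiplicity, hcard, factorization_two]
    have hQcard : Nat.card Q = 3 ^ b := by
      rw [Sylow.card_eq_multiplicity, hcard, factorization_three]
    have hfpf : ∀ c : G, orderOf c = 3 → V ⊓ Subgroup.centralizer {c} = ⊥ := by
      intro c hc
      rw [eq_bot_iff]
      rintro v ⟨hvV, hvc⟩
      rw [Subgroup.mem_bot]
      have hcom : Commute v c := Subgroup.mem_centralizer_singleton_iff.mp hvc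
      by_contra hv1
      have hd := hVdvd v hvV hv1
      rcases hord v with h' | h' | h' | h'
      · exact hv1 (orderOf_eq_one_iff.mp h')
      · exact hno v c h' hc hcom
      · rw [h'] at hd; omega
      · exact hno (v ^ 2) c (orderOf_sq_of_four v h') hc (hcom.pow_left 2)
    have hrk : Cfsg.PRankLE 3 1 G := by
      intro A hA hA3
      have hcyc : IsCyclic A := by
        apply Cfsg.Agent.Helper1.fpf_abelian_isCyclic A V hV1 (hVtop A)
        intro c hc hc1
        apply hfpf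
        exact orderOf_eq_prime (hA3 c hc) hc1
      obtain ⟨g, hg⟩ := hcyc.exists_generator
      rw [← orderOf_eq_card_of_forall_mem_zpowers hg, ← Subgroup.orderOf_coe, pow_one]
      exact orderOf_le_of_pow_eq_one (by norm_num) (hA3 g.1 g.2)
    have hQcyc : IsCyclic (Q : Subgroup G) :=
      Cfsg.Agent.Helper49.isCyclic_sylow_of_pRankLE_one (by norm_num) hrk Q
    have hb1 : b = 1 := by
      obtain ⟨g, hg⟩ := hQcyc.exists_generator
      have h1 : Nat.card Q ≤ 3 := by
        rw [← orderOf_eq_card_of_forall_mem_zpowers hg, ← Subgroup.orderOf_coe]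
        have h5 : orderOf (g : G) ∣ 3 ^ b := by
          rw [← hQcard, Subgroup.orderOf_coe]; exact orderOf_dvd_natCard g
        rcases hord (g : G) with h' | h' | h' | h'
        · omega
        · rw [h'] at h5
          have h6 := Nat.Prime.dvd_of_dvd_pow Nat.prime_two h5
          omega
        · omega
        · rw [h'] at h5
          have h6 : 2 ∣ 3 ^ b := (by norm_num : 2 ∣ 4).trans h5
          have h7 := Nat.Prime.dvd_of_dvd_pow Nat.prime_two h6
          omega
      have h2 : 3 ∣ Nat.card Q := by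
        have h3 : 3 ∣ Nat.card G := by rw [← hy]; exact orderOf_dvd_natCard y
        exact Q.dvd_card_of_dvd_card h3
      have h4 : Nat.card Q = 3 := le_antisymm h1 (Nat.le_of_dvd Nat.card_pos h2)
      rw [hQcard] at h4
      exact Nat.pow_right_injective (by norm_num : 2 ≤ 3) (by simpa using h4)
    subst hb1
    have hTidx : (T : Subgroup G).index = 3 := by
      have h1 := (T : Subgroup G).card_mul_index
      rw [hTcard, hcard] at h1
      have h2 : 0 < 2 ^ a := by positivity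
      exact Nat.eq_of_mul_eq_mul_left h2 (by simpa using h1)
    obtain ⟨N, hN, hres⟩ := case_two hord hno y f hy hf T hTidx
    rcases hres with hres | hres
    · exact ⟨N, hN, Or.inl hres⟩
    · exact ⟨N, hN, Or.inr (Or.inl hres)⟩
  · -- `V` is a `3`-group
    have hV3 : ∀ v ∈ V, v ≠ 1 → orderOf v = 3 := by
      intro v hv hv1
      have hd := hVdvd v hv hv1
      rcases hord v with h' | h' | h' | h'
      · exact absurd (orderOf_eq_one_iff.mp h') hv1
      · rw [h'] at hd; omega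
      · exact h'
      · rw [h'] at hd; omega
    obtain ⟨N, hN, hres⟩ := case_three hord hno t f ht hf V hVn hV1 hV3
    exact ⟨N, hN, Or.inr (Or.inr hres)⟩

end Cfsg.Agent.S4006
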