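import Cfsg.Statements.S4198
import Mathlib

set_option autoImplicit false
open Cfsg

namespace Cfsg.Agent.S4198

open Equiv Equiv.Perm

/-- The possible cycle types of permutations of `Fin n`. -/
def T (n : ℕ) : Set (Multiset ℕ) := {m | m.sum ≤ n ∧ ∀ a ∈ m, 2 ≤ a}

theorem T_eq_range (n : ℕ) :
    T n = Set.range (cycleType : Perm (Fin n) → Multiset ℕ) := by
  ext m
  simp only [T, Set.mem_ofPred_eq, Set.mem_range]
  rw [Equiv.Perm.exists_with_cycleType_iff (Fin n), Fintype.card_fin]

theorem T_finite (n : ℕ) : (T n).Finite := by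
  rw [T_eq_range]; exact Set.finite_range _

/-- Cycle type on conjugacy classes. -/
def ct (n : ℕ) : ConjClasses (Perm (Fin n)) → Multiset ℕ :=
  Quotient.lift (fun σ : Perm (Fin n) => σ.cycleType)
    (fun _ _ h => Equiv.Perm.isConj_iff_cycleType_eq.mp h)

theorem ct_mk {n : ℕ} (σ : Perm (Fin n)) : ct n (ConjClasses.mk σ) = σ.cycleType := rfl

theorem ct_injective {n : ℕ} : Function.Injective (ct n) := by
  intro a b h
  obtain ⟨x, rfl⟩ := ConjClasses.mk_surjective a
  obtain ⟨y, rfl⟩ := ConjClasses.mk_surjective b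
  rw [ct_mk, ct_mk] at h
  exact ConjClasses.mk_eq_mk_iff_isConj.mpr (Equiv.Perm.isConj_iff_cycleType_eq.mpr h)

theorem range_ct {n : ℕ} : Set.range (ct n) = T n := by
  rw [T_eq_range]
  ext m; constructor
  · rintro ⟨c, rfl⟩; obtain ⟨x, rfl⟩ := ConjClasses.mk_surjective c; exact ⟨x, rfl⟩
  · rintro ⟨x, rfl⟩; exact ⟨ConjClasses.mk x, rfl⟩

theorem card_conjClasses_perm {n : ℕ} :
    Nat.card (ConjClasses (Perm (Fin n))) = (T n).ncard := by
  rw [← range_ct, ← Nat.card_coe_set_eq, Nat.card_range_of_injective ct_injective]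

theorem T_of_le_one (n : ℕ) (hn : n ≤ 1) : T n = {0} := by
  ext m
  simp only [T, Set.mem_ofPred_eq, Set.mem_singleton_iff]
  constructor
  · rintro ⟨h1, h2⟩
    by_contra hne
    obtain ⟨a, ha⟩ := Multiset.exists_mem_of_ne_zero hne
    have := h2 a ha
    have := Multiset.le_sum_of_mem ha
    omega
  · rintro rfl; simp

theorem ncard_T_succ_succ (n : ℕ) : (T (n + 2)).ncard ≤ (T (n + 1)).ncard + (T n).ncard := by
  classical
  have hsub : T (n + 2) ⊆ T (n + 1) ∪ {m | m ∈ T (n + 2) ∧ m.sum = n + 2} := by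
    intro m hm
    by_cases h : m.sum = n + 2
    · right; exact ⟨hm, h⟩
    · left; exact ⟨by have := hm.1; omega, hm.2⟩
  have hE : ({m | m ∈ T (n + 2) ∧ m.sum = n + 2} : Set (Multiset ℕ)).ncard ≤ (T n).ncard := by
    have hne : ∀ m : Multiset ℕ, m.sum = n + 2 → ∃ a, a ∈ m := by
      intro m hm
      apply Multiset.exists_mem_of_ne_zero
      rintro rfl; simp at hm
    let c : Multiset ℕ → ℕ := fun m => if h : m.sum = n + 2 then (hne m h).choose else 0
    have hc : ∀ m, m.sum = n + 2 → c m ∈ m := by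
      intro m h; simp only [c, dif_pos h]; exact (hne m h).choose_spec
    refine Set.ncard_le_ncard_of_injOn (fun m => m.erase (c m)) ?_ ?_ (T_finite n)
    · rintro m ⟨hm, hs⟩
      have hcm := hc m hs
      have h2 := hm.2 _ hcm
      have hsum := Multiset.sum_erase hcm
      refine ⟨?_, fun a ha => hm.2 a (Multiset.mem_of_mem_erase ha)⟩
      omega
    · rintro m ⟨hm, hs⟩ m' ⟨hm', hs'⟩ h
      simp only at h
      have hcm := hc m hs
      have hcm' := hc m' hs'
      have e1 := Multiset.sum_erase hcm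
      have e2 := Multiset.sum_erase hcm'
      have e3 : c m = c m' := by rw [h] at e1; omega
      rw [← Multiset.cons_erase hcm, ← Multiset.cons_erase hcm', h, e3]
  calc (T (n + 2)).ncard
      ≤ (T (n + 1) ∪ {m | m ∈ T (n + 2) ∧ m.sum = n + 2}).ncard :=
        Set.ncard_le_ncard hsub
          ((T_finite (n + 1)).union ((T_finite (n + 2)).subset fun m hm => hm.1))
    _ ≤ (T (n + 1)).ncard + ({m | m ∈ T (n + 2) ∧ m.sum = n + 2} : Set (Multiset ℕ)).ncard :=
        Set.ncard_union_le _ _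
    _ ≤ (T (n + 1)).ncard + (T n).ncard := by omega

theorem ncard_T_le_fib (n : ℕ) : (T n).ncard ≤ Nat.fib (n + 1) ∧ (T (n + 1)).ncard ≤ Nat.fib (n + 2) := by
  induction n with
  | zero =>
    rw [T_of_le_one 0 (by norm_num), T_of_le_one 1 (by norm_num)]
    simp
  | succ k ih =>
    refine ⟨ih.2, ?_⟩
    have h := ncard_T_succ_succ k
    have hf : Nat.fib (k + 1 + 2) = Nat.fib (k + 1) + Nat.fib (k + 2) := Nat.fib_add_two
    show (T (k + 2)).ncard ≤ Nat.fib (k + 1 + 2)
    omega

theorem fib_le_pow (k : ℕ) : Nat.fib (k + 6) ≤ 2 ^ (k + 3) ∧ Nat.fib (k + 7) ≤ 2 ^ (k + 4) := by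
  induction k with
  | zero => decide
  | succ k ih =>
    refine ⟨ih.2, ?_⟩
    have hf : Nat.fib (k + 1 + 7) = Nat.fib (k + 6) + Nat.fib (k + 7) := Nat.fib_add_two
    have h1 : 2 ^ (k + 1 + 4) = 2 * 2 ^ (k + 4) := by ring
    have h2 : 2 ^ (k + 4) = 2 * 2 ^ (k + 3) := by ring
    omega

/-- Even cycle types. -/
def Ev (n : ℕ) : Set (Multiset ℕ) := {m | m ∈ T n ∧ Even (m.sum + Multiset.card m)}

/-- Odd cycle types. -/
def Od (n : ℕ) : Set (Multiset ℕ) := {m | m ∈ T n ∧ ¬ Even (m.sum + Multiset.card m)}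

/-- Cycle types of the classes that split in the alternating group. -/
def Sp (n : ℕ) : Set (Multiset ℕ) :=
  {m | m ∈ T n ∧ (∀ c ∈ m, Odd c) ∧ n ≤ m.sum + 1 ∧ ∀ i, m.count i ≤ 1}

theorem Ev_finite (n : ℕ) : (Ev n).Finite := (T_finite n).subset fun _ hm => hm.1
theorem Od_finite (n : ℕ) : (Od n).Finite := (T_finite n).subset fun _ hm => hm.1
theorem Sp_finite (n : ℕ) : (Sp n).Finite := (T_finite n).subset fun _ hm => hm.1

theorem ncard_T_eq (n : ℕ) : (T n).ncard = (Ev n).ncard + (Od n).ncard := by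
  have h : T n = Ev n ∪ Od n := by
    ext m; constructor
    · intro hm
      by_cases h : Even (m.sum + Multiset.card m)
      · exact Or.inl ⟨hm, h⟩
      · exact Or.inr ⟨hm, h⟩
    · rintro (h | h) <;> exact h.1
  rw [h]
  apply Set.ncard_union_eq _ (Ev_finite n) (Od_finite n)
  rw [Set.disjoint_left]
  intro m h1 h2
  exact h2.2 h1.2

theorem mem_alt_iff {n : ℕ} (g : Perm (Fin n)) :
    g ∈ alternatingGroup (Fin n) ↔ Even (g.cycleType.sum + Multiset.card g.cycleType) := by
  rw [Equiv.Perm.mem_alternatingGroup, Equiv.Perm.sign_of_cycleType]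
  exact neg_one_pow_eq_one_iff_even (by decide)

theorem even_sum_add_card_of_odd (m : Multiset ℕ) (h : ∀ c ∈ m, Odd c) :
    Even (m.sum + Multiset.card m) := by
  induction m using Multiset.induction_on with
  | empty => simp
  | cons a s ih =>
    have h1 : Odd a := h a (Multiset.mem_cons_self a s)
    have h2 := ih (fun c hc => h c (Multiset.mem_cons_of_mem hc))
    rw [Multiset.sum_cons, Multiset.card_cons]
    rw [Nat.even_iff] at h2 ⊢
    rw [Nat.odd_iff] at h1
    omega

theorem ncard_Sp_lt {n : ℕ} (hn : 5 ≤ n) : (Sp n).ncard < (Od n).ncard := by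
  classical
  have hne : ∀ m ∈ Sp n, ∃ a, a ∈ m := by
    intro m hm
    apply Multiset.exists_mem_of_ne_zero
    rintro rfl
    have := hm.2.2.1
    simp at this
    omega
  let c : Multiset ℕ → ℕ := fun m => if h : ∃ a, a ∈ m then h.choose else 0
  have hc : ∀ m ∈ Sp n, c m ∈ m := by
    intro m hm
    have h := hne m hm
    simp only [c, dif_pos h]; exact h.choose_spec
  let J : Multiset ℕ → Multiset ℕ := fun m => (c m - 1) ::ₘ m.erase (c m)
  have hc3 : ∀ m ∈ Sp n, 3 ≤ c m ∧ c m % 2 = 1 := by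
    intro m hm
    have h1 := hm.1.2 _ (hc m hm)
    have h2 := hm.2.1 _ (hc m hm)
    rw [Nat.odd_iff] at h2
    omega
  have hJ : ∀ m ∈ Sp n, J m ∈ Od n \ {({2} : Multiset ℕ)} := by
    intro m hm
    have hcm := hc m hm
    obtain ⟨h3, hodd⟩ := hc3 m hm
    have hsum := Multiset.sum_erase hcm
    have hcard : Multiset.card (m.erase (c m)) = Multiset.card m - 1 := by
      rw [Multiset.card_erase_of_mem hcm]; rfl
    have hcardpos : 0 < Multiset.card m := Multiset.card_pos_iff_exists_mem.mpr ⟨_, hcm⟩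
    have hev := even_sum_add_card_of_odd m hm.2.1
    rw [Nat.even_iff] at hev
    have hJsum : (J m).sum = m.sum - 1 := by
      simp only [J, Multiset.sum_cons]; omega
    have hJcard : Multiset.card (J m) = Multiset.card m := by
      simp only [J, Multiset.card_cons]; omega
    refine ⟨⟨⟨?_, ?_⟩, ?_⟩, ?_⟩
    · rw [hJsum]; have := hm.1.1; omega
    · intro a ha
      simp only [J, Multiset.mem_cons] at ha
      rcases ha with rfl | ha
      · omega
      · exact hm.1.2 a (Multiset.mem_of_mem_erase ha)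
    · rw [hJsum, hJcard, Nat.even_iff]
      have := Multiset.le_sum_of_mem hcm
      omega
    · intro h
      rw [Set.mem_singleton_iff] at h
      have h5 : (J m).sum = 2 := by rw [h]; simp
      have := hm.2.2.1
      omega
  have hJinj : Set.InjOn J (Sp n) := by
    intro m hm m' hm' h
    have hcm := hc m hm
    have hcm' := hc m' hm'
    obtain ⟨h3, hodd⟩ := hc3 m hm
    obtain ⟨h3', hodd'⟩ := hc3 m' hm'
    have hmem : c m - 1 ∈ J m' := by
      have : J m = J m' := h
      rw [← this]; exact Multiset.mem_cons_self _ _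
    simp only [J, Multiset.mem_cons] at hmem
    have e : c m = c m' := by
      rcases hmem with h1 | h1
      · omega
      · exfalso
        have h2 := hm'.2.1 _ (Multiset.mem_of_mem_erase h1)
        rw [Nat.odd_iff] at h2
        omega
    have h' : (c m - 1) ::ₘ m.erase (c m) = (c m' - 1) ::ₘ m'.erase (c m') := h
    rw [e] at h'
    have h'' := (Multiset.cons_inj_right _).mp h'
    have hcm2 : c m' ∈ m := e ▸ hcm
    calc m = c m' ::ₘ m.erase (c m') := (Multiset.cons_erase hcm2).symm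
      _ = c m' ::ₘ m'.erase (c m') := by rw [h'']
      _ = m' := Multiset.cons_erase hcm'
  have h1 : (Sp n).ncard ≤ (Od n \ {({2} : Multiset ℕ)}).ncard :=
    Set.ncard_le_ncard_of_injOn J hJ hJinj ((Od_finite n).subset Set.sdiff_subset)
  have h2 : ({2} : Multiset ℕ) ∈ Od n := by
    refine ⟨⟨?_, ?_⟩, ?_⟩
    · simp; omega
    · intro a ha; simp at ha; omega
    · simp; decide
  have h3 : (Od n \ {({2} : Multiset ℕ)}).ncard < (Od n).ncard :=
    Set.ncard_sdiff_singleton_lt_of_mem h2 (Od_finite n)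
  omega

/-- Cycle type on conjugacy classes of the alternating group. -/
def φ (n : ℕ) : ConjClasses (alternatingGroup (Fin n)) → Multiset ℕ :=
  fun c => ct n (ConjClasses.map (alternatingGroup (Fin n)).subtype c)

theorem φ_mk {n : ℕ} (g : alternatingGroup (Fin n)) :
    φ n (ConjClasses.mk g) = (g : Perm (Fin n)).cycleType := rfl

theorem mk_eq_of_conj {n : ℕ} (g g' : alternatingGroup (Fin n)) (t : Perm (Fin n))
    (ht : t ∈ alternatingGroup (Fin n)) (h : t * (g : Perm (Fin n)) * t⁻¹ = g') :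
    (ConjClasses.mk g : ConjClasses (alternatingGroup (Fin n))) = ConjClasses.mk g' := by
  rw [ConjClasses.mk_eq_mk_iff_isConj, isConj_iff]
  exact ⟨⟨t, ht⟩, Subtype.ext h⟩

theorem exists_conj {n : ℕ} (g g' : Perm (Fin n)) (h : g.cycleType = g'.cycleType) :
    ∃ t : Perm (Fin n), t * g * t⁻¹ = g' :=
  isConj_iff.mp (Equiv.Perm.isConj_iff_cycleType_eq.mpr h)

theorem sign_eq_neg_one {n : ℕ} (t : Perm (Fin n)) (ht : t ∉ alternatingGroup (Fin n)) :
    sign t = -1 := by
  rcases Int.units_eq_one_or (sign t) with h | h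
  · exact absurd (Equiv.Perm.mem_alternatingGroup.mpr h) ht
  · exact h

theorem three {n : ℕ} (g₀ g g' : alternatingGroup (Fin n)) (t u : Perm (Fin n))
    (ht : t ∉ alternatingGroup (Fin n)) (hu : u ∉ alternatingGroup (Fin n))
    (h1 : t * (g₀ : Perm (Fin n)) * t⁻¹ = g) (h2 : u * (g₀ : Perm (Fin n)) * u⁻¹ = g') :
    (ConjClasses.mk g : ConjClasses (alternatingGroup (Fin n))) = ConjClasses.mk g' := by
  apply mk_eq_of_conj g g' (u * t⁻¹)
  · rw [Equiv.Perm.mem_alternatingGroup, map_mul, map_inv, sign_eq_neg_one t ht,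
      sign_eq_neg_one u hu]
    decide
  · rw [← h1, ← h2]; group

theorem centralizer_le_of_ne {n : ℕ} (g₀ g : alternatingGroup (Fin n))
    (hct : (g₀ : Perm (Fin n)).cycleType = (g : Perm (Fin n)).cycleType)
    (hne : (ConjClasses.mk g : ConjClasses (alternatingGroup (Fin n))) ≠ ConjClasses.mk g₀) :
    Subgroup.centralizer {(g₀ : Perm (Fin n))} ≤ alternatingGroup (Fin n) := by
  intro z hz
  by_contra hzA
  obtain ⟨t, ht⟩ := exists_conj (g₀ : Perm (Fin n)) g hct
  have htA : t ∉ alternatingGroup (Fin n) := fun h => hne (mk_eq_of_conj g₀ g t h ht).symm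
  apply hne
  symm
  apply mk_eq_of_conj g₀ g (t * z)
  · rw [Equiv.Perm.mem_alternatingGroup, map_mul, sign_eq_neg_one t htA, sign_eq_neg_one z hzA]
    decide
  · rw [Subgroup.mem_centralizer_singleton_iff] at hz
    rw [← ht]
    calc t * z * (g₀ : Perm (Fin n)) * (t * z)⁻¹
        = t * (z * (g₀ : Perm (Fin n))) * z⁻¹ * t⁻¹ := by group
      _ = t * ((g₀ : Perm (Fin n)) * z) * z⁻¹ * t⁻¹ := by rw [hz]
      _ = t * (g₀ : Perm (Fin n)) * t⁻¹ := by group

open Classical in
/-- A chosen class of the alternating group with a given cycle type. -/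
noncomputable def r (n : ℕ) (m : Multiset ℕ) : ConjClasses (alternatingGroup (Fin n)) :=
  if h : ∃ c, φ n c = m then h.choose else ConjClasses.mk 1

theorem φ_r {n : ℕ} (c : ConjClasses (alternatingGroup (Fin n))) :
    φ n (r n (φ n c)) = φ n c := by
  have h : ∃ c', φ n c' = φ n c := ⟨c, rfl⟩
  simp only [r, dif_pos h]; exact h.choose_spec

open Classical in
/-- The injection of the classes of the alternating group into (cycle type, flag). -/
noncomputable def ψ (n : ℕ) (c : ConjClasses (alternatingGroup (Fin n))) : Multiset ℕ × Bool :=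
  (φ n c, decide (c = r n (φ n c)))

theorem ψ_injective {n : ℕ} : Function.Injective (ψ n) := by
  intro c c' h
  simp only [ψ, Prod.mk.injEq, decide_eq_decide] at h
  obtain ⟨h1, h2⟩ := h
  by_cases hc : c = r n (φ n c)
  · have hc' := h2.mp hc
    rw [hc, hc', h1]
  · have hc' : ¬ c' = r n (φ n c') := fun h => hc (h2.mpr h)
    obtain ⟨g, rfl⟩ := ConjClasses.mk_surjective c
    obtain ⟨g', rfl⟩ := ConjClasses.mk_surjective c'
    obtain ⟨g₀, hg₀⟩ := ConjClasses.mk_surjective (r n (φ n (ConjClasses.mk g)))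
    have hr : φ n (ConjClasses.mk g₀) = φ n (ConjClasses.mk g) := by rw [hg₀]; exact φ_r _
    have hr' : φ n (ConjClasses.mk g₀) = φ n (ConjClasses.mk g') := hr.trans h1
    rw [← hg₀] at hc
    have hc'2 : ¬ ConjClasses.mk g' = ConjClasses.mk g₀ := by rw [hg₀, h1]; exact hc'
    simp only [φ_mk] at hr hr'
    obtain ⟨t, ht⟩ := exists_conj _ _ hr
    obtain ⟨u, hu⟩ := exists_conj _ _ hr'
    have htA : t ∉ alternatingGroup (Fin n) := fun h => hc (mk_eq_of_conj g₀ g t h ht).symm
    have huA : u ∉ alternatingGroup (Fin n) := fun h => hc'2 (mk_eq_of_conj g₀ g' u h hu).symm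
    exact three g₀ g g' t u htA huA ht hu

theorem ψ_range {n : ℕ} :
    Set.range (ψ n) ⊆ (Ev n ×ˢ ({true} : Set Bool)) ∪ (Sp n ×ˢ ({false} : Set Bool)) := by
  rintro _ ⟨c, rfl⟩
  by_cases hc : c = r n (φ n c)
  · left
    refine Set.mem_prod.mpr ⟨?_, decide_eq_true hc⟩
    obtain ⟨g, rfl⟩ := ConjClasses.mk_surjective c
    refine ⟨?_, (mem_alt_iff _).mp g.2⟩
    rw [T_eq_range]; exact ⟨g, rfl⟩
  · right
    refine Set.mem_prod.mpr ⟨?_, decide_eq_false hc⟩
    obtain ⟨g, rfl⟩ := ConjClasses.mk_surjective c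
    obtain ⟨g₀, hg₀⟩ := ConjClasses.mk_surjective (r n (φ n (ConjClasses.mk g)))
    have hr : φ n (ConjClasses.mk g₀) = φ n (ConjClasses.mk g) := by rw [hg₀]; exact φ_r _
    rw [← hg₀] at hc
    simp only [φ_mk] at hr
    have hcent := centralizer_le_of_ne g₀ g hr hc
    have h := Equiv.Perm.centralizer_le_alternating_iff.mp hcent
    rw [Fintype.card_fin, hr] at h
    show (g : Perm (Fin n)).cycleType ∈ Sp n
    refine ⟨?_, h⟩
    rw [T_eq_range]; exact ⟨g, rfl⟩

theorem card_alt_le {n : ℕ} :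
    Nat.card (ConjClasses (alternatingGroup (Fin n))) ≤ (Ev n).ncard + (Sp n).ncard := by
  have hfin : ((Ev n ×ˢ ({true} : Set Bool)) ∪ (Sp n ×ˢ ({false} : Set Bool))).Finite :=
    ((Ev_finite n).prod (Set.finite_singleton _)).union
      ((Sp_finite n).prod (Set.finite_singleton _))
  calc Nat.card (ConjClasses (alternatingGroup (Fin n)))
      = Nat.card (Set.range (ψ n)) := (Nat.card_range_of_injective ψ_injective).symm
    _ = (Set.range (ψ n)).ncard := Nat.card_coe_set_eq _
    _ ≤ ((Ev n ×ˢ ({true} : Set Bool)) ∪ (Sp n ×ˢ ({false} : Set Bool))).ncard :=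
        Set.ncard_le_ncard ψ_range hfin
    _ ≤ (Ev n ×ˢ ({true} : Set Bool)).ncard + (Sp n ×ˢ ({false} : Set Bool)).ncard :=
        Set.ncard_union_le _ _
    _ = (Ev n).ncard + (Sp n).ncard := by
        rw [Set.ncard_prod, Set.ncard_prod, Set.ncard_singleton, Set.ncard_singleton,
          mul_one, mul_one]

/-- For n ≥ 5 the alternating group of degree n has strictly fewer conjugacy classes than the symmetric group of degree n, and the symmetric group of degree n (whose classes correspond to the partitions of n) has at most 2^(n−2) conjugacy classes. -/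
theorem result (n : ℕ) (hn : 5 ≤ n) : Nat.card (ConjClasses (alternatingGroup (Fin n))) < Nat.card (ConjClasses (Equiv.Perm (Fin n))) ∧ Nat.card (ConjClasses (Equiv.Perm (Fin n))) ≤ 2 ^ (n - 2) := by
  constructor
  · rw [card_conjClasses_perm, ncard_T_eq]
    have h1 := card_alt_le (n := n)
    have h2 := ncard_Sp_lt hn
    omega
  · rw [card_conjClasses_perm]
    obtain ⟨k, rfl⟩ : ∃ k, n = k + 5 := ⟨n - 5, by omega⟩
    have h1 := (ncard_T_le_fib (k + 5)).1
    have h2 := (fib_le_pow k).1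
    have h3 : k + 5 - 2 = k + 3 := by omega
    rw [h3]
    exact h1.trans h2

end Cfsg.Agent.S4198
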