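import Cfsg.Statements.S4200
import Mathlib

set_option autoImplicit false
open Cfsg

namespace Cfsg.Agent.S4200

open Classical in
/-- Chosen representative of a left coset `q` of `Y` commuting with `c` (if one exists). -/
noncomputable def cRep {X : Type*} [Group X] (Y : Subgroup X) (c : X) (q : X ⧸ Y) : X :=
  if h : ∃ g₀ : X, (QuotientGroup.mk g₀ : X ⧸ Y) = q ∧ Commute g₀ c then Classical.choose h else 1

theorem cRep_spec {X : Type*} [Group X] (Y : Subgroup X) (c : X) (q : X ⧸ Y)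
    (h : ∃ g₀ : X, (QuotientGroup.mk g₀ : X ⧸ Y) = q ∧ Commute g₀ c) :
    (QuotientGroup.mk (cRep Y c q) : X ⧸ Y) = q ∧ Commute (cRep Y c q) c := by
  unfold cRep
  rw [dif_pos h]
  exact Classical.choose_spec h

/-- the map `(x, z) ↦ (zY, (x, r⁻¹ z))` with `r` the chosen representative -/
theorem red_spec {X : Type*} [Group X] (Y : Subgroup X) (x z : X) (hc : Commute x z) :
    (cRep Y x (QuotientGroup.mk z))⁻¹ * z ∈ Y ∧ Commute x ((cRep Y x (QuotientGroup.mk z))⁻¹ * z) ∧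
      z = cRep Y x (QuotientGroup.mk z) * ((cRep Y x (QuotientGroup.mk z))⁻¹ * z) := by
  have hex : ∃ g₀ : X, (QuotientGroup.mk g₀ : X ⧸ Y) = QuotientGroup.mk z ∧ Commute g₀ x :=
    ⟨z, rfl, hc.symm⟩
  obtain ⟨h1, h2⟩ := cRep_spec Y x (QuotientGroup.mk z) hex
  refine ⟨QuotientGroup.eq.mp h1, (h2.symm.inv_right).mul_right hc, by group⟩

/-- Let Y be a subgroup of the finite group X, of index m. Then the numbers of conjugacy classes satisfy k(Y) ≤ m·k(X) and k(X) ≤ m·k(Y), and the second inequality is strict unless Y is normal in X. -/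
theorem result {X : Type*} [Group X] [Finite X] (Y : Subgroup X) : Nat.card (ConjClasses Y) ≤ Y.index * Nat.card (ConjClasses X) ∧ Nat.card (ConjClasses X) ≤ Y.index * Nat.card (ConjClasses Y) ∧ (¬ Y.Normal → Nat.card (ConjClasses X) < Y.index * Nat.card (ConjClasses Y)) := by
  classical
  have hX := card_comm_eq_card_conjClasses_mul_card X
  have hY := card_comm_eq_card_conjClasses_mul_card Y
  have hidx : Nat.card Y * Y.index = Nat.card X := Subgroup.card_mul_index Y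
  have hapos : 0 < Nat.card Y := Nat.card_pos
  have hmpos : 0 < Y.index := Nat.pos_of_ne_zero Subgroup.index_ne_zero_of_finite
  have hidx' : Y.index = Nat.card (X ⧸ Y) := Subgroup.index_eq_card Y
  -- (i)
  have h1 : Nat.card {p : Y × Y // Commute p.1 p.2} ≤ Nat.card {p : X × X // Commute p.1 p.2} := by
    refine Nat.card_le_card_of_injective
      (fun p => (⟨((p.1.1 : X), (p.1.2 : X)), p.2.map Y.subtype⟩ : {p : X × X // Commute p.1 p.2})) ?_
    rintro ⟨⟨a, b⟩, hab⟩ ⟨⟨c, d⟩, hcd⟩ h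
    have e1 : (a : X) = (c : X) := congrArg (fun z : {p : X × X // Commute p.1 p.2} => z.1.1) h
    have e2 : (b : X) = (d : X) := congrArg (fun z : {p : X × X // Commute p.1 p.2} => z.1.2) h
    have e1' : a = c := Subtype.ext e1
    have e2' : b = d := Subtype.ext e2
    subst e1'; subst e2'; rfl
  -- (ii) first injection
  let Ψ₁ : {p : X × X // Commute p.1 p.2} → (X ⧸ Y) × {p : X × Y // Commute p.1 (p.2 : X)} :=
    fun p => (QuotientGroup.mk p.1.2,
      ⟨(p.1.1, ⟨(cRep Y p.1.1 (QuotientGroup.mk p.1.2))⁻¹ * p.1.2, (red_spec Y p.1.1 p.1.2 p.2).1⟩),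
        (red_spec Y p.1.1 p.1.2 p.2).2.1⟩)
  have hΨ₁ : Function.Injective Ψ₁ := by
    rintro ⟨⟨a, b⟩, hab⟩ ⟨⟨c, d⟩, hcd⟩ h
    have e0 : (QuotientGroup.mk b : X ⧸ Y) = QuotientGroup.mk d := congrArg Prod.fst h
    have e1 : a = c :=
      congrArg (fun z : (X ⧸ Y) × {p : X × Y // Commute p.1 (p.2 : X)} => z.2.1.1) h
    have e2 : (cRep Y a (QuotientGroup.mk b))⁻¹ * b = (cRep Y c (QuotientGroup.mk d))⁻¹ * d :=
      congrArg (fun z : (X ⧸ Y) × {p : X × Y // Commute p.1 (p.2 : X)} => ((z.2.1.2 : Y) : X)) h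
    have eb : b = d := by
      have s1 := (red_spec Y a b hab).2.2
      have s2 := (red_spec Y c d hcd).2.2
      rw [s1, s2, e2, e1, e0]
    subst e1; subst eb; rfl
  let Ψ₂ : {p : X × Y // Commute p.1 (p.2 : X)} → (X ⧸ Y) × {p : Y × Y // Commute p.1 p.2} :=
    fun p => (QuotientGroup.mk p.1.1,
      ⟨(⟨(cRep Y (p.1.2 : X) (QuotientGroup.mk p.1.1))⁻¹ * p.1.1,
          (red_spec Y (p.1.2 : X) p.1.1 p.2.symm).1⟩, p.1.2),
        by
          have := (red_spec Y (p.1.2 : X) p.1.1 p.2.symm).2.1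
          exact Subtype.ext this.symm.eq⟩)
  have hΨ₂ : Function.Injective Ψ₂ := by
    rintro ⟨⟨a, b⟩, hab⟩ ⟨⟨c, d⟩, hcd⟩ h
    have e0 : (QuotientGroup.mk a : X ⧸ Y) = QuotientGroup.mk c := congrArg Prod.fst h
    have e1 : b = d :=
      congrArg (fun z : (X ⧸ Y) × {p : Y × Y // Commute p.1 p.2} => z.2.1.2) h
    have e2 : (cRep Y (b : X) (QuotientGroup.mk a))⁻¹ * a = (cRep Y (d : X) (QuotientGroup.mk c))⁻¹ * c :=
      congrArg (fun z : (X ⧸ Y) × {p : Y × Y // Commute p.1 p.2} => ((z.2.1.1 : Y) : X)) h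
    have ea : a = c := by
      have s1 := (red_spec Y (b : X) a hab.symm).2.2
      have s2 := (red_spec Y (d : X) c hcd.symm).2.2
      rw [s1, s2, e2, e1, e0]
    subst e1; subst ea; rfl
  have c1 : Nat.card {p : X × X // Commute p.1 p.2} ≤
      Y.index * Nat.card {p : X × Y // Commute p.1 (p.2 : X)} := by
    rw [hidx', ← Nat.card_prod]
    exact Nat.card_le_card_of_injective Ψ₁ hΨ₁
  have c2 : Nat.card {p : X × Y // Commute p.1 (p.2 : X)} ≤
      Y.index * Nat.card {p : Y × Y // Commute p.1 p.2} := by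
    rw [hidx', ← Nat.card_prod]
    exact Nat.card_le_card_of_injective Ψ₂ hΨ₂
  rw [hX] at h1 c1
  rw [hY] at h1
  refine ⟨?_, ?_, ?_⟩
  · -- kY * a ≤ kX * (a * m)
    rw [← hidx] at h1
    have : Nat.card (ConjClasses Y) * Nat.card Y ≤ (Y.index * Nat.card (ConjClasses X)) * Nat.card Y := by
      calc _ ≤ _ := h1
        _ = _ := by ring
    exact Nat.le_of_mul_le_mul_right this hapos
  · rw [hY] at c2
    rw [← hidx] at c1
    have : Nat.card (ConjClasses X) * (Nat.card Y * Y.index) ≤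
        (Y.index * Nat.card (ConjClasses Y)) * (Nat.card Y * Y.index) := by
      calc _ ≤ Y.index * Nat.card {p : X × Y // Commute p.1 (p.2 : X)} := c1
        _ ≤ Y.index * (Y.index * (Nat.card (ConjClasses Y) * Nat.card Y)) :=
          Nat.mul_le_mul_left _ c2
        _ = _ := by ring
    exact Nat.le_of_mul_le_mul_right this (Nat.mul_pos hapos hmpos)
  · intro hnn
    -- Ψ₂ is not surjective
    have hex : ∃ y₀ ∈ Y, ∃ g : X, g * y₀ * g⁻¹ ∉ Y := by
      by_contra hcon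
      push Not at hcon
      exact hnn ⟨fun n hn g => hcon n hn g⟩
    obtain ⟨y₀, hy₀, g, hg⟩ := hex
    have c2' : Nat.card {p : X × Y // Commute p.1 (p.2 : X)} <
        Y.index * Nat.card {p : Y × Y // Commute p.1 p.2} := by
      rw [hidx', ← Nat.card_prod]
      let _ := Fintype.ofFinite {p : X × Y // Commute p.1 (p.2 : X)}
      let _ := Fintype.ofFinite ((X ⧸ Y) × {p : Y × Y // Commute p.1 p.2})
      rw [Nat.card_eq_fintype_card, Nat.card_eq_fintype_card]
      refine Fintype.card_lt_of_injective_of_notMem Ψ₂ hΨ₂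
        (b := (QuotientGroup.mk g⁻¹, ⟨(1, ⟨y₀, hy₀⟩), Commute.one_left _⟩)) ?_
      rintro ⟨⟨⟨x, y⟩, hxy⟩, hΨ⟩
      have e0 : (QuotientGroup.mk x : X ⧸ Y) = QuotientGroup.mk g⁻¹ := congrArg Prod.fst hΨ
      have e1 : y = ⟨y₀, hy₀⟩ :=
        congrArg (fun z : (X ⧸ Y) × {p : Y × Y // Commute p.1 p.2} => z.2.1.2) hΨ
      have hxy' : Commute x y₀ := by
        have : (y : X) = y₀ := congrArg Subtype.val e1
        rw [← this]; exact hxy
      -- x⁻¹ * g⁻¹ ∈ Y
      have hmem : x⁻¹ * g⁻¹ ∈ Y := QuotientGroup.eq.mp e0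
      apply hg
      -- g y₀ g⁻¹ = (x⁻¹ g⁻¹)⁻¹ y₀ (x⁻¹ g⁻¹)
      have hx1 : x⁻¹ * y₀ * x = y₀ := by rw [mul_assoc, ← hxy'.eq]; group
      have : g * y₀ * g⁻¹ = (x⁻¹ * g⁻¹)⁻¹ * (x⁻¹ * y₀ * x) * (x⁻¹ * g⁻¹) := by group
      rw [this, hx1]
      exact Y.mul_mem (Y.mul_mem (Y.inv_mem hmem) hy₀) hmem
    rw [hY] at c2'
    rw [← hidx] at c1
    have : Nat.card (ConjClasses X) * (Nat.card Y * Y.index) <
        (Y.index * Nat.card (ConjClasses Y)) * (Nat.card Y * Y.index) := by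
      calc _ ≤ Y.index * Nat.card {p : X × Y // Commute p.1 (p.2 : X)} := c1
        _ < Y.index * (Y.index * (Nat.card (ConjClasses Y) * Nat.card Y)) :=
          Nat.mul_lt_mul_of_pos_left c2' hmpos
        _ = _ := by ring
    exact Nat.lt_of_mul_lt_mul_right this

end Cfsg.Agent.S4200
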