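import Cfsg.Statements.S4201
import Cfsg.Agent.Helper69.CommPairs

set_option autoImplicit false
open Cfsg

namespace Cfsg.Agent.S4201

theorem card_classes_eq (G : Type*) [Group G] :
    Nat.card (ConjClasses G) =
      Nat.card {C : ConjClasses G // ∀ x : G, ConjClasses.mk x = C →
        Cfsg.Agent.Helper69.IsPiElt Set.univ x} := by
  apply Nat.card_congr
  exact (Equiv.subtypeUnivEquiv (fun C x _ q _ _ => Set.mem_univ q)).symm

/-- If N is a normal subgroup of the finite group X then k(X) ≤ k(N)·k(X ⧸ N), where k denotes the number of conjugacy classes. -/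
theorem result {X : Type*} [Group X] [Finite X] (N : Subgroup X) [N.Normal] : Nat.card (ConjClasses X) ≤ Nat.card (ConjClasses N) * Nat.card (ConjClasses (X ⧸ N)) := by
  rw [card_classes_eq X, card_classes_eq N, card_classes_eq (X ⧸ N)]
  exact Cfsg.Agent.Helper69.card_pi_classes_le N Set.univ

end Cfsg.Agent.S4201
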