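import Cfsg.Statements.S4203
import Cfsg.Agent.Helper70.Index
import Cfsg.Agent.Helper70.Perm4

set_option autoImplicit false
open Cfsg

namespace Cfsg.Agent.S4203

open Subgroup Cfsg.Agent.Helper70

/-- If a subgroup `M` contains the normalizer of a Sylow `p`-subgroup, its index is `≡ 1 mod p`. -/
theorem index_modEq_one_of_normalizer_le {G : Type*} [Group G] [Finite G] {p : ℕ} [Fact p.Prime]
    (P : Sylow p G) (M : Subgroup G) (h : normalizer ((P : Subgroup G) : Set G) ≤ M) :
    M.index ≡ 1 [MOD p] := by
  have hPM : (P : Subgroup G) ≤ M := le_normalizer.trans h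
  have h1 : (normalizer ((P : Subgroup G) : Set G)).index ≡ 1 [MOD p] := by
    have h0 := card_sylow_modEq_one p G
    rw [Sylow.card_eq_index_normalizer P] at h0
    exact h0
  have h2 : (normalizer ((P : Subgroup G) : Set G)).relIndex M ≡ 1 [MOD p] := by
    have h3 := card_sylow_modEq_one p M
    rw [Sylow.card_eq_index_normalizer (P.subtype hPM)] at h3
    have h6 : (normalizer (((P.subtype hPM : Sylow p M) : Subgroup M) : Set M)) =
        (normalizer ((P : Subgroup G) : Set G)).subgroupOf M := by
      rw [Sylow.coe_subtype, Subgroup.subgroupOf_normalizer_eq hPM]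
    have h7 : (normalizer (((P.subtype hPM : Sylow p M) : Subgroup M) : Set M)).index ≡ 1 [MOD p] := h3
    rw [h6] at h7
    exact h7
  have h4 := Subgroup.relIndex_mul_index h
  have h5 : (normalizer ((P : Subgroup G) : Set G)).relIndex M * M.index ≡ 1 * M.index [MOD p] :=
    Nat.ModEq.mul_right _ h2
  rw [h4, one_mul] at h5
  exact h5.symm.trans h1

/-- Number theory: a prime power `q` or `q^2` that is `≡ 1 mod p` with `q ≤ p` is `4`. -/
theorem index_eq_four {p q x : ℕ} (hp : p.Prime) (hq : q.Prime) (hqp : q ≤ p)
    (hx : x = q ∨ x = q ^ 2) (hmod : x ≡ 1 [MOD p]) : x = 4 := by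
  have hq2 := hq.two_le
  have hp2 := hp.two_le
  rcases hx with rfl | rfl
  · exfalso
    have h1 : p ∣ x - 1 := (Nat.modEq_iff_dvd' (by omega)).mp hmod.symm
    have h2 := Nat.le_of_dvd (by omega) h1
    omega
  · have h1 : p ∣ q ^ 2 - 1 := (Nat.modEq_iff_dvd' (Nat.one_le_pow _ _ (by omega))).mp hmod.symm
    have h2 : q ^ 2 - 1 = (q - 1) * (q + 1) := by
      obtain ⟨k, rfl⟩ : ∃ k, q = k + 1 := ⟨q - 1, by omega⟩
      simp only [Nat.add_sub_cancel]
      ring_nf
      omega
    rw [h2] at h1
    rcases (Nat.Prime.dvd_mul hp).mp h1 with h3 | h3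
    · exfalso
      have := Nat.le_of_dvd (by omega) h3
      omega
    · have h4 := Nat.le_of_dvd (by omega) h3
      have h5 : p = q + 1 := by
        rcases Nat.lt_or_ge q p with h6 | h6
        · omega
        · exfalso
          have h7 : p = q := by omega
          rw [h7] at h3
          have : q ∣ 1 := (Nat.dvd_add_right (dvd_refl q)).mp h3
          have := Nat.le_of_dvd (by omega) this
          omega
      have hq2' : q = 2 := by
        rcases hq.eq_two_or_odd with h8 | h8
        · exact h8
        · exfalso
          have h9 : 2 ∣ p := by omega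
          have := (Nat.prime_dvd_prime_iff_eq Nat.prime_two hp).mp h9
          omega
      rw [hq2']; norm_num

theorem solvable_aux.{u} : ∀ (n : ℕ) (G : Type u) [Group G] [Finite G], Nat.card G = n →
    (∀ M : Subgroup G, IsCoatom M → ∃ p : ℕ, p.Prime ∧ (M.index = p ∨ M.index = p ^ 2)) →
    Group.IsSolvable G := by
  intro n
  induction n using Nat.strong_induction_on with
  | _ n IH =>
  intro G _ _ hn h
  by_cases htriv : Subsingleton G
  · infer_instance
  rw [not_subsingleton_iff_nontrivial] at htriv
  -- a minimal normal subgroup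
  obtain ⟨N, ⟨hNn, hNbot⟩, hmin⟩ := wellFounded_lt.has_min
    {K : Subgroup G | K.Normal ∧ K ≠ ⊥} ⟨⊤, Subgroup.normal_top, top_ne_bot⟩
  have hminimal : ∀ K : Subgroup G, K.Normal → K ≤ N → K ≠ N → K = ⊥ := by
    intro K hK hKN hne
    by_contra hKbot
    exact hmin K ⟨hK, hKbot⟩ (lt_of_le_of_ne hKN hne)
  -- the quotient is solvable by induction
  have hquot : Group.IsSolvable (G ⧸ N) := by
    have hlt : Nat.card (G ⧸ N) < n := by
      rw [← hn, Subgroup.card_eq_card_quotient_mul_card_subgroup N]
      have h1 : 1 < Nat.card N := (Subgroup.one_lt_card_iff_ne_bot N).mpr hNbot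
      have h2 : 0 < Nat.card (G ⧸ N) := Nat.card_pos
      nlinarith
    apply IH _ hlt (G ⧸ N) rfl
    intro M hM
    have hM' := Subgroup.isCoatom_comap_of_surjective (QuotientGroup.mk'_surjective N) hM
    obtain ⟨p, hp, hidx⟩ := h _ hM'
    rw [Subgroup.index_comap_of_surjective M (QuotientGroup.mk'_surjective N)] at hidx
    exact ⟨p, hp, hidx⟩
  -- the minimal normal subgroup is solvable
  have hNsolv : Group.IsSolvable N := by
    have hcard1 : Nat.card N ≠ 1 := by
      intro h1; exact hNbot (Subgroup.card_eq_one.mp h1)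
    have hne : (Nat.card N).primeFactors.Nonempty := by
      obtain ⟨q, hq, hqd⟩ := Nat.exists_prime_and_dvd hcard1
      exact ⟨q, Nat.mem_primeFactors.mpr ⟨hq, hqd, Nat.card_pos.ne'⟩⟩
    set p := (Nat.card N).primeFactors.max' hne with hpdef
    have hpmem := (Nat.card N).primeFactors.max'_mem hne
    rw [← hpdef, Nat.mem_primeFactors] at hpmem
    obtain ⟨hp, hpdvd, -⟩ := hpmem
    have hpmax : ∀ q : ℕ, q.Prime → q ∣ Nat.card N → q ≤ p := by
      intro q hq hqd
      exact Finset.le_max' _ q (Nat.mem_primeFactors.mpr ⟨hq, hqd, Nat.card_pos.ne'⟩)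
    have : Fact p.Prime := ⟨hp⟩
    obtain ⟨P⟩ : Nonempty (Sylow p N) := Sylow.nonempty
    set PG : Subgroup G := (P : Subgroup N).map N.subtype with hPG
    have hPGle : PG ≤ N := by
      rw [hPG]; exact Subgroup.map_subtype_le _
    have hPGbot : PG ≠ ⊥ := by
      intro hb
      apply P.ne_bot_of_dvd_card hpdvd
      rw [hPG, Subgroup.map_eq_bot_iff_of_injective _ (Subgroup.subtype_injective N)] at hb
      exact hb
    by_cases hPn : PG.Normal
    · -- `N` is a `p`-group
      have hPN : PG = N := by
        by_contra hne'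
        exact hPGbot (hminimal PG hPn hPGle hne')
      have hpg : IsPGroup p N := by
        obtain ⟨k, hk⟩ := IsPGroup.iff_card.mp P.isPGroup'
        apply IsPGroup.of_card (n := k)
        have h1 : Nat.card N = Nat.card PG := by rw [hPN]
        rw [h1, ← hk, hPG, Subgroup.card_map_of_injective (Subgroup.subtype_injective N)]
      have := hpg.isNilpotent
      infer_instance
    · -- Frattini argument
      have hnorm : normalizer (PG : Set G) ≠ ⊤ := by
        intro htop; exact hPn (Subgroup.normalizer_eq_top_iff.mp htop)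
      obtain ⟨M, hM, hle⟩ := (eq_top_or_exists_le_coatom _).resolve_left hnorm
      have hsup : M ⊔ N = ⊤ := by
        rw [eq_top_iff, ← Sylow.normalizer_sup_eq_top P]
        exact sup_le_sup_right hle N
      have hNM : ¬ N ≤ M := by
        intro hNM'
        apply hM.1
        rw [← hsup]; exact (sup_eq_left.mpr hNM').symm
      have hidx : M.index = M.relIndex N := index_eq_relIndex_of_sup_eq_top N M hsup
      have hmod : M.index ≡ 1 [MOD p] := by
        rw [hidx]
        apply index_modEq_one_of_normalizer_le P (M.subgroupOf N)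
        rw [Subgroup.subgroupOf, ← Subgroup.map_le_iff_le_comap]
        exact (Subgroup.le_normalizer_map N.subtype).trans hle
      obtain ⟨q, hq, hqidx⟩ := h M hM
      have hqdvd : q ∣ Nat.card N := by
        have h1 : M.relIndex N ∣ Nat.card N := Subgroup.relIndex_dvd_card M N
        rw [← hidx] at h1
        rcases hqidx with h2 | h2
        · rw [h2] at h1; exact h1
        · rw [h2] at h1; exact (dvd_pow_self q (by norm_num)).trans h1
      have h4 : M.index = 4 := index_eq_four hp hq (hpmax q hq hqdvd) hqidx hmod
      -- `N` embeds in the symmetric group on the four cosets of `M`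
      have hker : N ⊓ (MulAction.toPermHom G (G ⧸ M)).ker = ⊥ := by
        apply hminimal _ inferInstance inf_le_left
        intro heq
        apply hNM
        rw [← heq, ← Subgroup.normalCore_eq_ker]
        exact inf_le_right.trans (Subgroup.normalCore_le M)
      have hinj : Function.Injective ((MulAction.toPermHom G (G ⧸ M)).comp N.subtype) := by
        rw [injective_iff_map_eq_one]
        intro x hx
        have : (x : G) ∈ N ⊓ (MulAction.toPermHom G (G ⧸ M)).ker := ⟨x.2, hx⟩
        rw [hker, Subgroup.mem_bot] at this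
        exact Subtype.ext this
      have : Group.IsSolvable (Equiv.Perm (G ⧸ M)) :=
        isSolvable_perm_of_card_eq_four (by rw [← Subgroup.index_eq_card]; exact h4)
      exact Group.isSolvable_of_isSolvable_injective hinj
  exact (Group.isSolvable_iff_subgroup_quotient N).mpr ⟨hNsolv, hquot⟩

/-- A finite group in which every maximal subgroup has index a prime or the square of a prime is solvable. -/
theorem result {G : Type*} [Group G] [Finite G] (h : ∀ M : Subgroup G, IsCoatom M → ∃ p : ℕ, p.Prime ∧ (M.index = p ∨ M.index = p ^ 2)) : Group.IsSolvable G :=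
  solvable_aux (Nat.card G) G rfl h

end Cfsg.Agent.S4203
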