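import Cfsg.Statements.S4204

set_option autoImplicit false
open Cfsg

namespace Cfsg.Agent.S4204

/-- `⁅X, B⁆ ≤ N` as a containment of `X`. -/
theorem comm_le_iff {G : Type*} [Group G] (N : Subgroup G) [N.Normal] (X B : Subgroup G) :
    ⁅X, B⁆ ≤ N ↔
      X ≤ (Subgroup.centralizer ((B.map (QuotientGroup.mk' N) : Subgroup (G ⧸ N)) : Set (G ⧸ N))).comap
        (QuotientGroup.mk' N) := by
  rw [← Subgroup.map_le_iff_le_comap, ← Subgroup.commutator_eq_bot_iff_le_centralizer,
    ← Subgroup.map_commutator, Subgroup.map_eq_bot_iff, QuotientGroup.ker_mk']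

theorem comm_iSup_le {G : Type*} [Group G] {ι : Sort*} (N : Subgroup G) [N.Normal]
    (A : ι → Subgroup G) (B : Subgroup G) (h : ∀ i, ⁅A i, B⁆ ≤ N) : ⁅⨆ i, A i, B⁆ ≤ N := by
  rw [comm_le_iff]
  exact iSup_le fun i => (comm_le_iff N (A i) B).mp (h i)

theorem comm_sup_right_le {G : Type*} [Group G] (N : Subgroup G) [N.Normal]
    (A B C : Subgroup G) (h1 : ⁅A, B⁆ ≤ N) (h2 : ⁅A, C⁆ ≤ N) : ⁅A, B ⊔ C⁆ ≤ N := by
  rw [Subgroup.commutator_comm, comm_le_iff]
  rw [Subgroup.commutator_comm, comm_le_iff] at h1 h2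
  exact sup_le h1 h2

/-- shifted lower central series: term `0` is `⊤`, term `a+1` is `S.lowerCentralSeries a`. -/
def sh {G : Type*} [Group G] (S : Subgroup G) : ℕ → Subgroup G
  | 0 => ⊤
  | a + 1 => S.lowerCentralSeries a

theorem lcs_normal {G : Type*} [Group G] (S : Subgroup G) [S.Normal] (n : ℕ) :
    (S.lowerCentralSeries n).Normal := by
  induction n with
  | zero => simpa using (inferInstance : S.Normal)
  | succ n ih =>
    rw [Subgroup.lowerCentralSeries_succ]
    exact Subgroup.commutator_normal _ _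

instance sh_normal {G : Type*} [Group G] (S : Subgroup G) [S.Normal] (a : ℕ) : (sh S a).Normal := by
  cases a with
  | zero => exact Subgroup.normal_top
  | succ a => exact lcs_normal S a

theorem comm_sh_le {G : Type*} [Group G] (S : Subgroup G) [S.Normal] (a : ℕ) :
    ⁅sh S a, S⁆ ≤ sh S (a + 1) := by
  cases a with
  | zero =>
    show ⁅(⊤ : Subgroup G), S⁆ ≤ S.lowerCentralSeries 0
    rw [Subgroup.lowerCentralSeries_zero]
    exact Subgroup.commutator_le_right _ _
  | succ a =>
    show ⁅S.lowerCentralSeries a, S⁆ ≤ S.lowerCentralSeries (a + 1)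
    rw [Subgroup.lowerCentralSeries_succ]

/-- The normal series of Fitting's theorem. -/
def T {G : Type*} [Group G] (H K : Subgroup G) (n : ℕ) : Subgroup G :=
  ⨆ (a : ℕ) (b : ℕ) (_ : a + b = n + 1), sh H a ⊓ sh K b

instance T_normal {G : Type*} [Group G] (H K : Subgroup G) [H.Normal] [K.Normal] (n : ℕ) :
    (T H K n).Normal := by
  unfold T
  infer_instance

theorem le_T {G : Type*} [Group G] (H K : Subgroup G) (n a b : ℕ) (h : a + b = n + 1) :
    sh H a ⊓ sh K b ≤ T H K n := by
  unfold T
  exact le_iSup_of_le a (le_iSup_of_le b (le_iSup_of_le h le_rfl))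

theorem lcs_le_T {G : Type*} [Group G] (H K : Subgroup G) [H.Normal] [K.Normal] (n : ℕ) :
    (H ⊔ K).lowerCentralSeries n ≤ T H K n := by
  induction n with
  | zero =>
    rw [Subgroup.lowerCentralSeries_zero]
    apply sup_le
    · refine le_trans ?_ (le_T H K 0 1 0 rfl)
      show H ≤ H.lowerCentralSeries 0 ⊓ ⊤
      simp
    · refine le_trans ?_ (le_T H K 0 0 1 rfl)
      show K ≤ ⊤ ⊓ K.lowerCentralSeries 0
      simp
  | succ n ih =>
    rw [Subgroup.lowerCentralSeries_succ]
    refine (Subgroup.commutator_mono ih le_rfl).trans ?_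
    unfold T
    apply comm_iSup_le
    intro a
    apply comm_iSup_le
    intro b
    apply comm_iSup_le
    intro hab
    show ⁅sh H a ⊓ sh K b, H ⊔ K⁆ ≤ T H K (n + 1)
    apply comm_sup_right_le
    · refine le_trans ?_ (le_T H K (n + 1) (a + 1) b (by omega))
      apply le_inf
      · exact (Subgroup.commutator_mono inf_le_left le_rfl).trans (comm_sh_le H a)
      · exact (Subgroup.commutator_mono inf_le_right le_rfl).trans (Subgroup.commutator_le_left _ _)
    · refine le_trans ?_ (le_T H K (n + 1) a (b + 1) (by omega))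
      apply le_inf
      · exact (Subgroup.commutator_mono inf_le_left le_rfl).trans (Subgroup.commutator_le_left _ _)
      · exact (Subgroup.commutator_mono inf_le_right le_rfl).trans (comm_sh_le K b)

theorem sh_eq_bot {G : Type*} [Group G] (S : Subgroup G) (c a : ℕ) (h : S.lowerCentralSeries c = ⊥)
    (hca : c + 1 ≤ a) : sh S a = ⊥ := by
  obtain ⟨a', rfl⟩ : ∃ a', a = a' + 1 := ⟨a - 1, by omega⟩
  show S.lowerCentralSeries a' = ⊥
  rw [eq_bot_iff, ← h]
  exact S.lowerCentralSeries_antitone (by omega)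

/-- If `H` and `K` are normal subgroups of a finite group with `H` nilpotent of class at most `c` and `K` nilpotent of class at most `d` (the terms with index `c`, respectively `d`, of their lower central series are trivial, indices starting at `0`), then `HK` is nilpotent of class at most `c + d`. -/
theorem result {G : Type*} [Group G] [Finite G] (H K : Subgroup G) [H.Normal] [K.Normal] (c d : ℕ) (hH : H.lowerCentralSeries c = ⊥) (hK : K.lowerCentralSeries d = ⊥) : (H ⊔ K).lowerCentralSeries (c + d) = ⊥ := by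
  rw [eq_bot_iff]
  refine (lcs_le_T H K (c + d)).trans ?_
  unfold T
  refine iSup_le fun a => iSup_le fun b => iSup_le fun hab => ?_
  rcases Nat.lt_or_ge c a with h | h
  · rw [sh_eq_bot H c a hH h]; simp
  · rw [sh_eq_bot K d b hK (by omega)]; simp

end Cfsg.Agent.S4204
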