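import Cfsg.Statements.S4205

set_option autoImplicit false
open Cfsg
open scoped commutatorElement

namespace Cfsg.Agent.S4205

theorem ucs_le_iter {G : Type*} [Group G] (H : Subgroup G) (i : ℕ) :
    Subgroup.upperCentralSeries G i ≤
      (fun K : Subgroup G => Subgroup.normalizer (K : Set G))^[i] H := by
  induction i with
  | zero => simp
  | succ n ih =>
    rw [Function.iterate_succ_apply']
    set K := (fun K : Subgroup G => Subgroup.normalizer (K : Set G))^[n] H with hK
    intro x hx
    rw [Subgroup.mem_upperCentralSeries_succ_iff] at hx
    rw [Subgroup.mem_normalizer_iff]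
    intro h
    constructor
    · intro hh
      have h1 : ⁅x, h⁆ ∈ K := ih (hx h)
      have h2 : x * h * x⁻¹ = ⁅x, h⁆ * h := by simp [commutatorElement_def]
      rw [h2]; exact K.mul_mem h1 hh
    · intro hh
      have h1 : ⁅x, h⁆ ∈ K := ih (hx h)
      have h2 : h = ⁅x, h⁆⁻¹ * (x * h * x⁻¹) := by simp [commutatorElement_def, mul_assoc]
      rw [h2]; exact K.mul_mem (K.inv_mem h1) hh

/-- In a finite group whose upper central series reaches the whole group at step `c` (nilpotent of class at most `c`), starting from any subgroup and taking normalizers `c` times reaches the whole group. -/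
theorem result {G : Type*} [Group G] [Finite G] (c : ℕ) (hG : Subgroup.upperCentralSeries G c = ⊤) (H : Subgroup G) : (fun K : Subgroup G => Subgroup.normalizer (K : Set G))^[c] H = ⊤ := by
  rw [eq_top_iff, ← hG]
  exact ucs_le_iter H c

end Cfsg.Agent.S4205
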