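import Cfsg.Statements.S4214
import Cfsg.Agent.Helper1.Hall
import Cfsg.Agent.Helper1.PPrimeCore
import Cfsg.Agent.Helper1.SZGen
import Cfsg.Agent.Helper1.MinNormal
import Cfsg.Agent.Helper1.Tools2
import Cfsg.Agent.Helper11.PGroupIndex

set_option autoImplicit false
open Cfsg

namespace Cfsg.Agent.S4214

open Cfsg.Agent.Helper1
open scoped Pointwise

universe u

/-- A nontrivial finite solvable group has a normal subgroup of prime index. -/
theorem exists_normal_index_prime (K : Type*) [Group K] [Finite K] [Group.IsSolvable K]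
    [Nontrivial K] : ∃ (N : Subgroup K) (q : ℕ), N.Normal ∧ q.Prime ∧ N.index = q := by
  have hlt := Group.IsSolvable.commutator_lt_top_of_nontrivial K
  have hcard : Nat.card (Abelianization K) ≠ 1 := by
    intro h
    have h1 : (commutator K).index = 1 := by rw [Subgroup.index_eq_card]; exact h
    exact hlt.ne (Subgroup.index_eq_one.mp h1)
  have hqp : ((Nat.card (Abelianization K)).minFac).Prime := Nat.minFac_prime hcard
  haveI : Fact ((Nat.card (Abelianization K)).minFac).Prime := ⟨hqp⟩
  have hqd : (Nat.card (Abelianization K)).minFac ∣ Nat.card (Abelianization K) :=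
    Nat.minFac_dvd _
  obtain ⟨e, r, hr, hcr⟩ := Nat.exists_eq_pow_mul_and_not_dvd
    (Nat.card_pos (α := Abelianization K)).ne' _ hqp.ne_one
  have hB : IsPGroup (Nat.card (Abelianization K)).minFac
      (powMonoidHom r : Abelianization K →* Abelianization K).range := by
    rintro ⟨b, a, rfl⟩
    refine ⟨e, Subtype.ext ?_⟩
    show (a ^ r) ^ (Nat.card (Abelianization K)).minFac ^ e = 1
    rw [← pow_mul, mul_comm, ← hcr, pow_card_eq_one']
  obtain ⟨a, ha⟩ := exists_prime_orderOf_dvd_card' (Nat.card (Abelianization K)).minFac hqd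
  haveI : Nontrivial (powMonoidHom r : Abelianization K →* Abelianization K).range := by
    refine ⟨⟨⟨(powMonoidHom r : Abelianization K →* Abelianization K) a, a, rfl⟩, 1,
      fun h => hr ?_⟩⟩
    have h1 : a ^ r = 1 := congrArg Subtype.val h
    rw [← ha]; exact orderOf_dvd_of_pow_eq_one h1
  obtain ⟨M, hMn, hMi⟩ := Cfsg.Agent.Helper11.exists_normal_index_eq_prime hB
  haveI := hMn
  have hf : Function.Surjective ((QuotientGroup.mk' M).comp
      ((powMonoidHom r : Abelianization K →* Abelianization K).rangeRestrict.comp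
        Abelianization.of)) := by
    refine (QuotientGroup.mk'_surjective M).comp ?_
    exact (MonoidHom.rangeRestrict_surjective _).comp (QuotientGroup.mk'_surjective _)
  refine ⟨((QuotientGroup.mk' M).comp
      ((powMonoidHom r : Abelianization K →* Abelianization K).rangeRestrict.comp
        Abelianization.of)).ker, _, inferInstance, hqp, ?_⟩
  rw [Subgroup.index_ker, MonoidHom.range_eq_top.mpr hf, Subgroup.card_top,
    ← Subgroup.index_eq_card]
  exact hMi

theorem card_mul_relIndex' {G : Type*} [Group G] {H K : Subgroup G} (h : H ≤ K) :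
    Nat.card H * H.relIndex K = Nat.card K := by
  have := Subgroup.relIndex_mul_relIndex ⊥ H K bot_le h
  rwa [Subgroup.relIndex_bot_left, Subgroup.relIndex_bot_left] at this

theorem relIndex_sup_eq {G : Type*} [Group G] [Finite G] (N M : Subgroup G) [M.Normal] :
    N.relIndex (N ⊔ M) = (N ⊓ M).relIndex M := by
  have h1 : Nat.card N * N.relIndex (N ⊔ M) = Nat.card (N ⊔ M : Subgroup G) :=
    card_mul_relIndex' le_sup_left
  have h2 : Nat.card M * M.relIndex (N ⊔ M) = Nat.card (N ⊔ M : Subgroup G) :=
    card_mul_relIndex' le_sup_right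
  have h3 : M.relIndex (N ⊔ M) = M.relIndex N := Subgroup.relIndex_sup_right N M
  have h4 : (M ⊓ N).relIndex N = M.relIndex N := Subgroup.inf_relIndex_right M N
  have h5 : Nat.card (M ⊓ N : Subgroup G) * (M ⊓ N).relIndex N = Nat.card N :=
    card_mul_relIndex' inf_le_right
  have h6 : Nat.card (N ⊓ M : Subgroup G) * (N ⊓ M).relIndex M = Nat.card M :=
    card_mul_relIndex' inf_le_right
  rw [h4, inf_comm] at h5
  rw [h3] at h2
  have hpos : 0 < Nat.card (N ⊓ M : Subgroup G) * M.relIndex N := by
    rw [h5]; exact Nat.card_pos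
  apply Nat.eq_of_mul_eq_mul_left hpos
  calc Nat.card (N ⊓ M : Subgroup G) * M.relIndex N * N.relIndex (N ⊔ M)
      = Nat.card N * N.relIndex (N ⊔ M) := by rw [h5]
    _ = Nat.card M * M.relIndex N := by rw [h1, h2]
    _ = Nat.card (N ⊓ M : Subgroup G) * (N ⊓ M).relIndex M * M.relIndex N := by rw [h6]
    _ = Nat.card (N ⊓ M : Subgroup G) * M.relIndex N * (N ⊓ M).relIndex M := by ring

/-- One step of the chain: passing from `K₁` to `K` (of prime index `q`) multiplies the index of
the centraliser in `M` by a power of `p` congruent to `1` modulo `q`. -/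
theorem chain_step {G : Type*} [Group G] [Finite G] (M : Subgroup G) [hMn : M.Normal] (p a : ℕ)
    (hp : p.Prime) (hM : Nat.card M = p ^ a) (K₁ K : Subgroup G) (hle : K₁ ≤ K)
    (hnorm : K ≤ Subgroup.normalizer (K₁ : Set G)) (q : ℕ) (hq : q.Prime) (hqp : q ≠ p)
    (hidx : K₁.relIndex K = q) :
    ∃ e : ℕ, (M ⊓ Subgroup.centralizer (K : Set G)).relIndex
        (M ⊓ Subgroup.centralizer (K₁ : Set G)) = p ^ e ∧ p ^ e ≡ 1 [MOD q] := by
  classical
  haveI : Fact q.Prime := ⟨hq⟩
  have hnot : ¬ K ≤ K₁ := by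
    intro h
    have := Subgroup.relIndex_eq_one.mpr h
    rw [hidx] at this
    exact hq.one_lt.ne' this
  obtain ⟨x, hxK, hxK₁⟩ := SetLike.not_le_iff_exists.mp hnot
  have hxq : x ^ q ∈ K₁ := by
    haveI : (K₁.subgroupOf K).Normal :=
      (Subgroup.normal_subgroupOf_iff_le_normalizer hle).mpr hnorm
    have h1 := Subgroup.pow_index_mem (K₁.subgroupOf K) (⟨x, hxK⟩ : K)
    have h2 : (K₁.subgroupOf K).index = q := hidx
    rw [h2] at h1
    exact Subgroup.mem_subgroupOf.mp h1
  have hJ : K ≤ K₁ ⊔ Subgroup.zpowers x := by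
    have hJK : K₁ ⊔ Subgroup.zpowers x ≤ K :=
      sup_le hle (by rw [Subgroup.zpowers_le]; exact hxK)
    have h1 := Subgroup.relIndex_mul_relIndex K₁ (K₁ ⊔ Subgroup.zpowers x) K le_sup_left hJK
    rw [hidx] at h1
    have h2 : K₁.relIndex (K₁ ⊔ Subgroup.zpowers x) ≠ 1 := by
      intro h
      have h3 := Subgroup.relIndex_eq_one.mp h
      exact hxK₁ (h3 ((le_sup_right : Subgroup.zpowers x ≤ K₁ ⊔ Subgroup.zpowers x)
        (Subgroup.mem_zpowers x)))
    have h3 : K₁.relIndex (K₁ ⊔ Subgroup.zpowers x) = q :=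
      ((Nat.dvd_prime hq).mp (Dvd.intro _ h1)).resolve_left h2
    rw [h3] at h1
    have h4 : (K₁ ⊔ Subgroup.zpowers x).relIndex K = 1 := by
      have : q * (K₁ ⊔ Subgroup.zpowers x).relIndex K = q * 1 := by rw [h1, mul_one]
      exact Nat.eq_of_mul_eq_mul_left hq.pos this
    exact Subgroup.relIndex_eq_one.mp h4
  have hWV : M ⊓ Subgroup.centralizer (K : Set G) ≤ M ⊓ Subgroup.centralizer (K₁ : Set G) :=
    inf_le_inf_left M (Subgroup.centralizer_le hle)
  have hconj : ∀ v ∈ M ⊓ Subgroup.centralizer (K₁ : Set G),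
      x * v * x⁻¹ ∈ M ⊓ Subgroup.centralizer (K₁ : Set G) := by
    intro v hv
    refine Subgroup.mem_inf.mpr ⟨hMn.conj_mem v hv.1 x, ?_⟩
    rw [Subgroup.mem_centralizer_iff]
    intro k hk
    have hk' : x⁻¹ * k * x ∈ K₁ := (Subgroup.mem_normalizer_iff''.mp (hnorm hxK) k).mp hk
    have hc := Subgroup.mem_centralizer_iff.mp hv.2 _ hk'
    calc k * (x * v * x⁻¹) = x * ((x⁻¹ * k * x) * v) * x⁻¹ := by group
      _ = x * (v * (x⁻¹ * k * x)) * x⁻¹ := by rw [hc]
      _ = x * v * x⁻¹ * k := by group
  haveI : Fintype ↥(M ⊓ Subgroup.centralizer (K₁ : Set G)) := Fintype.ofFinite _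
  let f : Function.End ↥(M ⊓ Subgroup.centralizer (K₁ : Set G)) :=
    fun v => ⟨x * (v : G) * x⁻¹, hconj v v.2⟩
  have hfpow : ∀ (n : ℕ) (v : ↥(M ⊓ Subgroup.centralizer (K₁ : Set G))),
      (((f ^ n) v : ↥(M ⊓ Subgroup.centralizer (K₁ : Set G))) : G) =
        x ^ n * (v : G) * (x ^ n)⁻¹ := by
    intro n
    induction n with
    | zero =>
      intro v
      rw [pow_zero, pow_zero, one_mul, inv_one, mul_one]
      rfl
    | succ n ih =>
      intro v
      rw [pow_succ']
      show x * (((f ^ n) v : ↥(M ⊓ Subgroup.centralizer (K₁ : Set G))) : G) * x⁻¹ = _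
      rw [ih v, pow_succ']; group
  have hf : f ^ q ^ 1 = 1 := by
    rw [pow_one]
    funext v
    apply Subtype.ext
    rw [hfpow q v]
    show x ^ q * (v : G) * (x ^ q)⁻¹ = (v : G)
    have hc := Subgroup.mem_centralizer_iff.mp v.2.2 _ hxq
    rw [hc]; group
  have hmod := Equiv.Perm.card_fixedPoints_modEq (f := f) (p := q) (n := 1) hf
  have hfixW : ∀ v : ↥(M ⊓ Subgroup.centralizer (K₁ : Set G)), f v = v →
      (v : G) ∈ M ⊓ Subgroup.centralizer (K : Set G) := by
    intro v hv
    have hxv : x * (v : G) * x⁻¹ = (v : G) := congrArg Subtype.val hv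
    refine Subgroup.mem_inf.mpr ⟨v.2.1, ?_⟩
    have h1 : K₁ ⊔ Subgroup.zpowers x ≤ Subgroup.centralizer ({(v : G)} : Set G) := by
      refine sup_le ?_ ?_
      · intro k hk
        rw [Subgroup.mem_centralizer_singleton_iff]
        exact Subgroup.mem_centralizer_iff.mp v.2.2 k hk
      · rw [Subgroup.zpowers_le, Subgroup.mem_centralizer_singleton_iff]
        calc x * (v : G) = (x * (v : G) * x⁻¹) * x := by group
          _ = (v : G) * x := by rw [hxv]
    rw [Subgroup.mem_centralizer_iff]
    intro k hk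
    exact Subgroup.mem_centralizer_singleton_iff.mp (h1 (hJ hk))
  have hWfix : ∀ w : ↥(M ⊓ Subgroup.centralizer (K : Set G)),
      f ⟨(w : G), hWV w.2⟩ = ⟨(w : G), hWV w.2⟩ := by
    intro w
    apply Subtype.ext
    show x * (w : G) * x⁻¹ = (w : G)
    have hc := Subgroup.mem_centralizer_iff.mp w.2.2 x hxK
    rw [hc]; group
  let eqv : Function.fixedPoints f ≃ ↥(M ⊓ Subgroup.centralizer (K : Set G)) :=
    { toFun := fun v => ⟨((v : ↥(M ⊓ Subgroup.centralizer (K₁ : Set G))) : G), hfixW v v.2⟩
      invFun := fun w => ⟨⟨(w : G), hWV w.2⟩, hWfix w⟩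
      left_inv := fun v => Subtype.ext (Subtype.ext rfl)
      right_inv := fun w => Subtype.ext rfl }
  have hcardfix : Fintype.card (Function.fixedPoints f) =
      Nat.card ↥(M ⊓ Subgroup.centralizer (K : Set G)) := by
    rw [← Nat.card_eq_fintype_card]; exact Nat.card_congr eqv
  rw [hcardfix, ← Nat.card_eq_fintype_card] at hmod
  obtain ⟨i, -, hi⟩ := (Nat.dvd_prime_pow hp).mp
    (hM ▸ Subgroup.card_dvd_of_le (inf_le_left : M ⊓ Subgroup.centralizer (K₁ : Set G) ≤ M))
  obtain ⟨j, -, hj⟩ := (Nat.dvd_prime_pow hp).mp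
    (hM ▸ Subgroup.card_dvd_of_le (inf_le_left : M ⊓ Subgroup.centralizer (K : Set G) ≤ M))
  have hrel := card_mul_relIndex' hWV
  rw [hi, hj] at hrel
  have hji : j ≤ i := (Nat.pow_dvd_pow_iff_le_right hp.one_lt).mp (Dvd.intro _ hrel)
  refine ⟨i - j, ?_, ?_⟩
  · apply Nat.eq_of_mul_eq_mul_left (pow_pos hp.pos j)
    rw [hrel, ← pow_add, Nat.add_sub_cancel' hji]
  · rw [hi, hj] at hmod
    have hcop : Nat.gcd q (p ^ j) = 1 :=
      Nat.Coprime.pow_right j ((Nat.coprime_primes hq hp).mpr hqp)
    apply Nat.ModEq.cancel_left_of_coprime hcop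
    rw [← pow_add, Nat.add_sub_cancel' hji, mul_one]
    exact hmod

/-- The index of `C_M(K)` in the normal `p`-subgroup `M` is a product of powers of `p`, each
congruent to `1` modulo a prime divisor of `|K|` (`K` solvable, `p ∤ |K|`). -/
theorem fixed_factor {G : Type*} [Group G] [Finite G] [Group.IsSolvable G] (M : Subgroup G)
    [M.Normal] (p a : ℕ) (hp : p.Prime) (hM : Nat.card M = p ^ a) (c : ℕ) :
    ∀ K : Subgroup G, Nat.card K = c → ¬ p ∣ Nat.card K →
      ∃ l : List ℕ, l.prod = (M ⊓ Subgroup.centralizer (K : Set G)).relIndex M ∧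
        ∀ x ∈ l, (∃ e : ℕ, x = p ^ e) ∧
          ∃ q : ℕ, q.Prime ∧ q ∣ Nat.card K ∧ x ≡ 1 [MOD q] := by
  induction c using Nat.strong_induction_on with
  | _ c ih =>
    intro K hc hpK
    by_cases hK : K = ⊥
    · subst hK
      refine ⟨[], ?_, fun x hx => absurd hx List.not_mem_nil⟩
      have h1 : M ⊓ Subgroup.centralizer ((⊥ : Subgroup G) : Set G) = M := by
        apply le_antisymm inf_le_left
        intro u hu
        refine Subgroup.mem_inf.mpr ⟨hu, ?_⟩
        rw [Subgroup.mem_centralizer_iff]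
        intro h hh
        rw [Subgroup.mem_bot.mp hh, one_mul, mul_one]
      rw [h1, Subgroup.relIndex_self, List.prod_nil]
    · haveI : Nontrivial K := (Subgroup.nontrivial_iff_ne_bot K).mpr hK
      obtain ⟨N, q, hNn, hq, hNi⟩ := exists_normal_index_prime K
      haveI := hNn
      have hle : N.map K.subtype ≤ K := Subgroup.map_subtype_le N
      have hsub : (N.map K.subtype).subgroupOf K = N :=
        Subgroup.comap_map_eq_self_of_injective K.subtype_injective N
      have hidx : (N.map K.subtype).relIndex K = q := by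
        show ((N.map K.subtype).subgroupOf K).index = q
        rw [hsub]; exact hNi
      have hnorm : K ≤ Subgroup.normalizer ((N.map K.subtype : Subgroup G) : Set G) := by
        rw [← Subgroup.normal_subgroupOf_iff_le_normalizer hle, hsub]; exact hNn
      have hqK : q ∣ Nat.card K := hNi ▸ Subgroup.index_dvd_card N
      have hqp : q ≠ p := fun h => hpK (h ▸ hqK)
      have hcard₁ : Nat.card (N.map K.subtype) * q = Nat.card K := by
        rw [Subgroup.card_map_of_injective K.subtype_injective, ← hNi]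
        exact Subgroup.card_mul_index N
      have hlt : Nat.card (N.map K.subtype) < c := by
        rw [← hc, ← hcard₁]
        have h1 : 0 < Nat.card (N.map K.subtype) := Nat.card_pos
        have h2 := hq.two_le
        nlinarith
      have hpK₁ : ¬ p ∣ Nat.card (N.map K.subtype) :=
        fun h => hpK (h.trans (Dvd.intro _ hcard₁))
      obtain ⟨l₁, hl₁, hl₁'⟩ := ih _ hlt (N.map K.subtype) rfl hpK₁
      obtain ⟨e, he, hemod⟩ :=
        chain_step M p a hp hM (N.map K.subtype) K hle hnorm q hq hqp hidx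
      refine ⟨p ^ e :: l₁, ?_, ?_⟩
      · rw [List.prod_cons, hl₁, ← he]
        exact Subgroup.relIndex_mul_relIndex _ _ _
          (inf_le_inf_left M (Subgroup.centralizer_le hle)) inf_le_left
      · intro x hx
        rcases List.mem_cons.mp hx with rfl | hx
        · exact ⟨⟨e, rfl⟩, q, hq, hqK, hemod⟩
        · obtain ⟨h1, q', hq', hq'd, hmod'⟩ := hl₁' x hx
          exact ⟨h1, q', hq', hq'd.trans (Dvd.intro _ hcard₁), hmod'⟩

/-- The number of Hall subgroups of order `m` is the index of the normaliser of one of them. -/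
theorem card_hall_eq_index {G : Type u} [Group G] [Finite G] [Group.IsSolvable G] (m n : ℕ)
    (hG : Nat.card G = m * n) (hmn : m.Coprime n) (H : Subgroup G) (hH : Nat.card H = m) :
    Nat.card {K : Subgroup G // Nat.card K = m} = (Subgroup.normalizer (H : Set G)).index := by
  letI : MulAction G (Subgroup G) := MulAction.compHom _ (MulAut.conj : G →* MulAut G)
  have hsmul : ∀ (g : G) (K : Subgroup G), g • K = MulAut.conj g • K := fun _ _ => rfl
  have hstab : MulAction.stabilizer G H = Subgroup.normalizer (H : Set G) := by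
    ext g
    rw [MulAction.mem_stabilizer_iff, hsmul, mem_normalizer_iff_conj_smul_eq]
  have horb : MulAction.orbit G H = {K : Subgroup G | Nat.card K = m} := by
    ext K
    rw [MulAction.mem_orbit_iff, Set.mem_setOf_eq]
    constructor
    · rintro ⟨g, rfl⟩
      rw [hsmul, card_conj_smul]; exact hH
    · intro hK
      obtain ⟨g, hg⟩ := hall_conj_aux _ G m n rfl hG hmn H K hH hK
      exact ⟨g, hg⟩
  have h1 := MulAction.index_stabilizer G H
  rw [hstab, horb] at h1
  rw [h1, ← Nat.card_coe_set_eq]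
  rfl

/-- The property required of each factor. -/
def Good (G : Type u) [Group G] (m x : ℕ) : Prop :=
  (∃ q e : ℕ, q.Prime ∧ x = q ^ e) ∧
  (∃ K L : Subgroup G, K.Normal ∧ L.Normal ∧ K < L ∧
    (∀ M : Subgroup G, M.Normal → K ≤ M → M ≤ L → M = K ∨ M = L) ∧ x ∣ K.relIndex L) ∧
  (∃ q : ℕ, q.Prime ∧ q ∣ m ∧ x ≡ 1 [MOD q])

theorem good_of_quot {G : Type u} [Group G] (M : Subgroup G) [M.Normal] {m m' x : ℕ}
    (hm : m' ∣ m) (h : Good (G ⧸ M) m' x) : Good G m x := by
  obtain ⟨h1, ⟨Kb, Lb, hKn, hLn, hlt, hmin, hdvd⟩, q, hq, hqd, hmod⟩ := h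
  have hπ : Function.Surjective (QuotientGroup.mk' M) := QuotientGroup.mk'_surjective M
  refine ⟨h1, ⟨Kb.comap (QuotientGroup.mk' M), Lb.comap (QuotientGroup.mk' M), hKn.comap _,
    hLn.comap _, (Subgroup.comap_lt_comap_of_surjective hπ).mpr hlt, ?_, ?_⟩,
    q, hq, hqd.trans hm, hmod⟩
  · intro N hN hKN hNL
    have hker : (QuotientGroup.mk' M).ker ≤ N := (MonoidHom.ker_le_comap _ Kb).trans hKN
    have hN' : (N.map (QuotientGroup.mk' M)).comap (QuotientGroup.mk' M) = N :=
      Subgroup.comap_map_eq_self hker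
    have hNn : (N.map (QuotientGroup.mk' M)).Normal := hN.map _ hπ
    have h2 : Kb ≤ N.map (QuotientGroup.mk' M) := by
      rw [← Subgroup.map_comap_eq_self_of_surjective hπ Kb]; exact Subgroup.map_mono hKN
    have h3 : N.map (QuotientGroup.mk' M) ≤ Lb := by
      rw [← Subgroup.map_comap_eq_self_of_surjective hπ Lb]; exact Subgroup.map_mono hNL
    rcases hmin _ hNn h2 h3 with h | h
    · left; rw [← hN', h]
    · right; rw [← hN', h]
  · rw [Subgroup.relIndex_comap, Subgroup.map_comap_eq_self_of_surjective hπ]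
    exact hdvd

theorem main (k : ℕ) : ∀ (G : Type u) [Group G] [Finite G] [Group.IsSolvable G] (m n : ℕ),
    Nat.card G = k → Nat.card G = m * n → m.Coprime n →
    ∃ l : List ℕ, Nat.card {H : Subgroup G // Nat.card H = m} = l.prod ∧
      ∀ x ∈ l, Good G m x := by
  induction k using Nat.strong_induction_on with
  | _ k ih =>
    intro G _ _ _ m n hk hG hmn
    by_cases htriv : Subsingleton G
    · refine ⟨[], ?_, fun x hx => absurd hx List.not_mem_nil⟩
      have h1 : Nat.card G = 1 := Nat.card_of_subsingleton (1 : G)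
      have hm1 : m = 1 := Nat.eq_one_of_mul_eq_one_right (hG ▸ h1)
      subst hm1
      rw [List.prod_nil]
      haveI : Subsingleton {H : Subgroup G // Nat.card H = 1} :=
        ⟨fun a b => Subtype.ext (Subsingleton.elim _ _)⟩
      exact Nat.card_of_subsingleton ⟨⊥, Subgroup.card_bot⟩
    · rw [not_subsingleton_iff_nontrivial] at htriv
      obtain ⟨M, hMn, -, hM1, hmin⟩ := exists_minNormal (⊤ : Subgroup G) top_ne_bot
      haveI := hMn
      obtain ⟨hMc, p, hp, hexp⟩ := minNormal_elemAbelian M hM1 hmin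
      haveI := hMc
      haveI : Fact p.Prime := ⟨hp⟩
      have hMp : IsPGroup p M := fun x => ⟨1, by rw [pow_one]; exact Subtype.ext (hexp x x.2)⟩
      obtain ⟨a, ha⟩ := IsPGroup.iff_card.mp hMp
      obtain ⟨H, hH⟩ := hall_exists_aux _ G m n rfl hG hmn
      have hHi : H.index = n := hall_index hG H hH
      have hπ : Function.Surjective (QuotientGroup.mk' M) := QuotientGroup.mk'_surjective M
      have hGq : Nat.card (G ⧸ M) = Nat.card (H.map (QuotientGroup.mk' M)) *
          (H.map (QuotientGroup.mk' M)).index := (Subgroup.card_mul_index _).symm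
      have hm' : Nat.card (H.map (QuotientGroup.mk' M)) ∣ m := hH ▸ Subgroup.card_map_dvd H _
      have hn' : (H.map (QuotientGroup.mk' M)).index ∣ n := hHi ▸ Subgroup.index_map_dvd H hπ
      have hcop' : (Nat.card (H.map (QuotientGroup.mk' M))).Coprime
          (H.map (QuotientGroup.mk' M)).index :=
        Nat.Coprime.coprime_dvd_left hm' (Nat.Coprime.coprime_dvd_right hn' hmn)
      obtain ⟨lb, hlb, hlb'⟩ := ih _ (hk ▸ card_quotient_lt M hM1) (G ⧸ M) _ _ rfl hGq hcop'
      have hC := card_hall_eq_index m n hG hmn H hH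
      have hCq := card_hall_eq_index _ _ hGq hcop' (H.map (QuotientGroup.mk' M)) rfl
      have hidxq : (Subgroup.normalizer
          ((H.map (QuotientGroup.mk' M) : Subgroup (G ⧸ M)) : Set (G ⧸ M))).index =
          (Subgroup.normalizer ((H ⊔ M : Subgroup G) : Set G)).index := by
        rw [← Subgroup.index_comap_of_surjective _ hπ,
          Subgroup.comap_normalizer_eq_of_surjective _ hπ, comap_map_mk']
      have hNle : Subgroup.normalizer (H : Set G) ≤
          Subgroup.normalizer ((H ⊔ M : Subgroup G) : Set G) := by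
        intro g hg
        rw [mem_normalizer_iff_conj_smul_eq] at hg ⊢
        rw [Subgroup.smul_sup, hg, Subgroup.Normal.conj_smul_eq_self g M]
      have hrel := Subgroup.relIndex_mul_index hNle
      by_cases hpm : p ∣ m
      · have hMH : M ≤ H := by
          have h1 : H.relIndex (H ⊔ M) = (H ⊓ M).relIndex M := relIndex_sup_eq H M
          have h2 : H.relIndex (H ⊔ M) ∣ p ^ a := by
            rw [h1, ← ha]; exact Subgroup.relIndex_dvd_card _ _
          have h3 : H.relIndex (H ⊔ M) ∣ n := hHi ▸ Subgroup.relIndex_dvd_index_of_le le_sup_left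
          have hpn : (p ^ a).Coprime n :=
            Nat.Coprime.pow_left a (Nat.Coprime.coprime_dvd_left hpm hmn)
          have h4 : H.relIndex (H ⊔ M) = 1 := Nat.eq_one_of_dvd_coprimes hpn h2 h3
          exact le_sup_right.trans (Subgroup.relIndex_eq_one.mp h4)
        have hsup : H ⊔ M = H := sup_eq_left.mpr hMH
        refine ⟨lb, ?_, fun x hx => good_of_quot M hm' (hlb' x hx)⟩
        rw [hC, ← hlb, hCq, hidxq, hsup]
      · have hcopMH : (Nat.card M).Coprime (Nat.card H) := by
          rw [ha, hH]; exact Nat.Coprime.pow_left a ((Nat.Prime.coprime_iff_not_dvd hp).mpr hpm)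
        have hfrat : Subgroup.normalizer ((H ⊔ M : Subgroup G) : Set G) =
            Subgroup.normalizer (H : Set G) ⊔ M := by
          apply le_antisymm
          · intro g hg
            rw [mem_normalizer_iff_conj_smul_eq] at hg
            have hcardK : Nat.card (MulAut.conj g • H : Subgroup G) = Nat.card H :=
              card_conj_smul g H
            have hsup : M ⊔ H = M ⊔ MulAut.conj g • H := by
              have h1 := hg
              rw [Subgroup.smul_sup, Subgroup.Normal.conj_smul_eq_self g M] at h1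
              rw [sup_comm M H, sup_comm M (MulAut.conj g • H)]; exact h1.symm
            obtain ⟨u, hu, hconj⟩ := conj_of_sup_eq_abelian M H (MulAut.conj g • H) hcopMH
              (hcardK.symm ▸ hcopMH) hsup
            have hmem : u⁻¹ * g ∈ Subgroup.normalizer (H : Set G) := by
              rw [mem_normalizer_iff_conj_smul_eq, map_mul, mul_smul, ← hconj, ← mul_smul,
                ← map_mul, inv_mul_cancel, map_one, one_smul]
            have hg' : g = u * (u⁻¹ * g) := by group
            rw [hg', sup_comm]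
            exact Subgroup.mul_mem_sup hu hmem
          · exact sup_le hNle (le_sup_right.trans Subgroup.le_normalizer)
        have hinf : Subgroup.normalizer (H : Set G) ⊓ M =
            M ⊓ Subgroup.centralizer (H : Set G) := by
          apply le_antisymm
          · intro u hu
            refine Subgroup.mem_inf.mpr ⟨hu.2, ?_⟩
            rw [Subgroup.mem_centralizer_iff]
            intro h hh
            have hdisj : Disjoint M H := Subgroup.disjoint_of_coprime_natCard hcopMH
            have h1 : u * h * u⁻¹ * h⁻¹ ∈ H :=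
              H.mul_mem ((Subgroup.mem_normalizer_iff.mp hu.1 h).mp hh) (H.inv_mem hh)
            have h2 : u * h * u⁻¹ * h⁻¹ ∈ M := by
              have h3 : h * u⁻¹ * h⁻¹ ∈ M := hMn.conj_mem _ (M.inv_mem hu.2) h
              have h4 := M.mul_mem hu.2 h3
              have e : u * h * u⁻¹ * h⁻¹ = u * (h * u⁻¹ * h⁻¹) := by group
              rw [e]; exact h4
            have h3 : u * h * u⁻¹ * h⁻¹ = 1 := Subgroup.disjoint_def.mp hdisj h2 h1
            calc h * u = (u * h * u⁻¹ * h⁻¹)⁻¹ * (u * h) := by group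
              _ = u * h := by rw [h3, inv_one, one_mul]
          · intro u hu
            exact ⟨Subgroup.centralizer_le_normalizer _ hu.2, hu.1⟩
        obtain ⟨lF, hlF, hlF'⟩ := fixed_factor M p a hp ha _ H rfl (hH ▸ hpm)
        refine ⟨lF ++ lb, ?_, ?_⟩
        · rw [List.prod_append, hlF, ← hlb, hCq, hidxq, hC, ← hrel, hfrat, relIndex_sup_eq, hinf]
        · intro x hx
          rcases List.mem_append.mp hx with hx | hx
          · obtain ⟨⟨e, he⟩, q, hq, hqd, hmod⟩ := hlF' x hx
            refine ⟨⟨p, e, hp, he⟩, ⟨⊥, M, inferInstance, hMn, bot_lt_iff_ne_bot.mpr hM1, ?_, ?_⟩,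
              q, hq, hH ▸ hqd, hmod⟩
            · intro N hN _ hNM
              exact hmin N hN hNM
            · rw [Subgroup.relIndex_bot_left]
              have h1 : x ∣ lF.prod := List.dvd_prod hx
              rw [hlF] at h1
              exact h1.trans (Subgroup.relIndex_dvd_card _ _)
          · exact good_of_quot M hm' (hlb' x hx)

/-- Let `G` be a finite solvable group of order `mn` with `gcd(m, n) = 1`. Then the number of subgroups of order `m` is a product of natural numbers each of which is a power of a prime, divides the order of some chief factor of `G` (a quotient `L/K` of normal subgroups `K < L` of `G` with no normal subgroup of `G` strictly between them), and is congruent to `1` modulo some prime divisor of `m`. -/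
theorem result {G : Type*} [Group G] [Finite G] [Group.IsSolvable G] (m n : ℕ) (hG : Nat.card G = m * n) (hmn : Nat.Coprime m n) : ∃ (k : ℕ) (f : Fin k → ℕ), Nat.card {H : Subgroup G // Nat.card H = m} = ∏ i, f i ∧ ∀ i, (∃ q e : ℕ, q.Prime ∧ f i = q ^ e) ∧ (∃ K L : Subgroup G, K.Normal ∧ L.Normal ∧ K < L ∧ (∀ M : Subgroup G, M.Normal → K ≤ M → M ≤ L → M = K ∨ M = L) ∧ f i ∣ K.relIndex L) ∧ (∃ q : ℕ, q.Prime ∧ q ∣ m ∧ f i ≡ 1 [MOD q]) := by
  obtain ⟨l, hl, hl'⟩ := main _ G m n rfl hG hmn
  refine ⟨l.length, l.get, ?_, fun i => hl' _ (List.get_mem l i)⟩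
  rw [hl, ← List.prod_ofFn, List.ofFn_get]

end Cfsg.Agent.S4214
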