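import Cfsg.Statements.S4216
import Cfsg.Agent.Helper70.Grun

set_option autoImplicit false
open Cfsg

namespace Cfsg.Agent.S4216

open Subgroup Cfsg.Agent.Helper70

/-- Grün's first Theorem: if `P` is a Sylow `p`-subgroup of the finite group `G`, then `P ∩ G'` is the subgroup generated by `P ∩ N_G(P)'` together with the subgroups `P ∩ z P' z⁻¹` for all `z ∈ G`, where `'` denotes the derived subgroup and `N_G(P)` the normalizer of `P`. -/
theorem result {G : Type*} [Group G] [Finite G] {p : ℕ} [Fact p.Prime] (P : Sylow p G) : (P : Subgroup G) ⊓ commutator G = ((P : Subgroup G) ⊓ ⁅Subgroup.normalizer ((P : Subgroup G) : Set G), Subgroup.normalizer ((P : Subgroup G) : Set G)⁆) ⊔ ⨆ z : G, (P : Subgroup G) ⊓ (⁅(P : Subgroup G), (P : Subgroup G)⁆).map (MulAut.conj z).toMonoidHom := by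
  set D : Subgroup G := ((P : Subgroup G) ⊓ ⁅Subgroup.normalizer ((P : Subgroup G) : Set G), Subgroup.normalizer ((P : Subgroup G) : Set G)⁆) ⊔ ⨆ z : G, (P : Subgroup G) ⊓ (⁅(P : Subgroup G), (P : Subgroup G)⁆).map (MulAut.conj z).toMonoidHom with hD
  have hDP : D ≤ (P : Subgroup G) := by
    rw [hD]
    exact sup_le inf_le_left (iSup_le fun z => inf_le_left)
  have hD1 : (P : Subgroup G) ⊓ ⁅Subgroup.normalizer ((P : Subgroup G) : Set G), Subgroup.normalizer ((P : Subgroup G) : Set G)⁆ ≤ D := by
    rw [hD]; exact le_sup_left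
  have hD2 : ∀ z : G, (P : Subgroup G) ⊓ (⁅(P : Subgroup G), (P : Subgroup G)⁆).map (MulAut.conj z).toMonoidHom ≤ D := by
    intro z
    rw [hD]
    exact le_trans (le_iSup (fun z : G => (P : Subgroup G) ⊓ (⁅(P : Subgroup G), (P : Subgroup G)⁆).map (MulAut.conj z).toMonoidHom) z) le_sup_right
  have hPP : ⁅(P : Subgroup G), (P : Subgroup G)⁆ ≤ D := by
    refine le_trans ?_ (hD2 1)
    refine le_inf (Subgroup.commutator_le_self _) ?_
    intro x hx
    exact ⟨x, hx, by simp⟩
  apply le_antisymm
  · -- the hard inclusion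
    have hcomm : commutator (P : Subgroup G) ≤ D.subgroupOf (P : Subgroup G) := by
      rw [← Subgroup.map_le_map_iff_of_injective (Subgroup.subtype_injective _),
        Subgroup.map_subtype_commutator, Subgroup.map_subgroupOf_eq_of_le hDP]
      exact hPP
    have hnormal : (D.subgroupOf (P : Subgroup G)).Normal := Subgroup.Normal.of_commutator_le _ hcomm
    have hqc : IsMulCommutative ((P : Subgroup G) ⧸ D.subgroupOf (P : Subgroup G)) :=
      Subgroup.Normal.quotient_commutative_iff_commutator_le.mpr hcomm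
    let _ : CommGroup ((P : Subgroup G) ⧸ D.subgroupOf (P : Subgroup G)) :=
      { (inferInstance : Group ((P : Subgroup G) ⧸ D.subgroupOf (P : Subgroup G))) with
        mul_comm := fun a b => hqc.is_comm.comm a b }
    let ϕ : (P : Subgroup G) →* (P : Subgroup G) ⧸ D.subgroupOf (P : Subgroup G) :=
      QuotientGroup.mk' (D.subgroupOf (P : Subgroup G))
    have hpsi : ∀ x : G, x ∈ (P : Subgroup G) → (psi ϕ x = 1 ↔ x ∈ D) := by
      intro x hx
      rw [psi_of_mem ϕ hx]
      show (QuotientGroup.mk' (D.subgroupOf (P : Subgroup G))) ⟨x, hx⟩ = 1 ↔ _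
      rw [QuotientGroup.mk'_apply, QuotientGroup.eq_one_iff, Subgroup.mem_subgroupOf]
    intro u hu
    have := grun_aux P ϕ
      (fun x hx hxN => (hpsi x hx).mpr (hD1 ⟨hx, hxN⟩))
      (fun z x hx hxz => (hpsi x hx).mpr (hD2 z ⟨hx, hxz⟩))
      (orderOf u) u hu.1 hu.2 rfl
    exact (hpsi u hu.1).mp this
  · -- the easy inclusion
    rw [hD]
    apply sup_le
    · apply le_inf inf_le_left
      refine inf_le_right.trans ?_
      rw [_root_.commutator_def]
      exact Subgroup.commutator_mono le_top le_top
    · apply iSup_le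
      intro z
      apply le_inf inf_le_left
      refine inf_le_right.trans ?_
      rintro _ ⟨x, hx, rfl⟩
      have hx' : x ∈ commutator G := by
        rw [_root_.commutator_def]
        exact Subgroup.commutator_mono le_top le_top hx
      exact (inferInstance : (commutator G).Normal).conj_mem x hx' z

end Cfsg.Agent.S4216
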