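import Cfsg.Statements.S4217
import Cfsg.Agent.Helper70.Gaschutz

set_option autoImplicit false
open Cfsg

namespace Cfsg.Agent.S4217

open Subgroup Cfsg.Agent.Helper70

/-- Let `A` be an abelian normal subgroup of the finite group `G`. Then `A` has a complement in `G` if and only if, for every prime `p` dividing the index of `A`, there are a Sylow `p`-subgroup `S` of `G/A` and a subgroup `K` of `G` with `K ∩ A = 1` and `KA` equal to the preimage of `S` (that is, `A` has a complement in the preimage of a Sylow `p`-subgroup of `G/A`). -/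
theorem result {G : Type*} [Group G] [Finite G] (A : Subgroup G) [A.Normal] (hA : IsMulCommutative A) : (∃ K : Subgroup G, K.IsComplement' A) ↔ ∀ p : ℕ, p.Prime → p ∣ A.index → ∃ (S : Sylow p (G ⧸ A)) (K : Subgroup G), K ⊓ A = ⊥ ∧ K ⊔ A = (S : Subgroup (G ⧸ A)).comap (QuotientGroup.mk' A) := by
  classical
  constructor
  · rintro ⟨K, hK⟩ p hp hpdvd
    have : Fact p.Prime := ⟨hp⟩
    obtain ⟨S⟩ : Nonempty (Sylow p (G ⧸ A)) := inferInstance
    have hAH : A ≤ (S : Subgroup (G ⧸ A)).comap (QuotientGroup.mk' A) := by
      intro a ha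
      rw [Subgroup.mem_comap]
      have : (QuotientGroup.mk' A) a = 1 := by
        rw [QuotientGroup.mk'_apply, QuotientGroup.eq_one_iff]; exact ha
      rw [this]; exact one_mem _
    refine ⟨S, K ⊓ (S : Subgroup (G ⧸ A)).comap (QuotientGroup.mk' A), ?_, ?_⟩
    · have := hK.disjoint
      rw [disjoint_iff] at this
      rw [eq_bot_iff, ← this]
      exact inf_le_inf_right _ inf_le_left
    · apply le_antisymm
      · exact sup_le inf_le_right hAH
      · intro h hh
        have htop := hK.sup_eq_top
        have hmem : h ∈ (↑(K ⊔ A) : Set G) := by rw [htop]; trivial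
        rw [Subgroup.mul_normal] at hmem
        obtain ⟨k, hk, a, ha, rfl⟩ := hmem
        refine Subgroup.mul_mem_sup ⟨hk, ?_⟩ ha
        have : k = k * a * a⁻¹ := by group
        rw [this]
        exact Subgroup.mul_mem _ hh (Subgroup.inv_mem _ (hAH ha))
  · intro hyp
    have := hA
    by_cases hidx : A.index = 1
    · refine ⟨⊥, ?_⟩
      rw [Subgroup.index_eq_one] at hidx
      rw [hidx]; exact isComplement'_bot_top
    · have h1 : (1 : ℤ) ∈ crossedExponents A := by
        apply one_mem_of_forall_prime _ A.index hidx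
        intro p hp hpd
        have : Fact p.Prime := ⟨hp⟩
        obtain ⟨S, K, hK1, hK2⟩ := hyp p hp hpd
        obtain ⟨D, hD, hD'⟩ := exists_isCrossed_pow_index A K hK1
        refine ⟨(K ⊔ A).index, ?_, ?_, D, hD, ?_⟩
        · rw [hK2, Subgroup.index_comap_of_surjective _ (QuotientGroup.mk'_surjective A)]
          exact S.not_dvd_index
        · exact Subgroup.index_dvd_of_le le_sup_right
        · intro a; rw [hD' a]; simp
      obtain ⟨D, hD, hD'⟩ := h1
      exact exists_complement_of_isCrossed hD (fun a => by rw [hD' a]; simp)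

end Cfsg.Agent.S4217
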