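import Cfsg.Statements.S4219

set_option autoImplicit false
open Cfsg
open scoped Pointwise

namespace Cfsg.Agent.S4219

/-- Two `p`-subgroups of `H` of full `p`-power order are conjugate under `H`. -/
theorem conj_of_card {G : Type*} [Group G] [Finite G] {p : ℕ} [Fact p.Prime] (H A B : Subgroup G)
    (hA : A ≤ H) (hB : B ≤ H) (cA : Nat.card A = p ^ (Nat.card H).factorization p)
    (cB : Nat.card B = p ^ (Nat.card H).factorization p) :
    ∃ k ∈ H, ∀ y, y ∈ B ↔ k⁻¹ * y * k ∈ A := by
  have cA' : Nat.card (A.subgroupOf H) = p ^ (Nat.card H).factorization p := by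
    rw [Nat.card_congr (Subgroup.subgroupOfEquivOfLe hA).toEquiv]; exact cA
  have cB' : Nat.card (B.subgroupOf H) = p ^ (Nat.card H).factorization p := by
    rw [Nat.card_congr (Subgroup.subgroupOfEquivOfLe hB).toEquiv]; exact cB
  obtain ⟨k, hk⟩ := MulAction.exists_smul_eq H (Sylow.ofCard (A.subgroupOf H) cA')
    (Sylow.ofCard (B.subgroupOf H) cB')
  refine ⟨k.1, k.2, fun y => ?_⟩
  constructor
  · intro hy
    have h1 : (⟨y, hB hy⟩ : H) ∈ ((Sylow.ofCard (B.subgroupOf H) cB' : Sylow p H) : Subgroup H) := by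
      rw [Sylow.coe_ofCard]; exact Subgroup.mem_subgroupOf.mpr hy
    rw [← hk, Sylow.coe_subgroup_smul, Subgroup.mem_pointwise_smul_iff_inv_smul_mem,
      Sylow.coe_ofCard, Subgroup.mem_subgroupOf] at h1
    have h2 : (((MulAut.conj k)⁻¹ • (⟨y, hB hy⟩ : H) : H) : G) = k.1⁻¹ * y * k.1 := by
      rw [MulAut.smul_def, ← map_inv, MulAut.conj_apply]; simp
    rwa [h2] at h1
  · intro hy
    have hyH : y ∈ H := by
      have := H.mul_mem (H.mul_mem k.2 (hA hy)) (H.inv_mem k.2)
      simpa [mul_assoc] using this
    have h1 : (⟨y, hyH⟩ : H) ∈ ((Sylow.ofCard (B.subgroupOf H) cB' : Sylow p H) : Subgroup H) := by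
      rw [← hk, Sylow.coe_subgroup_smul, Subgroup.mem_pointwise_smul_iff_inv_smul_mem,
        Sylow.coe_ofCard, Subgroup.mem_subgroupOf]
      have h2 : (((MulAut.conj k)⁻¹ • (⟨y, hyH⟩ : H) : H) : G) = k.1⁻¹ * y * k.1 := by
        rw [MulAut.smul_def, ← map_inv, MulAut.conj_apply]; simp
      rwa [h2]
    rw [Sylow.coe_ofCard, Subgroup.mem_subgroupOf] at h1
    exact h1

theorem card_stab_eq {G : Type*} [Group G] [Finite G] {β : Type*} [MulAction G β]
    [MulAction.IsPretransitive G β] (x c : β) :
    Nat.card (MulAction.stabilizer G c) = Nat.card (MulAction.stabilizer G x) := by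
  obtain ⟨h, rfl⟩ := MulAction.exists_smul_eq G x c
  rw [MulAction.stabilizer_smul_eq_stabilizer_map_conj]
  exact Subgroup.card_map_of_injective (MulAut.conj h).injective

/-- Let a finite group `G` act `t`-fold transitively on a finite set, let `H` be the stabilizer of `t` distinct points and `P` a Sylow `p`-subgroup of `H`. Then the normalizer of `P` in `G` is `t`-fold transitive on the fixed points of `P`: any `t` distinct fixed points of `P` can be carried to any other `t` distinct fixed points of `P` by an element normalizing `P`. -/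
theorem result {G : Type*} [Group G] [Finite G] {α : Type*} [Fintype α] [MulAction G α] {t : ℕ} (hG : MulAction.IsMultiplyPretransitive G α t) (x : Fin t ↪ α) {p : ℕ} [Fact p.Prime] (P : Sylow p (MulAction.stabilizer G x)) (a b : Fin t ↪ α) (ha : ∀ i, a i ∈ MulAction.fixedPoints ((P : Subgroup (MulAction.stabilizer G x)).map (MulAction.stabilizer G x).subtype) α) (hb : ∀ i, b i ∈ MulAction.fixedPoints ((P : Subgroup (MulAction.stabilizer G x)).map (MulAction.stabilizer G x).subtype) α) : ∃ g ∈ Subgroup.normalizer ((((P : Subgroup (MulAction.stabilizer G x)).map (MulAction.stabilizer G x).subtype) : Subgroup G) : Set G), g • a = b := by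
  set Q : Subgroup G := (P : Subgroup (MulAction.stabilizer G x)).map (MulAction.stabilizer G x).subtype with hQ
  have : MulAction.IsPretransitive G (Fin t ↪ α) := hG
  have cQ : Nat.card Q = p ^ (Nat.card (MulAction.stabilizer G x)).factorization p := by
    rw [hQ, Subgroup.card_map_of_injective (Subgroup.subtype_injective _)]
    exact P.card_eq_multiplicity
  have hfix : ∀ c : Fin t ↪ α, (∀ i, c i ∈ MulAction.fixedPoints Q α) → Q ≤ MulAction.stabilizer G c := by
    intro c hc q hq
    rw [MulAction.mem_stabilizer_iff]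
    ext i
    have := (hc i) ⟨q, hq⟩
    simpa using this
  obtain ⟨g0, hg0⟩ := MulAction.exists_smul_eq G a b
  have hQ'le : Q.map (MulAut.conj g0).toMonoidHom ≤ MulAction.stabilizer G b := by
    rw [← hg0, MulAction.stabilizer_smul_eq_stabilizer_map_conj]
    exact Subgroup.map_mono (hfix a ha)
  have cQ' : Nat.card (Q.map (MulAut.conj g0).toMonoidHom) =
      p ^ (Nat.card (MulAction.stabilizer G b)).factorization p := by
    rw [Subgroup.card_map_of_injective (MulAut.conj g0).injective, cQ, card_stab_eq x b]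
  have cQb : Nat.card Q = p ^ (Nat.card (MulAction.stabilizer G b)).factorization p := by
    rw [cQ, card_stab_eq x b]
  obtain ⟨k, hk, hkQ⟩ := conj_of_card (MulAction.stabilizer G b) (Q.map (MulAut.conj g0).toMonoidHom) Q
    hQ'le (hfix b hb) cQ' cQb
  refine ⟨k * g0, ?_, ?_⟩
  · have hinv : (k * g0)⁻¹ ∈ Subgroup.normalizer (Q : Set G) := by
      rw [Subgroup.mem_normalizer_iff]
      intro y
      rw [hkQ y, Subgroup.mem_map_equiv]
      have : (MulAut.conj g0).symm (k⁻¹ * y * k) = (k * g0)⁻¹ * y * (k * g0)⁻¹⁻¹ := by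
        rw [MulAut.conj_symm_apply]; group
      rw [← this]
    simpa using Subgroup.inv_mem _ hinv
  · rw [mul_smul, hg0]
    exact MulAction.mem_stabilizer_iff.mp hk

end Cfsg.Agent.S4219
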