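import Cfsg.Statements.S4220
import Cfsg.Agent.Helper48.MillerH
import Cfsg.Agent.S0713

set_option autoImplicit false
open Cfsg

namespace Cfsg.Agent.S4220

/-- Let `n = kp + r` with `p` prime, `1 ≤ k < p` and `r > k`, excluding the case `k = 1, r = 2`. Then a permutation group of degree `n` that is `(r + 1)`-fold transitive contains the alternating group. -/
theorem result {α : Type*} [Fintype α] [DecidableEq α] (G : Subgroup (Equiv.Perm α)) {k p r : ℕ} (hp : p.Prime) (hn : Fintype.card α = k * p + r) (hk : 1 ≤ k) (hpk : k < p) (hrk : k < r) (hex : ¬ (k = 1 ∧ r = 2)) (hG : MulAction.IsMultiplyPretransitive G α (r + 1)) : alternatingGroup α ≤ G := by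
  have hr3 : 3 ≤ r := by omega
  have hkp : 1 ≤ k * p := Nat.mul_pos hk hp.pos
  have hkp' : p ≤ k * p := Nat.le_mul_of_pos_left p hk
  have h5 : 5 ≤ Fintype.card α := by have := hp.two_le; omega
  have hprim : MulAction.IsPreprimitive G α := MulAction.isPreprimitive_of_is_two_pretransitive
    (MulAction.isMultiplyPretransitive_of_le (n := r + 1) (by omega)
      (by rw [Nat.card_eq_fintype_card]; omega))
  refine Cfsg.Agent.Helper48.miller_main_aux G hp hn hk hpk hrk hex hG ?_ ?_
  · intro g hg hgc hgs
    exact Cfsg.Agent.S0713.result G hprim hp h5 (by omega) hgc hgs hg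
  · intro hk2 hp3 hr
    subst hk2 hp3 hr
    refine Cfsg.Agent.Helper48.miller_nine G (by rw [hn]) hG ?_
    intro g hg hgc hgs
    exact Cfsg.Agent.S0713.result G hprim Nat.prime_five h5 (by omega) hgc hgs hg

end Cfsg.Agent.S4220
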