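import Cfsg.Statements.S4224
import Cfsg.Agent.Helper70.Regular

set_option autoImplicit false
open Cfsg

namespace Cfsg.Agent.S4224

/-- In a regular `p`-group, for all elements `a`, `b` and every power `q = p^k`: `a^q` commutes with `b` if and only if the commutator `a⁻¹b⁻¹ab` has `q`-th power equal to `1`. -/
theorem result {G : Type*} [Group G] [Finite G] {p : ℕ} [Fact p.Prime] (hG : Cfsg.IsRegularPGroup p G) (a b : G) (k : ℕ) : a ^ p ^ k * b = b * a ^ p ^ k ↔ (a⁻¹ * b⁻¹ * a * b) ^ p ^ k = 1 := by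
  have h1 := Cfsg.Agent.Helper70.regular_pow_eq_iff hG k (b⁻¹ * a * b) a
  have h2 : (b⁻¹ * a * b) ^ p ^ k = b⁻¹ * a ^ p ^ k * b := by
    rw [show b⁻¹ * a * b = b⁻¹ * a * b⁻¹⁻¹ by simp, conj_pow]; simp
  have h3 : (a⁻¹ * b⁻¹ * a * b) ^ p ^ k = a⁻¹ * (b⁻¹ * a * b * a⁻¹) ^ p ^ k * a := by
    rw [show a⁻¹ * b⁻¹ * a * b = a⁻¹ * (b⁻¹ * a * b * a⁻¹) * a⁻¹⁻¹ by group, conj_pow]; simp
  rw [h3]
  constructor
  · intro h
    have : (b⁻¹ * a * b) ^ p ^ k = a ^ p ^ k := by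
      rw [h2, mul_assoc, h]; group
    rw [h1.mp this]; group
  · intro h
    have h4 : (b⁻¹ * a * b * a⁻¹) ^ p ^ k = 1 := by
      have : (b⁻¹ * a * b * a⁻¹) ^ p ^ k = a * (a⁻¹ * (b⁻¹ * a * b * a⁻¹) ^ p ^ k * a) * a⁻¹ := by group
      rw [this, h]; group
    have h5 := h1.mpr h4
    rw [h2] at h5
    calc a ^ p ^ k * b = b * (b⁻¹ * a ^ p ^ k * b) := by group
      _ = b * a ^ p ^ k := by rw [h5]

end Cfsg.Agent.S4224
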