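import Cfsg.Statements.S4226
import Cfsg.Agent.Helper51.HWTate

set_option autoImplicit false
open Cfsg

namespace Cfsg.Agent.S4226

theorem weaklyClosed_self {G : Type*} [Group G] [Finite G] (P : Subgroup G) :
    Cfsg.IsWeaklyClosed P P := by
  refine ⟨le_rfl, fun g hg => ?_⟩
  apply Subgroup.eq_of_le_of_card_ge hg
  rw [Subgroup.card_map_of_injective (MulAut.conj g).injective]

theorem engel_mem_lcs {G : Type*} [Group G] (P : Subgroup G) (z : G) (hz : z ∈ P) :
    ∀ (k : ℕ) (u : G), u ∈ P → (fun y : G => y⁻¹ * z⁻¹ * y * z)^[k] u ∈ P.lowerCentralSeries k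
  | 0, u, hu => hu
  | k + 1, u, hu => by
    rw [Function.iterate_succ_apply', Subgroup.lowerCentralSeries_succ]
    have h1 := engel_mem_lcs P z hz k u hu
    have h2 := Subgroup.commutator_mem_commutator
      ((P.lowerCentralSeries k).inv_mem h1) (P.inv_mem hz)
    rw [commutatorElement_def, inv_inv, inv_inv] at h2
    exact h2

/-- Let `P` be a Sylow `p`-subgroup of the finite group `G` with nilpotency class less than `p` (the term of index `p - 1` of the lower central series of `P`, indexed from `0`, is trivial), and let `N` be its normalizer. Then `O^p(N) = O^p(G) ∩ N`, where `O^p` denotes the subgroup generated by the elements of order prime to `p`; so the largest `p`-factor groups of `G` and of `N` are isomorphic. -/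
theorem result {G : Type*} [Group G] [Finite G] {p : ℕ} [Fact p.Prime] (P : Sylow p G) (hcl : (P : Subgroup G).lowerCentralSeries (p - 1) = ⊥) : Cfsg.pResidualOf p (Subgroup.normalizer ((P : Subgroup G) : Set G)) = Cfsg.pResidual p G ⊓ Subgroup.normalizer ((P : Subgroup G) : Set G) := by
  apply Cfsg.Agent.Helper51.hw_main P (P : Subgroup G) (weaklyClosed_self _)
  intro u hu z hz
  have h1 := engel_mem_lcs (P : Subgroup G) z hz (p - 1) u hu
  rw [hcl] at h1
  exact Subgroup.mem_bot.mp h1

end Cfsg.Agent.S4226
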