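import Cfsg.Statements.S4227
import Cfsg.Agent.S3783
import Cfsg.Agent.S0635
import Cfsg.Agent.Helper63.PSolv
import Cfsg.Agent.Helper3.Burnside2

set_option autoImplicit false
open Cfsg

namespace Cfsg.Agent.S4227

open Cfsg.Agent.Helper63.HHA

theorem comm_of_sq_one {G : Type*} [Group G] {a b : G} (ha : a ^ 2 = 1) (hb : b ^ 2 = 1)
    (hab : (a * b) ^ 2 = 1) : a * b = b * a := by
  have ha' : a⁻¹ = a := inv_eq_of_mul_eq_one_left (by rw [← pow_two]; exact ha)
  have hb' : b⁻¹ = b := inv_eq_of_mul_eq_one_left (by rw [← pow_two]; exact hb)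
  calc a * b = (a * b)⁻¹ := (inv_eq_of_mul_eq_one_left (by rw [← pow_two]; exact hab)).symm
    _ = b⁻¹ * a⁻¹ := mul_inv_rev a b
    _ = b * a := by rw [ha', hb']

/-- A finite group in which every element has order dividing `6` has `2`-length at most `1` and `3`-length at most `1`. -/
theorem result {G : Type*} [Group G] [Finite G] (h : ∀ x : G, x ^ 6 = 1) : Cfsg.PLengthLE 2 1 G ∧ Cfsg.PLengthLE 3 1 G := by
  haveI : Fact (Nat.Prime 2) := ⟨Nat.prime_two⟩
  haveI : Fact (Nat.Prime 3) := ⟨Nat.prime_three⟩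
  have hprimes : ∀ s : ℕ, s.Prime → s ∣ Nat.card G → s = 2 ∨ s = 3 := by
    intro s hs hdvd
    haveI : Fact s.Prime := ⟨hs⟩
    obtain ⟨x, hx⟩ := exists_prime_orderOf_dvd_card' s hdvd
    have h6 : s ∣ 2 * 3 := by rw [← hx]; exact orderOf_dvd_of_pow_eq_one (h x)
    rcases (Nat.Prime.dvd_mul hs).mp h6 with h2 | h3
    · left; exact (Nat.prime_dvd_prime_iff_eq hs Nat.prime_two).mp h2
    · right; exact (Nat.prime_dvd_prime_iff_eq hs Nat.prime_three).mp h3
  obtain ⟨a, m, hm, hcard⟩ := Nat.exists_eq_two_pow_mul_odd (n := Nat.card G) Nat.card_pos.ne'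
  have hm3 : m = 3 ^ m.primeFactorsList.length := by
    apply Nat.eq_prime_pow_of_unique_prime_dvd
    · rintro rfl
      simp at hm
    · intro d hd hdm
      rcases hprimes d hd (hcard ▸ Dvd.dvd.mul_left hdm _) with h2 | h3
      · exfalso
        rw [h2] at hdm
        exact (Nat.not_even_iff_odd.mpr hm) (even_iff_two_dvd.mpr hdm)
      · exact h3
  have hsol : Group.IsSolvable G :=
    Cfsg.Agent.Helper3.isSolvable_of_card_eq 2 3 a _ Nat.prime_two Nat.prime_three
      (by rw [← hm3]; exact hcard)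
  have hsol2 := Cfsg.Agent.Helper63.PSolv.isPSolvable_of_isSolvable 2 G hsol
  have hsol3 := Cfsg.Agent.Helper63.PSolv.isPSolvable_of_isSolvable 3 G hsol
  constructor
  · obtain ⟨S⟩ : Nonempty (Sylow 2 G) := inferInstance
    refine Cfsg.Agent.S0635.aux 2 1 G hsol2 S ?_
    intro _
    have hexp2 : ∀ x ∈ (S : Subgroup G), x ^ 2 = 1 := by
      intro x hx
      obtain ⟨k, hk⟩ := S.isPGroup' ⟨x, hx⟩
      have h1 : x ^ 2 ^ k = 1 := congrArg Subtype.val hk
      have h2 : (x ^ 2) ^ 3 = 1 := by rw [← pow_mul]; exact h x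
      have h3 : (x ^ 2) ^ 2 ^ k = 1 := by rw [← pow_mul, mul_comm, pow_mul, h1, one_pow]
      exact eq_one_of_pow_coprime' h2 h3 (Nat.Coprime.pow_right k (by norm_num))
    rw [← Subgroup.upperCentralSeries_eq_top_iff_nilpotencyClass_le,
      Subgroup.upperCentralSeries_one, eq_top_iff]
    intro z _
    rw [Subgroup.mem_center_iff]
    intro g
    apply Subtype.ext
    exact comm_of_sq_one (hexp2 g g.2) (hexp2 z z.2) (hexp2 _ ((S : Subgroup G).mul_mem g.2 z.2))
  · refine Cfsg.Agent.S3783.result hsol3 ?_ 1 ?_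
    · intro q hq hq3 Q
      have hexp2 : ∀ x ∈ (Q : Subgroup G), x ^ 2 = 1 := by
        intro x hx
        obtain ⟨k, hk⟩ := Q.isPGroup' ⟨x, hx⟩
        have h1 : x ^ q ^ k = 1 := congrArg Subtype.val hk
        have h2 : (x ^ 2) ^ 3 = 1 := by rw [← pow_mul]; exact h x
        have h3 : (x ^ 2) ^ q ^ k = 1 := by rw [← pow_mul, mul_comm, pow_mul, h1, one_pow]
        exact eq_one_of_pow_coprime' h2 h3 (Nat.Coprime.pow_right k
          ((Nat.coprime_primes Nat.prime_three hq.out).mpr (Ne.symm hq3)))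
      exact ⟨⟨fun a b => Subtype.ext (comm_of_sq_one (hexp2 a a.2) (hexp2 b b.2)
        (hexp2 _ ((Q : Subgroup G).mul_mem a.2 b.2)))⟩⟩
    · intro P x hx
      obtain ⟨k, hk⟩ := P.isPGroup' ⟨x, hx⟩
      have h1 : x ^ 3 ^ k = 1 := congrArg Subtype.val hk
      have h2 : (x ^ 3) ^ 2 = 1 := by rw [← pow_mul]; exact h x
      have h3 : (x ^ 3) ^ 3 ^ k = 1 := by rw [← pow_mul, mul_comm, pow_mul, h1, one_pow]
      rw [pow_one]
      exact eq_one_of_pow_coprime' h2 h3 (Nat.Coprime.pow_right k (by norm_num))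

end Cfsg.Agent.S4227
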