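-- Statement S4275: automorphisms of a transitive group induced by the normalizer in the symmetric group.
import Cfsg.Statements.S4275

set_option autoImplicit false
open Cfsg

namespace Cfsg.Agent.S4275

/-- Let G be a transitive group of permutations of a finite set Ω, let o ∈ Ω, and let α be an automorphism of G. Then α is induced by conjugation by a permutation of Ω normalizing G if and only if the image under α of the stabilizer of o fixes some point of Ω. -/
theorem result {Ω : Type*} [Fintype Ω] (G : Subgroup (Equiv.Perm Ω)) (htr : MulAction.IsPretransitive G Ω) (o : Ω) (α : G ≃* G) : (∃ σ : Equiv.Perm Ω, σ ∈ Subgroup.normalizer (G : Set (Equiv.Perm Ω)) ∧ ∀ g : G, ((α g : G) : Equiv.Perm Ω) = σ * (g : Equiv.Perm Ω) * σ⁻¹) ↔ ∃ ω : Ω, ∀ g ∈ (MulAction.stabilizer G o).map α.toMonoidHom, g • ω = ω := by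
  classical
  have hsmul : ∀ (g : G) (x : Ω), g • x = (g : Equiv.Perm Ω) x := fun g x => rfl
  constructor
  · rintro ⟨σ, -, hσ⟩
    refine ⟨σ o, ?_⟩
    rintro g ⟨g', hg', rfl⟩
    have h1 : g' • o = o := hg'
    rw [hsmul] at h1
    show (α g') • σ o = σ o
    rw [hsmul, hσ g']
    simp [h1]
  · rintro ⟨ω, hω⟩
    have hfin : Finite G := inferInstance
    -- α maps the stabilizer of o onto the stabilizer of ω
    have hle : (MulAction.stabilizer G o).map α.toMonoidHom ≤ MulAction.stabilizer G ω :=
      fun g hg => hω g hg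
    have hcard : ∀ x : Ω, Nat.card (MulAction.stabilizer G x) * Nat.card Ω = Nat.card G := by
      intro x
      have h := (MulAction.stabilizer G x).card_mul_index
      rw [MulAction.index_stabilizer_of_transitive] at h
      exact h
    have hΩpos : 0 < Nat.card Ω := Nat.card_pos_iff.mpr ⟨⟨o⟩, inferInstance⟩
    have hcardeq : Nat.card (MulAction.stabilizer G ω) = Nat.card (MulAction.stabilizer G o) := by
      apply Nat.eq_of_mul_eq_mul_right hΩpos
      rw [hcard, hcard]
    have hmapcard : Nat.card ((MulAction.stabilizer G o).map α.toMonoidHom) =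
        Nat.card (MulAction.stabilizer G o) :=
      Subgroup.card_map_of_injective α.injective
    have heq : (MulAction.stabilizer G o).map α.toMonoidHom = MulAction.stabilizer G ω := by
      apply Subgroup.eq_of_le_of_card_ge hle
      rw [hmapcard, hcardeq]
    have hiff : ∀ g : G, g • o = o ↔ α g • ω = ω := by
      intro g
      constructor
      · intro h
        exact hω _ ⟨g, h, rfl⟩
      · intro h
        have h1 : α g ∈ (MulAction.stabilizer G o).map α.toMonoidHom := by rw [heq]; exact h
        obtain ⟨g', hg', hgg'⟩ := h1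
        have : g' = g := α.injective hgg'
        rw [← this]; exact hg'
    -- the permutation σ
    have hex : ∀ x : Ω, ∃ g : G, g • o = x := fun x => MulAction.exists_smul_eq G o x
    choose c hc using hex
    let σ : Ω → Ω := fun x => α (c x) • ω
    have hσo : ∀ g : G, σ (g • o) = α g • ω := by
      intro g
      show α (c (g • o)) • ω = α g • ω
      have h1 : (g⁻¹ * c (g • o)) • o = o := by
        rw [mul_smul, hc, inv_smul_smul]
      have h2 := (hiff _).mp h1
      rw [map_mul, mul_smul, map_inv, inv_smul_eq_iff] at h2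
      exact h2
    have hσequiv : ∀ (g : G) (x : Ω), σ (g • x) = α g • σ x := by
      intro g x
      obtain ⟨k, rfl⟩ := MulAction.exists_smul_eq G o x
      rw [← mul_smul, hσo, hσo, map_mul, mul_smul]
    have hinj : Function.Injective σ := by
      intro x y hxy
      obtain ⟨k, rfl⟩ := MulAction.exists_smul_eq G o x
      obtain ⟨l, rfl⟩ := MulAction.exists_smul_eq G o y
      rw [hσo, hσo] at hxy
      have h1 : α (l⁻¹ * k) • ω = ω := by
        rw [map_mul, mul_smul, hxy, map_inv, inv_smul_smul]
      have h2 := (hiff _).mpr h1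
      rw [mul_smul, inv_smul_eq_iff] at h2
      exact h2
    let σ' : Equiv.Perm Ω := Equiv.ofBijective σ ⟨hinj, Finite.surjective_of_injective hinj⟩
    have hσ' : ∀ x, σ' x = σ x := fun x => rfl
    have hconj : ∀ g : G, ((α g : G) : Equiv.Perm Ω) = σ' * (g : Equiv.Perm Ω) * σ'⁻¹ := by
      intro g
      ext x
      have h1 := hσequiv g (σ'⁻¹ x)
      rw [hsmul, hsmul, ← hσ', ← hσ'] at h1
      simp only [Equiv.Perm.coe_mul, Function.comp_apply]
      rw [h1]
      simp
    refine ⟨σ', ?_, hconj⟩
    rw [Subgroup.mem_normalizer_iff]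
    intro h
    constructor
    · intro hh
      have := hconj ⟨h, hh⟩
      rw [← this]
      exact (α ⟨h, hh⟩).2
    · intro hh
      obtain ⟨g, hg⟩ := α.surjective ⟨σ' * h * σ'⁻¹, hh⟩
      have h1 := hconj g
      rw [hg] at h1
      have h2 : h = (g : Equiv.Perm Ω) := by
        have h3 : σ' * h * σ'⁻¹ = σ' * (g : Equiv.Perm Ω) * σ'⁻¹ := h1
        have h4 := congrArg (fun t => σ'⁻¹ * t * σ') h3
        simpa [mul_assoc] using h4
      rw [h2]; exact g.2

end Cfsg.Agent.S4275
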