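import Cfsg.Statements.S4278
import Cfsg.Agent.Helper18.G2OddMain

set_option autoImplicit false
open Cfsg

namespace Cfsg.Agent.S4278

/-- In the Chevalley group of type G₂ over a finite field of odd order, any two involutions are conjugate. -/
theorem result {F : Type*} [Field F] [Fintype F] (hF : Odd (Fintype.card F)) (s t : ↥(Cfsg.Lie.chevG2.group F)) (hs : orderOf s = 2) (ht : orderOf t = 2) : IsConj s t := by
  have key : ∀ x : ↥(Cfsg.Lie.chevG2.group F), orderOf x = 2 →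
      Cfsg.Agent.Helper18.G2O.Cl (x : GL Cfsg.Lie.chevG2.Idx F) := by
    intro x hx
    have h2 : x ^ 2 = 1 := by rw [← hx]; exact pow_orderOf_eq_one x
    have h1 : x ≠ 1 := by
      intro h
      rw [h, orderOf_one] at hx
      norm_num at hx
    apply Cfsg.Agent.Helper18.G2O.inv_cl hF x.2
    · have h3 := congrArg Subtype.val h2
      rw [sq] at h3
      exact h3
    · intro h
      exact h1 (Subtype.ext h)
  obtain ⟨g1, hg1, e1⟩ := key s hs
  obtain ⟨g2, hg2, e2⟩ := key t ht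
  rw [isConj_iff]
  refine ⟨(⟨g2, hg2⟩ : ↥(Cfsg.Lie.chevG2.group F))⁻¹ * ⟨g1, hg1⟩, ?_⟩
  apply Subtype.ext
  show g2⁻¹ * g1 * (s : GL Cfsg.Lie.chevG2.Idx F) * (g2⁻¹ * g1)⁻¹ = t
  have e3 : g2⁻¹ * g1 * (s : GL Cfsg.Lie.chevG2.Idx F) * (g2⁻¹ * g1)⁻¹ =
      g2⁻¹ * (g1 * s * g1⁻¹) * g2 := by group
  rw [e3, e1, ← e2]
  group

end Cfsg.Agent.S4278
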