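import Cfsg.Statements.S4279
import Cfsg.Agent.Helper18.G2CentE

set_option autoImplicit false
open Cfsg

namespace Cfsg.Agent.S4279

/-- In the Chevalley group G of type G₂ over a finite field F of odd order q, the centralizer of an involution t has order q²(q² − 1)² and contains two elementwise commuting subgroups, each isomorphic to SL(2, F), which meet exactly in the subgroup generated by t and whose join has index 2 in the centralizer. -/
theorem result {F : Type*} [Field F] [Fintype F] (hF : Odd (Fintype.card F)) (t : ↥(Cfsg.Lie.chevG2.group F)) (ht : orderOf t = 2) : Nat.card (Subgroup.centralizer ({t} : Set ↥(Cfsg.Lie.chevG2.group F))) = Fintype.card F ^ 2 * (Fintype.card F ^ 2 - 1) ^ 2 ∧ ∃ L₁ L₂ : Subgroup ↥(Cfsg.Lie.chevG2.group F), Nonempty (L₁ ≃* Matrix.SpecialLinearGroup (Fin 2) F) ∧ Nonempty (L₂ ≃* Matrix.SpecialLinearGroup (Fin 2) F) ∧ (∀ x ∈ L₁, ∀ y ∈ L₂, x * y = y * x) ∧ L₁ ⊓ L₂ = Subgroup.zpowers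 t ∧ L₁ ⊔ L₂ ≤ Subgroup.centralizer ({t} : Set ↥(Cfsg.Lie.chevG2.group F)) ∧ (L₁ ⊔ L₂).relIndex (Subgroup.centralizer ({t} : Set ↥(Cfsg.Lie.chevG2.group F))) = 2 := by
  have h2 : t ^ 2 = 1 := by rw [← ht]; exact pow_orderOf_eq_one t
  have h1 : t ≠ 1 := by
    intro h
    rw [h, orderOf_one] at ht
    norm_num at ht
  obtain ⟨g, hg, e⟩ := Cfsg.Agent.Helper18.G2O.inv_cl hF t.2 (by
      have h3 := congrArg Subtype.val h2
      rw [sq] at h3
      exact h3) (fun h => h1 (Subtype.ext h))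
  have key := Cfsg.Agent.Helper59.G2C.g2c_conj_transport (Cfsg.Agent.Helper18.G2C.t0G F)
    ((⟨g, hg⟩ : ↥(Cfsg.Lie.chevG2.group F))⁻¹) _ (Cfsg.Agent.Helper18.G2C.cent_t0_main hF)
  have et : (⟨g, hg⟩ : ↥(Cfsg.Lie.chevG2.group F))⁻¹ * Cfsg.Agent.Helper18.G2C.t0G F *
      ((⟨g, hg⟩ : ↥(Cfsg.Lie.chevG2.group F))⁻¹)⁻¹ = t := by
    apply Subtype.ext
    show g⁻¹ * Cfsg.Agent.Helper18.G2O.t0 F * g⁻¹⁻¹ = t
    rw [← e]
    group
  rw [et] at key
  exact key

end Cfsg.Agent.S4279
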