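import Cfsg.Statements.S4282
import Cfsg.Agent.Helper32.HHCritGroup

set_option autoImplicit false
open Cfsg

namespace Cfsg.Agent.S4282

open scoped commutatorElement

/-- A critical case behind the Hall–Higman theorem. Let p ≠ q be primes and G a finite group generated by a normal q-subgroup Q and a cyclic p-subgroup generated by x, such that the centralizer of every non-identity element of that cyclic subgroup is its product with the centre of G. Let K be an algebraically closed field of characteristic p and ρ a faithful representation of G on a nonzero finite-dimensional K-space whose restriction to Q is irreducible. If s is the least exponent with (ρ(x) − 1)^s = 0, then |⟨x⟩| − 1 ≤ s ≤ |⟨x⟩|; and if s = |⟨x⟩| − 1 then |⟨x⟩| − 1 is a power of q and Q is non-abelian. -/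
theorem result {G : Type*} [Group G] [Finite G] (p q : ℕ) [Fact p.Prime] [Fact q.Prime] (hpq : p ≠ q) (Q : Subgroup G) [Q.Normal] (hQ : IsPGroup q Q) (x : G) (hx : IsPGroup p (Subgroup.zpowers x)) (hgen : Q ⊔ Subgroup.zpowers x = ⊤) (hC : ∀ y ∈ Subgroup.zpowers x, y ≠ 1 → Subgroup.centralizer ({y} : Set G) = Subgroup.zpowers x ⊔ Subgroup.center G) {K : Type*} [Field K] [IsAlgClosed K] [CharP K p] {V : Type*} [AddCommGroup V] [Module K V] [FiniteDimensional K V] [Nontrivial V] (ρ : Representation K G V) (hfaith : Function.Injective ρ) (hirr : ∀ W : Submodule K V, (∀ g ∈ Q, Submodule.map (ρ g) W ≤ W) → W = ⊥ ∨ W = ⊤) (s : ℕ) (hs : (ρ x - 1) ^ s = 0) (hmin : ∀ k < s, (ρ x - 1) ^ k ≠ 0) : Nat.card (Subgroup.zpowers x) - 1 ≤ s ∧ s ≤ Nat.card (Subgroup.zpowers x) ∧ (s = Nat.card (Subgroup.zpowers x) - 1 → (∃ b : ℕ, Nat.card (Subgroup.zpowers x) - 1 = q ^ b) ∧ ¬ IsMulCommutative Q) := by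
  classical
  have hp : p.Prime := Fact.out
  have hq : q.Prime := Fact.out
  obtain ⟨n, hn⟩ := hx.exists_card_eq
  have hord : orderOf x = p ^ n := by rw [← Nat.card_zpowers, hn]
  have hxN : x ^ (p ^ n) = 1 := by
    rw [← hord]
    exact pow_orderOf_eq_one x
  have hs0 : s ≠ 0 := by
    rintro rfl
    rw [pow_zero] at hs
    exact one_ne_zero hs
  have hupper : s ≤ p ^ n := by
    by_contra hlt
    push Not at hlt
    apply hmin (p ^ n) hlt
    rw [Cfsg.Agent.Helper32.HH.sub_one_pow_char_pow p (ρ x) n, ← map_pow, hxN, map_one, sub_self]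
  rw [hn]
  have hcore : p ^ n ≤ s ∨ (p ^ n - 1 ≤ s ∧ (∃ b : ℕ, p ^ n - 1 = q ^ b) ∧
      ¬ IsMulCommutative Q) := by
    rcases Nat.eq_zero_or_pos n with hn0 | hn1
    · left
      rw [hn0, pow_zero]
      omega
    -- Schur's lemma for `Q`
    have hschur : ∀ e : Module.End K V, (∀ g : ↥Q, ρ (g : G) * e = e * ρ (g : G)) →
        ∃ c : K, e = c • (1 : Module.End K V) := by
      intro e he
      exact Cfsg.Agent.Helper32.HH.schur_scalar (fun g : ↥Q => ρ (g : G))
        (fun W hW => hirr W (fun g hg => hW ⟨g, hg⟩)) e he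
    -- elements of `Q` commuting with a nontrivial power of `x` are central
    have hQcent : ∀ g ∈ Q, ∀ y ∈ Subgroup.zpowers x, y ≠ 1 → y * g = g * y →
        g ∈ Subgroup.center G := by
      intro g hg y hy hy1 hyg
      obtain ⟨k, hk⟩ := hQ ⟨g, hg⟩
      have hgk : g ^ q ^ k = 1 := congrArg Subtype.val hk
      apply Cfsg.Agent.Helper32.HH.mem_center_of_mem_zpowers_sup_center hp hq hpq x hx g k hgk
      rw [← hC y hy hy1, Subgroup.mem_centralizer_iff]
      intro w hw
      rw [Set.mem_singleton_iff] at hw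
      rw [hw]
      exact hyg
    have hy1ne : x ^ p ^ (n - 1) ≠ 1 := by
      apply pow_ne_one_of_lt_orderOf (pow_pos hp.pos _).ne'
      rw [hord]
      exact Nat.pow_lt_pow_right hp.one_lt (by omega)
    have hy1mem : x ^ p ^ (n - 1) ∈ Subgroup.zpowers x := Subgroup.pow_mem _ (Subgroup.mem_zpowers x) _
    by_cases hA : ∃ A : Subgroup G, A ≤ Q ∧ A.Normal ∧ (∀ a ∈ A, ∀ b ∈ A, a * b = b * a) ∧
        ∃ a ∈ A, x ^ p ^ (n - 1) * a * (x ^ p ^ (n - 1))⁻¹ ≠ a
    · -- an abelian normal subgroup moved by `x ^ (p ^ (n - 1))`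
      left
      obtain ⟨A, hAQ, hAn, hAab, a, haA, hane⟩ := hA
      obtain ⟨ρu, hρu⟩ : ∃ ρu : G →* (Module.End K V)ˣ,
          ∀ g, ((ρu g : (Module.End K V)ˣ) : Module.End K V) = ρ g :=
        ⟨(ρ : G →* Module.End K V).toHomUnits, fun g => rfl⟩
      have hρuinj : Function.Injective ρu := by
        intro g h hgh
        apply hfaith
        rw [← hρu g, ← hρu h, hgh]
      haveI : Finite ↥(A.map ρu) :=
        Finite.of_surjective (ρu.subgroupMap A) (ρu.subgroupMap_surjective A)
      have hAq : IsPGroup q ↥(A.map ρu) := (hQ.to_le hAQ).map ρu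
      have h := Cfsg.Agent.Helper32.HH.hh_linear hpq (A.map ρu) hAq (ρu x) n hn1
        (by rw [← map_pow, hxN, map_one])
        (by
          rintro g ⟨b, hb, rfl⟩
          refine ⟨x * b * x⁻¹, hAn.conj_mem b hb x, ?_⟩
          rw [map_mul, map_mul, map_inv])
        ⟨ρu a, ⟨a, haA, rfl⟩, by
          rw [← map_pow, ← map_inv, ← map_mul, ← map_mul]
          exact fun h => hane (hρuinj h)⟩
        s (by rw [hρu]; exact hs)
      rcases h with h | ⟨n₀, m, -, -, -, -, ⟨a₁, ⟨a₁', ha₁, rfl⟩, b₁, ⟨b₁', hb₁, rfl⟩, hab⟩, -⟩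
      · exact h
      · exfalso
        apply hab
        rw [← map_mul, ← map_mul, hAab a₁' ha₁ b₁' hb₁]
    · -- every abelian normal subgroup inside `Q` is central
      push Not at hA
      have hB : ∀ A : Subgroup G, A ≤ Q → A.Normal → (∀ a ∈ A, ∀ b ∈ A, a * b = b * a) →
          A ≤ Subgroup.center G := by
        intro A hAQ hAn hAab a ha
        apply hQcent a (hAQ ha) _ hy1mem hy1ne
        have h1 := hA A hAQ hAn hAab a ha
        calc x ^ p ^ (n - 1) * a = x ^ p ^ (n - 1) * a * (x ^ p ^ (n - 1))⁻¹ * x ^ p ^ (n - 1) := by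
              group
          _ = a * x ^ p ^ (n - 1) := by rw [h1]
      have hcl2 := Cfsg.Agent.Helper32.HH.class_two_of_abelian_normal_central Q hQ hB
      -- the centre of `Q` is central in `G`
      have hZ : ∀ z ∈ Q, (∀ h ∈ Q, h * z = z * h) → z ∈ Subgroup.center G := by
        intro z hz hzc
        have hsub : ∃ A : Subgroup G, (∀ g : G, g ∈ A ↔ g ∈ Q ∧ ∀ h ∈ Q, h * g = g * h) :=
          ⟨Q ⊓ Subgroup.centralizer (Q : Set G), fun g => by
            rw [Subgroup.mem_inf, Subgroup.mem_centralizer_iff]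
            rfl⟩
        obtain ⟨A, hAdef⟩ := hsub
        have hAQ : A ≤ Q := fun g hg => ((hAdef g).mp hg).1
        have hAn : A.Normal := by
          refine ⟨fun a ha g => ?_⟩
          obtain ⟨haQ, hac⟩ := (hAdef a).mp ha
          refine (hAdef _).mpr ⟨Subgroup.Normal.conj_mem inferInstance a haQ g, ?_⟩
          intro h hh
          have h1 := hac (g⁻¹ * h * g) (by
            have := Subgroup.Normal.conj_mem (inferInstance : Q.Normal) h hh g⁻¹
            rwa [inv_inv] at this)
          calc h * (g * a * g⁻¹) = g * (g⁻¹ * h * g * a) * g⁻¹ := by group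
            _ = g * (a * (g⁻¹ * h * g)) * g⁻¹ := by rw [h1]
            _ = g * a * g⁻¹ * h := by group
        have hAab : ∀ a ∈ A, ∀ b ∈ A, a * b = b * a := by
          intro a ha b hb
          exact ((hAdef b).mp hb).2 a ((hAdef a).mp ha).1
        exact hB A hAQ hAn hAab ((hAdef z).mpr ⟨hz, hzc⟩)
      -- `Q` is not abelian
      have hnonab : ∃ a ∈ Q, ∃ b ∈ Q, a * b ≠ b * a := by
        by_contra hcon
        push Not at hcon
        have hQc : Q ≤ Subgroup.center G := hB Q le_rfl inferInstance hcon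
        obtain ⟨c, hc⟩ := hschur (ρ x) (fun g => by
          rw [← map_mul, ← map_mul, Subgroup.mem_center_iff.mp (hQc g.2) x])
        have h1 : (ρ x - 1) ^ p ^ n = 0 := by
          rw [Cfsg.Agent.Helper32.HH.sub_one_pow_char_pow p (ρ x) n, ← map_pow, hxN, map_one,
            sub_self]
        have h2 : ρ x - 1 = (c - 1) • (1 : Module.End K V) := by
          rw [hc, sub_smul, one_smul]
        rw [h2, smul_pow, one_pow] at h1
        have h3 : (c - 1) ^ p ^ n = 0 := by
          by_contra hne
          exact one_ne_zero ((smul_eq_zero.mp h1).resolve_left hne)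
        have h4 : c = 1 := sub_eq_zero.mp (pow_eq_zero_iff (pow_pos hp.pos n).ne' |>.mp h3)
        have h5 : ρ x = ρ 1 := by rw [hc, h4, one_smul, map_one]
        have h6 : x = 1 := hfaith h5
        rw [h6, orderOf_one] at hord
        have h7 : 1 < p ^ n := Nat.one_lt_pow (by omega) hp.one_lt
        omega
      -- apply the critical case
      obtain ⟨ρQ, hρQ⟩ : ∃ ρQ : ↥Q →* Module.End K V, ∀ g : ↥Q, ρQ g = ρ (g : G) :=
        ⟨(ρ : G →* Module.End K V).comp Q.subtype, fun g => rfl⟩
      have hρQinj : Function.Injective ρQ := by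
        intro g h hgh
        rw [hρQ, hρQ] at hgh
        exact Subtype.ext (hfaith hgh)
      obtain ⟨lam, hlam⟩ : ∃ lam : ↥Q → K, ∀ z ∈ Subgroup.center ↥Q,
          ρQ z = lam z • (1 : Module.End K V) := by
        have hex : ∀ z : ↥Q, ∃ c : K, z ∈ Subgroup.center ↥Q →
            ρQ z = c • (1 : Module.End K V) := by
          intro z
          by_cases hz : z ∈ Subgroup.center ↥Q
          · obtain ⟨c, hc⟩ := hschur (ρQ z) (fun g => by
              rw [← hρQ g, ← map_mul, ← map_mul, Subgroup.mem_center_iff.mp hz g])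
            exact ⟨c, fun _ => hc⟩
          · exact ⟨0, fun h => absurd h hz⟩
        exact ⟨fun z => (hex z).choose, fun z hz => (hex z).choose_spec hz⟩
      have hcomm_central : ∀ g h : ↥Q, Cfsg.Agent.Helper63.ProjRep.cm g h ∈ Subgroup.center ↥Q := by
        intro g h
        rw [Subgroup.mem_center_iff]
        intro k
        apply Subtype.ext
        have h1 : ⁅⁅(g : G), (h : G)⁆, (k : G)⁆ ∈ ⁅⁅Q, Q⁆, Q⁆ :=
          Subgroup.commutator_mem_commutator (Subgroup.commutator_mem_commutator g.2 h.2) k.2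
        rw [hcl2, Subgroup.mem_bot, commutatorElement_eq_one_iff_commute] at h1
        exact h1.eq.symm
      have hH : Cfsg.Agent.Helper63.ProjRep.Hyp ρQ lam := by
        refine ⟨hcomm_central, hlam, ?_, ?_⟩
        · intro g hg
          by_contra hcon
          push Not at hcon
          apply hg
          rw [Subgroup.mem_center_iff]
          intro h
          have h1 : Cfsg.Agent.Helper63.ProjRep.cm g h = 1 := by
            apply hρQinj
            rw [hcon h, map_one]
          rw [Cfsg.Agent.Helper63.ProjRep.cm_def] at h1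
          calc h * g = (g * h * g⁻¹ * h⁻¹)⁻¹ * (g * h) := by group
            _ = g * h := by rw [h1, inv_one, one_mul]
        · obtain ⟨k, hk⟩ := hQ.index (Subgroup.center ↥Q)
          rw [hk, Nat.cast_pow]
          apply pow_ne_zero
          intro h0
          have h1 := (CharP.cast_eq_zero_iff K p q).mp h0
          exact hpq ((Nat.prime_dvd_prime_iff_eq hp hq).mp h1)
      have hfree : ∀ g : ↥Q, ∀ i, 0 < i → i < p ^ n →
          ((MulAut.conjNormal x : MulAut ↥Q) ^ i) g * g⁻¹ ∈ Subgroup.center ↥Q →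
          g ∈ Subgroup.center ↥Q := by
        intro g i hi0 hiN hgi
        have hyne : x ^ i ≠ 1 := by
          apply pow_ne_one_of_lt_orderOf hi0.ne'
          rw [hord]
          exact hiN
        have hymem : x ^ i ∈ Subgroup.zpowers x := Subgroup.pow_mem _ (Subgroup.mem_zpowers x) _
        have hconj : (((MulAut.conjNormal x : MulAut ↥Q) ^ i) g : G) = x ^ i * (g : G) * (x ^ i)⁻¹ := by
          rw [← map_pow, MulAut.conjNormal_apply]
        have hzval : ((((MulAut.conjNormal x : MulAut ↥Q) ^ i) g * g⁻¹ : ↥Q) : G) =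
            x ^ i * (g : G) * (x ^ i)⁻¹ * (g : G)⁻¹ := by
          rw [Subgroup.coe_mul, hconj, Subgroup.coe_inv]
        have hzQ : x ^ i * (g : G) * (x ^ i)⁻¹ * (g : G)⁻¹ ∈ Q := by
          rw [← hzval]
          exact Subtype.property _
        have hzc : x ^ i * (g : G) * (x ^ i)⁻¹ * (g : G)⁻¹ ∈ Subgroup.center G := by
          apply hZ _ hzQ
          intro h hh
          have h1 := Subgroup.mem_center_iff.mp hgi ⟨h, hh⟩
          have h2 : h * ((((MulAut.conjNormal x : MulAut ↥Q) ^ i) g * g⁻¹ : ↥Q) : G) =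
              ((((MulAut.conjNormal x : MulAut ↥Q) ^ i) g * g⁻¹ : ↥Q) : G) * h :=
            congrArg Subtype.val h1
          rw [hzval] at h2
          exact h2
        -- iterate
        have hiter : ∀ k : ℕ, (x ^ i) ^ k * (g : G) * ((x ^ i) ^ k)⁻¹ =
            (x ^ i * (g : G) * (x ^ i)⁻¹ * (g : G)⁻¹) ^ k * (g : G) := by
          intro k
          induction k with
          | zero => simp
          | succ k ih =>
            have hzk := Subgroup.mem_center_iff.mp hzc
            calc (x ^ i) ^ (k + 1) * (g : G) * ((x ^ i) ^ (k + 1))⁻¹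
                = x ^ i * ((x ^ i) ^ k * (g : G) * ((x ^ i) ^ k)⁻¹) * (x ^ i)⁻¹ := by
                  rw [pow_succ']
                  group
              _ = x ^ i * ((x ^ i * (g : G) * (x ^ i)⁻¹ * (g : G)⁻¹) ^ k * (g : G)) * (x ^ i)⁻¹ := by
                  rw [ih]
              _ = (x ^ i * (g : G) * (x ^ i)⁻¹ * (g : G)⁻¹) ^ k *
                    (x ^ i * (g : G) * (x ^ i)⁻¹ * (g : G)⁻¹) * (g : G) := by
                  have hc1 : Commute (x ^ i)
                      ((x ^ i * (g : G) * (x ^ i)⁻¹ * (g : G)⁻¹) ^ k) :=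
                    (Commute.pow_right (hzk (x ^ i)) k)
                  rw [← mul_assoc, hc1.eq]
                  group
              _ = (x ^ i * (g : G) * (x ^ i)⁻¹ * (g : G)⁻¹) ^ (k + 1) * (g : G) := by
                  rw [pow_succ]
        have h1 := hiter (p ^ n)
        have hxi : (x ^ i) ^ p ^ n = 1 := by
          rw [← pow_mul, mul_comm, pow_mul, hxN, one_pow]
        rw [hxi, one_mul, inv_one, mul_one] at h1
        have hz1 : (x ^ i * (g : G) * (x ^ i)⁻¹ * (g : G)⁻¹) ^ p ^ n = 1 := by
          exact mul_right_cancel (h1.symm.trans (one_mul (g : G)).symm)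
        obtain ⟨j, hj⟩ := hQ ⟨_, hzQ⟩
        have hz2 : (x ^ i * (g : G) * (x ^ i)⁻¹ * (g : G)⁻¹) ^ q ^ j = 1 := congrArg Subtype.val hj
        have hz : x ^ i * (g : G) * (x ^ i)⁻¹ * (g : G)⁻¹ = 1 := by
          rw [← orderOf_eq_one_iff]
          have hd1 := orderOf_dvd_of_pow_eq_one hz1
          have hd2 := orderOf_dvd_of_pow_eq_one hz2
          have hcop : Nat.Coprime (p ^ n) (q ^ j) :=
            Nat.Coprime.pow _ _ ((Nat.coprime_primes hp hq).mpr hpq)
          exact Nat.eq_one_of_dvd_coprimes hcop hd1 hd2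
        have hcommg : x ^ i * (g : G) = (g : G) * x ^ i := by
          calc x ^ i * (g : G) = x ^ i * (g : G) * (x ^ i)⁻¹ * (g : G)⁻¹ * ((g : G) * x ^ i) := by
                group
            _ = (g : G) * x ^ i := by rw [hz, one_mul]
        have hgc := hQcent (g : G) g.2 _ hymem hyne hcommg
        rw [Subgroup.mem_center_iff]
        intro h
        exact Subtype.ext (Subgroup.mem_center_iff.mp hgc (h : G))
      have hZtop : Subgroup.center ↥Q ≠ ⊤ := by
        intro htop
        obtain ⟨a, ha, b, hb, hab⟩ := hnonab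
        apply hab
        have h1 : (⟨b, hb⟩ : ↥Q) ∈ Subgroup.center ↥Q := by
          rw [htop]
          exact Subgroup.mem_top _
        exact congrArg Subtype.val (Subgroup.mem_center_iff.mp h1 ⟨a, ha⟩)
      have hcrit := Cfsg.Agent.Helper32.HH.hh_crit hH hQ (MulAut.conjNormal x : MulAut ↥Q)
        (ρ x) (ρ x⁻¹)
        (by rw [← map_mul, mul_inv_cancel, map_one])
        (by rw [← map_mul, inv_mul_cancel, map_one])
        (fun g => by
          rw [hρQ, hρQ, MulAut.conjNormal_apply, map_mul, map_mul])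
        (p ^ n) (pow_pos hp.pos n)
        (by rw [← map_pow, hxN, map_one])
        hfree
        (fun e he _ => hschur e (fun g => by rw [← hρQ g]; exact he g))
        hZtop s hs
      have hnc : ¬ IsMulCommutative ↥Q := by
        intro hcomm
        obtain ⟨a, ha, b, hb, hab⟩ := hnonab
        apply hab
        exact congrArg Subtype.val (hcomm.is_comm.comm (⟨a, ha⟩ : ↥Q) ⟨b, hb⟩)
      rcases hcrit with h | ⟨m, -, hm, hms⟩
      · exact Or.inl h
      · exact Or.inr ⟨hms, ⟨m, hm⟩, hnc⟩
  refine ⟨?_, hupper, ?_⟩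
  · rcases hcore with h | h
    · omega
    · exact h.1
  · intro hsN
    rcases hcore with h | h
    · have h1 : 0 < p ^ n := pow_pos hp.pos n
      omega
    · exact h.2

end Cfsg.Agent.S4282
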