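-- Statement S4283: class sizes when G/Z(G) is Frobenius with abelian kernel and complement preimages.
import Cfsg.Statements.S4283
import Cfsg.Agent.Helper71.Frobenius
import Cfsg.Agent.Helper71.FrobCount

set_option autoImplicit false
open Cfsg

namespace Cfsg.Agent.S4283

theorem index_centralizer_conj {G : Type*} [Group G] (x a : G) :
    (Subgroup.centralizer ({a⁻¹ * x * a} : Set G)).index =
      (Subgroup.centralizer ({x} : Set G)).index := by
  have e : Subgroup.centralizer ({a⁻¹ * x * a} : Set G) =
      (Subgroup.centralizer ({x} : Set G)).comap (MulAut.conj a).toMonoidHom := by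
    ext g
    simp only [Subgroup.mem_centralizer_iff, Set.mem_singleton_iff, forall_eq, Subgroup.mem_comap,
      MulEquiv.coe_toMonoidHom, MulAut.conj_apply]
    constructor
    · intro h
      have : x * (a * g * a⁻¹) = a * ((a⁻¹ * x * a) * g) * a⁻¹ := by group
      rw [this, h]; group
    · intro h
      have : a⁻¹ * x * a * g = a⁻¹ * (x * (a * g * a⁻¹)) * a := by group
      rw [this, h]; group
  rw [e]
  exact Subgroup.index_comap_of_surjective _ (MulAut.conj a).surjective

/-- Let G be a finite group with centre Z and let K, H be abelian subgroups of G containing Z such that G/Z is a Frobenius group with complement H/Z and kernel K/Z. Then the conjugacy class sizes of G are exactly 1, [G : K] and [G : H], and these two indices are coprime. (This is the converse half of the characterization of finite groups whose conjugacy class sizes are exactly 1, m and n with m and n coprime.) -/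
theorem result {G : Type*} [Group G] [Finite G] (K H : Subgroup G) (hZK : Subgroup.center G ≤ K) (hZH : Subgroup.center G ≤ H) (hK : IsMulCommutative K) (hH : IsMulCommutative H) (hFrob : Cfsg.IsFrobeniusComplement (H.map (QuotientGroup.mk' (Subgroup.center G)))) (hker : Cfsg.frobeniusKernel (H.map (QuotientGroup.mk' (Subgroup.center G))) = (K.map (QuotientGroup.mk' (Subgroup.center G)) : Set (G ⧸ Subgroup.center G))) : Set.range (fun x : G => (Subgroup.centralizer ({x} : Set G)).index) = ({1, K.index, H.index} : Set ℕ) ∧ K.index.Coprime H.index := by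
  classical
  have hZn : (Subgroup.center G).Normal := inferInstance
  have hπ1 : ∀ x : G, QuotientGroup.mk' (Subgroup.center G) x = 1 ↔ x ∈ Subgroup.center G :=
    fun x => QuotientGroup.eq_one_iff x
  have hmem : ∀ (M : Subgroup G), Subgroup.center G ≤ M → ∀ x : G,
      QuotientGroup.mk' (Subgroup.center G) x ∈ M.map (QuotientGroup.mk' (Subgroup.center G)) ↔
        x ∈ M := by
    intro M hM x
    constructor
    · rintro ⟨y, hy, hyx⟩
      have h1 : y⁻¹ * x ∈ Subgroup.center G := by
        rw [← hπ1, map_mul, map_inv, hyx, inv_mul_cancel]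
      have : x = y * (y⁻¹ * x) := by group
      rw [this]
      exact M.mul_mem hy (hM h1)
    · intro hx
      exact ⟨x, hx, rfl⟩
  have hmemH := hmem H hZH
  have hmemK := hmem K hZK
  rw [Helper71.isFrobeniusComplement_iff] at hFrob
  obtain ⟨hF1, hF2, hF3⟩ := hFrob
  have hconjπ : ∀ g x : G, (QuotientGroup.mk' (Subgroup.center G) g)⁻¹ *
      QuotientGroup.mk' (Subgroup.center G) x * QuotientGroup.mk' (Subgroup.center G) g =
      QuotientGroup.mk' (Subgroup.center G) (g⁻¹ * x * g) := by
    intro g x; simp
  -- (F)
  have hF : ∀ g : G, g ∉ H → ∀ x ∈ H, g⁻¹ * x * g ∈ H → x ∈ Subgroup.center G := by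
    intro g hg x hx hgx
    rw [← hπ1]
    apply hF3 (QuotientGroup.mk' (Subgroup.center G) g) (by rwa [hmemH])
      (QuotientGroup.mk' (Subgroup.center G) x) (by rwa [hmemH])
    rw [hconjπ, hmemH]; exact hgx
  -- (Ker)
  have hKer : ∀ x : G, x ∈ K ↔ (x ∈ Subgroup.center G ∨ ∀ g : G, g⁻¹ * x * g ∉ H) := by
    intro x
    rw [← hmemK, ← SetLike.mem_coe, ← hker]
    unfold Cfsg.frobeniusKernel
    simp only [Set.mem_setOf_eq]
    rw [hπ1]
    apply or_congr Iff.rfl
    constructor
    · intro h g hg
      apply h (QuotientGroup.mk' (Subgroup.center G) g)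
      rw [Helper71.mem_conj_smul, hconjπ, hmemH]; exact hg
    · intro h gbar hg
      obtain ⟨g, rfl⟩ := QuotientGroup.mk'_surjective (Subgroup.center G) gbar
      rw [Helper71.mem_conj_smul, hconjπ, hmemH] at hg
      exact h g hg
  -- witnesses
  obtain ⟨h0, hh0H, hh0Z⟩ : ∃ h ∈ H, h ∉ Subgroup.center G := by
    by_contra hcon
    push Not at hcon
    apply hF1
    rw [Subgroup.eq_bot_iff_forall]
    rintro _ ⟨y, hy, rfl⟩
    rw [hπ1]; exact hcon y hy
  have hHtop : H ≠ ⊤ := by
    rintro rfl
    apply hF2
    rw [Subgroup.eq_top_iff']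
    intro y
    obtain ⟨g, rfl⟩ := QuotientGroup.mk'_surjective (Subgroup.center G) y
    exact ⟨g, Subgroup.mem_top g, rfl⟩
  -- counting
  have hcardK : Nat.card K = Nat.card (Subgroup.center G) * H.index := by
    rw [← Helper71.card_kernel_set (Subgroup.center G) H hZH hF]
    exact Nat.card_congr (Equiv.subtypeEquivRight hKer)
  obtain ⟨q, hq⟩ := Helper71.exists_index_add_relIndex (Subgroup.center G) H hZH hF
  have hcardH : Nat.card (Subgroup.center G) * (Subgroup.center G).relIndex H = Nat.card H := by
    have := Subgroup.relIndex_mul_relIndex ⊥ (Subgroup.center G) H bot_le hZH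
    simpa using this
  have hzpos : 0 < Nat.card (Subgroup.center G) := Nat.card_pos
  have hnpos : 0 < H.index := Nat.pos_of_ne_zero Subgroup.index_ne_zero_of_finite
  have hKidx : K.index = (Subgroup.center G).relIndex H := by
    have h1 := K.index_mul_card
    have h2 := H.card_mul_index
    rw [hcardK] at h1
    rw [← hcardH] at h2
    have hpos : 0 < Nat.card (Subgroup.center G) * H.index := Nat.mul_pos hzpos hnpos
    apply Nat.eq_of_mul_eq_mul_right hpos
    rw [h1, ← h2]; ring
  have hcop : K.index.Coprime H.index := by
    rw [hKidx]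
    have hd : Nat.gcd ((Subgroup.center G).relIndex H) H.index ∣ 1 := by
      have h1 : Nat.gcd ((Subgroup.center G).relIndex H) H.index ∣
          H.index + (Subgroup.center G).relIndex H :=
        dvd_add (Nat.gcd_dvd_right _ _) (Nat.gcd_dvd_left _ _)
      have h2 : Nat.gcd ((Subgroup.center G).relIndex H) H.index ∣
          q * (Subgroup.center G).relIndex H :=
        Dvd.dvd.mul_left (Nat.gcd_dvd_left _ _) q
      rw [hq] at h1
      exact (Nat.dvd_add_right h2).mp h1
    exact Nat.dvd_one.mp hd
  refine ⟨?_, hcop⟩
  -- centralizers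
  have hcZ : ∀ x ∈ Subgroup.center G, (Subgroup.centralizer ({x} : Set G)).index = 1 := by
    intro x hx
    have : Subgroup.centralizer ({x} : Set G) = ⊤ := by
      rw [Subgroup.centralizer_eq_top_iff_subset]
      intro y hy
      rw [Set.mem_singleton_iff] at hy
      rw [hy]; exact hx
    rw [this, Subgroup.index_top]
  have hcH : ∀ x ∈ H, x ∉ Subgroup.center G → Subgroup.centralizer ({x} : Set G) = H := by
    intro x hx hxZ
    ext g
    simp only [Subgroup.mem_centralizer_iff, Set.mem_singleton_iff, forall_eq]
    constructor
    · intro hc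
      by_contra hg
      apply hxZ
      apply hF g hg x hx
      have : g⁻¹ * x * g = x := by
        rw [mul_assoc, hc]; group
      rw [this]; exact hx
    · intro hg
      exact setLike_mul_comm hx hg
  have hcK : ∀ x ∈ K, x ∉ Subgroup.center G → Subgroup.centralizer ({x} : Set G) = K := by
    intro x hx hxZ
    ext g
    simp only [Subgroup.mem_centralizer_iff, Set.mem_singleton_iff, forall_eq]
    constructor
    · intro hc
      by_contra hgK
      have hg2 := (not_congr (hKer g)).mp hgK
      push Not at hg2
      obtain ⟨hgZ, a, ha⟩ := hg2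
      have hxK := ((hKer x).mp hx).resolve_left hxZ
      -- a⁻¹ x a ∈ H
      have hx'H : a⁻¹ * x * a ∈ H := by
        by_contra hx'
        apply hgZ
        have h1 := hF (a⁻¹ * x * a) hx' (a⁻¹ * g * a) ha (by
          have e : (a⁻¹ * x * a)⁻¹ * (a⁻¹ * g * a) * (a⁻¹ * x * a) = a⁻¹ * (x⁻¹ * (g * x)) * a := by
            group
          rw [e, ← hc]
          have e2 : a⁻¹ * (x⁻¹ * (x * g)) * a = a⁻¹ * g * a := by group
          rw [e2]; exact ha)
        have := hZn.conj_mem _ h1 a
        simpa [mul_assoc] using this
      exact hxK a hx'H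
    · intro hg
      exact setLike_mul_comm hx hg
  apply Set.eq_of_subset_of_subset
  · rintro _ ⟨x, rfl⟩
    simp only [Set.mem_insert_iff, Set.mem_singleton_iff]
    by_cases hxZ : x ∈ Subgroup.center G
    · exact Or.inl (hcZ x hxZ)
    · by_cases hxK : x ∈ K
      · right; left
        show (Subgroup.centralizer ({x} : Set G)).index = K.index
        rw [hcK x hxK hxZ]
      · right; right
        show (Subgroup.centralizer ({x} : Set G)).index = H.index
        have hx2 := (not_congr (hKer x)).mp hxK
        push Not at hx2
        obtain ⟨-, a, ha⟩ := hx2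
        have haZ : a⁻¹ * x * a ∉ Subgroup.center G := by
          intro h1
          apply hxZ
          have := hZn.conj_mem _ h1 a
          simpa [mul_assoc] using this
        rw [← index_centralizer_conj x a, hcH _ ha haZ]
  · intro n hn
    simp only [Set.mem_insert_iff, Set.mem_singleton_iff] at hn
    rcases hn with rfl | rfl | rfl
    · exact ⟨1, hcZ 1 (Subgroup.one_mem _)⟩
    · -- some element of K outside the centre
      have hex : ∃ x ∈ K, x ∉ Subgroup.center G := by
        by_contra hcon
        push Not at hcon
        have hle : K ≤ Subgroup.center G := hcon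
        have h1 := Subgroup.card_le_of_le hle
        rw [hcardK] at h1
        have h2 : H.index ≠ 1 := fun h => hHtop (Subgroup.index_eq_one.mp h)
        have h3 : 2 ≤ H.index := by omega
        nlinarith
      obtain ⟨x, hxK, hxZ⟩ := hex
      refine ⟨x, ?_⟩
      show (Subgroup.centralizer ({x} : Set G)).index = K.index
      rw [hcK x hxK hxZ]
    · refine ⟨h0, ?_⟩
      show (Subgroup.centralizer ({h0} : Set G)).index = H.index
      rw [hcH h0 hh0H hh0Z]

end Cfsg.Agent.S4283
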