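import Cfsg.Statements.S4292
import Cfsg.Agent.Helper71.FpfProd

set_option autoImplicit false
open Cfsg

namespace Cfsg.Agent.S4292

/-- Let A and B be nontrivial finite groups. Then the direct product A × B occurs as a Frobenius complement if and only if A and B both occur as Frobenius complements and the orders of A and B are coprime. -/
theorem result {A B : Type*} [Group A] [Finite A] [Nontrivial A] [Group B] [Finite B] [Nontrivial B] :
    (∃ (L : Type) (_ : Group L) (_ : Finite L) (H : Subgroup L), Cfsg.IsFrobeniusComplement H ∧ Nonempty ((A × B) ≃* H)) ↔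
    ((∃ (L : Type) (_ : Group L) (_ : Finite L) (H : Subgroup L), Cfsg.IsFrobeniusComplement H ∧ Nonempty (A ≃* H)) ∧
     (∃ (L : Type) (_ : Group L) (_ : Finite L) (H : Subgroup L), Cfsg.IsFrobeniusComplement H ∧ Nonempty (B ≃* H)) ∧
     (Nat.card A).Coprime (Nat.card B)) := by
  constructor
  · intro hAB
    obtain ⟨R, _, _, ρ, hρ⟩ := Cfsg.Agent.Helper71.FpfProd.fpf_of_frob hAB
    refine ⟨?_, ?_, Cfsg.Agent.Helper71.FpfProd.coprime_of_fpf_prod hρ⟩
    · exact Cfsg.Agent.Helper71.FpfProd.frob_of_fpf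
        (hρ.comp (MonoidHom.inl A B) (fun x y h => congrArg Prod.fst h))
    · exact Cfsg.Agent.Helper71.FpfProd.frob_of_fpf
        (hρ.comp (MonoidHom.inr A B) (fun x y h => congrArg Prod.snd h))
  · rintro ⟨hA, hB, hcop⟩
    obtain ⟨R, _, _, ρ, hρ⟩ := Cfsg.Agent.Helper71.FpfProd.fpf_of_frob hA
    obtain ⟨S, _, _, σ, hσ⟩ := Cfsg.Agent.Helper71.FpfProd.fpf_of_frob hB
    exact Cfsg.Agent.Helper71.FpfProd.frob_prod hρ hσ hcop

end Cfsg.Agent.S4292
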