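-- Statement S4293: finite subgroups of division rings are Frobenius complements.
import Cfsg.Statements.S4293
import Cfsg.Agent.Helper71.Frobenius

set_option autoImplicit false
open Cfsg

namespace Cfsg.Agent.S4293

open Finset in
/-- In any ring, `n = u * (1 - t) + ∑ i < n, t ^ i` for a suitable `u`. -/
theorem natCast_eq_mul_add_geom {R : Type*} [Ring R] (t : R) (n : ℕ) :
    (n : R) = (∑ j ∈ range n, ∑ i ∈ range j, t ^ i) * (1 - t) + ∑ i ∈ range n, t ^ i := by
  rw [Finset.sum_mul]
  have h : ∀ j ∈ range n, (∑ i ∈ range j, t ^ i) * (1 - t) = 1 - t ^ j :=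
    fun j _ => geom_sum_mul_neg t j
  rw [Finset.sum_congr rfl h, Finset.sum_sub_distrib]
  simp

/-- A nontrivial finite subgroup of the multiplicative group of a division ring occurs as a Frobenius complement of some finite Frobenius group. -/
theorem result {D : Type*} [DivisionRing D] (H : Subgroup Dˣ) [Finite H] (hH : H ≠ ⊥) :
    ∃ (L : Type) (_ : Group L) (_ : Finite L) (C : Subgroup L), Cfsg.IsFrobeniusComplement C ∧ Nonempty (H ≃* C) := by
  classical
  have hnt : Nontrivial H := (Subgroup.nontrivial_iff_ne_bot H).mpr hH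
  -- the prime p
  obtain ⟨p, hp, hpH, hchar⟩ :
      ∃ p : ℕ, p.Prime ∧ ¬ p ∣ Nat.card H ∧ (CharZero D ∨ CharP D p) := by
    obtain ⟨ℓ, hℓ⟩ := CharP.exists D
    rcases CharP.char_is_prime_or_zero D ℓ with hprime | hzero
    · refine ⟨ℓ, hprime, ?_, Or.inr hℓ⟩
      intro hdvd
      have : Fact ℓ.Prime := ⟨hprime⟩
      obtain ⟨h, hh⟩ := exists_prime_orderOf_dvd_card' ℓ hdvd
      have h1 : ((h : Dˣ) : D) ^ ℓ = 1 := by
        have := pow_orderOf_eq_one h
        rw [hh] at this
        have h2 := congrArg (fun x : H => ((x : Dˣ) : D)) this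
        simpa using h2
      have h3 : (((h : Dˣ) : D) - 1) ^ ℓ = 0 := by
        rw [sub_pow_char_of_commute ℓ (Commute.one_right _), h1, one_pow, sub_self]
      have h4 : ((h : Dˣ) : D) - 1 = 0 := by
        have := pow_eq_zero_iff (hprime.ne_zero) |>.mp h3
        exact this
      have h5 : h = 1 := by
        apply Subtype.ext
        apply Units.ext
        simpa using sub_eq_zero.mp h4
      rw [h5, orderOf_one] at hh
      exact hprime.one_lt.ne hh
    · subst hzero
      have : CharZero D := CharP.charP_to_charZero D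
      obtain ⟨p, hpge, hp⟩ := Nat.exists_infinite_primes (Nat.card H + 1)
      refine ⟨p, hp, ?_, Or.inl inferInstance⟩
      intro hdvd
      have := Nat.le_of_dvd Nat.card_pos hdvd
      omega
  let f : H →* D := (Units.coeHom D).comp H.subtype
  let ψ : MonoidAlgebra ℤ H →ₐ[ℤ] D := MonoidAlgebra.lift ℤ D H f
  have hψ : ∀ h : H, ψ (MonoidAlgebra.of ℤ H h) = ((h : Dˣ) : D) :=
    fun h => MonoidAlgebra.lift_of f h
  let I : Ideal (MonoidAlgebra ℤ H) :=
    RingHom.ker (ψ : MonoidAlgebra ℤ H →+* D) ⊔ Ideal.span {(p : MonoidAlgebra ℤ H)}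
  have hkerI : ∀ r : MonoidAlgebra ℤ H, ψ r = 0 → r ∈ I := fun r hr =>
    Submodule.mem_sup_left (by rw [RingHom.mem_ker]; exact hr)
  have hpI : ∀ r : MonoidAlgebra ℤ H, (p : MonoidAlgebra ℤ H) * r ∈ I := by
    intro r
    rw [(Nat.cast_commute p r).eq]
    exact Submodule.mem_sup_right (Ideal.mul_mem_left _ _ (Ideal.subset_span rfl))
  -- finiteness of the quotient
  have hfinA : Finite (MonoidAlgebra ℤ H ⧸ I) := by
    have hfg : Module.Finite ℤ (MonoidAlgebra ℤ H ⧸ I) :=
      Module.Finite.of_surjective ((Submodule.mkQ I).toAddMonoidHom.toIntLinearMap)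
        (Submodule.mkQ_surjective I)
    apply Module.finite_of_fg_torsion
    intro x
    obtain ⟨r, rfl⟩ := Submodule.mkQ_surjective I x
    refine ⟨⟨(p : ℤ), mem_nonZeroDivisors_of_ne_zero (by exact_mod_cast hp.ne_zero)⟩, ?_⟩
    show (p : ℤ) • (Submodule.mkQ I r) = 0
    rw [← map_zsmul, Submodule.mkQ_apply, Submodule.Quotient.mk_eq_zero]
    have : (p : ℤ) • r = (p : MonoidAlgebra ℤ H) * r := by
      rw [zsmul_eq_mul]; simp
    rw [this]
    exact hpI r
  -- nontriviality of the quotient
  have hntA : Nontrivial (MonoidAlgebra ℤ H ⧸ I) := by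
    rw [Submodule.Quotient.nontrivial_iff, Ideal.ne_top_iff_one]
    intro h1
    obtain ⟨k, hk, z, hz, hkz⟩ := Submodule.mem_sup.mp h1
    obtain ⟨a, rfl⟩ := Ideal.mem_span_singleton'.mp hz
    have hψ1 : ψ a * (p : D) = 1 := by
      have := congrArg ψ hkz
      have hk0 : ψ k = 0 := (RingHom.mem_ker).mp hk
      rw [map_add, map_mul, map_natCast, map_one, hk0, zero_add] at this
      exact this
    rcases hchar with hz0 | hpc
    · -- characteristic zero: Nakayama
      let N : Submodule ℤ D := LinearMap.range ψ.toLinearMap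
      have hNfg : N.FG := by
        have : Module.Finite ℤ N := Module.Finite.range ψ.toLinearMap
        exact Module.Finite.iff_fg.mp this
      have hle : N ≤ (Ideal.span {(p : ℤ)}) • N := by
        rintro n ⟨r, rfl⟩
        have e : ψ.toLinearMap r = (p : ℤ) • ψ.toLinearMap (a * r) := by
          show ψ r = (p : ℤ) • ψ (a * r)
          rw [map_mul, zsmul_eq_mul, ← mul_assoc]
          have : ((p : ℤ) : D) * ψ a = 1 := by
            have hc : ((p : ℤ) : D) * ψ a = ψ a * (p : D) := by
              push_cast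
              exact (Nat.cast_commute p (ψ a)).eq
            rw [hc, hψ1]
          rw [this, one_mul]
        rw [e]
        exact Submodule.smul_mem_smul (Ideal.subset_span rfl) ⟨a * r, rfl⟩
      obtain ⟨r0, hr0, hr0N⟩ :=
        Submodule.exists_sub_one_mem_and_smul_eq_zero_of_fg_of_le_smul _ N hNfg hle
      have h1N : (1 : D) ∈ N := ⟨1, by simp⟩
      have hr00 : r0 = 0 := by
        have := hr0N 1 h1N
        rw [zsmul_eq_mul, mul_one] at this
        exact_mod_cast this
      rw [hr00, Ideal.mem_span_singleton] at hr0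
      have hdvd1 : (p : ℤ) ∣ 1 := by
        have : (p : ℤ) ∣ -(0 - 1) := (dvd_neg).mpr hr0
        simpa using this
      have : p ∣ 1 := by exact_mod_cast hdvd1
      exact hp.one_lt.ne' (Nat.dvd_one.mp this)
    · have : (p : D) = 0 := CharP.cast_eq_zero D p
      rw [this, mul_zero] at hψ1
      exact zero_ne_one hψ1
  -- the action of H
  let act : DistribMulAction H (MonoidAlgebra ℤ H ⧸ I) :=
    DistribMulAction.compHom _ (MonoidAlgebra.of ℤ H)
  have hsm : ∀ (h : H) (r : MonoidAlgebra ℤ H),
      h • (Submodule.Quotient.mk r : MonoidAlgebra ℤ H ⧸ I) =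
        Submodule.Quotient.mk (MonoidAlgebra.of ℤ H h * r) := fun h r => rfl
  have hfree : ∀ h : H, h ≠ 1 → ∀ x : MonoidAlgebra ℤ H ⧸ I, h • x = x → x = 0 := by
    intro h hh x hx
    obtain ⟨r, rfl⟩ := Submodule.Quotient.mk_surjective I x
    rw [hsm, Submodule.Quotient.eq] at hx
    rw [Submodule.Quotient.mk_eq_zero]
    set t := MonoidAlgebra.of ℤ H h with ht
    set m := orderOf h with hm
    have hD : ((h : Dˣ) : D) ≠ 1 := by
      intro h1
      apply hh
      apply Subtype.ext
      apply Units.ext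
      simpa using h1
    have hs : ψ (∑ i ∈ Finset.range m, t ^ i) = 0 := by
      rw [map_sum]
      simp only [map_pow, ht, hψ]
      have h1 := mul_geom_sum ((h : Dˣ) : D) m
      have h2 : ((h : Dˣ) : D) ^ m = 1 := by
        have h3 : h ^ m = 1 := pow_orderOf_eq_one h
        have h4 : ((h ^ m : H) : Dˣ) = 1 := by rw [h3]; rfl
        have h5 : (((h : Dˣ) ^ m : Dˣ) : D) = 1 := by
          rw [← Subgroup.coe_pow, h4]; rfl
        rw [← h5, Units.val_pow_eq_pow_val]
      rw [h2, sub_self] at h1
      exact (mul_eq_zero.mp h1).resolve_left (sub_ne_zero.mpr hD)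
    have hmr : (m : MonoidAlgebra ℤ H) * r ∈ I := by
      rw [natCast_eq_mul_add_geom t m, add_mul, mul_assoc]
      apply I.add_mem
      · apply Ideal.mul_mem_left
        have : (1 - t) * r = -(t * r - r) := by noncomm_ring
        rw [this]
        exact I.neg_mem hx
      · apply hkerI
        rw [map_mul, hs, zero_mul]
    have hcop : Nat.Coprime m p := by
      apply Nat.Coprime.symm
      rw [Nat.Prime.coprime_iff_not_dvd hp]
      intro hd
      exact hpH (hd.trans (orderOf_dvd_natCard h))
    obtain ⟨a, b, hab⟩ := Nat.isCoprime_iff_coprime.mpr hcop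
    have hr : r = (a : MonoidAlgebra ℤ H) * ((m : MonoidAlgebra ℤ H) * r) +
        (b : MonoidAlgebra ℤ H) * ((p : MonoidAlgebra ℤ H) * r) := by
      have h1 : ((a * (m : ℤ) + b * (p : ℤ) : ℤ) : MonoidAlgebra ℤ H) = 1 := by
        rw [hab]; simp
      push_cast at h1
      calc r = 1 * r := (one_mul r).symm
        _ = ((a : MonoidAlgebra ℤ H) * (m : MonoidAlgebra ℤ H) +
            (b : MonoidAlgebra ℤ H) * (p : MonoidAlgebra ℤ H)) * r := by rw [h1]
        _ = _ := by noncomm_ring
    rw [hr]
    exact I.add_mem (Ideal.mul_mem_left _ _ hmr) (Ideal.mul_mem_left _ _ (hpI r))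
  exact Helper71.exists_frobenius_of_free_distribMulAction (H := H)
    (A := MonoidAlgebra ℤ H ⧸ I) hfree

end Cfsg.Agent.S4293
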