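import Cfsg.Statements.S4295
import Cfsg.Agent.Helper71.FrobQ8

set_option autoImplicit false
open Cfsg

namespace Cfsg.Agent.S4295

open Cfsg.Agent.Helper71

/-- For a natural number m the following are equivalent: (a) some finite group has a Frobenius complement isomorphic to the quaternion group of order 8 whose Frobenius kernel (the identity together with the elements lying in no conjugate of the complement) has exactly m elements; (b) m is an odd perfect square greater than 1. -/
theorem result (m : ℕ) :
    (∃ (L : Type) (_ : Group L) (_ : Finite L) (H : Subgroup L), Cfsg.IsFrobeniusComplement H ∧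
        Nonempty (H ≃* QuaternionGroup 2) ∧ Nat.card (Cfsg.frobeniusKernel H) = m) ↔
    (Odd m ∧ IsSquare m ∧ 1 < m) := by
  constructor
  · rintro ⟨L, iG, iF, H, hF, ⟨e⟩, hm⟩
    obtain ⟨N, hNset, hFP⟩ := Cfsg.Agent.Helper29.exists_frobPair H hF
    have hcard : Nat.card (Cfsg.frobeniusKernel H) = Nat.card N := by
      rw [← hNset]; rfl
    rw [hcard] at hm
    subst hm
    have hq := exists_quat_elements 1 le_rfl
    rw [pow_one] at hq
    obtain ⟨a₀, b₀, z₀, h1, h2, h3, h4, h5⟩ := hq
    obtain ⟨ψ, hψ⟩ : ∃ ψ : QuaternionGroup 2 →* L, ∀ x, ψ x = ((e.symm x : H) : L) :=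
      ⟨H.subtype.comp e.symm.toMonoidHom, fun x => rfl⟩
    have hψinj : Function.Injective ψ := by
      intro x y hxy
      rw [hψ, hψ] at hxy
      exact e.symm.injective (Subtype.ext hxy)
    have hψH : ∀ x, ψ x ∈ H := by
      intro x; rw [hψ]; exact (e.symm x).2
    have hres := frobPair_kernel_odd_square hFP (ψ a₀) (ψ b₀) (ψ z₀) (hψH _) (hψH _)
      (by rw [← map_mul, h1]) (by rw [← map_mul, h2])
      (by
        intro h
        rw [← map_one ψ] at h
        exact h3 (hψinj h))
      (by rw [← map_mul, h4, map_one])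
      (by rw [← map_mul, ← map_mul, ← map_mul, h5])
    refine ⟨hres.1, hres.2, ?_⟩
    exact (Subgroup.one_lt_card_iff_ne_bot N).mpr hFP.kernel_ne_bot
  · rintro ⟨hodd, ⟨n, rfl⟩, hlt⟩
    have hoddn : Odd n := (Nat.odd_mul.mp hodd).1
    obtain ⟨A, iA, iF, i, j, hcard, hi, hj, hij⟩ := exists_quat_module n hoddn
    have hcard' : Nat.card (Multiplicative A) = n * n := hcard
    obtain ⟨L, iG, iFL, H, hF, he, hk⟩ := exists_frobenius_q8 (Multiplicative A)
      (by rw [hcard']; exact hodd) (by rw [hcard']; exact hlt)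
      (AddMonoidHom.toMultiplicative i) (AddMonoidHom.toMultiplicative j)
      (fun x => hi x) (fun x => hj x) (fun x => hij x)
    exact ⟨L, iG, iFL, H, hF, he, hk.trans hcard'⟩

end Cfsg.Agent.S4295
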