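import Cfsg.Statements.S4296
import Cfsg.Agent.Helper71.FrobQuat
import Cfsg.Agent.S0040

set_option autoImplicit false
open Cfsg

namespace Cfsg.Agent.S4296

open Cfsg.Agent.Helper71

/-- Let H be a Frobenius complement in a finite group, and suppose some Sylow subgroup of H is not cyclic. Then the number of elements of the Frobenius kernel (the identity together with the elements lying in no conjugate of H) is an odd perfect square. -/
theorem result {L : Type*} [Group L] [Finite L] (H : Subgroup L) (hF : Cfsg.IsFrobeniusComplement H)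
    (hZ : ∃ (p : ℕ) (_ : Fact p.Prime) (P : Sylow p H), ¬ IsCyclic P) :
    Odd (Nat.card (Cfsg.frobeniusKernel H)) ∧ IsSquare (Nat.card (Cfsg.frobeniusKernel H)) := by
  obtain ⟨N, hNset, hFP⟩ := Cfsg.Agent.Helper29.exists_frobPair H hF
  have hcard : Nat.card (Cfsg.frobeniusKernel H) = Nat.card N := by
    rw [← hNset]; rfl
  rw [hcard]
  obtain ⟨p, hp, P, hP⟩ := hZ
  have hNn : N.Normal := hFP.normal
  have hfpf : ∀ h ∈ H, h ≠ 1 → N ⊓ Subgroup.centralizer {h} = ⊥ := by
    intro h hh hh1
    rw [eq_bot_iff]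
    intro k hk
    rw [Subgroup.mem_bot]
    have hhN : h ∉ N := fun hN => hh1 (hFP.disjoint hN hh)
    refine hFP.eq_one_of_commute hhN hk.1 ?_
    exact (Subgroup.mem_centralizer_iff.mp hk.2 h (Set.mem_singleton h))
  rcases Cfsg.Agent.S0040.result N H hFP.compl hFP.kernel_ne_bot hfpf p P with hc | ⟨n, ⟨e⟩⟩
  · exact absurd hc hP
  have hn : 1 ≤ n := by
    by_contra hn0
    have hn0' : n = 0 := by omega
    subst hn0'
    apply hP
    have hcyc : IsCyclic (QuaternionGroup (2 ^ 0)) := by
      rw [pow_zero]; exact QuaternionGroup.quaternionGroup_one_isCyclic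
    exact isCyclic_of_surjective e.symm e.symm.surjective
  obtain ⟨a₀, b₀, z₀, h1, h2, h3, h4, h5⟩ := exists_quat_elements n hn
  obtain ⟨ψ, hψ⟩ : ∃ ψ : P →* L, ∀ x : P, ψ x = ((x : H) : L) :=
    ⟨H.subtype.comp (P : Subgroup H).subtype, fun x => rfl⟩
  have hψinj : Function.Injective ψ := by
    intro x y hxy
    rw [hψ, hψ] at hxy
    exact Subtype.ext (Subtype.ext hxy)
  have hψH : ∀ x : P, ψ x ∈ H := by
    intro x; rw [hψ]; exact (x : H).2
  refine frobPair_kernel_odd_square hFP (ψ (e.symm a₀)) (ψ (e.symm b₀)) (ψ (e.symm z₀))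
    (hψH _) (hψH _) ?_ ?_ ?_ ?_ ?_
  · rw [← map_mul, ← map_mul, h1]
  · rw [← map_mul, ← map_mul, h2]
  · intro h
    rw [← map_one ψ] at h
    have := hψinj h
    rw [← map_one e.symm] at this
    exact h3 (e.symm.injective this)
  · rw [← map_mul, ← map_mul, h4, map_one, map_one]
  · rw [← map_mul, ← map_mul, ← map_mul, ← map_mul, ← map_mul, ← map_mul, h5]

end Cfsg.Agent.S4296
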