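-- Statement S4297: dicyclic groups are Frobenius complements.
import Cfsg.Statements.S4297
import Cfsg.Agent.Helper71.Frobenius

set_option autoImplicit false
open Cfsg

namespace Cfsg.Agent.S4297

/-- The action of the dicyclic group on pairs, given a "character" `w` of `ZMod (2 * n)`. -/
def qsmul {n : ℕ} {F : Type*} [Field F] (w : ZMod (2 * n) → F) :
    QuaternionGroup n → F × F → F × F
  | QuaternionGroup.a i, x => (w i * x.1, w (-i) * x.2)
  | QuaternionGroup.xa i, x => (w (-i) * x.2, -(w i * x.1))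

/-- The distributive action attached to `w`. -/
@[reducible] def qaction {n : ℕ} {F : Type*} [Field F] (w : ZMod (2 * n) → F) (hw0 : w 0 = 1)
    (hwadd : ∀ i j, w (i + j) = w i * w j) (hwn : w (n : ZMod (2 * n)) = -1) :
    DistribMulAction (QuaternionGroup n) (F × F) where
  smul := qsmul w
  one_smul := by
    rintro ⟨u, v⟩
    show qsmul w (QuaternionGroup.a 0) (u, v) = (u, v)
    simp [qsmul, hw0]
  mul_smul := by
    have hinv : ∀ i, w i * w (-i) = 1 := fun i => by rw [← hwadd, add_neg_cancel, hw0]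
    have hnn : w (-(n : ZMod (2 * n))) = -1 := by
      have h := hinv (n : ZMod (2 * n))
      rw [hwn] at h
      have : w (-(n : ZMod (2 * n))) = -(-1 * w (-(n : ZMod (2 * n)))) := by ring
      rw [this, h]
    rintro (i | i) (j | j) ⟨u, v⟩
    · show qsmul w (QuaternionGroup.a (i + j)) (u, v) =
        qsmul w (QuaternionGroup.a i) (qsmul w (QuaternionGroup.a j) (u, v))
      simp only [qsmul, neg_add, hwadd]
      ext <;> simp <;> ring
    · show qsmul w (QuaternionGroup.xa (j - i)) (u, v) =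
        qsmul w (QuaternionGroup.a i) (qsmul w (QuaternionGroup.xa j) (u, v))
      have e1 : -(j - i) = i + -j := by ring
      have e2 : j - i = -i + j := by ring
      simp only [qsmul, e1]
      rw [e2]
      simp only [hwadd]
      ext <;> simp <;> ring
    · show qsmul w (QuaternionGroup.xa (i + j)) (u, v) =
        qsmul w (QuaternionGroup.xa i) (qsmul w (QuaternionGroup.a j) (u, v))
      simp only [qsmul, neg_add, hwadd]
      ext <;> simp <;> ring
    · show qsmul w (QuaternionGroup.a ((n : ZMod (2 * n)) + j - i)) (u, v) =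
        qsmul w (QuaternionGroup.xa i) (qsmul w (QuaternionGroup.xa j) (u, v))
      have e1 : -((n : ZMod (2 * n)) + j - i) = -(n : ZMod (2 * n)) + (i + -j) := by ring
      have e2 : (n : ZMod (2 * n)) + j - i = (n : ZMod (2 * n)) + (-i + j) := by ring
      simp only [qsmul, e1]
      rw [e2]
      simp only [hwadd, hwn, hnn]
      ext <;> simp <;> ring
  smul_zero := by
    rintro (i | i) <;> show qsmul w _ (0, 0) = (0, 0) <;> simp [qsmul]
  smul_add := by
    rintro (i | i) ⟨u, v⟩ ⟨u', v'⟩ <;>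
      show qsmul w _ (u + u', v + v') = qsmul w _ (u, v) + qsmul w _ (u', v') <;>
      simp only [qsmul] <;> ext <;> simp <;> ring

/-- For every n ≥ 2 the dicyclic group of order 4n (generated by an element a of order 2n and an element x with x² = aⁿ and x a x⁻¹ = a⁻¹) occurs as a Frobenius complement of some finite Frobenius group. -/
theorem result (n : ℕ) (hn : 2 ≤ n) :
    ∃ (L : Type) (_ : Group L) (_ : Finite L) (H : Subgroup L), Cfsg.IsFrobeniusComplement H ∧ Nonempty (H ≃* QuaternionGroup n) := by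
  have hn0 : NeZero n := ⟨by omega⟩
  have h2n0 : NeZero (2 * n) := ⟨by omega⟩
  obtain ⟨p, hp, hp2, hmod⟩ := Nat.exists_prime_gt_modEq_one (k := 2 * n) 2 (by omega)
  have : Fact p.Prime := ⟨hp⟩
  have hdvd : 2 * n ∣ p - 1 := (Nat.modEq_iff_dvd' hp.one_lt.le).mp hmod.symm
  obtain ⟨g, hg⟩ := IsCyclic.exists_generator (α := (ZMod p)ˣ)
  have hog : orderOf g = p - 1 := by
    rw [orderOf_eq_card_of_forall_mem_zpowers hg, Nat.card_eq_fintype_card, ZMod.card_units]
  have hp1 : p - 1 ≠ 0 := by omega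
  obtain ⟨m, hm⟩ := hdvd
  have hm0 : m ≠ 0 := by
    rintro rfl
    rw [mul_zero] at hm
    exact hp1 hm
  set ζ : (ZMod p)ˣ := g ^ m with hζ
  have hoζ : orderOf ζ = 2 * n := by
    rw [hζ, orderOf_pow_of_dvd hm0 (by rw [hog, hm]; exact dvd_mul_left _ _), hog, hm]
    exact Nat.mul_div_cancel _ (Nat.pos_of_ne_zero hm0)
  let w : ZMod (2 * n) → ZMod p := fun i => ((ζ ^ i.val : (ZMod p)ˣ) : ZMod p)
  have hw0 : w 0 = 1 := by simp [w]
  have hwadd : ∀ i j, w (i + j) = w i * w j := by
    intro i j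
    show ((ζ ^ (i + j).val : (ZMod p)ˣ) : ZMod p) = ((ζ ^ i.val : (ZMod p)ˣ) : ZMod p) *
      ((ζ ^ j.val : (ZMod p)ˣ) : ZMod p)
    have e : ζ ^ ((i.val + j.val) % (2 * n)) = ζ ^ (i.val + j.val) := by
      have := pow_mod_orderOf ζ (i.val + j.val)
      rwa [hoζ] at this
    rw [← Units.val_mul, ← pow_add, ZMod.val_add, e]
  have hwn : w (n : ZMod (2 * n)) = -1 := by
    have hval : ((n : ℕ) : ZMod (2 * n)).val = n := by
      rw [ZMod.val_natCast]; exact Nat.mod_eq_of_lt (by omega)
    show ((ζ ^ ((n : ℕ) : ZMod (2 * n)).val : (ZMod p)ˣ) : ZMod p) = -1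
    rw [hval]
    have hsq : ((ζ ^ n : (ZMod p)ˣ) : ZMod p) * ((ζ ^ n : (ZMod p)ˣ) : ZMod p) = 1 := by
      rw [← Units.val_mul, ← pow_add, ← two_mul, ← hoζ, pow_orderOf_eq_one, Units.val_one]
    rcases mul_self_eq_one_iff.mp hsq with h1 | h1
    · exfalso
      have h2 : ζ ^ n = 1 := Units.ext h1
      have h3 := orderOf_dvd_of_pow_eq_one h2
      rw [hoζ] at h3
      have := Nat.le_of_dvd (by omega) h3
      omega
    · exact h1
  have hw1 : ∀ i, w i = 1 → i = 0 := by
    intro i hi
    have h2 : ζ ^ i.val = 1 := Units.ext hi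
    have h3 := orderOf_dvd_of_pow_eq_one h2
    rw [hoζ] at h3
    have h4 : i.val < 2 * n := ZMod.val_lt i
    have h5 : i.val = 0 := Nat.eq_zero_of_dvd_of_lt h3 h4
    exact (ZMod.val_eq_zero i).mp h5
  have hinv : ∀ i, w i * w (-i) = 1 := fun i => by rw [← hwadd, add_neg_cancel, hw0]
  have h2ne : (2 : ZMod p) ≠ 0 := by
    intro h
    have h' : ((2 : ℕ) : ZMod p) = 0 := by exact_mod_cast h
    rw [ZMod.natCast_eq_zero_iff] at h'
    have := Nat.le_of_dvd (by norm_num) h'
    omega
  let act : DistribMulAction (QuaternionGroup n) (ZMod p × ZMod p) := qaction w hw0 hwadd hwn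
  have hsm : ∀ (g : QuaternionGroup n) (x : ZMod p × ZMod p), g • x = qsmul w g x :=
    fun g x => rfl
  have hfree : ∀ g : QuaternionGroup n, g ≠ 1 → ∀ x : ZMod p × ZMod p, g • x = x → x = 0 := by
    rintro (i | i) hg1 ⟨u, v⟩ hx
    · rw [hsm] at hx
      simp only [qsmul, Prod.mk.injEq] at hx
      have hi : i ≠ 0 := by
        rintro rfl
        exact hg1 rfl
      have hwi : w i ≠ 1 := fun h => hi (hw1 i h)
      have hwi' : w (-i) ≠ 1 := fun h => hi (neg_eq_zero.mp (hw1 (-i) h))
      have hu : (w i - 1) * u = 0 := by rw [sub_mul, hx.1, one_mul, sub_self]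
      have hv : (w (-i) - 1) * v = 0 := by rw [sub_mul, hx.2, one_mul, sub_self]
      have hu0 : u = 0 := (mul_eq_zero.mp hu).resolve_left (sub_ne_zero.mpr hwi)
      have hv0 : v = 0 := (mul_eq_zero.mp hv).resolve_left (sub_ne_zero.mpr hwi')
      rw [hu0, hv0]; rfl
    · rw [hsm] at hx
      simp only [qsmul, Prod.mk.injEq] at hx
      obtain ⟨h1, h2⟩ := hx
      have hu : 2 * u = 0 := by
        have : u = -u := by
          calc u = w (-i) * v := h1.symm
            _ = w (-i) * (-(w i * u)) := by rw [h2]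
            _ = -((w i * w (-i)) * u) := by ring
            _ = -u := by rw [hinv, one_mul]
        linear_combination this
      have hu0 : u = 0 := (mul_eq_zero.mp hu).resolve_left h2ne
      have hv0 : v = 0 := by rw [← h2, hu0]; ring
      rw [hu0, hv0]; rfl
  obtain ⟨L, iG, iF, K, hK, ⟨e⟩⟩ :=
    Helper71.exists_frobenius_of_free_distribMulAction (H := QuaternionGroup n)
      (A := ZMod p × ZMod p) hfree
  exact ⟨L, iG, iF, K, hK, ⟨e.symm⟩⟩

end Cfsg.Agent.S4297
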