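-- Statement S4298: SL(2,3) is a Frobenius complement (acting on the plane over the field with 5 elements).
import Cfsg.Statements.S4298
import Cfsg.Agent.Helper71.Frobenius

set_option autoImplicit false
open Cfsg

namespace Cfsg.Agent.S4298

/-- Table of an embedding of SL(2,3) into SL(2,5), indexed by the entries of the matrix. -/
def tbl : List (ZMod 5 × ZMod 5 × ZMod 5 × ZMod 5) :=
  [(1, 0, 0, 1), (1, 0, 0, 1), (1, 0, 0, 1), (1, 0, 0, 1), (1, 0, 0, 1), (1, 0, 0, 1), (1, 0, 0, 1), (1, 0, 0, 1), (1, 0, 0, 1),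
   (1, 0, 0, 1), (1, 0, 0, 1), (1, 0, 0, 1), (1, 0, 0, 1), (1, 0, 0, 1), (1, 0, 0, 1), (0, 4, 1, 0), (2, 4, 3, 4), (3, 2, 1, 1),
   (1, 0, 0, 1), (1, 0, 0, 1), (1, 0, 0, 1), (0, 1, 4, 0), (2, 3, 4, 4), (3, 1, 2, 1), (1, 0, 0, 1), (1, 0, 0, 1), (1, 0, 0, 1),
   (1, 0, 0, 1), (1, 0, 0, 1), (1, 0, 0, 1), (1, 0, 0, 1), (1, 2, 1, 3), (1, 0, 0, 1), (1, 0, 0, 1), (3, 3, 4, 1), (1, 0, 0, 1),
   (1, 0, 0, 1), (1, 1, 2, 3), (1, 0, 0, 1), (1, 0, 0, 1), (1, 0, 0, 1), (0, 2, 2, 0), (4, 2, 1, 2), (1, 0, 0, 1), (1, 0, 0, 1),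
   (1, 0, 0, 1), (3, 4, 3, 1), (1, 0, 0, 1), (4, 1, 2, 2), (1, 0, 0, 1), (1, 0, 0, 1), (1, 0, 0, 1), (1, 0, 0, 1), (3, 0, 0, 2),
   (1, 0, 0, 1), (1, 0, 0, 1), (4, 0, 0, 4), (1, 0, 0, 1), (1, 0, 0, 1), (2, 2, 1, 4), (1, 0, 0, 1), (1, 0, 0, 1), (4, 3, 4, 2),
   (1, 0, 0, 1), (1, 0, 0, 1), (2, 1, 2, 4), (1, 0, 0, 1), (2, 0, 0, 3), (1, 0, 0, 1), (1, 4, 3, 3), (1, 0, 0, 1), (1, 0, 0, 1),
   (1, 0, 0, 1), (1, 0, 0, 1), (4, 4, 3, 2), (1, 3, 4, 3), (1, 0, 0, 1), (1, 0, 0, 1), (1, 0, 0, 1), (0, 3, 3, 0), (1, 0, 0, 1)]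

/-- The image of the matrix with entries a, b, c, d. -/
def F4 (a b c d : ZMod 3) : ZMod 5 × ZMod 5 × ZMod 5 × ZMod 5 :=
  tbl.getD (a.val * 27 + b.val * 9 + c.val * 3 + d.val) (1, 0, 0, 1)

/-- Multiplication of 2×2 matrices written as 4-tuples. -/
def mul4 (x y : ZMod 5 × ZMod 5 × ZMod 5 × ZMod 5) : ZMod 5 × ZMod 5 × ZMod 5 × ZMod 5 :=
  (x.1 * y.1 + x.2.1 * y.2.2.1, x.1 * y.2.1 + x.2.1 * y.2.2.2,
   x.2.2.1 * y.1 + x.2.2.2 * y.2.2.1, x.2.2.1 * y.2.1 + x.2.2.2 * y.2.2.2)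

/-- The matrix of a 4-tuple. -/
def toM (x : ZMod 5 × ZMod 5 × ZMod 5 × ZMod 5) : Matrix (Fin 2) (Fin 2) (ZMod 5) :=
  !![x.1, x.2.1; x.2.2.1, x.2.2.2]

theorem toM_mul4 (x y : ZMod 5 × ZMod 5 × ZMod 5 × ZMod 5) :
    toM (mul4 x y) = toM x * toM y := by
  simp [toM, mul4]

set_option maxRecDepth 100000 in
theorem key_mul : ∀ a b c d a' b' c' d' : ZMod 3, a * d - b * c = 1 → a' * d' - b' * c' = 1 →
    F4 (a * a' + b * c') (a * b' + b * d') (c * a' + d * c') (c * b' + d * d') =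
      mul4 (F4 a b c d) (F4 a' b' c' d') := by
  decide +kernel

set_option maxRecDepth 100000 in
theorem key_free : ∀ a b c d : ZMod 3, a * d - b * c = 1 →
    ¬ (a = 1 ∧ b = 0 ∧ c = 0 ∧ d = 1) →
    ((F4 a b c d).1 - 1) * ((F4 a b c d).2.2.2 - 1) - (F4 a b c d).2.1 * (F4 a b c d).2.2.1 ≠ 0 := by
  decide +kernel

/-- The representation of SL(2,3) on the plane over the field with 5 elements. -/
def rho (g : Matrix.SpecialLinearGroup (Fin 2) (ZMod 3)) : Matrix (Fin 2) (Fin 2) (ZMod 5) :=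
  toM (F4 (g.1 0 0) (g.1 0 1) (g.1 1 0) (g.1 1 1))

theorem det_eq (g : Matrix.SpecialLinearGroup (Fin 2) (ZMod 3)) :
    g.1 0 0 * g.1 1 1 - g.1 0 1 * g.1 1 0 = 1 := by
  have := g.2
  rw [Matrix.det_fin_two] at this
  exact this

theorem rho_one : rho 1 = 1 := by
  have h : F4 1 0 0 1 = (1, 0, 0, 1) := by decide +kernel
  simp [rho, toM, h, Matrix.one_fin_two]

theorem rho_mul (g h : Matrix.SpecialLinearGroup (Fin 2) (ZMod 3)) :
    rho (g * h) = rho g * rho h := by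
  unfold rho
  rw [← toM_mul4, ← key_mul _ _ _ _ _ _ _ _ (det_eq g) (det_eq h)]
  simp [Matrix.SpecialLinearGroup.coe_mul, Matrix.mul_apply, Fin.sum_univ_two]

/-- The action of SL(2,3) on the plane over the field with 5 elements. -/
@[reducible] def act : DistribMulAction (Matrix.SpecialLinearGroup (Fin 2) (ZMod 3)) (Fin 2 → ZMod 5) where
  smul g v := (rho g).mulVec v
  one_smul v := by show (rho 1).mulVec v = v; rw [rho_one, Matrix.one_mulVec]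
  mul_smul g h v := by
    show (rho (g * h)).mulVec v = (rho g).mulVec ((rho h).mulVec v)
    rw [rho_mul, Matrix.mulVec_mulVec]
  smul_zero g := by show (rho g).mulVec 0 = 0; rw [Matrix.mulVec_zero]
  smul_add g v w := by
    show (rho g).mulVec (v + w) = (rho g).mulVec v + (rho g).mulVec w
    rw [Matrix.mulVec_add]

/-- The group SL(2,3) of order 24 (the binary tetrahedral group) occurs as a Frobenius complement of some finite Frobenius group. -/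
theorem result :
    ∃ (L : Type) (_ : Group L) (_ : Finite L) (H : Subgroup L), Cfsg.IsFrobeniusComplement H ∧ Nonempty (H ≃* Matrix.SpecialLinearGroup (Fin 2) (ZMod 3)) := by
  have hp5 : Fact (Nat.Prime 5) := ⟨by norm_num⟩
  have hp3 : Fact (Nat.Prime 3) := ⟨by norm_num⟩
  have hfinG : Finite (Matrix.SpecialLinearGroup (Fin 2) (ZMod 3)) :=
    Finite.of_injective (fun g => g.1) (fun g h hgh => Subtype.ext hgh)
  have hntG : Nontrivial (Matrix.SpecialLinearGroup (Fin 2) (ZMod 3)) := by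
    refine ⟨⟨⟨!![1, 1; 0, 1], by simp [Matrix.det_fin_two]⟩, 1, ?_⟩⟩
    intro h
    have := congrArg (fun g : Matrix.SpecialLinearGroup (Fin 2) (ZMod 3) => g.1 0 1) h
    simp at this
  let a := act
  have hfree : ∀ g : Matrix.SpecialLinearGroup (Fin 2) (ZMod 3), g ≠ 1 →
      ∀ v : Fin 2 → ZMod 5, g • v = v → v = 0 := by
    intro g hg v hv
    have hv' : (rho g).mulVec v = v := hv
    have hne : ¬ (g.1 0 0 = 1 ∧ g.1 0 1 = 0 ∧ g.1 1 0 = 0 ∧ g.1 1 1 = 1) := by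
      rintro ⟨h00, h01, h10, h11⟩
      apply hg
      apply Subtype.ext
      ext i j
      fin_cases i <;> fin_cases j <;> simp [h00, h01, h10, h11]
    have hdet := key_free _ _ _ _ (det_eq g) hne
    have hdet' : (rho g - 1).det ≠ 0 := by
      rw [Matrix.det_fin_two]
      simpa [rho, toM] using hdet
    apply Matrix.eq_zero_of_mulVec_eq_zero hdet'
    rw [Matrix.sub_mulVec, hv', Matrix.one_mulVec, sub_self]
  obtain ⟨L, iG, iF, K, hK, ⟨e⟩⟩ :=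
    Helper71.exists_frobenius_of_free_distribMulAction
      (H := Matrix.SpecialLinearGroup (Fin 2) (ZMod 3)) (A := Fin 2 → ZMod 5) hfree
  exact ⟨L, iG, iF, K, hK, ⟨e.symm⟩⟩

end Cfsg.Agent.S4298
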