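-- Statement S4299: every nontrivial finite cyclic group is a Frobenius complement.
import Cfsg.Statements.S4299
import Cfsg.Agent.Helper71.Frobenius

set_option autoImplicit false
open Cfsg

namespace Cfsg.Agent.S4299

/-- Every nontrivial finite cyclic group occurs as a Frobenius complement of some finite Frobenius group. -/
theorem result {C : Type*} [Group C] [Finite C] [IsCyclic C] [Nontrivial C] :
    ∃ (L : Type) (_ : Group L) (_ : Finite L) (H : Subgroup L), Cfsg.IsFrobeniusComplement H ∧ Nonempty (C ≃* H) := by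
  have hn2 : 1 < Nat.card C := Finite.one_lt_card
  obtain ⟨p, hp, hpn, hmod⟩ := Nat.exists_prime_gt_modEq_one (k := Nat.card C) (Nat.card C)
    (by omega)
  have : Fact p.Prime := ⟨hp⟩
  have hdvd : Nat.card C ∣ p - 1 := (Nat.modEq_iff_dvd' hp.one_lt.le).mp hmod.symm
  obtain ⟨g, hg⟩ := IsCyclic.exists_generator (α := (ZMod p)ˣ)
  have hog : orderOf g = p - 1 := by
    rw [orderOf_eq_card_of_forall_mem_zpowers hg, Nat.card_eq_fintype_card, ZMod.card_units]
  have hp1 : p - 1 ≠ 0 := by have := hp.one_lt; omega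
  obtain ⟨m, hm⟩ := hdvd
  have hm0 : m ≠ 0 := by
    rintro rfl
    rw [mul_zero] at hm
    exact hp1 hm
  set ζ : (ZMod p)ˣ := g ^ m with hζ
  have hoζ : orderOf ζ = Nat.card C := by
    rw [hζ, orderOf_pow_of_dvd hm0 (by rw [hog, hm]; exact dvd_mul_left _ _), hog, hm]
    exact Nat.mul_div_cancel _ (Nat.pos_of_ne_zero hm0)
  let H : Subgroup (ZMod p)ˣ := Subgroup.zpowers ζ
  have hcardH : Nat.card H = Nat.card C := by
    rw [Nat.card_zpowers, hoζ]
  have : Nontrivial H := by
    rw [← Finite.one_lt_card_iff_nontrivial, hcardH]; exact hn2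
  have hfree : ∀ h : H, h ≠ 1 → ∀ a : ZMod p, h • a = a → a = 0 := by
    intro h hh a ha
    have h1 : (((h : (ZMod p)ˣ) : ZMod p) - 1) * a = 0 := by
      have : ((h : (ZMod p)ˣ) : ZMod p) * a = a := ha
      rw [sub_mul, this, one_mul, sub_self]
    rcases mul_eq_zero.mp h1 with h2 | h2
    · exfalso
      apply hh
      have h3 : ((h : (ZMod p)ˣ) : ZMod p) = 1 := sub_eq_zero.mp h2
      exact Subtype.ext (Units.ext h3)
    · exact h2
  obtain ⟨L, iG, iF, K, hK, ⟨e⟩⟩ :=
    Helper71.exists_frobenius_of_free_distribMulAction (H := H) (A := ZMod p) hfree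
  exact ⟨L, iG, iF, K, hK, ⟨(mulEquivOfCyclicCardEq hcardH.symm).trans e⟩⟩

end Cfsg.Agent.S4299
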