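-- Statement S4300: a faithful primitive group with simple point stabilizer is simple or has a regular normal subgroup.
import Cfsg.Statements.S4300

set_option autoImplicit false
open Cfsg

namespace Cfsg.Agent.S4300

/-- Let G act faithfully and primitively on a set X, and suppose the stabilizer of some point is a simple group. Then either G is simple, or G has a normal subgroup, neither trivial nor the whole group, that acts regularly on X (transitively with trivial point stabilizers). -/
theorem result {G : Type*} [Group G] {X : Type*} [MulAction G X] [FaithfulSMul G X]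
    (hprim : MulAction.IsPreprimitive G X) (x : X) (hsimple : IsSimpleGroup (MulAction.stabilizer G x)) :
    IsSimpleGroup G ∨ ∃ N : Subgroup G, N.Normal ∧ N ≠ ⊥ ∧ N ≠ ⊤ ∧
      MulAction.IsPretransitive N X ∧ ∀ y : X, MulAction.stabilizer N y = ⊥ := by
  classical
  by_cases hG : IsSimpleGroup G
  · exact Or.inl hG
  right
  have hnt : Nontrivial G := by
    obtain ⟨a, b, hab⟩ := hsimple.toNontrivial
    exact ⟨⟨a, b, fun h => hab (Subtype.ext h)⟩⟩
  have hex : ∃ N : Subgroup G, N.Normal ∧ N ≠ ⊥ ∧ N ≠ ⊤ := by
    by_contra hcon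
    push Not at hcon
    apply hG
    refine ⟨fun N hN => ?_⟩
    by_cases h : N = ⊥
    · exact Or.inl h
    · exact Or.inr (hcon N hN h)
  obtain ⟨N, hN, hNbot, hNtop⟩ := hex
  -- N moves some point
  obtain ⟨n, hnN, hn1⟩ : ∃ n ∈ N, n ≠ 1 := by
    by_contra hcon
    push Not at hcon
    exact hNbot ((Subgroup.eq_bot_iff_forall N).mpr hcon)
  obtain ⟨y0, hy0⟩ : ∃ y : X, n • y ≠ y := by
    by_contra hcon
    push Not at hcon
    apply hn1
    apply FaithfulSMul.eq_of_smul_eq_smul (α := X)
    intro a
    rw [hcon a, one_smul]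
  have hNX : MulAction.fixedPoints N X ≠ Set.univ := by
    intro h
    have hmem : y0 ∈ MulAction.fixedPoints N X := by rw [h]; exact Set.mem_univ _
    exact hy0 (hmem ⟨n, hnN⟩)
  have htrans : MulAction.IsPretransitive N X :=
    MulAction.IsQuasiPreprimitive.isPretransitive_of_normal hNX
  have hXnt : Nontrivial X := ⟨⟨n • y0, y0, hy0⟩⟩
  have hcoatom : IsCoatom (MulAction.stabilizer G x) :=
    MulAction.IsPreprimitive.isCoatom_stabilizer_of_isPreprimitive G x
  -- N meets the stabilizer of x trivially
  have hdisj : ∀ g : G, g ∈ N → g • x = x → g = 1 := by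
    have hMn : (N.subgroupOf (MulAction.stabilizer G x)).Normal := Subgroup.normal_subgroupOf
    rcases hsimple.eq_bot_or_eq_top_of_normal _ hMn with hb | ht
    · intro g hgN hgx
      have hmem : (⟨g, hgx⟩ : MulAction.stabilizer G x) ∈ N.subgroupOf (MulAction.stabilizer G x) := by
        rw [Subgroup.mem_subgroupOf]; exact hgN
      rw [hb, Subgroup.mem_bot] at hmem
      exact congrArg Subtype.val hmem
    · exfalso
      have hle : MulAction.stabilizer G x ≤ N := by
        rw [Subgroup.subgroupOf_eq_top] at ht
        exact ht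
      have hEq : N = MulAction.stabilizer G x := by
        rcases eq_or_lt_of_le hle with h | h
        · exact h.symm
        · exact absurd (hcoatom.2 N h) hNtop
      obtain ⟨y, hy⟩ := exists_ne x
      obtain ⟨m, hm⟩ := MulAction.exists_smul_eq N x y
      have hm' : (m : G) ∈ MulAction.stabilizer G x := hEq ▸ m.2
      have : (m : G) • x = x := hm'
      exact hy (hm ▸ this.symm ▸ rfl)
  refine ⟨N, hN, hNbot, hNtop, htrans, ?_⟩
  intro y
  rw [Subgroup.eq_bot_iff_forall]
  intro m hm
  have hpre : MulAction.IsPretransitive G X := hprim.toIsPretransitive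
  obtain ⟨g, hg⟩ := MulAction.exists_smul_eq G x y
  have hmy : (m : G) • y = y := hm
  have h1 : g⁻¹ * (m : G) * g = 1 := by
    apply hdisj
    · have := hN.conj_mem (m : G) m.2 g⁻¹
      simpa using this
    · rw [mul_smul, mul_smul, hg, hmy, ← hg, inv_smul_smul]
  have h2 : (m : G) = 1 := by
    have : (m : G) = g * (g⁻¹ * (m : G) * g) * g⁻¹ := by group
    rw [this, h1]; group
  exact Subtype.ext h2

end Cfsg.Agent.S4300
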