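-- Statement S4301: Witt's one-point extension lemma for multiply transitive groups.
import Cfsg.Statements.S4301

set_option autoImplicit false
open Cfsg

namespace Cfsg.Agent.S4301

/-- One-point extension of a multiply transitive group. Let X be a set and G a group of permutations of Option X (the set X with one extra point ∗ = none) all of whose elements fix ∗, such that G is k-transitive on the points of X for some k ≥ 2, X having at least k points. Suppose a permutation h of Option X and an element g of G satisfy: h interchanges ∗ with a point x of X and fixes a point y of X; g interchanges x and y; (g h)³ and h² lie in G; and for every f in G fixing x, the product h f h lies in G and fixes x. Then an element of the group generated by G and h fixes ∗ exactly when it lies in G, and that group acts (k+1)-transitively on Option X. -/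
theorem result {X : Type*} (G : Subgroup (Equiv.Perm (Option X))) (hfix : ∀ f ∈ G, f none = none)
    (k : ℕ) (hk : 2 ≤ k) (hkX : Nonempty (Fin k ↪ X))
    (htrans : ∀ a b : Fin k ↪ X, ∃ f ∈ G, ∀ i, f (some (a i)) = some (b i))
    (h g : Equiv.Perm (Option X)) (hg : g ∈ G) (x y : X)
    (h1 : h none = some x) (h2 : h (some x) = none) (h3 : h (some y) = some y)
    (h4 : g (some x) = some y) (h5 : g (some y) = some x)
    (h6 : (g * h) ^ 3 ∈ G) (h7 : h ^ 2 ∈ G)
    (h8 : ∀ f ∈ G, f (some x) = some x → h * f * h ∈ G ∧ (h * f * h) (some x) = some x) :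
    (∀ f ∈ Subgroup.closure ((G : Set (Equiv.Perm (Option X))) ∪ {h}), f none = none ↔ f ∈ G) ∧
      MulAction.IsMultiplyPretransitive (Subgroup.closure ((G : Set (Equiv.Perm (Option X))) ∪ {h})) (Option X) (k + 1) := by
  classical
  have hxy : x ≠ y := by
    rintro rfl
    rw [h2] at h3
    exact absurd h3 (by simp)
  -- 2-transitivity of G on X
  have hT2 : ∀ p0 p1 q0 q1 : X, p0 ≠ p1 → q0 ≠ q1 →
      ∃ f ∈ G, f (some p0) = some q0 ∧ f (some p1) = some q1 := by
    intro p0 p1 q0 q1 hp hq
    obtain ⟨e⟩ := hkX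
    have hperm : ∀ {a b c d : X}, a ≠ b → c ≠ d →
        ∃ σ : Equiv.Perm X, σ • a = c ∧ σ • b = d :=
      (MulAction.is_two_pretransitive_iff (G := Equiv.Perm X) (α := X)).mp
        (Equiv.Perm.isMultiplyPretransitive X 2)
    have he : e ⟨0, by omega⟩ ≠ e ⟨1, by omega⟩ := by
      intro h
      have := e.injective h
      simp at this
    obtain ⟨σ, hσ0, hσ1⟩ := hperm he hp
    obtain ⟨τ, hτ0, hτ1⟩ := hperm he hq
    obtain ⟨f, hf, hfi⟩ := htrans (e.trans σ.toEmbedding) (e.trans τ.toEmbedding)
    refine ⟨f, hf, ?_, ?_⟩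
    · have := hfi ⟨0, by omega⟩
      simp only [Function.Embedding.trans_apply, Equiv.coe_toEmbedding] at this
      rw [← Equiv.Perm.smul_def σ, ← Equiv.Perm.smul_def τ, hσ0, hτ0] at this
      exact this
    · have := hfi ⟨1, by omega⟩
      simp only [Function.Embedding.trans_apply, Equiv.coe_toEmbedding] at this
      rw [← Equiv.Perm.smul_def σ, ← Equiv.Perm.smul_def τ, hσ1, hτ1] at this
      exact this
  -- elements of G map points of X to points of X
  have hsome : ∀ f ∈ G, ∀ z : X, ∃ w : X, f (some z) = some w := by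
    intro f hf z
    have hne : f (some z) ≠ none := by
      intro h0
      have h9 : f (some z) = f none := by rw [h0, hfix f hf]
      exact absurd (f.injective h9) (by simp)
    exact Option.ne_none_iff_exists'.mp hne
  -- double coset decomposition of G
  have hdc : ∀ f ∈ G, f (some x) = some x ∨ ∃ a ∈ G, ∃ b ∈ G,
      a (some x) = some x ∧ b (some x) = some x ∧ f = a * g * b := by
    intro f hf
    obtain ⟨z, hz⟩ := hsome f hf x
    by_cases hzx : z = x
    · left; rw [hz, hzx]
    · right
      obtain ⟨a, ha, hax, hay⟩ := hT2 x y x z hxy (Ne.symm hzx)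
      refine ⟨a, ha, g⁻¹ * a⁻¹ * f, G.mul_mem (G.mul_mem (G.inv_mem hg) (G.inv_mem ha)) hf,
        hax, ?_, by group⟩
      simp only [Equiv.Perm.coe_mul, Function.comp_apply]
      rw [hz, Equiv.Perm.inv_eq_iff_eq.mpr hay.symm, Equiv.Perm.inv_eq_iff_eq.mpr h4.symm]
  -- the key closure property
  have key1 : ∀ f ∈ G, h * f * h ∈ G ∨ ∃ a ∈ G, ∃ b ∈ G, h * f * h = a * h * b := by
    intro f hf
    rcases hdc f hf with hfx | ⟨a, ha, b, hb, hax, hbx, rfl⟩
    · exact Or.inl (h8 f hf hfx).1
    · right
      have e3 : (g * h) ^ 3 = g * h * (g * h) * (g * h) := by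
        rw [pow_succ, pow_succ, pow_one]
      refine ⟨(h * a * h) * (h ^ 2)⁻¹ * g⁻¹ * (g * h) ^ 3 * (h ^ 2)⁻¹, ?_,
        g⁻¹ * (h ^ 2)⁻¹ * (h * b * h), ?_, by rw [e3]; group⟩
      · exact G.mul_mem (G.mul_mem (G.mul_mem (G.mul_mem (h8 a ha hax).1 (G.inv_mem h7))
          (G.inv_mem hg)) h6) (G.inv_mem h7)
      · exact G.mul_mem (G.mul_mem (G.inv_mem hg) (G.inv_mem h7)) (h8 b hb hbx).1
  have hP : ∀ f ∈ Subgroup.closure ((G : Set (Equiv.Perm (Option X))) ∪ {h}),
      f ∈ G ∨ ∃ a ∈ G, ∃ b ∈ G, f = a * h * b := by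
    intro f hf
    induction hf using Subgroup.closure_induction with
    | mem f hf =>
      rcases hf with hf | hf
      · exact Or.inl hf
      · rw [Set.mem_singleton_iff] at hf
        exact Or.inr ⟨1, G.one_mem, 1, G.one_mem, by rw [hf]; group⟩
    | one => exact Or.inl G.one_mem
    | mul f1 f2 _ _ hf1 hf2 =>
      rcases hf1 with hf1 | ⟨a, ha, b, hb, rfl⟩
      · rcases hf2 with hf2 | ⟨a', ha', b', hb', rfl⟩
        · exact Or.inl (G.mul_mem hf1 hf2)
        · exact Or.inr ⟨f1 * a', G.mul_mem hf1 ha', b', hb', by group⟩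
      · rcases hf2 with hf2 | ⟨a', ha', b', hb', rfl⟩
        · exact Or.inr ⟨a, ha, b * f2, G.mul_mem hb hf2, by group⟩
        · rcases key1 (b * a') (G.mul_mem hb ha') with hc | ⟨A, hA, B, hB, hAB⟩
          · left
            have e : a * h * b * (a' * h * b') = a * (h * (b * a') * h) * b' := by group
            rw [e]
            exact G.mul_mem (G.mul_mem ha hc) hb'
          · right
            refine ⟨a * A, G.mul_mem ha hA, B * b', G.mul_mem hB hb', ?_⟩
            have e : a * h * b * (a' * h * b') = a * (h * (b * a') * h) * b' := by group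
            rw [e, hAB]; group
    | inv f _ hf =>
      rcases hf with hf | ⟨a, ha, b, hb, rfl⟩
      · exact Or.inl (G.inv_mem hf)
      · exact Or.inr ⟨b⁻¹ * (h ^ 2)⁻¹, G.mul_mem (G.inv_mem hb) (G.inv_mem h7), a⁻¹,
          G.inv_mem ha, by group⟩
  have hpart1 : ∀ f ∈ Subgroup.closure ((G : Set (Equiv.Perm (Option X))) ∪ {h}),
      f none = none ↔ f ∈ G := by
    intro f hf
    constructor
    · intro hfn
      rcases hP f hf with hfG | ⟨a, ha, b, hb, rfl⟩
      · exact hfG
      · exfalso
        simp only [Equiv.Perm.coe_mul, Function.comp_apply] at hfn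
        rw [hfix b hb, h1] at hfn
        obtain ⟨w, hw⟩ := hsome a ha x
        rw [hw] at hfn
        exact absurd hfn (by simp)
    · exact hfix f
  refine ⟨hpart1, ?_⟩
  -- transitivity of the closure
  set M := Subgroup.closure ((G : Set (Equiv.Perm (Option X))) ∪ {h}) with hM
  have hGM : ∀ f ∈ G, f ∈ M := fun f hf => Subgroup.subset_closure (Or.inl hf)
  have hhM : h ∈ M := Subgroup.subset_closure (Or.inr rfl)
  have hsmul : ∀ (m : M) (w : Option X), m • w = (m : Equiv.Perm (Option X)) w := fun m w => rfl
  have hbase : ∀ w : Option X, ∃ m : M, m • (none : Option X) = w := by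
    intro w
    rcases w with _ | z
    · exact ⟨1, one_smul _ _⟩
    · have hex : ∃ q1 : X, z ≠ q1 := by
        by_cases hzx : z = x
        · exact ⟨y, by rw [hzx]; exact hxy⟩
        · exact ⟨x, hzx⟩
      obtain ⟨q1, hq1⟩ := hex
      obtain ⟨f, hf, hfx, -⟩ := hT2 x y z q1 hxy hq1
      refine ⟨⟨f * h, M.mul_mem (hGM f hf) hhM⟩, ?_⟩
      rw [hsmul]
      simp only [Equiv.Perm.coe_mul, Function.comp_apply]
      rw [h1, hfx]
  have hpre : MulAction.IsPretransitive M (Option X) := by
    constructor
    intro w1 w2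
    obtain ⟨m1, hm1⟩ := hbase w1
    obtain ⟨m2, hm2⟩ := hbase w2
    refine ⟨m2 * m1⁻¹, ?_⟩
    rw [mul_smul, ← hm1, inv_smul_smul, hm2]
  rw [SubMulAction.ofStabilizer.isMultiplyPretransitive (a := (none : Option X))]
  constructor
  intro u v
  have hu : ∀ i, ∃ z : X, ((u i : SubMulAction.ofStabilizer M (none : Option X)) : Option X) = some z := by
    intro i
    have := (u i).2
    rw [SubMulAction.mem_ofStabilizer_iff] at this
    exact Option.ne_none_iff_exists'.mp this
  have hv : ∀ i, ∃ z : X, ((v i : SubMulAction.ofStabilizer M (none : Option X)) : Option X) = some z := by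
    intro i
    have := (v i).2
    rw [SubMulAction.mem_ofStabilizer_iff] at this
    exact Option.ne_none_iff_exists'.mp this
  choose a ha using hu
  choose b hb using hv
  have hainj : Function.Injective a := by
    intro i j hij
    apply u.injective
    apply Subtype.ext
    rw [ha, ha, hij]
  have hbinj : Function.Injective b := by
    intro i j hij
    apply v.injective
    apply Subtype.ext
    rw [hb, hb, hij]
  obtain ⟨f, hf, hfi⟩ := htrans ⟨a, hainj⟩ ⟨b, hbinj⟩
  have hfstab : (⟨f, hGM f hf⟩ : M) ∈ MulAction.stabilizer M (none : Option X) := by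
    rw [MulAction.mem_stabilizer_iff, hsmul]
    exact hfix f hf
  refine ⟨⟨⟨f, hGM f hf⟩, hfstab⟩, ?_⟩
  apply Function.Embedding.ext
  intro i
  apply Subtype.ext
  rw [Function.Embedding.smul_apply]
  have h9 := hfi i
  simp only [Function.Embedding.coeFn_mk] at h9
  show f ((u i : SubMulAction.ofStabilizer M (none : Option X)) : Option X) = _
  rw [ha, h9, hb]

end Cfsg.Agent.S4301
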