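import Cfsg.Statements.S4302
import Mathlib
import Cfsg.Agent.Helper10.GlauB
import Cfsg.Agent.S0617

set_option autoImplicit false
open Cfsg

namespace Cfsg.Agent.S4302

open Cfsg.Agent.Helper10

/-- `J(P) = J(T)` for `J(T) ≤ P ≤ T` (abelian version). -/
theorem JA_eq_of_le {X : Type*} [Group X] [Finite X] {T P : Subgroup X}
    (h1 : Helper19.JA T ≤ P) (h2 : P ≤ T) : Helper19.JA P = Helper19.JA T := by
  unfold Helper19.JA
  congr 1
  ext A
  constructor
  · rintro ⟨hAP, hAab, hmax⟩
    obtain ⟨A₀, hA₀⟩ := Helper19.exists_maxAb T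
    have hA₀P : A₀ ≤ P := (le_sSup hA₀ : A₀ ≤ Helper19.JA T).trans h1
    have hc := hmax A₀ hA₀P hA₀.2.1
    exact ⟨hAP.trans h2, hAab, fun B hB hBab => (hA₀.2.2 B hB hBab).trans hc⟩
  · rintro ⟨hAT, hAab, hmax⟩
    exact ⟨(le_sSup ⟨hAT, hAab, hmax⟩ : A ≤ Helper19.JA T).trans h1, hAab,
      fun B hB hBab => hmax B (hB.trans h2) hBab⟩

/-- The Frattini argument: `X = ⟨J(T)^X⟩ N_X(J(T))`. -/
theorem part1 {X : Type*} [Group X] [Finite X] (T : Sylow 2 X) :
    Subgroup.normalClosure (Cfsg.thompsonSubgroupAOf (T : Subgroup X) : Set X) ⊔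
      Subgroup.normalizer (Cfsg.thompsonSubgroupAOf (T : Subgroup X) : Set X) = ⊤ := by
  haveI : Fact (Nat.Prime 2) := ⟨Nat.prime_two⟩
  have hJT : Cfsg.thompsonSubgroupAOf (T : Subgroup X) ≤ (T : Subgroup X) := by
    rw [Helper19.thompsonSubgroupAOf_eq_JA]; exact Helper19.JA_le _
  have hJP : Cfsg.thompsonSubgroupAOf (T : Subgroup X) ≤ (T : Subgroup X) ⊓
      Subgroup.normalClosure (Cfsg.thompsonSubgroupAOf (T : Subgroup X) : Set X) :=
    le_inf hJT Subgroup.le_normalClosure
  have hPY : (T : Subgroup X) ⊓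
      Subgroup.normalClosure (Cfsg.thompsonSubgroupAOf (T : Subgroup X) : Set X) ≤
      Subgroup.normalClosure (Cfsg.thompsonSubgroupAOf (T : Subgroup X) : Set X) := inf_le_right
  have hcard := Helper50.card_sylow_inf_of_isSubnormal T
    (A := Subgroup.normalClosure (Cfsg.thompsonSubgroupAOf (T : Subgroup X) : Set X))
    (Subgroup.Normal.isSubnormal inferInstance)
  have hcard' : Nat.card ↥(((T : Subgroup X) ⊓
      Subgroup.normalClosure (Cfsg.thompsonSubgroupAOf (T : Subgroup X) : Set X)).subgroupOf
        (Subgroup.normalClosure (Cfsg.thompsonSubgroupAOf (T : Subgroup X) : Set X))) =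
      2 ^ (Nat.card (Subgroup.normalClosure
        (Cfsg.thompsonSubgroupAOf (T : Subgroup X) : Set X))).factorization 2 := by
    rw [Nat.card_congr (Subgroup.subgroupOfEquivOfLe hPY).toEquiv]; exact hcard
  have hfrat := Sylow.normalizer_sup_eq_top (Sylow.ofCard _ hcard')
  rw [Sylow.coe_ofCard, Subgroup.subgroupOf_map_subtype, inf_of_le_left hPY] at hfrat
  have hJeq : Helper19.JA ((T : Subgroup X) ⊓
      Subgroup.normalClosure (Cfsg.thompsonSubgroupAOf (T : Subgroup X) : Set X)) =
      Cfsg.thompsonSubgroupAOf (T : Subgroup X) := by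
    rw [Helper19.thompsonSubgroupAOf_eq_JA]
    apply JA_eq_of_le _ inf_le_left
    rw [← Helper19.thompsonSubgroupAOf_eq_JA]
    exact hJP
  have hN := Helper19.normalizer_le_normalizer_JA ((T : Subgroup X) ⊓
      Subgroup.normalClosure (Cfsg.thompsonSubgroupAOf (T : Subgroup X) : Set X))
  rw [hJeq] at hN
  rw [eq_top_iff, ← hfrat]
  exact sup_le (hN.trans le_sup_right) le_sup_left

/-- A subgroup which is the internal direct product of a family of normal subgroups isomorphic
to `SL(2, 2)` is a power of `S₃`. -/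
theorem s3_of_family {Γ : Type*} [Group Γ] [Finite Γ] (H : Subgroup Γ) (P : Subgroup Γ → Prop)
    (hE : ∀ E : {E : Subgroup Γ // P E},
      H ≤ Subgroup.normalizer ((E : Subgroup Γ) : Set Γ) ∧
        Nonempty (↥(E : Subgroup Γ) ≃* Matrix.SpecialLinearGroup (Fin 2) (ZMod 2)))
    (hind : iSupIndep (fun E : {E : Subgroup Γ // P E} => (E : Subgroup Γ)))
    (hsup : (⨆ E : {E : Subgroup Γ // P E}, (E : Subgroup Γ)) = H) (hH1 : H ≠ ⊥) :
    ∃ n : ℕ, 1 ≤ n ∧ Nonempty (↥H ≃* (Fin n → Equiv.Perm (Fin 3))) := by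
  have hne : Nonempty {E : Subgroup Γ // P E} := by
    by_contra hcon
    rw [not_nonempty_iff] at hcon
    apply hH1
    rw [← hsup]
    exact iSup_of_empty _
  obtain ⟨e⟩ := exists_mulEquiv_pi_perm_of_iSupIndep
    (fun E : {E : Subgroup Γ // P E} => (E : Subgroup Γ))
    (fun i => by rw [hsup]; exact (hE i).1) hind (fun i => (hE i).2)
  exact ⟨_, Nat.card_pos, ⟨(MulEquiv.subgroupCongr hsup.symm).trans e⟩⟩

/-- The core of the argument, for a normal elementary abelian `U ≤ T` with
`O₂(X / C_X(U)) = 1`. -/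
theorem glau_core {X : Type*} [Group X] [Finite X] [Group.IsSolvable X] (U : Subgroup X)
    [U.Normal] (hU : Cfsg.IsElementaryAbelian 2 U)
    (hD : ∀ D : Subgroup X, D.Normal → Subgroup.centralizer (U : Set X) ≤ D →
      (∃ k : ℕ, (Subgroup.centralizer (U : Set X)).relIndex D = 2 ^ k) →
      D = Subgroup.centralizer (U : Set X))
    (T : Sylow 2 X) (hUT : U ≤ (T : Subgroup X)) :
    Subgroup.normalClosure (Cfsg.thompsonSubgroupAOf (T : Subgroup X) : Set X) ≤
        Subgroup.centralizer (U : Set X) ∨
    ∃ n : ℕ, 1 ≤ n ∧ Nonempty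
      (↥(Subgroup.normalClosure (Cfsg.thompsonSubgroupAOf (T : Subgroup X) : Set X)) ⧸
        (Subgroup.centralizer (U : Set X)).subgroupOf
          (Subgroup.normalClosure (Cfsg.thompsonSubgroupAOf (T : Subgroup X) : Set X)) ≃*
        (Fin n → Equiv.Perm (Fin 3))) := by
  haveI : Fact (Nat.Prime 2) := ⟨Nat.prime_two⟩
  haveI := Helper11.holo_finite U
  have hVh := Helper11.holoV_elemAb U hU
  have hHV : (Subgroup.normalClosure (Cfsg.thompsonSubgroupAOf (T : Subgroup X) : Set X)).map
      (Helper11.holoHom U) ≤ Subgroup.normalizer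
        ((Helper11.holoV U : Subgroup (Helper11.Holo U)) : Set (Helper11.Holo U)) := by
    haveI := Helper11.holoV_normal U
    rw [Subgroup.normalizer_eq_top]
    exact le_top
  have hf := Helper11.holo_faithful U
    ((Subgroup.normalClosure (Cfsg.thompsonSubgroupAOf (T : Subgroup X) : Set X)).map
      (Helper11.holoHom U)) (Subgroup.map_le_range _ _)
  have hS1 := glau_hS1 U hD
    (Subgroup.normalClosure (Cfsg.thompsonSubgroupAOf (T : Subgroup X) : Set X))
  -- generation by best offenders
  have hS3 : (Subgroup.normalClosure (Cfsg.thompsonSubgroupAOf (T : Subgroup X) : Set X)).map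
      (Helper11.holoHom U) =
      ⨆ A : {A : Subgroup (Helper11.Holo U) //
        A ≤ (Subgroup.normalClosure (Cfsg.thompsonSubgroupAOf (T : Subgroup X) : Set X)).map
          (Helper11.holoHom U) ∧ Cfsg.IsBestOffenderOn 2 (Helper11.holoV U) A},
        (A : Subgroup (Helper11.Holo U)) := by
    apply le_antisymm _ (iSup_le (fun A => A.2.1))
    rw [Subgroup.map_le_iff_le_comap]
    unfold Subgroup.normalClosure
    rw [Subgroup.closure_le]
    intro y hy
    obtain ⟨x, hx, hxy⟩ := Group.mem_conjugatesOfSet_iff.mp hy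
    obtain ⟨g, rfl⟩ := isConj_iff.mp hxy
    have hx' : x ∈ Helper19.JA (T : Subgroup X) := by
      rw [← Helper19.thompsonSubgroupAOf_eq_JA]; exact hx
    have hmem : g * x * g⁻¹ ∈ Helper19.JA ((T : Subgroup X).map (MulAut.conj g).toMonoidHom) := by
      rw [Helper19.JA_map (MulAut.conj g).toMonoidHom ((MulAut.conj g).injective.injOn)]
      exact ⟨x, hx', rfl⟩
    have hT'' : IsPGroup 2 ↥((T : Subgroup X).map (MulAut.conj g).toMonoidHom) := T.2.map _
    have hUT'' : U ≤ (T : Subgroup X).map (MulAut.conj g).toMonoidHom := by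
      intro u hu
      refine ⟨g⁻¹ * u * g, hUT ?_, ?_⟩
      · have := (inferInstance : U.Normal).conj_mem u hu g⁻¹
        simpa using this
      · show g * (g⁻¹ * u * g) * g⁻¹ = u
        group
    have hJY : Helper19.JA ((T : Subgroup X).map (MulAut.conj g).toMonoidHom) ≤
        Subgroup.normalClosure (Cfsg.thompsonSubgroupAOf (T : Subgroup X) : Set X) := by
      rw [Helper19.JA_map (MulAut.conj g).toMonoidHom ((MulAut.conj g).injective.injOn)]
      rintro _ ⟨z, hz, rfl⟩
      have hz' : z ∈ Subgroup.normalClosure (Cfsg.thompsonSubgroupAOf (T : Subgroup X) : Set X) := by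
        apply Subgroup.le_normalClosure
        rw [Helper19.thompsonSubgroupAOf_eq_JA]; exact hz
      exact (inferInstance : (Subgroup.normalClosure
        (Cfsg.thompsonSubgroupAOf (T : Subgroup X) : Set X)).Normal).conj_mem z hz' g
    have hle : Helper19.JA ((T : Subgroup X).map (MulAut.conj g).toMonoidHom) ≤
        (⨆ A : {A : Subgroup (Helper11.Holo U) //
          A ≤ (Subgroup.normalClosure (Cfsg.thompsonSubgroupAOf (T : Subgroup X) : Set X)).map
            (Helper11.holoHom U) ∧ Cfsg.IsBestOffenderOn 2 (Helper11.holoV U) A},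
          (A : Subgroup (Helper11.Holo U))).comap (Helper11.holoHom U) := by
      unfold Helper19.JA
      apply sSup_le
      intro A hA
      rw [← Subgroup.map_le_iff_le_comap]
      have hAJ : A ≤ Helper19.JA ((T : Subgroup X).map (MulAut.conj g).toMonoidHom) :=
        le_sSup hA
      exact le_iSup_of_le ⟨A.map (Helper11.holoHom U), Subgroup.map_mono (hAJ.trans hJY),
        holo_maxAb_bestOffender U hU hD hT'' hUT'' hA⟩ le_rfl
    exact hle hmem
  by_cases hH1 : (Subgroup.normalClosure (Cfsg.thompsonSubgroupAOf (T : Subgroup X) : Set X)).map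
      (Helper11.holoHom U) = ⊥
  · left
    rw [Subgroup.map_eq_bot_iff, Helper11.holoHom_ker] at hH1
    exact hH1
  · right
    obtain ⟨-, hE, hind, hsup, -, -⟩ := Cfsg.Agent.S0617.result (Helper11.holoV U) _ hVh hHV hf
      hS1 hS3 hH1
    obtain ⟨n, hn, ⟨e⟩⟩ := s3_of_family _ _ (fun E => ⟨(hE E).1, (hE E).2.1⟩) hind hsup hH1
    refine ⟨n, hn, ?_⟩
    have hsurj := (Helper11.holoHom U).subgroupMap_surjective
      (Subgroup.normalClosure (Cfsg.thompsonSubgroupAOf (T : Subgroup X) : Set X))
    have hker : ((Helper11.holoHom U).subgroupMap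
        (Subgroup.normalClosure (Cfsg.thompsonSubgroupAOf (T : Subgroup X) : Set X))).ker =
        (Subgroup.centralizer (U : Set X)).subgroupOf
          (Subgroup.normalClosure (Cfsg.thompsonSubgroupAOf (T : Subgroup X) : Set X)) := by
      ext y
      rw [MonoidHom.mem_ker, Subgroup.mem_subgroupOf, ← Helper11.holoHom_ker, MonoidHom.mem_ker]
      constructor
      · intro h
        exact congrArg Subtype.val h
      · intro h
        exact Subtype.ext h
    exact ⟨((QuotientGroup.quotientMulEquivOfEq hker.symm).trans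
      (QuotientGroup.quotientKerEquivOfSurjective _ hsurj)).trans e⟩

/-- Let `X` be a finite solvable group whose Fitting subgroup is a 2-group (equivalently `F(X) = O₂(X)`), `T` a Sylow 2-subgroup of `X`, `J(T)` the subgroup generated by the abelian subgroups of `T` of largest order, `C` the largest normal subgroup of `X` centralizing the centre `Z(T)`, and `Y` the normal closure of `J(T)` in `X`. Then `X = C · Y · N_X(J(T))`, and either `Y ≤ C`, or `CY/C` is isomorphic to a direct product of at least one copy of the symmetric group of degree 3. -/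
theorem result {X : Type*} [Group X] [Finite X]
    [Group.IsSolvable X] (hF : Cfsg.fittingSubgroup X = Cfsg.pCore 2 X) (T : Sylow 2 X) :
    ((Subgroup.centralizer (((T : Subgroup X) ⊓ Subgroup.centralizer ((T : Subgroup X) : Set X) : Subgroup X) : Set X)).normalCore
        ⊔ Subgroup.normalClosure (Cfsg.thompsonSubgroupAOf (T : Subgroup X) : Set X)
        ⊔ Subgroup.normalizer (Cfsg.thompsonSubgroupAOf (T : Subgroup X) : Set X) = ⊤) ∧
    (Subgroup.normalClosure (Cfsg.thompsonSubgroupAOf (T : Subgroup X) : Set X)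
        ≤ (Subgroup.centralizer (((T : Subgroup X) ⊓ Subgroup.centralizer ((T : Subgroup X) : Set X) : Subgroup X) : Set X)).normalCore
      ∨ ∃ n : ℕ, 1 ≤ n ∧
        Nonempty (↥(Subgroup.normalClosure (Cfsg.thompsonSubgroupAOf (T : Subgroup X) : Set X)) ⧸
            ((Subgroup.centralizer (((T : Subgroup X) ⊓ Subgroup.centralizer ((T : Subgroup X) : Set X) : Subgroup X) : Set X)).normalCore).subgroupOf
              (Subgroup.normalClosure (Cfsg.thompsonSubgroupAOf (T : Subgroup X) : Set X))
          ≃* (Fin n → Equiv.Perm (Fin 3)))) := by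
  haveI : Fact (Nat.Prime 2) := ⟨Nat.prime_two⟩
  have hc := glau_V_comm hF T
  haveI hUn := omegaOne_two_normal hc
  have hU := omegaOne_two_elemAb hc
  have hCU := glau_centralizer_omega hF T
  have hD' : ∀ D : Subgroup X, D.Normal →
      Subgroup.centralizer ((Cfsg.omegaOne 2 (Subgroup.normalClosure (((T : Subgroup X) ⊓
        Subgroup.centralizer ((T : Subgroup X) : Set X) : Subgroup X) : Set X)) : Subgroup X) :
          Set X) ≤ D →
      (∃ k : ℕ, (Subgroup.centralizer ((Cfsg.omegaOne 2 (Subgroup.normalClosure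
        (((T : Subgroup X) ⊓ Subgroup.centralizer ((T : Subgroup X) : Set X) : Subgroup X) :
          Set X)) : Subgroup X) : Set X)).relIndex D = 2 ^ k) →
      D = Subgroup.centralizer ((Cfsg.omegaOne 2 (Subgroup.normalClosure (((T : Subgroup X) ⊓
        Subgroup.centralizer ((T : Subgroup X) : Set X) : Subgroup X) : Set X)) : Subgroup X) :
          Set X) := by
    intro D hDn hle hk
    rw [hCU] at hle hk ⊢
    exact glau_hD T D hDn hle hk
  have hUT : Cfsg.omegaOne 2 (Subgroup.normalClosure (((T : Subgroup X) ⊓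
      Subgroup.centralizer ((T : Subgroup X) : Set X) : Subgroup X) : Set X)) ≤
      (T : Subgroup X) :=
    (omegaOne_two_le _).trans (((glau_V_le hF T).trans inf_le_left).trans (pCore_le_sylow T))
  have hcore : (Subgroup.centralizer (((T : Subgroup X) ⊓
      Subgroup.centralizer ((T : Subgroup X) : Set X) : Subgroup X) : Set X)).normalCore =
      Subgroup.centralizer ((Subgroup.normalClosure (((T : Subgroup X) ⊓
        Subgroup.centralizer ((T : Subgroup X) : Set X) : Subgroup X) : Set X) : Subgroup X) :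
          Set X) := by
    apply le_antisymm
    · rw [Subgroup.le_centralizer_iff]
      apply Subgroup.normalClosure_le_normal
      have h1 : (Subgroup.centralizer (((T : Subgroup X) ⊓
          Subgroup.centralizer ((T : Subgroup X) : Set X) : Subgroup X) : Set X)).normalCore ≤
          Subgroup.centralizer (((T : Subgroup X) ⊓
          Subgroup.centralizer ((T : Subgroup X) : Set X) : Subgroup X) : Set X) :=
        Subgroup.normalCore_le _
      exact Subgroup.le_centralizer_iff.mp h1
    · rw [Subgroup.normal_le_normalCore]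
      exact Subgroup.centralizer_le Subgroup.subset_normalClosure
  refine ⟨?_, ?_⟩
  · rw [eq_top_iff, ← part1 T]
    exact sup_le (le_sup_of_le_left le_sup_right) le_sup_right
  · rcases glau_core _ hU hD' T hUT with h | ⟨n, hn, ⟨e⟩⟩
    · left
      rw [hcore, ← hCU]
      exact h
    · right
      refine ⟨n, hn, ⟨(QuotientGroup.quotientMulEquivOfEq ?_).trans e⟩⟩
      rw [hcore, ← hCU]

end Cfsg.Agent.S4302
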