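import Cfsg.Statements.S4304
import Cfsg.Agent.Helper71.SylFifteenE

set_option autoImplicit false
open Cfsg

namespace Cfsg.Agent.S4304

universe u

/-- Strong induction on the order: a group with `15` Sylow `7`-subgroups would have a normal
subgroup of index `2`, which again has `15` Sylow `7`-subgroups. -/
theorem card_sylow_seven_ne_fifteen_aux (n : ℕ) :
    ∀ (G : Type u) [Group G] [Finite G], Nat.card G = n → Nat.card (Sylow 7 G) ≠ 15 := by
  induction n using Nat.strong_induction_on with
  | _ n ih =>
    intro G _ _ hn h15
    have : Fact (Nat.Prime 7) := ⟨by norm_num⟩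
    obtain ⟨K, hKn, hKidx⟩ := Cfsg.Agent.Helper71.exists_normal_index_two_of_card_sylow h15
    have hKcard : Nat.card K < n := by
      have h1 := Subgroup.card_mul_index K
      rw [hKidx, hn] at h1
      have hpos : 0 < Nat.card K := Nat.card_pos
      omega
    have hsyl : Nat.card (Sylow 7 K) = Nat.card (Sylow 7 G) :=
      Cfsg.Agent.Helper71.card_sylow_of_normal_of_coprime K (by rw [hKidx]; decide)
    exact ih (Nat.card K) hKcard K rfl (hsyl.trans h15)

/-- No finite group has exactly 15 Sylow 7-subgroups. -/
theorem result {G : Type*} [Group G] [Finite G] : Nat.card (Sylow 7 G) ≠ 15 := by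
  exact card_sylow_seven_ne_fifteen_aux (Nat.card G) G rfl

end Cfsg.Agent.S4304
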