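import Cfsg.Statements.S4305
import Cfsg.Agent.Helper34.S3Top

set_option autoImplicit false
open Cfsg

namespace Cfsg.Agent.S4305

/-- Let the symmetric group of degree 3 act by automorphisms on a finite solvable group `G` of order prime to 6, so that only the identity of `G` is fixed by all of it. Then the derived subgroup of `G` is nilpotent. -/
theorem result {G : Type*} [Group G] [Finite G] [Group.IsSolvable G]
    [MulDistribMulAction (Equiv.Perm (Fin 3)) G] (hcop : (Nat.card G).Coprime 6)
    (hfpf : ∀ g : G, (∀ a : Equiv.Perm (Fin 3), a • g = g) → g = 1) :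
    Group.IsNilpotent ↥(commutator G) := by
  obtain ⟨φ, hφ⟩ : ∃ φ : Equiv.Perm (Fin 3) →* MulAut G,
      φ = MulDistribMulAction.toMulAut (Equiv.Perm (Fin 3)) G := ⟨_, rfl⟩
  haveI : Finite (G ⋊[φ] Equiv.Perm (Fin 3)) :=
    Finite.of_equiv _ SemidirectProduct.equivProd.symm
  have hinj : Function.Injective (SemidirectProduct.inl : G →* G ⋊[φ] Equiv.Perm (Fin 3)) :=
    SemidirectProduct.inl_injective
  have hn : ((SemidirectProduct.inl : G →* G ⋊[φ] Equiv.Perm (Fin 3)).range).Normal := by
    rw [SemidirectProduct.range_inl_eq_ker_rightHom]; exact MonoidHom.normal_ker _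
  have hcard : Nat.card ↥(SemidirectProduct.inl : G →* G ⋊[φ] Equiv.Perm (Fin 3)).range
      = Nat.card G :=
    (Nat.card_congr (MonoidHom.ofInjective hinj).toEquiv).symm
  have hsolv : Group.IsSolvable ↥(SemidirectProduct.inl : G →* G ⋊[φ] Equiv.Perm (Fin 3)).range :=
    Group.isSolvable_of_surjective
      (f := (SemidirectProduct.inl : G →* G ⋊[φ] Equiv.Perm (Fin 3)).rangeRestrict)
      (MonoidHom.rangeRestrict_surjective _)
  have hfix : ∀ g ∈ (SemidirectProduct.inl : G →* G ⋊[φ] Equiv.Perm (Fin 3)).range,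
      (∀ σ, (SemidirectProduct.inr : Equiv.Perm (Fin 3) →* G ⋊[φ] Equiv.Perm (Fin 3)) σ * g
        = g * SemidirectProduct.inr σ) → g = 1 := by
    rintro _ ⟨g, rfl⟩ hfix
    have h1 : g = 1 := by
      apply hfpf
      intro a
      have h2 := hfix a
      have h3 : (SemidirectProduct.inl (φ a g) : G ⋊[φ] Equiv.Perm (Fin 3))
          = SemidirectProduct.inl g := by
        rw [SemidirectProduct.inl_aut, map_inv]
        exact mul_inv_eq_iff_eq_mul.mpr h2
      have h4 := hinj h3
      rw [hφ] at h4
      exact h4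
    rw [h1, map_one]
  have key := Helper34.S3.main_internal
    (SemidirectProduct.inr : Equiv.Perm (Fin 3) →* G ⋊[φ] Equiv.Perm (Fin 3)) hn
    (by rw [hcard]; exact hcop) hsolv hfix
  have e1 : (⁅(SemidirectProduct.inl : G →* G ⋊[φ] Equiv.Perm (Fin 3)).range,
      (SemidirectProduct.inl : G →* G ⋊[φ] Equiv.Perm (Fin 3)).range⁆
        : Subgroup (G ⋊[φ] Equiv.Perm (Fin 3)))
      = (commutator G).map (SemidirectProduct.inl : G →* G ⋊[φ] Equiv.Perm (Fin 3)) := by
    rw [commutator_def, Subgroup.map_commutator, ← MonoidHom.range_eq_map]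
  rw [e1] at key
  haveI := key
  exact Group.nilpotent_of_mulEquiv
    ((commutator G).equivMapOfInjective
      (SemidirectProduct.inl : G →* G ⋊[φ] Equiv.Perm (Fin 3)) hinj).symm

end Cfsg.Agent.S4305
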