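import Cfsg.Statements.S4306
import Cfsg.Agent.Helper63.FrobGroup

set_option autoImplicit false
open Cfsg

namespace Cfsg.Agent.S4306

/-- Let `A` be a non-abelian group of order `pq` with `p, q` distinct primes, acting by automorphisms on a finite solvable group `G` of order prime to `pq`, so that only the identity of `G` is fixed by all of `A`. Then `G` has Fitting height at most 2: there is a normal nilpotent subgroup `F` of `G` with `G/F` nilpotent. -/
theorem result {G A : Type*} [Group G] [Finite G]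
    [Group.IsSolvable G] [Group A] [Finite A] [MulDistribMulAction A G] (p q : ℕ) (hp : p.Prime) (hq : q.Prime) (hpq : p ≠ q)
    (hA : Nat.card A = p * q) (hAna : ¬ IsMulCommutative A) (hcop : (Nat.card G).Coprime (p * q))
    (hfpf : ∀ g : G, (∀ a : A, a • g = g) → g = 1) :
    ∃ F : Subgroup G, ∃ hF : F.Normal, Group.IsNilpotent ↥F ∧ Group.IsNilpotent (G ⧸ F) := by
  have hna : ∃ x y : A, x * y ≠ y * x := by
    by_contra h
    push Not at h
    exact hAna ⟨⟨h⟩⟩
  obtain ⟨p₁, r, F, f₀, a₀, hpr, hD⟩ := Cfsg.Agent.Helper63.Frob.exists_FD hp hq hpq hA hna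
  obtain ⟨act, hact⟩ : ∃ act : A →* MulAut G, ∀ (a : A) (g : G), act a g = a • g :=
    ⟨MulDistribMulAction.toMulAut A G, fun a g => rfl⟩
  obtain ⟨N, hNn, hNnil, -, k, hk⟩ := Cfsg.Agent.Helper63.Frob.frob_main hD _ G rfl
    inferInstance (by rw [hpr]; exact hcop) act
    (fun g hg => hfpf g (fun a => by rw [← hact]; exact hg a))
  haveI := hNn
  exact ⟨N, hNn, hNnil, Cfsg.Agent.Helper63.Ward.quot_nilpotent_of_lcs_le N k hk⟩

end Cfsg.Agent.S4306
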