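import Cfsg.Statements.S4314
import Cfsg.Agent.Helper71.ClassPrime

set_option autoImplicit false
open Cfsg

namespace Cfsg.Agent.S4314

/-- Let `G` be a finite group every conjugacy class of which has size 1 or a prime. Then either `G` is nilpotent of class at most 2, or `G/Z(G)` is a non-abelian group of order `pq` for distinct primes `p, q` (a Frobenius group of order `pq`). -/
theorem result {G : Type*} [Group G] [Finite G]
    (h : ∀ x : G, (Subgroup.centralizer ({x} : Set G)).index = 1 ∨ ((Subgroup.centralizer ({x} : Set G)).index).Prime) :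
    Subgroup.upperCentralSeries G 2 = ⊤ ∨
      ∃ p q : ℕ, p.Prime ∧ q.Prime ∧ p ≠ q ∧ Nat.card (G ⧸ Subgroup.center G) = p * q ∧ ¬ IsMulCommutative (G ⧸ Subgroup.center G) := by
  by_cases hn : ∀ x : G, (Subgroup.centralizer ({x} : Set G)).Normal
  · exact Or.inl (Cfsg.Agent.Helper71.upperCentralSeries_two_eq_top_of_normal_centralizers h hn)
  · push Not at hn
    obtain ⟨x, hx⟩ := hn
    exact Or.inr (Cfsg.Agent.Helper71.card_quotient_center_of_nonnormal_centralizer h x hx)

end Cfsg.Agent.S4314
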