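import Cfsg.Statements.S4320
import Cfsg.Agent.Helper71.PIT1
import Cfsg.Agent.Helper71.PIT2

set_option autoImplicit false
open Cfsg

namespace Cfsg.Agent.S4320

open MonoidAlgebra Cfsg.Agent.Helper71.PIT in
/-- The Principal Ideal Theorem of class field theory in its group-theoretic form: for every finite group `G`, the transfer homomorphism from `G` into the abelianization `G'/G''` of its derived subgroup `G'` is the trivial homomorphism. -/
theorem result {G : Type*} [Group G] [Finite G] :
    MonoidHom.transfer (Abelianization.of : ↥(commutator G) →* Abelianization ↥(commutator G)) =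
      (1 : G →* Abelianization ↥(commutator G)) := by
  classical
  letI hfin : Fintype G := Fintype.ofFinite G
  letI hfinQ : Fintype (G ⧸ commutator G) := Fintype.ofFinite _
  letI hfinQ' : Fintype (Abelianization G) := hfinQ
  ext g
  rw [MonoidHom.one_apply]
  set φ : ↥(commutator G) →* Abelianization ↥(commutator G) := Abelianization.of with hφ
  let T : (commutator G).LeftTransversal := default
  have h1 := transfer_eq_addExt φ T g
  set N : MonoidAlgebra ℤ G := ∑ q : G ⧸ commutator G, of ℤ G (rep T q) with hN
  let p : G →* Abelianization G := Abelianization.of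
  have hp : Function.Surjective p := QuotientGroup.mk_surjective
  have hker : p.ker = commutator G := Abelianization.ker_of G
  have hNp : mapDomainRingHom ℤ p N = ∑ q : Abelianization G, of ℤ (Abelianization G) q := by
    rw [hN, map_sum]
    simp_rw [mapDomainRingHom_of]
    apply Finset.sum_congr rfl
    intro q _
    congr 1
    exact mk_rep T q
  have h2 := witt p hp hker N hNp g
  have h3 : ∀ z ∈ AddSubgroup.closure {z | ∃ (a : G) (y : MonoidAlgebra ℤ G),
      mapDomainRingHom ℤ p y = 0 ∧ z = (of ℤ G a - 1) * y}, addExt (psi φ T) z = 0 := by
    intro z hz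
    induction hz using AddSubgroup.closure_induction with
    | mem z hz =>
      obtain ⟨a, y, hy, rfl⟩ := hz
      have hy' : mapDomain (QuotientGroup.mk : G → G ⧸ commutator G) y = 0 := by
        rw [mapDomainRingHom_apply] at hy
        exact hy
      rw [sub_mul, one_mul, map_sub, addExt_of_mul_of_mapDomain_eq_zero φ T a y hy', sub_self]
    | zero => exact map_zero _
    | add x y _ _ hx hy => rw [map_add, hx, hy, add_zero]
    | neg x _ hx => rw [map_neg, hx, neg_zero]
  have h4 := h3 _ h2
  rw [← h1] at h4
  exact h4

end Cfsg.Agent.S4320
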