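import Cfsg.Statements.S4321
import Cfsg.Agent.Helper8.PSing4

set_option autoImplicit false
open Cfsg

namespace Cfsg.Agent.S4321

open Cfsg.Agent.Helper8 Cfsg.Agent.Helper72 in
/-- The `p`-part of a `p`-singular element: a nontrivial `p`-element whose class size divides the
class size of the element. -/
theorem ppart_aux {G : Type*} [Group G] [Finite G] (p : ℕ) [hp : Fact p.Prime] (x : G)
    (hx : p ∣ orderOf x) :
    ∃ a : G, psElt p a ∧ a ≠ 1 ∧
      (Subgroup.centralizer ({a} : Set G)).index ∣ (Subgroup.centralizer ({x} : Set G)).index := by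
  obtain ⟨u, v, hu, hv, hup, hvo, huv⟩ := ps_decomp p x
  refine ⟨u, hup, ?_, ?_⟩
  · rintro rfl
    rw [one_mul] at huv
    rw [huv] at hx
    exact hp.out.one_lt.ne' (Nat.eq_one_of_dvd_coprimes hvo hx dvd_rfl)
  · apply Subgroup.index_dvd_of_le
    intro c hc
    rw [ps_mem_cz] at hc ⊢
    obtain ⟨k, rfl⟩ := Subgroup.mem_zpowers_iff.mp hu
    exact hc.zpow_right k

/-- Let `G` be a finite group and `p` a prime not dividing the order of the centre of `G`. Consider the primes dividing the size of some conjugacy class of a `p`-singular element (an element of order divisible by `p`), two of them adjacent when their product divides such a class size. Then any two distinct such primes are joined by a path with at most 3 edges (the graph is connected of diameter at most 3). -/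
theorem result {G : Type*} [Group G] [Finite G] (p : ℕ) [Fact p.Prime]
    (hZ : ¬ p ∣ Nat.card ↥(Subgroup.center G)) (r s : ℕ) (hr : (r.Prime ∧ ∃ x : G, p ∣ orderOf x ∧ r ∣ (Subgroup.centralizer ({x} : Set G)).index)) (hs : (s.Prime ∧ ∃ x : G, p ∣ orderOf x ∧ s ∣ (Subgroup.centralizer ({x} : Set G)).index)) (hrs : r ≠ s) :
    (∃ x : G, p ∣ orderOf x ∧ r * s ∣ (Subgroup.centralizer ({x} : Set G)).index) ∨ (∃ t : ℕ, (t.Prime ∧ ∃ x : G, p ∣ orderOf x ∧ t ∣ (Subgroup.centralizer ({x} : Set G)).index) ∧ t ≠ r ∧ t ≠ s ∧ (∃ x : G, p ∣ orderOf x ∧ r * t ∣ (Subgroup.centralizer ({x} : Set G)).index) ∧ (∃ x : G, p ∣ orderOf x ∧ t * s ∣ (Subgroup.centralizer ({x} : Set G)).index)) ∨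
      (∃ t u : ℕ, (t.Prime ∧ ∃ x : G, p ∣ orderOf x ∧ t ∣ (Subgroup.centralizer ({x} : Set G)).index) ∧ (u.Prime ∧ ∃ x : G, p ∣ orderOf x ∧ u ∣ (Subgroup.centralizer ({x} : Set G)).index) ∧ t ≠ r ∧ u ≠ s ∧ t ≠ u ∧ (∃ x : G, p ∣ orderOf x ∧ r * t ∣ (Subgroup.centralizer ({x} : Set G)).index) ∧ (∃ x : G, p ∣ orderOf x ∧ t * u ∣ (Subgroup.centralizer ({x} : Set G)).index) ∧ (∃ x : G, p ∣ orderOf x ∧ u * s ∣ (Subgroup.centralizer ({x} : Set G)).index)) := by
  obtain ⟨hrp, x, hxp, hrx⟩ := hr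
  obtain ⟨hsp, y, hyp, hsy⟩ := hs
  obtain ⟨a, ha, ha1, hax⟩ := ppart_aux p x hxp
  obtain ⟨b, hb, hb1, hby⟩ := ppart_aux p y hyp
  obtain ⟨w, hwp, hwa, hwb⟩ := Cfsg.Agent.Helper8.ps_linked p hZ ha ha1 hb hb1
  obtain ⟨t, ht, htw, hta⟩ := Nat.Prime.not_coprime_iff_dvd.mp hwa
  obtain ⟨u, hu, huw, hub⟩ := Nat.Prime.not_coprime_iff_dvd.mp hwb
  have htw' : t ∣ (Subgroup.centralizer ({w} : Set G)).index := htw
  have huw' : u ∣ (Subgroup.centralizer ({w} : Set G)).index := huw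
  have htx : t ∣ (Subgroup.centralizer ({x} : Set G)).index := Dvd.dvd.trans hta hax
  have huy : u ∣ (Subgroup.centralizer ({y} : Set G)).index := Dvd.dvd.trans hub hby
  have hmul : ∀ {c d n : ℕ}, c.Prime → d.Prime → c ≠ d → c ∣ n → d ∣ n → c * d ∣ n :=
    fun hc hd hne h1 h2 =>
      Nat.Coprime.mul_dvd_of_dvd_of_dvd ((Nat.coprime_primes hc hd).mpr hne) h1 h2
  by_cases htr : t = r
  · by_cases hus : u = s
    · left
      exact ⟨w, hwp, hmul hrp hsp hrs (htr ▸ htw') (hus ▸ huw')⟩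
    · by_cases hur : u = r
      · left
        exact ⟨y, hyp, hmul hrp hsp hrs (hur ▸ huy) hsy⟩
      · right; left
        exact ⟨u, ⟨hu, w, hwp, huw'⟩, hur, hus,
          ⟨w, hwp, hmul hrp hu (Ne.symm hur) (htr ▸ htw') huw'⟩,
          ⟨y, hyp, hmul hu hsp hus huy hsy⟩⟩
  · by_cases hus : u = s
    · by_cases hts : t = s
      · left
        exact ⟨x, hxp, hmul hrp hsp hrs hrx (hts ▸ htx)⟩
      · right; left
        exact ⟨t, ⟨ht, w, hwp, htw'⟩, htr, hts,
          ⟨x, hxp, hmul hrp ht (Ne.symm htr) hrx htx⟩,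
          ⟨w, hwp, hmul ht hsp hts htw' (hus ▸ huw')⟩⟩
    · by_cases htu : t = u
      · right; left
        have hts : t ≠ s := htu ▸ hus
        exact ⟨t, ⟨ht, w, hwp, htw'⟩, htr, hts,
          ⟨x, hxp, hmul hrp ht (Ne.symm htr) hrx htx⟩,
          ⟨y, hyp, hmul ht hsp hts (htu ▸ huy) hsy⟩⟩
      · right; right
        exact ⟨t, u, ⟨ht, w, hwp, htw'⟩, ⟨hu, w, hwp, huw'⟩, htr, hus, htu,
          ⟨x, hxp, hmul hrp ht (Ne.symm htr) hrx htx⟩,
          ⟨w, hwp, hmul ht hu htu htw' huw'⟩,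
          ⟨y, hyp, hmul hu hsp hus huy hsy⟩⟩

end Cfsg.Agent.S4321
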