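import Cfsg.Statements.S4416
import Cfsg.Agent.Helper48.ES2Iso2
import Cfsg.Agent.Helper63.Extraspecial

set_option autoImplicit false
open Cfsg

namespace Cfsg.Agent.S4416

/-- Classification of extraspecial 2-groups in intrinsic form. An extraspecial 2-group has order 2^(2m+1) for some m ≥ 1, and the number of its elements squaring to the identity is either 2^(2m) + 2^m or 2^(2m) − 2^m; two extraspecial 2-groups of the same order with the same number of such elements are isomorphic. (The two cases are the central products of m dihedral groups of order 8, and of m − 1 dihedral groups with one quaternion group.) -/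
theorem result (E : Type*) [Group E] [Finite E] (hE : Cfsg.IsExtraspecial 2 E) :
    (∃ m : ℕ, 1 ≤ m ∧ Nat.card E = 2 ^ (2 * m + 1) ∧
      (Nat.card {x : E // x ^ 2 = 1} = 2 ^ (2 * m) + 2 ^ m ∨ Nat.card {x : E // x ^ 2 = 1} = 2 ^ (2 * m) - 2 ^ m)) ∧
    ∀ (E' : Type*) [Group E'] [Finite E'], Cfsg.IsExtraspecial 2 E' → Nat.card E' = Nat.card E →
      Nat.card {x : E' // x ^ 2 = 1} = Nat.card {x : E // x ^ 2 = 1} → Nonempty (E ≃* E') := by
  have hF : Fact (Nat.Prime 2) := ⟨Nat.prime_two⟩
  have hc := Cfsg.Agent.Helper48.comm_mem_center_of_isExtraspecial hE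
  have h2 : Nat.card (Subgroup.center E) = 2 := hE.2
  obtain ⟨m, hm, hcard0⟩ := Cfsg.Agent.Helper63.extraspecial_card_odd hE
  have hcard : Nat.card E = 2 ^ (2 * m + 1) := by rw [hcard0, add_comm]
  refine ⟨⟨m, hm, hcard, ?_⟩, ?_⟩
  · rcases Cfsg.Agent.Helper48.es2_dichotomy hc h2 m hcard with ⟨-, h⟩ | ⟨-, -, -, h⟩
    · exact Or.inl h
    · exact Or.inr h
  · intro E' _ _ hE' hcard' hN
    have hc' := Cfsg.Agent.Helper48.comm_mem_center_of_isExtraspecial hE'
    have h2' : Nat.card (Subgroup.center E') = 2 := hE'.2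
    have hcard'' : Nat.card E' = 2 ^ (2 * m + 1) := by rw [hcard', hcard]
    refine Cfsg.Agent.Helper48.es2_iso m E E' hc h2 hc' h2' hcard hcard'' ?_
    rw [Cfsg.Agent.Helper48.es2Plus_iff_card hc h2 m hcard,
      Cfsg.Agent.Helper48.es2Plus_iff_card hc' h2' m hcard'', hN]

end Cfsg.Agent.S4416
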