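import Cfsg.Statements.S4424
import Cfsg.Agent.Helper73.PRegularDeg
import Cfsg.Agent.Helper77.PRegular

set_option autoImplicit false
open Cfsg

namespace Cfsg.Agent.S4424

/-- Let χ be an irreducible character of the finite group G lying in the p-block B (relative to a maximal ideal M of the algebraic integers containing p), and let p^a be the p-part of the order of G. Then the class function that equals p^a · χ on the p-regular elements and vanishes on the p-singular elements is an integer combination of the irreducible characters in B: there are integers a_ψ, zero for ψ outside B, with that function equal to Σ a_ψ ψ. -/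
theorem result {G : Type*} [Group G] [Finite G] (p : ℕ) [Fact p.Prime] (M : Ideal Cfsg.AlgInt) (hM : Cfsg.IsPModular p M) (B : Set (Cfsg.IrrCharacter G)) (hB : Cfsg.IsPBlock M B) (χ : Cfsg.IrrCharacter G) (hχ : χ ∈ B) : ∃ a : Cfsg.IrrCharacter G → ℤ, (∀ ψ, ψ ∉ B → a ψ = 0) ∧ (fun x : G => if p ∣ orderOf x then (0 : ℂ) else ((p ^ (Nat.card G).factorization p : ℕ) : ℂ) * (χ : G → ℂ) x) = fun x => ∑ᶠ ψ : Cfsg.IrrCharacter G, (a ψ : ℂ) * (ψ : G → ℂ) x := by
  classical
  have : Fintype G := Fintype.ofFinite G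
  have : Fintype (Cfsg.IrrCharacter G) := Fintype.ofFinite _
  have hp : p.Prime := Fact.out
  obtain ⟨Θ, hΘ⟩ : ∃ Θ : G → ℂ, Θ = fun x : G => if p ∣ orderOf x then (0 : ℂ) else
      ((p ^ (Nat.card G).factorization p : ℕ) : ℂ) * (χ : G → ℂ) x := ⟨_, rfl⟩
  have h1 : ∀ x, ¬ p ∣ orderOf x →
      Θ x = ((p ^ (Nat.card G).factorization p : ℕ) : ℂ) * (χ : G → ℂ) x := by
    intro x hx
    rw [hΘ]
    simp only [if_neg hx]
  have h0 : ∀ x, p ∣ orderOf x → Θ x = 0 := by
    intro x hx
    rw [hΘ]
    simp only [if_pos hx]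
  have hmem := Cfsg.Agent.Helper73.pRegular_mem_genSpanZ hp
    (Cfsg.Agent.Helper73.isCharacter_mem_genSpanZ (Cfsg.Agent.Helper79.irr_isCharacter χ)) Θ h1 h0
  have hint := fun ψ => Cfsg.Agent.Helper73.classInner_int_of_mem_genSpanZ hmem ψ
  choose a ha using hint
  refine ⟨a, ?_, ?_⟩
  · intro ψ hψ
    have hz : Cfsg.classInner Θ (ψ : G → ℂ) = 0 := by
      unfold Cfsg.classInner
      have hsum : ∑ g : G, Θ g * (starRingEnd ℂ) ((ψ : G → ℂ) g) =
          ((p ^ (Nat.card G).factorization p : ℕ) : ℂ) *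
            Cfsg.Agent.Helper77.pregInner p (χ : G → ℂ) (ψ : G → ℂ) := by
        unfold Cfsg.Agent.Helper77.pregInner
        rw [Finset.mul_sum]
        refine Finset.sum_congr rfl ?_
        intro g _
        by_cases hd : p ∣ orderOf g
        · rw [h0 g hd]
          simp [hd]
        · rw [h1 g hd]
          simp only [hd, not_false_eq_true, if_true]
          ring
      have hpz : Cfsg.Agent.Helper77.pregInner p (χ : G → ℂ) (ψ : G → ℂ) = 0 := by
        rw [← Cfsg.Agent.Helper77.conj_pregInner,
          Cfsg.Agent.Helper77.pregInner_eq_zero hM hB hψ hχ, map_zero]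
      rw [hsum, hpz, mul_zero, mul_zero]
    rw [ha ψ] at hz
    exact_mod_cast hz
  · rw [← hΘ]
    have hexp := Cfsg.Agent.Helper3.classFunction_eq_sum Θ
      (Cfsg.Agent.Helper73.isClassFunction_of_mem_genSpanZ hmem)
    funext x
    rw [finsum_eq_sum_of_fintype]
    have hx := congrFun hexp x
    rw [Finset.sum_apply] at hx
    rw [hx]
    refine Finset.sum_congr rfl ?_
    intro ψ _
    rw [Pi.smul_apply, smul_eq_mul, ha ψ]

end Cfsg.Agent.S4424
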