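import Cfsg.Statements.S4425
import Cfsg.Agent.Helper73.PRegularDeg

set_option autoImplicit false
open Cfsg

namespace Cfsg.Agent.S4425

/-- Let χ be an irreducible character of the finite group G, p a prime, p^a the p-part of the order of G and p^b the p-part of the degree χ(1). Let χ̃ be the class function equal to p^a · χ on p-regular elements and zero on p-singular elements. Then p^(−b) · χ̃ is a generalized character of G, while p^(−(b+1)) · χ̃ is not. -/
theorem result {G : Type*} [Group G] [Finite G] (p : ℕ) [Fact p.Prime] (χ : Cfsg.IrrCharacter G) : Cfsg.IsGeneralizedCharacter G (fun x : G => if p ∣ orderOf x then (0 : ℂ) else ((p ^ ((Nat.card G).factorization p - (Cfsg.charDegree (χ : G → ℂ)).factorization p) : ℕ) : ℂ) * (χ : G → ℂ) x) ∧ ¬ Cfsg.IsGeneralizedCharacter G (fun x : G => if p ∣ orderOf x then (0 : ℂ) else ((p ^ (Nat.card G).factorization p : ℕ) : ℂ) / ((p ^ ((Cfsg.charDegree (χ : G → ℂ)).factorization p + 1) : ℕ) : ℂ) * (χ : G → ℂ) x) := by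
  have : Fintype G := Fintype.ofFinite G
  have hp : p.Prime := Fact.out
  constructor
  · apply Cfsg.Agent.Helper73.isGeneralizedCharacter_of_mem_genSpanZ
    apply Cfsg.Agent.Helper73.pRegular_div_mem_genSpanZ hp χ
    · intro x hx
      simp only [if_neg hx]
    · intro x hx
      simp only [if_pos hx]
  · intro hgen
    have hmem := Cfsg.Agent.Helper73.mem_genSpanZ_of_isGeneralizedCharacter hgen
    obtain ⟨n, hn⟩ := Cfsg.Agent.Helper73.one_eq_of_vanish_pSingular hp hmem
      (by intro x hx; simp only [if_pos hx])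
    have h1 : ¬ p ∣ orderOf (1 : G) := by
      rw [orderOf_one]
      exact hp.one_lt.ne' ∘ Nat.dvd_one.mp
    simp only [if_neg h1] at hn
    have hd0 : Cfsg.charDegree (χ : G → ℂ) ≠ 0 := (Cfsg.Agent.Helper81.charDegree_pos χ).ne'
    rw [Cfsg.Agent.Helper81.irr_one_eq_charDegree] at hn
    have hpa0 : ((p ^ (Nat.card G).factorization p : ℕ) : ℂ) ≠ 0 := by
      exact_mod_cast (pow_pos hp.pos _).ne'
    have hpb0 : ((p ^ ((Cfsg.charDegree (χ : G → ℂ)).factorization p + 1) : ℕ) : ℂ) ≠ 0 := by
      exact_mod_cast (pow_pos hp.pos _).ne'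
    have h2 : (Cfsg.charDegree (χ : G → ℂ) : ℂ) =
        ((p ^ ((Cfsg.charDegree (χ : G → ℂ)).factorization p + 1) : ℕ) : ℂ) * (n : ℂ) := by
      field_simp at hn
      linear_combination hn
    have h3 : ((Cfsg.charDegree (χ : G → ℂ) : ℕ) : ℤ) =
        ((p ^ ((Cfsg.charDegree (χ : G → ℂ)).factorization p + 1) : ℕ) : ℤ) * n := by
      exact_mod_cast h2
    have h4 : p ^ ((Cfsg.charDegree (χ : G → ℂ)).factorization p + 1) ∣
        Cfsg.charDegree (χ : G → ℂ) := by
      rw [← Int.natCast_dvd_natCast]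
      exact ⟨n, h3⟩
    exact Nat.pow_succ_factorization_not_dvd hd0 hp h4

end Cfsg.Agent.S4425
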