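import Cfsg.Statements.S4426
import Cfsg.Agent.Helper73.HeightZero

set_option autoImplicit false
open Cfsg

namespace Cfsg.Agent.S4426

/-- Let χ be an irreducible character in the p-block B of the finite group G (relative to a maximal ideal M of the algebraic integers containing p), let p^a be the p-part of the order of G, and let χ̃ be the class function equal to p^a · χ on p-regular elements and zero elsewhere. For ξ ∈ B the inner product [χ̃, ξ] is an integer. The following are equivalent: (a) χ has height zero in B; (b) for some ξ ∈ B the integer [χ̃, ξ] is nonzero and the exact power of p dividing it equals the exact power of p dividing ξ(1); (c) the same holds for every ξ ∈ B. -/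
theorem result {G : Type*} [Group G] [Fintype G] (p : ℕ) [Fact p.Prime] (M : Ideal Cfsg.AlgInt) (hM : Cfsg.IsPModular p M) (B : Set (Cfsg.IrrCharacter G)) (hB : Cfsg.IsPBlock M B) (χ : Cfsg.IrrCharacter G) (hχ : χ ∈ B) : (Cfsg.blockHeight p B (χ : G → ℂ) = 0 ↔ ∃ ξ ∈ B, ∃ n : ℤ, Cfsg.classInner (fun x : G => if p ∣ orderOf x then (0 : ℂ) else ((p ^ (Nat.card G).factorization p : ℕ) : ℂ) * (χ : G → ℂ) x) (ξ : G → ℂ) = (n : ℂ) ∧ n ≠ 0 ∧ padicValInt p n = (Cfsg.charDegree (ξ : G → ℂ)).factorization p) ∧ (Cfsg.blockHeight p B (χ : G → ℂ) = 0 ↔ ∀ ξ ∈ B, ∃ n : ℤ, Cfsg.classInner (fun x : G => if p ∣ orderOf x then (0 : ℂ) else ((p ^ (Nat.card G).factorization p : ℕ) : ℂ) * (χ : G → ℂ) x) (ξ : G → ℂ) = (n : ℂ) ∧ n ≠ 0 ∧ padicValInt p n = (Cfsg.charDegree (ξ : G → ℂ)).factorization p) := by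
  classical
  have hp : p.Prime := Fact.out
  have key : ∀ ξ ∈ B, ∃ n : ℤ, Cfsg.classInner (fun x : G => if p ∣ orderOf x then (0 : ℂ) else ((p ^ (Nat.card G).factorization p : ℕ) : ℂ) * (χ : G → ℂ) x) (ξ : G → ℂ) = (n : ℂ) ∧
      (Cfsg.blockHeight p B (χ : G → ℂ) = 0 ↔ n ≠ 0 ∧ padicValInt p n = (Cfsg.charDegree (ξ : G → ℂ)).factorization p) := by
    intro ξ hξ
    obtain ⟨n, hn⟩ := Cfsg.Agent.Helper73.pregTilde_classInner_int hp χ ξ
    exact ⟨n, hn, Cfsg.Agent.Helper73.height_zero_iff_classInner hM hB hχ hξ n hn⟩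
  have huniq : ∀ ξ ∈ B, ∀ n : ℤ, Cfsg.classInner (fun x : G => if p ∣ orderOf x then (0 : ℂ) else ((p ^ (Nat.card G).factorization p : ℕ) : ℂ) * (χ : G → ℂ) x) (ξ : G → ℂ) = (n : ℂ) →
      (Cfsg.blockHeight p B (χ : G → ℂ) = 0 ↔ n ≠ 0 ∧ padicValInt p n = (Cfsg.charDegree (ξ : G → ℂ)).factorization p) := by
    intro ξ hξ n hn
    exact Cfsg.Agent.Helper73.height_zero_iff_classInner hM hB hχ hξ n hn
  refine ⟨⟨fun h0 => ?_, ?_⟩, ⟨fun h0 ξ hξ => ?_, fun h => ?_⟩⟩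
  · obtain ⟨n, hn, hiff⟩ := key χ hχ
    exact ⟨χ, hχ, n, hn, hiff.mp h0⟩
  · rintro ⟨ξ, hξ, n, hn, h1, h2⟩
    exact (huniq ξ hξ n hn).mpr ⟨h1, h2⟩
  · obtain ⟨n, hn, hiff⟩ := key ξ hξ
    exact ⟨n, hn, hiff.mp h0⟩
  · obtain ⟨n, hn, h1, h2⟩ := h χ hχ
    exact (huniq χ hχ n hn).mpr ⟨h1, h2⟩

end Cfsg.Agent.S4426
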