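import Cfsg.Statements.S4427
import Cfsg.Agent.Helper67.FrobMain

set_option autoImplicit false
open Cfsg

namespace Cfsg.Agent.S4427

/-- Let G be a finite group of order p^a · q^b · r^c with p, q, r distinct primes, and suppose that G has exactly q^b · r^c elements of order not divisible by p. Then G has a normal p-complement: a normal subgroup of order q^b · r^c. -/
theorem result {G : Type*} [Group G] [Finite G] (p q r a b c : ℕ) (hp : p.Prime) (hq : q.Prime) (hr : r.Prime) (hpq : p ≠ q) (hpr : p ≠ r) (hqr : q ≠ r) (hG : Nat.card G = p ^ a * q ^ b * r ^ c) (hcount : Nat.card {g : G // ¬ p ∣ orderOf g} = q ^ b * r ^ c) : ∃ N : Subgroup G, N.Normal ∧ Nat.card N = q ^ b * r ^ c := by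
  have hFq : Fact q.Prime := ⟨hq⟩
  have hFr : Fact r.Prime := ⟨hr⟩
  have hqd : q ^ b ∣ Nat.card G := by
    rw [hG]; exact ⟨p ^ a * r ^ c, by ring⟩
  have hrd : r ^ c ∣ Nat.card G := by
    rw [hG]; exact ⟨p ^ a * q ^ b, by ring⟩
  obtain ⟨Q, hQ⟩ := Sylow.exists_subgroup_card_pow_prime q hqd
  obtain ⟨R, hR⟩ := Sylow.exists_subgroup_card_pow_prime r hrd
  have hpQ : ¬ p ∣ Nat.card Q := by
    rw [hQ]; intro h
    exact hpq ((Nat.prime_dvd_prime_iff_eq hp hq).mp (hp.dvd_of_dvd_pow h))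
  have hpR : ¬ p ∣ Nat.card R := by
    rw [hR]; intro h
    exact hpr ((Nat.prime_dvd_prime_iff_eq hp hr).mp (hp.dvd_of_dvd_pow h))
  have hcop : (Nat.card Q).Coprime (Nat.card R) := by
    rw [hQ, hR]
    exact Nat.Coprime.pow _ _ ((Nat.coprime_primes hq hr).mpr hqr)
  have hmain := Cfsg.Agent.Helper67.frob_main p hp Q R (p ^ a) hcop hpQ hpR
    (by rw [hQ, hR, hG]; ring) (by rw [hQ, hR]; exact hcount)
  rw [hQ, hR] at hmain
  exact hmain

end Cfsg.Agent.S4427
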