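import Cfsg.Statements.S4428
import Cfsg.Agent.Helper73.BrouePuig

set_option autoImplicit false
open Cfsg

namespace Cfsg.Agent.S4428

/-- Let χ be an irreducible character of height zero in the p-block B of the finite group G (relative to a maximal ideal M of the algebraic integers containing p). Let x be a p-element of G with centralizer C, and let b be a block of C that induces B. Form the class function ϑ(c) = χ(x c) on C and its b-part (the sum over ψ ∈ b of the inner product of ϑ with ψ, times ψ). Then the b-part of ϑ does not vanish identically on the p-regular elements of C. (Compare the second main Theorem, which gives vanishing when b does not induce B.) -/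
theorem result {G : Type*} [Group G] [Finite G] (p : ℕ) [Fact p.Prime] (M : Ideal Cfsg.AlgInt) (hM : Cfsg.IsPModular p M) (B : Set (Cfsg.IrrCharacter G)) (hB : Cfsg.IsPBlock M B) (χ : Cfsg.IrrCharacter G) (hχ : χ ∈ B) (h0 : Cfsg.blockHeight p B (χ : G → ℂ) = 0) (x : G) (hx : ∃ k : ℕ, orderOf x = p ^ k) (b : Set (Cfsg.IrrCharacter (Subgroup.centralizer ({x} : Set G)))) (hb : Cfsg.IsInducedBlock M (Subgroup.centralizer ({x} : Set G)) b B) : ∃ y : Subgroup.centralizer ({x} : Set G), ¬ p ∣ orderOf y ∧ Cfsg.blockPart b (fun c : Subgroup.centralizer ({x} : Set G) => (χ : G → ℂ) (x * (c : G))) y ≠ 0 := by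
  classical
  letI : Fintype G := Fintype.ofFinite G
  letI : Fintype (Subgroup.centralizer ({x} : Set G)) := Fintype.ofFinite _
  have hMm := hM.2.1
  have hxmem : x ∈ Subgroup.centralizer ({x} : Set G) := by
    rw [Subgroup.mem_centralizer_iff]
    intro y hy
    rw [Set.mem_singleton_iff] at hy
    rw [hy]
  obtain ⟨z, hz⟩ : ∃ z : Subgroup.centralizer ({x} : Set G), (z : G) = x := ⟨⟨x, hxmem⟩, rfl⟩
  have hzc : z ∈ Subgroup.center (Subgroup.centralizer ({x} : Set G)) := by
    rw [Subgroup.mem_center_iff]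
    intro g
    apply Subtype.ext
    rw [Subgroup.coe_mul, Subgroup.coe_mul, hz]
    have := Subgroup.mem_centralizer_iff.mp g.2 x (Set.mem_singleton x)
    exact this.symm
  have hzp : ∃ k : ℕ, orderOf z = p ^ k := by
    obtain ⟨k, hk⟩ := hx
    exact ⟨k, by rw [← Subgroup.orderOf_coe, hz, hk]⟩
  have hθ : Cfsg.IsCharacter (Subgroup.centralizer ({x} : Set G))
      (fun c : Subgroup.centralizer ({x} : Set G) => (χ : G → ℂ) c) :=
    Cfsg.Agent.Helper79.isCharacter_restrict (Cfsg.Agent.Helper79.irr_isCharacter χ) _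
  obtain ⟨ψ₀, hψ₀⟩ := Cfsg.Agent.Helper16.exists_mem_of_isPBlock hMm hb.1
  have hunit := Cfsg.Agent.Helper73.hzc_res_not_memLocalIdeal hM _ hb hχ h0 hψ₀
  obtain ⟨y, hy, hne⟩ := Cfsg.Agent.Helper73.central_twist_blockPart_ne_zero hM hb.1 z hzc hzp
    _ hθ ψ₀ hψ₀ hunit
  refine ⟨y, hy, ?_⟩
  have hfun : (fun c : Subgroup.centralizer ({x} : Set G) => (χ : G → ℂ) (x * (c : G)))
      = fun c : Subgroup.centralizer ({x} : Set G) => (χ : G → ℂ) ((z * c : Subgroup.centralizer ({x} : Set G)) : G) := by
    funext c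
    rw [Subgroup.coe_mul, hz]
  rw [hfun]
  exact hne

end Cfsg.Agent.S4428
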