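import Cfsg.Statements.S4432
import Cfsg.Agent.Helper73.CoverOsima

set_option autoImplicit false
open Cfsg

namespace Cfsg.Agent.S4432

/-- Let N be a normal subgroup of the finite group G, b a block of N and B a block of G (relative to a maximal ideal M of the algebraic integers containing p) such that B covers b: some member of B has a constituent in b on restriction to N. Then every θ ∈ b is a constituent of the restriction of some χ ∈ B. -/
theorem result {G : Type*} [Group G] [Fintype G] (p : ℕ) [Fact p.Prime] (M : Ideal Cfsg.AlgInt) (hM : Cfsg.IsPModular p M) (N : Subgroup G) [hN : N.Normal] [Fintype N] (B : Set (Cfsg.IrrCharacter G)) (hB : Cfsg.IsPBlock M B) (b : Set (Cfsg.IrrCharacter N)) (hb : Cfsg.IsPBlock M b) (hcov : (∃ χ ∈ B, ∃ θ ∈ b, Cfsg.classInner (fun n : N => (χ : G → ℂ) n) (θ : N → ℂ) ≠ 0)) (θ : Cfsg.IrrCharacter N) (hθ : θ ∈ b) : ∃ χ ∈ B, Cfsg.classInner (fun n : N => (χ : G → ℂ) n) (θ : N → ℂ) ≠ 0 := by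
  obtain ⟨χ, hχ, θ0, hθ0, hne⟩ := hcov
  have hsame : Cfsg.SameBlock M (θ0 : N → ℂ) (θ : N → ℂ) :=
    Cfsg.Agent.Helper16.sameBlock_of_mem hM.2.1 hb hθ0 hθ
  exact Cfsg.Agent.Helper73.under_closed hM N hB ⟨χ, hχ, hne⟩ hsame

end Cfsg.Agent.S4432
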