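import Cfsg.Statements.S4433
import Cfsg.Agent.Helper76.DominateDefect

set_option autoImplicit false
open Cfsg

namespace Cfsg.Agent.S4433

/-- Let N be a normal subgroup of the finite group G and write Ḡ = G/N; fix a maximal ideal M of the algebraic integers containing p. Let B̄ be a block of Ḡ contained in the block B of G, in the sense that the inflation of every member of B̄ lies in B, and let D̄ be a defect group of B̄. Then B has a defect group P whose image in Ḡ contains D̄. -/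
theorem result {G : Type*} [Group G] [Finite G] (p : ℕ) [Fact p.Prime] (M : Ideal Cfsg.AlgInt) (hM : Cfsg.IsPModular p M) (N : Subgroup G) [N.Normal] (Bbar : Set (Cfsg.IrrCharacter (G ⧸ N))) (hBbar : Cfsg.IsPBlock M Bbar) (B : Set (Cfsg.IrrCharacter G)) (hB : Cfsg.IsPBlock M B) (hsub : ∀ χ ∈ Bbar, ∀ ψ : Cfsg.IrrCharacter G, (ψ : G → ℂ) = (χ : G ⧸ N → ℂ) ∘ QuotientGroup.mk → ψ ∈ B) (Dbar : Subgroup (G ⧸ N)) (hDbar : Cfsg.IsDefectGroup p M Bbar Dbar) : ∃ P : Subgroup G, Cfsg.IsDefectGroup p M B P ∧ Dbar ≤ P.map (QuotientGroup.mk' N) := by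
  classical
  haveI : Fintype G := Fintype.ofFinite G
  haveI : Fintype (G ⧸ N) := Fintype.ofFinite _
  obtain ⟨ψ, hψ⟩ := Cfsg.Agent.Helper16.exists_mem_of_isPBlock hM.2.1 hBbar
  exact Cfsg.Agent.Helper76.exists_isDefectGroup_map_ge hM N hBbar hB ψ hψ
    (hsub ψ hψ (Cfsg.Agent.Helper76.irrInfl N ψ) rfl) hDbar

end Cfsg.Agent.S4433
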