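import Cfsg.Statements.S4434
import Cfsg.Agent.Helper16.QuotDefect

set_option autoImplicit false
open Cfsg

namespace Cfsg.Agent.S4434

/-- Let N be a normal p-subgroup of the finite group G and write Ḡ = G/N; fix a maximal ideal M of the algebraic integers containing p. Then every block B of G contains a block B̄ of Ḡ (the inflation of every member of B̄ lies in B) whose defect groups are exactly the images in Ḡ of the defect groups of B. -/
theorem result {G : Type*} [Group G] [Finite G] (p : ℕ) [Fact p.Prime] (M : Ideal Cfsg.AlgInt) (hM : Cfsg.IsPModular p M) (N : Subgroup G) [N.Normal] (hN : IsPGroup p N) (B : Set (Cfsg.IrrCharacter G)) (hB : Cfsg.IsPBlock M B) : ∃ Bbar : Set (Cfsg.IrrCharacter (G ⧸ N)), Cfsg.IsPBlock M Bbar ∧ (∀ χ ∈ Bbar, ∀ ψ : Cfsg.IrrCharacter G, (ψ : G → ℂ) = (χ : G ⧸ N → ℂ) ∘ QuotientGroup.mk → ψ ∈ B) ∧ ∀ Dbar : Subgroup (G ⧸ N), Cfsg.IsDefectGroup p M Bbar Dbar ↔ ∃ P : Subgroup G, Cfsg.IsDefectGroup p M B P ∧ Dbar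 = P.map (QuotientGroup.mk' N) := by
  classical
  have : Fintype G := Fintype.ofFinite G
  have : Fintype (G ⧸ N) := Fintype.ofFinite _
  obtain ⟨Bbar, hBbar, hsub, hdef⟩ := Cfsg.Agent.Helper16.quotDefect_main hM N hN hB
  refine ⟨Bbar, hBbar, fun χ hχ ψ hψ => ?_, hdef⟩
  have h1 : ψ = Cfsg.Agent.Helper76.irrInfl N χ := Subtype.ext hψ
  rw [h1]
  exact hsub χ hχ

end Cfsg.Agent.S4434
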