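import Cfsg.Statements.S4492
import Cfsg.Agent.Helper79.FongBlock5

set_option autoImplicit false
open Cfsg

namespace Cfsg.Agent.S4492

/-- Let G be a finite p-solvable group, N = O_{p'}(G) its largest normal subgroup of order prime to p, and θ an irreducible character of N invariant under conjugation by G; fix a maximal ideal M of the algebraic integers containing p. Then the irreducible characters of G lying over θ (those whose restriction to N contains θ) form a single p-block of G, and the defect groups of that block are exactly the Sylow p-subgroups of G. -/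
theorem result {G : Type*} [Group G] [Fintype G] (p : ℕ) [Fact p.Prime] (M : Ideal Cfsg.AlgInt) (hM : Cfsg.IsPModular p M) (hsolv : Cfsg.IsPSolvable p G) (N : Subgroup G) [hN : N.Normal] [Fintype N] (hNdef : N = Cfsg.pPrimeCore p G) (θ : Cfsg.IrrCharacter N) (hinv : ∀ (g : G) (n : N), (θ : N → ℂ) ⟨g * n * g⁻¹, hN.conj_mem n n.2 g⟩ = (θ : N → ℂ) n) : ∃ B : Set (Cfsg.IrrCharacter G), Cfsg.IsPBlock M B ∧ (∀ χ : Cfsg.IrrCharacter G, χ ∈ B ↔ Cfsg.classInner (fun n : N => (χ : G → ℂ) n) (θ : N → ℂ) ≠ 0) ∧ (∀ P : Sylow p G, Cfsg.IsDefectGroup p M B (P : Subgroup G)) ∧ ∀ D : Subgroup G, Cfsg.IsDefectGroup p M B D → ∃ P : Sylow p G, D = (P : Subgroup G) := by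
  classical
  subst hNdef
  have hMm := hM.2.1
  haveI : M.IsPrime := hMm.isPrime
  have hp : p.Prime := Fact.out
  have hNp : ¬ p ∣ Nat.card (Cfsg.pPrimeCore p G) := by
    intro h
    have h1 := Helper76.pPrimeCore_coprime (p := p) (G := G)
    have h2 : p ∣ Nat.gcd (Nat.card (Cfsg.pPrimeCore p G)) p := Nat.dvd_gcd h dvd_rfl
    rw [h1] at h2
    exact hp.one_lt.ne' (Nat.dvd_one.mp h2)
  have hs : Helper76.IsPSolvableElt p G := Helper76.isPSolvableElt_of_isPSolvable hsolv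
  have hsq : Helper76.IsPSolvableElt p (G ⧸ Cfsg.pPrimeCore p G) := hs.quotient _
  have hbot : Cfsg.pPrimeCore p (G ⧸ Cfsg.pPrimeCore p G) = ⊥ :=
    Helper76.pPrimeCore_quotient_eq_bot
  haveI hPn : (Cfsg.pCore p (G ⧸ Cfsg.pPrimeCore p G)).Normal := Helper76.pCore_normal
  have hPp : IsPGroup p (Cfsg.pCore p (G ⧸ Cfsg.pPrimeCore p G)) := Helper76.pCore_isPGroup
  have hC := Helper76.centralizer_pCore_le hsq hbot
  obtain ⟨χ₀, hχ₀, hdeg⟩ := Helper79.fong_exists_pPrime_degree_over (p := p)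
    (Cfsg.pPrimeCore p G) hNp θ hinv
  have hB : Cfsg.IsPBlock M (Cfsg.blockOf M (χ₀ : G → ℂ)) := ⟨χ₀, rfl⟩
  refine ⟨Cfsg.blockOf M (χ₀ : G → ℂ), hB, ?_, ?_, ?_⟩
  · intro χ
    constructor
    · intro h
      exact Helper79.fong_over_of_sameBlock hM _ hNp θ hinv χ₀ χ h hχ₀
    · intro h
      exact Helper79.fong_sameBlock_over hM _ hNp _ hPp hC θ hinv χ₀ χ hχ₀ h
  · intro P
    exact (Helper79.fong_isDefectGroup_iff_of_pPrime_degree hM hB χ₀
      (Helper81.mem_blockOf_self χ₀) hdeg _).mpr ⟨P, rfl⟩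
  · intro D hD
    obtain ⟨P, hP⟩ := (Helper79.fong_isDefectGroup_iff_of_pPrime_degree hM hB χ₀
      (Helper81.mem_blockOf_self χ₀) hdeg D).mp hD
    exact ⟨P, hP.symm⟩

end Cfsg.Agent.S4492
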