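import Cfsg.Statements.S4439
import Cfsg.Agent.S4492
import Cfsg.Agent.Helper80.PSolvHeight
import Cfsg.Agent.Helper32.PSolvable
import Cfsg.Agent.Helper79.FongReynolds5

set_option autoImplicit false
open Cfsg

namespace Cfsg.Agent.S4439

universe u

/-- The height bound, by induction on the group order (Fong–Reynolds reduction to the case of a
`G`-invariant character of `O_{p'}(G)`, then Fong's theorem). -/
theorem main (p : ℕ) [Fact p.Prime] (M : Ideal Cfsg.AlgInt) (hM : Cfsg.IsPModular p M) :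
    ∀ (n : ℕ) (G : Type u) [Group G] [Finite G], Nat.card G = n → Cfsg.IsPSolvable p G →
      ∀ (B : Set (Cfsg.IrrCharacter G)), Cfsg.IsPBlock M B → ∀ P : Subgroup G,
      Cfsg.IsDefectGroup p M B P → ∀ χ : Cfsg.IrrCharacter G, χ ∈ B →
      Cfsg.blockHeight p B (χ : G → ℂ) ≤ ((Subgroup.center P).index).factorization p := by
  intro n
  induction n using Nat.strong_induction_on with
  | _ n ih =>
  intro G _ _ hn hsolv B hB P hP χ hχ
  classical
  let _ : Fintype G := Fintype.ofFinite G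
  have hMm := hM.2.1
  haveI : M.IsPrime := hMm.isPrime
  have hpp : p.Prime := Fact.out
  haveI hKn : (Cfsg.pPrimeCore p G).Normal := Helper76.pPrimeCore_normal
  let _ : Fintype ↥(Cfsg.pPrimeCore p G) := Fintype.ofFinite _
  have hKp : ¬ p ∣ Nat.card (Cfsg.pPrimeCore p G) := by
    intro h
    have h1 := Helper76.pPrimeCore_coprime (p := p) (G := G)
    have h2 : p ∣ Nat.gcd (Nat.card (Cfsg.pPrimeCore p G)) p := Nat.dvd_gcd h dvd_rfl
    rw [h1] at h2
    exact hpp.one_lt.ne' (Nat.dvd_one.mp h2)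
  have hres : Cfsg.IsCharacter ↥(Cfsg.pPrimeCore p G)
      (fun k : ↥(Cfsg.pPrimeCore p G) => (χ : G → ℂ) k) :=
    Helper79.isCharacter_restrict (Helper79.irr_isCharacter χ) _
  have hone : (fun k : ↥(Cfsg.pPrimeCore p G) => (χ : G → ℂ) k) 1 ≠ 0 :=
    Helper81.irr_one_ne_zero χ
  obtain ⟨θf, hθf, hcon⟩ := Helper75.exists_irr_constituent hres hone
  obtain ⟨θ, hθdef⟩ : ∃ θ : Cfsg.IrrCharacter ↥(Cfsg.pPrimeCore p G),
      (θ : ↥(Cfsg.pPrimeCore p G) → ℂ) = θf := ⟨⟨θf, hθf⟩, rfl⟩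
  rw [← hθdef] at hcon
  have hb : Cfsg.IsPBlock M (Cfsg.blockOf M (θ : ↥(Cfsg.pPrimeCore p G) → ℂ)) := ⟨θ, rfl⟩
  have hθb : θ ∈ Cfsg.blockOf M (θ : ↥(Cfsg.pPrimeCore p G) → ℂ) := Helper81.mem_blockOf_self θ
  have hbs : ∀ θ' ∈ Cfsg.blockOf M (θ : ↥(Cfsg.pPrimeCore p G) → ℂ), θ' = θ :=
    fun θ' h => (Helper79.eq_of_sameBlock_of_not_dvd_card hM hKp θ θ' h).symm
  obtain ⟨T, hNT, hst, hdis⟩ := Helper80.exists_blockStab hMm (Cfsg.pPrimeCore p G) hb
  let _ : Fintype T := Fintype.ofFinite _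
  by_cases hT : T = ⊤
  · -- invariant case
    have hinv : ∀ (g : G) (k : ↥(Cfsg.pPrimeCore p G)),
        (θ : ↥(Cfsg.pPrimeCore p G) → ℂ) ⟨g * k * g⁻¹, hKn.conj_mem (k : G) k.2 g⟩
          = (θ : ↥(Cfsg.pPrimeCore p G) → ℂ) k := by
      intro g k
      have h1 := hbs _ (hst g⁻¹ (by rw [hT]; trivial) θ hθb)
      have h2 : (Helper16.irrConj (Cfsg.pPrimeCore p G) g⁻¹ θ : ↥(Cfsg.pPrimeCore p G) → ℂ) k
          = (θ : ↥(Cfsg.pPrimeCore p G) → ℂ) k := by rw [h1]
      rw [Helper16.irrConj_apply] at h2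
      rw [← h2]
      exact congrArg (θ : ↥(Cfsg.pPrimeCore p G) → ℂ) (Subtype.ext (by simp))
    obtain ⟨B₀, hB₀, hmem, -, hsyl⟩ :=
      Cfsg.Agent.S4492.result p M hM hsolv (Cfsg.pPrimeCore p G) rfl θ hinv
    have hχB₀ : χ ∈ B₀ := (hmem χ).mpr hcon
    have hBB : B = B₀ := by
      rw [Helper16.eq_blockOf_of_mem hMm hB hχ, Helper16.eq_blockOf_of_mem hMm hB₀ hχB₀]
    rw [hBB] at hP
    obtain ⟨S, hS⟩ := hsyl P hP
    subst hS
    have h3 := Helper80.factorization_charDegree_le_of_invariant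
      (Helper76.isPSolvableElt_of_isPSolvable hsolv) θ hinv χ hcon S
    unfold Cfsg.blockHeight
    exact le_trans (Nat.sub_le _ _) h3
  · -- Fong–Reynolds reduction to the stabilizer
    obtain ⟨ψ, hψ, hψχ, hind⟩ :=
      Helper79.fr_exists (Cfsg.pPrimeCore p G) T hMm hb hNT hst hdis hB hχ hθb hcon
    have hB' : Cfsg.IsPBlock M (Cfsg.blockOf M (ψ : T → ℂ)) := ⟨ψ, rfl⟩
    have hψB' : ψ ∈ Cfsg.blockOf M (ψ : T → ℂ) := Helper16.sameBlock_refl hMm _
    obtain ⟨hdef, hht⟩ :=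
      Helper79.fr_defect_height (Cfsg.pPrimeCore p G) T hM hb hNT hst hdis hB' hψB' hψ hind
    obtain ⟨χ', hχ', hχ'eq, hheq⟩ := hht ψ hψB'
    have hχχ' : χ' = χ := Subtype.ext (by rw [hχ'eq, hψχ])
    subst hχχ'
    obtain ⟨D, hD⟩ := Helper16.exists_isDefectGroup (p := p) hMm hB'
    have hlt : Nat.card T < n := by
      rw [← hn]
      exact lt_of_le_of_ne (Subgroup.card_le_card_group T)
        (fun h => hT (Subgroup.eq_top_of_card_eq T h))
    have hTs : Cfsg.IsPSolvable p T := Helper32.isPSolvable_subgroup hpp hsolv T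
    have h5 := ih (Nat.card T) hlt T rfl hTs _ hB' D hD ψ hψB'
    rw [hheq]
    have hDG := hdef D hD
    have e1 : (Subgroup.center D).index = (Subgroup.center ↥(D.map T.subtype)).index :=
      Helper80.center_index_eq_of_mulEquiv (D.equivMapOfInjective T.subtype T.subtype_injective)
    have e2 : (Subgroup.center ↥(D.map T.subtype)).index = (Subgroup.center P).index :=
      Helper80.center_index_eq_of_conjLE (Helper16.isDefectGroup_conjLE hM hB hDG hP)
        (Helper16.isDefectGroup_card_eq hM hB hDG hP)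
    rw [← e2, ← e1]
    exact h5

/-- Let G be a finite p-solvable group and B a p-block of G with defect group P (relative to a maximal ideal M of the algebraic integers containing p). Then the height of every irreducible character in B is at most the exponent of p in the index of the centre of P in P. -/
theorem result {G : Type*} [Group G] [Finite G] (p : ℕ) [Fact p.Prime] (M : Ideal Cfsg.AlgInt) (hM : Cfsg.IsPModular p M) (hsolv : Cfsg.IsPSolvable p G) (B : Set (Cfsg.IrrCharacter G)) (hB : Cfsg.IsPBlock M B) (P : Subgroup G) (hP : Cfsg.IsDefectGroup p M B P) (χ : Cfsg.IrrCharacter G) (hχ : χ ∈ B) : Cfsg.blockHeight p B (χ : G → ℂ) ≤ ((Subgroup.center P).index).factorization p := by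
  exact main p M hM (Nat.card G) G rfl hsolv B hB P hP χ hχ

end Cfsg.Agent.S4439
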