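import Cfsg.Statements.S4443
-- import your own Cfsg.Agent.* helpers here
import Cfsg.Agent.Helper81.RobinsonMain
import Cfsg.Agent.Helper16.SylowSub

set_option autoImplicit false
open Cfsg

namespace Cfsg.Agent.S4443

/-- Let D be a normal p-subgroup of the finite group G, of order p^d, let p^a be the p-part of the order of G, and fix a Sylow p-subgroup S and a maximal ideal M of the algebraic integers containing p. Index by a finite type ι (via an injective map K) exactly the conjugacy classes of p-regular elements x of G for which D is a Sylow p-subgroup of C_G(x). For classes K_i, K_j let ω(i, j) be the number of pairs (y, z) ∈ K_i × K_j with z y⁻¹ ∈ S; this number is divisible by p^(a−d). Then the number of p-blocks of G having D as a defect group equals the rank over ℤ/pℤ of the matrix with (i, j) entry ω(i, j)/p^(a−d) reduced modulo p. -/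
theorem result {G : Type*} [Group G] [Finite G] (p : ℕ) [Fact p.Prime] (M : Ideal Cfsg.AlgInt) (hM : Cfsg.IsPModular p M) (D : Subgroup G) [D.Normal] (hD : IsPGroup p D) (S : Sylow p G) {ι : Type*} [Fintype ι] [DecidableEq ι] (K : ι → ConjClasses G) (hKinj : Function.Injective K) (hK : ∀ C : ConjClasses G, (∃ i, K i = C) ↔ ∃ x ∈ C.carrier, ¬ p ∣ orderOf x ∧ ∃ Q : Sylow p (Subgroup.centralizer ({x} : Set G)), (Q : Subgroup (Subgroup.centralizer ({x} : Set G))).map (Subgroup.centralizer ({x} : Set G)).subtype = D) : Nat.card {B : Set (Cfsg.IrrCharacter G) // Cfsg.IsPBlock M B ∧ Cfsg.IsDefectGroup p M B D} = (Matrix.of fun i j : ι => ((Nat.card {yz : G × G // yz.1 ∈ (K i).carrier ∧ yz.2 ∈ (K j).carrier ∧ yz.2 * yz.1⁻¹ ∈ (S : Subgroup G)} / p ^ ((Nat.card G).factorization p - (Nat.card D).factorization p) : ℕ) : ZMod p)).rank := by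
  classical
  have hp : p.Prime := Fact.out
  haveI : Fintype G := Fintype.ofFinite G
  haveI : Fintype {B : Set (Cfsg.IrrCharacter G) //
      Cfsg.IsPBlock M B ∧ Cfsg.IsDefectGroup p M B D} := Fintype.ofFinite _
  obtain ⟨n, hn⟩ := IsPGroup.iff_card.mp hD
  have hn' : (Nat.card D).factorization p = n := by
    rw [hn, hp.factorization_pow, Finsupp.single_eq_same]
  -- representatives
  let x : ι → G := fun i => Quotient.out (K i)
  have hx : ∀ i, ConjClasses.mk (x i) = K i := fun i => Quotient.out_eq (K i)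
  have hmem : ∀ (i : ι) (y : G), y ∈ (K i).carrier ↔ IsConj (x i) y := by
    intro i y
    rw [ConjClasses.mem_carrier_iff_mk_eq, ← hx i, ConjClasses.mk_eq_mk_iff_isConj]
    exact isConj_comm
  have hx1 : ∀ i, ¬ p ∣ orderOf (x i) ∧ D ≤ Subgroup.centralizer ({x i} : Set G) ∧
      (Nat.card (Subgroup.centralizer ({x i} : Set G))).factorization p
        = (Nat.card D).factorization p := by
    intro i
    obtain ⟨x', hx', hreg, Q, hQ⟩ := (hK (K i)).mp ⟨i, rfl⟩
    obtain ⟨c, hc⟩ := isConj_iff.mp ((hmem i x').mp hx').symm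
    obtain ⟨h1, h2⟩ := Helper16.sylow_map_subtype_le_card Q
    rw [hQ] at h1 h2
    have h3 : (Nat.card (Subgroup.centralizer ({x'} : Set G))).factorization p
        = (Nat.card D).factorization p := by
      rw [h2, hp.factorization_pow, Finsupp.single_eq_same]
    rw [← hc]
    refine ⟨?_, Helper81.rob_le_centralizer_conj D h1 c, ?_⟩
    · rwa [Helper81.rob_orderOf_conj]
    · rw [Helper16.card_centralizer_conj]
      exact h3
  have hxinj : ∀ i j, IsConj (x i) (x j) → i = j := by
    intro i j h
    apply hKinj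
    rw [← hx i, ← hx j]
    exact ConjClasses.mk_eq_mk_iff_isConj.mpr h
  have hxsurj : ∀ g : G, ¬ p ∣ orderOf g → D ≤ Subgroup.centralizer ({g} : Set G) →
      (Nat.card (Subgroup.centralizer ({g} : Set G))).factorization p
        = (Nat.card D).factorization p → ∃ i, IsConj (x i) g := by
    intro g h1 h2 h3
    have hcard : Nat.card D = p ^ (Nat.card (Subgroup.centralizer ({g} : Set G))).factorization p := by
      rw [h3, hn', hn]
    obtain ⟨Q, hQ⟩ := Helper16.exists_sylow_map_subtype_eq h2 hcard
    obtain ⟨i, hi⟩ := (hK (ConjClasses.mk g)).mpr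
      ⟨g, ConjClasses.mem_carrier_mk, h1, Q, hQ⟩
    refine ⟨i, ?_⟩
    rw [← hx i] at hi
    exact ConjClasses.mk_eq_mk_iff_isConj.mp hi
  have hcard : ∀ i j, Nat.card {yz : G × G // yz.1 ∈ (K i).carrier ∧ yz.2 ∈ (K j).carrier ∧
      yz.2 * yz.1⁻¹ ∈ (S : Subgroup G)} = Helper81.robPairs (S : Subgroup G) (x i) (x j) := by
    intro i j
    unfold Helper81.robPairs
    exact Nat.card_congr (Equiv.subtypeEquivRight fun yz => by rw [hmem i, hmem j])
  have hmat : (Matrix.of fun i j : ι => ((Nat.card {yz : G × G // yz.1 ∈ (K i).carrier ∧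
      yz.2 ∈ (K j).carrier ∧ yz.2 * yz.1⁻¹ ∈ (S : Subgroup G)} /
        p ^ ((Nat.card G).factorization p - (Nat.card D).factorization p) : ℕ) : ZMod p)) =
      Matrix.of fun i j : ι => ((Helper81.robPairs (S : Subgroup G) (x i) (x j) /
        p ^ ((Nat.card G).factorization p - (Nat.card D).factorization p) : ℕ) : ZMod p) := by
    ext i j
    simp only [Matrix.of_apply]
    rw [hcard i j]
  rw [hmat, Nat.card_eq_fintype_card]
  exact (Helper81.rob_rank hM D hD S x hx1 hxinj hxsurj
    (fun b : {B : Set (Cfsg.IrrCharacter G) //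
      Cfsg.IsPBlock M B ∧ Cfsg.IsDefectGroup p M B D} => b.1)
    (fun b => ⟨b.2.1, (Helper81.rob_isDefectGroup_iff hM D hD b.2.1).mp b.2.2⟩)
    Subtype.val_injective
    (fun B hB hBd => ⟨⟨B, hB, (Helper81.rob_isDefectGroup_iff hM D hD hB).mpr hBd⟩, rfl⟩)).symm

end Cfsg.Agent.S4443
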