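import Cfsg.Statements.S4447
import Cfsg.Agent.Helper35.Glauberman
import Cfsg.Agent.Helper77.IrrAction
import Cfsg.Agent.Helper75.CliffordCorr
import Cfsg.Agent.Helper79.Basic

set_option autoImplicit false
open Cfsg

namespace Cfsg.Agent.S4447

/-- Inside a finite group Γ let S normalise G and also normalise a normal subgroup N of G, with the order of S coprime to the index of N in G and S or G/N solvable. Then for every S-invariant irreducible character χ of G, the restriction of χ to N has an S-invariant irreducible constituent. -/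
theorem result {Γ : Type*} [Group Γ] [Fintype Γ] (G S N : Subgroup Γ) [Fintype G] [Fintype N] (hnorm : ∀ s ∈ S, ∀ g ∈ G, s * g * s⁻¹ ∈ G) (hNG : N ≤ G) [hNn : (N.subgroupOf G).Normal] (hNS : ∀ s ∈ S, ∀ n ∈ N, s * n * s⁻¹ ∈ N) (hcop : (N.relIndex G).Coprime (Nat.card S)) (hsolv : Group.IsSolvable S ∨ Group.IsSolvable (G ⧸ N.subgroupOf G)) (χ : Cfsg.IrrCharacter G) (hinv : (∀ s ∈ S, ∀ g g' : G, (g' : Γ) = s * g * s⁻¹ → (χ : G → ℂ) g' = (χ : G → ℂ) g)) : ∃ θ : Cfsg.IrrCharacter N, Cfsg.classInner (fun n : N => (χ : G → ℂ) ⟨n, hNG n.2⟩) (θ : N → ℂ) ≠ 0 ∧ (∀ s ∈ S, ∀ g g' : N, (g' : Γ) = s * g * s⁻¹ → (θ : N → ℂ) g' = (θ : N → ℂ) g) := by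
  classical
  -- `S` and `G` normalise `N`
  have hmemN : ∀ x : Γ, (∀ n ∈ N, x * n * x⁻¹ ∈ N) → (∀ n ∈ N, x⁻¹ * n * x⁻¹⁻¹ ∈ N) →
      x ∈ Subgroup.normalizer (N : Set Γ) := by
    intro x h1 h2
    rw [Subgroup.mem_normalizer_iff]
    intro n
    refine ⟨fun hn => h1 n hn, fun hn => ?_⟩
    have h3 := h2 _ hn
    have h4 : x⁻¹ * (x * n * x⁻¹) * x⁻¹⁻¹ = n := by group
    rwa [h4] at h3
  have hGN : ∀ g ∈ G, ∀ n ∈ N, g * n * g⁻¹ ∈ N := by
    intro g hg n hn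
    have h1 := hNn.conj_mem ⟨n, hNG hn⟩ (Subgroup.mem_subgroupOf.mpr hn) ⟨g, hg⟩
    exact Subgroup.mem_subgroupOf.mp h1
  have hST : S ≤ Subgroup.normalizer (N : Set Γ) := fun s hs =>
    hmemN s (hNS s hs) (hNS s⁻¹ (inv_mem hs))
  have hGT : G ≤ Subgroup.normalizer (N : Set Γ) := fun g hg =>
    hmemN g (hGN g hg) (hGN g⁻¹ (inv_mem hg))
  letI act := Helper77.irrAction N
  haveI : Finite (Cfsg.IrrCharacter N) := Helper81.irrCharacter_finite
  let φ : Subgroup.normalizer (N : Set Γ) →* Equiv.Perm (Cfsg.IrrCharacter N) :=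
    MulAction.toPermHom _ _
  have hφ : ∀ (t : Subgroup.normalizer (N : Set Γ)) (θ : Cfsg.IrrCharacter N),
      φ t θ = Helper77.conjIrr N t θ := fun t θ => rfl
  let ψG : G →* Equiv.Perm (Cfsg.IrrCharacter N) := φ.comp (Subgroup.inclusion hGT)
  let ψS : S →* Equiv.Perm (Cfsg.IrrCharacter N) := φ.comp (Subgroup.inclusion hST)
  -- elements of `N` act trivially
  have hNtriv : ∀ (n : Γ) (hn : n ∈ N) (hn' : n ∈ Subgroup.normalizer (N : Set Γ))
      (θ : Cfsg.IrrCharacter N), Helper77.conjIrr N ⟨n, hn'⟩ θ = θ := by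
    intro n hn hn' θ
    apply Subtype.ext
    funext k
    show (θ : N → ℂ) (Helper75.conjEquivOfNormalizer N n hn' k) = (θ : N → ℂ) k
    have h1 : Helper75.conjEquivOfNormalizer N n hn' k = (⟨n, hn⟩ : N)⁻¹ * k * ⟨n, hn⟩ := by
      apply Subtype.ext
      rw [Helper75.conjEquivOfNormalizer_apply]
      rfl
    rw [h1]
    have h2 := Helper81.irr_conj θ k (⟨n, hn⟩ : N)⁻¹
    rw [inv_inv] at h2
    exact h2
  have hkerG : N.subgroupOf G ≤ ψG.ker := by
    intro g hg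
    rw [MonoidHom.mem_ker]
    apply Equiv.ext
    intro θ
    show φ (Subgroup.inclusion hGT g) θ = θ
    rw [hφ]
    exact hNtriv (g : Γ) (Subgroup.mem_subgroupOf.mp hg) (hGT g.2) θ
  -- the set of constituents
  let Ω : Set (Cfsg.IrrCharacter N) :=
    {θ | Cfsg.classInner (fun n : N => (χ : G → ℂ) ⟨n, hNG n.2⟩) (θ : N → ℂ) ≠ 0}
  -- invariance of the inner product under conjugation
  have hinner : ∀ (t : Subgroup.normalizer (N : Set Γ)),
      (∀ n : N, (χ : G → ℂ) ⟨(t : Γ) * n * (t : Γ)⁻¹,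
        hNG ((Subgroup.mem_normalizer_iff.mp t.2 n).1 n.2)⟩ = (χ : G → ℂ) ⟨n, hNG n.2⟩) →
      ∀ θ : Cfsg.IrrCharacter N,
      Cfsg.classInner (fun n : N => (χ : G → ℂ) ⟨n, hNG n.2⟩)
        (Helper77.conjIrr N t θ : N → ℂ) =
      Cfsg.classInner (fun n : N => (χ : G → ℂ) ⟨n, hNG n.2⟩) (θ : N → ℂ) := by
    intro t ht θ
    unfold Cfsg.classInner
    congr 1
    rw [← Equiv.sum_comp (Helper75.conjEquivOfNormalizer N (t : Γ) t.2).symm.toEquiv]
    refine Finset.sum_congr rfl fun k _ => ?_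
    have hk : (((Helper75.conjEquivOfNormalizer N (t : Γ) t.2).symm k : N) : Γ)
        = (t : Γ) * (k : Γ) * (t : Γ)⁻¹ := rfl
    have h1 : (Helper77.conjIrr N t θ : N → ℂ)
        ((Helper75.conjEquivOfNormalizer N (t : Γ) t.2).symm.toEquiv k) = (θ : N → ℂ) k :=
      Helper77.conjIrr_apply N t θ k _ hk
    rw [h1]
    congr 1
    have h2 := ht k
    show (χ : G → ℂ) ⟨((Helper75.conjEquivOfNormalizer N (t : Γ) t.2).symm k : N), _⟩
      = (χ : G → ℂ) ⟨k, hNG k.2⟩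
    rw [← h2]
    exact congrArg _ (Subtype.ext hk)
  have hΩS : ∀ s : S, ∀ θ ∈ Ω, ψS s θ ∈ Ω := by
    intro s θ hθ
    show Cfsg.classInner _ (Helper77.conjIrr N (Subgroup.inclusion hST s) θ : N → ℂ) ≠ 0
    rw [hinner _ _ θ]
    · exact hθ
    · intro n
      exact hinv (s : Γ) s.2 ⟨n, hNG n.2⟩ _ rfl
  have hΩG : ∀ g : G, ∀ θ ∈ Ω, ψG g θ ∈ Ω := by
    intro g θ hθ
    show Cfsg.classInner _ (Helper77.conjIrr N (Subgroup.inclusion hGT g) θ : N → ℂ) ≠ 0
    rw [hinner _ _ θ]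
    · exact hθ
    · intro n
      have h1 := Helper81.irr_conj χ ⟨n, hNG n.2⟩ g
      rw [← h1]
      rfl
  -- Clifford: transitivity
  have htrans : ∀ θ ∈ Ω, ∀ θ' ∈ Ω, ∃ g : G, ψG g θ = θ' := by
    intro θ hθ θ' hθ'
    haveI : Finite ↥(N.subgroupOf G) :=
      Finite.of_equiv N (Subgroup.subgroupOfEquivOfLe hNG).symm.toEquiv
    letI : Fintype ↥(N.subgroupOf G) := Fintype.ofFinite _
    set e := Subgroup.subgroupOfEquivOfLe hNG with he
    have h1 : Cfsg.IsIrrCharacter ↥(N.subgroupOf G) (fun x => (θ : N → ℂ) (e x)) :=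
      (Cfsg.Agent.Helper79.isIrrCharacter_mulEquiv e).mpr θ.2
    have h2 : Cfsg.IsIrrCharacter ↥(N.subgroupOf G) (fun x => (θ' : N → ℂ) (e x)) :=
      (Cfsg.Agent.Helper79.isIrrCharacter_mulEquiv e).mpr θ'.2
    have h3 : Cfsg.classInner (fun n : ↥(N.subgroupOf G) => (χ : G → ℂ) n)
        (fun x => (θ : N → ℂ) (e x)) ≠ 0 := by
      rw [he, Helper75.classInner_subgroupOf hNG (χ : G → ℂ) (θ : N → ℂ)]; exact hθ
    have h4 : Cfsg.classInner (fun n : ↥(N.subgroupOf G) => (χ : G → ℂ) n)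
        (fun x => (θ' : N → ℂ) (e x)) ≠ 0 := by
      rw [he, Helper75.classInner_subgroupOf hNG (χ : G → ℂ) (θ' : N → ℂ)]; exact hθ'
    obtain ⟨g, hg⟩ := Helper75.clifford_irrCharacter (N.subgroupOf G) (χ : G → ℂ) χ.2 _ _ h2 h1 h4 h3
    refine ⟨g⁻¹, ?_⟩
    show Helper77.conjIrr N (Subgroup.inclusion hGT g⁻¹) θ = θ'
    symm
    apply Helper77.eq_conjIrr_of_isConjCharOf
    intro k k' hk
    have h5 := hg (e.symm k')
    simp only [MulEquiv.apply_symm_apply] at h5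
    rw [h5]
    refine congrArg _ (Subtype.ext ?_)
    have h6 : ((e (MulAut.conjNormal g (e.symm k')) : N) : Γ)
        = (g : Γ) * (k' : Γ) * (g : Γ)⁻¹ := rfl
    rw [h6, hk]
    show (g : Γ) * ((g : Γ)⁻¹ * (k : Γ) * (g : Γ)⁻¹⁻¹) * (g : Γ)⁻¹ = k
    group
  -- Glauberman's lemma in the symmetric group on `Irr(N)`
  have hΩne : Ω.Nonempty := by
    have hres : Cfsg.IsCharacter N (fun n : N => (χ : G → ℂ) ⟨n, hNG n.2⟩) :=
      Helper75.isCharacter_resTo hNG (Helper79.irr_isCharacter χ)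
    have h1 : (fun n : N => (χ : G → ℂ) ⟨n, hNG n.2⟩) 1 ≠ 0 := Helper81.irr_one_ne_zero χ
    obtain ⟨θ, hθ, hne⟩ := Helper75.exists_irr_constituent hres h1
    exact ⟨⟨θ, hθ⟩, hne⟩
  have hconj : ∀ (s : S) (g : G), ψS s * ψG g * (ψS s)⁻¹
      = ψG ⟨(s : Γ) * (g : Γ) * (s : Γ)⁻¹, hnorm s s.2 g g.2⟩ := by
    intro s g
    show φ _ * φ _ * (φ _)⁻¹ = φ _
    rw [← map_inv, ← map_mul, ← map_mul]
    exact congrArg φ (Subtype.ext rfl)
  have hAK : ψS.range ≤ Subgroup.normalizer (ψG.range : Set (Equiv.Perm (Cfsg.IrrCharacter N))) := by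
    rintro _ ⟨s, rfl⟩
    rw [Subgroup.mem_normalizer_iff]
    intro k
    constructor
    · rintro ⟨g, rfl⟩
      exact ⟨_, (hconj s g).symm⟩
    · rintro ⟨g, hg⟩
      have h1 := hconj s⁻¹ g
      rw [hg, map_inv] at h1
      refine ⟨_, h1.symm.trans ?_⟩
      group
  have hcop' : (Nat.card ψS.range).Coprime (Nat.card ψG.range) := by
    have h1 : Nat.card ψS.range ∣ Nat.card S := Subgroup.card_range_dvd ψS
    have h2 : Nat.card ψG.range ∣ N.relIndex G := by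
      rw [← Subgroup.index_ker]
      exact Subgroup.index_dvd_of_le hkerG
    exact (hcop.coprime_dvd_left h2).coprime_dvd_right h1 |>.symm
  have hsolv' : Group.IsSolvable ψS.range ∨ Group.IsSolvable ψG.range := by
    rcases hsolv with h | h
    · left
      exact Group.isSolvable_of_surjective (f := ψS.rangeRestrict) ψS.rangeRestrict_surjective
    · right
      have hker' : N.subgroupOf G ≤ ψG.rangeRestrict.ker := by
        intro g hg
        rw [MonoidHom.mem_ker]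
        apply Subtype.ext
        exact hkerG hg
      exact Group.isSolvable_of_surjective (f := QuotientGroup.lift (N.subgroupOf G) ψG.rangeRestrict hker')
        (QuotientGroup.lift_surjective_of_surjective _ _ ψG.rangeRestrict_surjective _)
  obtain ⟨θ, hθΩ, hfix⟩ := Helper35.glauberman (G := Equiv.Perm (Cfsg.IrrCharacter N))
    (X := Cfsg.IrrCharacter N) hAK hcop' hsolv' hΩne
    (by rintro _ ⟨s, rfl⟩ θ hθ; exact hΩS s θ hθ)
    (by rintro _ ⟨g, rfl⟩ θ hθ; exact hΩG g θ hθ)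
    (by
      intro θ hθ θ' hθ'
      obtain ⟨g, hg⟩ := htrans θ hθ θ' hθ'
      exact ⟨ψG g, ⟨g, rfl⟩, hg⟩)
  refine ⟨θ, hθΩ, ?_⟩
  intro s hs g g' hgg'
  have h1 : Helper77.conjIrr N ⟨s, hST hs⟩ θ = θ := hfix (ψS ⟨s, hs⟩) ⟨_, rfl⟩
  have h2 := Helper77.conjIrr_apply N ⟨s, hST hs⟩ θ g g' hgg'
  rw [h1] at h2
  exact h2

end Cfsg.Agent.S4447
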