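import Cfsg.Statements.S4448
import Cfsg.Agent.Helper74.Rel2

set_option autoImplicit false
open Cfsg

namespace Cfsg.Agent.S4448

/-- Inside a finite group Γ let S normalise G and also normalise a normal subgroup N of G, with the order of S coprime to the index of N in G and G/N solvable. Then for every S-invariant irreducible character ϑ of N, the induced character ϑ^G has an S-invariant irreducible constituent. -/
theorem result {Γ : Type*} [Group Γ] [Fintype Γ] (G S N : Subgroup Γ) [Fintype G] [Fintype N] (hnorm : ∀ s ∈ S, ∀ g ∈ G, s * g * s⁻¹ ∈ G) (hNG : N ≤ G) [hNn : (N.subgroupOf G).Normal] (hNS : ∀ s ∈ S, ∀ n ∈ N, s * n * s⁻¹ ∈ N) (hcop : (N.relIndex G).Coprime (Nat.card S)) (hsolv : Group.IsSolvable (G ⧸ N.subgroupOf G)) (θ : Cfsg.IrrCharacter N) (hinv : (∀ s ∈ S, ∀ g g' : N, (g' : Γ) = s * g * s⁻¹ → (θ : N → ℂ) g' = (θ : N → ℂ) g)) : ∃ χ : Cfsg.IrrCharacter G, Cfsg.classInner (fun n : N => (χ : G → ℂ) ⟨n, hNG n.2⟩)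 (θ : N → ℂ) ≠ 0 ∧ (∀ s ∈ S, ∀ g g' : G, (g' : Γ) = s * g * s⁻¹ → (χ : G → ℂ) g' = (χ : G → ℂ) g) := by
  exact Cfsg.Agent.Helper74.rel_solv_subgroup G S N hnorm hNG hNS hcop hsolv θ hinv

end Cfsg.Agent.S4448
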