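import Cfsg.Statements.S4451
import Cfsg.Agent.Helper74.Fpf3

set_option autoImplicit false
open Cfsg

namespace Cfsg.Agent.S4451

/-- Let the finite group Γ be generated by a normal subgroup G and a cyclic subgroup S of coprime orders such that every non-identity element of S has the same centraliser C = G ⊓ C(S) in G. Let χ be an S-invariant irreducible character of G, χ̂ its canonical extension to Γ (determinantal order coprime to the order of S), and β the irreducible character of C with χ̂(c s) = ε₀ β(c) for c ∈ C and generators s of S (ε₀ = ±1). Then there are a sign ε = ±1, which may differ from ε₀, and a linear character μ of S with μ² = 1, such that: (a) χ̂(c x) = ε β(c) μ(x) for all c ∈ C and all x ∈ S other than 1; (b) the restriction of χ to C equals |S|·ϑ + ε β for some character ϑ of C or ϑ = 0; (c) |S| divides χ(1) − ε β(1). -/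
theorem result {Γ : Type*} [Group Γ] [Fintype Γ] (G S : Subgroup Γ) [Fintype G] (hnorm : ∀ s ∈ S, ∀ g ∈ G, s * g * s⁻¹ ∈ G) (hcop : (Nat.card G).Coprime (Nat.card S)) (htop : G ⊔ S = ⊤) (hcyc : IsCyclic S) (C : Subgroup Γ) [Fintype C] (hC : C = G ⊓ Subgroup.centralizer (S : Set Γ)) (hCG : C ≤ G) (hfpf : ∀ x ∈ S, x ≠ 1 → G ⊓ Subgroup.centralizer ({x} : Set Γ) = C) (χ : Cfsg.IrrCharacter G) (hinv : (∀ s ∈ S, ∀ g g' : G, (g' : Γ) = s * g * s⁻¹ → (χ : G → ℂ) g' = (χ : G → ℂ) g)) (χh : Cfsg.IrrCharacter Γ) (hext : (∀ g : G, (χh : Γ → ℂ) g = (χ : G → ℂ) g)) (hdet : (Cfsg.detOrder (χh : Γ → ℂ)).Coprime (Nat.card S)) (β : Cfsg.IrrCharacter C) (ε₀ : ℤ) (hε₀ : ε₀ = 1 ∨ ε₀ = -1) (hβ : ∀ c : C, ∀ s : Γ, Subgroup.zpowers s = S → (χh : Γ → ℂ) ((c : Γ) * s) = (ε₀ : ℂ) * (β : C → ℂ) c) : ∃ ε : ℤ, (ε = 1 ∨ ε = -1) ∧ (∃ μ : S → ℂ, Cfsg.IsCharacter S μ ∧ μ 1 = 1 ∧ (∀ x : S, μ x * μ x = 1) ∧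 ∀ c : C, ∀ x : S, x ≠ 1 → (χh : Γ → ℂ) ((c : Γ) * x) = (ε : ℂ) * (β : C → ℂ) c * μ x) ∧ (∃ ϑ : C → ℂ, Cfsg.IsCharacter C ϑ ∧ (fun c : C => (χ : G → ℂ) ⟨c, hCG c.2⟩) = fun c => (Nat.card S : ℂ) * ϑ c + (ε : ℂ) * (β : C → ℂ) c) ∧ (Nat.card S : ℤ) ∣ (Cfsg.charDegree (χ : G → ℂ) : ℤ) - ε * (Cfsg.charDegree (β : C → ℂ) : ℤ) := by
  classical
  have hχh : IsIrrCharacter Γ (χh : Γ → ℂ) := χh.2
  have hres : IsIrrCharacter G (fun g : G => (χh : Γ → ℂ) g) := by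
    have : (fun g : G => (χh : Γ → ℂ) g) = (χ : G → ℂ) := funext hext
    rw [this]
    exact χ.2
  obtain ⟨ε, hε, hμ, ϑ, hϑ, hb⟩ := Cfsg.Agent.Helper74.fpf_main G S hnorm hcop htop hcyc C hC hCG
    hfpf hχh hres hdet β ε₀ hε₀ hβ
  refine ⟨ε, hε, hμ, ⟨ϑ, hϑ, ?_⟩, ?_⟩
  · funext c
    rw [← hext ⟨c, hCG c.2⟩]
    exact hb c
  · have h1 := hb 1
    rw [Subgroup.coe_one] at h1
    have h2 : (χh : Γ → ℂ) 1 = (charDegree (χ : G → ℂ) : ℂ) := by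
      have := hext 1
      rw [Subgroup.coe_one] at this
      rw [this, Cfsg.Agent.Helper80.irr_one_eq χ]
    rw [h2, Cfsg.Agent.Helper80.irr_one_eq β, Cfsg.Agent.Helper80.isCharacter_one_eq hϑ] at h1
    refine ⟨(charDegree ϑ : ℤ), ?_⟩
    have h3 : (((charDegree (χ : G → ℂ) : ℤ) - ε * (charDegree (β : C → ℂ) : ℤ) : ℤ) : ℂ) =
        (((Nat.card S : ℤ) * (charDegree ϑ : ℤ) : ℤ) : ℂ) := by
      push_cast
      rw [h1]
      ring
    exact_mod_cast h3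

end Cfsg.Agent.S4451
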