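import Cfsg.Statements.S4454
import Cfsg.Agent.Helper74.FR2
import Cfsg.Agent.S0886
import Cfsg.Agent.Helper15.Gallagher

set_option autoImplicit false
open Cfsg

namespace Cfsg.Agent.S4454

/-- Let N ≤ G be normal subgroups of the finite group Γ with Γ/G cyclic and Γ/N a Frobenius group with kernel G/N: G ≠ Γ, N ≠ G, and no element of Γ outside G fixes a non-identity coset of N in G under conjugation. Let ϑ be an irreducible character of N invariant under conjugation by Γ and suppose ϑ is fully ramified in G: the character of G induced from ϑ equals e·χ for an irreducible character χ of G and a natural number e. Then the index of G in Γ divides e − 1 or e + 1. -/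
theorem result {Γ : Type*} [Group Γ] [Fintype Γ] (G N : Subgroup Γ) [hG : G.Normal] [hN : N.Normal] [Fintype G] [Fintype N] (hNG : N ≤ G) (hGlt : G ≠ ⊤) (hNlt : N ≠ G) (hcyc : IsCyclic (Γ ⧸ G)) (hfrob : ∀ x : Γ, x ∉ G → ∀ g : Γ, g ∈ G → x * g * x⁻¹ * g⁻¹ ∈ N → g ∈ N) (θ : Cfsg.IrrCharacter N) (hinv : ∀ (x : Γ) (n : N), (θ : N → ℂ) ⟨x * n * x⁻¹, hN.conj_mem n n.2 x⟩ = (θ : N → ℂ) n) (χ : Cfsg.IrrCharacter G) (e : ℕ) (hram : Cfsg.indFun (N.subgroupOf G) (fun n : N.subgroupOf G => (θ : N → ℂ) ⟨(n : G), n.2⟩) = fun g => (e : ℂ) * (χ : G → ℂ) g) : (G.index : ℤ) ∣ (e : ℤ) - 1 ∨ (G.index : ℤ) ∣ (e : ℤ) + 1 := by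
  classical
  obtain ⟨H, hNH, hinf, hsup, hcycH, hcardH⟩ := Cfsg.Agent.Helper74.fr_setup G N hNG hGlt hcyc hfrob
  letI : Fintype H := Fintype.ofFinite _
  letI : Fintype (N.subgroupOf G) := Fintype.ofFinite _
  have hab : ∀ a b : Γ ⧸ G, a * b = b * a := fun a b =>
    (IsCyclic.isMulCommutative (α := Γ ⧸ G)).is_comm.comm a b
  have ha2 : 2 ≤ G.index := by
    have h1 : G.index ≠ 1 := fun h => hGlt (Subgroup.index_eq_one.mp h)
    have h0 : G.index ≠ 0 := Subgroup.index_ne_zero_of_finite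
    omega
  -- `θ` on `N.subgroupOf G`
  obtain ⟨θG, hθGdef⟩ : ∃ θG : N.subgroupOf G → ℂ,
      θG = fun n : N.subgroupOf G => (θ : N → ℂ) ⟨(n : G), n.2⟩ := ⟨_, rfl⟩
  have hθGirr : Cfsg.IsIrrCharacter (N.subgroupOf G) θG := by
    rw [hθGdef]
    exact Cfsg.Agent.Helper79.isIrrCharacter_comp (Subgroup.subgroupOfEquivOfLe hNG).toMonoidHom
      (Subgroup.subgroupOfEquivOfLe hNG).surjective θ.2
  have hθGinv : ∀ (g : G) (n : N.subgroupOf G),
      θG ⟨g * n * g⁻¹, (inferInstance : (N.subgroupOf G).Normal).conj_mem (n : G) n.2 g⟩ =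
        θG n := by
    intro g n
    rw [hθGdef]
    exact hinv (g : Γ) ⟨(n : G), n.2⟩
  rw [← hθGdef] at hram
  have hnorm := Cfsg.Agent.Helper15.classInner_indFun_self_of_invariant (N.subgroupOf G) θG hθGinv
  have he2 : e ^ 2 = (N.subgroupOf G).index := by
    have h1 : (fun g : G => (e : ℂ) * (χ : G → ℂ) g) = (e : ℂ) • (χ : G → ℂ) := rfl
    rw [hram, h1, Cfsg.Agent.Helper15.classInner_smul_left,
      Cfsg.Agent.Helper15.classInner_smul_right, Complex.conj_natCast,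
      Cfsg.Agent.Helper15.irr_inner_self χ.2, Cfsg.Agent.Helper15.irr_inner_self hθGirr,
      mul_one, mul_one] at hnorm
    have h2 : ((e ^ 2 : ℕ) : ℂ) = (((N.subgroupOf G).index : ℕ) : ℂ) := by
      rw [← hnorm]
      push_cast
      ring
    exact_mod_cast h2
  have hr0 : (N.subgroupOf G).index ≠ 0 := Subgroup.index_ne_zero_of_finite
  have he0 : (e : ℂ) ≠ 0 := by
    have h1 : e ≠ 0 := by
      intro h
      rw [h] at he2
      exact hr0 he2.symm
    exact_mod_cast h1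
  have hrcard : Nat.card G = (N.subgroupOf G).index * Nat.card N := by
    have h1 := Subgroup.card_mul_index (N.subgroupOf G)
    have h2 : Nat.card (N.subgroupOf G) = Nat.card N :=
      Nat.card_congr (Subgroup.subgroupOfEquivOfLe hNG).toEquiv
    rw [h2] at h1
    rw [← h1, mul_comm]
  have hval : ∀ g : G, (e : ℂ) * (χ : G → ℂ) g =
      ((N.subgroupOf G).index : ℂ) * Cfsg.extendByZero (N.subgroupOf G) θG g := by
    intro g
    rw [← Cfsg.Agent.Helper15.indFun_of_invariant (N.subgroupOf G) θG hθGinv g, hram]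
  have hvalN : ∀ (g : Γ) (hg : g ∈ N), (e : ℂ) * (χ : G → ℂ) ⟨g, hNG hg⟩ =
      ((N.subgroupOf G).index : ℂ) * (θ : N → ℂ) ⟨g, hg⟩ := by
    intro g hg
    have hmem : (⟨g, hNG hg⟩ : G) ∈ N.subgroupOf G := Subgroup.mem_subgroupOf.mpr hg
    rw [hval, Cfsg.Agent.Helper3.extendByZero_of_mem (N.subgroupOf G) θG hmem, hθGdef]
  have hvalG : ∀ (g : Γ) (hg : g ∈ G), g ∉ N → (χ : G → ℂ) ⟨g, hg⟩ = 0 := by
    intro g hg hgN
    have hmem : (⟨g, hg⟩ : G) ∉ N.subgroupOf G := fun h => hgN (Subgroup.mem_subgroupOf.mp h)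
    have h1 := hval ⟨g, hg⟩
    rw [Cfsg.Agent.Helper3.extendByZero_of_not_mem (N.subgroupOf G) θG hmem, mul_zero] at h1
    exact (mul_eq_zero.mp h1).resolve_left he0
  have hχinv : ∀ (x : Γ) (g : G),
      (χ : G → ℂ) ⟨x * g * x⁻¹, hG.conj_mem (g : Γ) g.2 x⟩ = (χ : G → ℂ) g := by
    intro x g
    by_cases hg : (g : Γ) ∈ N
    · have h1 := hvalN (x * g * x⁻¹) (hN.conj_mem _ hg x)
      have h2 := hvalN (g : Γ) hg
      have h3 := hinv x ⟨(g : Γ), hg⟩
      rw [h3, ← h2] at h1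
      exact mul_left_cancel₀ he0 h1
    · have hg' : x * g * x⁻¹ ∉ N := by
        intro h
        apply hg
        have h1 := hN.conj_mem _ h x⁻¹
        have e1 : x⁻¹ * (x * (g : Γ) * x⁻¹) * x⁻¹⁻¹ = g := by group
        rwa [e1] at h1
      rw [hvalG _ (hG.conj_mem (g : Γ) g.2 x) hg']
      exact (hvalG (g : Γ) g.2 hg).symm
  obtain ⟨χt, hχt, hχtG⟩ := Cfsg.Agent.S0886.result G hcyc (χ : G → ℂ) χ.2 hχinv
  -- `θ` on `N.subgroupOf H`
  obtain ⟨θH, hθHdef⟩ : ∃ θH : N.subgroupOf H → ℂ,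
      θH = fun n : N.subgroupOf H => (θ : N → ℂ) ⟨(n : H), n.2⟩ := ⟨_, rfl⟩
  have hθHirr : Cfsg.IsIrrCharacter (N.subgroupOf H) θH := by
    rw [hθHdef]
    exact Cfsg.Agent.Helper79.isIrrCharacter_comp (Subgroup.subgroupOfEquivOfLe hNH).toMonoidHom
      (Subgroup.subgroupOfEquivOfLe hNH).surjective θ.2
  have hθHinv : ∀ (g : H) (n : N.subgroupOf H),
      θH ⟨g * n * g⁻¹, (inferInstance : (N.subgroupOf H).Normal).conj_mem (n : H) n.2 g⟩ =
        θH n := by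
    intro g n
    rw [hθHdef]
    exact hinv (g : Γ) ⟨(n : H), n.2⟩
  obtain ⟨θh, hθh, hθhN⟩ := Cfsg.Agent.S0886.result (N.subgroupOf H) hcycH θH hθHirr hθHinv
  have hθhval : ∀ n : N, θh ⟨n, hNH n.2⟩ = (θ : N → ℂ) n := by
    intro n
    have h1 := hθhN ⟨⟨n, hNH n.2⟩, Subgroup.mem_subgroupOf.mpr n.2⟩
    rw [hθHdef] at h1
    exact h1
  refine Cfsg.Agent.Helper74.fr_core G N H hNG hNH hinf hsup hab hfrob G.index rfl ha2 hcardH θh hθh
    ?_ ?_ χt hχt ?_ e (N.subgroupOf G).index he2 hrcard ?_ ?_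
  · rw [show (fun n : N => θh ⟨n, hNH n.2⟩) = (θ : N → ℂ) from funext hθhval]
    exact θ.2
  · intro x n
    rw [hθhval ⟨x * n * x⁻¹, hN.conj_mem n n.2 x⟩, hθhval n]
    exact hinv x n
  · rw [show (fun g : G => χt g) = (χ : G → ℂ) from funext hχtG]
    exact χ.2
  · intro n
    rw [hθhval n]
    have h1 := hχtG ⟨n, hNG n.2⟩
    have h2 := hvalN (n : Γ) n.2
    rw [← h1] at h2
    exact h2
  · intro g hg hgN
    have h1 := hχtG ⟨g, hg⟩
    rw [hvalG g hg hgN] at h1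
    exact h1

end Cfsg.Agent.S4454
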