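import Cfsg.Statements.S4457
import Mathlib
import Cfsg.Agent.Helper4.TwoDegHall
import Cfsg.Agent.Helper4.TwoDegMain

set_option autoImplicit false
open Cfsg

namespace Cfsg.Agent.S4457

/-- Let G be a finite group whose irreducible character degrees are exactly 1 and m (m ≠ 1). Then either G has an abelian normal subgroup of index m, or m is a power of a prime p and G is the direct product of a p-group and an abelian group: there are normal subgroups P and A with P a p-group, A abelian, P ⊓ A = 1 and P ⊔ A = G. -/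
theorem result {G : Type*} [Group G] [Finite G] (m : ℕ) (hcd : ∀ χ : Cfsg.IrrCharacter G, Cfsg.charDegree (χ : G → ℂ) = 1 ∨ Cfsg.charDegree (χ : G → ℂ) = m) (hm : ∃ χ : Cfsg.IrrCharacter G, Cfsg.charDegree (χ : G → ℂ) = m) (hm1 : m ≠ 1) : (∃ A : Subgroup G, A.Normal ∧ (∀ a ∈ A, ∀ b ∈ A, a * b = b * a) ∧ A.index = m) ∨ ∃ p e : ℕ, p.Prime ∧ m = p ^ e ∧ ∃ P A : Subgroup G, P.Normal ∧ A.Normal ∧ IsPGroup p P ∧ (∀ a ∈ A, ∀ b ∈ A, a * b = b * a) ∧ P ⊓ A = ⊥ ∧ P ⊔ A = ⊤ := by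
  obtain ⟨χm, hχm⟩ := hm
  have hm0 : m ≠ 0 := by
    rw [← hχm]
    exact (Cfsg.Agent.Helper80.irr_degree_pos χm).ne'
  obtain ⟨N, hN, hNab, hcop, hnil⟩ := Cfsg.Agent.Helper4.twoDeg_exists_hall m hm0 hcd
  by_cases hc : N ≤ Subgroup.center G
  · right
    haveI : Group.IsNilpotent G :=
      Subgroup.isNilpotent_of_ker_le_center (QuotientGroup.mk' N)
        (by rw [QuotientGroup.ker_mk']; exact hc)
    exact Cfsg.Agent.Helper4.twoDeg_nilpotent m hcd ⟨χm, hχm⟩ hm1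
  · left
    obtain ⟨A, hAn, hAab, hAidx, -⟩ :=
      Cfsg.Agent.Helper4.twoDeg_nonnilpotent m hcd hm1 N hNab hcop hnil hc
    exact ⟨A, hAn, hAab, hAidx⟩

end Cfsg.Agent.S4457
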