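import Cfsg.Statements.S4459
import Mathlib
import Cfsg.Agent.S4457
import Cfsg.Agent.Helper74.TwoP5
import Cfsg.Agent.Helper75.Ito
import Cfsg.Agent.Helper75.NormalDefect

set_option autoImplicit false
open Cfsg

namespace Cfsg.Agent.S4459

/-- Let G be a non-abelian finite group and p a prime. Then the irreducible character degrees of G are exactly 1 and p if and only if either G has an abelian normal subgroup of index p or the centre of G has index p³. -/
theorem result {G : Type*} [Group G] [Finite G] (hG : ∃ a b : G, a * b ≠ b * a) (p : ℕ) (hp : p.Prime) : ((∀ χ : Cfsg.IrrCharacter G, Cfsg.charDegree (χ : G → ℂ) = 1 ∨ Cfsg.charDegree (χ : G → ℂ) = p) ∧ ∃ χ : Cfsg.IrrCharacter G, Cfsg.charDegree (χ : G → ℂ) = p) ↔ ((∃ A : Subgroup G, A.Normal ∧ (∀ a ∈ A, ∀ b ∈ A, a * b = b * a) ∧ A.index = p) ∨ (Subgroup.center G).index = p ^ 3) := by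
  constructor
  · rintro ⟨hcd, hex⟩
    rcases Cfsg.Agent.S4457.result p hcd hex hp.ne_one with h |
      ⟨q, e, hq, hpe, P, A, hPn, hAn, hP, hAab, hinf, hsup⟩
    · exact Or.inl h
    · have hqp : q = p := ((Nat.Prime.pow_eq_iff hp).mp hpe.symm).1
      rw [hqp] at hP
      exact Cfsg.Agent.Helper74.tp_general p hp hG hcd P A hPn hAn hP hAab hinf hsup
  · rintro (⟨A, hAn, hAab, hAidx⟩ | hZ)
    · haveI := hAn
      have hcd : ∀ χ : Cfsg.IrrCharacter G, Cfsg.charDegree (χ : G → ℂ) = 1 ∨
          Cfsg.charDegree (χ : G → ℂ) = p := by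
        intro χ
        have h1 := Cfsg.Agent.Helper75.ito_character χ.2 A hAab
        rw [hAidx] at h1
        exact (Nat.dvd_prime hp).mp h1
      refine ⟨hcd, ?_⟩
      obtain ⟨a, b, hab⟩ := hG
      obtain ⟨ζ, hζ⟩ := Cfsg.Agent.Helper75.exists_nonlinear_of_not_comm
        (fun h : ∀ a b : G, a * b = b * a => hab (h a b))
      rcases hcd ζ with h | h
      · exact absurd h hζ
      · exact ⟨ζ, h⟩
    · have hcd : ∀ χ : Cfsg.IrrCharacter G, Cfsg.charDegree (χ : G → ℂ) = 1 ∨
          Cfsg.charDegree (χ : G → ℂ) = p := by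
        intro χ
        have h1 := Cfsg.Agent.Helper75.ito_character χ.2 (Subgroup.center G)
          (fun a ha b _ => (Subgroup.mem_center_iff.mp ha b).symm)
        rw [hZ] at h1
        obtain ⟨j, -, hj⟩ := (Nat.dvd_prime_pow hp).mp h1
        have h2 := Cfsg.Agent.Helper74.tp_degree_sq_le χ
        rw [hZ, hj, ← pow_mul] at h2
        have h3 : j * 2 ≤ 3 := (Nat.pow_le_pow_iff_right hp.one_lt).mp h2
        have h4 : j = 0 ∨ j = 1 := by omega
        rcases h4 with h4 | h4
        · left; rw [hj, h4, pow_zero]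
        · right; rw [hj, h4, pow_one]
      refine ⟨hcd, ?_⟩
      obtain ⟨a, b, hab⟩ := hG
      obtain ⟨ζ, hζ⟩ := Cfsg.Agent.Helper75.exists_nonlinear_of_not_comm
        (fun h : ∀ a b : G, a * b = b * a => hab (h a b))
      rcases hcd ζ with h | h
      · exact absurd h hζ
      · exact ⟨ζ, h⟩

end Cfsg.Agent.S4459
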