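import Cfsg.Statements.S4460
import Cfsg.Agent.Helper15.CD3Solv

set_option autoImplicit false
open Cfsg

namespace Cfsg.Agent.S4460

open Cfsg.Agent.Helper15 in
/-- A finite group with exactly three distinct irreducible character degrees is solvable of derived length at most 3: its third derived subgroup is trivial. -/
theorem result {G : Type*} [Group G] [Finite G] (hcd : Nat.card {n : ℕ // ∃ χ : Cfsg.IrrCharacter G, Cfsg.charDegree (χ : G → ℂ) = n} = 3) : derivedSeries G 3 = ⊥ := by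
  classical
  apply cd3_dl
  have h1 : Nat.card {n : ℕ // ∃ χ : Cfsg.IrrCharacter G, Cfsg.charDegree (χ : G → ℂ) = n} =
      Set.ncard {n : ℕ | ∃ χ : Cfsg.IrrCharacter G, Cfsg.charDegree (χ : G → ℂ) = n} := rfl
  rw [h1, Set.ncard_eq_three] at hcd
  obtain ⟨x, y, z, -, -, -, hS⟩ := hcd
  have hmem : ∀ χ : Cfsg.IrrCharacter G, Cfsg.charDegree (χ : G → ℂ) = x ∨
      Cfsg.charDegree (χ : G → ℂ) = y ∨ Cfsg.charDegree (χ : G → ℂ) = z := by
    intro χ
    have h2 : Cfsg.charDegree (χ : G → ℂ) ∈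
        {n : ℕ | ∃ χ : Cfsg.IrrCharacter G, Cfsg.charDegree (χ : G → ℂ) = n} := ⟨χ, rfl⟩
    rw [hS] at h2
    simpa using h2
  have htriv : Cfsg.charDegree ((Cfsg.Agent.Helper80.trivIrr G : Cfsg.IrrCharacter G) : G → ℂ) = 1 :=
    Cfsg.Agent.Helper75.charDegree_of_one_eq_nat (by simp [Cfsg.Agent.Helper80.trivIrr])
  rcases hmem (Cfsg.Agent.Helper80.trivIrr G) with h | h | h
  · rw [htriv] at h
    subst h
    exact ⟨y, z, hmem⟩
  · rw [htriv] at h
    subst h
    refine ⟨x, z, fun χ => ?_⟩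
    rcases hmem χ with h' | h' | h'
    · exact Or.inr (Or.inl h')
    · exact Or.inl h'
    · exact Or.inr (Or.inr h')
  · rw [htriv] at h
    subst h
    refine ⟨x, y, fun χ => ?_⟩
    rcases hmem χ with h' | h' | h'
    · exact Or.inr (Or.inl h')
    · exact Or.inr (Or.inr h')
    · exact Or.inl h'

end Cfsg.Agent.S4460
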