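import Cfsg.Statements.S4467
import Cfsg.Agent.Helper15.WinterPC2

set_option autoImplicit false
open Cfsg

namespace Cfsg.Agent.S4467

open Cfsg.Agent.Helper15 in
/-- Let the finite solvable group G have a faithful irreducible character of degree n, and suppose that for the prime p a Sylow p-subgroup of G is not normal. Then n is divisible by a prime power q > 1 with q congruent to −1, 0 or 1 modulo p. -/
theorem result {G : Type*} [Group G] [Finite G] (χ : Cfsg.IrrCharacter G) (hfaith : ∀ g : G, (χ : G → ℂ) g = (χ : G → ℂ) 1 → g = 1) (n : ℕ) (hn : Cfsg.charDegree (χ : G → ℂ) = n) (hsolv : Group.IsSolvable G) (p : ℕ) (hp : p.Prime) (P : Sylow p G) (hP : ¬ (P : Subgroup G).Normal) : ∃ q : ℕ, IsPrimePow q ∧ q ∣ n ∧ ((q : ℤ) ≡ -1 [ZMOD p] ∨ (q : ℤ) ≡ 0 [ZMOD p] ∨ (q : ℤ) ≡ 1 [ZMOD p]) := by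
  classical
  have hnc : ¬ PClosed p G := fun h => hP (sylow_normal_of_pclosed h P)
  obtain ⟨q, hq, hqd, hqp⟩ := winter_aux p hp (Nat.card G) G rfl hsolv χ hfaith hnc
  subst hn
  refine ⟨q, hq, hqd, ?_⟩
  have hq1 : 1 ≤ q := hq.pos
  rcases hqp with h | h | h
  · right
    left
    rw [Int.modEq_zero_iff_dvd]
    exact_mod_cast h
  · right
    right
    rw [Int.modEq_iff_dvd]
    have h1 : (p : ℤ) ∣ ((q - 1 : ℕ) : ℤ) := by exact_mod_cast h
    rw [Nat.cast_sub hq1] at h1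
    have h2 : (1 : ℤ) - (q : ℤ) = -((q : ℤ) - ((1 : ℕ) : ℤ)) := by
      push_cast
      ring
    rw [h2]
    exact (dvd_neg).mpr h1
  · left
    rw [Int.modEq_iff_dvd]
    have h1 : (p : ℤ) ∣ ((q + 1 : ℕ) : ℤ) := by exact_mod_cast h
    have h2 : (-1 : ℤ) - (q : ℤ) = -(((q + 1 : ℕ) : ℤ)) := by
      push_cast
      ring
    rw [h2]
    exact (dvd_neg).mpr h1

end Cfsg.Agent.S4467
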