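import Cfsg.Statements.S4470
import Cfsg.Agent.Helper67.JordanArc

set_option autoImplicit false
open Cfsg

namespace Cfsg.Agent.S4470

open Cfsg.Agent.Helper67 Module.End

/-- Let the finite group G have a faithful character of degree n. Then G has an abelian normal subgroup A such that every abelian subgroup H of G satisfies [H : H ⊓ A] ≤ 12^n. -/
theorem result {G : Type*} [Group G] [Finite G] (χ : G → ℂ) (hχ : Cfsg.IsCharacter G χ) (hfaith : ∀ g : G, χ g = χ 1 → g = 1) (n : ℕ) (hn : Cfsg.charDegree χ = n) : ∃ A : Subgroup G, A.Normal ∧ (∀ x ∈ A, ∀ y ∈ A, x * y = y * x) ∧ ∀ H : Subgroup G, (∀ x ∈ H, ∀ y ∈ H, x * y = y * x) → (A.subgroupOf H).index ≤ 12 ^ n := by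
  obtain ⟨n', ρ, rfl⟩ := hχ
  have hn' : n = n' := by
    rw [← hn]
    unfold Cfsg.charDegree
    simp [Representation.character]
  subst hn'
  have hone : ∀ g : G, ρ g = 1 → g = 1 := by
    intro g hg
    apply hfaith
    simp [Representation.character, hg]
  have hinj : ∀ g h : G, ρ g * ρ h = ρ h * ρ g → g * h = h * g := by
    intro g h hgh
    have h1 : ρ (g * h * (h * g)⁻¹) = 1 := by
      rw [map_mul, map_mul, hgh, ← map_mul, ← map_mul, mul_inv_cancel, map_one]
    have := hone _ h1
    exact mul_inv_eq_one.mp this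
  let T : Set G := {g | ∀ μ : ℂ, HasEigenvalue (ρ g) μ → Real.sqrt 3 / 2 < μ.re}
  have hTcomm : ∀ x ∈ T, ∀ y ∈ T, x * y = y * x := by
    intro x hx y hy
    exact hinj x y (jarc_commute_concrete ρ x y hx hy)
  have hTconj : ∀ g ∈ T, ∀ h : G, h * g * h⁻¹ ∈ T := by
    intro g hg h μ hμ
    exact hg μ (jarc_eigen_conj ρ g h μ hμ)
  refine ⟨Subgroup.closure T, ?_, ?_, ?_⟩
  · have heq : Subgroup.closure T = Subgroup.normalClosure T := by
      apply le_antisymm Subgroup.closure_le_normalClosure
      show Subgroup.closure (Group.conjugatesOfSet T) ≤ Subgroup.closure T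
      apply Subgroup.closure_mono
      intro a ha
      rw [Group.mem_conjugatesOfSet_iff] at ha
      obtain ⟨b, hb, hba⟩ := ha
      obtain ⟨c, hc⟩ := isConj_iff.mp hba
      rw [← hc]
      exact hTconj b hb c
    rw [heq]
    exact Subgroup.normalClosure_normal
  · have h2 : Subgroup.closure T ≤ Subgroup.centralizer T :=
      (Subgroup.closure_le _).mpr
        (fun x hx => Subgroup.mem_centralizer_iff.mpr (fun y hy => hTcomm y hy x hx))
    have h3 : Subgroup.closure T ≤ Subgroup.centralizer (Subgroup.closure T : Set G) :=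
      (Subgroup.closure_le _).mpr
        (fun x hx => Subgroup.mem_centralizer_iff.mpr
          (fun y hy => ((Subgroup.mem_centralizer_iff.mp (h2 hy)) x hx).symm))
    intro x hx y hy
    exact (Subgroup.mem_centralizer_iff.mp (h3 hy)) x hx
  · intro H hH
    have := jarc_index_bound ρ (Subgroup.closure T) H hH
      (fun g hg => Subgroup.subset_closure hg)
    simpa using this

end Cfsg.Agent.S4470
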