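import Mathlib
import Cfsg.Statements.S4473
import Cfsg.Agent.Helper56.Prim2E
import Cfsg.Agent.Helper79.Induced
import Cfsg.Agent.Helper79.Abelian

set_option autoImplicit false
open Cfsg

namespace Cfsg.Agent.S4473

/-- Let the finite group G have a faithful irreducible character χ of degree 2 that is primitive: χ is not induced from a character of any proper subgroup. Then the centre of G has index 12, 24 or 60. -/
theorem result {G : Type*} [Group G] [Fintype G] (χ : Cfsg.IrrCharacter G) (hfaith : ∀ g : G, (χ : G → ℂ) g = (χ : G → ℂ) 1 → g = 1) (h2 : Cfsg.charDegree (χ : G → ℂ) = 2) (hprim : ∀ H : Subgroup G, H ≠ ⊤ → ∀ θ : H → ℂ, Cfsg.IsCharacter H θ → (χ : G → ℂ) ≠ Cfsg.indFun H θ) : (Subgroup.center G).index = 12 ∨ (Subgroup.center G).index = 24 ∨ (Subgroup.center G).index = 60 := by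
  classical
  obtain ⟨n, ρ, hirr, hρ⟩ := χ.2
  have hχ : ∀ g, (χ : G → ℂ) g = LinearMap.trace ℂ (Fin n → ℂ) (ρ g) := fun g => by
    rw [← hρ]; rfl
  have hn : n = 2 := by
    have h1 := Cfsg.Agent.Helper79.isCharacter_one_eq_charDegree
      (Cfsg.Agent.Helper79.irr_isCharacter χ)
    rw [h2, hχ, map_one, LinearMap.trace_one] at h1
    simp at h1
    exact_mod_cast h1
  subst hn
  have hρinj : Function.Injective ρ := by
    intro g g' hgg
    have h1 : ρ (g * g'⁻¹) = 1 := by
      rw [map_mul, hgg, ← map_mul, mul_inv_cancel, map_one]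
    have h3 : g * g'⁻¹ = 1 := by
      apply hfaith
      rw [hχ, hχ, h1, (map_one ρ : ρ 1 = 1)]
    exact mul_inv_eq_one.mp h3
  let ρm : G →* Matrix (Fin 2) (Fin 2) ℂ :=
    { toFun := fun g => LinearMap.toMatrix' (ρ g)
      map_one' := by simp
      map_mul' := fun a b => by simp [LinearMap.toMatrix'_mul] }
  have hρm : ∀ g, ρm g = LinearMap.toMatrix' (ρ g) := fun _ => rfl
  have hinj : Function.Injective ρm := by
    intro g g' hgg
    rw [hρm, hρm] at hgg
    exact hρinj (LinearMap.toMatrix'.injective hgg)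
  have hns : ∀ g : G, g ∉ Subgroup.center G → ∀ c : ℂ,
      ρm g ≠ c • (1 : Matrix (Fin 2) (Fin 2) ℂ) := by
    intro g hg c hc
    apply hg
    rw [Subgroup.mem_center_iff]
    intro x
    apply hinj
    rw [map_mul, map_mul, hc]
    simp
  have hab : ∀ A : Subgroup G, (∀ x ∈ A, ∀ y ∈ A, x * y = y * x) →
      A.index ≠ 1 ∧ A.index ≠ 2 := by
    intro A hA
    constructor
    · intro hidx
      rw [Subgroup.index_eq_one] at hidx
      have hcomm : ∀ a b : G, a * b = b * a := fun a b =>
        hA a (by rw [hidx]; exact Subgroup.mem_top a) b (by rw [hidx]; exact Subgroup.mem_top b)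
      have h1 := Cfsg.Agent.Helper79.irr_charDegree_eq_one_of_comm hcomm χ
      omega
    · intro hidx
      have hfinA : Fintype A := Fintype.ofFinite A
      have hfinI : Fintype (Cfsg.IrrCharacter A) := Fintype.ofFinite _
      have hψ : Cfsg.IsCharacter A (fun x : A => (χ : G → ℂ) x) :=
        Cfsg.Agent.Helper79.isCharacter_restrict (Cfsg.Agent.Helper79.irr_isCharacter χ) A
      obtain ⟨b, hb, -, hdeg⟩ := Cfsg.Agent.Helper79.isCharacter_decomp hψ
      have hdeg2 : Cfsg.charDegree (fun x : A => (χ : G → ℂ) x) = 2 := h2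
      rw [hdeg2] at hdeg
      obtain ⟨η, hη⟩ : ∃ η, b η ≠ 0 := by
        by_contra hcon
        push Not at hcon
        simp [hcon] at hdeg
      have hη1 : Cfsg.charDegree (η : A → ℂ) = 1 :=
        Cfsg.Agent.Helper79.irr_charDegree_eq_one_of_comm
          (fun a b => Subtype.ext (hA a a.2 b b.2)) η
      have hne : Cfsg.classInner (fun x : A => (χ : G → ℂ) x) (η : A → ℂ) ≠ 0 := by
        rw [hb η]
        exact_mod_cast hη
      obtain ⟨-, hind⟩ := Cfsg.Agent.Helper79.irr_charDegree_le_index_mul χ A η hne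
      have h5 := hind (by rw [hidx, hη1, h2])
      refine hprim A ?_ η (Cfsg.Agent.Helper79.irr_isCharacter η) h5.symm
      rintro rfl
      simp at hidx
  exact Cfsg.Agent.Helper56.Prim2.index_center (ρ := ρm) ⟨hinj, hns, hab⟩

end Cfsg.Agent.S4473
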