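import Cfsg.Statements.S4476
import Cfsg.Agent.Helper80.SqrtCount
import Cfsg.Agent.Helper80.Gagola
import Cfsg.Agent.Helper79.FrobSchur
import Cfsg.Agent.Helper3.BrauerPerm2

set_option autoImplicit false
open Cfsg

namespace Cfsg.Agent.S4476

open Cfsg.Agent.Helper80

open scoped ComplexConjugate Classical

/-- Let G be a finite group of even order g with exactly t involutions, and put α = (g − 1)/t (a rational number). Then (a) some non-identity element x of G has at most α² conjugates; and (b) some non-principal real-valued irreducible character of G has degree at most α. -/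
theorem result {G : Type*} [Group G] [Fintype G] (heven : Even (Nat.card G)) (t : ℕ) (ht : Nat.card {x : G // orderOf x = 2} = t) : (∃ x : G, x ≠ 1 ∧ ((Subgroup.centralizer ({x} : Set G)).index : ℚ) ≤ (((Nat.card G : ℚ) - 1) / t) ^ 2) ∧ ∃ χ : Cfsg.IrrCharacter G, (χ : G → ℂ) ≠ (fun _ => 1) ∧ (∀ g : G, ((χ : G → ℂ) g).im = 0) ∧ (Cfsg.charDegree (χ : G → ℂ) : ℚ) ≤ ((Nat.card G : ℚ) - 1) / t := by
  let _ := Fintype.ofFinite (IrrCharacter G)
  let _ := Fintype.ofFinite (ConjClasses G)
  have : Fact (Nat.Prime 2) := ⟨Nat.prime_two⟩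
  set g := Fintype.card G with hg
  have hgc : Nat.card G = g := Nat.card_eq_fintype_card
  -- `t ≥ 1`
  have ht1 : 1 ≤ t := by
    obtain ⟨x, hx⟩ := exists_prime_orderOf_dvd_card' 2 (even_iff_two_dvd.mp heven)
    rw [← ht]
    have : Nonempty {x : G // orderOf x = 2} := ⟨⟨x, hx⟩⟩
    exact Nat.card_pos
  -- number of square roots of `1`
  have hsq : (Finset.univ.filter (fun u : G => u * u = 1)).card = 1 + t := by
    rw [← ht, Nat.card_eq_fintype_card, Fintype.card_subtype]
    have h1 : Finset.univ.filter (fun u : G => u * u = 1) =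
        insert 1 (Finset.univ.filter (fun x : G => orderOf x = 2)) := by
      ext u
      simp only [Finset.mem_filter, Finset.mem_univ, true_and, Finset.mem_insert]
      rw [orderOf_eq_prime_iff (p := 2)]
      constructor
      · intro h
        by_cases h1 : u = 1
        · left; exact h1
        · right; exact ⟨by rw [pow_two]; exact h, h1⟩
      · rintro (rfl | ⟨h, -⟩)
        · simp
        · rw [← pow_two]; exact h
    rw [h1, Finset.card_insert_of_notMem, add_comm]
    simp
  have hFS := sum_indicator_mul (1 : G)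
  rw [hsq] at hFS
  set triv := trivIrr G with htriv
  set R := Finset.univ.filter (fun χ : IrrCharacter G => ∀ g : G, ((χ : G → ℂ) g).im = 0) with hR
  have htrivR : triv ∈ R := by
    rw [hR, Finset.mem_filter]
    exact ⟨Finset.mem_univ _, fun g => by simp [htriv]⟩
  have hG0 : (Fintype.card G : ℂ) ≠ 0 := by exact_mod_cast Fintype.card_ne_zero
  have hkey : ∀ χ : IrrCharacter G, ∃ a : ℤ,
      conj ((Fintype.card G : ℂ)⁻¹ * ∑ s : G, (χ : G → ℂ) (s * s)) * (χ : G → ℂ) 1 = (a : ℂ) ∧
        a ≤ (if χ ∈ R then (charDegree (χ : G → ℂ) : ℤ) else 0) ∧ (χ = triv → a = 1) := by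
    intro χ
    have h1 := Cfsg.Agent.Helper79.irr_frobenius_schur χ.2
    rw [Nat.card_eq_fintype_card] at h1
    obtain ⟨h2, h3⟩ := h1
    have hd := irr_one_eq χ
    have hdpos := irr_degree_pos χ
    by_cases hχ : χ = triv
    · refine ⟨1, ?_, ?_, fun _ => rfl⟩
      · rw [hχ]
        simp only [htriv, trivIrr_apply, Finset.sum_const, Finset.card_univ, nsmul_eq_mul, mul_one]
        rw [inv_mul_cancel₀ hG0]
        simp
      · rw [hχ, if_pos htrivR]
        rw [hχ] at hdpos
        exact_mod_cast hdpos
    · rcases h2 with h | h | h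
      · refine ⟨0, by rw [h]; simp, ?_, fun h' => absurd h' hχ⟩
        split_ifs
        · positivity
        · exact le_refl _
      · have hreal : χ ∈ R := by
          rw [hR, Finset.mem_filter]
          refine ⟨Finset.mem_univ _, ?_⟩
          intro x
          by_contra hx
          have h4 := h3.mpr ⟨x, hx⟩
          rw [h] at h4
          exact one_ne_zero h4
        refine ⟨charDegree (χ : G → ℂ), by rw [h, hd]; simp, by rw [if_pos hreal],
          fun h' => absurd h' hχ⟩
      · have hreal : χ ∈ R := by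
          rw [hR, Finset.mem_filter]
          refine ⟨Finset.mem_univ _, ?_⟩
          intro x
          by_contra hx
          have h4 := h3.mpr ⟨x, hx⟩
          rw [h] at h4
          simp at h4
        refine ⟨-(charDegree (χ : G → ℂ) : ℤ), by rw [h, hd]; simp, ?_,
          fun h' => absurd h' hχ⟩
        rw [if_pos hreal]
        omega
  choose a ha1 ha2 ha3 using hkey
  have hsum : ∑ χ : IrrCharacter G, a χ = 1 + t := by
    have h1 : ((∑ χ : IrrCharacter G, a χ : ℤ) : ℂ) = ((1 + t : ℕ) : ℂ) := by
      rw [← hFS]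
      push_cast
      exact Finset.sum_congr rfl (fun χ _ => (ha1 χ).symm)
    exact_mod_cast h1
  set R' := R.erase triv with hR'
  have hi : (t : ℤ) ≤ ∑ χ ∈ R', (charDegree (χ : G → ℂ) : ℤ) := by
    have h1 : ∑ χ : IrrCharacter G, a χ = a triv + ∑ χ ∈ Finset.univ.erase triv, a χ :=
      (Finset.add_sum_erase _ _ (Finset.mem_univ triv)).symm
    rw [ha3 triv rfl] at h1
    have h2 : ∑ χ ∈ Finset.univ.erase triv, a χ ≤ ∑ χ ∈ Finset.univ.erase triv,
        (if χ ∈ R then (charDegree (χ : G → ℂ) : ℤ) else 0) :=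
      Finset.sum_le_sum (fun χ _ => ha2 χ)
    have h3 : ∑ χ ∈ Finset.univ.erase triv,
        (if χ ∈ R then (charDegree (χ : G → ℂ) : ℤ) else 0) =
        ∑ χ ∈ R', (charDegree (χ : G → ℂ) : ℤ) := by
      rw [← Finset.sum_filter]
      congr 1
      ext χ
      simp only [hR', Finset.mem_filter, Finset.mem_erase, Finset.mem_univ, and_true]
    omega
  have hi' : t ≤ ∑ χ ∈ R', charDegree (χ : G → ℂ) := by exact_mod_cast hi
  have hii : ∑ χ ∈ R', charDegree (χ : G → ℂ) ^ 2 + 1 ≤ g := by
    have h1 := irr_sum_charDegree_sq (G := G)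
    rw [← Finset.add_sum_erase _ _ (Finset.mem_univ triv)] at h1
    have h2 : charDegree (triv : G → ℂ) = 1 := by
      simp [charDegree, htriv]
    have h3 : ∑ χ ∈ R', charDegree (χ : G → ℂ) ^ 2 ≤
        ∑ χ ∈ Finset.univ.erase triv, charDegree (χ : G → ℂ) ^ 2 :=
      Finset.sum_le_sum_of_subset (Finset.erase_subset_erase _ (Finset.subset_univ _))
    rw [h2] at h1
    omega
  have hg2 : 2 ≤ g := by
    obtain ⟨k, hk⟩ := heven
    have hpos : 0 < g := Fintype.card_pos
    omega
  have hR'ne : R'.Nonempty := by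
    by_contra h
    rw [Finset.not_nonempty_iff_eq_empty] at h
    rw [h, Finset.sum_empty] at hi'
    omega
  have hgQ : (Nat.card G : ℚ) - 1 = ((g - 1 : ℕ) : ℚ) := by
    rw [hgc, Nat.cast_sub (by omega)]; simp
  have htQ : (0 : ℚ) < (t : ℚ) := by exact_mod_cast ht1
  constructor
  · -- part (a)
    have hCS : t ^ 2 ≤ R'.card * (g - 1) := by
      have h1 : (∑ χ ∈ R', charDegree (χ : G → ℂ)) ^ 2 ≤
          R'.card * ∑ χ ∈ R', charDegree (χ : G → ℂ) ^ 2 := sq_sum_le_card_mul_sum_sq
      have h2 : t ^ 2 ≤ (∑ χ ∈ R', charDegree (χ : G → ℂ)) ^ 2 := Nat.pow_le_pow_left hi' 2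
      have h3 : R'.card * ∑ χ ∈ R', charDegree (χ : G → ℂ) ^ 2 ≤ R'.card * (g - 1) :=
        Nat.mul_le_mul_left _ (by omega)
      omega
    set Sc := Finset.univ.filter (fun C : ConjClasses G =>
      ∀ x : G, ConjClasses.mk x = C → IsConj x x⁻¹) with hSc
    have hcardRS : R.card = Sc.card := by
      have h1 := Cfsg.Agent.Helper3.card_real_irr_eq (G := G)
      rw [Nat.card_eq_fintype_card, Nat.card_eq_fintype_card, Fintype.card_subtype,
        Fintype.card_subtype] at h1
      convert h1
    have hmk1 : ∀ x : G, ConjClasses.mk x = ConjClasses.mk (1 : G) → x = 1 := by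
      intro x hx
      rw [ConjClasses.mk_eq_mk_iff_isConj] at hx
      exact isConj_one_right.mp hx.symm
    have h1Sc : ConjClasses.mk (1 : G) ∈ Sc := by
      rw [hSc, Finset.mem_filter]
      refine ⟨Finset.mem_univ _, fun x hx => ?_⟩
      rw [hmk1 x hx]
      simp
    set S := Sc.erase (ConjClasses.mk (1 : G)) with hS
    have hcardS : S.card = R'.card := by
      rw [hS, hR', Finset.card_erase_of_mem h1Sc, Finset.card_erase_of_mem htrivR, hcardRS]
    have hsz : ∑ C : ConjClasses G,
        (Finset.univ.filter (fun h : G => ConjClasses.mk h = C)).card = g := by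
      rw [← Finset.card_eq_sum_card_fiberwise (fun x _ => Finset.mem_univ _), Finset.card_univ]
    have hsz1 : (Finset.univ.filter
        (fun h : G => ConjClasses.mk h = ConjClasses.mk (1 : G))).card = 1 := by
      rw [Finset.card_eq_one]
      refine ⟨1, ?_⟩
      ext h
      simp only [Finset.mem_filter, Finset.mem_univ, true_and, Finset.mem_singleton]
      exact ⟨hmk1 h, fun h' => by rw [h']⟩
    have hszS : ∑ C ∈ S, (Finset.univ.filter (fun h : G => ConjClasses.mk h = C)).card + 1 ≤ g := by
      have h1 := hsz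
      rw [← Finset.add_sum_erase _ _ (Finset.mem_univ (ConjClasses.mk (1 : G))), hsz1] at h1
      have h2 : ∑ C ∈ S, (Finset.univ.filter (fun h : G => ConjClasses.mk h = C)).card ≤
          ∑ C ∈ Finset.univ.erase (ConjClasses.mk (1 : G)),
            (Finset.univ.filter (fun h : G => ConjClasses.mk h = C)).card :=
        Finset.sum_le_sum_of_subset (Finset.erase_subset_erase _ (Finset.subset_univ _))
      omega
    have hSne : S.Nonempty := by
      rw [← Finset.card_pos, hcardS, Finset.card_pos]
      exact hR'ne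
    -- some real nonidentity class is small
    have hex : ∃ C ∈ S, (Finset.univ.filter (fun h : G => ConjClasses.mk h = C)).card * S.card ≤
        g - 1 := by
      by_contra hcon
      push Not at hcon
      have h1 : ∑ C ∈ S, (g - 1) < ∑ C ∈ S,
          (Finset.univ.filter (fun h : G => ConjClasses.mk h = C)).card * S.card :=
        Finset.sum_lt_sum_of_nonempty hSne hcon
      rw [Finset.sum_const, smul_eq_mul, ← Finset.sum_mul] at h1
      have h2 : (∑ C ∈ S, (Finset.univ.filter (fun h : G => ConjClasses.mk h = C)).card) * S.card ≤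
          (g - 1) * S.card := Nat.mul_le_mul_right _ (by omega)
      rw [mul_comm] at h1
      omega
    obtain ⟨C, hC, hCsz⟩ := hex
    obtain ⟨x, rfl⟩ := ConjClasses.exists_rep C
    have hx1 : x ≠ 1 := by
      rintro rfl
      exact (Finset.ne_of_mem_erase hC) rfl
    refine ⟨x, hx1, ?_⟩
    have hidx : (Subgroup.centralizer ({x} : Set G)).index =
        (Finset.univ.filter (fun h : G => ConjClasses.mk h = ConjClasses.mk x)).card := by
      have h1 := card_eq_card_conj_mul_card_centralizer x
      have h2 := Subgroup.index_mul_card (Subgroup.centralizer ({x} : Set G))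
      rw [Nat.card_eq_fintype_card (α := G), h1] at h2
      have h3 : (Finset.univ.filter (fun h : G => ConjClasses.mk h = ConjClasses.mk x)) =
          (Finset.univ.filter (fun h : G => IsConj x h)) := by
        ext h
        simp only [Finset.mem_filter, Finset.mem_univ, true_and]
        rw [ConjClasses.mk_eq_mk_iff_isConj]
        exact ⟨IsConj.symm, IsConj.symm⟩
      rw [h3]
      exact Nat.eq_of_mul_eq_mul_right Nat.card_pos h2
    rw [hidx, hgQ, div_pow, le_div_iff₀ (by positivity)]
    rw [hcardS] at hCsz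
    have h5 : (Finset.univ.filter (fun h : G => ConjClasses.mk h = ConjClasses.mk x)).card * t ^ 2 ≤
        (g - 1) ^ 2 := by
      calc (Finset.univ.filter (fun h : G => ConjClasses.mk h = ConjClasses.mk x)).card * t ^ 2
          ≤ (Finset.univ.filter (fun h : G => ConjClasses.mk h = ConjClasses.mk x)).card *
            (R'.card * (g - 1)) := Nat.mul_le_mul_left _ hCS
        _ = ((Finset.univ.filter (fun h : G => ConjClasses.mk h = ConjClasses.mk x)).card *
            R'.card) * (g - 1) := by ring
        _ ≤ (g - 1) * (g - 1) := Nat.mul_le_mul_right _ hCsz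
        _ = (g - 1) ^ 2 := by ring
    exact_mod_cast h5
  · -- part (b)
    have hex : ∃ χ ∈ R', charDegree (χ : G → ℂ) * t ≤ g - 1 := by
      by_contra hcon
      push Not at hcon
      have h1 : ∑ χ ∈ R', charDegree (χ : G → ℂ) * (g - 1) <
          ∑ χ ∈ R', charDegree (χ : G → ℂ) * (charDegree (χ : G → ℂ) * t) := by
        apply Finset.sum_lt_sum_of_nonempty hR'ne
        intro χ hχ
        exact Nat.mul_lt_mul_of_pos_left (hcon χ hχ) (irr_degree_pos χ)
      rw [← Finset.sum_mul] at h1
      have h2 : ∑ χ ∈ R', charDegree (χ : G → ℂ) * (charDegree (χ : G → ℂ) * t) =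
          (∑ χ ∈ R', charDegree (χ : G → ℂ) ^ 2) * t := by
        rw [Finset.sum_mul]
        apply Finset.sum_congr rfl
        intro χ _
        ring
      have h3 : (∑ χ ∈ R', charDegree (χ : G → ℂ) ^ 2) * t ≤ (g - 1) * t :=
        Nat.mul_le_mul_right _ (by omega)
      have h4 : t * (g - 1) ≤ (∑ χ ∈ R', charDegree (χ : G → ℂ)) * (g - 1) :=
        Nat.mul_le_mul_right _ hi'
      have h5 : t * (g - 1) < (g - 1) * t :=
        lt_of_le_of_lt h4 (lt_of_lt_of_le (h2 ▸ h1) h3)
      rw [mul_comm] at h5
      exact lt_irrefl _ h5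
    obtain ⟨χ, hχ, hχt⟩ := hex
    refine ⟨χ, ?_, ?_, ?_⟩
    · intro h
      apply Finset.ne_of_mem_erase hχ
      exact Subtype.ext h
    · have := Finset.mem_of_mem_erase hχ
      rw [hR, Finset.mem_filter] at this
      exact this.2
    · rw [hgQ, le_div_iff₀ htQ]
      exact_mod_cast hχt

end Cfsg.Agent.S4476
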