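import Cfsg.Statements.S4477
import Cfsg.Agent.Helper80.AFT

set_option autoImplicit false
open Cfsg

namespace Cfsg.Agent.S4477

open Cfsg.Agent Cfsg.Agent.Helper80

/-- The real-valued irreducible characters of degree two. -/
abbrev RealTwo (G : Type*) [Group G] : Type _ :=
  {χ : IrrCharacter G // charDegree (χ : G → ℂ) = 2 ∧ ∀ g : G, ((χ : G → ℂ) g).im = 0}

/-- The action of the real linear characters on the real characters of degree two. -/
@[reducible] noncomputable def twistAction (G : Type*) [Group G] [Finite G] :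
    MulAction (sqOne G) (RealTwo G) where
  smul f x := ⟨Helper79.irrTwist f.1 x.1,
    by rw [Helper79.charDegree_irrTwist]; exact x.2.1,
    irrTwist_real f.1 f.2 x.1 x.2.2⟩
  one_smul x := Subtype.ext (irrTwist_one x.1)
  mul_smul f f' x := Subtype.ext (irrTwist_mul f.1 f'.1 x.1)

/-- Let G be a finite 2-group whose number of involutions is congruent to 1 modulo 4. Then G is cyclic or its commutator subgroup has index 4. -/
theorem result {G : Type*} [Group G] [Finite G] (hG : IsPGroup 2 G) (ht : Nat.card {x : G // orderOf x = 2} % 4 = 1) : IsCyclic G ∨ (commutator G).index = 4 := by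
  classical
  by_cases hcyc : IsCyclic G
  · exact Or.inl hcyc
  right
  have : Fintype G := Fintype.ofFinite G
  have : Fintype (IrrCharacter G) := Fintype.ofFinite _
  have hLfin : Finite (G →* ℂˣ) := finite_hom
  have : Fintype (G →* ℂˣ) := Fintype.ofFinite _
  -- the count modulo four
  have hcount : ((Nat.card {x : G // orderOf x = 2} + 1 : ℕ) : ZMod 4) =
      (Nat.card {χ : IrrCharacter G //
        charDegree (χ : G → ℂ) = 1 ∧ ∀ g : G, ((χ : G → ℂ) g).im = 0} : ZMod 4) +
      2 * (Nat.card (RealTwo G) : ZMod 4) := two_group_count_mod_four' (G := G) hG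
  rw [card_real_linear (G := G)] at hcount
  have h4 : 4 ∣ Nat.card (sqOne G) := four_dvd_card_sqOne hG hcyc
  have hlhs : ((Nat.card {x : G // orderOf x = 2} + 1 : ℕ) : ZMod 4) = 2 := by
    have : ((Nat.card {x : G // orderOf x = 2} + 1 : ℕ) : ZMod 4) = ((2 : ℕ) : ZMod 4) := by
      rw [ZMod.natCast_eq_natCast_iff']; omega
    exact_mod_cast this
  rw [hlhs, (ZMod.natCast_eq_zero_iff _ 4).mpr h4, zero_add] at hcount
  -- the number of real characters of degree two is odd
  have hodd : ¬ 2 ∣ Nat.card (RealTwo G) := by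
    rintro ⟨m, hm⟩
    rw [hm] at hcount
    have h40 : (4 : ZMod 4) = 0 := by decide
    have h5 : (2 : ZMod 4) * ((2 * m : ℕ) : ZMod 4) = 0 := by
      push_cast
      calc (2 : ZMod 4) * (2 * (m : ZMod 4)) = 4 * (m : ZMod 4) := by ring
        _ = 0 := by rw [h40, zero_mul]
    rw [h5] at hcount
    exact absurd hcount (by decide)
  -- fixed points of the action
  let _ := twistAction G
  have hfix := (isPGroup_sqOne (G := G)).card_modEq_card_fixedPoints (RealTwo G)
  have hfodd : ¬ 2 ∣ Nat.card (MulAction.fixedPoints (sqOne G) (RealTwo G)) := by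
    intro h
    apply hodd
    exact (Nat.modEq_zero_iff_dvd.mp ((hfix.trans (Nat.modEq_zero_iff_dvd.mpr h))))
  have hfne : Nonempty (MulAction.fixedPoints (sqOne G) (RealTwo G)) := by
    by_contra hcon
    rw [not_nonempty_iff] at hcon
    apply hfodd
    rw [Nat.card_of_isEmpty]
    exact dvd_zero 2
  obtain ⟨⟨x₀, hx₀⟩⟩ := hfne
  have hfixed : ∀ (x : RealTwo G), x ∈ MulAction.fixedPoints (sqOne G) (RealTwo G) →
      ∀ f : G →* ℂˣ, f ^ 2 = 1 → Helper79.irrTwist f x.1 = x.1 := by
    intro x hx f hf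
    have h1 := MulAction.mem_fixedPoints.mp hx ⟨f, hf⟩
    exact congrArg Subtype.val h1
  -- the real linear characters: exactly four
  set SΛ : Finset (G →* ℂˣ) := Finset.univ.filter (fun f => f ^ 2 = 1) with hSΛ
  have hSΛcard : SΛ.card = Nat.card (sqOne G) := by
    have h1 : Nat.card (sqOne G) = Nat.card {f : G →* ℂˣ // f ^ 2 = 1} := rfl
    rw [h1, Nat.card_eq_fintype_card, Fintype.card_subtype]
  have hle4 : SΛ.card ≤ 4 := by
    have h1 := card_twist_stabilizer_le x₀.1 SΛ (by
      intro f hf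
      rw [hSΛ, Finset.mem_filter] at hf
      exact hfixed x₀ hx₀ f hf.2)
    rw [x₀.2.1] at h1
    exact h1
  -- suppose the index is not four
  rw [← card_hom]
  by_contra hne
  have hex : ∃ f₀ : G →* ℂˣ, f₀ ^ 2 ≠ 1 := by
    by_contra hcon
    push Not at hcon
    have h1 : SΛ = Finset.univ := by
      rw [hSΛ, Finset.filter_eq_self]
      intro f _
      exact hcon f
    have h2 : SΛ.card = Nat.card (G →* ℂˣ) := by
      rw [h1, Finset.card_univ, Nat.card_eq_fintype_card]
    have h3 : 4 ≤ SΛ.card := by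
      rw [hSΛcard]
      exact Nat.le_of_dvd Nat.card_pos h4
    omega
  obtain ⟨f₀, hf₀⟩ := hex
  -- an element μ with μ⁴ = 1, μ² ≠ 1
  obtain ⟨a, ha⟩ := (IsPGroup.iff_card (p := 2)).mp hG
  have hLdvd : Nat.card (G →* ℂˣ) ∣ 2 ^ a := by
    rw [card_hom, ← ha]
    exact Subgroup.index_dvd_card _
  have hord : orderOf f₀ ∣ 2 ^ a := (orderOf_dvd_natCard f₀).trans hLdvd
  obtain ⟨j, _, hj⟩ := (Nat.dvd_prime_pow Nat.prime_two).mp hord
  have hj2 : 2 ≤ j := by
    by_contra hcon
    apply hf₀
    have hj1 : j = 0 ∨ j = 1 := by omega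
    rcases hj1 with h | h
    · rw [h, pow_zero, orderOf_eq_one_iff] at hj
      rw [hj, one_pow]
    · rw [h, pow_one] at hj
      rw [← hj, pow_orderOf_eq_one]
  set μ : G →* ℂˣ := f₀ ^ (2 ^ (j - 2)) with hμ
  have hμ4 : (μ ^ 2) ^ 2 = 1 := by
    rw [hμ, ← pow_mul, ← pow_mul]
    have : 2 ^ (j - 2) * (2 * 2) = 2 ^ j := by
      have : j = (j - 2) + 2 := by omega
      nth_rewrite 2 [this]
      rw [pow_add]; ring
    rw [this, ← hj, pow_orderOf_eq_one]
  have hμ2 : μ ^ 2 ≠ 1 := by
    rw [hμ, ← pow_mul]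
    apply pow_ne_one_of_lt_orderOf (by positivity)
    rw [hj]
    have : 2 ^ (j - 2) * 2 = 2 ^ (j - 1) := by
      have : j - 1 = (j - 2) + 1 := by omega
      rw [this, pow_succ]
    rw [this]
    exact Nat.pow_lt_pow_right (by norm_num) (by omega)
  -- the involution on the fixed points
  have : Fintype (MulAction.fixedPoints (sqOne G) (RealTwo G)) := Fintype.ofFinite _
  have hμfix : ∀ (x : RealTwo G), x ∈ MulAction.fixedPoints (sqOne G) (RealTwo G) →
      Helper79.irrTwist μ (Helper79.irrTwist μ x.1) = x.1 := by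
    intro x hx
    rw [irrTwist_sq]
    exact hfixed x hx (μ ^ 2) hμ4
  have hμreal : ∀ (x : RealTwo G), x ∈ MulAction.fixedPoints (sqOne G) (RealTwo G) →
      ∀ g : G, ((Helper79.irrTwist μ x.1 : G → ℂ) g).im = 0 := by
    intro x hx g
    rw [Helper79.irrTwist_apply]
    by_cases hg : (x.1 : G → ℂ) g = 0
    · rw [hg, mul_zero]; rfl
    · have h1 : (Helper79.irrTwist (μ ^ 2) x.1 : G → ℂ) g = (x.1 : G → ℂ) g := by
        rw [hfixed x hx (μ ^ 2) hμ4]
      rw [Helper79.irrTwist_apply, MonoidHom.pow_apply, Units.val_pow_eq_pow_val] at h1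
      have h2 : ((μ g : ℂˣ) : ℂ) ^ 2 = 1 := mul_right_cancel₀ hg (by rw [h1, one_mul])
      rcases sq_eq_one_iff.mp h2 with h3 | h3
      · rw [h3, one_mul]; exact x.2.2 g
      · rw [h3, neg_one_mul, Complex.neg_im, x.2.2 g, neg_zero]
  let τ : MulAction.fixedPoints (sqOne G) (RealTwo G) → MulAction.fixedPoints (sqOne G) (RealTwo G) :=
    fun x => ⟨⟨Helper79.irrTwist μ x.1.1,
      by rw [Helper79.charDegree_irrTwist]; exact x.1.2.1, hμreal x.1 x.2⟩, by
        rw [MulAction.mem_fixedPoints]
        intro f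
        apply Subtype.ext
        show Helper79.irrTwist f.1 (Helper79.irrTwist μ x.1.1) = Helper79.irrTwist μ x.1.1
        rw [irrTwist_comm, hfixed x.1 x.2 f.1 f.2]⟩
  have hsum : ∑ _x ∈ (Finset.univ : Finset (MulAction.fixedPoints (sqOne G) (RealTwo G))),
      (1 : ZMod 2) = 0 := by
    refine Finset.sum_involution (fun x _ => τ x) ?_ ?_ ?_ ?_
    · intro x _; decide
    · intro x _ _ hx
      -- τ x = x contradicts the bound on the stabilizer
      have h1 : Helper79.irrTwist μ x.1.1 = x.1.1 := by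
        have := congrArg (fun y : MulAction.fixedPoints (sqOne G) (RealTwo G) => y.1.1) hx
        exact this
      have h2 := card_twist_stabilizer_le x.1.1 (insert μ SΛ) (by
        intro f hf
        rw [Finset.mem_insert] at hf
        rcases hf with hf | hf
        · rw [hf]; exact h1
        · rw [hSΛ, Finset.mem_filter] at hf
          exact hfixed x.1 x.2 f hf.2)
      have hμS : μ ∉ SΛ := by
        rw [hSΛ, Finset.mem_filter]
        rintro ⟨_, h⟩
        exact hμ2 h
      rw [Finset.card_insert_of_notMem hμS, x.1.2.1] at h2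
      have h3 : 4 ≤ SΛ.card := by
        rw [hSΛcard]
        exact Nat.le_of_dvd Nat.card_pos h4
      omega
    · intro x _; exact Finset.mem_univ _
    · intro x _
      apply Subtype.ext
      apply Subtype.ext
      exact hμfix x.1 x.2
  rw [Finset.sum_const, Finset.card_univ, nsmul_eq_mul, mul_one,
    ZMod.natCast_eq_zero_iff] at hsum
  apply hfodd
  rw [Nat.card_eq_fintype_card]
  exact hsum

end Cfsg.Agent.S4477
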