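import Cfsg.Statements.S4478
import Cfsg.Agent.Helper80.DefectZero
import Cfsg.Agent.Helper80.Gagola
import Cfsg.Agent.Helper79.FrobSchur
import Cfsg.Agent.Helper79.Codegree

set_option autoImplicit false
open Cfsg

namespace Cfsg.Agent.S4478

open Cfsg.Agent

/-- A nonidentity element on which `χ` does not vanish commutes with no involution. -/
theorem no_invol {G : Type*} [Group G] [Fintype G] (χ : Cfsg.IrrCharacter G)
    (h2 : 2 ^ (Nat.card G).factorization 2 ∣ Cfsg.charDegree (χ : G → ℂ))
    (hp : ∀ p : ℕ, p.Prime → p ≠ 2 → (∃ g : G, orderOf g = 2 * p) →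
      p ^ (Nat.card G).factorization p ∣ Cfsg.charDegree (χ : G → ℂ))
    (h : G) (hh1 : h ≠ 1) (hχ : (χ : G → ℂ) h ≠ 0) (s : G) (hs : orderOf s = 2)
    (hc : Commute s h) : False := by
  have hodd : ¬ 2 ∣ orderOf h := fun hd =>
    hχ (Helper80.irr_eq_zero_of_defect_zero χ 2 Nat.prime_two h2 h hd)
  have hne1 : orderOf h ≠ 1 := fun h1 => hh1 (orderOf_eq_one_iff.mp h1)
  obtain ⟨p, hpp, hpd⟩ := Nat.exists_prime_and_dvd hne1
  have hp2 : p ≠ 2 := fun h => hodd (h ▸ hpd)
  have hy : orderOf (h ^ (orderOf h / p)) = p :=
    orderOf_pow_orderOf_div (orderOf_pos h).ne' hpd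
  have hcy : Commute s (h ^ (orderOf h / p)) := hc.pow_right _
  have hsy : orderOf (s * h ^ (orderOf h / p)) = 2 * p := by
    rw [hcy.orderOf_mul_eq_mul_orderOf_of_coprime, hs, hy]
    rw [hs, hy]
    exact (Nat.coprime_primes Nat.prime_two hpp).mpr (Ne.symm hp2)
  exact hχ (Helper80.irr_eq_zero_of_defect_zero χ p hpp (hp p hpp hp2 ⟨_, hsy⟩) h hpd)

/-- An element of odd order whose centralizer contains no involution has a unique square root. -/
theorem sqrt_unique {G : Type*} [Group G] [Finite G] (h : G) (hodd : ¬ 2 ∣ orderOf h)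
    (hno : ∀ s : G, orderOf s = 2 → Commute s h → False) (g : G) :
    g * g = h ↔ g = h ^ ((orderOf h + 1) / 2) := by
  have hm : orderOf h % 2 = 1 := by omega
  have huu : h ^ ((orderOf h + 1) / 2) * h ^ ((orderOf h + 1) / 2) = h := by
    rw [← pow_add]
    have : (orderOf h + 1) / 2 + (orderOf h + 1) / 2 = orderOf h + 1 := by omega
    rw [this, pow_succ, pow_orderOf_eq_one, one_mul]
  constructor
  · intro hg
    set u := h ^ ((orderOf h + 1) / 2) with hu
    have hgh : Commute g h := by
      rw [← hg]; exact (Commute.refl g).mul_right (Commute.refl g)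
    have hgu : Commute g u := hgh.pow_right _
    have hss : (u⁻¹ * g) * (u⁻¹ * g) = 1 := by
      have h1 : (u⁻¹ * g) * (u⁻¹ * g) = u⁻¹ * u⁻¹ * (g * g) := by
        have := hgu.inv_right.eq
        calc (u⁻¹ * g) * (u⁻¹ * g) = u⁻¹ * (g * u⁻¹) * g := by group
          _ = u⁻¹ * (u⁻¹ * g) * g := by rw [this]
          _ = u⁻¹ * u⁻¹ * (g * g) := by group
      rw [h1, hg]
      have h2 : u⁻¹ * u⁻¹ * h = u⁻¹ * u⁻¹ * (u * u) := by rw [huu]
      rw [h2]
      group
    have hsh : Commute (u⁻¹ * g) h :=
      (((Commute.refl h).pow_left _).inv_left).mul_left hgh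
    by_contra hne
    have hs1 : u⁻¹ * g ≠ 1 := by
      intro h1
      apply hne
      have : g = u * (u⁻¹ * g) := by group
      rw [this, h1, mul_one]
    have hs2 : orderOf (u⁻¹ * g) = 2 := by
      rw [orderOf_eq_prime_iff]
      exact ⟨by rw [pow_two]; exact hss, hs1⟩
    exact hno _ hs2 hsh
  · intro hg
    rw [hg]; exact huu

/-- Let G be a finite group of even order and χ an irreducible character of G whose degree x is divisible by the full power of 2 dividing the order of G and, for every odd prime p such that G has an element of order 2p, by the full power of p dividing the order of G. Then all involutions of G are conjugate, the centralizer of every involution has order exactly x with x coprime to its index, and the Frobenius–Schur indicator of χ equals 1. -/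
theorem result {G : Type*} [Group G] [Fintype G] (heven : Even (Nat.card G)) (χ : Cfsg.IrrCharacter G) (h2 : 2 ^ (Nat.card G).factorization 2 ∣ Cfsg.charDegree (χ : G → ℂ)) (hp : ∀ p : ℕ, p.Prime → p ≠ 2 → (∃ g : G, orderOf g = 2 * p) → p ^ (Nat.card G).factorization p ∣ Cfsg.charDegree (χ : G → ℂ)) : (∀ s t : G, orderOf s = 2 → orderOf t = 2 → IsConj s t) ∧ (∀ s : G, orderOf s = 2 → Nat.card (Subgroup.centralizer ({s} : Set G)) = Cfsg.charDegree (χ : G → ℂ) ∧ (Nat.card (Subgroup.centralizer ({s} : Set G))).Coprime (Subgroup.centralizer ({s} : Set G)).index) ∧ (Nat.card G : ℂ)⁻¹ * ∑ g : G, (χ : G → ℂ) (g * g) = 1 := by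
  classical
  have hG0 : Nat.card G ≠ 0 := Nat.card_pos.ne'
  have hGc : (Nat.card G : ℂ) ≠ 0 := by exact_mod_cast hG0
  set d := Cfsg.charDegree (χ : G → ℂ) with hd
  have hd1 : (χ : G → ℂ) 1 = (d : ℂ) :=
    Helper79.isCharacter_one_eq_charDegree (Helper79.irr_isCharacter χ)
  have hdpos : 0 < d := Helper80.irr_degree_pos χ
  have hd0 : d ≠ 0 := hdpos.ne'
  have h2G : 2 ∣ Nat.card G := heven.two_dvd
  have h2d : 2 ∣ d :=
    dvd_trans (dvd_pow_self 2 (Nat.Prime.factorization_pos_of_dvd Nat.prime_two hG0 h2G).ne') h2
  -- involutions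
  set I : Finset G := Finset.univ.filter (fun s : G => orderOf s = 2) with hI
  have hIne : 0 < I.card := by
    obtain ⟨s, hs⟩ := exists_prime_orderOf_dvd_card' (G := G) 2 h2G
    exact Finset.card_pos.mpr ⟨s, by rw [hI, Finset.mem_filter]; exact ⟨Finset.mem_univ _, hs⟩⟩
  have hvan2 : ∀ h : G, (χ : G → ℂ) h ≠ 0 → ¬ 2 ∣ orderOf h := fun h hχ hd =>
    hχ (Helper80.irr_eq_zero_of_defect_zero χ 2 Nat.prime_two h2 h hd)
  -- the key identity, element by element
  have key : ∀ h : G, ((Finset.univ.filter (fun g : G => g * g = h)).card : ℂ) * (χ : G → ℂ) h =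
      (χ : G → ℂ) h + if h = 1 then (I.card : ℂ) * (d : ℂ) else 0 := by
    intro h
    by_cases h1 : h = 1
    · subst h1
      have hf : Finset.univ.filter (fun g : G => g * g = 1) = insert 1 I := by
        ext g
        simp only [Finset.mem_filter, Finset.mem_univ, true_and, Finset.mem_insert, hI]
        rw [orderOf_eq_prime_iff, pow_two]
        constructor
        · intro hg
          by_cases hg1 : g = 1
          · exact Or.inl hg1
          · exact Or.inr ⟨hg, hg1⟩
        · rintro (hg | hg)
          · rw [hg, one_mul]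
          · exact hg.1
      have hni : (1 : G) ∉ I := by
        rw [hI, Finset.mem_filter]
        rintro ⟨_, h⟩
        rw [orderOf_one] at h
        omega
      rw [hf, Finset.card_insert_of_notMem hni, if_pos rfl, hd1]
      push_cast
      ring
    · rw [if_neg h1, add_zero]
      by_cases hχ : (χ : G → ℂ) h = 0
      · rw [hχ, mul_zero]
      · have hf : Finset.univ.filter (fun g : G => g * g = h) = {h ^ ((orderOf h + 1) / 2)} := by
          ext g
          simp only [Finset.mem_filter, Finset.mem_univ, true_and, Finset.mem_singleton]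
          exact sqrt_unique h (hvan2 h hχ) (no_invol χ h2 hp h h1 hχ) g
        rw [hf, Finset.card_singleton, Nat.cast_one, one_mul]
  -- χ is not the trivial character
  have hne : χ ≠ Helper80.trivIrr G := by
    intro h
    have h1 : (χ : G → ℂ) 1 = 1 := by rw [h]; rfl
    rw [hd1] at h1
    have : d = 1 := by exact_mod_cast h1
    omega
  have hsum0 : ∑ g : G, (χ : G → ℂ) g = 0 := by
    have h1 := Helper80.irr_orthogonality_conj χ (Helper80.trivIrr G)
    rw [if_neg hne] at h1
    simpa using h1
  -- the sum of χ(g²)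
  have hsum : ∑ g : G, (χ : G → ℂ) (g * g) = (I.card : ℂ) * (d : ℂ) := by
    rw [← Finset.sum_fiberwise Finset.univ (fun g : G => g * g) (fun g => (χ : G → ℂ) (g * g))]
    have h1 : ∀ h : G, ∑ g ∈ Finset.univ.filter (fun g : G => g * g = h), (χ : G → ℂ) (g * g) =
        (χ : G → ℂ) h + if h = 1 then (I.card : ℂ) * (d : ℂ) else 0 := by
      intro h
      rw [← key h]
      have h2 : ∀ g ∈ Finset.univ.filter (fun g : G => g * g = h),
          (χ : G → ℂ) (g * g) = (χ : G → ℂ) h := by
        intro g hg
        rw [(Finset.mem_filter.mp hg).2]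
      rw [Finset.sum_congr rfl h2, Finset.sum_const, nsmul_eq_mul]
    rw [Finset.sum_congr rfl (fun h _ => h1 h), Finset.sum_add_distrib, hsum0, zero_add,
      Finset.sum_ite_eq' Finset.univ (1 : G), if_pos (Finset.mem_univ _)]
  -- Frobenius–Schur
  have hFS := (Helper79.irr_frobenius_schur χ.2).1
  rw [hsum] at hFS
  have hIdpos : 0 < I.card * d := Nat.mul_pos hIne hdpos
  have hν : (Nat.card G : ℂ)⁻¹ * ((I.card : ℂ) * (d : ℂ)) = 1 := by
    rcases hFS with h | h | h
    · exfalso
      rcases mul_eq_zero.mp h with h' | h'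
      · exact hGc (inv_eq_zero.mp h')
      · have : ((I.card * d : ℕ) : ℂ) = 0 := by push_cast; exact h'
        have : I.card * d = 0 := by exact_mod_cast this
        omega
    · exact h
    · exfalso
      have h' : (I.card : ℂ) * (d : ℂ) = -(Nat.card G : ℂ) := by
        field_simp at h
        linear_combination h
      have : ((I.card * d + Nat.card G : ℕ) : ℂ) = 0 := by push_cast; rw [h']; ring
      have : I.card * d + Nat.card G = 0 := by exact_mod_cast this
      omega
  have hcard : Nat.card G = I.card * d := by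
    have h' : (I.card : ℂ) * (d : ℂ) = (Nat.card G : ℂ) := by
      field_simp at hν
      linear_combination hν
    exact_mod_cast h'.symm
  -- centralizers of involutions
  have hcent : ∀ s : G, orderOf s = 2 →
      Nat.card (Subgroup.centralizer ({s} : Set G)) = d ∧
      Finset.univ.filter (fun t : G => IsConj s t) = I ∧
      (Nat.card (Subgroup.centralizer ({s} : Set G))).Coprime
        (Subgroup.centralizer ({s} : Set G)).index := by
    intro s hs
    set C := Subgroup.centralizer ({s} : Set G) with hC
    have hC0 : Nat.card C ≠ 0 := Nat.card_pos.ne'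
    have hCG : Nat.card C ∣ Nat.card G := Subgroup.card_subgroup_dvd_card C
    have hCp : ∀ p : ℕ, p.Prime → p ∣ Nat.card C →
        p ^ (Nat.card G).factorization p ∣ d := by
      intro p hpp hpC
      by_cases hp2 : p = 2
      · rw [hp2]; exact h2
      · have : Fact p.Prime := ⟨hpp⟩
        obtain ⟨y, hy⟩ := exists_prime_orderOf_dvd_card' (G := C) p hpC
        have hyG : orderOf (y : G) = p := by rw [Subgroup.orderOf_coe]; exact hy
        have hcomm : Commute s (y : G) := by
          have := Subgroup.mem_centralizer_iff.mp y.2 s (Set.mem_singleton s)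
          exact this
        have hsy : orderOf (s * (y : G)) = 2 * p := by
          rw [hcomm.orderOf_mul_eq_mul_orderOf_of_coprime, hs, hyG]
          rw [hs, hyG]
          exact (Nat.coprime_primes Nat.prime_two hpp).mpr (Ne.symm hp2)
        exact hp p hpp hp2 ⟨_, hsy⟩
    have hCd : Nat.card C ∣ d := by
      rw [← Nat.factorization_prime_le_iff_dvd hC0 hd0]
      intro p hpp
      by_cases hpC : p ∣ Nat.card C
      · calc (Nat.card C).factorization p ≤ (Nat.card G).factorization p :=
              (Nat.factorization_le_iff_dvd hC0 hG0).mpr hCG p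
          _ ≤ d.factorization p := (hpp.pow_dvd_iff_le_factorization hd0).mp (hCp p hpp hpC)
      · rw [Nat.factorization_eq_zero_of_not_dvd hpC]; exact Nat.zero_le _
    -- the class of `s` consists of involutions
    set K : Finset G := Finset.univ.filter (fun t : G => IsConj s t) with hK
    have hKI : K ⊆ I := by
      intro t ht
      rw [hK, Finset.mem_filter] at ht
      rw [hI, Finset.mem_filter]
      refine ⟨Finset.mem_univ _, ?_⟩
      obtain ⟨c, hc⟩ := isConj_iff.mp ht.2
      rw [← hc, ← hs]
      exact orderOf_injective (MulAut.conj c).toMonoidHom (MulAut.conj c).injective s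
    have hGK : Nat.card G = K.card * Nat.card C := by
      rw [Nat.card_eq_fintype_card]
      exact Helper80.card_eq_card_conj_mul_card_centralizer s
    have hKle : K.card ≤ I.card := Finset.card_le_card hKI
    have hdle : d ≤ Nat.card C := by
      have h1 : I.card * d ≤ I.card * Nat.card C := by
        rw [← hcard, hGK]
        exact Nat.mul_le_mul_right _ hKle
      exact Nat.le_of_mul_le_mul_left h1 hIne
    have hCeq : Nat.card C = d := Nat.le_antisymm (Nat.le_of_dvd hdpos hCd) hdle
    have hKeq : K = I := by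
      apply Finset.eq_of_subset_of_card_le hKI
      have h1 : I.card * d = K.card * d := by rw [← hcard, hGK, hCeq]
      exact (Nat.eq_of_mul_eq_mul_right hdpos h1).le
    refine ⟨hCeq, hKeq, ?_⟩
    apply Nat.coprime_of_dvd
    intro p hpp hpC hpi
    have h1 : p ^ (Nat.card G).factorization p ∣ Nat.card C := by
      rw [hCeq]; exact hCp p hpp hpC
    have h3 : p ^ ((Nat.card G).factorization p + 1) ∣ Nat.card G := by
      have h4 : p ^ ((Nat.card G).factorization p + 1) ∣ Nat.card C * C.index := by
        rw [pow_succ]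
        exact Nat.mul_dvd_mul h1 hpi
      rw [Subgroup.card_mul_index C] at h4
      exact h4
    exact Nat.pow_succ_factorization_not_dvd hG0 hpp h3
  refine ⟨?_, ?_, ?_⟩
  · intro s t hs ht
    have h1 := (hcent s hs).2.1
    have ht' : t ∈ I := by rw [hI, Finset.mem_filter]; exact ⟨Finset.mem_univ _, ht⟩
    rw [← h1, Finset.mem_filter] at ht'
    exact ht'.2
  · intro s hs
    exact ⟨(hcent s hs).1, (hcent s hs).2.2⟩
  · rw [hsum]; exact hν

end Cfsg.Agent.S4478
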