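import Cfsg.Statements.S4480
import Cfsg.Agent.Helper82.KleinReal

set_option autoImplicit false
open Cfsg

namespace Cfsg.Agent.S4480

/-- Same setting as the Klein-four order formula: G of order 4·g₀ (g₀ odd) with no normal 2-complement, P a Sylow 2-subgroup, J an involution of P, M over 2, principal 2-block {1, χ₁, χ₂, χ₃} with χ_i(J) = ε_i = ±1. Suppose ε₁ε₂ε₃ = −1 and ε₃ = −1, and put q = x₃ = χ₃(1). Then there is a natural number m with 4·c(J) = m·c(P)·(q + 1), and the order of G equals (m³·c(P)/4)·(q³ − q)/2, that is 8·#G = m³·c(P)·(q³ − q). -/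
theorem result {G : Type*} [Group G] [Finite G] (M : Ideal Cfsg.AlgInt) (hM : Cfsg.IsPModular 2 M) (g₀ : ℕ) (hg₀ : Odd g₀) (hG : Nat.card G = 4 * g₀) (hnc : ¬ ∃ N : Subgroup G, N.Normal ∧ Nat.card N = g₀) (P : Sylow 2 G) (J : G) (hJ : J ∈ (P : Subgroup G)) (hJ2 : orderOf J = 2) (χ₁ χ₂ χ₃ : Cfsg.IrrCharacter G) (ε₁ ε₂ ε₃ : ℤ) (hB : Cfsg.principalBlock M G = {χ : Cfsg.IrrCharacter G | (χ : G → ℂ) = (fun _ => 1) ∨ χ = χ₁ ∨ χ = χ₂ ∨ χ = χ₃}) (hdist : (χ₁ : G → ℂ) ≠ (fun _ => 1) ∧ (χ₂ : G → ℂ) ≠ (fun _ => 1) ∧ (χ₃ : G → ℂ) ≠ (fun _ => 1) ∧ χ₁ ≠ χ₂ ∧ χ₁ ≠ χ₃ ∧ χ₂ ≠ χ₃) (hε : (ε₁ = 1 ∨ ε₁ = -1) ∧ (ε₂ = 1 ∨ ε₂ = -1) ∧ (ε₃ = 1 ∨ ε₃ = -1)) (hval : (χ₁ : G → ℂ) J = ε₁ ∧ (χ₂ : G → ℂ) J = ε₂ ∧ (χ₃ : G → ℂ) J = ε₃) (hprod : ε₁ * ε₂ * ε₃ = -1) (hε₃ : ε₃ = -1) : ∃ m : ℕ, 4 * Nat.card (Subgroup.centralizer ({J} : Set G)) = m * Nat.card (Subgroup.centralizer ((P : Subgroup G)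 : Set G)) * (Cfsg.charDegree (χ₃ : G → ℂ) + 1) ∧ 8 * Nat.card G = m ^ 3 * Nat.card (Subgroup.centralizer ((P : Subgroup G) : Set G)) * (Cfsg.charDegree (χ₃ : G → ℂ) ^ 3 - Cfsg.charDegree (χ₃ : G → ℂ)) := by
  classical
  have := Fintype.ofFinite G
  have hJ1 : J ≠ 1 := by
    rintro rfl
    rw [orderOf_one] at hJ2
    exact absurd hJ2 (by norm_num)
  have hPcard := Helper82.kleinGroup_card_sylow g₀ hg₀ hG P
  have hPexp := (Helper82.kleinGroup_of_no_complement g₀ hg₀ hG hnc P).1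
  have hone : ∀ s t : G, orderOf s = 2 → orderOf t = 2 → IsConj s t := by
    intro s t hs ht
    exact (Helper82.kleinGroup_one_class g₀ hg₀ hG hnc P J hJ hJ1 s hs).trans
      (Helper82.kleinGroup_one_class g₀ hg₀ hG hnc P J hJ hJ1 t ht).symm
  obtain ⟨T, hcharQ, hweakQ, hcount⟩ := Helper82.kleinReal_equations M hM g₀ hg₀ hG hnc P J hJ hJ2
    χ₁ χ₂ χ₃ ε₁ ε₂ ε₃ hB hdist hval
  have hx₁pos : (0 : ℚ) < Cfsg.charDegree (χ₁ : G → ℂ) := by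
    exact_mod_cast Helper81.charDegree_pos χ₁
  have hx₂pos : (0 : ℚ) < Cfsg.charDegree (χ₂ : G → ℂ) := by
    exact_mod_cast Helper81.charDegree_pos χ₂
  have hx₃pos : (0 : ℚ) < Cfsg.charDegree (χ₃ : G → ℂ) := by
    exact_mod_cast Helper81.charDegree_pos χ₃
  -- the signs
  have hε12 : ε₁ = 1 ∧ ε₂ = 1 := by
    rw [hε₃] at hprod
    obtain ⟨h1, h2, -⟩ := hε
    rcases h1 with h1 | h1 <;> rcases h2 with h2 | h2
    · exact ⟨h1, h2⟩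
    · rw [h1, h2] at hprod; norm_num at hprod
    · rw [h1, h2] at hprod; norm_num at hprod
    · exfalso
      rw [h1, h2, hε₃] at hweakQ
      push_cast at hweakQ
      have hx₁one : (1 : ℚ) ≤ Cfsg.charDegree (χ₁ : G → ℂ) := by
        exact_mod_cast Helper81.charDegree_pos χ₁
      have hx₂one : (1 : ℚ) ≤ Cfsg.charDegree (χ₂ : G → ℂ) := by
        exact_mod_cast Helper81.charDegree_pos χ₂
      linarith
  obtain ⟨he1, he2⟩ := hε12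
  rw [he1, he2, hε₃] at hcharQ hweakQ
  obtain ⟨hv1, hv2, hv3⟩ := hval
  rw [he1] at hv1
  rw [he2] at hv2
  rw [hε₃] at hv3
  have hdeg := Helper82.kleinReal_degrees_eq M hM P hPcard hPexp hone J hJ hJ2 χ₁ χ₂ χ₃ hB hdist
    (by rw [hv1]; norm_num) (by rw [hv2]; norm_num) (by rw [hv3]; norm_num)
  -- notation
  obtain ⟨a, ha⟩ : ∃ a : ℕ, a = Cfsg.charDegree (χ₁ : G → ℂ) := ⟨_, rfl⟩
  obtain ⟨q, hq⟩ : ∃ q : ℕ, q = Cfsg.charDegree (χ₃ : G → ℂ) := ⟨_, rfl⟩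
  obtain ⟨c, hc⟩ : ∃ c : ℕ, c = Nat.card (Subgroup.centralizer ({J} : Set G)) := ⟨_, rfl⟩
  obtain ⟨cP, hcP⟩ : ∃ cP : ℕ, cP = Nat.card (Subgroup.centralizer ((P : Subgroup G) : Set G)) :=
    ⟨_, rfl⟩
  obtain ⟨N, hN⟩ : ∃ N : ℕ, N = Nat.card G := ⟨_, rfl⟩
  have hcPc : cP ∣ c := by
    rw [hcP, hc]
    apply Subgroup.card_dvd_of_le
    apply Subgroup.centralizer_le
    intro x hx
    rw [Set.mem_singleton_iff] at hx
    rw [hx]; exact hJ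
  have hcN : c ∣ N := by
    rw [hc, hN]; exact Subgroup.card_subgroup_dvd_card _
  have hcpos : 0 < c := by rw [hc]; exact Nat.card_pos
  have hcPpos : 0 < cP := by rw [hcP]; exact Nat.card_pos
  rw [← hdeg, ← ha, ← hq, ← hc, ← hN] at hcharQ
  rw [← hdeg, ← ha, ← hq] at hweakQ
  rw [← hc, ← hcP] at hcount
  rw [← hq, ← hc, ← hcP, ← hN]
  rw [← ha] at hx₁pos
  rw [← hq] at hx₃pos
  have hq2 : q = 2 * a + 1 := by
    have h' : (q : ℚ) = 2 * a + 1 := by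
      push_cast at hweakQ
      linarith
    exact_mod_cast h'
  obtain ⟨r, hr⟩ := hcPc
  obtain ⟨n, hn⟩ := hcN
  have hrpos : 0 < r := by
    rcases Nat.eq_zero_or_pos r with h | h
    · rw [h, mul_zero] at hr; omega
    · exact h
  have hcountQ : (T : ℚ) * cP ^ 2 = 2 * c ^ 2 := by exact_mod_cast hcount
  have hcPQ : (cP : ℚ) ≠ 0 := by exact_mod_cast hcPpos.ne'
  have hrQ : (r : ℚ) ≠ 0 := by exact_mod_cast hrpos.ne'
  have hcQ : (c : ℚ) = cP * r := by exact_mod_cast hr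
  have hNQ : (N : ℚ) = c * n := by exact_mod_cast hn
  have hqQ : (q : ℚ) = 2 * a + 1 := by exact_mod_cast hq2
  have hTQ : (T : ℚ) = 2 * r ^ 2 := by
    have h1 : (T : ℚ) * cP ^ 2 = 2 * r ^ 2 * cP ^ 2 := by rw [hcountQ, hcQ]; ring
    exact mul_right_cancel₀ (pow_ne_zero 2 hcPQ) h1
  have hc1 : 4 * (c : ℚ) * T * (a * q) = N * (a * q + q + q - a) := by
    rw [hcharQ]
    push_cast
    field_simp
    ring
  have hkey : n * (a + 1) ^ 2 = 4 * a * (2 * a + 1) * r ^ 2 := by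
    have hQ : (n : ℚ) * (a + 1) ^ 2 = 4 * a * (2 * a + 1) * r ^ 2 := by
      have h2 : 2 * (cP : ℚ) * r ≠ 0 := mul_ne_zero (mul_ne_zero two_ne_zero hcPQ) hrQ
      apply mul_left_cancel₀ h2
      rw [hNQ, hcQ, hTQ, hqQ] at hc1
      linear_combination -hc1
    exact_mod_cast hQ
  have hcop : Nat.Coprime ((a + 1) ^ 2) (a * (2 * a + 1)) := by
    apply Nat.Coprime.pow_left
    have h1 : Nat.Coprime (a + 1) a := by simp
    apply Nat.Coprime.mul_right h1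
    have h2 : 2 * a + 1 = a + (a + 1) := by ring
    rw [h2, Nat.coprime_add_self_right]
    exact h1
  have hdvd : (a + 1) ^ 2 ∣ (2 * r) ^ 2 := by
    have h1 : (a + 1) ^ 2 ∣ (2 * r) ^ 2 * (a * (2 * a + 1)) := by
      refine ⟨n, ?_⟩
      calc (2 * r) ^ 2 * (a * (2 * a + 1)) = 4 * a * (2 * a + 1) * r ^ 2 := by ring
        _ = n * (a + 1) ^ 2 := hkey.symm
        _ = (a + 1) ^ 2 * n := by ring
    exact hcop.dvd_of_dvd_mul_right h1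
  have hdvd' : (a + 1) ∣ 2 * r := (Nat.pow_dvd_pow_iff two_ne_zero).mp hdvd
  obtain ⟨m, hm⟩ := hdvd'
  refine ⟨m, ?_, ?_⟩
  · rw [hr, hq2]
    calc 4 * (cP * r) = 2 * cP * (2 * r) := by ring
      _ = 2 * cP * ((a + 1) * m) := by rw [hm]
      _ = m * cP * (2 * a + 1 + 1) := by ring
  · have hsub : q ^ 3 - q = (2 * a + 1) * (2 * a) * (2 * a + 2) := by
      rw [hq2]
      apply Nat.sub_eq_of_eq_add
      ring
    rw [hsub, hn, hr]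
    apply Nat.eq_of_mul_eq_mul_right (show 0 < (a + 1) ^ 2 by positivity)
    calc 8 * (cP * r * n) * (a + 1) ^ 2 = 8 * cP * r * (n * (a + 1) ^ 2) := by ring
      _ = 8 * cP * r * (4 * a * (2 * a + 1) * r ^ 2) := by rw [hkey]
      _ = 4 * a * (2 * a + 1) * cP * (2 * r) ^ 3 := by ring
      _ = 4 * a * (2 * a + 1) * cP * ((a + 1) * m) ^ 3 := by rw [hm]
      _ = m ^ 3 * cP * ((2 * a + 1) * (2 * a) * (2 * a + 2)) * (a + 1) ^ 2 := by ring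

end Cfsg.Agent.S4480
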