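import Cfsg.Statements.S4481
import Cfsg.Agent.Helper21.DihBlkH

set_option autoImplicit false
open Cfsg

namespace Cfsg.Agent.S4481

/-- The principal 2-block of a group with dihedral Sylow 2-subgroups. Let G be a finite group whose Sylow 2-subgroup P is dihedral of order 2^n ≥ 8, let σ be an element of P of order 2^(n−1), ζ a primitive 2^(n−1)-th root of unity, and M a maximal ideal of the algebraic integers containing 2. Then the principal 2-block consists of exactly 3 + 2^(n−2) irreducible characters, which can be labelled 1, χ₁, χ₂, χ₃ and χ^(j) for 1 ≤ j ≤ 2^(n−2) − 1 (all distinct), with signs δ₁, δ₂, δ₃ such that for 0 < λ < 2^(n−1): χ₁(σ^λ) = δ₁, χ₂(σ^λ) = δ₂(−1)^(λ+1), χ₃(σ^λ) = δ₃(−1)^(λ+1) and χ^(j)(σ^λ) = δ₁(ζ^(jλ)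 + ζ^(−jλ)); and for every element ρ of odd order and every j: 1 + δ₁χ₁(ρ) = −δ₂χ₂(ρ) − δ₃χ₃(ρ) = δ₁χ^(j)(ρ). -/
theorem result {G : Type*} [Group G] [Finite G] (M : Ideal Cfsg.AlgInt) (hM : Cfsg.IsPModular 2 M) (n : ℕ) (hn : 3 ≤ n) (P : Sylow 2 G) (hP : Nonempty ((P : Subgroup G) ≃* DihedralGroup (2 ^ (n - 1)))) (σ : G) (hσ : σ ∈ (P : Subgroup G)) (hσo : orderOf σ = 2 ^ (n - 1)) (ζ : ℂ) (hζ : IsPrimitiveRoot ζ (2 ^ (n - 1))) : Nat.card (Cfsg.principalBlock M G) = 3 + 2 ^ (n - 2) ∧ ∃ (χ₁ χ₂ χ₃ : Cfsg.IrrCharacter G) (χ' : Fin (2 ^ (n - 2) - 1) → Cfsg.IrrCharacter G) (δ₁ δ₂ δ₃ : ℤ), (δ₁ = 1 ∨ δ₁ = -1) ∧ (δ₂ = 1 ∨ δ₂ = -1) ∧ (δ₃ = 1 ∨ δ₃ = -1) ∧ Function.Injective χ' ∧ (χ₁ : G → ℂ) ≠ (fun _ => 1) ∧ (χ₂ : G → ℂ) ≠ (fun _ => 1) ∧ (χ₃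 : G → ℂ) ≠ (fun _ => 1) ∧ χ₁ ≠ χ₂ ∧ χ₁ ≠ χ₃ ∧ χ₂ ≠ χ₃ ∧ (∀ j, χ' j ≠ χ₁ ∧ χ' j ≠ χ₂ ∧ χ' j ≠ χ₃ ∧ (χ' j : G → ℂ) ≠ (fun _ => 1)) ∧ Cfsg.principalBlock M G = {χ : Cfsg.IrrCharacter G | (χ : G → ℂ) = (fun _ => 1) ∨ χ = χ₁ ∨ χ = χ₂ ∨ χ = χ₃ ∨ ∃ j, χ = χ' j} ∧ (∀ l : ℕ, 0 < l → l < 2 ^ (n - 1) → (χ₁ : G → ℂ) (σ ^ l) = δ₁ ∧ (χ₂ : G → ℂ) (σ ^ l) = δ₂ * (-1) ^ (l + 1) ∧ (χ₃ : G → ℂ) (σ ^ l) = δ₃ * (-1) ^ (l + 1) ∧ ∀ j : Fin (2 ^ (n - 2) - 1), (χ' j : G → ℂ) (σ ^ l) = δ₁ * (ζ ^ (((j : ℕ) + 1) * l) + (ζ ^ (((j : ℕ) + 1) * l))⁻¹)) ∧ ∀ ρ : G, Odd (orderOf ρ) → ∀ j : Fin (2 ^ (n - 2) - 1), 1 + δ₁ * (χ₁ : G → ℂ) ρ = -δ₂ * (χ₂ : G → ℂ) ρ - δ₃ * (χ₃ : G → ℂ) ρ ∧ 1 + δ₁ * (χ₁ : G → ℂ) ρ = δ₁ * (χ' j : G → ℂ) ρ := by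
  exact Cfsg.Agent.Helper21.DihBlk.dbFinal M hM n hn P hP σ hσ hσo ζ hζ

end Cfsg.Agent.S4481
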