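import Cfsg.Statements.S4482
import Cfsg.Agent.Helper21.DihOrdN

set_option autoImplicit false
open Cfsg

namespace Cfsg.Agent.S4482

/-- An order formula for groups with dihedral Sylow 2-subgroups and one class of involutions. Let G be a finite group whose Sylow 2-subgroup P = ⟨σ, τ⟩ is dihedral of order 2^n ≥ 8 (σ of order 2^(n−1), τ an involution inverting σ), let J be the central involution σ^(2^(n−2)), and suppose J, τ and στ are conjugate in G. Fix M over 2 and let χ₁ be an irreducible character in the principal 2-block taking one constant value δ₁ = ±1 at every non-identity power of σ, with χ₁ ≠ 1. Then, with x₁ = χ₁(1) and c(·) denoting orders of centralizers, x₁ ≠ δ₁ and #G · (x₁ − δ₁)² = 2·x₁(x₁ + δ₁)·c(J)³·(1/c(J, τ) + 1/c(J, στ))², where c(J, y) is the order of the joint centralizer of J and y. -/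
theorem result {G : Type*} [Group G] [Finite G] (M : Ideal Cfsg.AlgInt) (hM : Cfsg.IsPModular 2 M) (n : ℕ) (hn : 3 ≤ n) (P : Sylow 2 G) (σ τ : G) (hσ : σ ∈ (P : Subgroup G)) (hτ : τ ∈ (P : Subgroup G)) (hσo : orderOf σ = 2 ^ (n - 1)) (hτo : orderOf τ = 2) (hrel : τ * σ * τ⁻¹ = σ⁻¹) (hgen : Subgroup.closure ({σ, τ} : Set G) = (P : Subgroup G)) (hconj : IsConj (σ ^ (2 ^ (n - 2))) τ ∧ IsConj (σ ^ (2 ^ (n - 2))) (σ * τ)) (χ₁ : Cfsg.IrrCharacter G) (hχ₁ : χ₁ ∈ Cfsg.principalBlock M G) (h1 : (χ₁ : G → ℂ) ≠ (fun _ => 1)) (δ₁ : ℤ) (hδ₁ : δ₁ = 1 ∨ δ₁ = -1) (hval : ∀ l : ℕ, 0 < l → l < 2 ^ (n - 1) → (χ₁ : G → ℂ) (σ ^ l) = δ₁) : (Cfsg.charDegree (χ₁ : G → ℂ) : ℤ) ≠ δ₁ ∧ (Nat.card G : ℚ) * ((Cfsg.charDegree (χ₁ : G → ℂ) : ℚ) - δ₁) ^ 2 = 2 * (Cfsg.charDegree (χ₁ : G → ℂ) : ℚ) * ((Cfsg.charDegree (χ₁ : G → ℂ) : ℚ) + δ₁) * (Nat.card (Subgroup.centralizer ({σ ^ (2 ^ (n - 2))} : Set G)) : ℚ) ^ 3 * (1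 / (Nat.card (Subgroup.centralizer ({σ ^ (2 ^ (n - 2)), τ} : Set G)) : ℚ) + 1 / (Nat.card (Subgroup.centralizer ({σ ^ (2 ^ (n - 2)), σ * τ} : Set G)) : ℚ)) ^ 2 := by
  have : NeZero (2 ^ (n - 1)) := ⟨by positivity⟩
  have hτ2 : τ * τ = 1 := by
    have h := pow_orderOf_eq_one τ
    rwa [hτo, pow_two] at h
  have h4m : 2 ^ 2 ≤ 2 ^ (n - 1) := Nat.pow_le_pow_right (by norm_num) (by omega)
  have hτσ : τ ∉ Subgroup.zpowers σ := by
    intro h
    obtain ⟨k, hk⟩ := Subgroup.mem_zpowers_iff.mp h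
    have hcomm : τ * σ = σ * τ := by
      rw [← hk]
      exact ((Commute.refl σ).zpow_left k).eq
    have h2 : σ⁻¹ = σ := by
      rw [← hrel, hcomm]
      group
    have h3 : σ ^ 2 = 1 := by
      rw [pow_two]
      nth_rewrite 1 [← h2]
      exact inv_mul_cancel σ
    have h4 := orderOf_dvd_of_pow_eq_one h3
    rw [hσo] at h4
    have h5 := Nat.le_of_dvd (by norm_num) h4
    omega
  obtain ⟨e, hrot, href⟩ := Cfsg.Agent.Helper21.DihOrd.dsIso hσo hτ2 hrel hτσ (P : Subgroup G) hgen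
  have hJeq : Cfsg.Agent.Helper21.DihOrd.dsJ n e = σ ^ (2 ^ (n - 2)) := by
    unfold Cfsg.Agent.Helper21.DihOrd.dsJ
    rw [hrot, ZMod.val_natCast_of_lt (Nat.pow_lt_pow_right (by norm_num) (by omega))]
  have hτeq : Cfsg.Agent.Helper55.dRef e 0 = τ := by
    rw [href, ZMod.val_zero, pow_zero, mul_one]
  have hσ1 : Cfsg.Agent.Helper55.dRot e 1 = σ := by
    rw [hrot, ZMod.val_one_eq_one_mod, Nat.mod_eq_of_lt (by omega), pow_one]
  have hστeq : Cfsg.Agent.Helper55.dRef e (-1) = σ * τ := by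
    rw [← hσ1, ← hτeq, Cfsg.Agent.Helper55.dRot_mul_dRef, zero_sub]
  have h := Cfsg.Agent.Helper21.DihOrd.dsOrderFormula M hM n hn P e
    (by rw [hJeq, hτeq]; exact hconj.1) (by rw [hJeq, hστeq]; exact hconj.2) χ₁ hχ₁ h1 δ₁ hδ₁
    (by
      intro i hi
      rw [hrot]
      exact hval i.val (Nat.pos_of_ne_zero (fun h0 => hi ((ZMod.val_eq_zero i).mp h0)))
        (ZMod.val_lt i))
  rw [hJeq, hτeq, hστeq] at h
  exact h

end Cfsg.Agent.S4482
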