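import Cfsg.Statements.S4483
import Cfsg.Agent.Helper82.PrincipalTwo

set_option autoImplicit false
open Cfsg

namespace Cfsg.Agent.S4483

/-- Let G be a finite group of order 2^n·g₀ with g₀ odd, and M a maximal ideal of the algebraic integers containing 2. Every real-valued irreducible character of G of odd degree lies in the principal 2-block; consequently G has at most 2^(2n) real-valued irreducible characters of odd degree. -/
theorem result {G : Type*} [Group G] [Finite G] (M : Ideal Cfsg.AlgInt) (hM : Cfsg.IsPModular 2 M) : (∀ χ : Cfsg.IrrCharacter G, (∀ g : G, ((χ : G → ℂ) g).im = 0) → Odd (Cfsg.charDegree (χ : G → ℂ)) → χ ∈ Cfsg.principalBlock M G) ∧ Nat.card {χ : Cfsg.IrrCharacter G // (∀ g : G, ((χ : G → ℂ) g).im = 0) ∧ Odd (Cfsg.charDegree (χ : G → ℂ))} ≤ 2 ^ (2 * (Nat.card G).factorization 2) := by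
  classical
  have : Fintype G := Fintype.ofFinite G
  have : Fintype (Cfsg.IrrCharacter G) := Fintype.ofFinite _
  have : Fact (Nat.Prime 2) := ⟨Nat.prime_two⟩
  have h1 : ∀ χ : Cfsg.IrrCharacter G, (∀ g : G, ((χ : G → ℂ) g).im = 0) →
      Odd (Cfsg.charDegree (χ : G → ℂ)) → χ ∈ Cfsg.principalBlock M G := by
    intro χ hreal hodd
    apply Helper82.mem_principalBlock_of_twist hM χ χ hodd (Helper16.sameBlock_refl hM.2.1 _)
    intro g _
    rw [Helper77.irr_inv]
    exact (Complex.conj_eq_iff_im.mpr (hreal g)).symm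
  refine ⟨h1, ?_⟩
  rw [Nat.card_eq_fintype_card, Fintype.card_subtype]
  apply Helper82.card_le_of_subset_principalBlock 2 G M hM
  intro χ hχ
  rw [Finset.mem_filter] at hχ
  exact h1 χ hχ.2.1 hχ.2.2

end Cfsg.Agent.S4483
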