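import Cfsg.Statements.S4484
import Cfsg.Agent.Helper74.Blich5

set_option autoImplicit false
open Cfsg

namespace Cfsg.Agent.S4484

/-- A refinement of Burnside's result on simple groups of order divisible by only two primes. Let G be a finite simple group of order p^a · q^b · g₀ with p, q distinct primes, a > 0, g₀ coprime to p and q, and the order of G different from p. Then g₀ − 1 > log p / log 6, that is 6^(g₀ − 1) > p. -/
theorem result {G : Type*} [Group G] [Finite G] [IsSimpleGroup G] (p q a b g₀ : ℕ) (hp : p.Prime) (hq : q.Prime) (hpq : p ≠ q) (ha : 0 < a) (hg : Nat.card G = p ^ a * q ^ b * g₀) (hcop : ¬ p ∣ g₀) (hcoq : ¬ q ∣ g₀) (hne : Nat.card G ≠ p) : p < 6 ^ (g₀ - 1) := by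
  exact Cfsg.Agent.Helper74.brauer_six p q a b g₀ hp hq ha hg hne

end Cfsg.Agent.S4484
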