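import Cfsg.Statements.S4490
import Cfsg.Agent.Helper82.PrincipalTwo

set_option autoImplicit false
open Cfsg

namespace Cfsg.Agent.S4490

/-- Let G be a finite group and M a maximal ideal of the algebraic integers containing 2. Every 2-block B of G whose defect groups are the Sylow 2-subgroups of G (a block of full defect) and which is not the principal block is different from its complex-conjugate block, the block formed by the complex conjugates of the members of B. -/
theorem result {G : Type*} [Group G] [Finite G] (M : Ideal Cfsg.AlgInt) (hM : Cfsg.IsPModular 2 M) (B : Set (Cfsg.IrrCharacter G)) (hB : Cfsg.IsPBlock M B) (P : Sylow 2 G) (hfull : Cfsg.IsDefectGroup 2 M B (P : Subgroup G)) (hnp : B ≠ Cfsg.principalBlock M G) : {ψ : Cfsg.IrrCharacter G | ∃ χ ∈ B, (ψ : G → ℂ) = fun g => (starRingEnd ℂ) ((χ : G → ℂ) g)} ≠ B := by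
  classical
  have : Fintype G := Fintype.ofFinite G
  have : Fact (Nat.Prime 2) := ⟨Nat.prime_two⟩
  have hMm := hM.2.1
  intro heq
  apply hnp
  have hcard := Helper77.card_of_isDefectGroup hM hB hfull
  rw [P.card_eq_multiplicity] at hcard
  have hdef : Cfsg.blockDefect 2 B = (Nat.card G).factorization 2 :=
    (Nat.pow_right_injective (le_refl 2) hcard).symm
  obtain ⟨ψ, hψ, hψodd⟩ := Helper82.exists_not_dvd_degree_of_blockDefect hMm hB hdef
  have hodd : Odd (Cfsg.charDegree (ψ : G → ℂ)) := by
    rw [← Nat.not_even_iff_odd, even_iff_two_dvd]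
    exact hψodd
  have hψ2 : ψ ∈ {ψ : Cfsg.IrrCharacter G | ∃ χ ∈ B, (ψ : G → ℂ) =
      fun g => (starRingEnd ℂ) ((χ : G → ℂ) g)} := by
    rw [heq]
    exact hψ
  obtain ⟨χ, hχ, hχeq⟩ := hψ2
  have hmem : ψ ∈ Cfsg.principalBlock M G := by
    apply Helper82.mem_principalBlock_of_twist hM ψ χ hodd
      (Helper16.sameBlock_of_mem hMm hB hψ hχ)
    intro g _
    rw [Helper77.irr_inv, hχeq]
    simp
  rw [Helper16.eq_blockOf_of_mem hMm hB hψ]
  exact Helper16.blockOf_eq_of_mem hMm hmem

end Cfsg.Agent.S4490
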