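import Cfsg.Statements.S4493
import Cfsg.Agent.Helper79.ItoMichler
import Cfsg.Agent.Helper1.MinNormal
import Cfsg.Agent.Helper1.Tools

set_option autoImplicit false
open Cfsg

namespace Cfsg.Agent.S4493

/-- A nontrivial finite solvable group has a nontrivial normal subgroup which is a `p`-group or a
`p'`-group (a minimal normal subgroup). -/
theorem step (p : ℕ) [Fact p.Prime] (H : Type*) [Group H] [Finite H] (hs : Group.IsSolvable H)
    (_hnt : Nontrivial H) :
    ∃ D : Subgroup H, D.Normal ∧ D ≠ ⊥ ∧ (IsPGroup p D ∨ (Nat.card D).Coprime p) := by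
  obtain ⟨R, hRn, -, hR0, hRmin⟩ := Helper1.exists_minNormal (⊤ : Subgroup H) top_ne_bot
  have := hRn
  obtain ⟨-, q, hq, hx⟩ := Helper1.minNormal_elemAbelian R hR0 hRmin
  refine ⟨R, hRn, hR0, ?_⟩
  by_cases hqp : q = p
  · left
    rintro ⟨b, hb⟩
    refine ⟨1, Subtype.ext ?_⟩
    have h1 := hx b hb
    rw [hqp] at h1
    simpa using h1
  · right
    rw [Helper76.card_coprime_iff_forall_orderOf]
    intro x hx'
    have h1 : orderOf x ∣ q := orderOf_dvd_of_pow_eq_one (hx x hx')
    exact Nat.Coprime.coprime_dvd_left h1 ((Nat.coprime_primes hq Fact.out).mpr hqp)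

/-- Let G be a finite solvable group and p a prime. Then G has a normal abelian Sylow p-subgroup if and only if no irreducible character degree of G is divisible by p. -/
theorem result {G : Type*} [Group G] [Finite G] (hsolv : Group.IsSolvable G) (p : ℕ) (hp : p.Prime) : (∃ P : Subgroup G, P.Normal ∧ (∀ x ∈ P, ∀ y ∈ P, x * y = y * x) ∧ IsPGroup p P ∧ ¬ p ∣ P.index) ↔ ∀ χ : Cfsg.IrrCharacter G, ¬ p ∣ Cfsg.charDegree (χ : G → ℂ) := by
  have : Fact p.Prime := ⟨hp⟩
  constructor
  · rintro ⟨P, hPn, hPc, hPp, hPi⟩ χ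
    exact Helper79.pPrimeDeg_of_hasNormalAbelianSylow p ⟨P, hPn, hPp, hPi, hPc⟩ χ.1 χ.2
  · intro h
    obtain ⟨S, hSn, hSp, hSi, hSc⟩ := Helper79.normal_abelian_sylow_of_pPrimeDeg p
      (fun H _ => Group.IsSolvable H)
      (fun H _ N _ h => by have := h; infer_instance)
      (fun H _ M h => by have := h; infer_instance)
      (fun H _ _ h hnt => step p H h hnt) (Nat.card G) G rfl hsolv (fun χ hχ => h ⟨χ, hχ⟩)
    exact ⟨S, hSn, hSc, hSp, hSi⟩

end Cfsg.Agent.S4493
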