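import Cfsg.Statements.S4504
import Cfsg.Agent.Helper8.S4504Defs
import Cfsg.Agent.Helper8.S4504Asm
import Cfsg.Agent.Helper82.S4504LIFT
import Cfsg.Agent.Helper83.S4504RED

set_option autoImplicit false
open Cfsg

namespace Cfsg.Agent.S4504

/-- Let G be a finite group whose order is divisible by the prime p exactly once and which has no normal subgroup of order p. If G has a faithful character of degree exactly (p − 1)/2, then G modulo its centre is isomorphic to PSL(2, p). -/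
theorem result {G : Type*} [Group G] [Finite G] (p : ℕ) (hp : p.Prime) (hdiv : p ∣ Nat.card G) (hsq : ¬ p ^ 2 ∣ Nat.card G) (hnn : ∀ H : Subgroup G, H.Normal → Nat.card H ≠ p) (χ : G → ℂ) (hχ : Cfsg.IsCharacter G χ) (hfaith : ∀ g : G, χ g = χ 1 → g = 1) (hdeg : 2 * Cfsg.charDegree χ + 1 = p) : Nonempty ((G ⧸ Subgroup.center G) ≃* Matrix.ProjectiveSpecialLinearGroup (Fin 2) (ZMod p)) := by
  haveI : Fact p.Prime := ⟨hp⟩
  obtain ⟨H, x, hH, hyp, hfrat⟩ := Cfsg.Agent.Helper83.s4504_red p hp hdiv hsq hnn χ hχ hfaith hdeg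
  obtain ⟨⟨e⟩, hsyl, hnorm⟩ := Cfsg.Agent.Helper8.s4504_main p x (fun h : H => χ (h : G)) hyp
  have hnorm' : ∀ b : ℕ, ¬ p ∣ b → χ ((x : G) ^ b) = χ (x : G) →
      ∃ n : H, n * x * n⁻¹ = x ^ b := by
    intro b hb hbx
    refine hnorm b hb ?_
    simpa using hbx
  obtain ⟨e'⟩ := Cfsg.Agent.Helper82.s4504_lift p χ hχ hfaith H hH x hyp hfrat hsyl hnorm'
  exact ⟨e'.trans e⟩

end Cfsg.Agent.S4504
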