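import Cfsg.Statements.S4506
import Cfsg.Agent.Helper73.PConj

set_option autoImplicit false
open Cfsg

namespace Cfsg.Agent.S4506

/-- Let G be a finite group, p a prime, p^a the p-part of the order of G and g′ its p′-part. Call two irreducible characters p-conjugate when one is obtained from the other by applying a field automorphism of ℂ that fixes the g′-th roots of unity, and let r be the number of characters p-conjugate to the irreducible character χ (χ included). Then the exponent of p in r·χ(1) is at most a; and if p^a divides r·χ(1) then p^a already divides χ(1). -/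
theorem result {G : Type*} [Group G] [Finite G] (p : ℕ) (hp : p.Prime) (χ : Cfsg.IrrCharacter G) (r : ℕ) (hr : Nat.card {ψ : Cfsg.IrrCharacter G // ∃ σ : ℂ ≃+* ℂ, σ (Complex.exp (2 * Real.pi * Complex.I / ((Nat.card G / p ^ (Nat.card G).factorization p) : ℕ))) = Complex.exp (2 * Real.pi * Complex.I / ((Nat.card G / p ^ (Nat.card G).factorization p) : ℕ)) ∧ (ψ : G → ℂ) = fun g => σ ((χ : G → ℂ) g)} = r) : (r * Cfsg.charDegree (χ : G → ℂ)).factorization p ≤ (Nat.card G).factorization p ∧ (p ^ (Nat.card G).factorization p ∣ r * Cfsg.charDegree (χ : G → ℂ) → p ^ (Nat.card G).factorization p ∣ Cfsg.charDegree (χ : G → ℂ)) := by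
  classical
  have := Fintype.ofFinite G
  have hN0 : Nat.card G / p ^ (Nat.card G).factorization p ≠ 0 :=
    (Nat.ordCompl_pos p Nat.card_pos.ne').ne'
  have hχT : χ ∈ {ψ : Cfsg.IrrCharacter G | ∃ σ : ℂ ≃+* ℂ, σ (Complex.exp (2 * Real.pi * Complex.I / ((Nat.card G / p ^ (Nat.card G).factorization p) : ℕ))) = Complex.exp (2 * Real.pi * Complex.I / ((Nat.card G / p ^ (Nat.card G).factorization p) : ℕ)) ∧ (ψ : G → ℂ) = fun g => σ ((χ : G → ℂ) g)} :=
    ⟨RingEquiv.refl ℂ, rfl, rfl⟩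
  have hT : ∀ ψ ∈ {ψ : Cfsg.IrrCharacter G | ∃ σ : ℂ ≃+* ℂ, σ (Complex.exp (2 * Real.pi * Complex.I / ((Nat.card G / p ^ (Nat.card G).factorization p) : ℕ))) = Complex.exp (2 * Real.pi * Complex.I / ((Nat.card G / p ^ (Nat.card G).factorization p) : ℕ)) ∧ (ψ : G → ℂ) = fun g => σ ((χ : G → ℂ) g)},
      ∃ σ : ℂ ≃+* ℂ, (∀ x : G, ¬ p ∣ orderOf x → σ ((χ : G → ℂ) x) = (χ : G → ℂ) x) ∧
        (ψ : G → ℂ) = fun g => σ ((χ : G → ℂ) g) := by
    rintro ψ ⟨σ, hσ, hψ⟩
    refine ⟨σ, fun x hx => ?_, hψ⟩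
    apply Cfsg.Agent.Helper73.ringEquiv_irr_apply_eq σ _ hN0 hσ χ x
    have h1 : orderOf x ∣ Nat.card G := orderOf_dvd_natCard x
    rw [← Nat.ordProj_mul_ordCompl_eq_self (Nat.card G) p] at h1
    exact Nat.Coprime.dvd_of_dvd_mul_left
      (Nat.Coprime.pow_right _ ((Nat.Prime.coprime_iff_not_dvd hp).mpr hx).symm) h1
  have h := Cfsg.Agent.Helper73.pconj_family hp χ _ hχT hT
  have hrT : Nat.card {ψ : Cfsg.IrrCharacter G | ∃ σ : ℂ ≃+* ℂ, σ (Complex.exp (2 * Real.pi * Complex.I / ((Nat.card G / p ^ (Nat.card G).factorization p) : ℕ))) = Complex.exp (2 * Real.pi * Complex.I / ((Nat.card G / p ^ (Nat.card G).factorization p) : ℕ)) ∧ (ψ : G → ℂ) = fun g => σ ((χ : G → ℂ) g)} = r := hr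
  rw [hrT] at h
  exact h

end Cfsg.Agent.S4506
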