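import Cfsg.Statements.S4507
import Cfsg.Agent.Helper77.D1Final
import Cfsg.Agent.Helper84.D1SB

set_option autoImplicit false
open Cfsg

namespace Cfsg.Agent.S4507

/-- Let G be a finite group whose order g is divisible by the prime p exactly once, g′ = g/p, and fix a maximal ideal M of the algebraic integers containing p. Call two irreducible characters p-conjugate when a field automorphism of ℂ fixing the g′-th roots of unity carries one to the other. Let B be a p-block of positive defect (its defect group is a Sylow p-subgroup). Then B contains a subset Y (the exceptional family) such that: Y is a full p-conjugacy class (its members are pairwise p-conjugate and every p-conjugate of a member of Y lies in Y); every member of B outside Y is p-conjugate only to itself; the size t of Y divides p − 1 and B has exactly t + (p − 1)/t members; and there are signs δ_χ = ±1 (χ ∈ B) such that for every p-regular element x and every θ ∈ Y, Σ_{χ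 ∈ B ∖ Y} δ_χ χ(x) + δ_θ θ(x) = 0. -/
theorem result {G : Type*} [Group G] [Finite G] (p : ℕ) [Fact p.Prime] (M : Ideal Cfsg.AlgInt) (hM : Cfsg.IsPModular p M) (hdiv : p ∣ Nat.card G) (hsq : ¬ p ^ 2 ∣ Nat.card G) (B : Set (Cfsg.IrrCharacter G)) (hB : Cfsg.IsPBlock M B) (hd : 0 < Cfsg.blockDefect p B) : ∃ Y : Set (Cfsg.IrrCharacter G), Y ⊆ B ∧ Y.Nonempty ∧ (∀ θ ∈ Y, ∀ ψ : Cfsg.IrrCharacter G, (∃ σ : ℂ ≃+* ℂ, σ (Complex.exp (2 * Real.pi * Complex.I / ((Nat.card G / p ^ (Nat.card G).factorization p) : ℕ))) = Complex.exp (2 * Real.pi * Complex.I / ((Nat.card G / p ^ (Nat.card G).factorization p) : ℕ)) ∧ (ψ : G → ℂ) = fun g => σ ((θ : G → ℂ) g)) ↔ ψ ∈ Y) ∧ (∀ χ ∈ B, χ ∉ Y → ∀ ψ : Cfsg.IrrCharacter G, (∃ σ : ℂ ≃+* ℂ, σ (Complex.exp (2 * Real.pi * Complex.I / ((Nat.card G / p ^ (Nat.card G).factorization p) : ℕ))) = Complex.exp (2 * Real.pi * Complex.I / ((Nat.card G / p ^ (Nat.card G).factorization p) : ℕ)) ∧ (ψ : G → ℂ) = fun g => σ ((χ : G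 → ℂ) g)) → ψ = χ) ∧ Nat.card Y ∣ p - 1 ∧ Nat.card B = Nat.card Y + (p - 1) / Nat.card Y ∧ ∃ δ : Cfsg.IrrCharacter G → ℤ, (∀ χ ∈ B, δ χ = 1 ∨ δ χ = -1) ∧ ∀ x : G, ¬ p ∣ orderOf x → ∀ θ ∈ Y, (∑ᶠ χ ∈ B \ Y, (δ χ : ℂ) * (χ : G → ℂ) x) + (δ θ : ℂ) * (θ : G → ℂ) x = 0 := by
  exact Cfsg.Agent.Helper84.s4507_of_main p (Cfsg.Agent.Helper77.d1_main_all p) (Cfsg.Agent.Helper75.d1_cc p) (Cfsg.Agent.Helper74.d1_inj p) M hM hdiv hsq B hB hd

end Cfsg.Agent.S4507
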