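import Cfsg.Statements.S4508
import Mathlib
import Cfsg.Agent.Helper4.SelfCent
import Cfsg.Agent.Helper4.SelfCentChar

set_option autoImplicit false
open Cfsg

namespace Cfsg.Agent.S4508

/-- Let the finite group G contain an element x of prime order p with C_G(x) = ⟨x⟩, and let t be the number of conjugacy classes of elements of order p. If G has an irreducible character of degree p − 1, then t is even or the commutator subgroup has even index. -/
theorem result {G : Type*} [Group G] [Finite G] (p : ℕ) (hp : p.Prime) (x : G) (hx : orderOf x = p) (hC : Subgroup.centralizer ({x} : Set G) = Subgroup.zpowers x) (t : ℕ) (ht : Nat.card {C : ConjClasses G // ∃ g ∈ C.carrier, orderOf g = p} = t) (χ : Cfsg.IrrCharacter G) (hχ : Cfsg.charDegree (χ : G → ℂ) + 1 = p) : Even t ∨ Even (commutator G).index := by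
  classical
  have := Fintype.ofFinite G
  obtain ⟨e, he⟩ : ∃ e, e = (Subgroup.zpowers x).relIndex
      (Subgroup.normalizer (Subgroup.zpowers x : Set G)) := ⟨_, rfl⟩
  have hte : t * e = p - 1 := by
    rw [← ht, he]
    exact Cfsg.Agent.Helper4.selfCent_card_classes hp hx hC
  by_cases hp2 : p = 2
  · right
    subst hp2
    exact Cfsg.Agent.Helper4.selfCent_even_index_two hx hC
  · have hpodd : Odd p := hp.odd_of_ne_two hp2
    by_cases htev : Even t
    · left
      exact htev
    · right
      have htodd : Odd t := Nat.not_even_iff_odd.mp htev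
      have hp1even : Even (p - 1) := by
        obtain ⟨k, hk⟩ := hpodd
        rw [hk]
        simp
      have heven : Even e := by
        rw [← hte] at hp1even
        rcases Nat.even_mul.mp hp1even with h | h
        · exact absurd h htev
        · exact h
      have hp2le := hp.two_le
      have hepos : 0 < e := by
        rcases Nat.eq_zero_or_pos e with h | h
        · rw [h, mul_zero] at hte
          omega
        · exact h
      have he2 : 2 ≤ e := by
        obtain ⟨k, hk⟩ := heven
        omega
      obtain ⟨k, d, hdodd, hkd⟩ := Nat.exists_eq_two_pow_mul_odd hepos.ne'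
      have hk0 : k ≠ 0 := by
        intro h
        rw [h, pow_zero, one_mul] at hkd
        rw [hkd] at heven
        exact (Nat.not_even_iff_odd.mpr hdodd) heven
      obtain ⟨q, hq⟩ : ∃ q, q = 2 ^ k := ⟨_, rfl⟩
      rw [← hq] at hkd
      have hqeven : Even q := by
        rw [hq, even_iff_two_dvd]
        exact dvd_pow_self 2 hk0
      have hqpos : 0 < q := by
        rw [hq]
        positivity
      have hqp : q.Coprime p := by
        rw [hq]
        exact Nat.Coprime.pow_left _ ((Nat.coprime_primes Nat.prime_two hp).mpr (Ne.symm hp2))
      obtain ⟨y, hyN, hyq, hyP⟩ := Cfsg.Agent.Helper4.selfCent_exists_elt hp hx hC q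
        (he ▸ ⟨d, hkd⟩) hqp
      have hres := Cfsg.Agent.Helper4.selfCent_res_eq hp hx hC (he ▸ he2) χ hχ
      have hvan : ∀ i, 0 < i → i < q → (χ : G → ℂ) (y ^ i) = 0 := fun i hi0 hiq =>
        Cfsg.Agent.Helper4.selfCent_vanish hp hx hC χ hχ hres (pow_mem hyN i) (hyP i hi0 hiq)
      have hdeg : (χ : G → ℂ) 1 = (((t * d) * q : ℕ) : ℂ) := by
        rw [Cfsg.Agent.Helper81.irr_one_eq_charDegree]
        congr 1
        have h1 : Cfsg.charDegree (χ : G → ℂ) = p - 1 := by omega
        rw [h1, ← hte, hkd]
        ring
      have hmodd : Odd (t * d) := htodd.mul hdodd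
      have hdet := Cfsg.Agent.Helper4.selfCent_det χ hqeven hqpos hyq hvan hdeg hmodd
      obtain ⟨f, hf⟩ := Cfsg.Agent.Helper15.detChar_exists_hom (χ : G → ℂ)
        (Cfsg.Agent.Helper79.irr_isCharacter χ)
      have hfy : f y = -1 := by
        apply Units.ext
        rw [← hf, hdet]
        simp
      have hle : commutator G ≤ f.ker := Abelianization.commutator_subset_ker f
      have h1 := Subgroup.index_dvd_of_le hle
      rw [Subgroup.index_ker] at h1
      have h2 : 2 ∣ Nat.card f.range := by
        haveI : Fact (Nat.Prime 2) := ⟨Nat.prime_two⟩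
        have h3 : orderOf (f y) = 2 := by
          rw [hfy]
          apply orderOf_eq_prime
          · simp
          · intro h
            have h4 := congrArg Units.val h
            simp at h4
            norm_num at h4
        have h4 : Subgroup.zpowers (f y) ≤ f.range := by
          rw [Subgroup.zpowers_le]
          exact MonoidHom.mem_range.mpr ⟨y, rfl⟩
        have h5 := Subgroup.card_dvd_of_le h4
        rwa [Nat.card_zpowers, h3] at h5
      exact even_iff_two_dvd.mpr (h2.trans h1)

end Cfsg.Agent.S4508
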