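import Cfsg.Statements.S4509
import Mathlib

set_option autoImplicit false
open Cfsg

namespace Cfsg.Agent.S4509

open scoped commutatorElement

section aux

variable {G : Type*} [Group G] [Finite G] {p : ℕ} {x : G}

/-- nontrivial elements of `⟨x⟩` generate it -/
theorem zp_eq (hp : p.Prime) (hx : orderOf x = p) {y : G} (hy : y ∈ Subgroup.zpowers x)
    (hy1 : y ≠ 1) : Subgroup.zpowers y = Subgroup.zpowers x := by
  have hle : Subgroup.zpowers y ≤ Subgroup.zpowers x := by
    rw [Subgroup.zpowers_le]; exact hy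
  have hyp : y ^ p = 1 := by
    obtain ⟨k, rfl⟩ := Subgroup.mem_zpowers_iff.mp hy
    rw [← zpow_natCast, ← zpow_mul, mul_comm, zpow_mul, zpow_natCast, ← hx, pow_orderOf_eq_one,
      one_zpow]
  have ho : orderOf y = p := by
    have hd := orderOf_dvd_of_pow_eq_one hyp
    rcases (Nat.dvd_prime hp).mp hd with h | h
    · exact absurd (orderOf_eq_one_iff.mp h) hy1
    · exact h
  apply Subgroup.eq_of_le_of_card_ge hle
  rw [Nat.card_zpowers, Nat.card_zpowers, hx, ho]

theorem cent_of_mem (hp : p.Prime) (hx : orderOf x = p)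
    (hC : Subgroup.centralizer ({x} : Set G) = Subgroup.zpowers x) {y g : G}
    (hy : y ∈ Subgroup.zpowers x) (hy1 : y ≠ 1) (hg : g * y = y * g) :
    g ∈ Subgroup.zpowers x := by
  have h1 := zp_eq hp hx hy hy1
  have hx' : x ∈ Subgroup.zpowers y := by rw [h1]; exact Subgroup.mem_zpowers x
  obtain ⟨k, hk⟩ := Subgroup.mem_zpowers_iff.mp hx'
  rw [← hC, Subgroup.mem_centralizer_iff]
  intro z hz
  rw [Set.mem_singleton_iff] at hz
  subst hz
  rw [← hk]
  have : Commute g y := hg
  exact (this.zpow_right k).eq.symm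

theorem exists_sylow (hp : p.Prime) (hx : orderOf x = p)
    (hC : Subgroup.centralizer ({x} : Set G) = Subgroup.zpowers x) :
    haveI := Fact.mk hp
    ∃ P : Sylow p G, (P : Subgroup G) = Subgroup.zpowers x := by
  haveI := Fact.mk hp
  have hPG : IsPGroup p (Subgroup.zpowers x) := by
    apply IsPGroup.of_card (n := 1)
    rw [Nat.card_zpowers, hx, pow_one]
  obtain ⟨Q, hQ⟩ := hPG.exists_le_sylow
  refine ⟨Q, le_antisymm ?_ hQ⟩
  have hxQ : x ∈ (Q : Subgroup G) := hQ (Subgroup.mem_zpowers x)
  have hx1 : x ≠ 1 := by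
    intro h
    rw [h, orderOf_one] at hx
    exact hp.one_lt.ne hx
  haveI : Nontrivial (Q : Subgroup G) := ⟨⟨⟨x, hxQ⟩, 1, fun h => hx1 (congrArg Subtype.val h)⟩⟩
  haveI := Q.2.center_nontrivial
  obtain ⟨z, hz⟩ := exists_ne (1 : Subgroup.center (Q : Subgroup G))
  have hz1 : ((z : (Q : Subgroup G)) : G) ≠ 1 := by
    intro h
    apply hz
    apply Subtype.ext
    apply Subtype.ext
    exact h
  have hzc := Subgroup.mem_center_iff.mp z.2
  have hzx : ((z : (Q : Subgroup G)) : G) ∈ Subgroup.zpowers x := by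
    rw [← hC, Subgroup.mem_centralizer_iff]
    intro w hw
    rw [Set.mem_singleton_iff] at hw
    subst hw
    have := congrArg Subtype.val (hzc ⟨w, hxQ⟩)
    simpa using this
  intro g hg
  apply cent_of_mem hp hx hC hzx hz1
  have := congrArg Subtype.val (hzc ⟨g, hg⟩)
  simpa using this

theorem conjpow {u : G}
    (hu : u ∈ Subgroup.normalizer ((Subgroup.zpowers x : Subgroup G) : Set G)) :
    ∃ a a' : ℤ, (∀ k : ℤ, u * x ^ k * u⁻¹ = x ^ (a * k)) ∧
      (∀ k : ℤ, u⁻¹ * x ^ k * u = x ^ (a' * k)) ∧ x ^ (a * a') = x := by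
  have h1 := (Subgroup.mem_normalizer_iff.mp hu x).mp (Subgroup.mem_zpowers x)
  obtain ⟨a, ha⟩ := Subgroup.mem_zpowers_iff.mp h1
  have h2 := (Subgroup.mem_normalizer_iff.mp (inv_mem hu) x).mp (Subgroup.mem_zpowers x)
  obtain ⟨a', ha'⟩ := Subgroup.mem_zpowers_iff.mp h2
  rw [inv_inv] at ha'
  have e1 : ∀ k : ℤ, u * x ^ k * u⁻¹ = x ^ (a * k) := by
    intro k
    rw [← conj_zpow, ← ha, ← zpow_mul]
  have e2 : ∀ k : ℤ, u⁻¹ * x ^ k * u = x ^ (a' * k) := by
    intro k
    have := conj_zpow (i := k) (a := u⁻¹) (b := x)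
    rw [inv_inv] at this
    rw [← this, ← ha', ← zpow_mul]
  refine ⟨a, a', e1, e2, ?_⟩
  have : u * (u⁻¹ * x * u) * u⁻¹ = x := by group
  rw [← ha', e1] at this
  exact this

/-- commutators of elements of the normalizer lie in `⟨x⟩` -/
theorem norm_comm
    (hC : Subgroup.centralizer ({x} : Set G) = Subgroup.zpowers x) {g h : G}
    (hg : g ∈ Subgroup.normalizer ((Subgroup.zpowers x : Subgroup G) : Set G))
    (hh : h ∈ Subgroup.normalizer ((Subgroup.zpowers x : Subgroup G) : Set G)) :
    ⁅g, h⁆ ∈ Subgroup.zpowers x := by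
  obtain ⟨a, a', ha1, ha2, ha3⟩ := conjpow hg
  obtain ⟨b, b', hb1, hb2, hb3⟩ := conjpow hh
  have e3 : ⁅g, h⁆ * x * ⁅g, h⁆⁻¹ = x := by
    have : ⁅g, h⁆ * x * ⁅g, h⁆⁻¹ = g * (h * (g⁻¹ * (h⁻¹ * x ^ (1 : ℤ) * h) * g) * h⁻¹) * g⁻¹ := by
      rw [commutatorElement_def]; group
    rw [this, hb2, ha2, hb1, ha1]
    have : a * (b * (a' * (b' * 1))) = (a * a') * (b * b') := by ring
    rw [this, zpow_mul, ha3, hb3]
  rw [← hC, Subgroup.mem_centralizer_iff]
  intro z hz
  rw [Set.mem_singleton_iff] at hz
  subst hz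
  calc z * ⁅g, h⁆ = (⁅g, h⁆ * z * ⁅g, h⁆⁻¹) * ⁅g, h⁆ := by rw [e3]
    _ = ⁅g, h⁆ * z := by group

theorem zp_comm {y g : G} (hy : y ∈ Subgroup.zpowers x) (hg : g ∈ Subgroup.zpowers x) :
    y * g = g * y := by
  obtain ⟨k, rfl⟩ := Subgroup.mem_zpowers_iff.mp hy
  obtain ⟨m, rfl⟩ := Subgroup.mem_zpowers_iff.mp hg
  rw [← zpow_add, ← zpow_add, add_comm]

end aux

section main

variable {G : Type*} [Group G] [Finite G] {p : ℕ} [Fact p.Prime] {x : G}

/-- Burnside transfer inside a subgroup `H` containing `P` with `N_H(P) = P` -/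
theorem burn (hx : orderOf x = p)
    (hC : Subgroup.centralizer ({x} : Set G) = Subgroup.zpowers x)
    (P : Sylow p G) (hPx : (P : Subgroup G) = Subgroup.zpowers x)
    (H : Subgroup G) (hPH : (P : Subgroup G) ≤ H)
    (hNH : Subgroup.normalizer ((P : Subgroup G) : Set G) ⊓ H ≤ P) :
    Nat.card (⁅H, H⁆ : Subgroup G) * p = Nat.card H := by
  have hp : p.Prime := Fact.out
  have hxH : x ∈ H := hPH (hPx ▸ Subgroup.mem_zpowers x)
  have hP'eq : ((P.subtype hPH : Sylow p H) : Subgroup H) = (P : Subgroup G).subgroupOf H :=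
    P.coe_subtype hPH
  have hmemP : ∀ u : H, u ∈ ((P.subtype hPH : Sylow p H) : Subgroup H) ↔
      (u : G) ∈ (P : Subgroup G) := by
    intro u
    rw [hP'eq, Subgroup.mem_subgroupOf]
  have hP' : Subgroup.normalizer (((P.subtype hPH : Sylow p H) : Subgroup H) : Set H) ≤
      Subgroup.centralizer (((P.subtype hPH : Sylow p H) : Subgroup H) : Set H) := by
    intro g hg
    have hgN : (g : G) ∈ Subgroup.normalizer ((P : Subgroup G) : Set G) := by
      rw [Subgroup.mem_normalizer_iff]
      intro z
      constructor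
      · intro hz
        have := (Subgroup.mem_normalizer_iff.mp hg ⟨z, hPH hz⟩).mp ((hmemP _).mpr hz)
        have := (hmemP _).mp this
        simpa using this
      · intro hz
        have hzH : z ∈ H := by
          have h1 : (g : G) * z * (g : G)⁻¹ ∈ H := hPH hz
          have : z = (g : G)⁻¹ * ((g : G) * z * (g : G)⁻¹) * (g : G) := by group
          rw [this]
          exact H.mul_mem (H.mul_mem (H.inv_mem g.2) h1) g.2
        have := (Subgroup.mem_normalizer_iff.mp hg ⟨z, hzH⟩).mpr
          ((hmemP _).mpr (by simpa using hz))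
        exact (hmemP _).mp this
    have hgP : (g : G) ∈ Subgroup.zpowers x := by
      rw [← hPx]; exact hNH ⟨hgN, g.2⟩
    rw [Subgroup.mem_centralizer_iff]
    intro y hy
    have hy' := (hmemP _).mp hy
    rw [hPx] at hy'
    apply Subtype.ext
    simpa using zp_comm hy' hgP
  have hcomp := MonoidHom.ker_transferSylow_isComplement' (P.subtype hPH) hP'
  have hcard := hcomp.card_mul_card
  have hP'card : Nat.card ((P.subtype hPH : Sylow p H) : Subgroup H) = p := by
    rw [hP'eq, Nat.card_congr (Subgroup.subgroupOfEquivOfLe hPH).toEquiv, hPx, Nat.card_zpowers, hx]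
  rw [hP'card] at hcard
  have hS : (MonoidHom.transferSylow (P.subtype hPH) hP').ker = commutator H := by
    apply le_antisymm
    · -- every element of the kernel is a commutator with x
      intro s hs
      set S' := (MonoidHom.transferSylow (P.subtype hPH) hP').ker with hS'
      have hmem : ∀ u : S', ⁅(u : H), (⟨x, hxH⟩ : H)⁆ ∈ S' := by
        intro u
        rw [commutatorElement_def, mul_assoc, mul_assoc]
        apply S'.mul_mem u.2
        have := (inferInstance : S'.Normal).conj_mem _ (S'.inv_mem u.2) ⟨x, hxH⟩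
        simpa [mul_assoc] using this
      have hinj : Function.Injective (fun u : S' => (⟨⁅(u : H), (⟨x, hxH⟩ : H)⁆, hmem u⟩ : S')) := by
        intro u v huv
        have h1 : ⁅(u : H), (⟨x, hxH⟩ : H)⁆ = ⁅(v : H), (⟨x, hxH⟩ : H)⁆ := congrArg Subtype.val huv
        rw [commutatorElement_def, commutatorElement_def] at h1
        have h2 : ((v : H)⁻¹ * (u : H)) * (⟨x, hxH⟩ : H) = (⟨x, hxH⟩ : H) * ((v : H)⁻¹ * (u : H)) := by
          have h3 : (u : H) * (⟨x, hxH⟩ : H) * (u : H)⁻¹ = (v : H) * (⟨x, hxH⟩ : H) * (v : H)⁻¹ :=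
            mul_right_cancel h1
          calc ((v : H)⁻¹ * (u : H)) * (⟨x, hxH⟩ : H)
              = (v : H)⁻¹ * ((u : H) * (⟨x, hxH⟩ : H) * (u : H)⁻¹) * (u : H) := by group
            _ = (⟨x, hxH⟩ : H) * ((v : H)⁻¹ * (u : H)) := by rw [h3]; group
        have h4 : (((v : H)⁻¹ * (u : H) : H) : G) ∈ Subgroup.zpowers x := by
          rw [← hC, Subgroup.mem_centralizer_iff]
          intro z hz
          rw [Set.mem_singleton_iff] at hz
          subst hz
          have := congrArg Subtype.val h2
          simpa using this.symm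
        have h5 : ((v : H)⁻¹ * (u : H) : H) ∈ S' ⊓ ((P.subtype hPH : Sylow p H) : Subgroup H) := by
          refine ⟨S'.mul_mem (S'.inv_mem v.2) u.2, ?_⟩
          apply (hmemP _).mpr
          rw [hPx]
          exact h4
        rw [hcomp.disjoint.eq_bot, Subgroup.mem_bot] at h5
        apply Subtype.ext
        have : (u : H) = (v : H) * ((v : H)⁻¹ * (u : H)) := by group
        rw [this, h5, mul_one]
      have hsurj := Finite.injective_iff_surjective.mp hinj
      obtain ⟨u, hu⟩ := hsurj ⟨s, hs⟩
      have : s = ⁅(u : H), (⟨x, hxH⟩ : H)⁆ := (congrArg Subtype.val hu).symm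
      rw [this, commutator_def]
      exact Subgroup.commutator_mem_commutator (Subgroup.mem_top _) (Subgroup.mem_top _)
    · rw [commutator_def, Subgroup.commutator_le]
      intro a _ b _
      rw [MonoidHom.mem_ker, map_commutatorElement, commutatorElement_eq_one_iff_commute]
      have hc : ∀ u v : ((P.subtype hPH : Sylow p H) : Subgroup H), u * v = v * u :=
        fun u v => Subtype.ext (hP' (Subgroup.le_normalizer v.2) u u.2)
      exact hc _ _
  rw [hS] at hcard
  rw [← Subgroup.map_subtype_commutator, Subgroup.card_map_of_injective H.subtype_injective]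
  exact hcard

/-- number of classes of elements of order p -/
theorem count_t (hx : orderOf x = p)
    (hC : Subgroup.centralizer ({x} : Set G) = Subgroup.zpowers x)
    (P : Sylow p G) (hPx : (P : Subgroup G) = Subgroup.zpowers x) :
    (Subgroup.normalizer ((P : Subgroup G) : Set G) ≤ P →
      Nat.card {C : ConjClasses G // ∃ g ∈ C.carrier, orderOf g = p} = p - 1) ∧
    (¬ Subgroup.normalizer ((P : Subgroup G) : Set G) ≤ P →
      Nat.card {C : ConjClasses G // ∃ g ∈ C.carrier, orderOf g = p} < p - 1) := by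
  have hp : p.Prime := Fact.out
  have hx1 : x ≠ 1 := by
    intro h
    rw [h, orderOf_one] at hx
    exact hp.one_lt.ne hx
  have hA : Nat.card {y : G // y ∈ Subgroup.zpowers x ∧ y ≠ 1} = p - 1 := by
    have h1 : Nat.card {y : G // y ∈ Subgroup.zpowers x ∧ y ≠ 1} =
        (((Subgroup.zpowers x : Subgroup G) : Set G) \ {1}).ncard := by
      rw [← Nat.card_coe_set_eq]
      exact Nat.card_congr (Equiv.subtypeEquivRight (fun y => by simp))
    rw [h1, Set.ncard_sdiff_singleton_of_mem (Subgroup.one_mem _), ← Nat.card_coe_set_eq]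
    have : Nat.card ((Subgroup.zpowers x : Subgroup G) : Set G) = p := by
      rw [← hx, ← Nat.card_zpowers]; rfl
    rw [this]
  have hord : ∀ y : {y : G // y ∈ Subgroup.zpowers x ∧ y ≠ 1}, orderOf y.1 = p := fun y => by
    have := zp_eq hp hx y.2.1 y.2.2
    rw [← Nat.card_zpowers, this, Nat.card_zpowers, hx]
  let f : {y : G // y ∈ Subgroup.zpowers x ∧ y ≠ 1} →
      {C : ConjClasses G // ∃ g ∈ C.carrier, orderOf g = p} :=
    fun y => ⟨ConjClasses.mk y.1, y.1, ConjClasses.mem_carrier_mk, hord y⟩
  have hsurj : Function.Surjective f := by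
    rintro ⟨C, g, hgC, hg⟩
    have hPG : IsPGroup p (Subgroup.zpowers g) :=
      IsPGroup.of_card (n := 1) (by rw [Nat.card_zpowers, hg, pow_one])
    obtain ⟨Q, hQ⟩ := hPG.exists_le_sylow
    obtain ⟨h, hh⟩ := MulAction.exists_smul_eq G P Q
    have hgQ : g ∈ ((h • P : Sylow p G) : Subgroup G) := by
      rw [hh]; exact hQ (Subgroup.mem_zpowers g)
    rw [Sylow.smul_def, Sylow.pointwise_smul_def, Subgroup.mem_pointwise_smul_iff_inv_smul_mem]
      at hgQ
    have hgP : h⁻¹ * g * h ∈ Subgroup.zpowers x := by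
      rw [← hPx]
      simpa [MulAut.smul_def] using hgQ
    have hg1 : g ≠ 1 := by
      intro h1
      rw [h1, orderOf_one] at hg
      exact hp.one_lt.ne hg
    have hne : h⁻¹ * g * h ≠ 1 := by
      intro h1
      apply hg1
      have : g = h * (h⁻¹ * g * h) * h⁻¹ := by group
      rw [this, h1]; group
    refine ⟨⟨h⁻¹ * g * h, hgP, hne⟩, ?_⟩
    apply Subtype.ext
    show ConjClasses.mk (h⁻¹ * g * h) = C
    rw [← ConjClasses.mem_carrier_iff_mk_eq.mp hgC, ConjClasses.mk_eq_mk_iff_isConj, isConj_iff]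
    exact ⟨h, by group⟩
  constructor
  · intro hN
    rw [← hA]
    symm
    apply Nat.card_eq_of_bijective f ⟨?_, hsurj⟩
    intro y y' hyy
    have h1 : ConjClasses.mk y.1 = ConjClasses.mk y'.1 := congrArg Subtype.val hyy
    rw [ConjClasses.mk_eq_mk_iff_isConj, isConj_iff] at h1
    obtain ⟨c, hc⟩ := h1
    have hcN : c ∈ Subgroup.normalizer ((P : Subgroup G) : Set G) := by
      rw [Subgroup.mem_normalizer_iff]
      intro z
      have e1 := zp_eq hp hx y.2.1 y.2.2
      have e2 := zp_eq hp hx y'.2.1 y'.2.2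
      constructor
      · intro hz
        rw [hPx, ← e1] at hz
        rw [hPx, ← e2]
        obtain ⟨k, rfl⟩ := Subgroup.mem_zpowers_iff.mp hz
        rw [← conj_zpow, hc]
        exact Subgroup.zpow_mem_zpowers _ _
      · intro hz
        rw [hPx, ← e2] at hz
        rw [hPx, ← e1]
        obtain ⟨k, hk⟩ := Subgroup.mem_zpowers_iff.mp hz
        rw [← hc, conj_zpow] at hk
        have : z = y.1 ^ k := by
          have h2 := mul_left_cancel (mul_right_cancel hk)
          exact h2.symm
        rw [this]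
        exact Subgroup.zpow_mem_zpowers _ _
    have hcP : c ∈ Subgroup.zpowers x := by rw [← hPx]; exact hN hcN
    apply Subtype.ext
    rw [← hc, zp_comm hcP y.2.1]
    group
  · intro hN
    obtain ⟨g, hgN, hgP⟩ := SetLike.not_le_iff_exists.mp hN
    have hgx : g * x * g⁻¹ ∈ Subgroup.zpowers x := by
      rw [← hPx]
      exact (Subgroup.mem_normalizer_iff.mp hgN x).mp (by rw [hPx]; exact Subgroup.mem_zpowers x)
    have hgx1 : g * x * g⁻¹ ≠ 1 := by
      intro h1
      apply hx1
      have : x = g⁻¹ * (g * x * g⁻¹) * g := by group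
      rw [this, h1]; group
    have hgx2 : g * x * g⁻¹ ≠ x := by
      intro h1
      apply hgP
      rw [hPx, ← hC, Subgroup.mem_centralizer_iff]
      intro z hz
      rw [Set.mem_singleton_iff] at hz
      subst hz
      calc z * g = (g * z * g⁻¹) * g := by rw [h1]
        _ = g * z := by group
    have hninj : ¬ Function.Injective f := by
      intro hinj
      have : f ⟨g * x * g⁻¹, hgx, hgx1⟩ = f ⟨x, Subgroup.mem_zpowers x, hx1⟩ := by
        apply Subtype.ext
        show ConjClasses.mk (g * x * g⁻¹) = ConjClasses.mk x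
        rw [ConjClasses.mk_eq_mk_iff_isConj, isConj_comm, isConj_iff]
        exact ⟨g, rfl⟩
      exact hgx2 (congrArg Subtype.val (hinj this))
    rw [← hA]
    haveI : Fintype {y : G // y ∈ Subgroup.zpowers x ∧ y ≠ 1} := Fintype.ofFinite _
    haveI : Fintype {C : ConjClasses G // ∃ g ∈ C.carrier, orderOf g = p} := Fintype.ofFinite _
    rw [Nat.card_eq_fintype_card, Nat.card_eq_fintype_card]
    exact Fintype.card_lt_of_surjective_not_injective f hsurj hninj

/-- number of subgroups of order p -/
theorem count_n (hx : orderOf x = p)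
    (P : Sylow p G) (hPx : (P : Subgroup G) = Subgroup.zpowers x) :
    Nat.card {H : Subgroup G // Nat.card H = p} =
      (Subgroup.normalizer ((P : Subgroup G) : Set G)).index := by
  have hp : p.Prime := Fact.out
  have hPc : Nat.card (P : Subgroup G) = p := by rw [hPx, Nat.card_zpowers, hx]
  have hQc : ∀ Q : Sylow p G, Nat.card (Q : Subgroup G) = p := by
    intro Q
    rw [Sylow.card_eq_multiplicity, ← Sylow.card_eq_multiplicity P]
    exact hPc
  refine Eq.trans ?_ (Sylow.card_eq_index_normalizer P)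
  symm
  apply Nat.card_eq_of_bijective (fun Q : Sylow p G => (⟨(Q : Subgroup G), hQc Q⟩ :
    {H : Subgroup G // Nat.card H = p}))
  constructor
  · intro Q Q' h
    exact Sylow.ext (congrArg Subtype.val h)
  · rintro ⟨H, hH⟩
    have hPG : IsPGroup p H := IsPGroup.of_card (n := 1) (by rw [hH, pow_one])
    obtain ⟨Q, hQ⟩ := hPG.exists_le_sylow
    refine ⟨Q, ?_⟩
    apply Subtype.ext
    symm
    apply Subgroup.eq_of_le_of_card_ge hQ
    rw [hH, hQc Q]

theorem comm_sup {G : Type*} [Group G] (N' A L : Subgroup G) [L.Normal]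
    (hA : ∀ g ∈ N', ∀ h ∈ N', ⁅g, h⁆ ∈ A ⊔ L) :
    ∀ a ∈ N' ⊔ L, ∀ b ∈ N' ⊔ L, ⁅a, b⁆ ∈ A ⊔ L := by
  intro a ha b hb
  obtain ⟨g, hg, l, hl, rfl⟩ := Subgroup.mem_sup_of_normal_right.mp ha
  obtain ⟨h, hh, l', hl', rfl⟩ := Subgroup.mem_sup_of_normal_right.mp hb
  have k1 : (QuotientGroup.mk' L) ⁅g * l, h * l'⁆ = (QuotientGroup.mk' L) ⁅g, h⁆ := by
    rw [map_commutatorElement, map_commutatorElement, map_mul, map_mul]
    have hl1 : (QuotientGroup.mk' L) l = 1 := (QuotientGroup.eq_one_iff l).mpr hl
    have hl2 : (QuotientGroup.mk' L) l' = 1 := (QuotientGroup.eq_one_iff l').mpr hl'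
    rw [hl1, hl2, mul_one, mul_one]
  have k2 : ⁅g, h⁆⁻¹ * ⁅g * l, h * l'⁆ ∈ L := QuotientGroup.eq.mp k1.symm
  have : ⁅g * l, h * l'⁆ = ⁅g, h⁆ * (⁅g, h⁆⁻¹ * ⁅g * l, h * l'⁆) := by group
  rw [this]
  exact Subgroup.mul_mem _ (hA g hg h hh) (le_sup_right (a := A) k2)

end main

/-- Let the finite group G contain an element x of prime order p with C_G(x) = ⟨x⟩; let t be the number of conjugacy classes of elements of order p and 1 + n·p the number of subgroups of order p. Then G has a normal subgroup of order 1 + n·p if and only if either t = p − 1, or t < p − 1 and G″ ≠ G′. Moreover, if t = p − 1 then G′ has order 1 + n·p and G/G′ is cyclic of order p; and if t < p − 1 and G″ ≠ G′ then G″ has order 1 + n·p and G′ has order p·(1 + n·p). -/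
theorem result {G : Type*} [Group G] [Finite G] (p : ℕ) (hp : p.Prime) (x : G) (hx : orderOf x = p) (hC : Subgroup.centralizer ({x} : Set G) = Subgroup.zpowers x) (t : ℕ) (ht : Nat.card {C : ConjClasses G // ∃ g ∈ C.carrier, orderOf g = p} = t) (n : ℕ) (hn : Nat.card {H : Subgroup G // Nat.card H = p} = 1 + n * p) : ((∃ S : Subgroup G, S.Normal ∧ Nat.card S = 1 + n * p) ↔ (t = p - 1 ∨ (t < p - 1 ∧ derivedSeries G 2 ≠ derivedSeries G 1))) ∧ (t = p - 1 → Nat.card (commutator G) = 1 + n * p ∧ IsCyclic (G ⧸ commutator G) ∧ (commutator G).index = p) ∧ (t < p - 1 → derivedSeries G 2 ≠ derivedSeries G 1 → Nat.card (derivedSeries G 2) = 1 + n * p ∧ Nat.card (commutator G) = p * (1 + n * p)) := by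
  haveI : Fact p.Prime := ⟨hp⟩
  obtain ⟨P, hPx⟩ := exists_sylow hp hx hC
  have hx1 : x ≠ 1 := by
    intro h
    rw [h, orderOf_one] at hx
    exact hp.one_lt.ne hx
  have hidx : (Subgroup.normalizer ((P : Subgroup G) : Set G)).index = 1 + n * p := by
    rw [← hn]; exact (count_n hx P hPx).symm
  obtain ⟨ht1, ht2⟩ := count_t hx hC P hPx
  rw [ht] at ht1 ht2
  have hPc : Nat.card (P : Subgroup G) = p := by rw [hPx, Nat.card_zpowers, hx]
  have hPN : (P : Subgroup G) ≤ Subgroup.normalizer ((P : Subgroup G) : Set G) :=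
    Subgroup.le_normalizer
  have hxP : x ∈ (P : Subgroup G) := by rw [hPx]; exact Subgroup.mem_zpowers x
  have hnc : ∀ g ∈ Subgroup.normalizer ((P : Subgroup G) : Set G),
      ∀ h ∈ Subgroup.normalizer ((P : Subgroup G) : Set G), ⁅g, h⁆ ∈ (P : Subgroup G) := by
    intro g hg h hh
    rw [hPx] at hg hh ⊢
    exact norm_comm hC hg hh
  -- commutator with x of a normalizing element
  have hcx : ∀ g ∈ Subgroup.normalizer ((P : Subgroup G) : Set G), ⁅g, x⁆ ∈ (P : Subgroup G) := by
    intro g hg
    exact hnc g hg x (hPN hxP)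
  have hcent : ∀ g : G, ⁅g, x⁆ = 1 → g ∈ (P : Subgroup G) := by
    intro g h1
    rw [hPx, ← hC, Subgroup.mem_centralizer_iff]
    intro z hz
    rw [Set.mem_singleton_iff] at hz
    subst hz
    exact ((commutatorElement_eq_one_iff_commute.mp h1).eq).symm
  have hG : Nat.card G = Nat.card (Subgroup.normalizer ((P : Subgroup G) : Set G)) * (1 + n * p) := by
    rw [← hidx, Subgroup.card_mul_index]
  -- part 2
  have part2 : Subgroup.normalizer ((P : Subgroup G) : Set G) ≤ (P : Subgroup G) →
      Nat.card (commutator G) = 1 + n * p ∧ IsCyclic (G ⧸ commutator G) ∧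
        (commutator G).index = p := by
    intro hNP
    have hb := burn hx hC P hPx ⊤ le_top (by rw [inf_top_eq]; exact hNP)
    rw [← commutator_def, Subgroup.card_top] at hb
    have hNeq : Subgroup.normalizer ((P : Subgroup G) : Set G) = P := le_antisymm hNP hPN
    rw [hNeq, hPc] at hG
    have h1 : Nat.card (commutator G) = 1 + n * p := by
      rw [hG, mul_comm p] at hb
      exact Nat.eq_of_mul_eq_mul_right hp.pos hb
    have h2 : (commutator G).index = p := by
      have := Subgroup.card_mul_index (commutator G)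
      rw [h1, hG, mul_comm p] at this
      exact Nat.eq_of_mul_eq_mul_left (by positivity) this
    refine ⟨h1, ?_, h2⟩
    apply isCyclic_of_prime_card (p := p)
    rw [← h2]; rfl
  -- P ≤ G' when N ≠ P
  have hPcomm : ¬ Subgroup.normalizer ((P : Subgroup G) : Set G) ≤ (P : Subgroup G) →
      (P : Subgroup G) ≤ commutator G := by
    intro hNP
    obtain ⟨g, hgN, hgP⟩ := SetLike.not_le_iff_exists.mp hNP
    have hc := hcx g hgN
    have hc1 : ⁅g, x⁆ ≠ 1 := fun h1 => hgP (hcent g h1)
    rw [hPx] at hc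
    rw [hPx, ← zp_eq hp hx hc hc1, Subgroup.zpowers_le, commutator_def]
    exact Subgroup.commutator_mem_commutator (Subgroup.mem_top _) (Subgroup.mem_top _)
  -- part 3
  have part3 : ¬ Subgroup.normalizer ((P : Subgroup G) : Set G) ≤ (P : Subgroup G) →
      derivedSeries G 2 ≠ derivedSeries G 1 →
      Nat.card (derivedSeries G 2) = 1 + n * p ∧ Nat.card (commutator G) = p * (1 + n * p) := by
    intro hNP hne
    have hPH := hPcomm hNP
    have hL : derivedSeries G 2 = ⁅commutator G, commutator G⁆ := by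
      rw [derivedSeries_succ, derivedSeries_one]
    rw [hL, derivedSeries_one] at hne
    rw [hL]
    have hLle : ⁅commutator G, commutator G⁆ ≤ commutator G := Subgroup.commutator_le_left _ _
    have hPL : ¬ (P : Subgroup G) ≤ ⁅commutator G, commutator G⁆ := by
      intro hPL
      apply hne
      apply le_antisymm hLle
      have hfr : Subgroup.normalizer ((P : Subgroup G) : Set G) ⊔
          ⁅commutator G, commutator G⁆ = ⊤ := Sylow.normalizer_sup_eq_top' P hPL
      have := comm_sup (Subgroup.normalizer ((P : Subgroup G) : Set G)) (P : Subgroup G)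
        ⁅commutator G, commutator G⁆ (fun g hg h hh => le_sup_left (a := (P : Subgroup G)) (hnc g hg h hh))
      rw [hfr, sup_eq_right.mpr hPL] at this
      rw [commutator_def, Subgroup.commutator_le]
      intro a _ b _
      exact this a (Subgroup.mem_top _) b (Subgroup.mem_top _)
    have hPL' : (P : Subgroup G) ⊓ ⁅commutator G, commutator G⁆ = ⊥ := by
      rw [eq_bot_iff]
      intro y hy
      rw [Subgroup.mem_bot]
      by_contra hy1
      apply hPL
      have hyP : y ∈ Subgroup.zpowers x := by rw [← hPx]; exact hy.1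
      rw [hPx, ← zp_eq hp hx hyP hy1, Subgroup.zpowers_le]
      exact hy.2
    have hNH : Subgroup.normalizer ((P : Subgroup G) : Set G) ⊓ commutator G ≤ P := by
      intro g hg
      apply hcent
      have : ⁅g, x⁆ ∈ (P : Subgroup G) ⊓ ⁅commutator G, commutator G⁆ :=
        ⟨hcx g hg.1, Subgroup.commutator_mem_commutator hg.2 (hPH hxP)⟩
      rw [hPL', Subgroup.mem_bot] at this
      exact this
    have hb := burn hx hC P hPx (commutator G) hPH hNH
    have hfr : Subgroup.normalizer ((P : Subgroup G) : Set G) ⊔ commutator G = ⊤ :=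
      Sylow.normalizer_sup_eq_top' P hPH
    have hi1 : (commutator G).index =
        (P : Subgroup G).relIndex (Subgroup.normalizer ((P : Subgroup G) : Set G)) := by
      rw [← Subgroup.relIndex_top_right, ← hfr, Subgroup.relIndex_sup_right,
        ← Subgroup.inf_relIndex_right]
      congr 1
      apply le_antisymm
      · intro g hg; exact hNH ⟨hg.2, hg.1⟩
      · exact le_inf hPH hPN
    have hi2 := Subgroup.relIndex_mul_index hPN
    rw [← hi1, hidx] at hi2
    have hi3 := Subgroup.card_mul_index (P : Subgroup G)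
    have hi4 := Subgroup.card_mul_index (commutator G)
    rw [hPc, ← hi2] at hi3
    have hH : Nat.card (commutator G) = p * (1 + n * p) := by
      have hpos : 0 < (commutator G).index := Nat.pos_of_ne_zero Subgroup.index_ne_zero_of_finite
      have : Nat.card (commutator G) * (commutator G).index =
          (p * (1 + n * p)) * (commutator G).index := by
        rw [hi4, ← hi3]; ring
      exact Nat.eq_of_mul_eq_mul_right hpos this
    refine ⟨?_, hH⟩
    rw [hH, mul_comm p] at hb
    exact Nat.eq_of_mul_eq_mul_right hp.pos hb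
  refine ⟨⟨?_, ?_⟩, ?_, ?_⟩
  · rintro ⟨S, hSn, hSc⟩
    by_cases hNP : Subgroup.normalizer ((P : Subgroup G) : Set G) ≤ (P : Subgroup G)
    · exact Or.inl (ht1 hNP)
    · refine Or.inr ⟨ht2 hNP, ?_⟩
      intro heq
      have hL : derivedSeries G 2 = ⁅commutator G, commutator G⁆ := by
        rw [derivedSeries_succ, derivedSeries_one]
      rw [hL, derivedSeries_one] at heq
      have hcop : (Nat.card S).Coprime (Nat.card (P : Subgroup G)) := by
        rw [hSc, hPc]
        simp
      have hSP : S ⊓ (P : Subgroup G) = ⊥ := (Subgroup.disjoint_of_coprime_natCard hcop).eq_bot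
      have hSN : S ⊓ Subgroup.normalizer ((P : Subgroup G) : Set G) = ⊥ := by
        rw [eq_bot_iff]
        intro g hg
        have h1 : ⁅g, x⁆ ∈ S ⊓ (P : Subgroup G) := by
          refine ⟨?_, hcx g hg.2⟩
          rw [commutatorElement_def, mul_assoc, mul_assoc]
          apply S.mul_mem hg.1
          have := hSn.conj_mem _ (S.inv_mem hg.1) x
          simpa [mul_assoc] using this
        rw [hSP, Subgroup.mem_bot] at h1
        have h2 : g ∈ S ⊓ (P : Subgroup G) := ⟨hg.1, hcent g h1⟩
        rw [hSP] at h2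
        exact h2
      have hsup : Subgroup.normalizer ((P : Subgroup G) : Set G) ⊔ S = ⊤ := by
        rw [← Subgroup.index_eq_one]
        have e1 : S.relIndex (Subgroup.normalizer ((P : Subgroup G) : Set G) ⊔ S) =
            Nat.card (Subgroup.normalizer ((P : Subgroup G) : Set G)) := by
          rw [Subgroup.relIndex_sup_right, ← Subgroup.inf_relIndex_right, hSN,
            Subgroup.relIndex_bot_left]
        have e2 := Subgroup.relIndex_mul_index
          (le_sup_right : S ≤ Subgroup.normalizer ((P : Subgroup G) : Set G) ⊔ S)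
        rw [e1] at e2
        have e3 := Subgroup.card_mul_index S
        rw [hSc, hG] at e3
        have e4 : S.index = Nat.card (Subgroup.normalizer ((P : Subgroup G) : Set G)) := by
          rw [mul_comm] at e3
          exact Nat.eq_of_mul_eq_mul_right (by positivity) e3
        rw [e4] at e2
        have hpos : 0 < Nat.card (Subgroup.normalizer ((P : Subgroup G) : Set G)) := Nat.card_pos
        exact Nat.eq_of_mul_eq_mul_left hpos (by rw [e2, mul_one])
      have k1 := comm_sup (Subgroup.normalizer ((P : Subgroup G) : Set G)) (P : Subgroup G) S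
        (fun g hg h hh => le_sup_left (a := (P : Subgroup G)) (hnc g hg h hh))
      rw [hsup] at k1
      have k2 := comm_sup (P : Subgroup G) ⊥ S (fun g hg h hh => by
        rw [hPx] at hg hh
        have : ⁅g, h⁆ = 1 := by
          rw [commutatorElement_eq_one_iff_commute]
          exact zp_comm hg hh
        rw [this]; exact Subgroup.one_mem _)
      rw [bot_sup_eq] at k2
      have k3 : commutator G ≤ (P : Subgroup G) ⊔ S := by
        rw [commutator_def, Subgroup.commutator_le]
        intro a _ b _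
        exact k1 a (Subgroup.mem_top _) b (Subgroup.mem_top _)
      have k4 : ⁅commutator G, commutator G⁆ ≤ S := by
        rw [Subgroup.commutator_le]
        intro a ha b hb
        exact k2 a (k3 ha) b (k3 hb)
      have k6 : x ∈ ⁅commutator G, commutator G⁆ := by rw [heq]; exact hPcomm hNP hxP
      have k5 : x ∈ S ⊓ (P : Subgroup G) := ⟨k4 k6, hxP⟩
      rw [hSP, Subgroup.mem_bot] at k5
      exact hx1 k5
  · rintro (h | ⟨h1, h2⟩)
    · have hNP : Subgroup.normalizer ((P : Subgroup G) : Set G) ≤ (P : Subgroup G) := by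
        by_contra hNP
        have := ht2 hNP
        omega
      exact ⟨commutator G, inferInstance, (part2 hNP).1⟩
    · have hNP : ¬ Subgroup.normalizer ((P : Subgroup G) : Set G) ≤ (P : Subgroup G) := by
        intro hNP
        have := ht1 hNP
        omega
      exact ⟨derivedSeries G 2, inferInstance, (part3 hNP h2).1⟩
  · intro h
    have hNP : Subgroup.normalizer ((P : Subgroup G) : Set G) ≤ (P : Subgroup G) := by
      by_contra hNP
      have := ht2 hNP
      omega
    exact part2 hNP
  · intro h1 h2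
    have hNP : ¬ Subgroup.normalizer ((P : Subgroup G) : Set G) ≤ (P : Subgroup G) := by
      intro hNP
      have := ht1 hNP
      omega
    exact part3 hNP h2

end Cfsg.Agent.S4509
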