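import Cfsg.Statements.S4510
import Cfsg.Agent.Helper77.Defect

set_option autoImplicit false
open Cfsg

namespace Cfsg.Agent.S4510

/-- Let G be a finite group, p a prime, M a maximal ideal of the algebraic integers containing p, and call the defect of a conjugacy class the exponent of p in the order of the centralizer of its elements. Two irreducible characters lying in p-blocks of defect exactly d lie in the same block if and only if their central characters (class size times χ(x)/χ(1)) agree modulo the local ideal at M at every p-regular element x whose class has defect exactly d. -/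
theorem result {G : Type*} [Group G] [Finite G] (p : ℕ) [Fact p.Prime] (M : Ideal Cfsg.AlgInt) (hM : Cfsg.IsPModular p M) (d : ℕ) (χ ψ : Cfsg.IrrCharacter G) (hχ : Cfsg.blockDefect p (Cfsg.blockOf M (χ : G → ℂ)) = d) (hψ : Cfsg.blockDefect p (Cfsg.blockOf M (ψ : G → ℂ)) = d) : Cfsg.SameBlock M (χ : G → ℂ) (ψ : G → ℂ) ↔ ∀ x : G, ¬ p ∣ orderOf x → (Nat.card (Subgroup.centralizer ({x} : Set G))).factorization p = d → Cfsg.MemLocalIdeal M (Cfsg.centralChar (χ : G → ℂ) x - Cfsg.centralChar (ψ : G → ℂ) x) := by
  classical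
  have := Fintype.ofFinite G
  have hMm := hM.2.1
  haveI hPr : M.IsPrime := hMm.isPrime
  constructor
  · intro h x _ _
    exact h x
  · intro h
    by_contra hcon
    have hχB : χ ∈ Cfsg.blockOf M (χ : G → ℂ) := Cfsg.Agent.Helper81.mem_blockOf_self χ
    have hψB : ψ ∈ Cfsg.blockOf M (ψ : G → ℂ) := Cfsg.Agent.Helper81.mem_blockOf_self ψ
    have hψ' : ψ ∉ Cfsg.blockOf M (χ : G → ℂ) := hcon
    have hB₁ : Cfsg.IsPBlock M (Cfsg.blockOf M (χ : G → ℂ)) := ⟨χ, rfl⟩
    have hB₂ : Cfsg.IsPBlock M (Cfsg.blockOf M (ψ : G → ℂ)) := ⟨ψ, rfl⟩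
    have h1 := Cfsg.Agent.Helper77.omega_blockCoeff_of_mem hχB
    have h2 := Cfsg.Agent.Helper77.omega_blockCoeff_of_not_mem hψ'
    rw [Cfsg.Agent.Helper77.omega_eq_sum_conjClasses χ
      (Cfsg.Agent.Helper77.blockCoeff_isClassFunction _)] at h1
    rw [Cfsg.Agent.Helper77.omega_eq_sum_conjClasses ψ
      (Cfsg.Agent.Helper77.blockCoeff_isClassFunction _)] at h2
    apply Cfsg.Agent.Helper77.not_memLocalIdeal_one hMm
    have h3 : (1 : ℂ) = ∑ c : ConjClasses G,
        Cfsg.blockCoeff (Cfsg.blockOf M (χ : G → ℂ)) (Quotient.out c) *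
        (Cfsg.centralChar (χ : G → ℂ) (Quotient.out c)
          - Cfsg.centralChar (ψ : G → ℂ) (Quotient.out c)) := by
      simp only [mul_sub, Finset.sum_sub_distrib]
      rw [h1, h2, sub_zero]
    rw [h3]
    refine Cfsg.Agent.Helper77.memLocalIdeal_sum hMm _ _ fun c _ => ?_
    have hω : ∀ (θ : Cfsg.IrrCharacter G) (y : G),
        Cfsg.MemLocalRing M (Cfsg.centralChar (θ : G → ℂ) y) := fun θ y =>
      Cfsg.Agent.Helper77.memLocalRing_of_isIntegral hMm
        (Cfsg.Agent.Helper81.centralChar_isIntegral θ y)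
    have heloc := Cfsg.Agent.Helper77.blockCoeff_memLocalRing hMm hB₁ (Quotient.out c)
    by_cases he : Cfsg.MemLocalIdeal M
        (Cfsg.blockCoeff (Cfsg.blockOf M (χ : G → ℂ)) (Quotient.out c))
    · exact Cfsg.Agent.Helper77.memLocalIdeal_mul' hMm he
        (Cfsg.Agent.Helper77.memLocalRing_sub hMm (hω _ _) (hω _ _))
    · apply Cfsg.Agent.Helper77.memLocalIdeal_mul hMm heloc
      have hreg : ¬ p ∣ orderOf (Quotient.out c) := by
        intro hdiv
        apply he
        rw [Cfsg.Agent.Helper77.blockCoeff_eq_zero_of_dvd_orderOf hM hB₁ hdiv]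
        exact Cfsg.Agent.Helper77.memLocalIdeal_zero hMm
      have hle := Cfsg.Agent.Helper77.factorization_centralizer_le_blockDefect hM hB₁ he
      rw [hχ] at hle
      rcases Nat.lt_or_ge
        ((Nat.card (Subgroup.centralizer ({Quotient.out c} : Set G))).factorization p) d
        with hlt | hge
      · have hχω : Cfsg.MemLocalIdeal M (Cfsg.centralChar (χ : G → ℂ) (Quotient.out c)) := by
          by_contra hne
          have := Cfsg.Agent.Helper77.blockDefect_le_factorization_centralizer hM hB₁
            ⟨χ, hχB, hne⟩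
          rw [hχ] at this
          omega
        have hψω : Cfsg.MemLocalIdeal M (Cfsg.centralChar (ψ : G → ℂ) (Quotient.out c)) := by
          by_contra hne
          have := Cfsg.Agent.Helper77.blockDefect_le_factorization_centralizer hM hB₂
            ⟨ψ, hψB, hne⟩
          rw [hψ] at this
          omega
        exact Cfsg.Agent.Helper77.memLocalIdeal_sub hMm hχω hψω
      · exact h _ hreg (le_antisymm hle hge)

end Cfsg.Agent.S4510
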