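import Cfsg.Statements.S4511
import Cfsg.Agent.Helper82.SubsectionCount

set_option autoImplicit false
open Cfsg

namespace Cfsg.Agent.S4511

/-- Brauer's count of the irreducible characters in a block by subsections. Let M be a maximal ideal of the algebraic integers containing the prime p, B a p-block of the finite group G, and X a set of representatives of the conjugacy classes of p-elements of G (elements of p-power order, the identity included: every p-element is conjugate to exactly one member of X). Then the number of irreducible characters in B is the sum, over x ∈ X and over the blocks b of C_G(x) that induce B, of the p-regular rank of b (the number of irreducible Brauer characters of b, here the dimension of the span of the restrictions of the members of b to the p-regular elements of C_G(x)). -/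
theorem result {G : Type*} [Group G] [Finite G] (p : ℕ) (M : Ideal Cfsg.AlgInt) (hM : Cfsg.IsPModular p M)
    (B : Set (Cfsg.IrrCharacter G)) (hB : Cfsg.IsPBlock M B) (X : Finset G)
    (hX : ∀ x ∈ X, ∃ k : ℕ, orderOf x = p ^ k)
    (hXrep : ∀ g : G, (∃ k : ℕ, orderOf g = p ^ k) → ∃! x, x ∈ X ∧ IsConj g x) :
    Nat.card B = ∑ x ∈ X, ∑ᶠ b ∈ {b : Set (Cfsg.IrrCharacter ↥(Subgroup.centralizer ({x} : Set G))) | Cfsg.IsInducedBlock M (Subgroup.centralizer ({x} : Set G)) b B},
      Cfsg.blockRank p b := by
  classical
  have hp : p.Prime := hM.1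
  have : Fact p.Prime := ⟨hp⟩
  have := Fintype.ofFinite G
  have := Fintype.ofFinite (Cfsg.IrrCharacter G)
  have hcardG : (Nat.card G : ℂ) ≠ 0 := by
    have : 0 < Nat.card G := Nat.card_pos
    exact_mod_cast this.ne'
  obtain ⟨F, hF⟩ : ∃ F : G → ℂ, ∀ g, F g = ∑ᶠ ζ ∈ B,
      (ζ : G → ℂ) g * (starRingEnd ℂ) ((ζ : G → ℂ) g) := ⟨_, fun _ => rfl⟩
  have hFcl : ∀ g c : G, F (c * g * c⁻¹) = F g := by
    intro g c
    rw [hF, hF]
    simp only [Helper81.irr_conj]
  have hsec := Helper82.sum_eq_sum_sections X hX hXrep hFcl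
  -- the number of characters of `B`
  have hk : (Nat.card B : ℂ) = (Nat.card G : ℂ)⁻¹ * ∑ g : G, F g := by
    have h1 : ∀ g : G, F g = ∑ ζ : Cfsg.IrrCharacter G,
        if ζ ∈ B then (ζ : G → ℂ) g * (starRingEnd ℂ) ((ζ : G → ℂ) g) else 0 := by
      intro g
      rw [hF, finsum_mem_def, finsum_eq_sum_of_fintype]
      refine Finset.sum_congr rfl fun ζ _ => ?_
      rw [Set.indicator_apply]
    simp only [h1]
    rw [Finset.sum_comm]
    have h2 : ∀ ζ : Cfsg.IrrCharacter G, ∑ g : G,
        (if ζ ∈ B then (ζ : G → ℂ) g * (starRingEnd ℂ) ((ζ : G → ℂ) g) else 0)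
        = if ζ ∈ B then (Nat.card G : ℂ) else 0 := by
      intro ζ
      by_cases hζ : ζ ∈ B
      · simp only [if_pos hζ]
        rw [Helper80.irr_orthogonality_conj, if_pos rfl, Nat.card_eq_fintype_card]
      · simp only [if_neg hζ, Finset.sum_const_zero]
    simp only [h2]
    have h3 : Nat.card B = (Finset.univ.filter (fun ζ : Cfsg.IrrCharacter G => ζ ∈ B)).card := by
      rw [← Fintype.card_subtype]
      exact Nat.card_eq_fintype_card
    rw [← Finset.sum_filter, Finset.sum_const, nsmul_eq_mul, ← h3, mul_comm, mul_assoc,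
      mul_inv_cancel₀ hcardG, mul_one]
  apply Nat.cast_injective (R := ℂ)
  rw [hk, hsec, Nat.cast_sum, ← mul_assoc, inv_mul_cancel₀ hcardG, one_mul]
  refine Finset.sum_congr rfl fun x hx => ?_
  rw [Helper82.section_rank hM x (hX x hx) hB]
  simp only [hF]

end Cfsg.Agent.S4511
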