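import Cfsg.Statements.S4512
import Cfsg.Agent.Helper82.KleinRank

set_option autoImplicit false
open Cfsg

namespace Cfsg.Agent.S4512

/-- If G is a finite group with a Sylow 2-subgroup that is a Klein four-group and a single conjugacy class of involutions, then its principal 2-block (relative to a maximal ideal M of the algebraic integers containing 2) has 2-regular rank 3: the restrictions of its irreducible characters to the elements of odd order span a space of dimension 3 (it has three irreducible Brauer characters). -/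
theorem result {G : Type*} [Group G] [Finite G] (M : Ideal Cfsg.AlgInt) (hM : Cfsg.IsPModular 2 M) (P : Sylow 2 G)
    (hP : Nat.card P = 4) (hexp : ∀ x : P, x * x = 1)
    (hone : ∀ s t : G, orderOf s = 2 → orderOf t = 2 → IsConj s t) :
    Cfsg.blockRank 2 (Cfsg.principalBlock M G) = 3 := by
  classical
  have hp2 : (2 : ℕ).Prime := hM.1
  have : Fact (Nat.Prime 2) := ⟨hp2⟩
  have := Fintype.ofFinite G
  have := Fintype.ofFinite (Cfsg.IrrCharacter G)
  have hMp : M.IsPrime := Helper81.isPrime_of_isPModular hM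
  have hcardG : (Nat.card G : ℂ) ≠ 0 := by
    have : 0 < Nat.card G := Nat.card_pos
    exact_mod_cast this.ne'
  -- the Sylow subgroup is a Klein four-group
  have hPcard : Nat.card (P : Subgroup G) = 4 := hP
  have hPexp : ∀ x ∈ (P : Subgroup G), x * x = 1 := by
    intro x hx
    exact congrArg Subtype.val (hexp ⟨x, hx⟩)
  have hKlein : IsKleinFour (P : Subgroup G) := by
    refine ⟨hPcard, ?_⟩
    have hdvd : Monoid.exponent (P : Subgroup G) ∣ 2 := by
      apply Monoid.exponent_dvd_of_forall_pow_eq_one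
      intro g
      rw [pow_two]
      exact Subtype.ext (hPexp g g.2)
    have hne : Monoid.exponent (P : Subgroup G) ≠ 1 := by
      intro h1
      rw [Monoid.exp_eq_one_iff] at h1
      have h2 : Nat.card (P : Subgroup G) ≤ 1 := Finite.card_le_one_iff_subsingleton.mpr h1
      omega
    rcases (Nat.dvd_prime Nat.prime_two).mp hdvd with h | h
    · exact absurd h hne
    · exact h
  obtain ⟨ζ₂, ζ₃, ζ₄, ε, hε, h2, h3, h23, h24, h34, hBeq, hval, -, -, -, hrel⟩ :=
    Helper81.klein_four_principalBlock M hM P hKlein hone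
  -- an involution of `P`
  obtain ⟨z, hzP, hz1⟩ : ∃ z ∈ (P : Subgroup G), z ≠ 1 := by
    by_contra hcon
    push Not at hcon
    have h : (P : Subgroup G) = ⊥ := (Subgroup.eq_bot_iff_forall _).mpr hcon
    rw [h, Subgroup.card_bot] at hPcard
    norm_num at hPcard
  have hz2 : orderOf z = 2 := orderOf_eq_prime (by rw [pow_two]; exact hPexp z hzP) hz1
  have hinv : ∀ x ∈ (P : Subgroup G), x⁻¹ = x := fun x hx => inv_eq_of_mul_eq_one_left (hPexp x hx)
  have hPcomm : ∀ x ∈ (P : Subgroup G), ∀ y ∈ (P : Subgroup G), x * y = y * x := by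
    intro x hx y hy
    have h1 := hinv (x * y) ((P : Subgroup G).mul_mem hx hy)
    rw [mul_inv_rev, hinv x hx, hinv y hy] at h1
    exact h1.symm
  have hPH : (P : Subgroup G) ≤ Subgroup.centralizer ({z} : Set G) := by
    intro x hx
    rw [Subgroup.mem_centralizer_iff]
    intro s hs
    rw [Set.mem_singleton_iff] at hs
    rw [hs]
    exact hPcomm z hzP x hx
  have : Fintype (Subgroup.centralizer ({z} : Set G)) := Fintype.ofFinite _
  have hzH : z ∈ Subgroup.centralizer ({z} : Set G) := hPH hzP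
  -- the centralizer of `z` has a normal `2`-complement
  have hK : ∃ k : ℕ, (Cfsg.pPrimeCore 2 (Subgroup.centralizer ({z} : Set G))).index = 2 ^ k := by
    apply Helper81.exists_index_pPrimeCore_of_normalizer_le (P.subtype hPH)
    apply Helper81.normalizer_le_centralizer_of_klein (P.subtype hPH) ?_ ?_ ⟨z, hzH⟩ ?_ ?_ ?_
    · rw [Sylow.coe_subtype, Nat.card_congr (Subgroup.subgroupOfEquivOfLe hPH).toEquiv, hPcard]
    · intro x hx
      rw [Sylow.coe_subtype, Subgroup.mem_subgroupOf] at hx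
      exact Subtype.ext (hPexp x hx)
    · rw [Sylow.coe_subtype, Subgroup.mem_subgroupOf]; exact hzP
    · intro h; exact hz1 (congrArg Subtype.val h)
    · intro g; exact Subtype.ext (Subgroup.mem_centralizer_iff.mp g.2 z rfl).symm
  -- membership
  have hB₀ : Cfsg.IsPBlock M (Cfsg.principalBlock M G) := ⟨Helper81.trivIrr G, rfl⟩
  have hmem1 : Helper81.trivIrr G ∈ Cfsg.principalBlock M G := Helper81.trivIrr_mem_principalBlock
  have hmem2 : ζ₂ ∈ Cfsg.principalBlock M G := by rw [hBeq]; exact Or.inr (Or.inl rfl)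
  have hmem3 : ζ₃ ∈ Cfsg.principalBlock M G := by rw [hBeq]; exact Or.inr (Or.inr (Or.inl rfl))
  have hmem4 : ζ₄ ∈ Cfsg.principalBlock M G := by rw [hBeq]; exact Or.inr (Or.inr (Or.inr rfl))
  -- the values on the `2`-singular elements
  have hsing : ∀ χ ∈ Cfsg.principalBlock M G, ∀ g : G, 2 ∣ orderOf g →
      (χ : G → ℂ) g = (χ : G → ℂ) z := by
    intro χ hχ g hg
    obtain ⟨u, hu⟩ := Helper16.exists_isPPart 2 g (orderOf_pos g)
    obtain ⟨w, huw, hcomm, ⟨k, hk⟩, hw⟩ := hu
    have hu1 : u ≠ 1 := by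
      intro h
      rw [h, one_mul] at huw
      rw [← huw] at hg
      exact hw hg
    have hu2 : orderOf u = 2 := by
      have hpg : IsPGroup 2 (Subgroup.zpowers u) :=
        IsPGroup.of_card (n := k) (by rw [Nat.card_zpowers, hk])
      obtain ⟨Q, hQ⟩ := hpg.exists_le_sylow
      obtain ⟨c, hc⟩ := MulAction.exists_smul_eq G P Q
      have huQ : u ∈ (Q : Subgroup G) := hQ (Subgroup.mem_zpowers u)
      rw [← hc, Sylow.smul_def, Sylow.pointwise_smul_def,
        Subgroup.mem_pointwise_smul_iff_inv_smul_mem] at huQ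
      have huP : c⁻¹ * u * c ∈ (P : Subgroup G) := by
        simpa [MulAut.smul_def, MulAut.conj_inv_apply] using huQ
      have h1 := hPexp _ huP
      have h2' : u * u = 1 := by
        have h3' : u * u = c * (c⁻¹ * u * c * (c⁻¹ * u * c)) * c⁻¹ := by group
        rw [h3', h1]; group
      exact orderOf_eq_prime (by rw [pow_two]; exact h2') hu1
    obtain ⟨c, hc⟩ := isConj_iff.mp (hone u z hu2 hz2)
    have hyC : c * w * c⁻¹ ∈ Subgroup.centralizer ({z} : Set G) := by
      rw [Subgroup.mem_centralizer_iff]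
      intro s hs
      rw [Set.mem_singleton_iff] at hs
      rw [hs, ← hc]
      have h1 : u * w = w * u := hcomm
      calc c * u * c⁻¹ * (c * w * c⁻¹) = c * (u * w) * c⁻¹ := by group
        _ = c * (w * u) * c⁻¹ := by rw [h1]
        _ = c * w * c⁻¹ * (c * u * c⁻¹) := by group
    have hyord : ¬ 2 ∣ orderOf (⟨c * w * c⁻¹, hyC⟩ : Subgroup.centralizer ({z} : Set G)) := by
      rw [← Subgroup.orderOf_coe]
      have h1 : orderOf (c * w * c⁻¹) = orderOf w := (MulAut.conj c).orderOf_eq w
      show ¬ 2 ∣ orderOf (c * w * c⁻¹)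
      rw [h1]; exact hw
    have h1 := Helper82.principalBlock_section_const hM z ⟨1, by rw [hz2, pow_one]⟩ hK
      ⟨c * w * c⁻¹, hyC⟩ hyord χ hχ
    have h2' : c * g * c⁻¹ = z * (c * w * c⁻¹) := by rw [← huw, ← hc]; group
    rw [← Helper81.irr_conj χ g c, h2']
    exact h1
  -- the number of `2`-singular elements
  obtain ⟨Ns, hNs⟩ : ∃ Ns : ℂ, Ns = ∑ g : G, if 2 ∣ orderOf g then (1 : ℂ) else 0 := ⟨_, rfl⟩
  have hsumsing : ∀ χ ∈ Cfsg.principalBlock M G,
      ∑ g : G, (if 2 ∣ orderOf g then (χ : G → ℂ) g else 0) = Ns * (χ : G → ℂ) z := by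
    intro χ hχ
    rw [hNs, Finset.sum_mul]
    refine Finset.sum_congr rfl fun g _ => ?_
    by_cases hg : 2 ∣ orderOf g
    · rw [if_pos hg, if_pos hg, one_mul, hsing χ hχ g hg]
    · rw [if_neg hg, if_neg hg, zero_mul]
  have hsplit : ∀ f : G → ℂ, ∑ g : G, (if ¬ 2 ∣ orderOf g then f g else 0)
      = ∑ g : G, f g - ∑ g : G, (if 2 ∣ orderOf g then f g else 0) := by
    intro f
    rw [← Finset.sum_sub_distrib]
    refine Finset.sum_congr rfl fun g _ => ?_
    by_cases hg : 2 ∣ orderOf g
    · rw [if_neg (not_not.mpr hg), if_pos hg, sub_self]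
    · rw [if_pos hg, if_neg hg, sub_zero]
  -- the values at `z`
  have hv1 : (Helper81.trivIrr G : G → ℂ) z = 1 := rfl
  have hv2 := (hval z hz2).1
  have hv3 := (hval z hz2).2.1
  have hv4 := (hval z hz2).2.2
  have hεsq : (ε : ℂ) * (ε : ℂ) = 1 := by
    rcases hε with h | h <;> rw [h] <;> push_cast <;> ring
  have h4 : (ζ₄ : G → ℂ) ≠ (fun _ => 1) := by
    intro h
    rw [h] at hv4
    norm_num at hv4
  have h14 : Helper81.trivIrr G ≠ ζ₄ := fun h => h4 (by rw [← h]; rfl)
  have h12 : Helper81.trivIrr G ≠ ζ₂ := fun h => h2 (by rw [← h]; rfl)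
  have h13 : Helper81.trivIrr G ≠ ζ₃ := fun h => h3 (by rw [← h]; rfl)
  -- sums over the whole group
  have hfull1 : ∑ g : G, (Helper81.trivIrr G : G → ℂ) g = (Nat.card G : ℂ) := by
    simp only [Helper81.trivIrr_apply]
    rw [Finset.sum_const, Finset.card_univ, nsmul_eq_mul, mul_one, Nat.card_eq_fintype_card]
  have hfull : ∀ χ : Cfsg.IrrCharacter G, χ ≠ Helper81.trivIrr G →
      ∑ g : G, (χ : G → ℂ) g = 0 := by
    intro χ hχ
    have h := Helper80.irr_orthogonality_conj χ (Helper81.trivIrr G)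
    rw [if_neg hχ] at h
    rw [← h]
    refine Finset.sum_congr rfl fun g _ => ?_
    rw [Helper81.trivIrr_apply, map_one, mul_one]
  -- the relation on the odd order elements, summed
  have hNsval : (Nat.card G : ℂ) = 4 * Ns := by
    have h0 : ∑ g : G, (if ¬ 2 ∣ orderOf g then
        (1 + (ζ₂ : G → ℂ) g + (ε : ℂ) * (ζ₃ : G → ℂ) g - (ζ₄ : G → ℂ) g) else 0) = 0 := by
      apply Finset.sum_eq_zero
      intro g _
      by_cases hg : 2 ∣ orderOf g
      · rw [if_neg (not_not.mpr hg)]
      · rw [if_pos hg]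
        exact hrel g (Nat.odd_iff.mpr (Nat.two_dvd_ne_zero.mp hg))
    have h1 : ∀ g : G, (if ¬ 2 ∣ orderOf g then
        (1 + (ζ₂ : G → ℂ) g + (ε : ℂ) * (ζ₃ : G → ℂ) g - (ζ₄ : G → ℂ) g) else 0)
        = (if ¬ 2 ∣ orderOf g then (Helper81.trivIrr G : G → ℂ) g else 0)
          + (if ¬ 2 ∣ orderOf g then (ζ₂ : G → ℂ) g else 0)
          + (ε : ℂ) * (if ¬ 2 ∣ orderOf g then (ζ₃ : G → ℂ) g else 0)
          - (if ¬ 2 ∣ orderOf g then (ζ₄ : G → ℂ) g else 0) := by
      intro g
      by_cases hg : 2 ∣ orderOf g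
      · simp only [if_neg (not_not.mpr hg)]; ring
      · simp only [if_pos hg, Helper81.trivIrr_apply]
    simp only [h1, Finset.sum_add_distrib, Finset.sum_sub_distrib, ← Finset.mul_sum] at h0
    rw [hsplit, hsplit, hsplit, hsplit, hsumsing _ hmem1, hsumsing _ hmem2, hsumsing _ hmem3,
      hsumsing _ hmem4, hfull1, hfull ζ₂ h12.symm, hfull ζ₃ h13.symm, hfull ζ₄ h14.symm,
      hv1, hv2, hv3, hv4] at h0
    linear_combination h0 + Ns * hεsq
  -- the `2`-regular norms
  have hpreg : ∀ χ ∈ Cfsg.principalBlock M G,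
      (χ : G → ℂ) z * (starRingEnd ℂ) ((χ : G → ℂ) z) = 1 →
      Helper77.pregInner 2 (χ : G → ℂ) (χ : G → ℂ) = (Nat.card G : ℂ) - Ns := by
    intro χ hχ hχz
    have h := hsplit (fun g => (χ : G → ℂ) g * (starRingEnd ℂ) ((χ : G → ℂ) g))
    beta_reduce at h
    rw [Helper77.pregInner, h, Helper80.irr_orthogonality_conj, if_pos rfl,
      ← Nat.card_eq_fintype_card]
    congr 1
    rw [hNs]
    refine Finset.sum_congr rfl fun g _ => ?_
    by_cases hg : 2 ∣ orderOf g
    · rw [if_pos hg, if_pos hg, hsing χ hχ g hg, hχz]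
    · rw [if_neg hg, if_neg hg]
  -- the rank as a trace
  have hrank := Helper77.card_mul_blockRank (p := 2) hM hB₀
  have hfilter : Finset.univ.filter (fun ψ : Cfsg.IrrCharacter G => ψ ∈ Cfsg.principalBlock M G)
      = {Helper81.trivIrr G, ζ₂, ζ₃, ζ₄} := by
    ext χ
    simp only [Finset.mem_filter, Finset.mem_univ, true_and, Finset.mem_insert,
      Finset.mem_singleton]
    rw [hBeq, Set.mem_ofPred_eq]
    constructor
    · rintro (h | h)
      · exact Or.inl (Subtype.ext h)
      · exact Or.inr h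
    · rintro (h | h)
      · exact Or.inl (by rw [h]; rfl)
      · exact Or.inr h
  rw [hfilter, Finset.sum_insert (by
      simp only [Finset.mem_insert, Finset.mem_singleton, not_or]
      exact ⟨h12, h13, h14⟩),
    Finset.sum_insert (by
      simp only [Finset.mem_insert, Finset.mem_singleton, not_or]
      exact ⟨h23, h24⟩),
    Finset.sum_pair h34,
    hpreg _ hmem1 (by rw [hv1]; simp), hpreg _ hmem2 (by rw [hv2]; simp),
    hpreg _ hmem3 (by rw [hv3, map_intCast]; exact hεsq),
    hpreg _ hmem4 (by rw [hv4]; simp)] at hrank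
  have h3' : (Nat.card G : ℂ) * (Cfsg.blockRank 2 (Cfsg.principalBlock M G) : ℂ)
      = (Nat.card G : ℂ) * 3 := by
    rw [hrank, hNsval]; ring
  have h4' := mul_left_cancel₀ hcardG h3'
  exact_mod_cast h4'

end Cfsg.Agent.S4512
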