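import Cfsg.Statements.S4513
import Cfsg.Agent.Helper82.DefectOne
import Cfsg.Agent.Helper82.SubsectionFormula
import Cfsg.Agent.Helper82.FinsumNat
import Cfsg.Agent.Helper75.DefClass
import Cfsg.Agent.Helper16.BlockOrth
import Cfsg.Agent.Helper16.DefectZero

set_option autoImplicit false
open Cfsg

namespace Cfsg.Agent.S4513

/-- Blocks of defect one for p = 2. Let M be a maximal ideal of the algebraic integers containing 2, B a 2-block of the finite group G whose defect group is the subgroup generated by an involution x, C = C_G(x), b a block of C inducing B and θ a member of b taking the same value at x as at 1 (there is exactly one). Then B consists of exactly two irreducible characters, which agree on every element of odd order, and they can be labelled χ₁, χ₂ with signs ε₁, ε₂ = ±1, ε₁ε₂ = −1, such that χᵢ(x y) = εᵢ θ(y) for every element y of C of odd order. -/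
theorem result {G : Type*} [Group G] [Finite G] (M : Ideal Cfsg.AlgInt) (hM : Cfsg.IsPModular 2 M) (x : G) (hx : orderOf x = 2)
    (B : Set (Cfsg.IrrCharacter G)) (hB : Cfsg.IsPBlock M B) (hBD : Cfsg.IsDefectGroup 2 M B (Subgroup.zpowers x))
    (b : Set (Cfsg.IrrCharacter ↥(Subgroup.centralizer ({x} : Set G)))) (hb : Cfsg.IsInducedBlock M (Subgroup.centralizer ({x} : Set G)) b B)
    (θ : Cfsg.IrrCharacter ↥(Subgroup.centralizer ({x} : Set G))) (hθ : θ ∈ b)
    (hθx : ∀ z : ↥(Subgroup.centralizer ({x} : Set G)), (z : G) = x → (θ : ↥(Subgroup.centralizer ({x} : Set G)) → ℂ) z = (θ : ↥(Subgroup.centralizer ({x} : Set G)) → ℂ) 1) :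
    Nat.card B = 2 ∧ (∀ χ ∈ B, ∀ ψ ∈ B, ∀ g : G, ¬ 2 ∣ orderOf g → (χ : G → ℂ) g = (ψ : G → ℂ) g) ∧
      ∃ χ₁ ∈ B, ∃ χ₂ ∈ B, χ₁ ≠ χ₂ ∧ ∃ ε₁ ε₂ : ℤ, (ε₁ = 1 ∨ ε₁ = -1) ∧ (ε₂ = 1 ∨ ε₂ = -1) ∧ ε₁ * ε₂ = -1 ∧
        ∀ y : ↥(Subgroup.centralizer ({x} : Set G)), ¬ 2 ∣ orderOf y →
          (χ₁ : G → ℂ) (x * y) = (ε₁ : ℂ) * (θ : ↥(Subgroup.centralizer ({x} : Set G)) → ℂ) y ∧ (χ₂ : G → ℂ) (x * y) = (ε₂ : ℂ) * (θ : ↥(Subgroup.centralizer ({x} : Set G)) → ℂ) y := by
  classical
  have hp2 : (2 : ℕ).Prime := hM.1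
  have : Fact (2 : ℕ).Prime := ⟨hp2⟩
  have := Fintype.ofFinite G
  have := Fintype.ofFinite (Cfsg.IrrCharacter G)
  have := Fintype.ofFinite (Subgroup.centralizer ({x} : Set G))
  have := Fintype.ofFinite (Cfsg.IrrCharacter (Subgroup.centralizer ({x} : Set G)))
  have hMm := hM.2.1
  -- basic facts on `x`
  have hx2 : ∃ k : ℕ, orderOf x = 2 ^ k := ⟨1, by rw [hx, pow_one]⟩
  have hx1 : x ≠ 1 := by
    intro h
    rw [h, orderOf_one] at hx
    omega
  have hxx : x * x = 1 := by
    have h := pow_orderOf_eq_one x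
    rw [hx, sq] at h
    exact h
  have hxinv : x⁻¹ = x := inv_eq_of_mul_eq_one_left hxx
  have hxC : x ∈ Subgroup.centralizer ({x} : Set G) := by
    rw [Subgroup.mem_centralizer_iff]
    intro s hs
    rw [Set.mem_singleton_iff] at hs
    rw [hs]
  -- the defect of `B`
  have hdB : Cfsg.blockDefect 2 B = 1 := by
    have h1 := Helper77.card_of_isDefectGroup hM hB hBD
    rw [Nat.card_zpowers, hx] at h1
    have h2 : (2 : ℕ) ^ 1 = 2 ^ Cfsg.blockDefect 2 B := by rw [pow_one]; exact h1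
    exact (Nat.pow_right_injective (le_refl 2) h2).symm
  obtain ⟨χ₁, χ₂, hne, hBeq, hagree⟩ := Helper82.defect_one_two hM hB hdB
  have hχ₁ : χ₁ ∈ B := by rw [hBeq]; exact Set.mem_insert _ _
  have hχ₂ : χ₂ ∈ B := by rw [hBeq]; exact Set.mem_insert_of_mem _ rfl
  have hcardB : Nat.card B = 2 := by
    rw [hBeq, Nat.card_coe_set_eq, Set.ncard_pair hne]
  refine ⟨hcardB, ?_, ?_⟩
  · intro χ hχ ψ hψ g hg
    rw [hBeq] at hχ hψ
    rcases hχ with rfl | hχ <;> rcases hψ with rfl | hψ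
    · rfl
    · rw [Set.mem_singleton_iff] at hψ
      rw [hψ]; exact hagree g hg
    · rw [Set.mem_singleton_iff] at hχ
      rw [hχ]; exact (hagree g hg).symm
    · rw [Set.mem_singleton_iff] at hχ hψ
      rw [hχ, hψ]
  -- uniqueness of `b`
  have huniq : ∀ b' : Set (Cfsg.IrrCharacter (Subgroup.centralizer ({x} : Set G))),
      Cfsg.IsInducedBlock M (Subgroup.centralizer ({x} : Set G)) b' B → b' = b := by
    intro b' hb'
    by_contra hbb
    obtain ⟨X, hxX, hX, hXrep⟩ := Helper82.exists_pElement_reps 2 x hx2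
    have h1X : (1 : G) ∈ X := by
      obtain ⟨u, ⟨hu, huc⟩, -⟩ := hXrep 1 ⟨0, by rw [orderOf_one, pow_zero]⟩
      have h1 : u = 1 := isConj_one_right.mp huc
      rw [h1] at hu
      exact hu
    have hformula := Helper82.card_block_eq_sum_ranks 2 M hM B hB X hX hXrep
    rw [hcardB] at hformula
    have hsub : ({1, x} : Finset G) ⊆ X := by
      intro u hu
      rw [Finset.mem_insert, Finset.mem_singleton] at hu
      rcases hu with rfl | rfl
      · exact h1X
      · exact hxX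
    have h2 := Finset.sum_le_sum_of_subset (f := fun u : G =>
      ∑ᶠ b ∈ {b : Set (Cfsg.IrrCharacter ↥(Subgroup.centralizer ({u} : Set G))) |
        Cfsg.IsInducedBlock M (Subgroup.centralizer ({u} : Set G)) b B}, Cfsg.blockRank 2 b) hsub
    rw [← hformula, Finset.sum_pair (Ne.symm hx1)] at h2
    -- the section of `1`
    have hT1 : 1 ≤ ∑ᶠ b ∈ {b : Set (Cfsg.IrrCharacter ↥(Subgroup.centralizer ({1} : Set G))) |
        Cfsg.IsInducedBlock M (Subgroup.centralizer ({1} : Set G)) b B}, Cfsg.blockRank 2 b := by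
      obtain ⟨g₀, hg₀, -⟩ := hBD
      have := Fintype.ofFinite (Subgroup.centralizer ({1} : Set G))
      have hCH : Subgroup.centralizer (((⊥ : Subgroup G) : Subgroup G) : Set G)
          ≤ Subgroup.centralizer ({1} : Set G) := by
        intro g _
        rw [Subgroup.mem_centralizer_iff]
        intro s hs
        rw [Set.mem_singleton_iff] at hs
        rw [hs, one_mul, mul_one]
      have hHN : Subgroup.centralizer ({1} : Set G)
          ≤ Subgroup.normalizer (((⊥ : Subgroup G) : Subgroup G) : Set G) := by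
        rw [Subgroup.normalizer_eq_top]
        exact le_top
      have hg₀mem : g₀ ∈ Subgroup.centralizer (((⊥ : Subgroup G) : Subgroup G) : Set G) := by
        rw [Subgroup.mem_centralizer_iff]
        intro s hs
        have hs1 : s = 1 := Subgroup.mem_bot.mp hs
        rw [hs1, one_mul, mul_one]
      obtain ⟨b₁, hb₁, -⟩ := Helper75.exists_isInducedBlock_blockCoeff hM (⊥ : Subgroup G)
        (Subgroup.centralizer ({1} : Set G)) IsPGroup.of_bot bot_le hCH hHN hB g₀ hg₀mem hg₀.2.1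
      obtain ⟨ξ, hξ⟩ := Helper77.block_nonempty hMm hb₁.1
      have h3 := Helper82.blockRank_pos hp2 hξ
      have h4 := Helper82.le_finsum_mem_nat (S := {b : Set (Cfsg.IrrCharacter
        ↥(Subgroup.centralizer ({1} : Set G))) |
        Cfsg.IsInducedBlock M (Subgroup.centralizer ({1} : Set G)) b B}) (Set.toFinite _)
        (fun b => Cfsg.blockRank 2 b) hb₁
      exact le_trans h3 h4
    -- the section of `x`
    have hTx : 2 ≤ ∑ᶠ b ∈ {b : Set (Cfsg.IrrCharacter ↥(Subgroup.centralizer ({x} : Set G))) |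
        Cfsg.IsInducedBlock M (Subgroup.centralizer ({x} : Set G)) b B}, Cfsg.blockRank 2 b := by
      obtain ⟨ξ, hξ⟩ := Helper77.block_nonempty hMm hb.1
      obtain ⟨ξ', hξ'⟩ := Helper77.block_nonempty hMm hb'.1
      have h3 := Helper82.blockRank_pos hp2 hξ
      have h3' := Helper82.blockRank_pos hp2 hξ'
      have h4 := Helper82.add_le_finsum_mem_nat (S := {b : Set (Cfsg.IrrCharacter
        ↥(Subgroup.centralizer ({x} : Set G))) |
        Cfsg.IsInducedBlock M (Subgroup.centralizer ({x} : Set G)) b B}) (Set.toFinite _)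
        (fun b => Cfsg.blockRank 2 b) hb' hb hbb
      have h5 : 2 ≤ Cfsg.blockRank 2 b' + Cfsg.blockRank 2 b := by omega
      exact le_trans h5 h4
    omega
  -- the defect of `b`
  have hdb : Cfsg.blockDefect 2 b = 1 := by
    have h1 := Helper75.blockDefect_le_of_isInducedBlock hM (Subgroup.centralizer ({x} : Set G)) hb
    rw [hdB] at h1
    have h2 : Cfsg.blockDefect 2 b ≠ 0 := by
      intro h0
      have h3 := Helper16.irr_eq_zero_of_blockDefect_zero hp2 h0 hθ
        (g := (⟨x, hxC⟩ : Subgroup.centralizer ({x} : Set G))) (by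
          rw [← Subgroup.orderOf_coe]
          show 2 ∣ orderOf x
          rw [hx])
      rw [hθx ⟨x, hxC⟩ rfl] at h3
      exact Helper81.irr_one_ne_zero θ h3
    omega
  obtain ⟨ξ₁, ξ₂, hξne, hbeq, hξagree⟩ := Helper82.defect_one_two hM hb.1 hdb
  have hθval : ∀ ξ ∈ b, ∀ y : Subgroup.centralizer ({x} : Set G), ¬ 2 ∣ orderOf y →
      (ξ : Subgroup.centralizer ({x} : Set G) → ℂ) y
        = (θ : Subgroup.centralizer ({x} : Set G) → ℂ) y := by
    intro ξ hξ y hy
    rw [hbeq] at hξ hθ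
    rcases hξ with rfl | hξ <;> rcases hθ with rfl | hθ
    · rfl
    · rw [Set.mem_singleton_iff] at hθ
      rw [hθ]; exact hξagree y hy
    · rw [Set.mem_singleton_iff] at hξ
      rw [hξ]; exact (hξagree y hy).symm
    · rw [Set.mem_singleton_iff] at hξ hθ
      rw [hξ, hθ]
  -- the section sum
  have hsec : ∀ y y' : Subgroup.centralizer ({x} : Set G), ¬ 2 ∣ orderOf y → ¬ 2 ∣ orderOf y' →
      (χ₁ : G → ℂ) (x * (y : G)) * (starRingEnd ℂ) ((χ₁ : G → ℂ) (x * (y' : G)))
        + (χ₂ : G → ℂ) (x * (y : G)) * (starRingEnd ℂ) ((χ₂ : G → ℂ) (x * (y' : G)))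
      = 2 * ((θ : Subgroup.centralizer ({x} : Set G) → ℂ) y
          * (starRingEnd ℂ) ((θ : Subgroup.centralizer ({x} : Set G) → ℂ) y')) := by
    intro y y' hy hy'
    have h1 := Helper81.sum_block_section hM x hx2 hb huniq y y' hy hy'
    rw [hBeq, hbeq, finsum_mem_pair hne, finsum_mem_pair hξne] at h1
    rw [h1, hθval ξ₁ (by rw [hbeq]; exact Set.mem_insert _ _) y hy,
      hθval ξ₁ (by rw [hbeq]; exact Set.mem_insert _ _) y' hy',
      hθval ξ₂ (by rw [hbeq]; exact Set.mem_insert_of_mem _ rfl) y hy,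
      hθval ξ₂ (by rw [hbeq]; exact Set.mem_insert_of_mem _ rfl) y' hy']
    ring
  -- block orthogonality between the sections of `x` and `1`
  have hdeg : (χ₁ : G → ℂ) 1 = (χ₂ : G → ℂ) 1 :=
    hagree 1 (by rw [orderOf_one]; norm_num)
  have horth : ∀ y : Subgroup.centralizer ({x} : Set G), ¬ 2 ∣ orderOf y →
      (χ₂ : G → ℂ) (x * (y : G)) = - (χ₁ : G → ℂ) (x * (y : G)) := by
    intro y hy
    have hcomm : Commute x (y : G) := Subgroup.mem_centralizer_iff.mp y.2 x rfl
    have hpp : Cfsg.IsPPart 2 (x * (y : G)) x :=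
      Helper16.isPPart_mul hcomm hx2 (by rw [Subgroup.orderOf_coe]; exact hy)
    have hpp1 : Cfsg.IsPPart 2 (1 : G) 1 :=
      ⟨1, one_mul 1, Commute.one_left 1, ⟨0, by rw [orderOf_one, pow_zero]⟩,
        by rw [orderOf_one]; norm_num⟩
    have hnc : ¬ IsConj x 1 := fun h => hx1 (isConj_one_left.mp h)
    have h1 := Helper16.block_orthogonality hM hB hpp hpp1 hnc
    rw [hBeq, finsum_mem_pair hne] at h1
    have hr1 : (starRingEnd ℂ) ((χ₁ : G → ℂ) 1) = (χ₁ : G → ℂ) 1 := by
      rw [Helper81.irr_one_eq_charDegree, Complex.conj_natCast]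
    have hr2 : (starRingEnd ℂ) ((χ₂ : G → ℂ) 1) = (χ₁ : G → ℂ) 1 := by
      rw [← hdeg]; exact hr1
    rw [hr1, hr2, ← add_mul] at h1
    rcases mul_eq_zero.mp h1 with h2 | h2
    · linear_combination h2
    · exact absurd h2 (Helper81.irr_one_ne_zero χ₁)
  have hone : ¬ 2 ∣ orderOf (1 : Subgroup.centralizer ({x} : Set G)) := by
    rw [orderOf_one]; norm_num
  have hkey : ∀ y y' : Subgroup.centralizer ({x} : Set G), ¬ 2 ∣ orderOf y → ¬ 2 ∣ orderOf y' →
      (χ₁ : G → ℂ) (x * (y : G)) * (starRingEnd ℂ) ((χ₁ : G → ℂ) (x * (y' : G)))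
      = (θ : Subgroup.centralizer ({x} : Set G) → ℂ) y
          * (starRingEnd ℂ) ((θ : Subgroup.centralizer ({x} : Set G) → ℂ) y') := by
    intro y y' hy hy'
    have h1 := hsec y y' hy hy'
    rw [horth y hy, horth y' hy', map_neg] at h1
    linear_combination (1 / 2 : ℂ) * h1
  -- the value at `x`
  have hθ1 : (starRingEnd ℂ) ((θ : Subgroup.centralizer ({x} : Set G) → ℂ) 1)
      = (θ : Subgroup.centralizer ({x} : Set G) → ℂ) 1 := by
    rw [Helper81.irr_one_eq_charDegree, Complex.conj_natCast]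
  have hθ0 := Helper81.irr_one_ne_zero θ
  have hreal : (starRingEnd ℂ) ((χ₁ : G → ℂ) x) = (χ₁ : G → ℂ) x := by
    rw [← Helper77.irr_inv, hxinv]
  have hx1' : x * ((1 : Subgroup.centralizer ({x} : Set G)) : G) = x := by
    rw [Subgroup.coe_one, mul_one]
  have hsq : (χ₁ : G → ℂ) x ^ 2 = ((θ : Subgroup.centralizer ({x} : Set G) → ℂ) 1) ^ 2 := by
    have h1 := hkey 1 1 hone hone
    rw [hx1', hreal, hθ1] at h1
    rw [sq, sq]; exact h1
  have hval : ∀ y : Subgroup.centralizer ({x} : Set G), ¬ 2 ∣ orderOf y →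
      (χ₁ : G → ℂ) (x * (y : G)) * (χ₁ : G → ℂ) x
      = (θ : Subgroup.centralizer ({x} : Set G) → ℂ) y
          * (θ : Subgroup.centralizer ({x} : Set G) → ℂ) 1 := by
    intro y hy
    have h1 := hkey y 1 hy hone
    rw [hx1', hreal, hθ1] at h1
    exact h1
  rcases eq_or_eq_neg_of_sq_eq_sq _ _ hsq with hpos | hneg
  · refine ⟨χ₁, hχ₁, χ₂, hχ₂, hne, 1, -1, Or.inl rfl, Or.inr rfl, by norm_num, fun y hy => ?_⟩
    have h1 := hval y hy
    rw [hpos] at h1
    have h2 := mul_right_cancel₀ hθ0 h1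
    refine ⟨by rw [h2]; push_cast; ring, by rw [horth y hy, h2]; push_cast; ring⟩
  · refine ⟨χ₁, hχ₁, χ₂, hχ₂, hne, -1, 1, Or.inr rfl, Or.inl rfl, by norm_num, fun y hy => ?_⟩
    have h1 := hval y hy
    rw [hneg] at h1
    have h2 : (χ₁ : G → ℂ) (x * (y : G))
        = - (θ : Subgroup.centralizer ({x} : Set G) → ℂ) y := by
      have h3 : (- (χ₁ : G → ℂ) (x * (y : G))) * (θ : Subgroup.centralizer ({x} : Set G) → ℂ) 1
          = (θ : Subgroup.centralizer ({x} : Set G) → ℂ) y
            * (θ : Subgroup.centralizer ({x} : Set G) → ℂ) 1 := by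
        linear_combination h1
      have h4 := mul_right_cancel₀ hθ0 h3
      linear_combination -h4
    refine ⟨by rw [h2]; push_cast; ring, by rw [horth y hy, h2]; push_cast; ring⟩

end Cfsg.Agent.S4513
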