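import Cfsg.Statements.S4633
import Cfsg.Agent.Helper16.Inertial
import Cfsg.Agent.Helper16.InertialCyclic

set_option autoImplicit false
open Cfsg

namespace Cfsg.Agent.S4633

/-- Let B be a block of the finite group G relative to a maximal ideal M of the algebraic integers containing the prime p, with a nontrivial cyclic defect group P. Let c be a block of C_G(P) inducing B and T the stabilizer of c in N_G(P) (the elements of N_G(P) conjugating c to itself); T contains C_G(P). Then T/C_G(P) is cyclic of order dividing p − 1, and it acts freely on the non-identity elements of P: an element of T fixing some non-identity element of P under conjugation lies in C_G(P). -/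
theorem result {G : Type*} [Group G] [Finite G] (p : ℕ) [Fact p.Prime] (M : Ideal Cfsg.AlgInt) (hM : Cfsg.IsPModular p M) (B : Set (Cfsg.IrrCharacter G)) (hB : Cfsg.IsPBlock M B) (P : Subgroup G) (hPD : Cfsg.IsDefectGroup p M B P) (hP1 : P ≠ ⊥) (hcyc : IsCyclic P) (c : Set (Cfsg.IrrCharacter (Subgroup.centralizer (P : Set G)))) (hc : Cfsg.IsInducedBlock M (Subgroup.centralizer (P : Set G)) c B) (T : Subgroup G) (hT : ∀ g : G, g ∈ T ↔ (g ∈ Subgroup.normalizer (P : Set G) ∧ Cfsg.StabilizesBlock (Subgroup.centralizer (P : Set G)) c g)) [hn : ((Subgroup.centralizer (P : Set G)).subgroupOf T).Normal] : IsCyclic (T ⧸ (Subgroup.centralizer (P : Set G)).subgroupOf T) ∧ (Subgroup.centralizer (P : Set G)).relIndex T ∣ p - 1 ∧ ∀ g ∈ T, ∀ x ∈ P, x ≠ 1 → g * x * g⁻¹ = x → g ∈ Subgroup.centralizer (P : Set G) := by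
  classical
  have : Fintype G := Fintype.ofFinite G
  have hMm := hM.2.1
  obtain ⟨-, -, -, -, hPp⟩ := Cfsg.Agent.Helper16.isDefectGroup_exists_data hPD
  -- `P` is abelian
  have hPC : P ≤ Subgroup.centralizer (P : Set G) := by
    obtain ⟨w, hw⟩ := hcyc.exists_generator
    intro q hq
    rw [Subgroup.mem_centralizer_iff]
    intro q' hq'
    obtain ⟨e, he⟩ := Subgroup.mem_zpowers_iff.mp (hw ⟨q, hq⟩)
    obtain ⟨e', he'⟩ := Subgroup.mem_zpowers_iff.mp (hw ⟨q', hq'⟩)
    have h1 : (⟨q', hq'⟩ : P) * ⟨q, hq⟩ = ⟨q, hq⟩ * ⟨q', hq'⟩ := by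
      rw [← he, ← he']
      exact (Commute.zpow_zpow_self w e' e).eq
    exact congrArg (fun k : P => (k : G)) h1
  have hCN : Subgroup.centralizer (P : Set G) ≤ Subgroup.normalizer (P : Set G) :=
    Subgroup.centralizer_le_normalizer _
  have hCT : Subgroup.centralizer (P : Set G) ≤ T := by
    intro h hh
    rw [hT]
    refine ⟨hCN hh, Subgroup.le_normalizer hh, fun χ hχ => ⟨χ, hχ, ?_⟩⟩
    intro k k' hkk'
    have h1 : k' = (⟨h, hh⟩ : Subgroup.centralizer (P : Set G)) * k * (⟨h, hh⟩)⁻¹ :=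
      Subtype.ext hkk'
    rw [h1]
    exact Cfsg.Agent.Helper81.irr_isClassFunction χ k ⟨h, hh⟩
  have hTN : T ≤ Subgroup.normalizer (P : Set G) := fun t ht => ((hT t).mp ht).1
  have hTC : T ≤ Subgroup.normalizer ((Subgroup.centralizer (P : Set G) : Subgroup G) : Set G) :=
    fun t ht => ((hT t).mp ht).2.1
  have hnd := Cfsg.Agent.Helper16.inertial_not_dvd hM hPC hCT hCN hTC hc hPD
    (fun t ht => ((hT t).mp ht).2.2)
  obtain ⟨h1, h2⟩ := Cfsg.Agent.Helper16.inertialCyclic_quotient hPp hcyc hTN hnd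
  exact ⟨h1, h2, fun g hg x hx hx1 hgx =>
    Cfsg.Agent.Helper16.inertialCyclic_mem_centralizer hPp hcyc hTN hnd g hg x hx hx1 hgx⟩

end Cfsg.Agent.S4633
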