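import Cfsg.Statements.S4636
-- import your own Cfsg.Agent.* helpers here

set_option autoImplicit false
open scoped Pointwise
open Cfsg

namespace Cfsg.Agent.S4636

/-- In a cyclic subgroup `P`, a subgroup `Z ≤ P` of order `p` contains every element of `P`
killed by `p`. -/
theorem mem_of_pow_eq_one {G : Type*} [Group G] [Finite G] (p : ℕ) [Fact p.Prime]
    (P : Subgroup G) (hcyc : IsCyclic P) (Z : Subgroup G) (hZ : Z ≤ P)
    (hZcard : Nat.card Z = p) (y : G) (hyP : y ∈ P) (hy : y ^ p = 1) : y ∈ Z := by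
  classical
  let _ : Fintype P := Fintype.ofFinite P
  have hp : 0 < p := (Fact.out : p.Prime).pos
  have hle := IsCyclic.card_pow_eq_one_le (α := P) hp
  set S : Finset P := Finset.univ.filter (fun a : P => a ^ p = 1) with hS
  set T : Finset P := Finset.univ.filter (fun a : P => (a : G) ∈ Z) with hT
  have hTS : T ⊆ S := by
    intro a ha
    simp only [hT, Finset.mem_filter, Finset.mem_univ, true_and] at ha
    simp only [hS, Finset.mem_filter, Finset.mem_univ, true_and]
    have h1 : (⟨(a : G), ha⟩ : Z) ^ p = 1 := by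
      rw [← hZcard]; exact pow_card_eq_one'
    have h2 : ((a : G)) ^ p = 1 := by
      have := congrArg (Subtype.val) h1
      simpa using this
    exact Subtype.ext (by simpa using h2)
  have hTcard : T.card = p := by
    rw [← hZcard, ← Nat.card_eq_finsetCard]
    apply Nat.card_congr
    refine ⟨fun a => ⟨((a : P) : G), (Finset.mem_filter.mp a.2).2⟩,
      fun z => ⟨⟨(z : G), hZ z.2⟩, by simp [hT]⟩, fun a => by simp, fun z => by simp⟩
  have hST : T = S := Finset.eq_of_subset_of_card_le hTS (by rw [hTcard]; exact hle)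
  have : (⟨y, hyP⟩ : P) ∈ S := by
    simp only [hS, Finset.mem_filter, Finset.mem_univ, true_and]
    exact Subtype.ext (by simpa using hy)
  rw [← hST] at this
  simpa [hT] using this

/-- A nontrivial `p`-subgroup contains an element of order `p`. -/
theorem exists_order_p {G : Type*} [Group G] [Finite G] (p : ℕ) [Fact p.Prime]
    (Q : Subgroup G) (hQ : IsPGroup p Q) (hQ1 : Q ≠ ⊥) : ∃ y ∈ Q, y ≠ 1 ∧ y ^ p = 1 := by
  obtain ⟨a, ha⟩ := Subgroup.ne_bot_iff_exists_ne_one.mp hQ1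
  obtain ⟨x, hxQ, hx1⟩ : ∃ x ∈ Q, x ≠ 1 := ⟨(a : G), a.2, fun h => ha (Subtype.ext h)⟩
  obtain ⟨k, hk⟩ := hQ ⟨x, hxQ⟩
  have hk' : x ^ p ^ k = 1 := by
    have := congrArg Subtype.val hk
    simpa using this
  -- take the least `k` with `x ^ p ^ k = 1`
  classical
  have hex : ∃ k, x ^ p ^ k = 1 := ⟨k, hk'⟩
  set m := Nat.find hex with hm
  have hm1 : x ^ p ^ m = 1 := Nat.find_spec hex
  have hm0 : m ≠ 0 := by
    intro h0
    rw [h0] at hm1
    simp at hm1
    exact hx1 hm1
  obtain ⟨j, hj⟩ := Nat.exists_eq_succ_of_ne_zero hm0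
  refine ⟨x ^ p ^ j, Q.pow_mem hxQ _, ?_, ?_⟩
  · intro h
    have : m ≤ j := Nat.find_min' hex h
    omega
  · rw [← pow_mul, ← pow_succ]; rw [hj] at hm1; exact hm1

theorem result {G : Type*} [Group G] [Finite G] (p : ℕ) [Fact p.Prime] (P : Subgroup G) (hP : IsPGroup p P) (hP1 : P ≠ ⊥) (hcyc : IsCyclic P) (Z : Subgroup G) (hZ : Z ≤ P) (hZcard : Nat.card Z = p) : (∀ x : G, x ∉ Subgroup.normalizer (Z : Set G) → P ⊓ MulAut.conj x • P = ⊥) ∧ ∀ Q : Subgroup G, Q ≤ P → Q ≠ ⊥ → Subgroup.normalizer (Q : Set G) ≤ Subgroup.normalizer (Z : Set G) := by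
  have _ := hP1
  have hp : p.Prime := Fact.out
  have key := mem_of_pow_eq_one p P hcyc Z hZ hZcard
  -- every element of `Z` is killed by `p`
  have hZpow : ∀ z ∈ Z, z ^ p = 1 := by
    intro z hz
    have h1 : (⟨z, hz⟩ : Z) ^ p = 1 := by
      rw [← hZcard]; exact pow_card_eq_one'
    have := congrArg (Subtype.val) h1
    simpa using this
  -- a nontrivial element of `Z` generates `Z`
  have hgen : ∀ y ∈ Z, y ≠ 1 → ∀ z ∈ Z, ∃ k : ℤ, y ^ k = z := by
    intro y hy hy1 z hz
    have : Fact (Nat.card Z).Prime := ⟨by rw [hZcard]; exact hp⟩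
    have hyne : (⟨y, hy⟩ : Z) ≠ 1 := fun h => hy1 (by simpa using congrArg Subtype.val h)
    have hz' : (⟨z, hz⟩ : Z) ∈ Subgroup.zpowers (⟨y, hy⟩ : Z) := by
      rw [zpowers_eq_top_of_prime_card (p := Nat.card Z) rfl hyne]
      exact Subgroup.mem_top _
    obtain ⟨k, hk⟩ := Subgroup.mem_zpowers_iff.mp hz'
    refine ⟨k, ?_⟩
    have := congrArg Subtype.val hk
    simpa using this
  constructor
  · intro x hx
    by_contra hne
    apply hx
    have hPx : IsPGroup p (P ⊓ MulAut.conj x • P : Subgroup G) := hP.to_le inf_le_left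
    obtain ⟨y, hyI, hy1, hyp⟩ := exists_order_p p _ hPx hne
    have hyP : y ∈ P := (Subgroup.mem_inf.mp hyI).1
    have hyxP : x⁻¹ * y * x ∈ P := by
      have h2 := (Subgroup.mem_inf.mp hyI).2
      rw [Subgroup.mem_pointwise_smul_iff_inv_smul_mem] at h2
      simpa [MulAut.smul_def] using h2
    have hyZ : y ∈ Z := key y hyP hyp
    have hyxZ : x⁻¹ * y * x ∈ Z := by
      apply key _ hyxP
      have : (x⁻¹ * y * x) ^ p = x⁻¹ * y ^ p * x := by
        have := conj_pow (a := x⁻¹) (b := y) (i := p)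
        simpa using this
      rw [this, hyp]; simp
    -- `x⁻¹ ∈ N(Z)`
    have hxinv : x⁻¹ ∈ Subgroup.normalizer (Z : Set G) := by
      apply Subgroup.mem_normalizer_fintype
      intro z hz
      obtain ⟨k, rfl⟩ := hgen y hyZ hy1 z hz
      have : x⁻¹ * y ^ k * x⁻¹⁻¹ = (x⁻¹ * y * x) ^ k := by
        have := conj_zpow (a := x⁻¹) (b := y) (i := k)
        simpa using this.symm
      rw [this]
      exact Z.zpow_mem hyxZ k
    simpa using (Subgroup.normalizer (Z : Set G)).inv_mem hxinv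
  · intro Q hQP hQ1 g hg
    have hQp : IsPGroup p Q := hP.to_le hQP
    apply Subgroup.mem_normalizer_fintype
    intro z hz
    obtain ⟨y, hyQ, hy1, hyp⟩ := exists_order_p p Q hQp hQ1
    have hyZ : y ∈ Z := key y (hQP hyQ) hyp
    obtain ⟨k, rfl⟩ := hgen y hyZ hy1 z hz
    have hzQ : y ^ k ∈ Q := Q.zpow_mem hyQ k
    have hgQ : g * y ^ k * g⁻¹ ∈ Q := (Subgroup.mem_normalizer_iff.mp hg _).mp hzQ
    apply key _ (hQP hgQ)
    have : (g * y ^ k * g⁻¹) ^ p = g * (y ^ k) ^ p * g⁻¹ := conj_pow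
    rw [this, hZpow _ hz]; simp

end Cfsg.Agent.S4636
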