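import Cfsg.Statements.S4637
-- import your own Cfsg.Agent.* helpers here
import Cfsg.Agent.Helper81.KleinFormula
import Cfsg.Agent.Helper16.Inertial

set_option autoImplicit false
open Cfsg

namespace Cfsg.Agent.S4637

/-- Let B be a block of the finite group G relative to a maximal ideal M of the algebraic integers containing 2, with a Klein four defect group P. Let c be a block of C_G(P) inducing B, T the stabilizer of c in N_G(P) and e the index of C_G(P) in T (the inertial index). Then e is 1 or 3, B contains exactly four irreducible characters, and the 2-regular rank of B (its number of irreducible Brauer characters) equals e. -/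
theorem result {G : Type*} [Group G] [Finite G] (M : Ideal Cfsg.AlgInt) (hM : Cfsg.IsPModular 2 M) (B : Set (Cfsg.IrrCharacter G)) (hB : Cfsg.IsPBlock M B) (P : Subgroup G) (hPD : Cfsg.IsDefectGroup 2 M B P) (hV : IsKleinFour P) (c : Set (Cfsg.IrrCharacter (Subgroup.centralizer (P : Set G)))) (hc : Cfsg.IsInducedBlock M (Subgroup.centralizer (P : Set G)) c B) (T : Subgroup G) (hT : ∀ g : G, g ∈ T ↔ (g ∈ Subgroup.normalizer (P : Set G) ∧ Cfsg.StabilizesBlock (Subgroup.centralizer (P : Set G)) c g)) (e : ℕ) (he : (Subgroup.centralizer (P : Set G)).relIndex T = e) : (e = 1 ∨ e = 3) ∧ Nat.card B = 4 ∧ Cfsg.blockRank 2 B = e := by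
  classical
  have : Fintype G := Fintype.ofFinite G
  have hMm := hM.2.1
  have hpf : Fact (Nat.Prime 2) := ⟨hM.1⟩
  obtain ⟨-, -, -, -, hPp⟩ := Cfsg.Agent.Helper16.isDefectGroup_exists_data hPD
  have hcard : Nat.card P = 4 := IsKleinFour.card_four
  have hexp : ∀ u ∈ P, u * u = 1 := fun u hu =>
    congrArg Subtype.val (IsKleinFour.mul_self (⟨u, hu⟩ : P))
  have hPab := Cfsg.Agent.Helper81.kf_comm_of_exp hexp
  have hPC : P ≤ Subgroup.centralizer (P : Set G) :=
    Cfsg.Agent.Helper77.le_centralizer_of_le_of_comm hPab le_rfl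
  have hpair := Cfsg.Agent.Helper77.isBrauerPairOf_of_isInducedBlock hM P hPp hPC c hc
  have hmax := Cfsg.Agent.Helper77.isMaximalBrauerPair_of_card_eq hM hpair hPD rfl
  have hCN : Subgroup.centralizer (P : Set G) ≤ Subgroup.normalizer (P : Set G) :=
    Subgroup.centralizer_le_normalizer _
  have hCT : Subgroup.centralizer (P : Set G) ≤ T := by
    intro h hh
    rw [hT]
    refine ⟨hCN hh, Subgroup.le_normalizer hh, fun χ hχ => ⟨χ, hχ, ?_⟩⟩
    intro k k' hkk'
    have h1 : k' = (⟨h, hh⟩ : Subgroup.centralizer (P : Set G)) * k * (⟨h, hh⟩)⁻¹ :=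
      Subtype.ext hkk'
    rw [h1]
    exact Cfsg.Agent.Helper81.irr_isClassFunction χ k ⟨h, hh⟩
  have hTN : T ≤ Subgroup.normalizer (P : Set G) := fun t ht => ((hT t).mp ht).1
  have hTC : T ≤ Subgroup.normalizer ((Subgroup.centralizer (P : Set G) : Subgroup G) : Set G) :=
    fun t ht => ((hT t).mp ht).2.1
  have hnd := Cfsg.Agent.Helper16.inertial_not_dvd hM hPC hCT hCN hTC hc hPD
    (fun t ht => ((hT t).mp ht).2.2)
  rw [he] at hnd
  -- `e` divides `24`
  have hdvd : e ∣ 24 := by
    have key := Subgroup.card_dvd_of_injective _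
      (QuotientGroup.kerLift_injective P.normalizerMonoidHom)
    rw [Subgroup.normalizerMonoidHom_ker, ← Subgroup.index, ← Subgroup.relIndex] at key
    have h2 : Nat.card (MulAut P) ∣ Nat.card (Equiv.Perm P) :=
      Subgroup.card_dvd_of_injective (MulAut.toPerm P) (fun a b h => MulEquiv.toEquiv_injective h)
    have h3 : Nat.card (Equiv.Perm P) = 24 := by
      rw [Nat.card_perm, hcard]
      rfl
    rw [h3] at h2
    have h4 := Subgroup.relIndex_mul_relIndex (Subgroup.centralizer (P : Set G)) T
      (Subgroup.normalizer (P : Set G)) hCT hTN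
    rw [he] at h4
    exact (Dvd.intro _ h4).trans (key.trans h2)
  have hnum : ∀ n : ℕ, n ∣ 24 → ¬ 2 ∣ n → n = 1 ∨ n = 3 := by
    intro n h1 h2
    have h3 : n ≤ 24 := Nat.le_of_dvd (by norm_num) h1
    interval_cases n <;> omega
  have he13 : e = 1 ∨ e = 3 := hnum e hdvd hnd
  -- powers
  haveI hn : ((Subgroup.centralizer (P : Set G)).subgroupOf T).Normal := ⟨fun n hn g => by
    rw [Subgroup.mem_subgroupOf] at hn ⊢
    exact (Subgroup.mem_normalizer_iff.mp (hTC g.2) n).mp hn⟩
  have hpowe : ∀ t ∈ T, t ^ e ∈ Subgroup.centralizer (P : Set G) := by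
    intro t ht
    have h1 := Subgroup.pow_index_mem ((Subgroup.centralizer (P : Set G)).subgroupOf T)
      (⟨t, ht⟩ : T)
    have h2 : ((Subgroup.centralizer (P : Set G)).subgroupOf T).index = e := he
    rw [h2, Subgroup.mem_subgroupOf] at h1
    exact h1
  -- the action on `P ∖ {1}` is free
  have hfree : ∀ t ∈ T, ∀ u ∈ P, u ≠ 1 → t * u = u * t →
      t ∈ Subgroup.centralizer (P : Set G) := by
    intro t ht u hu hu1 htu
    obtain ⟨v, hvP, hv1, hvu⟩ : ∃ v ∈ P, v ≠ 1 ∧ v ≠ u := by
      by_contra hcon
      push_neg at hcon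
      have : Fintype P := Fintype.ofFinite P
      have h2 : Nat.card P ≤ 2 := by
        have hsub : (Finset.univ : Finset P) ⊆ {1, ⟨u, hu⟩} := by
          intro w _
          by_cases hw : (w : G) = 1
          · have : w = 1 := Subtype.ext hw
            rw [this]
            exact Finset.mem_insert_self _ _
          · have h3 := hcon w w.2 hw
            have : w = ⟨u, hu⟩ := Subtype.ext h3
            rw [this]
            exact Finset.mem_insert_of_mem (Finset.mem_singleton_self _)
        calc Nat.card P = (Finset.univ : Finset P).card := by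
              rw [Nat.card_eq_fintype_card, Finset.card_univ]
          _ ≤ ({1, ⟨u, hu⟩} : Finset P).card := Finset.card_le_card hsub
          _ ≤ 2 := Finset.card_le_two
      omega
    have hu1' : (⟨u, hu⟩ : P) ≠ 1 := fun h => hu1 (congrArg Subtype.val h)
    have hv1' : (⟨v, hvP⟩ : P) ≠ 1 := fun h => hv1 (congrArg Subtype.val h)
    have huv' : (⟨u, hu⟩ : P) ≠ ⟨v, hvP⟩ := fun h => hvu (congrArg Subtype.val h).symm
    have hcent : ∀ s : G, s * u = u * s → s * v = v * s →
        s ∈ Subgroup.centralizer (P : Set G) := by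
      intro s hsu hsv
      rw [Subgroup.mem_centralizer_iff]
      intro w hw
      by_cases hw1 : w = 1
      · rw [hw1, one_mul, mul_one]
      by_cases hwu : w = u
      · rw [hwu]
        exact hsu.symm
      by_cases hwv : w = v
      · rw [hwv]
        exact hsv.symm
      have h := IsKleinFour.eq_mul_of_ne_all (G := P) (x := ⟨u, hu⟩) (y := ⟨v, hvP⟩)
        (z := ⟨w, hw⟩) hu1' hv1' huv' (fun h => hw1 (congrArg Subtype.val h))
        (fun h => hwu (congrArg Subtype.val h)) (fun h => hwv (congrArg Subtype.val h))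
      have hw' : w = u * v := congrArg Subtype.val h
      rw [hw']
      calc u * v * s = u * (s * v) := by rw [mul_assoc, hsv]
        _ = s * (u * v) := by rw [← mul_assoc, ← hsu, mul_assoc]
    have htN := hTN ht
    have hconjP : t * v * t⁻¹ ∈ P := (Subgroup.mem_normalizer_iff.mp htN v).mp hvP
    by_cases hcase : t * v * t⁻¹ = v
    · refine hcent t htu ?_
      calc t * v = t * v * t⁻¹ * t := by group
        _ = v * t := by rw [hcase]
    · have h1 : t * v * t⁻¹ ≠ 1 := by
        intro h
        apply hv1
        calc v = t⁻¹ * (t * v * t⁻¹) * t := by group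
          _ = 1 := by rw [h]; group
      have h2 : t * v * t⁻¹ ≠ u := by
        intro h
        apply hvu
        have h3 : t * u * t⁻¹ = u := by rw [htu]; group
        calc v = t⁻¹ * (t * v * t⁻¹) * t := by group
          _ = t⁻¹ * (t * u * t⁻¹) * t := by rw [h, h3]
          _ = u := by group
      have h := IsKleinFour.eq_mul_of_ne_all (G := P) (x := ⟨u, hu⟩) (y := ⟨v, hvP⟩)
        (z := ⟨t * v * t⁻¹, hconjP⟩) hu1' hv1' huv' (fun h => h1 (congrArg Subtype.val h))
        (fun h => h2 (congrArg Subtype.val h)) (fun h => hcase (congrArg Subtype.val h))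
      have htv : t * v * t⁻¹ = u * v := congrArg Subtype.val h
      have e1 : t * v = u * v * t := by rw [← htv]; group
      have h4 : (t * t) * v = v * (t * t) := by
        calc t * t * v = t * (t * v) := by group
          _ = t * (u * v * t) := by rw [e1]
          _ = (t * u) * (v * t) := by group
          _ = (u * t) * (v * t) := by rw [htu]
          _ = u * (t * v) * t := by group
          _ = u * (u * v * t) * t := by rw [e1]
          _ = (u * u) * v * (t * t) := by group
          _ = v * (t * t) := by rw [hexp u hu, one_mul]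
      have h5 : (t * t) * u = u * (t * t) := by
        calc t * t * u = t * (t * u) := by group
          _ = t * (u * t) := by rw [htu]
          _ = (t * u) * t := by group
          _ = u * t * t := by rw [htu]
          _ = u * (t * t) := by group
      have h6 := hcent (t * t) h5 h4
      have h7 := hpowe t ht
      obtain ⟨m, hm⟩ : ∃ m, e = 2 * m + 1 := ⟨e / 2, by omega⟩
      have h8 : t = ((t * t) ^ m)⁻¹ * t ^ e := by
        rw [hm, pow_succ, pow_mul, pow_two, inv_mul_cancel_left]
      rw [h8]
      exact mul_mem (inv_mem (pow_mem h6 m)) h7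
  obtain ⟨hk, h1, h3⟩ := Cfsg.Agent.Helper81.kf_rank hM hB hmax hcard hexp T hT hfree
  refine ⟨he13, hk, ?_⟩
  rcases he13 with h | h
  · rw [h]
    apply h1
    rw [h] at he
    exact Subgroup.relIndex_eq_one.mp he
  · rw [h]
    rw [h] at he
    have hcardQ : Nat.card (T ⧸ (Subgroup.centralizer (P : Set G)).subgroupOf T) = 3 := by
      rw [← Subgroup.index_eq_card]
      exact he
    obtain ⟨σ⟩ : Nonempty ((T ⧸ (Subgroup.centralizer (P : Set G)).subgroupOf T) ≃ Fin 3) :=
      ⟨Finite.equivFinOfCardEq hcardQ⟩
    refine h3 (fun i => ((σ.symm i).out : T)) (fun i => (σ.symm i).out.2) ?_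
    intro i j hij
    have h5 : σ.symm i = σ.symm j := by
      calc σ.symm i = ((σ.symm i).out : T ⧸ (Subgroup.centralizer (P : Set G)).subgroupOf T) :=
            (QuotientGroup.out_eq' _).symm
        _ = ((σ.symm j).out : T ⧸ (Subgroup.centralizer (P : Set G)).subgroupOf T) :=
            QuotientGroup.eq.mpr (Subgroup.mem_subgroupOf.mpr hij)
        _ = σ.symm j := QuotientGroup.out_eq' _
    exact σ.symm.injective h5

end Cfsg.Agent.S4637
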