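import Cfsg.Statements.S4638
-- import your own Cfsg.Agent.* helpers here
import Cfsg.Agent.Helper81.PerfT
import Cfsg.Agent.Helper81.PerfF

set_option autoImplicit false
open Cfsg

namespace Cfsg.Agent.S4638

/-- Let B be a block of the finite group G relative to a maximal ideal M of the algebraic integers containing 2, with a Klein four defect group P, and let c be its Brauer correspondent: the block of N_G(P) with defect group P that induces B. Then there is a perfect isometry from c onto B. -/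
theorem result {G : Type*} [Group G] [Finite G] (M : Ideal Cfsg.AlgInt) (hM : Cfsg.IsPModular 2 M) (B : Set (Cfsg.IrrCharacter G)) (hB : Cfsg.IsPBlock M B) (P : Subgroup G) (hPD : Cfsg.IsDefectGroup 2 M B P) (hV : IsKleinFour P) (c : Set (Cfsg.IrrCharacter (Subgroup.normalizer (P : Set G)))) (hcD : Cfsg.IsDefectGroup 2 M c (P.subgroupOf (Subgroup.normalizer (P : Set G)))) (hc : Cfsg.IsInducedBlock M (Subgroup.normalizer (P : Set G)) c B) : ∃ (I : Cfsg.IrrCharacter (Subgroup.normalizer (P : Set G)) → Cfsg.IrrCharacter G) (ε : Cfsg.IrrCharacter (Subgroup.normalizer (P : Set G)) → ℤ), Cfsg.IsPerfectIsometry 2 M c B I ε := by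
  classical
  have : Fintype G := Fintype.ofFinite G
  let _ : Fintype (Subgroup.normalizer (P : Set G)) := Fintype.ofFinite _
  have hpf : Fact (Nat.Prime 2) := ⟨hM.1⟩
  obtain ⟨e, h13, hkB, hlB, hkc, hlc, ⟨c₀, hmaxB⟩, ⟨c₁, hmaxc⟩⟩ :=
    Cfsg.Agent.Helper81.kp_transfer M hM B hB P hPD hV c hcD hc
  have hcard : Nat.card P = 4 := IsKleinFour.card_four
  have hexp : ∀ u ∈ P, u * u = 1 := fun u hu =>
    congrArg Subtype.val (IsKleinFour.mul_self (⟨u, hu⟩ : P))
  have hPN : P ≤ Subgroup.normalizer (P : Set G) := Subgroup.le_normalizer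
  have hcard' : Nat.card ↥(P.subgroupOf (Subgroup.normalizer (P : Set G))) = 4 := by
    rw [Nat.card_congr (Subgroup.subgroupOfEquivOfLe hPN).toEquiv]
    exact hcard
  have hexp' : ∀ u ∈ P.subgroupOf (Subgroup.normalizer (P : Set G)), u * u = 1 :=
    fun u hu => Subtype.ext (hexp _ (Subgroup.mem_subgroupOf.mp hu))
  have hLB : Cfsg.Agent.Helper81.kpLocal M B :=
    fun x hx => Cfsg.Agent.Helper81.kp_local hM hB hmaxB hcard hexp x hx
  have hLc : Cfsg.Agent.Helper81.kpLocal M c :=
    fun x hx => Cfsg.Agent.Helper81.kp_local hM hc.1 hmaxc hcard' hexp' x hx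
  rcases h13 with h | h
  · subst h
    have hdB : Cfsg.blockDefect 2 B = 2 := by
      have hd := Cfsg.Agent.Helper77.card_of_isDefectGroup hM hB hPD
      rw [hcard] at hd
      have h4 : (2 : ℕ) ^ 2 = 2 ^ Cfsg.blockDefect 2 B := by rw [← hd]; norm_num
      exact (Nat.pow_right_injective le_rfl h4).symm
    have hdc : Cfsg.blockDefect 2 c = 2 := by
      have hd := Cfsg.Agent.Helper77.card_of_isDefectGroup hM hc.1 hcD
      rw [hcard'] at hd
      have h4 : (2 : ℕ) ^ 2 = 2 ^ Cfsg.blockDefect 2 c := by rw [← hd]; norm_num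
      exact (Nat.pow_right_injective le_rfl h4).symm
    exact Cfsg.Agent.Helper81.kp_isometry_one hM hB hc.1 hdB hdc hlB hlc hLB hLc
  · subst h
    obtain ⟨δB, hδB⟩ := Cfsg.Agent.Helper81.kp_W_nonempty hM hB hmaxB hcard hexp
    obtain ⟨δc, hδc⟩ := Cfsg.Agent.Helper81.kp_W_nonempty hM hc.1 hmaxc hcard' hexp'
    exact Cfsg.Agent.Helper81.kp_isometry_three hM hkB hkc hlB hlc hLB hLc hδB hδc

end Cfsg.Agent.S4638
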