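import Cfsg.Statements.S4640
import Cfsg.Agent.Helper78.AbelCover

set_option autoImplicit false
open Cfsg

namespace Cfsg.Agent.S4640

/-- Let N be a normal subgroup of the finite group G of index a power of the prime p, M a maximal ideal of the algebraic integers containing p, b a block of N stabilized by every element of G, and B a block of G covering b (some member of B has a member of b as a constituent of its restriction to N). Suppose that B has a commutative defect group P. Then G = NP and P ∩ N is a defect group of b; every member of B restricts to a member of b; every member of b is the restriction of exactly [G : N] members of B; B contains exactly [G : N] times as many irreducible characters as b; and B and b have the same p-regular rank. -/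
theorem result {G : Type*} [Group G] [Fintype G] (p : ℕ) [Fact p.Prime] (M : Ideal Cfsg.AlgInt) (hM : Cfsg.IsPModular p M) (N : Subgroup G) [N.Normal] [Fintype N] (hNi : ∃ k : ℕ, N.index = p ^ k) (b : Set (Cfsg.IrrCharacter N)) (hb : Cfsg.IsPBlock M b) (hstab : ∀ g : G, Cfsg.StabilizesBlock N b g) (B : Set (Cfsg.IrrCharacter G)) (hB : Cfsg.IsPBlock M B) (hcov : ∃ χ ∈ B, ∃ θ ∈ b, Cfsg.classInner (fun n : N => (χ : G → ℂ) n) (θ : N → ℂ) ≠ 0) (P : Subgroup G) (hPD : Cfsg.IsDefectGroup p M B P) (hPab : ∀ x ∈ P, ∀ y ∈ P, x * y = y * x) : N ⊔ P = ⊤ ∧ Cfsg.IsDefectGroup p M b ((P ⊓ N).subgroupOf N) ∧ (∀ χ ∈ B, ∃ θ ∈ b, ∀ n : N, (χ : G → ℂ) n = (θ : N → ℂ) n) ∧ (∀ θ ∈ b, Nat.card {χ : Cfsg.IrrCharacter G // χ ∈ B ∧ ∀ n : N, (χ : G → ℂ) n = (θ : N → ℂ) n} = N.index) ∧ Nat.card B = N.index * Nat.card b ∧ Cfsg.blockRank p B = Cfsg.blockRank p b := by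
  classical
  have hMm := hM.2.1
  have hinv : ∀ g : G, ∀ θ ∈ b, Helper16.irrConj N g θ ∈ b := by
    intro g θ hθ
    obtain ⟨-, h2⟩ := hstab g
    obtain ⟨χ', hχ', hconj⟩ := h2 θ hθ
    have e : χ' = Helper16.irrConj N g θ := by
      apply Subtype.ext
      funext k'
      rw [Helper16.irrConj_apply]
      exact hconj _ k' (by
        show (k' : G) = g * (g⁻¹ * (k' : G) * g) * g⁻¹
        group)
    rw [← e]
    exact hχ'
  obtain ⟨hsup, hdef⟩ := Helper78.abelCover_fong N hM hNi hb hinv hB hcov hPD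
  obtain ⟨y, hyN, hne⟩ := Helper78.abelCover_exists_ne_zero N hM hNi hB hPD hPab
  have hirr : ∀ χ ∈ B, Cfsg.IsIrrCharacter N (fun n : N => (χ : G → ℂ) n) :=
    fun χ hχ => Helper78.abelCover_res_irr N hsup hPab hyN χ (fun x hx => hne x hx χ hχ)
  have hover : ∀ (χ : Cfsg.IrrCharacter G) (θ : Cfsg.IrrCharacter N), θ ∈ b →
      Cfsg.classInner (fun n : N => (χ : G → ℂ) n) (θ : N → ℂ) ≠ 0 → χ ∈ B :=
    fun χ θ hθ h => Helper78.abelCover_mem_of_over N hM hNi hb hB hcov χ θ hθ h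
  have hres : ∀ χ ∈ B, ∃ θ ∈ b, ∀ n : N, (χ : G → ℂ) n = (θ : N → ℂ) n :=
    fun χ hχ => ⟨⟨fun n : N => (χ : G → ℂ) n, hirr χ hχ⟩,
      Helper78.abelCover_res_mem N hM hb hinv hB hcov χ hχ (hirr χ hχ), fun n => rfl⟩
  have hfib := Helper78.abelCover_card_fiber N hirr hover
  have hsurj : ∀ θ ∈ b, ∃ χ ∈ B, ∀ n : N, (χ : G → ℂ) n = (θ : N → ℂ) n := by
    intro θ hθ
    have h1 := hfib θ hθ
    have h2 : Nat.card {χ : Cfsg.IrrCharacter G //
        χ ∈ B ∧ ∀ n : N, (χ : G → ℂ) n = (θ : N → ℂ) n} ≠ 0 := by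
      rw [h1]
      exact Subgroup.index_ne_zero_of_finite
    obtain ⟨⟨χ, hχ, h⟩⟩ := (Nat.card_ne_zero.mp h2).1
    exact ⟨χ, hχ, h⟩
  exact ⟨hsup, hdef, hres, hfib, Helper78.abelCover_card N hres hfib,
    Helper78.abelCover_blockRank N hNi hres hsurj⟩

end Cfsg.Agent.S4640
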