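import Cfsg.Statements.S4642
import Cfsg.Agent.Helper73.FPUnique

set_option autoImplicit false
open Cfsg

namespace Cfsg.Agent.S4642

/-- Let G be a finite group, p a prime, M a maximal ideal of the algebraic integers containing p, K the largest normal subgroup of G of order prime to p, and L the preimage in G of the largest normal p-subgroup of G/K. Let Q be a Sylow p-subgroup of L and suppose C_G(Q) ≤ L. Let θ be an irreducible character of K invariant under conjugation by every element of G, and let B be the set of irreducible characters of G whose restriction to K contains θ. Then B is a block of G, every Sylow p-subgroup of G is a defect group of B, and B is of principal type: for every p-subgroup R of G exactly one block of C_G(R) induces B. -/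
theorem result {G : Type*} [Group G] [Fintype G] (p : ℕ) [Fact p.Prime] (M : Ideal Cfsg.AlgInt) (hM : Cfsg.IsPModular p M) (K : Subgroup G) (hK : K = Cfsg.pPrimeCore p G) [Fintype K] (L : Subgroup G) (hL : L = Cfsg.pPrimePCore p G) (Q : Subgroup G) (hQL : Q ≤ L) (hQp : IsPGroup p Q) (hQS : ¬ p ∣ Q.relIndex L) (hCQ : Subgroup.centralizer (Q : Set G) ≤ L) (θ : Cfsg.IrrCharacter K) (hθ : ∀ g : G, Cfsg.IsConjCharOf K g (θ : K → ℂ) (θ : K → ℂ)) (B : Set (Cfsg.IrrCharacter G)) (hBdef : ∀ χ : Cfsg.IrrCharacter G, χ ∈ B ↔ Cfsg.classInner (fun k : K => (χ : G → ℂ) k) (θ : K → ℂ) ≠ 0) : Cfsg.IsPBlock M B ∧ (∀ S : Sylow p G, Cfsg.IsDefectGroup p M B S) ∧ ∀ R : Subgroup G, IsPGroup p R → ∃! f : Set (Cfsg.IrrCharacter (Subgroup.centralizer (R : Set G))), Cfsg.IsInducedBlock M (Subgroup.centralizer (R : Set G)) f B := by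
  classical
  subst hK hL
  have hMm := hM.2.1
  have hp : p.Prime := Fact.out
  have hKcop := Helper22.card_pPrimeCore_coprime p G
  have hKp : ¬ p ∣ Nat.card ↥(Cfsg.pPrimeCore p G) := by
    intro h
    have h2 : p ∣ Nat.gcd (Nat.card ↥(Cfsg.pPrimeCore p G)) p := Nat.dvd_gcd h dvd_rfl
    rw [hKcop] at h2
    exact hp.one_lt.ne' (Nat.dvd_one.mp h2)
  have hinv : ∀ (g : G) (n : ↥(Cfsg.pPrimeCore p G)),
      (θ : ↥(Cfsg.pPrimeCore p G) → ℂ)
        ⟨g * n * g⁻¹, (Cfsg.pPrimeCore_normal p G).conj_mem n n.2 g⟩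
      = (θ : ↥(Cfsg.pPrimeCore p G) → ℂ) n := by
    intro g n
    exact hθ g n ⟨g * n * g⁻¹, (Cfsg.pPrimeCore_normal p G).conj_mem n n.2 g⟩ rfl
  have hC := Helper73.fp_centralizer_pCore_le Q hQL hQp hQS hCQ
  have hPp : IsPGroup p (Cfsg.pCore p (G ⧸ Cfsg.pPrimeCore p G)) := Helper22.pCore_isPGroup p _
  obtain ⟨hB, hSyl⟩ := Helper73.fp_block hM (Cfsg.pPrimeCore p G) hKp
    (Cfsg.pCore p (G ⧸ Cfsg.pPrimeCore p G)) hPp hC θ hinv B hBdef
  refine ⟨hB, hSyl, ?_⟩
  intro R hR
  have : Fintype ↥(Subgroup.centralizer (R : Set G)) := Fintype.ofFinite _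
  obtain ⟨S, hRS⟩ := hR.exists_le_sylow
  obtain ⟨f, hf⟩ := Helper73.fp_exists_centralizer hM hB (hSyl S) R hR
    (Helper16.ConjLE.of_le hRS)
  refine ⟨f, hf, ?_⟩
  intro f' hf'
  obtain ⟨hKC, hCC⟩ := Helper73.fp_local hC R hR
  have : Fintype ↥(Cfsg.pPrimeCore p ↥(Subgroup.centralizer (R : Set G))) := Fintype.ofFinite _
  exact Helper73.fp_unique hM (Cfsg.pPrimeCore p G) hKp θ hinv hBdef R hR
    (Cfsg.pPrimeCore p ↥(Subgroup.centralizer (R : Set G))) hKC
    (Cfsg.pCore p (↥(Subgroup.centralizer (R : Set G)) ⧸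
      Cfsg.pPrimeCore p ↥(Subgroup.centralizer (R : Set G))))
    (Helper22.pCore_isPGroup p _) hCC hf' hf

end Cfsg.Agent.S4642
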