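import Cfsg.Statements.S4682
import Cfsg.Agent.Helper77.AbelianPair

set_option autoImplicit false
open Cfsg

namespace Cfsg.Agent.S4682

/-- Fix a prime p and a maximal ideal M of the algebraic integers containing p, a p-block B of the finite group G with maximal Brauer pair (P, e), P abelian, and a Brauer pair (Q, f) ≤ (P, e). Let T_Q be the stabilizer of f in N_G(Q) and T_P the stabilizer of e in N_G(P). Then every element of T_Q is a product of an element of T_P and an element of C_G(Q); and the index of C_G(Q) in T_Q equals the index of T_P ∩ C_G(Q) in T_P ∩ N_G(Q). -/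
theorem result {G : Type*} [Group G] [Fintype G] (p : ℕ) [Fact p.Prime] (M : Ideal Cfsg.AlgInt) (hM : Cfsg.IsPModular p M) (B : Set (Cfsg.IrrCharacter G)) (P : Subgroup G) (e : Set (Cfsg.IrrCharacter (Subgroup.centralizer (P : Set G)))) (hmax : Cfsg.IsMaximalBrauerPair p M B P e) (hab : ∀ x ∈ P, ∀ y ∈ P, x * y = y * x) (Q : Subgroup G) (f : Set (Cfsg.IrrCharacter (Subgroup.centralizer (Q : Set G)))) (hQP : Q ≤ P) (hf : Cfsg.IsPBlock M f) (hle : Cfsg.SubpairLE p M Q f P e) (TQ : Subgroup G) (hTQ : ∀ y : G, y ∈ TQ ↔ y ∈ Subgroup.normalizer (Q : Set G) ∧ Cfsg.StabilizesBlock (Subgroup.centralizer (Q : Set G)) f y) (TP : Subgroup G) (hTP : ∀ y : G, y ∈ TP ↔ y ∈ Subgroup.normalizer (P : Set G) ∧ Cfsg.StabilizesBlock (Subgroup.centralizer (P : Set G)) e y) : (∀ x ∈ TQ, ∃ y ∈ TP, ∃ c ∈ Subgroup.centralizer (Q : Set G), x = y * c) ∧ ((Subgroup.centralizer (Q : Set G)).subgroupOf TQ).index = ((TP ⊓ Subgroup.centralizer (Q : Set G)).subgroupOf (TP ⊓ Subgroup.normalizer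 (Q : Set G))).index := by
  classical
  have part1 : ∀ x ∈ TQ, ∃ y ∈ TP, ∃ c ∈ Subgroup.centralizer (Q : Set G), x = y * c := by
    intro x hx
    obtain ⟨y, hy, c, hc, rfl⟩ := Cfsg.Agent.Helper77.exists_stabilizer_mul_centralizer hM hmax
      hab hle ((hTQ x).1 hx).1 ((hTQ x).1 hx).2
    exact ⟨y, (hTP y).2 hy, c, hc, rfl⟩
  refine ⟨part1, ?_⟩
  have hCTQ : Subgroup.centralizer (Q : Set G) ≤ TQ := fun c hc =>
    (hTQ c).2 ⟨Subgroup.centralizer_le_normalizer _ hc,
      Cfsg.Agent.Helper77.stabilizesBlock_of_mem_centralizer Q f hc⟩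
  have hATQ : TP ⊓ Subgroup.normalizer (Q : Set G) ≤ TQ := fun y hy =>
    (hTQ y).2 ⟨hy.2, Cfsg.Agent.Helper77.stabilizesBlock_of_stabilizes_above hM hmax.1.1 hle
      ((hTP y).1 hy.1).1 ((hTP y).1 hy.1).2 hy.2⟩
  haveI : ((Subgroup.centralizer (Q : Set G)).subgroupOf TQ).Normal :=
    Subgroup.normal_subgroupOf_of_le_normalizer (fun y hy =>
      Cfsg.Agent.Helper75.normalizer_le_normalizer_centralizer' Q ((hTQ y).1 hy).1)
  have htop : (TP ⊓ Subgroup.normalizer (Q : Set G)).subgroupOf TQ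
      ⊔ (Subgroup.centralizer (Q : Set G)).subgroupOf TQ = ⊤ := by
    rw [eq_top_iff]
    intro t _
    obtain ⟨y, hy, c, hc, hxyc⟩ := part1 t t.2
    have hyN : y ∈ Subgroup.normalizer (Q : Set G) := by
      have e : y = (t : G) * c⁻¹ := by
        rw [hxyc]
        group
      rw [e]
      exact (Subgroup.normalizer (Q : Set G)).mul_mem ((hTQ t).1 t.2).1
        (Subgroup.centralizer_le_normalizer _ ((Subgroup.centralizer (Q : Set G)).inv_mem hc))
    have hyA : y ∈ TP ⊓ Subgroup.normalizer (Q : Set G) := ⟨hy, hyN⟩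
    have e2 : t = (⟨y, hATQ hyA⟩ : TQ) * ⟨c, hCTQ hc⟩ := Subtype.ext hxyc
    rw [e2]
    exact Subgroup.mul_mem_sup (Subgroup.mem_subgroupOf.mpr hyA) (Subgroup.mem_subgroupOf.mpr hc)
  have h1 : ((Subgroup.centralizer (Q : Set G)).subgroupOf TQ).index
      = ((Subgroup.centralizer (Q : Set G)).subgroupOf TQ).relIndex
          ((TP ⊓ Subgroup.normalizer (Q : Set G)).subgroupOf TQ) := by
    rw [← Subgroup.relIndex_sup_right, htop, Subgroup.relIndex_top_right]
  rw [h1, Subgroup.relIndex_subgroupOf hATQ]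
  show (Subgroup.centralizer (Q : Set G)).relIndex (TP ⊓ Subgroup.normalizer (Q : Set G))
    = (TP ⊓ Subgroup.centralizer (Q : Set G)).relIndex (TP ⊓ Subgroup.normalizer (Q : Set G))
  rw [← Subgroup.inf_relIndex_right (Subgroup.centralizer (Q : Set G)),
    ← Subgroup.inf_relIndex_right (TP ⊓ Subgroup.centralizer (Q : Set G))]
  congr 1
  ext g
  simp only [Subgroup.mem_inf]
  tauto

end Cfsg.Agent.S4682
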