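import Cfsg.Statements.S4645
import Cfsg.Agent.Helper77.AbelNilRank2
import Cfsg.Agent.S4633
import Cfsg.Agent.S4682

set_option autoImplicit false
open Cfsg

namespace Cfsg.Agent.S4645

/-- Let B be a block of the finite group G relative to a maximal ideal M of the algebraic integers containing the prime p, with a nontrivial cyclic defect group P; let c be a block of C_G(P) inducing B and T the stabilizer of c in N_G(P). Let Q be a nontrivial subgroup of P (so C_G(P) ≤ C_G(Q)), f the block of C_G(Q) induced by c inside C_G(Q), and T' the stabilizer of f in N_G(Q). Then T' = T·C_G(Q), the index of C_G(Q) in T' equals the index of C_G(P) in T, f has p-regular rank 1, and f is a nilpotent block of C_G(Q). -/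
theorem result {G : Type*} [Group G] [Finite G] (p : ℕ) [Fact p.Prime] (M : Ideal Cfsg.AlgInt) (hM : Cfsg.IsPModular p M) (B : Set (Cfsg.IrrCharacter G)) (hB : Cfsg.IsPBlock M B) (P : Subgroup G) (hPD : Cfsg.IsDefectGroup p M B P) (hP1 : P ≠ ⊥) (hcyc : IsCyclic P) (c : Set (Cfsg.IrrCharacter (Subgroup.centralizer (P : Set G)))) (hc : Cfsg.IsInducedBlock M (Subgroup.centralizer (P : Set G)) c B) (T : Subgroup G) (hT : ∀ g : G, g ∈ T ↔ (g ∈ Subgroup.normalizer (P : Set G) ∧ Cfsg.StabilizesBlock (Subgroup.centralizer (P : Set G)) c g)) (Q : Subgroup G) (hQP : Q ≤ P) (hQ1 : Q ≠ ⊥) (f : Set (Cfsg.IrrCharacter (Subgroup.centralizer (Q : Set G)))) (hf : Cfsg.IsInducedBlockIn M (Subgroup.centralizer (Q : Set G)) (Subgroup.centralizer (P : Set G)) c f) (T' : Subgroup G) (hT' : ∀ g : G, g ∈ T' ↔ (g ∈ Subgroup.normalizer (Q : Set G) ∧ Cfsg.StabilizesBlock (Subgroup.centralizer (Q : Set G)) f g)) : T' = T ⊔ Subgroup.centralizer (Q : Set G) ∧ (Subgroup.centralizer (Q : Set G)).relIndex T'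 = (Subgroup.centralizer (P : Set G)).relIndex T ∧ Cfsg.blockRank p f = 1 ∧ Cfsg.IsNilpotentBlock p M f := by
  classical
  letI : Fintype G := Fintype.ofFinite G
  letI : Fintype ↥(Subgroup.centralizer (Q : Set G)) := Fintype.ofFinite _
  -- `P` is abelian
  have hPab : ∀ x ∈ P, ∀ y ∈ P, x * y = y * x := by
    intro x hx y hy
    obtain ⟨z, hz⟩ := hcyc.exists_generator
    obtain ⟨k, hk⟩ := Subgroup.mem_zpowers_iff.mp (hz ⟨x, hx⟩)
    obtain ⟨j, hj⟩ := Subgroup.mem_zpowers_iff.mp (hz ⟨y, hy⟩)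
    have hk' : (z : G) ^ k = x := by
      have := congrArg Subtype.val hk
      simpa using this
    have hj' : (z : G) ^ j = y := by
      have := congrArg Subtype.val hj
      simpa using this
    rw [← hk', ← hj', ← zpow_add, ← zpow_add, add_comm]
  obtain ⟨-, -, -, -, hPp⟩ := Helper16.isDefectGroup_exists_data hPD
  have hPC : P ≤ Subgroup.centralizer (P : Set G) :=
    Helper77.le_centralizer_of_le_of_comm hPab le_rfl
  have hpair : Cfsg.IsBrauerPairOf p M B P c :=
    Helper77.isBrauerPairOf_of_isInducedBlock hM P hPp hPC c hc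
  have hmax : Cfsg.IsMaximalBrauerPair p M B P c :=
    Helper77.isMaximalBrauerPair_of_card_eq hM hpair hPD rfl
  have hle := (Helper77.isInducedBlockIn_iff_subpairLE hM hpair.1 hPab hQP f).mp hf
  have hPCQ := Helper77.le_centralizer_of_le_of_comm hPab hQP
  -- the inertial quotient acts freely
  have hTN : T ≤ Subgroup.normalizer
      ((Subgroup.centralizer (P : Set G) : Subgroup G) : Set G) := fun y hy =>
    Helper75.normalizer_le_normalizer_centralizer' P ((hT y).1 hy).1
  haveI : ((Subgroup.centralizer (P : Set G)).subgroupOf T).Normal :=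
    Subgroup.normal_subgroupOf_of_le_normalizer hTN
  have hfree := (Cfsg.Agent.S4633.result p M hM B hB P hPD hP1 hcyc c hc T hT).2.2
  -- `N_G(P) ≤ N_G(Q)`
  have hconj : ∀ y ∈ Subgroup.normalizer (P : Set G), ∀ q ∈ Q, y * q * y⁻¹ ∈ Q := by
    intro y hy q hq
    obtain ⟨z, hz⟩ := hcyc.exists_generator
    have h1 : y * (z : G) * y⁻¹ ∈ P := (Subgroup.mem_normalizer_iff.mp hy (z : G)).mp z.2
    obtain ⟨k, hk⟩ := Subgroup.mem_zpowers_iff.mp (hz ⟨_, h1⟩)
    obtain ⟨j, hj⟩ := Subgroup.mem_zpowers_iff.mp (hz ⟨q, hQP hq⟩)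
    have hk' : (z : G) ^ k = y * (z : G) * y⁻¹ := by
      have := congrArg Subtype.val hk
      simpa using this
    have hj' : (z : G) ^ j = q := by
      have := congrArg Subtype.val hj
      simpa using this
    have h2 : y * q * y⁻¹ = q ^ k := by
      rw [← hj', ← conj_zpow, ← hk', ← zpow_mul, ← zpow_mul, mul_comm]
    rw [h2]
    exact Q.zpow_mem hq k
  have hNPQ : Subgroup.normalizer (P : Set G) ≤ Subgroup.normalizer (Q : Set G) := by
    intro y hy
    rw [Subgroup.mem_normalizer_iff]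
    intro h
    constructor
    · exact hconj y hy h
    · intro hh
      have h3 := hconj y⁻¹ ((Subgroup.normalizer (P : Set G)).inv_mem hy) _ hh
      rwa [show y⁻¹ * (y * h * y⁻¹) * y⁻¹⁻¹ = h by group] at h3
  have hTT' : T ≤ T' := fun y hy =>
    (hT' y).2 ⟨hNPQ ((hT y).1 hy).1, Helper77.stabilizesBlock_of_stabilizes_above hM hpair.1 hle
      ((hT y).1 hy).1 ((hT y).1 hy).2 (hNPQ ((hT y).1 hy).1)⟩
  have hCT' : Subgroup.centralizer (Q : Set G) ≤ T' := fun y hy =>
    (hT' y).2 ⟨Subgroup.centralizer_le_normalizer _ hy,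
      Helper77.stabilizesBlock_of_mem_centralizer Q f hy⟩
  obtain ⟨h82a, h82b⟩ := Cfsg.Agent.S4682.result p M hM B P c hmax hPab Q f hQP hf.2.1 hle
    T' hT' T hT
  have hCPT : Subgroup.centralizer (P : Set G) ≤ T := fun y hy =>
    (hT y).2 ⟨Subgroup.centralizer_le_normalizer _ hy,
      Helper77.stabilizesBlock_of_mem_centralizer P c hy⟩
  obtain ⟨q, hq1⟩ := Subgroup.ne_bot_iff_exists_ne_one.mp hQ1
  have hq1' : (q : G) ≠ 1 := fun h => hq1 (Subtype.ext h)
  have hinf : T ⊓ Subgroup.centralizer (Q : Set G) = Subgroup.centralizer (P : Set G) := by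
    apply le_antisymm
    · rintro y ⟨hyT, hyC⟩
      have hcomm := Subgroup.mem_centralizer_iff.mp hyC (q : G) q.2
      have hfix : y * (q : G) * y⁻¹ = (q : G) := by
        rw [← hcomm]
        group
      exact hfree y hyT (q : G) (hQP q.2) hq1' hfix
    · exact le_inf hCPT (Subgroup.centralizer_le (by exact_mod_cast hQP))
  have hinfN : T ⊓ Subgroup.normalizer (Q : Set G) = T :=
    inf_eq_left.mpr (fun y hy => hNPQ ((hT y).1 hy).1)
  have hnil : Cfsg.IsNilpotentBlock p M f := by
    rw [Helper77.nilpotent_local_iff hM hmax hPab hQP hle]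
    intro y hyC hyN hyst
    have h5 : y ∈ T ⊓ Subgroup.centralizer (Q : Set G) := ⟨(hT y).2 ⟨hyN, hyst⟩, hyC⟩
    rw [hinf] at h5
    exact h5
  refine ⟨?_, ?_, ?_, hnil⟩
  · apply le_antisymm
    · intro x hx
      obtain ⟨y, hy, c', hc', rfl⟩ := h82a x hx
      exact Subgroup.mul_mem_sup hy hc'
    · exact sup_le hTT' hCT'
  · rw [hinf, hinfN] at h82b
    exact h82b
  · have h2 := Helper77.isBrauerPairOf_subBlock_of_subpairLE hM hmax.1.1 hPab hQP hle
    have hDf : Cfsg.IsDefectGroup p M f (P.subgroupOf (Subgroup.centralizer (Q : Set G))) :=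
      Helper77.isDefectGroup_centralizer_of_le_centralizer hM hmax hle hPCQ
    have hmax' := Helper77.isMaximalBrauerPair_of_card_eq hM h2 hDf rfl
    have hab' : ∀ x ∈ (P.subgroupOf (Subgroup.centralizer (Q : Set G))),
        ∀ y ∈ (P.subgroupOf (Subgroup.centralizer (Q : Set G))), x * y = y * x :=
      fun x hx y hy =>
        Subtype.ext (hPab x (Subgroup.mem_subgroupOf.mp hx) y (Subgroup.mem_subgroupOf.mp hy))
    exact Helper77.blockRank_eq_one_of_nilpotent_abelian hM hnil hmax' hab'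

end Cfsg.Agent.S4645
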