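import Cfsg.Statements.S4648
import Cfsg.Agent.Helper77.KulMain
import Cfsg.Agent.Helper77.KulNil
import Cfsg.Agent.Helper78.KulJ

set_option autoImplicit false
open Cfsg

namespace Cfsg.Agent.S4648

/-- Let B be a block of the finite group G relative to a maximal ideal M of the algebraic integers containing the prime p, with a nontrivial defect group D. If B has p-regular rank 1 and at most four irreducible characters, then B is nilpotent, D has exactly as many elements as B has irreducible characters, and p is 2 or 3. -/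
theorem result {G : Type*} [Group G] [Finite G] (p : ℕ) [Fact p.Prime] (M : Ideal Cfsg.AlgInt) (hM : Cfsg.IsPModular p M) (B : Set (Cfsg.IrrCharacter G)) (hB : Cfsg.IsPBlock M B) (D : Subgroup G) (hD : Cfsg.IsDefectGroup p M B D) (hD1 : D ≠ ⊥) (hl : Cfsg.blockRank p B = 1) (hk : Nat.card B ≤ 4) : Cfsg.IsNilpotentBlock p M B ∧ Nat.card D = Nat.card B ∧ (p = 2 ∨ p = 3) := by
  classical
  letI : Fintype G := Fintype.ofFinite G
  obtain ⟨n, hn⟩ := Helper77.kul_equal_degrees p hM hB hl hk
  have hcard : Nat.card D = Nat.card B := Helper78.kul_arith p hM hB hD hl n hn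
  refine ⟨Helper77.kul_nilpotent p hM hB hD hl hcard hk, hcard, ?_⟩
  have hp : p.Prime := Fact.out
  obtain ⟨-, -, -, -, hDp⟩ := Helper16.isDefectGroup_exists_data hD
  obtain ⟨m, hm⟩ := IsPGroup.iff_card.mp hDp
  have hm0 : m ≠ 0 := by
    rintro rfl
    apply hD1
    rw [pow_zero] at hm
    exact Subgroup.card_eq_one.mp hm
  have hpd : p ≤ Nat.card D := by
    rw [hm]
    calc p = p ^ 1 := (pow_one p).symm
      _ ≤ p ^ m := Nat.pow_le_pow_right hp.pos (Nat.one_le_iff_ne_zero.mpr hm0)
  have hp4 : p ≤ 4 := by omega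
  have h2 := hp.two_le
  interval_cases p
  · left; rfl
  · right; rfl
  · exact absurd hp (by decide)

end Cfsg.Agent.S4648
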