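import Cfsg.Statements.S4650
import Cfsg.Agent.Helper77.LocalNil

set_option autoImplicit false
open Cfsg

namespace Cfsg.Agent.S4650

/-- Let B be a block of the finite group G relative to a maximal ideal M of the algebraic integers containing the prime p, with a nontrivial commutative defect group P; let c be a block of C_G(P) inducing B and T the stabilizer of c in N_G(P). Then T/C_G(P) acts freely on the non-identity elements of P (an element of T fixing a non-identity element of P under conjugation lies in C_G(P)) if and only if, for every nontrivial subgroup Q of P, the block of C_G(Q) induced by c inside C_G(Q) is a nilpotent block of C_G(Q). -/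
theorem result {G : Type*} [Group G] [Finite G] (p : ℕ) [Fact p.Prime] (M : Ideal Cfsg.AlgInt) (hM : Cfsg.IsPModular p M) (B : Set (Cfsg.IrrCharacter G)) (hB : Cfsg.IsPBlock M B) (P : Subgroup G) (hPD : Cfsg.IsDefectGroup p M B P) (hPab : ∀ x ∈ P, ∀ y ∈ P, x * y = y * x) (hP1 : P ≠ ⊥) (c : Set (Cfsg.IrrCharacter (Subgroup.centralizer (P : Set G)))) (hc : Cfsg.IsInducedBlock M (Subgroup.centralizer (P : Set G)) c B) (T : Subgroup G) (hT : ∀ g : G, g ∈ T ↔ (g ∈ Subgroup.normalizer (P : Set G) ∧ Cfsg.StabilizesBlock (Subgroup.centralizer (P : Set G)) c g)) : (∀ g ∈ T, ∀ x ∈ P, x ≠ 1 → g * x * g⁻¹ = x → g ∈ Subgroup.centralizer (P : Set G)) ↔ ∀ Q : Subgroup G, Q ≤ P → Q ≠ ⊥ → ∀ f : Set (Cfsg.IrrCharacter (Subgroup.centralizer (Q : Set G))), Cfsg.IsInducedBlockIn M (Subgroup.centralizer (Q : Set G)) (Subgroup.centralizer (P : Set G)) c f → Cfsg.IsNilpotentBlock p M f := by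
  classical
  letI : Fintype G := Fintype.ofFinite G
  exact Helper77.free_action_iff_local_nilpotent hM hPD hPab c hc T hT

end Cfsg.Agent.S4650
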