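import Cfsg.Statements.S4651
import Cfsg.Agent.Helper79.KR7

set_option autoImplicit false
open Cfsg

namespace Cfsg.Agent.S4651

/-- An alternating-sum identity over chains of p-subgroups (the character-count form behind the chain reformulation of Alperin's weight conjecture, which holds unconditionally for the difference k − l). Let b be a block of the finite group G relative to a maximal ideal M of the algebraic integers containing the prime p. Consider the nonempty chains s = {Q_0 < Q_1 < ⋯ < Q_m} of nontrivial p-subgroups of G in which every member is normal in the largest member; let N_G(s) be the intersection of the normalizers of the members (the stabilizer of the chain), and let b_s be the set of irreducible characters of N_G(s) lying in blocks of N_G(s) that induce b. Then #G · (k(b) − l(b)) equals the sum over all such chains s of (−1)^m · #N_G(s) · (k(b_s) − l(b_s)), where k counts irreducible characters and l is the p-regular rank; equivalently, k(b) − l(b) is the alternating sum of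 k(b_s) − l(b_s) over representatives of the conjugacy classes of such chains. -/
theorem result {G : Type*} [Group G] [Finite G] (p : ℕ) [Fact p.Prime] (M : Ideal Cfsg.AlgInt) (hM : Cfsg.IsPModular p M) (b : Set (Cfsg.IrrCharacter G)) (hb : Cfsg.IsPBlock M b) : (Nat.card G : ℤ) * ((Nat.card b : ℤ) - (Cfsg.blockRank p b : ℤ)) = ∑ᶠ s ∈ {s : Finset (Subgroup G) | s.Nonempty ∧ (∀ Q ∈ s, ∀ R ∈ s, Q ≤ R ∨ R ≤ Q) ∧ (∀ Q ∈ s, Q ≠ ⊥ ∧ IsPGroup p Q) ∧ ∃ T ∈ s, ∀ Q ∈ s, Q ≤ T ∧ T ≤ Subgroup.normalizer ((Q : Subgroup G) : Set G)}, (-1 : ℤ) ^ (s.card - 1) * (Nat.card (((⨅ Q ∈ s, Subgroup.normalizer ((Q : Subgroup G) : Set G) : Subgroup G))) : ℤ) * ((Nat.card {ψ : Cfsg.IrrCharacter (((⨅ Q ∈ s, Subgroup.normalizer ((Q : Subgroup G) : Set G) : Subgroup G))) | ∃ β : Set (Cfsg.IrrCharacter (((⨅ Q ∈ s, Subgroup.normalizer ((Q : Subgroup G) : Set G) : Subgroup G)))), ψ ∈ β ∧ Cfsg.IsInducedBlock M (((⨅ Q ∈ s, Subgroup.normalizer ((Q : Subgroup G) : Set G) : Subgroup G))) β b} : ℤ) - (Cfsg.blockRank p {ψ : Cfsg.IrrCharacter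 (((⨅ Q ∈ s, Subgroup.normalizer ((Q : Subgroup G) : Set G) : Subgroup G))) | ∃ β : Set (Cfsg.IrrCharacter (((⨅ Q ∈ s, Subgroup.normalizer ((Q : Subgroup G) : Set G) : Subgroup G)))), ψ ∈ β ∧ Cfsg.IsInducedBlock M (((⨅ Q ∈ s, Subgroup.normalizer ((Q : Subgroup G) : Set G) : Subgroup G))) β b} : ℤ)) := by
  classical
  have hmain := Cfsg.Agent.Helper79.kr_main hM hb
  have key : (Nat.card G : ℤ) * ((Nat.card b : ℤ) - (Cfsg.blockRank p b : ℤ))
      = ∑ᶠ s ∈ (Cfsg.Agent.Helper79.krChains p : Set (Finset (Subgroup G))),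
          (-1 : ℤ) ^ (s.card - 1) * (Nat.card (Cfsg.Agent.Helper79.krN s) : ℤ)
            * ((Nat.card (Cfsg.Agent.Helper79.krInd M b (Cfsg.Agent.Helper79.krN s)) : ℤ)
              - (Cfsg.blockRank p
                  (Cfsg.Agent.Helper79.krInd M b (Cfsg.Agent.Helper79.krN s)) : ℤ)) := by
    apply Int.cast_injective (α := ℂ)
    have hc := (Int.castAddHom ℂ).map_finsum_mem (fun s : Finset (Subgroup G) =>
        (-1 : ℤ) ^ (s.card - 1) * (Nat.card (Cfsg.Agent.Helper79.krN s) : ℤ)
            * ((Nat.card (Cfsg.Agent.Helper79.krInd M b (Cfsg.Agent.Helper79.krN s)) : ℤ)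
              - (Cfsg.blockRank p
                  (Cfsg.Agent.Helper79.krInd M b (Cfsg.Agent.Helper79.krN s)) : ℤ)))
      (Set.toFinite (Cfsg.Agent.Helper79.krChains p : Set (Finset (Subgroup G))))
    simp only [Int.coe_castAddHom] at hc
    rw [hc]
    push_cast
    rw [hmain]
    refine finsum_mem_congr rfl fun s _ => ?_
    ring
  exact key

end Cfsg.Agent.S4651
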