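import Cfsg.Statements.S4654
import Cfsg.Agent.Helper77.StabBlock

set_option autoImplicit false
open Cfsg

namespace Cfsg.Agent.S4654

/-- Fix a prime p and a maximal ideal M of the algebraic integers containing p. Let P be a normal p-subgroup of the finite group G, B a p-block of G and e a p-block of C_G(P) such that (P, e) is a Brauer pair of B (as P is normal, this says that e occurs in the idempotent of B, which is supported on C_G(P)). Let T be the stabilizer of e in G under conjugation. Then the idempotent of e is a block idempotent of T: some block E of T has, at every element of T, the same idempotent coefficient as e (zero off C_G(P)); and the idempotent of B is the sum of the distinct G-conjugates of the idempotent of e: its coefficient at g is the sum over all x in G of the coefficient of e at x⁻¹ g x, divided by the order of T. -/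
theorem result {G : Type*} [Group G] [Fintype G] (p : ℕ) [Fact p.Prime] (M : Ideal Cfsg.AlgInt) (hM : Cfsg.IsPModular p M) (P : Subgroup G) [P.Normal] (hP : IsPGroup p P) (B : Set (Cfsg.IrrCharacter G)) (e : Set (Cfsg.IrrCharacter (Subgroup.centralizer (P : Set G)))) (hBe : Cfsg.IsBrauerPairOf p M B P e) (T : Subgroup G) (hT : ∀ x : G, x ∈ T ↔ Cfsg.StabilizesBlock (Subgroup.centralizer (P : Set G)) e x) : (∃ E : Set (Cfsg.IrrCharacter T), Cfsg.IsPBlock M E ∧ ∀ t : T, Cfsg.blockCoeff E t = Cfsg.subgroupBlockCoeff (Subgroup.centralizer (P : Set G)) e (t : G)) ∧ ∀ g : G, Cfsg.blockCoeff B g = (Nat.card T : ℂ)⁻¹ * ∑ x : G, Cfsg.subgroupBlockCoeff (Subgroup.centralizer (P : Set G)) e (x⁻¹ * g * x) := by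
  classical
  have hMm := hM.2.1
  have hPe := hBe.1
  have hNtop : Subgroup.normalizer (P : Set G) = ⊤ := Subgroup.normalizer_eq_top P
  have hCn : (⊤ : Subgroup G) ≤ Subgroup.normalizer
      ((Subgroup.centralizer (P : Set G) : Subgroup G) : Set G) := by
    intro x _
    apply Cfsg.Agent.Helper75.normalizer_le_normalizer_centralizer' P
    rw [hNtop]
    exact Subgroup.mem_top x
  constructor
  · have hQT : P ≤ T := fun x hx => (hT x).mpr (Cfsg.Agent.Helper77.stabilizesBlock_of_mem P e hx)
    have hCT : Subgroup.centralizer (P : Set G) ≤ T := fun x hx =>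
      (hT x).mpr (Cfsg.Agent.Helper77.stabilizesBlock_of_mem_centralizer P e hx)
    have hTN : T ≤ Subgroup.normalizer (P : Set G) := by
      rw [hNtop]
      exact le_top
    obtain ⟨θ, hθ⟩ := Cfsg.Agent.Helper77.exists_block_of_stabilizer hM P T hP hQT hCT hTN hPe.2
      (fun x hx => (hT x).mp hx)
    exact ⟨_, ⟨θ, rfl⟩, hθ⟩
  · intro g
    rw [Cfsg.Agent.Helper77.blockCoeff_eq_sbc_orbitUnion_top hM P hBe hCn]
    exact Cfsg.Agent.Helper77.sbc_orbitUnion_top_eq_sum hMm hCn hPe.2 hT g

end Cfsg.Agent.S4654
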