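import Cfsg.Statements.S4660
import Cfsg.Agent.Helper77.PairConj

set_option autoImplicit false
open Cfsg

namespace Cfsg.Agent.S4660

/-- Fix a prime p and a maximal ideal M of the algebraic integers containing p. Let (P, e) be a maximal Brauer pair of the p-block B of the finite group G and (Q, f) any Brauer pair of B. Then some conjugate of (Q, f) lies below (P, e): there is x in G such that (x Q x⁻¹, conjugate of f by x) ≤ (P, e). -/
theorem result {G : Type*} [Group G] [Fintype G] (p : ℕ) [Fact p.Prime] (M : Ideal Cfsg.AlgInt) (hM : Cfsg.IsPModular p M) (B : Set (Cfsg.IrrCharacter G)) (P Q : Subgroup G) (e : Set (Cfsg.IrrCharacter (Subgroup.centralizer (P : Set G)))) (f : Set (Cfsg.IrrCharacter (Subgroup.centralizer (Q : Set G)))) (hmax : Cfsg.IsMaximalBrauerPair p M B P e) (hQf : Cfsg.IsBrauerPairOf p M B Q f) : ∃ x : G, Cfsg.SubpairLE p M (Q.map (MulAut.conj x).toMonoidHom) (Cfsg.conjBlock Q x f) P e := by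
  exact Cfsg.Agent.Helper77.exists_subpairLE_conj_of_isMaximalBrauerPair hM B P Q e f hmax hQf

end Cfsg.Agent.S4660
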