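import Cfsg.Statements.S4664
import Cfsg.Agent.Helper77.CycBlock

set_option autoImplicit false
open Cfsg

namespace Cfsg.Agent.S4664

/-- Fix a prime p and a maximal ideal M of the algebraic integers containing p, and let B be a p-block of the finite group G. Let m be the p'-part of the order of G and η = exp(2πi/m). Then every coefficient of the idempotent of B lies in the cyclotomic field ℚ(η). -/
theorem result {G : Type*} [Group G] [Fintype G] (p : ℕ) [Fact p.Prime] (M : Ideal Cfsg.AlgInt) (hM : Cfsg.IsPModular p M) (B : Set (Cfsg.IrrCharacter G)) (hB : Cfsg.IsPBlock M B) (g : G) : Cfsg.blockCoeff B g ∈ IntermediateField.adjoin ℚ ({Complex.exp (2 * Real.pi * Complex.I / ((Nat.card G / p ^ (Nat.card G).factorization p : ℕ) : ℂ))} : Set ℂ) := by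
  exact Cfsg.Agent.Helper77.blockCoeff_mem_adjoin_exp p M hM B hB g

end Cfsg.Agent.S4664
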