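import Cfsg.Statements.S4665
import Mathlib.Analysis.Complex.Polynomial.Basic
import Mathlib.GroupTheory.Sylow
import Mathlib.LinearAlgebra.Dimension.Finite
-- import your own Cfsg.Agent.* helpers here

set_option autoImplicit false
open Cfsg

namespace Cfsg.Agent.S4665

open Representation in
/-- The pairing `∑ g, χ g * ψ g⁻¹` of two irreducible characters is `|G|` or `0` according as
they are equal or not. -/
theorem pairing_irr {G : Type*} [Group G] [Fintype G] (χ ψ : Cfsg.IrrCharacter G) :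
    ∑ g : G, (χ : G → ℂ) g * (ψ : G → ℂ) g⁻¹ = if χ = ψ then (Nat.card G : ℂ) else 0 := by
  classical
  obtain ⟨n, ρ, hρ, hχ⟩ := χ.2
  obtain ⟨m, σ, hσ, hψ⟩ := ψ.2
  have hcard : (Nat.card G : ℂ) ≠ 0 := by
    simp [Nat.card_eq_fintype_card]
  have : Invertible (Nat.card G : ℂ) := invertibleOfNonzero hcard
  by_cases h : χ = ψ
  · subst h
    have h1 := char_orthonormal ρ ρ
    rw [if_pos ⟨Representation.Equiv.refl ρ⟩] at h1
    rw [if_pos rfl, ← hχ]
    field_simp at h1
    simpa using h1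
  · have h1 := char_orthonormal ρ σ
    have hne : ¬ Nonempty (Representation.Equiv σ ρ) := by
      rintro ⟨e⟩
      apply h
      apply Subtype.ext
      rw [← hχ, ← hψ]
      exact (char_iso e).symm
    rw [if_neg hne] at h1
    rw [if_neg h, ← hχ, ← hψ]
    have := mul_eq_zero.mp h1
    rcases this with h2 | h2
    · exact absurd (inv_eq_zero.mp h2) hcard
    · exact h2

/-- The irreducible characters are linearly independent. -/
theorem linearIndependent_irr {G : Type*} [Group G] [Fintype G] :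
    LinearIndependent ℂ (fun χ : Cfsg.IrrCharacter G => (χ : G → ℂ)) := by
  classical
  rw [linearIndependent_iff']
  intro s c hc χ hχ
  have hcard : (Nat.card G : ℂ) ≠ 0 := by
    simp [Nat.card_eq_fintype_card]
  have h1 : ∑ g : G, (∑ ψ ∈ s, c ψ • (ψ : G → ℂ)) g * (χ : G → ℂ) g⁻¹ = 0 := by
    rw [hc]; simp
  have h2 : ∑ g : G, (∑ ψ ∈ s, c ψ • (ψ : G → ℂ)) g * (χ : G → ℂ) g⁻¹
      = ∑ ψ ∈ s, c ψ * ∑ g : G, (ψ : G → ℂ) g * (χ : G → ℂ) g⁻¹ := by
    simp only [Finset.sum_apply, Pi.smul_apply, smul_eq_mul, Finset.sum_mul, Finset.mul_sum]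
    rw [Finset.sum_comm]
    refine Finset.sum_congr rfl fun ψ _ => Finset.sum_congr rfl fun g _ => by ring
  rw [h2] at h1
  simp only [pairing_irr] at h1
  rw [Finset.sum_eq_single χ] at h1
  · simpa [hcard] using h1
  · intro ψ _ hne; simp [hne]
  · intro h; exact absurd hχ h

/-- A finite group has finitely many irreducible characters. -/
theorem finite_irr {G : Type*} [Group G] [Fintype G] : Finite (Cfsg.IrrCharacter G) :=
  LinearIndependent.finite (linearIndependent_irr (G := G))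

open Representation in
/-- The sum of an irreducible character over a subgroup is a natural multiple of the order of
the subgroup. -/
theorem sum_subgroup_irr {G : Type*} [Group G] [Fintype G] (P : Subgroup G) [Fintype P]
    (ψ : Cfsg.IrrCharacter G) :
    ∃ m : ℕ, ∑ x : P, (ψ : G → ℂ) x = (Nat.card P : ℂ) * m := by
  classical
  obtain ⟨n, ρ, -, hψ⟩ := ψ.2
  let σ : Representation ℂ P (Fin n → ℂ) := ρ.comp P.subtype
  have hcard : (Nat.card P : ℂ) ≠ 0 := by
    simp [Nat.card_eq_fintype_card]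
  have : Invertible (Nat.card P : ℂ) := invertibleOfNonzero hcard
  have h1 := card_inv_mul_sum_char_eq_finrank σ
  refine ⟨Module.finrank ℂ (invariants σ), ?_⟩
  rw [← h1, ← mul_assoc, mul_inv_cancel₀ hcard, one_mul]
  refine Finset.sum_congr rfl fun x _ => ?_
  rw [← hψ]
  rfl

theorem result {G : Type*} [Group G] [Fintype G] (p : ℕ) [Fact p.Prime] (M : Ideal Cfsg.AlgInt) (hM : Cfsg.IsPModular p M) (B : Set (Cfsg.IrrCharacter G)) (hB : Cfsg.IsPBlock M B) (χ : G → ℂ) (hχ : (∃ n : Cfsg.IrrCharacter G → ℤ, ∀ g : G, χ g = ∑ᶠ ψ ∈ B, (n ψ : ℂ) * (ψ : G → ℂ) g)) (h0 : (∃ n : Cfsg.IrrCharacter G → ℤ, ∀ g : G, Cfsg.pRegularPart p χ g = ∑ᶠ ψ ∈ B, (n ψ : ℂ) * (ψ : G → ℂ) g)) : ∃ k : ℤ, χ 1 = (p ^ (Nat.card G).factorization p : ℂ) * k := by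
  classical
  have _ := hM
  have _ := hB
  have _ := hχ
  have hp : p.Prime := Fact.out
  obtain ⟨n, hn⟩ := h0
  have : Finite (Cfsg.IrrCharacter G) := finite_irr
  have hBfin : B.Finite := Set.toFinite B
  -- a Sylow `p`-subgroup
  obtain ⟨P⟩ : Nonempty (Sylow p G) := inferInstance
  let _ : Fintype (P : Subgroup G) := Fintype.ofFinite _
  have hPcard : Nat.card (P : Subgroup G) = p ^ (Nat.card G).factorization p :=
    Sylow.card_eq_multiplicity P
  -- the sum of the `p`-regular part over `P` is `χ 1`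
  have hsum1 : ∑ x : (P : Subgroup G), Cfsg.pRegularPart p χ x = χ 1 := by
    rw [Finset.sum_eq_single (1 : (P : Subgroup G))]
    · have : Cfsg.IsPRegular p (1 : G) := by
        unfold Cfsg.IsPRegular
        rw [orderOf_one]
        exact hp.not_dvd_one
      simp [Cfsg.pRegularPart, this]
    · intro x _ hx
      have hx1 : (x : G) ≠ 1 := fun h => hx (Subtype.ext h)
      have : ¬ Cfsg.IsPRegular p (x : G) := by
        unfold Cfsg.IsPRegular
        rw [not_not]
        have hx' : x ≠ 1 := hx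
        have := IsPGroup.dvd_orderOf P.isPGroup' hx'
        rwa [Subgroup.orderOf_coe]
      simp [Cfsg.pRegularPart, this]
    · intro h; exact absurd (Finset.mem_univ _) h
  -- the other computation
  choose m hm using fun ψ : Cfsg.IrrCharacter G => sum_subgroup_irr (P : Subgroup G) ψ
  have hsum2 : ∑ x : (P : Subgroup G), Cfsg.pRegularPart p χ x
      = (Nat.card (P : Subgroup G) : ℂ) * ((∑ ψ ∈ hBfin.toFinset, n ψ * (m ψ : ℤ) : ℤ) : ℂ) := by
    have : ∀ x : (P : Subgroup G), Cfsg.pRegularPart p χ x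
        = ∑ ψ ∈ hBfin.toFinset, (n ψ : ℂ) * (ψ : G → ℂ) x := by
      intro x
      rw [hn, finsum_mem_eq_finite_toFinset_sum _ hBfin]
    simp only [this]
    rw [Finset.sum_comm]
    push_cast
    rw [Finset.mul_sum]
    refine Finset.sum_congr rfl fun ψ _ => ?_
    rw [← Finset.mul_sum, hm ψ]
    ring
  rw [hsum1, hPcard] at hsum2
  refine ⟨∑ ψ ∈ hBfin.toFinset, n ψ * (m ψ : ℤ), ?_⟩
  rw [hsum2]
  push_cast
  ring

end Cfsg.Agent.S4665
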