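import Cfsg.Statements.S4666
import Cfsg.Agent.Helper73.BlockSpan

set_option autoImplicit false
open Cfsg

namespace Cfsg.Agent.S4666

/-- Fix a prime p and a maximal ideal M of the algebraic integers containing p, and a p-block B of the finite group G of defect d. For every integer combination χ of the irreducible characters in B, p^d times the function that agrees with χ on p-regular elements and vanishes elsewhere is again an integer combination of the irreducible characters in B. -/
theorem result {G : Type*} [Group G] [Fintype G] (p : ℕ) [Fact p.Prime] (M : Ideal Cfsg.AlgInt) (hM : Cfsg.IsPModular p M) (B : Set (Cfsg.IrrCharacter G)) (hB : Cfsg.IsPBlock M B) (χ : G → ℂ) (hχ : (∃ n : Cfsg.IrrCharacter G → ℤ, ∀ g : G, χ g = ∑ᶠ ψ ∈ B, (n ψ : ℂ) * (ψ : G → ℂ) g)) : (∃ n : Cfsg.IrrCharacter G → ℤ, ∀ g : G, (p ^ Cfsg.blockDefect p B : ℂ) * Cfsg.pRegularPart p χ g = ∑ᶠ ψ ∈ B, (n ψ : ℂ) * (ψ : G → ℂ) g) := by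
  classical
  have : Fintype (Cfsg.IrrCharacter G) := Fintype.ofFinite _
  have hp : p.Prime := Fact.out
  obtain ⟨n, hn⟩ := hχ
  rw [← Cfsg.Agent.Helper73.mem_blockSpanZ_iff_exists]
  have hΘ : (fun g : G => (p ^ Cfsg.blockDefect p B : ℂ) * Cfsg.pRegularPart p χ g) =
      ∑ ψ : Cfsg.IrrCharacter G, if ψ ∈ B then n ψ • (fun g : G =>
        (p ^ Cfsg.blockDefect p B : ℂ) * Cfsg.pRegularPart p (ψ : G → ℂ) g) else 0 := by
    funext g
    rw [Finset.sum_apply, Cfsg.Agent.Helper77.pRegularPart_apply]
    by_cases hd : p ∣ orderOf g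
    · simp only [hd, not_true_eq_false, if_false, mul_zero]
      symm
      apply Finset.sum_eq_zero
      intro ψ _
      by_cases hψ : ψ ∈ B
      · rw [if_pos hψ, Pi.smul_apply, Cfsg.Agent.Helper77.pRegularPart_apply]
        simp [hd]
      · rw [if_neg hψ]
        rfl
    · simp only [hd, not_false_eq_true, if_true]
      rw [hn g, finsum_mem_def, finsum_eq_sum_of_fintype, Finset.mul_sum]
      refine Finset.sum_congr rfl ?_
      intro ψ _
      by_cases hψ : ψ ∈ B
      · rw [Set.indicator_of_mem hψ, if_pos hψ, Pi.smul_apply,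
          Cfsg.Agent.Helper77.pRegularPart_apply]
        simp only [hd, not_false_eq_true, if_true, zsmul_eq_mul]
        ring
      · rw [Set.indicator_of_notMem hψ, if_neg hψ]
        simp
  rw [hΘ]
  apply Submodule.sum_mem
  intro ψ _
  by_cases hψ : ψ ∈ B
  · rw [if_pos hψ]
    apply Submodule.smul_mem
    apply Cfsg.Agent.Helper73.pRegular_mem_blockSpanZ hp hM hB hψ
    · intro x hx
      rw [Cfsg.Agent.Helper77.pRegularPart_apply]
      simp only [hx, not_false_eq_true, if_true]
    · intro x hx
      rw [Cfsg.Agent.Helper77.pRegularPart_apply]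
      simp [hx]
  · rw [if_neg hψ]
    exact Submodule.zero_mem _

end Cfsg.Agent.S4666
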