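import Cfsg.Statements.S4668
import Cfsg.Agent.Helper77.ChainSupport

set_option autoImplicit false
open Cfsg

namespace Cfsg.Agent.S4668

/-- Fix a prime p and a maximal ideal M of the algebraic integers containing p. Let Q₀ < Q₁ < ⋯ < Q_m be a strictly increasing chain of p-subgroups of the finite group G and N the intersection of their normalizers. Then every block idempotent of N is supported on C_G(Q_m): for every p-block E of N, the idempotent coefficient of E vanishes at every element of N outside C_G(Q_m). -/
theorem result {G : Type*} [Group G] [Fintype G] (p : ℕ) [Fact p.Prime] (M : Ideal Cfsg.AlgInt) (hM : Cfsg.IsPModular p M) (m : ℕ) (Q : Fin (m + 1) → Subgroup G) (hQ : StrictMono Q) (hQp : ∀ i, IsPGroup p (Q i)) (N : Subgroup G) (hN : ∀ g : G, g ∈ N ↔ ∀ i, g ∈ Subgroup.normalizer (Q i : Set G)) (E : Set (Cfsg.IrrCharacter N)) (hE : Cfsg.IsPBlock M E) (n : N) (hn : (n : G) ∉ Subgroup.centralizer (Q (Fin.last m) : Set G)) : Cfsg.blockCoeff E n = 0 := by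
  exact Cfsg.Agent.Helper77.blockCoeff_chain_normalizer p M hM m Q hQ hQp N hN E hE n hn

end Cfsg.Agent.S4668
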