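import Cfsg.Statements.S4674
import Cfsg.Agent.Helper73.HKUnique

set_option autoImplicit false
open Cfsg

namespace Cfsg.Agent.S4674

/-- Fix a prime p and a maximal ideal M of the algebraic integers containing p. Let N be a normal subgroup of the finite group G, Q a p-subgroup of N, H = N_G(Q) and L = H ∩ N = N_N(Q). Let d be a p-block of N with defect group Q and e the p-block of L with defect group Q that induces d inside N (its Brauer correspondent). Then block induction from H to G is a bijection from the p-blocks of H covering e onto the p-blocks of G covering d: every block of H covering e induces exactly one block of G, and that block covers d; and every block of G covering d is induced by exactly one block of H covering e. -/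
theorem result {G : Type*} [Group G] [Fintype G] (p : ℕ) [Fact p.Prime] (M : Ideal Cfsg.AlgInt) (hM : Cfsg.IsPModular p M) (N : Subgroup G) [N.Normal] [Fintype N] (Q : Subgroup G) (hQ : IsPGroup p Q) (hQN : Q ≤ N) [Fintype ↥(Subgroup.normalizer (Q : Set G) ⊓ N)] (d : Set (Cfsg.IrrCharacter N)) (hd : Cfsg.IsPBlock M d) (hdQ : Cfsg.IsDefectGroup p M d (Q.subgroupOf N)) (e : Set (Cfsg.IrrCharacter ↥(Subgroup.normalizer (Q : Set G) ⊓ N))) (he : Cfsg.IsPBlock M e) (heQ : Cfsg.IsDefectGroup p M e (Q.subgroupOf (Subgroup.normalizer (Q : Set G) ⊓ N))) (hed : Cfsg.IsInducedBlockIn M N (Subgroup.normalizer (Q : Set G) ⊓ N) e d) : (∀ c : Set (Cfsg.IrrCharacter ↥(Subgroup.normalizer (Q : Set G))), Cfsg.IsPBlock M c → (∃ ψ ∈ c, ∃ ξ ∈ e, Cfsg.classInner (fun l : ↥(Subgroup.normalizer (Q : Set G) ⊓ N) => (ψ : ↥(Subgroup.normalizer (Q : Set G)) → ℂ) (Subgroup.inclusion inf_le_left l)) (ξ : ↥(Subgroup.normalizer (Q : Set G) ⊓ N) →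 ℂ) ≠ 0) → ∃! B : Set (Cfsg.IrrCharacter G), Cfsg.IsInducedBlock M (Subgroup.normalizer (Q : Set G)) c B ∧ (∃ χ ∈ B, ∃ θ ∈ d, Cfsg.classInner (fun n : N => (χ : G → ℂ) n) (θ : N → ℂ) ≠ 0)) ∧ (∀ B : Set (Cfsg.IrrCharacter G), Cfsg.IsPBlock M B → (∃ χ ∈ B, ∃ θ ∈ d, Cfsg.classInner (fun n : N => (χ : G → ℂ) n) (θ : N → ℂ) ≠ 0) → ∃! c : Set (Cfsg.IrrCharacter ↥(Subgroup.normalizer (Q : Set G))), (Cfsg.IsPBlock M c ∧ ∃ ψ ∈ c, ∃ ξ ∈ e, Cfsg.classInner (fun l : ↥(Subgroup.normalizer (Q : Set G) ⊓ N) => (ψ : ↥(Subgroup.normalizer (Q : Set G)) → ℂ) (Subgroup.inclusion inf_le_left l)) (ξ : ↥(Subgroup.normalizer (Q : Set G) ⊓ N) → ℂ) ≠ 0) ∧ Cfsg.IsInducedBlock M (Subgroup.normalizer (Q : Set G)) c B) := by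
  classical
  have : Fintype ↥(Subgroup.normalizer (Q : Set G)) := Fintype.ofFinite _
  have hMm := hM.2.1
  refine ⟨?_, ?_⟩
  · intro c hc hcov
    obtain ⟨B, hind⟩ := Helper16.exists_isInducedBlock hM Q (Subgroup.normalizer (Q : Set G)) hQ
      Subgroup.le_normalizer (Subgroup.centralizer_le_normalizer _) le_rfl hc
    have hcovB : ∃ χ ∈ B, ∃ θ ∈ d,
        Cfsg.classInner (fun n : N => (χ : G → ℂ) n) (θ : N → ℂ) ≠ 0 := by
      obtain ⟨χ, hχ⟩ := Helper16.exists_mem_of_isPBlock hMm hind.2.1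
      obtain ⟨θ, hθ, hne⟩ := Helper73.hk_cover_of_induced hMm N (Subgroup.normalizer (Q : Set G))
        (Subgroup.normalizer (Q : Set G) ⊓ N) inf_le_left inf_le_right
        (fun h hh hn => ⟨hh, hn⟩) hind hed hcov χ hχ
      exact ⟨χ, hχ, θ, hθ, hne⟩
    refine ⟨B, ⟨hind, hcovB⟩, ?_⟩
    rintro B' ⟨hind', -⟩
    exact Helper73.hk_induced_unique hMm _ hind' hind
  · intro B hB hcov
    obtain ⟨P, hP, hPN⟩ := Helper79.knorr_exists N hM hd hB hcov hQN hdQ
    have hQP : Q ≤ P := by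
      rw [← hPN]
      exact inf_le_left
    obtain ⟨c₀, hind₀⟩ := Helper16.exists_isInducedBlock_of_conjLE hM Q
      (Subgroup.normalizer (Q : Set G)) hQ Subgroup.le_normalizer
      (Subgroup.centralizer_le_normalizer _) le_rfl hB hP (Helper16.ConjLE.of_le hQP)
    have hcov₀ : ∃ ψ ∈ c₀, ∃ ξ ∈ e, Cfsg.classInner
        (fun l : ↥(Subgroup.normalizer (Q : Set G) ⊓ N) =>
          (ψ : ↥(Subgroup.normalizer (Q : Set G)) → ℂ) (Subgroup.inclusion inf_le_left l))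
        (ξ : ↥(Subgroup.normalizer (Q : Set G) ⊓ N) → ℂ) ≠ 0 := by
      obtain ⟨ψ, hψ⟩ := Helper16.exists_mem_of_isPBlock hMm hind₀.1
      obtain ⟨ξ, hξ, hne⟩ := Helper73.hk_cover_e hM N Q hQ hQN hdQ heQ hed hB hcov hind₀ ψ hψ
      exact ⟨ψ, hψ, ξ, hξ, hne⟩
    refine ⟨c₀, ⟨⟨hind₀.1, hcov₀⟩, hind₀⟩, ?_⟩
    rintro c' ⟨⟨hc', hcov'⟩, hind'⟩
    exact Helper73.hk_unique hM N Q hQN he heQ hcov₀ hcov' hind₀ hind'

end Cfsg.Agent.S4674
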