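import Cfsg.Statements.S4676
import Cfsg.Agent.Helper73.BrauerFeit

set_option autoImplicit false
open Cfsg

namespace Cfsg.Agent.S4676

/-- Fix a prime p and a maximal ideal M of the algebraic integers containing p. Let B be a p-block of the finite group G with defect group P. For χ in B, let the height of χ be the exponent of p in the degree of χ minus the least such exponent over the members of B. Then the sum over χ in B of p raised to twice the height of χ is at most the integer part of (order of P)²/4, plus 1; in particular B has at most that many irreducible characters. -/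
theorem result {G : Type*} [Group G] [Fintype G] (p : ℕ) [Fact p.Prime] (M : Ideal Cfsg.AlgInt) (hM : Cfsg.IsPModular p M) (B : Set (Cfsg.IrrCharacter G)) (hB : Cfsg.IsPBlock M B) (P : Subgroup G) (hP : Cfsg.IsDefectGroup p M B P) : ∑ᶠ χ ∈ B, p ^ (2 * Cfsg.blockHeight p B (χ : G → ℂ)) ≤ Nat.card P ^ 2 / 4 + 1 := by
  classical
  have := Fintype.ofFinite (Cfsg.IrrCharacter G)
  have hsum : ∑ᶠ χ ∈ B, p ^ (2 * Cfsg.blockHeight p B (χ : G → ℂ))
      = ∑ χ ∈ Finset.univ.filter (fun ψ : Cfsg.IrrCharacter G => ψ ∈ B),
          p ^ (2 * Cfsg.blockHeight p B (χ : G → ℂ)) := by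
    rw [finsum_mem_def, finsum_eq_sum_of_fintype, Finset.sum_filter]
    refine Finset.sum_congr rfl fun χ _ => ?_
    by_cases h : χ ∈ B
    · rw [Set.indicator_of_mem h, if_pos h]
    · rw [Set.indicator_of_notMem h, if_neg h]
  have hcard := Cfsg.Agent.Helper77.card_of_isDefectGroup hM hB hP
  rw [hsum, hcard, ← pow_mul, mul_comm (Cfsg.blockDefect p B) 2]
  exact Cfsg.Agent.Helper73.brauer_feit_weighted hM hB

end Cfsg.Agent.S4676
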