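import Cfsg.Statements.S4691
import Cfsg.Agent.Helper75.NilpPrincipal2

set_option autoImplicit false
open Cfsg

namespace Cfsg.Agent.S4691

/-- Fix a prime p and a maximal ideal M of the algebraic integers containing p. A finite group G has a normal p-complement if and only if its principal p-block is nilpotent. -/
theorem result {G : Type*} [Group G] [Fintype G] (p : ℕ) [Fact p.Prime] (M : Ideal Cfsg.AlgInt) (hM : Cfsg.IsPModular p M) : Cfsg.HasNormalPComplement p G ↔ Cfsg.IsNilpotentBlock p M (Cfsg.principalBlock M G) := by
  exact Cfsg.Agent.Helper75.hasNormalPComplement_iff_nilpotent_principal hM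

end Cfsg.Agent.S4691
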