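import Cfsg.Statements.S4694
import Cfsg.Agent.Helper78.Weight2
import Cfsg.Agent.Helper78.KerInd

set_option autoImplicit false
open Cfsg

namespace Cfsg.Agent.S4694

/-- Fix a prime p and a maximal ideal M of the algebraic integers containing p, a p-block B of the finite group G and a Brauer pair (Q, e) of B. Let T be the stabilizer of e in N_G(Q) and suppose that (Q, e) carries a weight: the block of T whose idempotent is that of e contains an irreducible character χ that is constant on the cosets of Q and whose degree has p-part equal to the p-part of the index of Q in T. Then Z(Q) is a defect group of e as a block of C_G(Q), and Q is the largest normal p-subgroup of T: every p-subgroup of T normalized by T lies in Q. -/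
theorem result {G : Type*} [Group G] [Fintype G] (p : ℕ) [Fact p.Prime] (M : Ideal Cfsg.AlgInt) (hM : Cfsg.IsPModular p M) (B : Set (Cfsg.IrrCharacter G)) (Q : Subgroup G) (e : Set (Cfsg.IrrCharacter (Subgroup.centralizer (Q : Set G)))) (hQe : Cfsg.IsBrauerPairOf p M B Q e) (T : Subgroup G) (hT : ∀ y : G, y ∈ T ↔ y ∈ Subgroup.normalizer (Q : Set G) ∧ Cfsg.StabilizesBlock (Subgroup.centralizer (Q : Set G)) e y) (F' : Set (Cfsg.IrrCharacter T)) (hF' : Cfsg.IsPBlock M F') (hF'e : ∀ t : T, Cfsg.blockCoeff F' t = Cfsg.subgroupBlockCoeff (Subgroup.centralizer (Q : Set G)) e (t : G)) (χ : Cfsg.IrrCharacter T) (hχ : χ ∈ F') (hχQ : ∀ q : G, q ∈ Q → ∀ t : T, ∀ t' : T, (t' : G) = q * (t : G) → (χ : T → ℂ) t' = (χ : T → ℂ) t) (hdeg : (Cfsg.charDegree (χ : T → ℂ)).factorization p + (Nat.card Q).factorization p = (Nat.card T).factorization p) : Cfsg.IsDefectGroup p M e ((Q ⊓ Subgroup.centralizer (Q : Set G)).subgroupOf (Subgroup.centralizer (Q : Set G))) ∧ ∀ R : Subgroup G, R ≤ T → IsPGroup p R → (∀ t ∈ T, t ∈ Subgroup.normalizer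 (R : Set G)) → R ≤ Q := by
  classical
  have hQp : IsPGroup p Q := hQe.1.1
  have he : Cfsg.IsPBlock M e := hQe.1.2
  have hTQ : T ≤ Subgroup.normalizer (Q : Set G) := fun t ht => ((hT t).mp ht).1
  have hTC : T ≤ Subgroup.normalizer ((Subgroup.centralizer (Q : Set G) : Subgroup G) : Set G) :=
    fun t ht => ((hT t).mp ht).2.1
  have hcomm : ∀ q ∈ Q, ∀ c ∈ Subgroup.centralizer (Q : Set G), q * c = c * q :=
    fun q hq c hc => Subgroup.mem_centralizer_iff.mp hc q hq
  have hQT : Q ≤ T := by
    intro q hq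
    have hqn : q ∈ Subgroup.normalizer (Q : Set G) := Subgroup.le_normalizer hq
    rw [hT]
    refine ⟨hqn, ?_, ?_⟩
    · rw [Subgroup.mem_normalizer_iff]
      intro h
      constructor
      · intro hh
        exact Helper78.conj_mem_centralizer_of_mem_normalizer Q hqn hh
      · intro hh
        have h1 := Helper78.conj_mem_centralizer_of_mem_normalizer Q
          ((Subgroup.normalizer (Q : Set G)).inv_mem hqn) hh
        have h2 : q⁻¹ * (q * h * q⁻¹) * q⁻¹⁻¹ = h := by group
        rwa [h2] at h1
    · intro ψ hψ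
      refine ⟨ψ, hψ, ?_⟩
      intro k k' hkk'
      refine congrArg (ψ : ↥(Subgroup.centralizer (Q : Set G)) → ℂ) (Subtype.ext ?_)
      rw [hkk', hcomm q hq (k : G) k.2]
      group
  have hCT : Subgroup.centralizer (Q : Set G) ≤ T := by
    intro c hc
    rw [hT]
    refine ⟨Subgroup.centralizer_le_normalizer (Q : Set G) hc, Subgroup.le_normalizer hc, ?_⟩
    · intro ψ hψ
      refine ⟨ψ, hψ, ?_⟩
      intro k k' hkk'
      have h1 := Helper81.irr_isClassFunction ψ k (⟨c, hc⟩ : ↥(Subgroup.centralizer (Q : Set G)))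
      rw [← h1]
      exact congrArg (ψ : ↥(Subgroup.centralizer (Q : Set G)) → ℂ) (Subtype.ext hkk')
  exact Helper78.weight_core hM Q (Subgroup.centralizer (Q : Set G)) T hQp hQT hCT hTQ hTC hcomm e he
    F' hF'e χ hχ hχQ hdeg

end Cfsg.Agent.S4694
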