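import Cfsg.Statements.S4699
import Cfsg.Agent.Helper67.TICyclic

set_option autoImplicit false
open Cfsg

namespace Cfsg.Agent.S4699

/-- Let p be a prime and G a finite group whose Sylow p-subgroup P is cyclic of order p^n with n ≥ 2 and meets every other Sylow p-subgroup trivially. Then every faithful irreducible representation of G on a finite-dimensional space over a finite field of characteristic p has dimension at least p^n − (p − 1). -/
theorem result {G : Type*} [Group G] [Finite G] (p : ℕ) [Fact p.Prime] (P : Sylow p G) (hcyc : IsCyclic P) (n : ℕ) (hn : 2 ≤ n) (hPn : Nat.card P = p ^ n) (hTI : ∀ Q : Sylow p G, Q ≠ P → (P : Subgroup G) ⊓ (Q : Subgroup G) = ⊥) (F : Type*) [Field F] [Finite F] [CharP F p] (V : Type*) [AddCommGroup V] [Module F V] [FiniteDimensional F V] (ρ : Representation F G V) (hfaith : Function.Injective ρ) (hirr : ρ.IsIrreducible) : p ^ n - (p - 1) ≤ Module.finrank F V := by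
  classical
  have hp : p.Prime := Fact.out
  obtain ⟨g, hg⟩ := IsCyclic.exists_monoid_generator (α := (P : Subgroup G))
  set x : G := (g : G) with hx
  have hxP : x ∈ (P : Subgroup G) := g.2
  have hgen : ∀ u ∈ (P : Subgroup G), ∃ i : ℕ, u = x ^ i := by
    intro u hu
    obtain ⟨i, hi⟩ := hg ⟨u, hu⟩
    refine ⟨i, ?_⟩
    have := congrArg Subtype.val hi
    simpa using this.symm
  have hPz : (P : Subgroup G) = Subgroup.zpowers x :=
    le_antisymm (fun u hu => by
      obtain ⟨i, rfl⟩ := hgen u hu
      exact Subgroup.npow_mem_zpowers x i) ((Subgroup.zpowers_le).2 hxP)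
  have hord : orderOf x = p ^ n := by
    have h : Nat.card (P : Subgroup G) = p ^ n := hPn
    rw [hPz, Nat.card_zpowers] at h
    exact h
  have hle : p ≤ p ^ (n - 1) := by
    calc p = p ^ 1 := (pow_one p).symm
      _ ≤ p ^ (n - 1) := Nat.pow_le_pow_right hp.pos (by omega)
  have hlt : p ^ (n - 1) < p ^ n := Nat.pow_lt_pow_right hp.one_lt (by omega)
  -- t ^ (p^(n-1)) ≠ 0
  have h0 : (ρ x - 1) ^ (p ^ (n - 1)) ≠ 0 := by
    intro h
    rw [Cfsg.Agent.Helper67.tic_sub_one_pow (F := F) p (ρ x) (n - 1), sub_eq_zero,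
      ← map_pow, ← map_one ρ] at h
    have h2 := hfaith h
    have h3 := orderOf_dvd_of_pow_eq_one h2
    rw [hord] at h3
    have := Nat.le_of_dvd (pow_pos hp.pos _) h3
    omega
  have h1 : (ρ x - 1) ^ (p - 1) ≠ 0 := by
    intro h
    apply h0
    have : p ^ (n - 1) = (p - 1) + (p ^ (n - 1) - (p - 1)) := by omega
    rw [this, pow_add, h, zero_mul]
  have h2 := Cfsg.Agent.Helper67.tic_pow_ne_zero p P x hxP hgen n hPn hTI ρ hirr h1
  -- nilpotent
  have hnil : IsNilpotent (ρ x - 1) := by
    refine ⟨p ^ n, ?_⟩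
    rw [Cfsg.Agent.Helper67.tic_sub_one_pow (F := F) p (ρ x) n, sub_eq_zero,
      ← map_pow, ← hord, pow_orderOf_eq_one, map_one]
  have hfin : (ρ x - 1) ^ (Module.finrank F V) = 0 := by
    have h3 := IsNilpotent.charpoly_eq_X_pow_finrank hnil
    have h4 := LinearMap.aeval_self_charpoly (ρ x - 1)
    rw [h3] at h4
    simpa using h4
  by_contra hcon
  apply h2
  have : p ^ n - p = Module.finrank F V + (p ^ n - p - Module.finrank F V) := by omega
  rw [this, pow_add, hfin, zero_mul]

end Cfsg.Agent.S4699
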