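import Cfsg.Statements.S4700
import Cfsg.Agent.Helper79.BRXCore
import Cfsg.Agent.Helper53.BRXQS
import Cfsg.Agent.Helper37.BRXPS
import Cfsg.Agent.Helper61.BRXNF1
import Cfsg.Agent.Helper24.PLen2

set_option autoImplicit false
open Cfsg

namespace Cfsg.Agent.S4700

/-- Let G be a finite perfect group and p a prime such that a Sylow p-subgroup of G has order p, and write the number of Sylow p-subgroups as 1 + np. Let H = O_p'(G). Then either p > 3 and G/H is isomorphic to PSL(2, p); or p = 2^m + 1 > 3 and G/H is isomorphic to SL(2, 2^m); or n = (hup + u^2 + u + h)/(u + 1) for some positive integers h and u. -/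
theorem result {G : Type*} [Group G] [Finite G] (hperf : commutator G = ⊤) (p : ℕ) [Fact p.Prime] (P : Sylow p G) (hP : Nat.card P = p) (n : ℕ) (hn : Nat.card (Sylow p G) = 1 + n * p) : (∃ (F : Type) (_ : Field F) (_ : Fintype F), Fintype.card F = p ∧ 3 < p ∧ Nonempty (G ⧸ Cfsg.pPrimeCore p G ≃* Matrix.ProjectiveSpecialLinearGroup (Fin 2) F)) ∨ (∃ (m : ℕ) (F : Type) (_ : Field F) (_ : Fintype F), Fintype.card F = 2 ^ m ∧ p = 2 ^ m + 1 ∧ 3 < p ∧ Nonempty (G ⧸ Cfsg.pPrimeCore p G ≃* Matrix.SpecialLinearGroup (Fin 2) F)) ∨ (∃ h u : ℕ, 0 < h ∧ 0 < u ∧ n * (u + 1) = h * u * p + u ^ 2 + u + h) := by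
  classical
  by_cases hF : ∃ h u : ℕ, 0 < h ∧ 0 < u ∧ n * (u + 1) = h * u * p + u ^ 2 + u + h
  · exact Or.inr (Or.inr hF)
  have hnF : ∀ h u : ℕ, 0 < h → 0 < u → n * (u + 1) ≠ h * u * p + u ^ 2 + u + h :=
    fun h u hh hu he => hF ⟨h, u, hh, hu, he⟩
  have hpp : p.Prime := Fact.out
  have hKcop : (Nat.card (Cfsg.pPrimeCore p G)).Coprime p :=
    Cfsg.Agent.Helper24.coprime_card_pPrimeCore p
  obtain ⟨Q, hQ, hdvd⟩ := Cfsg.Agent.Helper53.brn_quot_sylow P hP (Cfsg.pPrimeCore p G) hKcop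
  have hperf' : commutator (G ⧸ Cfsg.pPrimeCore p G) = ⊤ := by
    have h1 : (commutator G).map (QuotientGroup.mk' (Cfsg.pPrimeCore p G))
        = commutator (G ⧸ Cfsg.pPrimeCore p G) := by
      rw [commutator_def, commutator_def, Subgroup.map_commutator, ← MonoidHom.range_eq_map,
        MonoidHom.range_eq_top.mpr (QuotientGroup.mk'_surjective _)]
    rw [← h1, hperf, ← MonoidHom.range_eq_map,
      MonoidHom.range_eq_top.mpr (QuotientGroup.mk'_surjective _)]
  haveI : Fintype (G ⧸ Cfsg.pPrimeCore p G) := Fintype.ofFinite _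
  have hOp : ∀ D : Subgroup (G ⧸ Cfsg.pPrimeCore p G), D.Normal → (Nat.card D).Coprime p →
      D = ⊥ := fun D hD hc =>
    Cfsg.Agent.Helper24.eq_bot_of_normal_coprime_quotient_pPrimeCore p D hD hc
  obtain ⟨-, q, n', v, -, -, -, hn', -, hSyl', -, -⟩ := Cfsg.Agent.Helper79.brn_setup hperf' p Q hQ
  have hn'n : n' = n := by
    rw [hSyl', hn] at hdvd
    have hmod : ((1 + n' * p : ℕ) : ℤ) ≡ 1 [ZMOD p] := by
      push_cast
      have : (1 : ℤ) + (n' : ℤ) * p ≡ 1 + (n' : ℤ) * 0 [ZMOD p] :=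
        Int.ModEq.add_left 1 (Int.ModEq.mul_left _ (by simp [Int.modEq_zero_iff_dvd]))
      simpa using this
    rcases Cfsg.Agent.Helper61.brn_nonF p n (1 + n' * p) hpp.two_le hnF hmod (Dvd.dvd.mul_right hdvd _) with h | h
    · exfalso
      have h2 : n' * p = 0 := by omega
      rcases Nat.mul_eq_zero.mp h2 with h3 | h3
      · omega
      · exact hpp.ne_zero h3
    · have h2 : n' * p = n * p := by omega
      exact Nat.eq_of_mul_eq_mul_right hpp.pos h2
  subst hn'n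
  rcases Cfsg.Agent.Helper79.brn_core hperf' p hOp Q hQ n' hSyl' hnF with h | ⟨m, F, i1, i2, hF2, hpm, h3, ⟨e⟩⟩
  · exact Or.inl h
  · right; left
    obtain ⟨e2⟩ := @Cfsg.Agent.Helper37.brn_psl_equiv_sl F i1 i2 m hF2
    exact ⟨m, F, i1, i2, hF2, hpm, h3, ⟨e.trans e2⟩⟩

end Cfsg.Agent.S4700
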