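import Cfsg.Statements.S4701
import Cfsg.Agent.Helper9.BRCore
import Cfsg.Agent.Helper41.BRR5
import Cfsg.Agent.Helper39.DegreeGraphEven
import Cfsg.Agent.Helper24.PLen2
import Cfsg.Agent.Helper22.Fitting

set_option autoImplicit false
open Cfsg

namespace Cfsg.Agent.S4701

/-- Let G be a finite perfect group and p a prime dividing the order of G with p^3 larger than the order of G. Suppose a Sylow p-subgroup of G is not normal and G has no normal subgroup of order 2. Then p > 3 and G is isomorphic to PSL(2, p), or to SL(2, 2^m) with p = 2^m + 1. -/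
theorem result {G : Type*} [Group G] [Finite G] (hperf : commutator G = ⊤) (p : ℕ) [Fact p.Prime] (hdvd : p ∣ Nat.card G) (hbig : Nat.card G < p ^ 3) (P : Sylow p G) (hP : ¬ (P : Subgroup G).Normal) (h2 : ∀ N : Subgroup G, N.Normal → Nat.card N ≠ 2) : (∃ (F : Type) (_ : Field F) (_ : Fintype F), Fintype.card F = p ∧ 3 < p ∧ Nonempty (G ≃* Matrix.ProjectiveSpecialLinearGroup (Fin 2) F)) ∨ (∃ (m : ℕ) (F : Type) (_ : Field F) (_ : Fintype F), Fintype.card F = 2 ^ m ∧ p = 2 ^ m + 1 ∧ 3 < p ∧ Nonempty (G ≃* Matrix.SpecialLinearGroup (Fin 2) F)) := by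
  classical
  have hp : p.Prime := Fact.out
  obtain ⟨hodd, hPc, q, n, v, hq, hq2, -⟩ := Cfsg.Agent.Helper46.br_setup_perfect hperf p hdvd hbig P hP
  have hNC : ¬ Subgroup.normalizer ((P : Subgroup G) : Set G)
      ≤ Subgroup.centralizer ((P : Subgroup G) : Set G) := by
    intro hle
    have h1 := (Subgroup.relIndex_eq_one).mpr hle
    omega
  obtain ⟨K, hKdef⟩ : ∃ K : Subgroup G, K = Cfsg.pPrimeCore p G := ⟨_, rfl⟩
  have hKn : K.Normal := by
    rw [hKdef]
    have := Cfsg.Agent.Helper22.pPrimeCore_characteristic p G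
    infer_instance
  have hKc : (Nat.card K).Coprime p := by
    rw [hKdef]
    exact Cfsg.Agent.Helper24.coprime_card_pPrimeCore p
  have hperf' : commutator (G ⧸ K) = ⊤ := by
    have h1 := Subgroup.map_commutator (⊤ : Subgroup G) ⊤ (QuotientGroup.mk' K)
    rw [← commutator_def, hperf, ← MonoidHom.range_eq_map,
      MonoidHom.range_eq_top.mpr (QuotientGroup.mk'_surjective K), ← commutator_def] at h1
    exact h1.symm
  have hcardK : Nat.card G = Nat.card (G ⧸ K) * Nat.card K :=
    Subgroup.card_eq_card_quotient_mul_card_subgroup K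
  have hKpos : 0 < Nat.card K := Nat.card_pos
  have hQpos : 0 < Nat.card (G ⧸ K) := Nat.card_pos
  have hdvd' : p ∣ Nat.card (G ⧸ K) := by
    rw [hcardK] at hdvd
    exact (Nat.Coprime.dvd_mul_right hKc.symm).mp hdvd
  have hle : Nat.card (G ⧸ K) ≤ Nat.card G := by
    rw [hcardK]
    exact Nat.le_mul_of_pos_right _ hKpos
  have hbig' : Nat.card (G ⧸ K) < p ^ 3 := lt_of_le_of_lt hle hbig
  have hOp' : ∀ D : Subgroup (G ⧸ K), D.Normal → (Nat.card D).Coprime p → D = ⊥ := by
    subst hKdef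
    exact fun D hD hc => Cfsg.Agent.Helper24.eq_bot_of_normal_coprime_quotient_pPrimeCore p D hD hc
  obtain ⟨Q⟩ : Nonempty (Sylow p (G ⧸ K)) := inferInstance
  have hQn := Cfsg.Agent.Helper41.br_quot_sylow_not_normal hperf P hPc hNC K hKc Q
  have hK1 : ∀ c : ℕ, Nat.card K * c < p ^ 3 → p ^ 3 ≤ 3 * c → Nat.card K = 1 := by
    intro c h1 h3
    have h4 : Nat.card K ≠ 2 := h2 K hKn
    by_contra hne
    have h5 : 3 ≤ Nat.card K := by omega
    have h6 : 3 * c ≤ Nat.card K * c := Nat.mul_le_mul_right c h5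
    omega
  have hiso : Nat.card K = 1 → Nonempty (G ≃* G ⧸ K) := by
    intro h1
    have hbot : K = ⊥ := Subgroup.card_eq_one.mp h1
    have hinj : Function.Injective (QuotientGroup.mk' K) := by
      rw [← MonoidHom.ker_eq_bot_iff, QuotientGroup.ker_mk', hbot]
    exact ⟨MulEquiv.ofBijective (QuotientGroup.mk' K) ⟨hinj, QuotientGroup.mk'_surjective K⟩⟩
  rcases Cfsg.Agent.Helper9.br_core hperf' p hOp' hdvd' hbig' Q hQn with
    ⟨F, iF, iF', hF, h3, hord, ⟨e⟩⟩ | ⟨m, F, iF, iF', hF, hpm, h3, hord, ⟨e⟩⟩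
  · left
    have hK1' : Nat.card K = 1 := by
      apply hK1 (Nat.card (G ⧸ K)) (by rw [mul_comm, ← hcardK]; exact hbig)
      obtain ⟨s, rfl⟩ : ∃ s, p = s + 4 := ⟨p - 4, by omega⟩
      have e1 : s + 4 - 1 = s + 3 := by omega
      rw [e1] at hord
      have key : 3 * ((s + 4) * (s + 4 + 1) * (s + 3))
          = 2 * (s + 4) ^ 3 + (s + 4) * (s ^ 2 + 8 * s + 13) := by ring
      have hX := Nat.zero_le ((s + 4) * (s ^ 2 + 8 * s + 13))
      linarith
    obtain ⟨e0⟩ := hiso hK1'
    exact ⟨F, iF, iF', hF, h3, ⟨e0.trans e⟩⟩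
  · right
    have hK1' : Nat.card K = 1 := by
      apply hK1 (Nat.card (G ⧸ K)) (by rw [mul_comm, ← hcardK]; exact hbig)
      obtain ⟨s, hs⟩ : ∃ s, p = s + 5 := ⟨p - 5, by
        have : p ≠ 4 := by
          intro h4
          rw [h4] at hp
          exact absurd hp (by decide)
        omega⟩
      rw [hs] at hord ⊢
      have e1 : s + 5 - 1 = s + 4 := by omega
      have e2 : s + 5 - 2 = s + 3 := by omega
      rw [e1, e2] at hord
      rw [hord]
      have key : 3 * ((s + 5) * (s + 4) * (s + 3))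
          = (s + 5) ^ 3 + (s + 5) * (2 * s ^ 2 + 11 * s + 11) := by ring
      have hX := Nat.zero_le ((s + 5) * (2 * s ^ 2 + 11 * s + 11))
      linarith
    obtain ⟨e0⟩ := hiso hK1'
    have hchar : CharP F 2 := by
      have hm : m ≠ 0 := by
        intro hm
        rw [hm, pow_zero] at hpm
        omega
      obtain ⟨r, hr⟩ := CharP.exists F
      have hrp : Fact r.Prime := ⟨CharP.char_is_prime F r⟩
      have h5 : r ∣ Fintype.card F := by
        have := (CharP.cast_eq_zero_iff F r (Fintype.card F)).mp (by simp)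
        exact this
      rw [hF] at h5
      have h6 : r ∣ 2 := hrp.out.dvd_of_dvd_pow h5
      have h7 : r = 2 := (Nat.prime_dvd_prime_iff_eq hrp.out Nat.prime_two).mp h6
      rw [← h7]
      exact hr
    exact ⟨m, F, iF, iF', hF, hpm, h3,
      ⟨(e0.trans e).trans Cfsg.Agent.Helper39.pslEquivSLEven⟩⟩

end Cfsg.Agent.S4701
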