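import Cfsg.Statements.S4702
import Mathlib
import Cfsg.Agent.Helper12.Sharp3Iso

set_option autoImplicit false
open Cfsg

namespace Cfsg.Agent.S4702

/-- Let G be a triply transitive permutation group on a finite set of odd size m ≥ 3 in which only the identity fixes three or more points. Then m = 2^a + 1 for some a ≥ 1 and G is isomorphic to SL(2, 2^a). -/
theorem result {α : Type*} [Fintype α] [DecidableEq α] (hm : 3 ≤ Fintype.card α) (hodd : Odd (Fintype.card α)) (G : Subgroup (Equiv.Perm α)) (h3 : MulAction.IsMultiplyPretransitive G α 3) (hfix : ∀ g : G, 3 ≤ Nat.card (MulAction.fixedBy α g) → g = 1) : ∃ a : ℕ, 1 ≤ a ∧ Fintype.card α = 2 ^ a + 1 ∧ ∃ (F : Type) (_ : Field F) (_ : Fintype F), Fintype.card F = 2 ^ a ∧ Nonempty (G ≃* Matrix.SpecialLinearGroup (Fin 2) F) := by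
  have hsharp : ∀ x : Fin 3 ↪ α, MulAction.stabilizer G x = ⊥ := by
    intro x
    rw [eq_bot_iff]
    intro g hg
    rw [Subgroup.mem_bot]
    apply hfix
    rw [MulAction.mem_stabilizer_iff] at hg
    have hmem : ∀ i, x i ∈ MulAction.fixedBy α g := by
      intro i
      rw [MulAction.mem_fixedBy]
      have h' := congrArg (fun e : Fin 3 ↪ α => e i) hg
      exact h'
    have hinj : Function.Injective (fun i : Fin 3 => (⟨x i, hmem i⟩ : MulAction.fixedBy α g)) := by
      intro i j hij
      exact x.injective (congrArg Subtype.val hij)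
    have h3' : Nat.card (Fin 3) = 3 := by simp
    have := Nat.card_le_card_of_injective _ hinj
    rw [h3'] at this
    exact this
  obtain ⟨f, hf, hcard, F, iF, iFT, hFc, ⟨e⟩⟩ :=
    Cfsg.Agent.Helper12.sharp3_iso_SL G h3 hsharp hodd hm
  exact ⟨f, hf, hcard, F, iF, iFT, hFc, ⟨e⟩⟩

end Cfsg.Agent.S4702
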