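import Cfsg.Statements.S4706
import Cfsg.Agent.Helper9.PrimeDeg2
import Cfsg.Agent.S4702
import Cfsg.Agent.S1013

set_option autoImplicit false
set_option linter.style.haveILetI false
set_option maxHeartbeats 1000000
open Cfsg

namespace Cfsg.Agent.S4706

open Subgroup MulAction

/-- a permutation of prime order `p` of `p` points is a cycle moving every point. -/
theorem full_cycle {α : Type*} [Fintype α] [DecidableEq α] {p : ℕ} (hp : p.Prime)
    (hα : Fintype.card α = p) {σ : Equiv.Perm α} (hσ : orderOf σ = p) :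
    σ.IsCycle ∧ ∀ c : α, σ c ≠ c := by
  have hcyc : σ.IsCycle := Equiv.Perm.isCycle_of_prime_order' (by rw [hσ]; exact hp)
    (by rw [hσ, hα]; linarith [hp.pos])
  refine ⟨hcyc, ?_⟩
  have h1 : σ.support.card = Fintype.card α := by rw [← hcyc.orderOf, hσ, hα]
  have h2 : σ.support = Finset.univ := Finset.eq_univ_of_card _ h1
  intro c
  rw [← Equiv.Perm.mem_support, h2]
  exact Finset.mem_univ c

/-- Let p > 2 be a prime and G a permutation group on p letters whose Sylow p-subgroup P has normalizer of order 2p. Then either P is normal in G, or p − 1 = 2^a for some a and G is isomorphic to SL(2, 2^a). -/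
theorem result {α : Type*} [Fintype α] [DecidableEq α] {p : ℕ} [Fact p.Prime] (hp : 2 < p) (hα : Fintype.card α = p) (G : Subgroup (Equiv.Perm α)) (P : Sylow p G) (hN : Nat.card (Subgroup.normalizer ((P : Subgroup G) : Set G)) = 2 * p) : (P : Subgroup G).Normal ∨ ∃ (a : ℕ) (F : Type) (_ : Field F) (_ : Fintype F), p = 2 ^ a + 1 ∧ Fintype.card F = 2 ^ a ∧ Nonempty (G ≃* Matrix.SpecialLinearGroup (Fin 2) F) := by
  classical
  have hp0 : p.Prime := Fact.out
  by_cases hnorm : (P : Subgroup G).Normal
  · exact Or.inl hnorm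
  right
  -- the order of `P`
  have hPcard : Nat.card (P : Subgroup G) = p := by
    obtain ⟨k, hk⟩ := IsPGroup.iff_card.mp P.isPGroup'
    have hdvd : Nat.card (P : Subgroup G) ∣ p.factorial := by
      have h1 : Nat.card (P : Subgroup G) ∣ Nat.card G := Subgroup.card_subgroup_dvd_card _
      have h2 : Nat.card G ∣ Nat.card (Equiv.Perm α) := Subgroup.card_subgroup_dvd_card G
      rw [Nat.card_eq_fintype_card (α := Equiv.Perm α), Fintype.card_perm, hα] at h2
      exact h1.trans h2
    rw [hk] at hdvd ⊢
    have hk1 : k ≤ 1 := by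
      by_contra hk2
      have h3 : p ^ 2 ∣ p.factorial := (pow_dvd_pow p (by omega)).trans hdvd
      exact Cfsg.Agent.S1013.not_sq_dvd_factorial hp0 h3
    interval_cases k
    · exfalso
      apply hnorm
      have h3 : (P : Subgroup G) = ⊥ := Subgroup.card_eq_one.mp (by rw [hk, pow_zero])
      rw [h3]
      infer_instance
    · rw [pow_one]
  have hlt : p < Nat.card G := by
    have h1 := Subgroup.card_le_card_group (normalizer ((P : Subgroup G) : Set G))
    rw [hN] at h1
    linarith [hp0.pos]
  -- an element of order `p`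
  obtain ⟨x, hxP, hx1⟩ : ∃ x : G, x ∈ (P : Subgroup G) ∧ x ≠ 1 := by
    have h1 : 1 < Nat.card (P : Subgroup G) := by rw [hPcard]; exact hp0.one_lt
    haveI := Finite.one_lt_card_iff_nontrivial.mp h1
    obtain ⟨y, hy⟩ := exists_ne (1 : (P : Subgroup G))
    exact ⟨y.1, y.2, fun h => hy (Subtype.ext h)⟩
  have hxo : orderOf x = p := by
    have h1 : orderOf (⟨x, hxP⟩ : (P : Subgroup G)) ∣ Nat.card (P : Subgroup G) :=
      orderOf_dvd_natCard _
    rw [hPcard, Subgroup.orderOf_mk] at h1
    rcases (Nat.dvd_prime hp0).mp h1 with h2 | h2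
    · exact absurd (orderOf_eq_one_iff.mp h2) hx1
    · exact h2
  have hnofix : ∀ g : G, p ∣ orderOf g → ∀ c : α, g • c ≠ c := by
    intro g hg c hc
    have ho : orderOf (g ^ (orderOf g / p)) = p :=
      orderOf_pow_orderOf_div (orderOf_pos g).ne' hg
    have ho' : orderOf ((g ^ (orderOf g / p) : G) : Equiv.Perm α) = p := by
      rw [Subgroup.orderOf_coe, ho]
    have h1 := (full_cycle hp0 hα ho').2 c
    apply h1
    have h2 : ∀ n : ℕ, (g ^ n) • c = c := by
      intro n
      induction n with
      | zero => rw [pow_zero, one_smul]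
      | succ n ih => rw [pow_succ, mul_smul, hc, ih]
    exact h2 (orderOf g / p)
  haveI htrans : IsPretransitive G α := by
    have hcyc := full_cycle hp0 hα (σ := (x : Equiv.Perm α)) (by rw [Subgroup.orderOf_coe, hxo])
    constructor
    intro c d
    obtain ⟨i, hi⟩ := hcyc.1.sameCycle (hcyc.2 c) (hcyc.2 d)
    refine ⟨x ^ i, ?_⟩
    show ((x ^ i : G) : Equiv.Perm α) c = d
    rw [Subgroup.coe_zpow]
    exact hi
  have hfix0 : ∀ g : G, p ∣ orderOf g → Nat.card (fixedBy α g) = 0 := by
    intro g hg
    haveI : IsEmpty (fixedBy α g) := ⟨fun c => hnofix g hg c.1 c.2⟩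
    exact Nat.card_of_isEmpty
  -- simplicity
  have hn : 1 < Nat.card (Sylow p G) := by
    by_contra hle
    have h1 : Nat.card (Sylow p G) = 1 := by
      have := Nat.card_pos (α := Sylow p G)
      omega
    haveI : Subsingleton (Sylow p G) := (Nat.card_eq_one_iff_unique.mp h1).1
    exact hnorm (Sylow.normal_of_subsingleton P)
  have ht : (((P : Subgroup G).subgroupOf (normalizer ((P : Subgroup G) : Set G))).index).Prime := by
    have h1 := Subgroup.card_mul_index
      ((P : Subgroup G).subgroupOf (normalizer ((P : Subgroup G) : Set G)))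
    rw [Nat.card_congr (Subgroup.subgroupOfEquivOfLe Subgroup.le_normalizer).toEquiv, hPcard,
      hN] at h1
    have h2 : ((P : Subgroup G).subgroupOf (normalizer ((P : Subgroup G) : Set G))).index = 2 := by
      have := hp0.pos
      nlinarith
    rw [h2]
    exact Nat.prime_two
  haveI hsimple : IsSimpleGroup G := Cfsg.Agent.S1013.result hα G P hn ht
  -- the centralizer of `P`
  have hC : Nat.card (centralizer ((P : Subgroup G) : Set G)) = p := by
    obtain ⟨e, -, he1, hNe, ⟨c, hc⟩⟩ :=
      Cfsg.Agent.Helper9.OrdTools.normalizer_centralizer_prime P hPcard hlt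
    rw [hN, hc] at hNe
    have hc1 : c = 1 := by
      have h1 : 2 = e * c := by
        have := hp0.pos
        nlinarith
      have h2 : e ∣ 2 := Dvd.intro c h1.symm
      have h3 : e = 2 := by
        rcases (Nat.dvd_prime Nat.prime_two).mp h2 with h | h
        · omega
        · exact h
      rw [h3] at h1
      omega
    rw [hc, hc1, mul_one]
  have hp5 : 5 ≤ p := by
    by_contra hlt5
    have hp34 : p = 3 ∨ p = 4 := by omega
    rcases hp34 with h3 | h4
    · apply hnorm
      have h1 : Nat.card G ∣ Nat.card (Equiv.Perm α) := Subgroup.card_subgroup_dvd_card G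
      rw [Nat.card_eq_fintype_card (α := Equiv.Perm α), Fintype.card_perm, hα, h3] at h1
      have h2 : Nat.card G ≤ 6 := Nat.le_of_dvd (by norm_num) h1
      have h4 := Subgroup.card_le_card_group (normalizer ((P : Subgroup G) : Set G))
      rw [hN, h3] at h4
      have h5 : Nat.card (normalizer ((P : Subgroup G) : Set G)) = Nat.card G := by
        rw [hN, h3]
        omega
      exact Subgroup.normalizer_eq_top_iff.mp (Subgroup.eq_top_of_card_eq _ h5)
    · rw [h4] at hp0
      exact absurd hp0 (by norm_num)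
  haveI : FaithfulSMul G α :=
    ⟨fun {g₁ g₂} h => Subtype.ext (Equiv.ext (fun c => h c))⟩
  obtain ⟨h3, hfix⟩ := Cfsg.Agent.Helper9.PrimeDeg.sharp_three hα hp5 P hPcard hlt hC hN hfix0
  obtain ⟨a, -, hcard, F, iF, iFT, hFc, hiso⟩ := Cfsg.Agent.S4702.result (by rw [hα]; omega)
    (by rw [hα]; exact hp0.odd_of_ne_two (by omega)) G h3 hfix
  exact ⟨a, F, iF, iFT, by rw [← hα, hcard], hFc, hiso⟩

end Cfsg.Agent.S4706
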