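import Cfsg.Statements.S4707
import Cfsg.Agent.Helper9.TwoDeg7
import Cfsg.Agent.Helper29.S4707Red
import Cfsg.Agent.S0494

set_option autoImplicit false
open Cfsg

namespace Cfsg.Agent.S4707

/-- Let p > 3 be a prime and G a primitive permutation group of degree 2p that is not doubly transitive. If a Sylow p-subgroup of G has normalizer of order 2p, then p = 5 and G is isomorphic to the alternating group of degree 5. -/
theorem result {α : Type*} [Fintype α] [DecidableEq α] {p : ℕ} [Fact p.Prime] (hp : 3 < p) (hα : Fintype.card α = 2 * p) (G : Subgroup (Equiv.Perm α)) (hprim : MulAction.IsPreprimitive G α) (hnot2 : ¬ MulAction.IsMultiplyPretransitive G α 2) (P : Sylow p G) (hN : Nat.card (Subgroup.normalizer ((P : Subgroup G) : Set G)) = 2 * p) : p = 5 ∧ Nonempty (G ≃* alternatingGroup (Fin 5)) := by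
  classical
  have hp0 : p.Prime := Fact.out
  obtain ⟨hsimple, hP, hC, hfix⟩ := Cfsg.Agent.Helper29.s4707_reduction hp hα G hprim hnot2 P hN
  haveI := hsimple
  haveI : Fintype G := Fintype.ofFinite G
  haveI : MulAction.IsPretransitive G α := hprim.toIsPretransitive
  have hp5 : 5 ≤ p := by
    rcases Nat.lt_or_ge 4 p with h | h
    · exact h
    · have h4 : p = 4 := by omega
      rw [h4] at hp0
      exact absurd hp0 (by norm_num)
  have hfix0 : ∀ g : G, p ∣ orderOf g → Nat.card (MulAction.fixedBy α g) = 0 := by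
    intro g hg
    rw [Nat.card_eq_zero]
    left
    exact ⟨fun a => hfix g hg a.1 a.2⟩
  obtain ⟨h5, h60⟩ := Cfsg.Agent.Helper9.TwoDeg.main_two_p hα hp5 P hP hC hN hfix0 hnot2
  exact ⟨h5, Cfsg.Agent.S0494.result h60⟩

end Cfsg.Agent.S4707
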