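import Cfsg.Statements.S4708
import Cfsg.Agent.Helper76.PrincipalCover

set_option autoImplicit false
open Cfsg

namespace Cfsg.Agent.S4708

/-- Let p be a prime, M a maximal ideal of the algebraic integers containing p, G a finite group and H a normal subgroup. Write λ(X) for the sum of the squares of the degrees of the irreducible characters in the principal p-block of a group X. Then λ(H) ≤ λ(G) ≤ [G : H]·λ(H). -/
theorem result {G : Type*} [Group G] [Finite G] (p : ℕ) [Fact p.Prime] (M : Ideal Cfsg.AlgInt) (hM : Cfsg.IsPModular p M) (H : Subgroup G) [H.Normal] : (∑ᶠ θ ∈ Cfsg.principalBlock M H, Cfsg.charDegree (θ : H → ℂ) ^ 2) ≤ (∑ᶠ χ ∈ Cfsg.principalBlock M G, Cfsg.charDegree (χ : G → ℂ) ^ 2) ∧ (∑ᶠ χ ∈ Cfsg.principalBlock M G, Cfsg.charDegree (χ : G → ℂ) ^ 2) ≤ H.index * ∑ᶠ θ ∈ Cfsg.principalBlock M H, Cfsg.charDegree (θ : H → ℂ) ^ 2 := by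
  classical
  cases nonempty_fintype G
  have := Fintype.ofFinite (Cfsg.IrrCharacter G)
  have := Fintype.ofFinite (Cfsg.IrrCharacter H)
  have hm : ∀ (χ : Cfsg.IrrCharacter G) (θ : Cfsg.IrrCharacter H), ∃ n : ℕ,
      Cfsg.classInner (fun h : H => (χ : G → ℂ) h) (θ : H → ℂ) = (n : ℂ) := fun χ θ =>
    Helper15.inner_nat (Helper79.isCharacter_restrict (Helper79.irr_isCharacter χ) H)
      (Helper79.irr_isCharacter θ)
  choose m hm using hm
  have F1 : ∀ χ : Cfsg.IrrCharacter G, Cfsg.charDegree (χ : G → ℂ)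
      = ∑ θ : Cfsg.IrrCharacter H, m χ θ * Cfsg.charDegree (θ : H → ℂ) := fun χ =>
    Helper76.charDegree_eq_sum_res H χ (m χ) (hm χ)
  have F2 : ∀ θ : Cfsg.IrrCharacter H,
      ∑ χ : Cfsg.IrrCharacter G, Cfsg.charDegree (χ : G → ℂ) * m χ θ
        = H.index * Cfsg.charDegree (θ : H → ℂ) := fun θ =>
    Helper76.sum_charDegree_mul_res H θ (fun χ => m χ θ) (fun χ => hm χ θ)
  have F3 : ∀ (χ : Cfsg.IrrCharacter G) (θ : Cfsg.IrrCharacter H),
      χ ∈ Cfsg.principalBlock M G → m χ θ ≠ 0 → θ ∈ Cfsg.principalBlock M H := by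
    intro χ θ hχ hne
    refine Helper76.mem_principalBlock_of_constituent hM H χ hχ θ ?_
    rw [hm]
    exact_mod_cast hne
  have F4 : ∀ θ : Cfsg.IrrCharacter H, θ ∈ Cfsg.principalBlock M H →
      ∃ χ : Cfsg.IrrCharacter G, χ ∈ Cfsg.principalBlock M G ∧ m χ θ ≠ 0 := by
    intro θ hθ
    obtain ⟨χ, hχ, hne⟩ := Helper76.exists_principal_over hM H θ hθ
    refine ⟨χ, hχ, ?_⟩
    rw [hm] at hne
    exact_mod_cast hne
  have hG : (∑ᶠ χ ∈ Cfsg.principalBlock M G, Cfsg.charDegree (χ : G → ℂ) ^ 2)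
      = ∑ χ : Cfsg.IrrCharacter G,
          if χ ∈ Cfsg.principalBlock M G then Cfsg.charDegree (χ : G → ℂ) ^ 2 else 0 := by
    rw [finsum_mem_def, finsum_eq_sum_of_fintype]
    refine Finset.sum_congr rfl fun χ _ => ?_
    rw [Set.indicator_apply]
  have hH : (∑ᶠ θ ∈ Cfsg.principalBlock M H, Cfsg.charDegree (θ : H → ℂ) ^ 2)
      = ∑ θ : Cfsg.IrrCharacter H,
          if θ ∈ Cfsg.principalBlock M H then Cfsg.charDegree (θ : H → ℂ) ^ 2 else 0 := by
    rw [finsum_mem_def, finsum_eq_sum_of_fintype]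
    refine Finset.sum_congr rfl fun χ _ => ?_
    rw [Set.indicator_apply]
  rw [hG, hH]
  have key : (∑ χ : Cfsg.IrrCharacter G,
      if χ ∈ Cfsg.principalBlock M G then Cfsg.charDegree (χ : G → ℂ) ^ 2 else 0)
      = ∑ θ : Cfsg.IrrCharacter H, if θ ∈ Cfsg.principalBlock M H then
          Cfsg.charDegree (θ : H → ℂ) * ∑ χ : Cfsg.IrrCharacter G,
            (if χ ∈ Cfsg.principalBlock M G then Cfsg.charDegree (χ : G → ℂ) * m χ θ else 0)
          else 0 := by
    have h1 : ∀ χ : Cfsg.IrrCharacter G,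
        (if χ ∈ Cfsg.principalBlock M G then Cfsg.charDegree (χ : G → ℂ) ^ 2 else 0)
        = ∑ θ : Cfsg.IrrCharacter H, if χ ∈ Cfsg.principalBlock M G then
            Cfsg.charDegree (χ : G → ℂ) * m χ θ * Cfsg.charDegree (θ : H → ℂ) else 0 := by
      intro χ
      by_cases hχ : χ ∈ Cfsg.principalBlock M G
      · simp only [if_pos hχ]
        have h2 : Cfsg.charDegree (χ : G → ℂ) ^ 2 = Cfsg.charDegree (χ : G → ℂ) *
            ∑ θ : Cfsg.IrrCharacter H, m χ θ * Cfsg.charDegree (θ : H → ℂ) := by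
          rw [← F1 χ, pow_two]
        rw [h2, Finset.mul_sum]
        exact Finset.sum_congr rfl fun θ _ => by ring
      · simp only [if_neg hχ]
        rw [Finset.sum_const_zero]
    rw [Finset.sum_congr rfl fun χ _ => h1 χ, Finset.sum_comm]
    refine Finset.sum_congr rfl fun θ _ => ?_
    by_cases hθ : θ ∈ Cfsg.principalBlock M H
    · rw [if_pos hθ, Finset.mul_sum]
      refine Finset.sum_congr rfl fun χ _ => ?_
      by_cases hχ : χ ∈ Cfsg.principalBlock M G
      · rw [if_pos hχ, if_pos hχ]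
        ring
      · rw [if_neg hχ, if_neg hχ, mul_zero]
    · rw [if_neg hθ]
      refine Finset.sum_eq_zero fun χ _ => ?_
      by_cases hχ : χ ∈ Cfsg.principalBlock M G
      · rw [if_pos hχ]
        have h0 : m χ θ = 0 := by
          by_contra hne
          exact hθ (F3 χ θ hχ hne)
        rw [h0, mul_zero, zero_mul]
      · rw [if_neg hχ]
  rw [key]
  constructor
  · refine Finset.sum_le_sum fun θ _ => ?_
    by_cases hθ : θ ∈ Cfsg.principalBlock M H
    · rw [if_pos hθ, if_pos hθ, pow_two]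
      refine Nat.mul_le_mul_left _ ?_
      obtain ⟨χ₀, hχ₀, hne⟩ := F4 θ hθ
      have h1 : (if χ₀ ∈ Cfsg.principalBlock M G then
          Cfsg.charDegree (χ₀ : G → ℂ) * m χ₀ θ else 0)
          ≤ ∑ χ : Cfsg.IrrCharacter G, (if χ ∈ Cfsg.principalBlock M G then
            Cfsg.charDegree (χ : G → ℂ) * m χ θ else 0) :=
        Finset.single_le_sum (f := fun χ : Cfsg.IrrCharacter G =>
          if χ ∈ Cfsg.principalBlock M G then Cfsg.charDegree (χ : G → ℂ) * m χ θ else 0)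
          (fun χ _ => Nat.zero_le _) (Finset.mem_univ χ₀)
      rw [if_pos hχ₀] at h1
      refine le_trans ?_ h1
      have h2 : m χ₀ θ * Cfsg.charDegree (θ : H → ℂ) ≤ Cfsg.charDegree (χ₀ : G → ℂ) := by
        conv_rhs => rw [F1 χ₀]
        exact Finset.single_le_sum (f := fun θ : Cfsg.IrrCharacter H =>
          m χ₀ θ * Cfsg.charDegree (θ : H → ℂ))
          (fun θ _ => Nat.zero_le _) (Finset.mem_univ θ)
      have h3 : 1 ≤ m χ₀ θ := Nat.one_le_iff_ne_zero.mpr hne
      calc Cfsg.charDegree (θ : H → ℂ) = 1 * Cfsg.charDegree (θ : H → ℂ) := (one_mul _).symm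
        _ ≤ m χ₀ θ * Cfsg.charDegree (θ : H → ℂ) := Nat.mul_le_mul_right _ h3
        _ ≤ Cfsg.charDegree (χ₀ : G → ℂ) := h2
        _ = Cfsg.charDegree (χ₀ : G → ℂ) * 1 := (mul_one _).symm
        _ ≤ Cfsg.charDegree (χ₀ : G → ℂ) * m χ₀ θ := Nat.mul_le_mul_left _ h3
    · rw [if_neg hθ, if_neg hθ]
  · rw [Finset.mul_sum]
    refine Finset.sum_le_sum fun θ _ => ?_
    by_cases hθ : θ ∈ Cfsg.principalBlock M H
    · rw [if_pos hθ, if_pos hθ]
      have h1 : (∑ χ : Cfsg.IrrCharacter G, (if χ ∈ Cfsg.principalBlock M G then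
            Cfsg.charDegree (χ : G → ℂ) * m χ θ else 0))
          ≤ ∑ χ : Cfsg.IrrCharacter G, Cfsg.charDegree (χ : G → ℂ) * m χ θ := by
        refine Finset.sum_le_sum fun χ _ => ?_
        by_cases hχ : χ ∈ Cfsg.principalBlock M G
        · rw [if_pos hχ]
        · rw [if_neg hχ]
          exact Nat.zero_le _
      rw [F2 θ] at h1
      calc Cfsg.charDegree (θ : H → ℂ) * ∑ χ : Cfsg.IrrCharacter G,
            (if χ ∈ Cfsg.principalBlock M G then Cfsg.charDegree (χ : G → ℂ) * m χ θ else 0)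
          ≤ Cfsg.charDegree (θ : H → ℂ) * (H.index * Cfsg.charDegree (θ : H → ℂ)) :=
            Nat.mul_le_mul_left _ h1
        _ = H.index * Cfsg.charDegree (θ : H → ℂ) ^ 2 := by ring
    · rw [if_neg hθ, if_neg hθ, mul_zero]

end Cfsg.Agent.S4708
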