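import Cfsg.Statements.S4713
import Cfsg.Agent.Helper79.ItoMichler

set_option autoImplicit false
open Cfsg

namespace Cfsg.Agent.S4713

/-- Let p be a prime and G a finite p-solvable group. Then G has a normal abelian Sylow p-subgroup if and only if the degree of every irreducible character of G is prime to p. -/
theorem result {G : Type*} [Group G] [Finite G] (p : ℕ) [Fact p.Prime] (hsolv : Cfsg.IsPSolvable p G) (P : Sylow p G) : ((P : Subgroup G).Normal ∧ IsMulCommutative P) ↔ ∀ χ : Cfsg.IrrCharacter G, ¬ p ∣ Cfsg.charDegree (χ : G → ℂ) := by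
  constructor
  · rintro ⟨hn, hc⟩ χ hdvd
    have hab : ∀ a ∈ (P : Subgroup G), ∀ b ∈ (P : Subgroup G), a * b = b * a :=
      fun a ha b hb => congrArg Subtype.val (hc.is_comm.comm ⟨a, ha⟩ ⟨b, hb⟩)
    exact P.not_dvd_index (dvd_trans hdvd (Helper75.ito_character χ.2 (P : Subgroup G) hab))
  · intro h
    obtain ⟨S, hSn, hSp, hSi, hSc⟩ :=
      Helper79.ito_michler_pSolvable p hsolv (fun χ hχ => h ⟨χ, hχ⟩)
    have hP : (P : Subgroup G) = S := Helper79.sylow_coe_eq_of_normal P S hSn hSp hSi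
    refine ⟨hP ▸ hSn, ⟨⟨fun a b => Subtype.ext ?_⟩⟩⟩
    exact hSc a (hP ▸ a.2) b (hP ▸ b.2)

end Cfsg.Agent.S4713
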