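import Cfsg.Statements.S4714
import Cfsg.Agent.Helper75.CanonForm2

set_option autoImplicit false
open Cfsg

namespace Cfsg.Agent.S4714

/-- Let p be a prime, M a maximal ideal of the algebraic integers containing p, D a p-subgroup of the finite group G with G = D·C_G(D), and B a p-block with defect group D. Let χ be a member of B having D in its kernel (there is exactly one, the canonical character of B). Then the irreducible characters in B are exactly the functions θ on G for which there is an irreducible character ζ of D such that θ(yx) = ζ(y)χ(x) whenever y ∈ D, x has order prime to p and x commutes with y, and θ(z) = 0 whenever the p-part of z does not lie in D. -/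
theorem result {G : Type*} [Group G] [Finite G] (p : ℕ) [Fact p.Prime] (M : Ideal Cfsg.AlgInt) (hM : Cfsg.IsPModular p M) (D : Subgroup G) (hD : IsPGroup p D) (hG : D ⊔ Subgroup.centralizer (D : Set G) = ⊤) (B : Set (Cfsg.IrrCharacter G)) (hB : Cfsg.IsPBlock M B) (hBD : Cfsg.IsDefectGroup p M B D) (χ : Cfsg.IrrCharacter G) (hχ : χ ∈ B) (hχD : ∀ y ∈ D, (χ : G → ℂ) y = (χ : G → ℂ) 1) : (∀ θ : Cfsg.IrrCharacter G, θ ∈ B ↔ ∃ ζ : Cfsg.IrrCharacter D, (∀ (y : D) (x : G), ¬ p ∣ orderOf x → Commute (y : G) x → (θ : G → ℂ) ((y : G) * x) = (ζ : D → ℂ) y * (χ : G → ℂ) x) ∧ (∀ z : G, (∀ y : G, Cfsg.IsPPart p z y → y ∉ D) → (θ : G → ℂ) z = 0)) ∧ ∀ ζ : Cfsg.IrrCharacter D, ∃ θ ∈ B, (∀ (y : D) (x : G), ¬ p ∣ orderOf x → Commute (y : G) x → (θ : G → ℂ) ((y : G) * x) = (ζ : D → ℂ) y * (χ : G → ℂ) x) ∧ (∀ z : G, (∀ y : G, Cfsg.IsPPart p z y → y ∉ D) → (θ : G → ℂ) z = 0) := by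
  classical
  haveI : Fintype G := Fintype.ofFinite G
  haveI hDn : D.Normal :=
    Helper76.normal_of_commute_sup (Helper75.commute_of_mem_centralizer' D) hG
  refine ⟨fun θ => ⟨fun hθ => ?_, fun hθ => ?_⟩, fun ζ => ?_⟩
  · obtain ⟨ζ, hζ⟩ := Helper75.exists_irr_form hM D hD hG hB hBD χ hχ hχD θ hθ
    exact ⟨ζ, fun y x hx _ => hζ y x hx,
      fun z hz => Helper75.irr_eq_zero_of_pPart_not_mem_normal hM D hB hBD θ hθ z hz⟩
  · obtain ⟨ζ, hζ, -⟩ := hθ
    refine Helper75.mem_block_of_form hM D hD hG hB hBD χ hχ hχD θ ζ (fun s hs => ?_)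
    have h1 := hζ 1 s hs (Commute.one_left s)
    rw [Subgroup.coe_one, one_mul] at h1
    exact h1
  · obtain ⟨θ, hθ, hζ⟩ := Helper75.exists_mem_block_form hM D hD hG hB hBD χ hχ hχD ζ
    exact ⟨θ, hθ, fun y x hx _ => hζ y x hx,
      fun z hz => Helper75.irr_eq_zero_of_pPart_not_mem_normal hM D hB hBD θ hθ z hz⟩

end Cfsg.Agent.S4714
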