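import Cfsg.Statements.S4715
import Cfsg.Agent.Helper75.HeightBound

set_option autoImplicit false
open Cfsg

namespace Cfsg.Agent.S4715

/-- Let p be a prime, M a maximal ideal of the algebraic integers containing p, B a p-block of the finite group G with defect group D of order p^d, H = D·C_G(D), b a block of H inducing B, T the stabilizer of b in N_G(D) and e = [T : H] the inertial index of B; let n be the integer with p^n ≤ e < p^(n+1) and p^c the order of the centre of D. Then every irreducible character in B has height h with h + c ≤ n + d. -/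
theorem result {G : Type*} [Group G] [Finite G] (p : ℕ) [Fact p.Prime] (M : Ideal Cfsg.AlgInt) (hM : Cfsg.IsPModular p M) (B : Set (Cfsg.IrrCharacter G)) (hB : Cfsg.IsPBlock M B) (D : Subgroup G) (hBD : Cfsg.IsDefectGroup p M B D) (d : ℕ) (hDd : Nat.card D = p ^ d) (H : Subgroup G) (hH : H = D ⊔ Subgroup.centralizer (D : Set G)) (b : Set (Cfsg.IrrCharacter H)) (hind : Cfsg.IsInducedBlock M H b B) (T : Subgroup G) (hT : ∀ g : G, g ∈ T ↔ (g ∈ Subgroup.normalizer (D : Set G) ∧ ∀ θ ∈ b, ∀ θ' : Cfsg.IrrCharacter H, (∀ h h' : H, (h' : G) = g * h * g⁻¹ → (θ' : H → ℂ) h' = (θ : H → ℂ) h) → θ' ∈ b)) (e : ℕ) (he : H.relIndex T = e) (n : ℕ) (hn : p ^ n ≤ e ∧ e < p ^ (n + 1)) (c : ℕ) (hc : Nat.card (Subgroup.center D) = p ^ c) : ∀ χ ∈ B, Cfsg.blockHeight p B (χ : G → ℂ) + c ≤ n + d := by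
  classical
  have : Fintype G := Fintype.ofFinite G
  have hp : p.Prime := Fact.out
  obtain ⟨e₀, hmax, hstab⟩ := Helper75.exists_maxPair_of_root hM D hBD hH hind
  intro χ hχ
  have hcore := Helper75.height_bound_core hM hmax d hDd c hc χ hχ
  rw [← hH] at hcore
  obtain ⟨T', hT'⟩ : ∃ T' : Subgroup G, T' = Subgroup.normalizer (D : Set G) ⊓
      Helper77.stabSubgroup (Subgroup.centralizer (D : Set G)) e₀ := ⟨_, rfl⟩
  rw [← hT'] at hcore
  have hHT' : H ≤ T' := by
    rw [hH, hT']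
    refine sup_le ?_ ?_
    · intro x hx
      exact ⟨Subgroup.le_normalizer hx, Helper77.stabilizesBlock_of_mem D e₀ hx⟩
    · intro x hx
      exact ⟨Subgroup.centralizer_le_normalizer _ hx,
        Helper77.stabilizesBlock_of_mem_centralizer D e₀ hx⟩
  have hT'T : T' ≤ T := by
    intro t ht
    rw [hT'] at ht
    rw [hT]
    exact ⟨ht.1, hstab t ht.1 ht.2⟩
  have hmul := Subgroup.relIndex_mul_relIndex H T' T hHT' hT'T
  rw [he] at hmul
  have hpos : 0 < T'.relIndex T := Nat.pos_of_ne_zero Subgroup.index_ne_zero_of_finite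
  have hRe : H.relIndex T' ≤ e := by
    rw [← hmul]
    exact Nat.le_mul_of_pos_right _ hpos
  have h1 : p ^ (c + Cfsg.blockHeight p B (χ : G → ℂ)) < p ^ (n + 1 + d) := by
    calc p ^ (c + Cfsg.blockHeight p B (χ : G → ℂ)) ≤ H.relIndex T' * p ^ d := hcore
      _ ≤ e * p ^ d := Nat.mul_le_mul_right _ hRe
      _ < p ^ (n + 1) * p ^ d := Nat.mul_lt_mul_of_pos_right hn.2 (pow_pos hp.pos d)
      _ = p ^ (n + 1 + d) := (pow_add p (n + 1) d).symm
  have h2 := (Nat.pow_lt_pow_iff_right hp.one_lt).mp h1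
  omega

end Cfsg.Agent.S4715
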