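import Cfsg.Statements.S4716
import Cfsg.Agent.Helper75.Contrib2

set_option autoImplicit false
open Cfsg

namespace Cfsg.Agent.S4716

/-- Let p be a prime, M a maximal ideal of the algebraic integers containing p, and B a p-block of defect d of the finite group G all of whose irreducible characters have height zero. Let y be a p-element, C = C_G(y), and b a block of C inducing B and having the same defect d (a major subsection). Then k(B)^2 ≤ p^(2d)·l(b), where k(B) is the number of irreducible characters in B and l(b) the p-regular rank of b (its number of irreducible Brauer characters); in particular (y = 1) k(B)^2 ≤ p^(2d)·l(B). -/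
theorem result {G : Type*} [Group G] [Finite G] (p : ℕ) [Fact p.Prime] (M : Ideal Cfsg.AlgInt) (hM : Cfsg.IsPModular p M) (B : Set (Cfsg.IrrCharacter G)) (hB : Cfsg.IsPBlock M B) (d : ℕ) (hd : Cfsg.blockDefect p B = d) (hh : ∀ χ ∈ B, Cfsg.blockHeight p B (χ : G → ℂ) = 0) (y : G) (hy : ∃ k : ℕ, orderOf y = p ^ k) (b : Set (Cfsg.IrrCharacter ↥(Subgroup.centralizer ({y} : Set G)))) (hind : Cfsg.IsInducedBlock M (Subgroup.centralizer ({y} : Set G)) b B) (hbd : Cfsg.blockDefect p b = d) : Nat.card B ^ 2 ≤ p ^ (2 * d) * Cfsg.blockRank p b := by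
  classical
  have := Fintype.ofFinite G
  let _ : Fintype (Subgroup.centralizer ({y} : Set G)) := Fintype.ofFinite _
  have := Fintype.ofFinite (Cfsg.IrrCharacter G)
  have hMm := hM.2.1
  have hyC : y ∈ Subgroup.centralizer ({y} : Set G) := by
    rw [Subgroup.mem_centralizer_iff]
    intro s hs
    rw [Set.mem_singleton_iff] at hs
    rw [hs]
  have hcent : ∀ h : Subgroup.centralizer ({y} : Set G), y * (h : G) = (h : G) * y :=
    fun c => Subgroup.mem_centralizer_iff.mp c.2 y rfl
  obtain ⟨BF, hBFdef⟩ : ∃ BF : Finset (Cfsg.IrrCharacter G),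
      BF = Finset.univ.filter (fun χ : Cfsg.IrrCharacter G => χ ∈ B) := ⟨_, rfl⟩
  have hBF : ∀ χ, χ ∈ BF ↔ χ ∈ B := by
    intro χ
    rw [hBFdef]
    simp
  have hcardB : Nat.card B = BF.card := by
    rw [Nat.card_eq_fintype_card, hBFdef, Fintype.card_subtype]
  have hcardC : (Nat.card (Subgroup.centralizer ({y} : Set G)) : ℂ) ≠ 0 := by
    have : 0 < Nat.card (Subgroup.centralizer ({y} : Set G)) := Nat.card_pos
    exact_mod_cast this.ne'
  have key := Helper75.card_le_of_galois (Nat.card G) Nat.card_pos.ne' (BF ×ˢ BF)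
    (fun x => Helper75.contrib (Subgroup.centralizer ({y} : Set G)) y b p d
      (x.1 : G → ℂ) (x.2 : G → ℂ))
    (fun x _ => Helper75.contrib_mem_cycField _ y b p d x.1 x.2)
    (fun x _ => Helper75.contrib_isIntegral _ hM y hyC hcent hy hind.1 hbd x.1 x.2)
    (fun x hx => ?_) (p ^ (2 * d) * Cfsg.blockRank p b) ?_
  · rw [Finset.card_product] at key
    rw [hcardB, pow_two]
    exact key
  · rw [Finset.mem_product] at hx
    intro h0
    apply Helper75.contrib_not_memLocalIdeal _ hM y hyC hcent hy hind hbd ((hBF _).mp hx.1)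
      (hh _ ((hBF _).mp hx.1)) ((hBF _).mp hx.2) (hh _ ((hBF _).mp hx.2))
    rw [h0]
    exact Helper77.memLocalIdeal_zero hMm
  · rw [Finset.sum_product]
    have htr := Helper75.contrib_trace_sq hM y hy B b hind BF hBF
    have hterm : ∀ χ ψ : Cfsg.IrrCharacter G,
        Helper75.contrib (Subgroup.centralizer ({y} : Set G)) y b p d (χ : G → ℂ) (ψ : G → ℂ)
          * (starRingEnd ℂ) (Helper75.contrib (Subgroup.centralizer ({y} : Set G)) y b p d
            (χ : G → ℂ) (ψ : G → ℂ))
        = ((p : ℂ) ^ d / (Nat.card (Subgroup.centralizer ({y} : Set G)) : ℂ)) ^ 2 *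
          (Helper77.pregInner p
            (Cfsg.blockPart b (fun c : Subgroup.centralizer ({y} : Set G) => (χ : G → ℂ) (y * c)))
            (Cfsg.blockPart b (fun c : Subgroup.centralizer ({y} : Set G) => (ψ : G → ℂ) (y * c)))
          * (starRingEnd ℂ) (Helper77.pregInner p
            (Cfsg.blockPart b (fun c : Subgroup.centralizer ({y} : Set G) => (χ : G → ℂ) (y * c)))
            (Cfsg.blockPart b
              (fun c : Subgroup.centralizer ({y} : Set G) => (ψ : G → ℂ) (y * c))))) := by
      intro χ ψ
      unfold Helper75.contrib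
      rw [map_mul, map_div₀, map_pow, Complex.conj_natCast, Complex.conj_natCast]
      ring
    simp only [hterm]
    simp only [← Finset.mul_sum]
    rw [htr]
    push_cast
    rw [pow_mul]
    field_simp
    ring

end Cfsg.Agent.S4716
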