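import Cfsg.Statements.S4717
import Cfsg.Agent.Helper75.DefClass

set_option autoImplicit false
open Cfsg

namespace Cfsg.Agent.S4717

/-- Let p be a prime, M a maximal ideal of the algebraic integers containing p, and r a natural number; say that a finite group X has deficiency class r when X has no non-principal p-block of defect ≥ r. If G has deficiency class r then so does the centralizer of every p-element of G; conversely, if r > 0 and the centralizer of every element of order p has deficiency class r, then G has deficiency class r. -/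
theorem result {G : Type*} [Group G] [Finite G] (p : ℕ) [Fact p.Prime] (M : Ideal Cfsg.AlgInt) (hM : Cfsg.IsPModular p M) (r : ℕ) : ((∀ B' : Set (Cfsg.IrrCharacter G), Cfsg.IsPBlock M B' → B' ≠ Cfsg.principalBlock M G → Cfsg.blockDefect p B' < r) → ∀ y : G, (∃ k : ℕ, orderOf y = p ^ k) → (∀ B' : Set (Cfsg.IrrCharacter ↥(Subgroup.centralizer ({y} : Set G))), Cfsg.IsPBlock M B' → B' ≠ Cfsg.principalBlock M ↥(Subgroup.centralizer ({y} : Set G)) → Cfsg.blockDefect p B' < r)) ∧ (0 < r → (∀ y : G, orderOf y = p → (∀ B' : Set (Cfsg.IrrCharacter ↥(Subgroup.centralizer ({y} : Set G))), Cfsg.IsPBlock M B' → B' ≠ Cfsg.principalBlock M ↥(Subgroup.centralizer ({y} : Set G)) → Cfsg.blockDefect p B' < r)) → (∀ B' : Set (Cfsg.IrrCharacter G), Cfsg.IsPBlock M B' → B' ≠ Cfsg.principalBlock M G → Cfsg.blockDefect p B' < r)) := by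
  classical
  haveI : Fintype G := Fintype.ofFinite G
  have hp : p.Prime := Fact.out
  have hMm := hM.2.1
  have hyy : ∀ y : G, y ∈ Subgroup.centralizer ({y} : Set G) := by
    intro y
    rw [Subgroup.mem_centralizer_iff]
    intro h hh
    rw [Set.mem_singleton_iff] at hh
    rw [hh]
  have hPH : ∀ y : G, Subgroup.zpowers y ≤ Subgroup.centralizer ({y} : Set G) := by
    intro y
    rw [Subgroup.zpowers_le]
    exact hyy y
  have hCH : ∀ y : G, Subgroup.centralizer ((Subgroup.zpowers y : Subgroup G) : Set G)
      ≤ Subgroup.centralizer ({y} : Set G) := by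
    intro y
    apply Subgroup.centralizer_le
    intro x hx
    rw [Set.mem_singleton_iff] at hx
    rw [hx]
    exact Subgroup.mem_zpowers y
  have hHC : ∀ y : G, Subgroup.centralizer ({y} : Set G)
      ≤ Subgroup.centralizer ((Subgroup.zpowers y : Subgroup G) : Set G) := by
    intro y
    rw [Subgroup.le_centralizer_iff, Subgroup.zpowers_le, Subgroup.mem_centralizer_iff]
    intro h hh
    have := Subgroup.mem_centralizer_iff.mp hh y rfl
    exact this.symm
  have hHN : ∀ y : G, Subgroup.centralizer ({y} : Set G)
      ≤ Subgroup.normalizer ((Subgroup.zpowers y : Subgroup G) : Set G) := fun y =>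
    (hHC y).trans (Subgroup.centralizer_le_normalizer _)
  refine ⟨fun hG y hy b hb hbne => ?_, fun hr hC B hB hBne => ?_⟩
  · obtain ⟨k, hk⟩ := hy
    haveI : Fintype (Subgroup.centralizer ({y} : Set G)) := Fintype.ofFinite _
    have hP : IsPGroup p (Subgroup.zpowers y) :=
      IsPGroup.of_card (n := k) (by rw [Nat.card_zpowers, hk])
    obtain ⟨B, hind⟩ := Helper16.exists_isInducedBlock hM (Subgroup.zpowers y)
      (Subgroup.centralizer ({y} : Set G)) hP (hPH y) (hCH y) (hHN y) hb
    have hBne : B ≠ Cfsg.principalBlock M G := by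
      intro hBe
      rw [hBe] at hind
      exact hbne ((Helper75.third_main hM _ b ⟨_, hind⟩).mp hind)
    exact lt_of_le_of_lt (Helper75.blockDefect_le_of_isInducedBlock hM _ hind)
      (hG B hind.2.1 hBne)
  · by_contra hcon
    rw [not_lt] at hcon
    obtain ⟨D, hD⟩ := Helper16.exists_isDefectGroup (p := p) hMm hB
    obtain ⟨g₀, hg₀, hDC, -, hDp⟩ := Helper16.isDefectGroup_exists_data hD
    have hcard := Helper77.card_of_isDefectGroup hM hB hD
    have hDnt : Nontrivial D := by
      rw [← Finite.one_lt_card_iff_nontrivial, hcard]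
      exact Nat.one_lt_pow (by omega) hp.one_lt
    have hZnt : Nontrivial (Subgroup.center D) := hDp.center_nontrivial
    have hZp : IsPGroup p (Subgroup.center D) := hDp.to_subgroup _
    obtain ⟨z, hz⟩ : ∃ z : Subgroup.center D, orderOf z = p := by
      apply exists_prime_orderOf_dvd_card' p
      obtain ⟨n, hn⟩ := IsPGroup.iff_card.mp hZp
      rw [hn]
      have hn0 : n ≠ 0 := by
        intro h0
        rw [h0, pow_zero] at hn
        exact (Finite.one_lt_card_iff_nontrivial.mpr hZnt).ne' hn
      exact dvd_pow_self p hn0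
    obtain ⟨y, hy⟩ : ∃ y : G, y = ((z : D) : G) := ⟨_, rfl⟩
    have hyo : orderOf y = p := by
      rw [hy, Subgroup.orderOf_coe, Subgroup.orderOf_coe]
      exact hz
    have hyD : y ∈ D := by rw [hy]; exact (z : D).2
    have hyc : ∀ d ∈ D, d * y = y * d := by
      intro d hd
      have h1 := Subgroup.mem_center_iff.mp z.2 ⟨d, hd⟩
      have h2 := congrArg (fun w : D => (w : G)) h1
      rw [hy]
      exact h2
    haveI : Fintype (Subgroup.centralizer ({y} : Set G)) := Fintype.ofFinite _
    have hP : IsPGroup p (Subgroup.zpowers y) :=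
      IsPGroup.of_card (n := 1) (by rw [Nat.card_zpowers, hyo, pow_one])
    have hg₀y : g₀ ∈ Subgroup.centralizer ({y} : Set G) := by
      rw [Subgroup.mem_centralizer_iff]
      intro h hh
      rw [Set.mem_singleton_iff] at hh
      rw [hh]
      have := Subgroup.mem_centralizer_iff.mp (hDC hyD) g₀ rfl
      exact this.symm
    obtain ⟨b, hind, hbne⟩ := Helper75.exists_isInducedBlock_blockCoeff hM (Subgroup.zpowers y)
      (Subgroup.centralizer ({y} : Set G)) hP (hPH y) (hCH y) (hHN y) hB g₀ (hHC y hg₀y)
      hg₀.2.1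
    have hbnp : b ≠ Cfsg.principalBlock M (Subgroup.centralizer ({y} : Set G)) := by
      intro hbe
      have h1 := (Helper75.third_main hM _ b ⟨_, hind⟩).mpr hbe
      exact hBne (Helper75.isInducedBlock_unique hMm _ hind h1)
    have h1 := Helper77.factorization_centralizer_le_blockDefect hM hind.1 hbne
    have hDH : D ≤ Subgroup.centralizer ({y} : Set G) := by
      intro d hd
      rw [Subgroup.mem_centralizer_iff]
      intro h hh
      rw [Set.mem_singleton_iff] at hh
      rw [hh]
      exact (hyc d hd).symm
    have hD' : D.subgroupOf (Subgroup.centralizer ({y} : Set G))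
        ≤ Subgroup.centralizer ({(⟨g₀, hCH y (hHC y hg₀y)⟩ :
          Subgroup.centralizer ({y} : Set G))} : Set (Subgroup.centralizer ({y} : Set G))) := by
      intro d hd
      rw [Subgroup.mem_subgroupOf] at hd
      rw [Subgroup.mem_centralizer_iff]
      intro h hh
      rw [Set.mem_singleton_iff] at hh
      rw [hh]
      apply Subtype.ext
      exact Subgroup.mem_centralizer_iff.mp (hDC hd) g₀ rfl
    have hcard' : Nat.card (D.subgroupOf (Subgroup.centralizer ({y} : Set G))) = Nat.card D :=
      Nat.card_congr (Subgroup.subgroupOfEquivOfLe hDH).toEquiv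
    have h2 := Subgroup.card_dvd_of_le hD'
    rw [hcard', hcard] at h2
    have h3 := (hp.pow_dvd_iff_le_factorization Nat.card_pos.ne').mp h2
    have h4 := hC y hyo b hind.1 hbnp
    omega

end Cfsg.Agent.S4717
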