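import Cfsg.Statements.S4718
import Cfsg.Agent.Helper82.Landau
import Cfsg.Agent.Helper73.PRegular
import Cfsg.Agent.Helper75.ThirdMain
import Cfsg.Agent.Helper80.CharOrtho
import Cfsg.Agent.Helper15.CharInner

set_option autoImplicit false
universe u
open Cfsg

namespace Cfsg.Agent.S4718

open scoped ComplexConjugate

/-- In a group with only one `p`-block, the number of irreducible characters is at most
`p ^ (2 * a)`, where `p ^ a` is the order of a Sylow `p`-subgroup: the function
`p ^ a · 1_{p-regular}` is a generalized character whose multiplicities at the characters of the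
principal block do not vanish, and its norm is at most `p ^ (2 * a)`. -/
theorem card_irr_le (p : ℕ) [Fact p.Prime] (G : Type u) [Group G] [Fintype G]
    [Fintype (Cfsg.IrrCharacter G)] (M : Ideal Cfsg.AlgInt) (hM : Cfsg.IsPModular p M)
    (hB : ∀ B : Set (Cfsg.IrrCharacter G), Cfsg.IsPBlock M B → B = Cfsg.principalBlock M G) :
    Fintype.card (Cfsg.IrrCharacter G) ≤ p ^ (2 * (Nat.card G).factorization p) := by
  classical
  have hp : p.Prime := Fact.out
  set a := (Nat.card G).factorization p with ha
  let Θ : G → ℂ := fun x => ((p ^ a : ℕ) : ℂ) * Helper75.pregInd p G x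
  have hΘ : Θ ∈ Helper73.genSpanZ G := by
    apply Helper73.pRegular_mem_genSpanZ hp
      (Helper73.isCharacter_mem_genSpanZ (Helper79.isCharacter_one (G := G))) Θ
    · intro x hx
      simp only [Θ, Helper75.pregInd, if_pos hx, ← ha]
    · intro x hx
      simp only [Θ, Helper75.pregInd, if_neg (not_not.mpr hx), mul_zero]
  have hΘc : Cfsg.IsClassFunction G Θ := Helper73.isClassFunction_of_mem_genSpanZ hΘ
  choose m hm using Helper73.classInner_int_of_mem_genSpanZ hΘ
  have hpreg_conj : ∀ g : G, conj (Helper75.pregInd p G g) = Helper75.pregInd p G g := by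
    intro g
    unfold Helper75.pregInd
    split_ifs <;> simp
  have hGC : (Nat.card G : ℂ) ≠ 0 := by
    exact_mod_cast (Nat.card_pos (α := G)).ne'
  have hpa : ((p ^ a : ℕ) : ℂ) ≠ 0 := by
    exact_mod_cast (pow_pos hp.pos a).ne'
  -- the multiplicities do not vanish
  have hm0 : ∀ χ : Cfsg.IrrCharacter G, m χ ≠ 0 := by
    intro χ h0
    have hχ : χ ∈ Cfsg.principalBlock M G := by
      rw [← hB (Cfsg.blockOf M (χ : G → ℂ)) ⟨χ, rfl⟩]
      exact Helper16.sameBlock_refl hM.2.1 _
    have h1 := (Helper75.mem_principalBlock_iff_omega hM χ).mp hχ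
    apply h1
    have h2 := hm χ
    rw [h0, Int.cast_zero] at h2
    unfold Cfsg.classInner at h2
    have h3 : ∑ g : G, Θ g * conj ((χ : G → ℂ) g) = 0 := by
      rcases mul_eq_zero.mp h2 with h | h
      · exact absurd (inv_eq_zero.mp h) hGC
      · exact h
    have h4 : ∑ g : G, Helper75.pregInd p G g * (χ : G → ℂ) g = 0 := by
      have h5 : conj (∑ g : G, Helper75.pregInd p G g * (χ : G → ℂ) g) = 0 := by
        rw [map_sum]
        have h6 : ∑ g : G, Θ g * conj ((χ : G → ℂ) g) =
            ((p ^ a : ℕ) : ℂ) * ∑ g : G, conj (Helper75.pregInd p G g * (χ : G → ℂ) g) := by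
          rw [Finset.mul_sum]
          refine Finset.sum_congr rfl fun g _ => ?_
          rw [map_mul, hpreg_conj]
          simp only [Θ]
          ring
        rw [h6] at h3
        rcases mul_eq_zero.mp h3 with h | h
        · exact absurd h hpa
        · exact h
      exact (map_eq_zero (starRingEnd ℂ)).mp h5
    unfold Helper81.omega
    rw [h4, zero_div]
    exact Helper77.memLocalIdeal_zero hM.2.1
  -- Parseval
  have hpars := Helper15.classInner_eq_sum (θ := Θ) (θ' := Θ) hΘc
  have hsum : (∑ χ : Cfsg.IrrCharacter G, Cfsg.classInner Θ χ * conj (Cfsg.classInner Θ χ)) =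
      ((∑ χ : Cfsg.IrrCharacter G, m χ ^ 2 : ℤ) : ℂ) := by
    push_cast
    refine Finset.sum_congr rfl fun χ _ => ?_
    rw [hm χ]
    simp [sq]
  have hnorm : Cfsg.classInner Θ Θ =
      (Nat.card G : ℂ)⁻¹ * ((p ^ (2 * a) * Helper75.pregCard p G : ℕ) : ℂ) := by
    unfold Cfsg.classInner
    congr 1
    push_cast
    rw [← Helper75.sum_ite_pRegular, Finset.mul_sum]
    refine Finset.sum_congr rfl fun g _ => ?_
    simp only [Θ, Helper75.pregInd]
    split_ifs <;> simp
    ring
  have hZ : (∑ χ : Cfsg.IrrCharacter G, m χ ^ 2 : ℤ) * (Nat.card G : ℤ) =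
      ((p ^ (2 * a) * Helper75.pregCard p G : ℕ) : ℤ) := by
    have h1 : ((∑ χ : Cfsg.IrrCharacter G, m χ ^ 2 : ℤ) : ℂ) * (Nat.card G : ℂ) =
        ((p ^ (2 * a) * Helper75.pregCard p G : ℕ) : ℂ) := by
      rw [← hsum, ← hpars, hnorm]
      field_simp
    exact_mod_cast h1
  have hcount : (Fintype.card (Cfsg.IrrCharacter G) : ℤ) ≤ ∑ χ : Cfsg.IrrCharacter G, m χ ^ 2 := by
    have h1 : ∑ _χ : Cfsg.IrrCharacter G, (1 : ℤ) ≤ ∑ χ : Cfsg.IrrCharacter G, m χ ^ 2 := by
      apply Finset.sum_le_sum
      intro χ _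
      have := hm0 χ
      have h2 : 0 < m χ ^ 2 := by positivity
      omega
    simpa using h1
  have hpreg : Helper75.pregCard p G ≤ Nat.card G := by
    unfold Helper75.pregCard
    exact Nat.card_le_card_of_injective Subtype.val Subtype.val_injective
  have hGpos : 0 < Nat.card G := Nat.card_pos
  have hfin : Fintype.card (Cfsg.IrrCharacter G) * Nat.card G ≤ p ^ (2 * a) * Nat.card G := by
    have h1 : (Fintype.card (Cfsg.IrrCharacter G) : ℤ) * (Nat.card G : ℤ) ≤
        ((p ^ (2 * a) * Helper75.pregCard p G : ℕ) : ℤ) := by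
      rw [← hZ]
      exact mul_le_mul_of_nonneg_right hcount (by positivity)
    have h2 : Fintype.card (Cfsg.IrrCharacter G) * Nat.card G ≤
        p ^ (2 * a) * Helper75.pregCard p G := by exact_mod_cast h1
    exact h2.trans (Nat.mul_le_mul_left _ hpreg)
  exact Nat.le_of_mul_le_mul_right hfin hGpos

/-- Let p be a prime and a a natural number. There is a bound N such that every finite group whose Sylow p-subgroups have order p^a and whose only p-block (relative to a maximal ideal of the algebraic integers containing p) is the principal block has order at most N. -/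
theorem result (p : ℕ) [Fact p.Prime] (a : ℕ) : ∃ N : ℕ, ∀ (G : Type u) [Group G] [Finite G] (M : Ideal Cfsg.AlgInt), Cfsg.IsPModular p M → (Nat.card G).factorization p = a → (∀ B : Set (Cfsg.IrrCharacter G), Cfsg.IsPBlock M B → B = Cfsg.principalBlock M G) → Nat.card G ≤ N := by
  obtain ⟨N, hN⟩ := Helper82.landau_card_bound.{u} (p ^ (2 * a))
  refine ⟨N, ?_⟩
  intro G _ _ M hM ha hB
  classical
  have : Fintype G := Fintype.ofFinite G
  have : Fintype (Cfsg.IrrCharacter G) := Fintype.ofFinite _
  apply hN G
  rw [← Helper80.card_irr_eq_card_conjClasses, ← ha]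
  convert card_irr_le p G M hM hB

end Cfsg.Agent.S4718
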