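import Cfsg.Statements.S4719
import Cfsg.Agent.Helper78.DefRC

set_option autoImplicit false
universe u
open Cfsg

namespace Cfsg.Agent.S4719

/-- For every natural number a there is a bound N with the following property. Let G be a finite group with Sylow 2-subgroups of order 2^a and r ≥ 0 such that G has no non-principal 2-block (relative to a maximal ideal of the algebraic integers containing 2) of defect ≥ r, and suppose a Sylow 2-subgroup of G contains an elementary abelian subgroup of order 2^(r+1). Then the order of G is at most N. -/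
theorem result (a : ℕ) : ∃ N : ℕ, ∀ (G : Type u) [Group G] [Finite G] (M : Ideal Cfsg.AlgInt) (r : ℕ) (P : Sylow 2 G), Cfsg.IsPModular 2 M → Nat.card P = 2 ^ a → (∀ B : Set (Cfsg.IrrCharacter G), Cfsg.IsPBlock M B → B ≠ Cfsg.principalBlock M G → Cfsg.blockDefect 2 B < r) → (∃ E : Subgroup G, E ≤ (P : Subgroup G) ∧ IsMulCommutative E ∧ (∀ x ∈ E, x * x = 1) ∧ Nat.card E = 2 ^ (r + 1)) → Nat.card G ≤ N := by
  classical
  choose b hb using Helper78.exists_chain_bound.{u} a
  refine ⟨(Finset.range (a + 1)).sup b, ?_⟩
  intro G _ _ M r P hM hPcard hG hE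
  obtain ⟨E, hEP, hEcomm, hE2, hEcard⟩ := hE
  have hva : (Nat.card G).factorization 2 = a := by
    have h1 := Sylow.card_eq_multiplicity P
    rw [hPcard] at h1
    exact (Nat.pow_right_injective (le_refl 2) h1).symm
  have hra : r + 1 ≤ a := by
    have h1 := Subgroup.card_le_of_le hEP
    rw [hEcard, hPcard] at h1
    exact (Nat.pow_le_pow_iff_right (by norm_num)).mp h1
  have hEc : ∀ x ∈ E, ∀ y ∈ E, x * y = y * x := by
    intro x hx y hy
    have := hEcomm.is_comm.comm (⟨x, hx⟩ : E) ⟨y, hy⟩
    exact congrArg Subtype.val this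
  have h1 := hb r G M r hM hva.le hG E hEc hE2 hEcard ⊥ bot_le
    (by rw [hEcard, Subgroup.card_bot, one_mul])
  have h2 : Subgroup.centralizer ((⊥ : Subgroup G) : Set G) = ⊤ := by
    rw [Subgroup.centralizer_eq_top_iff_subset]
    intro x hx
    rw [SetLike.mem_coe, Subgroup.mem_bot] at hx
    rw [hx]
    exact Subgroup.one_mem _
  rw [h2, Subgroup.card_top] at h1
  exact h1.trans (Finset.le_sup (f := b) (Finset.mem_range.mpr (by omega)))

end Cfsg.Agent.S4719
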