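import Cfsg.Statements.S4720
import Cfsg.Agent.Helper78.FusionSum

set_option autoImplicit false
open Cfsg

namespace Cfsg.Agent.S4720

/-- Let p be a prime, M a maximal ideal of the algebraic integers containing p, P a p-subgroup of the finite group G, N a subgroup with P ≤ N ≤ N_G(P), and U a nonempty subset of P normalized by N such that an element of U and an element of P that are conjugate in G are already conjugate in N, and such that λ(C_G(y)) = w·#C_N(y) for every y ∈ U with one rational number w, where λ(X) denotes the sum of the squares of the degrees of the irreducible characters in the principal p-block of X. For a complex function θ on P and χ in the principal block of G put a_χ(θ) = #P⁻¹ Σ_{y ∈ P} χ(y) θ(y⁻¹). Then for generalized characters θ, η of P with θ vanishing outside U, Σ_χ a_χ(θ)·conj(a_χ(η)) = (w/#P²)·Σ_{y ∈ P} θ(y)·conj(Σ_{x ∈ N} η(x y x⁻¹)) (η extended by zero off P; the conjugates lie in P), the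 first sum over the principal p-block of G. -/
theorem result {G : Type*} [Group G] [Finite G] (p : ℕ) [Fact p.Prime] (M : Ideal Cfsg.AlgInt) (hM : Cfsg.IsPModular p M) (P : Subgroup G) (hP : IsPGroup p P) (N : Subgroup G) (hPN : P ≤ N) (hNN : N ≤ Subgroup.normalizer (P : Set G)) (U : Set G) (hUne : U.Nonempty) (hUP : U ⊆ (P : Set G)) (hUN : ∀ n ∈ N, ∀ u ∈ U, n * u * n⁻¹ ∈ U) (hfus : ∀ u ∈ U, ∀ g : G, g * u * g⁻¹ ∈ (P : Set G) → ∃ n ∈ N, n * u * n⁻¹ = g * u * g⁻¹) (w : ℚ) (hw : ∀ y ∈ U, ((∑ᶠ ψ ∈ Cfsg.principalBlock M ↥(Subgroup.centralizer ({y} : Set G)), Cfsg.charDegree (ψ : ↥(Subgroup.centralizer ({y} : Set G)) → ℂ) ^ 2) : ℚ) = w * Nat.card ↥(N ⊓ Subgroup.centralizer ({y} : Set G))) (θ η : ↥P → ℂ) (hθ : Cfsg.IsGeneralizedCharacter ↥P θ) (hη : Cfsg.IsGeneralizedCharacter ↥P η) (hθU : ∀ y : ↥P, (y : G) ∉ U → θ y = 0) : ∑ᶠ χ ∈ Cfsg.principalBlock M G, ((Nat.card ↥P : ℂ)⁻¹ * ∑ᶠ y : ↥P, (χ : G → ℂ) (y : G) * θ y⁻¹) * (starRingEnd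 ℂ) ((Nat.card ↥P : ℂ)⁻¹ * ∑ᶠ y : ↥P, (χ : G → ℂ) (y : G) * η y⁻¹) = ((w : ℂ) / ((Nat.card ↥P : ℂ) ^ 2)) * ∑ᶠ y : ↥P, θ y * (starRingEnd ℂ) (∑ᶠ x : ↥N, Cfsg.extendByZero P η ((x : G) * (y : G) * (x : G)⁻¹)) := by
  classical
  letI : Fintype G := Fintype.ofFinite G
  apply Helper78.fusion_sum_main P N hNN U (Cfsg.principalBlock M G) (w : ℂ) ?_ θ η hθU
  intro u hu v
  exact Helper78.principal_fusion_sum hM P N hP (u : G) u.2 (hfus (u : G) hu) w (hw (u : G) hu)
    (v : G) v.2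

end Cfsg.Agent.S4720
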