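import Cfsg.Statements.S4722
import Cfsg.Agent.Helper78.ColVanish

set_option autoImplicit false
open Cfsg

namespace Cfsg.Agent.S4722

/-- Let M be a maximal ideal of the algebraic integers containing 2, P a 2-subgroup of the finite group G, U a subset of P, and t an involution of G such that no element of U is inverted by any conjugate of t. Let θ be a generalized character of P vanishing outside U, and for χ in the principal 2-block B₀ put a_χ = #P⁻¹ Σ_{y ∈ P} χ(y) θ(y⁻¹). Then Σ_{χ ∈ B₀} a_χ χ(t)^2/χ(1) = 0, Σ_{χ ∈ B₀} a_χ χ(1) = 0 and Σ_{χ ∈ B₀} a_χ χ(t) = 0. If moreover #P⁻¹ Σ_{y ∈ P} θ(y) ≠ 0, then either at least two of the a_χ have positive real part and at least two have negative real part, or G has a proper normal subgroup containing O_2'(G) and t. -/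
theorem result {G : Type*} [Group G] [Finite G] (M : Ideal Cfsg.AlgInt) (hM : Cfsg.IsPModular 2 M) (P : Subgroup G) (hP : IsPGroup 2 P) (U : Set G) (hUP : U ⊆ (P : Set G)) (t : G) (ht : orderOf t = 2) (hinv : ∀ u ∈ U, ∀ g : G, (g * t * g⁻¹) * u * (g * t * g⁻¹)⁻¹ ≠ u⁻¹) (θ : ↥P → ℂ) (hθ : Cfsg.IsGeneralizedCharacter ↥P θ) (hθU : ∀ y : ↥P, (y : G) ∉ U → θ y = 0) : (∑ᶠ χ ∈ Cfsg.principalBlock M G, ((Nat.card ↥P : ℂ)⁻¹ * ∑ᶠ y : ↥P, (χ : G → ℂ) (y : G) * θ y⁻¹) * (χ : G → ℂ) t ^ 2 / (χ : G → ℂ) 1 = 0) ∧ (∑ᶠ χ ∈ Cfsg.principalBlock M G, ((Nat.card ↥P : ℂ)⁻¹ * ∑ᶠ y : ↥P, (χ : G → ℂ) (y : G) * θ y⁻¹) * (χ : G → ℂ) 1 = 0) ∧ (∑ᶠ χ ∈ Cfsg.principalBlock M G, ((Nat.card ↥P : ℂ)⁻¹ * ∑ᶠ y : ↥P, (χ : G → ℂ) (y : G) * θ y⁻¹) * (χ : G → ℂ) t = 0) ∧ ((Nat.card ↥P : ℂ)⁻¹ * ∑ᶠ y : ↥P, θ y ≠ 0 → (2 ≤ Nat.card {χ : Cfsg.IrrCharacter G // χ ∈ Cfsg.principalBlock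 M G ∧ 0 < (((Nat.card ↥P : ℂ)⁻¹ * ∑ᶠ y : ↥P, (χ : G → ℂ) (y : G) * θ y⁻¹)).re} ∧ 2 ≤ Nat.card {χ : Cfsg.IrrCharacter G // χ ∈ Cfsg.principalBlock M G ∧ (((Nat.card ↥P : ℂ)⁻¹ * ∑ᶠ y : ↥P, (χ : G → ℂ) (y : G) * θ y⁻¹)).re < 0}) ∨ ∃ K : Subgroup G, K.Normal ∧ K ≠ ⊤ ∧ Cfsg.pPrimeCore 2 G ≤ K ∧ t ∈ K) := by
  classical
  letI : Fintype G := Fintype.ofFinite G
  have : Fact (Nat.Prime 2) := ⟨Nat.prime_two⟩
  have hyP : ∀ y : ↥P, ((y : G)⁻¹) ∈ U → (∃ k : ℕ, orderOf (y : G) = 2 ^ k) ∧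
      ∀ g : G, (g * t * g⁻¹) * (y : G) * (g * t * g⁻¹)⁻¹ ≠ (y : G)⁻¹ := by
    intro y hyU
    refine ⟨?_, ?_⟩
    · obtain ⟨k, hk⟩ := (IsPGroup.iff_orderOf.mp hP) y
      exact ⟨k, by rw [← hk, Subgroup.orderOf_coe]⟩
    · intro g hg
      apply hinv _ hyU g
      have h2 : (g * t * g⁻¹) * (y : G)⁻¹ * (g * t * g⁻¹)⁻¹
          = ((g * t * g⁻¹) * (y : G) * (g * t * g⁻¹)⁻¹)⁻¹ := by group
      rw [h2, hg]
  have I1 := Helper78.col_vanish_gen (B := Cfsg.principalBlock M G) P U θ hθU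
    (fun χ => (χ : G → ℂ) t ^ 2 / (χ : G → ℂ) 1)
    (fun y hy => (Helper78.col_vanish_aux hM ht (hyP y hy).1 (hyP y hy).2).1)
  have I2 := Helper78.col_vanish_gen (B := Cfsg.principalBlock M G) P U θ hθU
    (fun χ => (χ : G → ℂ) 1)
    (fun y hy => (Helper78.col_vanish_aux hM ht (hyP y hy).1 (hyP y hy).2).2.1)
  have I3 := Helper78.col_vanish_gen (B := Cfsg.principalBlock M G) P U θ hθU
    (fun χ => (χ : G → ℂ) t)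
    (fun y hy => (Helper78.col_vanish_aux hM ht (hyP y hy).1 (hyP y hy).2).2.2)
  refine ⟨?_, I2, I3, ?_⟩
  · simp only [mul_div_assoc]
    exact I1
  · intro hne
    apply Helper78.col_vanish_last hM t ht
      (fun χ => (Nat.card ↥P : ℂ)⁻¹ * ∑ᶠ y : ↥P, (χ : G → ℂ) (y : G) * θ y⁻¹) I1 I2 I3
    show ((Nat.card ↥P : ℂ)⁻¹ *
      ∑ᶠ y : ↥P, (Helper81.trivIrr G : G → ℂ) (y : G) * θ y⁻¹).re ≠ 0
    rw [finsum_eq_sum_of_fintype] at hne ⊢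
    simp only [Helper81.trivIrr_apply, one_mul]
    exact Helper78.genChar_sum_re_ne_zero θ hθ hne

end Cfsg.Agent.S4722
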