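import Cfsg.Statements.S4723
import Cfsg.Agent.Helper78.HtZero

set_option autoImplicit false
open Cfsg

namespace Cfsg.Agent.S4723

/-- Let p be a prime, M a maximal ideal of the algebraic integers containing p, H a normal subgroup of the finite group G and b a p-block of H. Let T be the stabilizer of b in G. Then b contains a character θ of height zero whose own stabilizer in G (the elements g with θ(g h g⁻¹) = θ(h) for all h ∈ H) has index prime to p in T, i.e. contains a Sylow p-subgroup of T. -/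
theorem result {G : Type*} [Group G] [Finite G] (p : ℕ) [Fact p.Prime] (M : Ideal Cfsg.AlgInt) (hM : Cfsg.IsPModular p M) (H : Subgroup G) [H.Normal] (b : Set (Cfsg.IrrCharacter ↥H)) (hb : Cfsg.IsPBlock M b) (T : Subgroup G) (hT : (∀ g : G, g ∈ T ↔ ∀ θ ∈ b, ∀ θ' : Cfsg.IrrCharacter ↥H, (∀ h h' : ↥H, (h' : G) = g * h * g⁻¹ → (θ' : ↥H → ℂ) h' = (θ : ↥H → ℂ) h) → θ' ∈ b)) : ∃ θ ∈ b, Cfsg.blockHeight p b (θ : ↥H → ℂ) = 0 ∧ ∃ S : Subgroup G, S ≤ T ∧ (∀ g : G, g ∈ S ↔ (g ∈ T ∧ ∀ h h' : ↥H, (h' : G) = g * h * g⁻¹ → (θ : ↥H → ℂ) h' = (θ : ↥H → ℂ) h)) ∧ ¬ p ∣ S.relIndex T := by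
  classical
  have hMm := hM.2.1
  have hp : p.Prime := Fact.out
  have : Fintype G := Fintype.ofFinite G
  have : Fintype H := Fintype.ofFinite H
  -- stability under `T`
  have hst : ∀ t ∈ T, ∀ θ ∈ b, Helper16.irrConj H t θ ∈ b := by
    intro t ht θ hθ
    refine (hT t).mp ht θ hθ (Helper16.irrConj H t θ) (fun h h' hh' => ?_)
    rw [Helper16.irrConj_apply]
    refine congrArg (θ : H → ℂ) (Subtype.ext ?_)
    show t⁻¹ * (h' : G) * t = (h : G)
    rw [hh']
    group
  -- `H ≤ T`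
  have hHT : H ≤ T := by
    intro g hg
    rw [hT]
    intro θ hθ θ' hθ'
    have e : θ' = θ := by
      apply Subtype.ext
      funext h'
      have h1 := hθ' ((⟨g, hg⟩ : H)⁻¹ * h' * ⟨g, hg⟩) h' (by
        push_cast
        group)
      rw [h1]
      have h2 := Helper81.irr_isClassFunction θ h' ((⟨g, hg⟩ : H)⁻¹)
      rwa [inv_inv] at h2
    rw [e]
    exact hθ
  obtain ⟨P⟩ : Nonempty (Sylow p T) := inferInstance
  obtain ⟨P', hP'⟩ : ∃ P' : Subgroup G, P' = (P : Subgroup T).map T.subtype := ⟨_, rfl⟩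
  obtain ⟨T₁, hT₁⟩ : ∃ T₁ : Subgroup G, T₁ = H ⊔ P' := ⟨_, rfl⟩
  have hHT₁ : H ≤ T₁ := by rw [hT₁]; exact le_sup_left
  have hPT₁ : P' ≤ T₁ := by rw [hT₁]; exact le_sup_right
  have hT₁T : T₁ ≤ T := by
    rw [hT₁, hP']
    exact sup_le hHT (Subgroup.map_subtype_le _)
  obtain ⟨N, hN⟩ : ∃ N : Subgroup T₁, N = H.subgroupOf T₁ := ⟨_, rfl⟩
  have : N.Normal := by rw [hN]; infer_instance
  obtain ⟨σ, hσ⟩ : ∃ σ : N ≃* H, ∀ k : N, ((σ k : H) : G) = ((k : T₁) : G) := by
    subst hN
    exact ⟨Subgroup.subgroupOfEquivOfLe hHT₁, fun k => rfl⟩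
  have hσs : ∀ h : H, (((σ.symm h : N) : T₁) : G) = (h : G) := by
    intro h
    rw [← hσ, MulEquiv.apply_symm_apply]
  have hb₁ : Cfsg.IsPBlock M (Helper75.irrComp σ '' b) := Helper75.isPBlock_image_irrComp σ hb
  have hinv₁ : ∀ g : T₁, ∀ θ₁ ∈ Helper75.irrComp σ '' b,
      Helper16.irrConj N g θ₁ ∈ Helper75.irrComp σ '' b := by
    rintro g θ₁ ⟨θ, hθ, rfl⟩
    refine ⟨Helper16.irrConj H (g : G) θ, hst g (hT₁T g.2) θ hθ, ?_⟩
    apply Subtype.ext
    funext k
    rw [Helper75.irrComp_apply, Helper16.irrConj_apply, Helper16.irrConj_apply,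
      Helper75.irrComp_apply]
    refine congrArg (θ : H → ℂ) (Subtype.ext ?_)
    refine Eq.trans ?_ (hσ _).symm
    show (g : G)⁻¹ * ((σ k : H) : G) * (g : G) = (g : G)⁻¹ * ((k : T₁) : G) * (g : G)
    rw [hσ k]
  have : Fintype T₁ := Fintype.ofFinite _
  have : Fintype N := Fintype.ofFinite _
  obtain ⟨θ₁, ⟨θ, hθb, rfl⟩, hht, hI⟩ :=
    Helper78.exists_height_zero_invariant N hM hb₁ hinv₁
  have hdeg : ∀ ψ : Cfsg.IrrCharacter H,
      Cfsg.charDegree (Helper75.irrComp σ ψ : N → ℂ) = Cfsg.charDegree (ψ : H → ℂ) := by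
    intro ψ
    unfold Cfsg.charDegree
    rw [Helper75.irrComp_apply, map_one]
  refine ⟨θ, hθb, ?_, T ⊓ Helper78.inertia H (θ : H → ℂ), inf_le_left, ?_, ?_⟩
  · unfold Cfsg.blockHeight at hht ⊢
    have e2 : (fun ψ : Cfsg.IrrCharacter N => (Cfsg.charDegree (ψ : N → ℂ)).factorization p) ''
        (Helper75.irrComp σ '' b)
        = (fun ψ : Cfsg.IrrCharacter H => (Cfsg.charDegree (ψ : H → ℂ)).factorization p) '' b := by
      rw [Set.image_image]
      apply Set.image_congr
      intro ψ _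
      show (Cfsg.charDegree (Helper75.irrComp σ ψ : N → ℂ)).factorization p = _
      rw [hdeg]
    rw [hdeg, e2] at hht
    exact hht
  · intro g
    rw [Subgroup.mem_inf, Helper78.mem_inertia_iff]
    constructor
    · rintro ⟨hgT, hg⟩
      refine ⟨hgT, fun h h' hh' => ?_⟩
      have h1 := congrFun hg h
      rw [Helper75.conjFun_apply] at h1
      rw [← h1]
      exact congrArg (θ : H → ℂ) (Subtype.ext hh')
    · rintro ⟨hgT, hg⟩
      refine ⟨hgT, funext fun h => ?_⟩
      rw [Helper75.conjFun_apply]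
      exact hg h _ rfl
  · have hST : T ⊓ Helper78.inertia H (θ : H → ℂ) ≤ T := inf_le_left
    have himg : (Helper78.inertia N (Helper75.irrComp σ θ : N → ℂ)).map T₁.subtype
        ≤ T ⊓ Helper78.inertia H (θ : H → ℂ) := by
      rintro _ ⟨g, hg, rfl⟩
      refine Subgroup.mem_inf.mpr ⟨hT₁T g.2, ?_⟩
      rw [Helper78.mem_inertia_iff]
      funext h
      have h1 := congrFun ((Helper78.mem_inertia_iff N _ g).mp hg) (σ.symm h)
      rw [Helper75.conjFun_apply, Helper75.irrComp_apply, Helper75.irrComp_apply,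
        MulEquiv.apply_symm_apply] at h1
      rw [Helper75.conjFun_apply, ← h1]
      refine congrArg (θ : H → ℂ) (Subtype.ext ?_)
      rw [hσ]
      show (g : G) * (h : G) * (g : G)⁻¹ = (g : G) * (((σ.symm h : N) : T₁) : G) * (g : G)⁻¹
      rw [hσs]
    have hcard : Nat.card ((Helper78.inertia N (Helper75.irrComp σ θ : N → ℂ)).map T₁.subtype)
        = Nat.card (Helper78.inertia N (Helper75.irrComp σ θ : N → ℂ)) :=
      Subgroup.card_map_of_injective T₁.subtype_injective
    have hdvd : Nat.card (Helper78.inertia N (Helper75.irrComp σ θ : N → ℂ))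
        ∣ Nat.card (T ⊓ Helper78.inertia H (θ : H → ℂ) : Subgroup G) := by
      rw [← hcard]
      exact Subgroup.card_dvd_of_le himg
    have hPcard : Nat.card P' = p ^ (Nat.card T).factorization p := by
      rw [hP', Subgroup.card_map_of_injective T.subtype_injective]
      exact P.card_eq_multiplicity
    have hPdvd : p ^ (Nat.card T).factorization p ∣ Nat.card T₁ := by
      rw [← hPcard]
      exact Subgroup.card_dvd_of_le hPT₁
    have h1 : (Nat.card T).factorization p ≤ (Nat.card T₁).factorization p :=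
      (hp.pow_dvd_iff_le_factorization Nat.card_pos.ne').mp hPdvd
    have h2 : (Nat.card (Helper78.inertia N (Helper75.irrComp σ θ : N → ℂ))).factorization p
        ≤ (Nat.card (T ⊓ Helper78.inertia H (θ : H → ℂ) : Subgroup G)).factorization p :=
      (Nat.factorization_le_iff_dvd Nat.card_pos.ne' Nat.card_pos.ne').mpr hdvd p
    have h3 := Subgroup.relIndex_mul_relIndex (⊥ : Subgroup G)
      (T ⊓ Helper78.inertia H (θ : H → ℂ)) T bot_le hST
    rw [Subgroup.relIndex_bot_left, Subgroup.relIndex_bot_left] at h3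
    intro hdvd'
    have hne : (T ⊓ Helper78.inertia H (θ : H → ℂ)).relIndex T ≠ 0 := by
      intro h0
      rw [h0, mul_zero] at h3
      exact Nat.card_pos.ne' h3.symm
    have h4 : (Nat.card T).factorization p
        = (Nat.card (T ⊓ Helper78.inertia H (θ : H → ℂ) : Subgroup G)).factorization p
          + ((T ⊓ Helper78.inertia H (θ : H → ℂ)).relIndex T).factorization p := by
      rw [← h3, Nat.factorization_mul Nat.card_pos.ne' hne]
      rfl
    have h5 : 1 ≤ ((T ⊓ Helper78.inertia H (θ : H → ℂ)).relIndex T).factorization p :=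
      (hp.dvd_iff_one_le_factorization hne).mp hdvd'
    omega

end Cfsg.Agent.S4723
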