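import Cfsg.Statements.S4725
import Cfsg.Agent.Helper73.IndHeightZero

set_option autoImplicit false
open Cfsg

namespace Cfsg.Agent.S4725

/-- Let p be a prime, M a maximal ideal of the algebraic integers containing p, H a subgroup of the finite group G, and b a p-block of H inducing the p-block B of G, with b and B of the same defect. Then for every height-zero ζ ∈ b there is a height-zero χ ∈ B whose multiplicity in the character induced from ζ is not divisible by p. -/
theorem result {G : Type*} [Group G] [Fintype G] (p : ℕ) [Fact p.Prime] (M : Ideal Cfsg.AlgInt) (hM : Cfsg.IsPModular p M) (H : Subgroup G) (b : Set (Cfsg.IrrCharacter ↥H)) (B : Set (Cfsg.IrrCharacter G)) (hind : Cfsg.IsInducedBlock M H b B) (hdef : Cfsg.blockDefect p b = Cfsg.blockDefect p B) (ζ : Cfsg.IrrCharacter ↥H) (hζ : ζ ∈ b) (hζ0 : Cfsg.blockHeight p b (ζ : ↥H → ℂ) = 0) : ∃ χ ∈ B, Cfsg.blockHeight p B (χ : G → ℂ) = 0 ∧ ∃ a : ℕ, Cfsg.classInner (Cfsg.indFun H (ζ : ↥H → ℂ)) (χ : G → ℂ) = (a : ℂ) ∧ ¬ p ∣ a :=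 by
  have : Fintype ↥H := Fintype.ofFinite ↥H
  exact Cfsg.Agent.Helper73.exists_height_zero_indFun_not_dvd hM H hind hdef hζ hζ0

end Cfsg.Agent.S4725
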