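import Cfsg.Statements.S4726
import Cfsg.Agent.Helper80.InducedDefect

set_option autoImplicit false
open Cfsg

namespace Cfsg.Agent.S4726

/-- Let p be a prime, M a maximal ideal of the algebraic integers containing p, H a subgroup of the finite group G and b a p-block of H with defect group D₀ such that C_G(D₀) ≤ H. Then b induces a block of G, and for every block B of G induced by b there is a defect group D of B with Z(D) ≤ Z(D₀) ≤ D₀ ≤ D (as subgroups of G). In particular, if the defect groups of B are abelian then D₀ is a defect group of B. -/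
theorem result {G : Type*} [Group G] [Finite G] (p : ℕ) [Fact p.Prime] (M : Ideal Cfsg.AlgInt) (hM : Cfsg.IsPModular p M) (H : Subgroup G) (b : Set (Cfsg.IrrCharacter ↥H)) (hb : Cfsg.IsPBlock M b) (D₀ : Subgroup ↥H) (hD₀ : Cfsg.IsDefectGroup p M b D₀) (hC : Subgroup.centralizer ((D₀.map H.subtype : Subgroup G) : Set G) ≤ H) : Cfsg.InducedBlockDefined M H b ∧ ∀ B : Set (Cfsg.IrrCharacter G), Cfsg.IsInducedBlock M H b B → (∃ D : Subgroup G, Cfsg.IsDefectGroup p M B D ∧ (Subgroup.center ↥D).map D.subtype ≤ ((Subgroup.center ↥D₀).map D₀.subtype).map H.subtype ∧ ((Subgroup.center ↥D₀).map D₀.subtype).map H.subtype ≤ D₀.map H.subtype ∧ D₀.map H.subtype ≤ D) ∧ (∀ D : Subgroup G, Cfsg.IsDefectGroup p M B D → IsMulCommutative ↥D → Cfsg.IsDefectGroup p M B (D₀.map H.subtype)) := by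
  classical
  have : Fintype G := Fintype.ofFinite G
  have : Fintype H := Fintype.ofFinite H
  have hMm : M.IsMaximal := hM.2.1
  obtain ⟨D₀', hD₀'⟩ : ∃ D₀' : Subgroup G, D₀' = D₀.map H.subtype := ⟨_, rfl⟩
  have hD₀'H : D₀' ≤ H := by rw [hD₀']; exact Subgroup.map_subtype_le _
  have hsub : D₀'.subgroupOf H = D₀ := by
    rw [hD₀']
    ext x
    rw [Subgroup.mem_subgroupOf]
    constructor
    · rintro ⟨t, ht, hx⟩
      have : t = x := Subtype.ext hx
      rwa [← this]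
    · intro hx
      exact ⟨x, hx, rfl⟩
  rw [← hD₀'] at hC
  have hbD : Cfsg.IsDefectGroup p M b (D₀'.subgroupOf H) := by rw [hsub]; exact hD₀
  have hD₀p : IsPGroup p D₀' := by
    obtain ⟨-, -, -, -, h1⟩ := Cfsg.Agent.Helper16.isDefectGroup_exists_data hD₀
    rw [hD₀']
    exact h1.map H.subtype
  obtain ⟨L₀, hL₀⟩ : ∃ L₀ : Subgroup G, L₀ = D₀' ⊔ Subgroup.centralizer (D₀' : Set G) := ⟨_, rfl⟩
  have : Fintype L₀ := Fintype.ofFinite L₀
  obtain ⟨θ, hθD, hθcong⟩ := Cfsg.Agent.Helper80.exists_root hM H D₀' hD₀'H hC L₀ hL₀ hb hbD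
  refine ⟨?_, fun B hB => ?_⟩
  · -- the induced block is defined
    have hL₀N : L₀ ≤ Subgroup.normalizer (D₀' : Set G) := by
      rw [hL₀]; exact sup_le Subgroup.le_normalizer (Subgroup.centralizer_le_normalizer _)
    obtain ⟨B₀, hind⟩ := Cfsg.Agent.Helper16.exists_isInducedBlock hM D₀' L₀ hD₀p
      (by rw [hL₀]; exact le_sup_left) (by rw [hL₀]; exact le_sup_right) hL₀N
      (⟨θ, rfl⟩ : Cfsg.IsPBlock M (Cfsg.blockOf M (θ : L₀ → ℂ)))
    refine ⟨B₀, hb, hind.2.1, fun ξ hξ χ hχ g => ?_⟩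
    have h1 := hind.2.2 θ (Cfsg.Agent.Helper16.sameBlock_refl hMm _) χ hχ g
    have h2 := Cfsg.Agent.Helper77.memLocalIdeal_sub hMm h1 (hθcong ξ hξ g)
    rwa [sub_sub_sub_cancel_left] at h2
  · obtain ⟨ξ, hξ⟩ := Cfsg.Agent.Helper16.exists_mem_of_isPBlock hMm hB.1
    obtain ⟨χ, hχ⟩ := Cfsg.Agent.Helper16.exists_mem_of_isPBlock hMm hB.2.1
    have hbξ := Cfsg.Agent.Helper16.eq_blockOf_of_mem hMm hB.1 hξ
    have hBχ := Cfsg.Agent.Helper16.eq_blockOf_of_mem hMm hB.2.1 hχ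
    rw [hbξ] at hbD
    obtain ⟨D, hD, hle, hZ⟩ := Cfsg.Agent.Helper80.exists_defectGroup_center_le hM _ D₀' H ξ χ rfl
      hD₀'H hC hbD (fun g => hB.2.2 ξ hξ χ hχ g)
    rw [← hBχ] at hD
    refine ⟨⟨D, hD, ?_, ?_, ?_⟩, fun D₂ hD₂ hab => ?_⟩
    · rintro _ ⟨c, hc, rfl⟩
      have hcz : ∀ d ∈ D, (c : G) * d = d * (c : G) := by
        intro d hd
        have h1 := Subgroup.mem_center_iff.mp hc ⟨d, hd⟩
        exact (congrArg Subtype.val h1).symm
      have h1 : (c : G) ∈ D₀' := hZ (c : G) c.2 hcz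
      rw [hD₀'] at h1
      obtain ⟨h₀, hh₀, hz⟩ := h1
      refine ⟨h₀, ⟨⟨h₀, hh₀⟩, ?_, rfl⟩, hz⟩
      rw [SetLike.mem_coe, Subgroup.mem_center_iff]
      intro g
      apply Subtype.ext
      apply Subtype.ext
      show ((g : H) : G) * (h₀ : G) = (h₀ : G) * ((g : H) : G)
      have hgD : ((g : H) : G) ∈ D := hle (by rw [hD₀']; exact ⟨(g : H), g.2, rfl⟩)
      have h2 := hcz _ hgD
      have hz' : (h₀ : G) = (c : G) := hz
      rw [hz']
      exact h2.symm
    · exact Subgroup.map_mono (Subgroup.map_subtype_le _)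
    · rw [← hD₀']; exact hle
    · -- abelian defect groups
      have hconj := Cfsg.Agent.Helper16.isDefectGroup_conjLE hM hB.2.1 hD hD₂
      obtain ⟨x, hx⟩ := hconj
      have hDab : ∀ z ∈ D, ∀ d ∈ D, z * d = d * z := by
        intro z hz d hd
        have h1 : (⟨x * z * x⁻¹, hx z hz⟩ : D₂) * ⟨x * d * x⁻¹, hx d hd⟩
            = ⟨x * d * x⁻¹, hx d hd⟩ * ⟨x * z * x⁻¹, hx z hz⟩ := hab.is_comm.comm _ _
        have h2 : x * z * x⁻¹ * (x * d * x⁻¹) = x * d * x⁻¹ * (x * z * x⁻¹) :=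
          congrArg Subtype.val h1
        have h3 : x * (z * d) * x⁻¹ = x * (d * z) * x⁻¹ := by
          calc x * (z * d) * x⁻¹ = x * z * x⁻¹ * (x * d * x⁻¹) := by group
            _ = x * d * x⁻¹ * (x * z * x⁻¹) := h2
            _ = x * (d * z) * x⁻¹ := by group
        exact mul_left_cancel (mul_right_cancel h3)
      have heq : D = D₀' := le_antisymm (fun z hz => hZ z hz (hDab z hz)) hle
      rw [← hD₀', ← heq]
      exact hD

end Cfsg.Agent.S4726
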