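import Cfsg.Statements.S4727
import Cfsg.Agent.Helper78.KerSection

set_option autoImplicit false
open Cfsg

namespace Cfsg.Agent.S4727

/-- Let p be a prime, π a set of primes containing p, M a maximal ideal of the algebraic integers containing p, and B a p-block of the finite group G with defect group D; let B₁ be the block of N_G(D) with defect group D that induces B (the Brauer correspondent of B). Suppose every element of O_π'(N_G(D)), the largest normal subgroup of N_G(D) whose order has no prime divisor in π, lies in the kernel of every member of B₁. If y is a p-element whose centralizer C has a normal Hall π'-subgroup (every element of C whose order has no prime divisor in π lies in O_π'(C)), then χ(y x) = χ(y) for every χ ∈ B and every x ∈ C whose order has no prime divisor in π. -/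
theorem result {G : Type*} [Group G] [Finite G] (p : ℕ) [Fact p.Prime] (M : Ideal Cfsg.AlgInt) (hM : Cfsg.IsPModular p M) (π : Set ℕ) (hpπ : p ∈ π) (B : Set (Cfsg.IrrCharacter G)) (hB : Cfsg.IsPBlock M B) (D : Subgroup G) (hBD : Cfsg.IsDefectGroup p M B D) (B₁ : Set (Cfsg.IrrCharacter ↥(Subgroup.normalizer (D : Set G)))) (hB₁ : Cfsg.IsInducedBlock M (Subgroup.normalizer (D : Set G)) B₁ B) (hB₁D : Cfsg.IsDefectGroup p M B₁ (D.subgroupOf (Subgroup.normalizer (D : Set G)))) (hker : ∀ n : ↥(Subgroup.normalizer (D : Set G)), n ∈ Cfsg.piCore {q | q ∉ π} ↥(Subgroup.normalizer (D : Set G)) → n ∈ Cfsg.blockKer B₁) (y : G) (hy : ∃ k : ℕ, orderOf y = p ^ k) (hC : ∀ x : ↥(Subgroup.centralizer ({y} : Set G)), (∀ q : ℕ, q.Prime → q ∣ orderOf x → q ∉ π) → x ∈ Cfsg.piCore {q | q ∉ π} ↥(Subgroup.centralizer ({y} : Set G))) : ∀ χ ∈ B, ∀ x : G, x ∈ Subgroup.centralizer ({y} : Set G) → (∀ q : ℕ, q.Prime → q ∣ orderOf x → q ∉ π) → (χ : G → ℂ) (y * x) = (χ : G → ℂ) y := by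
  intro χ hχ x hxC hxπ
  classical
  have hMm := hM.2.1
  have hp : p.Prime := Fact.out
  have := Fintype.ofFinite G
  let _ : Fintype ↥(Subgroup.centralizer ({y} : Set G)) := Fintype.ofFinite _
  have : Fintype (Cfsg.IrrCharacter ↥(Subgroup.centralizer ({y} : Set G))) := Fintype.ofFinite _
  obtain ⟨S, hS⟩ : ∃ S : Finset (Cfsg.IrrCharacter ↥(Subgroup.centralizer ({y} : Set G))),
      ∀ ψ, ψ ∈ S ↔ Cfsg.Agent.Helper78.IndChar M (Subgroup.centralizer ({y} : Set G)) ψ B :=
    ⟨Finset.univ.filter (fun ψ =>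
      Cfsg.Agent.Helper78.IndChar M (Subgroup.centralizer ({y} : Set G)) ψ B), by
      intro ψ
      simp⟩
  have hyC : y ∈ Subgroup.centralizer ({y} : Set G) := by
    rw [Subgroup.mem_centralizer_iff]
    intro h hh
    rw [Set.mem_singleton_iff] at hh
    rw [hh]
  have hx'reg : ¬ p ∣ orderOf (⟨x, hxC⟩ : ↥(Subgroup.centralizer ({y} : Set G))) := by
    intro hd
    rw [Subgroup.orderOf_mk] at hd
    exact hxπ p hp hd hpπ
  have h1reg : ¬ p ∣ orderOf (1 : ↥(Subgroup.centralizer ({y} : Set G))) := by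
    rw [orderOf_one]
    exact fun h => hp.one_lt.ne' (Nat.dvd_one.mp h)
  have e1 := Cfsg.Agent.Helper78.section_expand_induced hM y hy hB χ hχ S hS ⟨x, hxC⟩ hx'reg
  have e2 := Cfsg.Agent.Helper78.section_expand_induced hM y hy hB χ hχ S hS 1 h1reg
  have hx'core : (⟨x, hxC⟩ : ↥(Subgroup.centralizer ({y} : Set G)))
      ∈ Cfsg.piCore {q | q ∉ π} ↥(Subgroup.centralizer ({y} : Set G)) := by
    apply hC
    intro q hq hqd
    rw [Subgroup.orderOf_mk] at hqd
    exact hxπ q hq hqd
  have hker' : ∀ ψ ∈ S, (ψ : ↥(Subgroup.centralizer ({y} : Set G)) → ℂ) ⟨x, hxC⟩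
      = (ψ : ↥(Subgroup.centralizer ({y} : Set G)) → ℂ) 1 := by
    intro ψ hψ
    rw [hS] at hψ
    obtain ⟨R, hR⟩ := Cfsg.Agent.Helper16.exists_isDefectGroup (p := p) hMm
      (B := Cfsg.blockOf M (ψ : ↥(Subgroup.centralizer ({y} : Set G)) → ℂ)) ⟨ψ, rfl⟩
    have hZn : (Subgroup.zpowers (⟨y, hyC⟩ : ↥(Subgroup.centralizer ({y} : Set G)))).Normal := by
      constructor
      intro z hz c
      obtain ⟨k, rfl⟩ := Subgroup.mem_zpowers_iff.mp hz
      have hcomm : Commute c (⟨y, hyC⟩ : ↥(Subgroup.centralizer ({y} : Set G))) := by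
        apply Subtype.ext
        exact (Subgroup.mem_centralizer_iff.mp c.2 y rfl).symm
      have h2 : c * (⟨y, hyC⟩ : ↥(Subgroup.centralizer ({y} : Set G))) ^ k * c⁻¹
          = (⟨y, hyC⟩ : ↥(Subgroup.centralizer ({y} : Set G))) ^ k := by
        rw [(hcomm.zpow_right k).eq, mul_inv_cancel_right]
      rw [h2]
      exact Subgroup.zpow_mem_zpowers _ k
    have hZp : IsPGroup p (Subgroup.zpowers
        (⟨y, hyC⟩ : ↥(Subgroup.centralizer ({y} : Set G)))) := by
      obtain ⟨k, hk⟩ := hy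
      apply IsPGroup.of_card (n := k)
      rw [Nat.card_zpowers, Subgroup.orderOf_mk, hk]
    have hZR := Cfsg.Agent.Helper16.normal_pSubgroup_le_defectGroup hM
      (Subgroup.zpowers (⟨y, hyC⟩ : ↥(Subgroup.centralizer ({y} : Set G)))) hZp ⟨ψ, rfl⟩ hR
    have hyR : y ∈ R.map (Subgroup.centralizer ({y} : Set G)).subtype :=
      ⟨⟨y, hyC⟩, hZR (Subgroup.mem_zpowers _), rfl⟩
    have hCR : Subgroup.centralizer
        ((R.map (Subgroup.centralizer ({y} : Set G)).subtype : Subgroup G) : Set G)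
        ≤ Subgroup.centralizer ({y} : Set G) :=
      Subgroup.centralizer_le (Set.singleton_subset_iff.mpr hyR)
    exact Cfsg.Agent.Helper78.ker_of_induced hM hpπ hB hBD hB₁ hker _
      (Subgroup.centralizer ({y} : Set G)) ψ R hψ hR hCR rfl ⟨x, hxC⟩ hx'core ψ
      (Cfsg.Agent.Helper16.sameBlock_refl hMm _)
  have e3 : (χ : G → ℂ) (y * x) = (χ : G → ℂ) (y * 1) := by
    have e1' : (χ : G → ℂ) (y * x) = _ := e1
    have e2' : (χ : G → ℂ) (y * 1) = _ := e2
    rw [e1', e2']
    exact Finset.sum_congr rfl (fun ψ hψ => by rw [hker' ψ hψ])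
  rw [e3, mul_one]

end Cfsg.Agent.S4727
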