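import Cfsg.Statements.S4728
import Cfsg.Agent.Helper78.KerUp

set_option autoImplicit false
open Cfsg

namespace Cfsg.Agent.S4728

/-- Let p be a prime, π a set of primes containing p, M a maximal ideal of the algebraic integers containing p, B a p-block of the finite group G with defect group D, and B₁ the block of N_G(D) with defect group D inducing B. Let D₀ be a p-subgroup, H₀ = D₀·C_G(D₀), and b a block of H₀ inducing B. Write O_π'(X) for the largest normal subgroup of X whose order has no prime divisor in π. Suppose that O_π'(C_G(D₀)) is a normal Hall π'-subgroup of C_G(D₀) (it contains every element of C_G(D₀) whose order has no prime divisor in π) and that every element of it lies in the kernel of every member of b. Then every element of O_π'(N_G(D)) lies in the kernel of every member of B₁. -/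
theorem result {G : Type*} [Group G] [Finite G] (p : ℕ) [Fact p.Prime] (M : Ideal Cfsg.AlgInt) (hM : Cfsg.IsPModular p M) (π : Set ℕ) (hpπ : p ∈ π) (B : Set (Cfsg.IrrCharacter G)) (hB : Cfsg.IsPBlock M B) (D : Subgroup G) (hBD : Cfsg.IsDefectGroup p M B D) (B₁ : Set (Cfsg.IrrCharacter ↥(Subgroup.normalizer (D : Set G)))) (hB₁ : Cfsg.IsInducedBlock M (Subgroup.normalizer (D : Set G)) B₁ B) (hB₁D : Cfsg.IsDefectGroup p M B₁ (D.subgroupOf (Subgroup.normalizer (D : Set G)))) (D₀ : Subgroup G) (hD₀ : IsPGroup p D₀) (H₀ : Subgroup G) (hH₀ : H₀ = D₀ ⊔ Subgroup.centralizer (D₀ : Set G)) (b : Set (Cfsg.IrrCharacter ↥H₀)) (hb : Cfsg.IsInducedBlock M H₀ b B) (hcompl : ∀ x : ↥(Subgroup.centralizer (D₀ : Set G)), (∀ q : ℕ, q.Prime → q ∣ orderOf x → q ∉ π) → x ∈ Cfsg.piCore {q | q ∉ π} ↥(Subgroup.centralizer (D₀ : Set G))) (hkerb : ∀ x : ↥(Subgroup.centralizer (D₀ : Set G)), x ∈ Cfsg.piCore {q | q ∉ π} ↥(Subgroup.centralizer (D₀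 : Set G)) → ∀ θ ∈ b, ∀ h : ↥H₀, (h : G) = (x : G) → (θ : ↥H₀ → ℂ) h = (θ : ↥H₀ → ℂ) 1) : ∀ n : ↥(Subgroup.normalizer (D : Set G)), n ∈ Cfsg.piCore {q | q ∉ π} ↥(Subgroup.normalizer (D : Set G)) → n ∈ Cfsg.blockKer B₁ := by
  classical
  have hMm := hM.2.1
  have : Fintype H₀ := Fintype.ofFinite _
  obtain ⟨θ, hθ⟩ := Cfsg.Agent.Helper16.exists_mem_of_isPBlock hMm hb.1
  have hQL : D₀ ≤ H₀ := hH₀ ▸ le_sup_left
  have hCL : Subgroup.centralizer (D₀ : Set G) ≤ H₀ := hH₀ ▸ le_sup_right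
  have hLN : H₀ ≤ Subgroup.normalizer (D₀ : Set G) :=
    hH₀ ▸ sup_le Subgroup.le_normalizer (Subgroup.centralizer_le_normalizer _)
  have hKchar : ∀ x, x ∈ Cfsg.Agent.Helper31.gcoreIn (Cfsg.Agent.Helper78.piNum {q | q ∉ π})
      (Subgroup.centralizer (D₀ : Set G)) ↔ x ∈ Subgroup.centralizer (D₀ : Set G) ∧
        ∀ q : ℕ, q.Prime → q ∣ orderOf x → q ∉ π := by
    intro x
    constructor
    · intro hx
      refine ⟨Cfsg.Agent.Helper31.gcoreIn_le _ _ hx, fun q hq hqd => ?_⟩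
      exact Cfsg.Agent.Helper31.card_gcoreIn (Cfsg.Agent.Helper78.piNum_isOrderClass {q | q ∉ π})
        (Subgroup.centralizer (D₀ : Set G)) q hq
        (hqd.trans (Subgroup.orderOf_dvd_natCard _ hx))
    · rintro ⟨hx, hxo⟩
      have h1 := hcompl ⟨x, hx⟩ (by
        intro q hq hqd
        apply hxo q hq
        rwa [Subgroup.orderOf_mk] at hqd)
      exact (Cfsg.Agent.Helper78.mem_gcoreIn_iff _ _ ⟨x, hx⟩).mpr h1
  have hθK : ∀ l : H₀, (l : G) ∈ Cfsg.Agent.Helper31.gcoreIn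
      (Cfsg.Agent.Helper78.piNum {q | q ∉ π}) (Subgroup.centralizer (D₀ : Set G)) →
      (θ : ↥H₀ → ℂ) l = (θ : ↥H₀ → ℂ) 1 := by
    intro l hl
    have hlC := Cfsg.Agent.Helper31.gcoreIn_le _ _ hl
    exact hkerb ⟨(l : G), hlC⟩
      ((Cfsg.Agent.Helper78.mem_gcoreIn_iff _ _ ⟨(l : G), hlC⟩).mp hl) θ hθ l rfl
  obtain ⟨R, ξ, hR, hξB, hξker⟩ := Cfsg.Agent.Helper78.ker_top_of_hall hM hpπ hB _ D₀ H₀ hLN θ _
    hD₀ hQL hCL (Cfsg.Agent.Helper78.indChar_of_isInducedBlock hb hθ) hKchar hθK rfl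
  exact Cfsg.Agent.Helper78.ker_correspondent_of_conj hM hpπ hB hBD hB₁ hR ξ hξB hξker

end Cfsg.Agent.S4728
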