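import Cfsg.Statements.S4729
import Cfsg.Agent.Helper82.FaithDeg

set_option autoImplicit false
open Cfsg

namespace Cfsg.Agent.S4729

/-- Let p be a prime, M a maximal ideal of the algebraic integers containing p, G a finite perfect group and P a Sylow p-subgroup. If the principal p-block of G contains a faithful irreducible character of degree less than 2p, then the centralizer of P is a p-group. -/
theorem result {G : Type*} [Group G] [Finite G] (p : ℕ) [Fact p.Prime] (M : Ideal Cfsg.AlgInt) (hM : Cfsg.IsPModular p M) (hperf : commutator G = ⊤) (P : Sylow p G) (χ : Cfsg.IrrCharacter G) (hχ : χ ∈ Cfsg.principalBlock M G) (hfaith : ∀ g : G, (χ : G → ℂ) g = (χ : G → ℂ) 1 → g = 1) (hdeg : Cfsg.charDegree (χ : G → ℂ) < 2 * p) : IsPGroup p ↥(Subgroup.centralizer ((P : Subgroup G) : Set G)) := by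
  exact Cfsg.Agent.Helper82.faithDeg_isPGroup hM hperf P χ hχ hfaith hdeg

end Cfsg.Agent.S4729
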