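import Cfsg.Statements.S4730
import Cfsg.Agent.Helper78.BlockCount
import Cfsg.Agent.Helper3.Burnside

set_option autoImplicit false
open Cfsg

namespace Cfsg.Agent.S4730

open Cfsg.Agent.Helper81 Cfsg.Agent.Helper78

universe u

section aux

variable {G : Type u} [Group G] [Fintype G] {p : ℕ} [Fact p.Prime] {M : Ideal AlgInt}

omit [Fact p.Prime] in
/-- A faithful irreducible character of `p`-power degree of a group with trivial centre vanishes
at the non-identity elements whose class size is prime to `p`. -/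
theorem faithful_vanish (hp : p.Prime) (hZ : Subgroup.center G = ⊥) (χ : IrrCharacter G)
    (hfaith : ∀ g : G, (χ : G → ℂ) g = (χ : G → ℂ) 1 → g = 1) (n : ℕ)
    (hdeg : charDegree (χ : G → ℂ) = p ^ n) (z : G) (hz1 : z ≠ 1)
    (hz : ¬ p ∣ (Subgroup.centralizer ({z} : Set G)).index) : (χ : G → ℂ) z = 0 := by
  obtain ⟨d, ρ, hρ, hχ⟩ := χ.2
  haveI := hρ
  have hfr : Module.finrank ℂ (Fin d → ℂ) = charDegree (χ : G → ℂ) := by
    have h1 : ((charDegree (χ : G → ℂ) : ℕ) : ℂ) = (Module.finrank ℂ (Fin d → ℂ) : ℂ) := by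
      rw [← irr_one_eq_charDegree, ← hχ, Representation.char_one]
    exact (Nat.cast_injective h1).symm
  have hcop : Nat.Coprime (Module.finrank ℂ (Fin d → ℂ))
      (Subgroup.centralizer ({z} : Set G)).index := by
    rw [hfr, hdeg]
    exact Nat.Coprime.pow_left _ ((Nat.Prime.coprime_iff_not_dvd hp).mpr hz)
  rcases Helper3.burnside_coprime ρ z hcop with h0 | hnorm
  · rw [← hχ]; exact h0
  · exfalso
    apply hz1
    obtain ⟨bas, ζ, h1, h2, h3⟩ := Helper3.rep_exists_eigenbasis ρ z
    have hnz : ∀ i, ‖ζ i‖ = 1 := fun i =>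
      Helper3.norm_eq_one_of_pow_eq_one' (orderOf_pos z).ne' (h1 i)
    have hcard : ‖∑ i, ζ i‖ = (Fintype.card (Fin (Module.finrank ℂ (Fin d → ℂ))) : ℝ) := by
      rw [← h3, hnorm, Fintype.card_fin]
    obtain ⟨ω, hω⟩ := Helper3.exists_eq_of_norm_sum_eq_card ζ hnz hcard
    have hscal : ρ z = ω • (LinearMap.id : (Fin d → ℂ) →ₗ[ℂ] (Fin d → ℂ)) :=
      Helper3.eq_smul_id_of_eigenbasis (ρ z) bas ζ ω h2 hω
    have hcomm : ∀ h : G, z * h = h * z := by
      intro h
      have e1 : ρ (z * h) = ρ (h * z) := by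
        rw [map_mul, map_mul, hscal]
        ext v i
        simp
      have e2 : ρ (z * h * (h * z)⁻¹) = 1 := by
        rw [map_mul, e1, ← map_mul, mul_inv_cancel, map_one]
      have e3 : (χ : G → ℂ) (z * h * (h * z)⁻¹) = (χ : G → ℂ) 1 := by
        rw [← hχ]
        exact congrArg (LinearMap.trace ℂ (Fin d → ℂ)) (e2.trans (map_one ρ).symm)
      have e4 := hfaith _ e3
      exact mul_inv_eq_one.mp e4
    have hmem : z ∈ Subgroup.center G := by
      rw [Subgroup.mem_center_iff]
      intro h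
      exact (hcomm h).symm
    rw [hZ, Subgroup.mem_bot] at hmem
    exact hmem

/-- The key estimate: if `χ` vanishes on the non-identity elements of a `p`-subgroup `Z` of
order `p ^ b` all of whose elements have class size prime to `p`, then every character in the
block of `χ` has degree divisible by `p ^ b`. -/
theorem le_factorization_of_vanish (hM : IsPModular p M) (χ ψ : IrrCharacter G)
    (hψ : ψ ∈ blockOf M (χ : G → ℂ)) (Z : Subgroup G) (b : ℕ) (hZb : Nat.card Z = p ^ b)
    (hcl : ∀ z ∈ Z, ¬ p ∣ (Subgroup.centralizer ({z} : Set G)).index)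
    (hvan : ∀ z ∈ Z, z ≠ 1 → (χ : G → ℂ) z = 0) :
    b ≤ (charDegree (ψ : G → ℂ)).factorization p := by
  classical
  have hp := (Fact.out : p.Prime)
  haveI hP : M.IsPrime := isPrime_of_isPModular hM
  have hMtop := ne_top_of_isPModular hM
  by_contra hlt
  push Not at hlt
  letI : Fintype Z := Fintype.ofFinite Z
  obtain ⟨m, hm⟩ := exists_nat_sum_subgroup ψ Z
  set d := charDegree (ψ : G → ℂ) with hd
  set v := d.factorization p with hv
  have hd0 : d ≠ 0 := (charDegree_pos ψ).ne'
  have hd' : p ^ v * (d / p ^ v) = d := Nat.ordProj_mul_ordCompl_eq_self d p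
  have hnd : ¬ p ∣ d / p ^ v := Nat.not_dvd_ordCompl hp hd0
  set d' := d / p ^ v with hd'def
  have hψ1 : (ψ : G → ℂ) 1 = (d : ℂ) := irr_one_eq_charDegree ψ
  have hdC : (d : ℂ) ≠ 0 := by exact_mod_cast hd0
  have hpC : (p : ℂ) ≠ 0 := by exact_mod_cast hp.ne_zero
  have hpv : ((p : ℂ) ^ v) ≠ 0 := pow_ne_zero _ hpC
  have e2 : (d : ℂ) = (p : ℂ) ^ v * (d' : ℂ) := by
    conv_lhs => rw [← hd']
    push_cast; ring
  -- each value at a non-identity element of Z
  have hval : ∀ z : Z, z ≠ 1 → (ψ : G → ℂ) z = (p : ℂ) ^ v *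
      (((d' : ℂ) * ((Subgroup.centralizer ({(z : G)} : Set G)).index : ℂ)⁻¹) *
        centralChar (ψ : G → ℂ) z) := by
    intro z _
    have hk0 : (((Subgroup.centralizer ({(z : G)} : Set G)).index : ℕ) : ℂ) ≠ 0 := by
      exact_mod_cast (Subgroup.index_ne_zero_of_finite :
        (Subgroup.centralizer ({(z : G)} : Set G)).index ≠ 0)
    have hd'C : (d' : ℂ) ≠ 0 := by
      have : d' ≠ 0 := fun h0 => hnd (h0 ▸ dvd_zero p)
      exact_mod_cast this
    rw [centralChar, hψ1, e2]
    field_simp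
  have hloc : ∀ z : Z, z ≠ 1 → MemLocalIdeal M
      (((d' : ℂ) * ((Subgroup.centralizer ({(z : G)} : Set G)).index : ℂ)⁻¹) *
        centralChar (ψ : G → ℂ) z) := by
    intro z hz1
    have hz1' : (z : G) ≠ 1 := fun h => hz1 (Subtype.ext h)
    have h1 : MemLocalRing M ((d' : ℂ) *
        ((Subgroup.centralizer ({(z : G)} : Set G)).index : ℂ)⁻¹) :=
      memLocalRing_mul (memLocalRing_natCast hMtop d')
        (memLocalRing_inv (memLocalRing_natCast hMtop _)
          (not_memLocalIdeal_natCast hM (hcl z z.2)))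
    have h2 : MemLocalIdeal M (centralChar (ψ : G → ℂ) z) := by
      have h3 := hψ (z : G)
      have h4 : centralChar (χ : G → ℂ) (z : G) = 0 := by
        rw [centralChar, hvan z z.2 hz1']; simp
      rw [h4, zero_sub] at h3
      have := memLocalIdeal_neg h3
      rwa [neg_neg] at this
    exact memLocalIdeal_mul_left h1 h2
  -- the sum formula
  have hsum : (p : ℂ) ^ v * ((p : ℂ) ^ (b - v) * (m : ℂ)) = (p : ℂ) ^ v * ((d' : ℂ) +
      ∑ z ∈ Finset.univ.erase (1 : Z),
        ((d' : ℂ) * ((Subgroup.centralizer ({(z : G)} : Set G)).index : ℂ)⁻¹) *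
          centralChar (ψ : G → ℂ) z) := by
    have h1 : ∑ z : Z, (ψ : G → ℂ) z = (ψ : G → ℂ) 1 +
        ∑ z ∈ Finset.univ.erase (1 : Z), (ψ : G → ℂ) z := by
      rw [← Finset.add_sum_erase _ _ (Finset.mem_univ (1 : Z))]
      rfl
    rw [hm, hZb] at h1
    rw [mul_add, Finset.mul_sum, ← e2, ← hψ1]
    rw [Finset.sum_congr rfl (fun z hz => (hval z (Finset.ne_of_mem_erase hz)).symm), ← h1]
    have hb : b = v + (b - v) := by omega
    conv_rhs => rw [hb]
    push_cast
    ring
  have hsum' := mul_left_cancel₀ hpv hsum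
  have hL : MemLocalIdeal M ((p : ℂ) ^ (b - v) * (m : ℂ)) := by
    have : ((p ^ (b - v) * m : ℕ) : ℂ) = (p : ℂ) ^ (b - v) * (m : ℂ) := by push_cast; ring
    rw [← this]
    apply memLocalIdeal_natCast_of_dvd hM
    exact Dvd.dvd.mul_right (dvd_pow_self p (by omega)) m
  have hR : MemLocalIdeal M (∑ z ∈ Finset.univ.erase (1 : Z),
      ((d' : ℂ) * ((Subgroup.centralizer ({(z : G)} : Set G)).index : ℂ)⁻¹) *
        centralChar (ψ : G → ℂ) z) :=
    memLocalIdeal_sum _ _ (fun z hz => hloc z (Finset.ne_of_mem_erase hz))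
  have hd'mem : MemLocalIdeal M (d' : ℂ) := by
    have e : (d' : ℂ) = (p : ℂ) ^ (b - v) * (m : ℂ) - ∑ z ∈ Finset.univ.erase (1 : Z),
        ((d' : ℂ) * ((Subgroup.centralizer ({(z : G)} : Set G)).index : ℂ)⁻¹) *
          centralChar (ψ : G → ℂ) z := by
      rw [hsum']; ring
    rw [e]
    exact memLocalIdeal_sub hL hR
  exact hnd ((memLocalIdeal_natCast_iff hM).mp hd'mem)

end aux

/-- Let p be a prime, M a maximal ideal of the algebraic integers containing p, and G a finite group with trivial centre, Sylow p-subgroup P of order p^a and centre Z(P) of order p^b. If χ is a faithful irreducible character of G whose degree is a power of p, then the p-block of χ has defect at most a − b; in particular, if P is abelian then χ lies in a block of defect zero. -/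
theorem result {G : Type*} [Group G] [Finite G] (p : ℕ) [Fact p.Prime] (M : Ideal Cfsg.AlgInt) (hM : Cfsg.IsPModular p M) (hZ : Subgroup.center G = ⊥) (P : Sylow p G) (a b : ℕ) (ha : Nat.card P = p ^ a) (hb : Nat.card (Subgroup.center ↥(P : Subgroup G)) = p ^ b) (χ : Cfsg.IrrCharacter G) (hfaith : ∀ g : G, (χ : G → ℂ) g = (χ : G → ℂ) 1 → g = 1) (n : ℕ) (hdeg : Cfsg.charDegree (χ : G → ℂ) = p ^ n) : Cfsg.blockDefect p (Cfsg.blockOf M (χ : G → ℂ)) ≤ a - b ∧ (IsMulCommutative ↥(P : Subgroup G) → Cfsg.blockDefect p (Cfsg.blockOf M (χ : G → ℂ)) = 0) := by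
  classical
  letI : Fintype G := Fintype.ofFinite G
  have hp := (Fact.out : p.Prime)
  haveI hP : M.IsPrime := isPrime_of_isPModular hM
  -- the centre of P as a subgroup of G
  have hZb : Nat.card ((Subgroup.center ↥(P : Subgroup G)).map (P : Subgroup G).subtype) = p ^ b := by
    rw [Subgroup.card_map_of_injective (Subgroup.subtype_injective _), hb]
  have hcl : ∀ z ∈ (Subgroup.center ↥(P : Subgroup G)).map (P : Subgroup G).subtype,
      ¬ p ∣ (Subgroup.centralizer ({z} : Set G)).index := by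
    intro z hz hdvd
    obtain ⟨z', hz', rfl⟩ := Subgroup.mem_map.mp hz
    have hle : (P : Subgroup G) ≤ Subgroup.centralizer ({((P : Subgroup G).subtype z')} : Set G) := by
      intro u hu
      rw [Helper77.mem_centralizer_singleton]
      have h1 := (Subgroup.mem_center_iff.mp hz') ⟨u, hu⟩
      have h2 := congrArg Subtype.val h1
      exact h2
    exact P.not_dvd_index (hdvd.trans (Subgroup.index_dvd_of_le hle))
  have hvan : ∀ z ∈ (Subgroup.center ↥(P : Subgroup G)).map (P : Subgroup G).subtype, z ≠ 1 →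
      (χ : G → ℂ) z = 0 :=
    fun z hz hz1 => faithful_vanish hp hZ χ hfaith n hdeg z hz1 (hcl z hz)
  have hall : ∀ ψ ∈ Cfsg.blockOf M (χ : G → ℂ),
      b ≤ (Cfsg.charDegree (ψ : G → ℂ)).factorization p :=
    fun ψ hψ => le_factorization_of_vanish hM χ ψ hψ _ b hZb hcl hvan
  have ha' : (Nat.card G).factorization p = a := by
    have h1 := P.card_eq_multiplicity
    rw [ha] at h1
    exact (Nat.pow_right_injective hp.two_le h1).symm
  have hne : ((fun ψ : Cfsg.IrrCharacter G => (Cfsg.charDegree (ψ : G → ℂ)).factorization p) ''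
      Cfsg.blockOf M (χ : G → ℂ)).Nonempty := ⟨_, χ, mem_blockOf_self χ, rfl⟩
  obtain ⟨ψ, hψ, hψe⟩ := Nat.sInf_mem hne
  have hmain : Cfsg.blockDefect p (Cfsg.blockOf M (χ : G → ℂ)) ≤ a - b := by
    rw [Cfsg.blockDefect, ← hψe, ha']
    have := hall ψ hψ
    simp only
    omega
  refine ⟨hmain, fun hcomm => ?_⟩
  have hcenter : Subgroup.center ↥(P : Subgroup G) = ⊤ := by
    rw [Subgroup.eq_top_iff']
    intro u
    rw [Subgroup.mem_center_iff]
    intro w
    exact mul_comm' w u
  have hab : a = b := by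
    have h1 : Nat.card (Subgroup.center ↥(P : Subgroup G)) = Nat.card ↥(P : Subgroup G) := by
      rw [hcenter]; exact Subgroup.card_top
    have h2 : Nat.card ↥(P : Subgroup G) = p ^ a := ha
    rw [hb, h2] at h1
    exact (Nat.pow_right_injective hp.two_le h1).symm
  rw [hab] at hmain
  omega

end Cfsg.Agent.S4730
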