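import Cfsg.Statements.S4733
import Cfsg.Agent.Helper78.BlockCount

set_option autoImplicit false
open Cfsg

namespace Cfsg.Agent.S4733

open Cfsg.Agent.Helper81 Cfsg.Agent.Helper78
open scoped ComplexConjugate

universe u

section aux

variable {G : Type u} [Group G] [Fintype G] {p : ℕ} [Fact p.Prime] {M : Ideal AlgInt}

omit [Fintype G] [Fact p.Prime] in
theorem range_eq (B : Set (IrrCharacter G)) :
    Set.range (fun χ : B => pRegularPart p ((χ : IrrCharacter G) : G → ℂ)) =
      (fun χ : IrrCharacter G => pRegularPart p (χ : G → ℂ)) '' B := by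
  ext f
  constructor
  · rintro ⟨χ, rfl⟩; exact ⟨χ.1, χ.2, rfl⟩
  · rintro ⟨χ, hχ, rfl⟩; exact ⟨⟨χ, hχ⟩, rfl⟩

omit [Fintype G] [Fact p.Prime] in
theorem blockRank_eq (B : Set (IrrCharacter G)) : blockRank p B =
    (Set.range (fun χ : B => pRegularPart p ((χ : IrrCharacter G) : G → ℂ))).finrank ℂ := by
  rw [range_eq]; rfl

omit [Fintype G] in
theorem blockRank_singleton (χ : IrrCharacter G) :
    blockRank p ({χ} : Set (IrrCharacter G)) = 1 := by
  classical
  have hp := (Fact.out : p.Prime)
  rw [blockRank, Set.image_singleton]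
  apply finrank_span_singleton
  intro h0
  have h1 := congrFun h0 1
  have hreg : IsPRegular p (1 : G) := by
    rw [IsPRegular, orderOf_one]
    exact hp.one_lt.ne' ∘ Nat.dvd_one.mp
  simp only [pRegularPart, if_pos hreg, Pi.zero_apply] at h1
  exact irr_one_ne_zero χ h1

theorem eq_singleton_of_defect_zero (hM : IsPModular p M) {B : Set (IrrCharacter G)}
    (hB : IsPBlock M B) (h0 : blockDefect p B = 0) : ∃ χ, B = {χ} := by
  classical
  have hp := (Fact.out : p.Prime)
  have hmax := hM.2.1
  haveI hP : M.IsPrime := isPrime_of_isPModular hM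
  have hMtop := ne_top_of_isPModular hM
  obtain ⟨χ₀, rfl⟩ := hB
  have hne : ((fun ψ : IrrCharacter G => (charDegree (ψ : G → ℂ)).factorization p) ''
      blockOf M (χ₀ : G → ℂ)).Nonempty := ⟨_, χ₀, mem_blockOf_self χ₀, rfl⟩
  obtain ⟨χ, hχB, hχv⟩ := Nat.sInf_mem hne
  have hdvd := charDegree_dvd_card χ
  have hle := (Nat.factorization_le_iff_dvd (charDegree_pos χ).ne' Nat.card_pos.ne').mpr hdvd p
  have hχa : (charDegree (χ : G → ℂ)).factorization p = (Nat.card G).factorization p := by
    rw [blockDefect, ← hχv] at h0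
    simp only at hχv h0
    omega
  obtain ⟨m, hm⟩ := hdvd
  have hd0 : charDegree (χ : G → ℂ) ≠ 0 := (charDegree_pos χ).ne'
  have hm0 : m ≠ 0 := by
    rintro rfl
    rw [mul_zero] at hm
    exact Nat.card_pos.ne' hm
  have hpm : ¬ p ∣ m := by
    intro hpm
    have h1 : (Nat.card G).factorization p =
        (charDegree (χ : G → ℂ)).factorization p + m.factorization p := by
      rw [hm, Nat.factorization_mul hd0 hm0]; rfl
    have h2 : 0 < m.factorization p := hp.factorization_pos_of_dvd hm0 hpm
    omega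
  have hcoef : ∀ g : G, MemLocalRing M (blockCoeff ({χ} : Set (IrrCharacter G)) g) := by
    intro g
    have e : blockCoeff ({χ} : Set (IrrCharacter G)) g = (m : ℂ)⁻¹ * (χ : G → ℂ) g⁻¹ := by
      rw [blockCoeff, finsum_mem_singleton, irr_one_eq_charDegree, hm, ← Helper77.irr_inv]
      have h1 : ((charDegree (χ : G → ℂ) : ℕ) : ℂ) ≠ 0 := by exact_mod_cast hd0
      have h2 : (m : ℂ) ≠ 0 := by exact_mod_cast hm0
      push_cast
      field_simp
    rw [e]
    exact memLocalRing_mul
      (memLocalRing_inv (memLocalRing_natCast hMtop m) (not_memLocalIdeal_natCast hM hpm))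
      (memLocalRing_of_algInt hMtop (irr_mem_algInt χ g⁻¹))
  have hsub : blockOf M (χ : G → ℂ) ⊆ {χ} :=
    Helper77.blockOf_subset_of_memLocalRing hmax hcoef (Set.mem_singleton χ)
  refine ⟨χ, Set.Subset.antisymm ?_ (Set.singleton_subset_iff.mpr hχB)⟩
  intro ψ hψ
  apply hsub
  intro g
  have h1 := hψ g
  have h2 := hχB g
  have e : centralChar (χ : G → ℂ) g - centralChar (ψ : G → ℂ) g =
      (centralChar (χ₀ : G → ℂ) g - centralChar (ψ : G → ℂ) g) -
        (centralChar (χ₀ : G → ℂ) g - centralChar (χ : G → ℂ) g) := by ring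
  rw [e]
  exact memLocalIdeal_sub h1 h2

theorem defect_zero_of_card_eq (hM : IsPModular p M) {B : Set (IrrCharacter G)}
    (hB : IsPBlock M B) (h : Nat.card B = blockRank p B) : blockDefect p B = 0 := by
  classical
  have hp := (Fact.out : p.Prime)
  letI : Fintype B := Fintype.ofFinite B
  have hli : LinearIndependent ℂ (fun χ : B => pRegularPart p ((χ : IrrCharacter G) : G → ℂ)) := by
    rw [linearIndependent_iff_card_eq_finrank_span, ← blockRank_eq, ← h, Nat.card_eq_fintype_card]
  have hvan : ∀ χ ∈ B, ∀ y : G, p ∣ orderOf y → (χ : G → ℂ) y = 0 := by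
    intro χ hχ y hy
    have hsum : ∑ ψ : B, conj (((ψ : IrrCharacter G) : G → ℂ) y) •
        pRegularPart p ((ψ : IrrCharacter G) : G → ℂ) = 0 := by
      funext x
      simp only [Finset.sum_apply, Pi.smul_apply, smul_eq_mul, Pi.zero_apply]
      by_cases hx : p ∣ orderOf x
      · apply Finset.sum_eq_zero
        intro ψ _
        have : pRegularPart p ((ψ : IrrCharacter G) : G → ℂ) x = 0 := by
          simp only [pRegularPart]
          rw [if_neg (fun hreg : IsPRegular p x => hreg hx)]
        rw [this, mul_zero]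
      · have h1 := Helper77.weak_block_orthogonality hM hB hx hy
        rw [← finsum_set_coe_eq_finsum_mem, finsum_eq_sum_of_fintype] at h1
        rw [← h1]
        refine Finset.sum_congr rfl fun ψ _ => ?_
        have : pRegularPart p ((ψ : IrrCharacter G) : G → ℂ) x =
            ((ψ : IrrCharacter G) : G → ℂ) x := by
          simp only [pRegularPart]
          rw [if_pos (show IsPRegular p x from hx)]
        rw [this, mul_comm]
    have h2 := Fintype.linearIndependent_iff.mp hli _ hsum ⟨χ, hχ⟩
    simpa using h2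
  let P : Sylow p G := default
  have hdeg : ∀ χ ∈ B, (Nat.card G).factorization p ≤
      (charDegree (χ : G → ℂ)).factorization p := by
    intro χ hχ
    obtain ⟨n, ρ, -, hρ⟩ := χ.2
    letI : Fintype (P : Subgroup G) := Fintype.ofFinite _
    have hint := Helper77.isIntegral_avg_character ρ (P : Subgroup G) 1 (by intro y _; simp)
    have hsum : ∑ y : (P : Subgroup G), ρ.character ((y : G) * 1) =
        (charDegree (χ : G → ℂ) : ℂ) := by
      rw [Finset.sum_eq_single (1 : (P : Subgroup G))]
      · rw [hρ, ← irr_one_eq_charDegree]; simp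
      · intro y _ hy1
        rw [mul_one, hρ]
        apply hvan χ hχ
        obtain ⟨k, hk⟩ := (IsPGroup.iff_orderOf.mp P.isPGroup') y
        rw [Subgroup.orderOf_coe, hk]
        have hk0 : k ≠ 0 := by
          rintro rfl
          rw [pow_zero, orderOf_eq_one_iff] at hk
          exact hy1 hk
        exact dvd_pow_self p hk0
      · intro h; exact absurd (Finset.mem_univ _) h
    rw [hsum] at hint
    have hdvd : Nat.card (P : Subgroup G) ∣ charDegree (χ : G → ℂ) :=
      nat_dvd_of_isIntegral_div Nat.card_pos.ne' (by rw [div_eq_inv_mul]; exact hint)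
    rw [P.card_eq_multiplicity] at hdvd
    exact (hp.pow_dvd_iff_le_factorization (charDegree_pos χ).ne').mp hdvd
  obtain ⟨χ₁, hχ₁⟩ := Helper77.block_nonempty hM.2.1 hB
  have hne : ((fun ψ : IrrCharacter G => (charDegree (ψ : G → ℂ)).factorization p) '' B).Nonempty :=
    ⟨_, χ₁, hχ₁, rfl⟩
  obtain ⟨ψ, hψ, hψe⟩ := Nat.sInf_mem hne
  rw [blockDefect, ← hψe]
  exact Nat.sub_eq_zero_of_le (hdeg ψ hψ)

end aux

/-- Let p be a prime, M a maximal ideal of the algebraic integers containing p, and B a p-block of the finite group G with k irreducible characters and p-regular rank l (the number of irreducible Brauer characters). Then l ≤ k, and the following are equivalent: B has defect 0; k = l = 1; k = l. -/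
theorem result {G : Type*} [Group G] [Finite G] (p : ℕ) [Fact p.Prime] (M : Ideal Cfsg.AlgInt) (hM : Cfsg.IsPModular p M) (B : Set (Cfsg.IrrCharacter G)) (hB : Cfsg.IsPBlock M B) : Cfsg.blockRank p B ≤ Nat.card B ∧ (Cfsg.blockDefect p B = 0 ↔ (Nat.card B = 1 ∧ Cfsg.blockRank p B = 1)) ∧ (Cfsg.blockDefect p B = 0 ↔ Nat.card B = Cfsg.blockRank p B) := by
  classical
  letI : Fintype G := Fintype.ofFinite G
  letI : Fintype B := Fintype.ofFinite B
  have h1 : Cfsg.blockRank p B ≤ Nat.card B := by
    rw [blockRank_eq, Nat.card_eq_fintype_card]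
    exact finrank_range_le_card _
  have hzero : Cfsg.blockDefect p B = 0 → Nat.card B = 1 ∧ Cfsg.blockRank p B = 1 := by
    intro h0
    obtain ⟨χ, rfl⟩ := eq_singleton_of_defect_zero hM hB h0
    exact ⟨by simp, blockRank_singleton χ⟩
  refine ⟨h1, ⟨hzero, fun ⟨hc, hr⟩ => defect_zero_of_card_eq hM hB (by rw [hc, hr])⟩,
    ⟨fun h0 => ?_, defect_zero_of_card_eq hM hB⟩⟩
  obtain ⟨hc, hr⟩ := hzero h0
  rw [hc, hr]

end Cfsg.Agent.S4733
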