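import Cfsg.Statements.S4735
import Cfsg.Agent.Helper76.LambdaSum
import Cfsg.Agent.Helper76.PSolvable
import Cfsg.Agent.Helper80.CharOrtho
import Cfsg.Agent.Helper16.BlockCore

set_option autoImplicit false
open Cfsg

namespace Cfsg.Agent.S4735

/-- Let p be a prime, M a maximal ideal of the algebraic integers containing p, G a finite group, H = O_p'(G) and Ḡ = G/H. For x ∈ G write λ(G, x) for the sum of |χ(x)|^2 over the irreducible characters χ in the principal p-block of G. Then λ(G, x) is a positive integer, λ(G, x) = λ(Ḡ, x̄) where x̄ is the image of x, and λ(G, x) ≤ #C_Ḡ(x̄). Moreover λ(G, 1) = [G : H] if and only if the principal block is the only p-block of Ḡ. -/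
theorem result {G : Type*} [Group G] [Finite G] (p : ℕ) [Fact p.Prime] (M : Ideal Cfsg.AlgInt) (hM : Cfsg.IsPModular p M) (x : G) : (∃ n : ℕ, 0 < n ∧ ∑ᶠ χ ∈ Cfsg.principalBlock M G, Complex.normSq ((χ : G → ℂ) x) = n) ∧ ∑ᶠ χ ∈ Cfsg.principalBlock M G, Complex.normSq ((χ : G → ℂ) x) = ∑ᶠ ψ ∈ Cfsg.principalBlock M (G ⧸ Cfsg.pPrimeCore p G), Complex.normSq ((ψ : G ⧸ Cfsg.pPrimeCore p G → ℂ) (QuotientGroup.mk x)) ∧ ∑ᶠ χ ∈ Cfsg.principalBlock M G, Complex.normSq ((χ : G → ℂ) x) ≤ (Nat.card ↥(Subgroup.centralizer ({(QuotientGroup.mk x : G ⧸ Cfsg.pPrimeCore p G)} : Set (G ⧸ Cfsg.pPrimeCore p G))) : ℝ) ∧ ((∑ᶠ χ ∈ Cfsg.principalBlock M G, Cfsg.charDegree (χ : G → ℂ) ^ 2) = (Cfsg.pPrimeCore p G).index ↔ ∀ B : Set (Cfsg.IrrCharacter (G ⧸ Cfsg.pPrimeCore p G)), Cfsg.IsPBlock M B → B = Cfsg.principalBlock M (G ⧸ Cfsg.pPrimeCore p G)) := by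
  classical
  cases nonempty_fintype G
  have := Fintype.ofFinite (Cfsg.IrrCharacter G)
  letI : Fintype (G ⧸ Cfsg.pPrimeCore p G) := Fintype.ofFinite _
  have := Fintype.ofFinite (Cfsg.IrrCharacter (G ⧸ Cfsg.pPrimeCore p G))
  have hMm := hM.2.1
  have hN : ¬ p ∣ Nat.card (Cfsg.pPrimeCore p G) := by
    intro h
    have h1 : Nat.gcd (Nat.card (Cfsg.pPrimeCore p G)) p = 1 :=
      Helper76.pPrimeCore_coprime (p := p) (G := G)
    have h2 : p ∣ Nat.gcd (Nat.card (Cfsg.pPrimeCore p G)) p := Nat.dvd_gcd h dvd_rfl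
    rw [h1] at h2
    exact (Fact.out : p.Prime).one_lt.ne' (Nat.dvd_one.mp h2)
  have hbij := Helper76.bijOn_irrInfl_principalBlock hM (Cfsg.pPrimeCore p G) hN
  have hsumG : ∀ f : Cfsg.IrrCharacter G → ℝ, (∑ᶠ χ ∈ Cfsg.principalBlock M G, f χ)
      = ∑ χ ∈ Finset.univ.filter
          (fun χ : Cfsg.IrrCharacter G => χ ∈ Cfsg.principalBlock M G), f χ := by
    intro f
    rw [finsum_mem_def, finsum_eq_sum_of_fintype, Finset.sum_filter]
    refine Finset.sum_congr rfl fun χ _ => ?_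
    rw [Set.indicator_apply]
  have hsumQ : ∀ f : Cfsg.IrrCharacter (G ⧸ Cfsg.pPrimeCore p G) → ℝ,
      (∑ᶠ ψ ∈ Cfsg.principalBlock M (G ⧸ Cfsg.pPrimeCore p G), f ψ)
      = ∑ ψ ∈ Finset.univ.filter (fun ψ : Cfsg.IrrCharacter (G ⧸ Cfsg.pPrimeCore p G) =>
          ψ ∈ Cfsg.principalBlock M (G ⧸ Cfsg.pPrimeCore p G)), f ψ := by
    intro f
    rw [finsum_mem_def, finsum_eq_sum_of_fintype, Finset.sum_filter]
    refine Finset.sum_congr rfl fun χ _ => ?_
    rw [Set.indicator_apply]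
  have hsumQ' : ∀ f : Cfsg.IrrCharacter (G ⧸ Cfsg.pPrimeCore p G) → ℕ,
      (∑ᶠ ψ ∈ Cfsg.principalBlock M (G ⧸ Cfsg.pPrimeCore p G), f ψ)
      = ∑ ψ ∈ Finset.univ.filter (fun ψ : Cfsg.IrrCharacter (G ⧸ Cfsg.pPrimeCore p G) =>
          ψ ∈ Cfsg.principalBlock M (G ⧸ Cfsg.pPrimeCore p G)), f ψ := by
    intro f
    rw [finsum_mem_def, finsum_eq_sum_of_fintype, Finset.sum_filter]
    refine Finset.sum_congr rfl fun χ _ => ?_
    rw [Set.indicator_apply]
  have part2 : ∑ᶠ χ ∈ Cfsg.principalBlock M G, Complex.normSq ((χ : G → ℂ) x)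
      = ∑ᶠ ψ ∈ Cfsg.principalBlock M (G ⧸ Cfsg.pPrimeCore p G),
          Complex.normSq ((ψ : G ⧸ Cfsg.pPrimeCore p G → ℂ) (QuotientGroup.mk x)) :=
    (finsum_mem_eq_of_bijOn (Helper76.irrInfl (Cfsg.pPrimeCore p G)) hbij
      (fun ψ _ => rfl)).symm
  have part1 : ∃ n : ℕ, 0 < n ∧
      ∑ᶠ χ ∈ Cfsg.principalBlock M G, Complex.normSq ((χ : G → ℂ) x) = n := by
    obtain ⟨m, hm⟩ := Helper76.exists_int_sum_principalBlock M x
    rw [hsumG]
    have h1 : ((∑ χ ∈ Finset.univ.filter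
        (fun χ : Cfsg.IrrCharacter G => χ ∈ Cfsg.principalBlock M G),
          Complex.normSq ((χ : G → ℂ) x) : ℝ) : ℂ) = (m : ℂ) := by
      rw [← hm, Complex.ofReal_sum]
      refine Finset.sum_congr rfl fun χ _ => ?_
      rw [Complex.mul_conj]
    have h2 : (∑ χ ∈ Finset.univ.filter
        (fun χ : Cfsg.IrrCharacter G => χ ∈ Cfsg.principalBlock M G),
          Complex.normSq ((χ : G → ℂ) x)) = (m : ℝ) := by
      apply Complex.ofReal_injective
      rw [h1, Complex.ofReal_intCast]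
    have h3 : (1 : ℝ) ≤ ∑ χ ∈ Finset.univ.filter
        (fun χ : Cfsg.IrrCharacter G => χ ∈ Cfsg.principalBlock M G),
          Complex.normSq ((χ : G → ℂ) x) := by
      have htriv : Helper79.trivIrr G ∈ Finset.univ.filter
          (fun χ : Cfsg.IrrCharacter G => χ ∈ Cfsg.principalBlock M G) := by
        rw [Finset.mem_filter]
        exact ⟨Finset.mem_univ _, Helper16.sameBlock_refl hMm _⟩
      have h4 := Finset.single_le_sum
        (f := fun χ : Cfsg.IrrCharacter G => Complex.normSq ((χ : G → ℂ) x))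
        (fun χ _ => Complex.normSq_nonneg _) htriv
      have h5 : Complex.normSq ((Helper79.trivIrr G : G → ℂ) x) = 1 := by
        rw [Helper79.trivIrr_apply]
        exact map_one _
      beta_reduce at h4
      rw [h5] at h4
      exact h4
    rw [h2] at h3 ⊢
    have h6 : (1 : ℤ) ≤ m := by exact_mod_cast h3
    refine ⟨m.toNat, by omega, ?_⟩
    have h7 : ((m.toNat : ℕ) : ℤ) = m := Int.toNat_of_nonneg (by omega)
    have h8 : ((m.toNat : ℕ) : ℝ) = ((m.toNat : ℤ) : ℝ) := by push_cast; rfl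
    rw [h8, h7]
  have part3 : ∑ᶠ χ ∈ Cfsg.principalBlock M G, Complex.normSq ((χ : G → ℂ) x)
      ≤ (Nat.card ↥(Subgroup.centralizer
          ({(QuotientGroup.mk x : G ⧸ Cfsg.pPrimeCore p G)} :
            Set (G ⧸ Cfsg.pPrimeCore p G))) : ℝ) := by
    rw [part2, hsumQ]
    have h1 := Helper80.irr_finsum_column_orthogonality_of_isConj
      (IsConj.refl (QuotientGroup.mk x : G ⧸ Cfsg.pPrimeCore p G))
    rw [finsum_eq_sum_of_fintype] at h1
    have h2 : (∑ ψ : Cfsg.IrrCharacter (G ⧸ Cfsg.pPrimeCore p G),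
        Complex.normSq ((ψ : G ⧸ Cfsg.pPrimeCore p G → ℂ) (QuotientGroup.mk x)) : ℝ)
        = (Nat.card ↥(Subgroup.centralizer
          ({(QuotientGroup.mk x : G ⧸ Cfsg.pPrimeCore p G)} :
            Set (G ⧸ Cfsg.pPrimeCore p G))) : ℝ) := by
      apply Complex.ofReal_injective
      rw [Complex.ofReal_sum, Complex.ofReal_natCast, ← h1]
      refine Finset.sum_congr rfl fun ψ _ => ?_
      rw [Complex.mul_conj]
    rw [← h2]
    exact Finset.sum_le_sum_of_subset_of_nonneg (Finset.filter_subset _ _)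
      (fun ψ _ _ => Complex.normSq_nonneg _)
  have part4 : (∑ᶠ χ ∈ Cfsg.principalBlock M G, Cfsg.charDegree (χ : G → ℂ) ^ 2)
      = (Cfsg.pPrimeCore p G).index ↔
      ∀ B : Set (Cfsg.IrrCharacter (G ⧸ Cfsg.pPrimeCore p G)), Cfsg.IsPBlock M B →
        B = Cfsg.principalBlock M (G ⧸ Cfsg.pPrimeCore p G) := by
    have e1 : (∑ᶠ χ ∈ Cfsg.principalBlock M G, Cfsg.charDegree (χ : G → ℂ) ^ 2)
        = ∑ᶠ ψ ∈ Cfsg.principalBlock M (G ⧸ Cfsg.pPrimeCore p G),
            Cfsg.charDegree (ψ : G ⧸ Cfsg.pPrimeCore p G → ℂ) ^ 2 :=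
      (finsum_mem_eq_of_bijOn (Helper76.irrInfl (Cfsg.pPrimeCore p G)) hbij
        (fun ψ _ => rfl)).symm
    rw [e1, hsumQ']
    have htot : ∑ ψ : Cfsg.IrrCharacter (G ⧸ Cfsg.pPrimeCore p G),
        Cfsg.charDegree (ψ : G ⧸ Cfsg.pPrimeCore p G → ℂ) ^ 2
        = (Cfsg.pPrimeCore p G).index := by
      rw [Helper80.irr_sum_charDegree_sq, Subgroup.index_eq_card, Nat.card_eq_fintype_card]
    constructor
    · intro h B hB
      have hall : ∀ ψ : Cfsg.IrrCharacter (G ⧸ Cfsg.pPrimeCore p G),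
          ψ ∈ Cfsg.principalBlock M (G ⧸ Cfsg.pPrimeCore p G) := by
        by_contra hcon
        push Not at hcon
        obtain ⟨ψ₀, hψ₀⟩ := hcon
        have hpos : 0 < Cfsg.charDegree (ψ₀ : G ⧸ Cfsg.pPrimeCore p G → ℂ) ^ 2 := by
          have h0 : Cfsg.charDegree (ψ₀ : G ⧸ Cfsg.pPrimeCore p G → ℂ) ≠ 0 := by
            intro h0
            have h1 := Helper81.irr_one_eq_charDegree ψ₀
            rw [h0, Nat.cast_zero] at h1
            exact Helper81.irr_one_ne_zero ψ₀ h1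
          positivity
        have hlt := Finset.sum_lt_sum_of_subset
          (f := fun ψ : Cfsg.IrrCharacter (G ⧸ Cfsg.pPrimeCore p G) =>
            Cfsg.charDegree (ψ : G ⧸ Cfsg.pPrimeCore p G → ℂ) ^ 2)
          (Finset.filter_subset (fun ψ : Cfsg.IrrCharacter (G ⧸ Cfsg.pPrimeCore p G) =>
            ψ ∈ Cfsg.principalBlock M (G ⧸ Cfsg.pPrimeCore p G)) Finset.univ)
          (Finset.mem_univ ψ₀)
          (by rw [Finset.mem_filter]; exact fun h => hψ₀ h.2) hpos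
          (fun _ _ _ => Nat.zero_le _)
        rw [htot, h] at hlt
        exact lt_irrefl _ hlt
      obtain ⟨χ₀, rfl⟩ := hB
      exact Helper16.blockOf_eq_of_mem hMm (hall χ₀)
    · intro h
      have hall : ∀ ψ : Cfsg.IrrCharacter (G ⧸ Cfsg.pPrimeCore p G),
          ψ ∈ Cfsg.principalBlock M (G ⧸ Cfsg.pPrimeCore p G) := by
        intro ψ
        have h1 := h (Cfsg.blockOf M (ψ : G ⧸ Cfsg.pPrimeCore p G → ℂ)) ⟨ψ, rfl⟩
        rw [← h1]
        exact Helper16.sameBlock_refl hMm _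
      rw [Finset.filter_true_of_mem (fun ψ _ => hall ψ), htot]
  exact ⟨part1, part2, part3, part4⟩

end Cfsg.Agent.S4735
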