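import Cfsg.Statements.S4736
import Cfsg.Agent.Helper76.Fong
import Cfsg.Agent.Helper77.PrincipalDefect
import Cfsg.Agent.Helper79.ItoMichler
import Cfsg.Agent.Helper79.PSing

set_option autoImplicit false
open Cfsg

namespace Cfsg.Agent.S4736

/-- Let p be a prime, M a maximal ideal of the algebraic integers containing p, and G a finite p-solvable group with Sylow p-subgroup P. Then P is abelian if and only if every irreducible character in the principal p-block of G has height zero. -/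
theorem result {G : Type*} [Group G] [Finite G] (p : ℕ) [Fact p.Prime] (M : Ideal Cfsg.AlgInt) (hM : Cfsg.IsPModular p M) (hsolv : Cfsg.IsPSolvable p G) (P : Sylow p G) : IsMulCommutative P ↔ ∀ χ ∈ Cfsg.principalBlock M G, Cfsg.blockHeight p (Cfsg.principalBlock M G) (χ : G → ℂ) = 0 := by
  classical
  have hp : p.Prime := Fact.out
  have hse : Helper76.IsPSolvableElt p G := Helper76.isPSolvableElt_of_isPSolvable hsolv
  have hKn : (Cfsg.pPrimeCore p G).Normal := Helper76.pPrimeCore_normal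
  have hKc : (Nat.card (Cfsg.pPrimeCore p G)).Coprime p := Helper76.pPrimeCore_coprime
  have hfong := fun χ => Helper76.mem_principalBlock_iff_of_isPSolvableElt hM hse χ
  have hsInf : sInf ((fun χ : Cfsg.IrrCharacter G =>
      (Cfsg.charDegree (χ : G → ℂ)).factorization p) '' Cfsg.principalBlock M G) = 0 := by
    apply Nat.eq_zero_of_le_zero
    apply Nat.sInf_le
    refine ⟨Helper80.trivIrr G, Helper77.trivIrr_mem_principalBlock hM.2.1, ?_⟩
    have : Cfsg.charDegree ((Helper80.trivIrr G : Cfsg.IrrCharacter G) : G → ℂ) = 1 := by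
      simp [Cfsg.charDegree]
    simp [this]
  -- `P ∩ O_{p'}(G) = 1`
  have hPK : ∀ x ∈ (P : Subgroup G), x ∈ Cfsg.pPrimeCore p G → x = 1 := by
    intro x hxP hxK
    obtain ⟨k, hk⟩ := P.isPGroup' ⟨x, hxP⟩
    have hk' : x ^ p ^ k = 1 := by
      have := congrArg Subtype.val hk
      simpa using this
    have h4 : orderOf x ∣ p ^ k := orderOf_dvd_of_pow_eq_one hk'
    have h5 : orderOf x ∣ Nat.card (Cfsg.pPrimeCore p G) :=
      Subgroup.orderOf_dvd_natCard _ hxK
    have h6 : Nat.Coprime (p ^ k) (Nat.card (Cfsg.pPrimeCore p G)) :=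
      Nat.Coprime.pow_left k hKc.symm
    exact orderOf_eq_one_iff.mp (Nat.eq_one_of_dvd_coprimes h6 h4 h5)
  have hA : IsMulCommutative P → Helper79.PPrimeDeg p (G ⧸ Cfsg.pPrimeCore p G) := by
    intro hcomm
    apply Helper79.pPrimeDeg_of_hasNormalAbelianSylow
    have hsq : Helper76.IsPSolvableElt p (G ⧸ Cfsg.pPrimeCore p G) := hse.quotient _
    have hbot : Cfsg.pPrimeCore p (G ⧸ Cfsg.pPrimeCore p G) = ⊥ :=
      Helper76.pPrimeCore_quotient_eq_bot
    have hC := Helper76.centralizer_pCore_le hsq hbot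
    have hRn : (Cfsg.pCore p (G ⧸ Cfsg.pPrimeCore p G)).Normal := Helper76.pCore_normal
    have hRp : IsPGroup p (Cfsg.pCore p (G ⧸ Cfsg.pPrimeCore p G)) := Helper76.pCore_isPGroup
    set Pb : Sylow p (G ⧸ Cfsg.pPrimeCore p G) :=
      P.mapSurjective (QuotientGroup.mk'_surjective (Cfsg.pPrimeCore p G)) with hPb
    have hle : Cfsg.pCore p (G ⧸ Cfsg.pPrimeCore p G) ≤ (Pb : Subgroup _) :=
      hRp.le_sylow_of_normal Pb
    have hPbc : ∀ a ∈ (Pb : Subgroup (G ⧸ Cfsg.pPrimeCore p G)),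
        ∀ b ∈ (Pb : Subgroup (G ⧸ Cfsg.pPrimeCore p G)), a * b = b * a := by
      intro a ha b hb
      rw [hPb, Sylow.coe_mapSurjective, Subgroup.mem_map] at ha hb
      obtain ⟨x, hx, rfl⟩ := ha
      obtain ⟨y, hy, rfl⟩ := hb
      have h1 : (⟨x, hx⟩ : P) * ⟨y, hy⟩ = ⟨y, hy⟩ * ⟨x, hx⟩ := hcomm.is_comm.comm _ _
      have h2 : x * y = y * x := congrArg Subtype.val h1
      rw [← map_mul, ← map_mul, h2]
    have hle2 : (Pb : Subgroup (G ⧸ Cfsg.pPrimeCore p G)) ≤
        Cfsg.pCore p (G ⧸ Cfsg.pPrimeCore p G) := by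
      intro a ha
      apply hC
      rw [Subgroup.mem_centralizer_iff]
      intro h hh
      exact hPbc h (hle hh) a ha
    have heq : Cfsg.pCore p (G ⧸ Cfsg.pPrimeCore p G) = (Pb : Subgroup _) :=
      le_antisymm hle hle2
    refine ⟨Cfsg.pCore p (G ⧸ Cfsg.pPrimeCore p G), hRn, hRp, ?_, ?_⟩
    · rw [heq]
      exact Pb.not_dvd_index
    · intro a ha b hb
      exact hPbc a (hle ha) b (hle hb)
  have hB : Helper79.PPrimeDeg p (G ⧸ Cfsg.pPrimeCore p G) → IsMulCommutative P := by
    intro hpp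
    obtain ⟨S, hSn, hSp, hSi, hSc⟩ := Helper79.ito_michler_pSolvable p
      (Helper32.isPSolvable_quotient hp hsolv (Cfsg.pPrimeCore p G)) hpp
    have hmem : ∀ a : P, QuotientGroup.mk' (Cfsg.pPrimeCore p G) (a : G) ∈ S := by
      intro a
      obtain ⟨k, hk⟩ := P.isPGroup' a
      have hk' : (a : G) ^ p ^ k = 1 := by
        have := congrArg Subtype.val hk
        simpa using this
      apply Helper79.mem_of_normal_of_not_dvd_index S hSi (k := k)
      rw [← map_pow, hk', map_one]
    refine ⟨⟨fun a b => ?_⟩⟩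
    have h1 := hSc _ (hmem a) _ (hmem b)
    rw [← map_mul, ← map_mul, QuotientGroup.mk'_apply, QuotientGroup.mk'_apply,
      QuotientGroup.eq] at h1
    have h2 : ((a : G) * (b : G))⁻¹ * ((b : G) * (a : G)) = 1 :=
      hPK _ (mul_mem (inv_mem (mul_mem a.2 b.2)) (mul_mem b.2 a.2)) h1
    apply Subtype.ext
    exact inv_mul_eq_one.mp h2
  constructor
  · intro hcomm χ hχ
    have hpp := hA hcomm
    have hker := (hfong χ).mp hχ
    obtain ⟨ψ, hψ, hψg⟩ := Helper79.exists_irr_deflation (Cfsg.pPrimeCore p G) χ.2 hker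
    have hnd := hpp ψ hψ
    have hdeg : Cfsg.charDegree ψ = Cfsg.charDegree (χ : G → ℂ) := by
      unfold Cfsg.charDegree
      rw [← hψg 1]
      rfl
    unfold Cfsg.blockHeight
    rw [← hdeg, Nat.factorization_eq_zero_of_not_dvd hnd, Nat.zero_sub]
  · intro hall
    apply hB
    intro ψ hψ hdvd
    have hχ : Cfsg.IsIrrCharacter G
        (fun g => ψ (QuotientGroup.mk' (Cfsg.pPrimeCore p G) g)) :=
      Helper79.isIrrCharacter_comp _ (QuotientGroup.mk'_surjective _) hψ
    have hmem : (⟨_, hχ⟩ : Cfsg.IrrCharacter G) ∈ Cfsg.principalBlock M G := by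
      rw [hfong]
      intro n hn
      show ψ (QuotientGroup.mk' (Cfsg.pPrimeCore p G) n) =
        ψ (QuotientGroup.mk' (Cfsg.pPrimeCore p G) 1)
      rw [QuotientGroup.mk'_apply, (QuotientGroup.eq_one_iff n).mpr hn, map_one]
    have h0 := hall _ hmem
    unfold Cfsg.blockHeight at h0
    rw [hsInf, Nat.sub_zero] at h0
    have hdeg : Cfsg.charDegree (fun g : G => ψ (QuotientGroup.mk' (Cfsg.pPrimeCore p G) g)) =
        Cfsg.charDegree ψ := by
      unfold Cfsg.charDegree
      simp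
    have h0' : (Cfsg.charDegree ψ).factorization p = 0 := by
      rw [← hdeg]
      exact h0
    rcases (Nat.factorization_eq_zero_iff _ _).mp h0' with h | h | h
    · exact h hp
    · exact h hdvd
    · exact (Helper80.irr_degree_pos ⟨ψ, hψ⟩).ne' h

end Cfsg.Agent.S4736
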