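import Mathlib
import Cfsg.Statements.S4956

set_option autoImplicit false
open Cfsg

namespace Cfsg.Agent.S4956

/-- Coprime decomposition for one endomorphism of finite order on a finite abelian group. -/
theorem add_coprime_decomp {M : Type*} [AddCommGroup M] [Finite M] (θ : AddMonoid.End M) (n : ℕ)
    (hn : θ ^ n = 1) (hcop : (Nat.card M).Coprime n) (a : M) :
    ∃ c u : M, θ c = c ∧ a = c + (u - θ u) := by
  obtain ⟨a', rfl⟩ : ∃ a', n • a' = a :=
    ⟨(nsmulCoprime hcop).symm a, (nsmulCoprime hcop).apply_symm_apply a⟩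
  set N : AddMonoid.End M := ∑ i ∈ Finset.range n, θ ^ i with hN
  set T : AddMonoid.End M := ∑ i ∈ Finset.range n, ∑ j ∈ Finset.range i, θ ^ j with hT
  have h1 : (θ - 1) * N = 0 := by rw [hN, mul_geom_sum, hn, sub_self]
  have h2 : (n : AddMonoid.End M) - N = (1 - θ) * T := by
    rw [hN, hT, Finset.mul_sum]
    simp only [mul_neg_geom_sum]
    rw [Finset.sum_sub_distrib]
    simp
  refine ⟨N a', T a', ?_, ?_⟩
  · have h := congrArg (fun f : AddMonoid.End M => f a') h1
    have h' : θ (N a') - N a' = 0 := h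
    exact sub_eq_zero.1 h'
  · have h := congrArg (fun f : AddMonoid.End M => f a') h2
    have h' : (n : AddMonoid.End M) a' - N a' = T a' - θ (T a') := h
    rw [AddMonoid.End.natCast_apply] at h'
    rw [← h']; abel

/-- Multiplicative version of `add_coprime_decomp`. -/
theorem mul_coprime_decomp {A : Type*} [CommGroup A] [Finite A] (θ : A →* A) (n : ℕ)
    (hn : ∀ a, θ^[n] a = a) (hcop : (Nat.card A).Coprime n) (a : A) :
    ∃ c u : A, θ c = c ∧ a = c * (u / θ u) := by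
  let θ' : AddMonoid.End (Additive A) := MonoidHom.toAdditive θ
  have hn' : θ' ^ n = 1 := by
    ext x
    rw [AddMonoid.End.coe_pow]
    have : ∀ (k : ℕ) (y : Additive A), (⇑θ')^[k] y = Additive.ofMul (θ^[k] y.toMul) := by
      intro k
      induction k with
      | zero => intro y; rfl
      | succ k ih =>
        intro y; rw [Function.iterate_succ_apply, ih, Function.iterate_succ_apply]; rfl
    rw [this, hn]; rfl
  have hc : (Nat.card (Additive A)).Coprime n := hcop
  obtain ⟨c, u, h1, h2⟩ := add_coprime_decomp θ' n hn' hc (Additive.ofMul a)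
  exact ⟨c.toMul, u.toMul, congrArg Additive.toMul h1, congrArg Additive.toMul h2⟩

/-- Coprime decomposition for conjugation by `g` on a normal abelian subgroup `V`. -/
theorem sub_coprime_decomp {X : Type*} [Group X] (V : Subgroup X) [V.Normal] [Finite V]
    (hab : ∀ a ∈ V, ∀ b ∈ V, a * b = b * a) (g : X) (n : ℕ) (hg : g ^ n = 1)
    (hcop : (Nat.card V).Coprime n) (w : X) (hw : w ∈ V) :
    ∃ v ∈ V, ∃ u ∈ V, g * v = v * g ∧ w = v * (u * (g * u * g⁻¹)⁻¹) := by
  let _ : CommGroup ↥V := { (inferInstance : Group ↥V) with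
    mul_comm := fun a b => Subtype.ext (hab a a.2 b b.2) }
  have hiter : ∀ (k : ℕ) (a : ↥V),
      ((((MulAut.conjNormal g : MulAut ↥V).toMonoidHom)^[k] a : ↥V) : X) = g ^ k * a * (g ^ k)⁻¹ := by
    intro k
    induction k with
    | zero => intro a; simp
    | succ k ih =>
      intro a
      rw [Function.iterate_succ_apply, ih]
      have : (((MulAut.conjNormal g : MulAut ↥V).toMonoidHom a : ↥V) : X) = g * a * g⁻¹ :=
        MulAut.conjNormal_apply g a
      rw [this, pow_succ]; group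
  obtain ⟨c, u, h1, h2⟩ := mul_coprime_decomp (MulAut.conjNormal g : MulAut ↥V).toMonoidHom n
    (fun a => Subtype.ext (by rw [hiter, hg]; simp)) hcop ⟨w, hw⟩
  have h1' : g * (c : X) * g⁻¹ = c := by
    have := congrArg (Subtype.val) h1
    rwa [show (((MulAut.conjNormal g : MulAut ↥V).toMonoidHom c : ↥V) : X) = g * c * g⁻¹ from
      MulAut.conjNormal_apply g c] at this
  refine ⟨c, c.2, u, u.2, ?_, ?_⟩
  · calc g * (c : X) = g * c * g⁻¹ * g := by group
      _ = c * g := by rw [h1']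
  · have h3 : w = ((c * (u / (MulAut.conjNormal g : MulAut ↥V).toMonoidHom u) : ↥V) : X) :=
      congrArg (Subtype.val) h2
    refine h3.trans ?_
    rw [Subgroup.coe_mul, Subgroup.coe_div,
      show (((MulAut.conjNormal g : MulAut ↥V).toMonoidHom u : ↥V) : X) = g * u * g⁻¹ from
      MulAut.conjNormal_apply g u, div_eq_mul_inv]

/-- Let X be a finite group, V an abelian normal subgroup of X (any two elements of V commute) and G a complement to V in X whose order is coprime to that of V. Let S be a set of representatives of the orbits of G on V under conjugation: S lies in V and every element of V is conjugate under G to exactly one member of S. Then the number of conjugacy classes of X equals the sum, over s in S, of the number of conjugacy classes of the centralizer of s in G. -/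
theorem result {X : Type*} [Group X] [Finite X] (V : Subgroup X) [V.Normal] (hab : ∀ a ∈ V, ∀ b ∈ V, a * b = b * a) (G : Subgroup X) (hGV : Subgroup.IsComplement' V G) (hcop : (Nat.card V).Coprime (Nat.card G)) (S : Finset X) (hSV : ∀ s ∈ S, s ∈ V) (hrep : ∀ v ∈ V, ∃! s, s ∈ S ∧ ∃ g ∈ G, g * v * g⁻¹ = s) : Nat.card (ConjClasses X) = ∑ s ∈ S, Nat.card (ConjClasses ↥(G ⊓ Subgroup.centralizer ({s} : Set X))) := by
  classical
  have hdisj : ∀ z : X, z ∈ V → z ∈ G → z = 1 := fun z hzV hzG =>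
    (Subgroup.disjoint_def.1 hGV.disjoint) hzV hzG
  have huniq : ∀ u ∈ V, ∀ h ∈ G, ∀ u' ∈ V, ∀ h' ∈ G, u * h = u' * h' → u = u' ∧ h = h' := by
    intro u hu h hh u' hu' h' hh' e
    have e1 : u'⁻¹ * u = h' * h⁻¹ := by
      rw [eq_mul_inv_iff_mul_eq, mul_assoc, e, inv_mul_cancel_left]
    have e2 : u'⁻¹ * u = 1 :=
      hdisj _ (V.mul_mem (V.inv_mem hu') hu) (e1 ▸ G.mul_mem hh' (G.inv_mem hh))
    have e3 : h' * h⁻¹ = 1 := e1 ▸ e2
    exact ⟨(inv_mul_eq_one.1 e2).symm, (mul_inv_eq_one.1 e3).symm⟩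
  have hdec : ∀ x : X, ∃ u ∈ V, ∃ h ∈ G, x = u * h := by
    intro x
    obtain ⟨⟨⟨u, hu⟩, ⟨h, hh⟩⟩, e⟩ := (Subgroup.isComplement_iff_existsUnique.1 hGV x).exists
    exact ⟨u, hu, h, hh, e.symm⟩
  -- the power trick
  obtain ⟨a, ha1, ha0⟩ := Nat.chineseRemainder hcop 1 0
  obtain ⟨b, hb0, hb1⟩ := Nat.chineseRemainder hcop 0 1
  have powV1 : ∀ s ∈ V, ∀ k : ℕ, k ≡ 1 [MOD Nat.card V] → s ^ k = s := by
    intro s hs k hk
    have := pow_eq_pow_iff_modEq.2 (hk.of_dvd (V.orderOf_dvd_natCard hs))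
    rwa [pow_one] at this
  have powV0 : ∀ s ∈ V, ∀ k : ℕ, k ≡ 0 [MOD Nat.card V] → s ^ k = 1 := by
    intro s hs k hk
    have := pow_eq_pow_iff_modEq.2 (hk.of_dvd (V.orderOf_dvd_natCard hs))
    rwa [pow_zero] at this
  have powG1 : ∀ s ∈ G, ∀ k : ℕ, k ≡ 1 [MOD Nat.card G] → s ^ k = s := by
    intro s hs k hk
    have := pow_eq_pow_iff_modEq.2 (hk.of_dvd (G.orderOf_dvd_natCard hs))
    rwa [pow_one] at this
  have powG0 : ∀ s ∈ G, ∀ k : ℕ, k ≡ 0 [MOD Nat.card G] → s ^ k = 1 := by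
    intro s hs k hk
    have := pow_eq_pow_iff_modEq.2 (hk.of_dvd (G.orderOf_dvd_natCard hs))
    rwa [pow_zero] at this
  have hsplit : ∀ s ∈ V, ∀ c ∈ G, s * c = c * s → (s * c) ^ a = s ∧ (s * c) ^ b = c := by
    intro s hs c hc hsc
    have hcomm : Commute s c := hsc
    constructor
    · rw [hcomm.mul_pow, powV1 s hs a ha1, powG0 c hc a ha0, mul_one]
    · rw [hcomm.mul_pow, powV0 s hs b hb0, powG1 c hc b hb1, one_mul]
  -- injectivity core
  have hinj : ∀ s ∈ V, ∀ c ∈ G, s * c = c * s → ∀ s' ∈ V, ∀ c' ∈ G, s' * c' = c' * s' →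
      ∀ x : X, x * (s * c) * x⁻¹ = s' * c' → ∃ h ∈ G, h * s * h⁻¹ = s' ∧ h * c * h⁻¹ = c' := by
    intro s hs c hc hsc s' hs' c' hc' hsc' x hx
    obtain ⟨u, hu, h, hh, rfl⟩ := hdec x
    have e1 : (u * h) * s * (u * h)⁻¹ = s' := by
      have : (u * h * (s * c) * (u * h)⁻¹) ^ a = (s' * c') ^ a := congrArg (· ^ a) hx
      rwa [conj_pow, (hsplit s hs c hc hsc).1, (hsplit s' hs' c' hc' hsc').1] at this
    have e2 : (u * h) * c * (u * h)⁻¹ = c' := by
      have : (u * h * (s * c) * (u * h)⁻¹) ^ b = (s' * c') ^ b := congrArg (· ^ b) hx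
      rwa [conj_pow, (hsplit s hs c hc hsc).2, (hsplit s' hs' c' hc' hsc').2] at this
    have e3 : h * s * h⁻¹ ∈ V := ‹V.Normal›.conj_mem s hs h
    refine ⟨h, hh, ?_, ?_⟩
    · have : (u * h) * s * (u * h)⁻¹ = u * (h * s * h⁻¹) * u⁻¹ := by group
      rw [this, hab u hu _ e3, mul_inv_cancel_right] at e1
      exact e1
    · have hcG : h * c * h⁻¹ ∈ G := G.mul_mem (G.mul_mem hh hc) (G.inv_mem hh)
      have hV : u * ((h * c * h⁻¹) * u⁻¹ * (h * c * h⁻¹)⁻¹) ∈ V :=
        V.mul_mem hu (‹V.Normal›.conj_mem _ (V.inv_mem hu) _)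
      have : u * ((h * c * h⁻¹) * u⁻¹ * (h * c * h⁻¹)⁻¹) * (h * c * h⁻¹) = 1 * c' := by
        rw [one_mul, ← e2]; group
      exact (huniq _ hV _ hcG 1 V.one_mem c' hc' this).2
  -- surjectivity core
  have hsurj : ∀ x : X, ∃ v ∈ V, ∃ c ∈ G, v * c = c * v ∧ IsConj x (v * c) := by
    intro x
    obtain ⟨w, hw, g, hg, rfl⟩ := hdec x
    have hgn : g ^ Nat.card G = 1 := orderOf_dvd_iff_pow_eq_one.1 (G.orderOf_dvd_natCard hg)
    obtain ⟨v, hv, u, hu, hgv, hwv⟩ := sub_coprime_decomp V hab g (Nat.card G) hgn hcop w hw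
    refine ⟨v, hv, g, hg, hgv.symm, isConj_iff.2 ⟨u⁻¹, ?_⟩⟩
    rw [hwv]
    have : u⁻¹ * (v * (u * (g * u * g⁻¹)⁻¹) * g) * u⁻¹⁻¹ = u⁻¹ * v * u * g := by group
    rw [this, hab _ (V.inv_mem hu) v hv, inv_mul_cancel_right]
  -- the bijection
  let Ψ : (Σ s : S, ConjClasses ↥(G ⊓ Subgroup.centralizer ({(s : X)} : Set X))) →
      ConjClasses X :=
    fun p => Quotient.liftOn p.2 (fun c => ConjClasses.mk ((p.1 : X) * (c : X))) (by
      intro c c' hcc
      obtain ⟨k, hk⟩ := isConj_iff.1 hcc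
      apply ConjClasses.mk_eq_mk_iff_isConj.2
      refine isConj_iff.2 ⟨(k : X), ?_⟩
      have hks : (p.1 : X) * (k : X) = (k : X) * (p.1 : X) :=
        Subgroup.mem_centralizer_iff.1 k.2.2 (p.1 : X) (Set.mem_singleton _)
      have hk' : (k : X) * (c : X) * (k : X)⁻¹ = (c' : X) := by
        have := congrArg Subtype.val hk
        simpa using this
      calc (k : X) * ((p.1 : X) * (c : X)) * (k : X)⁻¹
          = ((k : X) * (p.1 : X)) * (c : X) * (k : X)⁻¹ := by group
        _ = ((p.1 : X) * (k : X)) * (c : X) * (k : X)⁻¹ := by rw [hks]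
        _ = (p.1 : X) * ((k : X) * (c : X) * (k : X)⁻¹) := by group
        _ = (p.1 : X) * (c' : X) := by rw [hk'])
  have hΨinj : Function.Injective Ψ := by
    rintro ⟨s, q⟩ ⟨s', q'⟩ h
    induction q using Quotient.inductionOn with
    | _ c =>
    induction q' using Quotient.inductionOn with
    | _ c' =>
    have h' : ConjClasses.mk ((s : X) * (c : X)) = ConjClasses.mk ((s' : X) * (c' : X)) := h
    obtain ⟨x, hx⟩ := isConj_iff.1 (ConjClasses.mk_eq_mk_iff_isConj.1 h')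
    have hsc : (s : X) * (c : X) = (c : X) * (s : X) :=
      Subgroup.mem_centralizer_iff.1 c.2.2 (s : X) (Set.mem_singleton _)
    have hsc' : (s' : X) * (c' : X) = (c' : X) * (s' : X) :=
      Subgroup.mem_centralizer_iff.1 c'.2.2 (s' : X) (Set.mem_singleton _)
    obtain ⟨h₀, hh₀, e1, e2⟩ := hinj s (hSV s s.2) c c.2.1 hsc s' (hSV s' s'.2) c' c'.2.1 hsc' x hx
    have hss : (s : X) = (s' : X) := by
      obtain ⟨t, -, ht⟩ := hrep s (hSV s s.2)
      have h1 := ht s ⟨s.2, 1, G.one_mem, by group⟩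
      have h2 := ht s' ⟨s'.2, h₀, hh₀, e1⟩
      rw [h1, h2]
    obtain rfl : s = s' := Subtype.ext hss
    have hcc : IsConj c c' := by
      refine isConj_iff.2 ⟨⟨h₀, Subgroup.mem_inf.2 ⟨hh₀, Subgroup.mem_centralizer_iff.2 ?_⟩⟩,
        Subtype.ext ?_⟩
      · intro y hy
        rw [Set.mem_singleton_iff] at hy
        subst hy
        calc (s : X) * h₀ = (h₀ * s * h₀⁻¹) * h₀ := by rw [e1]
          _ = h₀ * s := by group
      · simpa using e2
    have : (Quotient.mk _ c : ConjClasses ↥(G ⊓ Subgroup.centralizer ({(s : X)} : Set X))) =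
        Quotient.mk _ c' := ConjClasses.mk_eq_mk_iff_isConj.2 hcc
    rw [this]
  have hΨsurj : Function.Surjective Ψ := by
    intro q
    obtain ⟨x, rfl⟩ := ConjClasses.mk_surjective q
    obtain ⟨v, hv, c, hc, hvc, hconj⟩ := hsurj x
    obtain ⟨s, ⟨hsS, g, hg, e⟩, -⟩ := hrep v hv
    have hmem : g * c * g⁻¹ ∈ G ⊓ Subgroup.centralizer ({s} : Set X) := by
      refine Subgroup.mem_inf.2 ⟨G.mul_mem (G.mul_mem hg hc) (G.inv_mem hg),
        Subgroup.mem_centralizer_iff.2 ?_⟩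
      intro y hy
      rw [Set.mem_singleton_iff] at hy
      subst hy
      rw [← e]
      calc g * v * g⁻¹ * (g * c * g⁻¹) = g * (v * c) * g⁻¹ := by group
        _ = g * (c * v) * g⁻¹ := by rw [hvc]
        _ = g * c * g⁻¹ * (g * v * g⁻¹) := by group
    refine ⟨⟨⟨s, hsS⟩, ConjClasses.mk ⟨g * c * g⁻¹, hmem⟩⟩, ?_⟩
    show ConjClasses.mk (s * (g * c * g⁻¹)) = ConjClasses.mk x
    apply ConjClasses.mk_eq_mk_iff_isConj.2
    refine IsConj.trans ?_ hconj.symm
    refine IsConj.symm (isConj_iff.2 ⟨g, ?_⟩)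
    rw [← e]; group
  have hcard := Nat.card_congr (Equiv.ofBijective Ψ ⟨hΨinj, hΨsurj⟩)
  rw [← hcard, Nat.card_sigma,
    ← Finset.sum_coe_sort S
      (fun s => Nat.card (ConjClasses ↥(G ⊓ Subgroup.centralizer ({s} : Set X))))]

end Cfsg.Agent.S4956
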