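import Cfsg.Statements.S4964
import Cfsg.Agent.Helper76.DominateComm
import Cfsg.Agent.Helper79.Quotient

set_option autoImplicit false
open Cfsg

namespace Cfsg.Agent.S4964

/-- Let D be a normal p-subgroup of the finite group G, let D′ be its commutator subgroup (normal in G), and fix a maximal ideal M of the algebraic integers containing p. Then (i) two irreducible characters of G ⧸ D′ lie in the same p-block if and only if their inflations to G do, and (ii) every p-block of G contains the inflation of some irreducible character of G ⧸ D′; so inflation induces a bijection between the p-blocks of G ⧸ D′ and the p-blocks of G. -/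
theorem result {G : Type*} [Group G] [Finite G] (p : ℕ) [Fact p.Prime] (M : Ideal Cfsg.AlgInt) (hM : Cfsg.IsPModular p M) (D : Subgroup G) [D.Normal] (hD : IsPGroup p D) : (∀ χ ψ : Cfsg.IrrCharacter (G ⧸ ⁅D, D⁆), Cfsg.SameBlock M (χ : G ⧸ ⁅D, D⁆ → ℂ) (ψ : G ⧸ ⁅D, D⁆ → ℂ) ↔ Cfsg.SameBlock M ((χ : G ⧸ ⁅D, D⁆ → ℂ) ∘ QuotientGroup.mk) ((ψ : G ⧸ ⁅D, D⁆ → ℂ) ∘ QuotientGroup.mk)) ∧ ∀ B : Set (Cfsg.IrrCharacter G), Cfsg.IsPBlock M B → ∃ χ : Cfsg.IrrCharacter (G ⧸ ⁅D, D⁆), ∃ θ ∈ B, (θ : G → ℂ) = (χ : G ⧸ ⁅D, D⁆ → ℂ) ∘ QuotientGroup.mk := by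
  classical
  cases nonempty_fintype G
  have hK : IsPGroup p (⁅D, D⁆ : Subgroup G) := hD.to_le (Subgroup.commutator_le_left D D)
  refine ⟨fun χ ψ => ⟨fun h => Helper81.sameBlock_comp_mk hM ⁅D, D⁆ h,
    fun h => Helper76.sameBlock_of_comp_mk_commutator hM D hD χ ψ h⟩, ?_⟩
  intro B hB
  have hnil : ∀ g : G, g ∉ Subgroup.centralizer ((⁅D, D⁆ : Subgroup G) : Set G) →
      ∀ ψ : Cfsg.IrrCharacter G, Cfsg.MemLocalIdeal M (Cfsg.centralChar (ψ : G → ℂ) g) :=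
    fun g hg ψ => Helper16.centralChar_memLocalIdeal_of_not_mem_centralizer hM ⁅D, D⁆ hK ψ g hg
  obtain ⟨θ, hθB, hθ⟩ := Helper81.exists_mem_block_ker hM ⁅D, D⁆ hK hnil hB
  obtain ⟨ψ, hψ, hψg⟩ := Helper79.exists_irr_deflation ⁅D, D⁆ θ.2 hθ
  exact ⟨⟨ψ, hψ⟩, θ, hθB, funext fun g => (hψg g).symm⟩

end Cfsg.Agent.S4964
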