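import Mathlib
import Cfsg.Statements.S4965

set_option autoImplicit false
open Cfsg

namespace Cfsg.Agent.S4965

/-- Let X be a finite group with an abelian normal subgroup V (any two elements of V commute), and let φ be the action of X ⧸ V on V induced by conjugation (well defined because V is abelian; the hypothesis hφ says that the class of x acts as conjugation by x). Then X has at most as many conjugacy classes as the semidirect product of V by X ⧸ V formed with this action: the split extension has the largest class number among extensions with the given action. -/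
theorem result {X : Type*} [Group X] [Finite X] (V : Subgroup X) [V.Normal] (hab : ∀ a ∈ V, ∀ b ∈ V, a * b = b * a) (φ : X ⧸ V →* MulAut ↥V) (hφ : ∀ (x : X) (v : ↥V), ((φ (QuotientGroup.mk x) v : ↥V) : X) = x * v * x⁻¹) : Nat.card (ConjClasses X) ≤ Nat.card (ConjClasses (SemidirectProduct ↥V (X ⧸ V) φ)) := by
  classical
  have : Finite (SemidirectProduct ↥V (X ⧸ V) φ) :=
    Finite.of_equiv _ SemidirectProduct.equivProd.symm
  -- base points: for each pair of cosets that lifts to a commuting pair, a commuting lift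
  let β : (X ⧸ V) × (X ⧸ V) → X × X := fun ab =>
    if h : ∃ p : X × X, Commute p.1 p.2 ∧ (p.1 : X ⧸ V) = ab.1 ∧ (p.2 : X ⧸ V) = ab.2
    then Classical.choose h else (1, 1)
  have hβ : ∀ x y : X, Commute x y →
      Commute (β ((x : X ⧸ V), (y : X ⧸ V))).1 (β ((x : X ⧸ V), (y : X ⧸ V))).2 ∧
        ((β ((x : X ⧸ V), (y : X ⧸ V))).1 : X ⧸ V) = (x : X ⧸ V) ∧
        ((β ((x : X ⧸ V), (y : X ⧸ V))).2 : X ⧸ V) = (y : X ⧸ V) := by
    intro x y hxy
    have h : ∃ p : X × X, Commute p.1 p.2 ∧ (p.1 : X ⧸ V) = (x : X ⧸ V) ∧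
        (p.2 : X ⧸ V) = (y : X ⧸ V) := ⟨(x, y), hxy, rfl, rfl⟩
    have hb : β ((x : X ⧸ V), (y : X ⧸ V)) = Classical.choose h := dif_pos h
    rw [hb]
    exact Classical.choose_spec h
  have hmem : ∀ x x₀ : X, (x₀ : X ⧸ V) = (x : X ⧸ V) → x * x₀⁻¹ ∈ V := by
    intro x x₀ h
    have h1 : ((x * x₀⁻¹ : X) : X ⧸ V) = 1 := by
      rw [QuotientGroup.mk_mul, QuotientGroup.mk_inv, h, mul_inv_cancel]
    exact (QuotientGroup.eq_one_iff _).1 h1
  have comm : ∀ (x y x₀ y₀ : X) (hx : x * x₀⁻¹ ∈ V) (hy : y * y₀⁻¹ ∈ V), x * y = y * x →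
      x₀ * y₀ = y₀ * x₀ → (x₀ : X ⧸ V) = (x : X ⧸ V) → (y₀ : X ⧸ V) = (y : X ⧸ V) →
      Commute (⟨⟨x * x₀⁻¹, hx⟩, (x : X ⧸ V)⟩ : SemidirectProduct ↥V (X ⧸ V) φ)
        ⟨⟨y * y₀⁻¹, hy⟩, (y : X ⧸ V)⟩ := by
    intro x y x₀ y₀ hx hy hxy hc h1 h2
    apply SemidirectProduct.ext
    · apply Subtype.ext
      simp only [SemidirectProduct.mul_left, Subgroup.coe_mul]
      rw [← h1, ← h2, hφ, hφ]
      have e1 : x * x₀⁻¹ * (x₀ * (y * y₀⁻¹) * x₀⁻¹) = x * y * (x₀ * y₀)⁻¹ := by group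
      have e2 : y * y₀⁻¹ * (y₀ * (x * x₀⁻¹) * y₀⁻¹) = y * x * (y₀ * x₀)⁻¹ := by group
      rw [e1, e2, hxy, hc]
    · simp only [SemidirectProduct.mul_right]
      rw [← QuotientGroup.mk_mul, ← QuotientGroup.mk_mul, hxy]
  have key : Nat.card {p : X × X // Commute p.1 p.2} ≤
      Nat.card {p : SemidirectProduct ↥V (X ⧸ V) φ × SemidirectProduct ↥V (X ⧸ V) φ //
        Commute p.1 p.2} := by
    refine Nat.card_le_card_of_injective
      (fun p => ⟨(⟨⟨p.1.1 * (β ((p.1.1 : X ⧸ V), (p.1.2 : X ⧸ V))).1⁻¹,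
          hmem _ _ (hβ p.1.1 p.1.2 p.2).2.1⟩, (p.1.1 : X ⧸ V)⟩,
        ⟨⟨p.1.2 * (β ((p.1.1 : X ⧸ V), (p.1.2 : X ⧸ V))).2⁻¹,
          hmem _ _ (hβ p.1.1 p.1.2 p.2).2.2⟩, (p.1.2 : X ⧸ V)⟩),
        comm _ _ _ _ _ _ p.2 (hβ p.1.1 p.1.2 p.2).1 (hβ p.1.1 p.1.2 p.2).2.1
          (hβ p.1.1 p.1.2 p.2).2.2⟩) ?_
    rintro ⟨⟨x, y⟩, hxy⟩ ⟨⟨x', y'⟩, hxy'⟩ h
    have h' := congrArg Subtype.val h
    have ha := congrArg Prod.fst h'
    have hb := congrArg Prod.snd h'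
    have h2 : (x : X ⧸ V) = (x' : X ⧸ V) := congrArg SemidirectProduct.right ha
    have h4 : (y : X ⧸ V) = (y' : X ⧸ V) := congrArg SemidirectProduct.right hb
    have h1 : x * (β ((x : X ⧸ V), (y : X ⧸ V))).1⁻¹ =
        x' * (β ((x' : X ⧸ V), (y' : X ⧸ V))).1⁻¹ :=
      congrArg (fun s : SemidirectProduct ↥V (X ⧸ V) φ => (s.left : X)) ha
    have h3 : y * (β ((x : X ⧸ V), (y : X ⧸ V))).2⁻¹ =
        y' * (β ((x' : X ⧸ V), (y' : X ⧸ V))).2⁻¹ :=
      congrArg (fun s : SemidirectProduct ↥V (X ⧸ V) φ => (s.left : X)) hb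
    rw [← h2, ← h4] at h1 h3
    have hx : x = x' := mul_right_cancel h1
    have hy : y = y' := mul_right_cancel h3
    subst hx; subst hy; rfl
  rw [card_comm_eq_card_conjClasses_mul_card, card_comm_eq_card_conjClasses_mul_card,
    SemidirectProduct.card, ← Subgroup.index_eq_card, Subgroup.card_mul_index] at key
  exact Nat.le_of_mul_le_mul_right key Nat.card_pos

end Cfsg.Agent.S4965
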