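import Cfsg.Statements.S4966
import Cfsg.Agent.Helper82.FormSplit

set_option autoImplicit false
open Cfsg

namespace Cfsg.Agent.S4966

/-- Let F be a finite field of characteristic p, G a finite group of order prime to p, and V a finite-dimensional representation of G over F carrying a nondegenerate G-invariant bilinear form (equivalently, V is self-dual). Then V is the direct sum of two G-invariant subspaces U and W such that U carries a G-invariant alternating bilinear form that is nondegenerate on U and W carries a G-invariant symmetric bilinear form that is nondegenerate on W; moreover when p = 2 the decomposition can be chosen with G acting trivially on W. -/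
theorem result {F : Type*} [Field F] [Fintype F] (p : ℕ) [Fact p.Prime] [CharP F p] {G : Type*} [Group G] [Finite G] (hcop : ¬ p ∣ Nat.card G) {V : Type*} [AddCommGroup V] [Module F V] [FiniteDimensional F V] (ρ : Representation F G V) (B : LinearMap.BilinForm F V) (hB : B.Nondegenerate) (hBinv : ∀ g : G, ∀ x y : V, B (ρ g x) (ρ g y) = B x y) : ∃ U W : Submodule F V, IsCompl U W ∧ (∀ g : G, ∀ u ∈ U, ρ g u ∈ U) ∧ (∀ g : G, ∀ w ∈ W, ρ g w ∈ W) ∧ (∃ A : LinearMap.BilinForm F V, (∀ x : V, A x x = 0) ∧ (∀ g : G, ∀ x ∈ U, ∀ y ∈ U, A (ρ g x) (ρ g y) = A x y) ∧ (∀ x ∈ U, (∀ y ∈ U, A x y = 0) → x = 0)) ∧ (∃ S : LinearMap.BilinForm F V, (∀ x y : V, S x y = S y x) ∧ (∀ g : G, ∀ x ∈ W, ∀ y ∈ W, S (ρ g x) (ρ g y) = S x y) ∧ (∀ x ∈ W, (∀ y ∈ W, S x y = 0) → x = 0)) ∧ (p = 2 → ∀ g : G, ∀ w ∈ W, ρ g w = w) := by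
  classical
  haveI : Fintype G := Fintype.ofFinite G
  have hG : (Nat.card G : F) ≠ 0 := by
    rw [Ne, CharP.cast_eq_zero_iff F p]
    exact hcop
  by_cases hp : p = 2
  · subst hp
    have h2 : (2 : F) = 0 := by
      have := CharP.cast_eq_zero F 2
      exact_mod_cast this
    have hMinv := Cfsg.Agent.Helper82.ginv_ker_normEnd ρ
    have hMnd := Cfsg.Agent.Helper82.ndon_ker_normEnd hG ρ B hB.1 hBinv
    obtain ⟨U', W', hd, hsup, hU', hW', ⟨A', hA', hA'inv, hA'nd⟩, ⟨S', hS', hS'inv, hS'nd⟩⟩ :=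
      Cfsg.Agent.Helper82.peel hG ρ _ (LinearMap.ker (Cfsg.Agent.Helper82.normEnd ρ)) rfl hMinv B
        (fun g x _ y _ => hBinv g x y) hMnd
    have hW'le : W' ≤ LinearMap.ker (Cfsg.Agent.Helper82.normEnd ρ) := hsup ▸ le_sup_right
    have hS'alt : ∀ w ∈ W', S' w w = 0 :=
      Cfsg.Agent.Helper82.alt_of_symm_of_no_fixed h2 hG hW'
        (fun m hm hfix => Cfsg.Agent.Helper82.ker_normEnd_no_fixed hG ρ (hW'le hm) hfix)
        hS' hS'inv
    obtain ⟨A₁, hA₁⟩ := Cfsg.Agent.Helper82.exists_glue hd A' S'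
    have hA₁alt := Cfsg.Agent.Helper82.glue_alt hA₁ (fun x _ => hA' x) hS'alt
    have hA₁inv := Cfsg.Agent.Helper82.glue_finv hA₁ hU' hW' hA'inv hS'inv
    have hA₁nd := Cfsg.Agent.Helper82.glue_ndon hA₁ hA'nd hS'nd
    rw [hsup] at hA₁alt hA₁inv hA₁nd
    have hdis := Cfsg.Agent.Helper82.disjoint_ker_normEnd_fixedSub hG ρ
    obtain ⟨A, hAalt, hAeq⟩ := Cfsg.Agent.Helper82.exists_alt_global hdis A₁ hA₁alt
    obtain ⟨S, hSsym, hSnd⟩ :=
      Cfsg.Agent.Helper82.exists_symm_ndon (Cfsg.Agent.Helper82.fixedSub ρ)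
    refine ⟨LinearMap.ker (Cfsg.Agent.Helper82.normEnd ρ), Cfsg.Agent.Helper82.fixedSub ρ,
      ⟨hdis, codisjoint_iff.mpr (Cfsg.Agent.Helper82.sup_ker_normEnd_fixedSub hG ρ)⟩,
      hMinv, Cfsg.Agent.Helper82.ginv_fixedSub ρ, ⟨A, hAalt, ?_, ?_⟩, ⟨S, hSsym, ?_, hSnd⟩,
      fun _ g w hw => hw g⟩
    · intro g x hx y hy
      rw [hAeq _ (hMinv g x hx) _ (hMinv g y hy), hAeq x hx y hy]
      exact hA₁inv g x hx y hy
    · intro x hx hx0
      apply hA₁nd x hx
      intro y hy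
      rw [← hAeq x hx y hy]
      exact hx0 y hy
    · intro g x hx y hy
      have e1 : ρ g x = x := hx g
      have e2 : ρ g y = y := hy g
      rw [e1, e2]
  · have h2 : (2 : F) ≠ 0 := by
      intro h
      have h3 : ((2 : ℕ) : F) = 0 := by exact_mod_cast h
      rw [CharP.cast_eq_zero_iff F p] at h3
      exact hp ((Nat.prime_dvd_prime_iff_eq Fact.out Nat.prime_two).mp h3)
    obtain ⟨U, W, hd, hsup, hU, hW, ⟨A, hA, hAinv, hAnd⟩, ⟨S, hS, hSinv, hSnd⟩⟩ :=
      Cfsg.Agent.Helper82.peel hG ρ _ ⊤ rfl (fun g x _ => trivial) B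
        (fun g x _ y _ => hBinv g x y) (fun x _ hx => hB.1 x (fun y => hx y trivial))
    have hS2 : ∀ x ∈ W, ∀ y ∈ W, ((2 : F)⁻¹ • (S + S.flip)) x y = S x y := by
      intro x hx y hy
      simp only [LinearMap.smul_apply, LinearMap.add_apply, LinearMap.BilinForm.flip_apply,
        smul_eq_mul]
      rw [hS y hy x hx, ← two_mul, ← mul_assoc, inv_mul_cancel₀ h2, one_mul]
    refine ⟨U, W, ⟨hd, codisjoint_iff.mpr hsup⟩, hU, hW, ⟨A, hA, hAinv, hAnd⟩,
      ⟨(2 : F)⁻¹ • (S + S.flip), ?_, ?_, ?_⟩, fun h => absurd h hp⟩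
    · intro x y
      simp only [LinearMap.smul_apply, LinearMap.add_apply, LinearMap.BilinForm.flip_apply,
        smul_eq_mul]
      rw [add_comm]
    · intro g x hx y hy
      rw [hS2 _ (hW g x hx) _ (hW g y hy), hS2 x hx y hy]
      exact hSinv g x hx y hy
    · intro x hx hx0
      apply hSnd x hx
      intro y hy
      rw [← hS2 x hx y hy]
      exact hx0 y hy

end Cfsg.Agent.S4966
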