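import Cfsg.Statements.S4967
import Cfsg.Agent.Helper82.AbelianIrr

set_option autoImplicit false
open Cfsg

namespace Cfsg.Agent.S4967

/-- Let F be a finite field with r elements and of characteristic p, H a finite abelian group of order prime to p, and V a faithful irreducible representation of H over F of dimension n (faithful: distinct elements act differently; irreducible: the only H-invariant subspaces are 0 and V). Call V self-dual when it carries a nondegenerate H-invariant bilinear form. If n = 1 and V is self-dual then H has order at most 2. If n ≥ 2 then V is self-dual if and only if n is even and the order of H divides r^(n/2) + 1. -/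
theorem result {F : Type*} [Field F] [Fintype F] (p : ℕ) [Fact p.Prime] [CharP F p] {H : Type*} [CommGroup H] [Finite H] (hcop : ¬ p ∣ Nat.card H) {V : Type*} [AddCommGroup V] [Module F V] [FiniteDimensional F V] (ρ : Representation F H V) (hfaith : Function.Injective ρ) (hirr : ∀ U : Submodule F V, (∀ h : H, ∀ u ∈ U, ρ h u ∈ U) → U = ⊥ ∨ U = ⊤) : (Module.finrank F V = 1 → (∃ B : LinearMap.BilinForm F V, B.Nondegenerate ∧ ∀ h : H, ∀ x y : V, B (ρ h x) (ρ h y) = B x y) → Nat.card H ≤ 2) ∧ (2 ≤ Module.finrank F V → ((∃ B : LinearMap.BilinForm F V, B.Nondegenerate ∧ ∀ h : H, ∀ x y : V, B (ρ h x) (ρ h y) = B x y) ↔ (Even (Module.finrank F V) ∧ Nat.card H ∣ Fintype.card F ^ (Module.finrank F V / 2) + 1))) := by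
  classical
  by_cases hV : Nontrivial V
  swap
  · have h0 : Module.finrank F V = 0 := by
      rw [not_nontrivial_iff_subsingleton] at hV
      exact Module.finrank_zero_of_subsingleton
    refine ⟨fun h => ?_, fun h => ?_⟩ <;> omega
  obtain ⟨v₀, hv₀⟩ := exists_ne (0 : V)
  obtain ⟨E, _, _, ι, χ, hιχ, hbij, hgen⟩ :=
    Cfsg.Agent.Helper82.exists_field_of_irreducible ρ hirr v₀ hv₀
  have hfin : Module.finrank F E = Module.finrank F V :=
    LinearEquiv.finrank_eq (Cfsg.Agent.Helper82.evalEquiv ι v₀ hbij)
  have hχinj : Function.Injective χ := by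
    intro a b hab
    apply hfaith
    rw [← hιχ, ← hιχ, hab]
  haveI : IsCyclic H := isCyclic_of_subgroup_isDomain χ hχinj
  have hcard : ∀ m : ℕ, (∀ h, χ h ^ m = 1) → Nat.card H ∣ m := by
    intro m hm
    rw [← IsCyclic.exponent_eq_card]
    apply Monoid.exponent_dvd_of_forall_pow_eq_one
    intro h
    apply hχinj
    rw [map_pow, hm, map_one]
  refine ⟨?_, ?_⟩
  · rintro h1 ⟨B, hB, hBinv⟩
    obtain ⟨k, hk, hdvd, hpow⟩ :=
      Cfsg.Agent.Helper82.frobenius_of_invariant_form ρ ι χ hιχ v₀ hbij hgen B hB hBinv
    have hk0 : k = 0 := by omega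
    subst hk0
    have h2 := hcard _ hpow
    rw [pow_zero] at h2
    exact Nat.le_of_dvd (by norm_num) h2
  · intro h2
    constructor
    · rintro ⟨B, hB, hBinv⟩
      obtain ⟨k, hk, hdvd, hpow⟩ :=
        Cfsg.Agent.Helper82.frobenius_of_invariant_form ρ ι χ hιχ v₀ hbij hgen B hB hBinv
      have hk0 : k ≠ 0 := by
        rintro rfl
        have h3 : Algebra.adjoin F (Set.range χ) ≤ (⊥ : Subalgebra F E) := by
          apply Algebra.adjoin_le
          rintro _ ⟨h, rfl⟩
          have h4 := hpow h
          rw [pow_zero] at h4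
          have h5 : χ h ^ 2 = 1 := h4
          rcases sq_eq_one_iff.mp h5 with h6 | h6
          · rw [h6]; exact Subalgebra.one_mem _
          · rw [h6]; exact Subalgebra.neg_mem _ (Subalgebra.one_mem _)
        rw [hgen] at h3
        have h7 : (⊥ : Subalgebra F E) = ⊤ := le_antisymm bot_le h3
        rw [Subalgebra.bot_eq_top_iff_finrank_eq_one] at h7
        omega
      have h2k : 2 * k = Module.finrank F V := by
        rw [hfin] at hdvd hk
        obtain ⟨c, hc⟩ := hdvd
        have hc1 : c = 1 := by
          rcases Nat.lt_or_ge c 2 with h | h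
          · interval_cases c
            · omega
            · rfl
          · exfalso
            have : Module.finrank F V * 2 ≤ Module.finrank F V * c :=
              Nat.mul_le_mul_left _ h
            omega
        rw [hc, hc1, mul_one]
      refine ⟨⟨k, by omega⟩, ?_⟩
      have h3 : Module.finrank F V / 2 = k := by omega
      rw [h3]
      exact hcard _ hpow
    · rintro ⟨⟨k, hk⟩, hdvd⟩
      have h3 : Module.finrank F V / 2 = k := by omega
      rw [h3] at hdvd
      apply Cfsg.Agent.Helper82.exists_invariant_form ρ ι χ hιχ v₀ hbij k (by omega)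
      intro h
      rw [← map_pow, ← map_one χ]
      congr 1
      exact orderOf_dvd_iff_pow_eq_one.mp ((orderOf_dvd_natCard h).trans hdvd)

end Cfsg.Agent.S4967
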