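import Cfsg.Statements.S5015
-- import your own Cfsg.Agent.* helpers here
import Cfsg.Agent.Helper83.RootSet

set_option autoImplicit false
open Cfsg

set_option maxHeartbeats 400000

namespace Cfsg.Agent.S5015

open Cfsg.Agent.Helper83

/-- Let a group Y act doubly transitively on a set Ω with at least three points, and suppose that the stabilizer of a point α contains a nilpotent subgroup A, normalized by that stabilizer, which acts regularly on the points other than α. Then for any y in Y moving α, the subgroups A and y A y⁻¹ are the unipotent subgroups of a rank one group, and the normal closure of A in Y (the subgroup generated by all conjugates of A) is generated by A and y A y⁻¹ alone. -/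
theorem result {Y Ω : Type*} [Group Y] [MulAction Y Ω]
    (h2 : MulAction.IsMultiplyPretransitive Y Ω 2) (hΩ : 3 ≤ ENat.card Ω) (α : Ω) (A : Subgroup Y)
    (hA : A ≤ MulAction.stabilizer Y α) (hAn : ∀ y ∈ MulAction.stabilizer Y α, Cfsg.conjBy A y = A)
    (hnil : Group.IsNilpotent A) (hreg : ∀ β γ : Ω, β ≠ α → γ ≠ α → ∃! a : Y, a ∈ A ∧ a • β = γ)
    (y : Y) (hy : y ∉ MulAction.stabilizer Y α) :
    Cfsg.IsRankOnePair A (Cfsg.conjBy A y) ∧ Subgroup.normalClosure (A : Set Y) = A ⊔ Cfsg.conjBy A y := by
  have hβα : y • α ≠ α := fun e => hy (MulAction.mem_stabilizer_iff.mpr e)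
  have hyinv : y⁻¹ • α ≠ α := by
    intro e
    apply hβα
    calc y • α = y • (y⁻¹ • α) := by rw [e]
      _ = α := by rw [smul_smul, mul_inv_cancel, one_smul]
  -- conjugates of `A` depend only on the image of `α`
  have hK : ∀ g g' : Y, g • α = g' • α → conjBy A g = conjBy A g' := by
    intro g g' e
    have hst : g⁻¹ * g' ∈ MulAction.stabilizer Y α := by
      rw [MulAction.mem_stabilizer_iff, mul_smul, ← e, smul_smul, inv_mul_cancel, one_smul]
    have := hAn _ hst
    calc conjBy A g = conjBy (conjBy A (g⁻¹ * g')) g := by rw [this]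
      _ = conjBy A g' := by rw [conjBy_conjBy]; congr 1; group
  -- elements of `A` fix `α`
  have hAfix : ∀ a ∈ A, a • α = α := fun a ha => MulAction.mem_stabilizer_iff.mp (hA ha)
  -- elements of `B` fix `y • α`
  have hBfix : ∀ b ∈ conjBy A y, b • (y • α) = y • α := by
    intro b hb
    rw [mem_conjBy] at hb
    have h1 := hAfix _ hb
    calc b • (y • α) = y • ((y⁻¹ * b * y) • α) := by
          simp only [smul_smul]; congr 1; group
      _ = y • α := by rw [h1]
  -- `B` is transitive on the points other than `y • α`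
  have hregB : ∀ β γ : Ω, β ≠ y • α → γ ≠ y • α → ∃ b ∈ conjBy A y, b • β = γ := by
    intro β γ hβ hγ
    have h1 : y⁻¹ • β ≠ α := by
      intro e
      apply hβ
      calc β = y • (y⁻¹ • β) := by rw [smul_smul, mul_inv_cancel, one_smul]
        _ = y • α := by rw [e]
    have h2 : y⁻¹ • γ ≠ α := by
      intro e
      apply hγ
      calc γ = y • (y⁻¹ • γ) := by rw [smul_smul, mul_inv_cancel, one_smul]
        _ = y • α := by rw [e]
    obtain ⟨a, ⟨ha, hab⟩, -⟩ := hreg _ _ h1 h2
    refine ⟨y * a * y⁻¹, conj_mem_conjBy ha, ?_⟩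
    calc (y * a * y⁻¹) • β = y • (a • (y⁻¹ • β)) := by simp only [smul_smul, mul_assoc]
      _ = y • (y⁻¹ • γ) := by rw [hab]
      _ = γ := by rw [smul_smul, mul_inv_cancel, one_smul]
  obtain ⟨γ₀, hγα, hγβ⟩ := ENat.exists_ne_ne_of_three_le hΩ α (y • α)
  -- uniqueness in `hreg` : an element of `A` fixing a point other than `α` is trivial
  have hAtriv : ∀ a ∈ A, ∀ β : Ω, β ≠ α → a • β = β → a = 1 := by
    intro a ha β hβ hfix
    obtain ⟨a₀, -, huniq⟩ := hreg β β hβ hβ
    rw [huniq a ⟨ha, hfix⟩, huniq 1 ⟨A.one_mem, one_smul _ _⟩]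
  have hne : A ≠ conjBy A y := by
    intro e
    obtain ⟨a, ⟨ha, haγ⟩, -⟩ := hreg (y • α) γ₀ hβα hγα
    have h1 := hBfix a (e ▸ ha)
    exact hγβ (haγ.symm.trans h1)
  have hpair : IsRankOnePair A (conjBy A y) := by
    refine ⟨hne, hnil, ?_, ?_, ?_⟩
    · exact Group.nilpotent_of_mulEquiv
        (A.equivMapOfInjective (MulAut.conj y).toMonoidHom (MulAut.conj y).injective)
    · intro a ha ha1
      -- δ = a⁻¹ • (y • α)
      have hδβ : a⁻¹ • (y • α) ≠ y • α := by
        intro e
        apply ha1
        have h1 : a • (y • α) = y • α := by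
          calc a • (y • α) = a • (a⁻¹ • (y • α)) := by rw [e]
            _ = y • α := by rw [smul_smul, mul_inv_cancel, one_smul]
        exact hAtriv a ha _ hβα h1
      have hδα : a⁻¹ • (y • α) ≠ α := by
        intro e
        apply hβα
        calc y • α = a • (a⁻¹ • (y • α)) := by rw [smul_smul, mul_inv_cancel, one_smul]
          _ = a • α := by rw [e]
          _ = α := hAfix a ha
      obtain ⟨b, hb, hbδ⟩ := hregB _ α hδβ (Ne.symm hβα)
      refine ⟨b, hb, ?_, ?_⟩
      · rintro rfl
        rw [one_smul] at hbδ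
        exact hδα hbδ
      · rw [conjBy_conjBy]
        apply hK
        rw [mul_smul]
        calc b⁻¹ • α = b⁻¹ • (b • (a⁻¹ • (y • α))) := by rw [hbδ]
          _ = a⁻¹ • (y • α) := by rw [smul_smul, inv_mul_cancel, one_smul]
    · intro b hb hb1
      have hb' : y⁻¹ * b * y ∈ A := mem_conjBy.mp hb
      have hδα : b⁻¹ • α ≠ α := by
        intro e
        apply hb1
        have h1 : b • α = α := by
          calc b • α = b • (b⁻¹ • α) := by rw [e]
            _ = α := by rw [smul_smul, mul_inv_cancel, one_smul]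
        have h2 : (y⁻¹ * b * y) • (y⁻¹ • α) = y⁻¹ • α := by
          calc (y⁻¹ * b * y) • (y⁻¹ • α) = y⁻¹ • (b • α) := by
                simp only [smul_smul]; congr 1; group
            _ = y⁻¹ • α := by rw [h1]
        have h3 := hAtriv _ hb' _ hyinv h2
        calc b = y * (y⁻¹ * b * y) * y⁻¹ := by group
          _ = 1 := by rw [h3]; group
      have hδβ : b⁻¹ • α ≠ y • α := by
        intro e
        apply hβα
        calc y • α = b • (y • α) := (hBfix b hb).symm
          _ = b • (b⁻¹ • α) := by rw [e]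
          _ = α := by rw [smul_smul, mul_inv_cancel, one_smul]
      obtain ⟨a, ⟨ha, haδ⟩, -⟩ := hreg _ _ hδα hβα
      refine ⟨a, ha, ?_, ?_⟩
      · rintro rfl
        rw [one_smul] at haδ
        exact hδβ haδ
      · rw [conjBy_conjBy]
        apply hK
        rw [mul_smul]
        calc a⁻¹ • (y • α) = a⁻¹ • (a • (b⁻¹ • α)) := by rw [haδ]
          _ = b⁻¹ • α := by rw [smul_smul, inv_mul_cancel, one_smul]
  refine ⟨hpair, ?_⟩
  apply le_antisymm
  · -- every conjugate of `A` lies in `A ⊔ B`
    have hconj : ∀ g : Y, conjBy A g ≤ A ⊔ conjBy A y := by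
      intro g
      by_cases hg : g • α = α
      · have : conjBy A g = conjBy A 1 := hK g 1 (by rw [hg, one_smul])
        rw [this, conjBy_one]
        exact le_sup_left
      · obtain ⟨b, hb, hbγ⟩ := hregB α γ₀ (Ne.symm hβα) hγβ
        obtain ⟨a, ⟨ha, haγ⟩, -⟩ := hreg γ₀ (g • α) hγα hg
        have : conjBy A g = conjBy A (a * b) := hK g (a * b) (by rw [mul_smul, hbγ, haγ])
        rw [this]
        exact conjBy_le_of_mem le_sup_left
          (mul_mem (Subgroup.mem_sup_left ha) (Subgroup.mem_sup_right hb))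
    unfold Subgroup.normalClosure
    rw [Subgroup.closure_le]
    intro x hx
    rw [Group.mem_conjugatesOfSet_iff] at hx
    obtain ⟨a, ha, hconjax⟩ := hx
    rw [isConj_iff] at hconjax
    obtain ⟨c, rfl⟩ := hconjax
    exact hconj c (conj_mem_conjBy ha)
  · refine sup_le Subgroup.le_normalClosure ?_
    intro x hx
    rw [mem_conjBy] at hx
    have h1 : y⁻¹ * x * y ∈ Subgroup.normalClosure (A : Set Y) := Subgroup.le_normalClosure hx
    have h2 := (Subgroup.normalClosure_normal (s := (A : Set Y))).conj_mem _ h1 y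
    have h3 : y * (y⁻¹ * x * y) * y⁻¹ = x := by group
    rwa [h3] at h2

end Cfsg.Agent.S5015
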