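import Cfsg.Statements.S5020
-- import your own Cfsg.Agent.* helpers here
import Cfsg.Agent.Helper83.RankOneSmall

set_option autoImplicit false
open Cfsg

namespace Cfsg.Agent.S5020

/-- Let X be a special rank one group with abelian unipotent subgroups A and B, and H = N(A) ∩ N(B) its diagonal subgroup. Then either A has at most three elements and X is isomorphic to SL₂(2), SL₂(3) or PSL₂(3); or X = X' A with the commutator subgroup X' quasisimple and the commutator subgroup ⁅A, H⁆ having more than three elements. -/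
theorem result {X : Type*} [Group X] {A B : Subgroup X} (h : Cfsg.IsRankOneGroup X A B)
    (hs : Cfsg.IsSpecialRankOnePair A B) (hab : Cfsg.HasAbelianUnipotents A B) :
    (ENat.card A ≤ 3 ∧ (Nonempty (X ≃* Matrix.SpecialLinearGroup (Fin 2) (ZMod 2)) ∨
        Nonempty (X ≃* Matrix.SpecialLinearGroup (Fin 2) (ZMod 3)) ∨
        Nonempty (X ≃* Matrix.ProjectiveSpecialLinearGroup (Fin 2) (ZMod 3)))) ∨
    (commutator X ⊔ A = ⊤ ∧ Cfsg.IsQuasisimple (commutator X) ∧
      3 < ENat.card ↥(⁅A, Cfsg.rankOneDiagonal A B⁆ : Subgroup X)) := by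
  have sp := Cfsg.Agent.Helper83.SpecPair.of_special hs hab.1
  by_cases h3 : 3 < ENat.card A
  · exact Or.inr (sp.large h h3)
  · exact Or.inl ⟨not_lt.mp h3, sp.small_iso h.1 (not_lt.mp h3)⟩

end Cfsg.Agent.S5020
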