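import Cfsg.Statements.S5023
-- import your own Cfsg.Agent.* helpers here
import Cfsg.Agent.Helper83.Quadratic2

set_option autoImplicit false
open Cfsg

namespace Cfsg.Agent.S5023

/-- Let X be a rank one group with unipotent subgroups A and B that acts faithfully on an abelian group V (written additively) with A acting quadratically: a' • (a • v − v) = a • v − v for all a, a' in A and v in V. Then A is either torsion-free or an elementary abelian p-group for some prime p. -/
theorem result {X : Type*} [Group X] {A B : Subgroup X} (h : Cfsg.IsRankOneGroup X A B)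
    {V : Type*} [AddCommGroup V] [DistribMulAction X V] (hf : ∀ x : X, (∀ v : V, x • v = v) → x = 1)
    (hq : ∀ a ∈ A, ∀ a' ∈ A, ∀ v : V, a' • (a • v - v) = a • v - v) :
    (∀ a ∈ A, a ≠ 1 → ¬ IsOfFinOrder a) ∨ ∃ p : ℕ, p.Prime ∧ Cfsg.IsElementaryAbelian p A := by
  exact Cfsg.Agent.Helper83.elementary_of_quadratic h hf hq

end Cfsg.Agent.S5023
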