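import Cfsg.Statements.S5024
-- import your own Cfsg.Agent.* helpers here
import Cfsg.Agent.Helper83.RootSet

set_option autoImplicit false
open Cfsg

namespace Cfsg.Agent.S5024

/-- Let S be a set of abstract root subgroups of G, A and C members of S, B a rank one partner of A in S and D a rank one partner of C in S. If the rank one group ⟨A, B⟩ is contained in ⟨C, D⟩ then the two coincide, and C and D are conjugates of A inside ⟨A, B⟩. -/
theorem result {G : Type*} [Group G] {S : Set (Subgroup G)} (hS : Cfsg.IsRootSubgroupSet S)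
    {A B C D : Subgroup G} (hA : A ∈ S) (hC : C ∈ S) (hB : B ∈ Cfsg.rankOnePartners S A) (hD : D ∈ Cfsg.rankOnePartners S C)
    (hle : A ⊔ B ≤ C ⊔ D) : A ⊔ B = C ⊔ D ∧ C ∈ Cfsg.unipotentSubgroups A B ∧ D ∈ Cfsg.unipotentSubgroups A B := by
  open Cfsg.Agent.Helper83 in
  have hA' := mem_unipotent_of_le hS hA hB.2 hC hD.2 hle
  open Cfsg.Agent.Helper83 in
  have hB' := mem_unipotent_of_le hS hB.1 (RankOnePair_symm hB.2) hC hD.2
    (by rw [sup_comm]; exact hle)
  have h1 := Cfsg.Agent.Helper83.RO.pair_of_mem hD.2 hA' hB' hB.2.ne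
  have h2 := Cfsg.Agent.Helper83.RO.unipotent_eq_of_mem hD.2 hA' hB' hB.2.ne
  refine ⟨h1.2, ?_, ?_⟩
  · rw [h2]; exact Cfsg.Agent.Helper83.RO.A_mem_unipotent hD.2
  · rw [h2]; exact Cfsg.Agent.Helper83.RO.B_mem_unipotent hD.2

end Cfsg.Agent.S5024
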