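import Cfsg.Statements.S5026
-- import your own Cfsg.Agent.* helpers here
import Cfsg.Agent.Helper83.RootSet

set_option autoImplicit false
open Cfsg

namespace Cfsg.Agent.S5026

open Cfsg.Agent.Helper83

theorem le_centralizer_zpowers_iff {G : Type*} [Group G] {E : Subgroup G} {g : G} :
    E ≤ Subgroup.centralizer ((Subgroup.zpowers g : Subgroup G) : Set G) ↔
      ∀ e ∈ E, e * g = g * e := by
  rw [Subgroup.le_centralizer_iff, Subgroup.zpowers_le, Subgroup.mem_centralizer_iff]
  rfl

theorem comm_left {G : Type*} [Group G] {S : Set (Subgroup G)} (hS : Cfsg.IsRootSubgroupSet S)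
    (hdeg : Cfsg.IsDegenerateRootSet S) {a b : G} {A B E : Subgroup G} (hA : A ∈ S) (haA : a ∈ A)
    (ha1 : a ≠ 1) (hB : B ∈ S) (hbB : b ∈ B) (hb1 : b ≠ 1) (hab : a * b = b * a)
    (hab1 : a * b ≠ 1) (hE : E ∈ S) (hEc : ∀ e ∈ E, e * (a * b) = (a * b) * e) :
    ∀ e ∈ E, e * a = a * e := by
  by_contra hne
  push Not at hne
  obtain ⟨e₀, he₀, hne⟩ := hne
  have hEA : IsRankOnePair E A := by
    rcases hS.pair E hE A hA with p | p | p
    · exact absurd (commute_of_commutator_eq_bot p he₀ haA) hne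
    · exact p
    · exact absurd p (hdeg E hE A hA)
  have hEB : IsRankOnePair E B := by
    rcases hS.pair E hE B hB with p | p | p
    · exfalso
      apply hne
      have h1 := commute_of_commutator_eq_bot p he₀ hbB
      have h2 := hEc e₀ he₀
      calc e₀ * a = e₀ * (a * b) * b⁻¹ := by group
        _ = a * b * e₀ * b⁻¹ := by rw [h2]
        _ = a * (b * e₀) * b⁻¹ := by group
        _ = a * (e₀ * b) * b⁻¹ := by rw [h1]
        _ = a * e₀ := by group
    · exact p
    · exact absurd p (hdeg E hE B hB)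
  have hconj : conjBy E b = conjBy E a⁻¹ := by
    have h1 : conjBy E (a * b) = E := conjBy_of_commute (fun e he => (hEc e he).symm)
    rw [← conjBy_conjBy, conjBy_eq_iff] at h1
    exact h1
  obtain ⟨e₁, he₁, -, h1⟩ := hEA.cond_right a haA ha1
  obtain ⟨e₂, he₂, -, h2⟩ := hEB.cond_right b⁻¹ (inv_mem hbB) (inv_ne_one.mpr hb1)
  rw [inv_inv, hconj, ← h1] at h2
  have hBeq : B = conjBy A (e₂ * e₁⁻¹) := by
    rw [← conjBy_conjBy, ← h2, conjBy_cancel_inv]
  by_cases hBA : B = A
  · exact RO.not_commute_all (RankOnePair_symm hEA) (mul_mem haA (hBA ▸ hbB)) hab1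
      (fun e he => (hEc e he).symm)
  · have hBΩ : B ∈ unipotentSubgroups A E :=
      ⟨e₂ * e₁⁻¹, mul_mem (Subgroup.mem_sup_right he₂) (inv_mem (Subgroup.mem_sup_right he₁)), hBeq⟩
    have hp := (RO.pair_of_mem (RankOnePair_symm hEA) (RO.A_mem_unipotent (RankOnePair_symm hEA))
      hBΩ (Ne.symm hBA)).1
    exact RO.not_commute hp haA ha1 hbB hb1 hab

/-- Let S be a degenerate set of abstract root subgroups of G (a set of abstract transvection groups) and let a, b be commuting non-identity elements of members of S with a b ≠ 1. Then the members of S centralizing a b are exactly those centralizing both a and b. -/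
theorem result {G : Type*} [Group G] {S : Set (Subgroup G)} (hS : Cfsg.IsRootSubgroupSet S) (hdeg : Cfsg.IsDegenerateRootSet S)
    {a b : G} (ha : a ∈ Cfsg.rootElements S) (hb : b ∈ Cfsg.rootElements S) (hab : a * b = b * a) (hab1 : a * b ≠ 1) :
    Cfsg.centralizingMembers S (Subgroup.zpowers (a * b)) =
      Cfsg.centralizingMembers S (Subgroup.zpowers a) ∩ Cfsg.centralizingMembers S (Subgroup.zpowers b) := by
  obtain ⟨ha1, A, hA, haA⟩ := ha
  obtain ⟨hb1, B, hB, hbB⟩ := hb
  ext E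
  simp only [Cfsg.centralizingMembers, Set.mem_setOf_eq, Set.mem_inter_iff,
    le_centralizer_zpowers_iff]
  constructor
  · rintro ⟨hE, hc⟩
    refine ⟨⟨hE, comm_left hS hdeg hA haA ha1 hB hbB hb1 hab hab1 hE hc⟩, ⟨hE, ?_⟩⟩
    exact comm_left hS hdeg hB hbB hb1 hA haA ha1 hab.symm (hab ▸ hab1) hE (hab ▸ hc)
  · rintro ⟨⟨hE, h1⟩, ⟨-, h2⟩⟩
    refine ⟨hE, fun e he => ?_⟩
    rw [← mul_assoc, h1 e he, mul_assoc, h2 e he, mul_assoc]

end Cfsg.Agent.S5026
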