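import Cfsg.Statements.S5035
-- import your own Cfsg.Agent.* helpers here
import Cfsg.Agent.Helper83.RootSetMap

set_option autoImplicit false
open Cfsg

namespace Cfsg.Agent.S5035

/-- Let S be a set of abstract root subgroups of G whose graph of rank one pairs is connected, and f a homomorphism from G onto a group H. Then either the images of the members of S form a set of abstract root subgroups of H whose graph of rank one pairs is again connected, or H equals the image of a member of S. -/
theorem result {G H : Type*} [Group G] [Group H] {S : Set (Subgroup G)} (hS : Cfsg.IsRootSubgroupSet S)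
    (hc : Cfsg.IsConnectedFamily (Cfsg.FAdj S) S) (f : G →* H) (hf : Function.Surjective f) :
    (Cfsg.IsRootSubgroupSet ((fun A : Subgroup G => A.map f) '' S) ∧
      Cfsg.IsConnectedFamily (Cfsg.FAdj ((fun A : Subgroup G => A.map f) '' S)) ((fun A : Subgroup G => A.map f) '' S)) ∨
    ∃ A ∈ S, A.map f = ⊤ := by
  exact Cfsg.Agent.Helper83.image_rootSet hS hc f hf

end Cfsg.Agent.S5035
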