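import Cfsg.Statements.S5036
-- import your own Cfsg.Agent.* helpers here
import Cfsg.Agent.Helper83.Line3

set_option autoImplicit false
open Cfsg

namespace Cfsg.Agent.S5036

/-- Let S be a set of abstract root subgroups of G, A, B ∈ S with C = ⁅A, B⁆ ∈ S, and D ∈ S with ⁅D, C⁆ = A. Put X = ⟨B, D⟩ and N = AC. Then B, D form a rank one pair; the conjugates of A under X are the conjugates of C under X, namely the conjugates of A by elements of B together with C, equally the conjugates of C by elements of D together with A, and they partition N; and the centralizer of N in X is central in X. -/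
theorem result {G : Type*} [Group G] {S : Set (Subgroup G)} (hS : Cfsg.IsRootSubgroupSet S)
    {A B D : Subgroup G} (hA : A ∈ S) (hB : B ∈ S) (hC : ⁅A, B⁆ ∈ S) (hD : D ∈ S) (hDC : ⁅D, ⁅A, B⁆⁆ = A) :
    Cfsg.IsRankOnePair B D ∧
    {E | ∃ x ∈ B ⊔ D, E = Cfsg.conjBy A x} = {E | ∃ x ∈ B ⊔ D, E = Cfsg.conjBy ⁅A, B⁆ x} ∧
    {E | ∃ x ∈ B ⊔ D, E = Cfsg.conjBy A x} = (fun b : G => Cfsg.conjBy A b) '' (B : Set G) ∪ {⁅A, B⁆} ∧
    {E | ∃ x ∈ B ⊔ D, E = Cfsg.conjBy A x} = (fun d : G => Cfsg.conjBy ⁅A, B⁆ d) '' (D : Set G) ∪ {A} ∧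
    Cfsg.IsSubgroupPartition (A ⊔ ⁅A, B⁆) {E | ∃ x ∈ B ⊔ D, E = Cfsg.conjBy A x} ∧
    ∀ x ∈ (B ⊔ D) ⊓ Subgroup.centralizer ((A ⊔ ⁅A, B⁆ : Subgroup G) : Set G), ∀ y ∈ B ⊔ D, x * y = y * x := by
  exact Cfsg.Agent.Helper83.line_rank_one hS hA hB hC hD hDC

end Cfsg.Agent.S5036
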