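import Cfsg.Statements.S5037
-- import your own Cfsg.Agent.* helpers here
import Cfsg.Agent.Helper83.Swap

set_option autoImplicit false
open Cfsg

namespace Cfsg.Agent.S5037

/-- Let S be a class of abstract root subgroups of G that is either degenerate or non-degenerate (so either the commutator case never occurs, or all three cases occur), and A ≠ C members of S. If every member of S commuting with A commutes with C, then A and C have the same commuting members of S; and if every rank one partner of A is a rank one partner of C, then A and C commute and have the same rank one partners. -/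
theorem result {G : Type*} [Group G] {S : Set (Subgroup G)} (hS : Cfsg.IsRootSubgroupClass S)
    (hdn : Cfsg.IsDegenerateRootSet S ∨ Cfsg.IsNondegenerateRootSet S)
    {A C : Subgroup G} (hA : A ∈ S) (hC : C ∈ S) (hAC : A ≠ C) :
    (Cfsg.centralizingMembers S A ⊆ Cfsg.centralizingMembers S C →
      Cfsg.centralizingMembers S A = Cfsg.centralizingMembers S C) ∧
    (Cfsg.rankOnePartners S A ⊆ Cfsg.rankOnePartners S C →
      ⁅A, C⁆ = ⊥ ∧ Cfsg.rankOnePartners S A = Cfsg.rankOnePartners S C) := by
  exact Cfsg.Agent.Helper83.class_inclusions hS hdn hA hC hAC

end Cfsg.Agent.S5037
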