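import Cfsg.Statements.S5040
-- import your own Cfsg.Agent.* helpers here
import Cfsg.Agent.Helper83.WeakTI

set_option autoImplicit false
open Cfsg

namespace Cfsg.Agent.S5040

/-- Let S be a non-degenerate class of abstract root subgroups of G and Δ a weak TI-subset of S. Then the members of Δ commute with one another elementwise. -/
theorem result {G : Type*} [Group G] {S : Set (Subgroup G)} (hS : Cfsg.IsRootSubgroupClass S) (hnd : Cfsg.IsNondegenerateRootSet S)
    {Δ : Set (Subgroup G)} (hΔ : Cfsg.IsWeakTISubset S Δ) : Cfsg.IsAbelianFamily Δ := by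
  exact Cfsg.Agent.Helper83.weakTI_abelian hS hnd hΔ

end Cfsg.Agent.S5040
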