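import Cfsg.Statements.S5046
import Cfsg.Agent.Helper5.RInvD
-- import your own Cfsg.Agent.* helpers here

set_option autoImplicit false
open Cfsg

namespace Cfsg.Agent.S5046

/-- Let G be a finite group generated by a set D of root involutions whose odd-order-product graph is connected, and d ∈ D. Then the members e of D with the same commuting members as d are exactly those for which the union of the commuting members of d and the members whose product with d has order 4 equals the corresponding union for e. -/
theorem result {G : Type*} [Group G] [Finite G] {D : Set G} (hD : Cfsg.IsRootInvolutionSet D)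
    (hc : Cfsg.IsConnectedSet (Cfsg.OddAdj D) D) {d : G} (hd : d ∈ D) :
    Cfsg.sameCommutingClass D d =
      {e | e ∈ D ∧ Cfsg.commutingMembers D d ∪ Cfsg.fourPartners D d = Cfsg.commutingMembers D e ∪ Cfsg.fourPartners D e} := by
  open Cfsg.Agent.Helper5.RInvD in
  ext e
  constructor
  · rintro ⟨he, hce⟩
    refine ⟨he, ?_⟩
    have h1 := fourPartners_subset hD hd he hce
    have h2 := fourPartners_subset hD he hd hce.symm
    rw [hce, Set.Subset.antisymm h1 h2]
  · rintro ⟨he, hu⟩
    refine ⟨he, ?_⟩
    have hA : oddPartners D e = oddPartners D d :=
      Set.Subset.antisymm (oddPartners_subset hD he hd hu.symm) (oddPartners_subset hD hd he hu)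
    ext x
    constructor
    · rintro ⟨hx, hxd⟩
      exact ⟨hx, comm_transfer hD hc hd he hx hA hxd⟩
    · rintro ⟨hx, hxe⟩
      exact ⟨hx, comm_transfer hD hc he hd hx hA.symm hxe⟩

end Cfsg.Agent.S5046
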