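import Cfsg.Statements.S5047
import Cfsg.Agent.Helper5.RInvE
-- import your own Cfsg.Agent.* helpers here

set_option autoImplicit false
open Cfsg

namespace Cfsg.Agent.S5047

/-- Let G be a finite group generated by a set D of root involutions whose odd-order-product graph is connected, a ∈ D, and b a member of D different from a, commuting with a, with ab ∈ D, but not having the same commuting members as a. Then some member x of D with bx of order 4 has ax of order 3. -/
theorem result {G : Type*} [Group G] [Finite G] {D : Set G} (hD : Cfsg.IsRootInvolutionSet D)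
    (hc : Cfsg.IsConnectedSet (Cfsg.OddAdj D) D) {a b : G} (ha : a ∈ D) (hb : b ∈ Cfsg.productPartners D a)
    (hbE : b ∉ Cfsg.sameCommutingClass D a) : ∃ x ∈ Cfsg.fourPartners D b, orderOf (a * x) = 3 := by
  open Cfsg.Agent.Helper5.RInvC Cfsg.Agent.Helper5.RInvD Cfsg.Agent.Helper5.RInvE in
  obtain ⟨⟨hbD, hba, hbne⟩, hbaD⟩ := hb
  have hasq := Cfsg.Agent.Helper83.RI.sq hD ha
  have hbsq := Cfsg.Agent.Helper83.RI.sq hD hbD
  have hainv := Cfsg.Agent.Helper83.RI.inv hD ha
  have hab : a * b = b * a := hba.symm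
  have habD : a * b ∈ D := by rw [hab]; exact hbaD
  have habsq := Cfsg.Agent.Helper83.RI.sq hD habD
  have hne1 : ∀ d ∈ D, d ≠ 1 := by
    intro d hd h
    have := hD.orderOf_eq d hd
    rw [h, orderOf_one] at this
    exact absurd this (by norm_num)
  have hb1 : b ≠ 1 := hne1 b hbD
  -- Step 1: the odd partners of `a` are not all odd partners of `b`
  have hAne : ¬ oddPartners D a ⊆ oddPartners D b := by
    intro hsub
    have hEq := oddPartners_eq_of_subset hD hc ha hbD hsub
    apply hbE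
    refine ⟨hbD, ?_⟩
    ext x
    constructor
    · rintro ⟨hx, hxa⟩
      exact ⟨hx, comm_transfer hD hc ha hbD hx hEq.symm hxa⟩
    · rintro ⟨hx, hxb⟩
      exact ⟨hx, comm_transfer hD hc hbD ha hx hEq hxb⟩
  obtain ⟨x0, hx0a, hx0b⟩ := Set.not_subset.mp hAne
  obtain ⟨hx0D, hx0ne, hx0odd⟩ := hx0a
  have hx0neb : x0 ≠ b := by
    intro h
    rw [h] at hx0odd
    exact not_odd_of_comm hasq hbsq hab (fun h' => hbne h'.symm) hx0odd
  have hnodd : ¬ Odd (orderOf (x0 * b)) := by
    intro h
    apply hx0b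
    refine ⟨hx0D, hx0neb, ?_⟩
    rw [Cfsg.Agent.Helper83.orderOf_mul_swap]; exact h
  have hodd0 : Odd (orderOf (x0 * a)) := by
    rw [Cfsg.Agent.Helper83.orderOf_mul_swap]; exact hx0odd
  obtain ⟨q, hqD, hqa⟩ := exists_swap hD hx0D ha hbD hab habD hodd0 hx0ne hnodd
  have hqsq := Cfsg.Agent.Helper83.RI.sq hD hqD
  have hq1 : q ≠ 1 := hne1 q hqD
  have hqb : q * b = b * q := swap_fix hasq hqsq hab hqa
  have haqa : a * q * a = q * b := swap_conj hasq hqsq hab hqa
  have hbqD : b * q ∈ D := by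
    have h1 := hD.conj_mem q hqD a
    rw [hainv, haqa, hqb] at h1
    exact h1
  have haq : a * q ≠ q * a := by
    intro h
    have e8 : q * a * q = a := by rw [← h, mul_assoc, hqsq, mul_one]
    have e9 : a * b = a * 1 := by rw [mul_one, ← hqa, e8]
    exact hb1 (mul_left_cancel e9)
  have hbq_ne : b ≠ q := by
    intro h
    apply haq
    rw [← h]; exact hab
  -- Step 2: a second swap, for the line `b, q, b q`
  have hAne2 : ¬ oddPartners D b ⊆ oddPartners D q := by
    intro hsub
    have hEq := oddPartners_eq_of_subset hD hc hbD hqD hsub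
    exact haq (comm_transfer hD hc hbD hqD ha hEq.symm hab)
  obtain ⟨x1, hx1b, hx1q⟩ := Set.not_subset.mp hAne2
  obtain ⟨hx1D, hx1ne, hx1odd⟩ := hx1b
  have hx1neq : x1 ≠ q := by
    intro h
    rw [h] at hx1odd
    exact not_odd_of_comm hbsq hqsq hqb.symm hbq_ne hx1odd
  have hnodd1 : ¬ Odd (orderOf (x1 * q)) := by
    intro h
    apply hx1q
    refine ⟨hx1D, hx1neq, ?_⟩
    rw [Cfsg.Agent.Helper83.orderOf_mul_swap]; exact h
  have hodd1 : Odd (orderOf (x1 * b)) := by
    rw [Cfsg.Agent.Helper83.orderOf_mul_swap]; exact hx1odd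
  obtain ⟨x, hxD, hxb⟩ := exists_swap hD hx1D hbD hqD hqb.symm hbqD hodd1 hx1ne hnodd1
  have hxsq := Cfsg.Agent.Helper83.RI.sq hD hxD
  have hxinv := Cfsg.Agent.Helper83.RI.inv hD hxD
  -- `x ∈ V_b`
  have hbx2 : (b * x) ^ 2 = q := by
    rw [pow_two]
    calc b * x * (b * x) = b * (x * b * x) := by simp only [mul_assoc]
      _ = q := by rw [hxb, invol_cancel hbsq]
  have hord4 : orderOf (b * x) = 4 := by
    have h := orderOf_eq_prime_pow (x := b * x) (p := 2) (n := 1)
      (by rw [pow_one, hbx2]; exact hq1)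
      (by rw [show (2 : ℕ) ^ (1 + 1) = 2 * 2 from rfl, pow_mul, hbx2, pow_two, hqsq])
    simpa using h
  have hno4 : (a * x) ^ 4 ≠ 1 := fun h4 => hb1 (no_four hasq hqsq hxsq hab hqa hxb hbsq h4)
  refine ⟨x, ⟨hxD, hord4⟩, ?_⟩
  rcases hD.pair a ha x hxD with hcomm | hodd | ⟨h4, -⟩
  · exfalso
    apply hno4
    have h2 : (a * x) ^ 2 = 1 := by rw [pow_two]; exact prod_sq hasq hxsq hcomm
    rw [show (4 : ℕ) = 2 * 2 from rfl, pow_mul, h2, one_pow]
  · -- the odd case
    obtain ⟨Y, hY⟩ : ∃ Y : G, Y = a * (x * (a * (x * (a * (x * a))))) := ⟨_, rfl⟩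
    have hYD : Y ∈ D := by
      have h1 := hD.conj_mem x hxD (a * x * a⁻¹)
      have h2 : (a * x * a⁻¹) * x * (a * x * a⁻¹)⁻¹ = Y := by
        rw [hY]; simp only [mul_inv_rev, inv_inv, hainv, hxinv, mul_assoc]
      rwa [h2] at h1
    have hYsq := Cfsg.Agent.Helper83.RI.sq hD hYD
    have hbY : b * Y = Y * b := by
      rw [hY]; exact comm_cube hasq hqsq hxsq hab hqa hxb hbsq
    obtain ⟨s, hs⟩ : ∃ s : G, s = (x * a) ^ 3 := ⟨_, rfl⟩
    have hsY : a * Y = s := by
      rw [hs, hY]; simp only [pow_succ, pow_zero, one_mul, mul_assoc, invol_cancel hasq]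
    have hbs : Commute b s := by
      rw [← hsY]; exact Commute.mul_right hab.symm hbY
    have hP : (a * b) * Y = b * s := by rw [← hsY, hab, mul_assoc]
    have hodd' : Odd (orderOf (x * a)) := by
      rw [Cfsg.Agent.Helper83.orderOf_mul_swap]; exact hodd
    have hbpow : ∀ k : ℕ, b ^ (2 * k + 1) = b := by
      intro k
      rw [pow_succ, pow_mul, pow_two, hbsq, one_pow, one_mul]
    have hs4 : s ^ 4 = 1 := by
      rcases hD.pair (a * b) habD Y hYD with hc1 | hc2 | ⟨hc3, -⟩
      · have h2 : (b * s) ^ 2 = 1 := by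
          rw [← hP, pow_two]; exact prod_sq habsq hYsq hc1
        rw [hbs.mul_pow, pow_two b, hbsq, one_mul] at h2
        rw [show (4 : ℕ) = 2 * 2 from rfl, pow_mul, h2, one_pow]
      · exfalso
        rw [hP] at hc2
        obtain ⟨k, hk⟩ := hc2
        have h1 : (b * s) ^ (2 * k + 1) = 1 := by rw [← hk]; exact pow_orderOf_eq_one _
        rw [hbs.mul_pow, hbpow k] at h1
        have hb_eq : b = ((x * a) ^ (3 * (2 * k + 1)))⁻¹ := by
          rw [pow_mul, ← hs]; exact eq_inv_of_mul_eq_one_left h1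
        obtain ⟨m, hm⟩ := hodd'
        have h3 : b ^ (2 * m + 1) = 1 := by
          rw [hb_eq, inv_pow, ← pow_mul, mul_comm, pow_mul, ← hm, pow_orderOf_eq_one, one_pow,
            inv_one]
        rw [hbpow m] at h3
        exact hb1 h3
      · rw [hP] at hc3
        have h1 : (b * s) ^ 4 = 1 := by rw [← hc3]; exact pow_orderOf_eq_one _
        rw [hbs.mul_pow, show (4 : ℕ) = 2 * 2 from rfl, pow_mul b, pow_two b, hbsq, one_pow,
          one_mul] at h1
        exact h1
    have hdvd12 : orderOf (x * a) ∣ 3 * 4 :=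
      orderOf_dvd_of_pow_eq_one (by rw [pow_mul, ← hs]; exact hs4)
    have hcop : Nat.Coprime (orderOf (x * a)) 4 := by
      have h2 : Nat.Coprime (orderOf (x * a)) 2 := Nat.coprime_two_right.mpr hodd'
      exact Nat.Coprime.pow_right 2 h2
    have hdvd3 : orderOf (x * a) ∣ 3 := hcop.dvd_of_dvd_mul_right hdvd12
    rw [Cfsg.Agent.Helper83.orderOf_mul_swap]
    rcases (Nat.dvd_prime Nat.prime_three).mp hdvd3 with h | h
    · exfalso
      have hxa : x = a := eq_of_mul_eq_one_invol hasq (orderOf_eq_one_iff.mp h)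
      rw [hxa] at hxb
      have e1 : a * b * a = b := by rw [hab, mul_assoc, hasq, mul_one]
      rw [e1] at hxb
      have e2 : b * 1 = b * q := by rw [mul_one]; exact hxb
      exact hq1 (mul_left_cancel e2).symm
    · exact h
  · exfalso
    apply hno4
    rw [← h4]; exact pow_orderOf_eq_one _

end Cfsg.Agent.S5047
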