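import Cfsg.Statements.S5048
import Cfsg.Agent.Helper5.RInvA
-- import your own Cfsg.Agent.* helpers here

set_option autoImplicit false
open Cfsg

namespace Cfsg.Agent.S5048

/-- Let G be a finite group generated by a set D of root involutions whose odd-order-product graph is connected, with some product of two different commuting members of D again in D. Then the largest solvable normal subgroup of G is the preimage of the centre of G/O₂(G), and the quotient of G by it is a simple group. -/
theorem result {G : Type*} [Group G] [Finite G] {D : Set G} (hD : Cfsg.IsRootInvolutionSet D)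
    (hc : Cfsg.IsConnectedSet (Cfsg.OddAdj D) D) (hDD : (D ∩ Cfsg.commutingProducts D).Nonempty) :
    Cfsg.solvableRadical G = Cfsg.twoZCore G ∧ IsSimpleGroup (G ⧸ Cfsg.twoZCore G) := by
  classical
  have hconj : ∀ a ∈ D, ∀ b ∈ D, ∃ g : G, b = g * a * g⁻¹ :=
    fun a ha b hb => Cfsg.Agent.Helper5.RInv.conj_of_path hD (hc a ha b hb)
  have hline := Cfsg.Agent.Helper5.RInv.exists_line hD hconj hDD
  obtain ⟨x, hx, a, ha, b, hb, hab, hne, rfl⟩ := hDD
  have hab' : a ≠ b := by
    intro h; apply hne; rw [h]; exact Cfsg.Agent.Helper83.RI.sq hD hb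
  have hnotZ := Cfsg.Agent.Helper5.RInv.not_mem_twoZCore hD hc ha hb hab'
  have hsimple : IsSimpleGroup (G ⧸ Cfsg.twoZCore G) := by
    have hnt : Nontrivial (G ⧸ Cfsg.twoZCore G) := by
      rw [QuotientGroup.nontrivial_iff]
      intro htop
      exact hnotZ a ha (by rw [htop]; trivial)
    refine { toNontrivial := hnt, eq_bot_or_eq_top_of_normal := ?_ }
    intro H hH
    have hsurj : Function.Surjective (QuotientGroup.mk' (Cfsg.twoZCore G)) :=
      QuotientGroup.mk'_surjective _
    have hmc : (H.comap (QuotientGroup.mk' (Cfsg.twoZCore G))).map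
        (QuotientGroup.mk' (Cfsg.twoZCore G)) = H :=
      Subgroup.map_comap_eq_self_of_surjective hsurj H
    have hNn : (H.comap (QuotientGroup.mk' (Cfsg.twoZCore G))).Normal := hH.comap _
    by_cases hex : ∃ d ∈ D, d ∈ H.comap (QuotientGroup.mk' (Cfsg.twoZCore G))
    · right
      obtain ⟨d, hd, hdN⟩ := hex
      have htop := Cfsg.Agent.Helper5.RInv.eq_top_of_mem hD hc _ hd hdN
      rw [← hmc, htop, Subgroup.map_top_of_surjective _ hsurj]
    · left
      push Not at hex
      have hle := Cfsg.Agent.Helper5.RInv.le_twoZCore hD hline _ hex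
      rw [← hmc, Subgroup.map_eq_bot_iff, QuotientGroup.ker_mk']
      exact hle
  refine ⟨?_, hsimple⟩
  apply le_antisymm
  · apply sSup_le
    rintro N ⟨hNn, hNs⟩
    have := hNn
    by_cases hex : ∃ d ∈ D, d ∈ N
    · exfalso
      obtain ⟨d, hd, hdN⟩ := hex
      have htop := Cfsg.Agent.Helper5.RInv.eq_top_of_mem hD hc N hd hdN
      have hGs : Group.IsSolvable G := by
        subst htop
        exact Group.isSolvable_of_surjective (f := (⊤ : Subgroup G).subtype)
          (fun g => ⟨⟨g, trivial⟩, rfl⟩)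
      have : Nontrivial G := ⟨⟨a, b, hab'⟩⟩
      have hlt := Group.IsSolvable.commutator_lt_top_of_nontrivial G
      have hK : ∀ d ∈ D, d ∉ commutator G := by
        intro d hd hdK
        exact hlt.ne (Cfsg.Agent.Helper5.RInv.eq_top_of_mem hD hc (commutator G) hd hdK)
      have hallc : ∀ c ∈ D, ∀ e ∈ D, c * e = e * c := by
        intro c hc' e he
        obtain ⟨v, hv, hvc, hvcD⟩ := hline c hc'
        obtain ⟨g, rfl⟩ := hconj c hc' e he
        apply Cfsg.Agent.Helper5.RInv.fiber_comm hD (commutator G) hK hc' hv hvc hvcD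
          (hD.conj_mem c hc' g)
        have h0 : c * (g * c * g⁻¹) = c * g * c⁻¹ * g⁻¹ := by
          rw [Cfsg.Agent.Helper83.RI.inv hD hc']; group
        rw [h0]
        have h1 := Subgroup.commutator_mem_commutator (Subgroup.mem_top c) (Subgroup.mem_top g)
        rw [commutatorElement_def] at h1
        exact h1
      obtain ⟨c, e, hce⟩ := Cfsg.Agent.Helper5.RInv.exists_oddAdj hc ha hb hab'
      exact Cfsg.Agent.Helper5.RInv.not_oddAdj_of_comm hD hce (hallc c hce.1 e hce.2.1)
    · push Not at hex
      exact Cfsg.Agent.Helper5.RInv.le_twoZCore hD hline N hex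
  · apply le_sSup
    refine ⟨inferInstance, ?_⟩
    have hle : Cfsg.pCore 2 G ≤ Cfsg.twoZCore G := by
      intro x hx
      show QuotientGroup.mk' (Cfsg.pCore 2 G) x ∈ Subgroup.center _
      have h1 : QuotientGroup.mk' (Cfsg.pCore 2 G) x = 1 := (QuotientGroup.eq_one_iff x).mpr hx
      rw [h1]; exact Subgroup.one_mem _
    have : Fact (Nat.Prime 2) := ⟨Nat.prime_two⟩
    have h1 : Group.IsSolvable ↥(Cfsg.pCore 2 G) := by
      have := (Cfsg.Agent.Helper22.pCore_isPGroup 2 G).isNilpotent
      infer_instance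
    have h2 : Group.IsSolvable ↥(Subgroup.center (G ⧸ Cfsg.pCore 2 G)) :=
      Group.isSolvable_of_comm (fun a b => Subtype.ext (Subgroup.mem_center_iff.mp b.2 a.1))
    exact Group.isSolvable_of_ker_le_range (Subgroup.inclusion hle)
      (((QuotientGroup.mk' (Cfsg.pCore 2 G)).comp (Cfsg.twoZCore G).subtype).codRestrict
        (Subgroup.center (G ⧸ Cfsg.pCore 2 G)) (fun x => x.2)) (by
      intro x hx
      rw [MonoidHom.mem_ker] at hx
      have hx' : QuotientGroup.mk' (Cfsg.pCore 2 G) x.1 = 1 := congrArg Subtype.val hx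
      have hx'' : x.1 ∈ Cfsg.pCore 2 G := (QuotientGroup.eq_one_iff _).mp hx'
      exact ⟨⟨x.1, hx''⟩, Subtype.ext rfl⟩)

end Cfsg.Agent.S5048
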