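import Cfsg.Statements.S5049

set_option autoImplicit false
open Cfsg

namespace Cfsg.Agent.S5049

open scoped commutatorElement

theorem sq_one {G : Type*} [Group G] {D : Set G} (hD : Cfsg.IsOddTranspositionSet D) {d : G} (hd : d ∈ D) :
    d * d = 1 := by
  have h := pow_orderOf_eq_one d
  rw [hD.1.orderOf_eq d hd, pow_two] at h
  exact h

theorem inv_self {G : Type*} [Group G] {D : Set G} (hD : Cfsg.IsOddTranspositionSet D) {d : G} (hd : d ∈ D) :
    d⁻¹ = d := inv_eq_of_mul_eq_one_left (sq_one hD hd)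

/-- Two members of `D` whose product has square in `O₂(G)` commute. -/
theorem comm_of_sq_mem {G : Type*} [Group G] {D : Set G} (hD : Cfsg.IsOddTranspositionSet D) {d₁ d₂ : G}
    (h₁ : d₁ ∈ D) (h₂ : d₂ ∈ D) (hQ : (d₁ * d₂) ^ 2 ∈ Cfsg.pCore 2 G) : d₁ * d₂ = d₂ * d₁ := by
  rcases hD.1.pair d₁ h₁ d₂ h₂ with h | h | h
  · exact h
  · have hQp : IsPGroup 2 (Cfsg.pCore 2 G) := Sylow.sSup_of_normal _ (fun _ h => h.2) (fun _ h => h.1)
    obtain ⟨k, hk⟩ := hQp ⟨_, hQ⟩
    have hk' : (d₁ * d₂) ^ (2 * 2 ^ k) = 1 := by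
      have := congrArg Subtype.val hk
      rw [pow_mul]
      exact this
    have hdvd : orderOf (d₁ * d₂) ∣ 2 * 2 ^ k := orderOf_dvd_of_pow_eq_one hk'
    have hcop : Nat.Coprime (orderOf (d₁ * d₂)) (2 * 2 ^ k) := by
      have h2 : Nat.Coprime (orderOf (d₁ * d₂)) 2 := Nat.coprime_two_right.mpr h
      exact Nat.Coprime.mul_right h2 (h2.pow_right k)
    have h1 : orderOf (d₁ * d₂) = 1 := Nat.Coprime.eq_one_of_dvd hcop hdvd
    rw [orderOf_eq_one_iff] at h1
    have h2 : d₂ * d₁ = 1 := by
      have : d₁ = d₂⁻¹ := eq_inv_of_mul_eq_one_left h1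
      rw [this]; simp
    rw [h1, h2]
  · exact absurd h.1 (hD.2 d₁ h₁ d₂ h₂)

/-- Let G be a finite group generated by a set D of odd transpositions (root involutions with no product of order 4), Q = O₂(G), and for a ∈ D let Q_a be the commutator subgroup of Q with a. Then every member of D commuting with a centralizes Q_a; and for b ∈ D with ab of odd order greater than 1, the centralizer of ab in Q is the intersection of the centralizers of a and b in Q. -/
theorem result {G : Type*} [Group G] [Finite G] {D : Set G} (hD : Cfsg.IsOddTranspositionSet D) {a : G} (ha : a ∈ D) :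
    (∀ e ∈ Cfsg.commutingMembers D a, ∀ q ∈ ⁅Cfsg.pCore 2 G, Subgroup.zpowers a⁆, e * q = q * e) ∧
    (∀ b ∈ Cfsg.oddPartners D a,
      Cfsg.pCore 2 G ⊓ Subgroup.centralizer {a * b} = Cfsg.pCore 2 G ⊓ Subgroup.centralizer {a} ⊓ Subgroup.centralizer {b}) := by
  have hQn : (Cfsg.pCore 2 G).Normal := Subgroup.sSup_normal _ (fun _ h => h.1)
  have hπ : ∀ x : G, QuotientGroup.mk' (Cfsg.pCore 2 G) x = 1 ↔ x ∈ Cfsg.pCore 2 G :=
    fun x => QuotientGroup.eq_one_iff x
  -- a member of D commutes with its conjugates under O₂(G)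
  have hself : ∀ d ∈ D, ∀ q ∈ Cfsg.pCore 2 G, d * (q * d * q⁻¹) = (q * d * q⁻¹) * d := by
    intro d hd q hq
    apply comm_of_sq_mem hD hd (hD.1.conj_mem d hd q)
    have h1 : d * q * d⁻¹ ∈ Cfsg.pCore 2 G := hQn.conj_mem q hq d
    have h2 : d * (q * d * q⁻¹) = (d * q * d⁻¹) * q⁻¹ := by rw [inv_self hD hd]; group
    rw [h2]
    exact Subgroup.pow_mem _ (Subgroup.mul_mem _ h1 (Subgroup.inv_mem _ hq)) 2
  have key : ∀ e ∈ D, e * a = a * e → ∀ q ∈ Cfsg.pCore 2 G, e * (q * a * q⁻¹) = (q * a * q⁻¹) * e := by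
    intro e he hea q hq
    have he' : q⁻¹ * e * q ∈ D := by simpa using hD.1.conj_mem e he q⁻¹
    have hsq : ((q⁻¹ * e * q) * a) ^ 2 ∈ Cfsg.pCore 2 G := by
      rw [← hπ, map_pow, map_mul, map_mul, map_mul, map_inv, (hπ q).mpr hq, inv_one, one_mul, mul_one,
        ← map_mul, ← map_pow, hπ]
      have : (e * a) ^ 2 = 1 := by
        rw [pow_two]
        calc e * a * (e * a) = e * (a * e) * a := by group
          _ = e * (e * a) * a := by rw [hea]
          _ = (e * e) * (a * a) := by group
          _ = 1 := by rw [sq_one hD he, sq_one hD ha, one_mul]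
      rw [this]; exact Subgroup.one_mem _
    have h := comm_of_sq_mem hD he' ha hsq
    calc e * (q * a * q⁻¹) = q * ((q⁻¹ * e * q) * a) * q⁻¹ := by group
      _ = q * (a * (q⁻¹ * e * q)) * q⁻¹ := by rw [h]
      _ = (q * a * q⁻¹) * e := by group
  refine ⟨?_, ?_⟩
  · rintro e ⟨he, hea⟩ x hx
    have hle : ⁅Cfsg.pCore 2 G, Subgroup.zpowers a⁆ ≤ Subgroup.centralizer {e} := by
      rw [Subgroup.commutator_le]
      intro q hq g hg
      obtain ⟨i, rfl⟩ := Subgroup.mem_zpowers_iff.mp hg
      have h1 : q * a * q⁻¹ ∈ Subgroup.centralizer {e} := by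
        rw [Subgroup.mem_centralizer_iff]
        intro h hh
        rw [Set.mem_singleton_iff] at hh
        rw [hh]; exact key e he hea q hq
      have h2 : a ∈ Subgroup.centralizer {e} := by
        rw [Subgroup.mem_centralizer_iff]
        intro h hh
        rw [Set.mem_singleton_iff] at hh
        rw [hh]; exact hea
      have h3 : ⁅q, a ^ i⁆ = (q * a * q⁻¹) ^ i * (a ^ i)⁻¹ := by
        rw [commutatorElement_def, conj_zpow]
      rw [h3]
      exact Subgroup.mul_mem _ (Subgroup.zpow_mem _ h1 i) (Subgroup.inv_mem _ (Subgroup.zpow_mem _ h2 i))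
    have := hle hx
    rw [Subgroup.mem_centralizer_iff] at this
    exact this e rfl
  · rintro b ⟨hb, hba, hodd⟩
    ext q
    simp only [Subgroup.mem_inf, Subgroup.mem_centralizer_iff, Set.mem_singleton_iff, forall_eq]
    constructor
    · rintro ⟨hq, hqab'⟩
      have hq' : q ∈ Cfsg.pCore 2 G := hq
      have ha' : q * a * q⁻¹ ∈ D := hD.1.conj_mem a ha q
      have hb' : q * b * q⁻¹ ∈ D := hD.1.conj_mem b hb q
      have hca := hself a ha q hq'
      have hcb := hself b hb q hq'
      -- z = a * a'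
      have hzz : (a * (q * a * q⁻¹)) * (a * (q * a * q⁻¹)) = 1 := by
        calc (a * (q * a * q⁻¹)) * (a * (q * a * q⁻¹))
            = a * ((q * a * q⁻¹) * a) * (q * a * q⁻¹) := by group
          _ = a * (a * (q * a * q⁻¹)) * (q * a * q⁻¹) := by rw [hca]
          _ = (a * a) * (q * (a * a) * q⁻¹) := by group
          _ = 1 := by rw [sq_one hD ha]; group
      have hza : (a * (q * a * q⁻¹)) * a = a * (a * (q * a * q⁻¹)) := by
        rw [mul_assoc, ← hca]
      -- a' b' = a b
      have hab' : (q * a * q⁻¹) * (q * b * q⁻¹) = a * b := by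
        calc (q * a * q⁻¹) * (q * b * q⁻¹) = (q * (a * b)) * q⁻¹ := by group
          _ = a * b := by rw [← hqab']; group
      -- z = b' * b
      have hzw : a * (q * a * q⁻¹) = (q * b * q⁻¹) * b := by
        have h1 : (a * (q * a * q⁻¹)) * ((q * b * q⁻¹) * b) = 1 := by
          calc (a * (q * a * q⁻¹)) * ((q * b * q⁻¹) * b)
              = a * ((q * a * q⁻¹) * (q * b * q⁻¹)) * b := by group
            _ = (a * a) * (b * b) := by rw [hab']; group
            _ = 1 := by rw [sq_one hD ha, sq_one hD hb, one_mul]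
        have h2 : ((q * b * q⁻¹) * b) * ((q * b * q⁻¹) * b) = 1 := by
          calc ((q * b * q⁻¹) * b) * ((q * b * q⁻¹) * b)
              = (q * b * q⁻¹) * (b * (q * b * q⁻¹)) * b := by group
            _ = (q * b * q⁻¹) * ((q * b * q⁻¹) * b) * b := by rw [hcb]
            _ = (q * (b * b) * q⁻¹) * (b * b) := by group
            _ = 1 := by rw [sq_one hD hb]; group
        have h3 : a * (q * a * q⁻¹) = ((q * b * q⁻¹) * b)⁻¹ := eq_inv_of_mul_eq_one_left h1
        rw [h3]
        exact inv_eq_of_mul_eq_one_left h2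
      have hzb : (a * (q * a * q⁻¹)) * b = b * (a * (q * a * q⁻¹)) := by
        calc (a * (q * a * q⁻¹)) * b = ((q * b * q⁻¹) * b) * b := by rw [hzw]
          _ = (b * (q * b * q⁻¹)) * b := by rw [hcb]
          _ = b * ((q * b * q⁻¹) * b) := by group
          _ = b * (a * (q * a * q⁻¹)) := by rw [hzw]
      -- b * a' = (b * a) * z
      have hba' : b * (q * a * q⁻¹) = (b * a) * (a * (q * a * q⁻¹)) := by
        calc b * (q * a * q⁻¹) = b * ((a * a) * (q * a * q⁻¹)) := by rw [sq_one hD ha, one_mul]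
          _ = (b * a) * (a * (q * a * q⁻¹)) := by group
      have hcz : Commute (b * a) (a * (q * a * q⁻¹)) := by
        show (b * a) * (a * (q * a * q⁻¹)) = (a * (q * a * q⁻¹)) * (b * a)
        calc (b * a) * (a * (q * a * q⁻¹)) = b * (a * (a * (q * a * q⁻¹))) := by group
          _ = b * ((a * (q * a * q⁻¹)) * a) := by rw [hza]
          _ = (b * (a * (q * a * q⁻¹))) * a := by group
          _ = ((a * (q * a * q⁻¹)) * b) * a := by rw [hzb]
          _ = (a * (q * a * q⁻¹)) * (b * a) := by group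
      have hoddba : Odd (orderOf (b * a)) := by
        have h1 : b * a = MulAut.conj a⁻¹ (a * b) := by simp [MulAut.conj_apply]
        rw [h1, MulEquiv.orderOf_eq]; exact hodd
      have hz1 : a * (q * a * q⁻¹) = 1 := by
        rcases hD.1.pair b hb _ ha' with h | h | h
        · -- b commutes with a': then (b a)^2 = 1, so b a = 1, so b = a
          exfalso
          have h1 : (b * (q * a * q⁻¹)) ^ 2 = 1 := by
            rw [pow_two]
            calc b * (q * a * q⁻¹) * (b * (q * a * q⁻¹))
                = b * ((q * a * q⁻¹) * b) * (q * a * q⁻¹) := by group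
              _ = b * (b * (q * a * q⁻¹)) * (q * a * q⁻¹) := by rw [h]
              _ = (b * b) * (q * (a * a) * q⁻¹) := by group
              _ = 1 := by rw [sq_one hD hb, sq_one hD ha]; group
          rw [hba', hcz.mul_pow, pow_two (a * (q * a * q⁻¹)), hzz, mul_one] at h1
          have h2 : orderOf (b * a) ∣ 2 := orderOf_dvd_of_pow_eq_one h1
          have h3 : orderOf (b * a) = 1 := by
            rcases (Nat.dvd_prime Nat.prime_two).mp h2 with h3 | h3
            · exact h3
            · rw [h3] at hoddba; exact absurd hoddba (by decide)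
          rw [orderOf_eq_one_iff] at h3
          apply hba
          have : b = a⁻¹ := eq_inv_of_mul_eq_one_left h3
          rw [this, inv_self hD ha]
        · -- odd order
          have hM1 : (b * a * (a * (q * a * q⁻¹))) ^ (orderOf (b * (q * a * q⁻¹)) * orderOf (b * a)) = 1 := by
            rw [pow_mul, ← hba', pow_orderOf_eq_one, one_pow]
          have hM2 : (b * a) ^ (orderOf (b * (q * a * q⁻¹)) * orderOf (b * a)) = 1 := by
            rw [mul_comm, pow_mul, pow_orderOf_eq_one, one_pow]
          rw [hcz.mul_pow, hM2, one_mul] at hM1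
          have hodd' : Odd (orderOf (b * (q * a * q⁻¹)) * orderOf (b * a)) := h.mul hoddba
          have hd1 : orderOf (a * (q * a * q⁻¹)) ∣ orderOf (b * (q * a * q⁻¹)) * orderOf (b * a) :=
            orderOf_dvd_of_pow_eq_one hM1
          have hd2 : orderOf (a * (q * a * q⁻¹)) ∣ 2 :=
            orderOf_dvd_of_pow_eq_one (by rw [pow_two]; exact hzz)
          have hd3 := Nat.dvd_gcd hd1 hd2
          rw [Nat.Coprime.gcd_eq_one (Nat.coprime_two_right.mpr hodd'), Nat.dvd_one] at hd3
          exact orderOf_eq_one_iff.mp hd3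
        · exact absurd h.1 (hD.2 b hb _ ha')
      have haq : q * a * q⁻¹ = a := by
        have h := eq_inv_of_mul_eq_one_right hz1
        rw [inv_self hD ha] at h
        exact h
      have haq' : a * q = q * a := by
        calc a * q = (q * a * q⁻¹) * q := by rw [haq]
          _ = q * a := by group
      refine ⟨⟨hq, haq'⟩, ?_⟩
      apply mul_left_cancel (a := a)
      calc a * (b * q) = a * b * q := by group
        _ = q * (a * b) := hqab'
        _ = (q * a) * b := by group
        _ = (a * q) * b := by rw [haq']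
        _ = a * (q * b) := by group
    · rintro ⟨⟨hq, hqa⟩, hqb⟩
      refine ⟨hq, ?_⟩
      rw [mul_assoc, hqb, ← mul_assoc, hqa, mul_assoc]

end Cfsg.Agent.S5049
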