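import Cfsg.Statements.S5058
import Cfsg.Agent.Helper38.TransvRoot

set_option autoImplicit false
open Matrix
open Cfsg

namespace Cfsg.Agent.S5058

/-- Let F be a finite field of characteristic 2 and n a natural number. Then the transvections of SL_{n+3}(F) (so in every dimension at least 3) (the conjugates of the elementary matrices 1 + c E₁₂, c ≠ 0) form a class of root involutions of SL_{n+3}(F); when F has two elements they form a class of {3,4}⁺-transpositions (every product of odd order has order 1 or 3). -/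
theorem result (F : Type*) [Field F] [Fintype F] [CharP F 2] (n : ℕ) :
    Cfsg.IsRootInvolutionClass {t : Matrix.SpecialLinearGroup (Fin (n + 3)) F | ∃ c : F, c ≠ 0 ∧
        ∃ g : Matrix.SpecialLinearGroup (Fin (n + 3)) F, ((g⁻¹ * t * g : Matrix.SpecialLinearGroup (Fin (n + 3)) F) :
          Matrix (Fin (n + 3)) (Fin (n + 3)) F) = Matrix.transvection 0 1 c} ∧
    (Fintype.card F = 2 → Cfsg.IsThreeFourPlusTranspositionSet {t : Matrix.SpecialLinearGroup (Fin (n + 3)) F | ∃ c : F, c ≠ 0 ∧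
        ∃ g : Matrix.SpecialLinearGroup (Fin (n + 3)) F, ((g⁻¹ * t * g : Matrix.SpecialLinearGroup (Fin (n + 3)) F) :
          Matrix (Fin (n + 3)) (Fin (n + 3)) F) = Matrix.transvection 0 1 c}) := by
  classical
  haveI : Finite (Matrix.SpecialLinearGroup (Fin (n + 3)) F) := Cfsg.Agent.Helper38.sl_finite
  have h2 : (2 : F) = 0 := by
    have := CharP.cast_eq_zero F 2
    exact_mod_cast this
  have h01 : (0 : Fin (n + 3)) ≠ 1 := by
    intro h
    have := congrArg Fin.val h
    simp at this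
  have hmem : ∀ t : Matrix.SpecialLinearGroup (Fin (n + 3)) F,
      t ∈ {t : Matrix.SpecialLinearGroup (Fin (n + 3)) F | ∃ c : F, c ≠ 0 ∧
        ∃ g : Matrix.SpecialLinearGroup (Fin (n + 3)) F,
          ((g⁻¹ * t * g : Matrix.SpecialLinearGroup (Fin (n + 3)) F) :
            Matrix (Fin (n + 3)) (Fin (n + 3)) F) = Matrix.transvection 0 1 c} ↔
        Cfsg.Agent.Helper38.IsTv (t : Matrix (Fin (n + 3)) (Fin (n + 3)) F) := by
    intro t
    constructor
    · rintro ⟨c, hc, g, hg⟩
      exact Cfsg.Agent.Helper38.isTv_of_conj t g c hc hg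
    · intro ht
      obtain ⟨g, hg⟩ := Cfsg.Agent.Helper38.conj_of_isTv t ht
      exact ⟨1, one_ne_zero, g, hg⟩
  have hset : Cfsg.IsRootInvolutionSet
      {t : Matrix.SpecialLinearGroup (Fin (n + 3)) F | ∃ c : F, c ≠ 0 ∧
        ∃ g : Matrix.SpecialLinearGroup (Fin (n + 3)) F,
          ((g⁻¹ * t * g : Matrix.SpecialLinearGroup (Fin (n + 3)) F) :
            Matrix (Fin (n + 3)) (Fin (n + 3)) F) = Matrix.transvection 0 1 c} := by
    refine ⟨?_, ?_, ?_, ?_⟩
    · intro d hd
      obtain ⟨h1, h3⟩ := Cfsg.Agent.Helper38.tv_orderOf_two h2 d ((hmem d).1 hd)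
      exact orderOf_eq_prime (by rw [pow_two]; exact h1) h3
    · rw [eq_top_iff]
      intro M _
      refine Cfsg.Agent.Helper5.SL_transvection_induction
        (fun M => M ∈ Subgroup.closure
          {t : Matrix.SpecialLinearGroup (Fin (n + 3)) F | ∃ c : F, c ≠ 0 ∧
            ∃ g : Matrix.SpecialLinearGroup (Fin (n + 3)) F,
              ((g⁻¹ * t * g : Matrix.SpecialLinearGroup (Fin (n + 3)) F) :
                Matrix (Fin (n + 3)) (Fin (n + 3)) F) = Matrix.transvection 0 1 c}) ?_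
        (fun A B hA hB => Subgroup.mul_mem _ hA hB) M
      intro i j hij a
      by_cases ha : a = 0
      · rw [ha, Matrix.SpecialLinearGroup.transvection_coeff_zero]
        exact Subgroup.one_mem _
      · apply Subgroup.subset_closure
        rw [hmem]
        exact Cfsg.Agent.Helper38.isTv_elementary hij ha
    · rintro d ⟨c, hc, g, hg⟩ x
      refine ⟨c, hc, x * g, ?_⟩
      have e : (x * g)⁻¹ * (x * d * x⁻¹) * (x * g) = g⁻¹ * d * g := by group
      rw [e]
      exact hg
    · intro a ha b hb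
      rcases Cfsg.Agent.Helper38.tv_pair_cases h2 a b ((hmem a).1 ha) ((hmem b).1 hb) with
        h | ⟨h, -⟩ | ⟨h4, hT⟩
      · exact Or.inl h
      · exact Or.inr (Or.inl h)
      · exact Or.inr (Or.inr ⟨h4, (hmem _).2 hT⟩)
  refine ⟨⟨hset, ?_, ?_⟩, ?_⟩
  · refine ⟨Matrix.SpecialLinearGroup.transvection h01 1, ?_⟩
    rw [hmem]
    exact Cfsg.Agent.Helper38.isTv_elementary h01 one_ne_zero
  · intro a ha b hb
    obtain ⟨g, hg⟩ := Cfsg.Agent.Helper38.conj_of_isTv a ((hmem a).1 ha)
    obtain ⟨g', hg'⟩ := Cfsg.Agent.Helper38.conj_of_isTv b ((hmem b).1 hb)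
    have e : g⁻¹ * a * g = g'⁻¹ * b * g' := Subtype.ext (hg.trans hg'.symm)
    refine ⟨g' * g⁻¹, ?_⟩
    have e2 : b = g' * (g'⁻¹ * b * g') * g'⁻¹ := by group
    rw [e2, ← e]
    group
  · intro hF2
    refine ⟨hset, ?_⟩
    intro a ha b hb hodd
    rcases Cfsg.Agent.Helper38.tv_pair_cases h2 a b ((hmem a).1 ha) ((hmem b).1 hb) with
      h | ⟨-, h3⟩ | ⟨h4, -⟩
    · left
      obtain ⟨haa, -⟩ := Cfsg.Agent.Helper38.tv_orderOf_two h2 a ((hmem a).1 ha)
      obtain ⟨hbb, -⟩ := Cfsg.Agent.Helper38.tv_orderOf_two h2 b ((hmem b).1 hb)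
      have hsq : (a * b) ^ 2 = 1 := by
        rw [pow_two, mul_assoc, ← mul_assoc b a b, ← h, mul_assoc a b b, hbb, mul_one, haa]
      have hd : orderOf (a * b) ∣ 2 := orderOf_dvd_of_pow_eq_one hsq
      rcases (Nat.dvd_prime Nat.prime_two).1 hd with h1 | h1
      · exact h1
      · rw [h1] at hodd
        exact absurd hodd (by decide)
    · have hd : orderOf (a * b) ∣ 3 := orderOf_dvd_of_pow_eq_one (h3 hF2)
      exact (Nat.dvd_prime Nat.prime_three).1 hd
    · rw [h4] at hodd
      exact absurd hodd (by decide)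

end Cfsg.Agent.S5058
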