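import Cfsg.Statements.S5059

set_option autoImplicit false
universe u
open Cfsg

namespace Cfsg.Agent.S5059

section
variable {k : Type*} [Field k] {M : Type*} [AddCommGroup M] [Module k M]

/-- The unit `1 + c • n` for a square-zero endomorphism `n`. -/
def uOf (n : M →ₗ[k] M) (hn : n * n = 0) (c : k) : LinearMap.GeneralLinearGroup k M :=
  ⟨1 + c • n, 1 - c • n,
    by
      have h : (c • n) * (c • n) = 0 := by rw [smul_mul_smul_comm, hn, smul_zero]
      have key : ∀ u : M →ₗ[k] M, (1 + u) * (1 - u) = 1 - u * u := fun u => by noncomm_ring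
      rw [key, h, sub_zero],
    by
      have h : (c • n) * (c • n) = 0 := by rw [smul_mul_smul_comm, hn, smul_zero]
      have key : ∀ u : M →ₗ[k] M, (1 - u) * (1 + u) = 1 - u * u := fun u => by noncomm_ring
      rw [key, h, sub_zero]⟩

/-- The subgroup of elements of `G` of the form `1 + n` with `range n ≤ R`, `K ≤ ker n`, and whose scalar family
lies in `G`. -/
def subA (G : Subgroup (LinearMap.GeneralLinearGroup k M)) (K R : Submodule k M) (hRK : R ≤ K) :
    Subgroup (LinearMap.GeneralLinearGroup k M) where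
  carrier := {x | x ∈ G ∧ LinearMap.range ((x : M →ₗ[k] M) - 1) ≤ R ∧ K ≤ LinearMap.ker ((x : M →ₗ[k] M) - 1) ∧
    ∀ c : k, ∃ y ∈ G, (y : M →ₗ[k] M) = 1 + c • ((x : M →ₗ[k] M) - 1)}
  one_mem' := by
    refine ⟨G.one_mem, ?_, ?_, fun c => ⟨1, G.one_mem, ?_⟩⟩
    · simp
    · simp
    · simp
  mul_mem' := by
    rintro a b ⟨haG, haR, haK, hac⟩ ⟨hbG, hbR, hbK, hbc⟩
    have hab : ((a : M →ₗ[k] M) - 1) * ((b : M →ₗ[k] M) - 1) = 0 := by
      apply LinearMap.ext
      intro m
      have h1 : ((b : M →ₗ[k] M) - 1) m ∈ R := hbR ⟨m, rfl⟩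
      have h2 := haK (hRK h1)
      rw [LinearMap.mem_ker] at h2
      exact h2
    have hN : (((a * b : LinearMap.GeneralLinearGroup k M) : M →ₗ[k] M)) - 1 =
        ((a : M →ₗ[k] M) - 1) + ((b : M →ₗ[k] M) - 1) := by
      rw [Units.val_mul]
      calc (a : M →ₗ[k] M) * (b : M →ₗ[k] M) - 1
          = ((a : M →ₗ[k] M) - 1) + ((b : M →ₗ[k] M) - 1) +
            ((a : M →ₗ[k] M) - 1) * ((b : M →ₗ[k] M) - 1) := by noncomm_ring
        _ = _ := by rw [hab, add_zero]
    refine ⟨G.mul_mem haG hbG, ?_, ?_, fun c => ?_⟩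
    · rw [hN]
      rintro _ ⟨m, rfl⟩
      rw [LinearMap.add_apply]
      exact R.add_mem (haR ⟨m, rfl⟩) (hbR ⟨m, rfl⟩)
    · rw [hN]
      intro m hm
      rw [LinearMap.mem_ker, LinearMap.add_apply]
      have h1 := haK hm
      have h2 := hbK hm
      rw [LinearMap.mem_ker] at h1 h2
      rw [h1, h2, add_zero]
    · obtain ⟨ya, hyaG, hya⟩ := hac c
      obtain ⟨yb, hybG, hyb⟩ := hbc c
      refine ⟨ya * yb, G.mul_mem hyaG hybG, ?_⟩
      rw [Units.val_mul, hya, hyb, hN]
      have h3 : (c • ((a : M →ₗ[k] M) - 1)) * (c • ((b : M →ₗ[k] M) - 1)) = 0 := by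
        rw [smul_mul_smul_comm, hab, smul_zero]
      have key : ∀ u v : M →ₗ[k] M, (1 + u) * (1 + v) = 1 + (u + v) + u * v := fun u v => by noncomm_ring
      rw [key, h3, add_zero, smul_add]
  inv_mem' := by
    rintro a ⟨haG, haR, haK, hac⟩
    have haa : ((a : M →ₗ[k] M) - 1) * ((a : M →ₗ[k] M) - 1) = 0 := by
      apply LinearMap.ext
      intro m
      have h1 : ((a : M →ₗ[k] M) - 1) m ∈ R := haR ⟨m, rfl⟩
      have h2 := haK (hRK h1)
      rw [LinearMap.mem_ker] at h2
      exact h2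
    have hinv : ((a⁻¹ : LinearMap.GeneralLinearGroup k M) : M →ₗ[k] M) = 1 - ((a : M →ₗ[k] M) - 1) := by
      have h1 : a⁻¹ = uOf ((a : M →ₗ[k] M) - 1) haa (-1) := by
        rw [inv_eq_iff_eq_inv, eq_comm, inv_eq_iff_mul_eq_one]
        apply Units.ext
        rw [Units.val_mul]
        show (1 + (-1 : k) • ((a : M →ₗ[k] M) - 1)) * (a : M →ₗ[k] M) = 1
        have h2 : (a : M →ₗ[k] M) = 1 + ((a : M →ₗ[k] M) - 1) := by abel
        calc (1 + (-1 : k) • ((a : M →ₗ[k] M) - 1)) * (a : M →ₗ[k] M)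
            = (1 - ((a : M →ₗ[k] M) - 1)) * (1 + ((a : M →ₗ[k] M) - 1)) := by
              rw [← h2, neg_one_smul]; noncomm_ring
          _ = 1 - ((a : M →ₗ[k] M) - 1) * ((a : M →ₗ[k] M) - 1) := by noncomm_ring
          _ = 1 := by rw [haa, sub_zero]
      rw [h1]
      show (1 + (-1 : k) • ((a : M →ₗ[k] M) - 1)) = _
      rw [neg_one_smul]; abel
    have hN : ((a⁻¹ : LinearMap.GeneralLinearGroup k M) : M →ₗ[k] M) - 1 = -((a : M →ₗ[k] M) - 1) := by
      rw [hinv]; abel
    refine ⟨G.inv_mem haG, ?_, ?_, fun c => ?_⟩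
    · rw [hN]
      rintro _ ⟨m, rfl⟩
      rw [LinearMap.neg_apply]
      exact R.neg_mem (haR ⟨m, rfl⟩)
    · rw [hN]
      intro m hm
      rw [LinearMap.mem_ker, LinearMap.neg_apply]
      have h1 := haK hm
      rw [LinearMap.mem_ker] at h1
      rw [h1, neg_zero]
    · obtain ⟨ya, hyaG, hya⟩ := hac (-c)
      refine ⟨ya, hyaG, ?_⟩
      rw [hya, hN, smul_neg, neg_smul]

end

/-- Let k be a field of characteristic not 2 with k not of order 3, M a finite-dimensional k-vector space and G ≤ GL(M) such that (G, M) is a quadratic pair (M irreducible for G, and G generated by its quadratically acting elements σ whose scalar family 1 + c(σ − 1), c ∈ k, lies in G). Write 𝒬_d for the quadratic elements of G of minimal commutator rank, E(σ) for the subgroup generated by the members of 𝒬_d with the same fixed space and commutator space as σ, and Σ for the set of these subgroups. Then for σ ∈ 𝒬_d the subgroup E(σ) consists exactly of those members together with the identity, it is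 abelian, and if k has prime characteristic p every element of E(σ) has order dividing p. -/
theorem result {k : Type u} [Field k] (hk2 : ringChar k ≠ 2) (hk3 : Nat.card k ≠ 3)
    {M : Type u} [AddCommGroup M] [Module k M] [FiniteDimensional k M]
    {G : Subgroup (LinearMap.GeneralLinearGroup k M)} (hG : Cfsg.IsQuadraticPair G)
    {σ : LinearMap.GeneralLinearGroup k M} (hσ : σ ∈ Cfsg.minimalQuadraticElements G) :
    (Cfsg.sameActionSubgroup G σ : Set (LinearMap.GeneralLinearGroup k M)) = Cfsg.sameActionClass G σ ∪ {1} ∧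
    IsMulCommutative ↥(Cfsg.sameActionSubgroup G σ) ∧
    (∀ p : ℕ, p.Prime → ringChar k = p → ∀ x ∈ Cfsg.sameActionSubgroup G σ, x ^ p = 1) := by
  classical
  obtain ⟨hσQ, hσmin⟩ := hσ
  obtain ⟨hσG, ⟨hσsq, hσne⟩, hσfam⟩ := hσQ
  set K := LinearMap.ker ((σ : M →ₗ[k] M) - 1) with hK
  set R := LinearMap.range ((σ : M →ₗ[k] M) - 1) with hR
  have hRK : R ≤ K := by
    rintro _ ⟨m, rfl⟩
    rw [hK, LinearMap.mem_ker]
    have := congrArg (fun f : M →ₗ[k] M => f m) hσsq
    exact this
  -- the class is contained in the subgroup subA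
  have hsub : Cfsg.sameActionSubgroup G σ ≤ subA G K R hRK := by
    unfold Cfsg.sameActionSubgroup
    rw [Subgroup.closure_le]
    rintro τ ⟨⟨⟨hτG, ⟨hτsq, hτne⟩, hτfam⟩, hτmin⟩, hτK, hτR⟩
    refine ⟨hτG, hτR.le, hτK.ge, fun c => ⟨uOf _ hτsq c, hτfam ⟨c, rfl⟩, rfl⟩⟩
  have hsq : ∀ x ∈ subA G K R hRK, ∀ y ∈ subA G K R hRK,
      ((x : M →ₗ[k] M) - 1) * ((y : M →ₗ[k] M) - 1) = 0 := by
    rintro x ⟨-, -, hxK, -⟩ y ⟨-, hyR, -, -⟩
    apply LinearMap.ext
    intro m
    have h1 : ((y : M →ₗ[k] M) - 1) m ∈ R := hyR ⟨m, rfl⟩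
    have h2 := hxK (hRK h1)
    rw [LinearMap.mem_ker] at h2
    exact h2
  have hrn := LinearMap.finrank_range_add_finrank_ker ((σ : M →ₗ[k] M) - 1)
  refine ⟨?_, ?_, ?_⟩
  · ext x
    constructor
    · intro hx
      by_cases hx1 : x = 1
      · right; exact hx1
      · left
        have hxA := hsub hx
        obtain ⟨hxG, hxR, hxK, hxc⟩ := hxA
        have hxQ : x ∈ Cfsg.quadraticElements G := by
          refine ⟨hxG, ⟨hsq x (hsub hx) x (hsub hx), ?_⟩, ?_⟩
          · intro h0
            apply hx1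
            apply Units.ext
            rw [sub_eq_zero] at h0
            exact h0
          · rintro τ ⟨c, hc⟩
            obtain ⟨y, hyG, hy⟩ := hxc c
            have : τ = y := Units.ext (by rw [hc, hy])
            rw [this]; exact hyG
        have hle : Module.finrank k (LinearMap.range ((x : M →ₗ[k] M) - 1)) ≤ Module.finrank k R :=
          Submodule.finrank_mono hxR
        have hge : Module.finrank k R ≤ Module.finrank k (LinearMap.range ((x : M →ₗ[k] M) - 1)) :=
          hσmin x hxQ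
        have hRx : LinearMap.range ((x : M →ₗ[k] M) - 1) = R :=
          Submodule.eq_of_le_of_finrank_le hxR hge
        have hrnx := LinearMap.finrank_range_add_finrank_ker ((x : M →ₗ[k] M) - 1)
        have hKx : LinearMap.ker ((x : M →ₗ[k] M) - 1) = K := by
          refine (Submodule.eq_of_le_of_finrank_le hxK ?_).symm
          rw [hRx] at hrnx
          have : Module.finrank k R + Module.finrank k K = Module.finrank k M := hrn
          omega
        refine ⟨⟨hxQ, fun τ hτ => ?_⟩, hKx, hRx⟩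
        have := hσmin τ hτ
        unfold Cfsg.commutatorRank at this ⊢
        rw [hRx]; exact this
    · rintro (hx | hx)
      · exact Subgroup.subset_closure hx
      · rw [Set.mem_singleton_iff] at hx
        rw [hx]; exact Subgroup.one_mem _
  · refine ⟨⟨fun a b => ?_⟩⟩
    apply Subtype.ext
    apply Units.ext
    show ((a : LinearMap.GeneralLinearGroup k M) : M →ₗ[k] M) * ((b : LinearMap.GeneralLinearGroup k M) : M →ₗ[k] M)
      = ((b : LinearMap.GeneralLinearGroup k M) : M →ₗ[k] M) * ((a : LinearMap.GeneralLinearGroup k M) : M →ₗ[k] M)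
    have h1 := hsq _ (hsub a.2) _ (hsub b.2)
    have h2 := hsq _ (hsub b.2) _ (hsub a.2)
    have h3 : ((a : LinearMap.GeneralLinearGroup k M) : M →ₗ[k] M) * ((b : LinearMap.GeneralLinearGroup k M) : M →ₗ[k] M)
        - ((b : LinearMap.GeneralLinearGroup k M) : M →ₗ[k] M) * ((a : LinearMap.GeneralLinearGroup k M) : M →ₗ[k] M)
        = (((a : LinearMap.GeneralLinearGroup k M) : M →ₗ[k] M) - 1) * (((b : LinearMap.GeneralLinearGroup k M) : M →ₗ[k] M) - 1)
          - (((b : LinearMap.GeneralLinearGroup k M) : M →ₗ[k] M) - 1) * (((a : LinearMap.GeneralLinearGroup k M) : M →ₗ[k] M) - 1) := by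
      noncomm_ring
    rw [h1, h2, sub_zero] at h3
    exact sub_eq_zero.mp h3
  · intro p hp hchar x hx
    have hxx := hsq x (hsub hx) x (hsub hx)
    have hpow : ∀ m : ℕ, ((x ^ m : LinearMap.GeneralLinearGroup k M) : M →ₗ[k] M) = 1 + m • ((x : M →ₗ[k] M) - 1) := by
      intro m
      induction m with
      | zero => simp
      | succ m ih =>
        rw [pow_succ, Units.val_mul, ih]
        have h2 : (m • ((x : M →ₗ[k] M) - 1)) * ((x : M →ₗ[k] M) - 1) = 0 := by
          rw [smul_mul_assoc, hxx, smul_zero]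
        calc (1 + m • ((x : M →ₗ[k] M) - 1)) * (x : M →ₗ[k] M)
            = 1 + (m • ((x : M →ₗ[k] M) - 1) + ((x : M →ₗ[k] M) - 1)) +
              (m • ((x : M →ₗ[k] M) - 1)) * ((x : M →ₗ[k] M) - 1) := by noncomm_ring
          _ = 1 + (m + 1) • ((x : M →ₗ[k] M) - 1) := by rw [h2, add_zero, succ_nsmul]
    apply Units.ext
    rw [hpow p]
    have hp0 : (p : k) = 0 := by rw [← hchar]; exact ringChar.Nat.cast_ringChar
    have : p • ((x : M →ₗ[k] M) - 1) = 0 := by
      rw [← Nat.cast_smul_eq_nsmul k, hp0, zero_smul]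
    rw [this, add_zero]; rfl

end Cfsg.Agent.S5059
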