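import Cfsg.Statements.S5060
import Cfsg.Agent.Helper5.SLAlgD

set_option autoImplicit false
open Cfsg

namespace Cfsg.Agent.S5060

/-- Let k ⊆ K be fields with the characteristic of k not 2 and k not of order 3, and let α ∈ K be a non-zero element algebraic over k. Then the subgroup of SL₂(K) generated by the upper unitriangular matrices with entry c and the lower unitriangular matrices with entry cα, c ranging over k, is exactly the group of matrices of SL₂(K) with all entries in k(α). -/
theorem result {k K : Type*} [Field k] [Field K] [Algebra k K] (hk2 : ringChar k ≠ 2) (hk3 : Nat.card k ≠ 3)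
    (α : K) (hα : IsAlgebraic k α) (hα0 : α ≠ 0) :
    (Subgroup.closure ({g : Matrix.SpecialLinearGroup (Fin 2) K | ∃ c : k, (g : Matrix (Fin 2) (Fin 2) K) = !![1, algebraMap k K c; 0, 1]} ∪
        {g : Matrix.SpecialLinearGroup (Fin 2) K | ∃ c : k, (g : Matrix (Fin 2) (Fin 2) K) = !![1, 0; algebraMap k K c * α, 1]}) :
      Set (Matrix.SpecialLinearGroup (Fin 2) K)) =
    {g : Matrix.SpecialLinearGroup (Fin 2) K | ∀ i j : Fin 2, (g : Matrix (Fin 2) (Fin 2) K) i j ∈ IntermediateField.adjoin k ({α} : Set K)} := by
  have htwo : (2 : k) ≠ 0 := Ring.two_ne_zero hk2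
  have ha : ∃ a : k, a ≠ 0 ∧ a ^ 2 ≠ 1 := by
    by_contra hcon
    push Not at hcon
    apply hk3
    have hu : (Set.univ : Set k) = {0, 1, -1} := by
      ext a
      simp only [Set.mem_univ, Set.mem_insert_iff, Set.mem_singleton_iff, true_iff]
      by_cases h0 : a = 0
      · exact Or.inl h0
      · right
        have h1 := hcon a h0
        have h2 : (a - 1) * (a + 1) = 0 := by linear_combination h1
        rcases mul_eq_zero.mp h2 with h3 | h3
        · exact Or.inl (by linear_combination h3)
        · exact Or.inr (by linear_combination h3)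
    have h01 : (0 : k) ≠ 1 := zero_ne_one
    have h0m : (0 : k) ≠ -1 := fun h => h01 (by linear_combination -h)
    have h1m : (1 : k) ≠ -1 := fun h => htwo (by linear_combination h)
    rw [← Set.ncard_univ, hu]
    exact Set.ncard_eq_three.mpr ⟨0, 1, -1, h01, h0m, h1m, rfl⟩
  exact Cfsg.Agent.Helper5.SLAlg.main k α htwo ha hα hα0

end Cfsg.Agent.S5060
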