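import Cfsg.Statements.S5062
import Cfsg.Agent.S5059
import Cfsg.Agent.Helper5.QPairS
-- import your own Cfsg.Agent.* helpers here

set_option autoImplicit false
universe u
open Cfsg

namespace Cfsg.Agent.S5062

/-- Let k be a field of characteristic not 2 with k not of order 3, M a finite-dimensional k-vector space and G ≤ GL(M) such that (G, M) is a quadratic pair (M irreducible for G, and G generated by its quadratically acting elements σ whose scalar family 1 + c(σ − 1), c ∈ k, lies in G). Write 𝒬_d for the quadratic elements of G of minimal commutator rank, E(σ) for the subgroup generated by the members of 𝒬_d with the same fixed space and commutator space as σ, and Σ for the set of these subgroups. Then, inside the subgroup G₀ generated by Σ, the members of Σ form a set of abstract root subgroups of G₀ in which every member has a rank one partner; and whenever a member A and a rank one partner B of A lie in a connected component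 of the rank-one-pair graph that is degenerate (no commutator case among its members), there are subgroups A₀ ≤ A, B₀ ≤ B generating an image of SL₂(k₁) with central kernel on unitriangular subgroups, for some field k₁ with at least four elements. -/
theorem result {k : Type u} [Field k] (hk2 : ringChar k ≠ 2) (hk3 : Nat.card k ≠ 3)
    {M : Type u} [AddCommGroup M] [Module k M] [FiniteDimensional k M]
    {G : Subgroup (LinearMap.GeneralLinearGroup k M)} (hG : Cfsg.IsQuadraticPair G) :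
    Cfsg.IsRootSubgroupSet ((fun A : Subgroup (LinearMap.GeneralLinearGroup k M) => A.subgroupOf (⨆ B ∈ Cfsg.quadraticRootSubgroups G, B)) ''
      Cfsg.quadraticRootSubgroups G) ∧
    (∀ A ∈ Cfsg.quadraticRootSubgroups G, ¬ Cfsg.IsIsolatedIn (Cfsg.FAdj (Cfsg.quadraticRootSubgroups G)) (Cfsg.quadraticRootSubgroups G) A) ∧
    (∀ A ∈ Cfsg.quadraticRootSubgroups G, ∀ B ∈ Cfsg.rankOnePartners (Cfsg.quadraticRootSubgroups G) A,
      (∀ C ∈ Cfsg.componentOf (Cfsg.FAdj (Cfsg.quadraticRootSubgroups G)) (Cfsg.quadraticRootSubgroups G) A,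
        ∀ D ∈ Cfsg.componentOf (Cfsg.FAdj (Cfsg.quadraticRootSubgroups G)) (Cfsg.quadraticRootSubgroups G) A,
          ¬ Cfsg.RootCommutatorCase (Cfsg.quadraticRootSubgroups G) C D) →
      ∃ A₀ B₀ : Subgroup (LinearMap.GeneralLinearGroup k M), A₀ ≤ A ∧ B₀ ≤ B ∧
        ∃ (k₁ : Type u) (_ : Field k₁), 3 < ENat.card k₁ ∧ Cfsg.IsPSL2PairOver k₁ A₀ B₀) := by
  have htwo : (2 : k) ≠ 0 := Ring.two_ne_zero hk2
  have ha : ∃ a : k, a ≠ 0 ∧ a ^ 2 ≠ 1 := by
    by_contra hcon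
    push Not at hcon
    apply hk3
    have hu : (Set.univ : Set k) = {0, 1, -1} := by
      ext a
      simp only [Set.mem_univ, Set.mem_insert_iff, Set.mem_singleton_iff, true_iff]
      by_cases h0 : a = 0
      · exact Or.inl h0
      · right
        have h1 := hcon a h0
        have h2 : (a - 1) * (a + 1) = 0 := by linear_combination h1
        rcases mul_eq_zero.mp h2 with h3 | h3
        · exact Or.inl (by linear_combination h3)
        · exact Or.inr (by linear_combination h3)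
    have h01 : (0 : k) ≠ 1 := zero_ne_one
    have h0m : (0 : k) ≠ -1 := fun h => h01 (by linear_combination -h)
    have h1m : (1 : k) ≠ -1 := fun h => htwo (by linear_combination h)
    rw [← Set.ncard_univ, hu]
    exact Set.ncard_eq_three.mpr ⟨0, 1, -1, h01, h0m, h1m, rfl⟩
  have hS : ∀ x ∈ Cfsg.minimalQuadraticElements G,
      (Cfsg.sameActionSubgroup G x : Set (LinearMap.GeneralLinearGroup k M)) =
        Cfsg.sameActionClass G x ∪ {1} := fun x hx => (Cfsg.Agent.S5059.result hk2 hk3 hG hx).1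
  have hoppex : ∀ x ∈ Cfsg.minimalQuadraticElements G,
      ∃ φ ∈ Cfsg.minimalQuadraticElements G, Cfsg.Agent.Helper5.QPair.Opp x φ :=
    fun x hx => Cfsg.Agent.Helper5.QPair.exists_opp hG htwo ha hx
  have hcomm : ∀ x ∈ Cfsg.minimalQuadraticElements G, ∀ u ∈ Cfsg.sameActionSubgroup G x,
      ∀ v ∈ Cfsg.sameActionSubgroup G x, u * v = v * u :=
    fun x hx u hu v hv => Cfsg.Agent.Helper5.QPair.E_comm hx (hS x hx) hu hv
  have hle : ∀ A ∈ Cfsg.quadraticRootSubgroups G, A ≤ ⨆ B ∈ Cfsg.quadraticRootSubgroups G, B :=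
    fun A hA => le_iSup₂ (f := fun (B : Subgroup (LinearMap.GeneralLinearGroup k M))
      (_ : B ∈ Cfsg.quadraticRootSubgroups G) => B) A hA
  have hG₀ : (⨆ B ∈ Cfsg.quadraticRootSubgroups G, B) ≤ G := by
    apply iSup₂_le
    rintro B ⟨x, hx, rfl⟩
    exact Cfsg.Agent.Helper5.QPair.E_le_G x
  have htri : ∀ σ ∈ Cfsg.minimalQuadraticElements G, ∀ τ ∈ Cfsg.minimalQuadraticElements G,
      ⁅Cfsg.sameActionSubgroup G σ, Cfsg.sameActionSubgroup G τ⁆ = ⊥ ∨
      Cfsg.IsRankOnePair (Cfsg.sameActionSubgroup G σ) (Cfsg.sameActionSubgroup G τ) ∨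
      Cfsg.RootCommutatorCase (Cfsg.quadraticRootSubgroups G) (Cfsg.sameActionSubgroup G σ)
        (Cfsg.sameActionSubgroup G τ) := by
    intro σ hσ τ hτ
    by_cases hopp : Cfsg.Agent.Helper5.QPair.Opp σ τ
    · exact Or.inr (Or.inl (Cfsg.Agent.Helper5.QPair.rankOnePair_of_opp htwo ha hσ hτ hopp
        (hS σ hσ) (hS τ hτ)))
    · have hC : Cfsg.Agent.Helper5.QPair.C2 G σ τ := ⟨htwo, ha, hσ, hτ, hopp⟩
      by_cases hne : ⁅Cfsg.sameActionSubgroup G σ, Cfsg.sameActionSubgroup G τ⁆ = ⊥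
      · exact Or.inl hne
      · obtain ⟨c1, c2, c3, c4, c5, c6⟩ := hC.core hS hoppex hne
        exact Or.inr (Or.inr ⟨c1, Cfsg.Agent.Helper5.QPair.central_of_class2 c5, c2, c3⟩)
  refine ⟨⟨?_, ?_, ?_, ?_, ?_⟩, ?_, ?_⟩
  · rintro _ ⟨A, ⟨σ, hσ, rfl⟩, rfl⟩
    exact Cfsg.Agent.Helper5.QPair.isMulCommutative_subgroupOf (hcomm σ hσ)
  · rintro _ ⟨A, ⟨σ, hσ, rfl⟩, rfl⟩ hbot
    have hσE : σ ∈ Cfsg.sameActionSubgroup G σ :=
      Subgroup.subset_closure (Cfsg.Agent.Helper5.QPair.self_mem_class hσ)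
    have hσG₀ : σ ∈ ⨆ B ∈ Cfsg.quadraticRootSubgroups G, B := hle _ ⟨σ, hσ, rfl⟩ hσE
    have h1 : (⟨σ, hσG₀⟩ : ↥(⨆ B ∈ Cfsg.quadraticRootSubgroups G, B)) ∈
        (Cfsg.sameActionSubgroup G σ).subgroupOf (⨆ B ∈ Cfsg.quadraticRootSubgroups G, B) :=
      Subgroup.mem_subgroupOf.mpr hσE
    beta_reduce at hbot
    rw [hbot, Subgroup.mem_bot] at h1
    exact Cfsg.Agent.Helper5.QPair.ne_one_of_min hσ (congrArg Subtype.val h1)
  · exact Cfsg.Agent.Helper5.QPair.iSup_subgroupOf_eq_top _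
  · rintro _ ⟨A, ⟨σ, hσ, rfl⟩, rfl⟩ g
    rw [Cfsg.Agent.Helper5.QPair.conjBy_subgroupOf, ← Cfsg.Agent.Helper5.QPair.E_conj (hG₀ g.2)]
    exact ⟨_, ⟨_, Cfsg.Agent.Helper5.QPair.conj_mem_min hσ (hG₀ g.2), rfl⟩, rfl⟩
  · rintro _ ⟨A, ⟨σ, hσ, rfl⟩, rfl⟩ _ ⟨B, ⟨τ, hτ, rfl⟩, rfl⟩
    have hA := hle _ ⟨σ, hσ, rfl⟩
    have hB := hle _ ⟨τ, hτ, rfl⟩
    rcases htri σ hσ τ hτ with h | h | h
    · left
      rw [Cfsg.Agent.Helper5.QPair.comm_subgroupOf hA hB, h, Subgroup.bot_subgroupOf]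
    · right
      left
      exact Cfsg.Agent.Helper5.QPair.rankOnePair_subgroupOf hA hB (hcomm σ hσ) (hcomm τ hτ) h
    · right
      right
      exact Cfsg.Agent.Helper5.QPair.rootComm_subgroupOf _ hA hB h
  · rintro A ⟨σ, hσ, rfl⟩ hiso
    obtain ⟨φ, hφ, hopp⟩ := hoppex σ hσ
    exact (hiso.2 (Cfsg.sameActionSubgroup G φ)).1 ⟨⟨σ, hσ, rfl⟩, ⟨φ, hφ, rfl⟩,
      Cfsg.Agent.Helper5.QPair.rankOnePair_of_opp htwo ha hσ hφ hopp (hS σ hσ) (hS φ hφ)⟩
  · rintro A ⟨σ, hσ, rfl⟩ B ⟨⟨τ, hτ, rfl⟩, hpair⟩ -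
    have hopp := Cfsg.Agent.Helper5.QPair.opp_of_rankOnePair htwo ha hσ hτ (hS σ hσ) (hS τ hτ) hpair
    obtain ⟨A₀, B₀, hA₀, hB₀, hpsl⟩ := Cfsg.Agent.Helper5.QPair.psl2_of_opp htwo ha hσ hτ hopp
    exact ⟨A₀, B₀, hA₀, hB₀, k, inferInstance, Cfsg.Agent.Helper5.QPair.three_lt_card htwo ha, hpsl⟩

end Cfsg.Agent.S5062
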