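import Cfsg.Statements.S5074
import Cfsg.Agent.Helper5.QPairV
-- import your own Cfsg.Agent.* helpers here

set_option autoImplicit false
universe u
open Cfsg

namespace Cfsg.Agent.S5074

/-- Let k be a field of characteristic not 2 with k not of order 3, M a finite-dimensional k-vector space and G ≤ GL(M) such that (G, M) is a quadratic pair (M irreducible for G, and G generated by its quadratically acting elements σ whose scalar family 1 + c(σ − 1), c ∈ k, lies in G). Write 𝒬_d for the quadratic elements of G of minimal commutator rank, E(σ) for the subgroup generated by the members of 𝒬_d with the same fixed space and commutator space as σ, and Σ for the set of these subgroups. Then G is the product of the subgroup G₀ generated by Σ with the centralizer of G₀ in G. -/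
theorem result {k : Type u} [Field k] (hk2 : ringChar k ≠ 2) (hk3 : Nat.card k ≠ 3)
    {M : Type u} [AddCommGroup M] [Module k M] [FiniteDimensional k M]
    {G : Subgroup (LinearMap.GeneralLinearGroup k M)} (hG : Cfsg.IsQuadraticPair G) :
    (⨆ A ∈ Cfsg.quadraticRootSubgroups G, A) ⊔
      (G ⊓ Subgroup.centralizer ((⨆ A ∈ Cfsg.quadraticRootSubgroups G, A : Subgroup (LinearMap.GeneralLinearGroup k M)) : Set (LinearMap.GeneralLinearGroup k M))) = G := by
  have htwo : (2 : k) ≠ 0 := Ring.two_ne_zero hk2
  have ha : ∃ a : k, a ≠ 0 ∧ a ^ 2 ≠ 1 := by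
    by_contra hcon
    push Not at hcon
    apply hk3
    have hu : (Set.univ : Set k) = {0, 1, -1} := by
      ext a
      simp only [Set.mem_univ, Set.mem_insert_iff, Set.mem_singleton_iff, true_iff]
      by_cases h0 : a = 0
      · exact Or.inl h0
      · right
        have h1 := hcon a h0
        have h2 : (a - 1) * (a + 1) = 0 := by linear_combination h1
        rcases mul_eq_zero.mp h2 with h3 | h3
        · exact Or.inl (by linear_combination h3)
        · exact Or.inr (by linear_combination h3)
    have h01 : (0 : k) ≠ 1 := zero_ne_one
    have h0m : (0 : k) ≠ -1 := fun h => h01 (by linear_combination -h)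
    have h1m : (1 : k) ≠ -1 := fun h => htwo (by linear_combination h)
    rw [← Set.ncard_univ, hu]
    exact Set.ncard_eq_three.mpr ⟨0, 1, -1, h01, h0m, h1m, rfl⟩
  apply le_antisymm
  · apply sup_le
    · apply iSup₂_le
      rintro B ⟨x, hx, rfl⟩
      exact Cfsg.Agent.Helper5.QPair.E_le_G x
    · exact inf_le_left
  · intro x hx
    have hx' : x ∈ Subgroup.closure (Cfsg.quadraticElements G) := by
      rw [hG.2]
      exact hx
    refine (Subgroup.closure_le _).mpr (fun y hy => ?_) hx'
    exact Cfsg.Agent.Helper5.QPair.mem_sup_of_quad hG htwo ha _ y ((y : M →ₗ[k] M) - 1) hy.1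
      (by abel) hy.2.1.1 (Cfsg.Agent.Helper5.QPair.fam_of_mem hy) le_rfl

end Cfsg.Agent.S5074
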