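import Cfsg.Statements.S5063
import Cfsg.Agent.S5059
import Cfsg.Agent.S5074
import Cfsg.Agent.Helper5.QPairAD
-- import your own Cfsg.Agent.* helpers here

set_option autoImplicit false
universe u
open Cfsg

namespace Cfsg.Agent.S5063

/-- Let k be a field of characteristic not 2 with k not of order 3, M a finite-dimensional k-vector space and G ≤ GL(M) such that (G, M) is a quadratic pair (M irreducible for G, and G generated by its quadratically acting elements σ whose scalar family 1 + c(σ − 1), c ∈ k, lies in G). Write 𝒬_d for the quadratic elements of G of minimal commutator rank, E(σ) for the subgroup generated by the members of 𝒬_d with the same fixed space and commutator space as σ, and Σ for the set of these subgroups. Then G is a central product of finitely many quasisimple normal subgroups G₁, …, G_s (pairwise commuting and together generating G), each generated by the quadratic elements of G it contains, and every quadratic element of G lies in one of them. -/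
theorem result {k : Type u} [Field k] (hk2 : ringChar k ≠ 2) (hk3 : Nat.card k ≠ 3)
    {M : Type u} [AddCommGroup M] [Module k M] [FiniteDimensional k M]
    {G : Subgroup (LinearMap.GeneralLinearGroup k M)} (hG : Cfsg.IsQuadraticPair G) :
    ∃ (s : ℕ) (Gi : Fin s → Subgroup (LinearMap.GeneralLinearGroup k M)),
      (∀ i, Gi i ≤ G ∧ ∀ g ∈ G, Cfsg.conjBy (Gi i) g = Gi i) ∧ (∀ i j, i ≠ j → ⁅Gi i, Gi j⁆ = ⊥) ∧ (⨆ i, Gi i) = G ∧
      (∀ i, Cfsg.IsQuasisimple ↥(Gi i) ∧ Subgroup.closure (Cfsg.quadraticElements G ∩ (Gi i : Set (LinearMap.GeneralLinearGroup k M))) = Gi i) ∧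
      Cfsg.quadraticElements G ⊆ ⋃ i, (Gi i : Set (LinearMap.GeneralLinearGroup k M)) := by
  have htwo : (2 : k) ≠ 0 := Ring.two_ne_zero hk2
  have ha : ∃ a : k, a ≠ 0 ∧ a ^ 2 ≠ 1 := by
    by_contra hcon
    push Not at hcon
    apply hk3
    have hu : (Set.univ : Set k) = {0, 1, -1} := by
      ext a
      simp only [Set.mem_univ, Set.mem_insert_iff, Set.mem_singleton_iff, true_iff]
      by_cases h0 : a = 0
      · exact Or.inl h0
      · right
        have h1 := hcon a h0
        have h2 : (a - 1) * (a + 1) = 0 := by linear_combination h1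
        rcases mul_eq_zero.mp h2 with h3 | h3
        · exact Or.inl (by linear_combination h3)
        · exact Or.inr (by linear_combination h3)
    have h01 : (0 : k) ≠ 1 := zero_ne_one
    have h0m : (0 : k) ≠ -1 := fun h => h01 (by linear_combination -h)
    have h1m : (1 : k) ≠ -1 := fun h => htwo (by linear_combination h)
    rw [← Set.ncard_univ, hu]
    exact Set.ncard_eq_three.mpr ⟨0, 1, -1, h01, h0m, h1m, rfl⟩
  have key : ∀ n : ℕ, ∀ (M' : Type u) [AddCommGroup M'] [Module k M'] [FiniteDimensional k M']
      (G' : Subgroup (LinearMap.GeneralLinearGroup k M')), Cfsg.IsQuadraticPair G' →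
      Module.finrank k M' ≤ n → Cfsg.Agent.Helper5.QPair.Dec G' := by
    intro n
    induction n with
    | zero =>
      intro M' _ _ _ G' hG' hn
      exfalso
      obtain ⟨m, hm⟩ := hG'.1.1
      apply hm
      have hsub : Subsingleton M' := Module.finrank_zero_iff.mp (Nat.le_zero.mp hn)
      exact Subsingleton.elim _ _
    | succ n ih =>
      intro M' _ _ _ G' hG' hn
      by_cases hq : (Cfsg.quadraticElements G').Nonempty
      · obtain ⟨σs, hσs⟩ := Cfsg.Agent.Helper5.QPair.exists_minimal_quad hq
        have hS : ∀ x ∈ Cfsg.minimalQuadraticElements G',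
            (Cfsg.sameActionSubgroup G' x : Set (LinearMap.GeneralLinearGroup k M')) =
              Cfsg.sameActionClass G' x ∪ {1} :=
          fun x hx => (Cfsg.Agent.S5059.result hk2 hk3 hG' hx).1
        have hoppex : ∀ x ∈ Cfsg.minimalQuadraticElements G',
            ∃ φ ∈ Cfsg.minimalQuadraticElements G', Cfsg.Agent.Helper5.QPair.Opp x φ :=
          fun x hx => Cfsg.Agent.Helper5.QPair.exists_opp hG' htwo ha hx
        have hdec : G' ≤ (⨆ A ∈ Cfsg.quadraticRootSubgroups G', A) ⊔
            Subgroup.centralizer ((⨆ A ∈ Cfsg.quadraticRootSubgroups G', A :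
              Subgroup (LinearMap.GeneralLinearGroup k M')) :
                Set (LinearMap.GeneralLinearGroup k M')) := by
          have h := Cfsg.Agent.S5074.result hk2 hk3 hG'
          intro x hx
          rw [← h] at hx
          have hle : (⨆ A ∈ Cfsg.quadraticRootSubgroups G', A) ⊔
              (G' ⊓ Subgroup.centralizer ((⨆ A ∈ Cfsg.quadraticRootSubgroups G', A :
                Subgroup (LinearMap.GeneralLinearGroup k M')) :
                  Set (LinearMap.GeneralLinearGroup k M'))) ≤
              (⨆ A ∈ Cfsg.quadraticRootSubgroups G', A) ⊔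
                Subgroup.centralizer ((⨆ A ∈ Cfsg.quadraticRootSubgroups G', A :
                  Subgroup (LinearMap.GeneralLinearGroup k M')) :
                    Set (LinearMap.GeneralLinearGroup k M')) :=
            sup_le_sup le_rfl inf_le_right
          exact hle hx
        have hR := Cfsg.Agent.Helper5.QPair.rs_of_pair htwo ha hS hoppex hdec
        exact Cfsg.Agent.Helper5.QPair.dec_step hG' htwo ha hS hoppex hR hσs
          (fun W G'' hlt hG'' => ih ↥W G'' hG'' (by omega))
      · refine ⟨Empty, inferInstance, fun i => i.elim, fun i => i.elim, fun i => i.elim,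
          fun i => i.elim, ?_⟩
        intro x hx
        exact absurd ⟨x, hx⟩ hq
  exact Cfsg.Agent.Helper5.QPair.dec_fin hG (key _ M G hG le_rfl)

end Cfsg.Agent.S5063
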