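import Cfsg.Statements.S5064
import Cfsg.Agent.Helper5.QPairF

set_option autoImplicit false
universe u
open Cfsg

namespace Cfsg.Agent.S5064

/-- Let k be a field of characteristic not 2 with k not of order 3, M a finite-dimensional k-vector space and G ≤ GL(M) such that (G, M) is a quadratic pair (M irreducible for G, and G generated by its quadratically acting elements σ whose scalar family 1 + c(σ − 1), c ∈ k, lies in G). Write 𝒬_d for the quadratic elements of G of minimal commutator rank, E(σ) for the subgroup generated by the members of 𝒬_d with the same fixed space and commutator space as σ, and Σ for the set of these subgroups. If σ, τ ∈ 𝒬_d and the subgroup H generated by their two scalar families does not act unipotently on M, then H is isomorphic to SL₂ over a simple algebraic extension k(λ) of k. -/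
theorem result {k : Type u} [Field k] (hk2 : ringChar k ≠ 2) (hk3 : Nat.card k ≠ 3)
    {M : Type u} [AddCommGroup M] [Module k M] [FiniteDimensional k M]
    {G : Subgroup (LinearMap.GeneralLinearGroup k M)} (hG : Cfsg.IsQuadraticPair G)
    {σ τ : LinearMap.GeneralLinearGroup k M} (hσ : σ ∈ Cfsg.minimalQuadraticElements G) (hτ : τ ∈ Cfsg.minimalQuadraticElements G)
    (hH : ¬ Cfsg.IsUnipotentOn (Subgroup.closure (Cfsg.scalarFamily σ ∪ Cfsg.scalarFamily τ))) :
    ∃ (K : Type u) (_ : Field K) (_ : Algebra k K) (lam : K), IsAlgebraic k lam ∧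
      IntermediateField.adjoin k ({lam} : Set K) = ⊤ ∧
      Nonempty (↥(Subgroup.closure (Cfsg.scalarFamily σ ∪ Cfsg.scalarFamily τ)) ≃* Matrix.SpecialLinearGroup (Fin 2) K) := by
  have htwo : (2 : k) ≠ 0 := Ring.two_ne_zero hk2
  have ha : ∃ a : k, a ≠ 0 ∧ a ^ 2 ≠ 1 := by
    by_contra hcon
    push Not at hcon
    apply hk3
    have hu : (Set.univ : Set k) = {0, 1, -1} := by
      ext a
      simp only [Set.mem_univ, Set.mem_insert_iff, Set.mem_singleton_iff, true_iff]
      by_cases h0 : a = 0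
      · exact Or.inl h0
      · right
        have h1 := hcon a h0
        have h2 : (a - 1) * (a + 1) = 0 := by linear_combination h1
        rcases mul_eq_zero.mp h2 with h3 | h3
        · exact Or.inl (by linear_combination h3)
        · exact Or.inr (by linear_combination h3)
    have h01 : (0 : k) ≠ 1 := zero_ne_one
    have h0m : (0 : k) ≠ -1 := fun h => h01 (by linear_combination -h)
    have h1m : (1 : k) ≠ -1 := fun h => htwo (by linear_combination h)
    rw [← Set.ncard_univ, hu]
    exact Set.ncard_eq_three.mpr ⟨0, 1, -1, h01, h0m, h1m, rfl⟩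
  obtain ⟨⟨hσG, ⟨hσ2, hσ0⟩, hσfam⟩, hσmin⟩ := hσ
  obtain ⟨⟨hτG, ⟨hτ2, hτ0⟩, hτfam⟩, hτmin⟩ := hτ
  have hint : IsIntegral k (((σ : M →ₗ[k] M) - 1) * ((τ : M →ₗ[k] M) - 1) +
      ((τ : M →ₗ[k] M) - 1) * ((σ : M →ₗ[k] M) - 1)) := Algebra.IsIntegral.isIntegral _
  obtain ⟨Q, hQA, hQB⟩ := Cfsg.Agent.Helper5.QPair.exists_QP (k := k)
    ((σ : M →ₗ[k] M) - 1) ((τ : M →ₗ[k] M) - 1) hσ2 hτ2 hint
  have hfamσ : Cfsg.scalarFamily σ = Set.range Q.sg := by
    ext x
    constructor
    · rintro ⟨c, hc⟩
      exact ⟨c, Units.ext (by rw [Q.sg_val, hQA]; exact hc.symm)⟩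
    · rintro ⟨c, rfl⟩
      exact ⟨c, by rw [Q.sg_val, hQA]⟩
  have hfamτ : Cfsg.scalarFamily τ = Set.range Q.tg := by
    ext x
    constructor
    · rintro ⟨c, hc⟩
      exact ⟨c, Units.ext (by rw [Q.tg_val, hQB]; exact hc.symm)⟩
    · rintro ⟨c, rfl⟩
      exact ⟨c, by rw [Q.tg_val, hQB]⟩
  have hHG0 : Subgroup.closure (Cfsg.scalarFamily σ ∪ Cfsg.scalarFamily τ) ≤ G :=
    (Subgroup.closure_le _).mpr (Set.union_subset hσfam hτfam)
  have hHH : Subgroup.closure (Cfsg.scalarFamily σ ∪ Cfsg.scalarFamily τ) = Q.HH := by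
    rw [hfamσ, hfamτ]
    rfl
  rw [hHH] at hH hHG0 ⊢
  have he : Q.e ≠ 0 := fun h => hH (Q.unipotent_of_e_zero h)
  exact Q.final htwo ha he hHG0 (by rw [hQA]; exact hσmin) (by rw [hQB]; exact hτmin)

end Cfsg.Agent.S5064
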