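import Cfsg.Statements.S5065
import Cfsg.Agent.S5059
import Cfsg.Agent.Helper5.QPairL
-- import your own Cfsg.Agent.* helpers here

set_option autoImplicit false
universe u
open Cfsg

namespace Cfsg.Agent.S5065

/-- Let k be a field of characteristic not 2 with k not of order 3, M a finite-dimensional k-vector space and G ≤ GL(M) such that (G, M) is a quadratic pair (M irreducible for G, and G generated by its quadratically acting elements σ whose scalar family 1 + c(σ − 1), c ∈ k, lies in G). Write 𝒬_d for the quadratic elements of G of minimal commutator rank, E(σ) for the subgroup generated by the members of 𝒬_d with the same fixed space and commutator space as σ, and Σ for the set of these subgroups. For σ, τ ∈ 𝒬_d put A = E(σ), B = E(τ) and X = ⟨A, B⟩. Then either X acts unipotently on M, or A and B are the unipotent subgroups of a special rank one group X; in the latter case X contains exactly one central involution acting as −1 on the commutator space [M, X] and trivially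 on the fixed space C_M(X), and M is the direct sum of C_M(X) and [M, X]. -/
theorem result {k : Type u} [Field k] (hk2 : ringChar k ≠ 2) (hk3 : Nat.card k ≠ 3)
    {M : Type u} [AddCommGroup M] [Module k M] [FiniteDimensional k M]
    {G : Subgroup (LinearMap.GeneralLinearGroup k M)} (hG : Cfsg.IsQuadraticPair G)
    {σ τ : LinearMap.GeneralLinearGroup k M} (hσ : σ ∈ Cfsg.minimalQuadraticElements G) (hτ : τ ∈ Cfsg.minimalQuadraticElements G) :
    Cfsg.IsUnipotentOn (Cfsg.sameActionSubgroup G σ ⊔ Cfsg.sameActionSubgroup G τ) ∨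
    (Cfsg.IsSpecialRankOnePair (Cfsg.sameActionSubgroup G σ) (Cfsg.sameActionSubgroup G τ) ∧
      (∃! i : LinearMap.GeneralLinearGroup k M, i ∈ Cfsg.sameActionSubgroup G σ ⊔ Cfsg.sameActionSubgroup G τ ∧ i ≠ 1 ∧ i * i = 1 ∧
        (∀ x ∈ Cfsg.sameActionSubgroup G σ ⊔ Cfsg.sameActionSubgroup G τ, i * x = x * i) ∧
        (∀ m ∈ Cfsg.commutatorSubmodule (Cfsg.sameActionSubgroup G σ ⊔ Cfsg.sameActionSubgroup G τ), (i : M →ₗ[k] M) m = -m) ∧
        (∀ m ∈ Cfsg.fixedSubmodule (Cfsg.sameActionSubgroup G σ ⊔ Cfsg.sameActionSubgroup G τ), (i : M →ₗ[k] M) m = m)) ∧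
      IsCompl (Cfsg.fixedSubmodule (Cfsg.sameActionSubgroup G σ ⊔ Cfsg.sameActionSubgroup G τ))
        (Cfsg.commutatorSubmodule (Cfsg.sameActionSubgroup G σ ⊔ Cfsg.sameActionSubgroup G τ))) := by
  have htwo : (2 : k) ≠ 0 := Ring.two_ne_zero hk2
  have ha : ∃ a : k, a ≠ 0 ∧ a ^ 2 ≠ 1 := by
    by_contra hcon
    push Not at hcon
    apply hk3
    have hu : (Set.univ : Set k) = {0, 1, -1} := by
      ext a
      simp only [Set.mem_univ, Set.mem_insert_iff, Set.mem_singleton_iff, true_iff]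
      by_cases h0 : a = 0
      · exact Or.inl h0
      · right
        have h1 := hcon a h0
        have h2 : (a - 1) * (a + 1) = 0 := by linear_combination h1
        rcases mul_eq_zero.mp h2 with h3 | h3
        · exact Or.inl (by linear_combination h3)
        · exact Or.inr (by linear_combination h3)
    have h01 : (0 : k) ≠ 1 := zero_ne_one
    have h0m : (0 : k) ≠ -1 := fun h => h01 (by linear_combination -h)
    have h1m : (1 : k) ≠ -1 := fun h => htwo (by linear_combination h)
    rw [← Set.ncard_univ, hu]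
    exact Set.ncard_eq_three.mpr ⟨0, 1, -1, h01, h0m, h1m, rfl⟩
  obtain ⟨hEσ, hcσ, -⟩ := Cfsg.Agent.S5059.result hk2 hk3 hG hσ
  obtain ⟨hEτ, hcτ, -⟩ := Cfsg.Agent.S5059.result hk2 hk3 hG hτ
  by_cases hopp : LinearMap.range ((σ : M →ₗ[k] M) - 1) ⊓ LinearMap.ker ((τ : M →ₗ[k] M) - 1) = ⊥ ∧
      LinearMap.range ((τ : M →ₗ[k] M) - 1) ⊓ LinearMap.ker ((σ : M →ₗ[k] M) - 1) = ⊥
  · right
    have hinv := Cfsg.Agent.Helper5.QPair.involution_of_opp htwo ha hσ hτ hopp hEσ hEτ
    refine ⟨⟨⟨?_, ⟨⟨1, Subgroup.upperCentralSeries_one_eq_top_iff.mpr hcσ⟩⟩,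
      ⟨⟨1, Subgroup.upperCentralSeries_one_eq_top_iff.mpr hcτ⟩⟩,
      Cfsg.Agent.Helper5.QPair.rankOneCond htwo ha hσ hτ hopp hEσ hEτ,
      Cfsg.Agent.Helper5.QPair.rankOneCond htwo ha hτ hσ ⟨hopp.2, hopp.1⟩ hEτ hEσ⟩,
      Cfsg.Agent.Helper5.QPair.special_of_opp htwo ha hσ hτ hopp hEσ hEτ⟩, hinv.1, hinv.2⟩
    intro hEq
    have hσ1 : σ ≠ 1 := by
      intro h
      apply hσ.1.2.1.2
      rw [h]
      exact sub_self _
    have hσE : σ ∈ Cfsg.sameActionSubgroup G τ := by
      rw [← hEq]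
      exact Subgroup.subset_closure (Cfsg.Agent.Helper5.QPair.self_mem_class hσ)
    obtain ⟨-, hk', hr'⟩ := Cfsg.Agent.Helper5.QPair.mem_class_of_ne hEτ hσE hσ1
    apply hσ.1.2.1.2
    rw [← LinearMap.range_eq_bot, ← hopp.1, ← hk']
    exact (inf_eq_left.mpr (Cfsg.Agent.Helper5.QPair.range_le_ker_of_sq _ hσ.1.2.1.1)).symm
  · left
    exact Cfsg.Agent.Helper5.QPair.unipotent_of_not_opp htwo ha hσ hτ hopp

end Cfsg.Agent.S5065
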