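import Cfsg.Statements.S5066
import Cfsg.Agent.S5059
import Cfsg.Agent.Helper5.QPairQ
-- import your own Cfsg.Agent.* helpers here

set_option autoImplicit false
universe u
open Cfsg

namespace Cfsg.Agent.S5066

/-- Let k be a field of characteristic not 2 with k not of order 3, M a finite-dimensional k-vector space and G ≤ GL(M) such that (G, M) is a quadratic pair (M irreducible for G, and G generated by its quadratically acting elements σ whose scalar family 1 + c(σ − 1), c ∈ k, lies in G). Write 𝒬_d for the quadratic elements of G of minimal commutator rank, E(σ) for the subgroup generated by the members of 𝒬_d with the same fixed space and commutator space as σ, and Σ for the set of these subgroups. Let E, F ∈ Σ generate a subgroup that is nilpotent of class exactly two. Then D = ⁅E, F⁆ belongs to Σ, equals the subgroup generated by the commutators of e with F, and also of E with f, for every non-identity e ∈ E, f ∈ F, and ⟨E, F⟩ lies in U(D), the set of elements g of G normalizing D with (g − 1)M inside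 the fixed space of D, (g − 1) mapping that fixed space into the commutator space of D, and g acting trivially on the commutator space of D. -/
theorem result {k : Type u} [Field k] (hk2 : ringChar k ≠ 2) (hk3 : Nat.card k ≠ 3)
    {M : Type u} [AddCommGroup M] [Module k M] [FiniteDimensional k M]
    {G : Subgroup (LinearMap.GeneralLinearGroup k M)} (hG : Cfsg.IsQuadraticPair G)
    {E F : Subgroup (LinearMap.GeneralLinearGroup k M)} (hE : E ∈ Cfsg.quadraticRootSubgroups G) (hF : F ∈ Cfsg.quadraticRootSubgroups G)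
    (h2 : ⁅E ⊔ F, E ⊔ F⁆ ≠ ⊥ ∧ ⁅⁅E ⊔ F, E ⊔ F⁆, E ⊔ F⁆ = ⊥) :
    ⁅E, F⁆ ∈ Cfsg.quadraticRootSubgroups G ∧
    (∀ e ∈ E, e ≠ 1 → Subgroup.closure ((fun f : LinearMap.GeneralLinearGroup k M => e * f * e⁻¹ * f⁻¹) '' (F : Set (LinearMap.GeneralLinearGroup k M))) = ⁅E, F⁆) ∧
    (∀ f ∈ F, f ≠ 1 → Subgroup.closure ((fun e : LinearMap.GeneralLinearGroup k M => e * f * e⁻¹ * f⁻¹) '' (E : Set (LinearMap.GeneralLinearGroup k M))) = ⁅E, F⁆) ∧
    ((E ⊔ F : Subgroup (LinearMap.GeneralLinearGroup k M)) : Set (LinearMap.GeneralLinearGroup k M)) ⊆ Cfsg.quadraticUnipotentCore G ⁅E, F⁆ := by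
  have htwo : (2 : k) ≠ 0 := Ring.two_ne_zero hk2
  have ha : ∃ a : k, a ≠ 0 ∧ a ^ 2 ≠ 1 := by
    by_contra hcon
    push Not at hcon
    apply hk3
    have hu : (Set.univ : Set k) = {0, 1, -1} := by
      ext a
      simp only [Set.mem_univ, Set.mem_insert_iff, Set.mem_singleton_iff, true_iff]
      by_cases h0 : a = 0
      · exact Or.inl h0
      · right
        have h1 := hcon a h0
        have h2 : (a - 1) * (a + 1) = 0 := by linear_combination h1
        rcases mul_eq_zero.mp h2 with h3 | h3
        · exact Or.inl (by linear_combination h3)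
        · exact Or.inr (by linear_combination h3)
    have h01 : (0 : k) ≠ 1 := zero_ne_one
    have h0m : (0 : k) ≠ -1 := fun h => h01 (by linear_combination -h)
    have h1m : (1 : k) ≠ -1 := fun h => htwo (by linear_combination h)
    rw [← Set.ncard_univ, hu]
    exact Set.ncard_eq_three.mpr ⟨0, 1, -1, h01, h0m, h1m, rfl⟩
  obtain ⟨σ, hσ, rfl⟩ := hE
  obtain ⟨τ, hτ, rfl⟩ := hF
  have hS : ∀ x ∈ Cfsg.minimalQuadraticElements G,
      (Cfsg.sameActionSubgroup G x : Set (LinearMap.GeneralLinearGroup k M)) =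
        Cfsg.sameActionClass G x ∪ {1} := fun x hx => (Cfsg.Agent.S5059.result hk2 hk3 hG hx).1
  have hoppex : ∀ x ∈ Cfsg.minimalQuadraticElements G,
      ∃ φ ∈ Cfsg.minimalQuadraticElements G, Cfsg.Agent.Helper5.QPair.Opp x φ :=
    fun x hx => Cfsg.Agent.Helper5.QPair.exists_opp hG htwo ha hx
  by_cases hopp : Cfsg.Agent.Helper5.QPair.Opp σ τ
  · exact absurd h2.2 (Cfsg.Agent.Helper5.QPair.not_class2_of_opp htwo ha hσ hτ hopp)
  · have hC : Cfsg.Agent.Helper5.QPair.C2 G σ τ := ⟨htwo, ha, hσ, hτ, hopp⟩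
    have hne : ⁅Cfsg.sameActionSubgroup G σ, Cfsg.sameActionSubgroup G τ⁆ ≠ ⊥ := by
      intro h0
      apply h2.1
      rw [eq_bot_iff]
      apply Cfsg.Agent.Helper5.QPair.comm_le_of_central _ _ _
        (fun x hx y hy => Cfsg.Agent.Helper5.QPair.E_comm hσ (hS σ hσ) hx hy)
        (fun x hx y hy => Cfsg.Agent.Helper5.QPair.E_comm hτ (hS τ hτ) hx hy)
      · intro x hx y hy
        rw [← h0]
        exact Subgroup.commutator_mem_commutator hx hy
      · intro x hx z hz
        rw [Subgroup.mem_bot.mp hz, mul_one, mul_inv_cancel]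
    obtain ⟨h1, h3, h4, -, -, h6⟩ := hC.core hS hoppex hne
    exact ⟨h1, h3, h4, h6⟩

end Cfsg.Agent.S5066
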