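import Cfsg.Statements.S5067

set_option autoImplicit false
open Cfsg

namespace Cfsg.Agent.S5067

open scoped commutatorElement in
theorem aux {P : Type*} [Group P] [Group.IsNilpotent P] (hna : ¬ IsMulCommutative P) {E : Subgroup P}
    (hE : IsMulCommutative ↥E) :
    Group.nilpotencyClass ↥(Subgroup.normalClosure (E : Set P)) < Group.nilpotencyClass P := by
  have hc2 : 2 ≤ Group.nilpotencyClass P := by
    by_contra h
    exact hna (Group.IsNilpotent.nilpotencyClass_le_one_iff.mp (by omega))
  -- the third term of the lower central series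
  set G3 : Subgroup P := (⊤ : Subgroup P).lowerCentralSeries 2 with hG3
  have hG3n : G3.Normal := by rw [hG3]; infer_instance
  have hcomm : ∀ g ∈ _root_.commutator P, ∀ y : P, ⁅g, y⁆ ∈ G3 := by
    intro g hg y
    exact Subgroup.commutator_mem_commutator hg (Subgroup.mem_top y)
  -- elements of E ⊔ P' commute modulo G3
  have hM : ∀ a ∈ E ⊔ _root_.commutator P, ∀ b ∈ E ⊔ _root_.commutator P, ⁅a, b⁆ ∈ G3 := by
    intro a ha b hb
    rw [Subgroup.mem_sup_of_normal_right] at ha hb
    obtain ⟨e₁, he₁, g₁, hg₁, rfl⟩ := ha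
    obtain ⟨e₂, he₂, g₂, hg₂, rfl⟩ := hb
    have hker : ∀ x : P, QuotientGroup.mk' G3 x = 1 ↔ x ∈ G3 := fun x => QuotientGroup.eq_one_iff x
    rw [← hker, map_commutatorElement, commutatorElement_eq_one_iff_commute]
    have hcen : ∀ g ∈ _root_.commutator P, ∀ y : P,
        Commute (QuotientGroup.mk' G3 g) (QuotientGroup.mk' G3 y) := by
      intro g hg y
      have := hcomm g hg y
      rw [← hker, map_commutatorElement, commutatorElement_eq_one_iff_commute] at this
      exact this
    have hee : Commute (QuotientGroup.mk' G3 e₁) (QuotientGroup.mk' G3 e₂) := by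
      have h1 : e₁ * e₂ = e₂ * e₁ := congrArg Subtype.val (hE.is_comm.comm ⟨e₁, he₁⟩ ⟨e₂, he₂⟩)
      show (QuotientGroup.mk' G3 e₁) * (QuotientGroup.mk' G3 e₂) = _
      rw [← map_mul, h1, map_mul]
    rw [map_mul, map_mul]
    have h1 := hcen g₁ hg₁ e₂
    have h2 := hcen g₁ hg₁ g₂
    have h3 := (hcen g₂ hg₂ e₁).symm
    exact (hee.mul_right h3).mul_left (h1.mul_right h2)
  have hMn : (E ⊔ _root_.commutator P).Normal := by
    refine ⟨fun m hm g => ?_⟩
    have h1 : g * m * g⁻¹ = ⁅g, m⁆ * m := by rw [commutatorElement_def]; group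
    rw [h1]
    exact Subgroup.mul_mem _ (Subgroup.mem_sup_right (Subgroup.commutator_mem_commutator (Subgroup.mem_top g)
      (Subgroup.mem_top m))) hm
  have hNM : Subgroup.normalClosure (E : Set P) ≤ E ⊔ _root_.commutator P :=
    Subgroup.normalClosure_le_normal (fun x hx => Subgroup.mem_sup_left hx)
  have key : ∀ i : ℕ, (Subgroup.normalClosure (E : Set P)).lowerCentralSeries (i + 1) ≤
      (⊤ : Subgroup P).lowerCentralSeries (i + 2) := by
    intro i
    induction i with
    | zero =>
      show ⁅Subgroup.normalClosure (E : Set P), Subgroup.normalClosure (E : Set P)⁆ ≤ G3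
      rw [Subgroup.commutator_le]
      intro a ha b hb
      exact hM a (hNM ha) b (hNM hb)
    | succ i ih =>
      rw [Subgroup.lowerCentralSeries_succ, Subgroup.lowerCentralSeries_succ _ (i + 1 + 1)]
      exact Subgroup.commutator_mono ih le_top
  obtain ⟨c, hc⟩ : ∃ c, Group.nilpotencyClass P = c + 2 := ⟨Group.nilpotencyClass P - 2, by omega⟩
  have h1 := key c
  rw [← hc, Subgroup.lowerCentralSeries_nilpotencyClass, le_bot_iff] at h1
  have h2 : (⊤ : Subgroup ↥(Subgroup.normalClosure (E : Set P))).lowerCentralSeries (c + 1) = ⊥ := by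
    have h3 := Subgroup.top_subtype_lowerCentralSeries (Subgroup.normalClosure (E : Set P)) (c + 1)
    rw [h1] at h3
    exact (Subgroup.map_eq_bot_iff_of_injective _ (Subgroup.subtype_injective _)).mp h3
  have h4 := Subgroup.lowerCentralSeries_eq_bot_iff_nilpotencyClass_le.mp h2
  omega

/-- Let P be a non-abelian nilpotent p-group (every element of p-power order; P possibly infinite) generated by two abelian subgroups E and F. Then the normal closure of E in P, and likewise that of F, has nilpotency class strictly smaller than that of P. -/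
theorem result {P : Type*} [Group P] {p : ℕ} [Fact p.Prime] (hP : IsPGroup p P) [Group.IsNilpotent P]
    (hna : ¬ IsMulCommutative P) {E F : Subgroup P} (hE : IsMulCommutative ↥E) (hF : IsMulCommutative ↥F) (hgen : E ⊔ F = ⊤) :
    Group.nilpotencyClass ↥(Subgroup.normalClosure (E : Set P)) < Group.nilpotencyClass P ∧
    Group.nilpotencyClass ↥(Subgroup.normalClosure (F : Set P)) < Group.nilpotencyClass P := by
  exact ⟨aux hna hE, aux hna hF⟩

end Cfsg.Agent.S5067
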