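import Cfsg.Statements.S5069
import Cfsg.Agent.S5059
import Cfsg.Agent.S5074
import Cfsg.Agent.Helper5.QPairZ
-- import your own Cfsg.Agent.* helpers here

set_option autoImplicit false
universe u
open Cfsg

namespace Cfsg.Agent.S5069

/-- Let k be a field of characteristic not 2 with k not of order 3, M a finite-dimensional k-vector space and G ≤ GL(M) such that (G, M) is a quadratic pair (M irreducible for G, and G generated by its quadratically acting elements σ whose scalar family 1 + c(σ − 1), c ∈ k, lies in G). Write 𝒬_d for the quadratic elements of G of minimal commutator rank, E(σ) for the subgroup generated by the members of 𝒬_d with the same fixed space and commutator space as σ, and Σ for the set of these subgroups. Then Σ is a disjoint union of finitely many parts Σ₁, …, Σ_r such that the subgroups G_i generated by the Σ_i commute pairwise, each G_i is quasisimple, and inside G_i the members of Σ_i form a class of abstract root subgroups in which every rank one pair A,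 B contains subgroups A₀ ≤ A, B₀ ≤ B generating an image of SL₂(k₁) with central kernel on unitriangular subgroups for some field k₁ with at least four elements. -/
theorem result {k : Type u} [Field k] (hk2 : ringChar k ≠ 2) (hk3 : Nat.card k ≠ 3)
    {M : Type u} [AddCommGroup M] [Module k M] [FiniteDimensional k M]
    {G : Subgroup (LinearMap.GeneralLinearGroup k M)} (hG : Cfsg.IsQuadraticPair G) :
    ∃ (r : ℕ) (part : Fin r → Set (Subgroup (LinearMap.GeneralLinearGroup k M))),
      (⋃ i, part i) = Cfsg.quadraticRootSubgroups G ∧ (∀ i j, i ≠ j → Disjoint (part i) (part j)) ∧ (∀ i, (part i).Nonempty) ∧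
      (∀ i j, i ≠ j → ⁅(⨆ A ∈ part i, A), (⨆ A ∈ part j, A)⁆ = ⊥) ∧
      (∀ i, Cfsg.IsQuasisimple ↥(⨆ A ∈ part i, A) ∧
        Cfsg.IsRootSubgroupClass ((fun A : Subgroup (LinearMap.GeneralLinearGroup k M) => A.subgroupOf (⨆ B ∈ part i, B)) '' (part i)) ∧
        ∀ A ∈ part i, ∀ B ∈ Cfsg.rankOnePartners (part i) A, ∃ A₀ B₀ : Subgroup (LinearMap.GeneralLinearGroup k M), A₀ ≤ A ∧ B₀ ≤ B ∧
          ∃ (k₁ : Type u) (_ : Field k₁), 3 < ENat.card k₁ ∧ Cfsg.IsPSL2PairOver k₁ A₀ B₀) := by
  have htwo : (2 : k) ≠ 0 := Ring.two_ne_zero hk2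
  have ha : ∃ a : k, a ≠ 0 ∧ a ^ 2 ≠ 1 := by
    by_contra hcon
    push Not at hcon
    apply hk3
    have hu : (Set.univ : Set k) = {0, 1, -1} := by
      ext a
      simp only [Set.mem_univ, Set.mem_insert_iff, Set.mem_singleton_iff, true_iff]
      by_cases h0 : a = 0
      · exact Or.inl h0
      · right
        have h1 := hcon a h0
        have h2 : (a - 1) * (a + 1) = 0 := by linear_combination h1
        rcases mul_eq_zero.mp h2 with h3 | h3
        · exact Or.inl (by linear_combination h3)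
        · exact Or.inr (by linear_combination h3)
    have h01 : (0 : k) ≠ 1 := zero_ne_one
    have h0m : (0 : k) ≠ -1 := fun h => h01 (by linear_combination -h)
    have h1m : (1 : k) ≠ -1 := fun h => htwo (by linear_combination h)
    rw [← Set.ncard_univ, hu]
    exact Set.ncard_eq_three.mpr ⟨0, 1, -1, h01, h0m, h1m, rfl⟩
  have hS : ∀ x ∈ Cfsg.minimalQuadraticElements G,
      (Cfsg.sameActionSubgroup G x : Set (LinearMap.GeneralLinearGroup k M)) =
        Cfsg.sameActionClass G x ∪ {1} := fun x hx => (Cfsg.Agent.S5059.result hk2 hk3 hG hx).1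
  have hoppex : ∀ x ∈ Cfsg.minimalQuadraticElements G,
      ∃ φ ∈ Cfsg.minimalQuadraticElements G, Cfsg.Agent.Helper5.QPair.Opp x φ :=
    fun x hx => Cfsg.Agent.Helper5.QPair.exists_opp hG htwo ha hx
  have hdec : G ≤ (⨆ A ∈ Cfsg.quadraticRootSubgroups G, A) ⊔
      Subgroup.centralizer ((⨆ A ∈ Cfsg.quadraticRootSubgroups G, A :
        Subgroup (LinearMap.GeneralLinearGroup k M)) : Set (LinearMap.GeneralLinearGroup k M)) := by
    have h := Cfsg.Agent.S5074.result hk2 hk3 hG
    intro x hx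
    rw [← h] at hx
    have hle : (⨆ A ∈ Cfsg.quadraticRootSubgroups G, A) ⊔
        (G ⊓ Subgroup.centralizer ((⨆ A ∈ Cfsg.quadraticRootSubgroups G, A :
          Subgroup (LinearMap.GeneralLinearGroup k M)) : Set (LinearMap.GeneralLinearGroup k M))) ≤
        (⨆ A ∈ Cfsg.quadraticRootSubgroups G, A) ⊔
          Subgroup.centralizer ((⨆ A ∈ Cfsg.quadraticRootSubgroups G, A :
            Subgroup (LinearMap.GeneralLinearGroup k M)) :
              Set (LinearMap.GeneralLinearGroup k M)) :=
      sup_le_sup le_rfl inf_le_right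
    exact hle hx
  have hR := Cfsg.Agent.Helper5.QPair.rs_of_pair htwo ha hS hoppex hdec
  have hfin := Cfsg.Agent.Helper5.QPair.orbits_finite hG hR
  have : Finite ↥{c : Set (Subgroup (LinearMap.GeneralLinearGroup k M)) |
      ∃ A ∈ Cfsg.quadraticRootSubgroups G, c = Cfsg.Agent.Helper5.QPair.orb G A} :=
    hfin.to_subtype
  let e := Finite.equivFin ↥{c : Set (Subgroup (LinearMap.GeneralLinearGroup k M)) |
      ∃ A ∈ Cfsg.quadraticRootSubgroups G, c = Cfsg.Agent.Helper5.QPair.orb G A}
  have hpart : ∀ i, ∃ σ ∈ Cfsg.minimalQuadraticElements G,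
      ((e.symm i).1 : Set (Subgroup (LinearMap.GeneralLinearGroup k M))) =
        Cfsg.Agent.Helper5.QPair.orb G (Cfsg.sameActionSubgroup G σ) := by
    intro i
    obtain ⟨A, ⟨σ, hσ, rfl⟩, h⟩ := (e.symm i).2
    exact ⟨σ, hσ, h⟩
  refine ⟨_, fun i => (e.symm i).1, ?_, ?_, ?_, ?_, ?_⟩
  · ext B
    simp only [Set.mem_iUnion]
    constructor
    · rintro ⟨i, hB⟩
      obtain ⟨σ, hσ, h⟩ := hpart i
      rw [h] at hB
      exact hR.orb_subset ⟨σ, hσ, rfl⟩ hB
    · intro hB
      refine ⟨e ⟨Cfsg.Agent.Helper5.QPair.orb G B, B, hB, rfl⟩, ?_⟩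
      rw [Equiv.symm_apply_apply]
      exact Cfsg.Agent.Helper5.QPair.mem_orb_self G B
  · intro i j hij
    rw [Set.disjoint_left]
    intro B hBi hBj
    apply hij
    obtain ⟨σ, hσ, h⟩ := hpart i
    obtain ⟨τ, hτ, h'⟩ := hpart j
    beta_reduce at hBi hBj
    rw [h] at hBi
    rw [h'] at hBj
    have hEq : (e.symm i).1 = (e.symm j).1 := by
      rw [h, h', ← Cfsg.Agent.Helper5.QPair.orb_eq_of_mem hBi,
        ← Cfsg.Agent.Helper5.QPair.orb_eq_of_mem hBj]
    exact e.symm.injective (Subtype.ext hEq)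
  · intro i
    obtain ⟨σ, hσ, h⟩ := hpart i
    refine ⟨Cfsg.sameActionSubgroup G σ, ?_⟩
    beta_reduce
    rw [h]
    exact Cfsg.Agent.Helper5.QPair.mem_orb_self G _
  · intro i j hij
    obtain ⟨σ, hσ, h⟩ := hpart i
    obtain ⟨τ, hτ, h'⟩ := hpart j
    beta_reduce
    rw [h, h']
    apply hR.comm_orb ⟨σ, hσ, rfl⟩ ⟨τ, hτ, rfl⟩
    intro heq
    apply hij
    apply e.symm.injective
    apply Subtype.ext
    rw [h, h', heq]
  · intro i
    obtain ⟨σ, hσ, h⟩ := hpart i
    beta_reduce
    rw [h]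
    obtain ⟨m1, m2, m3⟩ := Cfsg.Agent.Helper5.QPair.main_orb htwo ha hS hoppex hR hσ hG
    refine ⟨m1, m2, ?_⟩
    intro A hA B hB
    obtain ⟨A₀, B₀, hA₀, hB₀, hpsl⟩ := m3 A hA B hB
    exact ⟨A₀, B₀, hA₀, hB₀, k, inferInstance,
      Cfsg.Agent.Helper5.QPair.three_lt_card htwo ha, hpsl⟩

end Cfsg.Agent.S5069
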