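import Cfsg.Statements.S5070
import Mathlib
import Cfsg.Agent.Helper13.SympGen
import Cfsg.Agent.Helper83.SL2

set_option autoImplicit false
open Matrix
open Cfsg

namespace Cfsg.Agent.S5070

open Matrix Cfsg.Agent.Helper13 Cfsg.Agent.Helper83
open scoped commutatorElement

section
variable {F : Type*} [Field F] {n : ℕ}

theorem sp_ext {g h : ↥(Matrix.symplecticGroup (Fin n) F)}
    (H : ∀ x : Fin n ⊕ Fin n → F, (g : Matrix (Fin n ⊕ Fin n) (Fin n ⊕ Fin n) F) *ᵥ x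
      = (h : Matrix (Fin n ⊕ Fin n) (Fin n ⊕ Fin n) F) *ᵥ x) : g = h :=
  Subtype.ext (mulVec_ext _ _ H)

theorem sp_pres (g : ↥(Matrix.symplecticGroup (Fin n) F)) (x y : Fin n ⊕ Fin n → F) :
    Cfsg.sympForm n F (g.1 *ᵥ x) (g.1 *ᵥ y) = Cfsg.sympForm n F x y :=
  (mem_symplecticGroup_iff_sympForm g.1).mp g.2 x y

theorem sp_mul_mulVec (g h : ↥(Matrix.symplecticGroup (Fin n) F)) (x : Fin n ⊕ Fin n → F) :
    (g * h).1 *ᵥ x = g.1 *ᵥ (h.1 *ᵥ x) := by
  rw [mulVec_mulVec]; rfl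

theorem sp_one_mulVec (x : Fin n ⊕ Fin n → F) :
    (1 : ↥(Matrix.symplecticGroup (Fin n) F)).1 *ᵥ x = x := by
  rw [show (1 : ↥(Matrix.symplecticGroup (Fin n) F)).1 = 1 from rfl, one_mulVec]

theorem sp_inv_mulVec (g : ↥(Matrix.symplecticGroup (Fin n) F)) (x : Fin n ⊕ Fin n → F) :
    g⁻¹.1 *ᵥ (g.1 *ᵥ x) = x := by
  rw [← sp_mul_mulVec, inv_mul_cancel, sp_one_mulVec]

/-- the symplectic transvection as a group element. -/
def tv (p : Fin n ⊕ Fin n → F) (c : F) : ↥(Matrix.symplecticGroup (Fin n) F) :=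
  ⟨Cfsg.sympTransvection n p c, sympTransvection_mem p c⟩

theorem tv_mulVec (p : Fin n ⊕ Fin n → F) (c : F) (x : Fin n ⊕ Fin n → F) :
    (tv p c).1 *ᵥ x = x + (c * Cfsg.sympForm n F x p) • p := sympTransvection_mulVec p c x

theorem tv_mul (p : Fin n ⊕ Fin n → F) (c d : F) : tv p c * tv p d = tv p (c + d) :=
  Subtype.ext (sympTransvection_mul p c d)

theorem tv_zero (p : Fin n ⊕ Fin n → F) : tv p (0 : F) = 1 :=
  sp_ext (fun x => by rw [tv_mulVec, sp_one_mulVec]; simp)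

theorem tv_inv (p : Fin n ⊕ Fin n → F) (c : F) : (tv p c)⁻¹ = tv p (-c) := by
  rw [inv_eq_iff_mul_eq_one, tv_mul, add_neg_cancel, tv_zero]

theorem exists_form_ne (p : Fin n ⊕ Fin n → F) (hp : p ≠ 0) :
    ∃ x, Cfsg.sympForm n F x p ≠ 0 := by
  by_contra hcon
  push Not at hcon
  apply hp
  apply sympForm_sep p
  intro y
  rw [sympForm_swap, hcon y, neg_zero]

theorem tv_eq_one_iff (p : Fin n ⊕ Fin n → F) (hp : p ≠ 0) (c : F) : tv p c = 1 ↔ c = 0 := by
  constructor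
  · intro h
    obtain ⟨x, hx⟩ := exists_form_ne p hp
    have := congrArg (fun g : ↥(Matrix.symplecticGroup (Fin n) F) => g.1 *ᵥ x) h
    simp only [tv_mulVec, sp_one_mulVec] at this
    have h2 : (c * Cfsg.sympForm n F x p) • p = 0 := by simpa using this
    rcases smul_eq_zero.mp h2 with h3 | h3
    · exact (mul_eq_zero.mp h3).resolve_right hx
    · exact absurd h3 hp
  · rintro rfl
    exact tv_zero p

theorem tv_conj (g : ↥(Matrix.symplecticGroup (Fin n) F)) (p : Fin n ⊕ Fin n → F) (c : F) :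
    g * tv p c * g⁻¹ = tv (g.1 *ᵥ p) c := by
  apply sp_ext
  intro x
  rw [sp_mul_mulVec, sp_mul_mulVec, tv_mulVec, tv_mulVec, mulVec_add, mulVec_smul]
  have h1 : g.1 *ᵥ (g⁻¹.1 *ᵥ x) = x := by
    have := sp_inv_mulVec g⁻¹ x
    rwa [inv_inv] at this
  have h2 : Cfsg.sympForm n F (g⁻¹.1 *ᵥ x) p = Cfsg.sympForm n F x (g.1 *ᵥ p) := by
    rw [← sp_pres g, h1]
  rw [h1, h2]

/-- the transvection group with centre `p`. -/
def Xp (p : Fin n ⊕ Fin n → F) : Subgroup ↥(Matrix.symplecticGroup (Fin n) F) where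
  carrier := {g | ∃ c : F, g = tv p c}
  mul_mem' := by
    rintro _ _ ⟨c, rfl⟩ ⟨d, rfl⟩
    exact ⟨c + d, tv_mul p c d⟩
  one_mem' := ⟨0, (tv_zero p).symm⟩
  inv_mem' := by
    rintro _ ⟨c, rfl⟩
    exact ⟨-c, tv_inv p c⟩

/-- the generating set of the statement. -/
def gset (n : ℕ) (F : Type*) [Field F] (p : Fin n ⊕ Fin n → F) :
    Set ↥(Matrix.symplecticGroup (Fin n) F) :=
  {g | ∃ c : F, ∀ v : Fin n ⊕ Fin n → F,
    (g : Matrix (Fin n ⊕ Fin n) (Fin n ⊕ Fin n) F) *ᵥ v =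
      v + (c * (v ⬝ᵥ (Matrix.J (Fin n) F *ᵥ p))) • p}

/-- the set of transvection subgroups of the statement. -/
def Sset (n : ℕ) (F : Type*) [Field F] : Set (Subgroup ↥(Matrix.symplecticGroup (Fin n) F)) :=
  {A | ∃ p : Fin n ⊕ Fin n → F, p ≠ 0 ∧ A = Subgroup.closure (gset n F p)}

theorem gset_eq (p : Fin n ⊕ Fin n → F) : gset n F p = (Xp p : Set _) := by
  ext g
  constructor
  · rintro ⟨c, hc⟩
    exact ⟨c, sp_ext fun x => by rw [hc x, tv_mulVec]; rfl⟩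
  · rintro ⟨c, rfl⟩
    exact ⟨c, fun v => by rw [tv_mulVec]; rfl⟩

theorem closure_gset (p : Fin n ⊕ Fin n → F) : Subgroup.closure (gset n F p) = Xp p := by
  rw [gset_eq, Subgroup.closure_eq]

theorem mem_Sset {A : Subgroup ↥(Matrix.symplecticGroup (Fin n) F)} :
    A ∈ Sset n F ↔ ∃ p : Fin n ⊕ Fin n → F, p ≠ 0 ∧ A = Xp p := by
  simp only [Sset, Set.mem_ofPred_eq, closure_gset]

theorem Xp_comm (p : Fin n ⊕ Fin n → F) : IsMulCommutative ↥(Xp p) := by
  refine ⟨⟨fun a b => Subtype.ext ?_⟩⟩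
  obtain ⟨c, hc⟩ := a.2
  obtain ⟨d, hd⟩ := b.2
  change a.1 * b.1 = b.1 * a.1
  rw [hc, hd, tv_mul, tv_mul, add_comm]

theorem Xp_nilpotent (p : Fin n ⊕ Fin n → F) : Group.IsNilpotent ↥(Xp p) :=
  ⟨⟨1, Subgroup.upperCentralSeries_one_eq_top_iff.mpr (Xp_comm p)⟩⟩

theorem Xp_ne_bot (p : Fin n ⊕ Fin n → F) (hp : p ≠ 0) : Xp p ≠ ⊥ := by
  intro h
  have h1 : tv p (1 : F) ∈ Xp p := ⟨1, rfl⟩
  rw [h, Subgroup.mem_bot, tv_eq_one_iff p hp] at h1
  exact one_ne_zero h1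

theorem Xp_smul (p : Fin n ⊕ Fin n → F) (μ : F) (hμ : μ ≠ 0) : Xp (μ • p) = Xp p := by
  have key : ∀ c, tv (μ • p) c = tv p (μ * μ * c) := by
    intro c
    apply sp_ext
    intro x
    rw [tv_mulVec, tv_mulVec, sympForm_smul_right, smul_smul]
    congr 2
    ring
  ext g
  constructor
  · rintro ⟨c, rfl⟩
    exact ⟨_, key c⟩
  · rintro ⟨c, rfl⟩
    refine ⟨c / (μ * μ), ?_⟩
    rw [key]
    congr 1
    field_simp

theorem conjBy_Xp (p : Fin n ⊕ Fin n → F) (g : ↥(Matrix.symplecticGroup (Fin n) F)) :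
    conjBy (Xp p) g = Xp (g.1 *ᵥ p) := by
  ext x
  simp only [conjBy, Subgroup.mem_map, MulEquiv.coe_toMonoidHom, MulAut.conj_apply]
  constructor
  · rintro ⟨y, ⟨c, rfl⟩, rfl⟩
    exact ⟨c, tv_conj g p c⟩
  · rintro ⟨c, rfl⟩
    exact ⟨tv p c, ⟨c, rfl⟩, tv_conj g p c⟩

theorem mulVec_ne_zero' (g : ↥(Matrix.symplecticGroup (Fin n) F)) (p : Fin n ⊕ Fin n → F)
    (hp : p ≠ 0) : g.1 *ᵥ p ≠ 0 := by
  intro h
  apply hp
  have := sp_inv_mulVec g p
  rw [h, mulVec_zero] at this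
  exact this.symm

theorem tv_comm (p r : Fin n ⊕ Fin n → F) (h : Cfsg.sympForm n F p r = 0) (c d : F) :
    tv p c * tv r d = tv r d * tv p c := by
  apply sp_ext
  intro x
  rw [sp_mul_mulVec, sp_mul_mulVec, tv_mulVec, tv_mulVec, tv_mulVec, tv_mulVec]
  have h' : Cfsg.sympForm n F r p = 0 := by rw [sympForm_swap, h, neg_zero]
  simp only [sympForm_add_left, sympForm_smul_left, h, h', mul_zero, add_zero]
  abel

theorem comm_bot (p r : Fin n ⊕ Fin n → F) (h : Cfsg.sympForm n F p r = 0) :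
    ⁅Xp p, Xp r⁆ = ⊥ := by
  rw [Subgroup.commutator_eq_bot_iff_le_centralizer]
  rintro _ ⟨c, rfl⟩
  rw [Subgroup.mem_centralizer_iff]
  rintro _ ⟨d, rfl⟩
  exact (tv_comm p r h c d).symm

theorem rankOneCond (p r : Fin n ⊕ Fin n → F) (hl : Cfsg.sympForm n F p r ≠ 0) :
    RankOneCondition (Xp p) (Xp r) := by
  rintro _ ⟨c, rfl⟩ ha
  have hp : p ≠ 0 := by rintro rfl; exact hl (sympForm_zero_left r)
  have hr : r ≠ 0 := by rintro rfl; exact hl (sympForm_zero_right p)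
  have hc : c ≠ 0 := by rintro rfl; exact ha (tv_zero p)
  set l := Cfsg.sympForm n F p r with hldef
  refine ⟨tv r (-(1 / (c * l * l))), ⟨_, rfl⟩, ?_, ?_⟩
  · rw [Ne, tv_eq_one_iff r hr]
    simp only [neg_eq_zero, one_div, inv_eq_zero, mul_eq_zero, not_or]
    exact ⟨⟨hc, hl⟩, hl⟩
  · rw [conjBy_Xp, conjBy_Xp, tv_inv, tv_inv, tv_mulVec, tv_mulVec]
    have hrp : Cfsg.sympForm n F r p = -l := by rw [sympForm_swap]
    rw [hrp, ← hldef]
    have e : p + (-(-(1 / (c * l * l))) * l) • r = (1 / (c * l)) • (r + (-c * -l) • p) := by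
      rw [smul_add, smul_smul]
      have e1 : 1 / (c * l) * (-c * -l) = 1 := by field_simp
      have e2 : -(-(1 / (c * l * l))) * l = 1 / (c * l) := by field_simp
      rw [e1, e2, one_smul, add_comm]
    rw [e, Xp_smul _ _ (by simp only [one_div, ne_eq, inv_eq_zero, mul_eq_zero, not_or]; exact ⟨hc, hl⟩)]

theorem Xp_ne (p r : Fin n ⊕ Fin n → F) (hl : Cfsg.sympForm n F p r ≠ 0) : Xp p ≠ Xp r := by
  intro h
  have hp : p ≠ 0 := by rintro rfl; exact hl (sympForm_zero_left r)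
  have h1 : tv p (1 : F) ∈ Xp r := h ▸ ⟨1, rfl⟩
  obtain ⟨d, hd⟩ := h1
  have := congrArg (fun g : ↥(Matrix.symplecticGroup (Fin n) F) => g.1 *ᵥ r) hd
  simp only [tv_mulVec, sympForm_self, mul_zero, zero_smul, add_zero, one_mul] at this
  have h2 : Cfsg.sympForm n F r p • p = 0 := by simpa using this
  rcases smul_eq_zero.mp h2 with h3 | h3
  · apply hl; rw [sympForm_swap, h3, neg_zero]
  · exact hp h3

theorem rankOnePair (p r : Fin n ⊕ Fin n → F) (hl : Cfsg.sympForm n F p r ≠ 0) :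
    IsRankOnePair (Xp p) (Xp r) :=
  ⟨Xp_ne p r hl, Xp_nilpotent p, Xp_nilpotent r, rankOneCond p r hl,
    rankOneCond r p (by rw [sympForm_swap]; exact neg_ne_zero.mpr hl)⟩

theorem rootSet : IsRootSubgroupSet (Sset n F) where
  commutative := by
    intro A hA
    obtain ⟨p, hp, rfl⟩ := mem_Sset.mp hA
    exact Xp_comm p
  ne_bot := by
    intro A hA
    obtain ⟨p, hp, rfl⟩ := mem_Sset.mp hA
    exact Xp_ne_bot p hp
  generates := by
    rw [eq_top_iff]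
    intro g _
    have hg := sp_gen g
    refine (Subgroup.closure_le _).mpr ?_ hg
    rintro A ⟨w, c, hA⟩
    by_cases hw : w = 0
    · have : A = 1 := by
        apply Subtype.ext
        rw [hA, hw]
        simp [Cfsg.sympTransvection]
      rw [this]
      exact Subgroup.one_mem _
    · have hA' : A = tv w c := Subtype.ext hA
      have hmem : Xp w ∈ Sset n F := mem_Sset.mpr ⟨w, hw, rfl⟩
      exact (le_iSup₂ (f := fun (A : Subgroup ↥(Matrix.symplecticGroup (Fin n) F))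
        (_ : A ∈ Sset n F) => A) (Xp w) hmem) ⟨c, hA'⟩
  conj_mem := by
    intro A hA g
    obtain ⟨p, hp, rfl⟩ := mem_Sset.mp hA
    rw [conjBy_Xp]
    exact mem_Sset.mpr ⟨_, mulVec_ne_zero' g p hp, rfl⟩
  pair := by
    intro A hA B hB
    obtain ⟨p, hp, rfl⟩ := mem_Sset.mp hA
    obtain ⟨r, hr, rfl⟩ := mem_Sset.mp hB
    by_cases h : Cfsg.sympForm n F p r = 0
    · exact Or.inl (comm_bot p r h)
    · exact Or.inr (Or.inl (rankOnePair p r h))

theorem conjClass (hn : 0 < n) : IsConjClassOfSubgroups (Sset n F) := by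
  refine ⟨⟨Xp (Pi.single (Sum.inl ⟨0, hn⟩) 1), mem_Sset.mpr ⟨_, ?_, rfl⟩⟩, ?_⟩
  · intro h
    have := congrFun h (Sum.inl ⟨0, hn⟩)
    simp at this
  intro A hA B hB
  obtain ⟨p, hp, rfl⟩ := mem_Sset.mp hA
  obtain ⟨r, hr, rfl⟩ := mem_Sset.mp hB
  obtain ⟨x, hx⟩ := exists_form_ne p hp
  obtain ⟨y, hy⟩ := exists_form_ne r hr
  obtain ⟨g, -, hg1, -⟩ := sp_trans_pairs p (-(Cfsg.sympForm n F x p)⁻¹ • x) r
    (-(Cfsg.sympForm n F y r)⁻¹ • y)
    (by rw [sympForm_smul_right, sympForm_swap p x]; field_simp)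
    (by rw [sympForm_smul_right, sympForm_swap r y]; field_simp)
  exact ⟨g, by rw [conjBy_Xp, hg1]⟩

theorem degenerate : IsDegenerateRootSet (Sset n F) := by
  rintro A hA B hB ⟨hmem, hcent, -, -⟩
  obtain ⟨p, hp, rfl⟩ := mem_Sset.mp hA
  obtain ⟨r, hr, rfl⟩ := mem_Sset.mp hB
  by_cases h : Cfsg.sympForm n F p r = 0
  · rw [comm_bot p r h] at hmem
    obtain ⟨p', hp', h'⟩ := mem_Sset.mp hmem
    exact Xp_ne_bot p' hp' h'.symm
  · have hc := hcent ⁅tv p (1 : F), tv r (1 : F)⁆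
      (Subgroup.commutator_mem_commutator ⟨1, rfl⟩ ⟨1, rfl⟩) (tv p 1)
      (Subgroup.mem_sup_left ⟨1, rfl⟩)
    have hrp : Cfsg.sympForm n F r p = -Cfsg.sympForm n F p r := sympForm_swap r p
    have := congrArg (fun g : ↥(Matrix.symplecticGroup (Fin n) F) =>
      Cfsg.sympForm n F (g.1 *ᵥ p) r) hc
    simp only [commutatorElement_def, tv_inv, sp_mul_mulVec, tv_mulVec, sympForm_add_left,
      sympForm_smul_left, sympForm_self, hrp] at this
    have h5 : Cfsg.sympForm n F p r ^ 5 = 0 := by linear_combination (-1 : F) * this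
    exact h (pow_eq_zero_iff (by norm_num) |>.mp h5)

theorem not_rankOne_of_orth (p r : Fin n ⊕ Fin n → F) (hp : p ≠ 0)
    (h : Cfsg.sympForm n F p r = 0) : ¬ IsRankOnePair (Xp p) (Xp r) := by
  intro hpair
  obtain ⟨b, hb, -, hconj⟩ := hpair.cond_left (tv p 1) ⟨1, rfl⟩
    (by rw [Ne, tv_eq_one_iff p hp]; exact one_ne_zero)
  obtain ⟨d, rfl⟩ := hb
  have h' : Cfsg.sympForm n F r p = 0 := by rw [sympForm_swap, h, neg_zero]
  rw [conjBy_Xp, conjBy_Xp, tv_inv, tv_inv, tv_mulVec, tv_mulVec, h, h', mul_zero, mul_zero,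
    zero_smul, zero_smul, add_zero, add_zero] at hconj
  exact hpair.ne hconj

/-- the matrix of the action of a `2 × 2` matrix on the hyperbolic plane `⟨p, r⟩`. -/
def phiMat (p r : Fin n ⊕ Fin n → F) (M : Matrix (Fin 2) (Fin 2) F) :
    Matrix (Fin n ⊕ Fin n) (Fin n ⊕ Fin n) F :=
  1 + vecMulVec p ((M 0 0 - 1) • (J (Fin n) F *ᵥ r) - M 0 1 • (J (Fin n) F *ᵥ p))
    + vecMulVec r (M 1 0 • (J (Fin n) F *ᵥ r) - (M 1 1 - 1) • (J (Fin n) F *ᵥ p))

theorem phiMat_mulVec (p r : Fin n ⊕ Fin n → F) (M : Matrix (Fin 2) (Fin 2) F)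
    (x : Fin n ⊕ Fin n → F) :
    phiMat p r M *ᵥ x = x
      + ((M 0 0 - 1) * Cfsg.sympForm n F x r - M 0 1 * Cfsg.sympForm n F x p) • p
      + (M 1 0 * Cfsg.sympForm n F x r - (M 1 1 - 1) * Cfsg.sympForm n F x p) • r := by
  have e : ∀ w : Fin n ⊕ Fin n → F, (J (Fin n) F *ᵥ w) ⬝ᵥ x = Cfsg.sympForm n F x w :=
    fun w => dotProduct_comm _ _
  rw [phiMat, add_mulVec, add_mulVec, one_mulVec, vecMulVec_mulVec, vecMulVec_mulVec,
    op_smul_eq_smul, op_smul_eq_smul]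
  simp only [sub_dotProduct, smul_dotProduct, smul_eq_mul, e]

theorem phi_mul (p r : Fin n ⊕ Fin n → F) (hpr : Cfsg.sympForm n F p r = 1)
    (M M' : Matrix (Fin 2) (Fin 2) F) : phiMat p r (M * M') = phiMat p r M * phiMat p r M' := by
  have hrp : Cfsg.sympForm n F r p = -1 := by rw [sympForm_swap, hpr]
  apply mulVec_ext
  intro x
  rw [← mulVec_mulVec, phiMat_mulVec, phiMat_mulVec p r M', phiMat_mulVec]
  simp only [sympForm_add_left, sympForm_smul_left, sympForm_self, hpr, hrp, Matrix.mul_apply,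
    Fin.sum_univ_two]
  module

theorem phi_one (p r : Fin n ⊕ Fin n → F) : phiMat p r 1 = 1 := by
  apply mulVec_ext
  intro x
  rw [phiMat_mulVec, one_mulVec]
  simp

theorem phi_mem (p r : Fin n ⊕ Fin n → F) (hpr : Cfsg.sympForm n F p r = 1)
    (M : Matrix (Fin 2) (Fin 2) F) (hdet : M 0 0 * M 1 1 - M 0 1 * M 1 0 = 1) :
    phiMat p r M ∈ symplecticGroup (Fin n) F := by
  have hrp : Cfsg.sympForm n F r p = -1 := by rw [sympForm_swap, hpr]
  rw [mem_symplecticGroup_iff_sympForm]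
  intro x y
  rw [phiMat_mulVec, phiMat_mulVec]
  simp only [sympForm_add_left, sympForm_add_right, sympForm_smul_left, sympForm_smul_right,
    sympForm_self, hpr, hrp]
  rw [sympForm_swap p y, sympForm_swap r y]
  linear_combination (Cfsg.sympForm n F x p * Cfsg.sympForm n F y r
    - Cfsg.sympForm n F x r * Cfsg.sympForm n F y p) * hdet

/-- the homomorphism `SL₂(F) → Sp` attached to a hyperbolic pair. -/
def phi (p r : Fin n ⊕ Fin n → F) (hpr : Cfsg.sympForm n F p r = 1) :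
    Matrix.SpecialLinearGroup (Fin 2) F →* ↥(Matrix.symplecticGroup (Fin n) F) where
  toFun M := ⟨phiMat p r M.1, phi_mem p r hpr M.1 (sl2_det M)⟩
  map_one' := Subtype.ext (phi_one p r)
  map_mul' M M' := Subtype.ext (phi_mul p r hpr M.1 M'.1)

theorem phi_mulVec (p r : Fin n ⊕ Fin n → F) (hpr : Cfsg.sympForm n F p r = 1)
    (M : Matrix.SpecialLinearGroup (Fin 2) F) (x : Fin n ⊕ Fin n → F) :
    (phi p r hpr M).1 *ᵥ x = x
      + ((M.1 0 0 - 1) * Cfsg.sympForm n F x r - M.1 0 1 * Cfsg.sympForm n F x p) • p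
      + (M.1 1 0 * Cfsg.sympForm n F x r - (M.1 1 1 - 1) * Cfsg.sympForm n F x p) • r :=
  phiMat_mulVec p r M.1 x

theorem phi_U (p r : Fin n ⊕ Fin n → F) (hpr : Cfsg.sympForm n F p r = 1) (t : F) :
    phi p r hpr (sl2U t) = tv p (-t) := by
  apply sp_ext
  intro x
  rw [phi_mulVec, tv_mulVec]
  simp [sl2U]

theorem phi_L (p r : Fin n ⊕ Fin n → F) (hpr : Cfsg.sympForm n F p r = 1) (t : F) :
    phi p r hpr (sl2L t) = tv r t := by
  apply sp_ext
  intro x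
  rw [phi_mulVec, tv_mulVec]
  simp [sl2L]

theorem phi_injective (p r : Fin n ⊕ Fin n → F) (hpr : Cfsg.sympForm n F p r = 1) :
    Function.Injective (phi p r hpr) := by
  rw [injective_iff_map_eq_one]
  intro M hM
  have hrp : Cfsg.sympForm n F r p = -1 := by rw [sympForm_swap, hpr]
  have h1 := congrArg (fun g : ↥(Matrix.symplecticGroup (Fin n) F) =>
    Cfsg.sympForm n F (g.1 *ᵥ p) r) hM
  have h2 := congrArg (fun g : ↥(Matrix.symplecticGroup (Fin n) F) =>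
    Cfsg.sympForm n F (g.1 *ᵥ p) p) hM
  have h3 := congrArg (fun g : ↥(Matrix.symplecticGroup (Fin n) F) =>
    Cfsg.sympForm n F (g.1 *ᵥ r) r) hM
  have h4 := congrArg (fun g : ↥(Matrix.symplecticGroup (Fin n) F) =>
    Cfsg.sympForm n F (g.1 *ᵥ r) p) hM
  simp only [phi_mulVec, sp_one_mulVec, sympForm_add_left, sympForm_smul_left, sympForm_self,
    hpr, hrp] at h1 h2 h3 h4
  apply sl2_ext
  · show M.1 0 0 = (1 : Matrix (Fin 2) (Fin 2) F) 0 0
    simp only [Matrix.one_apply_eq]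
    linear_combination h1
  · show M.1 0 1 = (1 : Matrix (Fin 2) (Fin 2) F) 0 1
    simp only [Matrix.one_apply_ne (show (0 : Fin 2) ≠ 1 by decide)]
    linear_combination h3
  · show M.1 1 0 = (1 : Matrix (Fin 2) (Fin 2) F) 1 0
    simp only [Matrix.one_apply_ne (show (1 : Fin 2) ≠ 0 by decide)]
    linear_combination -h2
  · show M.1 1 1 = (1 : Matrix (Fin 2) (Fin 2) F) 1 1
    simp only [Matrix.one_apply_eq]
    linear_combination -h4

theorem psl2 (p r : Fin n ⊕ Fin n → F) (hpr : Cfsg.sympForm n F p r = 1) :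
    IsPSL2PairOver F (Xp p) (Xp r) := by
  have hup : (upperUnipotentSL2 F).map (phi p r hpr) = Xp p := by
    ext g
    simp only [Subgroup.mem_map, mem_upperUnipotentSL2]
    constructor
    · rintro ⟨_, ⟨t, rfl⟩, rfl⟩
      exact ⟨-t, phi_U p r hpr t⟩
    · rintro ⟨c, rfl⟩
      exact ⟨sl2U (-c), ⟨_, rfl⟩, by rw [phi_U, neg_neg]⟩
  have hlow : (lowerUnipotentSL2 F).map (phi p r hpr) = Xp r := by
    ext g
    simp only [Subgroup.mem_map, mem_lowerUnipotentSL2]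
    constructor
    · rintro ⟨_, ⟨t, rfl⟩, rfl⟩
      exact ⟨t, phi_L p r hpr t⟩
    · rintro ⟨c, rfl⟩
      exact ⟨sl2L c, ⟨_, rfl⟩, phi_L p r hpr c⟩
  refine ⟨phi p r hpr, ?_, ?_, hup, hlow⟩
  · rw [← hup, ← hlow, ← Subgroup.map_sup, sup_comm, sl2_generation, ← MonoidHom.range_eq_map]
  · rw [(MonoidHom.ker_eq_bot_iff _).mpr (phi_injective p r hpr)]
    exact bot_le

theorem kroot : IsKRootSubgroupSet F (Sset n F) := by
  refine ⟨rootSet, ?_⟩
  intro A hA B hB hpair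
  obtain ⟨p, hp, rfl⟩ := mem_Sset.mp hA
  obtain ⟨r, hr, rfl⟩ := mem_Sset.mp hB
  have hl : Cfsg.sympForm n F p r ≠ 0 := fun h => not_rankOne_of_orth p r hp h hpair
  rw [← Xp_smul r (Cfsg.sympForm n F p r)⁻¹ (inv_ne_zero hl)]
  exact psl2 p _ (by rw [sympForm_smul_right]; field_simp)

theorem connected : IsConnectedFamily (FAdj (Sset n F)) (Sset n F) := by
  intro A hA B hB
  obtain ⟨p, hp, rfl⟩ := mem_Sset.mp hA
  obtain ⟨r, hr, rfl⟩ := mem_Sset.mp hB
  have step : ∀ p r : Fin n ⊕ Fin n → F, p ≠ 0 → r ≠ 0 → Cfsg.sympForm n F p r ≠ 0 →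
      FAdj (Sset n F) (Xp p) (Xp r) := fun p r hp hr h =>
    ⟨mem_Sset.mpr ⟨p, hp, rfl⟩, mem_Sset.mpr ⟨r, hr, rfl⟩, rankOnePair p r h⟩
  by_cases h : Cfsg.sympForm n F p r = 0
  · obtain ⟨x, hx⟩ := exists_form_ne p hp
    obtain ⟨y, hy⟩ := exists_form_ne r hr
    have key : ∃ s, Cfsg.sympForm n F p s ≠ 0 ∧ Cfsg.sympForm n F s r ≠ 0 := by
      by_cases h1 : Cfsg.sympForm n F x r = 0
      · by_cases h2 : Cfsg.sympForm n F y p = 0
        · refine ⟨x + y, ?_, ?_⟩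
          · rw [sympForm_add_right, sympForm_swap p x, sympForm_swap p y, h2]
            simpa using hx
          · rw [sympForm_add_left, h1, zero_add]
            exact hy
        · exact ⟨y, by rw [sympForm_swap]; exact neg_ne_zero.mpr h2, hy⟩
      · exact ⟨x, by rw [sympForm_swap]; exact neg_ne_zero.mpr hx, h1⟩
    obtain ⟨s, hs1, hs2⟩ := key
    have hs : s ≠ 0 := by rintro rfl; exact hs1 (sympForm_zero_right p)
    exact Relation.ReflTransGen.trans (Relation.ReflTransGen.single (step p s hp hs hs1))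
      (Relation.ReflTransGen.single (step s r hs hr hs2))
  · exact Relation.ReflTransGen.single (step p r hp hr h)

theorem main (F : Type*) [Field F] (m : ℕ) :
    Cfsg.IsRootSubgroupClass (Sset (m + 1) F) ∧ Cfsg.IsDegenerateRootSet (Sset (m + 1) F) ∧
    Cfsg.IsKRootSubgroupSet F (Sset (m + 1) F) ∧
    Cfsg.IsConnectedFamily (Cfsg.FAdj (Sset (m + 1) F)) (Sset (m + 1) F) :=
  ⟨⟨rootSet, conjClass (Nat.succ_pos m)⟩, degenerate, kroot, connected⟩

end

/-- Let F be a field, m a natural number and V = F^{2(m+1)} with the standard non-degenerate alternating form f(u, v) = uᵀ J v. For a non-zero vector p let T(p) be the group of symplectic transvections v ↦ v + c f(v, p) p, c ∈ F. Then the subgroups T(p), p ≠ 0, generate the symplectic group Sp_{2(m+1)}(F) and form a degenerate class of abstract F-root subgroups of it (any two of them either commute elementwise or are the unipotent subgroups of a rank one group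 that is an image of SL₂(F) with central kernel, never the commutator case), and their graph of rank one pairs is connected. -/
theorem result (F : Type*) [Field F] (m : ℕ) :
    Cfsg.IsRootSubgroupClass {A : Subgroup ↥(Matrix.symplecticGroup (Fin (m + 1)) F) | ∃ p : Fin (m + 1) ⊕ Fin (m + 1) → F, p ≠ 0 ∧
        A = Subgroup.closure {g : ↥(Matrix.symplecticGroup (Fin (m + 1)) F) | ∃ c : F, ∀ v : Fin (m + 1) ⊕ Fin (m + 1) → F,
          (g : Matrix (Fin (m + 1) ⊕ Fin (m + 1)) (Fin (m + 1) ⊕ Fin (m + 1)) F) *ᵥ v =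
            v + (c * (v ⬝ᵥ (Matrix.J (Fin (m + 1)) F *ᵥ p))) • p}} ∧
    Cfsg.IsDegenerateRootSet {A : Subgroup ↥(Matrix.symplecticGroup (Fin (m + 1)) F) | ∃ p : Fin (m + 1) ⊕ Fin (m + 1) → F, p ≠ 0 ∧
        A = Subgroup.closure {g : ↥(Matrix.symplecticGroup (Fin (m + 1)) F) | ∃ c : F, ∀ v : Fin (m + 1) ⊕ Fin (m + 1) → F,
          (g : Matrix (Fin (m + 1) ⊕ Fin (m + 1)) (Fin (m + 1) ⊕ Fin (m + 1)) F) *ᵥ v =
            v + (c * (v ⬝ᵥ (Matrix.J (Fin (m + 1)) F *ᵥ p))) • p}} ∧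
    Cfsg.IsKRootSubgroupSet F {A : Subgroup ↥(Matrix.symplecticGroup (Fin (m + 1)) F) | ∃ p : Fin (m + 1) ⊕ Fin (m + 1) → F, p ≠ 0 ∧
        A = Subgroup.closure {g : ↥(Matrix.symplecticGroup (Fin (m + 1)) F) | ∃ c : F, ∀ v : Fin (m + 1) ⊕ Fin (m + 1) → F,
          (g : Matrix (Fin (m + 1) ⊕ Fin (m + 1)) (Fin (m + 1) ⊕ Fin (m + 1)) F) *ᵥ v =
            v + (c * (v ⬝ᵥ (Matrix.J (Fin (m + 1)) F *ᵥ p))) • p}} ∧
    Cfsg.IsConnectedFamily (Cfsg.FAdj {A : Subgroup ↥(Matrix.symplecticGroup (Fin (m + 1)) F) | ∃ p : Fin (m + 1) ⊕ Fin (m + 1) → F, p ≠ 0 ∧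
        A = Subgroup.closure {g : ↥(Matrix.symplecticGroup (Fin (m + 1)) F) | ∃ c : F, ∀ v : Fin (m + 1) ⊕ Fin (m + 1) → F,
          (g : Matrix (Fin (m + 1) ⊕ Fin (m + 1)) (Fin (m + 1) ⊕ Fin (m + 1)) F) *ᵥ v =
            v + (c * (v ⬝ᵥ (Matrix.J (Fin (m + 1)) F *ᵥ p))) • p}})
      {A : Subgroup ↥(Matrix.symplecticGroup (Fin (m + 1)) F) | ∃ p : Fin (m + 1) ⊕ Fin (m + 1) → F, p ≠ 0 ∧
        A = Subgroup.closure {g : ↥(Matrix.symplecticGroup (Fin (m + 1)) F) | ∃ c : F, ∀ v : Fin (m + 1) ⊕ Fin (m + 1) → F,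
          (g : Matrix (Fin (m + 1) ⊕ Fin (m + 1)) (Fin (m + 1) ⊕ Fin (m + 1)) F) *ᵥ v =
            v + (c * (v ⬝ᵥ (Matrix.J (Fin (m + 1)) F *ᵥ p))) • p}} := by
  exact main F m

end Cfsg.Agent.S5070
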