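import Cfsg.Statements.S5071
import Mathlib
import Cfsg.Agent.Helper13.UnitRoot
import Cfsg.Agent.Helper83.SL2

set_option autoImplicit false
open Matrix
open Cfsg

namespace Cfsg.Agent.S5071

open Matrix Cfsg.Agent.Helper13 Cfsg.Agent.Helper83
open Cfsg.Agent.Helper5 (frobQ frobQ_apply frobQ_frobQ)
open scoped commutatorElement

section
variable {F : Type*} [Field F] [Fintype F] {q m : ℕ}

/-- the generating set of the statement. -/
def gsetU (m : ℕ) (q : ℕ) (p : Fin m → F) : Set ↥(Cfsg.SU m F q) :=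
  {g : ↥(Cfsg.SU m F q) |
    (∀ v : Fin m → F, ∃ c : F, ((g : Matrix.SpecialLinearGroup (Fin m) F) :
      Matrix (Fin m) (Fin m) F) *ᵥ v = v + c • p) ∧
    ∀ v : Fin m → F, Cfsg.hermForm m F q v p = 0 →
      ((g : Matrix.SpecialLinearGroup (Fin m) F) : Matrix (Fin m) (Fin m) F) *ᵥ v = v}

/-- the set of transvection subgroups of the statement. -/
def SigU (m : ℕ) (F : Type*) [Field F] (q : ℕ) : Set (Subgroup ↥(Cfsg.SU m F q)) :=
  {A : Subgroup ↥(Cfsg.SU m F q) | ∃ p : Fin m → F, p ≠ 0 ∧ Cfsg.hermForm m F q p p = 0 ∧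
    A = Subgroup.closure (gsetU m q p)}

/-- the subgroup generated by the transvection subgroups. -/
def G0 (m : ℕ) (F : Type*) [Field F] (q : ℕ) : Subgroup ↥(Cfsg.SU m F q) :=
  ⨆ B ∈ SigU m F q, B

/-- the set of root subgroups, inside `G0`. -/
def S0 (m : ℕ) (F : Type*) [Field F] (q : ℕ) : Set (Subgroup ↥(G0 m F q)) :=
  (fun A : Subgroup ↥(Cfsg.SU m F q) => A.subgroupOf (G0 m F q)) '' SigU m F q

theorem gsetU_eq (hF : Fintype.card F = q ^ 2) (p : Fin m → F) (hp0 : p ≠ 0)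
    (hp : Cfsg.hermForm m F q p p = 0) : gsetU m q p = (uroot hF p : Set _) := by
  ext g
  constructor
  · rintro ⟨h1, -⟩
    by_cases hg1 : g = 1
    · rw [hg1]; exact Subgroup.one_mem _
    · -- rank one
      have hrank : (((g : Matrix.SpecialLinearGroup (Fin m) F) : Matrix (Fin m) (Fin m) F) - 1).rank
          ≤ 1 := by
        choose φ hφ using fun j : Fin m => h1 (Pi.single j 1)
        have : ((g : Matrix.SpecialLinearGroup (Fin m) F) : Matrix (Fin m) (Fin m) F) - 1 =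
            Matrix.vecMulVec p φ := by
          ext i j
          have := congrFun (hφ j) i
          rw [Matrix.mulVec_single_one] at this
          simp only [Matrix.col_apply, Pi.add_apply, Pi.smul_apply, smul_eq_mul] at this
          rw [Matrix.sub_apply, this, Matrix.vecMulVec_apply, Matrix.one_apply, Pi.single_apply]
          by_cases hij : i = j
          · subst hij; simp; ring
          · have hji : ¬ j = i := fun h => hij h.symm
            simp [hij, hji]; ring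
        rw [this]
        exact Matrix.rank_vecMulVec_le _ _
      have hrank1 : (((g : Matrix.SpecialLinearGroup (Fin m) F) : Matrix (Fin m) (Fin m) F)
          - 1).rank = 1 := by
        by_contra hne
        have h0 : (((g : Matrix.SpecialLinearGroup (Fin m) F) : Matrix (Fin m) (Fin m) F)
          - 1).rank = 0 := by omega
        have := umat_rank_zero _ h0
        apply hg1
        apply Subtype.ext
        apply Subtype.ext
        rw [sub_eq_zero] at this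
        rw [this]; rfl
      obtain ⟨v, c, hv0, hc0, hv, hc, rfl⟩ := su_rank_one hF g hrank1
      obtain ⟨x, hx⟩ := uh_nondeg_left hF v hv0
      obtain ⟨c', hc'⟩ := h1 x
      change uact (utv hF v c) x = _ at hc'
      rw [uact_utv hF v c hv hc] at hc'
      have h2 : (c * Cfsg.hermForm m F q x v) • v = c' • p := add_left_cancel hc'
      have h3 : c * Cfsg.hermForm m F q x v ≠ 0 := mul_ne_zero hc0 hx
      have h4 : v = ((c * Cfsg.hermForm m F q x v)⁻¹ * c') • p := by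
        rw [mul_smul, ← h2, smul_smul, inv_mul_cancel₀ h3, one_smul]
      have h5 : (c * Cfsg.hermForm m F q x v)⁻¹ * c' ≠ 0 := by
        intro h6
        rw [h6, zero_smul] at h4
        exact hv0 h4
      have h6 : utv hF v c ∈ uroot hF v := ⟨c, hc, rfl⟩
      rw [h4, uroot_smul hF _ h5] at h6
      rw [h4]
      exact h6
  · rintro ⟨c, hc, rfl⟩
    refine ⟨fun v => ⟨c * Cfsg.hermForm m F q v p, ?_⟩, fun v hv => ?_⟩
    · exact uact_utv hF p c hp hc v
    · have := uact_utv hF p c hp hc v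
      rw [hv, mul_zero, zero_smul, add_zero] at this
      exact this

theorem mem_SigU (hF : Fintype.card F = q ^ 2) {A : Subgroup ↥(Cfsg.SU m F q)} :
    A ∈ SigU m F q ↔ ∃ p : Fin m → F, p ≠ 0 ∧ Cfsg.hermForm m F q p p = 0 ∧ A = uroot hF p := by
  constructor
  · rintro ⟨p, hp0, hp, rfl⟩
    exact ⟨p, hp0, hp, by rw [gsetU_eq hF p hp0 hp, Subgroup.closure_eq]⟩
  · rintro ⟨p, hp0, hp, rfl⟩
    exact ⟨p, hp0, hp, by rw [gsetU_eq hF p hp0 hp, Subgroup.closure_eq]⟩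

theorem uroot_le_G0 (hF : Fintype.card F = q ^ 2) (p : Fin m → F) (hp0 : p ≠ 0)
    (hp : Cfsg.hermForm m F q p p = 0) : uroot hF p ≤ G0 m F q :=
  le_iSup₂ (f := fun (A : Subgroup ↥(Cfsg.SU m F q)) (_ : A ∈ SigU m F q) => A) (uroot hF p)
    ((mem_SigU hF).2 ⟨p, hp0, hp, rfl⟩)

theorem utv_mem_G0 (hF : Fintype.card F = q ^ 2) (v : Fin m → F) (c : F) :
    utv hF v c ∈ G0 m F q := by
  by_cases h : v ≠ 0 ∧ Cfsg.hermForm m F q v v = 0 ∧ frobQ hF c = -c
  · exact uroot_le_G0 hF v h.1 h.2.1 ⟨c, h.2.2, rfl⟩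
  · have : utv hF v c = 1 := by
      by_cases hv0 : v = 0
      · rw [hv0]; exact utv_zero_left hF c
      · by_cases hv : Cfsg.hermForm m F q v v = 0
        · have hc : ¬ frobQ hF c = -c := fun hc => h ⟨hv0, hv, hc⟩
          unfold utv
          rw [dif_neg (fun h' => hc h'.2)]
        · exact utv_of_not_iso hF v c hv
    rw [this]
    exact Subgroup.one_mem _

/-- the transvection as an element of `G0`. -/
noncomputable def tv0 (hF : Fintype.card F = q ^ 2) (v : Fin m → F) (c : F) : ↥(G0 m F q) :=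
  ⟨utv hF v c, utv_mem_G0 hF v c⟩

/-- the root subgroup inside `G0`. -/
def X0 (hF : Fintype.card F = q ^ 2) (p : Fin m → F) : Subgroup ↥(G0 m F q) :=
  (uroot hF p).subgroupOf (G0 m F q)

theorem mem_X0 (hF : Fintype.card F = q ^ 2) (p : Fin m → F) (g : ↥(G0 m F q)) :
    g ∈ X0 hF p ↔ ∃ c : F, frobQ hF c = -c ∧ g = tv0 hF p c := by
  unfold X0
  rw [Subgroup.mem_subgroupOf]
  constructor
  · rintro ⟨c, hc, h⟩
    exact ⟨c, hc, Subtype.ext h⟩
  · rintro ⟨c, hc, rfl⟩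
    exact ⟨c, hc, rfl⟩

theorem mem_S0 (hF : Fintype.card F = q ^ 2) {A : Subgroup ↥(G0 m F q)} :
    A ∈ S0 m F q ↔ ∃ p : Fin m → F, p ≠ 0 ∧ Cfsg.hermForm m F q p p = 0 ∧ A = X0 hF p := by
  constructor
  · rintro ⟨B, hB, rfl⟩
    obtain ⟨p, hp0, hp, rfl⟩ := (mem_SigU hF).1 hB
    exact ⟨p, hp0, hp, rfl⟩
  · rintro ⟨p, hp0, hp, rfl⟩
    exact ⟨uroot hF p, (mem_SigU hF).2 ⟨p, hp0, hp, rfl⟩, rfl⟩

theorem g0_ext {g g' : ↥(G0 m F q)} (h : ∀ x, uact g.1 x = uact g'.1 x) : g = g' :=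
  Subtype.ext (uact_eq_iff.2 h)

theorem uact_tv0 (hF : Fintype.card F = q ^ 2) (v : Fin m → F) (c : F)
    (hv : Cfsg.hermForm m F q v v = 0) (hc : frobQ hF c = -c) (x : Fin m → F) :
    uact (tv0 hF v c).1 x = x + (c * Cfsg.hermForm m F q x v) • v := uact_utv hF v c hv hc x

theorem tv0_inv (hF : Fintype.card F = q ^ 2) (v : Fin m → F) (c : F)
    (hv : Cfsg.hermForm m F q v v = 0) (hc : frobQ hF c = -c) :
    (tv0 hF v c)⁻¹ = tv0 hF v (-c) := Subtype.ext (utv_inv hF v c hv hc)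

theorem tv0_ne_one (hF : Fintype.card F = q ^ 2) (v : Fin m → F) (c : F) (hv0 : v ≠ 0)
    (hc0 : c ≠ 0) (hv : Cfsg.hermForm m F q v v = 0) (hc : frobQ hF c = -c) :
    tv0 hF v c ≠ 1 := fun h => utv_ne_one hF v c hv0 hc0 hv hc (congrArg Subtype.val h)

theorem tv0_zero (hF : Fintype.card F = q ^ 2) (v : Fin m → F) : tv0 hF v 0 = 1 :=
  Subtype.ext (utv_zero_right hF v)

theorem X0_comm (hF : Fintype.card F = q ^ 2) (p : Fin m → F) : IsMulCommutative ↥(X0 hF p) := by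
  refine ⟨⟨fun a b => Subtype.ext ?_⟩⟩
  have ha : a.1.1 ∈ uroot hF p := a.2
  have hb : b.1.1 ∈ uroot hF p := b.2
  have := (uroot_comm hF p).is_comm.comm ⟨a.1.1, ha⟩ ⟨b.1.1, hb⟩
  have h2 := congrArg Subtype.val this
  exact Subtype.ext h2

theorem X0_nilpotent (hF : Fintype.card F = q ^ 2) (p : Fin m → F) :
    Group.IsNilpotent ↥(X0 hF p) :=
  ⟨⟨1, Subgroup.upperCentralSeries_one_eq_top_iff.mpr (X0_comm hF p)⟩⟩

theorem X0_ne_bot (hF : Fintype.card F = q ^ 2) (p : Fin m → F) (hp0 : p ≠ 0)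
    (hp : Cfsg.hermForm m F q p p = 0) : X0 hF p ≠ ⊥ := by
  intro h
  obtain ⟨c0, hc0, hc0'⟩ := ufld_exists_skew hF
  have h1 : tv0 hF p c0 ∈ X0 hF p := (mem_X0 hF p _).2 ⟨c0, hc0', rfl⟩
  rw [h, Subgroup.mem_bot] at h1
  exact tv0_ne_one hF p c0 hp0 hc0 hp hc0' h1

theorem X0_smul (hF : Fintype.card F = q ^ 2) (p : Fin m → F) (l : F) (hl : l ≠ 0) :
    X0 hF (l • p) = X0 hF p := by
  unfold X0
  rw [uroot_smul hF l hl p]

theorem conjBy_X0 (hF : Fintype.card F = q ^ 2) (p : Fin m → F) (g : ↥(G0 m F q)) :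
    conjBy (X0 hF p) g = X0 hF (uact g.1 p) := by
  ext x
  simp only [conjBy, Subgroup.mem_map, MulEquiv.coe_toMonoidHom, MulAut.conj_apply]
  constructor
  · rintro ⟨y, hy, rfl⟩
    obtain ⟨c, hc, rfl⟩ := (mem_X0 hF p y).1 hy
    refine (mem_X0 hF _ _).2 ⟨c, hc, ?_⟩
    apply Subtype.ext
    exact utv_conj hF g.1 p c
  · intro hx
    obtain ⟨c, hc, rfl⟩ := (mem_X0 hF _ x).1 hx
    refine ⟨tv0 hF p c, (mem_X0 hF p _).2 ⟨c, hc, rfl⟩, ?_⟩
    apply Subtype.ext
    exact utv_conj hF g.1 p c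

theorem tv0_comm (hF : Fintype.card F = q ^ 2) (p r : Fin m → F)
    (hp : Cfsg.hermForm m F q p p = 0) (hr : Cfsg.hermForm m F q r r = 0)
    (h : Cfsg.hermForm m F q p r = 0) (c d : F) (hc : frobQ hF c = -c) (hd : frobQ hF d = -d) :
    tv0 hF p c * tv0 hF r d = tv0 hF r d * tv0 hF p c := by
  have h' : Cfsg.hermForm m F q r p = 0 := by rw [← uh_conj hF, h, map_zero]
  apply g0_ext
  intro x
  change uact (utv hF p c * utv hF r d) x = uact (utv hF r d * utv hF p c) x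
  rw [uact_mul, uact_mul, uact_utv hF r d hr hd, uact_utv hF p c hp hc, uact_utv hF p c hp hc,
    uact_utv hF r d hr hd]
  simp only [uh_add_left, uh_smul_left, h, h', mul_zero, add_zero]
  abel

theorem comm_bot (hF : Fintype.card F = q ^ 2) (p r : Fin m → F)
    (hp : Cfsg.hermForm m F q p p = 0) (hr : Cfsg.hermForm m F q r r = 0)
    (h : Cfsg.hermForm m F q p r = 0) : ⁅X0 hF p, X0 hF r⁆ = ⊥ := by
  rw [Subgroup.commutator_eq_bot_iff_le_centralizer]
  intro a ha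
  obtain ⟨c, hc, rfl⟩ := (mem_X0 hF p a).1 ha
  rw [Subgroup.mem_centralizer_iff]
  intro b hb
  obtain ⟨d, hd, rfl⟩ := (mem_X0 hF r b).1 hb
  exact (tv0_comm hF p r hp hr h c d hc hd).symm

theorem rankOneCond (hF : Fintype.card F = q ^ 2) (p r : Fin m → F) (hp0 : p ≠ 0) (hr0 : r ≠ 0)
    (hp : Cfsg.hermForm m F q p p = 0) (hr : Cfsg.hermForm m F q r r = 0)
    (hl : Cfsg.hermForm m F q p r ≠ 0) : RankOneCondition (X0 hF p) (X0 hF r) := by
  intro a ha ha1
  obtain ⟨c, hc, rfl⟩ := (mem_X0 hF p a).1 ha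
  have hc0 : c ≠ 0 := by rintro rfl; exact ha1 (tv0_zero hF p)
  obtain ⟨l, hldef⟩ : ∃ l : F, l = Cfsg.hermForm m F q p r := ⟨_, rfl⟩
  have hrp : Cfsg.hermForm m F q r p = frobQ hF l := by rw [hldef]; exact (uh_conj hF p r).symm
  rw [← hldef] at hl
  have hσl : frobQ hF l ≠ 0 := fun h => hl ((ufrob_eq_zero hF).1 h)
  obtain ⟨d, hddef⟩ : ∃ d : F, d = (c * (l * frobQ hF l))⁻¹ := ⟨_, rfl⟩
  have hd : frobQ hF d = -d := by
    rw [hddef, map_inv₀, map_mul, map_mul, frobQ_frobQ, hc]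
    field_simp
  have hd0 : d ≠ 0 := by
    rw [hddef]; exact inv_ne_zero (mul_ne_zero hc0 (mul_ne_zero hl hσl))
  refine ⟨tv0 hF r d, (mem_X0 hF r _).2 ⟨d, hd, rfl⟩, tv0_ne_one hF r d hr0 hd0 hr hd, ?_⟩
  rw [conjBy_X0, conjBy_X0, tv0_inv hF r d hr hd, tv0_inv hF p c hp hc,
    uact_tv0 hF r (-d) hr (by rw [map_neg, hd]), uact_tv0 hF p (-c) hp (by rw [map_neg, hc]),
    ← hldef, hrp]
  have e : p + (-d * l) • r = (-(c * frobQ hF l)⁻¹) • (r + (-c * frobQ hF l) • p) := by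
    rw [hddef]
    match_scalars <;> field_simp
  rw [e, X0_smul hF _ _ (neg_ne_zero.2 (inv_ne_zero (mul_ne_zero hc0 hσl)))]

theorem X0_ne (hF : Fintype.card F = q ^ 2) (p r : Fin m → F) (hp0 : p ≠ 0)
    (hp : Cfsg.hermForm m F q p p = 0) (hr : Cfsg.hermForm m F q r r = 0)
    (hl : Cfsg.hermForm m F q p r ≠ 0) : X0 hF p ≠ X0 hF r := by
  intro h
  obtain ⟨c0, hc0, hc0'⟩ := ufld_exists_skew hF
  have h1 : tv0 hF p c0 ∈ X0 hF r := h ▸ (mem_X0 hF p _).2 ⟨c0, hc0', rfl⟩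
  obtain ⟨d, hd, h2⟩ := (mem_X0 hF r _).1 h1
  have h3 : uact (tv0 hF p c0).1 r = uact (tv0 hF r d).1 r := by rw [h2]
  rw [uact_tv0 hF p c0 hp hc0', uact_tv0 hF r d hr hd, hr, mul_zero, zero_smul, add_zero] at h3
  have h4 : (c0 * Cfsg.hermForm m F q r p) • p = 0 := by
    have : r + (c0 * Cfsg.hermForm m F q r p) • p = r + 0 := by rw [add_zero]; exact h3
    exact add_left_cancel this
  rcases smul_eq_zero.1 h4 with h5 | h5
  · rcases mul_eq_zero.1 h5 with h6 | h6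
    · exact hc0 h6
    · apply hl
      rw [← uh_conj hF, h6, map_zero]
  · exact hp0 h5

theorem rankOnePair (hF : Fintype.card F = q ^ 2) (p r : Fin m → F) (hp0 : p ≠ 0) (hr0 : r ≠ 0)
    (hp : Cfsg.hermForm m F q p p = 0) (hr : Cfsg.hermForm m F q r r = 0)
    (hl : Cfsg.hermForm m F q p r ≠ 0) : IsRankOnePair (X0 hF p) (X0 hF r) :=
  ⟨X0_ne hF p r hp0 hp hr hl, X0_nilpotent hF p, X0_nilpotent hF r,
    rankOneCond hF p r hp0 hr0 hp hr hl,
    rankOneCond hF r p hr0 hp0 hr hp (fun h => hl (by rw [← uh_conj hF, h, map_zero]))⟩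

theorem generates0 (hF : Fintype.card F = q ^ 2) : (⨆ A ∈ S0 m F q, A) = ⊤ := by
  have hinj : Function.Injective (Subgroup.map (G0 m F q).subtype) :=
    Subgroup.map_injective (Subgroup.subtype_injective _)
  apply hinj
  unfold S0
  rw [iSup_image, Subgroup.map_iSup]
  simp only [Subgroup.map_iSup]
  have h1 : ∀ A ∈ SigU m F q, Subgroup.map (G0 m F q).subtype (A.subgroupOf (G0 m F q)) = A := by
    intro A hA
    apply Subgroup.map_subgroupOf_eq_of_le
    exact le_iSup₂ (f := fun (A : Subgroup ↥(Cfsg.SU m F q)) (_ : A ∈ SigU m F q) => A) A hA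
  have h2 : ∀ A : Subgroup ↥(Cfsg.SU m F q),
      (⨆ (_ : A ∈ SigU m F q), Subgroup.map (G0 m F q).subtype (A.subgroupOf (G0 m F q)))
        = ⨆ (_ : A ∈ SigU m F q), A := fun A => iSup_congr (fun hA => h1 A hA)
  rw [iSup_congr h2]
  rw [← MonoidHom.range_eq_map, Subgroup.range_subtype]
  rfl

theorem rootSet (hF : Fintype.card F = q ^ 2) : IsRootSubgroupSet (S0 m F q) where
  commutative := by
    intro A hA
    obtain ⟨p, hp0, hp, rfl⟩ := (mem_S0 hF).1 hA
    exact X0_comm hF p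
  ne_bot := by
    intro A hA
    obtain ⟨p, hp0, hp, rfl⟩ := (mem_S0 hF).1 hA
    exact X0_ne_bot hF p hp0 hp
  generates := generates0 hF
  conj_mem := by
    intro A hA g
    obtain ⟨p, hp0, hp, rfl⟩ := (mem_S0 hF).1 hA
    rw [conjBy_X0]
    refine (mem_S0 hF).2 ⟨_, ?_, ?_, rfl⟩
    · intro h0
      apply hp0
      have := congrArg (uact g.1⁻¹) h0
      rwa [uact_inv_uact, uact_zero] at this
    · rw [uact_herm]; exact hp
  pair := by
    intro A hA B hB
    obtain ⟨p, hp0, hp, rfl⟩ := (mem_S0 hF).1 hA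
    obtain ⟨r, hr0, hr, rfl⟩ := (mem_S0 hF).1 hB
    by_cases h : Cfsg.hermForm m F q p r = 0
    · exact Or.inl (comm_bot hF p r hp hr h)
    · exact Or.inr (Or.inl (rankOnePair hF p r hp0 hr0 hp hr h))

end

section
variable {F : Type*} [Field F] [Fintype F] {q m : ℕ}

theorem exists_iso (hF : Fintype.card F = q ^ 2) (hm : 2 ≤ m) :
    ∃ p : Fin m → F, p ≠ 0 ∧ Cfsg.hermForm m F q p p = 0 := by
  obtain ⟨μ, hμ0, hμ⟩ := ufld_exists_norm hF (c := (-1 : F)) (neg_ne_zero.2 one_ne_zero)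
    (by rw [map_neg, map_one])
  have h0 : (0 : ℕ) < m := by omega
  have h1 : (1 : ℕ) < m := by omega
  have hne : (⟨0, h0⟩ : Fin m) ≠ ⟨1, h1⟩ := by
    intro h; simpa using congrArg Fin.val h
  refine ⟨Pi.single (⟨0, h0⟩ : Fin m) 1 + μ • Pi.single (⟨1, h1⟩ : Fin m) 1, ?_, ?_⟩
  · intro h
    have := congrFun h (⟨0, h0⟩ : Fin m)
    simp [Pi.single_apply, hne] at this
  · simp only [uh_add_left, uh_add_right hF, uh_smul_left, uh_smul_right hF, uh_single_single hF,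
      if_true, if_neg hne, if_neg hne.symm]
    linear_combination hμ

theorem move_step (hF : Fintype.card F = q ^ 2) (p r : Fin m → F)
    (hp : Cfsg.hermForm m F q p p = 0) (hr : Cfsg.hermForm m F q r r = 0)
    (hl : Cfsg.hermForm m F q p r ≠ 0) :
    ∃ (g : ↥(G0 m F q)) (a : F), a ≠ 0 ∧ uact g.1 p = a • r := by
  obtain ⟨c, hc0, hc⟩ := ufld_exists_skew hF
  obtain ⟨l, hldef⟩ : ∃ l : F, l = Cfsg.hermForm m F q p r := ⟨_, rfl⟩
  have hrp : Cfsg.hermForm m F q r p = frobQ hF l := by rw [hldef]; exact (uh_conj hF p r).symm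
  rw [← hldef] at hl
  have hσl : frobQ hF l ≠ 0 := fun h => hl ((ufrob_eq_zero hF).1 h)
  obtain ⟨d, hddef⟩ : ∃ d : F, d = (c * (l * frobQ hF l))⁻¹ := ⟨_, rfl⟩
  have hd : frobQ hF d = -d := by
    rw [hddef, map_inv₀, map_mul, map_mul, frobQ_frobQ, hc]
    field_simp
  have hd0 : d ≠ 0 := by
    rw [hddef]; exact inv_ne_zero (mul_ne_zero hc0 (mul_ne_zero hl hσl))
  refine ⟨tv0 hF p c * tv0 hF r (-d), -d * l, mul_ne_zero (neg_ne_zero.2 hd0) hl, ?_⟩
  change uact (utv hF p c * utv hF r (-d)) p = _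
  rw [uact_mul, uact_utv hF r (-d) hr (by rw [map_neg, hd]), uact_utv hF p c hp hc, ← hldef]
  simp only [uh_add_left, uh_smul_left, hp, hrp]
  rw [hddef]
  match_scalars <;> field_simp <;> ring

theorem move_any (hF : Fintype.card F = q ^ 2) (p r : Fin m → F) (hp0 : p ≠ 0) (hr0 : r ≠ 0)
    (hp : Cfsg.hermForm m F q p p = 0) (hr : Cfsg.hermForm m F q r r = 0) :
    ∃ (g : ↥(G0 m F q)) (a : F), a ≠ 0 ∧ uact g.1 p = a • r := by
  by_cases h : Cfsg.hermForm m F q p r = 0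
  · obtain ⟨c, hc, hpc, hrc⟩ := uiso_common hF p r hp0 hr0 hp h
    have hcr : Cfsg.hermForm m F q c r ≠ 0 := by
      intro h'
      apply hrc
      rw [← uh_conj hF, h', map_zero]
    obtain ⟨g1, a1, ha1, h1⟩ := move_step hF p c hp hc hpc
    obtain ⟨g2, a2, ha2, h2⟩ := move_step hF c r hc hr hcr
    refine ⟨g2 * g1, a1 * a2, mul_ne_zero ha1 ha2, ?_⟩
    change uact (g2.1 * g1.1) p = _
    rw [uact_mul, h1, uact_smul, h2, smul_smul]
  · exact move_step hF p r hp hr h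

theorem conjClass (hF : Fintype.card F = q ^ 2) (hm : 2 ≤ m) :
    IsConjClassOfSubgroups (S0 m F q) := by
  obtain ⟨p0, hp00, hp0⟩ := exists_iso hF hm
  refine ⟨⟨X0 hF p0, (mem_S0 hF).2 ⟨p0, hp00, hp0, rfl⟩⟩, ?_⟩
  intro A hA B hB
  obtain ⟨p, hp0, hp, rfl⟩ := (mem_S0 hF).1 hA
  obtain ⟨r, hr0, hr, rfl⟩ := (mem_S0 hF).1 hB
  obtain ⟨g, a, ha, hg⟩ := move_any hF p r hp0 hr0 hp hr
  exact ⟨g, by rw [conjBy_X0, hg, X0_smul hF r a ha]⟩

theorem tv0_val (hF : Fintype.card F = q ^ 2) (v : Fin m → F) (c : F) :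
    (tv0 hF v c).1 = utv hF v c := rfl

theorem degenerate (hF : Fintype.card F = q ^ 2) : IsDegenerateRootSet (S0 m F q) := by
  rintro A hA B hB ⟨hmem, hcent, -, -⟩
  obtain ⟨p, hp0, hp, rfl⟩ := (mem_S0 hF).1 hA
  obtain ⟨r, hr0, hr, rfl⟩ := (mem_S0 hF).1 hB
  by_cases h : Cfsg.hermForm m F q p r = 0
  · rw [comm_bot hF p r hp hr h] at hmem
    obtain ⟨p', hp0', hp', h'⟩ := (mem_S0 hF).1 hmem
    exact X0_ne_bot hF p' hp0' hp' h'.symm
  · obtain ⟨c, hc0, hc⟩ := ufld_exists_skew hF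
    have hnc : frobQ hF (-c) = -(-c) := by rw [map_neg, hc]
    have hcomm := hcent ⁅tv0 hF p c, tv0 hF r c⁆
      (Subgroup.commutator_mem_commutator ((mem_X0 hF p _).2 ⟨c, hc, rfl⟩)
        ((mem_X0 hF r _).2 ⟨c, hc, rfl⟩)) (tv0 hF p c)
      (Subgroup.mem_sup_left ((mem_X0 hF p _).2 ⟨c, hc, rfl⟩))
    obtain ⟨l, hldef⟩ : ∃ l : F, l = Cfsg.hermForm m F q p r := ⟨_, rfl⟩
    have hrp : Cfsg.hermForm m F q r p = frobQ hF l := by
      rw [hldef]; exact (uh_conj hF p r).symm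
    rw [← hldef] at h
    have hσl : frobQ hF l ≠ 0 := fun h' => h ((ufrob_eq_zero hF).1 h')
    rw [commutatorElement_def, tv0_inv hF p c hp hc, tv0_inv hF r c hr hc] at hcomm
    have := congrArg (fun g : ↥(G0 m F q) => Cfsg.hermForm m F q (uact g.1 p) r) hcomm
    simp only [Subgroup.coe_mul, tv0_val, uact_mul, uact_utv hF p c hp hc,
      uact_utv hF r c hr hc, uact_utv hF p (-c) hp hnc, uact_utv hF r (-c) hr hnc,
      uh_add_left, uh_smul_left, hp, hr, ← hldef, hrp] at this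
    have h5 : c ^ 4 * l ^ 3 * frobQ hF l ^ 2 = 0 := by linear_combination (-1 : F) * this
    rcases mul_eq_zero.1 h5 with h6 | h6
    · rcases mul_eq_zero.1 h6 with h7 | h7
      · exact hc0 (pow_eq_zero_iff (by norm_num) |>.1 h7)
      · exact h (pow_eq_zero_iff (by norm_num) |>.1 h7)
    · exact hσl (pow_eq_zero_iff (by norm_num) |>.1 h6)

theorem not_rankOne_of_orth (hF : Fintype.card F = q ^ 2) (p r : Fin m → F) (hp0 : p ≠ 0)
    (hp : Cfsg.hermForm m F q p p = 0) (hr : Cfsg.hermForm m F q r r = 0)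
    (h : Cfsg.hermForm m F q p r = 0) : ¬ IsRankOnePair (X0 hF p) (X0 hF r) := by
  intro hpair
  obtain ⟨c, hc0, hc⟩ := ufld_exists_skew hF
  obtain ⟨b, hb, -, hconj⟩ := hpair.cond_left (tv0 hF p c) ((mem_X0 hF p _).2 ⟨c, hc, rfl⟩)
    (tv0_ne_one hF p c hp0 hc0 hp hc)
  obtain ⟨d, hd, rfl⟩ := (mem_X0 hF r b).1 hb
  have h' : Cfsg.hermForm m F q r p = 0 := by rw [← uh_conj hF, h, map_zero]
  rw [conjBy_X0, conjBy_X0, tv0_inv hF r d hr hd, tv0_inv hF p c hp hc,
    uact_tv0 hF r (-d) hr (by rw [map_neg, hd]), uact_tv0 hF p (-c) hp (by rw [map_neg, hc]),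
    h, h', mul_zero, mul_zero, zero_smul, zero_smul, add_zero, add_zero] at hconj
  exact hpair.ne hconj

theorem connected (hF : Fintype.card F = q ^ 2) :
    IsConnectedFamily (FAdj (S0 m F q)) (S0 m F q) := by
  intro A hA B hB
  obtain ⟨p, hp0, hp, rfl⟩ := (mem_S0 hF).1 hA
  obtain ⟨r, hr0, hr, rfl⟩ := (mem_S0 hF).1 hB
  have step : ∀ p r : Fin m → F, p ≠ 0 → r ≠ 0 → Cfsg.hermForm m F q p p = 0 →
      Cfsg.hermForm m F q r r = 0 → Cfsg.hermForm m F q p r ≠ 0 →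
      FAdj (S0 m F q) (X0 hF p) (X0 hF r) := fun p r hp0 hr0 hp hr h =>
    ⟨(mem_S0 hF).2 ⟨p, hp0, hp, rfl⟩, (mem_S0 hF).2 ⟨r, hr0, hr, rfl⟩,
      rankOnePair hF p r hp0 hr0 hp hr h⟩
  by_cases h : Cfsg.hermForm m F q p r = 0
  · obtain ⟨c, hc, hpc, hrc⟩ := uiso_common hF p r hp0 hr0 hp h
    have hcr : Cfsg.hermForm m F q c r ≠ 0 := by
      intro h'
      apply hrc
      rw [← uh_conj hF, h', map_zero]
    have hc0 : c ≠ 0 := by
      rintro rfl
      exact hcr (uh_zero_left r)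
    exact Relation.ReflTransGen.trans (Relation.ReflTransGen.single (step p c hp0 hc0 hp hc hpc))
      (Relation.ReflTransGen.single (step c r hc0 hr0 hc hr hcr))
  · exact Relation.ReflTransGen.single (step p r hp0 hr0 hp hr h)

end

section
variable {F : Type*} [Field F] [Fintype F] {q m : ℕ}

theorem exists_small_field (K : Type*) [Field K] [Fintype K] :
    ∃ (L : Type) (_ : Field L) (_ : Fintype L) (_ : L ≃+* K), Fintype.card L = Fintype.card K := by
  let e0 : Fin (Fintype.card K) ≃ K := (Fintype.equivFin K).symm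
  letI : Field (Fin (Fintype.card K)) := e0.field
  exact ⟨Fin (Fintype.card K), e0.field, inferInstance, e0.ringEquiv, Fintype.card_fin _⟩

theorem card_fixed (hF : Fintype.card F = q ^ 2) :
    Nat.card ((frobQ hF).eqLocusField (RingHom.id F)) = q := by
  classical
  have hq : 1 ≤ q := by
    rcases Nat.eq_zero_or_pos q with h | h
    · subst h
      have : Fintype.card F = 0 := by rw [hF]; norm_num
      exact absurd this Fintype.card_ne_zero
    · exact h
  have h1 := Cfsg.Agent.Helper5.card_fixed_ne_zero hF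
  have h2 : Nat.card ((frobQ hF).eqLocusField (RingHom.id F))
      = Nat.card (Option {c : F // c ≠ 0 ∧ c ^ q = c}) := by
    apply Nat.card_congr
    refine
      { toFun := fun x => if h : x.1 = 0 then none else some ⟨x.1, h, ?_⟩
        invFun := fun o => o.elim 0 (fun c => ⟨c.1, ?_⟩)
        left_inv := ?_
        right_inv := ?_ }
    · rw [← frobQ_apply hF]; exact x.2
    · change frobQ hF c.1 = c.1
      rw [frobQ_apply hF]; exact c.2.2
    · intro x
      by_cases h : x.1 = 0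
      · simp only [h, dif_pos, Option.elim_none]
        exact Subtype.ext h.symm
      · simp only [h, dif_neg, not_false_eq_true, Option.elim_some]
    · intro o
      cases o with
      | none => simp
      | some c =>
        have : c.1 ≠ 0 := c.2.1
        simp [this]
  rw [h2, Nat.card_eq_fintype_card, Fintype.card_option, ← Nat.card_eq_fintype_card, h1]
  omega

theorem exists_fixed_field (hF : Fintype.card F = q ^ 2) :
    ∃ (L : Type) (_ : Field L) (_ : Fintype L) (ι : L →+* F), Fintype.card L = q ∧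
      (∀ x : L, frobQ hF (ι x) = ι x) ∧ (∀ c : F, frobQ hF c = c → ∃ x : L, ι x = c) := by
  classical
  obtain ⟨L, iF, iFt, e, hcard⟩ := exists_small_field ((frobQ hF).eqLocusField (RingHom.id F))
  refine ⟨L, iF, iFt, ((frobQ hF).eqLocusField (RingHom.id F)).subtype.comp
    (e : L →+* ((frobQ hF).eqLocusField (RingHom.id F))), ?_, ?_, ?_⟩
  · rw [hcard, ← Nat.card_eq_fintype_card, card_fixed hF]
  · intro x
    exact (e x).2
  · intro c hc
    refine ⟨e.symm ⟨c, hc⟩, ?_⟩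
    simp
end

section
variable {F : Type*} [Field F] [Fintype F] {q m : ℕ}

/-- the conjugate row of a vector. -/
def cjv (q : ℕ) (v : Fin m → F) : Fin m → F := fun j => v j ^ q

theorem cjv_dot (v x : Fin m → F) : cjv q v ⬝ᵥ x = Cfsg.hermForm m F q x v := by
  unfold Cfsg.hermForm dotProduct cjv
  exact Finset.sum_congr rfl (fun i _ => mul_comm _ _)

/-- the matrix of the action of a `2 × 2` matrix on the hyperbolic plane `⟨p, r⟩`. -/
def phiMat (q : ℕ) (p r : Fin m → F) (κ : F) (M : Matrix (Fin 2) (Fin 2) F) :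
    Matrix (Fin m) (Fin m) F :=
  1 + vecMulVec p (((M 0 0 - 1) / κ) • cjv q r - (M 0 1 / κ) • cjv q p)
    + vecMulVec r ((M 1 0 / κ) • cjv q r - ((M 1 1 - 1) / κ) • cjv q p)

theorem phiMat_mulVec (p r : Fin m → F) (κ : F) (M : Matrix (Fin 2) (Fin 2) F) (x : Fin m → F) :
    phiMat q p r κ M *ᵥ x = x
      + ((M 0 0 - 1) / κ * Cfsg.hermForm m F q x r - M 0 1 / κ * Cfsg.hermForm m F q x p) • p
      + (M 1 0 / κ * Cfsg.hermForm m F q x r - (M 1 1 - 1) / κ * Cfsg.hermForm m F q x p) • r := by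
  rw [phiMat, add_mulVec, add_mulVec, one_mulVec, vecMulVec_mulVec, vecMulVec_mulVec,
    op_smul_eq_smul, op_smul_eq_smul]
  simp only [sub_dotProduct, smul_dotProduct, smul_eq_mul, cjv_dot]

theorem phi_mul (p r : Fin m → F) (κ : F) (hκ : κ ≠ 0)
    (hp : Cfsg.hermForm m F q p p = 0) (hr : Cfsg.hermForm m F q r r = 0)
    (hpr : Cfsg.hermForm m F q p r = κ) (hrp : Cfsg.hermForm m F q r p = -κ)
    (M M' : Matrix (Fin 2) (Fin 2) F) :
    phiMat q p r κ (M * M') = phiMat q p r κ M * phiMat q p r κ M' := by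
  apply umat_ext
  intro x
  rw [← mulVec_mulVec, phiMat_mulVec, phiMat_mulVec p r κ M', phiMat_mulVec]
  simp only [uh_add_left, uh_smul_left, hp, hr, hpr, hrp, Matrix.mul_apply,
    Fin.sum_univ_two]
  match_scalars <;> field_simp <;> ring

theorem phi_one (p r : Fin m → F) (κ : F) : phiMat q p r κ 1 = 1 := by
  apply umat_ext
  intro x
  rw [phiMat_mulVec, one_mulVec]
  simp

/-- the monoid homomorphism from `G0` to matrices. -/
def jHom (m : ℕ) (F : Type*) [Field F] (q : ℕ) : ↥(G0 m F q) →* Matrix (Fin m) (Fin m) F where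
  toFun g := ((g.1 : ↥(Cfsg.SU m F q)).1 : Matrix.SpecialLinearGroup (Fin m) F).1
  map_one' := rfl
  map_mul' _ _ := rfl

theorem jHom_mulVec (g : ↥(G0 m F q)) (x : Fin m → F) : jHom m F q g *ᵥ x = uact g.1 x := rfl

theorem jHom_injective : Function.Injective (jHom m F q) := by
  intro a b h
  apply g0_ext
  intro x
  rw [← jHom_mulVec, ← jHom_mulVec, h]

end

section
variable {F : Type*} [Field F] [Fintype F] {q m : ℕ} {L : Type*} [Field L]

/-- the monoid homomorphism `SL₂(L) → Mat_m(F)` attached to a hyperbolic pair. -/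
def psiHom (ι : L →+* F) (p r : Fin m → F) (κ : F) (hκ : κ ≠ 0)
    (hp : Cfsg.hermForm m F q p p = 0) (hr : Cfsg.hermForm m F q r r = 0)
    (hpr : Cfsg.hermForm m F q p r = κ) (hrp : Cfsg.hermForm m F q r p = -κ) :
    Matrix.SpecialLinearGroup (Fin 2) L →* Matrix (Fin m) (Fin m) F where
  toFun M := phiMat q p r κ (ι.mapMatrix M.1)
  map_one' := by
    rw [show (1 : Matrix.SpecialLinearGroup (Fin 2) L).1 = 1 from rfl, map_one, phi_one]
  map_mul' M M' := by
    rw [show (M * M').1 = M.1 * M'.1 from rfl, map_mul, phi_mul p r κ hκ hp hr hpr hrp]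

theorem psiHom_mulVec (ι : L →+* F) (p r : Fin m → F) (κ : F) (hκ : κ ≠ 0)
    (hp : Cfsg.hermForm m F q p p = 0) (hr : Cfsg.hermForm m F q r r = 0)
    (hpr : Cfsg.hermForm m F q p r = κ) (hrp : Cfsg.hermForm m F q r p = -κ)
    (M : Matrix.SpecialLinearGroup (Fin 2) L) (x : Fin m → F) :
    psiHom ι p r κ hκ hp hr hpr hrp M *ᵥ x = x
      + ((ι (M.1 0 0) - 1) / κ * Cfsg.hermForm m F q x r
          - ι (M.1 0 1) / κ * Cfsg.hermForm m F q x p) • p
      + (ι (M.1 1 0) / κ * Cfsg.hermForm m F q x r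
          - (ι (M.1 1 1) - 1) / κ * Cfsg.hermForm m F q x p) • r := by
  change phiMat q p r κ (ι.mapMatrix M.1) *ᵥ x = _
  rw [phiMat_mulVec]
  rfl

theorem psiHom_U (hF : Fintype.card F = q ^ 2) (ι : L →+* F)
    (hfix : ∀ x : L, frobQ hF (ι x) = ι x) (p r : Fin m → F) (κ : F) (hκ : κ ≠ 0)
    (hκ' : frobQ hF κ = -κ)
    (hp : Cfsg.hermForm m F q p p = 0) (hr : Cfsg.hermForm m F q r r = 0)
    (hpr : Cfsg.hermForm m F q p r = κ) (hrp : Cfsg.hermForm m F q r p = -κ) (t : L) :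
    psiHom ι p r κ hκ hp hr hpr hrp (sl2U t) = jHom m F q (tv0 hF p (-(ι t / κ))) := by
  apply umat_ext
  intro x
  have hc : frobQ hF (-(ι t / κ)) = -(-(ι t / κ)) := by
    rw [map_neg, map_div₀, hfix, hκ']
    field_simp
  rw [psiHom_mulVec, jHom_mulVec, uact_tv0 hF p _ hp hc]
  simp [sl2U]

theorem psiHom_L (hF : Fintype.card F = q ^ 2) (ι : L →+* F)
    (hfix : ∀ x : L, frobQ hF (ι x) = ι x) (p r : Fin m → F) (κ : F) (hκ : κ ≠ 0)
    (hκ' : frobQ hF κ = -κ)
    (hp : Cfsg.hermForm m F q p p = 0) (hr : Cfsg.hermForm m F q r r = 0)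
    (hpr : Cfsg.hermForm m F q p r = κ) (hrp : Cfsg.hermForm m F q r p = -κ) (t : L) :
    psiHom ι p r κ hκ hp hr hpr hrp (sl2L t) = jHom m F q (tv0 hF r (ι t / κ)) := by
  apply umat_ext
  intro x
  have hc : frobQ hF (ι t / κ) = -(ι t / κ) := by
    rw [map_div₀, hfix, hκ']
    field_simp
  rw [psiHom_mulVec, jHom_mulVec, uact_tv0 hF r _ hr hc]
  simp [sl2L]

end

section
variable {F : Type*} [Field F] [Fintype F] {q m : ℕ} {L : Type*} [Field L]

theorem psl2 (hF : Fintype.card F = q ^ 2) (ι : L →+* F)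
    (hfix : ∀ x : L, frobQ hF (ι x) = ι x) (hsurj : ∀ c : F, frobQ hF c = c → ∃ x : L, ι x = c)
    (p r : Fin m → F) (κ : F) (hκ : κ ≠ 0) (hκ' : frobQ hF κ = -κ)
    (hp : Cfsg.hermForm m F q p p = 0) (hr : Cfsg.hermForm m F q r r = 0)
    (hpr : Cfsg.hermForm m F q p r = κ) :
    IsPSL2PairOver L (X0 hF p) (X0 hF r) := by
  have hrp : Cfsg.hermForm m F q r p = -κ := by rw [← uh_conj hF, hpr, hκ']
  obtain ⟨ψ, hψ⟩ : ∃ ψ : Matrix.SpecialLinearGroup (Fin 2) L →* Matrix (Fin m) (Fin m) F,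
    ψ = psiHom ι p r κ hκ hp hr hpr hrp := ⟨_, rfl⟩
  have hj' : Function.Injective (jHom m F q).toHomUnits := by
    intro a b h
    apply jHom_injective
    have := congrArg Units.val h
    rwa [MonoidHom.coe_toHomUnits, MonoidHom.coe_toHomUnits] at this
  have hU : ∀ t : L, ψ.toHomUnits (sl2U t)
      = (jHom m F q).toHomUnits (tv0 hF p (-(ι t / κ))) := by
    intro t
    apply Units.ext
    rw [MonoidHom.coe_toHomUnits, MonoidHom.coe_toHomUnits, hψ]
    exact psiHom_U hF ι hfix p r κ hκ hκ' hp hr hpr hrp t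
  have hL : ∀ t : L, ψ.toHomUnits (sl2L t)
      = (jHom m F q).toHomUnits (tv0 hF r (ι t / κ)) := by
    intro t
    apply Units.ext
    rw [MonoidHom.coe_toHomUnits, MonoidHom.coe_toHomUnits, hψ]
    exact psiHom_L hF ι hfix p r κ hκ hκ' hp hr hpr hrp t
  have hrange : ψ.toHomUnits.range ≤ (jHom m F q).toHomUnits.range := by
    rw [MonoidHom.range_eq_map, ← sl2_generation, Subgroup.map_sup, sup_le_iff]
    constructor
    · rintro _ ⟨g, hg, rfl⟩
      obtain ⟨t, rfl⟩ := (mem_lowerUnipotentSL2 g).1 hg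
      exact ⟨_, (hL t).symm⟩
    · rintro _ ⟨g, hg, rfl⟩
      obtain ⟨t, rfl⟩ := (mem_upperUnipotentSL2 g).1 hg
      exact ⟨_, (hU t).symm⟩
  obtain ⟨φ, key⟩ : ∃ φ : Matrix.SpecialLinearGroup (Fin 2) L →* ↥(G0 m F q),
      ∀ M, (jHom m F q).toHomUnits (φ M) = ψ.toHomUnits M := by
    refine ⟨(MonoidHom.ofInjective hj').symm.toMonoidHom.comp
      (ψ.toHomUnits.codRestrict (jHom m F q).toHomUnits.range (fun M => hrange ⟨M, rfl⟩)), ?_⟩
    intro M
    have := (MonoidHom.ofInjective hj').apply_symm_apply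
      (ψ.toHomUnits.codRestrict (jHom m F q).toHomUnits.range (fun M => hrange ⟨M, rfl⟩) M)
    exact congrArg Subtype.val this
  have keyU : ∀ t : L, φ (sl2U t) = tv0 hF p (-(ι t / κ)) := fun t => hj' ((key _).trans (hU t))
  have keyL : ∀ t : L, φ (sl2L t) = tv0 hF r (ι t / κ) := fun t => hj' ((key _).trans (hL t))
  have key2 : ∀ M x, uact (φ M).1 x = psiHom ι p r κ hκ hp hr hpr hrp M *ᵥ x := by
    intro M x
    have := congrArg Units.val (key M)
    rw [MonoidHom.coe_toHomUnits, MonoidHom.coe_toHomUnits, hψ] at this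
    rw [← this]; rfl
  have hup : (upperUnipotentSL2 L).map φ = X0 hF p := by
    ext g
    simp only [Subgroup.mem_map, mem_upperUnipotentSL2]
    constructor
    · rintro ⟨_, ⟨t, rfl⟩, rfl⟩
      rw [keyU]
      refine (mem_X0 hF p _).2 ⟨_, ?_, rfl⟩
      rw [map_neg, map_div₀, hfix, hκ']; field_simp
    · intro hg
      obtain ⟨c, hc, rfl⟩ := (mem_X0 hF p g).1 hg
      obtain ⟨t, ht⟩ := hsurj (-(c * κ)) (by rw [map_neg, map_mul, hc, hκ']; ring)
      refine ⟨sl2U t, ⟨t, rfl⟩, ?_⟩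
      rw [keyU, ht]
      congr 1
      field_simp
  have hlow : (lowerUnipotentSL2 L).map φ = X0 hF r := by
    ext g
    simp only [Subgroup.mem_map, mem_lowerUnipotentSL2]
    constructor
    · rintro ⟨_, ⟨t, rfl⟩, rfl⟩
      rw [keyL]
      refine (mem_X0 hF r _).2 ⟨_, ?_, rfl⟩
      rw [map_div₀, hfix, hκ']; field_simp
    · intro hg
      obtain ⟨c, hc, rfl⟩ := (mem_X0 hF r g).1 hg
      obtain ⟨t, ht⟩ := hsurj (c * κ) (by rw [map_mul, hc, hκ']; ring)
      refine ⟨sl2L t, ⟨t, rfl⟩, ?_⟩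
      rw [keyL, ht]
      congr 1
      field_simp
  refine ⟨φ, ?_, ?_, hup, hlow⟩
  · rw [← hup, ← hlow, ← Subgroup.map_sup, sup_comm, sl2_generation, ← MonoidHom.range_eq_map]
  · have hinj : Function.Injective φ := by
      rw [injective_iff_map_eq_one]
      intro M hM
      have e1 := key2 M p
      have e2 := key2 M r
      rw [hM, psiHom_mulVec] at e1 e2
      have h1 := congrArg (fun v => Cfsg.hermForm m F q v r) e1
      have h2 := congrArg (fun v => Cfsg.hermForm m F q v p) e1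
      have h3 := congrArg (fun v => Cfsg.hermForm m F q v r) e2
      have h4 := congrArg (fun v => Cfsg.hermForm m F q v p) e2
      simp only [Subgroup.coe_one, uact_one, uh_add_left, uh_smul_left, hp, hr, hpr, hrp]
        at h1 h2 h3 h4
      field_simp at h1 h2 h3 h4
      have hκ2 : κ ^ 2 ≠ 0 := pow_ne_zero 2 hκ
      have g1 : ι (M.1 0 0) = 1 := by
        have : κ ^ 2 * (ι (M.1 0 0) - 1) = 0 := by linear_combination -h1
        have := (mul_eq_zero.1 this).resolve_left hκ2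
        linear_combination this
      have g2 : ι (M.1 1 0) = 0 := by
        have : κ ^ 2 * ι (M.1 1 0) = 0 := by linear_combination h2
        exact (mul_eq_zero.1 this).resolve_left hκ2
      have g3 : ι (M.1 0 1) = 0 := by
        have : κ ^ 2 * ι (M.1 0 1) = 0 := by linear_combination -h3
        exact (mul_eq_zero.1 this).resolve_left hκ2
      have g4 : ι (M.1 1 1) = 1 := by
        have : κ ^ 2 * (ι (M.1 1 1) - 1) = 0 := by linear_combination h4
        have := (mul_eq_zero.1 this).resolve_left hκ2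
        linear_combination this
      apply sl2_ext
      · show M.1 0 0 = (1 : Matrix (Fin 2) (Fin 2) L) 0 0
        simp only [Matrix.one_apply_eq]
        apply ι.injective
        rw [g1, map_one]
      · show M.1 0 1 = (1 : Matrix (Fin 2) (Fin 2) L) 0 1
        simp only [Matrix.one_apply_ne (show (0 : Fin 2) ≠ 1 by decide)]
        apply ι.injective
        rw [g3, map_zero]
      · show M.1 1 0 = (1 : Matrix (Fin 2) (Fin 2) L) 1 0
        simp only [Matrix.one_apply_ne (show (1 : Fin 2) ≠ 0 by decide)]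
        apply ι.injective
        rw [g2, map_zero]
      · show M.1 1 1 = (1 : Matrix (Fin 2) (Fin 2) L) 1 1
        simp only [Matrix.one_apply_eq]
        apply ι.injective
        rw [g4, map_one]
    rw [(MonoidHom.ker_eq_bot_iff _).mpr hinj]
    exact bot_le

theorem kroot (hF : Fintype.card F = q ^ 2) :
    ∃ (L : Type) (_ : Field L) (_ : Fintype L), Fintype.card L = q ∧
      IsKRootSubgroupSet L (S0 m F q) := by
  obtain ⟨L, iF, iFt, ι, hcard, hfix, hsurj⟩ := exists_fixed_field hF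
  refine ⟨L, iF, iFt, hcard, rootSet hF, ?_⟩
  intro A hA B hB hpair
  obtain ⟨p, hp0, hp, rfl⟩ := (mem_S0 hF).1 hA
  obtain ⟨r, hr0, hr, rfl⟩ := (mem_S0 hF).1 hB
  have hl : Cfsg.hermForm m F q p r ≠ 0 := fun h => not_rankOne_of_orth hF p r hp0 hp hr h hpair
  obtain ⟨κ, hκ, hκ'⟩ := ufld_exists_skew hF
  obtain ⟨a, hadef⟩ : ∃ a : F, a = frobQ hF (κ / Cfsg.hermForm m F q p r) := ⟨_, rfl⟩
  have ha0 : a ≠ 0 := by
    rw [hadef]
    intro h
    exact div_ne_zero hκ hl ((ufrob_eq_zero hF).1 h)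
  rw [← X0_smul hF r a ha0]
  refine psl2 hF ι hfix hsurj p (a • r) κ hκ hκ' hp ?_ ?_
  · rw [uh_smul_left, uh_smul_right hF, hr, mul_zero, mul_zero]
  · rw [uh_smul_right hF, hadef, frobQ_frobQ]
    field_simp

theorem main (F : Type*) [Field F] [Fintype F] (q n : ℕ) (hF : Fintype.card F = q ^ 2) :
    Cfsg.IsRootSubgroupClass (S0 (n + 2) F q) ∧ Cfsg.IsDegenerateRootSet (S0 (n + 2) F q) ∧
    (∃ (L : Type) (_ : Field L) (_ : Fintype L), Fintype.card L = q ∧
      Cfsg.IsKRootSubgroupSet L (S0 (n + 2) F q)) ∧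
    Cfsg.IsConnectedFamily (Cfsg.FAdj (S0 (n + 2) F q)) (S0 (n + 2) F q) :=
  ⟨⟨rootSet hF, conjClass hF (by omega)⟩, degenerate hF, kroot hF, connected hF⟩

end

/-- Let F be a finite field with q² elements, n a natural number, and h the Hermitian form Σ uᵢ vᵢ^q on F^{n+2}. For a non-zero isotropic vector p let T(p) be the group of unitary transvections with centre ⟨p⟩: the elements of SU_{n+2}(q) moving every vector by a multiple of p and fixing every vector perpendicular to p. Let Σ be the set of these T(p) and G₀ the subgroup they generate. Then, viewed inside G₀, the members of Σ form a degenerate class of abstract k-root subgroups of G₀ for some field k with q elements (any two commute or are the unipotent subgroups of a rank one group that is an image of SL₂(k) with central kernel, never the commutator case), and their graph of rank one pairs is connected. -/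
theorem result (F : Type*) [Field F] [Fintype F] (q n : ℕ) (hF : Fintype.card F = q ^ 2) :
    Cfsg.IsRootSubgroupClass ((fun A : Subgroup ↥(Cfsg.SU (n + 2) F q) => A.subgroupOf (⨆ B ∈ {A : Subgroup ↥(Cfsg.SU (n + 2) F q) | ∃ p : Fin (n + 2) → F, p ≠ 0 ∧ Cfsg.hermForm (n + 2) F q p p = 0 ∧
          A = Subgroup.closure {g : ↥(Cfsg.SU (n + 2) F q) |
            (∀ v : Fin (n + 2) → F, ∃ c : F, ((g : Matrix.SpecialLinearGroup (Fin (n + 2)) F) : Matrix (Fin (n + 2)) (Fin (n + 2)) F) *ᵥ v = v + c • p) ∧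
            ∀ v : Fin (n + 2) → F, Cfsg.hermForm (n + 2) F q v p = 0 →
              ((g : Matrix.SpecialLinearGroup (Fin (n + 2)) F) : Matrix (Fin (n + 2)) (Fin (n + 2)) F) *ᵥ v = v}}, B)) ''
      {A : Subgroup ↥(Cfsg.SU (n + 2) F q) | ∃ p : Fin (n + 2) → F, p ≠ 0 ∧ Cfsg.hermForm (n + 2) F q p p = 0 ∧
          A = Subgroup.closure {g : ↥(Cfsg.SU (n + 2) F q) |
            (∀ v : Fin (n + 2) → F, ∃ c : F, ((g : Matrix.SpecialLinearGroup (Fin (n + 2)) F) : Matrix (Fin (n + 2)) (Fin (n + 2)) F) *ᵥ v = v + c • p) ∧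
            ∀ v : Fin (n + 2) → F, Cfsg.hermForm (n + 2) F q v p = 0 →
              ((g : Matrix.SpecialLinearGroup (Fin (n + 2)) F) : Matrix (Fin (n + 2)) (Fin (n + 2)) F) *ᵥ v = v}}) ∧
    Cfsg.IsDegenerateRootSet ((fun A : Subgroup ↥(Cfsg.SU (n + 2) F q) => A.subgroupOf (⨆ B ∈ {A : Subgroup ↥(Cfsg.SU (n + 2) F q) | ∃ p : Fin (n + 2) → F, p ≠ 0 ∧ Cfsg.hermForm (n + 2) F q p p = 0 ∧
          A = Subgroup.closure {g : ↥(Cfsg.SU (n + 2) F q) |
            (∀ v : Fin (n + 2) → F, ∃ c : F, ((g : Matrix.SpecialLinearGroup (Fin (n + 2)) F) : Matrix (Fin (n + 2)) (Fin (n + 2)) F) *ᵥ v = v + c • p) ∧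
            ∀ v : Fin (n + 2) → F, Cfsg.hermForm (n + 2) F q v p = 0 →
              ((g : Matrix.SpecialLinearGroup (Fin (n + 2)) F) : Matrix (Fin (n + 2)) (Fin (n + 2)) F) *ᵥ v = v}}, B)) ''
      {A : Subgroup ↥(Cfsg.SU (n + 2) F q) | ∃ p : Fin (n + 2) → F, p ≠ 0 ∧ Cfsg.hermForm (n + 2) F q p p = 0 ∧
          A = Subgroup.closure {g : ↥(Cfsg.SU (n + 2) F q) |
            (∀ v : Fin (n + 2) → F, ∃ c : F, ((g : Matrix.SpecialLinearGroup (Fin (n + 2)) F) : Matrix (Fin (n + 2)) (Fin (n + 2)) F) *ᵥ v = v + c • p) ∧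
            ∀ v : Fin (n + 2) → F, Cfsg.hermForm (n + 2) F q v p = 0 →
              ((g : Matrix.SpecialLinearGroup (Fin (n + 2)) F) : Matrix (Fin (n + 2)) (Fin (n + 2)) F) *ᵥ v = v}}) ∧
    (∃ (L : Type) (_ : Field L) (_ : Fintype L), Fintype.card L = q ∧ Cfsg.IsKRootSubgroupSet L ((fun A : Subgroup ↥(Cfsg.SU (n + 2) F q) => A.subgroupOf (⨆ B ∈ {A : Subgroup ↥(Cfsg.SU (n + 2) F q) | ∃ p : Fin (n + 2) → F, p ≠ 0 ∧ Cfsg.hermForm (n + 2) F q p p = 0 ∧
          A = Subgroup.closure {g : ↥(Cfsg.SU (n + 2) F q) |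
            (∀ v : Fin (n + 2) → F, ∃ c : F, ((g : Matrix.SpecialLinearGroup (Fin (n + 2)) F) : Matrix (Fin (n + 2)) (Fin (n + 2)) F) *ᵥ v = v + c • p) ∧
            ∀ v : Fin (n + 2) → F, Cfsg.hermForm (n + 2) F q v p = 0 →
              ((g : Matrix.SpecialLinearGroup (Fin (n + 2)) F) : Matrix (Fin (n + 2)) (Fin (n + 2)) F) *ᵥ v = v}}, B)) ''
      {A : Subgroup ↥(Cfsg.SU (n + 2) F q) | ∃ p : Fin (n + 2) → F, p ≠ 0 ∧ Cfsg.hermForm (n + 2) F q p p = 0 ∧
          A = Subgroup.closure {g : ↥(Cfsg.SU (n + 2) F q) |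
            (∀ v : Fin (n + 2) → F, ∃ c : F, ((g : Matrix.SpecialLinearGroup (Fin (n + 2)) F) : Matrix (Fin (n + 2)) (Fin (n + 2)) F) *ᵥ v = v + c • p) ∧
            ∀ v : Fin (n + 2) → F, Cfsg.hermForm (n + 2) F q v p = 0 →
              ((g : Matrix.SpecialLinearGroup (Fin (n + 2)) F) : Matrix (Fin (n + 2)) (Fin (n + 2)) F) *ᵥ v = v}})) ∧
    Cfsg.IsConnectedFamily (Cfsg.FAdj ((fun A : Subgroup ↥(Cfsg.SU (n + 2) F q) => A.subgroupOf (⨆ B ∈ {A : Subgroup ↥(Cfsg.SU (n + 2) F q) | ∃ p : Fin (n + 2) → F, p ≠ 0 ∧ Cfsg.hermForm (n + 2) F q p p = 0 ∧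
          A = Subgroup.closure {g : ↥(Cfsg.SU (n + 2) F q) |
            (∀ v : Fin (n + 2) → F, ∃ c : F, ((g : Matrix.SpecialLinearGroup (Fin (n + 2)) F) : Matrix (Fin (n + 2)) (Fin (n + 2)) F) *ᵥ v = v + c • p) ∧
            ∀ v : Fin (n + 2) → F, Cfsg.hermForm (n + 2) F q v p = 0 →
              ((g : Matrix.SpecialLinearGroup (Fin (n + 2)) F) : Matrix (Fin (n + 2)) (Fin (n + 2)) F) *ᵥ v = v}}, B)) ''
      {A : Subgroup ↥(Cfsg.SU (n + 2) F q) | ∃ p : Fin (n + 2) → F, p ≠ 0 ∧ Cfsg.hermForm (n + 2) F q p p = 0 ∧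
          A = Subgroup.closure {g : ↥(Cfsg.SU (n + 2) F q) |
            (∀ v : Fin (n + 2) → F, ∃ c : F, ((g : Matrix.SpecialLinearGroup (Fin (n + 2)) F) : Matrix (Fin (n + 2)) (Fin (n + 2)) F) *ᵥ v = v + c • p) ∧
            ∀ v : Fin (n + 2) → F, Cfsg.hermForm (n + 2) F q v p = 0 →
              ((g : Matrix.SpecialLinearGroup (Fin (n + 2)) F) : Matrix (Fin (n + 2)) (Fin (n + 2)) F) *ᵥ v = v}})) ((fun A : Subgroup ↥(Cfsg.SU (n + 2) F q) => A.subgroupOf (⨆ B ∈ {A : Subgroup ↥(Cfsg.SU (n + 2) F q) | ∃ p : Fin (n + 2) → F, p ≠ 0 ∧ Cfsg.hermForm (n + 2) F q p p = 0 ∧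
          A = Subgroup.closure {g : ↥(Cfsg.SU (n + 2) F q) |
            (∀ v : Fin (n + 2) → F, ∃ c : F, ((g : Matrix.SpecialLinearGroup (Fin (n + 2)) F) : Matrix (Fin (n + 2)) (Fin (n + 2)) F) *ᵥ v = v + c • p) ∧
            ∀ v : Fin (n + 2) → F, Cfsg.hermForm (n + 2) F q v p = 0 →
              ((g : Matrix.SpecialLinearGroup (Fin (n + 2)) F) : Matrix (Fin (n + 2)) (Fin (n + 2)) F) *ᵥ v = v}}, B)) ''
      {A : Subgroup ↥(Cfsg.SU (n + 2) F q) | ∃ p : Fin (n + 2) → F, p ≠ 0 ∧ Cfsg.hermForm (n + 2) F q p p = 0 ∧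
          A = Subgroup.closure {g : ↥(Cfsg.SU (n + 2) F q) |
            (∀ v : Fin (n + 2) → F, ∃ c : F, ((g : Matrix.SpecialLinearGroup (Fin (n + 2)) F) : Matrix (Fin (n + 2)) (Fin (n + 2)) F) *ᵥ v = v + c • p) ∧
            ∀ v : Fin (n + 2) → F, Cfsg.hermForm (n + 2) F q v p = 0 →
              ((g : Matrix.SpecialLinearGroup (Fin (n + 2)) F) : Matrix (Fin (n + 2)) (Fin (n + 2)) F) *ᵥ v = v}}) := by
  exact main F q n hF

end Cfsg.Agent.S5071
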