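import Cfsg.Statements.S5072
import Mathlib
import Cfsg.Agent.Helper13.OSiegel5
import Cfsg.Agent.Helper83.SL2

set_option autoImplicit false
open Matrix
open Cfsg

namespace Cfsg.Agent.S5072

open Matrix Cfsg.Agent.Helper13 Cfsg.Agent.Helper83
open scoped commutatorElement

section
variable {F : Type*} [Field F] {n : ℕ}

/-- the generating set of the statement. -/
def gsetO (n : ℕ) (F : Type*) [Field F] (p r : Fin n ⊕ Fin n → F) :
    Set ↥(Cfsg.isometryGroup F (Cfsg.quadFormPlus n F)) :=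
  {σ : ↥(Cfsg.isometryGroup F (Cfsg.quadFormPlus n F)) | ∀ v : Fin n ⊕ Fin n → F,
    Cfsg.quadFormPlus n F (v + p) - Cfsg.quadFormPlus n F v - Cfsg.quadFormPlus n F p = 0 →
    Cfsg.quadFormPlus n F (v + r) - Cfsg.quadFormPlus n F v - Cfsg.quadFormPlus n F r = 0 →
      ((σ : Matrix.GeneralLinearGroup (Fin n ⊕ Fin n) F) :
        Matrix (Fin n ⊕ Fin n) (Fin n ⊕ Fin n) F) *ᵥ v = v}

/-- the set of Siegel transvection groups of the statement. -/
def SigO (n : ℕ) (F : Type*) [Field F] :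
    Set (Subgroup ↥(Cfsg.isometryGroup F (Cfsg.quadFormPlus n F))) :=
  {A : Subgroup ↥(Cfsg.isometryGroup F (Cfsg.quadFormPlus n F)) |
    ∃ p r : Fin n ⊕ Fin n → F, LinearIndependent F ![p, r] ∧
      Cfsg.quadFormPlus n F p = 0 ∧ Cfsg.quadFormPlus n F r = 0 ∧
      Cfsg.quadFormPlus n F (p + r) = 0 ∧ A = Subgroup.closure (gsetO n F p r)}

/-- the subgroup generated by the Siegel transvection groups. -/
def G0 (n : ℕ) (F : Type*) [Field F] :
    Subgroup ↥(Cfsg.isometryGroup F (Cfsg.quadFormPlus n F)) :=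
  ⨆ B ∈ SigO n F, B

/-- the set of root subgroups, inside `G0`. -/
def S0 (n : ℕ) (F : Type*) [Field F] : Set (Subgroup ↥(G0 n F)) :=
  (fun A : Subgroup ↥(Cfsg.isometryGroup F (Cfsg.quadFormPlus n F)) => A.subgroupOf (G0 n F)) ''
    SigO n F

theorem gsetO_eq {p r : Fin n ⊕ Fin n → F} (hL : OLine p r) :
    gsetO n F p r = (OSG p r : Set _) := by
  ext σ
  constructor
  · intro hσ
    apply oFix_form hL σ
    intro v hv1 hv2
    exact hσ v (by rw [oPolar_eq]; exact hv1) (by rw [oPolar_eq]; exact hv2)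
  · rintro ⟨c, rfl⟩
    intro v hv1 hv2
    rw [oPolar_eq] at hv1 hv2
    change oAct (osg p r c) v = v
    rw [oAct_osg p r hL.2.1 hL.2.2.1 hL.2.2.2, hv1, hv2]
    simp

theorem SigO_eq : SigO n F = OSigma n F := by
  ext A
  constructor
  · rintro ⟨p, r, hli, hp, hr, hpr, rfl⟩
    have hB : oB p r = 0 := by
      rw [oQ_add, hp, hr] at hpr
      linear_combination hpr
    have hL : OLine p r := ⟨hli, hp, hr, hB⟩
    exact ⟨p, r, hL, by rw [gsetO_eq hL, Subgroup.closure_eq]⟩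
  · rintro ⟨p, r, hL, rfl⟩
    refine ⟨p, r, hL.1, hL.2.1, hL.2.2.1, ?_, by rw [gsetO_eq hL, Subgroup.closure_eq]⟩
    rw [oQ_add, hL.2.1, hL.2.2.1, hL.2.2.2]
    ring

theorem OSG_le_G0 {p r : Fin n ⊕ Fin n → F} (hL : OLine p r) : OSG p r ≤ G0 n F :=
  le_iSup₂ (f := fun (A : Subgroup ↥(Cfsg.isometryGroup F (Cfsg.quadFormPlus n F)))
    (_ : A ∈ SigO n F) => A) (OSG p r) (by rw [SigO_eq]; exact ⟨p, r, hL, rfl⟩)

theorem osg_mem_G0 (p r : Fin n ⊕ Fin n → F) (c : F) : osg p r c ∈ G0 n F := by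
  by_cases hL : OLine p r
  · exact OSG_le_G0 hL ⟨c, rfl⟩
  · have : osg p r c = 1 := by
      by_cases hs : Cfsg.quadFormPlus n F p = 0 ∧ Cfsg.quadFormPlus n F r = 0 ∧ oB p r = 0
      · exact osg_dep p r (fun hli => hL ⟨hli, hs⟩) c
      · unfold osg
        rw [dif_neg hs]
    rw [this]
    exact Subgroup.one_mem _

/-- the Siegel element as an element of `G0`. -/
noncomputable def s0 (p r : Fin n ⊕ Fin n → F) (c : F) : ↥(G0 n F) :=
  ⟨osg p r c, osg_mem_G0 p r c⟩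

/-- the root subgroup inside `G0`. -/
noncomputable def X0 (p r : Fin n ⊕ Fin n → F) : Subgroup ↥(G0 n F) :=
  (OSG p r).subgroupOf (G0 n F)

theorem mem_X0 (p r : Fin n ⊕ Fin n → F) (g : ↥(G0 n F)) :
    g ∈ X0 p r ↔ ∃ c : F, g = s0 p r c := by
  unfold X0
  rw [Subgroup.mem_subgroupOf]
  constructor
  · rintro ⟨c, h⟩
    exact ⟨c, Subtype.ext h⟩
  · rintro ⟨c, rfl⟩
    exact ⟨c, rfl⟩

theorem mem_S0 {A : Subgroup ↥(G0 n F)} :
    A ∈ S0 n F ↔ ∃ p r : Fin n ⊕ Fin n → F, OLine p r ∧ A = X0 p r := by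
  unfold S0
  rw [SigO_eq]
  constructor
  · rintro ⟨B, ⟨p, r, hL, rfl⟩, rfl⟩
    exact ⟨p, r, hL, rfl⟩
  · rintro ⟨p, r, hL, rfl⟩
    exact ⟨OSG p r, ⟨p, r, hL, rfl⟩, rfl⟩

theorem X0_eq {p r p' r' : Fin n ⊕ Fin n → F} (h : OSG p r = OSG p' r') : X0 p r = X0 p' r' := by
  unfold X0; rw [h]

theorem s0_zero (p r : Fin n ⊕ Fin n → F) : s0 p r (0 : F) = 1 := Subtype.ext (osg_zero p r)

theorem s0_ne_one {p r : Fin n ⊕ Fin n → F} (hL : OLine p r) {c : F} (hc : c ≠ 0) :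
    s0 p r c ≠ 1 := fun h => osg_ne_one hL hc (congrArg Subtype.val h)

theorem X0_comm (p r : Fin n ⊕ Fin n → F) : IsMulCommutative ↥(X0 p r) := by
  refine ⟨⟨fun a b => Subtype.ext ?_⟩⟩
  obtain ⟨c, hc⟩ := (mem_X0 p r a.1).1 a.2
  obtain ⟨d, hd⟩ := (mem_X0 p r b.1).1 b.2
  change a.1 * b.1 = b.1 * a.1
  rw [hc, hd]
  apply Subtype.ext
  change osg p r c * osg p r d = osg p r d * osg p r c
  rw [osg_mul, osg_mul, add_comm]

theorem X0_nilpotent (p r : Fin n ⊕ Fin n → F) : Group.IsNilpotent ↥(X0 p r) :=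
  ⟨⟨1, Subgroup.upperCentralSeries_one_eq_top_iff.mpr (X0_comm p r)⟩⟩

theorem X0_ne_bot {p r : Fin n ⊕ Fin n → F} (hL : OLine p r) : X0 p r ≠ ⊥ := by
  intro h
  have h1 : s0 p r (1 : F) ∈ X0 p r := (mem_X0 p r _).2 ⟨1, rfl⟩
  rw [h, Subgroup.mem_bot] at h1
  exact s0_ne_one hL one_ne_zero h1

theorem conjBy_X0 (p r : Fin n ⊕ Fin n → F) (g : ↥(G0 n F)) :
    conjBy (X0 p r) g = X0 (oAct g.1 p) (oAct g.1 r) := by
  ext x
  rw [oMem_conjBy_iff, mem_X0, mem_X0]
  constructor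
  · rintro ⟨c, hc⟩
    refine ⟨c, ?_⟩
    have : x = g * s0 p r c * g⁻¹ := by rw [← hc]; group
    rw [this]
    exact Subtype.ext (osg_conj g.1 p r c)
  · rintro ⟨c, rfl⟩
    refine ⟨c, ?_⟩
    have : s0 (oAct g.1 p) (oAct g.1 r) c = g * s0 p r c * g⁻¹ :=
      Subtype.ext (osg_conj g.1 p r c).symm
    rw [this]; group

theorem generates0 : (⨆ A ∈ S0 n F, A) = ⊤ := by
  have hinj : Function.Injective (Subgroup.map (G0 n F).subtype) :=
    Subgroup.map_injective (Subgroup.subtype_injective _)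
  apply hinj
  unfold S0
  rw [iSup_image, Subgroup.map_iSup]
  simp only [Subgroup.map_iSup]
  have h1 : ∀ A ∈ SigO n F, Subgroup.map (G0 n F).subtype (A.subgroupOf (G0 n F)) = A := by
    intro A hA
    apply Subgroup.map_subgroupOf_eq_of_le
    exact le_iSup₂ (f := fun (A : Subgroup ↥(Cfsg.isometryGroup F (Cfsg.quadFormPlus n F)))
      (_ : A ∈ SigO n F) => A) A hA
  have h2 : ∀ A : Subgroup ↥(Cfsg.isometryGroup F (Cfsg.quadFormPlus n F)),
      (⨆ (_ : A ∈ SigO n F), Subgroup.map (G0 n F).subtype (A.subgroupOf (G0 n F)))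
        = ⨆ (_ : A ∈ SigO n F), A := fun A => iSup_congr (fun hA => h1 A hA)
  rw [iSup_congr h2]
  rw [← MonoidHom.range_eq_map, Subgroup.range_subtype]
  rfl

theorem commCase {u s u' s' : Fin n ⊕ Fin n → F} (hL1 : OLine u s) (hL2 : OLine u' s')
    (h3 : oB u u' = 0) (h4 : oB u s' = 0) (h5 : oB s u' = 0) (hκ : oB s s' ≠ 0)
    (hLu : OLine u u') : RootCommutatorCase (S0 n F) (X0 u s) (X0 u' s') := by
  have formula : ∀ c d : F, s0 u s c * s0 u' s' d * (s0 u s c)⁻¹ * (s0 u' s' d)⁻¹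
      = s0 u u' (-(c * d * oB s s')) := fun c d =>
    Subtype.ext (osg_commutator u s u' s' hL1.2.1 hL1.2.2.1 hL2.2.1 hL2.2.2.1 hL1.2.2.2
      hL2.2.2.2 h3 h4 h5 c d)
  have hcomm_eq : ⁅X0 u s, X0 u' s'⁆ = X0 u u' := by
    apply le_antisymm
    · rw [Subgroup.commutator_le]
      intro a ha b hb
      obtain ⟨c, rfl⟩ := (mem_X0 u s a).1 ha
      obtain ⟨d, rfl⟩ := (mem_X0 u' s' b).1 hb
      rw [commutatorElement_def, formula]
      exact (mem_X0 u u' _).2 ⟨_, rfl⟩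
    · intro g hg
      obtain ⟨e, rfl⟩ := (mem_X0 u u' g).1 hg
      have : s0 u u' e = ⁅s0 u s 1, s0 u' s' (-e / oB s s')⁆ := by
        rw [commutatorElement_def, formula]
        congr 1
        field_simp
      rw [this]
      exact Subgroup.commutator_mem_commutator ((mem_X0 u s _).2 ⟨1, rfl⟩)
        ((mem_X0 u' s' _).2 ⟨_, rfl⟩)
  have h3' : oB u' u = 0 := by rw [oB_comm, h3]
  have h5' : oB u' s = 0 := by rw [oB_comm, h5]
  refine ⟨?_, ?_, ?_, ?_⟩
  · rw [hcomm_eq]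
    exact mem_S0.2 ⟨u, u', hLu, rfl⟩
  · rw [hcomm_eq]
    intro c hc x hx
    obtain ⟨e, rfl⟩ := (mem_X0 u u' c).1 hc
    have hle : X0 u s ⊔ X0 u' s' ≤ Subgroup.centralizer {s0 u u' e} := by
      rw [sup_le_iff]
      constructor
      · intro a ha
        obtain ⟨c', rfl⟩ := (mem_X0 u s a).1 ha
        rw [Subgroup.mem_centralizer_iff]
        intro y hy
        rw [Set.mem_singleton_iff] at hy
        subst hy
        exact Subtype.ext (osg_commute u u' u s hL1.2.1 hL2.2.1 hL1.2.1 hL1.2.2.1 h3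
          hL1.2.2.2 (oB_self_of_sing hL1.2.1) hL1.2.2.2 h3' h5' e c')
      · intro a ha
        obtain ⟨d', rfl⟩ := (mem_X0 u' s' a).1 ha
        rw [Subgroup.mem_centralizer_iff]
        intro y hy
        rw [Set.mem_singleton_iff] at hy
        subst hy
        exact Subtype.ext (osg_commute u u' u' s' hL1.2.1 hL2.2.1 hL2.2.1 hL2.2.2.1 h3
          hL2.2.2.2 h3 h4 (oB_self_of_sing hL2.2.1) hL2.2.2.2 e d')
    exact Subgroup.mem_centralizer_iff.1 (hle hx) (s0 u u' e) rfl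
  · intro a ha ha1
    obtain ⟨c, rfl⟩ := (mem_X0 u s a).1 ha
    have hc : c ≠ 0 := by rintro rfl; exact ha1 (s0_zero u s)
    rw [hcomm_eq]
    have himg : (fun b => s0 u s c * b * (s0 u s c)⁻¹ * b⁻¹) '' (X0 u' s' : Set ↥(G0 n F))
        = (X0 u u' : Set ↥(G0 n F)) := by
      ext g
      constructor
      · rintro ⟨b, hb, rfl⟩
        obtain ⟨d, rfl⟩ := (mem_X0 u' s' b).1 hb
        change s0 u s c * s0 u' s' d * (s0 u s c)⁻¹ * (s0 u' s' d)⁻¹ ∈ X0 u u'
        rw [formula]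
        exact (mem_X0 u u' _).2 ⟨_, rfl⟩
      · intro hg
        obtain ⟨e, rfl⟩ := (mem_X0 u u' g).1 hg
        refine ⟨s0 u' s' (-e / (c * oB s s')), (mem_X0 u' s' _).2 ⟨_, rfl⟩, ?_⟩
        change s0 u s c * s0 u' s' (-e / (c * oB s s')) * (s0 u s c)⁻¹
          * (s0 u' s' (-e / (c * oB s s')))⁻¹ = _
        rw [formula]
        congr 1
        field_simp
    rw [himg, Subgroup.closure_eq]
  · intro b hb hb1
    obtain ⟨d, rfl⟩ := (mem_X0 u' s' b).1 hb
    have hd : d ≠ 0 := by rintro rfl; exact hb1 (s0_zero u' s')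
    rw [hcomm_eq]
    have himg : (fun a => a * s0 u' s' d * a⁻¹ * (s0 u' s' d)⁻¹) '' (X0 u s : Set ↥(G0 n F))
        = (X0 u u' : Set ↥(G0 n F)) := by
      ext g
      constructor
      · rintro ⟨a, ha, rfl⟩
        obtain ⟨c, rfl⟩ := (mem_X0 u s a).1 ha
        change s0 u s c * s0 u' s' d * (s0 u s c)⁻¹ * (s0 u' s' d)⁻¹ ∈ X0 u u'
        rw [formula]
        exact (mem_X0 u u' _).2 ⟨_, rfl⟩
      · intro hg
        obtain ⟨e, rfl⟩ := (mem_X0 u u' g).1 hg
        refine ⟨s0 u s (-e / (d * oB s s')), (mem_X0 u s _).2 ⟨_, rfl⟩, ?_⟩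
        change s0 u s (-e / (d * oB s s')) * s0 u' s' d * (s0 u s (-e / (d * oB s s')))⁻¹
          * (s0 u' s' d)⁻¹ = _
        rw [formula]
        congr 1
        field_simp
    rw [himg, Subgroup.closure_eq]

theorem pair_cases {p r p' r' : Fin n ⊕ Fin n → F} (hL : OLine p r) (hL' : OLine p' r') :
    ⁅X0 p r, X0 p' r'⁆ = ⊥ ∨ RootCommutatorCase (S0 n F) (X0 p r) (X0 p' r') ∨
      ∃ p'' r'' : Fin n ⊕ Fin n → F, OOpp p r p'' r'' ∧ X0 p'' r'' = X0 p' r' := by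
  by_cases hD : oB p p' * oB r r' - oB p r' * oB r p' = 0
  · obtain ⟨u, s, u', s', hL1, hL2, hG1, hG2, h3, h4, h5⟩ := oLine_normal_zero hL hL' hD
    rw [← X0_eq hG1, ← X0_eq hG2]
    by_cases hκ : oB s s' = 0 ∨ ¬ LinearIndependent F ![u, u']
    · left
      rw [Subgroup.commutator_eq_bot_iff_le_centralizer]
      intro a ha
      obtain ⟨c, rfl⟩ := (mem_X0 u s a).1 ha
      rw [Subgroup.mem_centralizer_iff]
      intro b hb
      obtain ⟨d, rfl⟩ := (mem_X0 u' s' b).1 hb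
      have hform := osg_commutator u s u' s' hL1.2.1 hL1.2.2.1 hL2.2.1 hL2.2.2.1 hL1.2.2.2
        hL2.2.2.2 h3 h4 h5 c d
      have h1 : osg u u' (-(c * d * oB s s')) = 1 := by
        rcases hκ with hκ | hκ
        · rw [hκ, mul_zero, neg_zero, osg_zero]
        · exact osg_dep u u' hκ _
      rw [h1] at hform
      have h7 : osg u s c * osg u' s' d * (osg u s c)⁻¹ = osg u' s' d := by
        rw [← mul_inv_eq_one]; exact hform
      apply Subtype.ext
      change osg u' s' d * osg u s c = osg u s c * osg u' s' d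
      calc osg u' s' d * osg u s c = osg u s c * osg u' s' d * (osg u s c)⁻¹ * osg u s c := by
            rw [h7]
        _ = osg u s c * osg u' s' d := by rw [inv_mul_cancel_right]
    · right; left
      push Not at hκ
      exact commCase hL1 hL2 h3 h4 h5 hκ.1 ⟨hκ.2, hL1.2.1, hL2.2.1, h3⟩
  · right; right
    obtain ⟨p'', r'', hL'', hG, h1, h2, h3, h4⟩ := oLine_normal_opp hL hL' hD
    exact ⟨p'', r'', ⟨hL, hL'', h1, h2, h3, h4⟩, X0_eq hG⟩

theorem rankOnePair0 {p r p' r' : Fin n ⊕ Fin n → F} (h : OOpp p r p' r') :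
    IsRankOnePair (X0 p r) (X0 p' r') :=
  oRankOnePair_subgroupOf (G0 n F) (OSG_le_G0 h.L) (OSG_le_G0 h.L') (X0_nilpotent p r)
    (X0_nilpotent p' r') (OSG_rankOnePair h.L h.L' h.h1 h.h2 h.h3 h.h4)

theorem rootSet : IsRootSubgroupSet (S0 n F) where
  commutative := by
    intro A hA
    obtain ⟨p, r, hL, rfl⟩ := mem_S0.1 hA
    exact X0_comm p r
  ne_bot := by
    intro A hA
    obtain ⟨p, r, hL, rfl⟩ := mem_S0.1 hA
    exact X0_ne_bot hL
  generates := generates0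
  conj_mem := by
    intro A hA g
    obtain ⟨p, r, hL, rfl⟩ := mem_S0.1 hA
    rw [conjBy_X0]
    exact mem_S0.2 ⟨_, _, hL.act g.1, rfl⟩
  pair := by
    intro A hA B hB
    obtain ⟨p, r, hL, rfl⟩ := mem_S0.1 hA
    obtain ⟨p', r', hL', rfl⟩ := mem_S0.1 hB
    rcases pair_cases hL hL' with h | h | ⟨p'', r'', hopp, hX⟩
    · exact Or.inl h
    · exact Or.inr (Or.inr h)
    · rw [← hX]
      exact Or.inr (Or.inl (rankOnePair0 hopp))

end

section
variable {F : Type*} [Field F] {n : ℕ}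

/-- the monoid homomorphism from `G0` to matrices. -/
def jHomO (n : ℕ) (F : Type*) [Field F] :
    ↥(G0 n F) →* Matrix (Fin n ⊕ Fin n) (Fin n ⊕ Fin n) F where
  toFun g := (((g.1 : ↥(Cfsg.isometryGroup F (Cfsg.quadFormPlus n F))) :
    Matrix.GeneralLinearGroup (Fin n ⊕ Fin n) F) : Matrix (Fin n ⊕ Fin n) (Fin n ⊕ Fin n) F)
  map_one' := rfl
  map_mul' _ _ := rfl

theorem jHomO_mulVec (g : ↥(G0 n F)) (x : Fin n ⊕ Fin n → F) :
    jHomO n F g *ᵥ x = oAct g.1 x := rfl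

theorem jHomO_injective : Function.Injective (jHomO n F) := by
  intro a b h
  apply Subtype.ext
  apply oAct_ext
  intro x
  rw [← jHomO_mulVec, ← jHomO_mulVec, h]

/-- the monoid homomorphism `SL₂(F) → Mat(F)` attached to two opposite lines. -/
def psiHomO {p r p' r' : Fin n ⊕ Fin n → F} (h : OOpp p r p' r') :
    Matrix.SpecialLinearGroup (Fin 2) F →* Matrix (Fin n ⊕ Fin n) (Fin n ⊕ Fin n) F where
  toFun M := oPhiMat p r p' r' M.1
  map_one' := by
    rw [show (1 : Matrix.SpecialLinearGroup (Fin 2) F).1 = 1 from rfl, oPhi_one]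
  map_mul' M M' := by
    rw [show (M * M').1 = M.1 * M'.1 from rfl, oPhi_mul h]

theorem psiHomO_U {p r p' r' : Fin n ⊕ Fin n → F} (h : OOpp p r p' r') (t : F) :
    psiHomO h (sl2U t) = jHomO n F (s0 p r t) := by
  apply omat_ext
  intro x
  rw [jHomO_mulVec]
  exact oPhi_U h t x

theorem psiHomO_L {p r p' r' : Fin n ⊕ Fin n → F} (h : OOpp p r p' r') (t : F) :
    psiHomO h (sl2L t) = jHomO n F (s0 p' r' (-t)) := by
  apply omat_ext
  intro x
  rw [jHomO_mulVec]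
  exact oPhi_L h t x

theorem psl2 {p r p' r' : Fin n ⊕ Fin n → F} (h : OOpp p r p' r') :
    IsPSL2PairOver F (X0 p r) (X0 p' r') := by
  obtain ⟨ψ, hψ⟩ : ∃ ψ : Matrix.SpecialLinearGroup (Fin 2) F →*
      Matrix (Fin n ⊕ Fin n) (Fin n ⊕ Fin n) F, ψ = psiHomO h := ⟨_, rfl⟩
  have hj' : Function.Injective (jHomO n F).toHomUnits := by
    intro a b hab
    apply jHomO_injective
    have := congrArg Units.val hab
    rwa [MonoidHom.coe_toHomUnits, MonoidHom.coe_toHomUnits] at this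
  have hU : ∀ t : F, ψ.toHomUnits (sl2U t) = (jHomO n F).toHomUnits (s0 p r t) := by
    intro t
    apply Units.ext
    rw [MonoidHom.coe_toHomUnits, MonoidHom.coe_toHomUnits, hψ]
    exact psiHomO_U h t
  have hL : ∀ t : F, ψ.toHomUnits (sl2L t) = (jHomO n F).toHomUnits (s0 p' r' (-t)) := by
    intro t
    apply Units.ext
    rw [MonoidHom.coe_toHomUnits, MonoidHom.coe_toHomUnits, hψ]
    exact psiHomO_L h t
  have hrange : ψ.toHomUnits.range ≤ (jHomO n F).toHomUnits.range := by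
    rw [MonoidHom.range_eq_map, ← sl2_generation, Subgroup.map_sup, sup_le_iff]
    constructor
    · rintro _ ⟨g, hg, rfl⟩
      obtain ⟨t, rfl⟩ := (mem_lowerUnipotentSL2 g).1 hg
      exact ⟨_, (hL t).symm⟩
    · rintro _ ⟨g, hg, rfl⟩
      obtain ⟨t, rfl⟩ := (mem_upperUnipotentSL2 g).1 hg
      exact ⟨_, (hU t).symm⟩
  obtain ⟨φ, key⟩ : ∃ φ : Matrix.SpecialLinearGroup (Fin 2) F →* ↥(G0 n F),
      ∀ M, (jHomO n F).toHomUnits (φ M) = ψ.toHomUnits M := by
    refine ⟨(MonoidHom.ofInjective hj').symm.toMonoidHom.comp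
      (ψ.toHomUnits.codRestrict (jHomO n F).toHomUnits.range (fun M => hrange ⟨M, rfl⟩)), ?_⟩
    intro M
    have := (MonoidHom.ofInjective hj').apply_symm_apply
      (ψ.toHomUnits.codRestrict (jHomO n F).toHomUnits.range (fun M => hrange ⟨M, rfl⟩) M)
    exact congrArg Subtype.val this
  have keyU : ∀ t : F, φ (sl2U t) = s0 p r t := fun t => hj' ((key _).trans (hU t))
  have keyL : ∀ t : F, φ (sl2L t) = s0 p' r' (-t) := fun t => hj' ((key _).trans (hL t))
  have key2 : ∀ M x, oAct (φ M).1 x = oPhiMat p r p' r' M.1 *ᵥ x := by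
    intro M x
    have := congrArg Units.val (key M)
    rw [MonoidHom.coe_toHomUnits, MonoidHom.coe_toHomUnits, hψ] at this
    rw [← jHomO_mulVec, this]
    rfl
  have hup : (upperUnipotentSL2 F).map φ = X0 p r := by
    ext g
    simp only [Subgroup.mem_map, mem_upperUnipotentSL2]
    constructor
    · rintro ⟨_, ⟨t, rfl⟩, rfl⟩
      rw [keyU]
      exact (mem_X0 p r _).2 ⟨_, rfl⟩
    · intro hg
      obtain ⟨c, rfl⟩ := (mem_X0 p r g).1 hg
      exact ⟨sl2U c, ⟨c, rfl⟩, keyU c⟩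
  have hlow : (lowerUnipotentSL2 F).map φ = X0 p' r' := by
    ext g
    simp only [Subgroup.mem_map, mem_lowerUnipotentSL2]
    constructor
    · rintro ⟨_, ⟨t, rfl⟩, rfl⟩
      rw [keyL]
      exact (mem_X0 p' r' _).2 ⟨_, rfl⟩
    · intro hg
      obtain ⟨c, rfl⟩ := (mem_X0 p' r' g).1 hg
      refine ⟨sl2L (-c), ⟨-c, rfl⟩, ?_⟩
      rw [keyL, neg_neg]
  refine ⟨φ, ?_, ?_, hup, hlow⟩
  · rw [← hup, ← hlow, ← Subgroup.map_sup, sup_comm, sl2_generation, ← MonoidHom.range_eq_map]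
  · have hinj : Function.Injective φ := by
      rw [injective_iff_map_eq_one]
      intro M hM
      have hfix : ∀ x, oPhiMat p r p' r' M.1 *ᵥ x = x := by
        intro x
        rw [← key2, hM]
        exact oAct_one x
      obtain ⟨g1, g2, g3, g4⟩ := oPhi_inj h M.1 hfix
      apply sl2_ext
      · show M.1 0 0 = (1 : Matrix (Fin 2) (Fin 2) F) 0 0
        rw [g1, Matrix.one_apply_eq]
      · show M.1 0 1 = (1 : Matrix (Fin 2) (Fin 2) F) 0 1
        rw [g2, Matrix.one_apply_ne (show (0 : Fin 2) ≠ 1 by decide)]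
      · show M.1 1 0 = (1 : Matrix (Fin 2) (Fin 2) F) 1 0
        rw [g3, Matrix.one_apply_ne (show (1 : Fin 2) ≠ 0 by decide)]
      · show M.1 1 1 = (1 : Matrix (Fin 2) (Fin 2) F) 1 1
        rw [g4, Matrix.one_apply_eq]
    rw [(MonoidHom.ker_eq_bot_iff _).mpr hinj]
    exact bot_le

theorem kroot : IsKRootSubgroupSet F (S0 n F) := by
  refine ⟨rootSet, ?_⟩
  intro A hA B hB hpair
  obtain ⟨p, r, hL, rfl⟩ := mem_S0.1 hA
  obtain ⟨p', r', hL', rfl⟩ := mem_S0.1 hB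
  rcases pair_cases hL hL' with h | h | ⟨p'', r'', hopp, hX⟩
  · exact absurd hpair (oNot_rankOne_of_comm (X0_ne_bot hL) h)
  · exact absurd hpair (oNot_rankOne_of_commCase (X0_ne_bot hL) (X0_comm p r)
      (fun C hC => by
        obtain ⟨u, v, hLuv, rfl⟩ := mem_S0.1 hC
        exact X0_ne_bot hLuv) h)
  · rw [← hX]
    exact psl2 hopp

theorem connected (hn : 3 ≤ n) : IsConnectedFamily (FAdj (SigO n F)) (SigO n F) := by
  rw [SigO_eq]
  exact oSigma_connected hn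

theorem main (F : Type*) [Field F] (m : ℕ) :
    Cfsg.IsKRootSubgroupSet F (S0 (m + 3) F) ∧
      Cfsg.IsConnectedFamily (Cfsg.FAdj (SigO (m + 3) F)) (SigO (m + 3) F) :=
  ⟨kroot, connected (by omega)⟩

end

/-- Let F be a field, m a natural number and V = F^{2(m+3)} with the hyperbolic quadratic form q(x, y) = Σ xᵢ yᵢ (non-degenerate, Witt index m + 3 ≥ 3). For a singular line ℓ (a 2-dimensional subspace on which q vanishes) let T(ℓ) be the group of isometries of q fixing every vector of ℓ^⊥ (the Siegel transvection group of ℓ), let Σ be the set of these groups and G₀ the subgroup they generate. Then, viewed inside G₀, the members of Σ form a set of abstract F-root subgroups of G₀ (any two commute, or are the unipotent subgroups of a rank one group that is an image of SL₂(F) with central kernel, or satisfy the commutator case), and their graph of rank one pairs is connected. -/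
theorem result (F : Type*) [Field F] (m : ℕ) :
    Cfsg.IsKRootSubgroupSet F ((fun A : Subgroup ↥(Cfsg.isometryGroup F (Cfsg.quadFormPlus (m + 3) F)) => A.subgroupOf (⨆ B ∈ {A : Subgroup ↥(Cfsg.isometryGroup F (Cfsg.quadFormPlus (m + 3) F)) | ∃ p r : Fin (m + 3) ⊕ Fin (m + 3) → F, LinearIndependent F ![p, r] ∧
          Cfsg.quadFormPlus (m + 3) F p = 0 ∧ Cfsg.quadFormPlus (m + 3) F r = 0 ∧
          Cfsg.quadFormPlus (m + 3) F (p + r) = 0 ∧
          A = Subgroup.closure {σ : ↥(Cfsg.isometryGroup F (Cfsg.quadFormPlus (m + 3) F)) | ∀ v : Fin (m + 3) ⊕ Fin (m + 3) → F,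
            Cfsg.quadFormPlus (m + 3) F (v + p) - Cfsg.quadFormPlus (m + 3) F v - Cfsg.quadFormPlus (m + 3) F p = 0 →
            Cfsg.quadFormPlus (m + 3) F (v + r) - Cfsg.quadFormPlus (m + 3) F v - Cfsg.quadFormPlus (m + 3) F r = 0 →
              ((σ : Matrix.GeneralLinearGroup (Fin (m + 3) ⊕ Fin (m + 3)) F) : Matrix (Fin (m + 3) ⊕ Fin (m + 3)) (Fin (m + 3) ⊕ Fin (m + 3)) F) *ᵥ v = v}}, B)) ''
      {A : Subgroup ↥(Cfsg.isometryGroup F (Cfsg.quadFormPlus (m + 3) F)) | ∃ p r : Fin (m + 3) ⊕ Fin (m + 3) → F, LinearIndependent F ![p, r] ∧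
          Cfsg.quadFormPlus (m + 3) F p = 0 ∧ Cfsg.quadFormPlus (m + 3) F r = 0 ∧
          Cfsg.quadFormPlus (m + 3) F (p + r) = 0 ∧
          A = Subgroup.closure {σ : ↥(Cfsg.isometryGroup F (Cfsg.quadFormPlus (m + 3) F)) | ∀ v : Fin (m + 3) ⊕ Fin (m + 3) → F,
            Cfsg.quadFormPlus (m + 3) F (v + p) - Cfsg.quadFormPlus (m + 3) F v - Cfsg.quadFormPlus (m + 3) F p = 0 →
            Cfsg.quadFormPlus (m + 3) F (v + r) - Cfsg.quadFormPlus (m + 3) F v - Cfsg.quadFormPlus (m + 3) F r = 0 →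
              ((σ : Matrix.GeneralLinearGroup (Fin (m + 3) ⊕ Fin (m + 3)) F) : Matrix (Fin (m + 3) ⊕ Fin (m + 3)) (Fin (m + 3) ⊕ Fin (m + 3)) F) *ᵥ v = v}}) ∧
    Cfsg.IsConnectedFamily (Cfsg.FAdj {A : Subgroup ↥(Cfsg.isometryGroup F (Cfsg.quadFormPlus (m + 3) F)) | ∃ p r : Fin (m + 3) ⊕ Fin (m + 3) → F, LinearIndependent F ![p, r] ∧
          Cfsg.quadFormPlus (m + 3) F p = 0 ∧ Cfsg.quadFormPlus (m + 3) F r = 0 ∧
          Cfsg.quadFormPlus (m + 3) F (p + r) = 0 ∧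
          A = Subgroup.closure {σ : ↥(Cfsg.isometryGroup F (Cfsg.quadFormPlus (m + 3) F)) | ∀ v : Fin (m + 3) ⊕ Fin (m + 3) → F,
            Cfsg.quadFormPlus (m + 3) F (v + p) - Cfsg.quadFormPlus (m + 3) F v - Cfsg.quadFormPlus (m + 3) F p = 0 →
            Cfsg.quadFormPlus (m + 3) F (v + r) - Cfsg.quadFormPlus (m + 3) F v - Cfsg.quadFormPlus (m + 3) F r = 0 →
              ((σ : Matrix.GeneralLinearGroup (Fin (m + 3) ⊕ Fin (m + 3)) F) : Matrix (Fin (m + 3) ⊕ Fin (m + 3)) (Fin (m + 3) ⊕ Fin (m + 3)) F) *ᵥ v = v}})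
      {A : Subgroup ↥(Cfsg.isometryGroup F (Cfsg.quadFormPlus (m + 3) F)) | ∃ p r : Fin (m + 3) ⊕ Fin (m + 3) → F, LinearIndependent F ![p, r] ∧
          Cfsg.quadFormPlus (m + 3) F p = 0 ∧ Cfsg.quadFormPlus (m + 3) F r = 0 ∧
          Cfsg.quadFormPlus (m + 3) F (p + r) = 0 ∧
          A = Subgroup.closure {σ : ↥(Cfsg.isometryGroup F (Cfsg.quadFormPlus (m + 3) F)) | ∀ v : Fin (m + 3) ⊕ Fin (m + 3) → F,
            Cfsg.quadFormPlus (m + 3) F (v + p) - Cfsg.quadFormPlus (m + 3) F v - Cfsg.quadFormPlus (m + 3) F p = 0 →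
            Cfsg.quadFormPlus (m + 3) F (v + r) - Cfsg.quadFormPlus (m + 3) F v - Cfsg.quadFormPlus (m + 3) F r = 0 →
              ((σ : Matrix.GeneralLinearGroup (Fin (m + 3) ⊕ Fin (m + 3)) F) : Matrix (Fin (m + 3) ⊕ Fin (m + 3)) (Fin (m + 3) ⊕ Fin (m + 3)) F) *ᵥ v = v}} := by
  exact main F m

end Cfsg.Agent.S5072
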