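import Cfsg.Statements.S5073
import Cfsg.Agent.S5059
import Cfsg.Agent.Helper5.QPairN
-- import your own Cfsg.Agent.* helpers here

set_option autoImplicit false
universe u
open Cfsg

namespace Cfsg.Agent.S5073

/-- Let k be a field of characteristic not 2 with k not of order 3, M a finite-dimensional k-vector space and G ≤ GL(M) such that (G, M) is a quadratic pair (M irreducible for G, and G generated by its quadratically acting elements σ whose scalar family 1 + c(σ − 1), c ∈ k, lies in G). Write 𝒬_d for the quadratic elements of G of minimal commutator rank, E(σ) for the subgroup generated by the members of 𝒬_d with the same fixed space and commutator space as σ, and Σ for the set of these subgroups. Let E, F ∈ Σ. If some non-identity element of E commutes with some non-identity element of F, or some non-identity element of E normalizes F, then E and F commute elementwise. -/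
theorem result {k : Type u} [Field k] (hk2 : ringChar k ≠ 2) (hk3 : Nat.card k ≠ 3)
    {M : Type u} [AddCommGroup M] [Module k M] [FiniteDimensional k M]
    {G : Subgroup (LinearMap.GeneralLinearGroup k M)} (hG : Cfsg.IsQuadraticPair G)
    {E F : Subgroup (LinearMap.GeneralLinearGroup k M)} (hE : E ∈ Cfsg.quadraticRootSubgroups G) (hF : F ∈ Cfsg.quadraticRootSubgroups G)
    (h : (∃ e ∈ E, e ≠ 1 ∧ ∃ f ∈ F, f ≠ 1 ∧ e * f = f * e) ∨ E ⊓ Subgroup.normalizer (F : Set (LinearMap.GeneralLinearGroup k M)) ≠ ⊥) :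
    ⁅E, F⁆ = ⊥ := by
  have htwo : (2 : k) ≠ 0 := Ring.two_ne_zero hk2
  have ha : ∃ a : k, a ≠ 0 ∧ a ^ 2 ≠ 1 := by
    by_contra hcon
    push Not at hcon
    apply hk3
    have hu : (Set.univ : Set k) = {0, 1, -1} := by
      ext a
      simp only [Set.mem_univ, Set.mem_insert_iff, Set.mem_singleton_iff, true_iff]
      by_cases h0 : a = 0
      · exact Or.inl h0
      · right
        have h1 := hcon a h0
        have h2 : (a - 1) * (a + 1) = 0 := by linear_combination h1
        rcases mul_eq_zero.mp h2 with h3 | h3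
        · exact Or.inl (by linear_combination h3)
        · exact Or.inr (by linear_combination h3)
    have h01 : (0 : k) ≠ 1 := zero_ne_one
    have h0m : (0 : k) ≠ -1 := fun h => h01 (by linear_combination -h)
    have h1m : (1 : k) ≠ -1 := fun h => htwo (by linear_combination h)
    rw [← Set.ncard_univ, hu]
    exact Set.ncard_eq_three.mpr ⟨0, 1, -1, h01, h0m, h1m, rfl⟩
  obtain ⟨σ, hσ, rfl⟩ := hE
  obtain ⟨τ, hτ, rfl⟩ := hF
  obtain ⟨hEσ, -, -⟩ := Cfsg.Agent.S5059.result hk2 hk3 hG hσ
  obtain ⟨hEτ, -, -⟩ := Cfsg.Agent.S5059.result hk2 hk3 hG hτ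
  by_cases hopp : Cfsg.Agent.Helper5.QPair.Opp σ τ
  · exfalso
    rcases h with ⟨e, he, he1, f, hf, hf1, hcomm⟩ | hN
    · exact Cfsg.Agent.Helper5.QPair.opp_no_comm hopp
        (Cfsg.Agent.Helper5.QPair.mem_class_of_ne hEσ he he1)
        (Cfsg.Agent.Helper5.QPair.mem_class_of_ne hEτ hf hf1) hcomm
    · apply hN
      rw [Subgroup.eq_bot_iff_forall]
      intro x hx
      by_contra hx1
      exact Cfsg.Agent.Helper5.QPair.opp_no_norm hopp hτ hEτ
        (Cfsg.Agent.Helper5.QPair.mem_class_of_ne hEσ hx.1 hx1) hx.2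
  · have hC : Cfsg.Agent.Helper5.QPair.C2 G σ τ := ⟨htwo, ha, hσ, hτ, hopp⟩
    by_contra hne
    obtain ⟨α₀, hα₀, β₀, hβ₀, hc₀⟩ := hC.num_of_ne hEσ hEτ hne
    have hnum := (hC.pair_dims hα₀ hβ₀ hc₀).1
    rcases h with ⟨e, he, he1, f, hf, hf1, hcomm⟩ | hN
    · have hec := Cfsg.Agent.Helper5.QPair.mem_class_of_ne hEσ he he1
      have hfc := Cfsg.Agent.Helper5.QPair.mem_class_of_ne hEτ hf hf1
      apply hC.pair_ne hnum hec hfc
      rw [← hC.comm_sub_one hec hfc, commutatorElement_eq_one_iff_mul_comm.mpr hcomm]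
      exact sub_self _
    · apply hN
      rw [Subgroup.eq_bot_iff_forall]
      intro x hx
      by_contra hx1
      exact hC.no_norm hnum hEτ (Cfsg.Agent.Helper5.QPair.mem_class_of_ne hEσ hx.1 hx1) hx.2

end Cfsg.Agent.S5073
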