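import Cfsg.Statements.S5078
import Cfsg.Agent.Helper84.FusionBasic

set_option autoImplicit false
open Cfsg

namespace Cfsg.Agent.S5078

/-- In any fusion system over a finite subgroup S, a receptive subgroup is fully centralized. -/
theorem result {Ω : Type*} [Group Ω] {S : Subgroup Ω} [Finite S] (F : Cfsg.FusionSystem S) (P : Subgroup Ω) (hP : F.IsReceptive P) : F.IsFullyCentralized P := by
  exact Cfsg.Agent.Helper84.receptive_fullyCentralized F P hP

end Cfsg.Agent.S5078
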