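import Cfsg.Statements.S5096
import Cfsg.Agent.Helper84.FusionBasic

set_option autoImplicit false
open Cfsg

namespace Cfsg.Agent.S5096

open Cfsg.FusionSystem

theorem range_ext_eq {Ω : Type*} [Group Ω] {P Q : Subgroup Ω} (φ : P →* Ω) (ψ : ↥(P ⊔ Q) →* Ω)
    (h : ∀ x : P, ψ (Subgroup.inclusion le_sup_left x) = φ x) :
    ψ.range = φ.range ⊔ (Q.subgroupOf (P ⊔ Q)).map ψ := by
  have h1 : (⊤ : Subgroup ↥(P ⊔ Q)) = P.subgroupOf (P ⊔ Q) ⊔ Q.subgroupOf (P ⊔ Q) := by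
    rw [← Subgroup.subgroupOf_sup le_sup_left le_sup_right, Subgroup.subgroupOf_self]
  rw [MonoidHom.range_eq_map, h1, Subgroup.map_sup]
  congr 1
  ext y
  constructor
  · rintro ⟨x, hx, rfl⟩
    exact ⟨⟨x, hx⟩, (h ⟨x, hx⟩).symm⟩
  · rintro ⟨x, rfl⟩
    exact ⟨Subgroup.inclusion le_sup_left x, x.2, h x⟩

/-- For any fusion system over a subgroup S and any Q ≤ S, the maps of the normalizer system N_F(Q) — those maps between subgroups of N_S(Q) that extend to the subgroup generated with Q carrying Q onto Q — form a fusion system over N_S(Q). -/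
theorem result {Ω : Type*} [Group Ω] {S : Subgroup Ω} (F : Cfsg.FusionSystem S) (Q : Subgroup Ω) (hQ : Q ≤ S) : ∃ E : Cfsg.FusionSystem (Cfsg.FusionSystem.normalizerIn S Q), F.IsNormalizerSystem Q E := by
  refine ⟨{ Hom := fun P => F.normalizerHom Q P
            le_of_mem := ?_
            injective_of_mem := ?_
            conj_mem := ?_
            comp_mem := ?_
            inv_mem := ?_ }, fun P => rfl⟩
  · rintro P φ ⟨-, h2, h3, -⟩
    exact ⟨h2, h3⟩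
  · rintro P φ ⟨h1, -⟩
    exact F.injective_of_mem h1
  · intro P g hP hg
    have hPS : P ≤ S := hP.trans inf_le_left
    refine ⟨F.conj_mem hPS hg.1, hP, fun x => ?_, conjHom (P ⊔ Q) g, F.conj_mem (sup_le hPS hQ) hg.1,
      fun x => rfl, ?_⟩
    · exact Subgroup.mul_mem _ (Subgroup.mul_mem _ hg (hP x.2)) (Subgroup.inv_mem _ hg)
    · ext y
      constructor
      · rintro ⟨x, hx, rfl⟩
        exact (Subgroup.mem_normalizer_iff.mp hg.2 x).mp hx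
      · intro hy
        have h1 : g⁻¹ * y * g ∈ Q := by
          have := (Subgroup.mem_normalizer_iff.mp (Subgroup.inv_mem _ hg.2) y).mp hy
          simpa using this
        refine ⟨⟨g⁻¹ * y * g, (le_sup_right : Q ≤ P ⊔ Q) h1⟩, h1, ?_⟩
        show g * (g⁻¹ * y * g) * g⁻¹ = y
        simp [mul_assoc]
  · rintro P P' φ ψ ⟨hφ, hPN, hφN, φ', hφ', hφφ', hφQ⟩ ⟨hψ, hP'N, hψN, ψ', hψ', hψψ', hψQ⟩ h
    refine ⟨F.comp_mem hφ hψ h, hPN, fun x => hψN _, ?_⟩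
    have hle : ∀ x : ↥(P ⊔ Q), φ' x ∈ P' ⊔ Q := by
      intro x
      have h1 : φ' x ∈ φ'.range := ⟨x, rfl⟩
      rw [range_ext_eq φ φ' hφφ', hφQ] at h1
      refine (show φ.range ⊔ Q ≤ P' ⊔ Q from sup_le_sup ?_ le_rfl) h1
      rintro _ ⟨z, rfl⟩
      exact h z
    refine ⟨ψ'.comp (φ'.codRestrict (P' ⊔ Q) hle), F.comp_mem hφ' hψ' hle, fun x => ?_, ?_⟩
    · show ψ' ⟨φ' (Subgroup.inclusion le_sup_left x), _⟩ = ψ ⟨φ x, _⟩
      rw [← hψψ' ⟨φ x, h x⟩]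
      congr 1
      apply Subtype.ext
      exact hφφ' x
    · ext y
      constructor
      · rintro ⟨x, hx, rfl⟩
        have h1 : φ' x ∈ (Q.subgroupOf (P ⊔ Q)).map φ' := ⟨x, hx, rfl⟩
        rw [hφQ] at h1
        have h2 : ψ' ⟨φ' x, hle x⟩ ∈ (Q.subgroupOf (P' ⊔ Q)).map ψ' := ⟨⟨φ' x, hle x⟩, h1, rfl⟩
        rw [hψQ] at h2
        exact h2
      · intro hy
        have h2 : y ∈ (Q.subgroupOf (P' ⊔ Q)).map ψ' := by rw [hψQ]; exact hy
        obtain ⟨z, hz, rfl⟩ := h2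
        have h1 : (z : Ω) ∈ (Q.subgroupOf (P ⊔ Q)).map φ' := by rw [hφQ]; exact hz
        obtain ⟨x, hx, hxz⟩ := h1
        refine ⟨x, hx, ?_⟩
        show ψ' ⟨φ' x, _⟩ = ψ' z
        congr 1
        exact Subtype.ext hxz
  · rintro P φ ⟨hφ, hPN, hφN, φ', hφ', hφφ', hφQ⟩
    have hr : φ.range ⊔ Q = φ'.range := by
      rw [range_ext_eq φ φ' hφφ', hφQ]
    obtain ⟨χ, hχ, hχr, hχ1, hχ2⟩ := Helper84.hom_inv F hφ' rfl
    have hle1 : φ.range ≤ φ'.range := by rw [← hr]; exact le_sup_left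
    have key : ∀ x : P, χ ⟨φ x, hle1 ⟨x, rfl⟩⟩ = (x : Ω) := by
      intro x
      have h5 := hχ1 (Subgroup.inclusion le_sup_left x) ⟨_, rfl⟩
      have h6 : (⟨φ x, hle1 ⟨x, rfl⟩⟩ : φ'.range) = ⟨φ' (Subgroup.inclusion le_sup_left x), ⟨_, rfl⟩⟩ :=
        Subtype.ext (hφφ' x).symm
      rw [h6, h5]; rfl
    refine ⟨χ.comp (Subgroup.inclusion hle1), ⟨Helper84.hom_restrict F hχ hle1, ?_, ?_, ?_⟩, ?_⟩
    · rintro _ ⟨x, rfl⟩
      exact hφN x
    · rintro ⟨_, x, rfl⟩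
      show χ ⟨φ x, _⟩ ∈ _
      rw [key x]
      exact hPN x.2
    · refine ⟨χ.comp (Subgroup.inclusion hr.le), Helper84.hom_restrict F hχ hr.le, fun x => rfl, ?_⟩
      ext y
      constructor
      · rintro ⟨x, hx, rfl⟩
        have h1 : (x : Ω) ∈ (Q.subgroupOf (P ⊔ Q)).map φ' := by rw [hφQ]; exact hx
        obtain ⟨z, hz, hzx⟩ := h1
        show χ ⟨(x : Ω), _⟩ ∈ Q
        have := hχ1 z ⟨_, rfl⟩
        have e : (⟨(x : Ω), hr.le x.2⟩ : φ'.range) = ⟨φ' z, ⟨_, rfl⟩⟩ := Subtype.ext hzx.symm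
        rw [e, this]
        exact hz
      · intro hy
        have h1 : φ' ⟨y, (le_sup_right : Q ≤ P ⊔ Q) hy⟩ ∈ (Q.subgroupOf (P ⊔ Q)).map φ' :=
          ⟨_, hy, rfl⟩
        rw [hφQ] at h1
        refine ⟨⟨φ' ⟨y, (le_sup_right : Q ≤ P ⊔ Q) hy⟩, (le_sup_right : Q ≤ φ.range ⊔ Q) h1⟩, h1, ?_⟩
        exact hχ1 ⟨y, (le_sup_right : Q ≤ P ⊔ Q) hy⟩ ⟨_, rfl⟩
    · intro x
      exact key x

end Cfsg.Agent.S5096
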