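import Cfsg.Statements.S5097
import Cfsg.Agent.Helper84.FusionBasic

set_option autoImplicit false
open Cfsg

namespace Cfsg.Agent.S5097

open Cfsg.FusionSystem

theorem range_ext_eq {Ω : Type*} [Group Ω] {P Q : Subgroup Ω} (φ : P →* Ω) (ψ : ↥(P ⊔ Q) →* Ω)
    (h : ∀ x : P, ψ (Subgroup.inclusion le_sup_left x) = φ x) :
    ψ.range = φ.range ⊔ (Q.subgroupOf (P ⊔ Q)).map ψ := by
  have h1 : (⊤ : Subgroup ↥(P ⊔ Q)) = P.subgroupOf (P ⊔ Q) ⊔ Q.subgroupOf (P ⊔ Q) := by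
    rw [← Subgroup.subgroupOf_sup le_sup_left le_sup_right, Subgroup.subgroupOf_self]
  rw [MonoidHom.range_eq_map, h1, Subgroup.map_sup]
  congr 1
  ext y
  constructor
  · rintro ⟨x, hx, rfl⟩
    exact ⟨⟨x, hx⟩, (h ⟨x, hx⟩).symm⟩
  · rintro ⟨x, rfl⟩
    exact ⟨Subgroup.inclusion le_sup_left x, x.2, h x⟩

theorem map_eq_of_fix {Ω : Type*} [Group Ω] {P Q : Subgroup Ω} (ψ : ↥(P ⊔ Q) →* Ω)
    (h : ∀ x : Q, ψ (Subgroup.inclusion le_sup_right x) = x) :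
    (Q.subgroupOf (P ⊔ Q)).map ψ = Q := by
  ext y
  constructor
  · rintro ⟨x, hx, rfl⟩
    have := h ⟨x, hx⟩
    have e : Subgroup.inclusion (le_sup_right : Q ≤ P ⊔ Q) ⟨x, hx⟩ = x := Subtype.ext rfl
    rw [e] at this
    rw [this]; exact hx
  · intro hy
    exact ⟨Subgroup.inclusion le_sup_right ⟨y, hy⟩, hy, h ⟨y, hy⟩⟩

/-- For any fusion system over a subgroup S and any Q ≤ S, the maps of the centralizer system C_F(Q) — those maps between subgroups of C_S(Q) that extend to the subgroup generated with Q fixing Q elementwise — form a fusion system over C_S(Q). -/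
theorem result {Ω : Type*} [Group Ω] {S : Subgroup Ω} (F : Cfsg.FusionSystem S) (Q : Subgroup Ω) (hQ : Q ≤ S) : ∃ E : Cfsg.FusionSystem (Cfsg.FusionSystem.centralizerIn S Q), F.IsCentralizerSystem Q E := by
  refine ⟨{ Hom := fun P => F.centralizerHom Q P
            le_of_mem := ?_
            injective_of_mem := ?_
            conj_mem := ?_
            comp_mem := ?_
            inv_mem := ?_ }, fun P => rfl⟩
  · rintro P φ ⟨-, h2, h3, -⟩
    exact ⟨h2, h3⟩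
  · rintro P φ ⟨h1, -⟩
    exact F.injective_of_mem h1
  · intro P g hP hg
    have hPS : P ≤ S := hP.trans inf_le_left
    refine ⟨F.conj_mem hPS hg.1, hP, fun x => ?_, conjHom (P ⊔ Q) g, F.conj_mem (sup_le hPS hQ) hg.1,
      fun x => rfl, ?_⟩
    · exact Subgroup.mul_mem _ (Subgroup.mul_mem _ hg (hP x.2)) (Subgroup.inv_mem _ hg)
    · intro x
      show g * (x : Ω) * g⁻¹ = x
      have := hg.2 x x.2
      rw [← this]; simp
  · rintro P P' φ ψ ⟨hφ, hPN, hφN, φ', hφ', hφφ', hφQ'⟩ ⟨hψ, hP'N, hψN, ψ', hψ', hψψ', hψQ'⟩ h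
    have hφQ := map_eq_of_fix φ' hφQ'
    refine ⟨F.comp_mem hφ hψ h, hPN, fun x => hψN _, ?_⟩
    have hle : ∀ x : ↥(P ⊔ Q), φ' x ∈ P' ⊔ Q := by
      intro x
      have h1 : φ' x ∈ φ'.range := ⟨x, rfl⟩
      rw [range_ext_eq φ φ' hφφ', hφQ] at h1
      refine (show φ.range ⊔ Q ≤ P' ⊔ Q from sup_le_sup ?_ le_rfl) h1
      rintro _ ⟨z, rfl⟩
      exact h z
    refine ⟨ψ'.comp (φ'.codRestrict (P' ⊔ Q) hle), F.comp_mem hφ' hψ' hle, fun x => ?_, ?_⟩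
    · show ψ' ⟨φ' (Subgroup.inclusion le_sup_left x), _⟩ = ψ ⟨φ x, _⟩
      rw [← hψψ' ⟨φ x, h x⟩]
      congr 1
      apply Subtype.ext
      exact hφφ' x
    · intro x
      show ψ' ⟨φ' (Subgroup.inclusion le_sup_right x), _⟩ = x
      rw [← hψQ' x]
      congr 1
      exact Subtype.ext (hφQ' x)
  · rintro P φ ⟨hφ, hPN, hφN, φ', hφ', hφφ', hφQ'⟩
    have hφQ := map_eq_of_fix φ' hφQ'
    have hr : φ.range ⊔ Q = φ'.range := by
      rw [range_ext_eq φ φ' hφφ', hφQ]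
    obtain ⟨χ, hχ, hχr, hχ1, hχ2⟩ := Helper84.hom_inv F hφ' rfl
    have hle1 : φ.range ≤ φ'.range := by rw [← hr]; exact le_sup_left
    have key : ∀ x : P, χ ⟨φ x, hle1 ⟨x, rfl⟩⟩ = (x : Ω) := by
      intro x
      have h5 := hχ1 (Subgroup.inclusion le_sup_left x) ⟨_, rfl⟩
      have h6 : (⟨φ x, hle1 ⟨x, rfl⟩⟩ : φ'.range) = ⟨φ' (Subgroup.inclusion le_sup_left x), ⟨_, rfl⟩⟩ :=
        Subtype.ext (hφφ' x).symm
      rw [h6, h5]; rfl
    refine ⟨χ.comp (Subgroup.inclusion hle1), ⟨Helper84.hom_restrict F hχ hle1, ?_, ?_, ?_⟩, ?_⟩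
    · rintro _ ⟨x, rfl⟩
      exact hφN x
    · rintro ⟨_, x, rfl⟩
      show χ ⟨φ x, _⟩ ∈ _
      rw [key x]
      exact hPN x.2
    · refine ⟨χ.comp (Subgroup.inclusion hr.le), Helper84.hom_restrict F hχ hr.le, fun x => rfl, ?_⟩
      intro x
      show χ ⟨(x : Ω), _⟩ = x
      have h5 := hχ1 (Subgroup.inclusion le_sup_right x) ⟨_, rfl⟩
      have h6 : (⟨(x : Ω), hr.le ((le_sup_right : Q ≤ φ.range ⊔ Q) x.2)⟩ : φ'.range) =
          ⟨φ' (Subgroup.inclusion le_sup_right x), ⟨_, rfl⟩⟩ :=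
        Subtype.ext (hφQ' x).symm
      rw [h6, h5]; rfl
    · intro x
      exact key x

end Cfsg.Agent.S5097
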