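import Cfsg.Statements.S5102

set_option autoImplicit false
open Cfsg

namespace Cfsg.Agent.S5102

/-- A normal p-subgroup of a finite group G is normal in the fusion system of G on a Sylow p-subgroup. -/
theorem result {G : Type*} [Group G] [Finite G] (p : ℕ) [Fact p.Prime] (S : Sylow p G) (R : Subgroup G) [R.Normal] (hR : IsPGroup p R) : (Cfsg.groupFusionSystem (S : Subgroup G)).IsNormal R := by
  have hRS : R ≤ (S : Subgroup G) := hR.le_sylow_of_normal S
  refine ⟨hRS, fun P φ hφ => ?_⟩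
  obtain ⟨hPS, hφS, g, hg⟩ := hφ
  have hle : P ⊔ R ≤ (S : Subgroup G).comap (MulAut.conj g).toMonoidHom := by
    refine sup_le ?_ ?_
    · intro x hx
      have := hφS ⟨x, hx⟩
      rw [hg] at this
      exact this
    · intro x hx
      exact hRS (‹R.Normal›.conj_mem x hx g)
  refine ⟨conjHom (P ⊔ R) g, ⟨sup_le hPS hRS, fun x => hle x.2, g, fun x => rfl⟩, fun x => ?_, ?_⟩
  · rw [hg]; rfl
  · ext y
    constructor
    · rintro ⟨x, hx, rfl⟩
      exact ‹R.Normal›.conj_mem x hx g
    · intro hy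
      have h1 : g⁻¹ * y * g ∈ R := by
        have := ‹R.Normal›.conj_mem y hy g⁻¹
        simpa using this
      refine ⟨⟨g⁻¹ * y * g, (le_sup_right : R ≤ P ⊔ R) h1⟩, h1, ?_⟩
      show g * (g⁻¹ * y * g) * g⁻¹ = y
      simp [mul_assoc]

end Cfsg.Agent.S5102
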