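import Cfsg.Statements.S5104
import Cfsg.Agent.Helper85.Iso

set_option autoImplicit false
open Cfsg

namespace Cfsg.Agent.S5104

open Cfsg.FusionSystem Cfsg.Agent.Helper85

variable {Ω : Type*} [Group Ω] {S : Subgroup Ω}

theorem exists_centralizer_map (F : FusionSystem S) {Q R : Subgroup Ω} (hR : F.IsReceptive R)
    (hQR : F.IsConj Q R) :
    ∃ (K : Subgroup Ω) (ψ : K →* Ω), ψ ∈ F.Hom K ∧ centralizerIn S Q ≤ K ∧
      (∀ x : K, (x : Ω) ∈ Q → ψ x ∈ R) ∧ (∀ y ∈ R, ∃ x : K, (x : Ω) ∈ Q ∧ ψ x = y) ∧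
      (∀ x : K, (x : Ω) ∈ centralizerIn S Q → ψ x ∈ centralizerIn S R) := by
  obtain ⟨χ, hχ, hχR⟩ := hQR
  obtain ⟨ψ, hψ, hext⟩ := hR.2 Q χ hχ hχR
  have hQK : Q ≤ extender S Q χ := le_extender F hχ
  have hsurj : ∀ y ∈ R, ∃ x : ↥(extender S Q χ), (x : Ω) ∈ Q ∧ ψ x = y := by
    intro y hy
    rw [← hχR] at hy
    obtain ⟨x, rfl⟩ := hy
    exact ⟨⟨x, hQK x.2⟩, x.2, hext x x.2 (hQK x.2)⟩
  refine ⟨extender S Q χ, ψ, hψ, centralizerIn_le_extender χ, ?_, hsurj, ?_⟩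
  · intro x hx
    rw [← hχR, hext x hx x.2]
    exact ⟨_, rfl⟩
  · intro c hc
    refine ⟨(F.le_of_mem hψ).2 c, ?_⟩
    show ψ c ∈ Subgroup.centralizer (R : Set Ω)
    rw [Subgroup.mem_centralizer_iff]
    intro y hy
    obtain ⟨x, hx, rfl⟩ := hsurj y hy
    rw [← map_mul, ← map_mul]
    congr 1
    apply Subtype.ext
    exact hc.2 x hx

/-- In a saturated fusion system over a finite p-group S, a fully centralized subgroup U with C_S(U) ≤ U is centric. -/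
theorem result {Ω : Type*} [Group Ω] {S : Subgroup Ω} [Finite S] (p : ℕ) [Fact p.Prime] (hS : IsPGroup p S) (F : Cfsg.FusionSystem S) (hF : F.IsSaturated p) (U : Subgroup Ω) (hU : F.IsFullyCentralized U) (hC : Cfsg.FusionSystem.centralizerIn S U ≤ U) : F.IsCentric U := by
  obtain ⟨R, hUR, -, hRr⟩ := hF U hU.1
  have hfin : ∀ Q : Subgroup Ω, Finite ↥(centralizerIn S Q) := fun Q =>
    Finite.of_injective (Subgroup.inclusion (inf_le_left : centralizerIn S Q ≤ S))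
      (Subgroup.inclusion_injective _)
  -- the centralizer of `R` lies in `R`
  have hCR : centralizerIn S R ≤ R := by
    obtain ⟨K, ψ, hψ, hCK, hQR, hsurj, hcent⟩ := exists_centralizer_map F hRr hUR
    let f : ↥(centralizerIn S U) → ↥(centralizerIn S R) := fun c => ⟨ψ ⟨c, hCK c.2⟩, hcent _ c.2⟩
    have hf : Function.Injective f := by
      intro a b hab
      have h1 : ψ ⟨a, hCK a.2⟩ = ψ ⟨b, hCK b.2⟩ := congrArg Subtype.val hab
      have h2 := F.injective_of_mem hψ h1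
      exact Subtype.ext (congrArg (fun z : K => (z : Ω)) h2)
    have := hfin R
    have hbij := hf.bijective_of_nat_card_le (hU.2 R hUR)
    intro y hy
    obtain ⟨c, hc⟩ := hbij.2 ⟨y, hy⟩
    have h1 : ψ ⟨c, hCK c.2⟩ = y := congrArg Subtype.val hc
    rw [← h1]
    exact hQR _ (hC c.2)
  refine ⟨hU.1, fun Q hUQ => ?_⟩
  have hQR : F.IsConj Q R := isConj_trans F (isConj_symm F hUQ) hUR
  obtain ⟨K, ψ, hψ, hCK, -, hsurj, hcent⟩ := exists_centralizer_map F hRr hQR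
  intro c hc
  obtain ⟨x, hx, hxc⟩ := hsurj _ (hCR (hcent ⟨c, hCK hc⟩ hc))
  have h2 := F.injective_of_mem hψ hxc
  have h3 : (x : Ω) = c := congrArg Subtype.val h2
  rw [← h3]
  exact hx

end Cfsg.Agent.S5104
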