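import Cfsg.Statements.S5105
import Cfsg.Agent.Helper85.Centric

set_option autoImplicit false
open Cfsg

namespace Cfsg.Agent.S5105

open Cfsg.FusionSystem Cfsg.Agent.Helper85
open scoped IsMulCommutative

/-- An automorphism of a finite group `G` fixing a Sylow `p`-subgroup `T` elementwise, where `Q ≤ T` is a
normal subgroup with `C_G(Q) ≤ Q`, is conjugation by an element of `Q`. -/
theorem aut_inner {G : Type*} [Group G] [Finite G] {p : ℕ} [Fact p.Prime] (T : Sylow p G) (Q : Subgroup G)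
    (hQn : Q.Normal) (hQT : Q ≤ (T : Subgroup G)) (hcent : Subgroup.centralizer (Q : Set G) ≤ Q)
    (ψ : G ≃* G) (hψ : ∀ t ∈ (T : Subgroup G), ψ t = t) :
    ∃ b ∈ Q, ∀ g : G, ψ g = b * g * b⁻¹ := by
  classical
  have hmemC : ∀ g : G, ψ g * g⁻¹ ∈ Subgroup.centralizer (Q : Set G) := by
    intro g
    rw [Subgroup.mem_centralizer_iff]
    intro q hq
    have h1 : g⁻¹ * q * g ∈ Q := by
      have := hQn.conj_mem q hq g⁻¹
      rwa [inv_inv] at this
    have h2 : ψ (g⁻¹ * q * g) = g⁻¹ * q * g := hψ _ (hQT h1)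
    rw [map_mul, map_mul, map_inv, hψ q (hQT hq)] at h2
    calc q * (ψ g * g⁻¹) = ψ g * ((ψ g)⁻¹ * q * ψ g) * g⁻¹ := by group
      _ = ψ g * (g⁻¹ * q * g) * g⁻¹ := by rw [h2]
      _ = ψ g * g⁻¹ * q := by group
  have hmemQ : ∀ g : G, ψ g * g⁻¹ ∈ Q := fun g => hcent (hmemC g)
  have hcenter : ∀ g : G, (⟨ψ g * g⁻¹, hmemQ g⟩ : Q) ∈ Subgroup.center ↥Q := by
    intro g
    rw [Subgroup.mem_center_iff]
    intro q
    apply Subtype.ext
    exact (Subgroup.mem_centralizer_iff.mp (hmemC g)) q q.2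
  -- the cocycle, with values in the centre of `Q`
  let f : G → ↥(Subgroup.center ↥Q) := fun g => ⟨⟨ψ g * g⁻¹, hmemQ g⟩, hcenter g⟩
  have hfv : ∀ g : G, (((f g : ↥(Subgroup.center ↥Q)) : ↥Q) : G) = ψ g * g⁻¹ := fun g => rfl
  -- conjugation on the centre of `Q`
  have hcmem : ∀ (h : G) (z : ↥(Subgroup.center ↥Q)), h * ((z : ↥Q) : G) * h⁻¹ ∈ Q :=
    fun h z => hQn.conj_mem _ (z : ↥Q).2 h
  have hccenter : ∀ (h : G) (z : ↥(Subgroup.center ↥Q)),
      (⟨h * ((z : ↥Q) : G) * h⁻¹, hcmem h z⟩ : Q) ∈ Subgroup.center ↥Q := by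
    intro h z
    rw [Subgroup.mem_center_iff]
    intro q
    apply Subtype.ext
    have h1 : h⁻¹ * (q : G) * h ∈ Q := by
      have := hQn.conj_mem q q.2 h⁻¹
      rwa [inv_inv] at this
    have h2 := Subgroup.mem_center_iff.mp z.2 ⟨h⁻¹ * (q : G) * h, h1⟩
    have h3 : h⁻¹ * (q : G) * h * ((z : ↥Q) : G) = ((z : ↥Q) : G) * (h⁻¹ * (q : G) * h) :=
      congrArg Subtype.val h2
    show (q : G) * (h * ((z : ↥Q) : G) * h⁻¹) = h * ((z : ↥Q) : G) * h⁻¹ * (q : G)
    calc (q : G) * (h * ((z : ↥Q) : G) * h⁻¹) = h * (h⁻¹ * (q : G) * h * ((z : ↥Q) : G)) * h⁻¹ := by group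
      _ = h * (((z : ↥Q) : G) * (h⁻¹ * (q : G) * h)) * h⁻¹ := by rw [h3]
      _ = h * ((z : ↥Q) : G) * h⁻¹ * (q : G) := by group
  let cj : G → ↥(Subgroup.center ↥Q) →* ↥(Subgroup.center ↥Q) := fun h =>
    MonoidHom.mk' (fun z => ⟨⟨h * ((z : ↥Q) : G) * h⁻¹, hcmem h z⟩, hccenter h z⟩) (by
      intro a b
      apply Subtype.ext
      apply Subtype.ext
      show h * (((a : ↥Q) : G) * ((b : ↥Q) : G)) * h⁻¹ = (h * ((a : ↥Q) : G) * h⁻¹) * (h * ((b : ↥Q) : G) * h⁻¹)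
      group)
  have hcjv : ∀ (h : G) (z : ↥(Subgroup.center ↥Q)), (((cj h z : ↥(Subgroup.center ↥Q)) : ↥Q) : G)
      = h * ((z : ↥Q) : G) * h⁻¹ := fun h z => rfl
  -- the cocycle is constant on the left cosets of `T`
  have hfT : ∀ (g t : G), t ∈ (T : Subgroup G) → f (g * t) = f g := by
    intro g t ht
    apply Subtype.ext
    apply Subtype.ext
    show ψ (g * t) * (g * t)⁻¹ = ψ g * g⁻¹
    rw [map_mul, hψ t ht]
    group
  have hfmul : ∀ h g : G, f (h * g) = f h * cj h (f g) := by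
    intro h g
    apply Subtype.ext
    apply Subtype.ext
    show ψ (h * g) * (h * g)⁻¹ = (ψ h * h⁻¹) * (h * (ψ g * g⁻¹) * h⁻¹)
    rw [map_mul]
    group
  haveI : Fintype (G ⧸ (T : Subgroup G)) := Fintype.ofFinite _
  have hF : ∀ (h : G) (q : G ⧸ (T : Subgroup G)), f (Quotient.out (h • q)) = f h * cj h (f (Quotient.out q)) := by
    intro h q
    have h1 : ((Quotient.out (h • q) : G) : G ⧸ (T : Subgroup G)) = ((h * Quotient.out q : G) : G ⧸ (T : Subgroup G)) := by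
      rw [QuotientGroup.out_eq']
      conv_lhs => rw [← QuotientGroup.out_eq' q]
      rfl
    have h2 : (h * Quotient.out q)⁻¹ * Quotient.out (h • q) ∈ (T : Subgroup G) := QuotientGroup.eq.mp h1.symm
    have h3 : Quotient.out (h • q) = (h * Quotient.out q) * ((h * Quotient.out q)⁻¹ * Quotient.out (h • q)) := by
      group
    rw [h3, hfT _ _ h2, hfmul]
  have hprod : ∀ h : G, (∏ q : G ⧸ (T : Subgroup G), f (Quotient.out q))
      = f h ^ Fintype.card (G ⧸ (T : Subgroup G)) * cj h (∏ q : G ⧸ (T : Subgroup G), f (Quotient.out q)) := by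
    intro h
    have h1 := Equiv.prod_comp (MulAction.toPerm h : Equiv.Perm (G ⧸ (T : Subgroup G)))
      (fun q => f (Quotient.out q))
    calc (∏ q : G ⧸ (T : Subgroup G), f (Quotient.out q))
        = ∏ q : G ⧸ (T : Subgroup G), f (Quotient.out ((MulAction.toPerm h : Equiv.Perm (G ⧸ (T : Subgroup G))) q)) :=
          h1.symm
      _ = ∏ q : G ⧸ (T : Subgroup G), (f h * cj h (f (Quotient.out q))) :=
          Finset.prod_congr rfl (fun q _ => hF h q)
      _ = f h ^ Fintype.card (G ⧸ (T : Subgroup G)) * cj h (∏ q : G ⧸ (T : Subgroup G), f (Quotient.out q)) := by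
          rw [Finset.prod_mul_distrib, Finset.prod_const, Finset.card_univ, map_prod]
  -- the index of `T` is prime to the order of the centre of `Q`
  have hcop : (Nat.card ↥(Subgroup.center ↥Q)).Coprime (Fintype.card (G ⧸ (T : Subgroup G))) := by
    have hZp : IsPGroup p ↥(Subgroup.center ↥Q) := (T.isPGroup'.to_le hQT).to_subgroup _
    obtain ⟨k, hk⟩ := hZp.exists_card_eq
    rw [hk]
    have h1 : ¬ p ∣ Fintype.card (G ⧸ (T : Subgroup G)) := by
      have := T.not_dvd_index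
      rwa [Subgroup.index_eq_card, Nat.card_eq_fintype_card] at this
    exact Nat.Coprime.pow_left k ((Nat.Prime.coprime_iff_not_dvd (Fact.out : p.Prime)).2 h1)
  obtain ⟨b₀, hb₀⟩ := (powCoprime hcop).surjective (∏ q : G ⧸ (T : Subgroup G), f (Quotient.out q))
  rw [powCoprime_apply] at hb₀
  have hfb : ∀ h : G, f h = b₀ * (cj h b₀)⁻¹ := by
    intro h
    apply (powCoprime hcop).injective
    rw [powCoprime_apply, powCoprime_apply, mul_pow, inv_pow, ← map_pow, hb₀]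
    have h1 := hprod h
    rw [eq_mul_inv_iff_mul_eq]
    exact h1.symm
  refine ⟨((b₀ : ↥Q) : G), (b₀ : ↥Q).2, fun g => ?_⟩
  have h1 := congrArg (fun z : ↥(Subgroup.center ↥Q) => ((z : ↥Q) : G)) (hfb g)
  have h2 : ψ g * g⁻¹ = ((b₀ : ↥Q) : G) * (g * ((b₀ : ↥Q) : G) * g⁻¹)⁻¹ := h1
  calc ψ g = ψ g * g⁻¹ * g := by group
    _ = ((b₀ : ↥Q) : G) * (g * ((b₀ : ↥Q) : G) * g⁻¹)⁻¹ * g := by rw [h2]
    _ = ((b₀ : ↥Q) : G) * g * ((b₀ : ↥Q) : G)⁻¹ := by group

/-- Model Theorem, rigidity: if G is a model of a constrained fusion system over a finite p-group S (through ι : S → G), then every automorphism of G fixing ι(S) elementwise is conjugation by ι(z) for some z in the centre of S. -/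
theorem result {Ω : Type*} [Group Ω] {S : Subgroup Ω} [Finite S] (p : ℕ) [Fact p.Prime] (hS : IsPGroup p S) (F : Cfsg.FusionSystem S) (hF : F.IsConstrained p) {G : Type*} [Group G] (ι : S →* G) (hG : F.IsModel p G ι) (ψ : G ≃* G) (hψ : ∀ x : S, ψ (ι x) = ι x) : ∃ z : S, z ∈ Subgroup.center S ∧ ∀ g : G, ψ g = ι z * g * (ι z)⁻¹ := by
  obtain ⟨hfin, hreal, ⟨T, hT⟩, hcent⟩ := hG
  have hOn : (pCore p G).Normal := Subgroup.sSup_normal _ (fun _ h => h.1)
  have hOp : IsPGroup p (pCore p G) := Sylow.sSup_of_normal _ (fun _ h => h.2) (fun _ h => h.1)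
  have hOT : pCore p G ≤ (T : Subgroup G) := hOp.le_sylow_of_normal T
  have hψT : ∀ t ∈ (T : Subgroup G), ψ t = t := by
    intro t ht
    rw [hT] at ht
    obtain ⟨x, rfl⟩ := ht
    exact hψ x
  obtain ⟨b, hbQ, hb⟩ := aut_inner T (pCore p G) hOn hOT hcent ψ hψT
  have hbT : b ∈ ι.range := by
    rw [← hT]
    exact hOT hbQ
  obtain ⟨z, rfl⟩ := hbT
  refine ⟨z, ?_, hb⟩
  rw [Subgroup.mem_center_iff]
  intro s
  apply hreal.1
  have h1 := hb (ι s)
  rw [hψ s] at h1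
  rw [map_mul, map_mul]
  calc ι s * ι z = (ι z * ι s * (ι z)⁻¹) * ι z := by rw [← h1]
    _ = ι z * ι s := by group

end Cfsg.Agent.S5105
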