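import Cfsg.Statements.S5106
import Cfsg.Agent.Helper85.Normal2

set_option autoImplicit false
open Cfsg

namespace Cfsg.Agent.S5106

open Cfsg.FusionSystem Cfsg.Agent.Helper85

variable {Ω : Type*} [Group Ω]

/-- automorphisms of `U` acting trivially modulo `Q` and as conjugation by an element of `Q` on `U ∩ Q` -/
def KSub (Q U : Subgroup Ω) : Subgroup (MulAut U) where
  carrier := {γ | (∃ y ∈ Q, ∀ x : U, (x : Ω) ∈ Q → ((γ x : U) : Ω) = y * x * y⁻¹) ∧ γ ∈ stabMod U Q}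
  one_mem' := ⟨⟨1, Q.one_mem, fun x _ => by simp⟩, Subgroup.one_mem _⟩
  mul_mem' := by
    rintro a b ⟨⟨y₁, hy₁, h₁⟩, hs₁⟩ ⟨⟨y₂, hy₂, h₂⟩, hs₂⟩
    refine ⟨⟨y₁ * y₂, Q.mul_mem hy₁ hy₂, fun x hx => ?_⟩, Subgroup.mul_mem _ hs₁ hs₂⟩
    have hbx : ((b x : U) : Ω) ∈ Q := by
      rw [h₂ x hx]
      exact Q.mul_mem (Q.mul_mem hy₂ hx) (Q.inv_mem hy₂)
    rw [MulAut.mul_apply, h₁ (b x) hbx, h₂ x hx]
    group
  inv_mem' := by
    rintro a ⟨⟨y, hy, h⟩, hs⟩
    refine ⟨⟨y⁻¹, Q.inv_mem hy, fun x hx => ?_⟩, Subgroup.inv_mem _ hs⟩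
    have hax : a (a⁻¹ x) = x := MulEquiv.apply_symm_apply a x
    have hu : ((a⁻¹ x : U) : Ω) ∈ Q := by
      have h1 := hs (a⁻¹ x)
      rw [hax] at h1
      have h2 := Q.mul_mem hx (Q.inv_mem h1)
      have h3 : (x : Ω) * ((((a⁻¹ x : U) : Ω))⁻¹ * (x : Ω))⁻¹ = ((a⁻¹ x : U) : Ω) := by group
      rwa [h3] at h2
    have h4 := h (a⁻¹ x) hu
    rw [hax] at h4
    rw [h4]
    group

/-- In a saturated fusion system over a finite p-group S, a subgroup R ≤ S is normal in the system if and only if every map of the system whose source is a subgroup of R is the restriction of an element of Aut_F(R). -/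
theorem result {Ω : Type*} [Group Ω] {S : Subgroup Ω} [Finite S] (p : ℕ) [Fact p.Prime] (hS : IsPGroup p S) (F : Cfsg.FusionSystem S) (hF : F.IsSaturated p) (R : Subgroup Ω) (hRS : R ≤ S) : F.IsNormal R ↔ ∀ (P : Subgroup Ω) (hPR : P ≤ R) (φ : P →* Ω), φ ∈ F.Hom P → ∃ α ∈ F.autGroup R, ∀ x : P, ((α (Subgroup.inclusion hPR x) : R) : Ω) = φ x := by
  constructor
  · intro hN P hPR φ hφ
    obtain ⟨ψ, hψ, hext, himg⟩ := hN.2 P φ hφ
    have hRle : R ≤ P ⊔ R := le_sup_right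
    have hψ' : ψ.comp (Subgroup.inclusion hRle) ∈ F.Hom R := restrict_mem F hψ hRle
    have hrange : (ψ.comp (Subgroup.inclusion hRle)).range = R := by
      ext y
      constructor
      · rintro ⟨x, rfl⟩
        have h1 : ψ (Subgroup.inclusion hRle x) ∈ (R.subgroupOf (P ⊔ R)).map ψ := ⟨_, x.2, rfl⟩
        rwa [himg] at h1
      · intro hy
        have h1 : y ∈ (R.subgroupOf (P ⊔ R)).map ψ := by rw [himg]; exact hy
        obtain ⟨x, hx, rfl⟩ := h1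
        exact ⟨⟨x, hx⟩, rfl⟩
    obtain ⟨e, he, hev⟩ := exists_isIso_of_hom F hψ' hrange
    refine ⟨e, (mem_autGroup_iff F hRS).2 he, fun x => ?_⟩
    rw [hev, ← hext x]
    rfl
  · intro H
    have hsc : F.StronglyClosed R := by
      refine ⟨hRS, fun U hU φ hφ x => ?_⟩
      obtain ⟨α, -, hα⟩ := H U hU φ hφ
      rw [← hα x]
      exact (α _).2
    have hTn : ∀ s ∈ S, ∀ t ∈ R, s * t * s⁻¹ ∈ R := fun s hs t ht => stronglyClosed_conj_mem hsc hs ht
    refine isNormal_of_family hS F hF R hsc (fun U => KSub R U) ?_ ?_ ?_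
    · -- normalized by Aut_F(U)
      rintro U hU δ hδ κ ⟨⟨y, hy, hκ⟩, hκs⟩
      refine ⟨?_, stabMod_conj_mem hsc hU hδ hκs⟩
      obtain ⟨δ', -, hδ'v⟩ := H (U ⊓ R) inf_le_right
        ((U.subtype.comp δ.toMonoidHom).comp (Subgroup.inclusion inf_le_left))
        (restrict_mem F ((mem_autGroup_iff F hU).1 hδ) inf_le_left)
      refine ⟨((δ' ⟨y, hy⟩ : R) : Ω), (δ' ⟨y, hy⟩).2, fun x hx => ?_⟩
      have huR : ((δ⁻¹ x : U) : Ω) ∈ R :=
        (stronglyClosed_aut_mem_iff hsc hU (Subgroup.inv_mem _ hδ) x).2 hx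
      have hκu : ((κ (δ⁻¹ x) : U) : Ω) = y * ((δ⁻¹ x : U) : Ω) * y⁻¹ := hκ _ huR
      have hκuR : ((κ (δ⁻¹ x) : U) : Ω) ∈ R := by
        rw [hκu]
        exact R.mul_mem (R.mul_mem hy huR) (R.inv_mem hy)
      have e1 : ((δ (κ (δ⁻¹ x)) : U) : Ω) = ((δ' ⟨((κ (δ⁻¹ x) : U) : Ω), hκuR⟩ : R) : Ω) :=
        (hδ'v ⟨((κ (δ⁻¹ x) : U) : Ω), ⟨(κ (δ⁻¹ x)).2, hκuR⟩⟩).symm
      have e2 : ((δ (δ⁻¹ x) : U) : Ω) = ((δ' ⟨((δ⁻¹ x : U) : Ω), huR⟩ : R) : Ω) :=
        (hδ'v ⟨((δ⁻¹ x : U) : Ω), ⟨(δ⁻¹ x).2, huR⟩⟩).symm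
      have e3 : δ (δ⁻¹ x) = x := MulEquiv.apply_symm_apply δ x
      have e4 : (⟨((κ (δ⁻¹ x) : U) : Ω), hκuR⟩ : R) = ⟨y, hy⟩ * ⟨((δ⁻¹ x : U) : Ω), huR⟩ * ⟨y, hy⟩⁻¹ :=
        Subtype.ext hκu
      show ((δ (κ (δ⁻¹ x)) : U) : Ω) = _
      rw [e1, e4, map_mul, map_mul, map_inv]
      show ((δ' ⟨y, hy⟩ : R) : Ω) * ((δ' ⟨((δ⁻¹ x : U) : Ω), huR⟩ : R) : Ω) * ((δ' ⟨y, hy⟩ : R) : Ω)⁻¹ = _
      rw [← e2, e3]
    · -- contains the automorphisms induced by `N_R(U)`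
      intro U hU g hg hgN
      exact ⟨⟨g, hg, fun x _ => rfl⟩, normalizerMonoidHom_mem_stabMod hU hTn hg hgN⟩
    · -- `p`-power order
      rintro U hU κ ⟨⟨y, hy, hκ⟩, hκs⟩ -
      obtain ⟨a, ha⟩ := hS ⟨y, hRS hy⟩
      have ha' : y ^ p ^ a = 1 := by
        have := congrArg Subtype.val ha
        simpa using this
      have hpow : ∀ n : ℕ, ∀ x : U, (x : Ω) ∈ R → (((κ ^ n) x : U) : Ω) = y ^ n * x * (y ^ n)⁻¹ := by
        intro n
        induction n with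
        | zero => intro x _; simp
        | succ n ih =>
          intro x hx
          have hκx : ((κ x : U) : Ω) ∈ R := by
            rw [hκ x hx]
            exact R.mul_mem (R.mul_mem hy hx) (R.inv_mem hy)
          rw [pow_succ, MulAut.mul_apply, ih (κ x) hκx, hκ x hx, pow_succ]
          group
      have hβfix : ∀ x : U, (x : Ω) ∈ R → (κ ^ p ^ a) x = x := by
        intro x hx
        apply Subtype.ext
        rw [hpow _ x hx, ha']
        simp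
      have hβs : κ ^ p ^ a ∈ stabMod U R := Subgroup.pow_mem _ hκs _
      have hUfin : Finite U := finite_of_le hU
      have hUp : IsPGroup p U := hS.to_le hU
      obtain ⟨m, hm⟩ := Helper87.pow_eq_one_of_chain U hUp
        {β | β ∈ stabMod U R ∧ ∀ x : U, (x : Ω) ∈ R → β x = x}
        (fun α hα k => ⟨Subgroup.pow_mem _ hα.1 k, fun x hx => Helper87.aut_pow_fix α x (hα.2 x hx) k⟩)
        (fun i => if i = 0 then Set.univ else if i = 1 then (R : Set Ω) else {1}) 2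
        (fun x => by simp)
        (fun x hx => by
          have h1 : (x : Ω) = 1 := by simpa using hx
          exact Subtype.ext h1)
        (fun i hi β hβ x hx => by
          interval_cases i
          · simpa using hβ.1 x
          · have h1 : (x : Ω) ∈ R := by simpa using hx
            rw [hβ.2 x h1]
            simp)
        (κ ^ p ^ a) ⟨hβs, hβfix⟩
      exact ⟨a + m, by rw [pow_add, pow_mul]; exact hm⟩

end Cfsg.Agent.S5106
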