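import Cfsg.Statements.S5107
import Cfsg.Agent.Helper85.Centric

set_option autoImplicit false
open Cfsg

namespace Cfsg.Agent.S5107

open Cfsg.FusionSystem Cfsg.Agent.Helper85

variable {G : Type*} [Group G]

/-- the elements centralizing `Z` and acting on `Q` by multiplication with elements of `Z` -/
def stab (Z Q : Subgroup G) : Subgroup G where
  carrier := {x | x ∈ Subgroup.centralizer (Z : Set G) ∧ ∀ y ∈ Q, x * y * x⁻¹ * y⁻¹ ∈ Z}
  one_mem' := ⟨Subgroup.one_mem _, fun y _ => by simp⟩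
  mul_mem' := by
    rintro a b ⟨ha, ha'⟩ ⟨hb, hb'⟩
    refine ⟨Subgroup.mul_mem _ ha hb, fun y hy => ?_⟩
    have h1 := hb' y hy
    have h2 := ha' y hy
    have h3 : (b * y * b⁻¹ * y⁻¹) * a = a * (b * y * b⁻¹ * y⁻¹) := (Subgroup.mem_centralizer_iff.mp ha) _ h1
    have h4 : a * b * y * (a * b)⁻¹ * y⁻¹ = (a * (b * y * b⁻¹ * y⁻¹)) * a⁻¹ * (a * y * a⁻¹ * y⁻¹) := by group
    rw [h4, ← h3]
    have h5 : (b * y * b⁻¹ * y⁻¹) * a * a⁻¹ * (a * y * a⁻¹ * y⁻¹)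
        = (b * y * b⁻¹ * y⁻¹) * (a * y * a⁻¹ * y⁻¹) := by group
    rw [h5]
    exact Z.mul_mem h1 h2
  inv_mem' := by
    rintro a ⟨ha, ha'⟩
    refine ⟨Subgroup.inv_mem _ ha, fun y hy => ?_⟩
    have h2 := ha' y hy
    have h3 : Commute (a * y * a⁻¹ * y⁻¹) a := (Subgroup.mem_centralizer_iff.mp ha) _ h2
    have h4 : a⁻¹ * y * a⁻¹⁻¹ * y⁻¹ = a⁻¹ * ((a * y * a⁻¹ * y⁻¹)⁻¹ * a) := by group
    have h5 : (a * y * a⁻¹ * y⁻¹)⁻¹ * a = a * (a * y * a⁻¹ * y⁻¹)⁻¹ := h3.inv_left.eq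
    rw [h4, h5, inv_mul_cancel_left]
    exact Z.inv_mem h2

theorem mem_stab {Z Q : Subgroup G} {x : G} :
    x ∈ stab Z Q ↔ x ∈ Subgroup.centralizer (Z : Set G) ∧ ∀ y ∈ Q, x * y * x⁻¹ * y⁻¹ ∈ Z := Iff.rfl

/-- elements of order prime to `p` in the stabilizer centralize `Q` -/
theorem coprime_centralizes {p : ℕ} {Z Q : Subgroup G} (hZp : IsPGroup p Z) {x : G} (hx : x ∈ stab Z Q)
    (hcop : Nat.Coprime (orderOf x) p) {y : G} (hy : y ∈ Q) : x * y * x⁻¹ = y := by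
  obtain ⟨hxC, hxQ⟩ := hx
  have hζ := hxQ y hy
  have hcomm : Commute (x * y * x⁻¹ * y⁻¹) x := (Subgroup.mem_centralizer_iff.mp hxC) _ hζ
  have hpow : ∀ n : ℕ, x ^ n * y * (x ^ n)⁻¹ = (x * y * x⁻¹ * y⁻¹) ^ n * y := by
    intro n
    induction n with
    | zero => simp
    | succ n ih =>
      have h1 : x ^ (n + 1) * y * (x ^ (n + 1))⁻¹ = x * (x ^ n * y * (x ^ n)⁻¹) * x⁻¹ := by
        rw [pow_succ']
        group
      rw [h1, ih]
      have h2 : x * ((x * y * x⁻¹ * y⁻¹) ^ n * y) * x⁻¹ = (x * (x * y * x⁻¹ * y⁻¹) ^ n) * (y * x⁻¹) := by group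
      have h3 : x * (x * y * x⁻¹ * y⁻¹) ^ n = (x * y * x⁻¹ * y⁻¹) ^ n * x := (hcomm.pow_left n).eq.symm
      rw [h2, h3, pow_succ]
      group
  have h1 := hpow (orderOf x)
  rw [pow_orderOf_eq_one] at h1
  have h2 : (x * y * x⁻¹ * y⁻¹) ^ orderOf x = 1 := by
    have : (x * y * x⁻¹ * y⁻¹) ^ orderOf x * y = y := by
      rw [← h1]
      simp
    exact mul_eq_right.mp this
  obtain ⟨j, hj⟩ := hZp ⟨x * y * x⁻¹ * y⁻¹, hζ⟩
  have h3 : (x * y * x⁻¹ * y⁻¹) ^ p ^ j = 1 := by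
    have := congrArg Subtype.val hj
    simpa using this
  have h4 : orderOf (x * y * x⁻¹ * y⁻¹) ∣ Nat.gcd (orderOf x) (p ^ j) :=
    Nat.dvd_gcd (orderOf_dvd_of_pow_eq_one h2) (orderOf_dvd_of_pow_eq_one h3)
  have h5 : Nat.gcd (orderOf x) (p ^ j) = 1 := Nat.Coprime.pow_right j hcop
  rw [h5] at h4
  have h6 : x * y * x⁻¹ * y⁻¹ = 1 := orderOf_eq_one_iff.mp (Nat.dvd_one.mp h4)
  calc x * y * x⁻¹ = (x * y * x⁻¹ * y⁻¹) * y := by group
    _ = y := by rw [h6, one_mul]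

/-- the `p`-residual of the stabilizer centralizes `Q` -/
theorem pResidual_centralizes {p : ℕ} {Z Q : Subgroup G} (hZp : IsPGroup p Z)
    {k : ↥(stab Z Q)} (hk : k ∈ pResidual p ↥(stab Z Q)) : ∀ y ∈ Q, (k : G) * y * (k : G)⁻¹ = y := by
  refine Subgroup.closure_induction (G := ↥(stab Z Q))
    (p := fun (k : ↥(stab Z Q)) _ => ∀ y ∈ Q, (k : G) * y * (k : G)⁻¹ = y) ?_ ?_ ?_ ?_ hk
  · intro x hx y hy
    have hx' : Nat.Coprime (orderOf x) p := hx
    rw [← Subgroup.orderOf_coe] at hx'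
    exact coprime_centralizes hZp x.2 hx' hy
  · intro y _
    simp
  · intro a b _ _ ha hb y hy
    have h1 : ((a * b : ↥(stab Z Q)) : G) * y * ((a * b : ↥(stab Z Q)) : G)⁻¹
        = (a : G) * ((b : G) * y * (b : G)⁻¹) * (a : G)⁻¹ := by
      push_cast
      group
    rw [h1, hb y hy, ha y hy]
  · intro a _ ha y hy
    have h1 := ha y hy
    have h2 : ((a⁻¹ : ↥(stab Z Q)) : G) * y * ((a⁻¹ : ↥(stab Z Q)) : G)⁻¹
        = (a : G)⁻¹ * ((a : G) * y * (a : G)⁻¹) * (a : G) := by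
      rw [h1]
      push_cast
      group
    rw [h2]
    group

variable [Finite G] {p : ℕ} [Fact p.Prime]

/-- fusion by elements centralizing the centre of `S` is controlled by the normalizer of `S` -/
theorem ctl_of_centralizes (S : Sylow p G)
    (hcl : ⁅(S : Subgroup G), (S : Subgroup G)⁆ ≤ (S : Subgroup G) ⊓ Subgroup.centralizer ((S : Subgroup G) : Set G))
    (g₂ : G) (hg₂ : g₂ ∈ Subgroup.centralizer
      ((((S : Subgroup G) ⊓ Subgroup.centralizer ((S : Subgroup G) : Set G) : Subgroup G)) : Set G))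
    (P₁ : Subgroup G) (hP₁ : P₁ ≤ (S : Subgroup G)) (hP₁g : ∀ x ∈ P₁, g₂ * x * g₂⁻¹ ∈ (S : Subgroup G)) :
    ∃ n ∈ Subgroup.normalizer ((S : Subgroup G) : Set G), ∀ x ∈ P₁, n * x * n⁻¹ = g₂ * x * g₂⁻¹ := by
  have hZp : IsPGroup p ↥((S : Subgroup G) ⊓ Subgroup.centralizer ((S : Subgroup G) : Set G)) :=
    S.isPGroup'.to_le inf_le_left
  have hS_CZ : (S : Subgroup G) ≤ Subgroup.centralizer
      ((((S : Subgroup G) ⊓ Subgroup.centralizer ((S : Subgroup G) : Set G) : Subgroup G)) : Set G) := by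
    intro s hs
    rw [Subgroup.mem_centralizer_iff]
    intro z hz
    exact ((Subgroup.mem_centralizer_iff.mp hz.2) s hs).symm
  have hQS : Helper84.cj g₂ P₁ ≤ (S : Subgroup G) := by
    rintro _ ⟨x, hx, rfl⟩
    exact hP₁g x hx
  have hSB : (S : Subgroup G)
      ≤ stab ((S : Subgroup G) ⊓ Subgroup.centralizer ((S : Subgroup G) : Set G)) (Helper84.cj g₂ P₁) := by
    intro s hs
    refine ⟨hS_CZ hs, fun y hy => hcl ?_⟩
    rw [← commutatorElement_def]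
    exact Subgroup.commutator_mem_commutator hs (hQS hy)
  have hS₁B : Helper84.cj g₂ (S : Subgroup G)
      ≤ stab ((S : Subgroup G) ⊓ Subgroup.centralizer ((S : Subgroup G) : Set G)) (Helper84.cj g₂ P₁) := by
    rintro _ ⟨s, hs, rfl⟩
    refine ⟨?_, ?_⟩
    · show g₂ * s * g₂⁻¹ ∈ _
      exact Subgroup.mul_mem _ (Subgroup.mul_mem _ hg₂ (hS_CZ hs)) (Subgroup.inv_mem _ hg₂)
    · rintro _ ⟨u, hu, rfl⟩
      show g₂ * s * g₂⁻¹ * (g₂ * u * g₂⁻¹) * (g₂ * s * g₂⁻¹)⁻¹ * (g₂ * u * g₂⁻¹)⁻¹ ∈ _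
      have h1 : s * u * s⁻¹ * u⁻¹ ∈ (S : Subgroup G) ⊓ Subgroup.centralizer ((S : Subgroup G) : Set G) := by
        apply hcl
        rw [← commutatorElement_def]
        exact Subgroup.commutator_mem_commutator hs (hP₁ hu)
      have h2 : (s * u * s⁻¹ * u⁻¹) * g₂ = g₂ * (s * u * s⁻¹ * u⁻¹) :=
        (Subgroup.mem_centralizer_iff.mp hg₂) _ h1
      have h3 : g₂ * s * g₂⁻¹ * (g₂ * u * g₂⁻¹) * (g₂ * s * g₂⁻¹)⁻¹ * (g₂ * u * g₂⁻¹)⁻¹
          = (g₂ * (s * u * s⁻¹ * u⁻¹)) * g₂⁻¹ := by group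
      rw [h3, ← h2, mul_inv_cancel_right]
      exact h1
  obtain ⟨b, hbB, hb⟩ := Helper84.exists_cj_le_sylow_of_le S hSB hS₁B (Helper84.isPGroup_cj S.isPGroup')
  have hm : b * g₂ ∈ Subgroup.normalizer ((S : Subgroup G) : Set G) := by
    apply mem_normalizer_of_conj_mem
    intro s hs
    have h1 : b * g₂ * s * (b * g₂)⁻¹ = b * (g₂ * s * g₂⁻¹) * b⁻¹ := by group
    rw [h1]
    exact hb (Helper84.cj_mem (Helper84.cj_mem hs))
  obtain ⟨σ, hσ, k, hk, hbσk⟩ := exists_sylow_mul_pResidual (S.subtype hSB) ⟨b, hbB⟩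
  have hσS : (σ : G) ∈ (S : Subgroup G) := by
    have h1 : σ ∈ ((S.subtype hSB : Sylow p ↥(stab _ _)) : Subgroup ↥(stab _ _)) := hσ
    rw [Sylow.coe_subtype] at h1
    exact h1
  have hkQ := pResidual_centralizes hZp hk
  have hbσk' : b = (σ : G) * (k : G) := congrArg Subtype.val hbσk
  refine ⟨(σ : G)⁻¹ * (b * g₂), Subgroup.mul_mem _ (Subgroup.inv_mem _ (Subgroup.le_normalizer hσS)) hm,
    fun x hx => ?_⟩
  have hy : g₂ * x * g₂⁻¹ ∈ Helper84.cj g₂ P₁ := Helper84.cj_mem hx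
  have h1 := hkQ _ hy
  calc (σ : G)⁻¹ * (b * g₂) * x * ((σ : G)⁻¹ * (b * g₂))⁻¹
      = (σ : G)⁻¹ * (b * (g₂ * x * g₂⁻¹) * b⁻¹) * (σ : G) := by group
    _ = (σ : G)⁻¹ * ((σ : G) * ((k : G) * (g₂ * x * g₂⁻¹) * (k : G)⁻¹) * (σ : G)⁻¹) * (σ : G) := by
      rw [hbσk']
      group
    _ = (σ : G)⁻¹ * ((σ : G) * (g₂ * x * g₂⁻¹) * (σ : G)⁻¹) * (σ : G) := by rw [h1]
    _ = g₂ * x * g₂⁻¹ := by group

/-- the normalizer of `S` controls fusion in `S` -/
theorem ctl (S : Sylow p G)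
    (hcl : ⁅(S : Subgroup G), (S : Subgroup G)⁆ ≤ (S : Subgroup G) ⊓ Subgroup.centralizer ((S : Subgroup G) : Set G))
    (hZ : Cfsg.IsStronglyClosed ((S : Subgroup G) ⊓ Subgroup.centralizer ((S : Subgroup G) : Set G)) (S : Subgroup G))
    (g : G) (P : Subgroup G) (hP : P ≤ (S : Subgroup G)) (hPg : ∀ x ∈ P, g * x * g⁻¹ ∈ (S : Subgroup G)) :
    ∃ n ∈ Subgroup.normalizer ((S : Subgroup G) : Set G), ∀ x ∈ P, n * x * n⁻¹ = g * x * g⁻¹ := by
  have hZp : IsPGroup p ↥((S : Subgroup G) ⊓ Subgroup.centralizer ((S : Subgroup G) : Set G)) :=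
    S.isPGroup'.to_le inf_le_left
  have hZfin : Finite ↥((S : Subgroup G) ⊓ Subgroup.centralizer ((S : Subgroup G) : Set G)) := inferInstance
  have hS_CZ : (S : Subgroup G) ≤ Subgroup.centralizer
      ((((S : Subgroup G) ⊓ Subgroup.centralizer ((S : Subgroup G) : Set G) : Subgroup G)) : Set G) := by
    intro s hs
    rw [Subgroup.mem_centralizer_iff]
    intro z hz
    exact ((Subgroup.mem_centralizer_iff.mp hz.2) s hs).symm
  have hQS : Helper84.cj g P ≤ (S : Subgroup G) := by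
    rintro _ ⟨x, hx, rfl⟩
    exact hPg x hx
  -- `Z` and its conjugate by `g` centralize `Q = g P g⁻¹`
  have hZC : (S : Subgroup G) ⊓ Subgroup.centralizer ((S : Subgroup G) : Set G)
      ≤ Subgroup.centralizer ((Helper84.cj g P : Subgroup G) : Set G) := by
    intro z hz
    rw [Subgroup.mem_centralizer_iff]
    intro y hy
    exact (Subgroup.mem_centralizer_iff.mp hz.2) y (hQS hy)
  have hZ₁C : Helper84.cj g ((S : Subgroup G) ⊓ Subgroup.centralizer ((S : Subgroup G) : Set G))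
      ≤ Subgroup.centralizer ((Helper84.cj g P : Subgroup G) : Set G) := by
    rintro _ ⟨z, hz, rfl⟩
    rw [Subgroup.mem_centralizer_iff]
    rintro _ ⟨x, hx, rfl⟩
    have h1 : x * z = z * x := (Subgroup.mem_centralizer_iff.mp hz.2) x (hP hx)
    show g * x * g⁻¹ * (g * z * g⁻¹) = g * z * g⁻¹ * (g * x * g⁻¹)
    calc g * x * g⁻¹ * (g * z * g⁻¹) = g * (x * z) * g⁻¹ := by group
      _ = g * (z * x) * g⁻¹ := by rw [h1]
      _ = g * z * g⁻¹ * (g * x * g⁻¹) := by group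
  obtain ⟨R, hR⟩ := (hZp.comap_subtype (K := Subgroup.centralizer ((Helper84.cj g P : Subgroup G) : Set G))).exists_le_sylow
  obtain ⟨c, hc⟩ := Helper84.exists_cj_le_sylow R
    ((Helper84.isPGroup_cj (g := g) hZp).comap_subtype (K := Subgroup.centralizer ((Helper84.cj g P : Subgroup G) : Set G)))
  have hR'p : IsPGroup p ↥((R : Subgroup ↥(Subgroup.centralizer ((Helper84.cj g P : Subgroup G) : Set G))).map
      (Subgroup.centralizer ((Helper84.cj g P : Subgroup G) : Set G)).subtype) := R.isPGroup'.map _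
  obtain ⟨h, hh⟩ := Helper84.exists_cj_le_sylow S hR'p
  have hfact1 : ∀ z ∈ (S : Subgroup G) ⊓ Subgroup.centralizer ((S : Subgroup G) : Set G),
      h * z * h⁻¹ ∈ (S : Subgroup G) := by
    intro z hz
    refine hh (Helper84.cj_mem ⟨⟨z, hZC hz⟩, hR ?_, rfl⟩)
    exact hz
  have hfact2 : ∀ z ∈ (S : Subgroup G) ⊓ Subgroup.centralizer ((S : Subgroup G) : Set G),
      (h * ((c : G) * g)) * z * (h * ((c : G) * g))⁻¹ ∈ (S : Subgroup G) := by
    intro z hz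
    have h1 : (⟨g * z * g⁻¹, hZ₁C (Helper84.cj_mem hz)⟩ :
        ↥(Subgroup.centralizer ((Helper84.cj g P : Subgroup G) : Set G)))
        ∈ (Helper84.cj g ((S : Subgroup G) ⊓ Subgroup.centralizer ((S : Subgroup G) : Set G))).subgroupOf
          (Subgroup.centralizer ((Helper84.cj g P : Subgroup G) : Set G)) :=
      show g * z * g⁻¹ ∈ Helper84.cj g _ from Helper84.cj_mem hz
    have h2 := hc (Helper84.cj_mem h1)
    have h3 : (h * ((c : G) * g)) * z * (h * ((c : G) * g))⁻¹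
        = h * ((c : G) * (g * z * g⁻¹) * (c : G)⁻¹) * h⁻¹ := by group
    rw [h3]
    exact hh (Helper84.cj_mem ⟨_, h2, rfl⟩)
  have hhN : h ∈ Subgroup.normalizer
      ((((S : Subgroup G) ⊓ Subgroup.centralizer ((S : Subgroup G) : Set G) : Subgroup G)) : Set G) := by
    apply mem_normalizer_of_conj_mem
    intro z hz
    exact hZ.2 z hz h (hfact1 z hz)
  have hhcgN : h * ((c : G) * g) ∈ Subgroup.normalizer
      ((((S : Subgroup G) ⊓ Subgroup.centralizer ((S : Subgroup G) : Set G) : Subgroup G)) : Set G) := by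
    apply mem_normalizer_of_conj_mem
    intro z hz
    exact hZ.2 z hz _ (hfact2 z hz)
  have hg₁N : (c : G) * g ∈ Subgroup.normalizer
      ((((S : Subgroup G) ⊓ Subgroup.centralizer ((S : Subgroup G) : Set G) : Subgroup G)) : Set G) := by
    have h1 : (c : G) * g = h⁻¹ * (h * ((c : G) * g)) := by group
    rw [h1]
    exact Subgroup.mul_mem _ (Subgroup.inv_mem _ hhN) hhcgN
  -- second step
  have hT₂ : Helper84.cj ((c : G) * g) (S : Subgroup G) ≤ Subgroup.centralizer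
      ((((S : Subgroup G) ⊓ Subgroup.centralizer ((S : Subgroup G) : Set G) : Subgroup G)) : Set G) := by
    rintro _ ⟨s, hs, rfl⟩
    rw [Subgroup.mem_centralizer_iff]
    intro z hz
    have hz' : ((c : G) * g)⁻¹ * z * ((c : G) * g)
        ∈ (S : Subgroup G) ⊓ Subgroup.centralizer ((S : Subgroup G) : Set G) :=
      (Subgroup.mem_normalizer_iff''.mp hg₁N z).mp hz
    have h1 : s * (((c : G) * g)⁻¹ * z * ((c : G) * g)) = (((c : G) * g)⁻¹ * z * ((c : G) * g)) * s :=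
      (Subgroup.mem_centralizer_iff.mp hz'.2) s hs
    show z * (((c : G) * g) * s * ((c : G) * g)⁻¹) = ((c : G) * g) * s * ((c : G) * g)⁻¹ * z
    calc z * (((c : G) * g) * s * ((c : G) * g)⁻¹)
        = ((c : G) * g) * ((((c : G) * g)⁻¹ * z * ((c : G) * g)) * s) * ((c : G) * g)⁻¹ := by group
      _ = ((c : G) * g) * (s * (((c : G) * g)⁻¹ * z * ((c : G) * g))) * ((c : G) * g)⁻¹ := by rw [h1]
      _ = ((c : G) * g) * s * ((c : G) * g)⁻¹ * z := by group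
  obtain ⟨c₂, hc₂C, hc₂⟩ := Helper84.exists_cj_le_sylow_of_le S hS_CZ hT₂ (Helper84.isPGroup_cj S.isPGroup')
  have hn₀ : c₂ * ((c : G) * g) ∈ Subgroup.normalizer ((S : Subgroup G) : Set G) := by
    apply mem_normalizer_of_conj_mem
    intro s hs
    have h1 : c₂ * ((c : G) * g) * s * (c₂ * ((c : G) * g))⁻¹ = c₂ * (((c : G) * g) * s * ((c : G) * g)⁻¹) * c₂⁻¹ := by
      group
    rw [h1]
    exact hc₂ (Helper84.cj_mem (Helper84.cj_mem hs))
  -- the element `c` centralizes `Q`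
  have hcQ : ∀ x ∈ P, (c : G) * (g * x * g⁻¹) * (c : G)⁻¹ = g * x * g⁻¹ := by
    intro x hx
    have h1 : (g * x * g⁻¹) * (c : G) = (c : G) * (g * x * g⁻¹) :=
      (Subgroup.mem_centralizer_iff.mp c.2) _ (Helper84.cj_mem hx)
    rw [← h1, mul_inv_cancel_right]
  have hP₁S : Helper84.cj (c₂ * ((c : G) * g)) P ≤ (S : Subgroup G) := by
    rintro _ ⟨x, hx, rfl⟩
    exact (Subgroup.mem_normalizer_iff.mp hn₀ x).mp (hP hx)
  have hkey : ∀ x ∈ P, c₂⁻¹ * ((c₂ * ((c : G) * g)) * x * (c₂ * ((c : G) * g))⁻¹) * c₂⁻¹⁻¹ = g * x * g⁻¹ := by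
    intro x hx
    have h1 : c₂⁻¹ * ((c₂ * ((c : G) * g)) * x * (c₂ * ((c : G) * g))⁻¹) * c₂⁻¹⁻¹
        = (c : G) * (g * x * g⁻¹) * (c : G)⁻¹ := by group
    rw [h1, hcQ x hx]
  obtain ⟨n₁, hn₁, hn₁v⟩ := ctl_of_centralizes S hcl c₂⁻¹ (Subgroup.inv_mem _ hc₂C)
    (Helper84.cj (c₂ * ((c : G) * g)) P) hP₁S (by
      rintro _ ⟨x, hx, rfl⟩
      show c₂⁻¹ * ((c₂ * ((c : G) * g)) * x * (c₂ * ((c : G) * g))⁻¹) * c₂⁻¹⁻¹ ∈ (S : Subgroup G)
      rw [hkey x hx]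
      exact hPg x hx)
  refine ⟨n₁ * (c₂ * ((c : G) * g)), Subgroup.mul_mem _ hn₁ hn₀, fun x hx => ?_⟩
  have h1 := hn₁v _ (Helper84.cj_mem (g := c₂ * ((c : G) * g)) hx)
  have h2 : n₁ * (c₂ * ((c : G) * g)) * x * (n₁ * (c₂ * ((c : G) * g)))⁻¹
      = n₁ * ((c₂ * ((c : G) * g)) * x * (c₂ * ((c : G) * g))⁻¹) * n₁⁻¹ := by group
  rw [h2, h1, hkey x hx]

/-- If a Sylow p-subgroup S of a finite group G has nilpotency class at most two and its centre is strongly closed in S with respect to G, then every map of the fusion system of G on S is conjugation by an element of N_G(S), and S is the largest subgroup normal in that fusion system. -/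
theorem result {G : Type*} [Group G] [Finite G] (p : ℕ) [Fact p.Prime] (S : Sylow p G) (hcl : ⁅(S : Subgroup G), (S : Subgroup G)⁆ ≤ (S : Subgroup G) ⊓ Subgroup.centralizer ((S : Subgroup G) : Set G)) (hZ : Cfsg.IsStronglyClosed ((S : Subgroup G) ⊓ Subgroup.centralizer ((S : Subgroup G) : Set G)) (S : Subgroup G)) : (∀ (P : Subgroup G) (φ : P →* G), φ ∈ (Cfsg.groupFusionSystem (S : Subgroup G)).Hom P → ∃ g ∈ Subgroup.normalizer ((S : Subgroup G) : Set G), ∀ x : P, φ x = g * (x : G) * g⁻¹) ∧ (Cfsg.groupFusionSystem (S : Subgroup G)).core = S := by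
  have hpart1 : ∀ (P : Subgroup G) (φ : P →* G), φ ∈ (Cfsg.groupFusionSystem (S : Subgroup G)).Hom P →
      ∃ g ∈ Subgroup.normalizer ((S : Subgroup G) : Set G), ∀ x : P, φ x = g * (x : G) * g⁻¹ := by
    rintro P φ ⟨hP, hφS, g, hg⟩
    obtain ⟨n, hn, hnv⟩ := ctl S hcl hZ g P hP (fun x hx => by
      have := hφS ⟨x, hx⟩
      rwa [hg] at this)
    exact ⟨n, hn, fun x => by rw [hg x]; exact (hnv x x.2).symm⟩
  refine ⟨hpart1, ?_⟩
  apply le_antisymm
  · exact sSup_le fun Q hQ => hQ.1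
  · apply le_sSup
    refine ⟨le_rfl, fun P φ hφ => ?_⟩
    have hP : P ≤ (S : Subgroup G) := hφ.1
    obtain ⟨n, hn, hnv⟩ := hpart1 P φ hφ
    have hPS : P ⊔ (S : Subgroup G) ≤ (S : Subgroup G) := sup_le hP le_rfl
    refine ⟨conjHom (P ⊔ (S : Subgroup G)) n,
      ⟨hPS, fun y => (Subgroup.mem_normalizer_iff.mp hn y).mp (hPS y.2), n, fun _ => rfl⟩,
      fun x => (hnv x).symm, ?_⟩
    ext y
    constructor
    · rintro ⟨w, hw, rfl⟩
      exact (Subgroup.mem_normalizer_iff.mp hn w).mp hw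
    · intro hy
      have hw : n⁻¹ * y * n ∈ (S : Subgroup G) := (Subgroup.mem_normalizer_iff''.mp hn y).mp hy
      refine ⟨⟨n⁻¹ * y * n, Subgroup.mem_sup_right hw⟩, hw, ?_⟩
      show n * (n⁻¹ * y * n) * n⁻¹ = y
      group

end Cfsg.Agent.S5107
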