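import Cfsg.Statements.S5111
import Cfsg.Agent.Helper85.Sat4

set_option autoImplicit false
open Cfsg

namespace Cfsg.Agent.S5111

open Cfsg.FusionSystem Cfsg.Agent.Helper85

/-- A fusion system over a finite p-group S is saturated if and only if the inner automorphisms of S form a Sylow p-subgroup of Aut_F(S) and every fully normalized subgroup of S is receptive. -/
theorem result {Ω : Type*} [Group Ω] {S : Subgroup Ω} [Finite S] (p : ℕ) [Fact p.Prime] (hS : IsPGroup p S) (F : Cfsg.FusionSystem S) : F.IsSaturated p ↔ (F.IsFullyAutomized p S ∧ ∀ P : Subgroup Ω, F.IsFullyNormalized P → F.IsReceptive P) := by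
  constructor
  · intro hF
    refine ⟨?_, fun P hP => isReceptive_of_fullyNormalized hS F hF hP⟩
    obtain ⟨Q, hSQ, hQa, -⟩ := hF S le_rfl
    obtain ⟨e, -⟩ := (isConj_iff F).1 hSQ
    have hQS : Q = S := Subgroup.eq_of_le_of_card_ge (isConj_le_right F hSQ)
      (Nat.card_congr e.toEquiv).le
    rw [hQS] at hQa
    exact hQa
  · rintro ⟨hSa, hrec⟩ P hP
    obtain ⟨Q, hPQ, hQ⟩ := exists_fullyNormalized_conj F hP
    exact ⟨Q, hPQ, fullyAutomized_of_fullyNormalized_aux hS F hSa hrec (Nat.card S) Q hQ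
      (Nat.le_add_left _ _), hrec Q hQ⟩

end Cfsg.Agent.S5111
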