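import Cfsg.Statements.S5112
import Cfsg.Agent.S3116
import Cfsg.Agent.Helper84.FusionCons

set_option autoImplicit false
open Cfsg

namespace Cfsg.Agent.S5112

open Cfsg.FusionSystem

theorem a_mem_zpowers (N : ℕ) [NeZero N] (j : ZMod (2 * N)) :
    (QuaternionGroup.a j : QuaternionGroup N) ∈ Subgroup.zpowers (QuaternionGroup.a 1 : QuaternionGroup N) := by
  rw [Subgroup.mem_zpowers_iff]
  refine ⟨(j.val : ℤ), ?_⟩
  rw [zpow_natCast, QuaternionGroup.a_one_pow]
  simp

/-- The automorphism group of a generalized quaternion group of order at least 16 is a 2-group. -/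
theorem quaternion_case (N : ℕ) (k : ℕ) (hk : 2 ≤ k) (hN : N = 2 ^ k) :
    IsPGroup 2 (MulAut (QuaternionGroup N)) := by
  have hN4 : 4 ≤ N := by
    rw [hN]
    calc 4 = 2 ^ 2 := by norm_num
      _ ≤ 2 ^ k := Nat.pow_le_pow_right (by norm_num) hk
  have : NeZero N := ⟨by omega⟩
  apply Cfsg.Agent.S3116.aut_two_group (QuaternionGroup.a 1) (QuaternionGroup.xa 0) (k + 1) (by omega)
  · rw [QuaternionGroup.orderOf_a_one, hN, pow_succ, mul_comm]
  · intro g
    cases g with
    | a j => left; exact a_mem_zpowers N j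
    | xa j =>
      right
      refine ⟨QuaternionGroup.a j, a_mem_zpowers N j, ?_⟩
      rw [QuaternionGroup.xa_mul_a, zero_add]
  · intro φ
    have h1 : orderOf (φ (QuaternionGroup.a 1)) = 2 * N := by
      rw [MulEquiv.orderOf_eq, QuaternionGroup.orderOf_a_one]
    cases hφ : φ (QuaternionGroup.a 1) with
    | a j => exact a_mem_zpowers N j
    | xa j => rw [hφ, QuaternionGroup.orderOf_xa] at h1; omega
  · intro h
    rw [← mem_powers_iff_mem_zpowers] at h
    obtain ⟨j, hj⟩ := (Submonoid.mem_powers_iff _ _).mp h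
    rw [QuaternionGroup.a_one_pow] at hj
    exact absurd hj (by simp)

/-- If S is a dihedral or generalized quaternion 2-group of order at least 16, then in every saturated fusion system over S (at the prime 2) the automorphism group Aut_F(S) consists of the inner automorphisms of S. -/
theorem result {Ω : Type*} [Group Ω] {S : Subgroup Ω} [Finite S] (n : ℕ) (hn : 4 ≤ n) (hshape : Nonempty (S ≃* DihedralGroup (2 ^ (n - 1))) ∨ Nonempty (S ≃* QuaternionGroup (2 ^ (n - 2)))) (F : Cfsg.FusionSystem S) (hF : F.IsSaturated 2) : F.autGroup S = Cfsg.Inn S := by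
  have : Fact (Nat.Prime 2) := ⟨Nat.prime_two⟩
  have hAut : IsPGroup 2 (MulAut S) := by
    rcases hshape with ⟨⟨e⟩⟩ | ⟨⟨e⟩⟩
    · have h4 : 4 ≤ 2 ^ (n - 1) := by
        calc 4 = 2 ^ 2 := by norm_num
          _ ≤ 2 ^ (n - 1) := Nat.pow_le_pow_right (by norm_num) (by omega)
      exact (Cfsg.Agent.S3116.dihedral_case (2 ^ (n - 1)) h4 (n - 1) rfl).of_equiv (MulAut.congr e).symm
    · exact (quaternion_case (2 ^ (n - 2)) (n - 2) (by omega) rfl).of_equiv (MulAut.congr e).symm
  have hS : IsPGroup 2 S := by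
    rcases hshape with ⟨⟨e⟩⟩ | ⟨⟨e⟩⟩
    · have : NeZero (2 ^ (n - 1)) := ⟨by positivity⟩
      refine IsPGroup.of_card (n := n) ?_
      rw [Nat.card_congr e.toEquiv, DihedralGroup.nat_card, ← pow_succ']
      congr 1; omega
    · have : NeZero (2 ^ (n - 2)) := ⟨by positivity⟩
      refine IsPGroup.of_card (n := n) ?_
      rw [Nat.card_congr e.toEquiv, Nat.card_eq_fintype_card, QuaternionGroup.card]
      have : (4 : ℕ) = 2 ^ 2 := by norm_num
      rw [this, ← pow_add]
      congr 1; omega
  have hfa := (Cfsg.Agent.Helper84.saturated_fullyNormalized hS F hF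
    (Cfsg.Agent.Helper84.fullyNormalized_self F)).1
  have hcard := (Cfsg.Agent.Helper84.fullyAutomized_iff hS F le_rfl).1 hfa (F.autGroup S) le_rfl
    (hAut.to_subgroup _)
  have hle : autInducedBy S S ≤ Cfsg.Inn S := by
    intro α hα
    obtain ⟨g, hg, hg'⟩ := (Cfsg.Agent.Helper84.mem_autInducedBy_iff S S α).mp hα
    refine ⟨⟨g, hg⟩, ?_⟩
    ext x
    exact (hg' x).symm
  have hfin : Finite (MulAut S) := inferInstance
  symm
  exact Subgroup.eq_of_le_of_card_ge (Cfsg.Agent.Helper84.inn_le_autGroup F le_rfl)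
    (hcard.trans (Subgroup.card_le_of_le hle))

end Cfsg.Agent.S5112
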