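import Cfsg.Statements.S5122
import Cfsg.Agent.Helper84.FusionGroup2

set_option autoImplicit false
open Cfsg

namespace Cfsg.Agent.S5122

open Cfsg.FusionSystem Cfsg.Agent.Helper84

/-- Let G be a finite group with Sylow p-subgroup S. Every subgroup P of S has a G-conjugate Q ≤ S such that N_S(Q) is a Sylow p-subgroup of N_G(Q); and for any Q ≤ S with that property, C_S(Q) is a Sylow p-subgroup of C_G(Q) and the automorphisms of Q induced by N_S(Q) form a Sylow p-subgroup of those induced by N_G(Q). -/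
theorem result {G : Type*} [Group G] [Finite G] (p : ℕ) [Fact p.Prime] (S : Sylow p G) : (∀ P : Subgroup G, P ≤ S → ∃ g : G, P.map (MulAut.conj g).toMonoidHom ≤ S ∧ (∃ R : Sylow p ↥(Subgroup.normalizer ((P.map (MulAut.conj g).toMonoidHom : Subgroup G) : Set G)), (R : Subgroup ↥(Subgroup.normalizer ((P.map (MulAut.conj g).toMonoidHom : Subgroup G) : Set G))) = (Cfsg.FusionSystem.normalizerIn (S : Subgroup G) (P.map (MulAut.conj g).toMonoidHom)).subgroupOf (Subgroup.normalizer ((P.map (MulAut.conj g).toMonoidHom : Subgroup G) : Set G)))) ∧ ∀ Q : Subgroup G, Q ≤ S → (∃ R : Sylow p ↥(Subgroup.normalizer (Q : Set G)), (R : Subgroup ↥(Subgroup.normalizer (Q : Set G))) = (Cfsg.FusionSystem.normalizerIn (S : Subgroup G) Q).subgroupOf (Subgroup.normalizer (Q : Set G))) → (∃ R : Sylow p ↥(Subgroup.centralizer (Q : Set G)), (R : Subgroup ↥(Subgroup.centralizer (Q : Set G))) = (Cfsg.FusionSystem.centralizerIn (S : Subgroup G) Q).subgroupOf (Subgroup.centralizer (Q : Set G))) ∧ (∃ R : Sylow p ↥(Cfsg.autInducedBy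 ⊤ Q), (R : Subgroup ↥(Cfsg.autInducedBy ⊤ Q)) = (Cfsg.autInducedBy (S : Subgroup G) Q).subgroupOf (Cfsg.autInducedBy ⊤ Q)) := by
  have hSfin : Finite (S : Subgroup G) := inferInstance
  constructor
  · intro P hP
    obtain ⟨Q, hPQ, hQ⟩ := exists_fullyNormalized_conj (groupFusionSystem (S : Subgroup G)) hP
    obtain ⟨-, hQS, g, rfl⟩ := (groupFS_isConj_iff _).mp hPQ
    exact ⟨g, hQS, (groupFS_fullyNormalized_iff S _ hQS).mp hQ⟩
  · intro Q hQS hN
    have hfn : (groupFusionSystem (S : Subgroup G)).IsFullyNormalized Q :=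
      (groupFS_fullyNormalized_iff S Q hQS).mpr hN
    constructor
    · exact (groupFS_fullyCentralized_iff S Q hQS).mp
        (receptive_fullyCentralized _ Q (groupFS_receptive S hfn))
    · obtain ⟨-, h⟩ := groupFS_fullyAutomized S hfn
      have hA : (groupFusionSystem (S : Subgroup G)).autGroup Q = autInducedBy ⊤ Q := by
        rw [groupFS_autGroup _ hQS, autInducedBy_eq_map]
        ext α
        constructor
        · rintro ⟨k, rfl⟩
          exact ⟨k, Subgroup.mem_top _, rfl⟩
        · rintro ⟨k, -, rfl⟩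
          exact ⟨k, rfl⟩
      rw [hA] at h
      exact h

end Cfsg.Agent.S5122
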