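import Cfsg.Statements.S5123
import Cfsg.Agent.Helper84.FusionGroup2
import Cfsg.Agent.Helper85.Frattini

set_option autoImplicit false
open Cfsg

namespace Cfsg.Agent.S5123

open Cfsg.FusionSystem Cfsg.Agent.Helper84 Cfsg.Agent.Helper85

/-- the centralizer of `Q` is normalized by the normalizer of `Q` -/
theorem conj_mem_centralizer {G : Type*} [Group G] (Q : Subgroup G) {r t : G}
    (hr : r ∈ Subgroup.normalizer (Q : Set G)) (ht : t ∈ Subgroup.centralizer (Q : Set G)) :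
    r * t * r⁻¹ ∈ Subgroup.centralizer (Q : Set G) := by
  rw [Subgroup.mem_centralizer_iff]
  intro y hy
  have h1 : r⁻¹ * y * r ∈ Q := (Subgroup.mem_normalizer_iff''.mp hr y).mp hy
  have h2 := (Subgroup.mem_centralizer_iff.mp ht) _ h1
  calc y * (r * t * r⁻¹) = r * ((r⁻¹ * y * r) * t) * r⁻¹ := by group
    _ = r * (t * (r⁻¹ * y * r)) * r⁻¹ := by rw [h2]
    _ = r * t * r⁻¹ * y := by group

/-- Let G be a finite group with Sylow p-subgroup S, P, Q ≤ S and g ∈ G with gPg⁻¹ = Q, and suppose N_S(Q) is a Sylow p-subgroup of N_G(Q). Let N be the set of x ∈ N_S(P) with gxg⁻¹ ∈ N_S(Q)C_G(Q). Then some h ∈ C_G(Q) satisfies (hg)N(hg)⁻¹ ≤ S. -/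
theorem result {G : Type*} [Group G] [Finite G] (p : ℕ) [Fact p.Prime] (S : Sylow p G) (P Q : Subgroup G) (hP : P ≤ S) (hQ : Q ≤ S) (g : G) (hg : P.map (MulAut.conj g).toMonoidHom = Q) (hN : (∃ R : Sylow p ↥(Subgroup.normalizer (Q : Set G)), (R : Subgroup ↥(Subgroup.normalizer (Q : Set G))) = (Cfsg.FusionSystem.normalizerIn (S : Subgroup G) Q).subgroupOf (Subgroup.normalizer (Q : Set G)))) : ∃ h ∈ Subgroup.centralizer (Q : Set G), ((Cfsg.FusionSystem.normalizerIn (S : Subgroup G) P) ⊓ (Cfsg.FusionSystem.normalizerIn (S : Subgroup G) Q ⊔ Subgroup.centralizer (Q : Set G)).comap (MulAut.conj g).toMonoidHom).map (MulAut.conj (h * g)).toMonoidHom ≤ S := by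
  obtain ⟨R, hR⟩ := hN
  have hsupN : normalizerIn (S : Subgroup G) Q ⊔ Subgroup.centralizer (Q : Set G)
      ≤ Subgroup.normalizer (Q : Set G) :=
    sup_le inf_le_right (Subgroup.centralizer_le_normalizer _)
  let M' : Subgroup ↥(Subgroup.normalizer (Q : Set G)) :=
    (normalizerIn (S : Subgroup G) Q ⊔ Subgroup.centralizer (Q : Set G)).subgroupOf
      (Subgroup.normalizer (Q : Set G))
  let N₀ : Subgroup G := normalizerIn (S : Subgroup G) P ⊓
    (normalizerIn (S : Subgroup G) Q ⊔ Subgroup.centralizer (Q : Set G)).comap (MulAut.conj g).toMonoidHom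
  let T' : Subgroup ↥(Subgroup.normalizer (Q : Set G)) :=
    (cj g N₀).subgroupOf (Subgroup.normalizer (Q : Set G))
  have hRM : (R : Subgroup ↥(Subgroup.normalizer (Q : Set G))) ≤ M' := by
    rw [hR]
    intro x hx
    exact Subgroup.mem_sup_left hx
  have hTM : T' ≤ M' := by
    intro t ht
    obtain ⟨x, hx, hxt⟩ := (show (t : G) ∈ cj g N₀ from ht)
    show (t : G) ∈ normalizerIn (S : Subgroup G) Q ⊔ Subgroup.centralizer (Q : Set G)
    rw [← hxt]
    exact hx.2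
  have hTp : IsPGroup p T' :=
    (isPGroup_cj (S.isPGroup'.to_le (inf_le_left.trans inf_le_left))).comap_subtype
  obtain ⟨m, hmM, hm⟩ := exists_cj_le_sylow_of_le R hRM hTM hTp
  have hnorm : ∀ r ∈ normalizerIn (S : Subgroup G) Q, ∀ t ∈ Subgroup.centralizer (Q : Set G),
      r * t * r⁻¹ ∈ Subgroup.centralizer (Q : Set G) := fun r hr t ht => conj_mem_centralizer Q hr.2 ht
  have hmM' : (m : G) ∈ normalizerIn (S : Subgroup G) Q ⊔ Subgroup.centralizer (Q : Set G) := hmM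
  obtain ⟨s, hs, c, hc, hmsc⟩ := exists_mul_of_mem_sup hnorm hmM'
  refine ⟨c, hc, ?_⟩
  rintro _ ⟨x, hx, rfl⟩
  have hx' : x ∈ N₀ := hx
  have hgx : g * x * g⁻¹ ∈ Subgroup.normalizer (Q : Set G) := hsupN hx'.2
  have hT : (⟨g * x * g⁻¹, hgx⟩ : ↥(Subgroup.normalizer (Q : Set G))) ∈ T' :=
    show g * x * g⁻¹ ∈ cj g N₀ from cj_mem hx'
  have h1 : m * ⟨g * x * g⁻¹, hgx⟩ * m⁻¹ ∈ (R : Subgroup ↥(Subgroup.normalizer (Q : Set G))) :=
    hm (cj_mem hT)
  rw [hR] at h1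
  have h2 : (m : G) * (g * x * g⁻¹) * (m : G)⁻¹ ∈ normalizerIn (S : Subgroup G) Q := h1
  have h3 : (MulAut.conj (c * g)).toMonoidHom x = s⁻¹ * ((m : G) * (g * x * g⁻¹) * (m : G)⁻¹) * s := by
    rw [hmsc]
    simp only [MulEquiv.coe_toMonoidHom, MulAut.conj_apply]
    group
  rw [h3]
  exact Subgroup.mul_mem _ (Subgroup.mul_mem _ (Subgroup.inv_mem _ hs.1) h2.1) hs.1

end Cfsg.Agent.S5123
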