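import Cfsg.Statements.S5130
import Cfsg.Agent.Helper85.DirProdB

set_option autoImplicit false
open Cfsg

namespace Cfsg.Agent.S5130

open Cfsg.FusionSystem
open Cfsg.Agent.Helper88
open Cfsg.Agent.Helper85

/-- Let F be a saturated fusion system over a finite p-group S that is the direct product of two subgroups S₁ and S₂, each strongly closed in F. Let R be the full subsystem of F over S₁ (all maps of F between subgroups of S₁) and R′ the subsystem over S₁ of those maps that extend to the subgroup generated with S₂ fixing S₂ elementwise. Then R and R′ are saturated, R′ is normal in F and in R, and R is weakly normal in F. -/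
theorem result {Ω : Type*} [Group Ω] {S : Subgroup Ω} [Finite S] (p : ℕ) [Fact p.Prime] (hS : IsPGroup p S) (F : Cfsg.FusionSystem S) (hF : F.IsSaturated p) (S₁ S₂ : Subgroup Ω) (hprod : Cfsg.IsInternalDirectProduct S₁ S₂ S) (h₁ : F.StronglyClosed S₁) (h₂ : F.StronglyClosed S₂) (R R' : Cfsg.FusionSystem S₁) (hR : ∀ P : Subgroup Ω, P ≤ S₁ → R.Hom P = F.Hom P) (hR' : ∀ P : Subgroup Ω, P ≤ S₁ → R'.Hom P = F.centralizerHom S₂ P) : R.IsSaturated p ∧ R'.IsSaturated p ∧ R'.IsNormalIn F p ∧ R'.IsNormalIn R p ∧ R.IsWeaklyNormalIn F p := by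
  have hS₁S : S₁ ≤ S := hprod.1
  have hfinS₁ : Finite S₁ := Helper88.finite_of_le hS₁S
  have hS₁p : IsPGroup p S₁ := hS.to_le hS₁S
  have hRm : ∀ (P : Subgroup Ω), P ≤ S₁ → ∀ f, IsMap R P f ↔ IsMap F P f := by
    intro P hP f
    show (∃ φ ∈ R.Hom P, ∀ x : P, φ x = f x) ↔ (∃ φ ∈ F.Hom P, ∀ x : P, φ x = f x)
    rw [hR P hP]
  have hS₁C : S₁ ≤ centralizerIn S S₂ := fun x hx =>
    mem_centralizerIn_iff.2 ⟨hS₁S hx, fun y hy => (hprod.2.2.1 x hx y hy).symm⟩
  have hR'm : ∀ (P : Subgroup Ω), P ≤ S₁ → ∀ f, IsMap R' P f ↔ DPMap F S₂ P f := by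
    intro P hP f
    constructor
    · rintro ⟨φ, hφ, hφf⟩
      rw [hR' P hP, mem_centralizerHom_iff] at hφ
      obtain ⟨-, -, -, f', hf', hf'P, hf'Z⟩ := hφ
      exact ⟨f', hf', fun x hx => (hf'P x hx).trans (by
        rw [extHom_apply' φ hx]; exact hφf ⟨x, hx⟩), hf'Z⟩
    · rintro ⟨f', hf', hf'P, hf'₂⟩
      have hfF : IsMap F P f := (hf'.restrict le_sup_left).congr (fun x hx => (hf'P x hx).symm)
      obtain ⟨φ, hφ, hφf⟩ := hfF
      refine ⟨φ, ?_, hφf⟩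
      rw [hR' P hP, mem_centralizerHom_iff]
      refine ⟨isMap_extHom hφ, hP.trans hS₁C, fun x hx => ?_, f', hf', fun x hx => ?_, hf'₂⟩
      · rw [extHom_apply' φ hx]
        exact hS₁C (h₁.2 P hP φ hφ ⟨x, hx⟩)
      · rw [hf'P x hx, extHom_apply' φ hx, hφf]
  have hRsat : R.IsSaturated p := dpFull_saturated hF hprod h₁ hRm
  have hR'sat : R'.IsSaturated p := dp_saturated hS hF hprod h₁ h₂ hR'm
  have hR'inv : R'.IsInvariantIn F := dp_invariant hS hF hprod h₁ h₂ hR'm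
  have hRinv : R.IsInvariantIn F := dpFull_invariant hS hF h₁ hRm
  have hS₁R : R.StronglyClosed S₁ := ⟨le_rfl, fun P _ φ hφ x => (R.le_of_mem hφ).2 x⟩
  have hR'R : R'.IsSubsystemOf R := fun P φ hφ => by
    have hP : P ≤ S₁ := (R'.le_of_mem hφ).1
    rw [hR P hP]; exact dp_subsystem hR'm P hφ
  have hR'invR : R'.IsInvariantIn R :=
    (Cfsg.Agent.S5119.result p hS₁p R hRsat R' hR'R hS₁R).2
      (strongInv_of_forall (fun P Q hPQ hQ f ψ hf hfQ hψ => by
        have hψF := (hRm Q hQ ψ).1 hψ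
        obtain ⟨g, hg, hgv⟩ := dp_strongInv hS hF hprod h₁ h₂ hPQ hQ
          ((hR'm P (hPQ.trans hQ) f).1 hf) hfQ hψF
        have hle : img P ψ ≤ S₁ := (hψ.restrict hPQ).img_le
        exact ⟨g, (hR'm _ hle g).2 hg, hgv⟩))
  refine ⟨hRsat, hR'sat, ⟨⟨hR'sat, hF, hR'inv⟩, dp_extension hprod hR'm⟩,
    ⟨⟨hR'sat, hRsat, hR'invR⟩, ?_⟩, ⟨hRsat, hF, hRinv⟩⟩
  intro α hα
  have hαR' : IsMap R' S₁ (autFun α) := (Helper88.mem_autGroup_iff R' le_rfl α).1 hα
  obtain ⟨f', hf', hf'₁, -⟩ := (hR'm S₁ le_rfl _).1 hαR'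
  have hαF : IsMap F S₁ (autFun α) :=
    (hf'.restrict le_sup_left).congr (fun x hx => (hf'₁ x hx).symm)
  have hαR : IsMap R S₁ (autFun α) := (hRm S₁ le_rfl _).2 hαF
  have hK : S₁ ⊔ centralizerIn S₁ S₁ ≤ S₁ := sup_le le_rfl inf_le_left
  have hφ : IsMap R (S₁ ⊔ centralizerIn S₁ S₁) (autFun α) := hαR.restrict hK
  obtain ⟨β, hβ, hβv⟩ := hφ.exists_aut
    (hφ.img_eq_of_mapsTo (fun x hx => Subgroup.mem_sup_left (autFun_mem α (hK hx))))
  refine ⟨β, hβ, fun x => ?_, fun c hc => ?_⟩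
  · have h4 := hβv x (Subgroup.mem_sup_left x.2)
    rw [autFun_apply α x] at h4
    rw [← h4]
    exact (autFun_apply β (Subgroup.inclusion le_sup_left x)).symm
  · have h4 := hβv c c.2
    rw [autFun_apply β c] at h4
    rw [h4]
    exact aut_comm_center α (inf_le_left (a := S₁) hc) (fun x hx => (mem_centralizerIn_iff.1 hc).2 x hx)

end Cfsg.Agent.S5130
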