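import Cfsg.Statements.S5141
import Cfsg.Agent.Helper85.NormExtI

set_option autoImplicit false
open Cfsg

namespace Cfsg.Agent.S5141

open Cfsg.FusionSystem Cfsg.Agent.Helper88 Cfsg.Agent.Helper85 Cfsg.Agent.S5114

/-- Let F be a saturated fusion system over a finite p-group S and E a weakly normal subsystem of F over T. Then the p'-residual subsystem of E (the least saturated subsystem of E over T of index prime to p) is normal in F. -/
theorem result {Ω : Type*} [Group Ω] {S : Subgroup Ω} [Finite S] (p : ℕ) [Fact p.Prime] (hS : IsPGroup p S) (F : Cfsg.FusionSystem S) (hF : F.IsSaturated p) {T : Subgroup Ω} (E : Cfsg.FusionSystem T) (hE : E.IsWeaklyNormalIn F p) (D : Cfsg.FusionSystem T) (hD : E.IsPPrimeResidual p D) : D.IsNormalIn F p := by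
  have hEs : E.IsSaturated p := hE.1
  have hinv : E.IsInvariantIn F := hE.2.2
  have hTS : T ≤ S := hinv.2.1.1
  have hTfin : Finite T := Helper88.finite_of_le hTS
  have hTp : IsPGroup p T := hS.to_le hTS
  obtain ⟨E₀, hE₀⟩ := exists_pprSys hTp E
  have h1 : D.IsSubsystemOf E₀ :=
    hD.2.2 E₀ (pprSys_saturated hTp hEs hE₀) (pprSys_index hTp hEs hE₀).1
  have h2 : E₀.IsSubsystemOf D := pprSys_min hTp hEs hE₀ D hD.1 hD.2.1
  have hDm : ∀ (Q : Subgroup Ω) (f : Ω → Ω), IsMap D Q f ↔ PprC E p Q f := by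
    intro Q f
    rw [← hE₀ Q f]
    exact ⟨fun h => isMap_of_isSubsystemOf h1 h, fun h => isMap_of_isSubsystemOf h2 h⟩
  exact ⟨⟨hD.1, hF, pprSys_invariant hS hF hEs hinv hDm⟩, pprSys_extension hS hF hEs hinv hDm⟩

end Cfsg.Agent.S5141
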