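import Cfsg.Statements.S5142
import Cfsg.Agent.Helper85.NormRes2

set_option autoImplicit false
open Cfsg

namespace Cfsg.Agent.S5142

open Cfsg.FusionSystem Cfsg.Agent.Helper88 Cfsg.Agent.Helper85 Cfsg.Agent.S5114

/-- Let F be a saturated fusion system over a finite p-group S and E a normal subsystem of F over T. Then the p'-residual subsystem of E (the least saturated subsystem of E over T of index prime to p) is contained in every normal subsystem of F over T; together with its normality in F (the case of a weakly normal E) this makes it the least normal subsystem of F over T. -/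
theorem result {Ω : Type*} [Group Ω] {S : Subgroup Ω} [Finite S] (p : ℕ) [Fact p.Prime] (hS : IsPGroup p S) (F : Cfsg.FusionSystem S) (hF : F.IsSaturated p) {T : Subgroup Ω} (E : Cfsg.FusionSystem T) (hE : E.IsNormalIn F p) (D : Cfsg.FusionSystem T) (hD : E.IsPPrimeResidual p D) : ∀ D' : Cfsg.FusionSystem T, D'.IsNormalIn F p → D.IsSubsystemOf D' := by
  intro D' hD'
  have hEs : E.IsSaturated p := hE.1.1
  have hEinv : E.IsInvariantIn F := hE.1.2.2
  have hD's : D'.IsSaturated p := hD'.1.1
  have hD'inv : D'.IsInvariantIn F := hD'.1.2.2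
  have hTS : T ≤ S := hEinv.2.1.1
  have hTfin : Finite T := Helper88.finite_of_le hTS
  have hTp : IsPGroup p T := hS.to_le hTS
  obtain ⟨E₀, hE₀⟩ := exists_pprSys hTp E
  have hDE₀ : D.IsSubsystemOf E₀ :=
    hD.2.2 E₀ (pprSys_saturated hTp hEs hE₀) (pprSys_index hTp hEs hE₀).1
  have hA := pprAut_le_of_invariant hS hF hEs hEinv hD's hD'inv
  intro P φ hφ
  obtain ⟨γ, hγ, f₀, hf₀, hfγ⟩ := (hE₀ P _).1 (isMap_extHom (hDE₀ P hφ))
  have h1 : IsMap D' T (autFun γ) := IsMap.of_mem_autGroup le_rfl (hA hγ)
  have h2 : IsMap D' P f₀ := gen_isMap_of_invariant hS hF hEs hEinv.1 hD'inv hf₀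
  exact ((h2.comp h1 (fun x hx => h2.mem hx)).congr hfγ).hom_mem (fun x => (extHom_apply φ x).symm)

end Cfsg.Agent.S5142
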