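import Cfsg.Statements.S5145
import Cfsg.Agent.Helper85.Basic

set_option autoImplicit false
open Cfsg

namespace Cfsg.Agent.S5145

open Cfsg.FusionSystem Cfsg.Agent.Helper85

variable {Ω : Type*} [Group Ω] {S : Subgroup Ω}

theorem isNormal_bot (F : FusionSystem S) : F.IsNormal ⊥ := by
  refine ⟨bot_le, fun P φ hφ => ?_⟩
  have h : P ⊔ ⊥ ≤ P := by simp
  refine ⟨φ.comp (Subgroup.inclusion h), restrict_mem F hφ h, fun x => rfl, ?_⟩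
  rw [Subgroup.bot_subgroupOf, Subgroup.map_bot]

/-- image of `Q ≤ B` under a hom defined on `B`, as a subgroup of `Ω`, described elementwise -/
theorem mem_map_subgroupOf {B Q : Subgroup Ω} (ψ : B →* Ω) (y : Ω) :
    y ∈ (Q.subgroupOf B).map ψ ↔ ∃ (x : Ω) (hx : x ∈ B), x ∈ Q ∧ ψ ⟨x, hx⟩ = y := by
  constructor
  · rintro ⟨x, hx, rfl⟩
    exact ⟨x.1, x.2, hx, rfl⟩
  · rintro ⟨x, hx, hxQ, rfl⟩
    exact ⟨⟨x, hx⟩, hxQ, rfl⟩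

theorem isNormal_sup (F : FusionSystem S) {Q₁ Q₂ : Subgroup Ω} (h₁ : F.IsNormal Q₁) (h₂ : F.IsNormal Q₂) :
    F.IsNormal (Q₁ ⊔ Q₂) := by
  refine ⟨sup_le h₁.1 h₂.1, fun P φ hφ => ?_⟩
  obtain ⟨ψ₁, hψ₁, hext₁, himg₁⟩ := h₁.2 P φ hφ
  obtain ⟨ψ₂, hψ₂, hext₂, himg₂⟩ := h₂.2 (P ⊔ Q₁) ψ₁ hψ₁
  have h : P ⊔ (Q₁ ⊔ Q₂) ≤ (P ⊔ Q₁) ⊔ Q₂ := by rw [sup_assoc]
  have hQ₁B : Q₁ ≤ (P ⊔ Q₁) ⊔ Q₂ := le_sup_right.trans le_sup_left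
  have hQ₂B : Q₂ ≤ (P ⊔ Q₁) ⊔ Q₂ := le_sup_right
  refine ⟨ψ₂.comp (Subgroup.inclusion h), restrict_mem F hψ₂ h, fun x => ?_, ?_⟩
  · rw [← hext₁ x, ← hext₂]
    rfl
  · -- image of Q₁ ⊔ Q₂ under ψ₂ is ψ₂(Q₁) ⊔ ψ₂(Q₂) = Q₁ ⊔ Q₂
    have e1 : ((Q₁ ⊔ Q₂).subgroupOf (P ⊔ (Q₁ ⊔ Q₂))).map (ψ₂.comp (Subgroup.inclusion h))
        = ((Q₁ ⊔ Q₂).subgroupOf ((P ⊔ Q₁) ⊔ Q₂)).map ψ₂ := by
      ext y
      rw [mem_map_subgroupOf, mem_map_subgroupOf]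
      constructor
      · rintro ⟨x, hx, hxQ, rfl⟩
        exact ⟨x, h hx, hxQ, rfl⟩
      · rintro ⟨x, hx, hxQ, rfl⟩
        exact ⟨x, (le_sup_right : Q₁ ⊔ Q₂ ≤ P ⊔ (Q₁ ⊔ Q₂)) hxQ, hxQ, rfl⟩
    have e2 : (Q₁.subgroupOf ((P ⊔ Q₁) ⊔ Q₂)).map ψ₂ = Q₁ := by
      ext y
      have hy : y ∈ Q₁ ↔ y ∈ (Q₁.subgroupOf (P ⊔ Q₁)).map ψ₁ := by rw [himg₁]
      rw [hy, mem_map_subgroupOf, mem_map_subgroupOf]
      constructor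
      · rintro ⟨x, hx, hxQ, rfl⟩
        refine ⟨x, (le_sup_right : Q₁ ≤ P ⊔ Q₁) hxQ, hxQ, ?_⟩
        rw [← hext₂]
        rfl
      · rintro ⟨x, hx, hxQ, rfl⟩
        refine ⟨x, hQ₁B hxQ, hxQ, ?_⟩
        rw [← hext₂]
        rfl
    rw [e1, Subgroup.subgroupOf_sup hQ₁B hQ₂B, Subgroup.map_sup, e2, himg₂]

/-- For a fusion system over a finite subgroup S, the join of all subgroups normal in the system is itself normal in the system, hence its largest normal subgroup. -/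
theorem result {Ω : Type*} [Group Ω] {S : Subgroup Ω} [Finite S] (F : Cfsg.FusionSystem S) : F.IsNormal F.core := by
  exact sSup_mem_of_sup_closed (S := S) {Q : Subgroup Ω | F.IsNormal Q} (isNormal_bot F) (fun Q hQ => hQ.1)
    (fun Q₁ h₁ Q₂ h₂ => isNormal_sup F h₁ h₂)

end Cfsg.Agent.S5145
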