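import Cfsg.Statements.S5163
-- import your own Cfsg.Agent.* helpers here
import Cfsg.Agent.Helper88.SLnSimple

set_option autoImplicit false
open Cfsg

namespace Cfsg.Agent.S5163

/-- For a finite field K of characteristic p and n ≥ 3, the p-fusion system of the projective special linear group PSL_n(K) on a Sylow p-subgroup is simple. -/
theorem result {K : Type*} [Field K] [Fintype K] (p : ℕ) [Fact p.Prime] [CharP K p] (n : ℕ) (hn : 3 ≤ n) (S : Sylow p (Matrix.ProjectiveSpecialLinearGroup (Fin n) K)) : (Cfsg.groupFusionSystem (S : Subgroup (Matrix.ProjectiveSpecialLinearGroup (Fin n) K))).IsSimple p := by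
  obtain ⟨f, -, hF⟩ := FiniteField.card K p
  have hf : 1 ≤ (f : ℕ) := f.pos
  have hn1 : 1 ≤ n := by omega
  have hcoe := Cfsg.Agent.Helper44.PSLn.uniSyl_coe (n := n) (F := K) p (f : ℕ) hF hf hn1
  have hS := Cfsg.Agent.Helper88.simpleHyp2_SL p (f : ℕ) hF hn _ hcoe
  have hker1 : ∀ z ∈ (Cfsg.Agent.Helper44.PSLn.prn (n := n) (F := K)).ker,
      z ∈ Subgroup.center (Matrix.SpecialLinearGroup (Fin n) K) := by
    intro z hz
    unfold Cfsg.Agent.Helper44.PSLn.prn at hz
    rw [QuotientGroup.ker_mk'] at hz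
    exact hz
  refine Cfsg.Agent.Helper88.isSimple_of_simpleHyp2_surjective Cfsg.Agent.Helper44.PSLn.prn
    Cfsg.Agent.Helper44.PSLn.prn_surjective ?_ ?_ hS S
  · intro z hz g
    exact Subgroup.mem_center_iff.mp (hker1 z hz) g
  · intro z hz k hzk
    have h1 : Cfsg.Agent.Helper44.PSLn.prn (1 : Matrix.SpecialLinearGroup (Fin n) K)
        = Cfsg.Agent.Helper44.PSLn.prn z := by
      rw [map_one]
      exact (MonoidHom.mem_ker.mp hz).symm
    obtain ⟨r, -, hr⟩ := (Cfsg.Agent.Helper44.PSLn.prn_eq_iff 1 z).mp h1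
    rw [Matrix.SpecialLinearGroup.coe_one] at hr
    have h2 := congrArg Subtype.val hzk
    rw [Matrix.SpecialLinearGroup.coe_pow, hr, Matrix.SpecialLinearGroup.coe_one, smul_pow, one_pow] at h2
    have h3 : r ^ p ^ k = 1 := by
      have h4 := congrFun (congrFun h2 ⟨0, by omega⟩) ⟨0, by omega⟩
      rw [Matrix.smul_apply, Matrix.one_apply_eq, smul_eq_mul, mul_one] at h4
      exact h4
    have h5 : (r - 1) ^ p ^ k = 0 := by
      rw [sub_pow_char_pow, h3, one_pow, sub_self]
    have h6 : r = 1 := sub_eq_zero.mp (pow_eq_zero_iff (pow_ne_zero k (Fact.out : p.Prime).ne_zero) |>.mp h5)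
    apply Subtype.ext
    rw [hr, h6, one_smul, Matrix.SpecialLinearGroup.coe_one]

end Cfsg.Agent.S5163
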