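import Cfsg.Statements.S5164
import Mathlib

set_option autoImplicit false
open Cfsg

namespace Cfsg.Agent.S5164

/-- In a finite `p`-group acting on a set, on an orbit with fewer than `p ^ 2` points any two elements commute. -/
theorem smul_comm_of_orbit_lt {H X : Type*} [Group H] [Finite H] [MulAction H X] {p : ℕ} [Fact p.Prime]
    (hH : IsPGroup p H) (x : X) (hx : (MulAction.orbit H x).ncard < p ^ 2) (σ τ : H) :
    (σ * τ) • x = (τ * σ) • x := by
  have hp : p.Prime := Fact.out
  set N : Subgroup H := MulAction.stabilizer H x with hNdef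
  have hidx : N.index = (MulAction.orbit H x).ncard := MulAction.index_stabilizer H x
  obtain ⟨e, he⟩ := hH.index N
  have he1 : e < 2 := by
    rw [← hidx, he] at hx
    exact (Nat.pow_lt_pow_iff_right hp.one_lt).mp hx
  have key : N.Normal ∧ commutator H ≤ N := by
    interval_cases e
    · rw [pow_zero, Subgroup.index_eq_one] at he
      rw [he]
      exact ⟨inferInstance, le_top⟩
    · rw [pow_one] at he
      obtain ⟨k, hk⟩ := IsPGroup.iff_card.mp hH
      have hk0 : k ≠ 0 := by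
        rintro rfl
        have h1 : p ∣ Nat.card H := he ▸ N.index_dvd_card
        rw [hk, pow_zero] at h1
        exact hp.one_lt.ne' (Nat.dvd_one.mp h1)
      have hnorm : N.Normal := by
        apply Subgroup.normal_of_index_eq_minFac_card
        rw [he, hk, hp.pow_minFac hk0]
      refine ⟨hnorm, ?_⟩
      have hcard : Nat.card (H ⧸ N) = p := by rw [← Subgroup.index_eq_card, he]
      have hcyc : IsCyclic (H ⧸ N) := isCyclic_of_prime_card hcard
      let _ : CommGroup (H ⧸ N) := IsCyclic.commGroup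
      have h2 := Abelianization.commutator_subset_ker (QuotientGroup.mk' N)
      rwa [QuotientGroup.ker_mk'] at h2
  obtain ⟨hnorm, hcomm⟩ := key
  have hc : σ * τ * σ⁻¹ * τ⁻¹ ∈ N :=
    hcomm (Subgroup.commutator_mem_commutator (Subgroup.mem_top σ) (Subgroup.mem_top τ))
  have hc' : (τ * σ)⁻¹ * (σ * τ * σ⁻¹ * τ⁻¹) * (τ * σ)⁻¹⁻¹ ∈ N := hnorm.conj_mem _ hc _
  have h3 : ((τ * σ)⁻¹ * (σ * τ * σ⁻¹ * τ⁻¹) * (τ * σ)⁻¹⁻¹) • x = x := MulAction.mem_stabilizer_iff.mp hc'
  have h4 : (τ * σ)⁻¹ * (σ * τ * σ⁻¹ * τ⁻¹) * (τ * σ)⁻¹⁻¹ = (τ * σ)⁻¹ * (σ * τ) := by group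
  rw [h4, mul_smul, inv_smul_eq_iff] at h3
  exact h3

/-- Two non-commuting `p`-elements, one normalizing the cyclic group of the other, prevent the Sylow
`p`-subgroups from being commutative. -/
theorem not_comm_sylow {G : Type*} [Group G] [Finite G] {p : ℕ} [Fact p.Prime] (a b : G) (k m j : ℕ)
    (ha : a ^ p ^ k = 1) (hb : b ^ p ^ m = 1) (hab : b * a * b⁻¹ = a ^ j) (hne : a * b ≠ b * a)
    (S : Sylow p G) : ¬ IsMulCommutative S := by
  intro hS
  have hp : p.Prime := Fact.out
  have hpow : ∀ (c : G) (l : ℕ), c ^ p ^ l = 1 → IsPGroup p (Subgroup.zpowers c) := by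
    intro c l hc
    rintro ⟨g, hg⟩
    obtain ⟨z, rfl⟩ := Subgroup.mem_zpowers_iff.mp hg
    refine ⟨l, Subtype.ext ?_⟩
    show (c ^ z) ^ p ^ l = 1
    rw [← zpow_natCast, ← zpow_mul, mul_comm, zpow_mul, zpow_natCast, hc, one_zpow]
  have hA := hpow a k ha
  have hB := hpow b m hb
  -- conjugation by powers of `b` maps `⟨a⟩` into itself
  have hconj : ∀ (i : ℕ), ∀ h ∈ Subgroup.zpowers a, b ^ i * h * (b ^ i)⁻¹ ∈ Subgroup.zpowers a := by
    intro i
    induction i with
    | zero => intro h hh; simpa using hh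
    | succ i ih =>
      intro h hh
      obtain ⟨z, hz⟩ := Subgroup.mem_zpowers_iff.mp (ih h hh)
      have h1 : b ^ (i + 1) * h * (b ^ (i + 1))⁻¹ = b * (b ^ i * h * (b ^ i)⁻¹) * b⁻¹ := by
        rw [pow_succ']; group
      rw [h1, ← hz]
      have h2 : b * a ^ z * b⁻¹ = (b * a * b⁻¹) ^ z := by
        rw [← MulAut.conj_apply, ← MulAut.conj_apply, map_zpow]
      rw [h2, hab]
      exact Subgroup.zpow_mem _ (Subgroup.pow_mem _ (Subgroup.mem_zpowers a) _) _
  have hbinv : b ^ (p ^ m - 1) = b⁻¹ := by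
    apply eq_inv_of_mul_eq_one_left
    rw [← pow_succ, Nat.sub_add_cancel (Nat.one_le_pow _ _ hp.pos), hb]
  have hbn : b ∈ Subgroup.normalizer ((Subgroup.zpowers a : Subgroup G) : Set G) := by
    rw [Subgroup.mem_normalizer_iff]
    intro h
    constructor
    · intro hh
      have := hconj 1 h hh
      simpa using this
    · intro hh
      have := hconj (p ^ m - 1) _ hh
      rw [hbinv] at this
      have h1 : b⁻¹ * (b * h * b⁻¹) * b⁻¹⁻¹ = h := by group
      rw [h1] at this
      exact this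
  have hnorm : Subgroup.zpowers b ≤ Subgroup.normalizer ((Subgroup.zpowers a : Subgroup G) : Set G) :=
    Subgroup.zpowers_le.mpr hbn
  have hP : IsPGroup p (Subgroup.zpowers b ⊔ Subgroup.zpowers a : Subgroup G) :=
    hB.to_sup_of_normal_right' hA hnorm
  obtain ⟨Q, hQ⟩ := hP.exists_le_sylow
  obtain ⟨g, hg⟩ := MulAction.exists_smul_eq G Q S
  have haQ : a ∈ (Q : Subgroup G) := hQ (Subgroup.mem_sup_right (Subgroup.mem_zpowers a))
  have hbQ : b ∈ (Q : Subgroup G) := hQ (Subgroup.mem_sup_left (Subgroup.mem_zpowers b))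
  have hmem : ∀ y ∈ (Q : Subgroup G), g * y * g⁻¹ ∈ (S : Subgroup G) := by
    intro y hy
    have h0 : g * y * g⁻¹ ∈ ((g • Q : Sylow p G) : Subgroup G) := by
      rw [Sylow.coe_subgroup_smul, Subgroup.mem_pointwise_smul_iff_inv_smul_mem]
      simpa [MulAut.smul_def, mul_assoc] using hy
    rw [hg] at h0
    exact h0
  have h1 := hS.is_comm.comm (⟨g * a * g⁻¹, hmem a haQ⟩ : S) ⟨g * b * g⁻¹, hmem b hbQ⟩
  have h2 : g * a * g⁻¹ * (g * b * g⁻¹) = g * b * g⁻¹ * (g * a * g⁻¹) := congrArg Subtype.val h1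
  apply hne
  have h3 : a * b = g⁻¹ * (g * a * g⁻¹ * (g * b * g⁻¹)) * g := by group
  rw [h3, h2]
  group

/-- Two non-commuting even `p`-elements of the symmetric group, one normalizing the cyclic group of the other,
prevent the Sylow `p`-subgroups of the alternating group from being commutative. -/
theorem not_comm_sylow_alt {n p : ℕ} [Fact p.Prime] (a b : Equiv.Perm (Fin n))
    (hsa : Equiv.Perm.sign a = 1) (hsb : Equiv.Perm.sign b = 1) (k m j : ℕ)
    (ha : a ^ p ^ k = 1) (hb : b ^ p ^ m = 1) (hab : b * a * b⁻¹ = a ^ j) (hne : a * b ≠ b * a)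
    (S : Sylow p (alternatingGroup (Fin n))) : ¬ IsMulCommutative S := by
  have ha' : a ∈ alternatingGroup (Fin n) := Equiv.Perm.mem_alternatingGroup.mpr hsa
  have hb' : b ∈ alternatingGroup (Fin n) := Equiv.Perm.mem_alternatingGroup.mpr hsb
  refine not_comm_sylow (⟨a, ha'⟩ : alternatingGroup (Fin n)) ⟨b, hb'⟩ k m j
    (Subtype.ext ?_) (Subtype.ext ?_) (Subtype.ext ?_) (fun h => hne ?_) S
  · simpa using ha
  · simpa using hb
  · simpa using hab
  · simpa using congrArg Subtype.val h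

/-- Transport of `not_comm_sylow_alt` along a sign-preserving embedding of symmetric groups. -/
theorem not_comm_sylow_alt_of_hom {n p : ℕ} [Fact p.Prime] {X : Type*} [Fintype X] [DecidableEq X]
    (f : Equiv.Perm X →* Equiv.Perm (Fin n)) (hf : Function.Injective f)
    (hsign : ∀ σ, Equiv.Perm.sign (f σ) = Equiv.Perm.sign σ)
    (a b : Equiv.Perm X)
    (hsa : Equiv.Perm.sign a = 1) (hsb : Equiv.Perm.sign b = 1) (k m j : ℕ)
    (ha : a ^ p ^ k = 1) (hb : b ^ p ^ m = 1) (hab : b * a * b⁻¹ = a ^ j) (hne : a * b ≠ b * a)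
    (S : Sylow p (alternatingGroup (Fin n))) : ¬ IsMulCommutative S := by
  refine not_comm_sylow_alt (f a) (f b) ((hsign a).trans hsa) ((hsign b).trans hsb) k m j ?_ ?_ ?_ ?_ S
  · rw [← map_pow, ha, map_one]
  · rw [← map_pow, hb, map_one]
  · rw [← map_inv, ← map_mul, ← map_mul, hab, map_pow]
  · intro h
    apply hne
    apply hf
    rw [map_mul, map_mul, h]

theorem sign_viaEmbeddingHom {X Y : Type*} [Fintype X] [DecidableEq X] [Fintype Y] [DecidableEq Y]
    (ι : X ↪ Y) (σ : Equiv.Perm X) :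
    Equiv.Perm.sign (Equiv.Perm.viaEmbeddingHom ι σ) = Equiv.Perm.sign σ :=
  @Equiv.Perm.sign_extendDomain X _ Y _ _ _ σ _ (fun _ => Classical.propDecidable _)
    (Equiv.ofInjective ι.1 ι.2)

/-- An element of odd order is an even permutation. -/
theorem sign_eq_one_of_pow_odd {X : Type*} [Fintype X] [DecidableEq X] (σ : Equiv.Perm X) (N : ℕ)
    (hN : Odd N) (h : σ ^ N = 1) : Equiv.Perm.sign σ = 1 := by
  have h1 : Equiv.Perm.sign σ ^ N = 1 := by rw [← map_pow, h, map_one]
  rcases Int.units_eq_one_or (Equiv.Perm.sign σ) with h2 | h2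
  · exact h2
  · rw [h2, hN.neg_one_pow] at h1
    exact absurd h1 (by decide)

/-- The `4`-cycle-with-transposition generating a dihedral group of order `8` in `A₆`. -/
def a6 : Equiv.Perm (Fin 6) := Equiv.swap 0 1 * Equiv.swap 1 2 * Equiv.swap 2 3 * Equiv.swap 4 5

/-- The double transposition generating, with `a6`, a dihedral group of order `8` in `A₆`. -/
def b6 : Equiv.Perm (Fin 6) := Equiv.swap 0 2 * Equiv.swap 4 5

theorem not_comm_two {n : ℕ} (hn : 6 ≤ n) (S : Sylow 2 (alternatingGroup (Fin n))) :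
    ¬ IsMulCommutative S := by
  have : Fact (Nat.Prime 2) := ⟨Nat.prime_two⟩
  exact not_comm_sylow_alt_of_hom (Equiv.Perm.viaEmbeddingHom (Fin.castLEEmb hn))
    (Equiv.Perm.viaEmbeddingHom_injective _) (sign_viaEmbeddingHom _) a6 b6
    (by decide) (by decide) 2 1 3 (by decide) (by decide) (by decide) (by decide) S

theorem not_comm_odd {n p : ℕ} [Fact p.Prime] (hp2 : p ≠ 2) (hn : p ^ 2 ≤ n)
    (S : Sylow p (alternatingGroup (Fin n))) : ¬ IsMulCommutative S := by
  have hp : p.Prime := Fact.out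
  have hodd : Odd p := hp.odd_of_ne_two hp2
  have : NeZero (p ^ 2) := ⟨pow_ne_zero 2 hp.ne_zero⟩
  -- the unit `1 + p` of `ZMod (p ^ 2)` has order dividing `p`
  have hu : (1 + (p : ZMod (p ^ 2))) ^ p = 1 := by
    have h1 : ((p : ℕ) : ZMod (p ^ 2)) ∣ (1 + (p : ZMod (p ^ 2))) - 1 := by
      rw [add_sub_cancel_left]
    have h2 := dvd_sub_pow_of_dvd_sub h1 1
    have h3 : ((p : ZMod (p ^ 2)) ^ (1 + 1)) = 0 := by
      rw [← Nat.cast_pow]
      exact ZMod.natCast_self (p ^ 2)
    rw [h3, zero_dvd_iff, pow_one, one_pow, sub_eq_zero] at h2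
    exact h2
  let u : (ZMod (p ^ 2))ˣ := Units.ofPowEqOne _ p hu hp.ne_zero
  have hu' : u ^ p = 1 := Units.pow_ofPowEqOne hu hp.ne_zero
  have hucoe : (u : ZMod (p ^ 2)) = 1 + p := rfl
  let a : Equiv.Perm (ZMod (p ^ 2)) := Equiv.addRight 1
  let b : Equiv.Perm (ZMod (p ^ 2)) := MulAction.toPermHom (ZMod (p ^ 2))ˣ (ZMod (p ^ 2)) u
  have ha_apply : ∀ x, a x = x + 1 := fun x => rfl
  have hb_apply : ∀ x, b x = (1 + p) * x := fun x => rfl
  have hapow : ∀ (N : ℕ) x, (a ^ N) x = x + N := by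
    intro N
    induction N with
    | zero => intro x; simp
    | succ N ih =>
      intro x
      rw [pow_succ a N, Equiv.Perm.mul_apply, ih, ha_apply]
      push_cast
      ring
  have ha : a ^ p ^ 2 = 1 := by
    ext x
    rw [hapow, ZMod.natCast_self, add_zero]
    rfl
  have hb : b ^ p ^ 1 = 1 := by
    rw [pow_one]
    show (MulAction.toPermHom (ZMod (p ^ 2))ˣ (ZMod (p ^ 2)) u) ^ p = 1
    rw [← map_pow, hu', map_one]
  have hab : b * a * b⁻¹ = a ^ (1 + p) := by
    ext x
    obtain ⟨y, rfl⟩ := b.surjective x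
    rw [Equiv.Perm.mul_apply, Equiv.Perm.mul_apply, Equiv.Perm.inv_def, Equiv.symm_apply_apply, hapow,
      ha_apply, hb_apply, hb_apply]
    push_cast
    ring
  have hne : a * b ≠ b * a := by
    intro h
    have h1 := congrArg (fun σ : Equiv.Perm (ZMod (p ^ 2)) => σ 0) h
    simp only [Equiv.Perm.mul_apply, ha_apply, hb_apply, mul_zero, zero_add, mul_one] at h1
    have h2 : ((p : ℕ) : ZMod (p ^ 2)) = 0 := by
      have := h1.symm
      rwa [add_eq_left] at this
    rw [ZMod.natCast_eq_zero_iff] at h2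
    have h3 := Nat.le_of_dvd hp.pos h2
    have h4 : p < p ^ 2 := by nlinarith [hp.one_lt]
    omega
  have hcard : Fintype.card (ZMod (p ^ 2)) ≤ Fintype.card (Fin n) := by
    rw [ZMod.card, Fintype.card_fin]
    exact hn
  obtain ⟨ι⟩ := Function.Embedding.nonempty_of_card_le hcard
  exact not_comm_sylow_alt_of_hom (Equiv.Perm.viaEmbeddingHom ι)
    (Equiv.Perm.viaEmbeddingHom_injective _) (sign_viaEmbeddingHom _) a b
    (sign_eq_one_of_pow_odd a (p ^ 2) hodd.pow ha) (sign_eq_one_of_pow_odd b (p ^ 1) hodd.pow hb)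
    2 1 (1 + p) ha hb hab hne S

/-- For n ≥ 6 and a prime p, a nontrivial Sylow p-subgroup of the alternating group of degree n is abelian if and only if n < p². -/
theorem result (n p : ℕ) (hn : 6 ≤ n) [Fact p.Prime] (S : Sylow p (alternatingGroup (Fin n))) (hS : (S : Subgroup (alternatingGroup (Fin n))) ≠ ⊥) : IsMulCommutative S ↔ n < p ^ 2 := by
  have hp : p.Prime := Fact.out
  constructor
  · intro hcomm
    by_contra hlt
    push Not at hlt
    by_cases hp2 : p = 2
    · subst hp2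
      exact not_comm_two hn S hcomm
    · exact not_comm_odd hp2 hlt S hcomm
  · intro hlt
    refine ⟨⟨fun σ τ => ?_⟩⟩
    apply Subtype.ext
    apply Subtype.ext
    apply Equiv.ext
    intro x
    have hfin : Finite (alternatingGroup (Fin n)) := inferInstance
    have horb : (MulAction.orbit (↥S) x).ncard < p ^ 2 :=
      lt_of_le_of_lt (by simpa using Set.ncard_le_card (MulAction.orbit (↥S) x)) hlt
    exact smul_comm_of_orbit_lt S.isPGroup' x horb σ τ

end Cfsg.Agent.S5164
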