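import Cfsg.Statements.S5165
import Cfsg.Agent.Helper86.AltOdd
import Cfsg.Agent.Helper86.AltTwo
import Cfsg.Agent.Helper86.AltTransport

set_option autoImplicit false
open Cfsg

namespace Cfsg.Agent.S5165

/-- For n ≥ 6, a prime p with p² ≤ n, and n congruent to 0 or 1 modulo p, the p-fusion system of the alternating group of degree n on a Sylow p-subgroup is simple. -/
theorem result (n p : ℕ) (hn : 6 ≤ n) [Fact p.Prime] (hnp : p ^ 2 ≤ n) (hb : n % p ≤ 1) (S : Sylow p (alternatingGroup (Fin n))) : (Cfsg.groupFusionSystem (S : Subgroup (alternatingGroup (Fin n)))).IsSimple p := by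
  have hp : p.Prime := Fact.out
  have hsub : Subsingleton (Fin (n % p)) := Fin.subsingleton_iff_le_one.2 hb
  by_cases hp2 : p = 2
  · subst hp2
    have hcard : Fintype.card (Fin n) =
        Fintype.card ((Fin (n / 2) × ZMod 2) ⊕ Fin (n % 2)) := by
      rw [Fintype.card_sum, Fintype.card_prod, Fintype.card_fin, Fintype.card_fin,
        Fintype.card_fin, ZMod.card]
      exact (Nat.div_add_mod' n 2).symm
    have h3 : 3 ≤ Fintype.card (Fin (n / 2)) := by
      rw [Fintype.card_fin]
      omega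
    exact Cfsg.Agent.Helper86.isSimple_alt_of_equiv (Fintype.equivOfCardEq hcard) S
      (Cfsg.Agent.Helper86.P2 (Fin (n / 2)) (Fin (n % 2))) inf_le_right
      (Cfsg.Agent.Helper86.isPGroup_P2 _)
      (fun S' hS' hP => Cfsg.Agent.Helper86.altHyp_two _ h3 hS' hP)
  · have hm : p ≤ n / p := (Nat.le_div_iff_mul_le hp.pos).2 (by rw [← sq]; exact hnp)
    have hcard : Fintype.card (Fin n) =
        Fintype.card (((ZMod p ⊕ Fin (n / p - p)) × ZMod p) ⊕ Fin (n % p)) := by
      rw [Fintype.card_sum, Fintype.card_prod, Fintype.card_sum, Fintype.card_fin,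
        Fintype.card_fin, Fintype.card_fin, ZMod.card, Nat.add_sub_cancel' hm]
      exact (Nat.div_add_mod' n p).symm
    exact Cfsg.Agent.Helper86.isSimple_alt_of_equiv (Fintype.equivOfCardEq hcard) S
      (Cfsg.Agent.Helper86.R0 (Fin (n / p - p)) (Fin (n % p)) p)
      (Cfsg.Agent.Helper86.R0_le_alt hp2) Cfsg.Agent.Helper86.isPGroup_R0
      (fun S' hS' hR => Cfsg.Agent.Helper86.altHyp_odd hp2 hS' hR)

end Cfsg.Agent.S5165
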