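import Cfsg.Statements.S5171
-- import your own Cfsg.Agent.* helpers here
import Cfsg.Agent.Helper88.SpC

set_option autoImplicit false
open Cfsg

namespace Cfsg.Agent.S5171

/-- For a finite field K of characteristic p and m ≥ 2, excluding the case m = 2 with K of two elements, the p-fusion system of the projective symplectic group PSp_{2m}(K) on a Sylow p-subgroup is simple. -/
theorem result {K : Type*} [Field K] [Fintype K] (p : ℕ) [Fact p.Prime] [CharP K p] (m : ℕ) (hm : 2 ≤ m) (hex : m = 2 → 3 ≤ Fintype.card K) (S : Sylow p (Cfsg.PSp m K)) : (Cfsg.groupFusionSystem (S : Subgroup (Cfsg.PSp m K))).IsSimple p := by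
  obtain ⟨f, -, hF⟩ := FiniteField.card K p
  have hf : 1 ≤ (f : ℕ) := f.pos
  have hcoe := Cfsg.Agent.Helper88.uspSyl_coe (m := m) (F := K) p (f : ℕ) hF hf
  have hS := Cfsg.Agent.Helper88.simpleHyp2_Sp p (f : ℕ) hF hm hex _ hcoe
  refine Cfsg.Agent.Helper88.isSimple_of_simpleHyp2_surjective
    (QuotientGroup.mk' (Subgroup.center (Matrix.symplecticGroup (Fin m) K)))
    (QuotientGroup.mk'_surjective _) ?_ ?_ hS S
  · intro z hz g
    rw [QuotientGroup.ker_mk'] at hz
    exact Subgroup.mem_center_iff.mp hz g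
  · intro z hz k hzk
    rw [QuotientGroup.ker_mk'] at hz
    rcases (Cfsg.Agent.Helper5.sp_mem_center_iff z).mp hz with h | h
    · exact Subtype.ext h
    · have h2 := congrArg Subtype.val hzk
      rw [Cfsg.Agent.Helper88.spG_coe_pow, h] at h2
      apply Subtype.ext
      rw [h]
      by_cases hp2 : p = 2
      · have h3 : (-1 : K) = 1 := by
          have h4 := CharP.cast_eq_zero K p
          rw [hp2] at h4
          have h5 : (1 : K) + 1 = 0 := by
            rw [← h4]
            norm_num
          exact neg_eq_of_add_eq_zero_left h5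
        ext i j
        rw [Matrix.neg_apply]
        by_cases hij : i = j
        · rw [hij]
          show -(1 : Matrix (Fin m ⊕ Fin m) (Fin m ⊕ Fin m) K) j j = (1 : Matrix (Fin m ⊕ Fin m) (Fin m ⊕ Fin m) K) j j
          rw [Matrix.one_apply_eq, h3]
        · show -(1 : Matrix (Fin m ⊕ Fin m) (Fin m ⊕ Fin m) K) i j = (1 : Matrix (Fin m ⊕ Fin m) (Fin m ⊕ Fin m) K) i j
          rw [Matrix.one_apply_ne hij, neg_zero]
      · have hodd : Odd (p ^ k) := (Nat.Prime.odd_of_ne_two Fact.out hp2).pow
        rw [hodd.neg_one_pow] at h2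
        exact h2

end Cfsg.Agent.S5171
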