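import Cfsg.Statements.S5172
-- import your own Cfsg.Agent.* helpers here
import Cfsg.Agent.Helper99.SuIso

set_option autoImplicit false
open Cfsg

namespace Cfsg.Agent.S5172

/-- For a finite field K with q² elements of characteristic p and n ≥ 4, the p-fusion system of the projective special unitary group PSU_n(q) (realised over K) on a Sylow p-subgroup is simple. -/
theorem result {K : Type*} [Field K] [Fintype K] (p q : ℕ) [Fact p.Prime] [CharP K p] (hK : Fintype.card K = q ^ 2) (n : ℕ) (hn : 4 ≤ n) (S : Sylow p (Cfsg.PSU n K q)) : (Cfsg.groupFusionSystem (S : Subgroup (Cfsg.PSU n K q))).IsSimple p := by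
  obtain ⟨f, hf, hker, hcop⟩ := Cfsg.Agent.Helper99.su_exists_hom hK p n (by omega)
  exact Cfsg.Agent.Helper88.isSimple_of_simpleHyp2_surjective f hf hker hcop
    (Cfsg.Agent.Helper99.su_simpleHyp2 hK p hn) S

end Cfsg.Agent.S5172
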