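import Cfsg.Statements.S5345

set_option autoImplicit false
open Cfsg

namespace Cfsg.Agent.S5345

/-- Let D be a conjugation-invariant generating set of 3-transpositions of a finite group G and T a Sylow 2-subgroup of G. Then the members of D lying in T generate an abelian subgroup, and their number is the width of D (the largest number of pairwise commuting members of D). -/
theorem result {G : Type*} [Group G] [Finite G] {D : Set G} (hD : Cfsg.IsThreeTranspositionGroup D) (T : Sylow 2 G) : IsMulCommutative (Subgroup.closure {d : G | d ∈ D ∧ d ∈ T}) ∧ {d : G | d ∈ D ∧ d ∈ T}.ncard = Cfsg.commutingWidth D := by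
  classical
  obtain ⟨⟨hord, h23⟩, hconj, -⟩ := hD
  have inv2 : ∀ x ∈ D, x * x = 1 := fun x hx => by
    have := hord x hx
    rw [← sq, ← this, pow_orderOf_eq_one]
  have inv' : ∀ x ∈ D, x⁻¹ = x := fun x hx => inv_eq_of_mul_eq_one_left (inv2 x hx)
  -- members of D in T commute pairwise
  have hcomm : ∀ x ∈ {d : G | d ∈ D ∧ d ∈ T}, ∀ y ∈ {d : G | d ∈ D ∧ d ∈ T}, x * y = y * x := by
    rintro x ⟨hxD, hxT⟩ y ⟨hyD, hyT⟩
    rcases h23 x hxD y hyD with h | h
    · have h2 : x * y * (x * y) = 1 := by rw [← sq]; exact h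
      have h3 : x * y = (x * y)⁻¹ := eq_inv_of_mul_eq_one_left h2
      rw [mul_inv_rev, inv' x hxD, inv' y hyD] at h3
      exact h3
    · have hxyT : x * y ∈ (T : Subgroup G) := (T : Subgroup G).mul_mem hxT hyT
      obtain ⟨k, hk⟩ := T.isPGroup' ⟨x * y, hxyT⟩
      have hk' : (x * y) ^ 2 ^ k = 1 := by simpa using congrArg Subtype.val hk
      have h1 : orderOf (x * y) ∣ 3 := orderOf_dvd_of_pow_eq_one h
      have h2 : orderOf (x * y) ∣ 2 ^ k := orderOf_dvd_of_pow_eq_one hk'
      have hc : Nat.Coprime 3 (2 ^ k) := Nat.Coprime.pow_right k (by norm_num)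
      have h4 : x * y = 1 := orderOf_eq_one_iff.mp (Nat.eq_one_of_dvd_coprimes hc h1 h2)
      have h5 : x = y := by
        calc x = x * (y * y) := by rw [inv2 y hyD, mul_one]
          _ = (x * y) * y := by group
          _ = y := by rw [h4, one_mul]
      rw [h5]
  refine ⟨Subgroup.isMulCommutative_closure hcomm, ?_⟩
  -- width
  have hfin : ∀ s : Set G, s.Finite := fun s => Set.toFinite s
  symm
  apply IsGreatest.csSup_eq
  constructor
  · exact ⟨{d : G | d ∈ D ∧ d ∈ T}, fun x hx => hx.1, hfin _, hcomm, rfl⟩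
  · rintro n ⟨E, hED, -, hEc, rfl⟩
    -- closure E is a 2-group
    have hA : IsMulCommutative (Subgroup.closure E) := Subgroup.isMulCommutative_closure hEc
    have hsq : ∀ x ∈ Subgroup.closure E, x ^ 2 = 1 := by
      intro x hx
      induction hx using Subgroup.closure_induction with
      | mem x hx => rw [sq]; exact inv2 x (hED hx)
      | one => simp
      | mul x y hx hy ihx ihy =>
        have hc : Commute x y := setLike_mul_comm hx hy
        rw [hc.mul_pow, ihx, ihy, one_mul]
      | inv x hx ih => rw [inv_pow, ih, inv_one]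
    have hP : IsPGroup 2 (Subgroup.closure E) := by
      intro g
      refine ⟨1, ?_⟩
      apply Subtype.ext
      simpa using hsq g.1 g.2
    obtain ⟨Q, hQ⟩ := hP.exists_le_sylow
    obtain ⟨g, hg⟩ := MulAction.exists_smul_eq G Q T
    apply Set.ncard_le_ncard_of_injOn (fun x => g * x * g⁻¹) _ _ (hfin _)
    · intro x hx
      refine ⟨hconj g x (hED hx), ?_⟩
      have hxQ : x ∈ (Q : Subgroup G) := hQ (Subgroup.subset_closure hx)
      have : g * x * g⁻¹ ∈ ((g • Q : Sylow 2 G) : Subgroup G) := by
        rw [Sylow.smul_def, Sylow.pointwise_smul_def]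
        have := Subgroup.smul_mem_pointwise_smul x (MulAut.conj g) (Q : Subgroup G) hxQ
        simpa using this
      rw [hg] at this
      exact this
    · intro x _ y _ hxy
      simpa using hxy

end Cfsg.Agent.S5345
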