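import Cfsg.Statements.S5346
import Cfsg.Agent.Helper89.FourPoint
import Cfsg.Agent.Helper41.BaerSuzuki

set_option autoImplicit false
open Cfsg

namespace Cfsg.Agent.S5346


/-- A finite group generated by elements of order dividing 3 whose order divides `2 * 3 ^ 10`
is a 3-group. -/
theorem isPGroup_three_of_gen {M : Type*} [Group M] [Finite M] (S : Set M)
    (hS : ∀ s ∈ S, s ^ 3 = 1) (hgen : Subgroup.closure S = ⊤) (hcard : Nat.card M ∣ 118098) :
    IsPGroup 3 M := by
  have h118 : (118098 : ℕ) = 2 * 3 ^ 10 := by norm_num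
  rw [h118] at hcard
  obtain ⟨k₁, k₂, h1, h2, h12⟩ := dvd_mul.1 hcard
  obtain ⟨i, -, rfl⟩ := (Nat.dvd_prime_pow Nat.prime_three).1 h2
  rcases (Nat.dvd_prime Nat.prime_two).1 h1 with rfl | rfl
  · exact IsPGroup.of_card (n := i) (by rw [h12, one_mul])
  · exfalso
    have : Fact (Nat.Prime 3) := ⟨Nat.prime_three⟩
    have P : Sylow 3 M := default
    have hidx : (P : Subgroup M).index = 2 := by
      have hc := (P : Subgroup M).card_mul_index
      obtain ⟨m, hm⟩ := IsPGroup.iff_card.1 P.isPGroup'
      have hnd := P.not_dvd_index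
      rw [hm, h12] at hc
      have hcop : Nat.Coprime (P : Subgroup M).index (3 ^ i) :=
        Nat.Coprime.pow_right i ((Nat.Prime.coprime_iff_not_dvd Nat.prime_three).2 hnd).symm
      have hdvd : (P : Subgroup M).index ∣ 2 :=
        hcop.dvd_of_dvd_mul_right (Dvd.intro_left _ hc)
      rcases (Nat.dvd_prime Nat.prime_two).1 hdvd with h | h
      · rw [h, mul_one] at hc
        have h2' : 2 ∣ 3 ^ m := Dvd.intro _ hc.symm
        have := Nat.Prime.dvd_of_dvd_pow Nat.prime_two h2'
        omega
      · exact h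
    have hN : (P : Subgroup M).Normal := Subgroup.normal_of_index_eq_two hidx
    have hq : Nat.card (M ⧸ (P : Subgroup M)) = 2 := by
      rw [← Subgroup.index_eq_card]; exact hidx
    have hle : Subgroup.closure S ≤ (P : Subgroup M) := by
      rw [Subgroup.closure_le]
      intro s hs
      have e1 : ((s : M ⧸ (P : Subgroup M))) ^ 3 = 1 := by
        rw [← QuotientGroup.mk_pow, hS s hs]; rfl
      have e2 : ((s : M ⧸ (P : Subgroup M))) ^ 2 = 1 := by
        rw [← hq]; exact pow_card_eq_one'
      have e3 : (s : M ⧸ (P : Subgroup M)) = 1 := by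
        calc (s : M ⧸ (P : Subgroup M))
            = (s : M ⧸ (P : Subgroup M)) ^ 3 * ((s : M ⧸ (P : Subgroup M)) ^ 2)⁻¹ := by group
          _ = 1 := by rw [e1, e2]; simp
      exact (QuotientGroup.eq_one_iff s).1 e3
    rw [hgen] at hle
    have htop : (P : Subgroup M) = ⊤ := top_le_iff.1 hle
    rw [htop, Subgroup.index_top] at hidx
    omega

/-- Let D be a conjugation-invariant generating set of 3-transpositions of a finite group G and d a member of D. Then D has width 1 (no two different members of D commute) if and only if G is the product of the subgroup generated by d with the largest normal 3-subgroup of G. -/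
theorem result {G : Type*} [Group G] [Finite G] {D : Set G} (hD : Cfsg.IsThreeTranspositionGroup D) {d : G} (hd : d ∈ D) : Cfsg.commutingWidth D = 1 ↔ Subgroup.zpowers d ⊔ Cfsg.pCore 3 G = ⊤ := by
  classical
  obtain ⟨⟨hord, h23⟩, hconj, hgen⟩ := hD
  have hsq : ∀ x ∈ D, x * x = 1 := fun x hx => by
    have := hord x hx
    rw [← sq, ← this, pow_orderOf_eq_one]
  have hinv : ∀ x ∈ D, x⁻¹ = x := fun x hx => inv_eq_of_mul_eq_one_left (hsq x hx)
  have hcomm_of_sq : ∀ x ∈ D, ∀ y ∈ D, (x * y) ^ 2 = 1 → x * y = y * x := by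
    intro x hx y hy h
    have h2 : x * y * (x * y) = 1 := by rw [← sq]; exact h
    have h3 : x * y = (x * y)⁻¹ := eq_inv_of_mul_eq_one_left h2
    rw [mul_inv_rev, hinv x hx, hinv y hy] at h3
    exact h3
  have hQp : IsPGroup 3 (Cfsg.pCore 3 G) :=
    Sylow.sSup_of_normal _ (fun _ hH => hH.2) (fun _ hH => hH.1)
  have hQ1 : ∀ x ∈ Cfsg.pCore 3 G, x ^ 2 = 1 → x = 1 := by
    intro x hx hx2
    obtain ⟨k, hk⟩ := hQp ⟨x, hx⟩
    have hk' : x ^ 3 ^ k = 1 := by simpa using congrArg Subtype.val hk
    have h1 : orderOf x ∣ 2 := orderOf_dvd_of_pow_eq_one hx2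
    have h2 : orderOf x ∣ 3 ^ k := orderOf_dvd_of_pow_eq_one hk'
    have hc : Nat.Coprime 2 (3 ^ k) := Nat.Coprime.pow_right k (by norm_num)
    exact orderOf_eq_one_iff.mp (Nat.eq_one_of_dvd_coprimes hc h1 h2)
  constructor
  · intro hw
    -- no two distinct members commute
    have hnc : ∀ a ∈ D, ∀ b ∈ D, a * b = b * a → a = b := by
      intro a ha b hb hab
      by_contra hne
      have hmem : 2 ∈ {n : ℕ | ∃ E : Set G, E ⊆ D ∧ E.Finite ∧ (∀ a ∈ E, ∀ b ∈ E, Commute a b) ∧
          E.ncard = n} := by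
        refine ⟨{a, b}, ?_, Set.toFinite _, ?_, Set.ncard_pair hne⟩
        · intro x hx
          rcases hx with rfl | rfl
          · exact ha
          · exact hb
        · intro x hx y hy
          rcases hx with rfl | rfl <;> rcases hy with rfl | rfl
          · exact Commute.refl _
          · exact hab
          · exact hab.symm
          · exact Commute.refl _
      have hbdd : BddAbove {n : ℕ | ∃ E : Set G, E ⊆ D ∧ E.Finite ∧
          (∀ a ∈ E, ∀ b ∈ E, Commute a b) ∧ E.ncard = n} := by
        refine ⟨Nat.card G, ?_⟩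
        rintro n ⟨E, -, -, -, rfl⟩
        exact Set.ncard_le_card E
      have h2 := le_csSup hbdd hmem
      unfold Cfsg.commutingWidth at hw
      omega
    have hbr : ∀ u ∈ D, ∀ v ∈ D, u * v * u = v * u * v := by
      intro u hu v hv
      by_cases huv : u = v
      · subst huv; rfl
      · rcases h23 u hu v hv with h2 | h3
        · exact absurd (hnc u hu v hv (hcomm_of_sq u hu v hv h2)) huv
        · have h4 : u * v * u * (v * u * v) = 1 := by
            have : (u * v) ^ 3 = u * v * u * (v * u * v) := by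
              simp only [pow_succ, pow_zero, one_mul, mul_assoc]
            rw [← this]; exact h3
          have h5 := eq_inv_of_mul_eq_one_left h4
          rw [mul_inv_rev, mul_inv_rev, hinv u hu, hinv v hv, ← mul_assoc] at h5
          exact h5
    have hcj : ∀ u ∈ D, ∀ v ∈ D, u * v * u ∈ D := by
      intro u hu v hv
      have := hconj u v hv
      rwa [hinv u hu] at this
    -- the set of products of two members
    have hK : ∀ x ∈ {x : G | ∃ u ∈ D, ∃ v ∈ D, x = u * v}, ∀ g : G,
        g * x * g⁻¹ ∈ {x : G | ∃ u ∈ D, ∃ v ∈ D, x = u * v} := by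
      rintro _ ⟨u, hu, v, hv, rfl⟩ g
      exact ⟨g * u * g⁻¹, hconj g u hu, g * v * g⁻¹, hconj g v hv, by group⟩
    have hcube : ∀ u ∈ D, ∀ v ∈ D, (u * v) ^ 3 = 1 := by
      intro u hu v hv
      have := Cfsg.Agent.Helper89.cube hsq hbr u v hu hv
      simpa [pow_succ, mul_assoc] using this
    have hpair : ∀ x ∈ {x : G | ∃ u ∈ D, ∃ v ∈ D, x = u * v},
        ∀ y ∈ {x : G | ∃ u ∈ D, ∃ v ∈ D, x = u * v},
        IsPGroup 3 (Subgroup.closure ({x, y} : Set G)) := by
      rintro _ ⟨u, hu, v, hv, rfl⟩ _ ⟨u', hu', v', hv', rfl⟩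
      have h4 := Cfsg.Agent.Helper89.card_closure_four_dvd hsq hcj hbr u v u' v' hu hv hu' hv'
      have hle : Subgroup.closure ({u * v, u' * v'} : Set G) ≤
          Subgroup.closure ({u, v, u', v'} : Set G) := by
        rw [Subgroup.closure_le]
        intro x hx
        rcases hx with rfl | rfl
        · exact mul_mem (Subgroup.subset_closure (by simp)) (Subgroup.subset_closure (by simp))
        · exact mul_mem (Subgroup.subset_closure (by simp)) (Subgroup.subset_closure (by simp))
      have hcard : Nat.card (Subgroup.closure ({u * v, u' * v'} : Set G)) ∣ 118098 :=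
        (Subgroup.card_dvd_of_le hle).trans h4
      apply isPGroup_three_of_gen (Subtype.val ⁻¹' ({u * v, u' * v'} : Set G)) _
        Subgroup.closure_closure_coe_preimage hcard
      rintro ⟨s, hs'⟩ hs
      apply Subtype.ext
      have hs2 : s = u * v ∨ s = u' * v' := hs
      rcases hs2 with rfl | rfl
      · simpa using hcube u hu v hv
      · simpa using hcube u' hu' v' hv'
    have : Fact (Nat.Prime 3) := ⟨Nat.prime_three⟩
    have hKQ : ∀ u ∈ D, ∀ v ∈ D, u * v ∈ Cfsg.pCore 3 G := by
      intro u hu v hv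
      have h1 : u * v ∈ Cfsg.Agent.Helper41.sylowCore 3 G :=
        (Cfsg.Agent.Helper41.mem_sylowCore (u * v)).2 (fun P =>
          Cfsg.Agent.Helper41.baer_suzuki_mem _ hK hpair (u * v) ⟨u, hu, v, hv, rfl⟩ P)
      exact (le_sSup ⟨Cfsg.Agent.Helper41.sylowCore_normal 3 G,
        Cfsg.Agent.Helper41.sylowCore_isPGroup 3 G⟩ :
          Cfsg.Agent.Helper41.sylowCore 3 G ≤ Cfsg.pCore 3 G) h1
    rw [eq_top_iff, ← hgen, Subgroup.closure_le]
    intro e he
    have h1 : d * (d * e) = e := by rw [← mul_assoc, hsq d hd, one_mul]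
    rw [← h1]
    exact Subgroup.mul_mem_sup (Subgroup.mem_zpowers d) (hKQ d hd e he)
  · intro htop
    -- every element is in Q or in d * Q
    have hcases : ∀ x : G, x ∈ Cfsg.pCore 3 G ∨ d * x ∈ Cfsg.pCore 3 G := by
      intro x
      have hx : x ∈ ((Subgroup.zpowers d ⊔ Cfsg.pCore 3 G : Subgroup G) : Set G) := by
        rw [htop]; trivial
      have hQn : (Cfsg.pCore 3 G).Normal := Subgroup.sSup_normal _ (fun _ hH => hH.1)
      rw [Subgroup.mul_normal] at hx
      obtain ⟨y, hy, q, hq, rfl⟩ := Set.mem_mul.1 hx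
      obtain ⟨i, rfl⟩ := Subgroup.mem_zpowers_iff.1 hy
      have hi : d ^ i = d ^ (i % 2) := by
        have := zpow_mod_orderOf d i
        rw [hord d hd] at this
        exact this.symm
      rcases Int.emod_two_eq_zero_or_one i with h0 | h1
      · left
        rw [hi, h0, zpow_zero, one_mul]; exact hq
      · right
        rw [hi, h1, zpow_one, ← mul_assoc, hsq d hd, one_mul]; exact hq
    have hnQ : ∀ a ∈ D, a ∉ Cfsg.pCore 3 G := by
      intro a ha haQ
      have h1 : a = 1 := hQ1 a haQ (by rw [sq]; exact hsq a ha)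
      have h2 := hord a ha
      rw [h1, orderOf_one] at h2
      omega
    have hone : ∀ E : Set G, E ⊆ D → (∀ a ∈ E, ∀ b ∈ E, Commute a b) → ∀ a ∈ E, ∀ b ∈ E, a = b := by
      intro E hED hEc a ha b hb
      have h1 : d * a ∈ Cfsg.pCore 3 G := (hcases a).resolve_left (hnQ a (hED ha))
      have h2 : d * b ∈ Cfsg.pCore 3 G := (hcases b).resolve_left (hnQ b (hED hb))
      have h3 : a * b ∈ Cfsg.pCore 3 G := by
        have h4 := mul_mem (inv_mem h1) h2
        have e : (d * a)⁻¹ * (d * b) = a⁻¹ * b := by group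
        rw [e, hinv a (hED ha)] at h4
        exact h4
      have hab : a * b = b * a := hEc a ha b hb
      have h5 : (a * b) ^ 2 = 1 := by
        rw [sq]
        calc a * b * (a * b) = a * (b * a) * b := by group
          _ = a * (a * b) * b := by rw [hab]
          _ = (a * a) * (b * b) := by group
          _ = 1 := by rw [hsq a (hED ha), hsq b (hED hb), one_mul]
      have h6 : a * b = 1 := hQ1 _ h3 h5
      have h7 : a = b⁻¹ := eq_inv_of_mul_eq_one_left h6
      rw [h7, hinv b (hED hb)]
    apply IsGreatest.csSup_eq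
    constructor
    · refine ⟨{d}, ?_, Set.toFinite _, ?_, Set.ncard_singleton d⟩
      · intro x hx
        rw [Set.mem_singleton_iff] at hx
        rw [hx]; exact hd
      · intro x hx y hy
        rw [Set.mem_singleton_iff] at hx hy
        rw [hx, hy]
    · rintro n ⟨E, hED, hEf, hEc, rfl⟩
      exact (Set.ncard_le_one hEf).2 (hone E hED hEc)

end Cfsg.Agent.S5346
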