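import Cfsg.Statements.S5350
import Cfsg.Agent.S5349
import Cfsg.Agent.Helper89.WidthOne

set_option autoImplicit false
open Cfsg

namespace Cfsg.Agent.S5350


section aux
variable {G : Type*} [Group G]

/-- The commuting partners of `x` in `D`, other than `x`. -/
def AA (D : Set G) (x : G) : Set G := {y | y ∈ D ∧ y ≠ x ∧ Commute x y}

/-- The relation "same commuting partners". -/
def Rel' (D : Set G) (x y : G) : Prop := AA D x = AA D y

theorem Rel'.symm {D : Set G} {x y : G} (h : Rel' D x y) : Rel' D y x := Eq.symm h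

theorem Rel'.trans {D : Set G} {x y z : G} (h : Rel' D x y) (h' : Rel' D y z) : Rel' D x z :=
  Eq.trans h h'

theorem mem_AA_conj {D : Set G} (hc : ∀ g : G, ∀ x ∈ D, g * x * g⁻¹ ∈ D) (g x z : G) :
    z ∈ AA D (g * x * g⁻¹) ↔ g⁻¹ * z * g ∈ AA D x := by
  constructor
  · rintro ⟨hz, hne, hcom⟩
    refine ⟨?_, ?_, ?_⟩
    · have := hc g⁻¹ z hz
      rwa [inv_inv] at this
    · intro h
      apply hne
      rw [← h]; group
    · have hz' : g * x * g⁻¹ * z = z * (g * x * g⁻¹) := hcom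
      show x * (g⁻¹ * z * g) = g⁻¹ * z * g * x
      calc x * (g⁻¹ * z * g) = g⁻¹ * (g * x * g⁻¹ * z) * g := by group
        _ = g⁻¹ * (z * (g * x * g⁻¹)) * g := by rw [hz']
        _ = g⁻¹ * z * g * x := by group
  · rintro ⟨hz, hne, hcom⟩
    refine ⟨?_, ?_, ?_⟩
    · have := hc g _ hz
      have e : g * (g⁻¹ * z * g) * g⁻¹ = z := by group
      rwa [e] at this
    · intro h
      apply hne
      rw [h]; group
    · have hz' : x * (g⁻¹ * z * g) = g⁻¹ * z * g * x := hcom
      show g * x * g⁻¹ * z = z * (g * x * g⁻¹)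
      calc g * x * g⁻¹ * z = g * (x * (g⁻¹ * z * g)) * g⁻¹ := by group
        _ = g * (g⁻¹ * z * g * x) * g⁻¹ := by rw [hz']
        _ = z * (g * x * g⁻¹) := by group

theorem Rel'.conj {D : Set G} (hc : ∀ g : G, ∀ x ∈ D, g * x * g⁻¹ ∈ D) {x y : G}
    (h : Rel' D x y) (g : G) : Rel' D (g * x * g⁻¹) (g * y * g⁻¹) := by
  ext z
  rw [mem_AA_conj hc, mem_AA_conj hc, h]

/-- Different related members do not commute. -/
theorem rel_not_commute {D : Set G} {x y : G} (hy : y ∈ D) (h : Rel' D x y) (hne : x ≠ y) :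
    ¬ Commute x y := by
  intro hcom
  have h1 : y ∈ AA D x := ⟨hy, fun e => hne e.symm, hcom⟩
  rw [h] at h1
  exact h1.2.1 rfl

/-- A relation class is closed under conjugation by its members. -/
theorem rel_conj_self {D : Set G} (hc : ∀ g : G, ∀ x ∈ D, g * x * g⁻¹ ∈ D) {a b : G}
    (h : Rel' D a b) : Rel' D a (a * b * a⁻¹) := by
  have := h.conj hc a
  have e : a * a * a⁻¹ = a := by group
  rwa [e] at this

/-- Conjugating by a product `d' * v'` of two related members of `D` preserves the class. -/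
theorem rel_conj_pair' {D : Set G} (hD : Cfsg.IsThreeTranspositionSet D)
    (hc : ∀ g : G, ∀ x ∈ D, g * x * g⁻¹ ∈ D) {d u d' v' : G} (hd : d ∈ D) (hu : u ∈ D)
    (hd' : d' ∈ D) (hv' : v' ∈ D) (hud : Rel' D u d) (hvd' : Rel' D v' d') :
    Rel' D ((d' * v') * u * (d' * v')⁻¹) d := by
  have e0 : (d' * v') * u * (d' * v')⁻¹ = d' * (v' * u * v'⁻¹) * d'⁻¹ := by group
  by_cases hrel : Rel' D d' d
  · -- everything in one class
    have h1 : Rel' D v' (v' * u * v'⁻¹) :=
      rel_conj_self hc (hvd'.trans (hrel.trans hud.symm))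
    have h2 : Rel' D d' (d' * (v' * u * v'⁻¹) * d'⁻¹) :=
      rel_conj_self hc (hvd'.symm.trans h1)
    rw [e0]
    exact h2.symm.trans hrel
  · by_cases hcom : Commute d' d
    · have hne : d' ≠ d := fun h => hrel (by rw [h]; rfl)
      have h1 : d' ∈ AA D d := ⟨hd', hne, hcom.symm⟩
      rw [← hud] at h1
      have h2 : u ∈ AA D d' := ⟨hu, fun e => h1.2.1 e.symm, h1.2.2.symm⟩
      rw [← hvd'] at h2
      have c1 : u * d' = d' * u := h1.2.2
      have c3 : v' * u = u * v' := h2.2.2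
      have : (d' * v') * u * (d' * v')⁻¹ = u := by
        calc (d' * v') * u * (d' * v')⁻¹ = d' * (v' * u) * v'⁻¹ * d'⁻¹ := by group
          _ = d' * (u * v') * v'⁻¹ * d'⁻¹ := by rw [c3]
          _ = (d' * u) * d'⁻¹ := by group
          _ = (u * d') * d'⁻¹ := by rw [c1]
          _ = u := by group
      rw [this]; exact hud
    · have h1 : ¬ Commute u d' := by
        intro h
        by_cases hne : u = d'
        · exact hrel (by rw [← hne]; exact hud)
        · have : d' ∈ AA D u := ⟨hd', fun e => hne e.symm, h⟩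
          rw [hud] at this
          exact hcom this.2.2.symm
      have h2 : ¬ Commute v' d := by
        intro h
        by_cases hne : v' = d
        · exact hrel (by rw [← hne]; exact hvd'.symm)
        · have : d ∈ AA D v' := ⟨hd, fun e => hne e.symm, h⟩
          rw [hvd'] at this
          exact hcom this.2.2
      have h3 : ¬ Commute u v' := by
        intro h
        by_cases hne : u = v'
        · exact hrel (hvd'.symm.trans (by rw [← hne]; exact hud))
        · have : v' ∈ AA D u := ⟨hv', fun e => hne e.symm, h⟩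
          rw [hud] at this
          exact h2 this.2.2.symm
      have b1 : u * v' * u⁻¹ = v' * u * v'⁻¹ := Cfsg.Agent.S5349.braid hD hu hv' h3
      have b2 : u * d' * u⁻¹ = d' * u * d'⁻¹ := Cfsg.Agent.S5349.braid hD hu hd' h1
      have r1 : Rel' D (u * v' * u⁻¹) (u * d' * u⁻¹) := hvd'.conj hc u
      rw [b1, b2] at r1
      have r2 := r1.conj hc d'
      have e2 : d' * (d' * u * d'⁻¹) * d'⁻¹ = u := by
        calc d' * (d' * u * d'⁻¹) * d'⁻¹ = (d' * d') * u * (d' * d')⁻¹ := by group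
          _ = u := by rw [Cfsg.Agent.S5349.sq_one_of_mem hD hd']; group
      rw [← e0, e2] at r2
      exact r2.trans hud

/-- The generating set of the normal 3-subgroup: products of two related members of `D`. -/
def TT' (D : Set G) : Set G := {x | ∃ u ∈ D, ∃ v ∈ D, Rel' D u v ∧ x = u * v}

/-- The class of `d`. -/
def WW (D : Set G) (d : G) : Set G := {u | u ∈ D ∧ Rel' D u d}

/-- Products of two members of the class of `d`. -/
def SS' (D : Set G) (d : G) : Set G := {x | ∃ u ∈ WW D d, ∃ v ∈ WW D d, x = u * v}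

theorem SS'_closure_isPGroup [Finite G] {D : Set G} (hD : Cfsg.IsThreeTranspositionSet D)
    (hc : ∀ g : G, ∀ x ∈ D, g * x * g⁻¹ ∈ D) (d : G) :
    IsPGroup 3 (Subgroup.closure (SS' D d)) := by
  apply Cfsg.Agent.Helper89.isPGroup_three_closure_mul (WW D d)
  · intro u hu
    exact Cfsg.Agent.S5349.sq_one_of_mem hD hu.1
  · intro u hu v hv
    have h1 : Rel' D u (u * v * u⁻¹) := rel_conj_self hc (hu.2.trans hv.2.symm)
    have e : u * v * u⁻¹ = u * v * u := by rw [Cfsg.Agent.S5349.inv_of_mem hD hu.1]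
    rw [e] at h1
    refine ⟨?_, h1.symm.trans hu.2⟩
    rw [← e]
    exact hc u v hv.1
  · intro u hu v hv
    by_cases hne : u = v
    · rw [hne]
    · have h1 : ¬ Commute u v := rel_not_commute hv.1 (hu.2.trans hv.2.symm) hne
      have := Cfsg.Agent.S5349.braid hD hu.1 hv.1 h1
      rwa [Cfsg.Agent.S5349.inv_of_mem hD hu.1, Cfsg.Agent.S5349.inv_of_mem hD hv.1] at this

theorem TT'_closure_isPGroup [Finite G] {D : Set G} (hD : Cfsg.IsThreeTranspositionSet D)
    (hc : ∀ g : G, ∀ x ∈ D, g * x * g⁻¹ ∈ D) : IsPGroup 3 (Subgroup.closure (TT' D)) := by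
  have hconjSS : ∀ d ∈ D, ∀ t ∈ TT' D, ∀ h ∈ Subgroup.closure (SS' D d),
      t * h * t⁻¹ ∈ Subgroup.closure (SS' D d) := by
    rintro d hd t ⟨d', hd', v', hv', hrel, rfl⟩ h hh
    induction hh using Subgroup.closure_induction with
    | mem x hx =>
      obtain ⟨u, ⟨hu, hud⟩, v, ⟨hv, hvd⟩, rfl⟩ := hx
      apply Subgroup.subset_closure
      refine ⟨(d' * v') * u * (d' * v')⁻¹,
        ⟨hc _ u hu, rel_conj_pair' hD hc hd hu hd' hv' hud hrel.symm⟩,
        (d' * v') * v * (d' * v')⁻¹,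
        ⟨hc _ v hv, rel_conj_pair' hD hc hd hv hd' hv' hvd hrel.symm⟩, by group⟩
    | one => simp
    | mul x y hx hy ihx ihy =>
      have : (d' * v') * (x * y) * (d' * v')⁻¹
          = ((d' * v') * x * (d' * v')⁻¹) * ((d' * v') * y * (d' * v')⁻¹) := by group
      rw [this]; exact mul_mem ihx ihy
    | inv x hx ih =>
      have : (d' * v') * x⁻¹ * (d' * v')⁻¹ = ((d' * v') * x * (d' * v')⁻¹)⁻¹ := by group
      rw [this]; exact inv_mem ih
  have hTinv : ∀ t ∈ TT' D, t⁻¹ ∈ TT' D := by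
    rintro t ⟨u, hu, v, hv, hrel, rfl⟩
    refine ⟨v, hv, u, hu, hrel.symm, ?_⟩
    rw [mul_inv_rev, Cfsg.Agent.S5349.inv_of_mem hD hu, Cfsg.Agent.S5349.inv_of_mem hD hv]
  refine Cfsg.Agent.S5349.isPGroup_closure_of_normalized 3 (TT' D)
    (fun d : D => Subgroup.closure (SS' D d.1)) ?_ ?_ ?_ ?_
  · rintro ⟨d, hd⟩
    exact SS'_closure_isPGroup hD hc d
  · rintro t ⟨u, hu, v, hv, hrel, rfl⟩
    exact ⟨⟨u, hu⟩, Subgroup.subset_closure ⟨u, ⟨hu, rfl⟩, v, ⟨hv, hrel.symm⟩, rfl⟩⟩
  · rintro ⟨d, hd⟩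
    rw [Subgroup.closure_le]
    rintro x ⟨u, ⟨hu, hud⟩, v, ⟨hv, hvd⟩, rfl⟩
    exact Subgroup.subset_closure ⟨u, hu, v, hv, hud.trans hvd.symm, rfl⟩
  · rintro ⟨d, hd⟩
    rw [Subgroup.closure_le]
    intro t ht
    rw [SetLike.mem_coe, Subgroup.mem_normalizer_iff]
    intro h
    constructor
    · exact hconjSS d hd t ht h
    · intro hh
      have := hconjSS d hd t⁻¹ (hTinv t ht) _ hh
      have e : t⁻¹ * (t * h * t⁻¹) * t⁻¹⁻¹ = h := by group
      rwa [e] at this

end aux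

/-- Let D be a conjugacy class of 3-transpositions generating the finite group G, with at least two members, and d a member of D. Then the set of members w of D whose commuting partners in D (other than w) are exactly those of d (other than d) coincides with the set of members of D lying in the coset of d modulo the largest normal 3-subgroup of G, and also with the orbit of d under conjugation by that normal 3-subgroup. -/
theorem result {G : Type*} [Group G] [Finite G] {D : Set G} (hD : Cfsg.IsThreeTranspositionClass D) (hD2 : ∃ a ∈ D, ∃ b ∈ D, a ≠ b) {d : G} (hd : d ∈ D) : {w : G | w ∈ D ∧ {y : G | y ∈ D ∧ y ≠ d ∧ Commute d y} = {y : G | y ∈ D ∧ y ≠ w ∧ Commute w y}} = {w : G | w ∈ D ∧ d⁻¹ * w ∈ Cfsg.pCore 3 G} ∧ {w : G | w ∈ D ∧ {y : G | y ∈ D ∧ y ≠ d ∧ Commute d y} = {y : G | y ∈ D ∧ y ≠ w ∧ Commute w y}} = {w : G | ∃ g ∈ Cfsg.pCore 3 G, w = g * d * g⁻¹} := by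
  classical
  obtain ⟨hTS, ⟨d₀, hd₀, hDeq⟩, hgen⟩ := hD
  -- D is closed under conjugation
  have hc : ∀ g : G, ∀ x ∈ D, g * x * g⁻¹ ∈ D := by
    intro g x hx
    rw [hDeq] at hx ⊢
    have hx' : IsConj d₀ x := hx
    show IsConj d₀ (g * x * g⁻¹)
    exact hx'.trans (isConj_iff.2 ⟨g, rfl⟩)
  -- the normal 3-subgroup
  have hNp : IsPGroup 3 (Subgroup.closure (TT' D)) := TT'_closure_isPGroup hTS hc
  have hNn : (Subgroup.closure (TT' D)).Normal := by
    apply Cfsg.Agent.S5349.normal_closure_of_conj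
    rintro g t ⟨u, hu, v, hv, hrel, rfl⟩
    exact ⟨g * u * g⁻¹, hc g u hu, g * v * g⁻¹, hc g v hv, hrel.conj hc g, by group⟩
  have hNQ : Subgroup.closure (TT' D) ≤ Cfsg.pCore 3 G := le_sSup ⟨hNn, hNp⟩
  have hQn : (Cfsg.pCore 3 G).Normal := Subgroup.sSup_normal _ (fun _ hH => hH.1)
  have hQp : IsPGroup 3 (Cfsg.pCore 3 G) :=
    Sylow.sSup_of_normal _ (fun _ hH => hH.2) (fun _ hH => hH.1)
  have hQ1 : ∀ x ∈ Cfsg.pCore 3 G, x ^ 2 = 1 → x = 1 := by
    intro x hx h2
    obtain ⟨k, hk⟩ := hQp ⟨x, hx⟩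
    have hk' : x ^ 3 ^ k = 1 := by simpa using congrArg Subtype.val hk
    have h1 : orderOf x ∣ 2 := orderOf_dvd_of_pow_eq_one h2
    have h3 : orderOf x ∣ 3 ^ k := orderOf_dvd_of_pow_eq_one hk'
    have hcop : Nat.Coprime 2 (3 ^ k) := Nat.Coprime.pow_right k (by norm_num)
    exact orderOf_eq_one_iff.mp (Nat.eq_one_of_dvd_coprimes hcop h1 h3)
  -- the three sets
  have hAC : {w : G | w ∈ D ∧ {y : G | y ∈ D ∧ y ≠ d ∧ Commute d y} =
      {y : G | y ∈ D ∧ y ≠ w ∧ Commute w y}} ⊆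
      {w : G | ∃ g ∈ Cfsg.pCore 3 G, w = g * d * g⁻¹} := by
    rintro w ⟨hw, hrel⟩
    have hrel' : Rel' D d w := hrel
    by_cases hne : d = w
    · exact ⟨1, one_mem _, by rw [← hne]; group⟩
    · have hncom : ¬ Commute d w := rel_not_commute hw hrel' hne
      have hmem : d * w ∈ Cfsg.pCore 3 G :=
        hNQ (Subgroup.subset_closure ⟨d, hd, w, hw, hrel', rfl⟩)
      refine ⟨d * w, hmem, ?_⟩
      have b1 : d * w * d⁻¹ = w * d * w⁻¹ := Cfsg.Agent.S5349.braid hTS hd hw hncom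
      symm
      calc d * w * d * (d * w)⁻¹ = d * (w * d * w⁻¹) * d⁻¹ := by group
        _ = d * (d * w * d⁻¹) * d⁻¹ := by rw [b1]
        _ = (d * d) * w * (d * d)⁻¹ := by group
        _ = w := by rw [Cfsg.Agent.S5349.sq_one_of_mem hTS hd]; group
  have hCB : {w : G | ∃ g ∈ Cfsg.pCore 3 G, w = g * d * g⁻¹} ⊆
      {w : G | w ∈ D ∧ d⁻¹ * w ∈ Cfsg.pCore 3 G} := by
    rintro v ⟨g, hg, rfl⟩
    refine ⟨hc g d hd, ?_⟩
    have h1 := hQn.conj_mem g hg d⁻¹
    have h2 := mul_mem h1 (inv_mem hg)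
    have e : d⁻¹ * g * d⁻¹⁻¹ * g⁻¹ = d⁻¹ * (g * d * g⁻¹) := by group
    rwa [e] at h2
  -- the coset lemma
  have hL : ∀ x ∈ D, ∀ y ∈ D, x⁻¹ * y ∈ Cfsg.pCore 3 G → AA D x ⊆ AA D y := by
    intro x hx y hy hq z hz
    obtain ⟨hzD, hzx, hxz⟩ := hz
    have ix : x⁻¹ = x := Cfsg.Agent.S5349.inv_of_mem hTS hx
    have iy : y⁻¹ = y := Cfsg.Agent.S5349.inv_of_mem hTS hy
    have iz : z⁻¹ = z := Cfsg.Agent.S5349.inv_of_mem hTS hzD
    have hzx' : z * x = x * z := hxz.symm
    have hzx2 : (z * x) ^ 2 = 1 := by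
      rw [sq]
      calc z * x * (z * x) = z * x * (x * z) := by rw [hzx']
        _ = z * (x * x) * z := by group
        _ = 1 := by
          rw [Cfsg.Agent.S5349.sq_one_of_mem hTS hx, mul_one,
            Cfsg.Agent.S5349.sq_one_of_mem hTS hzD]
    have hmem : (z * y) ^ 2 ∈ Cfsg.pCore 3 G := by
      have h1 := hQn.conj_mem _ hq (z * x)
      have h2 := mul_mem h1 hq
      have e1 : (z * x) * (x⁻¹ * y) * (z * x)⁻¹ * (x⁻¹ * y) = (z * y) ^ 2 := by
        have e2 : (z * x)⁻¹ = z * x := by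
          rw [mul_inv_rev, iz, ix, ← hzx']
        rw [e2, sq]
        group
      rwa [e1] at h2
    rcases hTS.2 z hzD y hy with h2 | h3
    · have hcom : Commute z y := Cfsg.Agent.S5349.commute_of_sq hTS hzD hy h2
      refine ⟨hzD, ?_, hcom.symm⟩
      intro hzy
      -- then x, y commute and x * y is an involution in the 3-core
      apply hzx
      rw [hzy] at hxz
      have hxy : x * y = y * x := hxz
      have h4 : (x⁻¹ * y) ^ 2 = 1 := by
        rw [ix, sq]
        calc x * y * (x * y) = x * y * (y * x) := by rw [hxy]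
          _ = x * (y * y) * x := by group
          _ = 1 := by
            rw [Cfsg.Agent.S5349.sq_one_of_mem hTS hy, mul_one,
              Cfsg.Agent.S5349.sq_one_of_mem hTS hx]
      have h5 := hQ1 _ hq h4
      rw [hzy]
      have : y = x := by
        have := inv_mul_eq_one.1 h5
        exact this.symm
      exact this
    · exfalso
      apply hzx
      have hzy : z * y ∈ Cfsg.pCore 3 G := by
        have h4 : z * y = ((z * y) ^ 2) ^ 2 := by
          have : ((z * y) ^ 2) ^ 2 = (z * y) ^ 3 * (z * y) := by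
            rw [← pow_mul, pow_succ]
          rw [this, h3, one_mul]
        rw [h4]
        exact pow_mem hmem 2
      have hzxQ : z * x ∈ Cfsg.pCore 3 G := by
        have h5 := mul_mem hzy (inv_mem hq)
        have e : z * y * (x⁻¹ * y)⁻¹ = z * x := by
          rw [mul_inv_rev, inv_inv, iy]
          calc z * y * (y * x) = z * (y * y) * x := by group
            _ = z * x := by rw [Cfsg.Agent.S5349.sq_one_of_mem hTS hy, mul_one]
        rwa [e] at h5
      have h6 := hQ1 _ hzxQ hzx2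
      have : z = x⁻¹ := eq_inv_of_mul_eq_one_left h6
      rw [this, ix]
  have hBA : {w : G | w ∈ D ∧ d⁻¹ * w ∈ Cfsg.pCore 3 G} ⊆
      {w : G | w ∈ D ∧ {y : G | y ∈ D ∧ y ≠ d ∧ Commute d y} =
      {y : G | y ∈ D ∧ y ≠ w ∧ Commute w y}} := by
    rintro v ⟨hv, hq⟩
    refine ⟨hv, Set.Subset.antisymm (hL d hd v hv hq) ?_⟩
    apply hL v hv d hd
    have : v⁻¹ * d = (d⁻¹ * v)⁻¹ := by group
    rw [this]; exact inv_mem hq
  exact ⟨Set.Subset.antisymm (hAC.trans hCB) hBA, Set.Subset.antisymm hAC (hCB.trans hBA)⟩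

end Cfsg.Agent.S5350
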