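import Cfsg.Statements.S5354
import Mathlib
import Cfsg.Agent.Helper14.ThreeTrans12

set_option autoImplicit false
open Cfsg

namespace Cfsg.Agent.S5354

/-- Let D be a conjugation-invariant generating set of 3-transpositions of the finite group G on which G acts primitively by conjugation, and suppose two different members of D commute (width at least 2). Then G has a quasisimple normal subgroup L of index at most 2 with the generalized Fitting subgroup of G equal to L times the centre, the commuting graph of D is connected, and for d in D the subgroup generated by the members of D commuting with d is a maximal D-subgroup: it is proper, and every subgroup generated by members of D that contains it is either it or G. -/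
theorem result {G : Type*} [Group G] [Finite G] {D : Set G} (hD : Cfsg.IsThreeTranspositionGroup D) (hprim : Cfsg.IsPrimitiveUnderConj D) (hw : ∃ a ∈ D, ∃ b ∈ D, a ≠ b ∧ Commute a b) : (∃ L : Subgroup G, L.Normal ∧ Cfsg.IsQuasisimple L ∧ L.index ≤ 2 ∧ Cfsg.generalizedFittingSubgroup G = L ⊔ Subgroup.center G) ∧ (Cfsg.commutingGraph D).Connected ∧ ∀ d ∈ D, Subgroup.closure {y : G | y ∈ D ∧ Commute d y} ≠ ⊤ ∧ ∀ H : Subgroup G, Cfsg.IsDSubgroup D H → Subgroup.closure {y : G | y ∈ D ∧ Commute d y} ≤ H → H = Subgroup.closure {y : G | y ∈ D ∧ Commute d y} ∨ H = ⊤ := by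
  have hTT : Cfsg.Agent.Helper14.TT.IsTT D :=
    Cfsg.Agent.Helper14.TT.isTT_of_set hD.1 hD.2.1 hprim.1 hD.2.2
  obtain ⟨a, ha, b, hb, hab, hcab⟩ := hw
  have hD2 : ∃ a ∈ D, ∃ b ∈ D, a ≠ b := ⟨a, ha, b, hb, hab⟩
  have hw' : ∃ a ∈ D, ∃ b ∈ D, a ≠ b ∧ Commute a b := ⟨a, ha, b, hb, hab, hcab⟩
  have hrp := Cfsg.Agent.Helper14.TT.relPrim_of_primitive hTT.conj_mem hprim
  have h2 := Cfsg.Agent.Helper14.TT.pCore_two_le_center_of_relPrim hTT ha hrp
  have h3 := Cfsg.Agent.Helper14.TT.pCore_three_le_center_of_relPrim hTT hw' hrp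
  have hc := Cfsg.Agent.Helper14.TT.conn_of_relPrim hTT hw' hrp
  obtain ⟨L, hLn, hL, _, hF⟩ := Cfsg.Agent.Helper14.TT.layer_structure hTT hD2 h2 h3
  refine ⟨⟨L, hLn, hL, ?_, hF⟩, (Cfsg.Agent.Helper14.TT.connected_iff ⟨a, ha⟩).mpr hc, ?_⟩
  · exact Cfsg.Agent.Helper14.TT.index_le_two_of_mul_mem hTT L hLn
      (Cfsg.Agent.Helper14.TT.mul_mem_of_conn hTT L hLn hL hc)
  · intro d hd
    refine ⟨?_, fun H hH hle =>
      Cfsg.Agent.Helper14.TT.maximal_D_subgroup hTT hprim hc hd H hH hle⟩
    intro htop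
    have hex : ∃ y ∈ D, d ≠ y := by
      by_cases hda : d = a
      · exact ⟨b, hb, by rw [hda]; exact hab⟩
      · exact ⟨a, ha, hda⟩
    obtain ⟨y, hy, hdy⟩ := hex
    obtain ⟨e, he, hde⟩ := Cfsg.Agent.Helper14.TT.exists_not_commute hTT hd hy hdy
    have hcent : Subgroup.closure {y : G | y ∈ D ∧ Commute d y} ≤
        Subgroup.centralizer ({d} : Set G) := by
      rw [Subgroup.closure_le]
      intro x hx
      rw [SetLike.mem_coe, Subgroup.mem_centralizer_singleton_iff]
      exact hx.2.eq.symm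
    rw [htop] at hcent
    have := hcent (Subgroup.mem_top e)
    rw [Subgroup.mem_centralizer_singleton_iff] at this
    exact hde this.symm

end Cfsg.Agent.S5354
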