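import Cfsg.Statements.S5355
import Cfsg.Agent.Helper58.TTPairs

set_option autoImplicit false
open Cfsg

namespace Cfsg.Agent.S5355

/-- Let D be a conjugacy class of 3-transpositions generating the finite group G, with at least two members, and d a member of D. Suppose that every member of D commuting with d commutes with exactly the same members of D as d does, and that exactly one member of D other than d commutes with d. Then G is isomorphic to the symmetric group of degree 4. -/
theorem result {G : Type*} [Group G] [Finite G] {D : Set G} (hD : Cfsg.IsThreeTranspositionClass D) (hD2 : ∃ a ∈ D, ∃ b ∈ D, a ≠ b) {d : G} (hd : d ∈ D) (hV : {y : G | y ∈ D ∧ Commute d y} = {v : G | v ∈ D ∧ ∀ e ∈ D, Commute v e ↔ Commute d e}) (hm : {y : G | y ∈ D ∧ Commute d y}.ncard = 2) : Nonempty (G ≃* Equiv.Perm (Fin 4)) := by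
  obtain ⟨⟨hord, h23⟩, ⟨d₀, hd₀, hcls⟩, hgen⟩ := hD
  have hinv : ∀ a ∈ D, a * a = 1 := by
    intro a ha
    have := hord a ha
    rw [← pow_two, ← this]; exact pow_orderOf_eq_one a
  have h3 : ∀ a ∈ D, ∀ b ∈ D, a * b = b * a ∨ (a * b) ^ 3 = 1 := by
    intro a ha b hb
    rcases h23 a ha b hb with h | h
    · left
      have h1 : a * b = (a * b)⁻¹ := by
        rw [pow_two] at h; exact eq_inv_of_mul_eq_one_left h
      rw [mul_inv_rev, inv_eq_of_mul_eq_one_left (hinv a ha),
        inv_eq_of_mul_eq_one_left (hinv b hb)] at h1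
      exact h1
    · right; exact h
  have hconj : ∀ g : G, ∀ a ∈ D, g * a * g⁻¹ ∈ D := by
    intro g a ha
    rw [hcls] at ha ⊢
    have ha' : IsConj d₀ a := ha
    exact ha'.trans (isConj_iff.mpr ⟨g, rfl⟩)
  have hclass : ∀ a ∈ D, ∃ g : G, g * d * g⁻¹ = a := by
    intro a ha
    rw [hcls] at ha
    have ha' : IsConj d₀ a := ha
    have hd' : IsConj d₀ d := by rw [hcls] at hd; exact hd
    exact isConj_iff.mp (hd'.symm.trans ha')
  obtain ⟨x, y, hxy, hC⟩ := Set.ncard_eq_two.mp hm
  have hdC : d ∈ {y : G | y ∈ D ∧ Commute d y} := ⟨hd, Commute.refl d⟩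
  obtain ⟨d', hd'D, hd'ne, hd'c, hd'u⟩ : ∃ d' ∈ D, d' ≠ d ∧ d * d' = d' * d ∧
      ∀ y ∈ D, d * y = y * d → y = d ∨ y = d' := by
    rw [hC] at hdC
    rcases hdC with h | h
    · have hy : y ∈ {y : G | y ∈ D ∧ Commute d y} := by
        rw [hC]; exact Set.mem_insert_of_mem _ rfl
      refine ⟨y, hy.1, ?_, hy.2, ?_⟩
      · rw [h]; exact hxy.symm
      · intro z hz hzc
        have hz' : z ∈ {y : G | y ∈ D ∧ Commute d y} := ⟨hz, hzc⟩
        rw [hC] at hz'
        rcases hz' with h' | h'
        · left; rw [h', h]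
        · right; exact h'
    · have hx : x ∈ {y : G | y ∈ D ∧ Commute d y} := by
        rw [hC]; exact Set.mem_insert _ _
      refine ⟨x, hx.1, ?_, hx.2, ?_⟩
      · rw [h]; exact hxy
      · intro z hz hzc
        have hz' : z ∈ {y : G | y ∈ D ∧ Commute d y} := ⟨hz, hzc⟩
        rw [hC] at hz'
        rcases hz' with h' | h'
        · right; exact h'
        · left; rw [h', h]
  have hQ : ∀ a ∈ D, ∃ a' ∈ D, a' ≠ a ∧ a * a' = a' * a ∧
      ∀ y ∈ D, a * y = y * a → y = a ∨ y = a' := by
    intro a ha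
    obtain ⟨g, rfl⟩ := hclass a ha
    refine ⟨g * d' * g⁻¹, hconj g d' hd'D, ?_, ?_, ?_⟩
    · intro he
      apply hd'ne
      have e1 : d' = g⁻¹ * (g * d' * g⁻¹) * g := by group
      rw [e1, he]; group
    · calc g * d * g⁻¹ * (g * d' * g⁻¹) = g * (d * d') * g⁻¹ := by group
        _ = g * (d' * d) * g⁻¹ := by rw [hd'c]
        _ = g * d' * g⁻¹ * (g * d * g⁻¹) := by group
    · intro y hy hyc
      have hy' : g⁻¹ * y * g ∈ D := by
        have := hconj g⁻¹ y hy
        rwa [inv_inv] at this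
      have hc' : d * (g⁻¹ * y * g) = (g⁻¹ * y * g) * d := by
        calc d * (g⁻¹ * y * g) = g⁻¹ * ((g * d * g⁻¹) * y) * g := by group
          _ = g⁻¹ * (y * (g * d * g⁻¹)) * g := by rw [hyc]
          _ = (g⁻¹ * y * g) * d := by group
      have e1 : y = g * (g⁻¹ * y * g) * g⁻¹ := by group
      rcases hd'u _ hy' hc' with h | h
      · left; rw [e1, h]
      · right; rw [e1, h]
  have hPD : Cfsg.Agent.Helper58.PairData G D := ⟨hinv, h3, hconj, hQ⟩
  have hdd' : Cfsg.Agent.Helper58.IsPartner D d d' := ⟨hd'D, hd'ne, hd'c⟩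
  obtain ⟨e, he, hed, hed'⟩ : ∃ e ∈ D, e ≠ d ∧ e ≠ d' := by
    by_contra hcon
    push Not at hcon
    have hle : Subgroup.closure D ≤ Subgroup.centralizer ({d} : Set G) := by
      rw [Subgroup.closure_le]
      intro z hz
      rw [SetLike.mem_coe, Subgroup.mem_centralizer_iff]
      intro w hw
      rw [Set.mem_singleton_iff] at hw
      rw [hw]
      by_cases hzd : z = d
      · rw [hzd]
      · rw [hcon z hz hzd]; exact hd'c
    rw [hgen] at hle
    obtain ⟨g, hg⟩ := hclass d' hd'D
    have hgc := hle (Subgroup.mem_top g)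
    rw [Subgroup.mem_centralizer_iff] at hgc
    have hgd := hgc d rfl
    apply hd'ne
    rw [← hg, ← hgd]; group
  exact hPD.exists_iso hgen hd hdd' he hed hed'

end Cfsg.Agent.S5355
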