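import Cfsg.Statements.S5357

set_option autoImplicit false
open Cfsg

namespace Cfsg.Agent.S5357

theorem zmod3_sq : ∀ c : ZMod 3, c ≠ 0 → c * c = 1 := by decide
theorem zmod3_neg : ∀ a c : ZMod 3, a ≠ 0 → c ≠ 0 → a ≠ c → a = -c := by decide
theorem zmod3_two : ∀ c : ZMod 3, -c + -c = c := by decide
theorem zmod3_two_ne : ∀ c : ZMod 3, c ≠ 0 → 2 • c ≠ 0 := by decide

theorem polar_sum_left {n : ℕ} (Q : QuadraticForm (ZMod 3) (Fin n → ZMod 3)) {ι : Type} [Fintype ι]
    (a : ι → ZMod 3) (u : ι → Fin n → ZMod 3) (w : Fin n → ZMod 3) :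
    QuadraticMap.polar (⇑Q) (∑ i, a i • u i) w = ∑ i, a i * QuadraticMap.polar (⇑Q) (u i) w := by
  have := map_sum ((QuadraticMap.polarBilin Q).flip w) (fun i => a i • u i) Finset.univ
  simp only [LinearMap.flip_apply, QuadraticMap.polarBilin_apply_apply] at this
  rw [this]
  exact Finset.sum_congr rfl (fun i _ => by rw [QuadraticMap.polar_smul_left, smul_eq_mul])

theorem polar_sum_right {n : ℕ} (Q : QuadraticForm (ZMod 3) (Fin n → ZMod 3)) {ι : Type} [Fintype ι]
    (a : ι → ZMod 3) (u : ι → Fin n → ZMod 3) (w : Fin n → ZMod 3) :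
    QuadraticMap.polar (⇑Q) w (∑ i, a i • u i) = ∑ i, a i * QuadraticMap.polar (⇑Q) w (u i) := by
  have := map_sum ((QuadraticMap.polarBilin Q) w) (fun i => a i • u i) Finset.univ
  simp only [QuadraticMap.polarBilin_apply_apply] at this
  rw [this]
  exact Finset.sum_congr rfl (fun i _ => by rw [QuadraticMap.polar_smul_right, smul_eq_mul])

theorem exists_perp_nonsingular {n : ℕ} (Q : QuadraticForm (ZMod 3) (Fin n → ZMod 3))
    (hQ : (QuadraticMap.polarBilin Q).Nondegenerate)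
    {ι : Type} [Fintype ι] (u : ι → Fin n → ZMod 3)
    (horth : ∀ i j, i ≠ j → QuadraticMap.polar (⇑Q) (u i) (u j) = 0)
    (hns : ∀ i, Q (u i) ≠ 0) (hcard : Fintype.card ι < n) :
    ∃ x : Fin n → ZMod 3, (∀ i, QuadraticMap.polar (⇑Q) x (u i) = 0) ∧ Q x ≠ 0 := by
  classical
  -- kernel vector
  let φ : (Fin n → ZMod 3) →ₗ[ZMod 3] (ι → ZMod 3) :=
    LinearMap.pi (fun i => (QuadraticMap.polarBilin Q).flip (u i))
  have hker : LinearMap.ker φ ≠ ⊥ := by
    apply LinearMap.ker_ne_bot_of_finrank_lt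
    simpa using hcard
  obtain ⟨z, hzker, hz0⟩ := (Submodule.ne_bot_iff _).1 hker
  have hzu : ∀ i, QuadraticMap.polar (⇑Q) z (u i) = 0 := by
    intro i
    have := congrFun (LinearMap.mem_ker.1 hzker) i
    simpa [φ] using this
  -- y with B z y ≠ 0
  obtain ⟨y, hy⟩ : ∃ y, QuadraticMap.polar (⇑Q) z y ≠ 0 := by
    by_contra hcon
    push Not at hcon
    exact hz0 (hQ.1 z (fun y => by simpa using hcon y))
  have huu : ∀ i, QuadraticMap.polar (⇑Q) (u i) (u i) ≠ 0 := by
    intro i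
    rw [QuadraticMap.polar_self]
    exact zmod3_two_ne _ (hns i)
  -- projection
  obtain ⟨y', hy'u, hzy'⟩ : ∃ y', (∀ j, QuadraticMap.polar (⇑Q) y' (u j) = 0) ∧
      QuadraticMap.polar (⇑Q) z y' = QuadraticMap.polar (⇑Q) z y := by
    refine ⟨y - ∑ i, (QuadraticMap.polar (⇑Q) y (u i) / QuadraticMap.polar (⇑Q) (u i) (u i)) • u i,
      ?_, ?_⟩
    · intro j
      have h1 := polar_sum_left Q (fun i => QuadraticMap.polar (⇑Q) y (u i) / QuadraticMap.polar (⇑Q) (u i) (u i)) u (u j)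
      rw [QuadraticMap.polar_sub_left, h1, Finset.sum_eq_single j]
      · rw [div_mul_cancel₀ _ (huu j), sub_self]
      · intro i _ hij
        rw [horth i j hij, mul_zero]
      · intro h; exact absurd (Finset.mem_univ j) h
    · have h1 := polar_sum_right Q (fun i => QuadraticMap.polar (⇑Q) y (u i) / QuadraticMap.polar (⇑Q) (u i) (u i)) u z
      rw [QuadraticMap.polar_sub_right, h1]
      simp [hzu]
  -- conclude
  have hpol : Q (z + y') - Q z - Q y' = QuadraticMap.polar (⇑Q) z y' := rfl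
  by_cases h1 : Q z = 0
  · by_cases h2 : Q y' = 0
    · refine ⟨z + y', fun i => ?_, ?_⟩
      · rw [QuadraticMap.polar_add_left, hzu, hy'u, add_zero]
      · intro h3
        rw [h3, h1, h2, hzy'] at hpol
        apply hy
        rw [← hpol]; simp
    · exact ⟨y', hy'u, h2⟩
  · exact ⟨z, hzu, h1⟩

theorem exists_perp_norm {n : ℕ} (Q : QuadraticForm (ZMod 3) (Fin n → ZMod 3))
    (hQ : (QuadraticMap.polarBilin Q).Nondegenerate)
    {ι : Type} [Fintype ι] (u : ι → Fin n → ZMod 3)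
    (horth : ∀ i j, i ≠ j → QuadraticMap.polar (⇑Q) (u i) (u j) = 0)
    (hns : ∀ i, Q (u i) ≠ 0) (hcard : Fintype.card ι + 1 < n) (c : ZMod 3) (hc : c ≠ 0) :
    ∃ x : Fin n → ZMod 3, (∀ i, QuadraticMap.polar (⇑Q) x (u i) = 0) ∧ Q x = c := by
  classical
  obtain ⟨x₁, h1, hx1⟩ := exists_perp_nonsingular Q hQ u horth hns (by omega)
  by_cases hx1c : Q x₁ = c
  · exact ⟨x₁, h1, hx1c⟩
  have hx1' : Q x₁ = -c := zmod3_neg _ _ hx1 hc hx1c
  obtain ⟨x₂, h2, hx2⟩ := exists_perp_nonsingular Q hQ (fun o : Option ι => o.elim x₁ u)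
    (by
      intro i j hij
      cases i with
      | none =>
        cases j with
        | none => exact absurd rfl hij
        | some j => exact h1 j
      | some i =>
        cases j with
        | none => show QuadraticMap.polar (⇑Q) (u i) x₁ = 0; rw [QuadraticMap.polar_comm]; exact h1 i
        | some j => exact horth i j (fun h => hij (by rw [h])))
    (by
      intro i
      cases i with
      | none => exact hx1
      | some i => exact hns i)
    (by rw [Fintype.card_option]; exact hcard)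
  by_cases hx2c : Q x₂ = c
  · exact ⟨x₂, fun i => h2 (some i), hx2c⟩
  have hx2' : Q x₂ = -c := zmod3_neg _ _ hx2 hc hx2c
  refine ⟨x₁ + x₂, fun i => ?_, ?_⟩
  · have h2i : QuadraticMap.polar (⇑Q) x₂ (u i) = 0 := h2 (some i)
    rw [QuadraticMap.polar_add_left, h1 i, h2i, add_zero]
  · have h3 : QuadraticMap.polar (⇑Q) x₁ x₂ = 0 := by
      rw [QuadraticMap.polar_comm]; exact h2 none
    have hpol : Q (x₁ + x₂) - Q x₁ - Q x₂ = QuadraticMap.polar (⇑Q) x₁ x₂ := rfl
    rw [h3, hx1', hx2'] at hpol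
    have : Q (x₁ + x₂) = -c + -c := by
      have := sub_eq_zero.1 hpol
      rw [sub_eq_iff_eq_add] at hpol
      rw [sub_eq_iff_eq_add] at hpol
      rw [hpol]; ring
    rw [this]; exact zmod3_two c

section mat
variable {n : ℕ} (Q : QuadraticForm (ZMod 3) (Fin n → ZMod 3))

theorem polarVec_dot (u x : Fin n → ZMod 3) :
    Cfsg.polarVec (⇑Q) u ⬝ᵥ x = QuadraticMap.polar (⇑Q) u x := by
  have h := LinearMap.pi_apply_eq_sum_univ (QuadraticMap.polarBilin Q u) x
  rw [QuadraticMap.polarBilin_apply_apply] at h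
  rw [h]
  unfold Cfsg.polarVec dotProduct
  refine Finset.sum_congr rfl fun j _ => ?_
  rw [smul_eq_mul, mul_comm, QuadraticMap.polarBilin_apply_apply]
  have hs : (Pi.single j 1 : Fin n → ZMod 3) = fun k => if j = k then 1 else 0 := by
    funext k
    simp [Pi.single_apply, eq_comm]
  beta_reduce
  rw [hs]

theorem refl_mulVec (u x : Fin n → ZMod 3) :
    Matrix.mulVec (Cfsg.reflectionMatrix (⇑Q) u) x
      = x - ((Q u)⁻¹ * QuadraticMap.polar (⇑Q) u x) • u := by
  unfold Cfsg.reflectionMatrix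
  rw [Matrix.sub_mulVec, Matrix.one_mulVec, Matrix.smul_mulVec, Matrix.vecMulVec_mulVec,
    polarVec_dot, op_smul_eq_smul, smul_smul]

theorem refl_isometry (u : Fin n → ZMod 3) (hu : Q u ≠ 0) (x : Fin n → ZMod 3) :
    Q (Matrix.mulVec (Cfsg.reflectionMatrix (⇑Q) u) x) = Q x := by
  rw [refl_mulVec, sub_eq_add_neg, ← neg_smul, QuadraticMap.map_add (⇑Q), QuadraticMap.map_smul,
    QuadraticMap.polar_smul_right, QuadraticMap.polar_comm (⇑Q) x u]
  simp only [smul_eq_mul]
  field_simp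
  ring

theorem refl_sq (u : Fin n → ZMod 3) (hu : Q u ≠ 0) :
    Cfsg.reflectionMatrix (⇑Q) u * Cfsg.reflectionMatrix (⇑Q) u = 1 := by
  have hAA : Matrix.vecMulVec u (Cfsg.polarVec (⇑Q) u) * Matrix.vecMulVec u (Cfsg.polarVec (⇑Q) u)
      = (2 * Q u) • Matrix.vecMulVec u (Cfsg.polarVec (⇑Q) u) := by
    rw [Matrix.vecMulVec_mul_vecMulVec, polarVec_dot, QuadraticMap.polar_self]
    ext i j
    simp [Matrix.vecMulVec_apply]
    ring
  unfold Cfsg.reflectionMatrix
  rw [sub_mul, one_mul, mul_sub, mul_one, Matrix.smul_mul, Matrix.mul_smul, hAA, smul_smul, smul_smul]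
  have h3 : (Q u)⁻¹ * (Q u)⁻¹ * (2 * Q u) = 2 * (Q u)⁻¹ := by
    field_simp
  rw [h3, mul_smul, two_smul]
  abel

theorem refl_ne_one (u : Fin n → ZMod 3) (hu : Q u ≠ 0) :
    Cfsg.reflectionMatrix (⇑Q) u ≠ 1 := by
  intro h
  have h1 := refl_mulVec Q u u
  rw [h, Matrix.one_mulVec, QuadraticMap.polar_self] at h1
  have h2 : (Q u)⁻¹ * (2 • Q u) = 2 := by
    rw [nsmul_eq_mul]; field_simp; norm_num
  rw [h2] at h1
  have h3 : (2 : ZMod 3) • u = 0 := by
    have := sub_eq_self.1 h1.symm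
    exact this
  have h4 : u = 0 := by
    have h5 : (2 : ZMod 3) ≠ 0 := by decide
    exact (smul_eq_zero.1 h3).resolve_left h5
  apply hu
  rw [h4, QuadraticMap.map_zero]

theorem refl_comm (u v : Fin n → ZMod 3) (h : QuadraticMap.polar (⇑Q) u v = 0) :
    Cfsg.reflectionMatrix (⇑Q) u * Cfsg.reflectionMatrix (⇑Q) v
      = Cfsg.reflectionMatrix (⇑Q) v * Cfsg.reflectionMatrix (⇑Q) u := by
  have hAB : Matrix.vecMulVec u (Cfsg.polarVec (⇑Q) u) * Matrix.vecMulVec v (Cfsg.polarVec (⇑Q) v)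
      = 0 := by
    rw [Matrix.vecMulVec_mul_vecMulVec, polarVec_dot, h]
    ext i j
    simp [Matrix.vecMulVec_apply]
  have hBA : Matrix.vecMulVec v (Cfsg.polarVec (⇑Q) v) * Matrix.vecMulVec u (Cfsg.polarVec (⇑Q) u)
      = 0 := by
    rw [Matrix.vecMulVec_mul_vecMulVec, polarVec_dot, QuadraticMap.polar_comm, h]
    ext i j
    simp [Matrix.vecMulVec_apply]
  unfold Cfsg.reflectionMatrix
  rw [sub_mul, one_mul, mul_sub, mul_one, Matrix.smul_mul, Matrix.mul_smul, hAB,
    sub_mul, one_mul, mul_sub, mul_one, Matrix.smul_mul, Matrix.mul_smul, hBA]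
  simp only [smul_zero, sub_zero]
  abel

theorem ring_braid {R : Type*} [Ring R] (h3 : (3 : R) = 0) {E F : R} (hE : E * E = E)
    (hF : F * F = F) (hEFE : E * F * E = E) (hFEF : F * E * F = F) :
    ((1 + E) * (1 + F)) ^ 3 = 1 := by
  have hX : (1 + E) * (1 + F) * (1 + E) = 1 + E + F + E * F + F * E + 3 * E := by
    calc (1 + E) * (1 + F) * (1 + E)
        = 1 + E + F + E * F + E + E * E + F * E + E * F * E := by noncomm_ring
      _ = 1 + E + F + E * F + E + E + F * E + E := by rw [hE, hEFE]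
      _ = 1 + E + F + E * F + F * E + 3 * E := by noncomm_ring
  have hY : (1 + F) * (1 + E) * (1 + F) = 1 + E + F + E * F + F * E + 3 * F := by
    calc (1 + F) * (1 + E) * (1 + F)
        = 1 + F + E + F * E + F + F * F + E * F + F * E * F := by noncomm_ring
      _ = 1 + F + E + F * E + F + F + E * F + F := by rw [hF, hFEF]
      _ = 1 + E + F + E * F + F * E + 3 * F := by noncomm_ring
  have hXY : (1 + E) * (1 + F) * (1 + E) = (1 + F) * (1 + E) * (1 + F) := by
    rw [hX, hY, h3, zero_mul, zero_mul]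
  have hEE : (1 + E) * (1 + E) = 1 := by
    calc (1 + E) * (1 + E) = 1 + E + E + E * E := by noncomm_ring
      _ = 1 + 3 * E := by rw [hE]; noncomm_ring
      _ = 1 := by rw [h3, zero_mul, add_zero]
  have hFF : (1 + F) * (1 + F) = 1 := by
    calc (1 + F) * (1 + F) = 1 + F + F + F * F := by noncomm_ring
      _ = 1 + 3 * F := by rw [hF]; noncomm_ring
      _ = 1 := by rw [h3, zero_mul, add_zero]
  calc ((1 + E) * (1 + F)) ^ 3
      = ((1 + E) * (1 + F) * (1 + E)) * ((1 + F) * (1 + E) * (1 + F)) := by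
        simp only [pow_succ, pow_zero, one_mul, mul_assoc]
    _ = ((1 + E) * (1 + F) * (1 + E)) * ((1 + E) * (1 + F) * (1 + E)) := by rw [← hXY]
    _ = (1 + E) * ((1 + F) * ((1 + E) * (1 + E)) * (1 + F)) * (1 + E) := by
        simp only [mul_assoc]
    _ = 1 := by rw [hEE, mul_one, hFF, mul_one, hEE]

theorem refl_braid (u v : Fin n → ZMod 3) (c : ZMod 3) (hc : c ≠ 0) (hu : Q u = c) (hv : Q v = c)
    (h : QuadraticMap.polar (⇑Q) u v ≠ 0) :
    (Cfsg.reflectionMatrix (⇑Q) u * Cfsg.reflectionMatrix (⇑Q) v) ^ 3 = 1 := by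
  have hcc : c * c = 1 := zmod3_sq c hc
  have hci : c⁻¹ = c := inv_eq_of_mul_eq_one_left hcc
  have hbb : QuadraticMap.polar (⇑Q) u v * QuadraticMap.polar (⇑Q) u v = 1 := zmod3_sq _ h
  have h2c : (2 : ZMod 3) * c = -c := by
    have : (2 : ZMod 3) = -1 := by decide
    rw [this]; ring
  have hAA : ∀ w : Fin n → ZMod 3, Q w = c →
      Matrix.vecMulVec w (Cfsg.polarVec (⇑Q) w) * Matrix.vecMulVec w (Cfsg.polarVec (⇑Q) w)
      = (-c) • Matrix.vecMulVec w (Cfsg.polarVec (⇑Q) w) := by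
    intro w hw
    rw [Matrix.vecMulVec_mul_vecMulVec, polarVec_dot, QuadraticMap.polar_self, hw, ← h2c]
    ext i j
    simp [Matrix.vecMulVec_apply]
    ring
  have hABA : ∀ w z : Fin n → ZMod 3,
      QuadraticMap.polar (⇑Q) w z * QuadraticMap.polar (⇑Q) w z = 1 →
      Matrix.vecMulVec w (Cfsg.polarVec (⇑Q) w) * Matrix.vecMulVec z (Cfsg.polarVec (⇑Q) z)
        * Matrix.vecMulVec w (Cfsg.polarVec (⇑Q) w)
      = Matrix.vecMulVec w (Cfsg.polarVec (⇑Q) w) := by
    intro w z hwz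
    rw [Matrix.vecMulVec_mul_vecMulVec, polarVec_dot, Matrix.vecMulVec_mul_vecMulVec,
      smul_dotProduct, polarVec_dot, QuadraticMap.polar_comm (⇑Q) z w]
    ext i j
    simp only [Matrix.vecMulVec_apply, Pi.smul_apply, smul_eq_mul]
    linear_combination (w i * Cfsg.polarVec (⇑Q) w j) * hwz
  have hR : ∀ w : Fin n → ZMod 3, Q w = c → Cfsg.reflectionMatrix (⇑Q) w
      = 1 + (-c) • Matrix.vecMulVec w (Cfsg.polarVec (⇑Q) w) := by
    intro w hw
    unfold Cfsg.reflectionMatrix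
    rw [hw, hci, neg_smul, sub_eq_add_neg]
  have hE : ∀ w : Fin n → ZMod 3, Q w = c →
      ((-c) • Matrix.vecMulVec w (Cfsg.polarVec (⇑Q) w)) * ((-c) • Matrix.vecMulVec w (Cfsg.polarVec (⇑Q) w))
        = (-c) • Matrix.vecMulVec w (Cfsg.polarVec (⇑Q) w) := by
    intro w hw
    rw [Matrix.smul_mul, Matrix.mul_smul, hAA w hw, smul_smul, smul_smul]
    congr 1
    linear_combination (-c) * hcc
  have hEFE : ∀ w z : Fin n → ZMod 3,
      QuadraticMap.polar (⇑Q) w z * QuadraticMap.polar (⇑Q) w z = 1 →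
      ((-c) • Matrix.vecMulVec w (Cfsg.polarVec (⇑Q) w)) * ((-c) • Matrix.vecMulVec z (Cfsg.polarVec (⇑Q) z))
        * ((-c) • Matrix.vecMulVec w (Cfsg.polarVec (⇑Q) w))
        = (-c) • Matrix.vecMulVec w (Cfsg.polarVec (⇑Q) w) := by
    intro w z hwz
    simp only [Matrix.smul_mul, Matrix.mul_smul, smul_smul]
    rw [hABA w z hwz]
    congr 1
    linear_combination (-c) * hcc
  have h3 : (3 : Matrix (Fin n) (Fin n) (ZMod 3)) = 0 := by
    have : (3 : ZMod 3) = 0 := by decide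
    have h := congrArg (algebraMap (ZMod 3) (Matrix (Fin n) (Fin n) (ZMod 3))) this
    rw [map_ofNat, map_zero] at h
    exact h
  rw [hR u hu, hR v hv]
  apply ring_braid h3 (hE u hu) (hE v hv) (hEFE u v hbb)
  apply hEFE v u
  rw [QuadraticMap.polar_comm (⇑Q) v u]; exact hbb

theorem polar_mulVec (M : Matrix (Fin n) (Fin n) (ZMod 3))
    (hM : ∀ x, Q (Matrix.mulVec M x) = Q x) (a b : Fin n → ZMod 3) :
    QuadraticMap.polar (⇑Q) (Matrix.mulVec M a) (Matrix.mulVec M b) = QuadraticMap.polar (⇑Q) a b := by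
  unfold QuadraticMap.polar
  rw [← Matrix.mulVec_add, hM, hM, hM]

theorem refl_conj (M N : Matrix (Fin n) (Fin n) (ZMod 3)) (hMN : M * N = 1)
    (hM : ∀ x, Q (Matrix.mulVec M x) = Q x) (v : Fin n → ZMod 3) :
    M * Cfsg.reflectionMatrix (⇑Q) v * N = Cfsg.reflectionMatrix (⇑Q) (Matrix.mulVec M v) := by
  have hp : Matrix.vecMul (Cfsg.polarVec (⇑Q) v) N = Cfsg.polarVec (⇑Q) (Matrix.mulVec M v) := by
    funext j
    have h1 : Matrix.vecMul (Cfsg.polarVec (⇑Q) v) N j
        = Cfsg.polarVec (⇑Q) v ⬝ᵥ (Matrix.mulVec N (Pi.single j 1)) := by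
      rw [Matrix.mulVec_single_one]
      rfl
    rw [h1, polarVec_dot]
    show _ = QuadraticMap.polar (⇑Q) (Matrix.mulVec M v) (Pi.single j 1)
    rw [← polar_mulVec Q M hM v, Matrix.mulVec_mulVec, hMN, Matrix.one_mulVec]
  unfold Cfsg.reflectionMatrix
  rw [mul_sub, sub_mul, mul_one, hMN, Matrix.mul_smul, Matrix.smul_mul, Matrix.mul_vecMulVec,
    Matrix.vecMulVec_mul, hM v, hp]

/-- The matrix of an element of the reflection subgroup, as a monoid homomorphism. -/
def matHom (c : ZMod 3) :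
    ↥(Cfsg.reflectionSubgroup (⇑Q) c) →* Matrix (Fin n) (Fin n) (ZMod 3) :=
  (Units.coeHom (Matrix (Fin n) (Fin n) (ZMod 3))).comp
    ((Cfsg.isometryGroup (ZMod 3) (⇑Q)).subtype.comp (Cfsg.reflectionSubgroup (⇑Q) c).subtype)

theorem matHom_inj (c : ZMod 3) (g h : ↥(Cfsg.reflectionSubgroup (⇑Q) c))
    (e : matHom Q c g = matHom Q c h) : g = h :=
  Subtype.ext (Subtype.ext (Units.ext e))

theorem matHom_iso (c : ZMod 3) (g : ↥(Cfsg.reflectionSubgroup (⇑Q) c)) (x : Fin n → ZMod 3) :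
    Q (Matrix.mulVec (matHom Q c g) x) = Q x :=
  g.1.2 x x

theorem exists_refl (c : ZMod 3) (hc : c ≠ 0) (v : Fin n → ZMod 3) (hv : Q v = c) :
    ∃ g : ↥(Cfsg.reflectionSubgroup (⇑Q) c),
      (g : ↥(Cfsg.isometryGroup (ZMod 3) (⇑Q))) ∈ Cfsg.reflectionsOfNorm (⇑Q) c ∧
      matHom Q c g = Cfsg.reflectionMatrix (⇑Q) v := by
  have hv0 : Q v ≠ 0 := hv ▸ hc
  let U : GL (Fin n) (ZMod 3) := ⟨Cfsg.reflectionMatrix (⇑Q) v, Cfsg.reflectionMatrix (⇑Q) v,
    refl_sq Q v hv0, refl_sq Q v hv0⟩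
  have hU : U ∈ Cfsg.isometryGroup (ZMod 3) (⇑Q) := by
    intro x y
    show Q (Matrix.mulVec (Cfsg.reflectionMatrix (⇑Q) v) x) = Q x
    exact refl_isometry Q v hv0 x
  have hR : (⟨U, hU⟩ : ↥(Cfsg.isometryGroup (ZMod 3) (⇑Q))) ∈ Cfsg.reflectionsOfNorm (⇑Q) c :=
    ⟨v, hv, rfl⟩
  exact ⟨⟨⟨U, hU⟩, Subgroup.subset_closure hR⟩, hR, rfl⟩

end mat

theorem isConj_of_braid {G : Type*} [Group G] (a b : G) (ha : a * a = 1) (hb : b * b = 1)
    (h : (a * b) ^ 3 = 1) : IsConj a b := by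
  have ia : a⁻¹ = a := inv_eq_of_mul_eq_one_left ha
  have ib : b⁻¹ = b := inv_eq_of_mul_eq_one_left hb
  refine isConj_iff.2 ⟨a * b, ?_⟩
  have h3 : a * b * (a * b) * (a * b) = 1 := by simpa [pow_succ] using h
  calc a * b * a * (a * b)⁻¹ = a * b * a * (b * a) := by rw [mul_inv_rev, ia, ib]
    _ = (a * b * (a * b) * (a * b)) * b⁻¹ := by group
    _ = b := by rw [h3, one_mul, ib]

/-- Let Q be a non-degenerate quadratic form on the n-dimensional coordinate space over the field with three elements, n ≥ 5, and c a non-zero scalar. In the subgroup of the isometry group of Q generated by the reflections in vectors v with Q(v) = c, these reflections form a single conjugacy class of 3-transpositions generating that subgroup. -/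
theorem result (n : ℕ) (hn : 5 ≤ n) (Q : QuadraticForm (ZMod 3) (Fin n → ZMod 3)) (hQ : (QuadraticMap.polarBilin Q).Nondegenerate) (c : ZMod 3) (hc : c ≠ 0) : Cfsg.IsThreeTranspositionClass {g : ↥(Cfsg.reflectionSubgroup (⇑Q) c) | (g : ↥(Cfsg.isometryGroup (ZMod 3) (⇑Q))) ∈ Cfsg.reflectionsOfNorm (⇑Q) c} := by
  classical
  have hmem : ∀ g : ↥(Cfsg.reflectionSubgroup (⇑Q) c),
      (g : ↥(Cfsg.isometryGroup (ZMod 3) (⇑Q))) ∈ Cfsg.reflectionsOfNorm (⇑Q) c →
      ∃ v, Q v = c ∧ matHom Q c g = Cfsg.reflectionMatrix (⇑Q) v := fun g hg => hg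
  have hsq : ∀ g : ↥(Cfsg.reflectionSubgroup (⇑Q) c),
      (g : ↥(Cfsg.isometryGroup (ZMod 3) (⇑Q))) ∈ Cfsg.reflectionsOfNorm (⇑Q) c → g * g = 1 := by
    intro g hg
    obtain ⟨v, hv, hgv⟩ := hmem g hg
    apply matHom_inj
    rw [map_mul, map_one, hgv]
    exact refl_sq Q v (hv ▸ hc)
  have h2cc : (2 : ℕ) • c ≠ 0 := zmod3_two_ne c hc
  -- the order of a product
  have hprod : ∀ g h : ↥(Cfsg.reflectionSubgroup (⇑Q) c), ∀ u v : Fin n → ZMod 3,
      Q u = c → Q v = c → matHom Q c g = Cfsg.reflectionMatrix (⇑Q) u →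
      matHom Q c h = Cfsg.reflectionMatrix (⇑Q) v →
      (QuadraticMap.polar (⇑Q) u v = 0 → g * h = h * g) ∧
      (QuadraticMap.polar (⇑Q) u v ≠ 0 → (g * h) ^ 3 = 1) := by
    intro g h u v hu hv hgu hhv
    constructor
    · intro h0
      apply matHom_inj
      rw [map_mul, map_mul, hgu, hhv]
      exact refl_comm Q u v h0
    · intro h0
      apply matHom_inj
      rw [map_pow, map_mul, map_one, hgu, hhv]
      exact refl_braid Q u v c hc hu hv h0
  refine ⟨⟨?_, ?_⟩, ?_, ?_⟩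
  · -- order 2
    intro g hg
    obtain ⟨v, hv, hgv⟩ := hmem g hg
    apply orderOf_eq_prime
    · rw [pow_two]; exact hsq g hg
    · intro h1
      rw [h1, map_one] at hgv
      exact refl_ne_one Q v (hv ▸ hc) hgv.symm
  · -- products
    intro g hg h hh
    obtain ⟨u, hu, hgu⟩ := hmem g hg
    obtain ⟨v, hv, hhv⟩ := hmem h hh
    obtain ⟨p1, p2⟩ := hprod g h u v hu hv hgu hhv
    by_cases h0 : QuadraticMap.polar (⇑Q) u v = 0
    · left
      have hcomm := p1 h0
      calc (g * h) ^ 2 = g * (h * g) * h := by rw [pow_two]; group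
        _ = g * (g * h) * h := by rw [hcomm]
        _ = (g * g) * (h * h) := by group
        _ = 1 := by rw [hsq g hg, hsq h hh, one_mul]
    · right
      exact p2 h0
  · -- one class
    obtain ⟨v₀, -, hv₀⟩ := exists_perp_norm Q hQ (fun i : Fin 0 => i.elim0) (fun i => i.elim0)
      (fun i => i.elim0) (by simp; omega) c hc
    obtain ⟨d₀, hd₀, hd₀v⟩ := exists_refl Q c hc v₀ hv₀
    refine ⟨d₀, hd₀, ?_⟩
    -- conjugation invariance
    have hconj : ∀ x g : ↥(Cfsg.reflectionSubgroup (⇑Q) c),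
        (g : ↥(Cfsg.isometryGroup (ZMod 3) (⇑Q))) ∈ Cfsg.reflectionsOfNorm (⇑Q) c →
        ((x * g * x⁻¹ : ↥(Cfsg.reflectionSubgroup (⇑Q) c)) : ↥(Cfsg.isometryGroup (ZMod 3) (⇑Q)))
          ∈ Cfsg.reflectionsOfNorm (⇑Q) c := by
      intro x g hg
      obtain ⟨v, hv, hgv⟩ := hmem g hg
      refine ⟨Matrix.mulVec (matHom Q c x) v, ?_, ?_⟩
      · rw [matHom_iso, hv]
      · have hMN : matHom Q c x * matHom Q c x⁻¹ = 1 := by
          rw [← map_mul, mul_inv_cancel, map_one]
        have := refl_conj Q (matHom Q c x) (matHom Q c x⁻¹) hMN (matHom_iso Q c x) v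
        rw [← this, ← hgv, ← map_mul, ← map_mul]
        rfl
    -- conjugacy of two reflections
    have hcj : ∀ g h : ↥(Cfsg.reflectionSubgroup (⇑Q) c),
        (g : ↥(Cfsg.isometryGroup (ZMod 3) (⇑Q))) ∈ Cfsg.reflectionsOfNorm (⇑Q) c →
        (h : ↥(Cfsg.isometryGroup (ZMod 3) (⇑Q))) ∈ Cfsg.reflectionsOfNorm (⇑Q) c →
        IsConj g h := by
      intro g h hg hh
      obtain ⟨u, hu, hgu⟩ := hmem g hg
      obtain ⟨v, hv, hhv⟩ := hmem h hh
      by_cases h0 : QuadraticMap.polar (⇑Q) u v = 0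
      · -- find w
        obtain ⟨z, hz, hzc⟩ := exists_perp_norm Q hQ (fun i : Fin 2 => if i = 0 then u else v)
          (by
            intro i j hij
            fin_cases i <;> fin_cases j
            · exact absurd rfl hij
            · exact h0
            · show QuadraticMap.polar (⇑Q) v u = 0
              rw [QuadraticMap.polar_comm]; exact h0
            · exact absurd rfl hij)
          (by
            intro i
            fin_cases i
            · show Q u ≠ 0
              rw [hu]; exact hc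
            · show Q v ≠ 0
              rw [hv]; exact hc)
          (by simp; omega) (-c) (neg_ne_zero.2 hc)
        have hzu : QuadraticMap.polar (⇑Q) z u = 0 := hz 0
        have hzv : QuadraticMap.polar (⇑Q) z v = 0 := hz 1
        have hw : Q (u + v + z) = c := by
          have e1 : Q (u + v + z) - Q (u + v) - Q z = QuadraticMap.polar (⇑Q) (u + v) z := rfl
          have e2 : Q (u + v) - Q u - Q v = QuadraticMap.polar (⇑Q) u v := rfl
          rw [QuadraticMap.polar_comm, QuadraticMap.polar_add_right, hzu, hzv] at e1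
          rw [h0] at e2
          have e3 : Q (u + v) = c + c := by
            rw [hu, hv] at e2
            linear_combination e2
          rw [e3, hzc] at e1
          have e4 : Q (u + v + z) = c + c + -c := by linear_combination e1
          rw [e4]; ring
        obtain ⟨k, hk, hkw⟩ := exists_refl Q c hc (u + v + z) hw
        have huw : QuadraticMap.polar (⇑Q) u (u + v + z) ≠ 0 := by
          rw [QuadraticMap.polar_add_right, QuadraticMap.polar_add_right, h0,
            QuadraticMap.polar_comm (⇑Q) u z, hzu, QuadraticMap.polar_self, hu]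
          simpa using h2cc
        have hwv : QuadraticMap.polar (⇑Q) (u + v + z) v ≠ 0 := by
          rw [QuadraticMap.polar_add_left, QuadraticMap.polar_add_left, h0, hzv,
            QuadraticMap.polar_self, hv]
          simpa using h2cc
        exact (isConj_of_braid g k (hsq g hg) (hsq k hk)
          ((hprod g k u _ hu hw hgu hkw).2 huw)).trans
          (isConj_of_braid k h (hsq k hk) (hsq h hh) ((hprod k h _ v hw hv hkw hhv).2 hwv))
      · exact isConj_of_braid g h (hsq g hg) (hsq h hh) ((hprod g h u v hu hv hgu hhv).2 h0)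
    ext g
    constructor
    · intro hg
      exact hcj d₀ g hd₀ hg
    · intro hg
      obtain ⟨x, hx⟩ := isConj_iff.1 hg
      rw [← hx]
      exact hconj x d₀ hd₀
  · exact Subgroup.closure_closure_coe_preimage

end Cfsg.Agent.S5357
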