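import Cfsg.Statements.S5358

set_option autoImplicit false
open scoped MatrixGroups
open Cfsg

namespace Cfsg.Agent.S5358

private theorem polarVec_dot {n : ℕ} (Q : QuadraticForm (ZMod 3) (Fin n → ZMod 3))
    (u x : Fin n → ZMod 3) :
    Cfsg.polarVec (⇑Q) u ⬝ᵥ x = QuadraticMap.polar (⇑Q) u x := by
  have h := LinearMap.pi_apply_eq_sum_univ (QuadraticMap.polarBilin Q u) x
  rw [QuadraticMap.polarBilin_apply_apply] at h
  rw [h]
  unfold Cfsg.polarVec dotProduct
  refine Finset.sum_congr rfl fun j _ => ?_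
  rw [smul_eq_mul, mul_comm, QuadraticMap.polarBilin_apply_apply]
  have hs : (Pi.single j 1 : Fin n → ZMod 3) = fun k => if j = k then 1 else 0 := by
    funext k
    simp [Pi.single_apply, eq_comm]
  beta_reduce
  rw [hs]

private theorem comm_one_sub {R : Type*} [Ring R] {x y : R} (h : Commute x y) :
    Commute (1 - x) (1 - y) :=
  Commute.sub_right (Commute.one_right _) (Commute.sub_left (Commute.one_left y) h)

private theorem zmod3_cases : ∀ c : ZMod 3, c ≠ 0 → c = 1 ∨ c = -1 := by decide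

/-- Let Q be a non-degenerate quadratic form on the n-dimensional coordinate space over the field with three elements and u, v vectors of the same non-zero norm Q(u) = Q(v) spanning different lines (v ≠ u and v ≠ −u). Then the reflection matrices of u and v commute if and only if u and v are orthogonal for the polar form of Q. -/
theorem result (n : ℕ) (Q : QuadraticForm (ZMod 3) (Fin n → ZMod 3)) (hQ : (QuadraticMap.polarBilin Q).Nondegenerate) (u v : Fin n → ZMod 3) (hu : Q u ≠ 0) (huv : Q u = Q v) (h1 : v ≠ u) (h2 : v ≠ -u) : Commute (Cfsg.reflectionMatrix (⇑Q) u) (Cfsg.reflectionMatrix (⇑Q) v) ↔ QuadraticMap.polar (⇑Q) u v = 0 := by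
  have hv : Q v ≠ 0 := huv ▸ hu
  have hAB : Matrix.vecMulVec u (Cfsg.polarVec (⇑Q) u) * Matrix.vecMulVec v (Cfsg.polarVec (⇑Q) v)
      = QuadraticMap.polar (⇑Q) u v • Matrix.vecMulVec u (Cfsg.polarVec (⇑Q) v) := by
    rw [Matrix.vecMulVec_mul_vecMulVec, polarVec_dot]
    ext i j
    simp [Matrix.vecMulVec_apply]
    ring
  have hBA : Matrix.vecMulVec v (Cfsg.polarVec (⇑Q) v) * Matrix.vecMulVec u (Cfsg.polarVec (⇑Q) u)
      = QuadraticMap.polar (⇑Q) u v • Matrix.vecMulVec v (Cfsg.polarVec (⇑Q) u) := by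
    rw [Matrix.vecMulVec_mul_vecMulVec, polarVec_dot, QuadraticMap.polar_comm]
    ext i j
    simp [Matrix.vecMulVec_apply]
    ring
  have hcomm : Commute (Cfsg.reflectionMatrix (⇑Q) u) (Cfsg.reflectionMatrix (⇑Q) v) ↔
      Commute (Matrix.vecMulVec u (Cfsg.polarVec (⇑Q) u)) (Matrix.vecMulVec v (Cfsg.polarVec (⇑Q) v)) := by
    unfold Cfsg.reflectionMatrix
    constructor
    · intro h
      have h' := comm_one_sub h
      rw [sub_sub_cancel, sub_sub_cancel] at h'
      have h'' := (h'.smul_left (Q u)).smul_right (Q v)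
      rwa [smul_smul, smul_smul, mul_inv_cancel₀ hu, mul_inv_cancel₀ hv, one_smul, one_smul] at h''
    · intro h
      exact comm_one_sub ((h.smul_left _).smul_right _)
  rw [hcomm]
  constructor
  · intro h
    by_contra hf
    have h' : Matrix.vecMulVec u (Cfsg.polarVec (⇑Q) u) * Matrix.vecMulVec v (Cfsg.polarVec (⇑Q) v)
      = Matrix.vecMulVec v (Cfsg.polarVec (⇑Q) v) * Matrix.vecMulVec u (Cfsg.polarVec (⇑Q) u) := h
    rw [hAB, hBA] at h'
    have h3 : Matrix.vecMulVec u (Cfsg.polarVec (⇑Q) v) = Matrix.vecMulVec v (Cfsg.polarVec (⇑Q) u) :=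
      smul_right_injective _ hf h'
    have h4 := congrArg (fun M => Matrix.mulVec M u) h3
    simp only [Matrix.vecMulVec_mulVec, polarVec_dot, op_smul_eq_smul] at h4
    rw [QuadraticMap.polar_self] at h4
    -- h4 : polar v u • u = (2 • Q u) • v
    have h5 : (2 • Q u : ZMod 3) ≠ 0 := by
      rw [nsmul_eq_mul]
      exact mul_ne_zero (by decide) hu
    have h6 : v = ((2 • Q u)⁻¹ * QuadraticMap.polar (⇑Q) v u) • u := by
      rw [← smul_smul, h4, smul_smul, inv_mul_cancel₀ h5, one_smul]
    have h7 : (2 • Q u)⁻¹ * QuadraticMap.polar (⇑Q) v u ≠ 0 := by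
      refine mul_ne_zero (inv_ne_zero h5) ?_
      rwa [QuadraticMap.polar_comm]
    rcases zmod3_cases _ h7 with h8 | h8
    · rw [h8, one_smul] at h6; exact h1 h6
    · rw [h8, neg_smul, one_smul] at h6; exact h2 h6
  · intro h
    show _ * _ = _ * _
    rw [hAB, hBA, h, zero_smul, zero_smul]

end Cfsg.Agent.S5358
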