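import Cfsg.Statements.S5359
import Cfsg.Agent.Helper30.ReflClass3

set_option autoImplicit false
open scoped MatrixGroups
open Cfsg

namespace Cfsg.Agent.S5359

/-- Let Q be a non-degenerate quadratic form on the n-dimensional coordinate space over the field with three elements, n odd and at least 5, and c a non-zero scalar. Then the subgroup of the isometry group of Q generated by the reflections in vectors of norm c has index 2 in the isometry group. -/
theorem result (n : ℕ) (hn : 5 ≤ n) (hodd : Odd n) (Q : QuadraticForm (ZMod 3) (Fin n → ZMod 3)) (hQ : (QuadraticMap.polarBilin Q).Nondegenerate) (c : ZMod 3) (hc : c ≠ 0) : (Cfsg.reflectionSubgroup (⇑Q) c).index = 2 := by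
  have h2 : (2 : ZMod 3) ≠ 0 := by decide
  have hsq : ∀ t : ZMod 3, t ≠ 0 → t ^ 2 = 1 := by decide
  have hcard : 2 ≤ Fintype.card (Fin n) := by
    rw [Fintype.card_fin]
    omega
  have hdim : Fintype.card (ZMod 3) ≠ 3 ∨ 5 ≤ Fintype.card (Fin n) ∨ Fintype.card (Fin n) ≤ 2 := by
    rw [Fintype.card_fin]
    exact Or.inr (Or.inl hn)
  have hset : Cfsg.reflectionsOfNorm (⇑Q) c = Cfsg.Agent.Helper30.reflClassSet Q c := by
    ext g
    constructor
    · rintro ⟨v, hv, hg⟩
      exact ⟨v, 1, one_ne_zero, by rw [hv]; ring, hg⟩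
    · rintro ⟨v, t, ht, hv, hg⟩
      exact ⟨v, by rw [hv, hsq t ht, mul_one], hg⟩
  have h := Cfsg.Agent.Helper30.reflClassGroup_index Q h2 hQ hcard hdim c hc
  unfold Cfsg.reflectionSubgroup
  rw [hset]
  exact h

end Cfsg.Agent.S5359
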