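import Cfsg.Statements.S5363

set_option autoImplicit false
open Cfsg

namespace Cfsg.Agent.S5363

private theorem conj_pow_invol {G : Type*} [Group G] {x s : G} (hs : s * s = 1)
    (hx : s * x * s = x⁻¹) (j : ℕ) : x ^ j * s * (x ^ j)⁻¹ = x ^ (2 * j) * s := by
  have hsinv : s⁻¹ = s := inv_eq_of_mul_eq_one_left hs
  have h1 : s * x ^ j * s = (x ^ j)⁻¹ := by
    have := conj_pow (a := s) (b := x) (i := j)
    rw [hsinv, hx, inv_pow] at this
    exact this.symm
  calc x ^ j * s * (x ^ j)⁻¹ = x ^ j * s * (s * x ^ j * s) := by rw [h1]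
    _ = x ^ j * (s * s) * x ^ j * s := by group
    _ = x ^ (2 * j) * s := by rw [hs, mul_one, two_mul, pow_add]

/-- the key step of the forward direction -/
private theorem key {G : Type*} [Group G] [Finite G] {D : Set G}
    (hinv : ∀ d ∈ D, orderOf d = 2)
    (H : ∀ a ∈ D, ∀ b ∈ D, Odd (orderOf (a * b)) ∨ orderOf (a * b) = 2)
    {a b y : G} (ha : a ∈ D) (hb : b ∈ D) (hy : y ∈ D) (hab : a ≠ b) (hc : Commute a b)
    (hcy : Commute (a * b) y) : Commute a y := by
  have inv2 : ∀ x ∈ D, x * x = 1 := fun x hx => by
    have := hinv x hx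
    rw [← sq, ← this, pow_orderOf_eq_one]
  have ha2 := inv2 a ha
  have hb2 := inv2 b hb
  have hy2 := inv2 y hy
  -- (a y)^2 = (b y)^2
  have hsq : a * y * (a * y) = b * y * (b * y) := by
    have h1 : a * b * y = y * (a * b) := hcy
    have h2 : a * b = b * a := hc
    -- b y b = a y a
    have h3 : b * y * b = a * y * a := by
      calc b * y * b = b * (a * a) * y * b := by rw [ha2, mul_one]
        _ = (b * a) * (a * y * b) := by group
        _ = (a * b) * (a * y * b) := by rw [h2]
        _ = a * (b * a) * y * b := by group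
        _ = a * (a * b * y) * b := by rw [← h2]; group
        _ = a * (y * (a * b)) * b := by rw [h1]
        _ = a * y * a * (b * b) := by group
        _ = a * y * a := by rw [hb2, mul_one]
    calc a * y * (a * y) = (a * y * a) * y := by group
      _ = (b * y * b) * y := by rw [h3]
      _ = b * y * (b * y) := by group
  rcases H a ha y hy with h | h
  · -- order of a y odd
    rcases H b hb y hy with h' | h'
    · -- both odd: derive a = b
      exfalso
      apply hab
      obtain ⟨m', hm'⟩ := h'
      -- q = (q*q)^(m'+1)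
      have hq : b * y = (b * y * (b * y)) ^ (m' + 1) := by
        rw [← sq, ← pow_mul]
        have : 2 * (m' + 1) = orderOf (b * y) + 1 := by omega
        rw [this, pow_succ, pow_orderOf_eq_one, one_mul]
      have hq' : b * y = (a * y) ^ (2 * (m' + 1)) := by
        rw [hq, ← hsq, ← sq, ← pow_mul]
      -- (a y)^(2 m') = 1
      have h4 : (a * y) ^ (2 * (2 * m' + 1)) = 1 := by
        have h5 : (b * y) ^ 2 = (a * y) ^ 2 := by rw [sq, sq, hsq]
        rw [hq', ← pow_mul] at h5
        have h6 : 2 * (m' + 1) * 2 = 2 + 2 * (2 * m' + 1) := by ring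
        rw [h6, pow_add] at h5
        exact mul_left_cancel (a := (a * y) ^ 2) (by rw [h5, mul_one])
      have h7 : orderOf (a * y) ∣ 2 * (2 * m' + 1) := orderOf_dvd_of_pow_eq_one h4
      have h8 : orderOf (a * y) ∣ 2 * m' + 1 :=
        (Nat.Coprime.dvd_mul_left (Nat.coprime_two_right.mpr h)).mp h7
      have h9 : (a * y) ^ (2 * m' + 1) = 1 := orderOf_dvd_iff_pow_eq_one.mp h8
      have h10 : b * y = a * y := by
        rw [hq']
        have : 2 * (m' + 1) = (2 * m' + 1) + 1 := by ring
        rw [this, pow_succ, h9, one_mul]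
      exact (mul_right_cancel h10).symm
    · -- order of b y is 2, so (a y)^2 = 1, with odd order: a y = 1
      have h1 : (b * y) ^ 2 = 1 := by rw [← h', pow_orderOf_eq_one]
      have h2 : (a * y) ^ 2 = 1 := by rw [sq, hsq, ← sq, h1]
      have h3 : orderOf (a * y) ∣ 2 := orderOf_dvd_of_pow_eq_one h2
      have h4 : orderOf (a * y) = 1 := by
        have := Nat.le_of_dvd (by norm_num) h3
        rcases h with ⟨r, hr⟩
        have h5 : orderOf (a * y) ≠ 2 := by omega
        have h6 : orderOf (a * y) ≠ 0 := by omega
        omega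
      have h5 : a * y = 1 := orderOf_eq_one_iff.mp h4
      have h6 : a = y := by
        calc a = a * (y * y) := by rw [hy2, mul_one]
          _ = (a * y) * y := by group
          _ = y := by rw [h5, one_mul]
      rw [h6]
  · -- order 2: commute
    have h1 : (a * y) ^ 2 = 1 := by rw [← h, pow_orderOf_eq_one]
    have h2 : a * y * (a * y) = 1 := by rw [← sq]; exact h1
    have h3 : a * y = (a * y)⁻¹ := eq_inv_of_mul_eq_one_left h2
    rw [mul_inv_rev, inv_eq_of_mul_eq_one_left hy2, inv_eq_of_mul_eq_one_left ha2] at h3
    exact h3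

/-- Let D be a conjugation-invariant set of involutions of a finite group G. Then every product of two members of D has odd order or order 2 if and only if, for every a in D and every b in D different from a and commuting with a, the members of D commuting with a b are exactly those commuting with both a and b. -/
theorem result {G : Type*} [Group G] [Finite G] {D : Set G} (hinv : ∀ d ∈ D, orderOf d = 2) (hconj : ∀ g : G, ∀ d ∈ D, g * d * g⁻¹ ∈ D) : (∀ a ∈ D, ∀ b ∈ D, Odd (orderOf (a * b)) ∨ orderOf (a * b) = 2) ↔ ∀ a ∈ D, ∀ b ∈ D, b ≠ a → Commute a b → {y : G | y ∈ D ∧ Commute (a * b) y} = {y : G | y ∈ D ∧ Commute a y} ∩ {y : G | y ∈ D ∧ Commute b y} := by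
  have inv2 : ∀ x ∈ D, x * x = 1 := fun x hx => by
    have := hinv x hx
    rw [← sq, ← this, pow_orderOf_eq_one]
  have inv' : ∀ x ∈ D, x⁻¹ = x := fun x hx => inv_eq_of_mul_eq_one_left (inv2 x hx)
  constructor
  · intro H a ha b hb hba hc
    ext y
    constructor
    · rintro ⟨hy, hcy⟩
      refine ⟨⟨hy, key hinv H ha hb hy (Ne.symm hba) hc hcy⟩, hy, ?_⟩
      have hcy' : Commute (b * a) y := by
        have : b * a = a * b := hc.symm
        rw [this]; exact hcy
      exact key hinv H hb ha hy hba hc.symm hcy'
    · rintro ⟨⟨hy, h1⟩, -, h2⟩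
      exact ⟨hy, h1.mul_left h2⟩
  · intro H a ha b hb
    by_contra hcon
    push Not at hcon
    obtain ⟨hodd, hne2⟩ := hcon
    have heven : Even (orderOf (a * b)) := Nat.not_odd_iff_even.mp hodd
    obtain ⟨k, hk⟩ := heven
    have hpos : 0 < orderOf (a * b) := orderOf_pos (a * b)
    have hk2 : 2 ≤ k := by omega
    have ha2 := inv2 a ha
    have hb2 := inv2 b hb
    set x := a * b with hx
    have hxinv : x⁻¹ = b * a := by
      rw [hx, mul_inv_rev, inv' a ha, inv' b hb]
    have hax : a * x * a = x⁻¹ := by
      rw [hxinv, hx]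
      calc a * (a * b) * a = (a * a) * b * a := by group
        _ = b * a := by rw [ha2, one_mul]
    have hbx : b * x * b = x⁻¹ := by
      rw [hxinv, hx]
      calc b * (a * b) * b = b * a * (b * b) := by group
        _ = b * a := by rw [hb2, mul_one]
    have hz2 : x ^ k * x ^ k = 1 := by rw [← pow_add, ← hk, pow_orderOf_eq_one]
    have hz1 : x ^ k ≠ 1 := by
      intro h
      have := Nat.le_of_dvd (by omega) (orderOf_dvd_of_pow_eq_one h)
      omega
    have hzinv : (x ^ k)⁻¹ = x ^ k := inv_eq_of_mul_eq_one_left hz2
    -- a and b commute with z = x^k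
    have haz : a * x ^ k * a = x ^ k := by
      have := conj_pow (a := a) (b := x) (i := k)
      rw [inv' a ha, hax, inv_pow, hzinv] at this
      exact this.symm
    have hbz : b * x ^ k * b = x ^ k := by
      have := conj_pow (a := b) (b := x) (i := k)
      rw [inv' b hb, hbx, inv_pow, hzinv] at this
      exact this.symm
    -- c = x^k * a ∈ D
    have hcD : x ^ k * a ∈ D := by
      obtain ⟨j, hj | hj⟩ := Nat.even_or_odd' k
      · rw [hj, ← conj_pow_invol ha2 hax j]
        exact hconj _ a ha
      · -- k = 2j+1
        have hb' : x * a ∈ D := by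
          have : x * a = a * b * a⁻¹ := by rw [hx, inv' a ha]
          rw [this]; exact hconj a b hb
        have hb'2 : x * a * (x * a) = 1 := inv2 _ hb'
        have hb'x : x * a * x * (x * a) = x⁻¹ := by
          calc x * a * x * (x * a) = x * (a * x * a) * (a * x * a) := by
                have : a * x * a * (a * x * a) = a * x * (a * a) * x * a := by group
                rw [mul_assoc x (a * x * a), this, ha2]; group
            _ = x⁻¹ := by rw [hax]; group
        have := conj_pow_invol hb'2 hb'x j
        have h2 : x ^ k * a = x ^ (2 * j) * (x * a) := by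
          rw [hj, pow_succ]; group
        rw [h2, ← this]
        exact hconj _ _ hb'
    have hca : x ^ k * a ≠ a := by
      intro h
      exact hz1 (mul_right_cancel (b := a) (by rw [h, one_mul]))
    have hzcomm : a * x ^ k = x ^ k * a := by
      calc a * x ^ k = a * x ^ k * (a * a) := by rw [ha2, mul_one]
        _ = (a * x ^ k * a) * a := by group
        _ = x ^ k * a := by rw [haz]
    have hcomm : Commute a (x ^ k * a) := by
      show a * (x ^ k * a) = x ^ k * a * a
      rw [← mul_assoc, hzcomm]
    have hprod : a * (x ^ k * a) = x ^ k := by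
      rw [← mul_assoc]; exact haz
    have hset := H a ha _ hcD hca hcomm
    rw [hprod] at hset
    have hbmem : b ∈ {y : G | y ∈ D ∧ Commute (x ^ k) y} := by
      refine ⟨hb, ?_⟩
      show x ^ k * b = b * x ^ k
      calc x ^ k * b = (b * b) * x ^ k * b := by rw [hb2, one_mul]
        _ = b * (b * x ^ k * b) := by group
        _ = b * x ^ k := by rw [hbz]
    rw [hset] at hbmem
    have hab : Commute a b := hbmem.1.2
    have hx2 : x ^ 2 = 1 := by
      rw [hx, sq]
      calc a * b * (a * b) = a * (b * a) * b := by group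
        _ = a * (a * b) * b := by rw [hab.eq]
        _ = (a * a) * (b * b) := by group
        _ = 1 := by rw [ha2, hb2, one_mul]
    have := Nat.le_of_dvd (by norm_num) (orderOf_dvd_of_pow_eq_one hx2)
    omega

end Cfsg.Agent.S5363
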