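import Cfsg.Statements.S5364

set_option autoImplicit false
open Cfsg

namespace Cfsg.Agent.S5364

/-- Let D be a conjugation-invariant set of involutions of a finite group G and t an involution in the centre of G such that d t does not lie in D for any d in D. If the images of the members of D in G modulo the subgroup generated by t satisfy the 3-transposition order conditions (each has order 2 and any two have product of order at most 3), then so do the members of D. -/
theorem result {G : Type*} [Group G] [Finite G] {D : Set G} (hinv : ∀ d ∈ D, orderOf d = 2) (hconj : ∀ g : G, ∀ d ∈ D, g * d * g⁻¹ ∈ D) (t : G) (ht : orderOf t = 2) (htZ : t ∈ Subgroup.center G) (hDt : ∀ d ∈ D, d * t ∉ D) [(Subgroup.zpowers t).Normal] (himg : Cfsg.IsThreeTranspositionSet ((QuotientGroup.mk : G → G ⧸ Subgroup.zpowers t) '' D)) : Cfsg.IsThreeTranspositionSet D := by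
  refine ⟨hinv, fun d hd e he => ?_⟩
  have inv2 : ∀ x ∈ D, x * x = 1 := fun x hx => by
    have := hinv x hx
    rw [← sq, ← this, pow_orderOf_eq_one]
  have inv' : ∀ x ∈ D, x⁻¹ = x := fun x hx => inv_eq_of_mul_eq_one_left (inv2 x hx)
  have ht2 : t * t = 1 := by rw [← sq, ← ht, pow_orderOf_eq_one]
  have hz : ∀ x : G, x ∈ Subgroup.zpowers t → x = 1 ∨ x = t := by
    intro x hx
    obtain ⟨k, rfl⟩ := Subgroup.mem_zpowers_iff.mp hx
    rw [← zpow_mod_orderOf, ht]
    have h1 : 0 ≤ k % 2 := Int.emod_nonneg k (by norm_num)
    have h2 : k % 2 < 2 := Int.emod_lt_of_pos k (by norm_num)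
    have : k % 2 = 0 ∨ k % 2 = 1 := by omega
    rcases this with h | h
    · left; simp [h]
    · right; simp [h]
  have hcomm : ∀ x : G, x * t = t * x := fun x => (Subgroup.mem_center_iff.mp htZ x)
  have hf : e * d * e⁻¹ ∈ D := hconj e d hd
  have hg : d * e * d⁻¹ ∈ D := hconj d e he
  rw [inv' e he] at hf
  rw [inv' d hd] at hg
  rcases himg.2 _ ⟨d, hd, rfl⟩ _ ⟨e, he, rfl⟩ with h | h
  · have h' : (d * e) ^ 2 ∈ Subgroup.zpowers t := by
      rw [← QuotientGroup.eq_one_iff]
      simpa using h
    rcases hz _ h' with h1 | h1
    · exact Or.inl h1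
    · exfalso
      apply hDt d hd
      have : d * t = e * d * e := by
        have h2 : d * e * (d * e) = t := by rw [← h1, sq]
        calc d * t = d * (d * e * (d * e)) := by rw [h2]
          _ = (d * d) * (e * d * e) := by group
          _ = e * d * e := by rw [inv2 d hd, one_mul]
      rw [this]; exact hf
  · have h' : (d * e) ^ 3 ∈ Subgroup.zpowers t := by
      rw [← QuotientGroup.eq_one_iff]
      simpa using h
    rcases hz _ h' with h1 | h1
    · exact Or.inr h1
    · exfalso
      apply hDt (e * d * e) hf
      have : e * d * e * t = d * e * d := by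
        have h2 : d * e * d * (e * d * e) = t := by
          rw [← h1]; simp [pow_succ, mul_assoc]
        have h3 : (e * d * e) * (e * d * e) = 1 := inv2 _ hf
        calc e * d * e * t = t * (e * d * e) := hcomm _
          _ = d * e * d * (e * d * e) * (e * d * e) := by rw [h2]
          _ = d * e * d * ((e * d * e) * (e * d * e)) := by group
          _ = d * e * d := by rw [h3, mul_one]
      rw [this]; exact hg

end Cfsg.Agent.S5364
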