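import Cfsg.Statements.S5365
import Cfsg.Agent.Helper58.TT3Iso

set_option autoImplicit false
open Cfsg

namespace Cfsg.Agent.S5365

/-- Let D be a non-empty conjugation-invariant set of involutions of a finite group G satisfying the 3-transposition order conditions, and suppose that for every d in D the members of D other than d commuting with d generate a subgroup isomorphic to the symmetric group of degree 3, and the largest normal 3-subgroup of the centralizer of d has order 3. Then the subgroup generated by D is isomorphic to the symmetric group of degree 5 or to the direct product of two symmetric groups of degree 3. -/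
theorem result {G : Type*} [Group G] [Finite G] {D : Set G} (hD : Cfsg.IsThreeTranspositionSet D) (hconj : ∀ g : G, ∀ d ∈ D, g * d * g⁻¹ ∈ D) (hne : D.Nonempty) (hloc : ∀ d ∈ D, Nonempty (↥(Subgroup.closure {y : G | y ∈ D ∧ y ≠ d ∧ Commute d y}) ≃* Equiv.Perm (Fin 3)) ∧ Nat.card (Cfsg.pCore 3 ↥(Subgroup.centralizer ({d} : Set G))) = 3) : Nonempty (↥(Subgroup.closure D) ≃* Equiv.Perm (Fin 5)) ∨ Nonempty (↥(Subgroup.closure D) ≃* Equiv.Perm (Fin 3) × Equiv.Perm (Fin 3)) := by
  have hloc1 : ∀ d ∈ D, Nonempty (↥(Subgroup.closure (Cfsg.Agent.Helper58.TT3.Dn D d)) ≃*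
      Equiv.Perm (Fin 3)) := fun d hd => (hloc d hd).1
  have hL : Cfsg.Agent.Helper58.TT3.Loc D :=
    Cfsg.Agent.Helper58.TT3.loc_of hD.1 hD.2 hconj hloc1
  obtain ⟨d, hd⟩ := hne
  by_cases hI : Cfsg.Agent.Helper58.TT3.TypeI D d
  · right
    exact hL.iso_S3S3 (fun x hx => (hloc x hx).2) hloc1 hd hI
  · left
    exact hL.iso_S5 hd hI

end Cfsg.Agent.S5365
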