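import Cfsg.Statements.S5394
import Cfsg.Agent.Helper27.M24Invol

set_option autoImplicit false
open Cfsg

namespace Cfsg.Agent.S5394

/-- The automorphism group of the length-24 code built from the squares modulo 23 has exactly two conjugacy classes of involutions: an involution either fixes exactly the eight points of an octad or has no fixed points, both kinds occur, and any two involutions of the same kind are conjugate in the group. -/
theorem result : (∀ g ∈ Cfsg.M24, orderOf g = 2 → (Finset.univ.filter fun p => g p = p) ∈ Cfsg.octads ∨ ∀ p, g p ≠ p) ∧ (∃ g ∈ Cfsg.M24, orderOf g = 2 ∧ (Finset.univ.filter fun p => g p = p) ∈ Cfsg.octads) ∧ (∃ g ∈ Cfsg.M24, orderOf g = 2 ∧ ∀ p, g p ≠ p) ∧ ∀ g ∈ Cfsg.M24, ∀ h ∈ Cfsg.M24, orderOf g = 2 → orderOf h = 2 → ((∀ p, g p ≠ p) ↔ (∀ p, h p ≠ p)) → ∃ k ∈ Cfsg.M24, k * g * k⁻¹ = h := by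
  obtain ⟨h1, h2, h3, h4⟩ := Cfsg.Agent.Helper27.M24Invol.invol_classes
  refine ⟨?_, ?_, h3, h4⟩
  · intro g hg ho
    rcases h1 g hg ho with h | h
    · exact Or.inl (h _ (fun p => by simp))
    · exact Or.inr h
  · obtain ⟨g, hg, ho, h⟩ := h2
    exact ⟨g, hg, ho, h _ (fun p => by simp)⟩

end Cfsg.Agent.S5394
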