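import Cfsg.Statements.S5395

set_option autoImplicit false
open Cfsg

namespace Cfsg.Agent.S5395

open scoped IsMulCommutative in
theorem aux {E : Type*} [Group E] [Finite E] (hE : Cfsg.IsExtraspecial 2 E) (φ : E ≃* E)
    (hφ : ∀ x : E, φ x * x⁻¹ ∈ Subgroup.center E) : ∃ g : E, ∀ x : E, φ x = g * x * g⁻¹ := by
  classical
  obtain ⟨⟨-, -, hcomm⟩, hcard⟩ := hE
  -- commutators are central
  have hc : ∀ g x : E, g * x * g⁻¹ * x⁻¹ ∈ Subgroup.center E := by
    intro g x
    rw [← hcomm]
    exact Subgroup.commutator_mem_commutator (Subgroup.mem_top g) (Subgroup.mem_top x)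
  have hcen : ∀ z ∈ Subgroup.center E, ∀ g : E, g * z = z * g :=
    fun z hz g => Subgroup.mem_center_iff.mp hz g
  -- every element of the centre squares to one
  have hz2 : ∀ z ∈ Subgroup.center E, z * z = 1 := by
    intro z hz
    have h := pow_card_eq_one' (G := Subgroup.center E) (x := ⟨z, hz⟩)
    rw [hcard] at h
    have h' := congrArg Subtype.val h
    simpa [sq] using h'
  -- the homomorphism x ↦ [g, x]
  let c : E → (E →* Subgroup.center E) := fun g =>
    MonoidHom.mk' (fun x => ⟨g * x * g⁻¹ * x⁻¹, hc g x⟩) (by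
      intro x y
      apply Subtype.ext
      have h1 := hcen _ (hc g y) (x⁻¹)
      show g * (x * y) * g⁻¹ * (x * y)⁻¹ = (g * x * g⁻¹ * x⁻¹) * (g * y * g⁻¹ * y⁻¹)
      calc g * (x * y) * g⁻¹ * (x * y)⁻¹ = g * x * g⁻¹ * ((g * y * g⁻¹ * y⁻¹) * x⁻¹) := by group
        _ = g * x * g⁻¹ * (x⁻¹ * (g * y * g⁻¹ * y⁻¹)) := by rw [← h1]
        _ = _ := by group)
  have hcapp : ∀ g x, ((c g x : Subgroup.center E) : E) = g * x * g⁻¹ * x⁻¹ := fun g x => rfl
  let Ψ : E →* (E →* Subgroup.center E) := MonoidHom.mk' c (by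
    intro g h
    ext x
    have h1 := hcen _ (hc h x) g
    rw [MonoidHom.mul_apply, Subgroup.coe_mul, hcapp, hcapp, hcapp]
    calc g * h * x * (g * h)⁻¹ * x⁻¹ = g * (h * x * h⁻¹ * x⁻¹) * x * g⁻¹ * x⁻¹ := by group
      _ = (h * x * h⁻¹ * x⁻¹) * g * x * g⁻¹ * x⁻¹ := by rw [h1]
      _ = (h * x * h⁻¹ * x⁻¹) * (g * x * g⁻¹ * x⁻¹) := by group
      _ = (g * x * g⁻¹ * x⁻¹) * (h * x * h⁻¹ * x⁻¹) := (hcen _ (hc g x) _).symm ▸ rfl)
  have hΨ : ∀ g x, ((Ψ g x : Subgroup.center E) : E) = g * x * g⁻¹ * x⁻¹ := fun g x => rfl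
  -- kernel of Ψ is the centre
  have hker : Ψ.ker = Subgroup.center E := by
    ext g
    rw [MonoidHom.mem_ker, Subgroup.mem_center_iff]
    constructor
    · intro h x
      have h1 : ((Ψ g x : Subgroup.center E) : E) = 1 := by rw [h]; rfl
      rw [hΨ] at h1
      have h2 : g * x * g⁻¹ = x := by
        have := mul_inv_eq_one.mp h1
        exact this
      calc x * g = (g * x * g⁻¹) * g := by rw [h2]
        _ = g * x := by group
    · intro h
      ext x
      rw [hΨ]
      have := h x
      show g * x * g⁻¹ * x⁻¹ = 1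
      rw [← this]; group
  -- x^2 is central for every x
  have hsq : ∀ x : E, x * x ∈ Subgroup.center E := by
    intro x
    rw [Subgroup.mem_center_iff]
    intro y
    have h1 := hcen _ (hc x y) x
    have h2 := hz2 _ (hc x y)
    have h3 : x * x * y * (x * x)⁻¹ * y⁻¹ = 1 := by
      calc x * x * y * (x * x)⁻¹ * y⁻¹ = x * (x * y * x⁻¹ * y⁻¹) * y * x⁻¹ * y⁻¹ := by group
        _ = (x * y * x⁻¹ * y⁻¹) * x * y * x⁻¹ * y⁻¹ := by rw [h1]
        _ = (x * y * x⁻¹ * y⁻¹) * (x * y * x⁻¹ * y⁻¹) := by group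
        _ = 1 := h2
    have h4 : x * x * y * (x * x)⁻¹ = y := mul_inv_eq_one.mp h3
    calc y * (x * x) = (x * x * y * (x * x)⁻¹) * (x * x) := by rw [h4]
      _ = x * x * y := by group
  -- exponent of the abelianization divides 2
  have hexp : Monoid.exponent (Abelianization E) ∣ 2 := by
    apply Monoid.exponent_dvd_of_forall_pow_eq_one
    intro v
    refine QuotientGroup.induction_on v fun x => ?_
    show (Abelianization.of x) ^ 2 = 1
    rw [← map_pow, ← MonoidHom.mem_ker, Abelianization.ker_of, hcomm, sq]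
    exact hsq x
  -- enough roots of unity in the centre
  have : Fact (Nat.Prime 2) := ⟨Nat.prime_two⟩
  have hcardU : Nat.card (Subgroup.center E)ˣ = 2 := by
    rw [← hcard]
    exact Nat.card_congr (toUnits (G := Subgroup.center E)).symm.toEquiv
  have : IsCyclic (Subgroup.center E)ˣ := isCyclic_of_prime_card hcardU
  have h2roots : HasEnoughRootsOfUnity (Subgroup.center E) 2 := by
    refine ⟨?_, inferInstance⟩
    have : Nontrivial (Subgroup.center E) := by
      rw [← Finite.one_lt_card_iff_nontrivial, hcard]; norm_num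
    obtain ⟨z, hz⟩ := exists_ne (1 : Subgroup.center E)
    refine ⟨z, ?_⟩
    have h1 : orderOf z ∣ 2 := hcard ▸ orderOf_dvd_natCard z
    have h2 : orderOf z ≠ 1 := fun h => hz (orderOf_eq_one_iff.mp h)
    have h3 : orderOf z = 2 := by
      rcases (Nat.dvd_prime Nat.prime_two).mp h1 with h | h
      · exact absurd h h2
      · exact h
    have := IsPrimitiveRoot.orderOf z
    rwa [h3] at this
  have : HasEnoughRootsOfUnity (Subgroup.center E) (Monoid.exponent (Abelianization E)) :=
    HasEnoughRootsOfUnity.of_dvd (Subgroup.center E) hexp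
  have hcard1 : Nat.card (Abelianization E →* (Subgroup.center E)ˣ) = Nat.card (Abelianization E) :=
    CommGroup.card_monoidHom_of_hasEnoughRootsOfUnity (Abelianization E) (Subgroup.center E)
  have hcard2 : Nat.card (E →* Subgroup.center E) = Nat.card (Abelianization E) := by
    rw [← hcard1]
    exact Nat.card_congr ((Abelianization.lift (G := E) (A := Subgroup.center E)).trans
      (MulEquiv.monoidHomCongrRightEquiv (toUnits (G := Subgroup.center E))))
  have hcard3 : Nat.card E = Nat.card (Abelianization E) * 2 := by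
    have hc2 : Nat.card (commutator E) = 2 := by rw [hcomm]; exact hcard
    have := Subgroup.card_eq_card_quotient_mul_card_subgroup (commutator E)
    rw [hc2] at this
    exact this
  have hcard4 : Nat.card E = Nat.card Ψ.range * 2 := by
    have hk2 : Nat.card Ψ.ker = 2 := by rw [hker]; exact hcard
    have := Subgroup.card_eq_card_quotient_mul_card_subgroup Ψ.ker
    rw [hk2, Nat.card_congr (QuotientGroup.quotientKerEquivRange Ψ).toEquiv] at this
    exact this
  have : Finite Ψ.range := Finite.of_equiv _ (QuotientGroup.quotientKerEquivRange Ψ).toEquiv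
  have hrange : Ψ.range = ⊤ := by
    apply Subgroup.eq_top_of_card_eq
    rw [hcard2]
    omega
  -- the homomorphism attached to φ
  let δ : E →* Subgroup.center E := MonoidHom.mk' (fun x => ⟨φ x * x⁻¹, hφ x⟩) (by
    intro x y
    apply Subtype.ext
    have h1 := hcen _ (hφ y) (x⁻¹)
    show φ (x * y) * (x * y)⁻¹ = (φ x * x⁻¹) * (φ y * y⁻¹)
    rw [map_mul]
    calc φ x * φ y * (x * y)⁻¹ = φ x * ((φ y * y⁻¹) * x⁻¹) := by group
      _ = φ x * (x⁻¹ * (φ y * y⁻¹)) := by rw [← h1]
      _ = _ := by group)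
  have hδ : δ ∈ Ψ.range := hrange ▸ Subgroup.mem_top δ
  obtain ⟨g, hg⟩ := hδ
  refine ⟨g, fun x => ?_⟩
  have h1 : ((Ψ g x : Subgroup.center E) : E) = ((δ x : Subgroup.center E) : E) := by rw [hg]
  rw [hΨ] at h1
  have h2 : ((δ x : Subgroup.center E) : E) = φ x * x⁻¹ := rfl
  rw [h2] at h1
  exact (mul_right_cancel h1).symm

/-- For a finite extraspecial 2-group E, an automorphism of E that induces the identity on E modulo its centre is inner (so these automorphisms form exactly the inner automorphism group, an elementary abelian 2-group of order |E|/2). -/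
theorem result {E : Type*} [Group E] [Finite E] (hE : Cfsg.IsExtraspecial 2 E) (φ : E ≃* E) (hφ : ∀ x : E, φ x * x⁻¹ ∈ Subgroup.center E) : ∃ g : E, ∀ x : E, φ x = g * x * g⁻¹ := by
  exact aux hE φ hφ

end Cfsg.Agent.S5395
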