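import Cfsg.Statements.S5396
import Cfsg.Agent.Helper29.ExtraCrit

set_option autoImplicit false
open Cfsg

namespace Cfsg.Agent.S5396

/-- For every n ≥ 1 there exist finite extraspecial 2-groups of order 2^(2n+1) whose 2-rank (the largest rank of an elementary abelian subgroup) is n, and ones whose 2-rank is n + 1 (so for each such order there are two non-isomorphic extraspecial 2-groups, told apart by their 2-rank). -/
theorem result (n : ℕ) (hn : 1 ≤ n) : ∀ r ∈ ({n, n + 1} : Set ℕ), ∃ (E : Type) (_ : Group E) (_ : Finite E), Cfsg.IsExtraspecial 2 E ∧ Nat.card E = 2 ^ (2 * n + 1) ∧ sSup {k : ℕ | ∃ A : Subgroup E, Cfsg.IsElementaryAbelian 2 A ∧ Nat.card A = 2 ^ k} = r := by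
  intro r hr
  rcases hr with rfl | rfl
  · -- minus type: `2`-rank `r`, with `r = m + 1`
    obtain ⟨m, rfl⟩ : ∃ m, r = m + 1 := ⟨r - 1, by omega⟩
    have hES := Cfsg.Agent.Helper29.ESM.isExtraspecial (fun i : Fin (m + 1) => decide (i = 0))
      (by omega)
    refine ⟨Cfsg.Agent.Helper29.ESM (fun i : Fin (m + 1) => decide (i = 0)), inferInstance,
      inferInstance, hES, Cfsg.Agent.Helper29.ESM.card_eq, ?_⟩
    apply IsGreatest.csSup_eq
    constructor
    · obtain ⟨A, hab, hexp, hcard⟩ :=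
        Cfsg.Agent.Helper29.ESM.exists_elemAb (fun i : Fin (m + 1) => decide (i = 0))
      rw [Cfsg.Agent.Helper29.ESM.card_false_minus] at hcard
      exact ⟨A, ⟨⟨⟨fun a b => Subtype.ext (hab a a.2 b b.2)⟩⟩, hexp⟩, hcard⟩
    · rintro k ⟨A, ⟨hAab, hAexp⟩, hAcard⟩
      have hle := Cfsg.Agent.Helper29.card_abelian_le_of_isExtraspecial hES (m + 1)
        Cfsg.Agent.Helper29.ESM.card_eq A
        (fun a ha b hb => congrArg Subtype.val (hAab.is_comm.comm ⟨a, ha⟩ ⟨b, hb⟩))
      rw [hAcard] at hle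
      have hk : k ≤ m + 1 + 1 := (Nat.pow_le_pow_iff_right (by norm_num)).mp hle
      by_contra hlt
      have hk2 : k = m + 1 + 1 := by omega
      subst hk2
      have hc := Cfsg.Agent.Helper48.comm_mem_center_of_isExtraspecial hES
      have h4 := Cfsg.Agent.Helper48.card_orderOf_four_of_central hc hES.2 (m + 1)
        Cfsg.Agent.Helper29.ESM.card_eq A ⟨hAab, hAexp⟩ hAcard
      have h5 : Nat.card {x : Cfsg.Agent.Helper29.ESM (fun i : Fin (m + 1) => decide (i = 0)) //
          orderOf x = 4} = Nat.card {x : Cfsg.Agent.Helper29.ESM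
            (fun i : Fin (m + 1) => decide (i = 0)) // ¬ x ^ 2 = 1} :=
        Nat.card_congr (Equiv.subtypeEquivRight
          (Cfsg.Agent.Helper48.orderOf_eq_four_iff hc hES.2))
      rw [h5, Cfsg.Agent.Helper29.ESM.card_sq_ne_one_minus] at h4
      have hpos : 0 < 2 ^ (m + 1) := by positivity
      clear h5
      generalize 2 ^ (2 * (m + 1)) = a at h4
      generalize 2 ^ (m + 1) = b at h4 hpos
      omega
  · -- plus type: `2`-rank `n + 1`
    have hES := Cfsg.Agent.Helper29.ESM.isExtraspecial (fun _ : Fin n => false) (by omega)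
    refine ⟨Cfsg.Agent.Helper29.ESM (fun _ : Fin n => false), inferInstance,
      inferInstance, hES, Cfsg.Agent.Helper29.ESM.card_eq, ?_⟩
    apply IsGreatest.csSup_eq
    constructor
    · obtain ⟨A, hab, hexp, hcard⟩ :=
        Cfsg.Agent.Helper29.ESM.exists_elemAb (fun _ : Fin n => false)
      rw [Cfsg.Agent.Helper29.ESM.card_false_plus] at hcard
      exact ⟨A, ⟨⟨⟨fun a b => Subtype.ext (hab a a.2 b b.2)⟩⟩, hexp⟩, hcard⟩
    · rintro k ⟨A, ⟨hAab, hAexp⟩, hAcard⟩
      have hle := Cfsg.Agent.Helper29.card_abelian_le_of_isExtraspecial hES n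
        Cfsg.Agent.Helper29.ESM.card_eq A
        (fun a ha b hb => congrArg Subtype.val (hAab.is_comm.comm ⟨a, ha⟩ ⟨b, hb⟩))
      rw [hAcard] at hle
      exact (Nat.pow_le_pow_iff_right (by norm_num)).mp hle

end Cfsg.Agent.S5396
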