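import Cfsg.Statements.S5406
import Cfsg.Agent.Helper92.MonsterConj
-- import your own Cfsg.Agent.* helpers here

set_option autoImplicit false
open Cfsg

namespace Cfsg.Agent.S5406

/-- Let G be a finite group of Monster type at the involution z with Q the extraspecial normal subgroup of order 2^25 of C = C_G(z) (so C/Q is identified with the first Conway group with Q modulo its centre the Leech lattice modulo 2, and z is not weakly closed in Q). Then C acts transitively by conjugation on the conjugates of z that lie in Q and differ from z. -/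
theorem result {G : Type*} [Group G] [Finite G] (z : G) (Q : Subgroup (Subgroup.centralizer ({z} : Set G))) [Q.Normal] (hM : Cfsg.IsOfMonsterType z Q) (s t : G) (hsQ : ∃ hsc : s ∈ Subgroup.centralizer ({z} : Set G), (⟨s, hsc⟩ : Subgroup.centralizer ({z} : Set G)) ∈ Q) (htQ : ∃ htc : t ∈ Subgroup.centralizer ({z} : Set G), (⟨t, htc⟩ : Subgroup.centralizer ({z} : Set G)) ∈ Q) (hs : IsConj z s) (ht : IsConj z t) (hs1 : s ≠ z) (ht1 : t ≠ z) : ∃ h ∈ Subgroup.centralizer ({z} : Set G), h * s * h⁻¹ = t := by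
  obtain ⟨Rep, MF⟩ := Cfsg.Agent.Helper92.exists_msettingF z Q hM
  have M := MF.toM
  have hs' := (Cfsg.Agent.Helper92.mem_map_subtype_iff Q s).2 hsQ
  have ht' := (Cfsg.Agent.Helper92.mem_map_subtype_iff Q t).2 htQ
  obtain ⟨g, rfl⟩ := isConj_iff.1 hs
  obtain ⟨g', rfl⟩ := isConj_iff.1 ht
  obtain ⟨v, hv⟩ := M.surj _ hs'
  obtain ⟨w, hw⟩ := M.surj _ ht'
  have o1 := MF.conj_type4 g hs1 hv
  have o2 := MF.conj_type4 g' ht1 hw
  have hne1 : g * z * g⁻¹ ≠ 1 := fun h => M.les.ne_one (conj_eq_one_iff.1 h)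
  obtain ⟨h, hh, hst⟩ := M.exists_conj_of_orb hv hw (o1.trans o2.symm) hne1 hs1
  exact ⟨h, (Cfsg.Agent.Helper92.mem_centralizer_singleton_iff z h).2 hh, hst⟩

end Cfsg.Agent.S5406
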