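import Cfsg.Statements.S5407
import Cfsg.Agent.Helper92.MonsterConj
-- import your own Cfsg.Agent.* helpers here

set_option autoImplicit false
open Cfsg

namespace Cfsg.Agent.S5407

/-- Let G be a finite group of Monster type at the involution z with Q the extraspecial normal subgroup of order 2^25 of C = C_G(z) (so C/Q is identified with the first Conway group with Q modulo its centre the Leech lattice modulo 2, and z is not weakly closed in Q). Then under any such identification ψ of the Leech lattice modulo 2 with Q modulo its centre, an element x of Q is a conjugate of z other than z exactly when x modulo the centre is the image under ψ of a lattice vector of squared length 64 in the coordinates used here, that is, of norm 8 in the customary normalisation in which the minimal vectors have norm 4 (twice the minimal norm). -/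
theorem result {G : Type*} [Group G] [Finite G] (z : G) (Q : Subgroup (Subgroup.centralizer ({z} : Set G))) [Q.Normal] (hM : Cfsg.IsOfMonsterType z Q) (e : (Subgroup.centralizer ({z} : Set G)) ⧸ Q ≃* Cfsg.Spor.Co1) (ψ : Cfsg.leechLattice → Q ⧸ Subgroup.center Q) (hψ : Cfsg.IsLeechModTwoIso Q e ψ) (x : Q) : (IsConj z ((x : Subgroup.centralizer ({z} : Set G)) : G) ∧ ((x : Subgroup.centralizer ({z} : Set G)) : G) ≠ z) ↔ ∃ v : Cfsg.leechLattice, Cfsg.sqNorm (v : Cfsg.GolayPt → ℤ) = 64 ∧ ψ v = QuotientGroup.mk x := by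
  have MF := Cfsg.Agent.Helper92.msettingF_of_iso z Q hM.1 e ψ hψ
  have M := MF.toM
  have hxQ : ((x : Subgroup.centralizer ({z} : Set G)) : G) ∈
      Q.map (Subgroup.centralizer ({z} : Set G)).subtype :=
    (Cfsg.Agent.Helper92.mem_map_subtype_iff Q _).2
      ⟨(x : Subgroup.centralizer ({z} : Set G)).2, x.2⟩
  have hrep_iff : ∀ v : Cfsg.leechLattice,
      Cfsg.Agent.Helper92.RepOf Q ψ v ((x : Subgroup.centralizer ({z} : Set G)) : G) ↔
        ψ v = QuotientGroup.mk x := by
    intro v
    constructor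
    · rintro ⟨hx, hq, h⟩
      exact h
    · intro h
      exact ⟨(x : Subgroup.centralizer ({z} : Set G)).2, x.2, h⟩
  constructor
  · rintro ⟨hc, hxz⟩
    obtain ⟨g, hg⟩ := isConj_iff.1 hc
    obtain ⟨v, hv⟩ := M.surj _ hxQ
    rw [← hg] at hv hxz
    obtain ⟨γ, w', hw'⟩ := MF.conj_type4 g hxz hv
    refine ⟨γ⁻¹ • Cfsg.Agent.Helper92.U4, ?_, ?_⟩
    · rw [Cfsg.Agent.Helper92.co0_sqNorm, Cfsg.Agent.Helper92.sqNorm_U4]
    · rw [← hrep_iff]
      have hc2 : Cfsg.Agent.Helper92.Cong v (γ⁻¹ • Cfsg.Agent.Helper92.U4) :=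
        ⟨γ⁻¹ • w', by
          rw [← Cfsg.Agent.Helper92.co0_add, ← Cfsg.Agent.Helper92.co0_add, ← hw',
            inv_smul_smul]⟩
      have h3 := M.rep_cong hv hc2
      rw [hg] at h3
      exact h3
  · rintro ⟨v, hvn, hv⟩
    have hrep := (hrep_iff v).2 hv
    have o := Cfsg.Agent.Helper92.orb_U4_of_norm v hvn
    obtain ⟨g₀, hg₀Q, hg₀z⟩ := M.wit
    obtain ⟨v₀, hv₀⟩ := M.surj _ hg₀Q
    have o₀ := MF.conj_type4 g₀ hg₀z hv₀
    have hne1 : g₀ * z * g₀⁻¹ ≠ 1 := fun h => M.les.ne_one (conj_eq_one_iff.1 h)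
    obtain ⟨h, hh, hst⟩ := M.exists_conj_of_orb hv₀ hrep (o₀.trans o.symm) hne1 hg₀z
    constructor
    · rw [isConj_iff]
      exact ⟨h * g₀, by rw [← hst]; group⟩
    · exact (M.not_central_of_orb hrep o (by rw [Cfsg.Agent.Helper92.sqNorm_U4]; norm_num)
        (by rw [Cfsg.Agent.Helper92.sqNorm_U4])).2

end Cfsg.Agent.S5407
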