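import Cfsg.Statements.S5410
import Cfsg.Agent.Helper90.MonsterComp
import Cfsg.Agent.S5407

set_option autoImplicit false
open Cfsg

namespace Cfsg.Agent.S5410

/-- Let G be a finite group of Monster type at the involution z with Q the extraspecial normal subgroup of order 2^25 of C = C_G(z) (so C/Q is identified with the first Conway group with Q modulo its centre the Leech lattice modulo 2, and z is not weakly closed in Q). Let g in G with s = g z g⁻¹ a member of Q other than z, let X be the image in C/Q of the centralizer of s in C, and let E be the image in C/Q of the intersection of g Q g⁻¹ with C. Then E is a normal subgroup of X, elementary abelian of order 2^11, and it has a complement in X isomorphic to the Mathieu group of degree 24 (the automorphism group of the length-24 binary Golay code). -/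
theorem result {G : Type*} [Group G] [Finite G] (z : G) (Q : Subgroup (Subgroup.centralizer ({z} : Set G))) [Q.Normal] (hM : Cfsg.IsOfMonsterType z Q) (s : G) (hsQ : ∃ hsc : s ∈ Subgroup.centralizer ({z} : Set G), (⟨s, hsc⟩ : Subgroup.centralizer ({z} : Set G)) ∈ Q) (hs : IsConj z s) (hs1 : s ≠ z) (g : G) (hg : g * z * g⁻¹ = s) (X E : Subgroup ((Subgroup.centralizer ({z} : Set G)) ⧸ Q)) (hX : X = ((Subgroup.centralizer ({z} : Set G) ⊓ Subgroup.centralizer ({s} : Set G)).subgroupOf (Subgroup.centralizer ({z} : Set G))).map (QuotientGroup.mk' Q)) (hE : E = (((Q.map (Subgroup.centralizer ({z} : Set G)).subtype).map (MulAut.conj g).toMonoidHom ⊓ Subgroup.centralizer ({z} : Set G)).subgroupOf (Subgroup.centralizer ({z} : Set G))).map (QuotientGroup.mk' Q)) : E ≤ X ∧ (∀ x ∈ X, ∀ y ∈ E, x * y * x⁻¹ ∈ E) ∧ Cfsg.IsElementaryAbelian 2 E ∧ Nat.card E = 2 ^ 11 ∧ ∃ K : Subgroup ((Subgroup.centralizer ({z} : Set G)) ⧸ Q), K ≤ X ∧ E ⊓ K = ⊥ ∧ E ⊔ K = X ∧ Nonempty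 (K ≃* Cfsg.M24) := by
  obtain ⟨hS, e, ψ, hψ⟩ := hM
  have M := Cfsg.Agent.Helper92.msetting_of_iso z Q hS e ψ hψ
  obtain ⟨hsc, hsQ'⟩ := hsQ
  obtain ⟨v, hv64, hv⟩ := (Cfsg.Agent.S5407.result z Q ⟨hS, e, ψ, hψ⟩ e ψ hψ
    ⟨⟨s, hsc⟩, hsQ'⟩).mp ⟨hs, hs1⟩
  have hrep : Cfsg.Agent.Helper92.RepOf Q ψ v s := ⟨hsc, hsQ', hv⟩
  obtain ⟨γ0, hγ0⟩ := Cfsg.Agent.Helper92.orb_U4_of_norm v hv64
  have hψ' := Cfsg.Agent.Helper90.twist_iso Q e ψ hψ γ0
  have hrep' : Cfsg.Agent.Helper92.RepOf Q (fun w => ψ (γ0⁻¹ • w)) Cfsg.Agent.Helper92.U4 s := by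
    have hc : Cfsg.Agent.Helper92.Cong v (γ0⁻¹ • Cfsg.Agent.Helper92.U4) := by
      have h1 := Cfsg.Agent.Helper92.Cong.smul γ0⁻¹ hγ0
      rwa [inv_smul_smul] at h1
    exact M.rep_cong hrep hc
  subst hg
  exact Cfsg.Agent.Helper90.monster_complement_core z Q hS _ _ hψ' g hrep' X E hX hE

end Cfsg.Agent.S5410
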