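import Cfsg.Statements.S5411
import Cfsg.Agent.Helper92.MonsterType
-- import your own Cfsg.Agent.* helpers here

set_option autoImplicit false
open Cfsg

namespace Cfsg.Agent.S5411

/-- Let G be a finite group of Monster type at the involution z with Q the extraspecial normal subgroup of order 2^25 of C = C_G(z) (so C/Q is identified with the first Conway group with Q modulo its centre the Leech lattice modulo 2, and z is not weakly closed in Q). Then C acts transitively by conjugation on the involutions of Q that are not conjugate to z in G. -/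
theorem result {G : Type*} [Group G] [Finite G] (z : G) (Q : Subgroup (Subgroup.centralizer ({z} : Set G))) [Q.Normal] (hM : Cfsg.IsOfMonsterType z Q) (s t : G) (hsQ : ∃ hsc : s ∈ Subgroup.centralizer ({z} : Set G), (⟨s, hsc⟩ : Subgroup.centralizer ({z} : Set G)) ∈ Q) (htQ : ∃ htc : t ∈ Subgroup.centralizer ({z} : Set G), (⟨t, htc⟩ : Subgroup.centralizer ({z} : Set G)) ∈ Q) (hs2 : orderOf s = 2) (ht2 : orderOf t = 2) (hs : ¬ IsConj z s) (ht : ¬ IsConj z t) : ∃ h ∈ Subgroup.centralizer ({z} : Set G), h * s * h⁻¹ = t := by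
  obtain ⟨Rep, M⟩ := Cfsg.Agent.Helper92.exists_msetting z Q hM
  have hs' := (Cfsg.Agent.Helper92.mem_map_subtype_iff Q s).2 hsQ
  have ht' := (Cfsg.Agent.Helper92.mem_map_subtype_iff Q t).2 htQ
  have hs2' : s * s = 1 := by
    rw [← pow_two, ← hs2]
    exact pow_orderOf_eq_one s
  have ht2' : t * t = 1 := by
    rw [← pow_two, ← ht2]
    exact pow_orderOf_eq_one t
  have hs1 : s ≠ 1 := by
    rintro rfl
    rw [orderOf_one] at hs2
    norm_num at hs2
  have ht1 : t ≠ 1 := by
    rintro rfl
    rw [orderOf_one] at ht2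
    norm_num at ht2
  obtain ⟨h, hh, hst⟩ := M.noncentral_invol_trans hs' ht' hs2' ht2' hs1 ht1 hs ht
  refine ⟨h, ?_, hst⟩
  rw [Subgroup.mem_centralizer_iff]
  intro y hy
  rw [Set.mem_singleton_iff.1 hy]
  exact hh.symm

end Cfsg.Agent.S5411
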