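import Cfsg.Statements.S5412
import Cfsg.Agent.Helper90.BabyGroup
import Cfsg.Agent.Helper90.MonsterFaith

set_option autoImplicit false
open Cfsg

namespace Cfsg.Agent.S5412

/-- Let G be a finite group of Monster type at the involution z with Q the extraspecial normal subgroup of order 2^25 of C = C_G(z) (so C/Q is identified with the first Conway group with Q modulo its centre the Leech lattice modulo 2, and z is not weakly closed in Q). Let t be an involution of Q not conjugate to z in G. Then the centralizer of t modulo the subgroup generated by t is a group of Baby Monster type (an involution whose centralizer D has generalized Fitting subgroup R extraspecial of order 2^23 with D/R identified with the second Conway group acting on R modulo its centre as on the vectors of the Leech lattice modulo 2 orthogonal to a short vector, modulo that vector; the involution not weakly closed in R). -/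
theorem result {G : Type*} [Group G] [Finite G] (z : G) (Q : Subgroup (Subgroup.centralizer ({z} : Set G))) [Q.Normal] (hM : Cfsg.IsOfMonsterType z Q) (t : G) (htQ : ∃ htc : t ∈ Subgroup.centralizer ({z} : Set G), (⟨t, htc⟩ : Subgroup.centralizer ({z} : Set G)) ∈ Q) (ht2 : orderOf t = 2) (ht : ¬ IsConj z t) [hn : ((Subgroup.zpowers t).subgroupOf (Subgroup.centralizer ({t} : Set G))).Normal] : Cfsg.IsOfBabyMonsterType (↥(Subgroup.centralizer ({t} : Set G)) ⧸ (Subgroup.zpowers t).subgroupOf (Subgroup.centralizer ({t} : Set G))) := by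
  obtain ⟨hS, e, ψ, hψ⟩ := hM
  have M := Cfsg.Agent.Helper92.msetting_of_iso z Q hS e ψ hψ
  obtain ⟨htc, htQ'⟩ := htQ
  have htQG : t ∈ Q.map (Subgroup.centralizer ({z} : Set G)).subtype := ⟨⟨t, htc⟩, htQ', rfl⟩
  obtain ⟨v, hv⟩ := M.surj t htQG
  have htt : t * t = 1 := by rw [← pow_two, ← ht2]; exact pow_orderOf_eq_one t
  have ht1 : t ≠ 1 := by
    intro h
    rw [h, orderOf_one] at ht2
    norm_num at ht2
  have htz : t ≠ z := fun h => ht (h ▸ IsConj.refl z)
  rcases M.cases_of_invol hv htt ht1 htz with ho | ho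
  · obtain ⟨γ0, hγ0⟩ := ho
    have hψ' := Cfsg.Agent.Helper90.twist_iso Q e ψ hψ γ0
    have MF := Cfsg.Agent.Helper92.msettingF_of_iso z Q hS _ _ hψ'
    have hrep' : Cfsg.Agent.Helper92.RepOf Q (fun w => ψ (γ0⁻¹ • w)) Cfsg.Spor.leechU t := by
      have hc : Cfsg.Agent.Helper92.Cong v (γ0⁻¹ • Cfsg.Spor.leechU) := by
        have h1 := Cfsg.Agent.Helper92.Cong.smul γ0⁻¹ hγ0
        rwa [inv_smul_smul] at h1
      exact M.rep_cong hv hc
    exact Cfsg.Agent.Helper90.baby_core MF hrep'
  · exfalso
    obtain ⟨g, hgQ, hgz⟩ := M.wit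
    obtain ⟨v₀, hv₀⟩ := M.surj _ hgQ
    have MF0 := Cfsg.Agent.Helper92.msettingF_of_iso z Q hS e ψ hψ
    have h4 := MF0.conj_type4 g hgz hv₀
    have hg1 : g * z * g⁻¹ ≠ 1 := fun h => M.les.ne_one (conj_eq_one_iff.1 h)
    obtain ⟨h, -, hh⟩ := M.exists_conj_of_orb hv₀ hv (h4.trans ho.symm) hg1 hgz
    exact ht (isConj_iff.mpr ⟨h * g, by rw [← hh]; group⟩)

end Cfsg.Agent.S5412
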