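-- Statement S5420: large extraspecial criterion (centre inside the 2-core).
import Cfsg.Statements.S5420
import Cfsg.Agent.Helper90.Basic

set_option autoImplicit false
open Cfsg

namespace Cfsg.Agent.S5420

/-- Let Q be an extraspecial 2-subgroup of the finite group G whose centralizer in G is its centre Z and which is normal in the centralizer of Z. If Z lies in the largest normal 2-subgroup of G, then Q is a large extraspecial 2-subgroup of G: it normalizes no non-trivial subgroup of G of odd order. -/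
theorem result {G : Type*} [Group G] [Finite G] (Q : Subgroup G) (hL1 : Cfsg.IsExtraspecial 2 ↥Q) (hL2 : Subgroup.centralizer (Q : Set G) = ((Subgroup.center ↥Q).map Q.subtype)) (hL3 : Subgroup.centralizer (((Subgroup.center ↥Q).map Q.subtype) : Set G) ≤ Subgroup.normalizer (Q : Set G)) (hZ : ((Subgroup.center ↥Q).map Q.subtype) ≤ Cfsg.pCore 2 G) : Cfsg.IsLargeExtraspecial Q := by
  refine ⟨hL1, hL2, hL3, ?_⟩
  intro K hK hQK
  have hQ2 : IsPGroup 2 ↥Q := hL1.1.1
  have hO : IsPGroup 2 (Cfsg.pCore 2 G) := Cfsg.Agent.Helper90.pCore_isPGroup 2 G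
  rw [Subgroup.eq_bot_iff_forall]
  intro k hk
  apply Cfsg.Agent.Helper90.eq_one_of_mem_odd_of_mem_centralizer_center Q hQ2 hL2 hL3 K hK hQK hk
  rw [Subgroup.mem_centralizer_iff]
  intro c hc
  have hcO : c ∈ Cfsg.pCore 2 G := hZ hc
  have hcQ : c ∈ Q := by
    obtain ⟨c', _, hc'⟩ := Subgroup.mem_map.mp hc
    rw [← hc']; exact c'.2
  have h1 : k * c * k⁻¹ ∈ Cfsg.pCore 2 G :=
    (inferInstance : (Cfsg.pCore 2 G).Normal).conj_mem c hcO k
  have h2 : c * k⁻¹ * c⁻¹ ∈ K :=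
    (Subgroup.mem_normalizer_iff.mp (hQK hcQ) k⁻¹).mp (K.inv_mem hk)
  have h3 : k * c * k⁻¹ * c⁻¹ ∈ Cfsg.pCore 2 G :=
    (Cfsg.pCore 2 G).mul_mem h1 ((Cfsg.pCore 2 G).inv_mem hcO)
  have h4 : k * c * k⁻¹ * c⁻¹ ∈ K := by
    have : k * c * k⁻¹ * c⁻¹ = k * (c * k⁻¹ * c⁻¹) := by group
    rw [this]
    exact K.mul_mem hk h2
  have h5 : k * c * k⁻¹ * c⁻¹ = 1 :=
    Cfsg.Agent.Helper90.eq_one_of_mem_odd_of_mem_two hK hO h4 h3
  have h6 : k * c * k⁻¹ * c⁻¹ * (c * k) = c * k := by rw [h5, one_mul]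
  rw [← h6]; group

end Cfsg.Agent.S5420
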