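-- Statement S5422: for an extraspecial Q of width ≥ 2 with C_G(Q) = Z(Q) = Z and Q ⊴ C_G(Z):
-- if Z^g ≤ Q with g ∉ N_G(Z) then Z ≤ Q^g, N_G(Z Z^g)/C_G(Z Z^g) ≅ S₃, and Q is large.
import Cfsg.Statements.S5422
import Cfsg.Agent.Helper90.LESConj
import Cfsg.Agent.Helper90.FourGroup
import Cfsg.Agent.S5421

set_option autoImplicit false
open Cfsg

namespace Cfsg.Agent.S5422

open Cfsg.Agent.Helper90

/-- Let Q be an extraspecial 2-subgroup of the finite group G whose centralizer in G is its centre Z and which is normal in the centralizer of Z; suppose Q has width at least 2 (order 2^(2w+1) with w ≥ 2) and g is an element of G not normalizing Z with g Z g⁻¹ inside Q. Then Z lies inside g Q g⁻¹; writing V for the subgroup generated by Z and g Z g⁻¹ (a four-group), the normalizer of V induces on V its full automorphism group, that is, the centralizer of V has index 6 in the normalizer of V; and Q is a large extraspecial 2-subgroup of G. -/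
theorem result {G : Type*} [Group G] [Finite G] (Q : Subgroup G) (hL1 : Cfsg.IsExtraspecial 2 ↥Q) (hL2 : Subgroup.centralizer (Q : Set G) = ((Subgroup.center ↥Q).map Q.subtype)) (hL3 : Subgroup.centralizer (((Subgroup.center ↥Q).map Q.subtype) : Set G) ≤ Subgroup.normalizer (Q : Set G)) (w : ℕ) (hw : 2 ≤ w) (hcard : Nat.card ↥Q = 2 ^ (2 * w + 1)) (g : G) (hg : g ∉ Subgroup.normalizer (((Subgroup.center ↥Q).map Q.subtype) : Set G)) (hZg : (((Subgroup.center ↥Q).map Q.subtype)).map (MulAut.conj g).toMonoidHom ≤ Q) : ((Subgroup.center ↥Q).map Q.subtype) ≤ (Q).map (MulAut.conj g).toMonoidHom ∧ (Subgroup.centralizer ((((Subgroup.center ↥Q).map Q.subtype) ⊔ (((Subgroup.center ↥Q).map Q.subtype)).map (MulAut.conj g).toMonoidHom : Subgroup G) : Set G)).relIndex (Subgroup.normalizer ((((Subgroup.center ↥Q).map Q.subtype) ⊔ (((Subgroup.center ↥Q).map Q.subtype)).map (MulAut.conj g).toMonoidHom : Subgroup G) : Set G)) = 6 ∧ Cfsg.IsLargeExtraspecial Q := by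
  obtain ⟨z, hQ, hzZ, hzall⟩ := exists_LES Q hL1 hL2 hL3
  have hQ1 := hQ.conj g
  have hzinv : z⁻¹ = z := hQ.inv_eq
  -- b = g z g⁻¹
  have hbmem : g * z * g⁻¹ ∈ (((Subgroup.center ↥Q).map Q.subtype)).map (MulAut.conj g).toMonoidHom :=
    Subgroup.mem_map.mpr ⟨z, hzZ, rfl⟩
  have hbQ : g * z * g⁻¹ ∈ Q := hZg hbmem
  have hb1 : g * z * g⁻¹ ≠ 1 := hQ1.ne_one
  have hbb : g * z * g⁻¹ * (g * z * g⁻¹) = 1 := hQ1.sq
  have hbz : g * z * g⁻¹ ≠ z := by
    intro hh
    apply hg
    rw [Subgroup.mem_normalizer_iff]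
    intro h
    constructor
    · intro hh1
      rcases hzall h hh1 with h1 | h1
      · rw [h1]; simp
      · rw [h1, hh]; exact hzZ
    · intro hh1
      rcases hzall _ hh1 with h1 | h1
      · have : h = 1 := by
          have : h = g⁻¹ * (g * h * g⁻¹) * g := by group
          rw [this, h1]; group
        rw [this]; exact Subgroup.one_mem _
      · have : h = z := by
          have e : h = g⁻¹ * (g * h * g⁻¹) * g := by group
          rw [e, h1]
          have e2 : g⁻¹ * z * g = g⁻¹ * (g * z * g⁻¹) * g := by rw [hh]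
          rw [e2]; group
        rw [this]; exact hzZ
  have hlink : ∀ n : G, n * z * n⁻¹ = g * z * g⁻¹ → ∀ q ∈ Q,
      n * q * n⁻¹ ∈ Q.map (MulAut.conj g).toMonoidHom := by
    intro n hn q hq
    rw [mem_map_conj_iff]
    have h1 : (g⁻¹ * n) * z = z * (g⁻¹ * n) := by
      have e : (g⁻¹ * n) * z = g⁻¹ * (n * z * n⁻¹) * n := by group
      rw [e, hn]; group
    have h2 := hQ.norm _ h1 q hq
    have e2 : g⁻¹ * n * q * (g⁻¹ * n)⁻¹ = g⁻¹ * (n * q * n⁻¹) * g := by group
    rwa [e2] at h2
  have hc8 : 8 < Nat.card ↥Q := by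
    rw [hcard]
    calc 8 < 2 ^ 5 := by norm_num
      _ ≤ 2 ^ (2 * w + 1) := Nat.pow_le_pow_right (by norm_num) (by omega)
  have hnonab := hQ.exists_noncomm hc8 hbQ hbb hb1 hbz
  have hzQ1 : z ∈ Q.map (MulAut.conj g).toMonoidHom :=
    hQ.center_mem_conj hQ1 hbQ hbz hlink hnonab
  have hzb : z * (g * z * g⁻¹) = (g * z * g⁻¹) * z := (hQ.central _ hbQ).symm
  refine ⟨?_, ?_, ?_⟩
  · -- (a)
    intro c hc
    rcases hzall c hc with h1 | h1
    · rw [h1]; exact Subgroup.one_mem _
    · rw [h1]; exact hzQ1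
  · -- (b)
    have hV : (((Subgroup.center ↥Q).map Q.subtype) ⊔
        (((Subgroup.center ↥Q).map Q.subtype)).map (MulAut.conj g).toMonoidHom : Subgroup G)
        = fourGroup z (g * z * g⁻¹) hQ.sq hbb hzb := by
      apply le_antisymm
      · apply sup_le
        · intro c hc
          rcases hzall c hc with h1 | h1
          · exact Or.inl h1
          · exact Or.inr (Or.inl h1)
        · intro c hc
          obtain ⟨d, hd, rfl⟩ := Subgroup.mem_map.mp hc
          rcases hzall d hd with h1 | h1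
          · left; rw [h1]; simp
          · right; right; left; rw [h1]; rfl
      · intro x hx
        have h1 : z ∈ (((Subgroup.center ↥Q).map Q.subtype) ⊔
            (((Subgroup.center ↥Q).map Q.subtype)).map (MulAut.conj g).toMonoidHom : Subgroup G) :=
          Subgroup.mem_sup_left hzZ
        have h2 : g * z * g⁻¹ ∈ (((Subgroup.center ↥Q).map Q.subtype) ⊔
            (((Subgroup.center ↥Q).map Q.subtype)).map (MulAut.conj g).toMonoidHom : Subgroup G) :=
          Subgroup.mem_sup_right hbmem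
        rcases hx with h | h | h | h
        · rw [h]; exact Subgroup.one_mem _
        · rw [h]; exact h1
        · rw [h]; exact h2
        · rw [h]; exact Subgroup.mul_mem _ h1 h2
    rw [hV]
    set V := fourGroup z (g * z * g⁻¹) hQ.sq hbb hzb with hVdef
    -- the three non-identity elements
    have hz1 : z ≠ 1 := hQ.ne_one
    have hzV : z ∈ V := Or.inr (Or.inl rfl)
    have hbV : g * z * g⁻¹ ∈ V := Or.inr (Or.inr (Or.inl rfl))
    have hzbV : z * (g * z * g⁻¹) ∈ V := Or.inr (Or.inr (Or.inr rfl))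
    have hzb1 : z * (g * z * g⁻¹) ≠ 1 := by
      intro hh
      apply hbz
      have : g * z * g⁻¹ = z⁻¹ * (z * (g * z * g⁻¹)) := by group
      rw [this, hh, mul_one, hzinv]
    have hne1 : z ≠ g * z * g⁻¹ := fun hh => hbz hh.symm
    have hne2 : z ≠ z * (g * z * g⁻¹) := by
      intro hh
      apply hb1
      have : z * 1 = z * (g * z * g⁻¹) := by rw [mul_one]; exact hh
      exact (mul_left_cancel this).symm
    have hne3 : g * z * g⁻¹ ≠ z * (g * z * g⁻¹) := by
      intro hh
      apply hz1
      have : 1 * (g * z * g⁻¹) = z * (g * z * g⁻¹) := by rw [one_mul]; exact hh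
      exact (mul_right_cancel this).symm
    have hcardT : Nat.card {x : G // x ∈ V ∧ x ≠ 1} = 3 := by
      have hset : {x : G | x ∈ V ∧ x ≠ 1} = {z, g * z * g⁻¹, z * (g * z * g⁻¹)} := by
        ext x
        constructor
        · rintro ⟨hx, hx1⟩
          rcases hx with h | h | h | h
          · exact absurd h hx1
          · left; exact h
          · right; left; exact h
          · right; right; exact h
        · rintro (h | h | h)
          · rw [h]; exact ⟨hzV, hz1⟩
          · rw [h]; exact ⟨hbV, hb1⟩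
          · rw [h]; exact ⟨hzbV, hzb1⟩
      have h3 : ({x : G | x ∈ V ∧ x ≠ 1} : Set G).ncard = 3 :=
        Set.ncard_eq_three.mpr ⟨_, _, _, hne1, hne2, hne3, hset⟩
      rw [← h3]
      exact Nat.card_coe_set_eq _
    have hcardP : Nat.card (Equiv.Perm {x : G // x ∈ V ∧ x ≠ 1}) = 6 := by
      rw [Nat.card_perm, hcardT]; rfl
    -- elements q and y
    obtain ⟨q, hq, hqb⟩ := hQ.exists_conj hbQ hb1 hbz
    obtain ⟨y, hy, hyz0⟩ := hQ1.exists_conj hzQ1 hz1 (fun hh => hbz hh.symm)
    have hyz : y * z * y⁻¹ = z * (g * z * g⁻¹) := by rw [hyz0, hzb]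
    have hqz : q * z * q⁻¹ = z := by
      have := hQ.central q hq
      rw [this]; group
    have hyb : y * (g * z * g⁻¹) * y⁻¹ = g * z * g⁻¹ := by
      have := hQ1.central y hy
      rw [this]; group
    have hqzb : q * (z * (g * z * g⁻¹)) * q⁻¹ = g * z * g⁻¹ := by
      have : q * (z * (g * z * g⁻¹)) * q⁻¹ = (q * z * q⁻¹) * (q * (g * z * g⁻¹) * q⁻¹) := by group
      rw [this, hqz, hqb, ← mul_assoc, hQ.sq, one_mul]
    have hyzb : y * (z * (g * z * g⁻¹)) * y⁻¹ = z := by
      have : y * (z * (g * z * g⁻¹)) * y⁻¹ = (y * z * y⁻¹) * (y * (g * z * g⁻¹) * y⁻¹) := by group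
      rw [this, hyz, hyb, mul_assoc, hbb, mul_one]
    -- normalizer membership
    have hnorm_of : ∀ n : G, (∀ x ∈ V, n * x * n⁻¹ ∈ V) → (∀ x ∈ V, n⁻¹ * x * n ∈ V) →
        n ∈ Subgroup.normalizer (V : Set G) := by
      intro n h1 h2
      rw [Subgroup.mem_normalizer_iff]
      intro x
      constructor
      · exact h1 x
      · intro hx
        have := h2 _ hx
        have e : n⁻¹ * (n * x * n⁻¹) * n = x := by group
        rwa [e] at this
    have hinv : ∀ n a c : G, n * a * n⁻¹ = c → n⁻¹ * c * n = a := fun n a c h => by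
      rw [← h]; group
    have hqinv_b : q⁻¹ * (g * z * g⁻¹) * q = z * (g * z * g⁻¹) := hinv _ _ _ hqzb
    have hqinv_zb : q⁻¹ * (z * (g * z * g⁻¹)) * q = g * z * g⁻¹ := hinv _ _ _ hqb
    have hqinv_z : q⁻¹ * z * q = z := hinv _ _ _ hqz
    have hyinv_b : y⁻¹ * (g * z * g⁻¹) * y = g * z * g⁻¹ := hinv _ _ _ hyb
    have hyinv_z : y⁻¹ * z * y = z * (g * z * g⁻¹) := hinv _ _ _ hyzb
    have hyinv_zb : y⁻¹ * (z * (g * z * g⁻¹)) * y = z := hinv _ _ _ hyz
    have hqN : q ∈ Subgroup.normalizer (V : Set G) := by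
      apply hnorm_of
      · intro x hx
        rcases hx with h | h | h | h
        · rw [h]; simp
        · rw [h, hqz]; exact hzV
        · rw [h, hqb]; exact hzbV
        · rw [h, hqzb]; exact hbV
      · intro x hx
        rcases hx with h | h | h | h
        · rw [h]; simp
        · rw [h, hqinv_z]; exact hzV
        · rw [h, hqinv_b]; exact hzbV
        · rw [h, hqinv_zb]; exact hbV
    have hyN : y ∈ Subgroup.normalizer (V : Set G) := by
      apply hnorm_of
      · intro x hx
        rcases hx with h | h | h | h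
        · rw [h]; simp
        · rw [h, hyz]; exact hzbV
        · rw [h, hyb]; exact hbV
        · rw [h, hyzb]; exact hzV
      · intro x hx
        rcases hx with h | h | h | h
        · rw [h]; simp
        · rw [h, hyinv_z]; exact hzbV
        · rw [h, hyinv_b]; exact hbV
        · rw [h, hyinv_zb]; exact hzV
    -- the range of the action has order 6
    have hrange : Nat.card (normPerm V).range = 6 := by
      have hdvd : Nat.card (normPerm V).range ∣ 6 := by
        rw [← hcardP]; exact Subgroup.card_subgroup_dvd_card _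
      have : Fact (Nat.Prime 2) := ⟨Nat.prime_two⟩
      have : Fact (Nat.Prime 3) := ⟨Nat.prime_three⟩
      -- element of order 2
      have ho2 : orderOf (normPerm V ⟨q, hqN⟩) = 2 := by
        apply orderOf_eq_prime
        · ext x
          show q * (q * (x : G) * q⁻¹) * q⁻¹ = x
          rcases x.2.1 with h | h | h | h
          · exact absurd h x.2.2
          · rw [h, hqz, hqz]
          · rw [h, hqb, hqzb]
          · rw [h, hqzb, hqb]
        · intro hh
          have h1 := congrArg (fun σ : Equiv.Perm {x : G // x ∈ V ∧ x ≠ 1} =>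
            ((σ ⟨g * z * g⁻¹, hbV, hb1⟩ : {x : G // x ∈ V ∧ x ≠ 1}) : G)) hh
          have h2 : q * (g * z * g⁻¹) * q⁻¹ = g * z * g⁻¹ := h1
          rw [hqb] at h2
          exact hne3 h2.symm
      have ho3 : orderOf (normPerm V (⟨y, hyN⟩ * ⟨q, hqN⟩)) = 3 := by
        apply orderOf_eq_prime
        · ext x
          show (y * q) * ((y * q) * ((y * q) * (x : G) * (y * q)⁻¹) * (y * q)⁻¹) * (y * q)⁻¹ = x
          have e : ∀ t : G, (y * q) * t * (y * q)⁻¹ = y * (q * t * q⁻¹) * y⁻¹ := fun t => by group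
          have hnz : (y * q) * z * (y * q)⁻¹ = z * (g * z * g⁻¹) := by rw [e, hqz, hyz]
          have hnb : (y * q) * (g * z * g⁻¹) * (y * q)⁻¹ = z := by rw [e, hqb, hyzb]
          have hnzb : (y * q) * (z * (g * z * g⁻¹)) * (y * q)⁻¹ = g * z * g⁻¹ := by
            rw [e, hqzb, hyb]
          rcases x.2.1 with h | h | h | h
          · exact absurd h x.2.2
          · rw [h, hnz, hnzb, hnb]
          · rw [h, hnb, hnz, hnzb]
          · rw [h, hnzb, hnb, hnz]
        · intro hh
          have h1 := congrArg (fun σ : Equiv.Perm {x : G // x ∈ V ∧ x ≠ 1} =>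
            ((σ ⟨z, hzV, hz1⟩ : {x : G // x ∈ V ∧ x ≠ 1}) : G)) hh
          have h2 : (y * q) * z * (y * q)⁻¹ = z := h1
          have e : (y * q) * z * (y * q)⁻¹ = y * (q * z * q⁻¹) * y⁻¹ := by group
          rw [e, hqz, hyz] at h2
          exact hne2 h2.symm
      have h2dvd : 2 ∣ Nat.card (normPerm V).range := by
        have := orderOf_dvd_natCard (⟨normPerm V ⟨q, hqN⟩, MonoidHom.mem_range.mpr ⟨_, rfl⟩⟩ :
          (normPerm V).range)
        rwa [Subgroup.orderOf_mk, ho2] at this
      have h3dvd : 3 ∣ Nat.card (normPerm V).range := by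
        have := orderOf_dvd_natCard (⟨normPerm V (⟨y, hyN⟩ * ⟨q, hqN⟩),
          MonoidHom.mem_range.mpr ⟨_, rfl⟩⟩ : (normPerm V).range)
        rwa [Subgroup.orderOf_mk, ho3] at this
      have h6dvd : 6 ∣ Nat.card (normPerm V).range :=
        Nat.Coprime.mul_dvd_of_dvd_of_dvd (by norm_num) h2dvd h3dvd
      exact Nat.dvd_antisymm hdvd h6dvd
    show (Subgroup.centralizer (V : Set G)).relIndex (Subgroup.normalizer (V : Set G)) = 6
    rw [Subgroup.relIndex, ← normPerm_ker, Subgroup.index_ker, hrange]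
  · -- (c)
    have hbZ : g * z * g⁻¹ ∉ (Subgroup.center ↥Q).map Q.subtype := by
      intro hh
      rcases hzall _ hh with h1 | h1
      · exact hb1 h1
      · exact hbz h1
    have : Fact (Nat.Prime 2) := ⟨Nat.prime_two⟩
    have hbo : orderOf (g * z * g⁻¹) = 2 := by
      apply orderOf_eq_prime
      · rw [pow_two]; exact hbb
      · exact hb1
    apply Cfsg.Agent.S5421.result Q hL1 hL2 hL3 (g * z * g⁻¹) hbQ hbZ hbo
    intro c hc
    rcases hzall c hc with h1 | h1
    · rw [h1]; exact Subgroup.one_mem _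
    · rw [h1]
      have hzC : z ∈ Subgroup.centralizer ({g * z * g⁻¹} : Set G) := by
        rw [Subgroup.mem_centralizer_iff]
        intro x hx
        rw [Set.mem_singleton_iff] at hx
        rw [hx]; exact hzb.symm
      refine Subgroup.mem_map.mpr ⟨⟨z, hzC⟩, ?_, rfl⟩
      have hN : ((Q.map (MulAut.conj g).toMonoidHom).subgroupOf
          (Subgroup.centralizer ({g * z * g⁻¹} : Set G))) ∈
          {N : Subgroup ↥(Subgroup.centralizer ({g * z * g⁻¹} : Set G)) |
            N.Normal ∧ IsPGroup 2 N} := by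
        refine ⟨⟨?_⟩, ?_⟩
        · intro n hn c
          rw [Subgroup.mem_subgroupOf] at hn ⊢
          have hcb : (c : G) * (g * z * g⁻¹) = (g * z * g⁻¹) * c :=
            (Subgroup.mem_centralizer_iff.mp c.2 _ (Set.mem_singleton _)).symm
          exact hQ1.norm c hcb n hn
        · exact (hL1.1.1.map _).comap_subtype
      exact (le_sSup hN : _ ≤ Cfsg.pCore 2 ↥(Subgroup.centralizer ({g * z * g⁻¹} : Set G)))
        (Subgroup.mem_subgroupOf.mpr hzQ1)

end Cfsg.Agent.S5422
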