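import Cfsg.Statements.S5424
import Cfsg.Agent.Helper90.TransvMain

set_option autoImplicit false
open Cfsg

namespace Cfsg.Agent.S5424

/-- Let G be the special linear group of degree n + 2 over the field with two elements, n ≥ 2, let z be a transvection, and let Q be the largest normal 2-subgroup of the centralizer C of z. Then Q is extraspecial of order 2^(2n+1) with an elementary abelian subgroup of order 2^(n+1) (plus type), Q is a large extraspecial 2-subgroup of G, and C is the split extension of Q by the special linear group of degree n over the field with two elements. -/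
theorem result (n : ℕ) (hn : 2 ≤ n) (z : Matrix.SpecialLinearGroup (Fin (n + 2)) (ZMod 2)) (hz : (z : Matrix (Fin (n + 2)) (Fin (n + 2)) (ZMod 2)) = Matrix.transvection 0 1 1) (Q : Subgroup (Matrix.SpecialLinearGroup (Fin (n + 2)) (ZMod 2))) (hQ : Q = (Cfsg.pCore 2 ↥(Subgroup.centralizer ({z} : Set (Matrix.SpecialLinearGroup (Fin (n + 2)) (ZMod 2))))).map (Subgroup.centralizer ({z} : Set (Matrix.SpecialLinearGroup (Fin (n + 2)) (ZMod 2)))).subtype) : Cfsg.IsExtraspecial 2 ↥Q ∧ Nat.card ↥Q = 2 ^ (2 * n + 1) ∧ (∃ E : Subgroup (Matrix.SpecialLinearGroup (Fin (n + 2)) (ZMod 2)), E ≤ Q ∧ Cfsg.IsElementaryAbelian 2 E ∧ Nat.card ↥E = 2 ^ (n + 1)) ∧ Cfsg.IsLargeExtraspecial Q ∧ ∃ K : Subgroup (Matrix.SpecialLinearGroup (Fin (n + 2)) (ZMod 2)), K ≤ Subgroup.centralizer ({z} : Set (Matrix.SpecialLinearGroup (Fin (n + 2)) (ZMod 2))) ∧ Q ⊓ K = ⊥ ∧ Q ⊔ K = Subgroup.centralizer ({z} : Set (Matrix.SpecialLinearGroup (Fin (n + 2)) (ZMod 2))) ∧ Nonempty (↥K ≃* Matrix.SpecialLinearGroup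 (Fin n) (ZMod 2)) := by
  obtain rfl : z = Cfsg.Agent.Helper90.tz n := Subtype.ext hz
  exact Cfsg.Agent.Helper90.transv_main n hn Q hQ

end Cfsg.Agent.S5424
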