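import Cfsg.Statements.S5427
import Cfsg.Agent.Helper90.FStarES

set_option autoImplicit false
open Cfsg

namespace Cfsg.Agent.S5427

/-- Let z be an involution of the finite group G whose centralizer C has generalized Fitting subgroup Q, an extraspecial 2-group of width at least 2 (order 2^(2w+1), w ≥ 2). Let K be a subgroup of G such that the subgroup U generated by the K-conjugates of z is abelian and C is generated by the C-conjugates of U. Suppose that either some K-conjugate of z other than z lies in Q, or some element u of U ∩ Q outside the subgroup generated by z has z in the largest normal 2-subgroup of its centralizer. Then G is simple and Q is a large extraspecial 2-subgroup of G. -/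
theorem result {G : Type*} [Group G] [Finite G] (z : G) (hz : orderOf z = 2) (Q : Subgroup G) (hQC : Q ≤ Subgroup.centralizer ({z} : Set G)) (hF : (Cfsg.generalizedFittingSubgroup ↥(Subgroup.centralizer ({z} : Set G))).map (Subgroup.centralizer ({z} : Set G)).subtype = Q) (hQ : Cfsg.IsExtraspecial 2 ↥Q) (w : ℕ) (hw : 2 ≤ w) (hcard : Nat.card ↥Q = 2 ^ (2 * w + 1)) (K U : Subgroup G) (hU : U = Subgroup.closure {x : G | ∃ k ∈ K, x = k * z * k⁻¹}) (hUab : IsMulCommutative ↥U) (hgen : Subgroup.closure {x : G | ∃ c ∈ Subgroup.centralizer ({z} : Set G), ∃ u ∈ U, x = c * u * c⁻¹} = Subgroup.centralizer ({z} : Set G)) (h3 : (∃ k ∈ K, k * z * k⁻¹ ∈ Q ∧ k * z * k⁻¹ ≠ z) ∨ ∃ u ∈ U ⊓ Q, u ∉ Subgroup.zpowers z ∧ (∃ hz' : z ∈ Subgroup.centralizer ({u} : Set G), (⟨z, hz'⟩ : ↥(Subgroup.centralizer ({u} : Set G))) ∈ Cfsg.pCore 2 ↥(Subgroup.centralizer ({u} : Set G)))) : IsSimpleGroup G ∧ Cfsg.IsLargeExtraspecial Q := by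
  classical
  obtain ⟨hL2, hL3, hLES, hzZ, hzall, _⟩ := Cfsg.Agent.Helper90.fstar_setting z hz Q hF hQ
  have hp : Fact (Nat.Prime 2) := ⟨Nat.prime_two⟩
  have hlarge : Cfsg.IsLargeExtraspecial Q := by
    rcases h3 with ⟨k, _, hkQ, hkz⟩ | ⟨u, hu, huz, hz', hzp⟩
    · exact Cfsg.Agent.Helper90.large_of_fstar z hz Q hF hQ w hw hcard k hkQ hkz
    · have hcomm : ∀ x ∈ U, ∀ y ∈ U, x * y = y * x :=
        fun x hx y hy => congrArg Subtype.val (hUab.is_comm.comm ⟨x, hx⟩ ⟨y, hy⟩)
      have hUsq : ∀ x ∈ Subgroup.closure {x : G | ∃ k ∈ K, x = k * z * k⁻¹}, x * x = 1 := by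
        intro x hx
        induction hx using Subgroup.closure_induction with
        | mem x hx =>
          obtain ⟨k, _, rfl⟩ := hx
          calc k * z * k⁻¹ * (k * z * k⁻¹) = k * (z * z) * k⁻¹ := by group
            _ = 1 := by rw [hLES.sq]; group
        | one => exact mul_one 1
        | mul x y hx hy hxx hyy =>
          have hxy : x * y = y * x := hcomm x (hU ▸ hx) y (hU ▸ hy)
          calc x * y * (x * y) = x * (y * x) * y := by group
            _ = x * (x * y) * y := by rw [hxy]
            _ = (x * x) * (y * y) := by group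
            _ = 1 := by rw [hxx, hyy, one_mul]
        | inv x hx hxx =>
          calc x⁻¹ * x⁻¹ = (x * x)⁻¹ := by group
            _ = 1 := by rw [hxx, inv_one]
      have huu : u * u = 1 := hUsq u (hU ▸ hu.1)
      have hu1 : u ≠ 1 := fun h => huz (h ▸ Subgroup.one_mem _)
      refine Cfsg.Agent.S5421.result Q hQ hL2 hL3 u hu.2 ?_ ?_ ?_
      · intro hb
        rcases hzall u hb with h | h
        · exact hu1 h
        · exact huz (h ▸ Subgroup.mem_zpowers z)
      · apply orderOf_eq_prime
        · rw [pow_two]; exact huu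
        · exact hu1
      · intro c hc
        rcases hzall c hc with h | h
        · rw [h]; exact Subgroup.one_mem _
        · rw [h]; exact Subgroup.mem_map.mpr ⟨⟨z, hz'⟩, hzp, rfl⟩
  refine ⟨Cfsg.Agent.Helper90.isSimpleGroup_of_large Q hlarge z hLES ?_, hlarge⟩
  intro N hN hzN
  have hUN : U ≤ N := by
    rw [hU, Subgroup.closure_le]
    rintro x ⟨k, _, rfl⟩
    exact hN.conj_mem z hzN k
  rw [← hgen, Subgroup.closure_le]
  rintro x ⟨c, _, u, hu, rfl⟩
  exact hN.conj_mem u (hUN hu) c

end Cfsg.Agent.S5427
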