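import Cfsg.Statements.S5428
import Cfsg.Agent.Helper90.FStarES
import Cfsg.Agent.Helper90.LESQuot
import Cfsg.Agent.Helper90.OddSection

set_option autoImplicit false
open Cfsg

namespace Cfsg.Agent.S5428

/-- Let z be an involution of the finite group G whose centralizer C has generalized Fitting subgroup Q extraspecial (as a 2-group), let A be a subgroup of C of odd order, and let R be the centralizer of A in Q; suppose R has order at least 32, the largest normal subgroup of odd order of the centralizer of the subgroup generated by A and R lies in A, the order of that centralizer is not divisible by 4, and g is an element of G with g z g⁻¹ in R but outside the centre Z of Q. Let M be the subgroup generated by A and the centralizer of A (A is normal in it). Then: the centralizer in M of the subgroup generated by R and A, joined with A, equals the subgroup generated by A and Z; the image of R in M/A is a large extraspecial 2-subgroup of M/A; and g z g⁻¹ is conjugate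 to z inside the subgroup generated by R and the centralizer of A in g Q g⁻¹. -/
theorem result {G : Type*} [Group G] [Finite G] (z : G) (hz : orderOf z = 2) (Q : Subgroup G) (hQC : Q ≤ Subgroup.centralizer ({z} : Set G)) (hF : (Cfsg.generalizedFittingSubgroup ↥(Subgroup.centralizer ({z} : Set G))).map (Subgroup.centralizer ({z} : Set G)).subtype = Q) (hQ : Cfsg.IsExtraspecial 2 ↥Q) (A : Subgroup G) (hA : A ≤ Subgroup.centralizer ({z} : Set G)) (hAodd : Odd (Nat.card ↥A)) (R : Subgroup G) (hR : R = Q ⊓ Subgroup.centralizer (A : Set G)) (hR32 : 32 ≤ Nat.card ↥R) (hO : (Cfsg.oddCore ↥(Subgroup.centralizer ((A ⊔ R : Subgroup G) : Set G))).map (Subgroup.centralizer ((A ⊔ R : Subgroup G) : Set G)).subtype ≤ A) (h4 : ¬ 4 ∣ Nat.card ↥(Subgroup.centralizer ((A ⊔ R : Subgroup G) : Set G))) (g : G) (hgR : g * z * g⁻¹ ∈ R) (hgZ : g * z * g⁻¹ ∉ ((Subgroup.center ↥Q).map Q.subtype)) (M : Subgroup G) (hM : M = Subgroup.centralizer (A : Set G) ⊔ A) [hn : (A.subgroupOf M).Normal]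 : (M ⊓ Subgroup.centralizer ((R ⊔ A : Subgroup G) : Set G)) ⊔ A = A ⊔ ((Subgroup.center ↥Q).map Q.subtype) ∧ Cfsg.IsLargeExtraspecial ((R.subgroupOf M).map (QuotientGroup.mk' (A.subgroupOf M))) ∧ ∃ x ∈ R ⊔ ((Q).map (MulAut.conj g).toMonoidHom ⊓ Subgroup.centralizer (A : Set G)), x * (g * z * g⁻¹) * x⁻¹ = z := by
  classical
  have hp : Fact (Nat.Prime 2) := ⟨Nat.prime_two⟩
  obtain ⟨hL2, hL3, hLES, hzZ, hzall, _⟩ := Cfsg.Agent.Helper90.fstar_setting z hz Q hF hQ
  have hQ2 : IsPGroup 2 ↥Q := hQ.1.1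
  have hmemR : ∀ x : G, x ∈ R ↔ x ∈ Q ∧ x ∈ Subgroup.centralizer (A : Set G) := by
    intro x
    rw [hR, Subgroup.mem_inf]
  have hRQ : R ≤ Q := fun x hx => ((hmemR x).mp hx).1
  have hRCA : R ≤ Subgroup.centralizer (A : Set G) := fun x hx => ((hmemR x).mp hx).2
  have hc8 : 8 < Nat.card ↥Q := by
    have h1 : Nat.card ↥R ≤ Nat.card ↥Q := Subgroup.card_le_of_le hRQ
    omega
  have hbz : g * z * g⁻¹ ≠ z := fun h => hgZ (by rw [h]; exact hzZ)
  have hgQ : g * z * g⁻¹ ∈ Q := hRQ hgR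
  have hpair := Cfsg.Agent.Helper90.pair_of_les hLES hc8 g hgQ hbz
  have hQ12 : IsPGroup 2 ↥(Q.map (MulAut.conj g).toMonoidHom) := hQ2.map _
  have hc81 : 8 < Nat.card ↥(Q.map (MulAut.conj g).toMonoidHom) := by
    rw [Subgroup.card_map_of_injective (MulAut.conj g).injective]
    exact hc8
  obtain ⟨Q1, hQ1def⟩ : ∃ Q1 : Subgroup G, Q1 = Q.map (MulAut.conj g).toMonoidHom := ⟨_, rfl⟩
  obtain ⟨b, hbdef⟩ : ∃ b : G, b = g * z * g⁻¹ := ⟨_, rfl⟩
  rw [← hQ1def, ← hbdef] at hpair
  rw [← hbdef] at hgQ hgZ hbz hgR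
  rw [← hQ1def] at hQ12 hc81
  rw [← hQ1def, ← hbdef]
  obtain ⟨hlarge, hlarge1⟩ := Cfsg.Agent.Helper90.Pair.large hpair hQ2 hQ12 hc8 hc81
  have hLES1 : Cfsg.Agent.Helper90.LES Q1 b := hpair.hQ1
  have hzQ1 : z ∈ Q1 := hpair.aQ1
  have hzinv : z⁻¹ = z := hLES.inv_eq
  have hbinv : b⁻¹ = b := hLES1.inv_eq
  have hAz : ∀ a ∈ A, a * z = z * a := by
    intro a ha
    exact (Subgroup.mem_centralizer_iff.mp (hA ha) z rfl).symm
  have hbCA : b ∈ Subgroup.centralizer (A : Set G) := hRCA hgR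
  have hAb : ∀ a ∈ A, a * b = b * a := fun a ha => Subgroup.mem_centralizer_iff.mp hbCA a ha
  have hzCA : z ∈ Subgroup.centralizer (A : Set G) := by
    rw [Subgroup.mem_centralizer_iff]
    intro a ha
    exact hAz a ha
  have hzR : z ∈ R := (hmemR z).mpr ⟨hLES.mem, hzCA⟩
  have hAN : A ≤ Subgroup.normalizer (Q : Set G) :=
    Cfsg.Agent.Helper90.le_normalizer_of_conj A Q
      (fun n hn v hv => hLES.norm n (hAz n hn) v hv)
  have hAN1 : A ≤ Subgroup.normalizer (Q1 : Set G) :=
    Cfsg.Agent.Helper90.le_normalizer_of_conj A Q1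
      (fun n hn v hv => hLES1.norm n (hAb n hn) v hv)
  have hQA : ∀ x ∈ Q, x ∈ A → x = 1 := fun x hxQ hxA =>
    Cfsg.Agent.Helper90.eq_one_of_mem_odd_of_mem_two hAodd hQ2 hxA hxQ
  have hzA : z ∉ A := fun h => hLES.ne_one (hQA z hLES.mem h)
  have hbA : b ∉ A := fun h => hLES1.ne_one (hQA b hgQ h)
  -- the subgroup `M`
  have hCAM : Subgroup.centralizer (A : Set G) ≤ M := by rw [hM]; exact le_sup_left
  have hAM : A ≤ M := by rw [hM]; exact le_sup_right
  have hRM : R ≤ M := hRCA.trans hCAM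
  have hdec : ∀ c ∈ M, ∃ d ∈ Subgroup.centralizer (A : Set G), ∃ a ∈ A, c = d * a := by
    intro c hc
    rw [hM] at hc
    exact Cfsg.Agent.Helper90.exists_mul_of_mem_centralizer_sup A hc
  -- the centralizer of `A ⊔ R`
  have hmemD : ∀ d : G, d ∈ Subgroup.centralizer ((A ⊔ R : Subgroup G) : Set G) ↔
      (∀ a ∈ A, a * d = d * a) ∧ (∀ r ∈ R, r * d = d * r) := by
    intro d
    rw [Subgroup.mem_centralizer_iff]
    constructor
    · intro h
      exact ⟨fun a ha => h a (Subgroup.mem_sup_left ha),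
        fun r hr => h r (Subgroup.mem_sup_right hr)⟩
    · rintro ⟨h1, h2⟩ x hx
      have hle : A ⊔ R ≤ Subgroup.centralizer ({d} : Set G) := by
        apply sup_le
        · intro a ha
          rw [Subgroup.mem_centralizer_iff]
          intro y hy
          rw [Set.mem_singleton_iff.mp hy]
          exact (h1 a ha).symm
        · intro r hr
          rw [Subgroup.mem_centralizer_iff]
          intro y hy
          rw [Set.mem_singleton_iff.mp hy]
          exact (h2 r hr).symm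
      exact (Subgroup.mem_centralizer_iff.mp (hle hx) d rfl).symm
  have hzD : z ∈ Subgroup.centralizer ((A ⊔ R : Subgroup G) : Set G) :=
    (hmemD z).mpr ⟨hAz, fun r hr => hLES.central r (hRQ hr)⟩
  have hD0 : ∀ d ∈ Subgroup.centralizer ((A ⊔ R : Subgroup G) : Set G),
      d ∈ A ∨ z⁻¹ * d ∈ A := by
    obtain ⟨K, hKn, hKodd, hK⟩ := Cfsg.Agent.Helper90.exists_odd_normal_of_central_involution
      ↥(Subgroup.centralizer ((A ⊔ R : Subgroup G) : Set G)) ⟨z, hzD⟩
      (fun h => hLES.ne_one (congrArg Subtype.val h))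
      (Subtype.ext hLES.sq)
      (fun d => Subtype.ext (((hmemD d.1).mp d.2).2 z hzR).symm)
      h4
    have hKle : K ≤ Cfsg.oddCore ↥(Subgroup.centralizer ((A ⊔ R : Subgroup G) : Set G)) :=
      le_sSup ⟨hKn, Nat.coprime_two_right.mpr hKodd⟩
    intro d hd
    rcases hK ⟨d, hd⟩ with h | h
    · left
      exact hO (Subgroup.mem_map_of_mem _ (hKle h))
    · right
      exact hO (Subgroup.mem_map_of_mem _ (hKle h))
  -- part (c)
  obtain ⟨q, hq, hqb⟩ := Cfsg.Agent.Helper90.exists_noncomm_cent Q hlarge z hLES A hAN hAodd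
    hgQ hbCA hLES1.ne_one hbz
  have hqR : q ∈ R := by rw [hR]; exact hq
  have hpartc : ∃ x ∈ R ⊔ (Q1 ⊓ Subgroup.centralizer (A : Set G)), x * b * x⁻¹ = z := by
    obtain ⟨y, hy, hyz⟩ := Cfsg.Agent.Helper90.exists_noncomm_cent Q1 hlarge1 b hLES1 A hAN1
      hAodd hzQ1 hzCA hLES.ne_one (fun h => hbz h.symm)
    have hyQ1 : y ∈ Q1 := (Subgroup.mem_inf.mp hy).1
    have h1 : q * b * q⁻¹ * b⁻¹ = z := hLES.comm_of_ne (hRQ hqR) hgQ hqb
    have h2 : y * z * y⁻¹ * z⁻¹ = b := hLES1.comm_of_ne hyQ1 hzQ1 hyz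
    refine ⟨y * q, Subgroup.mul_mem _ (Subgroup.mem_sup_right hy)
      (Subgroup.mem_sup_left hqR), ?_⟩
    have hyb : y * b = b * y := hLES1.central y hyQ1
    have hzbc : z * b = b * z := (hLES.central b hgQ).symm
    calc y * q * b * (y * q)⁻¹ = y * ((q * b * q⁻¹ * b⁻¹) * b) * y⁻¹ := by group
      _ = y * (z * b) * y⁻¹ := by rw [h1]
      _ = (y * z * y⁻¹ * z⁻¹) * z * (y * b) * y⁻¹ := by group
      _ = b * z * (b * y) * y⁻¹ := by rw [h2, hyb]
      _ = b * (z * b) := by group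
      _ = b * (b * z) := by rw [hzbc]
      _ = (b * b) * z := by group
      _ = z := by rw [hLES1.sq, one_mul]
  -- elements of `C(A)` commuting with `z` normalize `R`
  have hnormR : ∀ d ∈ Subgroup.centralizer (A : Set G), d * z = z * d →
      ∀ p ∈ R, d * p * d⁻¹ ∈ R := by
    intro d hd hdz p hp
    exact (hmemR _).mpr ⟨hLES.norm d hdz p (hRQ hp),
      Subgroup.mul_mem _ (Subgroup.mul_mem _ hd (hRCA hp)) (Subgroup.inv_mem _ hd)⟩
  have hdec' : ∀ c ∈ M, c * z = z * c →
      ∃ d ∈ Subgroup.centralizer (A : Set G), ∃ a ∈ A, c = d * a ∧ d * z = z * d := by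
    intro c hc hcz
    obtain ⟨d, hd, a, ha, rfl⟩ := hdec c hc
    refine ⟨d, hd, a, ha, rfl, ?_⟩
    have haz := hAz a ha
    have h1 : d * z * a = z * d * a := by
      calc d * z * a = d * (z * a) := by group
        _ = d * (a * z) := by rw [haz]
        _ = d * a * z := by group
        _ = z * (d * a) := hcz
        _ = z * d * a := by group
    exact mul_right_cancel h1
  -- the elementwise data for the image of `R`
  have hLESq := Cfsg.Agent.Helper90.les_quot M A R z (hCAM hzCA) hzR hzA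
    (by rw [hLES.sq]; exact A.one_mem)
    (by
      intro p hp _
      rw [hLES.central p (hRQ hp), inv_mul_cancel]
      exact A.one_mem)
    (by
      intro x hx _ y hy _
      rcases hLES.comm x (hRQ hx) y (hRQ hy) with h | h
      · left; rw [h]; exact A.one_mem
      · right; rw [h, inv_mul_cancel]; exact A.one_mem)
    (by
      intro c hcM hc
      have hcz : c * z = z * c :=
        Cfsg.Agent.Helper90.commute_of_mod_odd A hAodd hLES.sq hAz (by
          have h1 := hc z hzR (hCAM hzCA)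
          have e : (z * c)⁻¹ * (c * z) = ((c * z)⁻¹ * (z * c))⁻¹ := by group
          rw [e]
          exact A.inv_mem h1)
      obtain ⟨d, hd, a, ha, hcda, hdz⟩ := hdec' c hcM hcz
      have hdR : ∀ r ∈ R, r * d = d * r := by
        intro r hr
        have h1 := hc r hr (hRM hr)
        have har : a * r = r * a := Subgroup.mem_centralizer_iff.mp (hRCA hr) a ha
        have e : (c * r)⁻¹ * (r * c) = a⁻¹ * (r⁻¹ * (d⁻¹ * r * d)) * a := by
          rw [hcda]
          calc (d * a * r)⁻¹ * (r * (d * a)) = (d * (a * r))⁻¹ * (r * (d * a)) := by group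
            _ = (d * (r * a))⁻¹ * (r * (d * a)) := by rw [har]
            _ = a⁻¹ * (r⁻¹ * (d⁻¹ * r * d)) * a := by group
        rw [e] at h1
        have h2 : r⁻¹ * (d⁻¹ * r * d) ∈ A := by
          have h0 := A.mul_mem (A.mul_mem ha h1) (A.inv_mem ha)
          have e2 : a * (a⁻¹ * (r⁻¹ * (d⁻¹ * r * d)) * a) * a⁻¹ = r⁻¹ * (d⁻¹ * r * d) := by
            group
          rwa [e2] at h0
        have h3 : r⁻¹ * (d⁻¹ * r * d) ∈ R := by
          refine R.mul_mem (R.inv_mem hr) ?_
          have hd' : d⁻¹ ∈ Subgroup.centralizer (A : Set G) := Subgroup.inv_mem _ hd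
          have hdz' : d⁻¹ * z = z * d⁻¹ := by
            calc d⁻¹ * z = d⁻¹ * (z * d) * d⁻¹ := by group
              _ = d⁻¹ * (d * z) * d⁻¹ := by rw [hdz]
              _ = z * d⁻¹ := by group
          have h0 := hnormR d⁻¹ hd' hdz' r hr
          rwa [inv_inv] at h0
        have h5 := hQA _ (hRQ h3) h2
        calc r * d = d * r * (r⁻¹ * (d⁻¹ * r * d)) := by group
          _ = d * r := by rw [h5, mul_one]
      have hdD : d ∈ Subgroup.centralizer ((A ⊔ R : Subgroup G) : Set G) :=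
        (hmemD d).mpr ⟨fun a' ha' => Subgroup.mem_centralizer_iff.mp hd a' ha', hdR⟩
      rcases hD0 d hdD with h | h
      · left; rw [hcda]; exact A.mul_mem h ha
      · right
        rw [hcda]
        have e : z⁻¹ * (d * a) = z⁻¹ * d * a := by group
        rw [e]
        exact A.mul_mem h ha)
    (by
      intro c hcM hc p hp hpM
      have hcz : c * z = z * c :=
        Cfsg.Agent.Helper90.commute_of_mod_odd A hAodd hLES.sq hAz hc
      obtain ⟨d, hd, a, ha, hcda, hdz⟩ := hdec' c hcM hcz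
      have hap : a * p = p * a := Subgroup.mem_centralizer_iff.mp (hRCA hp) a ha
      have e : c * p * c⁻¹ = d * p * d⁻¹ := by
        rw [hcda]
        calc d * a * p * (d * a)⁻¹ = d * (a * p) * a⁻¹ * d⁻¹ := by group
          _ = d * (p * a) * a⁻¹ * d⁻¹ := by rw [hap]
          _ = d * p * d⁻¹ := by group
      have hmem : c * p * c⁻¹ ∈ R := by rw [e]; exact hnormR d hd hdz p hp
      refine ⟨c * p * c⁻¹, hmem, hRM hmem, ?_⟩
      rw [inv_mul_cancel]
      exact A.one_mem)
  have hR2 : IsPGroup 2 ↥((R.subgroupOf M).map (QuotientGroup.mk' (A.subgroupOf M))) := by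
    have h1 : IsPGroup 2 ↥R := hQ2.to_le hRQ
    exact (h1.comap_subtype).map _
  have hnonab : ∃ d1 ∈ (R.subgroupOf M).map (QuotientGroup.mk' (A.subgroupOf M)),
      ∃ d2 ∈ (R.subgroupOf M).map (QuotientGroup.mk' (A.subgroupOf M)),
      d1 * d2 ≠ d2 * d1 := by
    refine ⟨QuotientGroup.mk' _ ⟨q, hRM hqR⟩,
      Subgroup.mem_map_of_mem _ (Subgroup.mem_subgroupOf.mpr hqR),
      QuotientGroup.mk' _ ⟨b, hRM hgR⟩,
      Subgroup.mem_map_of_mem _ (Subgroup.mem_subgroupOf.mpr hgR), ?_⟩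
    intro h
    rw [← map_mul, ← map_mul] at h
    have h3 := (Cfsg.Agent.Helper90.quot_eq_iff M A (M.mul_mem (hRM hqR) (hRM hgR))
      (M.mul_mem (hRM hgR) (hRM hqR))).mp h
    have h4' : (q * b)⁻¹ * (b * q) ∈ R :=
      R.mul_mem (R.inv_mem (R.mul_mem hqR hgR)) (R.mul_mem hgR hqR)
    have h5 := hQA _ (hRQ h4') h3
    apply hqb
    calc q * b = (q * b) * 1 := (mul_one _).symm
      _ = (q * b) * ((q * b)⁻¹ * (b * q)) := by rw [h5]
      _ = b * q := by group
  refine ⟨?_, Cfsg.Agent.Helper90.large_of_les _ _ hLESq hR2 hnonab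
    (QuotientGroup.mk' _ ⟨b, hRM hgR⟩)
    (Subgroup.mem_map_of_mem _ (Subgroup.mem_subgroupOf.mpr hgR)) ?_ ?_ ?_
    (((Q1 ⊓ Subgroup.centralizer (A : Set G)).subgroupOf M).map
      (QuotientGroup.mk' (A.subgroupOf M))) ?_ ?_ ?_ ?_, hpartc⟩
  · -- part (a)
    apply le_antisymm
    · apply sup_le
      · intro x hx
        have hx2 : x ∈ Subgroup.centralizer ((A ⊔ R : Subgroup G) : Set G) := by
          have h0 := (Subgroup.mem_inf.mp hx).2
          rwa [sup_comm] at h0
        rcases hD0 x hx2 with h | h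
        · exact Subgroup.mem_sup_left h
        · have e : x = z * (z⁻¹ * x) := by group
          rw [e]
          exact Subgroup.mul_mem _ (Subgroup.mem_sup_right hzZ) (Subgroup.mem_sup_left h)
      · exact le_sup_left
    · apply sup_le le_sup_right
      intro c hc
      apply Subgroup.mem_sup_left
      rcases hzall c hc with h | h
      · rw [h]; exact Subgroup.one_mem _
      · rw [h]
        refine Subgroup.mem_inf.mpr ⟨hCAM hzCA, ?_⟩
        rw [sup_comm]
        exact hzD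
  · intro h
    exact hbA ((Cfsg.Agent.Helper90.quot_eq_one_iff M A (hRM hgR)).mp h)
  · intro h
    have h3 := (Cfsg.Agent.Helper90.quot_eq_iff M A (hRM hgR) (hCAM hzCA)).mp h
    have h4' : b⁻¹ * z ∈ R := R.mul_mem (R.inv_mem hgR) hzR
    have h5 := hQA _ (hRQ h4') h3
    exact hbz (inv_mul_eq_one.mp h5)
  · rw [← map_mul]
    exact (Cfsg.Agent.Helper90.quot_eq_one_iff M A (M.mul_mem (hRM hgR) (hRM hgR))).mpr
      (by rw [hLES1.sq]; exact A.one_mem)
  · exact (((hQ12.to_le inf_le_left).comap_subtype).map _)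
  · exact Subgroup.mem_map_of_mem _ (Subgroup.mem_subgroupOf.mpr ⟨hzQ1, hzCA⟩)
  · rintro x ⟨y, hy, rfl⟩
    rw [← map_mul, ← map_mul]
    congr 1
    apply Subtype.ext
    exact hLES1.central y.1 (Subgroup.mem_subgroupOf.mp hy).1
  · intro c hc x hx
    obtain ⟨c₀, hc₀, rfl⟩ := Cfsg.Agent.Helper90.quot_exists M A c
    obtain ⟨y, hy, rfl⟩ := hx
    rw [← map_mul, ← map_mul] at hc
    have h3 := (Cfsg.Agent.Helper90.quot_eq_iff M A (M.mul_mem (hRM hgR) hc₀)
      (M.mul_mem hc₀ (hRM hgR))).mp hc.symm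
    have hcb := Cfsg.Agent.Helper90.commute_of_mod_odd A hAodd hLES1.sq hAb h3
    rw [← map_inv, ← map_mul, ← map_mul]
    refine Subgroup.mem_map_of_mem _ ?_
    rw [Subgroup.mem_subgroupOf]
    have hy' := Subgroup.mem_subgroupOf.mp hy
    refine ⟨hLES1.norm c₀ hcb y.1 hy'.1, ?_⟩
    obtain ⟨d, hd, a, ha, hcda⟩ := hdec c₀ hc₀
    have hay : a * y.1 = y.1 * a := Subgroup.mem_centralizer_iff.mp hy'.2 a ha
    have e : c₀ * y.1 * c₀⁻¹ = d * y.1 * d⁻¹ := by
      rw [hcda]
      calc d * a * y.1 * (d * a)⁻¹ = d * (a * y.1) * a⁻¹ * d⁻¹ := by group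
        _ = d * (y.1 * a) * a⁻¹ * d⁻¹ := by rw [hay]
        _ = d * y.1 * d⁻¹ := by group
    show c₀ * y.1 * c₀⁻¹ ∈ Subgroup.centralizer (A : Set G)
    rw [e]
    exact Subgroup.mul_mem _ (Subgroup.mul_mem _ hd hy'.2) (Subgroup.inv_mem _ hd)

end Cfsg.Agent.S5428
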