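import Cfsg.Statements.S5429
import Cfsg.Agent.Helper90.FStarES
import Cfsg.Agent.Helper90.LESQuot

set_option autoImplicit false
open Cfsg

namespace Cfsg.Agent.S5429

/-- Let z be an involution of the finite group G with centralizer C whose generalized Fitting subgroup Q is extraspecial of width at least 3 (order 2^(2w+1), w ≥ 3); let g be an element of G with g z g⁻¹ in Q but outside the centre Z of Q, and t an involution lying in both Q and g Q g⁻¹ that is not conjugate to z; write P for the centralizer of t in Q and suppose that the elements of C acting trivially by conjugation on P modulo the subgroup generated by t and z are exactly the elements of Q. Then the image of P in the centralizer of t modulo the subgroup generated by t is a large extraspecial 2-subgroup there, and g z g⁻¹ is conjugate to z inside the subgroup generated by P and the centralizer of t in g Q g⁻¹. -/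
theorem result {G : Type*} [Group G] [Finite G] (z : G) (hz : orderOf z = 2) (Q : Subgroup G) (hQC : Q ≤ Subgroup.centralizer ({z} : Set G)) (hF : (Cfsg.generalizedFittingSubgroup ↥(Subgroup.centralizer ({z} : Set G))).map (Subgroup.centralizer ({z} : Set G)).subtype = Q) (hQ : Cfsg.IsExtraspecial 2 ↥Q) (w : ℕ) (hw : 3 ≤ w) (hcard : Nat.card ↥Q = 2 ^ (2 * w + 1)) (g : G) (hgQ : g * z * g⁻¹ ∈ Q) (hgZ : g * z * g⁻¹ ∉ ((Subgroup.center ↥Q).map Q.subtype)) (t : G) (ht : orderOf t = 2) (htQ : t ∈ Q ⊓ (Q).map (MulAut.conj g).toMonoidHom) (htz : ¬ IsConj z t) (P : Subgroup G) (hP : P = Q ⊓ Subgroup.centralizer ({t} : Set G)) (hCP : ∀ c ∈ Subgroup.centralizer ({z} : Set G), (∀ x ∈ P, ∃ y ∈ Subgroup.closure ({t, z} : Set G), c * x * c⁻¹ = x * y) ↔ c ∈ Q) [hn : ((Subgroup.zpowers t).subgroupOf (Subgroup.centralizer ({t} : Set G))).Normal] : Cfsg.IsLargeExtraspecial ((P.subgroupOf (Subgroup.centralizer ({t} : Set G))).map (QuotientGroup.mk' ((Subgroup.zpowers t).subgroupOf (Subgroup.centralizer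 ({t} : Set G))))) ∧ ∃ x ∈ P ⊔ ((Q).map (MulAut.conj g).toMonoidHom ⊓ Subgroup.centralizer ({t} : Set G)), x * (g * z * g⁻¹) * x⁻¹ = z := by
  classical
  have hp : Fact (Nat.Prime 2) := ⟨Nat.prime_two⟩
  obtain ⟨hL2, hL3, hLES, hzZ, hzall, _⟩ := Cfsg.Agent.Helper90.fstar_setting z hz Q hF hQ
  have hQ2 : IsPGroup 2 ↥Q := hQ.1.1
  have hbz : g * z * g⁻¹ ≠ z := fun h => hgZ (by rw [h]; exact hzZ)
  have hc8 : 8 < Nat.card ↥Q := by
    rw [hcard]
    calc 8 < 2 ^ 5 := by norm_num
      _ ≤ 2 ^ (2 * w + 1) := Nat.pow_le_pow_right (by norm_num) (by omega)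
  have hpair := Cfsg.Agent.Helper90.pair_of_les hLES hc8 g hgQ hbz
  have hzb : IsConj z (g * z * g⁻¹) := isConj_iff.mpr ⟨g, rfl⟩
  have hQ12 : IsPGroup 2 ↥(Q.map (MulAut.conj g).toMonoidHom) := hQ2.map _
  obtain ⟨Q1, hQ1def⟩ : ∃ Q1 : Subgroup G, Q1 = Q.map (MulAut.conj g).toMonoidHom := ⟨_, rfl⟩
  obtain ⟨b, hbdef⟩ : ∃ b : G, b = g * z * g⁻¹ := ⟨_, rfl⟩
  rw [← hQ1def, ← hbdef] at hpair
  rw [← hbdef] at hgQ hgZ hbz hzb
  rw [← hQ1def] at htQ hQ12
  rw [← hQ1def, ← hbdef]
  have hLES1 : Cfsg.Agent.Helper90.LES Q1 b := hpair.hQ1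
  have hzQ1 : z ∈ Q1 := hpair.aQ1
  have htQ0 : t ∈ Q := htQ.1
  have htQ1 : t ∈ Q1 := htQ.2
  have htt : t * t = 1 := by rw [← pow_two, ← ht]; exact pow_orderOf_eq_one t
  have ht1 : t ≠ 1 := by
    intro h
    rw [h, orderOf_one] at ht
    norm_num at ht
  have htinv : t⁻¹ = t := inv_eq_of_mul_eq_one_left htt
  have hzinv : z⁻¹ = z := hLES.inv_eq
  have hbinv : b⁻¹ = b := hLES1.inv_eq
  have htz' : t ≠ z := fun h => htz (by rw [h])
  have htb : t ≠ b := fun h => htz (by rw [h]; exact hzb)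
  obtain ⟨q1, hq1, hq1t⟩ := hLES.exists_conj htQ0 ht1 htz'
  obtain ⟨q2, hq2, hq2t⟩ := hLES1.exists_conj htQ1 ht1 htb
  have hnc1 : ¬ IsConj z (z * t) := fun h => htz (h.trans (isConj_iff.mpr ⟨q1, hq1t⟩).symm)
  have hnc2 : ¬ IsConj z (b * t) := fun h => htz (h.trans (isConj_iff.mpr ⟨q2, hq2t⟩).symm)
  have hmemT : ∀ x : G, x ∈ Subgroup.centralizer ({t} : Set G) ↔ x * t = t * x := by
    intro x
    rw [Subgroup.mem_centralizer_iff]
    constructor
    · intro h; exact (h t rfl).symm
    · intro h y hy; rw [Set.mem_singleton_iff.mp hy]; exact h.symm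
  have hzt : z * t = t * z := (hLES.central t htQ0).symm
  have hbt : b * t = t * b := (hLES1.central t htQ1).symm
  have hzT : z ∈ Subgroup.centralizer ({t} : Set G) := (hmemT z).mpr hzt
  have hbT : b ∈ Subgroup.centralizer ({t} : Set G) := (hmemT b).mpr hbt
  have hmemP : ∀ x : G, x ∈ P ↔ x ∈ Q ∧ x * t = t * x := by
    intro x
    rw [hP, Subgroup.mem_inf, hmemT]
  have hPT : ∀ x ∈ P, x ∈ Subgroup.centralizer ({t} : Set G) :=
    fun x hx => (hmemT x).mpr ((hmemP x).mp hx).2
  have hzP : z ∈ P := (hmemP z).mpr ⟨hLES.mem, hzt⟩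
  have hbP : b ∈ P := (hmemP b).mpr ⟨hgQ, hbt⟩
  have hA : ∀ x : G, x ∈ Subgroup.zpowers t ↔ x = 1 ∨ x = t := by
    intro x
    constructor
    · intro hx
      obtain ⟨k, rfl⟩ := Subgroup.mem_zpowers_iff.mp hx
      rw [← zpow_mod_orderOf, ht]
      rcases Int.emod_two_eq_zero_or_one k with h | h
      · left
        have h' : k % ((2 : ℕ) : ℤ) = 0 := h
        rw [h', zpow_zero]
      · right
        have h' : k % ((2 : ℕ) : ℤ) = 1 := h
        rw [h', zpow_one]
    · rintro (rfl | rfl)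
      · exact Subgroup.one_mem _
      · exact Subgroup.mem_zpowers _
  -- commuting modulo `t` with `z` (resp. `b`) forces commuting
  have hkey_z : ∀ c : G, (z * c)⁻¹ * (c * z) ∈ Subgroup.zpowers t → c * z = z * c := by
    intro c hc
    rcases (hA _).mp hc with h | h
    · calc c * z = (z * c) * ((z * c)⁻¹ * (c * z)) := by group
        _ = z * c := by rw [h, mul_one]
    · exfalso
      apply hnc1
      have e4 : c⁻¹ * z⁻¹ * c = ((z * c)⁻¹ * (c * z)) * z⁻¹ := by group
      rw [h, hzinv] at e4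
      exact isConj_iff.mpr ⟨c⁻¹, by rw [inv_inv, e4, hzt]⟩
  have hkey_b : ∀ c : G, (b * c)⁻¹ * (c * b) ∈ Subgroup.zpowers t → c * b = b * c := by
    intro c hc
    rcases (hA _).mp hc with h | h
    · calc c * b = (b * c) * ((b * c)⁻¹ * (c * b)) := by group
        _ = b * c := by rw [h, mul_one]
    · exfalso
      apply hnc2
      have e4 : c⁻¹ * b⁻¹ * c = ((b * c)⁻¹ * (c * b)) * b⁻¹ := by group
      rw [h, hbinv] at e4
      exact hzb.trans (isConj_iff.mpr ⟨c⁻¹, by rw [inv_inv, e4, hbt]⟩)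
  -- the elementwise data for the image of `P`
  have hLESq := Cfsg.Agent.Helper90.les_quot (Subgroup.centralizer ({t} : Set G))
    (Subgroup.zpowers t) P z hzT hzP
    (by
      intro h
      rcases (hA z).mp h with h | h
      · exact hLES.ne_one h
      · exact htz' h.symm)
    (by rw [hLES.sq]; exact Subgroup.one_mem _)
    (by
      intro p hp _
      rw [hLES.central p ((hmemP p).mp hp).1, inv_mul_cancel]
      exact Subgroup.one_mem _)
    (by
      intro x hx _ y hy _
      rcases hLES.comm x ((hmemP x).mp hx).1 y ((hmemP y).mp hy).1 with h | h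
      · left; rw [h]; exact Subgroup.one_mem _
      · right; rw [h, inv_mul_cancel]; exact Subgroup.one_mem _)
    (by
      intro c hcT hc
      have hcz : c * z = z * c := hkey_z c (by
        have h1 := hc z hzP hzT
        have e : (z * c)⁻¹ * (c * z) = ((c * z)⁻¹ * (z * c))⁻¹ := by group
        rw [e]
        exact inv_mem h1)
      have hcC : c ∈ Subgroup.centralizer ({z} : Set G) := by
        rw [Subgroup.mem_centralizer_iff]
        intro y hy
        rw [Set.mem_singleton_iff.mp hy]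
        exact hcz.symm
      have hct : c * t = t * c := (hmemT c).mp hcT
      have hcQ : c ∈ Q := by
        apply (hCP c hcC).mp
        intro x hx
        have h1 := hc x hx (hPT x hx)
        rcases (hA _).mp h1 with h | h
        · refine ⟨1, Subgroup.one_mem _, ?_⟩
          have h2 : x * c = c * x := by
            calc x * c = (c * x) * ((c * x)⁻¹ * (x * c)) := by group
              _ = c * x := by rw [h, mul_one]
          rw [mul_one, ← h2]; group
        · refine ⟨t, Subgroup.subset_closure (Set.mem_insert _ _), ?_⟩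
          have e1 : x * c = c * x * t := by
            calc x * c = (c * x) * ((c * x)⁻¹ * (x * c)) := by group
              _ = c * x * t := by rw [h]
          have e2 : c * x = x * c * t := by
            calc c * x = (c * x * t) * t⁻¹ := by group
              _ = x * c * t := by rw [← e1, htinv]
          calc c * x * c⁻¹ = x * c * t * c⁻¹ := by rw [e2]
            _ = x * (c * t) * c⁻¹ := by group
            _ = x * (t * c) * c⁻¹ := by rw [hct]
            _ = x * t := by group
      have hcc : ∀ q ∈ Q, q * t = t * q → q * c = c * q := by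
        intro q hq hqt
        have hqP : q ∈ P := (hmemP q).mpr ⟨hq, hqt⟩
        have h1 := hc q hqP (hPT q hqP)
        by_contra hne
        have h2 := hLES.comm_of_ne hq hcQ hne
        have e1 : q * c = z * (c * q) := by
          calc q * c = (q * c * q⁻¹ * c⁻¹) * (c * q) := by group
            _ = z * (c * q) := by rw [h2]
        have e2 : (c * q)⁻¹ * (q * c) = z := by
          rw [e1]
          have h3 : (c * q) * z = z * (c * q) := hLES.central _ (Q.mul_mem hcQ hq)
          calc (c * q)⁻¹ * (z * (c * q)) = (c * q)⁻¹ * ((c * q) * z) := by rw [h3]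
            _ = z := by group
        rw [e2] at h1
        rcases (hA z).mp h1 with h | h
        · exact hLES.ne_one h
        · exact htz' h.symm
      rcases hLES.double_centralizer htQ0 htt hcQ hcc with h | h | h | h
      · left; rw [h]; exact Subgroup.one_mem _
      · right; rw [h, inv_mul_cancel]; exact Subgroup.one_mem _
      · left; rw [h]; exact Subgroup.mem_zpowers t
      · right
        rw [h]
        have e : z⁻¹ * (z * t) = t := by group
        rw [e]
        exact Subgroup.mem_zpowers t)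
    (by
      intro c hcT hc p hp hpT
      have hcz := hkey_z c hc
      have hmT : c * p * c⁻¹ ∈ Subgroup.centralizer ({t} : Set G) :=
        Subgroup.mul_mem _ (Subgroup.mul_mem _ hcT hpT) (Subgroup.inv_mem _ hcT)
      refine ⟨c * p * c⁻¹, (hmemP _).mpr ⟨hLES.norm c hcz p ((hmemP p).mp hp).1,
        (hmemT _).mp hmT⟩, hmT, ?_⟩
      rw [inv_mul_cancel]
      exact Subgroup.one_mem _)
  have hP2 : IsPGroup 2 ↥((P.subgroupOf (Subgroup.centralizer ({t} : Set G))).map
      (QuotientGroup.mk' ((Subgroup.zpowers t).subgroupOf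
        (Subgroup.centralizer ({t} : Set G))))) := by
    have h1 : IsPGroup 2 ↥P := hQ2.to_le (fun x hx => ((hmemP x).mp hx).1)
    exact (h1.comap_subtype).map _
  obtain ⟨p₁, hp₁, p₂, hp₂, h1, h2, hne⟩ := hLES.exists_noncomm hc8 htQ0 htt ht1 htz'
  have hp₁P : p₁ ∈ P := (hmemP p₁).mpr ⟨hp₁, h1⟩
  have hp₂P : p₂ ∈ P := (hmemP p₂).mpr ⟨hp₂, h2⟩
  have hnonab : ∃ d1 ∈ (P.subgroupOf (Subgroup.centralizer ({t} : Set G))).map
      (QuotientGroup.mk' ((Subgroup.zpowers t).subgroupOf
        (Subgroup.centralizer ({t} : Set G)))),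
      ∃ d2 ∈ (P.subgroupOf (Subgroup.centralizer ({t} : Set G))).map
      (QuotientGroup.mk' ((Subgroup.zpowers t).subgroupOf
        (Subgroup.centralizer ({t} : Set G)))), d1 * d2 ≠ d2 * d1 := by
    refine ⟨QuotientGroup.mk' _ ⟨p₁, hPT p₁ hp₁P⟩,
      Subgroup.mem_map_of_mem _ (Subgroup.mem_subgroupOf.mpr hp₁P),
      QuotientGroup.mk' _ ⟨p₂, hPT p₂ hp₂P⟩,
      Subgroup.mem_map_of_mem _ (Subgroup.mem_subgroupOf.mpr hp₂P), ?_⟩
    intro h
    rw [← map_mul, ← map_mul] at h
    have h3 := (Cfsg.Agent.Helper90.quot_eq_iff (Subgroup.centralizer ({t} : Set G))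
      (Subgroup.zpowers t) (Subgroup.mul_mem _ (hPT p₁ hp₁P) (hPT p₂ hp₂P))
      (Subgroup.mul_mem _ (hPT p₂ hp₂P) (hPT p₁ hp₁P))).mp h
    have h4 := hLES.comm_of_ne hp₁ hp₂ hne
    have e1 : p₁ * p₂ = z * (p₂ * p₁) := by
      calc p₁ * p₂ = (p₁ * p₂ * p₁⁻¹ * p₂⁻¹) * (p₂ * p₁) := by group
        _ = z * (p₂ * p₁) := by rw [h4]
    have e2 : (p₁ * p₂)⁻¹ * (p₂ * p₁) = z := by
      rw [e1]
      have h5 : (p₂ * p₁) * z = z * (p₂ * p₁) := hLES.central _ (Q.mul_mem hp₂ hp₁)
      calc (z * (p₂ * p₁))⁻¹ * (p₂ * p₁) = ((p₂ * p₁) * z)⁻¹ * (p₂ * p₁) := by rw [h5]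
        _ = z⁻¹ := by group
        _ = z := hzinv
    rw [e2] at h3
    rcases (hA z).mp h3 with h | h
    · exact hLES.ne_one h
    · exact htz' h.symm
  refine ⟨Cfsg.Agent.Helper90.large_of_les _ _ hLESq hP2 hnonab
    (QuotientGroup.mk' _ ⟨b, hbT⟩)
    (Subgroup.mem_map_of_mem _ (Subgroup.mem_subgroupOf.mpr hbP)) ?_ ?_ ?_
    (((Q1 ⊓ Subgroup.centralizer ({t} : Set G)).subgroupOf
      (Subgroup.centralizer ({t} : Set G))).map
      (QuotientGroup.mk' ((Subgroup.zpowers t).subgroupOf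
        (Subgroup.centralizer ({t} : Set G))))) ?_ ?_ ?_ ?_, ?_⟩
  · intro h
    have h3 := (Cfsg.Agent.Helper90.quot_eq_one_iff (Subgroup.centralizer ({t} : Set G))
      (Subgroup.zpowers t) hbT).mp h
    rcases (hA b).mp h3 with h | h
    · exact hLES1.ne_one h
    · exact htb h.symm
  · intro h
    have h3 := (Cfsg.Agent.Helper90.quot_eq_iff (Subgroup.centralizer ({t} : Set G))
      (Subgroup.zpowers t) hbT hzT).mp h
    rcases (hA _).mp h3 with h | h
    · exact hbz (inv_mul_eq_one.mp h)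
    · apply hnc2
      have e : z = b * t := by
        calc z = b * (b⁻¹ * z) := by group
          _ = b * t := by rw [h]
      rw [← e]
  · rw [← map_mul]
    exact (Cfsg.Agent.Helper90.quot_eq_one_iff (Subgroup.centralizer ({t} : Set G))
      (Subgroup.zpowers t) (Subgroup.mul_mem _ hbT hbT)).mpr
      (by rw [hLES1.sq]; exact Subgroup.one_mem _)
  · exact (((hQ12.to_le inf_le_left).comap_subtype).map _)
  · exact Subgroup.mem_map_of_mem _ (Subgroup.mem_subgroupOf.mpr ⟨hzQ1, hzT⟩)
  · rintro x ⟨y, hy, rfl⟩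
    rw [← map_mul, ← map_mul]
    congr 1
    apply Subtype.ext
    exact hLES1.central y.1 (Subgroup.mem_subgroupOf.mp hy).1
  · intro c hc x hx
    obtain ⟨c₀, hc₀, rfl⟩ := Cfsg.Agent.Helper90.quot_exists
      (Subgroup.centralizer ({t} : Set G)) (Subgroup.zpowers t) c
    obtain ⟨y, hy, rfl⟩ := hx
    rw [← map_mul, ← map_mul] at hc
    have h3 := (Cfsg.Agent.Helper90.quot_eq_iff (Subgroup.centralizer ({t} : Set G))
      (Subgroup.zpowers t) (Subgroup.mul_mem _ hbT hc₀) (Subgroup.mul_mem _ hc₀ hbT)).mp hc.symm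
    have hcb := hkey_b c₀ h3
    rw [← map_inv, ← map_mul, ← map_mul]
    refine Subgroup.mem_map_of_mem _ ?_
    rw [Subgroup.mem_subgroupOf]
    exact ⟨hLES1.norm c₀ hcb y.1 (Subgroup.mem_subgroupOf.mp hy).1,
      Subgroup.mul_mem _ (Subgroup.mul_mem _ hc₀ y.2) (Subgroup.inv_mem _ hc₀)⟩
  · have hq : ∃ q ∈ Q, q * t = t * q ∧ q * b ≠ b * q := by
      by_contra hcon
      push Not at hcon
      rcases hLES.double_centralizer htQ0 htt hgQ hcon with h | h | h | h
      · exact hLES1.ne_one h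
      · exact hbz h
      · exact htb h.symm
      · exact hnc1 (by rw [← h]; exact hzb)
    have hy : ∃ y ∈ Q1, y * t = t * y ∧ y * z ≠ z * y := by
      by_contra hcon
      push Not at hcon
      rcases hLES1.double_centralizer htQ1 htt hzQ1 hcon with h | h | h | h
      · exact hLES.ne_one h
      · exact hbz h.symm
      · exact htz' h.symm
      · exact hnc2 (by rw [← h])
    obtain ⟨q, hq, hqt, hqb⟩ := hq
    obtain ⟨y, hy, hyt, hyz⟩ := hy
    have h1 : q * b * q⁻¹ * b⁻¹ = z := hLES.comm_of_ne hq hgQ hqb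
    have h2 : y * z * y⁻¹ * z⁻¹ = b := hLES1.comm_of_ne hy hzQ1 hyz
    refine ⟨y * q, Subgroup.mul_mem _ (Subgroup.mem_sup_right ⟨hy, (hmemT y).mpr hyt⟩)
      (Subgroup.mem_sup_left ((hmemP q).mpr ⟨hq, hqt⟩)), ?_⟩
    have hyb : y * b = b * y := hLES1.central y hy
    have hzbc : z * b = b * z := (hLES.central b hgQ).symm
    calc y * q * b * (y * q)⁻¹ = y * ((q * b * q⁻¹ * b⁻¹) * b) * y⁻¹ := by group
      _ = y * (z * b) * y⁻¹ := by rw [h1]
      _ = (y * z * y⁻¹ * z⁻¹) * z * (y * b) * y⁻¹ := by group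
      _ = b * z * (b * y) * y⁻¹ := by rw [h2, hyb]
      _ = b * (z * b) := by group
      _ = b * (b * z) := by rw [hzbc]
      _ = (b * b) * z := by group
      _ = z := by rw [hLES1.sq, one_mul]

end Cfsg.Agent.S5429
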