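import Cfsg.Statements.S5430
import Cfsg.Agent.Helper90.LESPairS3

set_option autoImplicit false
open Cfsg

namespace Cfsg.Agent.S5430

/-- Let Q be a large extraspecial 2-subgroup of the finite group G (extraspecial; centralizer equal to its centre; normal in the centralizer of its centre; normalizing no non-trivial subgroup of odd order) with centre generated by z, an involution, of width w ≥ 2 (order 2^(2w+1)); let g be an element outside the centralizer H of z with g z g⁻¹ in Q; write V for the subgroup generated by z and g z g⁻¹, X for the subgroup generated by Q and g Q g⁻¹, R for the subgroup generated by the centralizer of z in g Q g⁻¹ and the centralizer of g z g⁻¹ in Q, and E for the intersection of Q and g Q g⁻¹. Then R is the centralizer of V in X and is the largest normal 2-subgroup of X, and X/R is isomorphic to the symmetric group of degree 3; moreover the normalizer of V is the product of X and the centralizer of V in H, X is normal in it, and modulo R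 it is the direct product of X/R and of the centralizer of V in H modulo R. -/
theorem result {G : Type*} [Group G] [Finite G] (Q : Subgroup G) (hQ : Cfsg.IsLargeExtraspecial Q) (z : G) (hz : ((Subgroup.center ↥Q).map Q.subtype) = Subgroup.zpowers z) (hz2 : orderOf z = 2) (w : ℕ) (hw : 2 ≤ w) (hcard : Nat.card ↥Q = 2 ^ (2 * w + 1)) (g : G) (hgH : g ∉ Subgroup.centralizer ({z} : Set G)) (hgQ : g * z * g⁻¹ ∈ Q) (V X R E : Subgroup G) (hV : V = Subgroup.closure ({z, g * z * g⁻¹} : Set G)) (hX : X = Q ⊔ (Q).map (MulAut.conj g).toMonoidHom) (hR : R = ((Q).map (MulAut.conj g).toMonoidHom ⊓ Subgroup.centralizer ({z} : Set G)) ⊔ (Q ⊓ Subgroup.centralizer ({g * z * g⁻¹} : Set G))) (hE : E = Q ⊓ (Q).map (MulAut.conj g).toMonoidHom) : R = X ⊓ Subgroup.centralizer (V : Set G) ∧ R = (Cfsg.pCore 2 ↥X).map X.subtype ∧ (∃ h : (R.subgroupOf X).Normal, Nonempty (↥X ⧸ R.subgroupOf X ≃* Equiv.Perm (Fin 3))) ∧ Subgroup.normalizer (V : Set G) = X ⊔ (Subgroup.centralizer ({z} : Set G) ⊓ Subgroup.centralizer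 (V : Set G)) ∧ (∀ y ∈ Subgroup.normalizer (V : Set G), ∀ x ∈ X, y * x * y⁻¹ ∈ X) ∧ R ≤ Subgroup.centralizer ({z} : Set G) ⊓ Subgroup.centralizer (V : Set G) ∧ (∀ x ∈ X, ∀ c ∈ Subgroup.centralizer ({z} : Set G) ⊓ Subgroup.centralizer (V : Set G), x * c * x⁻¹ * c⁻¹ ∈ R) ∧ X ⊓ (Subgroup.centralizer ({z} : Set G) ⊓ Subgroup.centralizer (V : Set G)) = R := by
  open Cfsg.Agent.Helper90 in
  obtain ⟨hL1, hL2, hL3, -⟩ := hQ
  obtain ⟨z', hLES, hz'Z, hzall⟩ := exists_LES Q hL1 hL2 hL3
  have hz1 : z ≠ 1 := by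
    intro hh
    rw [hh, orderOf_one] at hz2
    exact absurd hz2 (by norm_num)
  have hzz' : z = z' := by
    have hzmem : z ∈ (Subgroup.center ↥Q).map Q.subtype := by
      rw [hz]; exact Subgroup.mem_zpowers z
    rcases hzall z hzmem with h1 | h1
    · exact absurd h1 hz1
    · exact h1
  subst hzz'
  have hbz : g * z * g⁻¹ ≠ z := by
    intro hh
    apply hgH
    rw [Subgroup.mem_centralizer_iff]
    intro y hy
    rw [Set.mem_singleton_iff] at hy
    rw [hy]
    exact (comm_of_conj_eq hh).symm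
  have hQ1 := hLES.conj g
  have hlink : ∀ n : G, n * z * n⁻¹ = g * z * g⁻¹ → ∀ q ∈ Q,
      n * q * n⁻¹ ∈ Q.map (MulAut.conj g).toMonoidHom := by
    intro n hn q hq
    rw [mem_map_conj_iff]
    have h1 : (g⁻¹ * n) * z = z * (g⁻¹ * n) := by
      have e : (g⁻¹ * n) * z = g⁻¹ * (n * z * n⁻¹) * n := by group
      rw [e, hn]; group
    have h2 := hLES.norm _ h1 q hq
    have e2 : g⁻¹ * n * q * (g⁻¹ * n)⁻¹ = g⁻¹ * (n * q * n⁻¹) * g := by group
    rwa [e2] at h2
  have hc8 : 8 < Nat.card ↥Q := by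
    rw [hcard]
    calc 8 < 2 ^ 5 := by norm_num
      _ ≤ 2 ^ (2 * w + 1) := Nat.pow_le_pow_right (by norm_num) (by omega)
  have hnonab := hLES.exists_noncomm hc8 hgQ hQ1.sq hQ1.ne_one hbz
  have hzQ1 : z ∈ Q.map (MulAut.conj g).toMonoidHom :=
    hLES.center_mem_conj hQ1 hgQ hbz hlink hnonab
  have hP := pair_of_conj hLES g hgQ hbz hzQ1
  have hQ2 : IsPGroup 2 ↥Q := hL1.1.1
  have hQ12 : IsPGroup 2 ↥(Q.map (MulAut.conj g).toMonoidHom) := hQ2.map _
  have hVeq : V = hP.V := by rw [hV]; exact hP.closure_eq_V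
  have hReq : R = pairR Q (Q.map (MulAut.conj g).toMonoidHom) z (g * z * g⁻¹) := hR
  subst hX
  rw [hVeq, hReq]
  have hRle : pairR Q (Q.map (MulAut.conj g).toMonoidHom) z (g * z * g⁻¹) ≤
      Subgroup.centralizer ({z} : Set G) ⊓ Subgroup.centralizer (hP.V : Set G) :=
    le_inf hP.R_le_cen_a hP.R_le_cenV
  refine ⟨hP.R_eq_inf, hP.pCore_eq hQ2 hQ12, hP.exists_quot_equiv, hP.normalizer_eq, ?_, hRle, ?_, ?_⟩
  · intro y hy x hx
    exact hP.normalizer_conj_X hy hx
  · intro x hx c hc
    have hC := Subgroup.mem_centralizer_iff.mp hc.2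
    exact hP.comm_X_cenV hx (hC z hP.a_mem_V).symm (hC _ hP.b_mem_V).symm
  · apply le_antisymm
    · rw [hP.R_eq_inf]
      exact inf_le_inf_left _ inf_le_right
    · exact le_inf hP.R_le_X hRle

end Cfsg.Agent.S5430
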