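import Cfsg.Statements.S5432
import Cfsg.Agent.Helper48.ES2OutC

set_option autoImplicit false
open Cfsg

namespace Cfsg.Agent.S5432

/-- Let E be an extraspecial 2-group of order 2^(2n+1), n ≥ 1. If E contains an elementary abelian subgroup of order 2^(n+1) (plus type), then its outer automorphism group is isomorphic to the full isometry group of the hyperbolic quadratic form in dimension 2n over the field with two elements; otherwise (minus type) it is isomorphic to the full isometry group of the elliptic quadratic form in dimension 2n over that field. -/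
theorem result {E : Type*} [Group E] [Finite E] (hE : Cfsg.IsExtraspecial 2 E) (n : ℕ) (hn : 1 ≤ n) (hcard : Nat.card E = 2 ^ (2 * n + 1)) : ((∃ A : Subgroup E, Cfsg.IsElementaryAbelian 2 A ∧ Nat.card ↥A = 2 ^ (n + 1)) → Nonempty (Cfsg.Out E ≃* Cfsg.isometryGroup (ZMod 2) (Cfsg.quadFormPlus n (ZMod 2)))) ∧ ((¬ ∃ A : Subgroup E, Cfsg.IsElementaryAbelian 2 A ∧ Nat.card ↥A = 2 ^ (n + 1)) → Nonempty (Cfsg.Out E ≃* Cfsg.isometryGroup (ZMod 2) (Cfsg.quadFormMinus (n - 1) (ZMod 2) 1 1))) := by
  have hc := Cfsg.Agent.Helper48.comm_mem_center_of_isExtraspecial hE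
  have h2 : Nat.card (Subgroup.center E) = 2 := hE.2
  have hiff : (∃ A : Subgroup E, Cfsg.IsElementaryAbelian 2 A ∧ Nat.card ↥A = 2 ^ (n + 1)) ↔
      Cfsg.Agent.Helper48.ES2Plus E n := by
    constructor
    · rintro ⟨A, hA, hAc⟩
      exact ⟨A, hA.2, hAc⟩
    · rintro ⟨A, hA, hAc⟩
      exact ⟨A, ⟨Cfsg.Agent.Helper48.isMulCommutative_of_sq_eq_one A hA, hA⟩, hAc⟩
  constructor
  · intro h
    exact Cfsg.Agent.Helper48.es2_out_of_coord hc h2 n hcard _
      (Cfsg.Agent.Helper48.es2Coord_plus hc h2 n hcard (hiff.mp h))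
  · intro h
    have hn' : n = (n - 1) + 1 := by omega
    have hP : ¬ Cfsg.Agent.Helper48.ES2Plus E ((n - 1) + 1) := by
      rw [← hn']
      exact fun hP => h (hiff.mpr hP)
    have hcard' : Nat.card E = 2 ^ (2 * ((n - 1) + 1) + 1) := by
      rw [← hn']
      exact hcard
    exact Cfsg.Agent.Helper48.es2_out_of_coord hc h2 n hcard _
      (Cfsg.Agent.Helper48.es2Coord_minus hc h2 (n - 1) hcard' hP)

end Cfsg.Agent.S5432
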