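import Cfsg.Statements.S5435
import Cfsg.Agent.Helper90.TransferSq
import Cfsg.Agent.Helper90.D8Recog
import Cfsg.Agent.Helper90.LES
import Cfsg.Agent.Helper2.PGroup

set_option autoImplicit false
open Cfsg

namespace Cfsg.Agent.S5435

/-- Let L be a finite non-abelian simple group with an involution z whose centralizer R is a Sylow 2-subgroup of L whose Frattini subgroup is the subgroup generated by z. Then R is dihedral of order 8. -/
theorem result {L : Type*} [Group L] [Finite L] [IsSimpleGroup L] (hL : ¬ IsMulCommutative L) (z : L) (hz : orderOf z = 2) (R : Sylow 2 L) (hR : (R : Subgroup L) = Subgroup.centralizer ({z} : Set L)) (hΦ : (frattini ↥(R : Subgroup L)).map (R : Subgroup L).subtype = Subgroup.zpowers z) : Nonempty (↥(R : Subgroup L) ≃* DihedralGroup 4) := by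
  classical
  have hz2 : z * z = 1 := by rw [← pow_two, ← hz]; exact pow_orderOf_eq_one z
  have hz1 : z ≠ 1 := by
    intro h
    rw [h, orderOf_one] at hz
    norm_num at hz
  have hzp : ∀ g : L, g ∈ Subgroup.zpowers z → g = 1 ∨ g = z := by
    intro g hg
    obtain ⟨k, rfl⟩ := Subgroup.mem_zpowers_iff.mp hg
    rw [← zpow_mod_orderOf, hz]
    rcases Int.emod_two_eq_zero_or_one k with h | h
    · left
      have h' : k % ((2 : ℕ) : ℤ) = 0 := h
      rw [h', zpow_zero]
    · right
      have h' : k % ((2 : ℕ) : ℤ) = 1 := h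
      rw [h', zpow_one]
  have hmemR : ∀ g : L, g ∈ (R : Subgroup L) ↔ g * z = z * g := by
    intro g
    rw [hR, Subgroup.mem_centralizer_iff]
    constructor
    · intro h; exact (h z rfl).symm
    · intro h x hx; rw [Set.mem_singleton_iff.mp hx]; exact h.symm
  have hzR : z ∈ (R : Subgroup L) := (hmemR z).mpr rfl
  have hP : IsPGroup 2 ↥(R : Subgroup L) := R.isPGroup'
  have hfrat : ∀ r : ↥(R : Subgroup L), r ∈ frattini ↥(R : Subgroup L) →
      (r : L) = 1 ∨ (r : L) = z := by
    intro r hr
    apply hzp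
    rw [← hΦ]
    exact Subgroup.mem_map_of_mem (R : Subgroup L).subtype hr
  have hsq : ∀ r ∈ (R : Subgroup L), r * r = 1 ∨ r * r = z := by
    intro r hr
    have h1 := Cfsg.Agent.Helper2.pow_mem_frattini_of_isPGroup hP ⟨r, hr⟩
    have h2 := hfrat _ h1
    have h3 : (((⟨r, hr⟩ : ↥(R : Subgroup L)) ^ 2 : ↥(R : Subgroup L)) : L) = r * r := by
      rw [pow_two]; rfl
    rwa [h3] at h2
  have hcm : ∀ r ∈ (R : Subgroup L), ∀ s ∈ (R : Subgroup L),
      r * s * r⁻¹ * s⁻¹ = 1 ∨ r * s * r⁻¹ * s⁻¹ = z := by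
    intro r hr s hs
    have h1 : ((⟨r, hr⟩ : ↥(R : Subgroup L)) * ⟨s, hs⟩ * (⟨r, hr⟩ : ↥(R : Subgroup L))⁻¹ *
        (⟨s, hs⟩ : ↥(R : Subgroup L))⁻¹) ∈ commutator ↥(R : Subgroup L) := by
      rw [commutator_def]
      exact Subgroup.commutator_mem_commutator (Subgroup.mem_top _) (Subgroup.mem_top _)
    exact hfrat _ (Cfsg.Agent.Helper2.commutator_le_frattini_of_isPGroup hP h1)
  have hD : Cfsg.Agent.Helper90.SqData (R : Subgroup L) z := ⟨hmemR, hz1, hz2, hsq, hcm⟩
  have htr : ∀ g : L, MonoidHom.transfer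
      (Abelianization.of : ↥(R : Subgroup L) →* Abelianization ↥(R : Subgroup L)) g = 1 := by
    intro g
    rcases (MonoidHom.transfer (Abelianization.of :
      ↥(R : Subgroup L) →* Abelianization ↥(R : Subgroup L))).normal_ker.eq_bot_or_eq_top with h | h
    · exfalso
      apply hL
      have hinj := (MonoidHom.ker_eq_bot_iff _).mp h
      exact ⟨⟨fun a b => hinj (by rw [map_mul, map_mul, mul_comm])⟩⟩
    · exact MonoidHom.mem_ker.mp (h ▸ Subgroup.mem_top g)
  have huniq : ∀ y ∈ (R : Subgroup L), ∀ y' ∈ (R : Subgroup L), y * y = z → y' * y' = z →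
      y' = y ∨ y' = y * z := by
    intro y hy y' hy' hyy hyy'
    have h1 := hD.transfer_mul_inv_eq Abelianization.of hy hyy hy' hyy'
    rw [htr, htr, one_mul, one_mul, inv_inj] at h1
    have h2 : (⟨y, hy⟩ : ↥(R : Subgroup L))⁻¹ * ⟨y', hy'⟩ ∈ commutator ↥(R : Subgroup L) := by
      rw [← Abelianization.ker_of]
      exact (MonoidHom.eq_iff _).mp h1.symm
    have h3 := hfrat _ (Cfsg.Agent.Helper2.commutator_le_frattini_of_isPGroup hP h2)
    have h4 : (((⟨y, hy⟩ : ↥(R : Subgroup L))⁻¹ * ⟨y', hy'⟩ : ↥(R : Subgroup L)) : L) =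
        y⁻¹ * y' := rfl
    rw [h4] at h3
    rcases h3 with h | h
    · left; exact (inv_mul_eq_one.mp h).symm
    · right; rw [← h]; group
  have hnc : ∃ r s : ↥(R : Subgroup L), r * s ≠ s * r := by
    by_contra hno
    push_neg at hno
    have hab : ∀ r ∈ (R : Subgroup L), ∀ s ∈ (R : Subgroup L), r * s = s * r :=
      fun r hr s hs => congrArg Subtype.val (hno ⟨r, hr⟩ ⟨s, hs⟩)
    have hNC : Subgroup.normalizer ((R : Subgroup L) : Set L) ≤
        Subgroup.centralizer ((R : Subgroup L) : Set L) := by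
      intro n hn
      have hn1 : ∀ q ∈ (R : Subgroup L), n * q * n⁻¹ ∈ (R : Subgroup L) :=
        fun q hq => (Subgroup.mem_normalizer_iff.mp hn q).mp hq
      have hn2 : ∀ q ∈ (R : Subgroup L), n⁻¹ * q * n ∈ (R : Subgroup L) := by
        intro q hq
        have h1 := (Subgroup.mem_normalizer_iff.mp (inv_mem hn) q).mp hq
        rwa [inv_inv] at h1
      have hzf : (⟨z, hzR⟩ : ↥(R : Subgroup L)) ∈ frattini ↥(R : Subgroup L) := by
        have h1 : z ∈ (frattini ↥(R : Subgroup L)).map (R : Subgroup L).subtype := by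
          rw [hΦ]; exact Subgroup.mem_zpowers z
        obtain ⟨f, hf, hfz⟩ := Subgroup.mem_map.mp h1
        have h2 : f = ⟨z, hzR⟩ := Subtype.ext hfz
        rwa [h2] at hf
      have hchar := (Subgroup.characteristic_iff_map_eq.mp
        (frattini_characteristic (G := ↥(R : Subgroup L))))
        (Cfsg.Agent.Helper90.conjAut (R : Subgroup L) n hn1 hn2)
      have h5 : Cfsg.Agent.Helper90.conjAut (R : Subgroup L) n hn1 hn2 ⟨z, hzR⟩ ∈
          frattini ↥(R : Subgroup L) := by
        have h6 := Subgroup.mem_map_of_mem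
          (Cfsg.Agent.Helper90.conjAut (R : Subgroup L) n hn1 hn2).toMonoidHom hzf
        rw [hchar] at h6
        exact h6
      have h6 := hfrat _ h5
      rw [Cfsg.Agent.Helper90.conjAut_apply] at h6
      have hnz : n * z = z * n := by
        rcases h6 with h | h
        · exfalso
          apply hz1
          have h7 : z = n⁻¹ * (n * z * n⁻¹) * n := by group
          rw [h7, h]; group
        · calc n * z = n * z * n⁻¹ * n := by group
            _ = z * n := by rw [h]
      have hnR : n ∈ (R : Subgroup L) := (hmemR n).mpr hnz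
      rw [Subgroup.mem_centralizer_iff]
      intro r hr
      exact hab r hr n hnR
    have hcomp := MonoidHom.ker_transferSylow_isComplement' R hNC
    rcases (MonoidHom.transferSylow R hNC).normal_ker.eq_bot_or_eq_top with h | h
    · rw [h, Subgroup.isComplement'_bot_left] at hcomp
      apply hL
      exact ⟨⟨fun a b => hab a (hcomp ▸ Subgroup.mem_top a) b (hcomp ▸ Subgroup.mem_top b)⟩⟩
    · rw [h, Subgroup.isComplement'_top_left] at hcomp
      apply hz1
      have h1 : z ∈ (⊥ : Subgroup L) := hcomp ▸ hzR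
      exact Subgroup.mem_bot.mp h1
  refine Cfsg.Agent.Helper90.nonempty_mulEquiv_dihedralGroup_four
    (⟨z, hzR⟩ : ↥(R : Subgroup L)) ?_ ?_ ?_ ?_ hnc
  · intro h; exact hz1 (congrArg Subtype.val h)
  · exact Subtype.ext hz2
  · intro r
    rcases hsq r r.2 with h | h
    · left; exact Subtype.ext h
    · right; exact Subtype.ext h
  · intro y y' hyy hyy'
    rcases huniq y y.2 y' y'.2 (congrArg Subtype.val hyy) (congrArg Subtype.val hyy') with h | h
    · left; exact Subtype.ext h
    · right; exact Subtype.ext h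

end Cfsg.Agent.S5435
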