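import Cfsg.Statements.S5436
import Cfsg.Agent.Helper90.FStarES

set_option autoImplicit false
open Cfsg

namespace Cfsg.Agent.S5436

/-- Let z be an involution of the finite group G with centralizer H whose generalized Fitting subgroup Q is extraspecial of width at least 2 (order 2^(2w+1), w ≥ 2); suppose some conjugate of z other than z lies in Q, H/Q is a non-abelian simple group, H acts irreducibly by conjugation on Q modulo the subgroup generated by z (the only H-invariant subgroups of Q containing z are that subgroup and Q), and Q is not the subgroup generated by the conjugates of z lying in H. Then G is simple. -/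
theorem result {G : Type*} [Group G] [Finite G] (z : G) (hz : orderOf z = 2) (Q : Subgroup (Subgroup.centralizer ({z} : Set G))) [Q.Normal] (hF : Cfsg.generalizedFittingSubgroup ↥(Subgroup.centralizer ({z} : Set G)) = Q) (hQ : Cfsg.IsExtraspecial 2 ↥Q) (w : ℕ) (hw : 2 ≤ w) (hcard : Nat.card ↥Q = 2 ^ (2 * w + 1)) (hnwc : ∃ g : G, (∃ hq : g * z * g⁻¹ ∈ Subgroup.centralizer ({z} : Set G), (⟨g * z * g⁻¹, hq⟩ : Subgroup.centralizer ({z} : Set G)) ∈ Q) ∧ g * z * g⁻¹ ≠ z) (hsimp : IsSimpleGroup (↥(Subgroup.centralizer ({z} : Set G)) ⧸ Q)) (hna : ¬ IsMulCommutative (↥(Subgroup.centralizer ({z} : Set G)) ⧸ Q)) (hirr : ∀ W : Subgroup (Subgroup.centralizer ({z} : Set G)), W.Normal → W ≤ Q → (W = Q ∨ ∀ x ∈ W, (x : G) ∈ Subgroup.zpowers z)) (hwcl : Subgroup.closure {x : Subgroup.centralizer ({z} : Set G) | IsConj z (x : G)} ≠ Q) : IsSimpleGroup G := by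
  classical
  obtain ⟨g, ⟨hq, hgQ⟩, hgz⟩ := hnwc
  have hF' : (Cfsg.generalizedFittingSubgroup ↥(Subgroup.centralizer ({z} : Set G))).map
      (Subgroup.centralizer ({z} : Set G)).subtype =
      Q.map (Subgroup.centralizer ({z} : Set G)).subtype := by rw [hF]
  let e : ↥Q ≃* ↥(Q.map (Subgroup.centralizer ({z} : Set G)).subtype) :=
    Q.equivMapOfInjective _ (Subgroup.subtype_injective _)
  have hQ' : Cfsg.IsExtraspecial 2 ↥(Q.map (Subgroup.centralizer ({z} : Set G)).subtype) :=
    Cfsg.Agent.Helper90.isExtraspecial_of_equiv e hQ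
  have hcard' : Nat.card ↥(Q.map (Subgroup.centralizer ({z} : Set G)).subtype) =
      2 ^ (2 * w + 1) := by
    rw [← hcard]; exact (Nat.card_congr e.toEquiv).symm
  have hgQ' : g * z * g⁻¹ ∈ Q.map (Subgroup.centralizer ({z} : Set G)).subtype :=
    ⟨⟨_, hq⟩, hgQ, rfl⟩
  obtain ⟨hL2, hL3, hLES, hzZ, hzall, hQC⟩ :=
    Cfsg.Agent.Helper90.fstar_setting z hz _ hF' hQ'
  have hlarge := Cfsg.Agent.Helper90.large_of_fstar z hz _ hF' hQ' w hw hcard' g hgQ' hgz
  refine Cfsg.Agent.Helper90.isSimpleGroup_of_large _ hlarge z hLES ?_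
  intro N hN hzN
  have hNC : (N.subgroupOf (Subgroup.centralizer ({z} : Set G))).Normal := hN.subgroupOf _
  have hW : ((N.subgroupOf (Subgroup.centralizer ({z} : Set G))) ⊓ Q).Normal :=
    Subgroup.normal_inf_normal _ _
  have hzp : ∀ x : G, x ∈ Subgroup.zpowers z → x = 1 ∨ x = z :=
    fun x hx => hzall x ((Subgroup.zpowers_le.mpr hzZ) hx)
  have hb1 : g * z * g⁻¹ ≠ 1 := by
    intro h
    apply hLES.ne_one
    have h1 : z = g⁻¹ * (g * z * g⁻¹) * g := by group
    rw [h1, h]; group
  have hQle : Q ≤ N.subgroupOf (Subgroup.centralizer ({z} : Set G)) := by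
    rcases hirr _ hW inf_le_right with h | h
    · rw [← h]; exact inf_le_left
    · exfalso
      have hmem : (⟨g * z * g⁻¹, hq⟩ : ↥(Subgroup.centralizer ({z} : Set G))) ∈
          N.subgroupOf (Subgroup.centralizer ({z} : Set G)) ⊓ Q :=
        ⟨Subgroup.mem_subgroupOf.mpr (hN.conj_mem z hzN g), hgQ⟩
      rcases hzp _ (h _ hmem) with h1 | h1
      · exact hb1 h1
      · exact hgz h1
  have hcase := hsimp.eq_bot_or_eq_top_of_normal
    ((N.subgroupOf (Subgroup.centralizer ({z} : Set G))).map (QuotientGroup.mk' Q))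
    (Subgroup.Normal.map hNC _ (QuotientGroup.mk'_surjective Q))
  rcases hcase with h | h
  · exfalso
    have hNQ : N.subgroupOf (Subgroup.centralizer ({z} : Set G)) ≤ Q := by
      intro x hx
      have h1 : QuotientGroup.mk' Q x ∈
          (N.subgroupOf (Subgroup.centralizer ({z} : Set G))).map (QuotientGroup.mk' Q) :=
        Subgroup.mem_map_of_mem _ hx
      rw [h, Subgroup.mem_bot] at h1
      exact (QuotientGroup.eq_one_iff x).mp h1
    apply hwcl
    have hWcl_le : Subgroup.closure
        {x : ↥(Subgroup.centralizer ({z} : Set G)) | IsConj z (x : G)} ≤ Q := by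
      rw [Subgroup.closure_le]
      intro x hx
      apply hNQ
      rw [Subgroup.mem_subgroupOf]
      obtain ⟨c, hc⟩ := isConj_iff.mp hx
      rw [← hc]
      exact hN.conj_mem z hzN c
    have hWcl_n : (Subgroup.closure
        {x : ↥(Subgroup.centralizer ({z} : Set G)) | IsConj z (x : G)}).Normal := by
      constructor
      intro n hn c
      induction hn using Subgroup.closure_induction with
      | mem x hx =>
        apply Subgroup.subset_closure
        exact IsConj.trans hx (isConj_iff.mpr ⟨(c : G), rfl⟩)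
      | one =>
        rw [mul_one, mul_inv_cancel]
        exact Subgroup.one_mem _
      | mul x y _ _ hx hy =>
        have h1 : c * (x * y) * c⁻¹ = (c * x * c⁻¹) * (c * y * c⁻¹) := by group
        rw [h1]
        exact Subgroup.mul_mem _ hx hy
      | inv x _ hx =>
        have h1 : c * x⁻¹ * c⁻¹ = (c * x * c⁻¹)⁻¹ := by group
        rw [h1]
        exact Subgroup.inv_mem _ hx
    rcases hirr _ hWcl_n hWcl_le with h1 | h1
    · exact h1
    · exfalso
      have hmem : (⟨g * z * g⁻¹, hq⟩ : ↥(Subgroup.centralizer ({z} : Set G))) ∈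
          Subgroup.closure {x : ↥(Subgroup.centralizer ({z} : Set G)) | IsConj z (x : G)} :=
        Subgroup.subset_closure (isConj_iff.mpr ⟨g, rfl⟩)
      rcases hzp _ (h1 _ hmem) with h2 | h2
      · exact hb1 h2
      · exact hgz h2
  · intro c hc
    have h1 : QuotientGroup.mk' Q (⟨c, hc⟩ : ↥(Subgroup.centralizer ({z} : Set G))) ∈
        (N.subgroupOf (Subgroup.centralizer ({z} : Set G))).map (QuotientGroup.mk' Q) := by
      rw [h]; exact Subgroup.mem_top _
    obtain ⟨y, hy, hyc⟩ := Subgroup.mem_map.mp h1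
    have h2 : y⁻¹ * ⟨c, hc⟩ ∈ Q := QuotientGroup.eq.mp hyc
    have h3 : (⟨c, hc⟩ : ↥(Subgroup.centralizer ({z} : Set G))) ∈
        N.subgroupOf (Subgroup.centralizer ({z} : Set G)) := by
      have h4 : (⟨c, hc⟩ : ↥(Subgroup.centralizer ({z} : Set G))) = y * (y⁻¹ * ⟨c, hc⟩) := by
        group
      rw [h4]
      exact Subgroup.mul_mem _ hy (hQle h2)
    exact Subgroup.mem_subgroupOf.mp h3

end Cfsg.Agent.S5436
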