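-- Statement S5437: equivalent forms of "each member of I ∩ H fixes a unique coset of H".
import Cfsg.Statements.S5437
import Cfsg.Agent.Helper90.Conj

set_option autoImplicit false
open Cfsg

namespace Cfsg.Agent.S5437

/-- Let I be a set of involutions of the finite group G closed under conjugation, and H a subgroup of G. The following are equivalent: (1) for every member x of I lying in H, the conjugates of x lying in H form a single H-class and the centralizer of x lies in H; (2) for every g outside H, no member of I lies in both H and g H g⁻¹; (3) every member of I lying in H fixes exactly one coset in the action of G on the cosets of H. -/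
theorem result {G : Type*} [Group G] [Finite G] (I : Set G) (hI : ∀ x ∈ I, orderOf x = 2) (hIc : ∀ g : G, ∀ x ∈ I, g * x * g⁻¹ ∈ I) (H : Subgroup G) : ((∀ x ∈ I, x ∈ H → (∀ g : G, g * x * g⁻¹ ∈ H → ∃ h ∈ H, h * x * h⁻¹ = g * x * g⁻¹) ∧ Subgroup.centralizer ({x} : Set G) ≤ H) ↔ (∀ g : G, g ∉ H → ∀ x ∈ I, ¬ (x ∈ H ∧ x ∈ (H : Subgroup G).map (MulAut.conj g).toMonoidHom))) ∧ ((∀ g : G, g ∉ H → ∀ x ∈ I, ¬ (x ∈ H ∧ x ∈ (H : Subgroup G).map (MulAut.conj g).toMonoidHom)) ↔ ∀ x ∈ I, x ∈ H → ∃! c : G ⧸ H, x • c = c) := by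
  have key : (∀ g : G, g ∉ H → ∀ x ∈ I, ¬ (x ∈ H ∧ x ∈ (H : Subgroup G).map (MulAut.conj g).toMonoidHom))
      ↔ ∀ g : G, ∀ x ∈ I, x ∈ H → g⁻¹ * x * g ∈ H → g ∈ H := by
    constructor
    · intro h g x hx hxH hgx
      by_contra hg
      exact h g hg x hx ⟨hxH, (Cfsg.Agent.Helper90.mem_map_conj_iff H g x).mpr hgx⟩
    · intro h g hg x hx hh
      exact hg (h g x hx hh.1 ((Cfsg.Agent.Helper90.mem_map_conj_iff H g x).mp hh.2))
  rw [key]
  refine ⟨⟨?_, ?_⟩, ⟨?_, ?_⟩⟩
  · intro h1 g x hx hxH hgx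
    obtain ⟨hfus, hcen⟩ := h1 x hx hxH
    have hgx' : g⁻¹ * x * g⁻¹⁻¹ ∈ H := by rwa [inv_inv]
    obtain ⟨h, hh, hhx⟩ := hfus g⁻¹ hgx'
    have hgh : g * h ∈ Subgroup.centralizer ({x} : Set G) := by
      rw [Subgroup.mem_centralizer_iff]
      intro y hy
      rw [Set.mem_singleton_iff] at hy
      rw [hy]
      have e : x = g * (h * x * h⁻¹) * g⁻¹ := by rw [hhx]; group
      have e2 : x * (g * h) = g * (h * x * h⁻¹) * g⁻¹ * (g * h) := by rw [← e]
      rw [e2]; group
    have := H.mul_mem (hcen hgh) (H.inv_mem hh)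
    have e : g * h * h⁻¹ = g := by group
    rwa [e] at this
  · intro h2 x hx hxH
    refine ⟨fun g hg => ?_, fun c hc => ?_⟩
    · have hgH : g⁻¹ ∈ H := by
        apply h2 g⁻¹ x hx hxH
        rwa [inv_inv]
      exact ⟨g, by simpa using hgH, rfl⟩
    · apply h2 c x hx hxH
      have hcx : x * c = c * x := by
        have := Subgroup.mem_centralizer_iff.mp hc x (Set.mem_singleton x)
        exact this
      have e : c⁻¹ * x * c = x := by
        rw [mul_assoc, hcx]; group
      rw [e]; exact hxH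
  · intro h2 x hx hxH
    refine ⟨QuotientGroup.mk 1, ?_, ?_⟩
    · show x • (QuotientGroup.mk 1 : G ⧸ H) = QuotientGroup.mk 1
      rw [Cfsg.Agent.Helper90.smul_coset_eq_iff]
      simpa using hxH
    · intro c hc
      induction c using QuotientGroup.induction_on with
      | H g =>
        have hc' : x • (QuotientGroup.mk g : G ⧸ H) = QuotientGroup.mk g := hc
        rw [Cfsg.Agent.Helper90.smul_coset_eq_iff] at hc'
        have hg := h2 g x hx hxH hc'
        rw [QuotientGroup.eq]
        simpa using hg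
  · intro h3 g x hx hxH hgx
    obtain ⟨c, -, hcu⟩ := h3 x hx hxH
    have h1 : (QuotientGroup.mk g : G ⧸ H) = c :=
      hcu _ ((Cfsg.Agent.Helper90.smul_coset_eq_iff H x g).mpr hgx)
    have h2 : (QuotientGroup.mk 1 : G ⧸ H) = c :=
      hcu _ ((Cfsg.Agent.Helper90.smul_coset_eq_iff H x 1).mpr (by simpa using hxH))
    have h3 : (QuotientGroup.mk 1 : G ⧸ H) = QuotientGroup.mk g := h2.trans h1.symm
    rw [QuotientGroup.eq] at h3
    simpa using h3

end Cfsg.Agent.S5437
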