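-- Statement S5438: a 2-central involution fixing a unique coset of H.
import Cfsg.Statements.S5438
import Cfsg.Agent.Helper90.FixedCoset

set_option autoImplicit false
open Cfsg

namespace Cfsg.Agent.S5438

/-- Let z be a 2-central involution of the finite group G (an involution central in some Sylow 2-subgroup) and H a subgroup containing z such that the coset H is the only coset of H fixed by z (in the action of G on the cosets of H). Then H has odd index in G, and for every 2-element x of H the conjugates of x lying in H form a single H-class. -/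
theorem result {G : Type*} [Group G] [Finite G] (z : G) (hz : Cfsg.IsTwoCentralInvolution z) (H : Subgroup G) (hzH : z ∈ H) (hfix : ∀ g : G, g⁻¹ * z * g ∈ H → g ∈ H) : Odd H.index ∧ ∀ x ∈ H, (∃ k : ℕ, orderOf x = 2 ^ k) → ∀ g : G, g * x * g⁻¹ ∈ H → ∃ h ∈ H, h * x * h⁻¹ = g * x * g⁻¹ := by
  obtain ⟨hz2, P, hzP, hPc⟩ := hz
  have : Fact (Nat.Prime 2) := ⟨Nat.prime_two⟩
  have hzz : z * z = 1 := by
    have := pow_orderOf_eq_one z
    rwa [hz2, pow_two] at this
  have hPH : (P : Subgroup G) ≤ H := by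
    intro x hx
    apply hfix
    have : x⁻¹ * z * x = z := by
      rw [mul_assoc, ← hPc x hx]; group
    rw [this]; exact hzH
  refine ⟨?_, ?_⟩
  · have h1 : H.index ∣ (P : Subgroup G).index := Subgroup.index_dvd_of_le hPH
    have h2 : ¬ 2 ∣ (P : Subgroup G).index := P.not_dvd_index
    by_contra h
    rw [Nat.not_odd_iff_even, even_iff_two_dvd] at h
    exact h2 (h.trans h1)
  · -- any 2-element of H commutes with an H-conjugate of z
    have hkey : ∀ x ∈ H, (∃ k : ℕ, orderOf x = 2 ^ k) →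
        ∃ h ∈ H, x * (h * z * h⁻¹) = (h * z * h⁻¹) * x := by
      rintro x hx ⟨k, hk⟩
      have hxp : IsPGroup 2 (Subgroup.zpowers (⟨x, hx⟩ : H)) := by
        apply IsPGroup.of_card (n := k)
        rw [Nat.card_zpowers, Subgroup.orderOf_mk, hk]
      obtain ⟨S, hS⟩ := hxp.exists_le_sylow
      obtain ⟨h, hh⟩ := MulAction.exists_smul_eq H (P.subtype hPH) S
      have hxS : (⟨x, hx⟩ : H) ∈ S := hS (Subgroup.mem_zpowers _)
      rw [← hh, Cfsg.Agent.Helper90.sylow_mem_smul_iff] at hxS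
      have hP : (h : G)⁻¹ * x * h ∈ (P : Subgroup G) := by
        have : h⁻¹ * ⟨x, hx⟩ * h ∈ (P : Subgroup G).subgroupOf H := hxS
        rw [Subgroup.mem_subgroupOf] at this
        simpa using this
      have hc := hPc _ hP
      refine ⟨h, h.2, ?_⟩
      have e1 : x * ((h : G) * z * (h : G)⁻¹) = h * (((h : G)⁻¹ * x * h) * z) * (h : G)⁻¹ := by group
      rw [e1, hc]; group
    intro x hx hx2 g hg
    obtain ⟨h1, hh1, hc1⟩ := hkey x hx hx2
    have hy2 : ∃ k : ℕ, orderOf (g * x * g⁻¹) = 2 ^ k := by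
      obtain ⟨k, hk⟩ := hx2
      refine ⟨k, ?_⟩
      rw [← hk]
      have hs : SemiconjBy g x (g * x * g⁻¹) := by
        show g * x = g * x * g⁻¹ * g
        group
      exact (hs.orderOf_eq g).symm
    obtain ⟨h2, hh2, hc2⟩ := hkey (g * x * g⁻¹) hg hy2
    have hz1D : h1 * z * h1⁻¹ ∈ Subgroup.centralizer ({x} : Set G) := by
      rw [Subgroup.mem_centralizer_iff]
      intro y hy
      rw [Set.mem_singleton_iff] at hy
      rw [hy]; exact hc1
    have hz2D : g⁻¹ * (h2 * z * h2⁻¹) * g ∈ Subgroup.centralizer ({x} : Set G) := by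
      rw [Subgroup.mem_centralizer_iff]
      intro y hy
      rw [Set.mem_singleton_iff] at hy
      rw [hy]
      have e1 : x * (g⁻¹ * (h2 * z * h2⁻¹) * g) = g⁻¹ * ((g * x * g⁻¹) * (h2 * z * h2⁻¹)) * g := by
        group
      rw [e1, hc2]; group
    have ht1 : (⟨h1 * z * h1⁻¹, hz1D⟩ : ↥(Subgroup.centralizer ({x} : Set G))) *
        ⟨h1 * z * h1⁻¹, hz1D⟩ = 1 := by
      apply Subtype.ext
      show h1 * z * h1⁻¹ * (h1 * z * h1⁻¹) = 1
      have : h1 * z * h1⁻¹ * (h1 * z * h1⁻¹) = h1 * (z * z) * h1⁻¹ := by group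
      rw [this, hzz]; group
    have ht2 : (⟨g⁻¹ * (h2 * z * h2⁻¹) * g, hz2D⟩ : ↥(Subgroup.centralizer ({x} : Set G))) *
        ⟨g⁻¹ * (h2 * z * h2⁻¹) * g, hz2D⟩ = 1 := by
      apply Subtype.ext
      show g⁻¹ * (h2 * z * h2⁻¹) * g * (g⁻¹ * (h2 * z * h2⁻¹) * g) = 1
      have : g⁻¹ * (h2 * z * h2⁻¹) * g * (g⁻¹ * (h2 * z * h2⁻¹) * g)
          = g⁻¹ * h2 * (z * z) * h2⁻¹ * g := by group
      rw [this, hzz]; group
    have hmem : (⟨h1 * z * h1⁻¹, hz1D⟩ : ↥(Subgroup.centralizer ({x} : Set G))) ∈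
        H.subgroupOf (Subgroup.centralizer ({x} : Set G)) := by
      rw [Subgroup.mem_subgroupOf]
      exact H.mul_mem (H.mul_mem hh1 hzH) (H.inv_mem hh1)
    have huniq : ∀ d : ↥(Subgroup.centralizer ({x} : Set G)),
        d⁻¹ * ⟨h1 * z * h1⁻¹, hz1D⟩ * d ∈ H.subgroupOf (Subgroup.centralizer ({x} : Set G)) →
        d ∈ H.subgroupOf (Subgroup.centralizer ({x} : Set G)) := by
      intro d hd
      rw [Subgroup.mem_subgroupOf] at hd ⊢
      have hd' : (d : G)⁻¹ * (h1 * z * h1⁻¹) * d ∈ H := hd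
      have e : (h1⁻¹ * (d : G))⁻¹ * z * (h1⁻¹ * d) = (d : G)⁻¹ * (h1 * z * h1⁻¹) * d := by group
      have := hfix (h1⁻¹ * d) (by rw [e]; exact hd')
      have := H.mul_mem hh1 this
      have e2 : h1 * (h1⁻¹ * (d : G)) = d := by group
      rwa [e2] at this
    obtain ⟨d, hd⟩ := Cfsg.Agent.Helper90.exists_conj_mem_of_unique_fixed
      (H.subgroupOf (Subgroup.centralizer ({x} : Set G))) _ _ ht1 ht2 hmem huniq
    rw [Subgroup.mem_subgroupOf] at hd
    have hd' : (d : G)⁻¹ * (g⁻¹ * (h2 * z * h2⁻¹) * g) * d ∈ H := hd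
    have e : (h2⁻¹ * g * (d : G))⁻¹ * z * (h2⁻¹ * g * d)
        = (d : G)⁻¹ * (g⁻¹ * (h2 * z * h2⁻¹) * g) * d := by group
    have h3 := hfix (h2⁻¹ * g * d) (by rw [e]; exact hd')
    have h4 := H.mul_mem hh2 h3
    have e2 : h2 * (h2⁻¹ * g * (d : G)) = g * d := by group
    rw [e2] at h4
    refine ⟨g * d, h4, ?_⟩
    have hdx : x * (d : G) = d * x := Subgroup.mem_centralizer_iff.mp d.2 x (Set.mem_singleton x)
    have e3 : g * (d : G) * x * (g * d)⁻¹ = g * ((d : G) * x) * (d : G)⁻¹ * g⁻¹ := by group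
    rw [e3, ← hdx]; group

end Cfsg.Agent.S5438
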