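-- Statement S5439: two involution classes with unique fixed cosets force H = G.
import Cfsg.Statements.S5439
import Cfsg.Agent.Helper90.Conj
import Cfsg.Agent.Helper90.Dihedral

set_option autoImplicit false
open Cfsg

namespace Cfsg.Agent.S5439

/-- Let I and J be two different conjugacy classes of involutions of the finite group G and H a subgroup such that every member of I ∪ J fixes exactly one coset in the action on the cosets of H, and such that for every a in I ∩ H and every b in (I ∪ J) ∩ H different from a and commuting with it, the centralizer of a b lies in H. Then H = G. -/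
theorem result {G : Type*} [Group G] [Finite G] (I J : Set G) (a₀ b₀ : G) (ha₀ : orderOf a₀ = 2) (hb₀ : orderOf b₀ = 2) (hI : I = {x | IsConj a₀ x}) (hJ : J = {x | IsConj b₀ x}) (hIJ : I ≠ J) (H : Subgroup G) (hfix : ∀ x ∈ I ∪ J, ∃! c : G ⧸ H, x • c = c) (hcent : ∀ a ∈ I, a ∈ H → ∀ b ∈ I ∪ J, b ∈ H → a ≠ b → a * b = b * a → Subgroup.centralizer ({a * b} : Set G) ≤ H) : H = ⊤ := by
  subst hI
  subst hJ
  have ha0 : a₀ * a₀ = 1 := by
    have := pow_orderOf_eq_one a₀
    rwa [ha₀, pow_two] at this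
  have hb0 : b₀ * b₀ = 1 := by
    have := pow_orderOf_eq_one b₀
    rwa [hb₀, pow_two] at this
  have hnc0 : ¬ IsConj a₀ b₀ := by
    intro h
    apply hIJ
    ext x
    show IsConj a₀ x ↔ IsConj b₀ x
    exact ⟨fun hx => h.symm.trans hx, fun hx => h.trans hx⟩
  have hconjI : ∀ x, IsConj a₀ x → ∀ c : G, IsConj a₀ (c * x * c⁻¹) :=
    fun x hx c => hx.trans (isConj_iff.mpr ⟨c, rfl⟩)
  have hconjJ : ∀ x, IsConj b₀ x → ∀ c : G, IsConj b₀ (c * x * c⁻¹) :=
    fun x hx c => hx.trans (isConj_iff.mpr ⟨c, rfl⟩)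
  have hsqI : ∀ x, IsConj a₀ x → x * x = 1 := by
    intro x hx
    obtain ⟨c, rfl⟩ := isConj_iff.mp hx
    have : c * a₀ * c⁻¹ * (c * a₀ * c⁻¹) = c * (a₀ * a₀) * c⁻¹ := by group
    rw [this, ha0]; group
  have hsqJ : ∀ x, IsConj b₀ x → x * x = 1 := by
    intro x hx
    obtain ⟨c, rfl⟩ := isConj_iff.mp hx
    have : c * b₀ * c⁻¹ * (c * b₀ * c⁻¹) = c * (b₀ * b₀) * c⁻¹ := by group
    rw [this, hb0]; group
  -- main claim: a coset fixed by a member of I is fixed by every member of J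
  have main : ∀ a b : G, IsConj a₀ a → IsConj b₀ b → ∀ g : G, g⁻¹ * a * g ∈ H →
      g⁻¹ * b * g ∈ H := by
    intro a b ha hb g hg
    have haa := hsqI a ha
    have hbb := hsqJ b hb
    have hnc : ¬ IsConj a b := fun h => hnc0 (ha.trans (h.trans hb.symm))
    obtain ⟨w, hw1, hww, haw, hbw, hconj⟩ :=
      Cfsg.Agent.Helper90.dihedral_central_involution a b haa hbb (orderOf_pos (a * b)) hnc
    have hwg : g⁻¹ * w * g ∈ H := by
      obtain ⟨c, hc, hcu⟩ := hfix a (Or.inl ha)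
      have h1 : (QuotientGroup.mk g : G ⧸ H) = c :=
        hcu _ ((Cfsg.Agent.Helper90.smul_coset_eq_iff H a g).mpr hg)
      have h2 : (QuotientGroup.mk (w * g) : G ⧸ H) = c := by
        apply hcu
        show a • (QuotientGroup.mk (w * g) : G ⧸ H) = QuotientGroup.mk (w * g)
        rw [Cfsg.Agent.Helper90.smul_coset_eq_iff]
        have e : (w * g)⁻¹ * a * (w * g) = g⁻¹ * a * g := by
          have : (w * g)⁻¹ * a * (w * g) = g⁻¹ * (w⁻¹ * (a * w)) * g := by group
          rw [this, haw]; group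
        rw [e]; exact hg
      have h3 : (QuotientGroup.mk g : G ⧸ H) = QuotientGroup.mk (w * g) := h1.trans h2.symm
      rw [QuotientGroup.eq] at h3
      have e : g⁻¹ * w * g = g⁻¹ * (w * g) := by group
      rw [e]; exact h3
    have ha'IJ : ∀ c : G, c * (a * w) * c⁻¹ ∈ {x | IsConj a₀ x} ∪ {x | IsConj b₀ x} := by
      intro c
      rcases hconj with ⟨d, hd⟩ | ⟨d, hd⟩
      · left; rw [← hd]; exact hconjI _ (hconjI a ha d) c
      · right; rw [← hd]; exact hconjJ _ (hconjJ b hb d) c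
    have h1 : g⁻¹ * a * g ∈ {x | IsConj a₀ x} := by
      have := hconjI a ha g⁻¹
      rwa [inv_inv] at this
    have h2 : g⁻¹ * (a * w) * g ∈ {x | IsConj a₀ x} ∪ {x | IsConj b₀ x} := by
      have := ha'IJ g⁻¹
      rwa [inv_inv] at this
    have h2H : g⁻¹ * (a * w) * g ∈ H := by
      have : g⁻¹ * (a * w) * g = (g⁻¹ * a * g) * (g⁻¹ * w * g) := by group
      rw [this]; exact H.mul_mem hg hwg
    have hne : g⁻¹ * a * g ≠ g⁻¹ * (a * w) * g := by
      intro h
      apply hw1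
      have h' : a = a * w := by
        calc a = g * (g⁻¹ * a * g) * g⁻¹ := by group
          _ = g * (g⁻¹ * (a * w) * g) * g⁻¹ := by rw [h]
          _ = a * w := by group
      have h'' : a * 1 = a * w := by rw [mul_one]; exact h'
      exact (mul_left_cancel h'').symm
    have hcomm : (g⁻¹ * a * g) * (g⁻¹ * (a * w) * g) = (g⁻¹ * (a * w) * g) * (g⁻¹ * a * g) := by
      have e1 : (g⁻¹ * a * g) * (g⁻¹ * (a * w) * g) = g⁻¹ * (a * (a * w)) * g := by group
      have e2 : (g⁻¹ * (a * w) * g) * (g⁻¹ * a * g) = g⁻¹ * (a * (w * a)) * g := by group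
      rw [e1, e2, haw]
    have hC := hcent _ h1 hg _ h2 h2H hne hcomm
    apply hC
    rw [Subgroup.mem_centralizer_iff]
    intro y hy
    rw [Set.mem_singleton_iff] at hy
    have ey : (g⁻¹ * a * g) * (g⁻¹ * (a * w) * g) = g⁻¹ * w * g := by
      have : (g⁻¹ * a * g) * (g⁻¹ * (a * w) * g) = g⁻¹ * ((a * a) * w) * g := by group
      rw [this, haa, one_mul]
    rw [hy, ey]
    have e1 : g⁻¹ * w * g * (g⁻¹ * b * g) = g⁻¹ * (w * b) * g := by group
    have e2 : g⁻¹ * b * g * (g⁻¹ * w * g) = g⁻¹ * (b * w) * g := by group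
    rw [e1, e2, hbw]
  -- conclusion
  rw [eq_top_iff]
  intro y _
  obtain ⟨c, hc, -⟩ := hfix a₀ (Or.inl (IsConj.refl a₀))
  induction c using QuotientGroup.induction_on with
  | H g₁ =>
    have hc' : a₀ • (QuotientGroup.mk g₁ : G ⧸ H) = QuotientGroup.mk g₁ := hc
    rw [Cfsg.Agent.Helper90.smul_coset_eq_iff] at hc'
    have hall : ∀ x : G, (x * g₁)⁻¹ * b₀ * (x * g₁) ∈ H := by
      intro x
      apply main (x * a₀ * x⁻¹) b₀ (hconjI a₀ (IsConj.refl a₀) x) (IsConj.refl b₀)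
      have e : (x * g₁)⁻¹ * (x * a₀ * x⁻¹) * (x * g₁) = g₁⁻¹ * a₀ * g₁ := by group
      rw [e]; exact hc'
    obtain ⟨c', -, hcu'⟩ := hfix b₀ (Or.inr (IsConj.refl b₀))
    have h1 : (QuotientGroup.mk (1 * g₁) : G ⧸ H) = c' :=
      hcu' _ ((Cfsg.Agent.Helper90.smul_coset_eq_iff H b₀ _).mpr (hall 1))
    have h2 : (QuotientGroup.mk (g₁ * y * g₁⁻¹ * g₁) : G ⧸ H) = c' :=
      hcu' _ ((Cfsg.Agent.Helper90.smul_coset_eq_iff H b₀ _).mpr (hall (g₁ * y * g₁⁻¹)))
    have h3 := h1.trans h2.symm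
    rw [QuotientGroup.eq] at h3
    have e : (1 * g₁)⁻¹ * (g₁ * y * g₁⁻¹ * g₁) = y := by group
    rwa [e] at h3

end Cfsg.Agent.S5439
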