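import Cfsg.Statements.S5459

set_option autoImplicit false
open Cfsg

namespace Cfsg.Agent.S5459

theorem adj_iff {G : Type*} [Group G] (D : Set G) (a b : D) :
    (Cfsg.commutingGraph D).Adj a b ↔ a ≠ b ∧ (a : G) * b = b * a := by
  unfold Cfsg.commutingGraph
  rw [SimpleGraph.fromRel_adj]
  constructor
  · rintro ⟨h1, h2 | h2⟩
    · exact ⟨h1, h2.eq⟩
    · exact ⟨h1, h2.eq.symm⟩
  · rintro ⟨h1, h2⟩
    exact ⟨h1, Or.inl h2⟩

/-- The main argument, for a normal subgroup `Z` of odd order inverted by `d`, central in a perfect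
subgroup `L`. -/
theorem aux {G : Type*} [Group G] (L Z : Subgroup G) (hperf : commutator ↥L = ⊤) (hZL : Z ≤ L)
    (hZcen : ∀ c ∈ Z, ∀ l ∈ L, c * l = l * c) [hn : Z.Normal]
    (hsqrt : ∀ c ∈ Z, ∃ e ∈ Z, e * e = c) (d : G) (hdd : d * d = 1)
    (hinv : ∀ c ∈ Z, d * c * d⁻¹ = c⁻¹)
    (hconn : (Cfsg.commutingGraph (conjugatesOf (QuotientGroup.mk d : G ⧸ Z))).Connected) :
    (Cfsg.commutingGraph (conjugatesOf d)).Connected := by
  classical
  -- basic facts on conjugates of `d`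
  have hD : ∀ x ∈ conjugatesOf d, x * x = 1 ∧ ∀ c ∈ Z, x * c * x⁻¹ = c⁻¹ := by
    intro x hx
    obtain ⟨g, rfl⟩ := isConj_iff.mp hx
    refine ⟨?_, ?_⟩
    · calc g * d * g⁻¹ * (g * d * g⁻¹) = g * (d * d) * g⁻¹ := by group
        _ = 1 := by rw [hdd]; group
    · intro c hc
      have h1 : g⁻¹ * c * g ∈ Z := by
        have h2 := hn.conj_mem c hc g⁻¹
        rwa [inv_inv] at h2
      have h3 := hinv _ h1
      calc g * d * g⁻¹ * c * (g * d * g⁻¹)⁻¹ = g * (d * (g⁻¹ * c * g) * d⁻¹) * g⁻¹ := by group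
        _ = g * (g⁻¹ * c * g)⁻¹ * g⁻¹ := by rw [h3]
        _ = c⁻¹ := by group
  have hconjD : ∀ (g x : G), x ∈ conjugatesOf d → g * x * g⁻¹ ∈ conjugatesOf d := by
    intro g x hx
    exact IsConj.trans hx (isConj_iff.mpr ⟨g, rfl⟩)
  -- the fibres are orbits of `Z`
  have hfib : ∀ x ∈ conjugatesOf d, ∀ c ∈ Z, ∃ f ∈ Z, f * x * f⁻¹ = x * c := by
    intro x hx c hc
    obtain ⟨f, hf, hff⟩ := hsqrt c⁻¹ (inv_mem hc)
    refine ⟨f, hf, ?_⟩
    have h1 := (hD x hx).2 f hf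
    have h2 : f * x = x * f⁻¹ := by
      calc f * x = f * (x * f * x⁻¹) * x * f⁻¹ := by group
        _ = f * f⁻¹ * x * f⁻¹ := by rw [h1]
        _ = x * f⁻¹ := by group
    have h3 : c = f⁻¹ * f⁻¹ := by
      calc c = (c⁻¹)⁻¹ := (inv_inv c).symm
        _ = (f * f)⁻¹ := by rw [hff]
        _ = f⁻¹ * f⁻¹ := by group
    rw [h2, h3]; group
  have hfibD : ∀ x ∈ conjugatesOf d, ∀ c ∈ Z, x * c ∈ conjugatesOf d := by
    intro x hx c hc
    obtain ⟨f, _, hf⟩ := hfib x hx c hc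
    rw [← hf]
    exact hconjD f x hx
  -- conjugation as a graph homomorphism
  let cj : G → (Cfsg.commutingGraph (conjugatesOf d)) →g (Cfsg.commutingGraph (conjugatesOf d)) :=
    fun g =>
    { toFun := fun x => ⟨g * x.1 * g⁻¹, hconjD g x.1 x.2⟩
      map_rel' := by
        intro x y hxy
        rw [adj_iff] at hxy ⊢
        refine ⟨?_, ?_⟩
        · intro h
          apply hxy.1
          have h1 : g * x.1 * g⁻¹ = g * y.1 * g⁻¹ := congrArg Subtype.val h
          apply Subtype.ext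
          calc x.1 = g⁻¹ * (g * x.1 * g⁻¹) * g := by group
            _ = g⁻¹ * (g * y.1 * g⁻¹) * g := by rw [h1]
            _ = y.1 := by group
        · show g * x.1 * g⁻¹ * (g * y.1 * g⁻¹) = g * y.1 * g⁻¹ * (g * x.1 * g⁻¹)
          calc g * x.1 * g⁻¹ * (g * y.1 * g⁻¹) = g * (x.1 * y.1) * g⁻¹ := by group
            _ = g * (y.1 * x.1) * g⁻¹ := by rw [hxy.2]
            _ = g * y.1 * g⁻¹ * (g * x.1 * g⁻¹) := by group }
  -- reachability as a relation on `G`
  let R : G → G → Prop := fun x y => ∃ (hx : x ∈ conjugatesOf d) (hy : y ∈ conjugatesOf d),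
    (Cfsg.commutingGraph (conjugatesOf d)).Reachable ⟨x, hx⟩ ⟨y, hy⟩
  have Rconj : ∀ (g x y : G), R x y → R (g * x * g⁻¹) (g * y * g⁻¹) := by
    rintro g x y ⟨hx, hy, hr⟩
    exact ⟨hconjD g x hx, hconjD g y hy, hr.map (cj g)⟩
  have Rsymm : ∀ x y : G, R x y → R y x := by
    rintro x y ⟨hx, hy, hr⟩
    exact ⟨hy, hx, hr.symm⟩
  have Rtrans : ∀ x y w : G, R x y → R y w → R x w := by
    rintro x y w ⟨hx, hy, hr⟩ ⟨_, hw, hr'⟩
    exact ⟨hx, hw, hr.trans hr'⟩
  -- path lifting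
  have lift : ∀ β : ↥(conjugatesOf (QuotientGroup.mk d : G ⧸ Z)),
      (Cfsg.commutingGraph (conjugatesOf (QuotientGroup.mk d : G ⧸ Z))).Reachable
        ⟨QuotientGroup.mk d, mem_conjugatesOf_self⟩ β →
      ∃ b : G, (QuotientGroup.mk b : G ⧸ Z) = β.1 ∧ R d b := by
    intro β hβ
    rw [SimpleGraph.reachable_iff_reflTransGen] at hβ
    induction hβ with
    | refl =>
      exact ⟨d, rfl, mem_conjugatesOf_self, mem_conjugatesOf_self, SimpleGraph.Reachable.refl _⟩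
    | @tail β₁ β₂ _ hadj ih =>
      obtain ⟨b, hbβ, hRb⟩ := ih
      have hb : b ∈ conjugatesOf d := hRb.2.1
      obtain ⟨c₀, hc₀, hc₀β⟩ : ∃ c₀ ∈ conjugatesOf d, (QuotientGroup.mk c₀ : G ⧸ Z) = β₂.1 := by
        obtain ⟨γ, hγ⟩ := isConj_iff.mp β₂.2
        obtain ⟨g, rfl⟩ := QuotientGroup.mk_surjective γ
        refine ⟨g * d * g⁻¹, hconjD g d mem_conjugatesOf_self, ?_⟩
        rw [← hγ]
        rfl
      rw [adj_iff] at hadj
      obtain ⟨hne, hcomm⟩ := hadj
      rw [← hbβ, ← hc₀β] at hcomm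
      have hcZ : (c₀ * b)⁻¹ * (b * c₀) ∈ Z := by
        rw [← QuotientGroup.eq]
        exact hcomm.symm
      obtain ⟨e, he, hee⟩ := hsqrt _ (inv_mem hcZ)
      have hc₀e : c₀ * e ∈ conjugatesOf d := hfibD c₀ hc₀ e he
      have hmk : (QuotientGroup.mk (c₀ * e) : G ⧸ Z) = β₂.1 := by
        rw [← hc₀β]
        refine QuotientGroup.eq.mpr ?_
        have h1 : (c₀ * e)⁻¹ * c₀ = e⁻¹ := by group
        rw [h1]
        exact inv_mem he
      refine ⟨c₀ * e, hmk, Rtrans _ _ _ hRb ⟨hb, hc₀e, SimpleGraph.Adj.reachable ?_⟩⟩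
      rw [adj_iff]
      refine ⟨?_, ?_⟩
      · intro h
        apply hne
        apply Subtype.ext
        rw [← hbβ, ← hmk]
        exact congrArg (fun x : ↥(conjugatesOf d) => (QuotientGroup.mk x.1 : G ⧸ Z)) h
      · show b * (c₀ * e) = c₀ * e * b
        have h1 : b * c₀ = c₀ * b * ((c₀ * b)⁻¹ * (b * c₀)) := by group
        have h2 : (c₀ * b)⁻¹ * (b * c₀) * e = e⁻¹ := by
          have h4 : (c₀ * b)⁻¹ * (b * c₀) = (e * e)⁻¹ := by rw [hee, inv_inv]
          rw [h4]; group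
        have h3 : b * e⁻¹ = e * b := by
          have h5 := (hD b hb).2 e he
          have h6 := (hD b hb).1
          have h7 : b⁻¹ = b := inv_eq_of_mul_eq_one_right h6
          rw [← h5, h7]
          calc b * (b * e * b) = (b * b) * e * b := by group
            _ = e * b := by rw [h6, one_mul]
        calc b * (c₀ * e) = (b * c₀) * e := by group
          _ = c₀ * b * ((c₀ * b)⁻¹ * (b * c₀)) * e := by rw [← h1]
          _ = c₀ * (b * ((c₀ * b)⁻¹ * (b * c₀) * e)) := by group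
          _ = c₀ * (b * e⁻¹) := by rw [h2]
          _ = c₀ * (e * b) := by rw [h3]
          _ = c₀ * e * b := by group
  -- the subgroup of elements moving `d` inside its component
  let H : Subgroup G :=
    { carrier := {g | R d (g * d * g⁻¹)}
      mul_mem' := by
        intro g h hg hh
        have h1 := Rconj g _ _ hh
        have h2 : g * (h * d * h⁻¹) * g⁻¹ = g * h * d * (g * h)⁻¹ := by group
        rw [h2] at h1
        exact Rtrans _ _ _ hg h1
      one_mem' := by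
        show R d (1 * d * 1⁻¹)
        have h1 : 1 * d * (1 : G)⁻¹ = d := by group
        rw [h1]
        exact ⟨mem_conjugatesOf_self, mem_conjugatesOf_self, SimpleGraph.Reachable.refl _⟩
      inv_mem' := by
        intro g hg
        have h1 := Rconj g⁻¹ _ _ hg
        have h2 : g⁻¹ * (g * d * g⁻¹) * g⁻¹⁻¹ = d := by group
        rw [h2] at h1
        exact Rsymm _ _ h1 }
  have hmemH : ∀ g : G, g ∈ H ↔ R d (g * d * g⁻¹) := fun g => Iff.rfl
  -- `G = Z H`
  have hZH : ∀ g : G, ∃ e ∈ Z, e * g ∈ H := by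
    intro g
    have hgd : g * d * g⁻¹ ∈ conjugatesOf d := hconjD g d mem_conjugatesOf_self
    have hβ : (QuotientGroup.mk (g * d * g⁻¹) : G ⧸ Z) ∈
        conjugatesOf (QuotientGroup.mk d : G ⧸ Z) :=
      isConj_iff.mpr ⟨QuotientGroup.mk g, rfl⟩
    obtain ⟨b, hb, hRb⟩ := lift ⟨_, hβ⟩ (hconn.preconnected _ _)
    have hcZ : (g * d * g⁻¹)⁻¹ * b ∈ Z := QuotientGroup.eq.mp hb.symm
    obtain ⟨f, hf, hfx⟩ := hfib _ hgd _ hcZ
    refine ⟨f, hf, ?_⟩
    rw [hmemH]
    have h1 : f * g * d * (f * g)⁻¹ = b := by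
      calc f * g * d * (f * g)⁻¹ = f * (g * d * g⁻¹) * f⁻¹ := by group
        _ = g * d * g⁻¹ * ((g * d * g⁻¹)⁻¹ * b) := hfx
        _ = b := by group
    rw [h1]
    exact hRb
  -- `L ≤ H`, as `L` is perfect
  have hconjZ : ∀ c ∈ Z, ∀ l ∈ L, c * l * c⁻¹ = l := by
    intro c hc l hl
    rw [hZcen c hc l hl]; group
  have hLH : L ≤ H := by
    have hcomm : commutator ↥L ≤ H.subgroupOf L := by
      rw [commutator_def, Subgroup.commutator_le]
      intro x _ y _
      rw [commutatorElement_def, Subgroup.mem_subgroupOf]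
      obtain ⟨e₁, he₁, h1⟩ := hZH (x : G)
      obtain ⟨e₂, he₂, h2⟩ := hZH (y : G)
      have hv : e₂ * (y : G) ∈ L := L.mul_mem (hZL he₂) y.2
      have h3 : (x : G) * y * (x : G)⁻¹ * (y : G)⁻¹ =
          (e₁ * x) * (e₂ * y) * (e₁ * (x : G))⁻¹ * (e₂ * (y : G))⁻¹ := by
        have h4 : e₁ * ((x : G) * (e₂ * y) * (x : G)⁻¹) * e₁⁻¹ = (x : G) * (e₂ * y) * (x : G)⁻¹ :=
          hconjZ e₁ he₁ _ (L.mul_mem (L.mul_mem x.2 hv) (L.inv_mem x.2))
        have h5 : (x : G) * e₂ = e₂ * x := (hZcen e₂ he₂ x x.2).symm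
        have h6 : e₂ * ((x : G) * y * (x : G)⁻¹ * (y : G)⁻¹) * e₂⁻¹ =
            (x : G) * y * (x : G)⁻¹ * (y : G)⁻¹ :=
          hconjZ e₂ he₂ _ (L.mul_mem (L.mul_mem (L.mul_mem x.2 y.2) (L.inv_mem x.2))
            (L.inv_mem y.2))
        symm
        calc (e₁ * x) * (e₂ * y) * (e₁ * (x : G))⁻¹ * (e₂ * (y : G))⁻¹
            = (e₁ * ((x : G) * (e₂ * y) * (x : G)⁻¹) * e₁⁻¹) * (e₂ * (y : G))⁻¹ := by group
          _ = (x : G) * (e₂ * y) * (x : G)⁻¹ * (e₂ * (y : G))⁻¹ := by rw [h4]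
          _ = ((x : G) * e₂) * y * (x : G)⁻¹ * (y : G)⁻¹ * e₂⁻¹ := by group
          _ = (e₂ * x) * y * (x : G)⁻¹ * (y : G)⁻¹ * e₂⁻¹ := by rw [h5]
          _ = e₂ * ((x : G) * y * (x : G)⁻¹ * (y : G)⁻¹) * e₂⁻¹ := by group
          _ = (x : G) * y * (x : G)⁻¹ * (y : G)⁻¹ := h6
      have h7 : ((x * y * x⁻¹ * y⁻¹ : ↥L) : G) = (x : G) * y * (x : G)⁻¹ * (y : G)⁻¹ := rfl
      rw [h7, h3]
      exact H.mul_mem (H.mul_mem (H.mul_mem h1 h2) (H.inv_mem h1)) (H.inv_mem h2)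
    intro l hl
    have h1 : (⟨l, hl⟩ : ↥L) ∈ H.subgroupOf L := hcomm (by rw [hperf]; exact Subgroup.mem_top _)
    exact h1
  have hHtop : ∀ g : G, g ∈ H := by
    intro g
    obtain ⟨e, he, h1⟩ := hZH g
    have h2 : g = e⁻¹ * (e * g) := by group
    rw [h2]
    exact H.mul_mem (H.inv_mem (hLH (hZL he))) h1
  rw [SimpleGraph.connected_iff_exists_forall_reachable]
  refine ⟨⟨d, mem_conjugatesOf_self⟩, ?_⟩
  rintro ⟨w, hw⟩
  obtain ⟨g, rfl⟩ := isConj_iff.mp hw
  obtain ⟨_, _, hr⟩ := (hmemH g).mp (hHtop g)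
  exact hr

/-- Let G be a finite group with a quasisimple normal subgroup L and an involution d such that G is generated by L and d, the centre of L has odd order, and d inverts every element of the centre of L. If the commuting graph on the conjugacy class of the image of d in G modulo the centre of L is connected, then the commuting graph on the conjugacy class of d is connected. -/
theorem result {G : Type*} [Group G] [Finite G] (L : Subgroup G) [L.Normal] (hL : Cfsg.IsQuasisimple ↥L) (d : G) (hd : orderOf d = 2) (hgen : L ⊔ Subgroup.zpowers d = ⊤) (hodd : Odd (Nat.card ↥(Subgroup.center ↥L))) (hinv : ∀ c ∈ (Subgroup.center ↥L).map L.subtype, d * c * d⁻¹ = c⁻¹) [hn : ((Subgroup.center ↥L).map L.subtype).Normal] (hconn : (Cfsg.commutingGraph (conjugatesOf (QuotientGroup.mk d : G ⧸ (Subgroup.center ↥L).map L.subtype))).Connected) : (Cfsg.commutingGraph (conjugatesOf d)).Connected := by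
  classical
  have hdd : d * d = 1 := by rw [← pow_two, ← hd]; exact pow_orderOf_eq_one d
  obtain ⟨k, hk⟩ := hodd
  refine aux L ((Subgroup.center ↥L).map L.subtype) hL.1.commutator_eq_top ?_ ?_ ?_ d hdd hinv hconn
  · rintro _ ⟨c, _, rfl⟩
    exact c.2
  · rintro _ ⟨c, hc, rfl⟩ l hl
    have h1 := Subgroup.mem_center_iff.mp hc ⟨l, hl⟩
    exact (congrArg Subtype.val h1).symm
  · rintro _ ⟨c, hc, rfl⟩
    refine ⟨L.subtype (c ^ (k + 1)), Subgroup.mem_map_of_mem _ (Subgroup.pow_mem _ hc _), ?_⟩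
    have h1 : (⟨c, hc⟩ : Subgroup.center ↥L) ^ (2 * k + 1) = 1 := by
      rw [← hk]; exact pow_card_eq_one'
    have h2 : c ^ (2 * k + 1) = 1 := congrArg Subtype.val h1
    rw [← map_mul, ← pow_add]
    have h3 : k + 1 + (k + 1) = (2 * k + 1) + 1 := by ring
    rw [h3, pow_succ, h2, one_mul]

end Cfsg.Agent.S5459
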