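import Cfsg.Statements.S5541
-- import your own Cfsg.Agent.* helpers here

set_option autoImplicit false
open Cfsg

namespace Cfsg.Agent.S5541

/-- Let ρ be a representation of a group H on a finite-dimensional real vector space U whose only ρ-invariant subspaces are the zero subspace and U, and suppose U carries a non-zero ρ-invariant symmetric bilinear form. Then the following are equivalent: (1) there is a non-zero ρ-equivariant commutative bilinear product on U of which every ρ-equivariant bilinear product is a scalar multiple; (2) there is a non-zero ρ-invariant trilinear form on U that is symmetric under all permutations of its arguments and of which every ρ-invariant trilinear form is a scalar multiple. -/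
theorem result {H : Type*} [Group H] {U : Type*} [AddCommGroup U] [Module ℝ U] [FiniteDimensional ℝ U] (ρ : Representation ℝ H U) (hirr : ∀ W : Submodule ℝ U, (∀ g : H, W.map (ρ g) ≤ W) → W = ⊥ ∨ W = ⊤) (B : LinearMap.BilinForm ℝ U) (hB0 : B ≠ 0) (hBs : ∀ u v, B u v = B v u) (hBi : ∀ (g : H) (u v : U), B (ρ g u) (ρ g v) = B u v) : (∃ m : U →ₗ[ℝ] U →ₗ[ℝ] U, m ≠ 0 ∧ (∀ u v, m u v = m v u) ∧ (∀ (g : H) (u v : U), m (ρ g u) (ρ g v) = ρ g (m u v)) ∧ ∀ m' : U →ₗ[ℝ] U →ₗ[ℝ] U, (∀ (g : H) (u v : U), m' (ρ g u) (ρ g v) = ρ g (m' u v)) → ∃ c : ℝ, m' = c • m) ↔ (∃ t : U →ₗ[ℝ] U →ₗ[ℝ] U →ₗ[ℝ] ℝ, t ≠ 0 ∧ (∀ u v w, t u v w = t v u w ∧ t u v w = t u w v) ∧ (∀ (g : H) (u v w : U), t (ρ g u) (ρ g v) (ρ g w) = t u v w) ∧ ∀ t' : U →ₗ[ℝ] U →ₗ[ℝ] U →ₗ[ℝ] ℝ, (∀ (g : H) (u v w : U), t' (ρ g u) (ρ g v) (ρ g w) = t' u v w) → ∃ c : ℝ, t' = c • t) := by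
  -- ρ g is invertible
  have hinv : ∀ (g : H) (w : U), ρ g (ρ g⁻¹ w) = w := by
    intro g w
    rw [← Module.End.mul_apply, ← map_mul, mul_inv_cancel, map_one, Module.End.one_apply]
  -- B is injective, by irreducibility
  have hker : LinearMap.ker B = ⊥ := by
    rcases hirr (LinearMap.ker B) (by
      intro g u hu
      rw [Submodule.mem_map] at hu
      obtain ⟨u0, hu0, rfl⟩ := hu
      rw [LinearMap.mem_ker] at hu0 ⊢
      ext w
      rw [← hinv g w, hBi, hu0]; rfl) with h | h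
    · exact h
    · exact absurd (LinearMap.ker_eq_top.mp h) hB0
  have hinj : Function.Injective B := LinearMap.ker_eq_bot.mp hker
  have hnd : ∀ u u' : U, (∀ w, B u w = B u' w) → u = u' := fun u u' h => hinj (LinearMap.ext h)
  let e : U ≃ₗ[ℝ] Module.Dual ℝ U :=
    LinearMap.linearEquivOfInjective B hinj (Subspace.dual_finrank_eq).symm
  have he : ∀ φ : Module.Dual ℝ U, B (e.symm φ) = φ := by
    intro φ
    have h1 : e (e.symm φ) = B (e.symm φ) := LinearMap.linearEquivOfInjective_apply ..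
    rw [← h1, LinearEquiv.apply_symm_apply]
  -- from a trilinear form to a product
  have hΨ : ∀ t : U →ₗ[ℝ] U →ₗ[ℝ] U →ₗ[ℝ] ℝ, ∃ m : U →ₗ[ℝ] U →ₗ[ℝ] U,
      ∀ u v w, B (m u v) w = t u v w := by
    intro t
    refine ⟨t.compr₂ e.symm.toLinearMap, fun u v w => ?_⟩
    rw [LinearMap.compr₂_apply, LinearEquiv.coe_coe, he]
  -- equivariance of a product from invariance of its trilinear form
  have hequiv : ∀ (m : U →ₗ[ℝ] U →ₗ[ℝ] U) (t : U →ₗ[ℝ] U →ₗ[ℝ] U →ₗ[ℝ] ℝ),
      (∀ u v w, B (m u v) w = t u v w) →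
      (∀ (g : H) (u v w : U), t (ρ g u) (ρ g v) (ρ g w) = t u v w) →
      ∀ (g : H) (u v : U), m (ρ g u) (ρ g v) = ρ g (m u v) := by
    intro m t hmt hti g u v
    apply hnd
    intro w
    rw [← hinv g w, hmt, hti, hBi, hmt]
  -- invariance of the trilinear form of an equivariant product
  have hinvar : ∀ (m : U →ₗ[ℝ] U →ₗ[ℝ] U) (t : U →ₗ[ℝ] U →ₗ[ℝ] U →ₗ[ℝ] ℝ),
      (∀ u v w, B (m u v) w = t u v w) →
      (∀ (g : H) (u v : U), m (ρ g u) (ρ g v) = ρ g (m u v)) →
      ∀ (g : H) (u v w : U), t (ρ g u) (ρ g v) (ρ g w) = t u v w := by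
    intro m t hmt hme g u v w
    rw [← hmt, hme, hBi, hmt]
  constructor
  · rintro ⟨m, hm0, hmc, hme, hmu⟩
    have hmt : ∀ u v w, B (m u v) w = (m.compr₂ B) u v w := fun u v w => rfl
    have ht0 : m.compr₂ B ≠ 0 := by
      intro h
      apply hm0
      ext u v
      apply hnd
      intro w
      rw [hmt, h]; simp
    have hts : ∀ u v w, (m.compr₂ B) u v w = (m.compr₂ B) v u w := by
      intro u v w
      rw [← hmt, ← hmt, hmc]
    have hti := hinvar m _ hmt hme
    have htu : ∀ t' : U →ₗ[ℝ] U →ₗ[ℝ] U →ₗ[ℝ] ℝ,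
        (∀ (g : H) (u v w : U), t' (ρ g u) (ρ g v) (ρ g w) = t' u v w) →
        ∃ c : ℝ, t' = c • m.compr₂ B := by
      intro t' ht'
      obtain ⟨m', hm't'⟩ := hΨ t'
      obtain ⟨c, hc⟩ := hmu m' (hequiv m' t' hm't' ht')
      refine ⟨c, ?_⟩
      ext u v w
      rw [← hm't', hc]
      simp [LinearMap.compr₂_apply]
    generalize m.compr₂ B = t at hmt ht0 hts hti htu
    -- symmetry in the last two arguments
    obtain ⟨t2, ht2⟩ : ∃ t2 : U →ₗ[ℝ] U →ₗ[ℝ] U →ₗ[ℝ] ℝ, ∀ u v w, t2 u v w = t u w v :=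
      ⟨(LinearMap.lflip : (U →ₗ[ℝ] U →ₗ[ℝ] ℝ) ≃ₗ[ℝ] U →ₗ[ℝ] U →ₗ[ℝ] ℝ).toLinearMap.comp t,
        fun u v w => rfl⟩
    have hflip : ∀ (g : H) (u v w : U), t2 (ρ g u) (ρ g v) (ρ g w) = t2 u v w := by
      intro g u v w
      rw [ht2, ht2]
      exact hti g u w v
    obtain ⟨c, hc⟩ := htu _ hflip
    have hc' : ∀ u v w, t u w v = c * t u v w := by
      intro u v w
      rw [← ht2, hc]
      simp
    have hex : ∃ u v w, t u v w ≠ 0 := by
      by_contra hno
      push Not at hno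
      apply ht0
      ext u v w
      simpa using hno u v w
    obtain ⟨u0, v0, w0, h0⟩ := hex
    have hcc : c * c = 1 := by
      have h1 := hc' u0 v0 w0
      have h2 := hc' u0 w0 v0
      rw [h1] at h2
      have h3 : (c * c - 1) * t u0 v0 w0 = 0 := by linarith
      rcases mul_eq_zero.mp h3 with h | h
      · linarith
      · exact absurd h h0
    have hs23 : ∀ u v w, t u v w = t u w v := by
      rcases mul_self_eq_one_iff.mp hcc with h | h
      · intro u v w
        rw [hc' u v w, h, one_mul]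
      · exfalso
        apply h0
        have A : ∀ u v w, t u w v = - t u v w := by
          intro u v w
          rw [hc' u v w, h]; ring
        have e1 := A u0 v0 w0
        have e2 := hts u0 w0 v0
        have e3 := A w0 v0 u0
        have e4 := hts w0 v0 u0
        have e5 := A v0 u0 w0
        have e6 := hts v0 u0 w0
        linarith
    exact ⟨t, ht0, fun u v w => ⟨hts u v w, hs23 u v w⟩, hti, htu⟩
  · rintro ⟨t, ht0, hts, hti, htu⟩
    obtain ⟨m, hmt⟩ := hΨ t
    refine ⟨m, ?_, ?_, hequiv m t hmt hti, ?_⟩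
    · intro h
      apply ht0
      ext u v w
      rw [← hmt, h]; simp
    · intro u v
      apply hnd
      intro w
      rw [hmt, hmt, (hts u v w).1]
    · intro m' hm'
      obtain ⟨c, hc⟩ := htu (m'.compr₂ B) (hinvar m' _ (fun u v w => rfl) hm')
      refine ⟨c, ?_⟩
      ext u v
      apply hnd
      intro w
      have h1 : B (m' u v) w = (m'.compr₂ B) u v w := rfl
      rw [h1, hc]
      simp [hmt]

end Cfsg.Agent.S5541
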