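import Cfsg.Statements.S5543
-- import your own Cfsg.Agent.* helpers here

set_option autoImplicit false
open Cfsg

namespace Cfsg.Agent.S5543

open Cfsg.Axial

/-- the `1/4 ⋆ 1/4 ⊆ {1, 0}` fusion rule of a Majorana axis, in elementary form -/
theorem fusion_quarter {V : Type*} [AddCommGroup V] [Module ℝ V] (mul : V →ₗ[ℝ] V →ₗ[ℝ] V)
    (B : LinearMap.BilinForm ℝ V) (μ : V ≃ₗ[ℝ] V) (a : V) (h : IsMajoranaPair mul B μ a)
    (u v : V) (hu : mul a u = (1 / 4 : ℝ) • u) (hv : mul a v = (1 / 4 : ℝ) • v) :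
    ∃ p q : V, mul a p = p ∧ mul a q = 0 ∧ mul u v = p + q := by
  have hax := h.2.2.1.1
  have hfus := hax.2.2.2 (1 / 4) (by simp [majoranaSpectrum]) (1 / 4) (by simp [majoranaSpectrum])
    u (by rw [eigen, Module.End.mem_eigenspace_iff]; exact hu)
    v (by rw [eigen, Module.End.mem_eigenspace_iff]; exact hv)
  have hlaw : monsterLaw (1 / 4 : ℝ) (1 / 32) (1 / 4) (1 / 4) = {1, 0} := by
    rw [monsterLaw, if_neg (by norm_num), if_neg (by norm_num), if_pos (by norm_num)]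
  rw [hlaw, eigenSum, iSup_insert, iSup_singleton, Submodule.mem_sup] at hfus
  obtain ⟨p, hp, q, hq, hpq⟩ := hfus
  rw [eigen, Module.End.mem_eigenspace_iff] at hp hq
  refine ⟨p, q, ?_, ?_, hpq.symm⟩
  · rw [hp, one_smul]
  · rw [hq, zero_smul]

theorem core {V : Type*} [AddCommGroup V] [Module ℝ V] (mul : V →ₗ[ℝ] V →ₗ[ℝ] V)
    (a ay axy az axz ayz axyz : V)
    (h_x_y : mul a ay = (1 / 8 : ℝ) • (a + ay - axy))
    (h_x_xy : mul a axy = (1 / 8 : ℝ) • (a + axy - ay))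
    (h_x_z : mul a az = (1 / 8 : ℝ) • (a + az - axz))
    (h_x_xz : mul a axz = (1 / 8 : ℝ) • (a + axz - az))
    (h_x_yz : mul a ayz = (1 / 8 : ℝ) • (a + ayz - axyz))
    (h_x_xyz : mul a axyz = (1 / 8 : ℝ) • (a + axyz - ayz))
    (h_y_z : mul ay az = (1 / 8 : ℝ) • (ay + az - ayz))
    (h_y_xz : mul ay axz = (1 / 8 : ℝ) • (ay + axz - axyz))
    (h_xy_z : mul axy az = (1 / 8 : ℝ) • (axy + az - axyz))
    (h_xy_xz : mul axy axz = (1 / 8 : ℝ) • (axy + axz - ayz))
    (hfus : ∀ u v : V, mul a u = (1 / 4 : ℝ) • u → mul a v = (1 / 4 : ℝ) • v →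
      ∃ p q : V, mul a p = p ∧ mul a q = 0 ∧ mul u v = p + q) :
    ayz = axyz := by
  have hu1 : mul a (ay - axy) = (1 / 4 : ℝ) • (ay - axy) := by
    rw [map_sub, h_x_y, h_x_xy]; module
  have hu2 : mul a (az - axz) = (1 / 4 : ℝ) • (az - axz) := by
    rw [map_sub, h_x_z, h_x_xz]; module
  have hu3 : mul a (ayz - axyz) = (1 / 4 : ℝ) • (ayz - axyz) := by
    rw [map_sub, h_x_yz, h_x_xyz]; module
  have hprod : mul (ay - axy) (az - axz) = (-(1 / 4) : ℝ) • (ayz - axyz) := by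
    rw [map_sub, map_sub, LinearMap.sub_apply, LinearMap.sub_apply, h_y_z, h_y_xz, h_xy_z, h_xy_xz]
    module
  obtain ⟨p, q, hp, hq, hpq⟩ := hfus _ _ hu1 hu2
  rw [hprod] at hpq
  have h1 := congrArg (mul a) hpq
  rw [map_add, hp, hq, add_zero, map_smul, hu3] at h1
  -- p = -(1/4) • (1/4) • u3
  have h2 := hp
  rw [← h1, map_smul, map_smul, hu3] at h2
  have h3 : (3 / 64 : ℝ) • (ayz - axyz) = 0 := by
    have : (3 / 64 : ℝ) • (ayz - axyz) =
        (-(1 / 4) : ℝ) • (1 / 4 : ℝ) • (1 / 4 : ℝ) • (ayz - axyz)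
          - (-(1 / 4) : ℝ) • (1 / 4 : ℝ) • (ayz - axyz) := by module
    rw [this, h2, sub_self]
  rcases smul_eq_zero.mp h3 with h | h
  · norm_num at h
  · exact sub_eq_zero.mp h

theorem final {V : Type*} [AddCommGroup V] [Module ℝ V] (mul : V →ₗ[ℝ] V →ₗ[ℝ] V)
    (a b : V) (hb : mul b b = b) (ha : mul a a = a) (hb0 : b ≠ 0)
    (h : mul b b = (1 / 8 : ℝ) • (b + b - a)) : False := by
  rw [hb] at h
  have h1 : a = (-6 : ℝ) • b := by
    have : a = b + b - (8 : ℝ) • ((1 / 8 : ℝ) • (b + b - a)) := by module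
    rw [this, ← h]; module
  rw [h1] at ha
  simp only [map_smul, LinearMap.smul_apply, hb] at ha
  have h2 : (42 : ℝ) • b = 0 := by
    have : (42 : ℝ) • b = (-6 : ℝ) • (-6 : ℝ) • b - (-6 : ℝ) • b := by module
    rw [this, ha, sub_self]
  rcases smul_eq_zero.mp h2 with h | h
  · norm_num at h
  · exact hb0 h

theorem card_le_four {α : Type*} (S : Set α) (a b c d : α) (h : S ⊆ {a, b, c, d}) :
    Nat.card ↥S ≤ 4 := by
  rw [Nat.card_coe_set_eq]
  refine (Set.ncard_le_ncard h (Set.toFinite _)).trans ?_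
  have h1 := Set.ncard_insert_le a {b, c, d}
  have h2 := Set.ncard_insert_le b {c, d}
  have h3 := Set.ncard_insert_le c {d}
  have h4 := Set.ncard_singleton d
  omega

theorem no_triple {V : Type*} [AddCommGroup V] [Module ℝ V] (mul : V →ₗ[ℝ] V →ₗ[ℝ] V)
    (B : LinearMap.BilinForm ℝ V) (X : Subgroup (V ≃ₗ[ℝ] V)) (hX : ∀ x ∈ X, x * x = 1)
    (ax : (V ≃ₗ[ℝ] V) → V)
    (hax : ∀ x ∈ X, x ≠ 1 → Cfsg.Axial.IsMajoranaPair mul B x (ax x))
    (h2A : ∀ x ∈ X, ∀ y ∈ X, x ≠ 1 → y ≠ 1 → x ≠ y →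
      mul (ax x) (ax y) = (1 / 8 : ℝ) • (ax x + ax y - ax (x * y)))
    (x y z : V ≃ₗ[ℝ] V) (hx : x ∈ X) (hy : y ∈ X) (hz : z ∈ X) (hx1 : x ≠ 1) (hy1 : y ≠ 1)
    (hyx : y ≠ x) (hz1 : z ≠ 1) (hzx : z ≠ x) (hzy : z ≠ y) (hzxy : z ≠ x * y) : False := by
  have hxx := hX x hx
  have hyy := hX y hy
  have hzz := hX z hz
  have comm : ∀ a ∈ X, ∀ b ∈ X, a * b = b * a := by
    intro a ha b hb
    have h := eq_inv_of_mul_eq_one_left (hX (a * b) (X.mul_mem ha hb))
    rw [mul_inv_rev, inv_eq_of_mul_eq_one_left (hX a ha), inv_eq_of_mul_eq_one_left (hX b hb)] at h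
    exact h
  have hxy : x * y ∈ X := X.mul_mem hx hy
  have hxz : x * z ∈ X := X.mul_mem hx hz
  have hyz : y * z ∈ X := X.mul_mem hy hz
  have hw : x * (y * z) ∈ X := X.mul_mem hx hyz
  -- product identities
  have P2 : x * (x * y) = y := by rw [← mul_assoc, hxx, one_mul]
  have P4 : x * (x * z) = z := by rw [← mul_assoc, hxx, one_mul]
  have P6 : x * (x * (y * z)) = y * z := by rw [← mul_assoc, hxx, one_mul]
  have P8 : y * (x * z) = x * (y * z) := by
    rw [← mul_assoc, comm y hy x hx, mul_assoc]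
  have P9 : (x * y) * z = x * (y * z) := mul_assoc x y z
  have P10 : (x * y) * (x * z) = y * z := by
    rw [comm x hx y hy, mul_assoc, P4]
  have P11 : (y * z) * (x * (y * z)) = x := by
    rw [comm x hx (y * z) hyz, ← mul_assoc, hX (y * z) hyz, one_mul]
  -- a consequence used several times
  have key : y * z ≠ x := by
    intro h
    apply hzxy
    calc z = y * (y * z) := by rw [← mul_assoc, hyy, one_mul]
      _ = y * x := by rw [h]
      _ = x * y := comm y hy x hx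
  -- non-identities
  have hxy1 : x * y ≠ 1 := fun h => hyx (mul_left_cancel (h.trans hxx.symm))
  have hxz1 : x * z ≠ 1 := fun h => hzx (mul_left_cancel (h.trans hxx.symm))
  have hyz1 : y * z ≠ 1 := fun h => hzy (mul_left_cancel (h.trans hyy.symm))
  have hw1 : x * (y * z) ≠ 1 := fun h => key (mul_left_cancel (h.trans hxx.symm))
  -- distinctness
  have D2 : x ≠ x * y := fun h => hy1 (mul_left_cancel ((mul_one x).trans h)).symm
  have D4 : x ≠ x * z := fun h => hz1 (mul_left_cancel ((mul_one x).trans h)).symm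
  have D5 : x ≠ y * z := fun h => key h.symm
  have D6 : x ≠ x * (y * z) := fun h => hyz1 (mul_left_cancel ((mul_one x).trans h)).symm
  have D8 : y ≠ x * z := by
    intro h
    apply hzxy
    rw [h, P4]
  have D10 : x * y ≠ x * z := fun h => hzy (mul_left_cancel h).symm
  have D11 : y * z ≠ x * (y * z) := fun h => hx1 (mul_right_cancel ((one_mul (y * z)).trans h)).symm
  -- the ten products
  have h_x_y := h2A x hx y hy hx1 hy1 hyx.symm
  have h_x_xy := h2A x hx (x * y) hxy hx1 hxy1 D2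
  rw [P2] at h_x_xy
  have h_x_z := h2A x hx z hz hx1 hz1 hzx.symm
  have h_x_xz := h2A x hx (x * z) hxz hx1 hxz1 D4
  rw [P4] at h_x_xz
  have h_x_yz := h2A x hx (y * z) hyz hx1 hyz1 D5
  have h_x_xyz := h2A x hx (x * (y * z)) hw hx1 hw1 D6
  rw [P6] at h_x_xyz
  have h_y_z := h2A y hy z hz hy1 hz1 hzy.symm
  have h_y_xz := h2A y hy (x * z) hxz hy1 hxz1 D8
  rw [P8] at h_y_xz
  have h_xy_z := h2A (x * y) hxy z hz hxy1 hz1 hzxy.symm
  rw [P9] at h_xy_z
  have h_xy_xz := h2A (x * y) hxy (x * z) hxz hxy1 hxz1 D10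
  rw [P10] at h_xy_xz
  have heq := core mul (ax x) (ax y) (ax (x * y)) (ax z) (ax (x * z)) (ax (y * z))
    (ax (x * (y * z))) h_x_y h_x_xy h_x_z h_x_xz h_x_yz h_x_xyz h_y_z h_y_xz h_xy_z h_xy_xz
    (fusion_quarter mul B x (ax x) (hax x hx hx1))
  have h11 := h2A (y * z) hyz (x * (y * z)) hw hyz1 hw1 D11
  rw [P11, ← heq] at h11
  have hAx := (hax x hx hx1).2.2.1.1
  have hAyz := (hax (y * z) hyz hyz1).2.2.1.1
  exact final mul (ax x) (ax (y * z)) hAyz.2.1 hAx.2.1 hAyz.1 h11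

/-- Let V be a finite-dimensional real vector space with a commutative bilinear product and a positive-definite symmetric bilinear form that associates with the product and satisfies the Norton inequality (the Majorana setting of the definitions). Let X be a group of linear automorphisms of V in which every element squares to the identity, and suppose every non-identity element x of X is a Majorana involution with an axial vector a(x) of squared length 1, such that for any two distinct non-identity x, y the product a(x) ∘ a(y) equals (1/8)(a(x) + a(y) − a(xy)) (the dihedral subalgebra of type 2A whose third axis belongs to the involution xy). Then X has order at most 4. -/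
theorem result {V : Type*} [AddCommGroup V] [Module ℝ V] [FiniteDimensional ℝ V] (mul : V →ₗ[ℝ] V →ₗ[ℝ] V) (B : LinearMap.BilinForm ℝ V) (hV : Cfsg.Axial.IsMajoranaAmbient mul B) (X : Subgroup (V ≃ₗ[ℝ] V)) (hX : ∀ x ∈ X, x * x = 1) (ax : (V ≃ₗ[ℝ] V) → V) (hax : ∀ x ∈ X, x ≠ 1 → Cfsg.Axial.IsMajoranaPair mul B x (ax x)) (h1 : ∀ x ∈ X, x ≠ 1 → B (ax x) (ax x) = 1) (h2A : ∀ x ∈ X, ∀ y ∈ X, x ≠ 1 → y ≠ 1 → x ≠ y → mul (ax x) (ax y) = (1 / 8 : ℝ) • (ax x + ax y - ax (x * y))) : Nat.card ↥X ≤ 4 := by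
  have hnt := no_triple mul B X hX ax hax h2A
  by_cases hex : ∃ x ∈ X, x ≠ 1
  · obtain ⟨x, hx, hx1⟩ := hex
    by_cases hey : ∃ y ∈ X, y ≠ 1 ∧ y ≠ x
    · obtain ⟨y, hy, hy1, hyx⟩ := hey
      apply card_le_four (X : Set (V ≃ₗ[ℝ] V)) 1 x y (x * y)
      intro z hz
      by_contra hzn
      simp only [Set.mem_insert_iff, Set.mem_singleton_iff, not_or] at hzn
      exact hnt x y z hx hy hz hx1 hy1 hyx hzn.1 hzn.2.1 hzn.2.2.1 hzn.2.2.2
    · apply card_le_four (X : Set (V ≃ₗ[ℝ] V)) 1 x x x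
      intro z hz
      by_contra hzn
      simp only [Set.mem_insert_iff, Set.mem_singleton_iff, not_or] at hzn
      exact hey ⟨z, hz, hzn.1, hzn.2.1⟩
  · apply card_le_four (X : Set (V ≃ₗ[ℝ] V)) 1 1 1 1
    intro z hz
    by_contra hzn
    simp only [Set.mem_insert_iff, Set.mem_singleton_iff, not_or] at hzn
    exact hex ⟨z, hz, hzn.1⟩

end Cfsg.Agent.S5543
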