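import Cfsg.Statements.S5546
import Cfsg.Agent.Helper92.LeechMonomial

set_option autoImplicit false
open Cfsg

namespace Cfsg.Agent.S5546

open Cfsg.Agent.Helper92

/-- the point `some j` -/
def pt (j : Fin 23) : GolayPt := some (ZMod.finEquiv 23 j)

theorem pt_inj {j k : Fin 23} : pt j = pt k ↔ j = k := by
  unfold pt
  rw [Option.some_inj]
  exact (ZMod.finEquiv 23).injective.eq_iff

theorem pt_zero : pt 0 = some 0 := by
  unfold pt
  rw [map_zero]

theorem some_eq_pt (i : ZMod 23) : (some i : GolayPt) = pt ((ZMod.finEquiv 23).symm i) := by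
  unfold pt
  rw [RingEquiv.apply_symm_apply]

theorem single8_mem (i : GolayPt) : (Pi.single i 8 : GolayPt → ℤ) ∈ leechLattice := by
  rw [← P_diag_val]
  exact (P i i).2

/-- a basis of the vectors orthogonal to `vecU`, scaled by 8 -/
def fvec (j : Fin 23) : GolayPt → ℤ :=
  Pi.single (pt j) 8 - (if j = 0 then Pi.single none 8 else 0)

theorem fvec_mem (j : Fin 23) : fvec j ∈ leechLattice := by
  unfold fvec
  apply sub_mem (single8_mem _)
  split_ifs
  · exact single8_mem none
  · exact zero_mem _

/-- the basis vectors as lattice elements -/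
def F (j : Fin 23) : leechLattice := ⟨fvec j, fvec_mem j⟩

theorem fvec_pt (j k : Fin 23) : fvec j (pt k) = if k = j then 8 else 0 := by
  unfold fvec
  rw [Pi.sub_apply, Pi.single_apply]
  have h0 : (if j = 0 then (Pi.single none 8 : GolayPt → ℤ) else 0) (pt k) = 0 := by
    split_ifs
    · rw [Pi.single_apply, if_neg]
      exact Option.some_ne_none _
    · rfl
  rw [h0, sub_zero]
  by_cases h : k = j
  · rw [if_pos h, if_pos (by rw [h])]
  · rw [if_neg h, if_neg (fun h' => h (pt_inj.1 h'))]

theorem fvec_none (j : Fin 23) : fvec j none = if j = 0 then -8 else 0 := by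
  unfold fvec
  rw [Pi.sub_apply, Pi.single_apply, if_neg (fun h => Option.some_ne_none _ h.symm)]
  split_ifs
  · rw [Pi.single_eq_same]; rfl
  · rfl

theorem dotInt_vecU (y : GolayPt → ℤ) :
    dotInt y Cfsg.Spor.vecU = 4 * y none + 4 * y (some 0) := by
  unfold dotInt Cfsg.Spor.vecU
  rw [Fintype.sum_option]
  simp only [true_or, if_true, Option.some.injEq, reduceCtorEq, false_or]
  rw [Finset.sum_eq_single (0 : ZMod 23)]
  · simp
    ring
  · intro b _ hb
    simp [hb]
  · intro h; exact absurd (Finset.mem_univ _) h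

theorem perp_F (j : Fin 23) : dotInt (fvec j) Cfsg.Spor.vecU = 0 := by
  rw [dotInt_vecU, fvec_none, ← pt_zero, fvec_pt]
  by_cases h : j = 0
  · rw [if_pos h, if_pos h.symm]; rfl
  · rw [if_neg h, if_neg (fun h' => h h'.symm)]; rfl

/-- decomposition of a vector orthogonal to `vecU` -/
theorem decomp (y : leechLattice) (hy : (y : GolayPt → ℤ) none + (y : GolayPt → ℤ) (some 0) = 0) :
    (8 : ℤ) • y = ∑ j, ((y : GolayPt → ℤ) (pt j)) • F j := by
  apply Subtype.ext
  funext p
  simp only [AddSubgroup.coe_zsmul, AddSubgroup.val_finsetSum, Pi.smul_apply, Finset.sum_apply,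
    smul_eq_mul]
  show 8 * (y : GolayPt → ℤ) p = ∑ j, (y : GolayPt → ℤ) (pt j) * fvec j p
  cases p with
  | none =>
    simp only [fvec_none, mul_ite, mul_zero]
    rw [Finset.sum_ite_eq' Finset.univ (0 : Fin 23)]
    simp only [Finset.mem_univ, if_true]
    rw [pt_zero]
    omega
  | some i =>
    rw [some_eq_pt i]
    simp only [fvec_pt, mul_ite, mul_zero]
    rw [Finset.sum_ite_eq Finset.univ ((ZMod.finEquiv 23).symm i)]
    simp only [Finset.mem_univ, if_true]
    ring

theorem perp_smul (h : Co0) (hh : h • Cfsg.Spor.leechU = Cfsg.Spor.leechU) (j : Fin 23) :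
    ((h • F j : leechLattice) : GolayPt → ℤ) none +
      ((h • F j : leechLattice) : GolayPt → ℤ) (some 0) = 0 := by
  have h1 := co0_dotInt h (F j) Cfsg.Spor.leechU
  rw [hh] at h1
  have h2 : dotInt ((h • F j : leechLattice) : GolayPt → ℤ) Cfsg.Spor.vecU =
      dotInt (fvec j) Cfsg.Spor.vecU := h1
  rw [perp_F, dotInt_vecU] at h2
  omega

/-- the matrix of coordinates modulo 13 -/
def aMat (g : Co0) : Matrix (Fin 23) (Fin 23) (ZMod 13) :=
  fun k j => ((((g • F j : leechLattice) : GolayPt → ℤ) (pt k) : ℤ) : ZMod 13)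

/-- the representation: coordinates divided by 8 modulo 13 -/
def rho (g : Co0) : Matrix (Fin 23) (Fin 23) (ZMod 13) := fun k j => 5 * aMat g k j

theorem rho_one : rho 1 = 1 := by
  ext k j
  show 5 * (((fvec j (pt k) : ℤ)) : ZMod 13) = (1 : Matrix (Fin 23) (Fin 23) (ZMod 13)) k j
  rw [fvec_pt, Matrix.one_apply]
  by_cases h : k = j
  · rw [if_pos h, if_pos h]; decide
  · rw [if_neg h, if_neg h]; decide

theorem rho_mul (g h : Co0) (hh : h • Cfsg.Spor.leechU = Cfsg.Spor.leechU) :
    rho (g * h) = rho g * rho h := by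
  ext k j
  have hy := perp_smul h hh j
  have h1 : g • ((8 : ℤ) • (h • F j)) =
      ∑ i, (((h • F j : leechLattice) : GolayPt → ℤ) (pt i)) • (g • F i) := by
    rw [decomp (h • F j) hy, co0_sum]
    apply Finset.sum_congr rfl
    intro i _
    rw [co0_zsmul]
  rw [co0_zsmul] at h1
  have h2 := congrFun (congrArg Subtype.val h1) (pt k)
  simp only [AddSubgroup.coe_zsmul, AddSubgroup.val_finsetSum, Pi.smul_apply, Finset.sum_apply,
    smul_eq_mul] at h2
  have h3 : (8 : ZMod 13) * aMat (g * h) k j = ∑ i, aMat h i j * aMat g k i := by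
    have := congrArg (Int.cast : ℤ → ZMod 13) h2
    push_cast at this
    exact this
  rw [Matrix.mul_apply]
  show 5 * aMat (g * h) k j = ∑ i, (5 * aMat g k i) * (5 * aMat h i j)
  have h4 : ∑ i, (5 * aMat g k i) * (5 * aMat h i j) = 25 * ∑ i, aMat h i j * aMat g k i := by
    rw [Finset.mul_sum]
    apply Finset.sum_congr rfl
    intro i _
    ring
  rw [h4, ← h3, ← mul_assoc]
  congr 1

/-- a vector of squared length 64 congruent to `8 e_p` modulo 13 is `8 e_p` -/
theorem shape1 (w : GolayPt → ℤ) (p : GolayPt) (hn : sqNorm w = 64)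
    (h13 : ∀ q, q ≠ p → (13 : ℤ) ∣ w q) (hp : (13 : ℤ) ∣ w p - 8) : w = Pi.single p 8 := by
  have hsplit : sqNorm w = w p ^ 2 + ∑ q ∈ Finset.univ.erase p, w q ^ 2 := by
    unfold sqNorm
    exact (Finset.add_sum_erase _ (fun q => w q ^ 2) (Finset.mem_univ p)).symm
  have hR0 : 0 ≤ ∑ q ∈ Finset.univ.erase p, w q ^ 2 := Finset.sum_nonneg (fun q _ => sq_nonneg _)
  have hR : (169 : ℤ) ∣ ∑ q ∈ Finset.univ.erase p, w q ^ 2 := by
    apply Finset.dvd_sum
    intro q hq
    obtain ⟨a, ha⟩ := h13 q (Finset.ne_of_mem_erase hq)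
    exact ⟨a ^ 2, by rw [ha]; ring⟩
  rw [hsplit] at hn
  have hb1 : w p ≤ 8 := by nlinarith [sq_nonneg (w p)]
  have hb2 : -8 ≤ w p := by nlinarith [sq_nonneg (w p)]
  have hcases : w p = 8 ∨ w p = -5 := by omega
  rcases hcases with h8 | h5
  · rw [h8] at hn
    have hR' : ∑ q ∈ Finset.univ.erase p, w q ^ 2 = 0 := by omega
    have hz := (Finset.sum_eq_zero_iff_of_nonneg (fun q _ => sq_nonneg (w q))).1 hR'
    funext q
    by_cases hq : q = p
    · subst hq
      rw [h8, Pi.single_eq_same]
    · rw [Pi.single_apply, if_neg hq]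
      have := hz q (Finset.mem_erase.2 ⟨hq, Finset.mem_univ q⟩)
      exact pow_eq_zero_iff (two_ne_zero) |>.1 this
  · rw [h5] at hn
    exfalso
    omega

/-- a vector of squared length 128, orthogonal to `vecU`, congruent to `8 e_0 - 8 e_∞`
modulo 13 is that vector -/
theorem shape2 (w : GolayPt → ℤ) (hn : sqNorm w = 128)
    (h13 : ∀ q, q ≠ some 0 → q ≠ none → (13 : ℤ) ∣ w q) (h0 : (13 : ℤ) ∣ w (some 0) - 8)
    (hperp : w none + w (some 0) = 0) :
    w = Pi.single (some 0) 8 - Pi.single none 8 := by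
  have hsplit : sqNorm w = w (some 0) ^ 2 + (w none ^ 2 +
      ∑ q ∈ (Finset.univ.erase (some 0 : GolayPt)).erase none, w q ^ 2) := by
    unfold sqNorm
    rw [Finset.add_sum_erase _ (fun q => w q ^ 2)
      (Finset.mem_erase.2 ⟨by decide, Finset.mem_univ (none : GolayPt)⟩),
      Finset.add_sum_erase _ (fun q => w q ^ 2) (Finset.mem_univ (some 0 : GolayPt))]
  have hR0 : 0 ≤ ∑ q ∈ (Finset.univ.erase (some 0 : GolayPt)).erase none, w q ^ 2 :=
    Finset.sum_nonneg (fun q _ => sq_nonneg _)
  have hR : (169 : ℤ) ∣ ∑ q ∈ (Finset.univ.erase (some 0 : GolayPt)).erase none, w q ^ 2 := by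
    apply Finset.dvd_sum
    intro q hq
    have hq1 := Finset.ne_of_mem_erase hq
    have hq2 := Finset.ne_of_mem_erase (Finset.mem_of_mem_erase hq)
    obtain ⟨a, ha⟩ := h13 q hq2 hq1
    exact ⟨a ^ 2, by rw [ha]; ring⟩
  rw [hsplit] at hn
  have hnone : w none = -w (some 0) := by omega
  rw [hnone] at hn
  have hsq : 0 ≤ w (some 0) ^ 2 := sq_nonneg _
  have hR' : ∑ q ∈ (Finset.univ.erase (some 0 : GolayPt)).erase none, w q ^ 2 = 0 := by
    have e : (-w (some 0)) ^ 2 = w (some 0) ^ 2 := by ring
    rw [e] at hn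
    omega
  rw [hR'] at hn
  have hb1 : w (some 0) ≤ 8 := by nlinarith
  have hb2 : -8 ≤ w (some 0) := by nlinarith
  have hcases : w (some 0) = 8 ∨ w (some 0) = -5 := by omega
  have h8 : w (some 0) = 8 := by
    rcases hcases with h | h
    · exact h
    · rw [h] at hn
      exfalso
      norm_num at hn
  have hz := (Finset.sum_eq_zero_iff_of_nonneg (fun q _ => sq_nonneg (w q))).1 hR'
  funext q
  rw [Pi.sub_apply, Pi.single_apply, Pi.single_apply]
  by_cases hq0 : q = some 0
  · subst hq0
    rw [h8]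
    simp
  · by_cases hqn : q = none
    · subst hqn
      rw [hnone, h8]
      simp
    · rw [if_neg hq0, if_neg hqn]
      have := hz q (Finset.mem_erase.2 ⟨hqn, Finset.mem_erase.2 ⟨hq0, Finset.mem_univ q⟩⟩)
      rw [sub_zero]
      exact pow_eq_zero_iff (two_ne_zero) |>.1 this

theorem sqNorm_single8 (p : GolayPt) : sqNorm (Pi.single p 8 : GolayPt → ℤ) = 64 := by
  rw [← P_diag_val]
  exact sqNorm_F p

theorem fvec_ne_zero {j : Fin 23} (hj : j ≠ 0) : fvec j = Pi.single (pt j) 8 := by
  unfold fvec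
  rw [if_neg hj, sub_zero]

theorem fvec_zero : fvec 0 = Pi.single (some 0) 8 - Pi.single none 8 := by
  unfold fvec
  rw [if_pos rfl]
  rfl

theorem sqNorm_fvec_zero : sqNorm (fvec 0) = 128 := by
  rw [fvec_zero]
  unfold sqNorm
  rw [Fintype.sum_option]
  simp only [Pi.sub_apply, Pi.single_apply]
  rw [Finset.sum_eq_single (0 : ZMod 23)]
  · simp
  · intro b _ hb
    simp [hb]
  · intro h; exact absurd (Finset.mem_univ _) h

theorem cast13 (a b : ℤ) (h : ((a : ℤ) : ZMod 13) = ((b : ℤ) : ZMod 13)) : (13 : ℤ) ∣ a - b := by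
  have h1 : (((a - b : ℤ)) : ZMod 13) = 0 := by
    push_cast
    rw [h, sub_self]
  exact (ZMod.intCast_zmod_eq_zero_iff_dvd _ 13).1 h1

/-- an automorphism fixing `leechU` and inducing the identity matrix fixes every `F j` -/
theorem fix_F (g : Co0) (hg : g • Cfsg.Spor.leechU = Cfsg.Spor.leechU) (h1 : rho g = 1)
    (j : Fin 23) : g • F j = F j := by
  have hcong : ∀ k, (13 : ℤ) ∣ ((g • F j : leechLattice) : GolayPt → ℤ) (pt k) - fvec j (pt k) := by
    intro k
    apply cast13
    have h2 : rho g k j = (1 : Matrix (Fin 23) (Fin 23) (ZMod 13)) k j := by rw [h1]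
    have h3 : (5 : ZMod 13) * aMat g k j = (1 : Matrix (Fin 23) (Fin 23) (ZMod 13)) k j := h2
    have h4 : aMat g k j = 8 * (1 : Matrix (Fin 23) (Fin 23) (ZMod 13)) k j := by
      rw [← h3, ← mul_assoc]
      have : (8 : ZMod 13) * 5 = 1 := by decide
      rw [this, one_mul]
    show aMat g k j = _
    rw [h4, fvec_pt, Matrix.one_apply]
    by_cases hkj : k = j
    · rw [if_pos hkj, if_pos hkj]; decide
    · rw [if_neg hkj, if_neg hkj]; decide
  have hperp := perp_smul g hg j
  have hnorm : sqNorm ((g • F j : leechLattice) : GolayPt → ℤ) = sqNorm (fvec j) :=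
    co0_sqNorm g (F j)
  apply Subtype.ext
  show ((g • F j : leechLattice) : GolayPt → ℤ) = fvec j
  by_cases hj : j = 0
  · subst hj
    rw [fvec_zero]
    apply shape2
    · rw [hnorm, sqNorm_fvec_zero]
    · intro q hq0 hqn
      cases q with
      | none => exact absurd rfl hqn
      | some i =>
        have hq : (some i : GolayPt) = pt ((ZMod.finEquiv 23).symm i) := some_eq_pt i
        have hi : (ZMod.finEquiv 23).symm i ≠ 0 := fun h => hq0 (by rw [hq, h, pt_zero])
        have := hcong ((ZMod.finEquiv 23).symm i)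
        rw [fvec_pt, if_neg hi, sub_zero] at this
        rw [hq]
        exact this
    · have := hcong 0
      rw [fvec_pt, if_pos rfl] at this
      exact this
    · exact hperp
  · rw [fvec_ne_zero hj]
    apply shape1
    · rw [hnorm, fvec_ne_zero hj, sqNorm_single8]
    · intro q hq
      have h0 : (13 : ℤ) ∣ ((g • F j : leechLattice) : GolayPt → ℤ) (some 0) := by
        have := hcong 0
        rw [fvec_pt, if_neg (fun h => hj h.symm), sub_zero] at this
        exact this
      cases q with
      | none =>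
        have : ((g • F j : leechLattice) : GolayPt → ℤ) none =
            -((g • F j : leechLattice) : GolayPt → ℤ) (some 0) := by omega
        rw [this]
        exact (dvd_neg).2 h0
      | some i =>
        have hq' : (some i : GolayPt) = pt ((ZMod.finEquiv 23).symm i) := some_eq_pt i
        have hi : (ZMod.finEquiv 23).symm i ≠ j := fun h => hq (by rw [hq', h])
        have := hcong ((ZMod.finEquiv 23).symm i)
        rw [fvec_pt, if_neg hi, sub_zero] at this
        rw [hq']
        exact this
    · have := hcong j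
      rw [fvec_pt, if_pos rfl] at this
      exact this

theorem two_P_zero : (2 : ℤ) • P (some 0) (some 0) =
    F 0 + (Cfsg.Spor.leechU + Cfsg.Spor.leechU) := by
  apply Subtype.ext
  funext p
  show (2 : ℤ) • (e4 (some 0) p + e4 (some 0) p) =
    fvec 0 p + (Cfsg.Spor.vecU p + Cfsg.Spor.vecU p)
  rw [fvec_zero]
  simp only [e4_apply, Cfsg.Spor.vecU, Pi.sub_apply, Pi.single_apply, smul_eq_mul]
  revert p
  decide

theorem two_P_none : (2 : ℤ) • P none none =
    (Cfsg.Spor.leechU + Cfsg.Spor.leechU) - F 0 := by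
  apply Subtype.ext
  funext p
  show (2 : ℤ) • (e4 none p + e4 none p) =
    (Cfsg.Spor.vecU p + Cfsg.Spor.vecU p) - fvec 0 p
  rw [fvec_zero]
  simp only [e4_apply, Cfsg.Spor.vecU, Pi.sub_apply, Pi.single_apply, smul_eq_mul]
  revert p
  decide

theorem two_cancel {x y : leechLattice} (h : (2 : ℤ) • x = (2 : ℤ) • y) : x = y := by
  apply Subtype.ext
  funext p
  have h1 := congrFun (congrArg Subtype.val h) p
  have h2 : 2 * (x : GolayPt → ℤ) p = 2 * (y : GolayPt → ℤ) p := h1
  omega

theorem co0_sub (g : Co0) (u v : leechLattice) : g • (u - v) = g • u - g • v := by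
  rw [sub_eq_add_neg, co0_add, co0_neg, ← sub_eq_add_neg]

theorem eq_one_of_rho (g : Co0) (hg : g • Cfsg.Spor.leechU = Cfsg.Spor.leechU)
    (h1 : rho g = 1) : g = 1 := by
  have hF := fix_F g hg h1
  have hP : ∀ i, g • P i i = (1 : ℤ) • P i i := by
    intro i
    rw [one_smul]
    cases i with
    | none =>
      apply two_cancel
      rw [← co0_zsmul, two_P_none, co0_sub, co0_add, hg, hF]
    | some i =>
      rw [some_eq_pt i]
      by_cases hi : (ZMod.finEquiv 23).symm i = 0
      · rw [hi, pt_zero]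
        apply two_cancel
        rw [← co0_zsmul, two_P_zero, co0_add, co0_add, hg, hF]
      · have hPF : P (pt ((ZMod.finEquiv 23).symm i)) (pt ((ZMod.finEquiv 23).symm i)) =
            F ((ZMod.finEquiv 23).symm i) := by
          apply Subtype.ext
          rw [P_diag_val]
          show _ = fvec ((ZMod.finEquiv 23).symm i)
          rw [fvec_ne_zero hi]
        rw [hPF, hF]
  apply co0_ext
  intro x
  rw [co0_eq_of_F g 1 hP x, one_smul]
  rfl

/-- the inclusion of the stabiliser into the automorphism group -/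
def incl : ↥Cfsg.Spor.Co2 →* Co0 := Subgroup.inclusion inf_le_left

theorem incl_fix (g : ↥Cfsg.Spor.Co2) : incl g • Cfsg.Spor.leechU = Cfsg.Spor.leechU :=
  MulAction.mem_stabilizer_iff.1 g.2.2

/-- the representation as a monoid homomorphism into matrices -/
def rhoHom : ↥Cfsg.Spor.Co2 →* Matrix (Fin 23) (Fin 23) (ZMod 13) where
  toFun g := rho (incl g)
  map_one' := by rw [map_one]; exact rho_one
  map_mul' := by
    intro g h
    rw [map_mul]
    exact rho_mul _ _ (incl_fix h)

/-- The second Conway group (the stabilizer in the Leech lattice automorphism group of the short vector fixed in the definitions) is isomorphic to a subgroup of the general linear group of degree 23 over the field with 13 elements: there is an injective homomorphism into it. -/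
theorem result : ∃ f : ↥Cfsg.Spor.Co2 →* GL (Fin 23) (ZMod 13), Function.Injective f := by
  refine ⟨rhoHom.toHomUnits, ?_⟩
  rw [injective_iff_map_eq_one]
  intro g hg
  have h1 : rho (incl g) = 1 := by
    have := congrArg (fun u : GL (Fin 23) (ZMod 13) => (u : Matrix (Fin 23) (Fin 23) (ZMod 13))) hg
    exact this
  have h2 := eq_one_of_rho (incl g) (incl_fix g) h1
  have h3 : incl g = incl 1 := by rw [h2, map_one]
  exact Subgroup.inclusion_injective inf_le_left h3

end Cfsg.Agent.S5546
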