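import Cfsg.Statements.S5548
import Cfsg.Agent.Helper91.Words2

set_option autoImplicit false
open Cfsg

namespace Cfsg.Agent.S5548

open Cfsg.Agent.Helper91
open scoped Pointwise

/-- Generators of the stabilizer of the point 0. -/
def g1 : List (List Nat) :=
  [[0, 23, 13, 9, 1, 2, 15, 21, 19, 16, 5, 12, 11, 3, 18, 7, 10, 14, 22, 4, 17, 20, 8, 6],
   [0, 18, 17, 12, 7, 2, 19, 1, 22, 4, 5, 10, 21, 8, 9, 14, 16, 3, 20, 23, 6, 13, 11, 15]]

theorem g1_ok : g1.all (fun T => validTab T && inM24 T) = true := by decide +kernel

theorem g1_chk : cosetChk 1 g1 = true := by decide +kernel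

/-- Generators of the stabilizer of the set of the points 0, 4. -/
def g2 : List (List Nat) :=
  [[4, 13, 22, 7, 0, 8, 16, 17, 23, 6, 15, 21, 12, 18, 1, 11, 20, 10, 9, 5, 2, 3, 19, 14],
   [0, 8, 15, 18, 4, 23, 16, 2, 21, 7, 10, 17, 13, 12, 14, 9, 6, 20, 5, 1, 22, 19, 11, 3]]

theorem g2_ok : g2.all (fun T => validTab T && inM24 T) = true := by decide +kernel

theorem g2_chk : cosetChk 17 g2 = true := by decide +kernel

/-- Generators of the stabilizer of the set of the points 1, 2, 3. -/
def g3 : List (List Nat) :=
  [[12, 1, 3, 2, 8, 9, 4, 6, 14, 0, 17, 10, 21, 18, 23, 11, 15, 19, 5, 20, 16, 22, 7, 13],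
   [14, 3, 2, 1, 12, 5, 21, 11, 18, 4, 15, 22, 20, 16, 23, 8, 10, 0, 6, 9, 7, 13, 19, 17]]

theorem g3_ok : g3.all (fun T => validTab T && inM24 T) = true := by decide +kernel

theorem g3_chk : cosetChk 14 g3 = true := by decide +kernel

/-- Generators of the stabilizer of the sextet of the points 0, 1, 2, 3. -/
def g4 : List (List Nat) :=
  [[19, 8, 16, 15, 13, 11, 17, 20, 10, 23, 18, 14, 21, 3, 22, 4, 12, 9, 1, 7, 0, 2, 5, 6],
   [15, 16, 19, 8, 3, 20, 22, 2, 10, 6, 1, 9, 0, 23, 21, 7, 12, 13, 14, 4, 5, 17, 11, 18]]

theorem g4_ok : g4.all (fun T => validTab T && inM24 T) = true := by decide +kernel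

theorem g4_chk : cosetChk 15 g4 = true := by decide +kernel

/-- An invariant subspace with a word outside the code contains the word of a set of two points. -/
theorem duad_of_not_code {W : Submodule (ZMod 2) (GolayPt → ZMod 2)} (hW : InvSub W)
    {w : GolayPt → ZMod 2} (hw : w ∈ W) (hwC : w ∉ golayCode) :
    ∃ a b : GolayPt, a ≠ b ∧ ind {a, b} ∈ W := by
  have hnc : Helper26.isCode (mk w) = false := by
    rw [mem_golayCode_iff26] at hwC
    exact Bool.eq_false_iff.2 hwC
  obtain ⟨L, hL, hL1, hL4, hLc⟩ := exists_leader (mk_lt w) hnc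
  have hcard : (setM L).card = Helper26.pc24 L := card_setM hL
  rcases exists_m24_small (s := setM L) (by omega) (by omega) with
    ⟨g, hg, e⟩ | ⟨g, hg, e⟩ | ⟨g, hg, e⟩ | ⟨g, hg, e⟩
  · exact duad_of_coset hW (by norm_num) g1_ok g1_chk hw hL hLc (by omega) (by omega) hg e
  · exact duad_of_coset hW (by norm_num) g2_ok g2_chk hw hL hLc (by omega) (by omega) hg e
  · exact duad_of_coset hW (by norm_num) g3_ok g3_chk hw hL hLc (by omega) (by omega) hg e
  · exact duad_of_coset hW (by norm_num) g4_ok g4_chk hw hL hLc (by omega) (by omega) hg e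

/-- For the automorphism group of the length-24 binary Golay code of the definitions (the Mathieu group of degree 24) acting on binary words of length 24 by permuting coordinates, the only invariant subspaces of the space of all words are: zero, the span of the all-ones word, the code itself, the even-weight words, and the whole space. (So the permutation module has a unique composition series.) -/
theorem result (W : Submodule (ZMod 2) (Cfsg.GolayPt → ZMod 2)) (hW : ∀ σ ∈ Cfsg.M24, ∀ w ∈ W, (fun p => w (σ.symm p)) ∈ W) : W = ⊥ ∨ W = Submodule.span (ZMod 2) {fun _ => (1 : ZMod 2)} ∨ W = Cfsg.golayCode ∨ (W : Set (Cfsg.GolayPt → ZMod 2)) = {w | ∑ p, w p = 0} ∨ W = ⊤ := by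
  have hW' : InvSub W := hW
  by_cases hWC : W ≤ golayCode
  · by_cases h : ∃ w ∈ W, w ≠ 0 ∧ w ≠ 1
    · right; right; left
      obtain ⟨w, hw, hw0, hw1⟩ := h
      have hc := (mem_golayCode_iff26 w).1 (hWC hw)
      refine le_antisymm hWC (code_le_of_mem hW' hc (mk_ne_zero hw0) (mk_ne_ALL hw1) ?_)
      rw [toWord_mk]; exact hw
    · have h01 : ∀ w ∈ W, w = 0 ∨ w = 1 := by
        intro w hw
        by_cases hw0 : w = 0
        · exact Or.inl hw0
        · by_cases hw1 : w = 1
          · exact Or.inr hw1
          · exact absurd ⟨w, hw, hw0, hw1⟩ h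
      by_cases h1 : (1 : GolayPt → ZMod 2) ∈ W
      · right; left
        apply le_antisymm
        · intro w hw
          rcases h01 w hw with e | e
          · rw [e]; exact Submodule.zero_mem _
          · rw [e]; exact Submodule.subset_span rfl
        · rw [Submodule.span_le]
          intro x hx
          rw [Set.mem_singleton_iff] at hx
          rw [hx]
          exact h1
      · left
        rw [eq_bot_iff]
        intro w hw
        rcases h01 w hw with e | e
        · rw [e]; exact Submodule.zero_mem _
        · rw [e] at hw; exact absurd hw h1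
  · obtain ⟨w, hw, hwC⟩ := Set.not_subset.1 hWC
    obtain ⟨a, b, hab, hd⟩ := duad_of_not_code hW' hw hwC
    have hE := even_mem (all_duads hW' hab hd)
    right; right; right
    by_cases hodd : ∃ v ∈ W, ∑ p, v p ≠ 0
    · right
      obtain ⟨v1, hv1, hs1⟩ := hodd
      rw [eq_top_iff]
      intro v _
      by_cases hv : ∑ p, v p = 0
      · exact hE v hv
      · have hsum : ∑ p, (v + v1) p = 0 := by
          simp only [Pi.add_apply]
          rw [Finset.sum_add_distrib]
          have key : ∀ x y : ZMod 2, x ≠ 0 → y ≠ 0 → x + y = 0 := by decide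
          exact key _ _ hv hs1
        have h2 := W.add_mem (hE _ hsum) hv1
        have e : v + v1 + v1 = v := by
          funext p
          simp only [Pi.add_apply]
          have key : ∀ x y : ZMod 2, x + y + y = x := by decide
          exact key _ _
        rw [e] at h2
        exact h2
    · left
      ext v
      constructor
      · intro hv
        by_contra hne
        exact hodd ⟨v, hv, hne⟩
      · intro hv
        exact hE v hv

end Cfsg.Agent.S5548
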