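import Cfsg.Statements.S5549
import Cfsg.Agent.Helper27.CocodeB

set_option autoImplicit false
open Cfsg

namespace Cfsg.Agent.S5549

open scoped Pointwise

/-- Let X be a group of linear automorphisms of the length-24 binary Golay code of the definitions that fix the all-ones word, containing the coordinate-permutation action of every element of the code's automorphism group (the Mathieu group of degree 24), and such that every element of X sends each codeword into its orbit under that Mathieu group up to adding the all-ones word (X has the same orbits as the Mathieu group on the code modulo the all-ones word). Then every element of X agrees, modulo the all-ones word, with the action of a single element of the Mathieu group: X induces exactly the Mathieu group on the code modulo the all-ones word. -/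
theorem result (X : Subgroup (↥Cfsg.golayCode ≃ₗ[ZMod 2] ↥Cfsg.golayCode)) (h1 : ∀ x ∈ X, ∀ e : ↥Cfsg.golayCode, (e : (Cfsg.GolayPt → ZMod 2)) = (fun _ => (1 : ZMod 2)) → x e = e) (hM : ∀ σ ∈ Cfsg.M24, ∃ x ∈ X, ∀ c : ↥Cfsg.golayCode, ((x c : ↥Cfsg.golayCode) : (Cfsg.GolayPt → ZMod 2)) = fun p => (c : (Cfsg.GolayPt → ZMod 2)) (σ.symm p)) (horb : ∀ x ∈ X, ∀ c : ↥Cfsg.golayCode, ∃ σ ∈ Cfsg.M24, ((x c : ↥Cfsg.golayCode) : (Cfsg.GolayPt → ZMod 2)) = (fun p => (c : (Cfsg.GolayPt → ZMod 2)) (σ.symm p)) ∨ ((x c : ↥Cfsg.golayCode) : (Cfsg.GolayPt → ZMod 2)) = (fun p => (c : (Cfsg.GolayPt → ZMod 2)) (σ.symm p)) + fun _ => (1 : ZMod 2)) (x : ↥Cfsg.golayCode ≃ₗ[ZMod 2] ↥Cfsg.golayCode) (hx : x ∈ X) : ∃ σ ∈ Cfsg.M24, ∀ c : ↥Cfsg.golayCode, ((x c : ↥Cfsg.golayCode) : (Cfsg.GolayPt → ZMod 2)) = (fun p => (c : (Cfsg.GolayPt → ZMod 2)) (σ.symm p)) ∨ ((x c : ↥Cfsg.golayCode) : (Cfsg.GolayPt → ZMod 2)) = (fun p => (c : (Cfsg.GolayPt → ZMod 2)) (σ.symm p)) + fun _ => (1 : ZMod 2) := by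
  have hfwd : ∀ z ∈ X, ∀ c : ↥golayCode, Cfsg.Agent.Helper27.Cocode.IsOct c →
      Cfsg.Agent.Helper27.Cocode.IsOct (z c) := by
    intro z hz c hc
    obtain ⟨σ, -, h | h⟩ := horb z hz c
    · unfold Cfsg.Agent.Helper27.Cocode.IsOct at hc ⊢
      rw [h, Cfsg.Agent.Helper7.support_comp_symm, Finset.card_smul_finset]
      exact hc
    · unfold Cfsg.Agent.Helper27.Cocode.IsOct at hc ⊢
      have hcompl : support₂ ((fun p => (c : GolayPt → ZMod 2) (σ.symm p)) + fun _ => (1 : ZMod 2))
          = (σ • support₂ (c : GolayPt → ZMod 2))ᶜ := by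
        rw [← Cfsg.Agent.Helper7.support_comp_symm]
        ext p
        simp only [support₂, Finset.mem_filter, Finset.mem_univ, true_and, Finset.mem_compl,
          Pi.add_apply]
        have k : ∀ a : ZMod 2, a + 1 ≠ 0 ↔ ¬ a ≠ 0 := by decide
        exact k _
      rw [h, hcompl, Finset.card_compl, Finset.card_smul_finset, Cfsg.Agent.Helper26.card_golayPt]
      omega
  have hy : ∀ c, Cfsg.Agent.Helper27.Cocode.IsOct (x c) ↔ Cfsg.Agent.Helper27.Cocode.IsOct c := by
    intro c
    constructor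
    · intro h
      have h2 := hfwd x⁻¹ (inv_mem hx) (x c) h
      have h3 : x⁻¹ (x c) = c := x.symm_apply_apply c
      rwa [h3] at h2
    · exact hfwd x hx c
  have hone : (1 : GolayPt → ZMod 2) ∈ golayCode := Submodule.subset_span (Or.inr rfl)
  exact Cfsg.Agent.Helper27.Cocode.exists_m24_of_pres x hy ⟨1, hone⟩ rfl (h1 x hx ⟨1, hone⟩ rfl)

end Cfsg.Agent.S5549
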