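import Cfsg.Statements.S5550
import Cfsg.Agent.Helper91.Syn

set_option autoImplicit false
open Cfsg

namespace Cfsg.Agent.S5550

open Cfsg.Agent.Helper91
open scoped Pointwise

/-- Generators of `M24`. -/
def gA : List (List Nat) :=
  [[1, 2, 3, 4, 5, 6, 7, 8, 9, 10, 11, 12, 13, 14, 15, 16, 17, 18, 19, 20, 21, 22, 0, 23],
   [23, 22, 11, 15, 17, 9, 19, 13, 20, 5, 16, 2, 21, 7, 18, 3, 10, 4, 14, 6, 8, 12, 1, 0],
   [0, 18, 6, 3, 2, 21, 1, 5, 16, 12, 7, 19, 8, 9, 17, 15, 13, 11, 4, 22, 10, 20, 14, 23]]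

theorem gA_ok : gA.all (genSetOK 0) = true := by decide +kernel

theorem gA_moves : movesAll gA = true := by decide +kernel

/-- Generators of the stabilizer of the octad `oct0`. -/
def gO : List (List Nat) :=
  [[2, 3, 23, 5, 19, 1, 6, 16, 8, 13, 7, 21, 4, 18, 14, 15, 10, 17, 9, 12, 11, 20, 22, 0],
   [14, 1, 3, 5, 21, 23, 22, 12, 19, 6, 10, 8, 13, 18, 2, 11, 16, 0, 20, 9, 4, 7, 15, 17]]

theorem gO_ok : gO.all (genSetOK oct0) = true := by decide +kernel

theorem gO_moves : movesAll gO = true := by decide +kernel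

/-- Generators of the stabilizer of the dodecad `sqMask`. -/
def gD : List (List Nat) :=
  [[13, 6, 12, 0, 8, 11, 2, 20, 4, 1, 17, 15, 18, 3, 23, 10, 16, 22, 9, 14, 7, 21, 5, 19],
   [2, 1, 9, 8, 0, 11, 18, 17, 4, 3, 7, 10, 13, 16, 19, 15, 12, 20, 6, 22, 5, 23, 14, 21]]

theorem gD_ok : gD.all (genSetOK sqMask) = true := by decide +kernel

theorem gD_moves : movesAll gD = true := by decide +kernel

/-- The property of the statement. -/
def Moves (u w : GolayPt → ZMod 2) : Prop :=
  ∃ σ ∈ M24, (fun p => u (σ.symm p)) = u ∧ (fun p => w (σ.symm p)) - w ∉ golayCode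

theorem genSetOK_parts {I : Nat} {T : List Nat} (h : genSetOK I T = true) :
    validTab T = true ∧ inM24 T = true ∧ pullMask T I = I := by
  simp only [genSetOK, Bool.and_eq_true, Nat.beq_eq] at h
  exact ⟨h.1.1, h.1.2, h.2⟩

theorem moves_of_tab {T : List Nat} (hT : validTab T = true) (h24 : inM24 T = true) {mu mw : Nat}
    (hmw : mw < 2 ^ 24) (hu : pullMask T mu = mu)
    (hw : Helper26.isCode (pullMask T mw ^^^ mw) = false) : Moves (toWord mu) (toWord mw) := by
  refine ⟨(permT T hT)⁻¹, inv_mem (permT_mem_M24 hT h24), ?_, ?_⟩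
  · show toWord mu ∘ ⇑(permT T hT) = toWord mu
    rw [toWord_comp_tab, hu]
  · have e : (fun p => toWord mw (((permT T hT)⁻¹).symm p)) - toWord mw = toWord (pullMask T mw ^^^ mw) := by
      have e1 : (fun p => toWord mw (((permT T hT)⁻¹).symm p)) = toWord (pullMask T mw) := by
        show toWord mw ∘ ⇑(permT T hT) = toWord (pullMask T mw)
        rw [toWord_comp_tab]
      rw [e1, toWord_xor, CharTwo.sub_eq_add]
    rw [e, toWord_mem_iff26 (Nat.xor_lt_two_pow (pullMask_lt hT mw) hmw), hw]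
    exact Bool.false_ne_true

theorem Moves.comp {u w : GolayPt → ZMod 2} (h : Moves u w) {g : Equiv.Perm GolayPt} (hg : g ∈ M24) :
    Moves (u ∘ ⇑g) (w ∘ ⇑g) := by
  obtain ⟨σ, hσ, h1, h2⟩ := h
  refine ⟨g⁻¹ * σ * g, mul_mem (mul_mem (inv_mem hg) hσ) hg, ?_, ?_⟩
  · funext p
    have := congrFun h1 (g p)
    have e : g ((g⁻¹ * σ * g)⁻¹ p) = σ⁻¹ (g p) := by simp [mul_inv_rev, Equiv.Perm.mul_apply]
    show u (g ((g⁻¹ * σ * g)⁻¹ p)) = u (g p)
    rw [e]
    exact this
  · have e : (fun p => (w ∘ ⇑g) ((g⁻¹ * σ * g).symm p)) - w ∘ ⇑g =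
        ((fun p => w (σ.symm p)) - w) ∘ ⇑g := by
      funext p
      have e : g ((g⁻¹ * σ * g)⁻¹ p) = σ⁻¹ (g p) := by simp [mul_inv_rev, Equiv.Perm.mul_apply]
      show w (g ((g⁻¹ * σ * g)⁻¹ p)) - w (g p) = w (σ⁻¹ (g p)) - w (g p)
      rw [e]
    rw [e]
    exact comp_not_mem hg h2

theorem std_moves {gens : List (List Nat)} {I : Nat} (hok : gens.all (genSetOK I) = true)
    (hmv : movesAll gens = true) {w : GolayPt → ZMod 2} (hw : w ∉ golayCode) : Moves (toWord I) w := by
  rw [List.all_eq_true] at hok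
  have hnc : Helper26.isCode (mk w) = false := by
    rw [mem_golayCode_iff26] at hw
    exact Bool.eq_false_iff.2 hw
  obtain ⟨T, hT, h⟩ := moved_of_check (fun T hT => ⟨(genSetOK_parts (hok T hT)).1, (genSetOK_parts (hok T hT)).2.1⟩)
    hmv (mk_lt w) hnc
  obtain ⟨hv, h24, hI⟩ := genSetOK_parts (hok T hT)
  have := moves_of_tab hv h24 (mk_lt w) hI h
  rwa [toWord_mk] at this

theorem Moves.compl {m : Nat} {w : GolayPt → ZMod 2} (h : Moves (toWord (ALL ^^^ m)) w) :
    Moves (toWord m) w := by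
  obtain ⟨σ, hσ, h1, h2⟩ := h
  refine ⟨σ, hσ, ?_, h2⟩
  funext p
  have := congrFun h1 p
  rw [toWord_xor, toWord_ALL] at this
  simp only [Pi.add_apply, Pi.one_apply] at this
  exact add_left_cancel this

theorem moves_of_smul {I : Nat} {u w : GolayPt → ZMod 2} {g : Equiv.Perm GolayPt} (hg : g ∈ M24)
    (e : g • setM I = support₂ u) (h : Moves (toWord I) (w ∘ ⇑g)) : Moves u w := by
  have hu : u = toWord I ∘ ⇑g⁻¹ := by
    rw [← toWord_mk u]
    apply word_of_smul
    rw [e, mk, setM_enc]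
  have hw : w = (w ∘ ⇑g) ∘ ⇑g⁻¹ := by
    funext p
    simp
  rw [hu, hw]
  exact h.comp (inv_mem hg)

/-- Let u be a word of the length-24 binary Golay code of the definitions (possibly zero or all-ones) and w any binary word of length 24 outside the code. Then some automorphism of the code (a coordinate permutation preserving it) fixes u but moves w to a word not congruent to w modulo the code: the stabilizer of a codeword fixes no non-zero element of the quotient of the space of all words by the code. -/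
theorem result (u : (Cfsg.GolayPt → ZMod 2)) (hu : u ∈ Cfsg.golayCode) (w : (Cfsg.GolayPt → ZMod 2)) (hw : w ∉ Cfsg.golayCode) : ∃ σ ∈ Cfsg.M24, (fun p => u (σ.symm p)) = u ∧ (fun p => w (σ.symm p)) - w ∉ Cfsg.golayCode := by
  have hsup : support₂ u ∈ supports (golayCode : Set (GolayPt → ZMod 2)) := ⟨u, hu, rfl⟩
  have hmk : setM (mk u) = support₂ u := setM_enc _
  rcases Helper26.card_of_mem_supports hsup with h | h | h | h | h
  · have h0 : mk u = 0 := by
      rw [← setM_eq_empty_iff (mk_lt u), hmk, ← Finset.card_eq_zero, h]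
    have := std_moves (I := 0) gA_ok gA_moves hw
    rwa [← h0, toWord_mk] at this
  · obtain ⟨g, hg, e⟩ := exists_m24_oct0 (o := support₂ u) ⟨hsup, h⟩
    exact moves_of_smul hg e (std_moves gO_ok gO_moves (comp_not_mem hg hw))
  · obtain ⟨g, hg, e⟩ := exists_m24_dod0 (d := support₂ u) ⟨hsup, h⟩
    exact moves_of_smul hg e (std_moves gD_ok gD_moves (comp_not_mem hg hw))
  · have hco : setM (ALL ^^^ mk u) ∈ octads := by
      rw [setM_compl, hmk]
      exact ⟨Helper26.supports_compl hsup, by rw [Finset.card_compl, Helper26.card_golayPt, h]⟩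
    obtain ⟨g, hg, e⟩ := exists_m24_oct0 hco
    have e' : g • setM oct0 = support₂ (toWord (ALL ^^^ mk u)) := e
    have := (moves_of_smul hg e' (std_moves gO_ok gO_moves (comp_not_mem hg hw))).compl
    rwa [toWord_mk] at this
  · have h1 : mk u = ALL := by
      rw [← setM_eq_univ_iff (mk_lt u), hmk]
      apply Finset.eq_univ_of_card
      rw [h, Helper26.card_golayPt]
    have h0 := std_moves (I := 0) gA_ok gA_moves hw
    have h2 : Moves (toWord (ALL ^^^ ALL)) w := by rw [Nat.xor_self]; exact h0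
    have := h2.compl
    rwa [← h1, toWord_mk] at this

end Cfsg.Agent.S5550
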