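import Cfsg.Statements.S5592
import Cfsg.Agent.Helper92.Leech

set_option autoImplicit false
open Cfsg

namespace Cfsg.Agent.S5592

/-- In the Leech lattice (integer coordinates, sum of squares equal to 8 times the customary norm, so the shortest non-zero vectors have sum of squares 32): if two distinct vectors of sum of squares at most 64 are congruent modulo twice the lattice, then either they are negatives of each other, or both have sum of squares 64 and they are orthogonal. -/
theorem result (x y : Cfsg.GolayPt → ℤ) (hx : x ∈ Cfsg.leechLattice) (hy : y ∈ Cfsg.leechLattice) (hxy : x ≠ y) (hxn : Cfsg.sqNorm x ≤ 64) (hyn : Cfsg.sqNorm y ≤ 64) (hc : (∃ z ∈ Cfsg.leechLattice, x - y = 2 • z)) :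
    x = -y ∨ (Cfsg.sqNorm x = 64 ∧ Cfsg.sqNorm y = 64 ∧ Cfsg.dotInt x y = 0) := by
  obtain ⟨z, hz, hvw⟩ := hc
  have h : x - y = (2 : ℤ) • z := by rw [hvw]; exact (natCast_zsmul z 2)
  rcases Cfsg.Agent.Helper92.leech_congr_two hy hz h hxn hyn with h1 | h1 | h1
  · exact absurd h1.symm hxy
  · left
    rw [h1, neg_neg]
  · exact Or.inr h1

end Cfsg.Agent.S5592
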