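import Cfsg.Statements.S5593
import Cfsg.Agent.Helper92.LeechCong
-- import your own Cfsg.Agent.* helpers here

set_option autoImplicit false
open Cfsg

namespace Cfsg.Agent.S5593

open Cfsg.Agent.Helper92 in
theorem orb_U4_of_norm (v : leechLattice) (hv : Cfsg.sqNorm (v : Cfsg.GolayPt → ℤ) = 64) :
    Orb v U4 := by
  rcases orb_cases v with h | h | h | h
  · have := h.sqNorm_eq hv.le (by rw [sqNorm_zero']; norm_num)
    rw [hv, sqNorm_zero'] at this
    omega
  · have := h.sqNorm_eq hv.le (by rw [sqNorm_leechU]; norm_num)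
    rw [hv, sqNorm_leechU] at this
    omega
  · have := h.sqNorm_eq hv.le (by rw [sqNorm_leechV]; norm_num)
    rw [hv, sqNorm_leechV] at this
    omega
  · exact h

/-- The automorphism group of the Leech lattice acts transitively on the congruence classes modulo twice the lattice of the vectors of sum of squares 64 (customary norm 8): for any two such vectors some automorphism carries the first to a vector congruent to the second. -/
theorem result (v w : ↥Cfsg.leechLattice) (hv : Cfsg.sqNorm (v : Cfsg.GolayPt → ℤ) = 64) (hw : Cfsg.sqNorm (w : Cfsg.GolayPt → ℤ) = 64) :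
    ∃ g : ↥Cfsg.Co0, ∃ z ∈ Cfsg.leechLattice, ((g • v : ↥Cfsg.leechLattice) : Cfsg.GolayPt → ℤ) - (w : Cfsg.GolayPt → ℤ) = 2 • z := by
  obtain ⟨g, z, hz⟩ := (orb_U4_of_norm v hv).trans (orb_U4_of_norm w hw).symm
  refine ⟨g, (z : Cfsg.GolayPt → ℤ), z.2, ?_⟩
  rw [hz, two_smul]
  show (w : GolayPt → ℤ) + ((z : GolayPt → ℤ) + (z : GolayPt → ℤ)) - (w : GolayPt → ℤ) = _
  abel

end Cfsg.Agent.S5593
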