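import Cfsg.Statements.S5594
import Cfsg.Agent.Helper92.LeechNeg

set_option autoImplicit false
open Cfsg

namespace Cfsg.Agent.S5594

open Cfsg.Agent.Helper92

/-- the squares modulo 23 (zero included) -/
def dset : Finset GolayPt := support₂ (qrWord 0)

theorem dset_mem : dset ∈ supports (golayCode : Set (GolayPt → ZMod 2)) :=
  ⟨qrWord 0, Submodule.subset_span (Or.inl ⟨0, rfl⟩), rfl⟩

theorem dset_flip : ∀ i : GolayPt, (i ∈ dset ↔ projInv.symm i ∉ dset) := by
  unfold dset support₂
  decide

theorem projInv_symm_symm : ∀ i : GolayPt, projInv.symm (projInv.symm i) = i := by decide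

/-- a lattice automorphism whose square is negation -/
def gAut : Co0 := signAut dset dset_mem * permAut projInv Cfsg.Agent.Helper7.projInv_mem

theorem gAut_sq : gAut * gAut = negAut := by
  apply co0_ext
  intro v
  apply Subtype.ext
  funext i
  show signFun dset (permFun projInv (signFun dset (permFun projInv (v : GolayPt → ℤ)))) i =
    -(v : GolayPt → ℤ) i
  rw [signFun_apply, permFun_apply, signFun_apply, permFun_apply, projInv_symm_symm]
  by_cases hi : i ∈ dset
  · have h2 := (dset_flip i).1 hi
    rw [if_pos hi, if_neg h2]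
  · have h2 : projInv.symm i ∈ dset := by
      by_contra h3
      exact hi ((dset_flip i).2 h3)
    rw [if_neg hi, if_pos h2]

/-- The automorphism group of the Leech lattice contains the negation map, and the subgroup of order 2 it generates has no complement: the automorphism group is a non-split extension of its quotient by that subgroup (it is not the direct product of a group of order 2 with the first Conway group). -/
theorem result :
    ∃ n : ↥Cfsg.Co0, (∀ v : ↥Cfsg.leechLattice, ((n • v : ↥Cfsg.leechLattice) : Cfsg.GolayPt → ℤ) = -(v : Cfsg.GolayPt → ℤ)) ∧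
    ∀ K : Subgroup ↥Cfsg.Co0, ¬ (Subgroup.zpowers n).IsComplement' K := by
  refine ⟨negAut, fun v => rfl, ?_⟩
  intro K hK
  obtain ⟨⟨⟨a, ha⟩, ⟨k, hk⟩⟩, hak⟩ := hK.2 gAut
  have hak' : a * k = gAut := hak
  obtain ⟨j, rfl⟩ := Subgroup.mem_zpowers_iff.1 ha
  have hcomm : Commute (negAut ^ j) k := (show Commute negAut k from negAut_comm k).zpow_left j
  have hsq : negAut ^ j * negAut ^ j = 1 := by
    rw [← (Commute.refl negAut).mul_zpow, negAut_mul_self, one_zpow]
  have hkk : k * k = negAut := by
    rw [← gAut_sq, ← hak']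
    calc k * k = (negAut ^ j * negAut ^ j) * (k * k) := by rw [hsq, one_mul]
      _ = negAut ^ j * (negAut ^ j * k) * k := by group
      _ = negAut ^ j * (k * negAut ^ j) * k := by rw [hcomm.eq]
      _ = negAut ^ j * k * (negAut ^ j * k) := by group
  have hnK : negAut ∈ K := hkk ▸ mul_mem hk hk
  have h1 := @hK.1 (⟨negAut, Subgroup.mem_zpowers negAut⟩, ⟨1, one_mem K⟩)
    (⟨1, one_mem _⟩, ⟨negAut, hnK⟩) (by simp)
  have h2 : negAut = 1 := congrArg (fun p => (p.1 : Co0)) h1
  exact negAut_ne_one h2

end Cfsg.Agent.S5594
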