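import Cfsg.Statements.S5599
import Cfsg.Agent.Helper91.M24Five

set_option autoImplicit false
open scoped Pointwise
open Cfsg

namespace Cfsg.Agent.S5599

open Cfsg.Agent.Helper91

/-- An element of the two-point group whose fixed points are exactly the points of indices 23, 0, 1. -/
def x7 : List Nat :=
  [0, 1, 16, 14, 21, 15, 5, 12, 3, 13, 2, 18, 9, 17, 6, 22, 20, 11, 7, 10, 4, 19, 8, 23]

theorem x7_ok : tabOK 8388609 [] x7 = true ∧
    (List.range 24).all (fun i => x7.getD i 0 != i || i == 23 || i == 0 || i == 1) = true := by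
  decide +kernel

/-- Rigidity: an element of `M24` fixing all points other than those of indices 23, 0 is the identity. -/
def cert22 : List Step :=
  [.cw 8394986 [], .sub 8388606, .compl 8388606, .and 8394986 8388609, .fix 23, .compl 8394986,
   .and 8382229 8388609, .fix 0]

theorem cert22_ok : rigidCert 8388606 [] cert22 = true := by decide +kernel

/-- Tables carrying the point of index 1 to every point other than 23, 0, fixing 23 and 0. -/
def lev3 : List (Nat × List (List Nat)) := (lev5.drop 2).take 1

theorem lev3_ok : transOK [] ALL 8388609 lev3 = true ∧ lev3.map Prod.fst = [1] := by decide +kernel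

theorem mem_M22_iff (x : Equiv.Perm GolayPt) :
    x ∈ Spor.M22 ↔ x ∈ M24 ∧ x none = none ∧ x (some 0) = some 0 := by
  simp only [Spor.M22, Spor.M23, Subgroup.mem_inf, MulAction.mem_stabilizer_iff, Equiv.Perm.smul_def,
    and_assoc]

theorem pt23 : pt 23 = (none : GolayPt) := by decide
theorem pt0 : pt 0 = (some 0 : GolayPt) := by decide

theorem fixOn_M22 {x : Equiv.Perm GolayPt} (h1 : x none = none) (h2 : x (some 0) = some 0) :
    FixOn x 8388609 := by
  intro p hp
  have : p = none ∨ p = some 0 := by revert p; decide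
  rcases this with rfl | rfl
  · exact h1
  · exact h2

theorem of_fixOn_M22 {x : Equiv.Perm GolayPt} (h : FixOn x 8388609) :
    x none = none ∧ x (some 0) = some 0 :=
  ⟨h none (by decide), h (some 0) (by decide)⟩

theorem mem_pairStab (b : Equiv.Perm GolayPt) :
    b ∈ MulAction.stabilizer (Equiv.Perm GolayPt) ({none, some 0} : Finset GolayPt) ↔
      (b none = none ∧ b (some 0) = some 0) ∨ (b none = some 0 ∧ b (some 0) = none) := by
  rw [MulAction.mem_stabilizer_iff]
  constructor
  · intro h
    have hn : b none ∈ ({none, some 0} : Finset GolayPt) := by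
      rw [← h]; exact Finset.smul_mem_smul_finset (by simp)
    have hz : b (some 0) ∈ ({none, some 0} : Finset GolayPt) := by
      rw [← h]; exact Finset.smul_mem_smul_finset (by simp)
    have hne : b none ≠ b (some 0) := fun e => by
      have := b.injective e
      exact absurd this (by decide)
    simp only [Finset.mem_insert, Finset.mem_singleton] at hn hz
    rcases hn with hn | hn <;> rcases hz with hz | hz
    · exact absurd (hn.trans hz.symm) hne
    · exact Or.inl ⟨hn, hz⟩
    · exact Or.inr ⟨hn, hz⟩
    · exact absurd (hn.trans hz.symm) hne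
  · rintro (⟨h1, h2⟩ | ⟨h1, h2⟩)
    · rw [Finset.smul_finset_insert, Finset.smul_finset_singleton, Equiv.Perm.smul_def,
        Equiv.Perm.smul_def, h1, h2]
    · rw [Finset.smul_finset_insert, Finset.smul_finset_singleton, Equiv.Perm.smul_def,
        Equiv.Perm.smul_def, h1, h2, Finset.pair_comm]

/-- In the automorphism group of the length-24 code, the two-point Mathieu group (permutations of the code's group fixing the extra point and the residue 0) has index 2 in the setwise stabiliser of that pair of points, and an element of the code's group interchanging the two points normalises the two-point group and induces on it, by conjugation, an automorphism that is not inner. -/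
theorem result (g : Equiv.Perm Cfsg.GolayPt) (hg : g ∈ Cfsg.M24) (h₁ : g none = some 0) (h₂ : g (some 0) = none) : Cfsg.Spor.M22.relIndex (Cfsg.M24 ⊓ MulAction.stabilizer (Equiv.Perm Cfsg.GolayPt) ({none, some 0} : Finset Cfsg.GolayPt)) = 2 ∧ (∀ x ∈ Cfsg.Spor.M22, g * x * g⁻¹ ∈ Cfsg.Spor.M22) ∧ ¬ ∃ h ∈ Cfsg.Spor.M22, ∀ x ∈ Cfsg.Spor.M22, g * x * g⁻¹ = h * x * h⁻¹ := by
  have hg1 : g⁻¹ (some 0) = none := by rw [Equiv.Perm.inv_eq_iff_eq, h₁]
  have hg2 : g⁻¹ none = some 0 := by rw [Equiv.Perm.inv_eq_iff_eq, h₂]
  have hne : (none : GolayPt) ≠ some 0 := by decide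
  refine ⟨?_, ?_, ?_⟩
  · have hgK : g ∈ M24 ⊓ MulAction.stabilizer (Equiv.Perm GolayPt) ({none, some 0} : Finset GolayPt) :=
      ⟨hg, (mem_pairStab g).2 (Or.inr ⟨h₁, h₂⟩)⟩
    rw [Subgroup.relIndex, Subgroup.index_eq_two_iff]
    refine ⟨⟨g, hgK⟩, fun b => ?_⟩
    rw [Subgroup.mem_subgroupOf, Subgroup.mem_subgroupOf, Subgroup.coe_mul, mem_M22_iff, mem_M22_iff]
    have hb := b.2
    rcases (mem_pairStab b.1).1 hb.2 with ⟨c1, c2⟩ | ⟨c1, c2⟩
    · right
      refine ⟨⟨hb.1, c1, c2⟩, ?_⟩
      rintro ⟨-, h, -⟩
      rw [Equiv.Perm.mul_apply, h₁, c2] at h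
      exact hne h.symm
    · left
      refine ⟨⟨mul_mem hb.1 hg, ?_, ?_⟩, ?_⟩
      · rw [Equiv.Perm.mul_apply, h₁, c2]
      · rw [Equiv.Perm.mul_apply, h₂, c1]
      · rintro ⟨-, h, -⟩
        rw [c1] at h
        exact hne h.symm
  · intro x hx
    rw [mem_M22_iff] at hx ⊢
    refine ⟨mul_mem (mul_mem hg hx.1) (inv_mem hg), ?_, ?_⟩
    · rw [Equiv.Perm.mul_apply, Equiv.Perm.mul_apply, hg2, hx.2.2, h₂]
    · rw [Equiv.Perm.mul_apply, Equiv.Perm.mul_apply, hg1, hx.2.1, h₁]
  · rintro ⟨h, hh, hall⟩
    rw [mem_M22_iff] at hh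
    -- `c = h⁻¹ g` commutes with the two-point group and swaps the two points
    set c : Equiv.Perm GolayPt := h⁻¹ * g with hc
    have hcM : c ∈ M24 := mul_mem (inv_mem hh.1) hg
    have hh1 : h⁻¹ none = none := by rw [Equiv.Perm.inv_eq_iff_eq, hh.2.1]
    have hh2 : h⁻¹ (some 0) = some 0 := by rw [Equiv.Perm.inv_eq_iff_eq, hh.2.2]
    have hc1 : c none = some 0 := by rw [hc, Equiv.Perm.mul_apply, h₁, hh2]
    have hc2 : c (some 0) = none := by rw [hc, Equiv.Perm.mul_apply, h₂, hh1]
    have hcomm : ∀ x ∈ Spor.M22, c * x = x * c := by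
      intro x hx
      have := hall x hx
      rw [hc]
      have e : g * x = h * x * h⁻¹ * g := by rw [← this]; group
      rw [mul_assoc, e]; group
    -- the fixed points of `x7`
    obtain ⟨hx7, hx7fix⟩ := x7_ok
    obtain ⟨h24, hfix, -⟩ := tabOK_spec hx7
    have hx7M : permT x7 (tabOK_valid hx7) ∈ Spor.M22 :=
      (mem_M22_iff _).2 ⟨h24, (of_fixOn_M22 hfix).1, (of_fixOn_M22 hfix).2⟩
    have hfixpts : ∀ p : GolayPt, permT x7 (tabOK_valid hx7) p = p → p = none ∨ p = some 0 ∨ p = pt 1 := by
      intro p hp
      rw [List.all_eq_true] at hx7fix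
      have := hx7fix (idx p) (List.mem_range.2 (idx_lt p))
      simp only [Bool.or_eq_true, bne_iff_ne, ne_eq, beq_iff_eq] at this
      have hi : x7.getD (idx p) 0 = idx p := by
        have := congrArg idx hp
        rwa [permT_apply, idx_tabFun (tabOK_valid hx7)] at this
      rcases this with ((h | h) | h) | h
      · exact absurd hi h
      · left; rw [← pt_idx p, h, pt23]
      · right; left; rw [← pt_idx p, h, pt0]
      · right; right; rw [← pt_idx p, h]
    have hc3 : c (pt 1) = pt 1 := by
      have h1 : permT x7 (tabOK_valid hx7) (pt 1) = pt 1 := by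
        rw [permT_apply]; decide
      have h2 : permT x7 (tabOK_valid hx7) (c (pt 1)) = c (pt 1) := by
        have := congrArg (fun f : Equiv.Perm GolayPt => f (pt 1)) (hcomm _ hx7M)
        simp only [Equiv.Perm.mul_apply] at this
        rw [h1] at this
        exact this.symm
      rcases hfixpts _ h2 with h | h | h
      · rw [← hc2] at h
        exact absurd (c.injective h) (by decide)
      · rw [← hc1] at h
        exact absurd (c.injective h) (by decide)
      · exact h
    -- `c` fixes every other point
    have hcfix : FixOn c 8388606 := by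
      intro y hy
      have hy2 : (8388609 : Nat).testBit (idx y) = false := by
        revert y; decide
      obtain ⟨u, hu, hufix, -, -, hmap⟩ := multi_trans [] ALL lev3 8388609 lev3_ok.1 [y] rfl
        (List.nodup_singleton y) (fun z hz => by
          rw [List.mem_singleton] at hz; subst hz
          exact ⟨testBit_ALL_idx _, hy2⟩)
      have hmap' : [y] = [u (pt 1)] := by
        rw [hmap]
        have := lev3_ok.2
        have e : lev3.map (fun l => u (pt l.1)) = (lev3.map Prod.fst).map (fun i => u (pt i)) := by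
          rw [List.map_map]; rfl
        rw [e, this]; rfl
      have hy1 : y = u (pt 1) := by simpa using hmap'
      have huM : u ∈ Spor.M22 :=
        (mem_M22_iff _).2 ⟨hu, (of_fixOn_M22 hufix).1, (of_fixOn_M22 hufix).2⟩
      have := congrArg (fun f : Equiv.Perm GolayPt => f (pt 1)) (hcomm _ huM)
      simp only [Equiv.Perm.mul_apply] at this
      rw [hc3] at this
      rw [hy1]; exact this
    have hc1' : c = 1 := rigid_sound hcM hcfix (fun _ hI => absurd hI (List.not_mem_nil)) cert22_ok
    rw [hc1'] at hc1
    exact hne hc1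

end Cfsg.Agent.S5599
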