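import Cfsg.Statements.S5600
import Cfsg.Agent.Helper93.M24Orbit
import Cfsg.Agent.Helper91.Fast

set_option autoImplicit false
open scoped Pointwise
open Cfsg

namespace Cfsg.Agent.S5600

open Cfsg.Agent.Helper91 Cfsg.Agent.Helper93

/-- The indices of six points in normal form: the five base points and one more. -/
def bs (x : Nat) (i : Fin 6) : Nat := [23, 0, 1, 2, 3, x].getD i.1 0

theorem tab_facts :
    Helper26.allL (fun m => !(Nat.beq (Nat.land m 8388623) 8388623) || Nat.beq m 8536111)
      Helper26.octL = true ∧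
    anyL Helper26.octL (fun m => Nat.beq m 8536111) = true ∧
    (List.range 24).all (fun x => (8388623 : Nat).testBit x ||
       (h5Tabs.filter (fun T => T.getD x 0 == x)).length ==
        (if (8536111 : Nat).testBit x then 16 else 3)) = true ∧
    (List.range 24).all (fun x => (List.range 24).all (fun y => (8388623 : Nat).testBit x ||
      (8388623 : Nat).testBit y || ((8536111 : Nat).testBit x != (8536111 : Nat).testBit y) ||
       h5Tabs.any (fun T => T.getD x 0 == y))) = true ∧ h5Tabs.Nodup := by decide +kernel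

theorem base_cases (q : GolayPt) (h : (8388623 : Nat).testBit (idx q) = true) :
    q = pt 23 ∨ q = pt 0 ∨ q = pt 1 ∨ q = pt 2 ∨ q = pt 3 := by
  revert q; decide

/-- Six distinct points are the images of the five base points and one further point. -/
theorem normal_form (e : Fin 6 → GolayPt) (he : Function.Injective e) :
    ∃ u ∈ M24, ∃ x, x < 24 ∧ (8388623 : Nat).testBit x = false ∧ ∀ i, u (pt (bs x i)) = e i := by
  have hnd : [e 0, e 1, e 2, e 3, e 4].Nodup := by
    have : [e 0, e 1, e 2, e 3, e 4] = List.map e [0, 1, 2, 3, 4] := rfl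
    rw [this]; exact List.Nodup.map he (by decide)
  obtain ⟨u, hu, h⟩ := m24_five_trans _ rfl hnd
  simp only [List.cons.injEq, and_true] at h
  obtain ⟨h0, h1, h2, h3, h4⟩ := h
  have h5 : u (pt (idx (u⁻¹ (e 5)))) = e 5 := by rw [pt_idx, perm_apply_inv]
  refine ⟨u, hu, idx (u⁻¹ (e 5)), idx_lt _, ?_, ?_⟩
  · by_contra hb
    rw [Bool.not_eq_false] at hb
    rcases base_cases _ hb with h | h | h | h | h
    · have : e 5 = e 0 := by rw [h0, ← h, perm_apply_inv]
      exact absurd (he this) (by decide)
    · have : e 5 = e 1 := by rw [h1, ← h, perm_apply_inv]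
      exact absurd (he this) (by decide)
    · have : e 5 = e 2 := by rw [h2, ← h, perm_apply_inv]
      exact absurd (he this) (by decide)
    · have : e 5 = e 3 := by rw [h3, ← h, perm_apply_inv]
      exact absurd (he this) (by decide)
    · have : e 5 = e 4 := by rw [h4, ← h, perm_apply_inv]
      exact absurd (he this) (by decide)
  · intro i
    fin_cases i
    · exact h0.symm
    · exact h1.symm
    · exact h2.symm
    · exact h3.symm
    · exact h4.symm
    · exact h5

theorem oct0_mem : Helper26.dec 8536111 ∈ octads := by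
  rw [← Helper26.mem_octL_iff, Helper26.enc_dec _ (by norm_num)]
  have h := tab_facts.2.1
  rw [anyL_eq, List.any_eq_true] at h
  obtain ⟨m, hm, e⟩ := h
  rw [Nat.beq_eq] at e
  rw [← e]; exact hm

/-- The six points lie in an octad exactly when the sixth index is in the octad of the base points. -/
theorem type_iff {e : Fin 6 → GolayPt} {u : Equiv.Perm GolayPt} (hu : u ∈ M24) {x : Nat}
    (hx : x < 24) (hb : ∀ i, u (pt (bs x i)) = e i) :
    (∃ o ∈ octads, ∀ i, e i ∈ o) ↔ (8536111 : Nat).testBit x = true := by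
  constructor
  · rintro ⟨o, ho, hall⟩
    have ho' : u⁻¹ • o ∈ octads := smul_mem_octads (inv_mem hu) ho
    have hmem : ∀ i, pt (bs x i) ∈ u⁻¹ • o := by
      intro i
      rw [Finset.mem_inv_smul_finset_iff, Equiv.Perm.smul_def, hb i]
      exact hall i
    have hsub : Helper26.dec 8388623 ⊆ u⁻¹ • o := by
      intro q hq
      rw [Helper26.mem_dec, ← idx_eq26] at hq
      rcases base_cases q hq with rfl | rfl | rfl | rfl | rfl
      · exact hmem 0
      · exact hmem 1
      · exact hmem 2
      · exact hmem 3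
      · exact hmem 4
    rw [Helper26.subset_iff_enc, Helper26.enc_dec _ (by norm_num)] at hsub
    have hL : Helper26.enc (u⁻¹ • o) ∈ Helper26.octL := (Helper26.mem_octL_iff _).2 ho'
    have h := Helper26.allL_spec _ _ tab_facts.1 _ hL
    have hsub' : Nat.land (Helper26.enc (u⁻¹ • o)) 8388623 = 8388623 :=
      (Nat.land_comm _ _).trans hsub
    rw [hsub'] at h
    simp only [Nat.beq_refl, Bool.not_true, Bool.false_or, Nat.beq_eq] at h
    have h5 := hmem 5
    rw [pt_mem_iff_testBit (by exact hx), h] at h5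
    exact h5
  · intro h
    refine ⟨u • Helper26.dec 8536111, smul_mem_octads hu oct0_mem, ?_⟩
    intro i
    rw [← hb i, ← Equiv.Perm.smul_def, Finset.smul_mem_smul_finset_iff, Helper26.mem_dec,
      ← idx_eq26]
    fin_cases i
    · exact (by decide : (8536111 : Nat).testBit 23 = true)
    · exact (by decide : (8536111 : Nat).testBit 0 = true)
    · exact (by decide : (8536111 : Nat).testBit 1 = true)
    · exact (by decide : (8536111 : Nat).testBit 2 = true)
    · exact (by decide : (8536111 : Nat).testBit 3 = true)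
    · rw [idx_pt (by exact hx)]; exact h

/-- Two sextuples of distinct points of the same type are conjugate under `M24`. -/
theorem six_trans (e e' : Fin 6 → GolayPt) (he : Function.Injective e) (he' : Function.Injective e')
    (ht : (∃ o ∈ octads, ∀ i, e i ∈ o) ↔ (∃ o ∈ octads, ∀ i, e' i ∈ o)) :
    ∃ g ∈ M24, ∀ i, g (e i) = e' i := by
  obtain ⟨u, hu, x, hx, hxb, hb⟩ := normal_form e he
  obtain ⟨v, hv, y, hy, hyb, hb'⟩ := normal_form e' he'
  have htx := type_iff hu hx hb
  have hty := type_iff hv hy hb'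
  have hxy : ((8536111 : Nat).testBit x != (8536111 : Nat).testBit y) = false := by
    rw [bne_eq_false_iff_eq]
    rw [Bool.eq_iff_iff, ← htx, ← hty]
    exact ht
  have hf := List.all_eq_true.1 (List.all_eq_true.1 tab_facts.2.2.2.1 x (List.mem_range.2 hx)) y
    (List.mem_range.2 hy)
  rw [hxb, hyb, hxy] at hf
  simp only [Bool.false_or, List.any_eq_true, beq_iff_eq] at hf
  obtain ⟨T, hT, hTxy⟩ := hf
  have hvT := h5Tabs_valid hT
  obtain ⟨hM, hfix, -⟩ := h5Tabs_mem hT
  obtain ⟨f23, f0, f1, f2, f3⟩ := fixOn_base.1 hfix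
  have hxy' : permT T hvT (pt x) = pt y := by rw [permT_pt hvT hx, hTxy]
  refine ⟨v * permT T hvT * u⁻¹, mul_mem (mul_mem hv hM) (inv_mem hu), ?_⟩
  have key : ∀ i, permT T hvT (pt (bs x i)) = pt (bs y i) := by
    intro i
    fin_cases i
    · exact f23
    · exact f0
    · exact f1
    · exact f2
    · exact f3
    · exact hxy'
  intro i
  rw [← hb i, ← hb' i]
  simp only [Equiv.Perm.mul_apply]
  rw [perm_inv_apply, key i]

/-- The pointwise stabiliser of six points in normal form. -/
theorem card_ps (E : Finset GolayPt) (e : Fin 6 → GolayPt) (hE : ∀ p, p ∈ E ↔ ∃ i, e i = p)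
    {u : Equiv.Perm GolayPt} (hu : u ∈ M24) {x : Nat} (hx : x < 24)
    (hb : ∀ i, u (pt (bs x i)) = e i) :
    Nat.card {g : Equiv.Perm GolayPt // g ∈ M24 ∧ ∀ p ∈ E, g p = p} =
      (h5Tabs.filter (fun T => T.getD x 0 == x)).length := by
  have hG : Nat.card ↥(stabSub 8388623 [] ⊓ MulAction.stabilizer (Equiv.Perm GolayPt) (pt x)) =
      (h5Tabs.filter (fun T => T.getD x 0 == x)).length := by
    apply card_of_tabs _ _ (tab_facts.2.2.2.2.filter _)
    · intro T hT
      exact h5Tabs_valid (List.mem_filter.1 hT).1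
    · intro T hT
      rw [List.mem_filter, beq_iff_eq] at hT
      have hv := h5Tabs_valid hT.1
      rw [permT'_eq hv]
      refine ⟨h5Tabs_mem hT.1, ?_⟩
      show permT T hv (pt x) = pt x
      rw [permT_pt hv hx, hT.2]
    · rintro g ⟨hg, hgx⟩
      obtain ⟨T, hT, e⟩ := h5_mem hg
      have hv := h5Tabs_valid hT
      refine ⟨T, List.mem_filter.2 ⟨hT, ?_⟩, by rw [permT'_eq hv, e]⟩
      rw [beq_iff_eq]
      have hgx' : g (pt x) = pt x := hgx
      have := congrArg idx hgx'
      rw [← e, idx_permT, idx_pt hx] at this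
      exact this
  rw [← hG]
  apply Nat.card_congr
  have hfix_of : ∀ m : Equiv.Perm GolayPt,
      m ∈ stabSub 8388623 [] ⊓ MulAction.stabilizer (Equiv.Perm GolayPt) (pt x) →
        ∀ i, m (pt (bs x i)) = pt (bs x i) := by
    rintro m ⟨⟨-, hfix, -⟩, hmx⟩ i
    obtain ⟨f23, f0, f1, f2, f3⟩ := fixOn_base.1 hfix
    fin_cases i
    · exact f23
    · exact f0
    · exact f1
    · exact f2
    · exact f3
    · exact hmx
  exact
    { toFun := fun g => ⟨u⁻¹ * g.1 * u, by
        have hfix : ∀ i, (u⁻¹ * g.1 * u) (pt (bs x i)) = pt (bs x i) := by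
          intro i
          simp only [Equiv.Perm.mul_apply]
          rw [hb i, g.2.2 _ ((hE _).2 ⟨i, rfl⟩), ← hb i, perm_inv_apply]
        refine ⟨⟨mul_mem (mul_mem (inv_mem hu) g.2.1) hu, ?_, fun I hI => absurd hI (List.not_mem_nil)⟩, ?_⟩
        · exact fixOn_base.2 ⟨hfix 0, hfix 1, hfix 2, hfix 3, hfix 4⟩
        · exact hfix 5⟩
      invFun := fun m => ⟨u * m.1 * u⁻¹, by
        refine ⟨mul_mem (mul_mem hu m.2.1.1) (inv_mem hu), ?_⟩
        intro p hp
        obtain ⟨i, rfl⟩ := (hE p).1 hp
        simp only [Equiv.Perm.mul_apply]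
        rw [← hb i, perm_inv_apply, hfix_of m.1 m.2 i]⟩
      left_inv := fun g => Subtype.ext (by simp only; group)
      right_inv := fun m => Subtype.ext (by simp only; group) }

theorem mem_iff_of_stab {E : Finset GolayPt} (g : ↥(MulAction.stabilizer M24 E)) (x : GolayPt) :
    (g : ↥M24).1 x ∈ E ↔ x ∈ E := by
  have h : (g : ↥M24).1 • E = E := MulAction.mem_stabilizer_iff.1 g.2
  have h2 : (g : ↥M24).1 x ∈ (g : ↥M24).1 • E ↔ x ∈ E := by
    rw [← Equiv.Perm.smul_def, Finset.smul_mem_smul_finset_iff]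
  rw [h] at h2
  exact h2

/-- The restriction of the setwise stabiliser of `E` to `E`. -/
noncomputable def resHom (E : Finset GolayPt) : ↥(MulAction.stabilizer M24 E) →* Equiv.Perm ↥E :=
  MonoidHom.mk' (fun g => Equiv.Perm.subtypePerm (g : ↥M24).1 (mem_iff_of_stab g))
    (fun a b => by ext p; rfl)

theorem resHom_apply {E : Finset GolayPt} (g : ↥(MulAction.stabilizer M24 E)) (p : ↥E) :
    ((resHom E g) p : GolayPt) = (g : ↥M24).1 p := rfl

/-- The order of the setwise stabiliser, when every permutation of `E` is induced. -/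
theorem card_stab (E : Finset GolayPt) (hE : E.card = 6)
    (hsurj : ∀ σ : Equiv.Perm ↥E, ∃ g ∈ M24, ∀ p : ↥E, g p = σ p) :
    Nat.card ↥(MulAction.stabilizer M24 E) =
      Nat.card {g : Equiv.Perm GolayPt // g ∈ M24 ∧ ∀ p ∈ E, g p = p} * 720 := by
  have hs : Function.Surjective (resHom E) := by
    intro σ
    obtain ⟨g, hg, h⟩ := hsurj σ
    have hstab : (⟨g, hg⟩ : ↥M24) ∈ MulAction.stabilizer M24 E := by
      rw [MulAction.mem_stabilizer_iff]
      apply Finset.eq_of_subset_of_card_le
      · intro q hq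
        obtain ⟨p, hp, rfl⟩ := Finset.mem_smul_finset.1 hq
        have := h ⟨p, hp⟩
        change g p ∈ E
        rw [this]
        exact (σ ⟨p, hp⟩).2
      · exact (Finset.card_smul_finset _ _).ge
    refine ⟨⟨⟨g, hg⟩, hstab⟩, ?_⟩
    apply Equiv.ext
    intro p
    apply Subtype.ext
    rw [resHom_apply]
    exact h p
  have h1 := Subgroup.card_mul_index (resHom E).ker
  rw [Subgroup.index_ker, MonoidHom.range_eq_top.2 hs, Subgroup.card_top] at h1
  have h2 : Nat.card (Equiv.Perm ↥E) = 720 := by
    rw [Nat.card_eq_fintype_card, Fintype.card_perm, Fintype.card_coe, hE]; rfl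
  rw [h2] at h1
  rw [← h1]
  congr 1
  apply Nat.card_congr
  exact
    { toFun := fun k => ⟨((k.1 : ↥(MulAction.stabilizer M24 E)) : ↥M24).1,
        ((k.1 : ↥(MulAction.stabilizer M24 E)) : ↥M24).2, fun p hp => by
          have hk := MonoidHom.mem_ker.1 k.2
          have := congrArg (fun σ : Equiv.Perm ↥E => ((σ ⟨p, hp⟩ : ↥E) : GolayPt)) hk
          simpa [resHom_apply] using this⟩
      invFun := fun g => ⟨⟨⟨g.1, g.2.1⟩, by
          rw [MulAction.mem_stabilizer_iff]
          apply Finset.eq_of_subset_of_card_le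
          · intro q hq
            obtain ⟨p, hp, rfl⟩ := Finset.mem_smul_finset.1 hq
            change g.1 p ∈ E
            rw [g.2.2 p hp]; exact hp
          · exact (Finset.card_smul_finset _ _).ge⟩, by
          rw [MonoidHom.mem_ker]
          apply Equiv.ext
          intro p
          apply Subtype.ext
          rw [resHom_apply]
          exact g.2.2 p.1 p.2⟩
      left_inv := fun k => rfl
      right_inv := fun g => rfl }

/-- Although the group of the length-24 code is only 5-transitive on the 24 points, it induces the full symmetric group on every 6-element subset: every permutation of a 6-set E is the restriction of an element of the group mapping E to itself. The pointwise stabiliser of E has order 16 when E lies in an octad and order 3 otherwise; in the latter case the setwise stabiliser of E has order 2160. -/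
theorem result (E : Finset Cfsg.GolayPt) (hE : E.card = 6) : (∀ σ : Equiv.Perm ↥E, ∃ g ∈ Cfsg.M24, ∀ p : ↥E, g p = σ p) ∧ ((∃ o ∈ Cfsg.octads, E ⊆ o) → Nat.card {g : Equiv.Perm Cfsg.GolayPt // g ∈ Cfsg.M24 ∧ ∀ p ∈ E, g p = p} = 16) ∧ ((¬ ∃ o ∈ Cfsg.octads, E ⊆ o) → Nat.card {g : Equiv.Perm Cfsg.GolayPt // g ∈ Cfsg.M24 ∧ ∀ p ∈ E, g p = p} = 3 ∧ Nat.card ↥(MulAction.stabilizer Cfsg.M24 E) = 2160) := by
  classical
  let φ : Fin 6 ≃ ↥E := (Finset.equivFinOfCardEq hE).symm
  have hinj : Function.Injective (fun i => (φ i : GolayPt)) :=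
    fun i j h => φ.injective (Subtype.ext h)
  have hsub : ∀ o : Finset GolayPt, (∀ i, (φ i : GolayPt) ∈ o) ↔ E ⊆ o := by
    intro o
    constructor
    · intro h p hp
      have := h (φ.symm ⟨p, hp⟩)
      simpa using this
    · intro h i
      exact h (φ i).2
  have part1 : ∀ σ : Equiv.Perm ↥E, ∃ g ∈ Cfsg.M24, ∀ p : ↥E, g p = σ p := by
    intro σ
    have hinj' : Function.Injective (fun i => ((σ (φ i) : ↥E) : GolayPt)) :=
      fun i j h => φ.injective (σ.injective (Subtype.ext h))
    have hsub' : ∀ o : Finset GolayPt, (∀ i, ((σ (φ i) : ↥E) : GolayPt) ∈ o) ↔ E ⊆ o := by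
      intro o
      constructor
      · intro h p hp
        have := h (φ.symm (σ.symm ⟨p, hp⟩))
        simpa using this
      · intro h i
        exact h (σ (φ i)).2
    obtain ⟨g, hg, h⟩ := six_trans _ _ hinj hinj' (by simp only [hsub, hsub'])
    refine ⟨g, hg, fun p => ?_⟩
    have := h (φ.symm p)
    simpa using this
  obtain ⟨u, hu, x, hx, hxb, hb⟩ := normal_form _ hinj
  have hty := type_iff hu hx hb
  have hEm : ∀ p, p ∈ E ↔ ∃ i, (φ i : GolayPt) = p := by
    intro p
    constructor
    · intro hp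
      exact ⟨φ.symm ⟨p, hp⟩, by simp⟩
    · rintro ⟨i, rfl⟩
      exact (φ i).2
  have hcard := card_ps E _ hEm hu hx hb
  have hx' := List.all_eq_true.1 tab_facts.2.2.1 x (List.mem_range.2 hx)
  rw [hxb, Bool.false_or, beq_iff_eq] at hx'
  refine ⟨part1, ?_, ?_⟩
  · rintro ⟨o, ho, hEo⟩
    have : (8536111 : Nat).testBit x = true := hty.1 ⟨o, ho, (hsub o).2 hEo⟩
    rw [hcard, hx', if_pos this]
  · intro hno
    have : ¬ (8536111 : Nat).testBit x = true := fun h => hno (by
      obtain ⟨o, ho, h'⟩ := hty.2 h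
      exact ⟨o, ho, (hsub o).1 h'⟩)
    refine ⟨by rw [hcard, hx', if_neg this], ?_⟩
    rw [card_stab E hE part1, hcard, hx', if_neg this]

end Cfsg.Agent.S5600
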