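import Cfsg.Statements.S5601
import Cfsg.Agent.Helper93.M24Class

set_option autoImplicit false
open scoped Pointwise
open Cfsg

namespace Cfsg.Agent.S5601

open Cfsg.Agent.Helper91 Cfsg.Agent.Helper93

theorem conj_mem_iff {G : Type*} [Group G] (H : Subgroup G) (g x : G) :
    x ∈ MulAut.conj g • H ↔ g⁻¹ * x * g ∈ H := by
  rw [Subgroup.mem_pointwise_smul_iff_inv_smul_mem]
  simp [MulAut.smul_def]

theorem conj_zpowers {G : Type*} [Group G] (k x : G) :
    MulAut.conj k • Subgroup.zpowers x = Subgroup.zpowers (k * x * k⁻¹) := by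
  ext z
  rw [conj_mem_iff, Subgroup.mem_zpowers_iff, Subgroup.mem_zpowers_iff]
  constructor
  · rintro ⟨n, hn⟩
    exact ⟨n, by rw [conj_zpow, hn]; group⟩
  · rintro ⟨n, rfl⟩
    exact ⟨n, by rw [conj_zpow]; group⟩

/-- A subgroup of order 3 is generated by an element of order 3. -/
theorem exists_gen (X : Subgroup ↥M24) (h : Nat.card X = 3) :
    ∃ x : ↥M24, orderOf x = 3 ∧ X = Subgroup.zpowers x := by
  haveI : Fact (Nat.Prime 3) := ⟨by norm_num⟩
  haveI : Finite X := Nat.finite_of_card_ne_zero (by rw [h]; norm_num)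
  haveI : Nontrivial X := Finite.one_lt_card_iff_nontrivial.1 (by rw [h]; norm_num)
  obtain ⟨x, hx⟩ : ∃ x : X, x ≠ 1 := exists_ne 1
  have hz : Subgroup.zpowers x = ⊤ := zpowers_eq_top_of_prime_card (p := 3) h hx
  have ho : orderOf x = 3 := by rw [← Nat.card_zpowers, hz, Subgroup.card_top, h]
  refine ⟨x.1, by rw [← ho, Subgroup.orderOf_coe], ?_⟩
  ext y
  constructor
  · intro hy
    have hmem : (⟨y, hy⟩ : X) ∈ Subgroup.zpowers x := by rw [hz]; trivial
    obtain ⟨k, hk⟩ := Subgroup.mem_zpowers_iff.1 hmem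
    refine Subgroup.mem_zpowers_iff.2 ⟨k, ?_⟩
    have := congrArg Subtype.val hk
    simpa using this
  · intro hy
    obtain ⟨k, rfl⟩ := Subgroup.mem_zpowers_iff.1 hy
    exact X.zpow_mem x.2 k

/-- The fixed points of a cyclic subgroup are those of its generator. -/
theorem fix_zpowers (x : ↥M24) :
    {p : GolayPt | ∀ y ∈ Subgroup.zpowers x, ((y : ↥M24) : Equiv.Perm GolayPt) p = p}.ncard =
      (Finset.univ.filter (fun p => (x : Equiv.Perm GolayPt) p = p)).card := by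
  rw [← Set.ncard_coe_finset]
  congr 1
  ext p
  simp only [Set.mem_ofPred_eq, Finset.coe_filter, Finset.mem_univ, true_and]
  constructor
  · intro h
    exact h x (Subgroup.mem_zpowers x)
  · intro h y hy
    obtain ⟨k, rfl⟩ := Subgroup.mem_zpowers_iff.1 hy
    rw [Subgroup.coe_zpow]
    exact Equiv.Perm.zpow_apply_eq_self_of_apply_eq_self h k

theorem orderOf_three_of {g : Equiv.Perm GolayPt} (h3 : g * (g * g) = 1)
    (hf : (Finset.univ.filter (fun p => g p = p)).card ≠ 24) : orderOf g = 3 := by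
  haveI : Fact (Nat.Prime 3) := ⟨by norm_num⟩
  apply orderOf_eq_prime
  · rw [pow_succ, pow_two]; rw [← h3]; group
  · rintro rfl
    apply hf
    simp [Helper26.card_golayPt]

theorem class_of_orderOf {x : ↥M24} (h : orderOf x = 3) :
    (∃ u ∈ M24, (x : Equiv.Perm GolayPt) = u * R3A * u⁻¹) ∨
      (∃ u ∈ M24, (x : Equiv.Perm GolayPt) = u * R3B * u⁻¹) := by
  have h' : orderOf (x : Equiv.Perm GolayPt) = 3 := by rw [Subgroup.orderOf_coe, h]
  obtain ⟨hc, hne⟩ := cube_of_orderOf_three h'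
  exact ord3_class x.2 hc hne

theorem conj_of_class {x y : ↥M24} {u v r : Equiv.Perm GolayPt} (hu : u ∈ M24) (hv : v ∈ M24)
    (hx : (x : Equiv.Perm GolayPt) = u * r * u⁻¹) (hy : (y : Equiv.Perm GolayPt) = v * r * v⁻¹) :
    ∃ k : ↥M24, MulAut.conj k • Subgroup.zpowers x = Subgroup.zpowers y := by
  refine ⟨⟨v * u⁻¹, mul_mem hv (inv_mem hu)⟩, ?_⟩
  rw [conj_zpowers]
  congr 1
  apply Subtype.ext
  simp only [Subgroup.coe_mul, Subgroup.coe_inv]
  rw [hx, hy]; group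

/-- The group of the length-24 code has exactly two conjugacy classes of subgroups of order 3: a subgroup of order 3 fixes either exactly 6 of the 24 points or none of them, both cases occur, and two subgroups of order 3 with the same number of fixed points are conjugate. -/
theorem result : (∀ X : Subgroup ↥Cfsg.M24, Nat.card X = 3 → {p : Cfsg.GolayPt | ∀ x ∈ X, ((x : ↥Cfsg.M24) : Equiv.Perm Cfsg.GolayPt) p = p}.ncard = 6 ∨ {p : Cfsg.GolayPt | ∀ x ∈ X, ((x : ↥Cfsg.M24) : Equiv.Perm Cfsg.GolayPt) p = p}.ncard = 0) ∧ (∃ X : Subgroup ↥Cfsg.M24, Nat.card X = 3 ∧ {p : Cfsg.GolayPt | ∀ x ∈ X, ((x : ↥Cfsg.M24) : Equiv.Perm Cfsg.GolayPt) p = p}.ncard = 6) ∧ (∃ X : Subgroup ↥Cfsg.M24, Nat.card X = 3 ∧ {p : Cfsg.GolayPt | ∀ x ∈ X, ((x : ↥Cfsg.M24) : Equiv.Perm Cfsg.GolayPt) p = p}.ncard = 0) ∧ ∀ X Y : Subgroup ↥Cfsg.M24, Nat.card X = 3 → Nat.card Y = 3 → {p : Cfsg.GolayPt | ∀ x ∈ X, ((x : ↥Cfsg.M24) : Equiv.Perm Cfsg.GolayPt) p =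 p}.ncard = {p : Cfsg.GolayPt | ∀ x ∈ Y, ((x : ↥Cfsg.M24) : Equiv.Perm Cfsg.GolayPt) p = p}.ncard → ∃ k : ↥Cfsg.M24, MulAut.conj k • X = Y := by
  refine ⟨?_, ?_, ?_, ?_⟩
  · intro X hX
    obtain ⟨x, hx, rfl⟩ := exists_gen X hX
    rw [fix_zpowers]
    rcases class_of_orderOf hx with ⟨u, hu, e⟩ | ⟨u, hu, e⟩
    · left; rw [e, card_fix_conj, R3A_fix]
    · right; rw [e, card_fix_conj, R3B_fix]
  · refine ⟨Subgroup.zpowers ⟨R3A, R3A_mem⟩, ?_, ?_⟩
    · rw [Nat.card_zpowers, ← Subgroup.orderOf_coe]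
      exact orderOf_three_of R3A_cube (by rw [R3A_fix]; norm_num)
    · rw [fix_zpowers]; exact R3A_fix
  · refine ⟨Subgroup.zpowers ⟨R3B, R3B_mem⟩, ?_, ?_⟩
    · rw [Nat.card_zpowers, ← Subgroup.orderOf_coe]
      exact orderOf_three_of R3B_cube (by rw [R3B_fix]; norm_num)
    · rw [fix_zpowers]; exact R3B_fix
  · intro X Y hX hY hfix
    obtain ⟨x, hx, rfl⟩ := exists_gen X hX
    obtain ⟨y, hy, rfl⟩ := exists_gen Y hY
    rw [fix_zpowers, fix_zpowers] at hfix
    rcases class_of_orderOf hx with ⟨u, hu, e⟩ | ⟨u, hu, e⟩ <;>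
      rcases class_of_orderOf hy with ⟨v, hv, e'⟩ | ⟨v, hv, e'⟩
    · exact conj_of_class hu hv e e'
    · rw [e, e', card_fix_conj, card_fix_conj, R3A_fix, R3B_fix] at hfix
      exact absurd hfix (by norm_num)
    · rw [e, e', card_fix_conj, card_fix_conj, R3A_fix, R3B_fix] at hfix
      exact absurd hfix (by norm_num)
    · exact conj_of_class hu hv e e'

end Cfsg.Agent.S5601
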