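import Cfsg.Statements.S5602
import Cfsg.Agent.Helper93.M24Class
import Cfsg.Agent.Helper93.M24Fast

set_option autoImplicit false
open scoped Pointwise
open Cfsg

namespace Cfsg.Agent.S5602

open Cfsg.Agent.Helper91 Cfsg.Agent.Helper93

theorem cnt_oct : fixOctF r3A = 21 := by decide +kernel

theorem cnt_trio : fixTrioE r3A = 15 := by decide +kernel

theorem cnt_sext : fixSextF r3A = 96 := by decide +kernel

theorem cnt_dod : fixDodF r3A = 20 := by decide +kernel

/-- An element of order 3 of the group of the length-24 code having exactly 6 fixed points maps to themselves exactly 21 octads, exactly 15 trios, exactly 16 sextets and exactly 20 dodecads. -/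
theorem result (g : Equiv.Perm Cfsg.GolayPt) (hg : g ∈ Cfsg.M24) (h₃ : orderOf g = 3) (h₆ : (Finset.univ.filter fun p => g p = p).card = 6) : {o : Finset Cfsg.GolayPt | o ∈ Cfsg.octads ∧ g • o = o}.ncard = 21 ∧ {T : Finset (Finset Cfsg.GolayPt) | T ∈ Cfsg.trios ∧ g • T = T}.ncard = 15 ∧ {S : Finset (Finset Cfsg.GolayPt) | S ∈ Cfsg.sextets ∧ g • S = S}.ncard = 16 ∧ {d : Finset Cfsg.GolayPt | d ∈ Cfsg.dodecads ∧ g • d = d}.ncard = 20 := by
  obtain ⟨u, hu, rfl⟩ := class_3A hg h₃ h₆
  rw [ncard_conj_octads hu, ncard_conj_trios hu, ncard_conj_sextets hu, ncard_conj_dodecads hu]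
  refine ⟨?_, ?_, ?_, ?_⟩
  · rw [R3A, ncard_fix_octads, ← fixOctF_eq, cnt_oct]
  · rw [R3A, ncard_fix_trios', cnt_trio]
  · have h := ncard_fix_sextets (tabOK_valid reps_ok.2.2.1) R3A_mem
    rw [← fixSextF_eq, cnt_sext] at h
    rw [R3A]
    omega
  · rw [R3A, ncard_fix_dodecads, ← fixDodF_eq, cnt_dod]

end Cfsg.Agent.S5602
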