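import Cfsg.Statements.S5603
import Cfsg.Agent.Helper93.M24Class
import Cfsg.Agent.Helper93.M24Fast

set_option autoImplicit false
open scoped Pointwise
open Cfsg

namespace Cfsg.Agent.S5603

open Cfsg.Agent.Helper91 Cfsg.Agent.Helper93

theorem cnt_trio : fixTrioE r3B = 15 := by decide +kernel

theorem cnt_sext : fixSextF r3B = 42 := by decide +kernel

/-- A fixed-point-free element of order 3 of the group of the length-24 code maps to themselves exactly 7 sextets and exactly 15 trios. -/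
theorem result (g : Equiv.Perm Cfsg.GolayPt) (hg : g ∈ Cfsg.M24) (h₃ : orderOf g = 3) (h₀ : ∀ p, g p ≠ p) : {S : Finset (Finset Cfsg.GolayPt) | S ∈ Cfsg.sextets ∧ g • S = S}.ncard = 7 ∧ {T : Finset (Finset Cfsg.GolayPt) | T ∈ Cfsg.trios ∧ g • T = T}.ncard = 15 := by
  obtain ⟨u, hu, rfl⟩ := class_3B hg h₃ h₀
  rw [ncard_conj_trios hu, ncard_conj_sextets hu]
  refine ⟨?_, ?_⟩
  · have h := ncard_fix_sextets (tabOK_valid reps_ok.2.2.2.1) R3B_mem
    rw [← fixSextF_eq, cnt_sext] at h
    rw [R3B]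
    omega
  · rw [R3B, ncard_fix_trios', cnt_trio]

end Cfsg.Agent.S5603
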