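import Cfsg.Statements.S5604
import Cfsg.Agent.Helper93.M24Class
import Cfsg.Agent.Helper93.M24Norm
import Cfsg.Agent.Helper91.Fast

set_option autoImplicit false
open scoped Pointwise
open Cfsg

namespace Cfsg.Agent.S5604

open Cfsg.Agent.Helper91 Cfsg.Agent.Helper93

/-- An element of order 7 fixing the points 23, 0, 1. -/
def r7 : List Nat := [0, 1, 3, 4, 5, 11, 22, 21, 13, 18, 16, 8, 6, 2, 19, 9, 14, 20, 10, 15, 7, 12, 17, 23]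

/-- The powers of `r7`. -/
def pows7 : List (List Nat) :=
  [[0, 1, 2, 3, 4, 5, 6, 7, 8, 9, 10, 11, 12, 13, 14, 15, 16, 17, 18, 19, 20, 21, 22, 23],
   [0, 1, 3, 4, 5, 11, 22, 21, 13, 18, 16, 8, 6, 2, 19, 9, 14, 20, 10, 15, 7, 12, 17, 23],
   [0, 1, 4, 5, 11, 8, 17, 12, 2, 10, 14, 13, 22, 3, 15, 18, 19, 7, 16, 9, 21, 6, 20, 23],
   [0, 1, 5, 11, 8, 13, 20, 6, 3, 16, 19, 2, 17, 4, 9, 10, 15, 21, 14, 18, 12, 22, 7, 23],
   [0, 1, 11, 8, 13, 2, 7, 22, 4, 14, 15, 3, 20, 5, 18, 16, 9, 12, 19, 10, 6, 17, 21, 23],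
   [0, 1, 8, 13, 2, 3, 21, 17, 5, 19, 9, 4, 7, 11, 10, 14, 18, 6, 15, 16, 22, 20, 12, 23],
   [0, 1, 13, 2, 3, 4, 12, 20, 11, 15, 18, 5, 21, 8, 16, 19, 10, 22, 9, 14, 17, 7, 6, 23]]

/-- Elements of the centraliser of `r7` carrying the point 23 to 0 and to 1. -/
def n1 : List Nat := [1, 23, 6, 22, 17, 20, 15, 16, 21, 13, 3, 7, 19, 12, 5, 8, 4, 18, 2, 11, 10, 14, 9, 0]

def n2 : List Nat := [0, 23, 6, 22, 17, 20, 3, 8, 21, 14, 15, 7, 2, 12, 18, 16, 9, 5, 19, 10, 11, 13, 4, 1]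

/-- An element of the centraliser of `r7` fixing 23 and carrying 0 to 1. -/
def n3 : List Nat := [1, 0, 9, 18, 10, 16, 17, 12, 19, 11, 13, 14, 22, 15, 3, 5, 2, 7, 8, 4, 21, 6, 20, 23]

/-- The 21 elements of the normaliser of `r7` fixing the points 23 and 0. -/
def n2Tabs : List (List Nat) :=
  [[0, 1, 2, 3, 4, 5, 6, 7, 8, 9, 10, 11, 12, 13, 14, 15, 16, 17, 18, 19, 20, 21, 22, 23],
   [0, 1, 2, 4, 11, 13, 7, 21, 5, 10, 15, 3, 17, 8, 16, 9, 18, 22, 14, 19, 20, 6, 12, 23],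
   [0, 1, 2, 11, 3, 8, 21, 6, 13, 15, 9, 4, 22, 5, 18, 10, 14, 12, 16, 19, 20, 7, 17, 23],
   [0, 1, 3, 4, 5, 11, 22, 21, 13, 18, 16, 8, 6, 2, 19, 9, 14, 20, 10, 15, 7, 12, 17, 23],
   [0, 1, 3, 5, 8, 2, 21, 12, 11, 16, 9, 4, 20, 13, 14, 18, 10, 17, 19, 15, 7, 22, 6, 23],
   [0, 1, 3, 8, 4, 13, 12, 22, 2, 9, 18, 5, 17, 11, 10, 16, 19, 6, 14, 15, 7, 21, 20, 23],
   [0, 1, 4, 5, 11, 8, 17, 12, 2, 10, 14, 13, 22, 3, 15, 18, 19, 7, 16, 9, 21, 6, 20, 23],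
   [0, 1, 4, 11, 13, 3, 12, 6, 8, 14, 18, 5, 7, 2, 19, 10, 16, 20, 15, 9, 21, 17, 22, 23],
   [0, 1, 4, 13, 5, 2, 6, 17, 3, 18, 10, 11, 20, 8, 16, 14, 15, 22, 19, 9, 21, 12, 7, 23],
   [0, 1, 5, 2, 11, 3, 22, 20, 4, 10, 16, 8, 7, 13, 14, 19, 9, 17, 15, 18, 12, 6, 21, 23],
   [0, 1, 5, 8, 2, 4, 6, 22, 13, 19, 10, 11, 21, 3, 15, 16, 14, 7, 9, 18, 12, 20, 17, 23],
   [0, 1, 5, 11, 8, 13, 20, 6, 3, 16, 19, 2, 17, 4, 9, 10, 15, 21, 14, 18, 12, 22, 7, 23],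
   [0, 1, 8, 2, 4, 11, 17, 20, 3, 9, 14, 13, 6, 5, 18, 19, 15, 12, 10, 16, 22, 21, 7, 23],
   [0, 1, 8, 4, 13, 5, 20, 21, 11, 14, 19, 2, 12, 3, 15, 9, 10, 7, 18, 16, 22, 17, 6, 23],
   [0, 1, 8, 13, 2, 3, 21, 17, 5, 19, 9, 4, 7, 11, 10, 14, 18, 6, 15, 16, 22, 20, 12, 23],
   [0, 1, 11, 3, 8, 4, 17, 7, 5, 16, 14, 13, 21, 2, 19, 15, 18, 20, 9, 10, 6, 22, 12, 23],
   [0, 1, 11, 8, 13, 2, 7, 22, 4, 14, 15, 3, 20, 5, 18, 16, 9, 12, 19, 10, 6, 17, 21, 23],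
   [0, 1, 11, 13, 3, 5, 22, 17, 2, 15, 16, 8, 12, 4, 9, 14, 19, 21, 18, 10, 6, 7, 20, 23],
   [0, 1, 13, 2, 3, 4, 12, 20, 11, 15, 18, 5, 21, 8, 16, 19, 10, 22, 9, 14, 17, 7, 6, 23],
   [0, 1, 13, 3, 5, 8, 20, 7, 4, 18, 19, 2, 22, 11, 10, 15, 9, 6, 16, 14, 17, 12, 21, 23],
   [0, 1, 13, 5, 2, 11, 7, 12, 8, 19, 15, 3, 6, 4, 9, 18, 16, 21, 10, 14, 17, 20, 22, 23]]

/-- Coset representatives for the possible images of the base points under an element normalising `r7`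
and fixing the points 23 and 0. -/
def xs7 : List (List Nat) :=
  [[0, 1, 2, 3, 4, 5, 6, 7, 8, 9, 10, 11, 12, 13, 14, 15, 16, 17, 18, 19, 20, 21, 22, 23],
   [0, 1, 3, 4, 8, 19, 12, 22, 9, 2, 17, 7, 18, 6, 20, 14, 13, 11, 16, 15, 5, 21, 10, 23],
   [0, 1, 4, 5, 18, 7, 17, 9, 3, 13, 2, 20, 19, 14, 8, 16, 21, 15, 11, 6, 22, 12, 10, 23],
   [0, 1, 5, 11, 22, 13, 15, 4, 16, 3, 14, 10, 12, 6, 9, 2, 20, 21, 19, 7, 17, 8, 18, 23],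
   [0, 1, 6, 22, 7, 20, 9, 12, 14, 3, 8, 11, 16, 19, 5, 13, 21, 18, 15, 17, 10, 4, 2, 23],
   [0, 1, 7, 21, 14, 6, 22, 11, 15, 9, 3, 4, 8, 12, 2, 16, 13, 19, 5, 10, 18, 17, 20, 23],
   [0, 1, 8, 13, 20, 6, 9, 22, 5, 2, 11, 7, 15, 21, 3, 18, 16, 10, 4, 14, 12, 19, 17, 23],
   [0, 1, 9, 18, 10, 16, 6, 12, 5, 8, 22, 21, 13, 20, 7, 19, 2, 3, 11, 4, 14, 17, 15, 23],
   [0, 1, 10, 16, 15, 5, 22, 7, 4, 3, 13, 14, 21, 2, 19, 8, 9, 12, 18, 11, 6, 17, 20, 23],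
   [0, 1, 11, 8, 5, 18, 14, 6, 22, 3, 19, 7, 17, 9, 12, 20, 13, 2, 10, 15, 4, 16, 21, 23],
   [0, 1, 12, 6, 2, 4, 14, 13, 16, 3, 15, 19, 5, 11, 9, 22, 8, 17, 10, 7, 21, 20, 18, 23],
   [0, 1, 13, 2, 20, 22, 17, 18, 5, 8, 3, 9, 21, 14, 4, 6, 12, 16, 11, 15, 10, 19, 7, 23],
   [0, 1, 14, 19, 10, 8, 7, 13, 6, 17, 2, 16, 11, 21, 9, 3, 18, 22, 15, 12, 5, 20, 4, 23],
   [0, 1, 15, 9, 11, 10, 8, 7, 22, 18, 19, 21, 12, 14, 20, 17, 16, 2, 3, 5, 13, 4, 6, 23],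
   [0, 1, 16, 14, 13, 11, 10, 5, 21, 3, 18, 20, 8, 4, 15, 9, 2, 6, 17, 12, 7, 19, 22, 23],
   [0, 1, 17, 20, 18, 16, 12, 9, 7, 2, 14, 22, 11, 13, 21, 3, 15, 8, 10, 6, 5, 4, 19, 23],
   [0, 1, 18, 10, 2, 21, 5, 6, 19, 3, 16, 15, 17, 12, 4, 7, 8, 14, 13, 20, 9, 22, 11, 23],
   [0, 1, 19, 15, 5, 13, 2, 21, 9, 3, 20, 8, 14, 10, 18, 11, 12, 17, 22, 7, 4, 6, 16, 23],
   [0, 1, 20, 7, 2, 13, 8, 16, 4, 18, 5, 19, 11, 15, 14, 22, 9, 12, 3, 21, 6, 17, 10, 23],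
   [0, 1, 21, 12, 20, 22, 2, 6, 18, 9, 11, 14, 10, 8, 3, 5, 17, 15, 4, 7, 13, 19, 16, 23],
   [0, 1, 22, 17, 6, 11, 19, 14, 15, 2, 13, 12, 21, 18, 10, 16, 5, 7, 3, 9, 4, 8, 20, 23],
   [0, 1, 2, 4, 15, 16, 18, 11, 14, 19, 21, 5, 17, 10, 22, 6, 20, 13, 3, 8, 7, 12, 9, 23],
   [0, 1, 3, 5, 12, 17, 7, 9, 4, 13, 8, 19, 20, 15, 2, 6, 21, 14, 11, 16, 10, 18, 22, 23],
   [0, 1, 4, 11, 13, 19, 10, 18, 17, 8, 7, 9, 6, 22, 20, 15, 2, 3, 12, 21, 5, 14, 16, 23],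
   [0, 1, 5, 8, 10, 7, 20, 22, 17, 9, 21, 3, 2, 16, 4, 11, 19, 15, 14, 6, 13, 18, 12, 23],
   [0, 1, 6, 17, 22, 9, 16, 14, 8, 2, 21, 10, 13, 20, 12, 19, 5, 4, 3, 11, 7, 15, 18, 23],
   [0, 1, 7, 12, 16, 20, 15, 8, 21, 11, 22, 19, 6, 3, 13, 17, 18, 14, 2, 5, 10, 4, 9, 23],
   [0, 1, 8, 2, 9, 12, 16, 17, 4, 3, 13, 15, 7, 22, 11, 6, 14, 18, 5, 20, 10, 21, 19, 23],
   [0, 1, 9, 10, 19, 2, 11, 21, 7, 4, 17, 16, 3, 22, 15, 6, 14, 20, 18, 5, 12, 13, 8, 23],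
   [0, 1, 10, 14, 9, 21, 16, 5, 11, 3, 6, 22, 7, 15, 4, 13, 2, 18, 17, 19, 8, 12, 20, 23],
   [0, 1, 11, 13, 12, 21, 4, 3, 22, 6, 16, 7, 17, 2, 5, 15, 8, 9, 10, 20, 14, 19, 18, 23],
   [0, 1, 12, 22, 17, 21, 13, 20, 16, 18, 2, 10, 19, 4, 3, 8, 6, 15, 5, 7, 11, 14, 9, 23],
   [0, 1, 13, 3, 12, 6, 19, 17, 4, 5, 11, 22, 16, 20, 8, 9, 14, 10, 2, 15, 21, 18, 7, 23],
   [0, 1, 14, 15, 12, 16, 18, 10, 19, 2, 17, 22, 8, 13, 6, 5, 20, 11, 9, 21, 3, 4, 7, 23],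
   [0, 1, 15, 18, 4, 13, 6, 16, 22, 9, 20, 21, 12, 5, 19, 2, 7, 17, 3, 14, 10, 11, 8, 23],
   [0, 1, 16, 19, 13, 12, 8, 20, 14, 3, 9, 15, 6, 22, 5, 7, 4, 10, 11, 17, 18, 21, 2, 23],
   [0, 1, 17, 7, 9, 11, 19, 13, 21, 14, 2, 16, 8, 6, 10, 5, 12, 22, 20, 18, 3, 15, 4, 23],
   [0, 1, 18, 16, 15, 7, 10, 4, 5, 2, 12, 6, 20, 19, 3, 8, 13, 9, 22, 14, 11, 21, 17, 23],
   [0, 1, 19, 9, 12, 14, 2, 7, 20, 18, 15, 4, 11, 10, 22, 13, 16, 8, 3, 6, 17, 21, 5, 23],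
   [0, 1, 20, 21, 6, 17, 14, 12, 4, 15, 10, 19, 11, 18, 8, 9, 22, 16, 3, 7, 2, 13, 5, 23],
   [0, 1, 21, 6, 20, 7, 3, 12, 13, 4, 10, 5, 11, 8, 2, 14, 17, 19, 9, 22, 18, 15, 16, 23],
   [0, 1, 22, 20, 13, 5, 10, 11, 9, 3, 15, 14, 8, 2, 18, 21, 4, 6, 19, 7, 12, 17, 16, 23],
   [0, 1, 2, 5, 12, 14, 4, 13, 7, 9, 15, 19, 6, 8, 3, 20, 11, 17, 21, 16, 10, 22, 18, 23],
   [0, 1, 3, 11, 13, 20, 22, 12, 7, 2, 17, 9, 16, 10, 19, 14, 8, 4, 18, 21, 5, 15, 6, 23],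
   [0, 1, 4, 8, 17, 5, 19, 3, 14, 13, 22, 21, 18, 9, 7, 2, 6, 15, 10, 20, 16, 11, 12, 23],
   [0, 1, 5, 13, 15, 21, 16, 12, 22, 14, 2, 18, 6, 4, 9, 3, 7, 11, 20, 19, 17, 10, 8, 23],
   [0, 1, 6, 20, 14, 18, 9, 4, 10, 19, 2, 13, 8, 15, 5, 21, 11, 22, 3, 12, 7, 17, 16, 23],
   [0, 1, 7, 6, 10, 19, 4, 5, 12, 18, 9, 13, 14, 17, 2, 16, 22, 21, 20, 8, 3, 15, 11, 23],
   [0, 1, 8, 3, 21, 10, 19, 14, 4, 2, 11, 15, 7, 20, 13, 18, 17, 6, 5, 22, 12, 9, 16, 23],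
   [0, 1, 9, 16, 6, 18, 2, 20, 22, 21, 13, 14, 19, 4, 3, 5, 17, 7, 8, 15, 11, 10, 12, 23],
   [0, 1, 10, 19, 14, 16, 7, 11, 6, 20, 2, 8, 13, 21, 5, 15, 4, 12, 3, 22, 9, 17, 18, 23],
   [0, 1, 11, 2, 4, 8, 14, 15, 5, 10, 17, 13, 21, 3, 12, 7, 20, 18, 9, 16, 22, 6, 19, 23],
   [0, 1, 12, 17, 8, 9, 13, 14, 19, 3, 15, 16, 10, 18, 4, 22, 2, 6, 5, 20, 21, 7, 11, 23],
   [0, 1, 13, 4, 14, 16, 19, 15, 11, 8, 3, 21, 9, 20, 2, 6, 7, 22, 5, 18, 10, 17, 12, 23],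
   [0, 1, 14, 9, 6, 8, 21, 10, 13, 2, 5, 12, 7, 11, 22, 3, 15, 19, 20, 4, 17, 18, 16, 23],
   [0, 1, 15, 10, 12, 20, 11, 14, 7, 18, 17, 5, 8, 22, 9, 13, 21, 2, 4, 16, 19, 6, 3, 23],
   [0, 1, 16, 15, 5, 6, 13, 22, 18, 21, 17, 7, 9, 19, 14, 20, 12, 11, 3, 4, 8, 2, 10, 23],
   [0, 1, 17, 21, 13, 8, 4, 6, 10, 2, 14, 11, 22, 18, 20, 3, 19, 16, 7, 9, 5, 12, 15, 23],
   [0, 1, 18, 14, 8, 4, 6, 5, 15, 3, 16, 19, 13, 11, 21, 7, 2, 10, 17, 22, 9, 20, 12, 23],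
   [0, 1, 19, 18, 21, 17, 5, 16, 20, 9, 22, 4, 11, 6, 15, 8, 7, 13, 3, 10, 14, 12, 2, 23],
   [0, 1, 20, 12, 10, 14, 17, 21, 4, 22, 6, 19, 11, 9, 13, 18, 15, 7, 3, 16, 5, 8, 2, 23],
   [0, 1, 21, 22, 19, 12, 20, 16, 5, 4, 18, 9, 11, 6, 15, 10, 2, 3, 13, 8, 14, 17, 7, 23],
   [0, 1, 22, 7, 2, 11, 20, 18, 12, 9, 14, 21, 15, 13, 17, 8, 16, 10, 3, 6, 19, 5, 4, 23],
   [0, 1, 2, 11, 15, 8, 22, 4, 7, 3, 17, 6, 21, 10, 18, 5, 20, 12, 19, 16, 14, 13, 9, 23],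
   [0, 1, 3, 8, 14, 13, 16, 7, 20, 15, 21, 19, 11, 17, 10, 12, 5, 6, 4, 9, 22, 18, 2, 23],
   [0, 1, 4, 13, 11, 16, 12, 6, 14, 8, 7, 21, 18, 20, 22, 15, 3, 2, 10, 9, 5, 17, 19, 23],
   [0, 1, 5, 2, 11, 14, 19, 16, 6, 4, 7, 18, 20, 21, 17, 15, 13, 3, 22, 12, 8, 10, 9, 23],
   [0, 1, 6, 7, 8, 2, 17, 12, 11, 20, 22, 15, 16, 10, 19, 18, 13, 21, 14, 4, 5, 9, 3, 23],
   [0, 1, 7, 22, 9, 17, 15, 4, 12, 2, 21, 14, 20, 3, 11, 6, 16, 10, 13, 8, 19, 5, 18, 23],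
   [0, 1, 8, 4, 14, 7, 16, 20, 13, 11, 2, 10, 6, 22, 5, 12, 19, 15, 3, 21, 18, 17, 9, 23],
   [0, 1, 9, 14, 6, 22, 21, 5, 18, 2, 10, 16, 7, 4, 8, 20, 17, 19, 3, 11, 15, 13, 12, 23],
   [0, 1, 10, 15, 16, 20, 18, 21, 17, 3, 13, 11, 7, 19, 2, 8, 12, 9, 22, 14, 6, 4, 5, 23],
   [0, 1, 11, 3, 16, 4, 21, 13, 22, 8, 12, 7, 17, 15, 19, 2, 6, 20, 10, 9, 18, 5, 14, 23],
   [0, 1, 12, 20, 18, 14, 17, 4, 21, 19, 16, 22, 15, 8, 7, 10, 11, 13, 3, 6, 5, 9, 2, 23],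
   [0, 1, 13, 5, 18, 21, 7, 14, 4, 3, 8, 22, 16, 15, 11, 10, 17, 9, 2, 20, 6, 12, 19, 23],
   [0, 1, 14, 18, 2, 21, 20, 7, 6, 9, 22, 11, 15, 5, 4, 19, 3, 10, 16, 12, 8, 13, 17, 23],
   [0, 1, 15, 16, 20, 6, 13, 18, 22, 7, 4, 21, 12, 2, 11, 5, 9, 14, 3, 17, 8, 19, 10, 23],
   [0, 1, 16, 9, 14, 7, 10, 12, 20, 4, 2, 8, 21, 15, 3, 13, 6, 18, 17, 19, 22, 5, 11, 23],
   [0, 1, 17, 12, 10, 4, 3, 14, 21, 13, 15, 16, 8, 22, 9, 18, 7, 6, 20, 5, 19, 2, 11, 23],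
   [0, 1, 18, 19, 8, 17, 5, 20, 16, 4, 10, 9, 7, 12, 13, 21, 11, 15, 3, 22, 14, 6, 2, 23],
   [0, 1, 19, 10, 14, 12, 15, 13, 20, 6, 2, 4, 11, 9, 5, 7, 8, 16, 3, 18, 21, 17, 22, 23],
   [0, 1, 20, 6, 2, 18, 17, 8, 12, 3, 4, 7, 14, 9, 22, 11, 10, 5, 13, 21, 19, 16, 15, 23],
   [0, 1, 21, 17, 19, 8, 11, 9, 22, 4, 10, 15, 3, 7, 16, 14, 6, 20, 12, 13, 18, 5, 2, 23],
   [0, 1, 22, 21, 20, 12, 10, 7, 14, 2, 4, 8, 9, 18, 3, 13, 6, 15, 19, 17, 16, 11, 5, 23],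
   [0, 1, 2, 8, 7, 12, 22, 13, 14, 10, 9, 5, 17, 19, 18, 20, 6, 11, 3, 4, 15, 16, 21, 23],
   [0, 1, 3, 13, 11, 6, 18, 16, 15, 2, 17, 21, 12, 19, 10, 14, 4, 8, 22, 9, 5, 7, 20, 23],
   [0, 1, 4, 2, 15, 13, 6, 17, 19, 14, 21, 20, 11, 7, 22, 18, 5, 16, 3, 9, 10, 12, 8, 23],
   [0, 1, 5, 3, 15, 17, 20, 18, 19, 9, 11, 12, 10, 4, 14, 13, 7, 2, 16, 22, 21, 6, 8, 23],
   [0, 1, 6, 21, 18, 19, 16, 15, 17, 3, 8, 4, 9, 20, 2, 13, 22, 7, 12, 14, 10, 11, 5, 23],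
   [0, 1, 7, 17, 15, 22, 16, 3, 21, 14, 20, 19, 6, 8, 10, 12, 5, 11, 2, 18, 13, 9, 4, 23],
   [0, 1, 8, 5, 16, 15, 9, 14, 11, 3, 13, 12, 18, 21, 4, 6, 17, 7, 2, 19, 10, 22, 20, 23],
   [0, 1, 9, 19, 18, 14, 6, 4, 21, 20, 2, 13, 5, 7, 8, 10, 3, 22, 11, 17, 15, 12, 16, 23],
   [0, 1, 10, 9, 13, 2, 17, 22, 4, 19, 12, 21, 18, 6, 20, 16, 8, 15, 14, 11, 5, 7, 3, 23],
   [0, 1, 11, 4, 17, 19, 16, 15, 13, 8, 2, 9, 21, 22, 3, 18, 7, 20, 5, 6, 12, 14, 10, 23],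
   [0, 1, 12, 7, 6, 14, 5, 16, 15, 18, 8, 21, 22, 4, 13, 11, 9, 20, 3, 19, 2, 10, 17, 23],
   [0, 1, 13, 11, 7, 9, 19, 18, 3, 2, 4, 10, 6, 20, 5, 16, 12, 21, 8, 17, 22, 15, 14, 23],
   [0, 1, 14, 10, 3, 4, 7, 20, 11, 9, 22, 6, 16, 17, 21, 19, 2, 18, 15, 13, 8, 12, 5, 23],
   [0, 1, 15, 14, 10, 11, 19, 17, 22, 5, 8, 21, 12, 9, 6, 7, 2, 16, 3, 18, 4, 13, 20, 23],
   [0, 1, 16, 18, 21, 9, 6, 11, 5, 2, 22, 10, 19, 20, 3, 13, 8, 7, 12, 14, 4, 15, 17, 23],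
   [0, 1, 17, 6, 11, 9, 2, 5, 21, 18, 19, 16, 8, 7, 4, 13, 22, 12, 20, 14, 15, 3, 10, 23],
   [0, 1, 18, 15, 2, 13, 6, 22, 16, 21, 14, 9, 7, 11, 17, 4, 12, 19, 3, 20, 10, 5, 8, 23],
   [0, 1, 19, 16, 21, 10, 15, 18, 14, 3, 11, 8, 22, 6, 5, 4, 7, 12, 9, 17, 20, 13, 2, 23],
   [0, 1, 20, 22, 8, 5, 2, 15, 4, 12, 13, 19, 11, 16, 6, 7, 21, 18, 3, 9, 14, 10, 17, 23],
   [0, 1, 21, 20, 6, 16, 9, 11, 15, 4, 10, 22, 12, 2, 8, 14, 19, 17, 3, 5, 18, 13, 7, 23],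
   [0, 1, 22, 12, 7, 15, 19, 8, 5, 2, 16, 20, 6, 10, 3, 4, 11, 21, 18, 14, 13, 9, 17, 23],
   [0, 1, 2, 13, 9, 22, 12, 8, 14, 6, 7, 5, 17, 20, 16, 19, 10, 4, 3, 11, 21, 18, 15, 23],
   [0, 1, 3, 2, 7, 5, 20, 4, 15, 13, 10, 21, 12, 9, 17, 8, 16, 14, 22, 19, 6, 11, 18, 23],
   [0, 1, 4, 3, 2, 20, 18, 10, 9, 8, 7, 17, 12, 16, 19, 15, 13, 11, 6, 14, 5, 21, 22, 23],
   [0, 1, 5, 4, 22, 15, 10, 12, 21, 17, 14, 13, 11, 18, 8, 3, 6, 7, 9, 16, 2, 19, 20, 23],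
   [0, 1, 6, 12, 7, 17, 5, 22, 10, 15, 16, 13, 8, 19, 9, 11, 21, 4, 3, 20, 14, 18, 2, 23],
   [0, 1, 7, 20, 8, 13, 22, 10, 6, 9, 18, 21, 19, 5, 12, 3, 15, 14, 2, 17, 16, 11, 4, 23],
   [0, 1, 8, 11, 17, 18, 9, 19, 13, 4, 5, 10, 6, 21, 2, 15, 20, 12, 3, 22, 7, 14, 16, 23],
   [0, 1, 9, 15, 11, 10, 3, 7, 22, 4, 12, 14, 19, 21, 2, 17, 5, 20, 8, 16, 6, 18, 13, 23],
   [0, 1, 10, 18, 2, 4, 5, 16, 22, 3, 6, 11, 17, 20, 21, 13, 9, 14, 7, 12, 8, 19, 15, 23],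
   [0, 1, 11, 5, 4, 9, 18, 12, 6, 10, 22, 15, 14, 20, 13, 17, 19, 21, 16, 8, 7, 2, 3, 23],
   [0, 1, 12, 21, 20, 15, 5, 10, 9, 18, 11, 17, 6, 13, 3, 2, 14, 22, 4, 16, 8, 19, 7, 23],
   [0, 1, 13, 8, 19, 10, 7, 12, 5, 2, 4, 9, 21, 15, 3, 16, 18, 6, 11, 14, 22, 20, 17, 23],
   [0, 1, 14, 16, 20, 11, 2, 3, 4, 9, 22, 21, 10, 13, 6, 19, 7, 15, 18, 17, 8, 5, 12, 23],
   [0, 1, 15, 19, 6, 17, 8, 4, 9, 3, 22, 2, 10, 14, 18, 12, 11, 13, 20, 7, 21, 5, 16, 23],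
   [0, 1, 16, 10, 4, 5, 20, 8, 15, 3, 9, 14, 11, 2, 12, 7, 13, 19, 6, 21, 18, 17, 22, 23],
   [0, 1, 17, 22, 3, 7, 19, 18, 9, 20, 8, 12, 4, 14, 10, 16, 5, 11, 6, 15, 21, 13, 2, 23],
   [0, 1, 18, 9, 6, 16, 19, 15, 14, 2, 8, 4, 21, 22, 3, 11, 20, 7, 10, 17, 12, 13, 5, 23],
   [0, 1, 19, 14, 21, 9, 12, 5, 13, 3, 20, 18, 15, 7, 8, 11, 2, 22, 17, 10, 4, 16, 6, 23],
   [0, 1, 20, 17, 9, 8, 7, 14, 22, 3, 11, 6, 18, 10, 21, 19, 2, 16, 5, 12, 4, 13, 15, 23],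
   [0, 1, 21, 7, 13, 19, 3, 15, 18, 8, 16, 14, 10, 9, 2, 17, 5, 6, 4, 12, 20, 22, 11, 23],
   [0, 1, 22, 6, 4, 18, 11, 10, 14, 3, 15, 9, 19, 16, 5, 21, 13, 20, 8, 17, 12, 7, 2, 23]]

/-- The table normalises `r7`. -/
def normT (T : List Nat) : Bool := pows7.any (fun P => comp T r7 == comp P T)

theorem r7_ok : tabOK 8388611 [] r7 = true ∧ pows7 = (List.range 7).map (fun k => powT k r7) ∧
    powT 7 r7 = idTab ∧ r7.getD 2 0 = 3 := by decide +kernel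

theorem n_ok : tabOK 0 [] n1 = true ∧ commT n1 r7 = true ∧ n1.getD 23 0 = 0 ∧
    tabOK 0 [] n2 = true ∧ commT n2 r7 = true ∧ n2.getD 23 0 = 1 ∧
    tabOK 8388608 [] n3 = true ∧ commT n3 r7 = true ∧ n3.getD 0 0 = 1 ∧ commT n1 n3 = false := by
  decide +kernel

theorem n2Tabs_ok : n2Tabs.all (fun T => tabOK 8388609 [] T && normT T) = true ∧ n2Tabs.Nodup ∧
    (n2Tabs.filter (fun T => commT T r7)).length = 7 ∧ n2Tabs.length = 21 := by decide +kernel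

theorem xs7_ok : xs7.all (chk5 (fun T => !(normT T) || n2Tabs.contains T)) = true := by
  decide +kernel

theorem xs7_cover : (List.range 24).all (fun q => q == 23 || q == 0 || q == 1 ||
    pows7.all (fun P => P.getD q 0 == q ||
      xs7.any (fun X => baseImg X == [23, 0, 1, q, P.getD q 0]))) = true := by decide +kernel

theorem trio_ok : fixTrioE r7 = 1 := by decide +kernel

theorem r7_valid : validTab r7 = true := tabOK_valid r7_ok.1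

/-- The element of order 7. -/
noncomputable def R7 : Equiv.Perm GolayPt := permT r7 r7_valid

theorem R7_mem : R7 ∈ M24 := (tabOK_spec r7_ok.1).1

theorem R7_pow : R7 ^ 7 = 1 := by
  rw [R7, ← permT_powT r7_valid 7, ← permT_idTab]
  exact permT_congr _ _ r7_ok.2.2.1

theorem R7_2 : R7 (pt 2) = pt 3 := by
  rw [R7, permT_pt _ (by norm_num), r7_ok.2.2.2]

theorem R7_fix (p : GolayPt) (h : R7 p = p) : p = pt 23 ∨ p = pt 0 ∨ p = pt 1 := by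
  rw [R7, fix_iff] at h
  revert p; decide

theorem R7_fix23 : R7 (pt 23) = pt 23 := (tabOK_spec r7_ok.1).2.1 (pt 23) (by decide)

theorem R7_fix0 : R7 (pt 0) = pt 0 := (tabOK_spec r7_ok.1).2.1 (pt 0) (by decide)

theorem R7_fix1 : R7 (pt 1) = pt 1 := (tabOK_spec r7_ok.1).2.1 (pt 1) (by decide)

theorem R7_ne_one : R7 ≠ 1 := fun h => by
  have := R7_2
  rw [h] at this
  exact absurd this (by decide)

theorem R7_order : orderOf R7 = 7 := by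
  haveI : Fact (Nat.Prime 7) := ⟨by norm_num⟩
  exact orderOf_eq_prime R7_pow R7_ne_one

theorem normT_iff {T : List Nat} (hT : validTab T = true) :
    normT T = true ↔ permT T hT * R7 * (permT T hT)⁻¹ ∈ Subgroup.zpowers R7 := by
  rw [normT, r7_ok.2.1, List.any_map, List.any_eq_true]
  constructor
  · rintro ⟨k, -, e⟩
    have e' : permT T hT * R7 = R7 ^ k * permT T hT := by
      rw [R7, ← permT_powT r7_valid k, ← permT_comp hT r7_valid,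
        ← permT_comp (validTab_powT r7_valid k) hT]
      exact permT_congr _ _ (beq_iff_eq.1 e)
    rw [e', mul_inv_cancel_right]
    exact Subgroup.pow_mem _ (Subgroup.mem_zpowers R7) k
  · intro h
    obtain ⟨k, hk, e⟩ := mem_zpowers_lt (by norm_num : 0 < 7) R7_pow h
    refine ⟨k, List.mem_range.2 hk, ?_⟩
    have e' : permT T hT * R7 = R7 ^ k * permT T hT := by rw [← e]; group
    simp only [Function.comp_apply, beq_iff_eq]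
    apply permT_inj (validTab_comp hT r7_valid) (validTab_comp (validTab_powT r7_valid k) hT)
    rw [permT_comp hT r7_valid, permT_comp (validTab_powT r7_valid k) hT, permT_powT r7_valid k]
    exact e'

/-- The normaliser permutes the fixed points of `R7`. -/
theorem norm_fix {n : Equiv.Perm GolayPt} (hn : n ∈ normM R7) {p : GolayPt} (hp : R7 p = p) :
    R7 (n p) = n p := by
  have hn' := (mem_normM.1 (inv_mem hn)).2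
  rw [inv_inv] at hn'
  obtain ⟨k, hk⟩ := Subgroup.mem_zpowers_iff.1 hn'
  have h1 : (R7 ^ k) p = p := Equiv.Perm.zpow_apply_eq_self_of_apply_eq_self hp k
  rw [hk] at h1
  simp only [Equiv.Perm.mul_apply] at h1
  rw [Equiv.Perm.inv_eq_iff_eq] at h1
  exact h1

theorem norm_img0 {n : Equiv.Perm GolayPt} (hn : n ∈ normM R7) (h23 : n (pt 23) = pt 23) :
    n (pt 0) = pt 0 ∨ n (pt 0) = pt 1 := by
  rcases R7_fix _ (norm_fix hn R7_fix0) with h | h | h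
  · rw [← h23] at h; exact absurd (n.injective h) (by decide)
  · exact Or.inl h
  · exact Or.inr h

theorem norm_img1 {n : Equiv.Perm GolayPt} (hn : n ∈ normM R7) (h23 : n (pt 23) = pt 23)
    (h0 : n (pt 0) = pt 0) : n (pt 1) = pt 1 := by
  rcases R7_fix _ (norm_fix hn R7_fix1) with h | h | h
  · rw [← h23] at h; exact absurd (n.injective h) (by decide)
  · rw [← h0] at h; exact absurd (n.injective h) (by decide)
  · exact h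

theorem n2_valid {T : List Nat} (hT : T ∈ n2Tabs) : validTab T = true := by
  have hok := List.all_eq_true.1 n2Tabs_ok.1 T hT
  rw [Bool.and_eq_true] at hok
  exact tabOK_valid hok.1

theorem n2_mem {T : List Nat} (hT : T ∈ n2Tabs) :
    permT T (n2_valid hT) ∈ normM R7 ∧ permT T (n2_valid hT) (pt 23) = pt 23 ∧
      permT T (n2_valid hT) (pt 0) = pt 0 := by
  have hok := List.all_eq_true.1 n2Tabs_ok.1 T hT
  rw [Bool.and_eq_true] at hok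
  obtain ⟨hM, hfix, -⟩ := tabOK_spec hok.1
  exact ⟨mem_normM.2 ⟨hM, (normT_iff _).1 hok.2⟩, hfix (pt 23) (by decide), hfix (pt 0) (by decide)⟩

/-- The elements of the normaliser fixing the points 23 and 0 are given by the 21 tables. -/
theorem N2_enum {g : Equiv.Perm GolayPt} (hg : g ∈ normM R7) (h23 : g (pt 23) = pt 23)
    (h0 : g (pt 0) = pt 0) : ∃ T, ∃ hT : T ∈ n2Tabs, permT T (n2_valid hT) = g := by
  have h1 : g (pt 1) = pt 1 := norm_img1 hg h23 h0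
  obtain ⟨hM, hz⟩ := mem_normM.1 hg
  obtain ⟨k, hk, e⟩ := mem_zpowers_lt (by norm_num : 0 < 7) R7_pow hz
  have e3 : g (pt 3) = (R7 ^ k) (g (pt 2)) := by
    rw [← e]
    simp only [Equiv.Perm.mul_apply]
    rw [perm_inv_apply, R7_2]
  have hidx3 : idx (g (pt 3)) = (powT k r7).getD (idx (g (pt 2))) 0 := by
    rw [e3, R7, ← permT_powT r7_valid k, idx_permT]
  have hcov : xs7.any (fun X => baseImg X == baseOf g) = true := by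
    have hc := List.all_eq_true.1 xs7_cover (idx (g (pt 2))) (List.mem_range.2 (idx_lt _))
    have hne23 : idx (g (pt 2)) ≠ 23 := by
      intro h
      have : g (pt 2) = g (pt 23) := by rw [h23]; exact idx_injective h
      exact absurd (g.injective this) (by decide)
    have hne0 : idx (g (pt 2)) ≠ 0 := by
      intro h
      have : g (pt 2) = g (pt 0) := by rw [h0]; exact idx_injective h
      exact absurd (g.injective this) (by decide)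
    have hne1 : idx (g (pt 2)) ≠ 1 := by
      intro h
      have : g (pt 2) = g (pt 1) := by rw [h1]; exact idx_injective h
      exact absurd (g.injective this) (by decide)
    simp only [Bool.or_eq_true, beq_iff_eq, hne23, hne0, hne1, false_or] at hc
    have hP : powT k r7 ∈ pows7 := by
      rw [r7_ok.2.1]; exact List.mem_map.2 ⟨k, List.mem_range.2 hk, rfl⟩
    have hc2 := List.all_eq_true.1 hc _ hP
    have hne : (powT k r7).getD (idx (g (pt 2))) 0 ≠ idx (g (pt 2)) := by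
      rw [← hidx3]
      intro h
      exact absurd (g.injective (idx_injective h)) (by decide)
    simp only [Bool.or_eq_true, beq_iff_eq, hne, false_or] at hc2
    have hb : baseOf g = [23, 0, 1, idx (g (pt 2)), (powT k r7).getD (idx (g (pt 2))) 0] := by
      rw [baseOf, h23, h0, h1, hidx3]; rfl
    rw [hb]
    exact hc2
  obtain ⟨T, hT, hf, eT⟩ := enumBase xs7_ok hM hcov
  have hn : normT T = true := by
    rw [normT_iff hT, eT]; exact hz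
  rw [hn] at hf
  simp only [Bool.not_true, Bool.false_or] at hf
  have hmem : T ∈ n2Tabs := List.contains_iff_mem.1 hf
  exact ⟨T, hmem, eT⟩

/-- The three coset steps common to the normaliser and the centraliser. -/
theorem card_steps (G : Subgroup (Equiv.Perm GolayPt)) (h1 : centM R7 ≤ G) (h2 : G ≤ normM R7) :
    Nat.card G = 6 * Nat.card ↥(G ⊓ MulAction.stabilizer (Equiv.Perm GolayPt) (pt 23) ⊓
      MulAction.stabilizer (Equiv.Perm GolayPt) (pt 0)) := by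
  obtain ⟨ok1, c1, e1, ok2, c2, e2, ok3, c3, e3, -⟩ := n_ok
  rw [card_orbit_step G (pt 23) {pt 23, pt 0, pt 1},
    card_orbit_step _ (pt 0) {pt 0, pt 1}]
  · rw [Finset.card_insert_of_notMem (by decide), Finset.card_pair (by decide), ← Nat.mul_assoc]
  · rintro g ⟨hg, h23⟩
    have h23 : g (pt 23) = pt 23 := h23
    rw [Finset.mem_insert, Finset.mem_singleton]
    exact norm_img0 (h2 hg) h23
  · intro y hy
    rw [Finset.mem_insert, Finset.mem_singleton] at hy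
    rcases hy with rfl | rfl
    · exact ⟨1, one_mem _, rfl⟩
    · have hv := tabOK_valid ok3
      obtain ⟨hM, hfix, -⟩ := tabOK_spec ok3
      refine ⟨permT n3 hv, ⟨h1 (mem_centM.2 ⟨hM, (commT_iff hv r7_valid).1 c3⟩), ?_⟩, ?_⟩
      · exact hfix (pt 23) (by decide)
      · rw [permT_pt hv (by norm_num), e3]
  · intro g hg
    rw [Finset.mem_insert, Finset.mem_insert, Finset.mem_singleton]
    exact R7_fix _ (norm_fix (h2 hg) R7_fix23)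
  · intro y hy
    rw [Finset.mem_insert, Finset.mem_insert, Finset.mem_singleton] at hy
    rcases hy with rfl | rfl | rfl
    · exact ⟨1, one_mem _, rfl⟩
    · have hv := tabOK_valid ok1
      refine ⟨permT n1 hv, h1 (mem_centM.2 ⟨(tabOK_spec ok1).1, (commT_iff hv r7_valid).1 c1⟩), ?_⟩
      rw [permT_pt hv (by norm_num), e1]
    · have hv := tabOK_valid ok2
      refine ⟨permT n2 hv, h1 (mem_centM.2 ⟨(tabOK_spec ok2).1, (commT_iff hv r7_valid).1 c2⟩), ?_⟩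
      rw [permT_pt hv (by norm_num), e2]

theorem card_norm : Nat.card ↥(normM R7) = 126 := by
  rw [card_steps _ (centM_le_normM R7) le_rfl]
  have : Nat.card ↥(normM R7 ⊓ MulAction.stabilizer (Equiv.Perm GolayPt) (pt 23) ⊓
      MulAction.stabilizer (Equiv.Perm GolayPt) (pt 0)) = 21 := by
    rw [← n2Tabs_ok.2.2.2]
    apply card_of_tabs _ _ n2Tabs_ok.2.1
    · intro T hT; exact n2_valid hT
    · intro T hT
      rw [permT'_eq (n2_valid hT)]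
      obtain ⟨a, b, c⟩ := n2_mem hT
      exact ⟨⟨a, b⟩, c⟩
    · rintro g ⟨⟨hg, h23⟩, h0⟩
      obtain ⟨T, hT, e⟩ := N2_enum hg h23 h0
      exact ⟨T, hT, by rw [permT'_eq (n2_valid hT), e]⟩
  rw [this]

theorem card_cent : Nat.card ↥(centM R7) = 42 := by
  rw [card_steps _ le_rfl (centM_le_normM R7)]
  have : Nat.card ↥(centM R7 ⊓ MulAction.stabilizer (Equiv.Perm GolayPt) (pt 23) ⊓
      MulAction.stabilizer (Equiv.Perm GolayPt) (pt 0)) = 7 := by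
    rw [← n2Tabs_ok.2.2.1]
    apply card_of_tabs _ _ (n2Tabs_ok.2.1.filter _)
    · intro T hT; exact n2_valid (List.mem_filter.1 hT).1
    · intro T hT
      rw [List.mem_filter] at hT
      have hv := n2_valid hT.1
      rw [permT'_eq hv]
      obtain ⟨a, b, c⟩ := n2_mem hT.1
      exact ⟨⟨mem_centM.2 ⟨(mem_normM.1 a).1, (commT_iff hv r7_valid).1 hT.2⟩, b⟩, c⟩
    · rintro g ⟨⟨hg, h23⟩, h0⟩
      obtain ⟨T, hT, e⟩ := N2_enum (centM_le_normM R7 hg) h23 h0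
      have hv := n2_valid hT
      refine ⟨T, List.mem_filter.2 ⟨hT, ?_⟩, by rw [permT'_eq hv, e]⟩
      rw [commT_iff hv r7_valid, e]
      exact (mem_centM.1 hg).2
  rw [this]

/-- The unique trio fixed by `R7` is fixed by the whole normaliser. -/
theorem exists_trio : ∃ T ∈ trios, ∀ n ∈ normM R7, n • T = T := by
  have h := ncard_fix_trios' r7_valid
  rw [trio_ok, Set.ncard_eq_one] at h
  obtain ⟨T, hT⟩ := h
  have hmem : T ∈ {T' : Finset (Finset GolayPt) | T' ∈ trios ∧ permT r7 r7_valid • T' = T'} := by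
    rw [hT]; exact Set.mem_singleton T
  obtain ⟨hT1, hT2⟩ := hmem
  refine ⟨T, hT1, ?_⟩
  intro n hn
  have hn' := (mem_normM.1 (inv_mem hn)).2
  rw [inv_inv] at hn'
  have hstab : n⁻¹ * R7 * n ∈ MulAction.stabilizer (Equiv.Perm GolayPt) T := by
    obtain ⟨k, hk⟩ := Subgroup.mem_zpowers_iff.1 hn'
    rw [← hk]
    exact Subgroup.zpow_mem _ (MulAction.mem_stabilizer_iff.2 hT2) k
  rw [MulAction.mem_stabilizer_iff, mul_smul, mul_smul, inv_smul_eq_iff] at hstab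
  have hmem' : n • T ∈ {T' : Finset (Finset GolayPt) | T' ∈ trios ∧ permT r7 r7_valid • T' = T'} :=
    ⟨smul_mem_trios (mem_normM.1 hn).1 hT1, hstab⟩
  rw [hT] at hmem'
  exact hmem'

/-- For a subgroup S of order 7 of the group of the length-24 code (a Sylow 7-subgroup): the normaliser of S has order 126, the centraliser of S has order 42 and is non-abelian, and the whole normaliser leaves some trio invariant. (These are the orders of a Frobenius group of order 21 times a symmetric group of degree 3; the isomorphism type itself is not asserted here.) -/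
theorem result (S : Subgroup ↥Cfsg.M24) (hS : Nat.card S = 7) : Nat.card ↥(Subgroup.normalizer (S : Set ↥Cfsg.M24)) = 126 ∧ Nat.card ↥(Subgroup.centralizer (S : Set ↥Cfsg.M24)) = 42 ∧ (∃ x ∈ Subgroup.centralizer (S : Set ↥Cfsg.M24), ∃ y ∈ Subgroup.centralizer (S : Set ↥Cfsg.M24), x * y ≠ y * x) ∧ ∃ T ∈ Cfsg.trios, ∀ n ∈ Subgroup.normalizer (S : Set ↥Cfsg.M24), ((n : ↥Cfsg.M24) : Equiv.Perm Cfsg.GolayPt) • T = T := by
  haveI : Fact (Nat.Prime 7) := ⟨by norm_num⟩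
  have ho : orderOf (⟨R7, R7_mem⟩ : ↥M24) = 7 := by
    rw [← Subgroup.orderOf_coe]; exact R7_order
  obtain ⟨k, rfl⟩ := exists_conj_zpowers_of_sylow card_M24_factorization_seven S hS _ ho
  have hy : ((k * ⟨R7, R7_mem⟩ * k⁻¹ : ↥M24) : Equiv.Perm GolayPt) = k.1 * R7 * k.1⁻¹ := rfl
  obtain ⟨ok1, c1, -, -, -, -, ok3, c3, -, hnc⟩ := n_ok
  have hv1 := tabOK_valid ok1
  have hv3 := tabOK_valid ok3
  refine ⟨?_, ?_, ?_, ?_⟩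
  · rw [card_normalizer_zpowers, hy, card_normM_conj k.2, card_norm]
  · rw [card_centralizer_zpowers, hy, card_centM_conj k.2, card_cent]
  · have hx1 : permT n1 hv1 ∈ centM R7 :=
      mem_centM.2 ⟨(tabOK_spec ok1).1, (commT_iff hv1 r7_valid).1 c1⟩
    have hx3 : permT n3 hv3 ∈ centM R7 :=
      mem_centM.2 ⟨(tabOK_spec ok3).1, (commT_iff hv3 r7_valid).1 c3⟩
    have hm1 := conj_mem_centM k.2 hx1
    have hm3 := conj_mem_centM k.2 hx3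
    refine ⟨⟨k.1 * permT n1 hv1 * k.1⁻¹, (mem_centM.1 hm1).1⟩, ?_,
      ⟨k.1 * permT n3 hv3 * k.1⁻¹, (mem_centM.1 hm3).1⟩, ?_, ?_⟩
    · rw [mem_centralizer_iff_centM, hy]; exact hm1
    · rw [mem_centralizer_iff_centM, hy]; exact hm3
    · intro h
      have h' := congrArg Subtype.val h
      simp only [Subgroup.coe_mul] at h'
      have h'' : permT n1 hv1 * permT n3 hv3 = permT n3 hv3 * permT n1 hv1 := by
        have e1 : k.1 * permT n1 hv1 * k.1⁻¹ * (k.1 * permT n3 hv3 * k.1⁻¹) =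
            k.1 * (permT n1 hv1 * permT n3 hv3) * k.1⁻¹ := by group
        have e2 : k.1 * permT n3 hv3 * k.1⁻¹ * (k.1 * permT n1 hv1 * k.1⁻¹) =
            k.1 * (permT n3 hv3 * permT n1 hv1) * k.1⁻¹ := by group
        rw [e1, e2] at h'
        exact mul_left_cancel (mul_right_cancel h')
      rw [← commT_iff hv1 hv3, hnc] at h''
      exact absurd h'' (by decide)
  · obtain ⟨T, hT, hfix⟩ := exists_trio
    refine ⟨k.1 • T, smul_mem_trios k.2 hT, ?_⟩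
    intro n hn
    rw [mem_normalizer_iff_normM, hy] at hn
    have := hfix _ (conj_mem_normM' k.2 hn)
    rw [mul_smul, mul_smul, inv_smul_eq_iff] at this
    exact this

end Cfsg.Agent.S5604
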