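import Cfsg.Statements.S5605
import Cfsg.Agent.Helper93.M24Class
import Cfsg.Agent.Helper93.M24Fast

set_option autoImplicit false
open scoped Pointwise
open Cfsg

namespace Cfsg.Agent.S5605

open Cfsg.Agent.Helper91 Cfsg.Agent.Helper93

theorem cnt_oct : fixOctF r2A = 71 := by decide +kernel

theorem cnt_trio : fixTrioE r2A = 99 := by decide +kernel

theorem cnt_sext : fixSextF r2A = 546 := by decide +kernel

/-- An involution of the automorphism group of the length-24 code having exactly eight fixed points fixes exactly 71 octads, 99 trios and 91 sextets of the code. -/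
theorem result (g : Equiv.Perm Cfsg.GolayPt) (hg : g ∈ Cfsg.M24) (h₂ : orderOf g = 2) (h₈ : (Finset.univ.filter fun p => g p = p).card = 8) : {o : Finset Cfsg.GolayPt | o ∈ Cfsg.octads ∧ g • o = o}.ncard = 71 ∧ {T : Finset (Finset Cfsg.GolayPt) | T ∈ Cfsg.trios ∧ g • T = T}.ncard = 99 ∧ {S : Finset (Finset Cfsg.GolayPt) | S ∈ Cfsg.sextets ∧ g • S = S}.ncard = 91 := by
  obtain ⟨u, hu, rfl⟩ := class_2A hg h₂ h₈
  rw [ncard_conj_octads hu, ncard_conj_trios hu, ncard_conj_sextets hu]
  refine ⟨?_, ?_, ?_⟩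
  · rw [R2A, ncard_fix_octads, ← fixOctF_eq, cnt_oct]
  · rw [R2A, ncard_fix_trios', cnt_trio]
  · have h := ncard_fix_sextets (tabOK_valid reps_ok.1) R2A_mem
    rw [← fixSextF_eq, cnt_sext] at h
    rw [R2A]
    omega

end Cfsg.Agent.S5605
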