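import Cfsg.Statements.S5606
import Cfsg.Agent.Helper93.M24Class
import Cfsg.Agent.Helper93.M24Fast

set_option autoImplicit false
open scoped Pointwise
open Cfsg

namespace Cfsg.Agent.S5606

open Cfsg.Agent.Helper91 Cfsg.Agent.Helper93

theorem cnt_oct : fixOctF r2B = 15 := by decide +kernel

theorem cnt_trio : fixTrioE r2B = 75 := by decide +kernel

theorem cnt_sext : fixSextF r2B = 306 := by decide +kernel

/-- A fixed-point-free involution of the group of the length-24 code maps to themselves exactly 15 octads, exactly 75 trios and exactly 51 sextets. -/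
theorem result (g : Equiv.Perm Cfsg.GolayPt) (hg : g ∈ Cfsg.M24) (h₂ : orderOf g = 2) (h₀ : ∀ p, g p ≠ p) : {o : Finset Cfsg.GolayPt | o ∈ Cfsg.octads ∧ g • o = o}.ncard = 15 ∧ {T : Finset (Finset Cfsg.GolayPt) | T ∈ Cfsg.trios ∧ g • T = T}.ncard = 75 ∧ {S : Finset (Finset Cfsg.GolayPt) | S ∈ Cfsg.sextets ∧ g • S = S}.ncard = 51 := by
  obtain ⟨u, hu, rfl⟩ := class_2B hg h₂ h₀
  rw [ncard_conj_octads hu, ncard_conj_trios hu, ncard_conj_sextets hu]
  refine ⟨?_, ?_, ?_⟩
  · rw [R2B, ncard_fix_octads, ← fixOctF_eq, cnt_oct]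
  · rw [R2B, ncard_fix_trios', cnt_trio]
  · have h := ncard_fix_sextets (tabOK_valid reps_ok.2.1) R2B_mem
    rw [← fixSextF_eq, cnt_sext] at h
    rw [R2B]
    omega

end Cfsg.Agent.S5606
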