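import Cfsg.Statements.S5608
import Cfsg.Agent.Helper93.M24Class

set_option autoImplicit false
open scoped Pointwise
open Cfsg

namespace Cfsg.Agent.S5608

open Cfsg.Agent.Helper91 Cfsg.Agent.Helper93

/-- A fixed-point-free involution commutes with no element of order 3 fixing the five base points. -/
def fA (T : List Nat) : Bool :=
  !(isInvT T && fixCnt 24 T == 0) ||
    h5Tabs.all (fun T2 => !(isOrd3T T2) || T2 == idTab || !(commT T T2))

/-- A fixed-point-free element of order 3 commutes with no involution fixing the five base points. -/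
def fB (T : List Nat) : Bool :=
  !(isOrd3T T && fixCnt 24 T == 0) ||
    h5Tabs.all (fun T2 => !(isInvT T2) || T2 == idTab || !(commT T T2))

theorem chk_a : xsInv.all (chk5 fA) = true := by decide +kernel

theorem chk_b : xsOrd3.all (chk5 fB) = true := by decide +kernel

theorem conj_ne_one {u g : Equiv.Perm GolayPt} (h : g ≠ 1) : u⁻¹ * g * u ≠ 1 := by
  intro e
  apply h
  have : g = u * (u⁻¹ * g * u) * u⁻¹ := by group
  rw [this, e]; group

theorem fix_conj_zero {u g : Equiv.Perm GolayPt} (h : ∀ p, g p ≠ p) (p : GolayPt) :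
    (u⁻¹ * g * u) p ≠ p := by
  intro e
  apply h (u p)
  rw [Equiv.Perm.mul_apply, Equiv.Perm.mul_apply, Equiv.Perm.inv_eq_iff_eq] at e
  exact e

theorem fixCnt_zero {T : List Nat} (hT : validTab T = true) (h : ∀ p, permT T hT p ≠ p) :
    fixCnt 24 T = 0 := by
  rw [← card_fix hT, Finset.card_eq_zero, Finset.filter_eq_empty_iff]
  intro p _
  exact h p

/-- An element of order 3 with at least five fixed points does not commute with a fixed-point-free
involution. -/
theorem no_3A_2B {x s : Equiv.Perm GolayPt} (hx : x ∈ M24) (hs : s ∈ M24) (h3 : x * (x * x) = 1)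
    (hx1 : x ≠ 1) (h2 : s * s = 1) (h0 : ∀ p, s p ≠ p) (hc : x * s = s * x)
    (hF : 5 ≤ (Finset.univ.filter (fun p => x p = p)).card) : False := by
  have hss : ∀ p, s (s p) = p := fun p => by
    have := congrArg (fun f : Equiv.Perm GolayPt => f p) h2
    simpa using this
  have hFs : ∀ p, x p = p → x (s p) = s p := fun p hp => by
    have := congrArg (fun f : Equiv.Perm GolayPt => f p) hc
    simp only [Equiv.Perm.mul_apply] at this
    rw [this, hp]
  have hmem : ∀ p, p ∈ Finset.univ.filter (fun p => x p = p) ↔ x p = p := fun p => by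
    rw [Finset.mem_filter]; simp
  obtain ⟨p1, hp1⟩ : ∃ p1, p1 ∈ Finset.univ.filter (fun p => x p = p) :=
    Finset.card_pos.1 (by omega)
  obtain ⟨p3, hp3, hp3n⟩ := Finset.exists_mem_notMem_of_card_lt_card
    (s := {p1, s p1}) (t := Finset.univ.filter (fun p => x p = p))
    (lt_of_le_of_lt Finset.card_le_two (by omega))
  obtain ⟨p5, hp5, hp5n⟩ := Finset.exists_mem_notMem_of_card_lt_card
    (s := {p1, s p1, p3, s p3}) (t := Finset.univ.filter (fun p => x p = p))
    (lt_of_le_of_lt Finset.card_le_four (by omega))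
  rw [hmem] at hp1 hp3 hp5
  simp only [Finset.mem_insert, Finset.mem_singleton, not_or] at hp3n hp5n
  obtain ⟨h31, h32⟩ := hp3n
  obtain ⟨h51, h52, h53, h54⟩ := hp5n
  have h41 : s p3 ≠ p1 := fun e => h32 (by rw [← hss p3, e])
  have h42 : s p3 ≠ s p1 := fun e => h31 (s.injective e)
  have hnd : [p1, s p1, p3, s p3, p5].Nodup := by
    simp only [List.nodup_cons, List.mem_cons, List.not_mem_nil, or_false, not_or,
      List.nodup_nil, and_true, not_false_eq_true]
    exact ⟨⟨fun e => h0 p1 e.symm, fun e => h31 e.symm, fun e => h41 e.symm, fun e => h51 e.symm⟩,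
      ⟨fun e => h32 e.symm, fun e => h42 e.symm, fun e => h52 e.symm⟩,
      ⟨fun e => h0 p3 e.symm, fun e => h53 e.symm⟩, fun e => h54 e.symm⟩
  obtain ⟨u, hu, hps⟩ := m24_five_trans _ rfl hnd
  -- the conjugate of `x` fixes the base points
  have hx' : u⁻¹ * x * u ∈ stabSub 8388623 [] := by
    refine ⟨mul_mem (mul_mem (inv_mem hu) hx) hu, ?_, fun I hI => absurd hI (List.not_mem_nil)⟩
    have hb := baseOf_conj u x hps hp1 (hFs p1 hp1) hp3 (hFs p3 hp3) hp5
    obtain ⟨i1, i2, i3, i4, i5⟩ := idx_inv_base u hps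
    rw [i1, i2, i3, i4, i5] at hb
    simp only [baseOf, List.cons.injEq, and_true] at hb
    obtain ⟨b1, b2, b3, b4, b5⟩ := hb
    rw [fixOn_base]
    refine ⟨?_, ?_, ?_, ?_, ?_⟩
    · rw [← pt_idx ((u⁻¹ * x * u) (pt 23)), b1]
    · rw [← pt_idx ((u⁻¹ * x * u) (pt 0)), b2]
    · rw [← pt_idx ((u⁻¹ * x * u) (pt 1)), b3]
    · rw [← pt_idx ((u⁻¹ * x * u) (pt 2)), b4]
    · rw [← pt_idx ((u⁻¹ * x * u) (pt 3)), b5]
  obtain ⟨T2, hT2, e2⟩ := h5_mem hx'
  -- the conjugate of `s`
  have hq1 : s p5 ≠ p1 := fun e => h52 (by rw [← hss p5, e])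
  have hq2 : s p5 ≠ s p1 := fun e => h51 (s.injective e)
  have hq3 : s p5 ≠ p3 := fun e => h54 (by rw [← hss p5, e])
  have hq4 : s p5 ≠ s p3 := fun e => h53 (s.injective e)
  have hcov : xsInv.any (fun X => baseImg X == baseOf (u⁻¹ * s * u)) = true := by
    obtain ⟨i1, i2, i3, i4, i5⟩ := idx_inv_base u hps
    rw [baseOf_conj u s hps rfl (hss p1) rfl (hss p3) rfl, i1, i2, i3, i4]
    exact cover_free (γ := fun d => [0, 23, 2, 1, d]) xsInv_cover.2.2 _
      (idx_inv_free u hps hq1 hq2 hq3 hq4 (h0 p5))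
  obtain ⟨T, hT, hf, e⟩ := enumBase chk_a (mul_mem (mul_mem (inv_mem hu) hs) hu) hcov
  have hT2v := h5Tabs_valid hT2
  have k1 : isInvT T = true := by
    rw [isInvT_iff hT, e]
    have : u⁻¹ * s * u * (u⁻¹ * s * u) = u⁻¹ * (s * s) * u := by group
    rw [this, h2]; group
  have k2 : fixCnt 24 T = 0 := fixCnt_zero hT (by rw [e]; exact fix_conj_zero h0)
  have k3 : isOrd3T T2 = true := by
    rw [isOrd3T_iff hT2v, e2]
    have : u⁻¹ * x * u * (u⁻¹ * x * u * (u⁻¹ * x * u)) = u⁻¹ * (x * (x * x)) * u := by group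
    rw [this, h3]; group
  have k4 : (T2 == idTab) = false := by
    rw [Bool.eq_false_iff]
    intro h
    exact conj_ne_one hx1 (by rw [← e2]; exact (isId_iff hT2v).1 h)
  have k5 : commT T T2 = true := by
    rw [commT_iff hT hT2v, e, e2]
    have a1 : u⁻¹ * s * u * (u⁻¹ * x * u) = u⁻¹ * (s * x) * u := by group
    have a2 : u⁻¹ * x * u * (u⁻¹ * s * u) = u⁻¹ * (x * s) * u := by group
    rw [a1, a2, hc]
  rw [fA, k1, k2] at hf
  simp only [beq_self_eq_true, Bool.and_self, Bool.not_true, Bool.false_or, List.all_eq_true] at hf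
  have := hf T2 hT2
  rw [k3, k4, k5] at this
  exact absurd this (by decide)

/-- A fixed-point-free element of order 3 does not commute with an involution having at least five
fixed points. -/
theorem no_3B_2A {x s : Equiv.Perm GolayPt} (hx : x ∈ M24) (hs : s ∈ M24) (h3 : x * (x * x) = 1)
    (h0 : ∀ p, x p ≠ p) (h2 : s * s = 1) (hs1 : s ≠ 1) (hc : x * s = s * x)
    (hF : 5 ≤ (Finset.univ.filter (fun p => s p = p)).card) : False := by
  have hxxx : ∀ p, x (x (x p)) = p := fun p => by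
    have := congrArg (fun f : Equiv.Perm GolayPt => f p) h3
    simpa using this
  have hFx : ∀ p, s p = p → s (x p) = x p := fun p hp => by
    have := congrArg (fun f : Equiv.Perm GolayPt => f p) hc
    simp only [Equiv.Perm.mul_apply] at this
    rw [← this, hp]
  have hmem : ∀ p, p ∈ Finset.univ.filter (fun p => s p = p) ↔ s p = p := fun p => by
    rw [Finset.mem_filter]; simp
  obtain ⟨p1, hp1⟩ : ∃ p1, p1 ∈ Finset.univ.filter (fun p => s p = p) :=
    Finset.card_pos.1 (by omega)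
  obtain ⟨p4, hp4, hp4n⟩ := Finset.exists_mem_notMem_of_card_lt_card
    (s := {p1, x p1, x (x p1)}) (t := Finset.univ.filter (fun p => s p = p))
    (lt_of_le_of_lt Finset.card_le_three (by omega))
  rw [hmem] at hp1 hp4
  simp only [Finset.mem_insert, Finset.mem_singleton, not_or] at hp4n
  obtain ⟨h41, h42, h43⟩ := hp4n
  have c1 : x (x p1) ≠ x p1 := fun e => h0 p1 (x.injective e)
  have c2 : x (x p1) ≠ p1 := fun e => h0 p1 (by have := hxxx p1; rw [e] at this; exact this)
  have h51 : x p4 ≠ p1 := fun e => h43 (x.injective (by rw [e, hxxx p1]))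
  have h52 : x p4 ≠ x p1 := fun e => h41 (x.injective e)
  have h53 : x p4 ≠ x (x p1) := fun e => h42 (x.injective e)
  have hnd : [p1, x p1, x (x p1), p4, x p4].Nodup := by
    simp only [List.nodup_cons, List.mem_cons, List.not_mem_nil, or_false, not_or,
      List.nodup_nil, and_true, not_false_eq_true]
    exact ⟨⟨fun e => h0 p1 e.symm, fun e => c2 e.symm, fun e => h41 e.symm, fun e => h51 e.symm⟩,
      ⟨fun e => c1 e.symm, fun e => h42 e.symm, fun e => h52 e.symm⟩,
      ⟨fun e => h43 e.symm, fun e => h53 e.symm⟩, fun e => h0 p4 e.symm⟩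
  obtain ⟨u, hu, hps⟩ := m24_five_trans _ rfl hnd
  have hs' : u⁻¹ * s * u ∈ stabSub 8388623 [] := by
    refine ⟨mul_mem (mul_mem (inv_mem hu) hs) hu, ?_, fun I hI => absurd hI (List.not_mem_nil)⟩
    have hb := baseOf_conj u s hps hp1 (hFx p1 hp1) (hFx _ (hFx p1 hp1)) hp4 (hFx p4 hp4)
    obtain ⟨i1, i2, i3, i4, i5⟩ := idx_inv_base u hps
    rw [i1, i2, i3, i4, i5] at hb
    simp only [baseOf, List.cons.injEq, and_true] at hb
    obtain ⟨b1, b2, b3, b4, b5⟩ := hb
    rw [fixOn_base]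
    refine ⟨?_, ?_, ?_, ?_, ?_⟩
    · rw [← pt_idx ((u⁻¹ * s * u) (pt 23)), b1]
    · rw [← pt_idx ((u⁻¹ * s * u) (pt 0)), b2]
    · rw [← pt_idx ((u⁻¹ * s * u) (pt 1)), b3]
    · rw [← pt_idx ((u⁻¹ * s * u) (pt 2)), b4]
    · rw [← pt_idx ((u⁻¹ * s * u) (pt 3)), b5]
  obtain ⟨T2, hT2, e2⟩ := h5_mem hs'
  have hq1 : x (x p4) ≠ p1 := fun e => h53 (x.injective (by rw [e, hxxx p1]))
  have hq2 : x (x p4) ≠ x p1 := fun e => h51 (x.injective e)
  have hq3 : x (x p4) ≠ x (x p1) := fun e => h52 (x.injective e)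
  have hq4 : x (x p4) ≠ p4 := fun e => h0 p4 (by have := hxxx p4; rw [e] at this; exact this)
  have hq5 : x (x p4) ≠ x p4 := fun e => h0 p4 (x.injective e)
  have hcov : xsOrd3.any (fun X => baseImg X == baseOf (u⁻¹ * x * u)) = true := by
    obtain ⟨i1, i2, i3, i4, i5⟩ := idx_inv_base u hps
    rw [baseOf_conj u x hps rfl rfl (hxxx p1) rfl rfl, i2, i3, i1, i5]
    exact cover_free (γ := fun d => [0, 1, 23, 3, d]) xsOrd3_cover.2.2 _
      (idx_inv_free u hps hq1 hq2 hq3 hq4 hq5)
  obtain ⟨T, hT, hf, e⟩ := enumBase chk_b (mul_mem (mul_mem (inv_mem hu) hx) hu) hcov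
  have hT2v := h5Tabs_valid hT2
  have k1 : isOrd3T T = true := by
    rw [isOrd3T_iff hT, e]
    have : u⁻¹ * x * u * (u⁻¹ * x * u * (u⁻¹ * x * u)) = u⁻¹ * (x * (x * x)) * u := by group
    rw [this, h3]; group
  have k2 : fixCnt 24 T = 0 := fixCnt_zero hT (by rw [e]; exact fix_conj_zero h0)
  have k3 : isInvT T2 = true := by
    rw [isInvT_iff hT2v, e2]
    have : u⁻¹ * s * u * (u⁻¹ * s * u) = u⁻¹ * (s * s) * u := by group
    rw [this, h2]; group
  have k4 : (T2 == idTab) = false := by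
    rw [Bool.eq_false_iff]
    intro h
    exact conj_ne_one hs1 (by rw [← e2]; exact (isId_iff hT2v).1 h)
  have k5 : commT T T2 = true := by
    rw [commT_iff hT hT2v, e, e2]
    have a1 : u⁻¹ * s * u * (u⁻¹ * x * u) = u⁻¹ * (s * x) * u := by group
    have a2 : u⁻¹ * x * u * (u⁻¹ * s * u) = u⁻¹ * (x * s) * u := by group
    rw [a1, a2, hc]
  rw [fB, k1, k2] at hf
  simp only [beq_self_eq_true, Bool.and_self, Bool.not_true, Bool.false_or, List.all_eq_true] at hf
  have := hf T2 hT2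
  rw [k3, k4, k5] at this
  exact absurd this (by decide)

/-- If an element of order 3 and an involution of the group of the length-24 code commute, then either the element of order 3 has exactly 6 fixed points and the involution exactly 8, or both are fixed-point-free. -/
theorem result (x s : Equiv.Perm Cfsg.GolayPt) (hx : x ∈ Cfsg.M24) (hs : s ∈ Cfsg.M24) (h₃ : orderOf x = 3) (h₂ : orderOf s = 2) (hc : Commute x s) : ((Finset.univ.filter fun p => x p = p).card = 6 ∧ (Finset.univ.filter fun p => s p = p).card = 8) ∨ ((Finset.univ.filter fun p => x p = p).card = 0 ∧ (Finset.univ.filter fun p => s p = p).card = 0) := by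
  obtain ⟨hcube, hx1⟩ := cube_of_orderOf_three h₃
  obtain ⟨hsq, hs1⟩ := sq_of_orderOf_two h₂
  have hx6 : (∃ u ∈ M24, x = u * R3A * u⁻¹) → (Finset.univ.filter fun p => x p = p).card = 6 := by
    rintro ⟨u, -, rfl⟩
    rw [card_fix_conj, R3A_fix]
  have hx0 : (∃ u ∈ M24, x = u * R3B * u⁻¹) → (Finset.univ.filter fun p => x p = p).card = 0 := by
    rintro ⟨u, -, rfl⟩
    rw [card_fix_conj, R3B_fix]
  have hs8 : (∃ u ∈ M24, s = u * R2A * u⁻¹) → (Finset.univ.filter fun p => s p = p).card = 8 := by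
    rintro ⟨u, -, rfl⟩
    rw [card_fix_conj, R2A_fix]
  have hs0 : (∃ u ∈ M24, s = u * R2B * u⁻¹) → (Finset.univ.filter fun p => s p = p).card = 0 := by
    rintro ⟨u, -, rfl⟩
    rw [card_fix_conj, R2B_fix]
  rcases ord3_class hx hcube hx1 with h3A | h3B <;> rcases inv_class hs hsq hs1 with h2A | h2B
  · exact Or.inl ⟨hx6 h3A, hs8 h2A⟩
  · exfalso
    exact no_3A_2B hx hs hcube hx1 hsq ((fix_card_zero_iff s).1 (hs0 h2B)) hc.eq
      (by rw [hx6 h3A]; norm_num)
  · exfalso
    exact no_3B_2A hx hs hcube ((fix_card_zero_iff x).1 (hx0 h3B)) hsq hs1 hc.eq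
      (by rw [hs8 h2A]; norm_num)
  · exact Or.inr ⟨hx0 h3B, hs0 h2B⟩

end Cfsg.Agent.S5608
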