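import Cfsg.Statements.S5609
import Cfsg.Agent.Helper26.GolayTrio

set_option autoImplicit false
set_option linter.constructorNameAsVariable false
open Cfsg

namespace Cfsg.Agent.S5609

open Cfsg.Agent.Helper26

theorem adj_iff (u v : Cfsg.octads) :
    (Cfsg.blockGraph Cfsg.octads).Adj u v ↔ Disjoint (u : Finset GolayPt) (v : Finset GolayPt) := by
  unfold Cfsg.blockGraph
  rw [SimpleGraph.fromRel_adj]
  constructor
  · rintro ⟨_, h | h⟩
    · exact h
    · exact h.symm
  · intro h
    refine ⟨?_, Or.inl h⟩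
    intro huv
    exact ne_of_disjoint_octads u.2 h (congrArg Subtype.val huv)

/-- two octads meeting in four points have a common disjoint octad -/
theorem exists_common {o o' : Finset GolayPt} (ho : o ∈ octads) (ho' : o' ∈ octads)
    (h4 : (o ∩ o').card = 4) : ∃ b ∈ octads, Disjoint b o ∧ Disjoint b o' := by
  have hne : o ≠ o' := by
    rintro rfl
    rw [Finset.inter_self, octads_card ho] at h4
    omega
  have h5 := card_octsThrough_four (o ∩ o') h4
  have hom : o ∈ octsThrough (o ∩ o') := mem_octsThrough.mpr ⟨ho, Finset.inter_subset_left⟩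
  have hom' : o' ∈ (octsThrough (o ∩ o')).erase o :=
    Finset.mem_erase.mpr ⟨hne.symm, mem_octsThrough.mpr ⟨ho', Finset.inter_subset_right⟩⟩
  have h3 : (((octsThrough (o ∩ o')).erase o).erase o').card = 3 := by
    rw [Finset.card_erase_of_mem hom', Finset.card_erase_of_mem hom, h5]
  obtain ⟨o3, ho3, o4, ho4, h34⟩ := Finset.one_lt_card.mp (by omega :
    1 < (((octsThrough (o ∩ o')).erase o).erase o').card)
  simp only [Finset.mem_erase, mem_octsThrough] at ho3 ho4
  obtain ⟨h3o', h3o, ho3, ht3⟩ := ho3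
  obtain ⟨h4o', h4o, ho4, ht4⟩ := ho4
  have hi34 := octads_inter_eq_of_four h4 ho3 ho4 h34 ht3 ht4
  have hi3o := octads_inter_eq_of_four h4 ho3 ho h3o ht3 Finset.inter_subset_left
  have hi4o := octads_inter_eq_of_four h4 ho4 ho h4o ht4 Finset.inter_subset_left
  have hi3o' := octads_inter_eq_of_four h4 ho3 ho' h3o' ht3 Finset.inter_subset_right
  have hi4o' := octads_inter_eq_of_four h4 ho4 ho' h4o' ht4 Finset.inter_subset_right
  refine ⟨symmDiff o3 o4, ⟨supports_symmDiff (octads_supports ho3) (octads_supports ho4), ?_⟩,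
    ?_, ?_⟩
  · have := card_symmDiff_add o3 o4
    rw [hi34, h4, octads_card ho3, octads_card ho4] at this
    omega
  · rw [Finset.disjoint_left]
    intro x hx hxo
    rw [Finset.mem_symmDiff] at hx
    rcases hx with ⟨h1, h2⟩ | ⟨h1, h2⟩
    · have : x ∈ o3 ∩ o := Finset.mem_inter.mpr ⟨h1, hxo⟩
      rw [hi3o] at this
      exact h2 (ht4 this)
    · have : x ∈ o4 ∩ o := Finset.mem_inter.mpr ⟨h1, hxo⟩
      rw [hi4o] at this
      exact h2 (ht3 this)
  · rw [Finset.disjoint_left]
    intro x hx hxo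
    rw [Finset.mem_symmDiff] at hx
    rcases hx with ⟨h1, h2⟩ | ⟨h1, h2⟩
    · have : x ∈ o3 ∩ o' := Finset.mem_inter.mpr ⟨h1, hxo⟩
      rw [hi3o'] at this
      exact h2 (ht4 this)
    · have : x ∈ o4 ∩ o' := Finset.mem_inter.mpr ⟨h1, hxo⟩
      rw [hi4o'] at this
      exact h2 (ht3 this)

/-- for two octads meeting in two points there is an octad disjoint from the second and
meeting the first in four points -/
theorem exists_far {o o' : Finset GolayPt} (ho : o ∈ octads) (ho' : o' ∈ octads)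
    (h2 : (o ∩ o').card = 2) : ∃ b ∈ octads, Disjoint b o' ∧ (b ∩ o).card = 4 := by
  have h6 : (o \ o').card = 6 := by
    have := Finset.card_sdiff_add_card_inter o o'
    rw [octads_card ho, h2] at this
    omega
  obtain ⟨T, hT, hT4⟩ := Finset.exists_subset_card_eq (s := o \ o') (n := 4) (by omega)
  have hTo : T ⊆ o := hT.trans Finset.sdiff_subset
  have hTo' : ∀ x ∈ T, x ∉ o' := fun x hx => (Finset.mem_sdiff.mp (hT hx)).2
  have h5 := card_octsThrough_four T hT4
  have hom : o ∈ octsThrough T := mem_octsThrough.mpr ⟨ho, hTo⟩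
  have hA4 : ((octsThrough T).erase o).card = 4 := by
    rw [Finset.card_erase_of_mem hom, h5]
  by_contra hcon
  have hnd : ∀ b ∈ (octsThrough T).erase o, 2 ≤ (b ∩ o').card := by
    intro b hb
    rw [Finset.mem_erase, mem_octsThrough] at hb
    obtain ⟨hbo, hb, hTb⟩ := hb
    have hbo_int := octads_inter_eq_of_four hT4 hb ho hbo hTb hTo
    have hnd : ¬ Disjoint b o' := fun hd => hcon ⟨b, hb, hd, by rw [hbo_int, hT4]⟩
    rcases octads_inter hb ho' with h | h | h | h
    · exfalso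
      obtain ⟨x, hx⟩ : T.Nonempty := by rw [← Finset.card_pos]; omega
      exact hTo' x hx (h ▸ hTb hx)
    · exfalso
      exact hnd (Finset.disjoint_iff_inter_eq_empty.mpr (Finset.card_eq_zero.mp h))
    · omega
    · omega
  have hdisj : ∀ b ∈ (octsThrough T).erase o, ∀ b' ∈ (octsThrough T).erase o, b ≠ b' →
      Disjoint (b ∩ o') (b' ∩ o') := by
    intro b hb b' hb' hne
    rw [Finset.mem_erase, mem_octsThrough] at hb hb'
    have hi := octads_inter_eq_of_four hT4 hb.2.1 hb'.2.1 hne hb.2.2 hb'.2.2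
    rw [Finset.disjoint_left]
    intro x hx hx'
    rw [Finset.mem_inter] at hx hx'
    have : x ∈ b ∩ b' := Finset.mem_inter.mpr ⟨hx.1, hx'.1⟩
    rw [hi] at this
    exact hTo' x this hx.2
  have hsub : ((octsThrough T).erase o).biUnion (fun b => b ∩ o') ⊆ o' \ o := by
    intro x hx
    rw [Finset.mem_biUnion] at hx
    obtain ⟨b, hb, hxb⟩ := hx
    rw [Finset.mem_erase, mem_octsThrough] at hb
    rw [Finset.mem_inter] at hxb
    rw [Finset.mem_sdiff]
    refine ⟨hxb.2, fun hxo => ?_⟩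
    have hbo_int := octads_inter_eq_of_four hT4 hb.2.1 ho hb.1 hb.2.2 hTo
    have : x ∈ b ∩ o := Finset.mem_inter.mpr ⟨hxb.1, hxo⟩
    rw [hbo_int] at this
    exact hTo' x this hxb.2
  have hc := Finset.card_le_card hsub
  rw [Finset.card_biUnion hdisj] at hc
  have h6' : (o' \ o).card = 6 := by
    have := Finset.card_sdiff_add_card_inter o' o
    rw [octads_card ho', Finset.inter_comm, h2] at this
    omega
  have hsum : 4 * 2 ≤ ∑ b ∈ (octsThrough T).erase o, (b ∩ o').card := by
    rw [← hA4, ← smul_eq_mul, ← Finset.sum_const]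
    exact Finset.sum_le_sum hnd
  omega

/-- two octads meeting in two points have no common disjoint octad -/
theorem no_common {o o' : Finset GolayPt} (ho : o ∈ octads) (ho' : o' ∈ octads)
    (h2 : (o ∩ o').card = 2) {b : Finset GolayPt} (hb : b ∈ octads) (hbo : Disjoint b o)
    (hbo' : Disjoint b o') : False := by
  have hc := compl_union_mem_octads hb ho hbo
  have heq : o' ∩ (b ∪ o)ᶜ = o' \ o := by
    ext x
    simp only [Finset.mem_inter, Finset.mem_compl, Finset.mem_union, Finset.mem_sdiff, not_or]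
    constructor
    · rintro ⟨h1, _, h3⟩
      exact ⟨h1, h3⟩
    · rintro ⟨h1, h3⟩
      exact ⟨h1, fun hxb => (Finset.disjoint_left.mp hbo') hxb h1, h3⟩
  have h6 : (o' ∩ (b ∪ o)ᶜ).card = 6 := by
    rw [heq]
    have := Finset.card_sdiff_add_card_inter o' o
    rw [octads_card ho', Finset.inter_comm, h2] at this
    omega
  rcases octads_inter ho' hc with h | h | h | h
  · rw [h] at h2
    have : o ∩ (b ∪ o)ᶜ = ∅ := by
      ext x
      simp only [Finset.mem_inter, Finset.mem_compl, Finset.mem_union, not_or,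
        Finset.notMem_empty, iff_false]
      rintro ⟨h1, _, h3⟩
      exact h3 h1
    rw [this] at h2
    simp at h2
  all_goals omega

theorem dist_cases (o o' : Finset GolayPt) (ho : o ∈ octads) (ho' : o' ∈ octads)
    (hne : o ≠ o') :
    ((o ∩ o').card = 0 ∧ (Cfsg.blockGraph Cfsg.octads).dist ⟨o, ho⟩ ⟨o', ho'⟩ = 1) ∨
    ((o ∩ o').card = 4 ∧ (Cfsg.blockGraph Cfsg.octads).dist ⟨o, ho⟩ ⟨o', ho'⟩ = 2) ∨
    ((o ∩ o').card = 2 ∧ (Cfsg.blockGraph Cfsg.octads).dist ⟨o, ho⟩ ⟨o', ho'⟩ = 3) := by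
  have hne' : (⟨o, ho⟩ : Cfsg.octads) ≠ ⟨o', ho'⟩ := fun h => hne (congrArg Subtype.val h)
  rcases octads_inter ho ho' with h | h | h | h
  · exact absurd h hne
  · left
    refine ⟨h, SimpleGraph.dist_eq_one_iff_adj.mpr ?_⟩
    rw [adj_iff]
    exact Finset.disjoint_iff_inter_eq_empty.mpr (Finset.card_eq_zero.mp h)
  · right; right
    refine ⟨h, ?_⟩
    have hnadj : ¬ (Cfsg.blockGraph Cfsg.octads).Adj ⟨o, ho⟩ ⟨o', ho'⟩ := by
      rw [adj_iff]
      intro hd
      rw [Finset.disjoint_iff_inter_eq_empty.mp hd] at h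
      simp at h
    obtain ⟨b, hb, hbo', hbo4⟩ := exists_far ho ho' h
    obtain ⟨c, hc, hcb, hco⟩ := exists_common hb ho hbo4
    have a1 : (Cfsg.blockGraph Cfsg.octads).Adj ⟨o, ho⟩ ⟨c, hc⟩ := (adj_iff _ _).mpr hco.symm
    have a2 : (Cfsg.blockGraph Cfsg.octads).Adj ⟨c, hc⟩ ⟨b, hb⟩ := (adj_iff _ _).mpr hcb
    have a3 : (Cfsg.blockGraph Cfsg.octads).Adj ⟨b, hb⟩ ⟨o', ho'⟩ := (adj_iff _ _).mpr hbo'
    have hle := SimpleGraph.dist_le
      (SimpleGraph.Walk.cons a1 (SimpleGraph.Walk.cons a2 (SimpleGraph.Walk.cons a3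
        SimpleGraph.Walk.nil)))
    have hr : (Cfsg.blockGraph Cfsg.octads).Reachable ⟨o, ho⟩ ⟨o', ho'⟩ :=
      ⟨SimpleGraph.Walk.cons a1 (SimpleGraph.Walk.cons a2 (SimpleGraph.Walk.cons a3
        SimpleGraph.Walk.nil))⟩
    have h1 := hr.one_lt_dist_of_ne_of_not_adj hne' hnadj
    have hn2 : (Cfsg.blockGraph Cfsg.octads).dist ⟨o, ho⟩ ⟨o', ho'⟩ ≠ 2 := by
      intro hd2
      obtain ⟨p, hp⟩ := hr.exists_walk_length_eq_dist
      rw [hd2] at hp
      cases p with
      | nil => simp at hp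
      | cons e1 p' =>
        cases p' with
        | nil => simp at hp
        | cons e2 p'' =>
          cases p'' with
          | nil =>
            rename_i w
            rw [adj_iff] at e1 e2
            exact no_common ho ho' h w.2 e1.symm e2
          | cons e3 p''' => simp at hp
    simp only [SimpleGraph.Walk.length_cons, SimpleGraph.Walk.length_nil] at hle
    omega
  · right; left
    refine ⟨h, ?_⟩
    have hnadj : ¬ (Cfsg.blockGraph Cfsg.octads).Adj ⟨o, ho⟩ ⟨o', ho'⟩ := by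
      rw [adj_iff]
      intro hd
      rw [Finset.disjoint_iff_inter_eq_empty.mp hd] at h
      simp at h
    obtain ⟨c, hc, hco, hco'⟩ := exists_common ho ho' h
    have a1 : (Cfsg.blockGraph Cfsg.octads).Adj ⟨o, ho⟩ ⟨c, hc⟩ := (adj_iff _ _).mpr hco.symm
    have a2 : (Cfsg.blockGraph Cfsg.octads).Adj ⟨c, hc⟩ ⟨o', ho'⟩ := (adj_iff _ _).mpr hco'
    have hle := SimpleGraph.dist_le
      (SimpleGraph.Walk.cons a1 (SimpleGraph.Walk.cons a2 SimpleGraph.Walk.nil))
    have hr : (Cfsg.blockGraph Cfsg.octads).Reachable ⟨o, ho⟩ ⟨o', ho'⟩ :=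
      ⟨SimpleGraph.Walk.cons a1 (SimpleGraph.Walk.cons a2 SimpleGraph.Walk.nil)⟩
    have h1 := hr.one_lt_dist_of_ne_of_not_adj hne' hnadj
    simp only [SimpleGraph.Walk.length_cons, SimpleGraph.Walk.length_nil] at hle
    omega

/-- In the graph on the 759 octads of the length-24 code in which two octads are adjacent when they are disjoint, the graph is connected (of diameter 3) and two distinct octads are at distance 1, 2 or 3 exactly when they meet in 0, 4 or 2 points respectively. -/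
theorem result (o o' : Finset Cfsg.GolayPt) (ho : o ∈ Cfsg.octads) (ho' : o' ∈ Cfsg.octads) (hne : o ≠ o') : (Cfsg.blockGraph Cfsg.octads).Connected ∧ ((Cfsg.blockGraph Cfsg.octads).dist ⟨o, ho⟩ ⟨o', ho'⟩ = 1 ↔ (o ∩ o').card = 0) ∧ ((Cfsg.blockGraph Cfsg.octads).dist ⟨o, ho⟩ ⟨o', ho'⟩ = 2 ↔ (o ∩ o').card = 4) ∧ ((Cfsg.blockGraph Cfsg.octads).dist ⟨o, ho⟩ ⟨o', ho'⟩ = 3 ↔ (o ∩ o').card = 2) := by
  refine ⟨?_, ?_, ?_, ?_⟩
  · have : Nonempty Cfsg.octads := ⟨⟨o, ho⟩⟩
    refine ⟨fun a b => ?_⟩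
    by_cases hab : a = b
    · rw [hab]
    · obtain ⟨a, ha⟩ := a
      obtain ⟨b, hb⟩ := b
      have hab' : a ≠ b := fun h => hab (Subtype.ext h)
      apply SimpleGraph.Reachable.of_dist_ne_zero
      rcases dist_cases a b ha hb hab' with h | h | h <;> omega
  · rcases dist_cases o o' ho ho' hne with h | h | h <;> omega
  · rcases dist_cases o o' ho ho' hne with h | h | h <;> omega
  · rcases dist_cases o o' ho ho' hne with h | h | h <;> omega

end Cfsg.Agent.S5609
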