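import Cfsg.Statements.S5618
import Cfsg.Agent.S5600
import Cfsg.Agent.Helper93.M24Count

set_option autoImplicit false
open scoped Pointwise
open Cfsg

namespace Cfsg.Agent.S5618

open Cfsg.Agent.Helper91 Cfsg.Agent.Helper93

theorem hex_facts :
    Helper26.allL (fun m => !(Nat.beq (Nat.land m 8536111) 8388655) ||
        anyL h5Tabs (fun T => Nat.beq (T.getD 5 0) 5 && Nat.beq (pullF T m) 8493631))
      Helper26.dodL = true ∧
    h5Tabs.all (fun T => !(T.getD 5 0 == 5) || T == idTab ||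
      !(Nat.beq (pullF T 8493631) 8493631)) = true := by decide +kernel

theorem c0_cases (q : GolayPt) (hq : q ∈ Helper26.dec 8388655) :
    ∃ i : Fin 6, q = pt (S5600.bs 5 i) := by
  rw [Helper26.mem_dec, ← idx_eq26] at hq
  revert q; decide

theorem c0_mem (i : Fin 6) : pt (S5600.bs 5 i) ∈ Helper26.dec 8388655 := by
  rw [Helper26.mem_dec, ← idx_eq26]
  revert i; decide

theorem bs5_inj : Function.Injective (fun i : Fin 6 => pt (S5600.bs 5 i)) := by decide

/-- A dodecad with a hexad on it enumerated by `e` is the image of the standard dodecad, with the six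
standard points going to the points of the hexad in the given order. -/
theorem normalise {d : Finset GolayPt} (hd : d ∈ dodecads) {o : Finset GolayPt} (ho : o ∈ octads)
    (e : Fin 6 → GolayPt) (he : Function.Injective e) (hoe : ∀ p, p ∈ o ∩ d ↔ ∃ i, e i = p) :
    ∃ u ∈ M24, (∀ i, u (pt (S5600.bs 5 i)) = e i) ∧ u • Helper26.dec 8493631 = d := by
  have heo : ∀ i, e i ∈ o := fun i => (Finset.mem_inter.1 ((hoe _).2 ⟨i, rfl⟩)).1
  obtain ⟨g, hg, hge⟩ := S5600.six_trans (fun i => pt (S5600.bs 5 i)) e bs5_inj he (by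
    constructor
    · intro _; exact ⟨o, ho, heo⟩
    · intro _
      refine ⟨Helper26.dec 8536111, S5600.oct0_mem, fun i => ?_⟩
      rw [Helper26.mem_dec, ← idx_eq26]
      revert i; decide)
  have ho1 : g⁻¹ • o = Helper26.dec 8536111 := by
    apply Helper26.octads_unique_of_five (s := Helper26.dec 8388655)
      (by rw [Helper26.card_eq_pc24, Helper26.enc_dec _ (by norm_num)]; decide)
      (smul_mem_octads (inv_mem hg) ho) S5600.oct0_mem
    · intro q hq
      obtain ⟨i, rfl⟩ := c0_cases q hq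
      rw [Finset.mem_inv_smul_finset_iff, Equiv.Perm.smul_def, hge i]
      exact heo i
    · rw [Helper26.subset_iff_enc, Helper26.enc_dec _ (by norm_num),
        Helper26.enc_dec _ (by norm_num)]
      decide
  have hd1 : g⁻¹ • d ∈ dodecads := smul_mem_dodecads (inv_mem hg) hd
  have hint : Helper26.dec 8536111 ∩ g⁻¹ • d = Helper26.dec 8388655 := by
    rw [← ho1, ← Finset.smul_finset_inter]
    ext q
    rw [Finset.mem_inv_smul_finset_iff, Equiv.Perm.smul_def, hoe]
    constructor
    · rintro ⟨i, hi⟩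
      have : q = pt (S5600.bs 5 i) := g.injective (by rw [hge i, hi])
      rw [this]
      exact c0_mem i
    · intro hq
      obtain ⟨i, rfl⟩ := c0_cases q hq
      exact ⟨i, (hge i).symm⟩
  have hland : Nat.land (Helper26.enc (g⁻¹ • d)) 8536111 = 8388655 := by
    have := congrArg Helper26.enc hint
    rw [Helper26.enc_inter, Helper26.enc_dec _ (by norm_num),
      Helper26.enc_dec _ (by norm_num)] at this
    rw [← this]; exact Nat.land_comm _ _
  have hL := (Helper26.mem_dodL_iff _).2 hd1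
  have h := Helper26.allL_spec _ _ hex_facts.1 _ hL
  rw [hland] at h
  simp only [Nat.beq_refl, Bool.not_true, Bool.false_or] at h
  rw [anyL_eq, List.any_eq_true] at h
  obtain ⟨T, hT, hT2⟩ := h
  rw [Bool.and_eq_true, Nat.beq_eq, Nat.beq_eq] at hT2
  have hv := h5Tabs_valid hT
  obtain ⟨hM, hfix, -⟩ := h5Tabs_mem hT
  have hpull : (permT T hv)⁻¹ • (g⁻¹ • d) = Helper26.dec 8493631 := by
    apply Helper26.enc_injective
    rw [enc_inv_smul hv, ← pullF_eq, hT2.2, Helper26.enc_dec _ (by norm_num)]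
  refine ⟨g * permT T hv, mul_mem hg hM, ?_, ?_⟩
  · intro i
    rw [Equiv.Perm.mul_apply]
    have : permT T hv (pt (S5600.bs 5 i)) = pt (S5600.bs 5 i) := by
      obtain ⟨f23, f0, f1, f2, f3⟩ := fixOn_base.1 hfix
      have f5 : permT T hv (pt 5) = pt 5 := by rw [permT_pt hv (by norm_num), hT2.1]
      fin_cases i
      · exact f23
      · exact f0
      · exact f1
      · exact f2
      · exact f3
      · exact f5
    rw [this, hge i]
  · rw [← hpull, mul_smul, smul_inv_smul, smul_inv_smul]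

/-- The joint stabiliser of a dodecad and a hexad on it acts faithfully on the hexad. -/
theorem hex_faithful {d : Finset GolayPt} (hd : d ∈ dodecads) {C : Finset GolayPt}
    (hC : C ∈ hexadsOn d) {g : Equiv.Perm GolayPt} (hg : g ∈ M24) (hgd : g • d = d)
    (hfix : ∀ p ∈ C, g p = p) : g = 1 := by
  obtain ⟨hC6, o, ho, hoC⟩ := hC
  let φ : Fin 6 ≃ ↥C := (Finset.equivFinOfCardEq hC6).symm
  have hinj : Function.Injective (fun i => (φ i : GolayPt)) :=
    fun i j h => φ.injective (Subtype.ext h)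
  have hoe : ∀ p, p ∈ o ∩ d ↔ ∃ i, (φ i : GolayPt) = p := by
    intro p
    rw [hoC]
    constructor
    · intro hp; exact ⟨φ.symm ⟨p, hp⟩, by simp⟩
    · rintro ⟨i, rfl⟩; exact (φ i).2
  obtain ⟨u, hu, hue, hud⟩ := normalise hd ho _ hinj hoe
  have hfix' : ∀ i, (u⁻¹ * g * u) (pt (S5600.bs 5 i)) = pt (S5600.bs 5 i) := by
    intro i
    simp only [Equiv.Perm.mul_apply]
    rw [hue i, hfix _ (φ i).2, ← hue i, perm_inv_apply]
  have hmem : u⁻¹ * g * u ∈ stabSub 8388623 [] :=
    ⟨mul_mem (mul_mem (inv_mem hu) hg) hu,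
      fixOn_base.2 ⟨hfix' 0, hfix' 1, hfix' 2, hfix' 3, hfix' 4⟩,
      fun I hI => absurd hI (List.not_mem_nil)⟩
  obtain ⟨T, hT, eT⟩ := h5_mem hmem
  have hv := h5Tabs_valid hT
  have h5 : T.getD 5 0 = 5 := by
    have h55 : (u⁻¹ * g * u) (pt 5) = pt 5 := hfix' 5
    have := congrArg idx h55
    rw [← eT, idx_permT, idx_pt (by norm_num)] at this
    exact this
  have hD : permT T hv • Helper26.dec 8493631 = Helper26.dec 8493631 := by
    rw [eT, mul_smul, mul_smul, hud, hgd, ← hud, inv_smul_smul]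
  rw [smul_eq_iff_pull, Helper26.enc_dec _ (by norm_num), ← pullF_eq] at hD
  have hfact := List.all_eq_true.1 hex_facts.2 T hT
  rw [h5, hD] at hfact
  simp only [beq_self_eq_true, Bool.not_true, Bool.false_or, Nat.beq_refl, Bool.or_false] at hfact
  have h1 : u⁻¹ * g * u = 1 := by rw [← eT]; exact (isId_iff hv).1 hfact
  have : g = u * (u⁻¹ * g * u) * u⁻¹ := by group
  rw [this, h1]; group

/-- Every permutation of a hexad on a dodecad is induced by an element of the stabiliser of the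
dodecad. -/
theorem hex_surj {d : Finset GolayPt} (hd : d ∈ dodecads) {C : Finset GolayPt}
    (hC : C ∈ hexadsOn d) (σ : Equiv.Perm ↥C) :
    ∃ g ∈ M24, g • d = d ∧ ∀ p : ↥C, g p = σ p := by
  obtain ⟨hC6, o, ho, hoC⟩ := hC
  let φ : Fin 6 ≃ ↥C := (Finset.equivFinOfCardEq hC6).symm
  have hinj : Function.Injective (fun i => (φ i : GolayPt)) :=
    fun i j h => φ.injective (Subtype.ext h)
  obtain ⟨g0, hg0, hg0σ⟩ := (S5600.result C hC6).1 σ
  have hg0C : g0 • C = C := by
    apply Finset.eq_of_subset_of_card_le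
    · intro q hq
      obtain ⟨p, hp, rfl⟩ := Finset.mem_smul_finset.1 hq
      change g0 p ∈ C
      rw [hg0σ ⟨p, hp⟩]; exact (σ ⟨p, hp⟩).2
    · exact (Finset.card_smul_finset _ _).ge
  have hCe : ∀ p, p ∈ C ↔ ∃ i, (φ i : GolayPt) = p := by
    intro p
    constructor
    · intro hp; exact ⟨φ.symm ⟨p, hp⟩, by simp⟩
    · rintro ⟨i, rfl⟩; exact (φ i).2
  have hoe : ∀ p, p ∈ o ∩ d ↔ ∃ i, (φ i : GolayPt) = p := by
    intro p; rw [hoC]; exact hCe p
  have hoe' : ∀ p, p ∈ (g0 • o) ∩ (g0 • d) ↔ ∃ i, (φ i : GolayPt) = p := by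
    intro p; rw [← Finset.smul_finset_inter, hoC, hg0C]; exact hCe p
  obtain ⟨u, hu, hue, hud⟩ := normalise hd ho _ hinj hoe
  obtain ⟨u', hu', hue', hud'⟩ :=
    normalise (smul_mem_dodecads hg0 hd) (smul_mem_octads hg0 ho) _ hinj hoe'
  refine ⟨u * u'⁻¹ * g0, mul_mem (mul_mem hu (inv_mem hu')) hg0, ?_, ?_⟩
  · rw [mul_smul, mul_smul, ← hud', inv_smul_smul, hud]
  · intro p
    obtain ⟨i, hi⟩ : ∃ i, φ i = σ p := ⟨φ.symm (σ p), by simp⟩
    have h1 : u'⁻¹ (φ i : GolayPt) = pt (S5600.bs 5 i) := by rw [← hue' i, perm_inv_apply]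
    simp only [Equiv.Perm.mul_apply]
    rw [hg0σ p, ← hi, h1, hue i]

/-- The joint stabiliser of a dodecad and a hexad on it is the symmetric group of degree 6. -/
theorem hex_iso {d : Finset GolayPt} (hd : d ∈ dodecads) {C : Finset GolayPt}
    (hC : C ∈ hexadsOn d) :
    Nonempty (↥(MulAction.stabilizer M24 d ⊓ MulAction.stabilizer M24 C) ≃* Equiv.Perm (Fin 6)) := by
  have hC6 := hC.1
  let ρ : ↥(MulAction.stabilizer M24 d ⊓ MulAction.stabilizer M24 C) →* Equiv.Perm ↥C :=
    (S5600.resHom C).comp (Subgroup.inclusion inf_le_right)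
  have hρ : ∀ (g : ↥(MulAction.stabilizer M24 d ⊓ MulAction.stabilizer M24 C)) (p : ↥C),
      ((ρ g) p : GolayPt) = (g : ↥M24).1 p := fun g p => rfl
  have hinj : Function.Injective ρ := by
    rw [injective_iff_map_eq_one]
    intro g hg1
    have hfix : ∀ p ∈ C, (g : ↥M24).1 p = p := by
      intro p hp
      have := congrArg (fun σ : Equiv.Perm ↥C => ((σ ⟨p, hp⟩ : ↥C) : GolayPt)) hg1
      simpa [hρ] using this
    have hgd : (g : ↥M24).1 • d = d := MulAction.mem_stabilizer_iff.1 g.2.1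
    have := hex_faithful hd hC (g : ↥M24).2 hgd hfix
    exact Subtype.ext (Subtype.ext this)
  have hsurj : Function.Surjective ρ := by
    intro σ
    obtain ⟨g, hg, hgd, hgσ⟩ := hex_surj hd hC σ
    have hgC : g • C = C := by
      apply Finset.eq_of_subset_of_card_le
      · intro q hq
        obtain ⟨p, hp, rfl⟩ := Finset.mem_smul_finset.1 hq
        change g p ∈ C
        rw [hgσ ⟨p, hp⟩]; exact (σ ⟨p, hp⟩).2
      · exact (Finset.card_smul_finset _ _).ge
    refine ⟨⟨⟨g, hg⟩, ⟨MulAction.mem_stabilizer_iff.2 hgd, MulAction.mem_stabilizer_iff.2 hgC⟩⟩, ?_⟩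
    apply Equiv.ext
    intro p
    apply Subtype.ext
    rw [hρ]; exact hgσ p
  exact ⟨(MulEquiv.ofBijective ρ ⟨hinj, hsurj⟩).trans
    (Equiv.permCongrHom (Finset.equivFinOfCardEq hC6))⟩

/-- The complement in a dodecad of a hexad on it is a hexad on it. -/
theorem compl_hexad {d : Finset GolayPt} (hd : d ∈ dodecads) {C : Finset GolayPt}
    (hC : C ∈ hexadsOn d) : d \ C ∈ hexadsOn d := by
  obtain ⟨hC6, o, ho, hoC⟩ := hC
  have hCd : C ⊆ d := by rw [← hoC]; exact Finset.inter_subset_right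
  refine ⟨by rw [Finset.card_sdiff_of_subset hCd, Helper26.dodecads_card hd, hC6], symmDiff o d, ?_, ?_⟩
  · refine ⟨Helper26.supports_symmDiff (Helper26.octads_supports ho) (Helper26.dodecads_supports hd), ?_⟩
    have h1 := Helper26.card_symmDiff_add o d
    rw [Helper26.octads_card ho, Helper26.dodecads_card hd, hoC, hC6] at h1
    omega
  · ext q
    simp only [Finset.mem_inter, Finset.mem_symmDiff, Finset.mem_sdiff]
    rw [← hoC]
    simp only [Finset.mem_inter]
    tauto

/-- For a dodecad d of the length-24 code and a hexad C on it (a 6-point intersection of d with an octad): the joint stabiliser of d and C in the code's group is isomorphic to the symmetric group of degree 6, and it acts faithfully both on the six points of C and on the six points of d outside C. -/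
theorem result (d : Finset Cfsg.GolayPt) (hd : d ∈ Cfsg.dodecads) (C : Finset Cfsg.GolayPt) (hC : C ∈ Cfsg.hexadsOn d) : Nonempty (↥(MulAction.stabilizer Cfsg.M24 d ⊓ MulAction.stabilizer Cfsg.M24 C) ≃* Equiv.Perm (Fin 6)) ∧ (∀ g ∈ MulAction.stabilizer Cfsg.M24 d ⊓ MulAction.stabilizer Cfsg.M24 C, (∀ p ∈ C, ((g : ↥Cfsg.M24) : Equiv.Perm Cfsg.GolayPt) p = p) → g = 1) ∧ ∀ g ∈ MulAction.stabilizer Cfsg.M24 d ⊓ MulAction.stabilizer Cfsg.M24 C, (∀ p ∈ d \ C, ((g : ↥Cfsg.M24) : Equiv.Perm Cfsg.GolayPt) p = p) → g = 1 := by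
  refine ⟨hex_iso hd hC, ?_, ?_⟩
  · intro g hg hfix
    have hgd : (g : Equiv.Perm GolayPt) • d = d := MulAction.mem_stabilizer_iff.1 hg.1
    exact Subtype.ext (hex_faithful hd hC g.2 hgd hfix)
  · intro g hg hfix
    have hgd : (g : Equiv.Perm GolayPt) • d = d := MulAction.mem_stabilizer_iff.1 hg.1
    exact Subtype.ext (hex_faithful hd (compl_hexad hd hC) g.2 hgd hfix)

end Cfsg.Agent.S5618
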