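import Cfsg.Statements.S5614
import Cfsg.Agent.S5618

set_option autoImplicit false
open scoped Pointwise
open Cfsg

namespace Cfsg.Agent.S5614

open Cfsg.Agent.Helper91 Cfsg.Agent.Helper93

theorem smul_symmDiff (g : ↥M24) (a b : Finset GolayPt) :
    g • symmDiff a b = symmDiff (g • a) (g • b) := by
  have h1 : symmDiff a b = (a \ b) ∪ (b \ a) := rfl
  have h2 : symmDiff (g • a) (g • b) = (g • a \ g • b) ∪ (g • b \ g • a) := rfl
  rw [h1, h2, Finset.smul_finset_union, Finset.smul_finset_sdiff, Finset.smul_finset_sdiff]

/-- In the group of the length-24 code, the joint stabiliser of two octads meeting in exactly two points is isomorphic to the symmetric group of degree 6. -/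
theorem result (o o' : Finset Cfsg.GolayPt) (ho : o ∈ Cfsg.octads) (ho' : o' ∈ Cfsg.octads) (h₂ : (o ∩ o').card = 2) : Nonempty (↥(MulAction.stabilizer Cfsg.M24 o ⊓ MulAction.stabilizer Cfsg.M24 o') ≃* Equiv.Perm (Fin 6)) := by
  have hd : symmDiff o o' ∈ dodecads := by
    refine ⟨Helper26.supports_symmDiff (Helper26.octads_supports ho) (Helper26.octads_supports ho'), ?_⟩
    have h1 := Helper26.card_symmDiff_add o o'
    rw [Helper26.octads_card ho, Helper26.octads_card ho', h₂] at h1
    omega
  have hC6 : (o \ o').card = 6 := by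
    have h1 := Finset.card_sdiff_add_card_inter o o'
    rw [Helper26.octads_card ho, h₂] at h1
    omega
  have hC : o \ o' ∈ hexadsOn (symmDiff o o') := by
    refine ⟨hC6, o, ho, ?_⟩
    ext q
    simp only [Finset.mem_inter, Finset.mem_symmDiff, Finset.mem_sdiff]
    tauto
  have heq : MulAction.stabilizer M24 o ⊓ MulAction.stabilizer M24 o' =
      MulAction.stabilizer M24 (symmDiff o o') ⊓ MulAction.stabilizer M24 (o \ o') := by
    ext g
    simp only [Subgroup.mem_inf, MulAction.mem_stabilizer_iff]
    constructor
    · rintro ⟨h1, h2⟩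
      exact ⟨by rw [smul_symmDiff, h1, h2], by rw [Finset.smul_finset_sdiff, h1, h2]⟩
    · rintro ⟨h1, h2⟩
      have hgo : g • o = o := by
        have hoct : g • o ∈ octads := smul_mem_octads g.2 ho
        apply Helper26.octads_unique_of_five (s := o \ o') (by rw [hC6]; norm_num) hoct ho
        · rw [← h2]
          exact Finset.smul_finset_subset_smul_finset Finset.sdiff_subset
        · exact Finset.sdiff_subset
      refine ⟨hgo, ?_⟩
      have e : o' = symmDiff o (symmDiff o o') := (symmDiff_symmDiff_cancel_left o o').symm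
      rw [e, smul_symmDiff, hgo, h1]
  rw [heq]
  exact S5618.hex_iso hd hC

end Cfsg.Agent.S5614
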