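import Cfsg.Statements.S5615
import Cfsg.Agent.Helper93.M24Rigid
import Cfsg.Agent.Helper93.M24Fast
import Cfsg.Agent.Helper91.Fast

set_option autoImplicit false
open scoped Pointwise
open Cfsg

namespace Cfsg.Agent.S5615

open Cfsg.Agent.Helper91 Cfsg.Agent.Helper93

/-- The 15 octads disjoint from the standard octad and containing the point 4. -/
def aL : List Nat := [628112, 832080, 1584464, 1903248, 2141072, 2460752, 3216208, 3421328, 4202192, 4536592, 5350928, 5538256, 6889680, 7079696, 7903248]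

/-- Elements of the stabiliser of the standard octad fixing the first trio and carrying the second trio to
each of the other trios. -/
def hs : List (List Nat) :=
  [[0, 1, 2, 3, 4, 5, 6, 7, 8, 9, 10, 11, 12, 13, 14, 15, 16, 17, 18, 19, 20, 21, 22, 23],
   [23, 1, 5, 0, 20, 2, 10, 6, 11, 12, 22, 16, 18, 7, 14, 13, 9, 3, 4, 21, 8, 15, 19, 17],
   [3, 5, 23, 2, 18, 0, 8, 9, 21, 12, 20, 15, 11, 16, 1, 22, 6, 17, 4, 13, 19, 7, 10, 14],
   [2, 23, 5, 3, 19, 0, 22, 4, 15, 13, 16, 6, 7, 9, 1, 12, 10, 17, 20, 8, 11, 18, 21, 14],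
   [0, 1, 3, 2, 9, 5, 19, 11, 21, 8, 6, 15, 22, 7, 17, 13, 18, 14, 12, 20, 10, 4, 16, 23],
   [5, 2, 17, 0, 18, 1, 19, 11, 6, 15, 22, 10, 13, 16, 23, 21, 9, 3, 8, 20, 12, 4, 7, 14],
   [3, 17, 1, 5, 22, 2, 19, 20, 6, 15, 21, 4, 11, 7, 23, 18, 9, 0, 10, 13, 16, 8, 12, 14],
   [0, 14, 23, 2, 10, 3, 21, 8, 4, 11, 7, 20, 16, 13, 1, 19, 15, 17, 9, 12, 18, 6, 22, 5],
   [1, 23, 17, 2, 21, 5, 12, 9, 11, 15, 18, 7, 22, 8, 14, 13, 20, 3, 10, 6, 19, 4, 16, 0],
   [0, 1, 17, 14, 13, 5, 16, 21, 11, 4, 6, 7, 22, 15, 3, 9, 18, 2, 10, 20, 12, 8, 19, 23],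
   [0, 2, 1, 3, 21, 14, 10, 20, 22, 12, 18, 4, 13, 19, 5, 11, 6, 17, 16, 9, 8, 15, 7, 23],
   [5, 1, 23, 0, 6, 2, 15, 18, 21, 8, 20, 7, 22, 19, 17, 11, 13, 3, 16, 9, 10, 12, 4, 14],
   [17, 2, 0, 5, 20, 3, 12, 6, 22, 8, 21, 4, 9, 15, 1, 18, 13, 23, 10, 11, 19, 7, 16, 14],
   [0, 1, 14, 17, 9, 5, 16, 11, 21, 7, 20, 4, 18, 8, 2, 13, 22, 3, 10, 6, 12, 15, 19, 23]]

/-- The octad containing the point 4 of the trio through the standard octad and the octad `p`. -/
def canon (p : Nat) : Nat := if p.testBit 4 then p else (8536111 ||| p) ^^^ 16777215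

theorem trio_facts :
    aL.all (fun a => Helper26.octL.contains a && Nat.land a 8536111 == 0 && a.testBit 4) = true ∧
    Helper26.allL (fun m => !(Nat.beq (Nat.land m 8536111) 0) || aL.contains (canon m))
      Helper26.octL = true ∧
    aL.Nodup ∧ aL.length = 15 ∧
    hs.all (fun H => tabOK 0 [8536111] H && canon (pullF H 628112) == 628112) = true ∧
    aL.all (fun a => a == 628112 || hs.any (fun H => canon (pullF H 832080) == a)) = true ∧
    h5Tabs.all (fun T => !(T.getD 5 0 == 5 && T.getD 14 0 == 14 && T.getD 17 0 == 17) ||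
      aL.all (fun a => canon (pullF T a) == a)) = true ∧
    (List.range 24).all (fun x => (8536111 : Nat).testBit x ||
      h5Tabs.any (fun T => T.getD 5 0 == 5 && T.getD 14 0 == 14 && T.getD 17 0 == 17 &&
        T.getD x 0 == 4)) = true ∧
    (List.range 24).all (fun x => (List.range 24).all (fun y => (8536111 : Nat).testBit x ||
      y == 4 || y == x || aL.any (fun a => a.testBit x && !a.testBit y))) = true := by
  decide +kernel

/-- The standard octad. -/
noncomputable def O0 : Finset GolayPt := Helper26.dec 8536111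

/-- The trio through the standard octad and the octad of mask `a`. -/
noncomputable def trioA (a : Nat) : Finset (Finset GolayPt) := Helper26.trioOf (O0, Helper26.dec a)

theorem enc_O0 : Helper26.enc O0 = 8536111 := Helper26.enc_dec _ (by norm_num)

theorem setM_O0 : setM oct0 = O0 := setM_eq_dec oct0

theorem O0_mem : O0 ∈ octads := by rw [← setM_O0]; exact setM_oct0_mem

theorem pt4_not_mem : pt 4 ∉ O0 := by
  rw [O0, Helper26.mem_dec, ← idx_eq26]; decide

theorem pt23_mem : pt 23 ∈ O0 := by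
  rw [O0, Helper26.mem_dec, ← idx_eq26]; decide

theorem O0_cases (p : GolayPt) (hp : p ∈ O0) :
    p = pt 23 ∨ p = pt 0 ∨ p = pt 1 ∨ p = pt 2 ∨ p = pt 3 ∨ p = pt 5 ∨ p = pt 14 ∨ p = pt 17 := by
  rw [O0, Helper26.mem_dec, ← idx_eq26] at hp
  revert p; decide

theorem mem_O0_of {i : Nat} (hi : i < 24) (h : (8536111 : Nat).testBit i = true) : pt i ∈ O0 := by
  rw [O0, Helper26.mem_dec, ← idx_eq26, idx_pt hi]; exact h

theorem smul_eq_of_pointwise {g : Equiv.Perm GolayPt} {s : Finset GolayPt}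
    (h : ∀ p ∈ s, g p = p) : g • s = s := by
  apply Finset.eq_of_subset_of_card_le
  · intro q hq
    obtain ⟨p, hp, rfl⟩ := Finset.mem_smul_finset.1 hq
    change g p ∈ s
    rw [h p hp]; exact hp
  · exact (Finset.card_smul_finset _ _).ge

/-- Every trio through the standard octad and a further octad `x` is one of the 15 listed ones. -/
theorem trio_canon {x : Finset GolayPt} (hx : x ∈ octads) (hd : Disjoint O0 x) :
    Helper26.trioOf (O0, x) = trioA (canon (Helper26.enc x)) ∧ canon (Helper26.enc x) ∈ aL := by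
  have hL : Helper26.enc x ∈ Helper26.octL := (Helper26.mem_octL_iff x).2 hx
  have hland : Nat.land (Helper26.enc x) 8536111 = 0 := by
    have := (Helper26.disjoint_iff_enc O0 x).1 hd
    rw [enc_O0] at this
    exact (Nat.land_comm _ _).trans this
  have h := Helper26.allL_spec _ _ trio_facts.2.1 _ hL
  rw [hland] at h
  simp only [Nat.beq_refl, Bool.not_true, Bool.false_or] at h
  refine ⟨?_, List.contains_iff_mem.1 h⟩
  unfold trioA canon
  by_cases h4 : (Helper26.enc x).testBit 4 = true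
  · rw [if_pos h4, Helper26.dec_enc]
  · rw [if_neg h4]
    have e : (8536111 ||| Helper26.enc x) ^^^ 16777215 = Helper26.enc ((O0 ∪ x)ᶜ) := by
      rw [Helper26.enc_compl, Helper26.enc_union, enc_O0]
    rw [e, Helper26.dec_enc]
    have hT := Helper26.trioOf_mem_trios O0_mem hx hd
    apply Helper26.trio_eq_trioOf hT (Helper26.mem_trioOf.2 (Or.inl rfl))
      (Helper26.mem_trioOf.2 (Or.inr (Or.inr rfl)))
    intro heq
    have h23 : pt 23 ∈ (O0 ∪ x)ᶜ := by rw [← heq]; exact pt23_mem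
    rw [Finset.mem_compl, Finset.mem_union] at h23
    exact h23 (Or.inl pt23_mem)

theorem trio_enum {T : Finset (Finset GolayPt)} (hT : T ∈ trios) (hO : O0 ∈ T) :
    ∃ a ∈ aL, T = trioA a := by
  have h3 := hT.1
  obtain ⟨x, hxT, hxne⟩ : ∃ x ∈ T, x ≠ O0 := by
    by_contra hc
    push Not at hc
    have hsub : T ⊆ {O0} := fun y hy => Finset.mem_singleton.2 (hc y hy)
    have := Finset.card_le_card hsub
    rw [h3, Finset.card_singleton] at this
    omega
  have hx : x ∈ octads := hT.2.1 x hxT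
  have hd : Disjoint O0 x := hT.2.2 O0 hO x hxT (Ne.symm hxne)
  obtain ⟨e, hmem⟩ := trio_canon hx hd
  exact ⟨_, hmem, (Helper26.trio_eq_trioOf hT hO hxT (Ne.symm hxne)).trans e⟩

theorem aL_spec {a : Nat} (ha : a ∈ aL) :
    Helper26.dec a ∈ octads ∧ Disjoint O0 (Helper26.dec a) ∧ pt 4 ∈ Helper26.dec a ∧
      Helper26.enc (Helper26.dec a) = a := by
  have h := List.all_eq_true.1 trio_facts.1 a ha
  simp only [Bool.and_eq_true, beq_iff_eq] at h
  obtain ⟨⟨h1, h2⟩, h3⟩ := h
  have hL : a ∈ Helper26.octL := List.contains_iff_mem.1 h1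
  have hlt := Helper26.octL_lt a hL
  have e := Helper26.enc_dec a hlt
  refine ⟨?_, ?_, ?_, e⟩
  · rw [← Helper26.mem_octL_iff, e]; exact hL
  · rw [Helper26.disjoint_iff_enc, enc_O0, e]; exact (Nat.land_comm _ _).trans h2
  · rw [Helper26.mem_dec, ← idx_eq26, idx_pt (by norm_num)]; exact h3

theorem trioA_mem {a : Nat} (ha : a ∈ aL) : trioA a ∈ trios ∧ O0 ∈ trioA a := by
  obtain ⟨h1, h2, -, -⟩ := aL_spec ha
  exact ⟨Helper26.trioOf_mem_trios O0_mem h1 h2, Helper26.mem_trioOf.2 (Or.inl rfl)⟩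

theorem trioA_inj {a a' : Nat} (ha : a ∈ aL) (ha' : a' ∈ aL) (h : trioA a = trioA a') : a = a' := by
  obtain ⟨-, -, h4, e⟩ := aL_spec ha
  obtain ⟨-, -, h4', e'⟩ := aL_spec ha'
  have hm : Helper26.dec a ∈ trioA a' := by
    rw [← h]; exact Helper26.mem_trioOf.2 (Or.inr (Or.inl rfl))
  rcases Helper26.mem_trioOf.1 hm with h1 | h1 | h1
  · rw [h1] at h4; exact absurd h4 pt4_not_mem
  · have h1' : Helper26.dec a = Helper26.dec a' := h1
    rw [← e, ← e', h1']
  · rw [h1, Finset.mem_compl, Finset.mem_union] at h4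
    exact absurd (Or.inr h4') h4

theorem ncard_O0 : {T : Finset (Finset GolayPt) | T ∈ trios ∧ O0 ∈ T}.ncard = 15 := by
  classical
  have hset : {T : Finset (Finset GolayPt) | T ∈ trios ∧ O0 ∈ T} =
      ↑(aL.toFinset.image trioA) := by
    ext T
    rw [Set.mem_ofPred_eq, Finset.mem_coe, Finset.mem_image]
    constructor
    · rintro ⟨hT, hO⟩
      obtain ⟨a, ha, e⟩ := trio_enum hT hO
      exact ⟨a, List.mem_toFinset.2 ha, e.symm⟩
    · rintro ⟨a, ha, rfl⟩
      exact trioA_mem (List.mem_toFinset.1 ha)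
  rw [hset, Set.ncard_coe_finset, Finset.card_image_of_injOn,
    List.toFinset_card_of_nodup trio_facts.2.2.1, trio_facts.2.2.2.1]
  intro a ha a' ha' h
  rw [Finset.mem_coe, List.mem_toFinset] at ha ha'
  exact trioA_inj ha ha' h

/-- The action of the inverse of a table stabilising the standard octad on the 15 trios. -/
theorem act_tab {H : List Nat} (hv : validTab H = true) (hM : permT H hv ∈ M24)
    (hO : (permT H hv)⁻¹ • O0 = O0) {a : Nat} (ha : a ∈ aL) :
    (permT H hv)⁻¹ • trioA a = trioA (canon (pullF H a)) := by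
  obtain ⟨hoct, hdis, -, e⟩ := aL_spec ha
  have hx : (permT H hv)⁻¹ • Helper26.dec a ∈ octads := smul_mem_octads (inv_mem hM) hoct
  have hd : Disjoint O0 ((permT H hv)⁻¹ • Helper26.dec a) := by
    have := (disjoint_smul_iff (permT H hv)⁻¹ O0 (Helper26.dec a)).2 hdis
    rwa [hO] at this
  have henc : Helper26.enc ((permT H hv)⁻¹ • Helper26.dec a) = pullF H a := by
    rw [enc_inv_smul hv, e, pullF_eq]
  have := (trio_canon hx hd).1
  rw [henc] at this
  rw [← this]
  unfold trioA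
  rw [smul_trioOf, hO]

theorem inv_O0_of_tabOK {H : List Nat} (hH : tabOK 0 [8536111] H = true) :
    (permT H (tabOK_valid hH))⁻¹ • O0 = O0 := by
  have h := (mem_stabSub_zero_single (I := 8536111)).1 (tabOK_spec hH)
  rw [← smul_eq_iff_inv]
  have h2 := h.2
  rw [setM_eq_dec] at h2
  exact h2

/-- The stabiliser of the standard octad is transitive on the trios through it. -/
theorem trans1 {T : Finset (Finset GolayPt)} (hT : T ∈ trios) (hO : O0 ∈ T) :
    ∃ g ∈ M24, g • O0 = O0 ∧ g • trioA 628112 = T := by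
  obtain ⟨a, ha, rfl⟩ := trio_enum hT hO
  have ha1 : (628112 : Nat) ∈ aL := by decide
  obtain ⟨hoct1, hdis1, -, -⟩ := aL_spec ha1
  obtain ⟨hoct, hdis, -, -⟩ := aL_spec ha
  obtain ⟨g, hg, hgO, hga⟩ := octStab_trans hoct1 hoct (by
    rw [setM_O0, Finset.disjoint_iff_inter_eq_empty.1 hdis1, Finset.disjoint_iff_inter_eq_empty.1 hdis])
  rw [setM_O0] at hgO
  refine ⟨g, hg, hgO, ?_⟩
  unfold trioA
  rw [smul_trioOf, hgO, hga]

/-- The stabiliser of the standard octad and of the first trio is transitive on the other trios. -/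
theorem trans2 {T : Finset (Finset GolayPt)} (hT : T ∈ trios) (hO : O0 ∈ T)
    (hne : T ≠ trioA 628112) :
    ∃ h ∈ M24, h • O0 = O0 ∧ h • trioA 628112 = trioA 628112 ∧ h • trioA 832080 = T := by
  obtain ⟨a, ha, rfl⟩ := trio_enum hT hO
  have hf := List.all_eq_true.1 trio_facts.2.2.2.2.2.1 a ha
  have hane : (a == 628112) = false := by
    rw [beq_eq_false_iff_ne]; rintro rfl; exact hne rfl
  rw [hane, Bool.false_or, List.any_eq_true] at hf
  obtain ⟨H, hH, hHa⟩ := hf
  rw [beq_iff_eq] at hHa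
  have hok := List.all_eq_true.1 trio_facts.2.2.2.2.1 H hH
  rw [Bool.and_eq_true, beq_iff_eq] at hok
  obtain ⟨hok1, hok2⟩ := hok
  have hv := tabOK_valid hok1
  have hM : permT H hv ∈ M24 := (tabOK_spec hok1).1
  have hO' : (permT H hv)⁻¹ • O0 = O0 := inv_O0_of_tabOK hok1
  have e1 := act_tab hv hM hO' (a := 628112) (by decide)
  have e2 := act_tab hv hM hO' (a := 832080) (by decide)
  exact ⟨(permT H hv)⁻¹, inv_mem hM, hO', by rw [e1, hok2], by rw [e2, hHa]⟩

theorem two_trans0 {T1 T2 : Finset (Finset GolayPt)} (h1 : T1 ∈ trios) (h2 : T2 ∈ trios)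
    (hO1 : O0 ∈ T1) (hO2 : O0 ∈ T2) (hne : T1 ≠ T2) :
    ∃ g ∈ M24, g • O0 = O0 ∧ g • trioA 628112 = T1 ∧ g • trioA 832080 = T2 := by
  obtain ⟨g1, hg1, hg1O, hg1T⟩ := trans1 h1 hO1
  have h2' : g1⁻¹ • T2 ∈ trios := smul_mem_trios (inv_mem hg1) h2
  have hO2' : O0 ∈ g1⁻¹ • T2 := by
    rw [Finset.mem_inv_smul_finset_iff, hg1O]; exact hO2
  have hne' : g1⁻¹ • T2 ≠ trioA 628112 := by
    intro h
    apply hne
    rw [← hg1T, ← h, smul_inv_smul]
  obtain ⟨g2, hg2, hg2O, hg2T1, hg2T2⟩ := trans2 h2' hO2' hne'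
  exact ⟨g1 * g2, mul_mem hg1 hg2, by rw [mul_smul, hg2O, hg1O], by rw [mul_smul, hg2T1, hg1T],
    by rw [mul_smul, hg2T2, smul_inv_smul]⟩

/-- An element fixing the standard octad pointwise fixes every trio through it. -/
theorem fix_of_pointwise {g : Equiv.Perm GolayPt} (hg : g ∈ M24) (hfix : ∀ p ∈ O0, g p = p)
    {T : Finset (Finset GolayPt)} (hT : T ∈ trios) (hO : O0 ∈ T) : g • T = T := by
  have hb : ∀ i, i < 24 → (8536111 : Nat).testBit i = true → g (pt i) = pt i :=
    fun i hlt hi => hfix _ (mem_O0_of hlt hi)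
  have hmem : g ∈ stabSub 8388623 [] :=
    ⟨hg, fixOn_base.2 ⟨hb 23 (by norm_num) (by decide), hb 0 (by norm_num) (by decide),
      hb 1 (by norm_num) (by decide), hb 2 (by norm_num) (by decide),
      hb 3 (by norm_num) (by decide)⟩, fun I hI => absurd hI (List.not_mem_nil)⟩
  obtain ⟨H, hH, eH⟩ := h5_mem hmem
  have hv := h5Tabs_valid hH
  have k : ∀ i, i < 24 → (8536111 : Nat).testBit i = true → H.getD i 0 = i := by
    intro i hlt hi
    have := congrArg idx (hb i hlt hi)
    rw [← eH, idx_permT, idx_pt hlt] at this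
    exact this
  have hf := List.all_eq_true.1 trio_facts.2.2.2.2.2.2.1 H hH
  rw [k 5 (by norm_num) (by decide), k 14 (by norm_num) (by decide),
    k 17 (by norm_num) (by decide)] at hf
  simp only [beq_self_eq_true, Bool.and_self, Bool.not_true, Bool.false_or] at hf
  obtain ⟨a, ha, rfl⟩ := trio_enum hT hO
  have hc := List.all_eq_true.1 hf a ha
  rw [beq_iff_eq] at hc
  have hgO : g • O0 = O0 := smul_eq_of_pointwise hfix
  have hM : permT H hv ∈ M24 := by rw [eH]; exact hg
  have hO' : (permT H hv)⁻¹ • O0 = O0 := by rw [eH, ← smul_eq_iff_inv]; exact hgO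
  have := act_tab hv hM hO' ha
  rw [hc, eH] at this
  rw [smul_eq_iff_inv]; exact this

/-- An element stabilising the standard octad and every trio through it fixes the octad pointwise. -/
theorem pointwise_of_fix {g : Equiv.Perm GolayPt} (hg : g ∈ M24) (hgO : g • O0 = O0)
    (hfix : ∀ T ∈ trios, O0 ∈ T → g • T = T) : ∀ p ∈ O0, g p = p := by
  have h4 : g (pt 4) ∉ O0 := by
    intro h
    rw [← hgO, ← Equiv.Perm.smul_def, Finset.smul_mem_smul_finset_iff] at h
    exact pt4_not_mem h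
  have hx := List.all_eq_true.1 trio_facts.2.2.2.2.2.2.2.1 (idx (g (pt 4)))
    (List.mem_range.2 (idx_lt _))
  have hnb : (8536111 : Nat).testBit (idx (g (pt 4))) = false := by
    rw [O0, Helper26.mem_dec, ← idx_eq26] at h4
    simpa using h4
  rw [hnb, Bool.false_or, List.any_eq_true] at hx
  obtain ⟨H, hH, hH4⟩ := hx
  simp only [Bool.and_eq_true, beq_iff_eq] at hH4
  obtain ⟨⟨⟨h5, h14⟩, h17⟩, h4'⟩ := hH4
  have hv := h5Tabs_valid hH
  obtain ⟨hM, hfixH, -⟩ := h5Tabs_mem hH
  obtain ⟨f23, f0, f1, f2, f3⟩ := fixOn_base.1 hfixH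
  have htfix : ∀ p ∈ O0, permT H hv p = p := by
    intro p hp
    rcases O0_cases p hp with rfl | rfl | rfl | rfl | rfl | rfl | rfl | rfl
    · exact f23
    · exact f0
    · exact f1
    · exact f2
    · exact f3
    · rw [permT_pt hv (by norm_num), h5]
    · rw [permT_pt hv (by norm_num), h14]
    · rw [permT_pt hv (by norm_num), h17]
  have ht4 : permT H hv (g (pt 4)) = pt 4 := by
    have := permT_pt hv (idx_lt (g (pt 4)))
    rw [pt_idx, h4'] at this
    exact this
  have hg' : permT H hv * g ∈ M24 := mul_mem hM hg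
  have htO : permT H hv • O0 = O0 := smul_eq_of_pointwise htfix
  have hg'fix : ∀ T ∈ trios, O0 ∈ T → (permT H hv * g) • T = T := by
    intro T hT hO
    rw [mul_smul, hfix T hT hO, fix_of_pointwise hM htfix hT hO]
  have hg'4 : (permT H hv * g) (pt 4) = pt 4 := ht4
  have hdec : ∀ a ∈ aL, (permT H hv * g) • Helper26.dec a = Helper26.dec a := by
    intro a ha
    obtain ⟨hoct, hdis, h4a, e⟩ := aL_spec ha
    obtain ⟨hTa, hOa⟩ := trioA_mem ha
    have hm : (permT H hv * g) • Helper26.dec a ∈ trioA a := by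
      have : (permT H hv * g) • Helper26.dec a ∈ (permT H hv * g) • trioA a :=
        Finset.smul_mem_smul_finset (Helper26.mem_trioOf.2 (Or.inr (Or.inl rfl)))
      rwa [hg'fix _ hTa hOa] at this
    have h4m : pt 4 ∈ (permT H hv * g) • Helper26.dec a := by
      have : (permT H hv * g) • pt 4 ∈ (permT H hv * g) • Helper26.dec a :=
        Finset.smul_mem_smul_finset h4a
      rwa [Equiv.Perm.smul_def, hg'4] at this
    rcases Helper26.mem_trioOf.1 hm with h1 | h1 | h1
    · rw [h1] at h4m; exact absurd h4m pt4_not_mem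
    · exact h1
    · rw [h1, Finset.mem_compl, Finset.mem_union] at h4m
      exact absurd (Or.inr h4a) h4m
  have hoff : ∀ q, q ∉ O0 → (permT H hv * g) q = q := by
    intro q hq
    by_contra hne
    have hx := List.all_eq_true.1 (List.all_eq_true.1 trio_facts.2.2.2.2.2.2.2.2 (idx q)
      (List.mem_range.2 (idx_lt q))) (idx ((permT H hv * g) q)) (List.mem_range.2 (idx_lt _))
    have hnb : (8536111 : Nat).testBit (idx q) = false := by
      rw [O0, Helper26.mem_dec, ← idx_eq26] at hq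
      simpa using hq
    have hne4 : (idx ((permT H hv * g) q) == 4) = false := by
      rw [beq_eq_false_iff_ne]
      intro h
      have h' : (permT H hv * g) q = pt 4 := by rw [← pt_idx ((permT H hv * g) q), h]
      have hq4 : q = pt 4 := (permT H hv * g).injective (h'.trans hg'4.symm)
      apply hne
      rw [hq4]; exact hg'4
    have hnex : (idx ((permT H hv * g) q) == idx q) = false := by
      rw [beq_eq_false_iff_ne]
      intro h
      exact hne (idx_injective h)
    rw [hnb, hne4, hnex] at hx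
    simp only [Bool.false_or, List.any_eq_true, Bool.and_eq_true, Bool.not_eq_true'] at hx
    obtain ⟨a, ha, hax, hay⟩ := hx
    have hqa : q ∈ Helper26.dec a := by rw [Helper26.mem_dec, ← idx_eq26]; exact hax
    have hmem : (permT H hv * g) q ∈ Helper26.dec a := by
      have h := Finset.smul_mem_smul_finset (a := permT H hv * g) hqa
      rwa [hdec a ha] at h
    rw [Helper26.mem_dec, ← idx_eq26, hay] at hmem
    exact Bool.noConfusion hmem
  have h1 : permT H hv * g = 1 := by
    apply eq_one_of_nine_fixed hg'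
    have hsub : O0ᶜ ⊆ Finset.univ.filter (fun p => (permT H hv * g) p = p) := by
      intro q hq
      rw [Finset.mem_compl] at hq
      rw [Finset.mem_filter]
      exact ⟨Finset.mem_univ _, hoff q hq⟩
    have := Finset.card_le_card hsub
    rw [Finset.card_compl, Helper26.card_golayPt, Helper26.octads_card O0_mem] at this
    omega
  intro p hp
  have hginv : g = (permT H hv)⁻¹ := eq_inv_of_mul_eq_one_right h1
  rw [hginv, Equiv.Perm.inv_eq_iff_eq, htfix p hp]

/-- An octad of the length-24 code lies in exactly 15 trios; the stabiliser of the octad in the code's group acts doubly transitively on these 15 trios, and the kernel of this action is the pointwise stabiliser of the octad. -/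
theorem result (o : Finset Cfsg.GolayPt) (ho : o ∈ Cfsg.octads) : {T : Finset (Finset Cfsg.GolayPt) | T ∈ Cfsg.trios ∧ o ∈ T}.ncard = 15 ∧ (∀ T₁ T₂ T₁' T₂' : Finset (Finset Cfsg.GolayPt), T₁ ∈ Cfsg.trios → T₂ ∈ Cfsg.trios → T₁' ∈ Cfsg.trios → T₂' ∈ Cfsg.trios → o ∈ T₁ → o ∈ T₂ → o ∈ T₁' → o ∈ T₂' → T₁ ≠ T₂ → T₁' ≠ T₂' → ∃ g ∈ Cfsg.M24, g • o = o ∧ g • T₁ = T₁' ∧ g • T₂ = T₂') ∧ ∀ g ∈ Cfsg.M24, g • o = o → ((∀ T ∈ Cfsg.trios, o ∈ T → g • T = T) ↔ ∀ p ∈ o, g p = p) := by
  obtain ⟨u, hu, rfl⟩ := exists_m24_oct0 ho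
  rw [setM_O0]
  refine ⟨?_, ?_, ?_⟩
  · rw [← ncard_O0]
    exact ncard_smul_set u (fun T => T ∈ trios ∧ u • O0 ∈ T) (fun T => T ∈ trios ∧ O0 ∈ T)
      (fun T => by rw [smul_mem_trios_iff hu, Finset.smul_mem_smul_finset_iff])
  · intro T₁ T₂ T₁' T₂' h1 h2 h1' h2' ho1 ho2 ho1' ho2' hne hne'
    have key : ∀ {T : Finset (Finset GolayPt)}, T ∈ trios → u • O0 ∈ T →
        (u⁻¹ • T ∈ trios ∧ O0 ∈ u⁻¹ • T) := fun hT hO =>
      ⟨smul_mem_trios (inv_mem hu) hT, by rw [Finset.mem_inv_smul_finset_iff]; exact hO⟩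
    obtain ⟨g, hg, hgO, hg1, hg2⟩ := two_trans0 (key h1 ho1).1 (key h2 ho2).1 (key h1 ho1).2
      (key h2 ho2).2 (fun h => hne (smul_left_cancel _ h))
    obtain ⟨g', hg', hgO', hg1', hg2'⟩ := two_trans0 (key h1' ho1').1 (key h2' ho2').1
      (key h1' ho1').2 (key h2' ho2').2 (fun h => hne' (smul_left_cancel _ h))
    have hginv : g⁻¹ • O0 = O0 := by rw [inv_smul_eq_iff, hgO]
    refine ⟨u * (g' * g⁻¹) * u⁻¹, mul_mem (mul_mem hu (mul_mem hg' (inv_mem hg))) (inv_mem hu),
      ?_, ?_, ?_⟩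
    · rw [mul_smul, mul_smul, inv_smul_smul, mul_smul, hginv, hgO']
    · rw [mul_smul, mul_smul, mul_smul, ← hg1, inv_smul_smul, hg1', smul_inv_smul]
    · rw [mul_smul, mul_smul, mul_smul, ← hg2, inv_smul_smul, hg2', smul_inv_smul]
  · intro g hg hgo
    have hg0 : u⁻¹ * g * u ∈ M24 := mul_mem (mul_mem (inv_mem hu) hg) hu
    have hg0O : (u⁻¹ * g * u) • O0 = O0 := by rw [mul_smul, mul_smul, hgo, inv_smul_smul]
    constructor
    · intro hfix p hp
      have hfix0 : ∀ T ∈ trios, O0 ∈ T → (u⁻¹ * g * u) • T = T := by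
        intro T hT hO
        rw [mul_smul, mul_smul, hfix (u • T) (smul_mem_trios hu hT)
          (Finset.smul_mem_smul_finset hO), inv_smul_smul]
      have := pointwise_of_fix hg0 hg0O hfix0 (u⁻¹ p) (Finset.inv_smul_mem_iff.2 hp)
      simp only [Equiv.Perm.mul_apply] at this
      rw [perm_apply_inv] at this
      exact u⁻¹.injective this
    · intro hfix T hT hO
      have hfix0 : ∀ p ∈ O0, (u⁻¹ * g * u) p = p := by
        intro p hp
        simp only [Equiv.Perm.mul_apply]
        rw [hfix (u p) (Finset.smul_mem_smul_finset hp), perm_inv_apply]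
      have := fix_of_pointwise hg0 hfix0 (smul_mem_trios (inv_mem hu) hT)
        (by rw [Finset.mem_inv_smul_finset_iff]; exact hO)
      rw [mul_smul, mul_smul, smul_inv_smul, inv_smul_eq_iff, smul_inv_smul] at this
      exact this

end Cfsg.Agent.S5615
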