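import Cfsg.Statements.S5619
import Cfsg.Agent.Helper93.M24Norm
import Cfsg.Agent.Helper93.M9Abs
import Cfsg.Agent.Helper91.M12Chain
import Cfsg.Agent.Helper91.DodTrans
import Cfsg.Agent.Helper91.OrbitLib2

set_option autoImplicit false
open scoped Pointwise
open Cfsg

namespace Cfsg.Agent.S5619

open Cfsg.Agent.Helper91 Cfsg.Agent.Helper93

/-- The nine elements of the group with trivial cube. -/
def cubeTabs : List (List Nat) :=
  [[0, 1, 2, 3, 4, 5, 6, 7, 8, 9, 10, 11, 12, 13, 14, 15, 16, 17, 18, 19, 20, 21, 22, 23],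
   [0, 1, 2, 4, 12, 15, 16, 7, 9, 13, 10, 22, 3, 8, 21, 19, 18, 17, 6, 5, 14, 20, 23, 11],
   [0, 1, 2, 6, 16, 19, 9, 10, 12, 3, 17, 11, 18, 4, 21, 5, 13, 7, 8, 15, 14, 20, 22, 23],
   [0, 1, 2, 8, 9, 5, 12, 17, 16, 18, 7, 23, 13, 6, 21, 15, 3, 10, 4, 19, 14, 20, 11, 22],
   [0, 1, 2, 9, 13, 15, 3, 17, 18, 6, 7, 11, 8, 16, 20, 19, 4, 10, 12, 5, 21, 14, 22, 23],
   [0, 1, 2, 12, 3, 19, 18, 7, 13, 8, 10, 23, 4, 9, 20, 5, 6, 17, 16, 15, 21, 14, 11, 22],
   [0, 1, 2, 13, 8, 19, 4, 17, 6, 16, 7, 22, 9, 18, 14, 5, 12, 10, 3, 15, 20, 21, 23, 11],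
   [0, 1, 2, 16, 18, 5, 13, 10, 3, 4, 17, 22, 6, 12, 20, 15, 8, 7, 9, 19, 21, 14, 23, 11],
   [0, 1, 2, 18, 6, 15, 8, 10, 4, 12, 17, 23, 16, 3, 14, 19, 9, 7, 13, 5, 20, 21, 11, 22]]

/-- The powers of an element of order 4 fixing the points 0, 1, 2, 3. -/
def aT : List (List Nat) :=
  [[0, 1, 2, 3, 4, 5, 6, 7, 8, 9, 10, 11, 12, 13, 14, 15, 16, 17, 18, 19, 20, 21, 22, 23],
   [0, 1, 2, 3, 6, 14, 12, 22, 13, 4, 11, 7, 9, 16, 5, 21, 18, 23, 8, 20, 15, 19, 10, 17],
   [0, 1, 2, 3, 12, 5, 9, 10, 16, 6, 7, 22, 4, 18, 14, 19, 8, 17, 13, 15, 21, 20, 11, 23],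
   [0, 1, 2, 3, 9, 14, 4, 11, 18, 12, 22, 10, 6, 8, 5, 20, 13, 23, 16, 21, 19, 15, 7, 17]]

/-- The other four elements fixing the points 0, 1, 2, 3. -/
def xT : List (List Nat) :=
  [[0, 1, 2, 3, 8, 17, 18, 15, 12, 13, 19, 21, 16, 6, 23, 10, 4, 5, 9, 7, 11, 22, 20, 14],
   [0, 1, 2, 3, 18, 23, 16, 20, 6, 8, 21, 15, 13, 4, 17, 22, 9, 14, 12, 11, 10, 7, 19, 5],
   [0, 1, 2, 3, 16, 17, 13, 19, 4, 18, 15, 20, 8, 9, 23, 7, 12, 5, 6, 10, 22, 11, 21, 14],
   [0, 1, 2, 3, 13, 23, 8, 21, 9, 16, 20, 19, 18, 12, 17, 11, 6, 14, 4, 22, 7, 10, 15, 5]]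

/-- The last two levels of the stabiliser chain of the stabiliser of the standard dodecad, with certificate
steps starting from the three fixed points 0, 1, 2. -/
def g0Levels : List Level :=
  match m12Levels.drop 3 with
  | [l4, l5] =>
    [⟨[.sub 7, .compl 7, .and 340831 16777208, .compl 340831], l4.omega, l4.beta, l4.tabs⟩, l5]
  | _ => []

/-- The first three levels, as transversal tables. -/
def lev3 : List (Nat × List (List Nat)) := (m12Levels.take 3).map (fun l => (l.beta, l.tabs))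

theorem g0_chain_ok : checkChain [sqMask] 7 7 [sqMask] g0Levels m12Fin = true := by
  decide +kernel

theorem lev3_ok : transOK [] sqMask 0 lev3 = true := by decide +kernel

/-- The test on the elements of the group: ninth power trivial implies cube trivial, and the elements
with trivial cube are listed. -/
def fTest (T : List Nat) : Bool :=
  (!(powT 9 T == idTab) || powT 3 T == idTab) && (!(powT 3 T == idTab) || cubeTabs.contains T)

theorem g0_facts : allProd fTest (g0Levels.map (fun lv => lv.tabs)) idTab = true ∧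
    cubeTabs.length = 9 := by decide +kernel

/-- The table of an element of the quaternion group. -/
def qt : QuaternionGroup 2 → List Nat
  | .a i => aT.getD i.val idTab
  | .xa i => xT.getD i.val idTab

theorem qt_ok : ∀ q : QuaternionGroup 2, tabOK 7 [sqMask] (qt q) = true := by decide +kernel

theorem qt_mul : ∀ q1 q2 : QuaternionGroup 2, comp (qt q1) (qt q2) = qt (q1 * q2) := by
  decide +kernel

theorem qt_inj : ∀ q1 q2 : QuaternionGroup 2, qt q1 = qt q2 → q1 = q2 := by decide +kernel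

theorem card_G0 : Nat.card (stabSub 7 [sqMask]) = 72 := by
  rw [chain_card [sqMask] g0Levels 7 7 [sqMask] m12Fin g0_chain_ok (fun g hg => hg.2)]
  decide +kernel

theorem g0_tab {g : Equiv.Perm GolayPt} (hg : g ∈ stabSub 7 [sqMask]) :
    ∃ T, ∃ hT : validTab T = true, fTest T = true ∧ permT T hT = g := by
  have hchain := chain_sound [sqMask] g0Levels 7 7 [sqMask] m12Fin g0_chain_ok
    (fun g hg => hg.2) g hg
  obtain ⟨T, hT, hf, e⟩ := forall_of_allProd g0_facts.1 hchain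
  exact ⟨T, hT, hf, Equiv.ext (fun p => by rw [permT_apply, e])⟩

theorem pow_eq_one_iff {T : List Nat} (hT : validTab T = true) (k : Nat) :
    permT T hT ^ k = 1 ↔ (powT k T == idTab) = true := by
  rw [← permT_powT hT k, isId_iff (validTab_powT hT k)]

theorem h9_0 (x : ↥(stabSub 7 [sqMask])) (hx : x ^ 9 = 1) : x ^ 3 = 1 := by
  obtain ⟨T, hT, hf, e⟩ := g0_tab x.2
  have h9 : permT T hT ^ 9 = 1 := by
    rw [e]
    have := congrArg Subtype.val hx
    simpa using this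
  rw [pow_eq_one_iff] at h9
  rw [fTest, Bool.and_eq_true, h9] at hf
  have h3 : (powT 3 T == idTab) = true := by simpa using hf.1
  rw [← pow_eq_one_iff hT, e] at h3
  exact Subtype.ext (by simpa using h3)

/-- The elements with trivial cube. -/
noncomputable def S0 : Finset ↥(stabSub 7 [sqMask]) := by
  classical exact (cubeTabs.toFinset.image permT').subtype (· ∈ stabSub 7 [sqMask])

theorem S0_card : S0.card ≤ 9 := by
  classical
  unfold S0
  rw [Finset.card_subtype]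
  refine (Finset.card_filter_le _ _).trans (Finset.card_image_le.trans ?_)
  rw [← g0_facts.2]
  exact List.toFinset_card_le _

theorem h3_0 (x : ↥(stabSub 7 [sqMask])) (hx : x ^ 3 = 1) : x ∈ S0 := by
  obtain ⟨T, hT, hf, e⟩ := g0_tab x.2
  have h3 : permT T hT ^ 3 = 1 := by
    rw [e]
    have := congrArg Subtype.val hx
    simpa using this
  rw [pow_eq_one_iff] at h3
  rw [fTest, Bool.and_eq_true, h3] at hf
  have hc : cubeTabs.contains T = true := by simpa using hf.2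
  classical
  unfold S0
  rw [Finset.mem_subtype, Finset.mem_image]
  exact ⟨T, List.mem_toFinset.2 (List.contains_iff_mem.1 hc), by rw [permT'_eq hT, e]⟩

/-- The quaternion group inside the group. -/
noncomputable def f0 : QuaternionGroup 2 →* ↥(stabSub 7 [sqMask]) :=
  MonoidHom.mk' (fun q => ⟨permT (qt q) (tabOK_valid (qt_ok q)), tabOK_spec (qt_ok q)⟩)
    (fun q1 q2 => Subtype.ext (by
      rw [Subgroup.coe_mul]
      show permT (qt (q1 * q2)) (tabOK_valid (qt_ok _)) =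
        permT (qt q1) (tabOK_valid (qt_ok _)) * permT (qt q2) (tabOK_valid (qt_ok _))
      rw [← permT_comp]
      exact permT_congr _ _ (qt_mul q1 q2).symm))

theorem f0_inj : Function.Injective f0 := by
  intro q1 q2 h
  have h' : permT (qt q1) (tabOK_valid (qt_ok q1)) = permT (qt q2) (tabOK_valid (qt_ok q2)) :=
    congrArg Subtype.val h
  exact qt_inj q1 q2 (permT_inj _ _ h')

theorem fix7_cases (p : GolayPt) (h : (7 : Nat).testBit (idx p) = true) :
    p = pt 0 ∨ p = pt 1 ∨ p = pt 2 := by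
  revert p; decide

/-- The stabiliser of a dodecad and three of its points is conjugate to the standard one. -/
noncomputable def conjEquiv {d : Finset GolayPt} {p q r : GolayPt} {u : Equiv.Perm GolayPt}
    (hu : u ∈ M24) (hud : u • setM sqMask = d) (hp : u (pt 0) = p) (hq : u (pt 1) = q)
    (hr : u (pt 2) = r) :
    ↥(stabSub 7 [sqMask]) ≃* ↥(MulAction.stabilizer M24 d ⊓ MulAction.stabilizer M24 p ⊓
      MulAction.stabilizer M24 q ⊓ MulAction.stabilizer M24 r) where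
  toFun g := ⟨⟨u * g.1 * u⁻¹, mul_mem (mul_mem hu g.2.1) (inv_mem hu)⟩, by
    obtain ⟨hM, hfix, hinv⟩ := mem_stabSub_single.1 g.2
    refine ⟨⟨⟨?_, ?_⟩, ?_⟩, ?_⟩
    · show (u * g.1 * u⁻¹) • d = d
      rw [← hud, mul_smul, mul_smul, inv_smul_smul, hinv]
    · show (u * g.1 * u⁻¹) p = p
      rw [← hp]
      simp only [Equiv.Perm.mul_apply]
      rw [perm_inv_apply, hfix (pt 0) (by decide)]
    · show (u * g.1 * u⁻¹) q = q
      rw [← hq]
      simp only [Equiv.Perm.mul_apply]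
      rw [perm_inv_apply, hfix (pt 1) (by decide)]
    · show (u * g.1 * u⁻¹) r = r
      rw [← hr]
      simp only [Equiv.Perm.mul_apply]
      rw [perm_inv_apply, hfix (pt 2) (by decide)]⟩
  invFun h := ⟨u⁻¹ * h.1.1 * u, by
    obtain ⟨⟨⟨h1, h2⟩, h3⟩, h4⟩ := h.2
    have h1' : h.1.1 • d = d := h1
    have h2' : h.1.1 p = p := h2
    have h3' : h.1.1 q = q := h3
    have h4' : h.1.1 r = r := h4
    refine mem_stabSub_single.2 ⟨mul_mem (mul_mem (inv_mem hu) h.1.2) hu, ?_, ?_⟩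
    · intro x hx
      rcases fix7_cases x hx with rfl | rfl | rfl
      · simp only [Equiv.Perm.mul_apply]
        rw [hp, h2', ← hp, perm_inv_apply]
      · simp only [Equiv.Perm.mul_apply]
        rw [hq, h3', ← hq, perm_inv_apply]
      · simp only [Equiv.Perm.mul_apply]
        rw [hr, h4', ← hr, perm_inv_apply]
    · rw [mul_smul, mul_smul, hud, h1', ← hud, inv_smul_smul]⟩
  left_inv g := Subtype.ext (by simp only; group)
  right_inv h := Subtype.ext (Subtype.ext (by simp only; group))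
  map_mul' a b := Subtype.ext (Subtype.ext (by
    simp only [Subgroup.coe_mul]
    group))

/-- The stabiliser of the standard dodecad is 3-transitive on it. -/
theorem exists_conj {d : Finset GolayPt} (hd : d ∈ dodecads) {p q r : GolayPt} (hp : p ∈ d)
    (hq : q ∈ d) (hr : r ∈ d) (hpq : p ≠ q) (hpr : p ≠ r) (hqr : q ≠ r) :
    ∃ u ∈ M24, u • setM sqMask = d ∧ u (pt 0) = p ∧ u (pt 1) = q ∧ u (pt 2) = r := by
  obtain ⟨u1, hu1, e1⟩ := exists_m24_dod0 hd
  have hmem : ∀ x ∈ d, sqMask.testBit (idx (u1⁻¹ x)) = true ∧ (0 : Nat).testBit (idx (u1⁻¹ x)) = false := by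
    intro x hx
    rw [← e1] at hx
    refine ⟨(mem_smul_setM_iff u1 x sqMask).1 hx, Nat.zero_testBit _⟩
  have hnd : [u1⁻¹ p, u1⁻¹ q, u1⁻¹ r].Nodup := by
    have : [u1⁻¹ p, u1⁻¹ q, u1⁻¹ r] = List.map (⇑u1⁻¹) [p, q, r] := rfl
    rw [this]
    apply List.Nodup.map u1⁻¹.injective
    simp [hpq, hpr, hqr]
  obtain ⟨u2, hu2, -, -, hinv, hys⟩ := multi_trans [] sqMask lev3 0 lev3_ok
    [u1⁻¹ p, u1⁻¹ q, u1⁻¹ r] rfl hnd (by
      intro y hy
      simp only [List.mem_cons, List.not_mem_nil, or_false] at hy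
      rcases hy with rfl | rfl | rfl
      · exact hmem p hp
      · exact hmem q hq
      · exact hmem r hr)
  have hys' : [u1⁻¹ p, u1⁻¹ q, u1⁻¹ r] = [u2 (pt 0), u2 (pt 1), u2 (pt 2)] := hys
  simp only [List.cons.injEq, and_true] at hys'
  obtain ⟨h0, h1, h2⟩ := hys'
  refine ⟨u1 * u2, mul_mem hu1 hu2, ?_, ?_, ?_, ?_⟩
  · rw [mul_smul, (smul_setM_eq_iff u2 sqMask).2 hinv, e1]
  · rw [Equiv.Perm.mul_apply, ← h0, perm_apply_inv]
  · rw [Equiv.Perm.mul_apply, ← h1, perm_apply_inv]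
  · rw [Equiv.Perm.mul_apply, ← h2, perm_apply_inv]

/-- In the group of the length-24 code, the subgroup fixing a dodecad setwise and three of its points individually (a group of order 72) has a normal Sylow 3-subgroup that is elementary abelian of order 9, and its Sylow 2-subgroups are quaternion of order 8. -/
theorem result (d : Finset Cfsg.GolayPt) (hd : d ∈ Cfsg.dodecads) (p q r : Cfsg.GolayPt) (hp : p ∈ d) (hq : q ∈ d) (hr : r ∈ d) (hpq : p ≠ q) (hpr : p ≠ r) (hqr : q ≠ r) : (∀ Q : Sylow 3 ↥(MulAction.stabilizer Cfsg.M24 d ⊓ MulAction.stabilizer Cfsg.M24 p ⊓ MulAction.stabilizer Cfsg.M24 q ⊓ MulAction.stabilizer Cfsg.M24 r), (Q : Subgroup ↥(MulAction.stabilizer Cfsg.M24 d ⊓ MulAction.stabilizer Cfsg.M24 p ⊓ MulAction.stabilizer Cfsg.M24 q ⊓ MulAction.stabilizer Cfsg.M24 r)).Normal ∧ Nat.card ↥Q = 9 ∧ ∀ x ∈ (Q : Subgroup ↥(MulAction.stabilizer Cfsg.M24 d ⊓ MulAction.stabilizer Cfsg.M24 p ⊓ MulAction.stabilizer Cfsg.M24 q ⊓ MulAction.stabilizer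 Cfsg.M24 r)), x ^ 3 = 1) ∧ ∀ P : Sylow 2 ↥(MulAction.stabilizer Cfsg.M24 d ⊓ MulAction.stabilizer Cfsg.M24 p ⊓ MulAction.stabilizer Cfsg.M24 q ⊓ MulAction.stabilizer Cfsg.M24 r), Nonempty (↥P ≃* QuaternionGroup 2) := by
  obtain ⟨u, hu, hud, hp', hq', hr'⟩ := exists_conj hd hp hq hr hpq hpr hqr
  exact m9_transfer (conjEquiv hu hud hp' hq' hr') card_G0 h9_0 S0 S0_card h3_0 f0 f0_inj

end Cfsg.Agent.S5619
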