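import Cfsg.Statements.S5620
import Cfsg.Agent.Helper91.Mathieu

set_option autoImplicit false
open scoped Pointwise
open Cfsg

namespace Cfsg.Agent.S5620

open Cfsg.Agent.Helper91

/-- The table of `x ↦ -1/x`. -/
def gC : List Nat :=
  [23, 22, 11, 15, 17, 9, 19, 13, 20, 5, 16, 2, 21, 7, 18, 3, 10, 4, 14, 6, 8, 12, 1, 0]

/-- An element of `M12` fixing the extra point and moving every point of the dodecad of squares. -/
def xm : List Nat :=
  [3, 4, 13, 8, 18, 22, 1, 21, 16, 2, 14, 11, 6, 12, 19, 20, 0, 15, 9, 7, 10, 17, 5, 23]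

theorem gC_ok : tabOK 0 [] gC = true ∧ pullMask gC sqMask = ALL ^^^ sqMask ∧ gC.getD 0 0 = 23 := by
  decide +kernel

theorem xm_ok : tabOK 8388608 [sqMask] xm = true ∧
    (List.range 24).all (fun i => !sqMask.testBit i || xm.getD i 0 != i) = true := by
  decide +kernel

theorem conj_mem_iff {G : Type*} [Group G] (H : Subgroup G) (g x : G) :
    x ∈ MulAut.conj g • H ↔ g⁻¹ * x * g ∈ H := by
  rw [Subgroup.mem_pointwise_smul_iff_inv_smul_mem]
  simp [MulAut.smul_def]

theorem perm_apply_inv (f : Equiv.Perm GolayPt) (x : GolayPt) : f (f⁻¹ x) = x :=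
  Equiv.apply_symm_apply f x

theorem mem_M11_iff (x : Equiv.Perm GolayPt) :
    x ∈ Spor.M11 ↔ x ∈ M24 ∧ Inv x sqMask ∧ x (some 0) = some 0 := by
  constructor
  · rintro ⟨⟨h1, h2⟩, h3⟩
    exact ⟨h1, (mem_stabilizer_squareDodecad x).1 h2, h3⟩
  · rintro ⟨h1, h2, h3⟩
    exact ⟨⟨h1, (mem_stabilizer_squareDodecad x).2 h2⟩, h3⟩

theorem mem_M11'_iff (x : Equiv.Perm GolayPt) :
    x ∈ Spor.M12 ⊓ MulAction.stabilizer (Equiv.Perm GolayPt) (none : GolayPt) ↔
      x ∈ M24 ∧ Inv x sqMask ∧ x none = none := by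
  constructor
  · rintro ⟨⟨h1, h2⟩, h3⟩
    exact ⟨h1, (mem_stabilizer_squareDodecad x).1 h2, h3⟩
  · rintro ⟨h1, h2, h3⟩
    exact ⟨⟨h1, (mem_stabilizer_squareDodecad x).2 h2⟩, h3⟩

/-- The permutation `x ↦ -1/x`. -/
noncomputable def gP : Equiv.Perm GolayPt := permT gC (tabOK_valid gC_ok.1)

theorem gP_mem : gP ∈ M24 := (tabOK_spec gC_ok.1).1

theorem gP_zero : gP (some 0) = none := by
  rw [gP, permT_apply]; decide

theorem gP_bit (p : GolayPt) : sqMask.testBit (idx (gP p)) = !sqMask.testBit (idx p) := by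
  have h := testBit_pullMask gC sqMask (idx p)
  rw [gC_ok.2.1, validTab_length (tabOK_valid gC_ok.1), Nat.testBit_xor, testBit_ALL_idx] at h
  rw [gP, permT_apply, idx_tabFun (tabOK_valid gC_ok.1)]
  have hlt : decide (idx p < 24) = true := decide_eq_true (idx_lt p)
  rw [hlt, Bool.true_and] at h
  rw [← h]; simp

theorem gP_smul : gP • Spor.squareDodecad = Finset.univ \ Spor.squareDodecad := by
  ext q
  rw [Finset.mem_smul_finset, Finset.mem_sdiff]
  constructor
  · rintro ⟨p, hp, rfl⟩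
    refine ⟨Finset.mem_univ _, ?_⟩
    rw [mem_squareDodecad] at hp ⊢
    rw [Equiv.Perm.smul_def, gP_bit, hp]; simp
  · rintro ⟨-, hq⟩
    refine ⟨gP⁻¹ q, ?_, ?_⟩
    · rw [mem_squareDodecad] at hq ⊢
      have := gP_bit (gP⁻¹ q)
      rw [perm_apply_inv] at this
      cases h : sqMask.testBit (idx (gP⁻¹ q))
      · rw [h] at this; exact absurd this hq
      · rfl
    · rw [Equiv.Perm.smul_def, perm_apply_inv]

theorem inv_conj_iff (x : Equiv.Perm GolayPt) : Inv (gP⁻¹ * x * gP) sqMask ↔ Inv x sqMask := by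
  constructor
  · intro h p
    have h1 := h (gP⁻¹ p)
    simp only [Equiv.Perm.mul_apply, perm_apply_inv] at h1
    have h2 := gP_bit (gP⁻¹ (x p))
    have h3 := gP_bit (gP⁻¹ p)
    rw [perm_apply_inv] at h2 h3
    rw [h2, h3, h1]
  · intro h p
    simp only [Equiv.Perm.mul_apply]
    have h1 := h (gP p)
    have h2 := gP_bit (gP⁻¹ (x (gP p)))
    rw [perm_apply_inv] at h2
    have h3 := gP_bit p
    rw [h1, h3] at h2
    cases ha : sqMask.testBit (idx (gP⁻¹ (x (gP p)))) <;> cases hb : sqMask.testBit (idx p) <;>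
      rw [ha, hb] at h2 <;> simp at h2 ⊢

theorem conj_gP : MulAut.conj gP • Spor.M11 =
    Spor.M12 ⊓ MulAction.stabilizer (Equiv.Perm GolayPt) (none : GolayPt) := by
  ext x
  rw [conj_mem_iff, mem_M11_iff, mem_M11'_iff, inv_conj_iff]
  have e1 : gP⁻¹ * x * gP ∈ M24 ↔ x ∈ M24 := by
    constructor
    · intro h
      have : x = gP * (gP⁻¹ * x * gP) * gP⁻¹ := by group
      rw [this]
      exact mul_mem (mul_mem gP_mem h) (inv_mem gP_mem)
    · intro h
      exact mul_mem (mul_mem (inv_mem gP_mem) h) gP_mem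
  have e2 : (gP⁻¹ * x * gP) (some 0) = some 0 ↔ x none = none := by
    rw [Equiv.Perm.mul_apply, Equiv.Perm.mul_apply, gP_zero, Equiv.Perm.inv_eq_iff_eq, gP_zero]
  rw [e1, e2]

/-- Inside the automorphism group of the length-24 code, the stabiliser in the dodecad group (permutations of the code's group mapping the dodecad of squares onto itself) of a point outside that dodecad is isomorphic to the point stabiliser `M11`, is not conjugate to it in the dodecad group, and is conjugate to it by an element of the code's group interchanging the dodecad with its complement. -/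
theorem result : Nonempty (↥(Cfsg.Spor.M12 ⊓ MulAction.stabilizer (Equiv.Perm Cfsg.GolayPt) (none : Cfsg.GolayPt)) ≃* ↥Cfsg.Spor.M11) ∧ (¬ ∃ k ∈ Cfsg.Spor.M12, MulAut.conj k • Cfsg.Spor.M11 = Cfsg.Spor.M12 ⊓ MulAction.stabilizer (Equiv.Perm Cfsg.GolayPt) (none : Cfsg.GolayPt)) ∧ ∃ g ∈ Cfsg.M24, g • Cfsg.Spor.squareDodecad = Finset.univ \ Cfsg.Spor.squareDodecad ∧ MulAut.conj g • Cfsg.Spor.M11 = Cfsg.Spor.M12 ⊓ MulAction.stabilizer (Equiv.Perm Cfsg.GolayPt) (none : Cfsg.GolayPt) := by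
  refine ⟨?_, ?_, gP, gP_mem, gP_smul, conj_gP⟩
  · exact ⟨((Subgroup.equivSMul (MulAut.conj gP) Spor.M11).trans
      (MulEquiv.subgroupCongr conj_gP)).symm⟩
  · rintro ⟨k, hk, hconj⟩
    obtain ⟨hx, hmove⟩ := xm_ok
    obtain ⟨h24, hfix, hinv⟩ := tabOK_spec hx
    have hxmem : permT xm (tabOK_valid hx) ∈
        Spor.M12 ⊓ MulAction.stabilizer (Equiv.Perm GolayPt) (none : GolayPt) := by
      rw [mem_M11'_iff]
      exact ⟨h24, hinv _ (List.mem_singleton.2 rfl), hfix none (by decide)⟩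
    rw [← hconj, conj_mem_iff, mem_M11_iff] at hxmem
    have hfixq : permT xm (tabOK_valid hx) (k (some 0)) = k (some 0) := by
      have := hxmem.2.2
      rw [Equiv.Perm.mul_apply, Equiv.Perm.mul_apply, Equiv.Perm.inv_eq_iff_eq] at this
      exact this
    have hkd : sqMask.testBit (idx (k (some 0))) = true := by
      have hk' : Inv k sqMask := by
        rw [Spor.M12, Subgroup.mem_inf, mem_stabilizer_squareDodecad] at hk
        exact hk.2
      rw [hk' (some 0)]; decide
    rw [List.all_eq_true] at hmove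
    have := hmove (idx (k (some 0))) (List.mem_range.2 (idx_lt _))
    rw [hkd] at this
    simp only [Bool.not_true, Bool.false_or, bne_iff_ne, ne_eq] at this
    apply this
    have := congrArg idx hfixq
    rwa [permT_apply, idx_tabFun (tabOK_valid hx)] at this

end Cfsg.Agent.S5620
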