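import Cfsg.Statements.S5628
import Cfsg.Agent.Helper93.Plane4Iso

set_option autoImplicit false
open Cfsg

namespace Cfsg.Agent.S5628

open scoped Pointwise

/-- In a projective plane of order 4 (a Steiner system S(2, 5, 21)), every permutation of the six points of a hyperoval (a 6-set met by no line in more than two points) is the restriction of exactly one automorphism of the plane. In particular the stabiliser of a hyperoval in the automorphism group is isomorphic to the symmetric group of degree 6 acting faithfully on the hyperoval. -/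
theorem result {α : Type*} [Fintype α] [DecidableEq α] (hα : Fintype.card α = 21) (L : Set (Finset α)) (hL : Cfsg.IsSteinerSystem 2 5 L) (H : Finset α) (hH : (H.card = 6 ∧ ∀ l ∈ L, (l ∩ H).card ≤ 2)) (σ : Equiv.Perm ↥H) : ∃! g : Equiv.Perm α, g ∈ Cfsg.setSystemAut L ∧ ∀ p : ↥H, g p = σ p := by
  have h : Cfsg.Agent.Helper93.HO L H := ⟨hα, hL, hH.2, hH.1⟩
  let e : α → α := fun a => if ha : a ∈ H then (σ ⟨a, ha⟩ : α) else a
  have he : ∀ a (ha : a ∈ H), e a = (σ ⟨a, ha⟩ : α) := by
    intro a ha
    simp only [e, dif_pos ha]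
  have heH : ∀ a ∈ H, e a ∈ H := by
    intro a ha
    rw [he a ha]
    exact (σ ⟨a, ha⟩).2
  have hinj : Set.InjOn e H := by
    intro a ha b hb hab
    rw [he a ha, he b hb] at hab
    have := σ.injective (Subtype.ext hab)
    exact congrArg Subtype.val this
  have hiso := Cfsg.Agent.Helper93.extMap_iso h h e heH hinj
  have hsmul : ∀ g : Equiv.Perm α, g • L = (fun b : Finset α => b.image g) '' L := by
    intro g
    ext b
    constructor
    · rintro ⟨l, hl, rfl⟩
      exact ⟨l, hl, rfl⟩
    · rintro ⟨l, hl, rfl⟩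
      exact ⟨l, hl, rfl⟩
  refine ⟨Equiv.ofBijective _ (Cfsg.Agent.Helper93.extMap_bijective h h e heH hinj),
    ⟨?_, ?_⟩, ?_⟩
  · rw [Cfsg.setSystemAut, MulAction.mem_stabilizer_iff, hsmul]
    exact hiso
  · intro p
    show Cfsg.Agent.Helper93.extMap h h e heH hinj p = σ p
    rw [Cfsg.Agent.Helper93.extMap_mem h h e heH hinj p.2, he p p.2]
  · rintro g' ⟨hg'L, hg'σ⟩
    apply Equiv.ext
    intro x
    show g' x = Cfsg.Agent.Helper93.extMap h h e heH hinj x
    by_cases hx : x ∈ H
    · rw [Cfsg.Agent.Helper93.extMap_mem h h e heH hinj hx, he x hx]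
      exact hg'σ ⟨x, hx⟩
    · have sx := Cfsg.Agent.Helper93.extMap_spec h h e heH hinj hx
      have hg'x : g' x ∉ H := by
        intro hmem
        have h1 := hg'σ (σ.symm ⟨g' x, hmem⟩)
        rw [Equiv.apply_symm_apply] at h1
        have hxp : x = (σ.symm ⟨g' x, hmem⟩ : α) := g'.injective h1.symm
        exact hx (hxp ▸ (σ.symm ⟨g' x, hmem⟩).2)
      apply Cfsg.Agent.Helper93.corr_unique h h e heH hinj hx hg'x ?_ sx.2
      intro a b hs
      obtain ⟨ha, hb, hab, l, hl, hal, hbl, hxl⟩ := hs
      have hea : e a = g' a := by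
        rw [he a ha]; exact (hg'σ ⟨a, ha⟩).symm
      have heb : e b = g' b := by
        rw [he b hb]; exact (hg'σ ⟨b, hb⟩).symm
      refine ⟨heH a ha, heH b hb, fun heq => hab (hinj ha hb heq), l.image g', ?_, ?_, ?_, ?_⟩
      · rw [Cfsg.setSystemAut, MulAction.mem_stabilizer_iff, hsmul] at hg'L
        rw [← hg'L]
        exact ⟨l, hl, rfl⟩
      · rw [hea]; exact Finset.mem_image_of_mem _ hal
      · rw [heb]; exact Finset.mem_image_of_mem _ hbl
      · exact Finset.mem_image_of_mem _ hxl

end Cfsg.Agent.S5628
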