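import Cfsg.Statements.S5632
import Cfsg.Agent.Helper93.Transv

set_option autoImplicit false
open Cfsg

namespace Cfsg.Agent.S5632

/-- For a finite field F and subspaces 0 < W < U of F^n with dim W + dim U = n, the elements of SL_n(F) stabilising both W and U form a subgroup that is not maximal in SL_n(F): some subgroup lies strictly between it and SL_n(F). -/
theorem result {F : Type*} [Field F] [Fintype F] (n : ℕ) (W U : Submodule F (Fin n → F)) (hW0 : W ≠ ⊥) (hWU : W < U) (hdim : Module.finrank F W + Module.finrank F U = n) : ∃ K : Subgroup (Matrix.GeneralLinearGroup (Fin n) F), Cfsg.Geo.subspaceStabilizer W ⊓ Cfsg.Geo.subspaceStabilizer U ⊓ Cfsg.Geo.specialLinear (Fin n) F < K ∧ K < Cfsg.Geo.specialLinear (Fin n) F := by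
  have hW1 : W ≠ ⊤ := ne_top_of_lt hWU
  have hUW : ¬ U ≤ W := not_le_of_gt hWU
  have hU1 : U ≠ ⊤ := by
    intro hU
    have hpos : 0 < Module.finrank F W := by
      rw [Module.finrank_pos_iff_exists_ne_zero]
      obtain ⟨w, hw, hw0⟩ := (Submodule.ne_bot_iff W).mp hW0
      exact ⟨⟨w, hw⟩, fun h => hw0 (congrArg Subtype.val h)⟩
    rw [hU, finrank_top, Module.finrank_fin_fun] at hdim
    omega
  obtain ⟨h1, h2⟩ := Cfsg.Agent.Helper93.stab_pair_lt_stab_lt W U hW0 hW1 hU1 hUW
  exact ⟨_, h1, h2⟩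

end Cfsg.Agent.S5632
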