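import Cfsg.Statements.S5633
import Cfsg.Agent.Helper93.Transv

set_option autoImplicit false
open Cfsg

namespace Cfsg.Agent.S5633

/-- For a finite field F and complementary non-zero subspaces W ⊕ U = F^n with dim W < dim U, the elements of SL_n(F) stabilising both W and U form a subgroup that is not maximal in SL_n(F): some subgroup lies strictly between it and SL_n(F). -/
theorem result {F : Type*} [Field F] [Fintype F] (n : ℕ) (W U : Submodule F (Fin n → F)) (hW0 : W ≠ ⊥) (hWU : W ⊓ U = ⊥) (hWU' : W ⊔ U = ⊤) (hdim : Module.finrank F W < Module.finrank F U) : ∃ K : Subgroup (Matrix.GeneralLinearGroup (Fin n) F), Cfsg.Geo.subspaceStabilizer W ⊓ Cfsg.Geo.subspaceStabilizer U ⊓ Cfsg.Geo.specialLinear (Fin n) F < K ∧ K < Cfsg.Geo.specialLinear (Fin n) F := by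
  have hW1 : W ≠ ⊤ := by
    intro hW
    have := Submodule.finrank_le U
    rw [hW, finrank_top] at hdim
    omega
  have hUW : ¬ U ≤ W := by
    intro hle
    have := Submodule.finrank_mono hle
    omega
  have hU1 : U ≠ ⊤ := by
    intro hU
    rw [hU, inf_top_eq] at hWU
    exact hW0 hWU
  obtain ⟨h1, h2⟩ := Cfsg.Agent.Helper93.stab_pair_lt_stab_lt W U hW0 hW1 hU1 hUW
  exact ⟨_, h1, h2⟩

end Cfsg.Agent.S5633
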