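import Cfsg.Statements.S5642
import Cfsg.Agent.Helper98.SympMax

set_option autoImplicit false
open Cfsg

namespace Cfsg.Agent.S5642

/-- For a finite field F and n ≥ 13, let f be a non-degenerate symplectic form on F^n (so n is even). Then the elements of SL_n(F) that are similarities of f (f(gu, gv) = c f(u, v) for a non-zero scalar c depending on g) form a maximal subgroup of SL_n(F). -/
theorem result {F : Type*} [Field F] [Fintype F] (n : ℕ) (hn : 13 ≤ n) (f : (Fin n → F) → (Fin n → F) → F) (hf : Cfsg.Geo.IsSymplecticForm f) : Cfsg.Geo.IsMaximalIn (Cfsg.Geo.specialLinear (Fin n) F) (Cfsg.Geo.similarityGroup f ⊓ Cfsg.Geo.specialLinear (Fin n) F) := by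
  have hB : Cfsg.Agent.Helper98.IsSF (LinearMap.mk₂ F f hf.bilinear.add_left
      (fun c x v => hf.bilinear.smul_left c x v) hf.bilinear.add_right
      (fun c v x => hf.bilinear.smul_right c v x)) :=
    ⟨hf.skew, hf.alternating, fun v hv => (hf.nondegenerate v hv).1⟩
  exact Cfsg.Agent.Helper98.symp_similarity_max hB (⟨0, by omega⟩ : Fin n) ⟨1, by omega⟩
    ⟨2, by omega⟩ (by simp [Fin.ext_iff]) (by simp [Fin.ext_iff]) (by simp [Fin.ext_iff])

end Cfsg.Agent.S5642
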