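import Cfsg.Statements.S5648
import Cfsg.Agent.Helper94.Quad
import Cfsg.Agent.Helper94.Symp

set_option autoImplicit false
open Cfsg

namespace Cfsg.Agent.S5648

open Cfsg.Agent.Helper94 in
/-- Indicator (in `F`) of "`v` is not orthogonal to `W`". -/
noncomputable def ind {F : Type*} [Field F] {m : ℕ} (W : Submodule F (Fin m ⊕ Fin m → F))
    (v : Fin m ⊕ Fin m → F) : F :=
  haveI := Classical.propDecidable (∀ w ∈ W, sympB m F v w = 0)
  if ∀ w ∈ W, sympB m F v w = 0 then 0 else 1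

/-- The quadratic form counting the members of the decomposition not orthogonal to `v`. -/
noncomputable def Qd {F : Type*} [Field F] {m t : ℕ} (D : Fin t → Submodule F (Fin m ⊕ Fin m → F))
    (v : Fin m ⊕ Fin m → F) : F :=
  ∑ j, ind (D j) v

open Cfsg.Agent.Helper94 in
theorem ind_of_orth {F : Type*} [Field F] {m : ℕ} {W : Submodule F (Fin m ⊕ Fin m → F)}
    {v : Fin m ⊕ Fin m → F} (h : ∀ w ∈ W, sympB m F v w = 0) : ind W v = 0 := by
  unfold ind
  exact if_pos h

open Cfsg.Agent.Helper94 in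
theorem ind_congr {F : Type*} [Field F] {m : ℕ} {W W' : Submodule F (Fin m ⊕ Fin m → F)}
    {v v' : Fin m ⊕ Fin m → F}
    (h : (∀ w ∈ W, sympB m F v w = 0) ↔ (∀ w ∈ W', sympB m F v' w = 0)) : ind W v = ind W' v' := by
  unfold ind
  by_cases h' : ∀ w ∈ W, sympB m F v w = 0
  · rw [if_pos h', if_pos (h.mp h')]
  · rw [if_neg h', if_neg (fun hh => h' (h.mpr hh))]

open Cfsg.Agent.Helper94 in
theorem ind_add_orth {F : Type*} [Field F] {m : ℕ} {W : Submodule F (Fin m ⊕ Fin m → F)}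
    {v u : Fin m ⊕ Fin m → F} (h : ∀ w ∈ W, sympB m F u w = 0) : ind W (v + u) = ind W v := by
  have hiff : (∀ w ∈ W, sympB m F (v + u) w = 0) ↔ (∀ w ∈ W, sympB m F v w = 0) :=
    forall₂_congr (fun w hw => by rw [map_add, LinearMap.add_apply, h w hw, add_zero])
  exact ind_congr hiff

open Cfsg.Agent.Helper94 in
theorem ind_eq {F : Type*} [Field F] {m : ℕ} (h01 : ∀ x : F, x = 0 ∨ x = 1) (h2 : (2 : F) = 0)
    {W : Submodule F (Fin m ⊕ Fin m → F)} (a b : Fin m ⊕ Fin m → F)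
    (hW : W = Submodule.span F {a, b}) (v : Fin m ⊕ Fin m → F) :
    ind W v = sympB m F v a + sympB m F v b + sympB m F v a * sympB m F v b := by
  have haW : a ∈ W := by rw [hW]; exact Submodule.subset_span (by simp)
  have hbW : b ∈ W := by rw [hW]; exact Submodule.subset_span (by simp)
  by_cases h : ∀ w ∈ W, sympB m F v w = 0
  · rw [ind_of_orth h, h a haW, h b hbW]
    ring
  · have hne : ¬ (sympB m F v a = 0 ∧ sympB m F v b = 0) := by
      rintro ⟨ha, hb⟩
      apply h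
      intro w hw
      rw [hW] at hw
      obtain ⟨α, β, rfl⟩ := Submodule.mem_span_pair.mp hw
      rw [map_add, map_smul, map_smul, ha, hb]
      simp
    have h1 : ind W v = 1 := by
      unfold ind
      exact if_neg h
    rw [h1]
    rcases h01 (sympB m F v a) with ha | ha <;> rcases h01 (sympB m F v b) with hb | hb
    · exact absurd ⟨ha, hb⟩ hne
    · rw [ha, hb]; ring
    · rw [ha, hb]; ring
    · rw [ha, hb]; linear_combination -h2

/-- Over the field with 2 elements and for m ≥ 7, let D be a decomposition of F^(2m) into t pairwise orthogonal non-degenerate 2-dimensional subspaces for the standard alternating form (t = m ≥ 2). Then the elements of Sp_2m(2) permuting the members of D form a subgroup that is not maximal: some subgroup lies strictly between it and Sp_2m(2). -/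
theorem result {F : Type*} [Field F] [Fintype F] (m : ℕ) (hm : 7 ≤ m) (hq : Fintype.card F = 2) {t : ℕ} (D : Fin t → Submodule F (Fin m ⊕ Fin m → F)) (hD : Cfsg.Geo.IsNondegenerateMDecomposition (Cfsg.sympForm m F) 2 D) : ∃ K : Subgroup (Matrix.GeneralLinearGroup (Fin m ⊕ Fin m) F), Cfsg.Geo.decompositionStabilizer D ⊓ Cfsg.spGL m F < K ∧ K < Cfsg.spGL m F := by
  classical
  have h2 : (2 : F) = 0 := by
    have := Nat.cast_card_eq_zero F
    rw [hq] at this
    exact_mod_cast this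
  have h01 : ∀ x : F, x = 0 ∨ x = 1 := by
    intro x
    by_cases hx : x = 0
    · exact Or.inl hx
    · right
      have := FiniteField.pow_card_sub_one_eq_one x hx
      rw [hq] at this
      simpa using this
  have hneg : (-1 : F) = 1 := by linear_combination -h2
  obtain ⟨hdec, hnd, horth⟩ := hD
  have hcard := Cfsg.Agent.Helper94.card_eq_of_decomposition D hdec
  have ht3 : 3 ≤ t := by
    simp only [Fintype.card_sum, Fintype.card_fin] at hcard
    omega
  obtain ⟨i₀, i₁, i₂, n01, n02, n12⟩ : ∃ i₀ i₁ i₂ : Fin t, i₀ ≠ i₁ ∧ i₀ ≠ i₂ ∧ i₁ ≠ i₂ :=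
    ⟨⟨0, by omega⟩, ⟨1, by omega⟩, ⟨2, by omega⟩, by simp [Fin.ext_iff], by simp [Fin.ext_iff],
      by simp [Fin.ext_iff]⟩
  obtain ⟨a₀, b₀, ha₀, hb₀, hab₀, hs₀⟩ :=
    Cfsg.Agent.Helper94.exists_symp_pair (D i₀) (hdec.finrank_eq i₀) (hnd i₀)
  obtain ⟨a₁, b₁, ha₁, hb₁, hab₁, hs₁⟩ :=
    Cfsg.Agent.Helper94.exists_symp_pair (D i₁) (hdec.finrank_eq i₁) (hnd i₁)
  obtain ⟨a₂, b₂, ha₂, hb₂, hab₂, hs₂⟩ :=
    Cfsg.Agent.Helper94.exists_symp_pair (D i₂) (hdec.finrank_eq i₂) (hnd i₂)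
  have B_orth : ∀ i j : Fin t, i ≠ j → ∀ u ∈ D i, ∀ v ∈ D j, Cfsg.Agent.Helper94.sympB m F u v = 0 := by
    intro i j h u hu v hv
    rw [Cfsg.Agent.Helper94.sympB_apply]
    exact horth i j h u hu v hv
  have B_self : ∀ v : Fin m ⊕ Fin m → F, Cfsg.Agent.Helper94.sympB m F v v = 0 := by
    intro v
    rw [Cfsg.Agent.Helper94.sympB_apply]
    exact Cfsg.Agent.Helper94.symp_self v
  have B_swap : ∀ u v : Fin m ⊕ Fin m → F, Cfsg.Agent.Helper94.sympB m F u v = 1 →
      Cfsg.Agent.Helper94.sympB m F v u = 1 := by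
    intro u v h
    rw [Cfsg.Agent.Helper94.sympB_apply] at h ⊢
    rw [Cfsg.Agent.Helper94.symp_skew, h]
    exact hneg
  have Bab₀ : Cfsg.Agent.Helper94.sympB m F a₀ b₀ = 1 := by rw [Cfsg.Agent.Helper94.sympB_apply]; exact hab₀
  have Bab₁ : Cfsg.Agent.Helper94.sympB m F a₁ b₁ = 1 := by rw [Cfsg.Agent.Helper94.sympB_apply]; exact hab₁
  have Bab₂ : Cfsg.Agent.Helper94.sympB m F a₂ b₂ = 1 := by rw [Cfsg.Agent.Helper94.sympB_apply]; exact hab₂
  have Bba₀ := B_swap _ _ Bab₀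
  have Bba₁ := B_swap _ _ Bab₁
  have Bba₂ := B_swap _ _ Bab₂
  refine ⟨Cfsg.isometryGroup F (Qd D) ⊓ Cfsg.spGL m F, ?_, ?_⟩
  · rw [SetLike.lt_iff_le_and_exists]
    constructor
    · rintro g ⟨⟨σ, hσ⟩, hgS⟩
      refine ⟨?_, hgS⟩
      intro v _
      change Qd D (Matrix.mulVec (g : Matrix (Fin m ⊕ Fin m) (Fin m ⊕ Fin m) F) v) = Qd D v
      unfold Qd
      rw [← Equiv.sum_comp σ (fun j => ind (D j) (Matrix.mulVec (g : Matrix (Fin m ⊕ Fin m) (Fin m ⊕ Fin m) F) v))]
      refine Finset.sum_congr rfl (fun j _ => ?_)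
      have hiff : (∀ w ∈ D (σ j), Cfsg.Agent.Helper94.sympB m F
          (Matrix.mulVec (g : Matrix (Fin m ⊕ Fin m) (Fin m ⊕ Fin m) F) v) w = 0) ↔
          (∀ w ∈ D j, Cfsg.Agent.Helper94.sympB m F v w = 0) := by
        constructor
        · intro h w hw
          have := h (Matrix.mulVec (g : Matrix (Fin m ⊕ Fin m) (Fin m ⊕ Fin m) F) w)
            (by rw [← hσ j]; exact ⟨w, hw, Matrix.toLin'_apply _ _⟩)
          rwa [Cfsg.Agent.Helper94.sympB_apply, (Cfsg.Agent.Helper94.mem_spGL_iff g).mp hgS v w,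
            ← Cfsg.Agent.Helper94.sympB_apply] at this
        · intro h w hw
          rw [← hσ j] at hw
          obtain ⟨w', hw', rfl⟩ := hw
          rw [Matrix.toLin'_apply, Cfsg.Agent.Helper94.sympB_apply,
            (Cfsg.Agent.Helper94.mem_spGL_iff g).mp hgS v w', ← Cfsg.Agent.Helper94.sympB_apply]
          exact h w' hw'
      exact ind_congr hiff
    · refine ⟨Cfsg.Agent.Helper94.stGL (a₀ + a₁ + a₂) 1, ⟨?_, Cfsg.Agent.Helper94.stGL_mem _ _⟩, ?_⟩
      · intro v _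
        change Qd D (Matrix.mulVec ((Cfsg.Agent.Helper94.stGL (a₀ + a₁ + a₂) 1 :
          Matrix.GeneralLinearGroup (Fin m ⊕ Fin m) F) : Matrix (Fin m ⊕ Fin m) (Fin m ⊕ Fin m) F) v) = Qd D v
        rw [Cfsg.Agent.Helper94.stGL_mulVec, one_mul]
        rcases h01 (sympForm m F v (a₀ + a₁ + a₂)) with hc | hc
        · rw [hc, zero_smul, add_zero]
        · rw [hc, one_smul]
          have hsum : Cfsg.Agent.Helper94.sympB m F v a₀ + Cfsg.Agent.Helper94.sympB m F v a₁ +
              Cfsg.Agent.Helper94.sympB m F v a₂ = 1 := by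
            rw [← Cfsg.Agent.Helper94.sympB_apply, map_add, map_add] at hc
            exact hc
          have key : ∀ j, ind (D j) (v + (a₀ + a₁ + a₂)) = ind (D j) v +
              ((if j = i₀ then 1 + Cfsg.Agent.Helper94.sympB m F v a₀ else 0) +
               (if j = i₁ then 1 + Cfsg.Agent.Helper94.sympB m F v a₁ else 0) +
               (if j = i₂ then 1 + Cfsg.Agent.Helper94.sympB m F v a₂ else 0)) := by
            intro j
            by_cases hj0 : j = i₀
            · rw [hj0, if_pos rfl, if_neg n01, if_neg n02, add_zero, add_zero, ind_eq h01 h2 a₀ b₀ hs₀,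
                ind_eq h01 h2 a₀ b₀ hs₀]
              simp only [map_add, LinearMap.add_apply, B_self, Bab₀,
                B_orth i₁ i₀ n01.symm a₁ ha₁ a₀ ha₀, B_orth i₂ i₀ n02.symm a₂ ha₂ a₀ ha₀,
                B_orth i₁ i₀ n01.symm a₁ ha₁ b₀ hb₀, B_orth i₂ i₀ n02.symm a₂ ha₂ b₀ hb₀]
              ring
            · by_cases hj1 : j = i₁
              · rw [hj1, if_neg n01.symm, if_pos rfl, if_neg n12, zero_add, add_zero,
                  ind_eq h01 h2 a₁ b₁ hs₁, ind_eq h01 h2 a₁ b₁ hs₁]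
                simp only [map_add, LinearMap.add_apply, B_self, Bab₁,
                  B_orth i₀ i₁ n01 a₀ ha₀ a₁ ha₁, B_orth i₂ i₁ n12.symm a₂ ha₂ a₁ ha₁,
                  B_orth i₀ i₁ n01 a₀ ha₀ b₁ hb₁, B_orth i₂ i₁ n12.symm a₂ ha₂ b₁ hb₁]
                ring
              · by_cases hj2 : j = i₂
                · rw [hj2, if_neg n02.symm, if_neg n12.symm, if_pos rfl, zero_add, zero_add,
                    ind_eq h01 h2 a₂ b₂ hs₂, ind_eq h01 h2 a₂ b₂ hs₂]
                  simp only [map_add, LinearMap.add_apply, B_self, Bab₂,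
                    B_orth i₀ i₂ n02 a₀ ha₀ a₂ ha₂, B_orth i₁ i₂ n12 a₁ ha₁ a₂ ha₂,
                    B_orth i₀ i₂ n02 a₀ ha₀ b₂ hb₂, B_orth i₁ i₂ n12 a₁ ha₁ b₂ hb₂]
                  ring
                · rw [if_neg hj0, if_neg hj1, if_neg hj2, add_zero, add_zero, add_zero]
                  exact ind_add_orth (fun w hw => by
                    simp only [map_add, LinearMap.add_apply,
                      B_orth i₀ j (Ne.symm hj0) a₀ ha₀ w hw, B_orth i₁ j (Ne.symm hj1) a₁ ha₁ w hw,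
                      B_orth i₂ j (Ne.symm hj2) a₂ ha₂ w hw]
                    ring)
          unfold Qd
          rw [Finset.sum_congr rfl (fun j _ => key j), Finset.sum_add_distrib, Finset.sum_add_distrib,
            Finset.sum_add_distrib, Finset.sum_ite_eq', Finset.sum_ite_eq', Finset.sum_ite_eq']
          simp only [Finset.mem_univ, if_true]
          linear_combination hsum + 2 * h2
      · rintro ⟨⟨σ, hσ⟩, -⟩
        have e1 : Matrix.mulVec ((Cfsg.Agent.Helper94.stGL (a₀ + a₁ + a₂) 1 :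
            Matrix.GeneralLinearGroup (Fin m ⊕ Fin m) F) : Matrix (Fin m ⊕ Fin m) (Fin m ⊕ Fin m) F) a₀
            = a₀ := by
          rw [Cfsg.Agent.Helper94.stGL_mulVec, ← Cfsg.Agent.Helper94.sympB_apply]
          simp only [map_add, B_self, B_orth i₀ i₁ n01 a₀ ha₀ a₁ ha₁, B_orth i₀ i₂ n02 a₀ ha₀ a₂ ha₂]
          simp
        have e2 : Matrix.mulVec ((Cfsg.Agent.Helper94.stGL (a₀ + a₁ + a₂) 1 :
            Matrix.GeneralLinearGroup (Fin m ⊕ Fin m) F) : Matrix (Fin m ⊕ Fin m) (Fin m ⊕ Fin m) F) b₀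
            = b₀ + (a₀ + a₁ + a₂) := by
          rw [Cfsg.Agent.Helper94.stGL_mulVec, ← Cfsg.Agent.Helper94.sympB_apply]
          simp only [map_add, Bba₀, B_orth i₀ i₁ n01 b₀ hb₀ a₁ ha₁, B_orth i₀ i₂ n02 b₀ hb₀ a₂ ha₂]
          simp
        have m1 : a₀ ∈ D (σ i₀) := by
          rw [← hσ i₀]
          exact ⟨a₀, ha₀, by rw [Matrix.toLin'_apply, e1]⟩
        have m2 : b₀ + (a₀ + a₁ + a₂) ∈ D (σ i₀) := by
          rw [← hσ i₀]
          exact ⟨b₀, hb₀, by rw [Matrix.toLin'_apply, e2]⟩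
        have hσ0 : σ i₀ = i₀ := by
          by_contra hne
          have := B_orth (σ i₀) i₀ hne a₀ m1 b₀ hb₀
          rw [Bab₀] at this
          exact one_ne_zero this
        rw [hσ0] at m2
        have m3 : a₁ + a₂ ∈ D i₀ := by
          have := (D i₀).sub_mem ((D i₀).sub_mem m2 hb₀) ha₀
          convert this using 1
          abel
        have := B_orth i₀ i₁ n01 _ m3 b₁ hb₁
        simp only [map_add, LinearMap.add_apply, Bab₁, B_orth i₂ i₁ n12.symm a₂ ha₂ b₁ hb₁] at this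
        simp at this
  · rw [SetLike.lt_iff_le_and_exists]
    refine ⟨inf_le_right, Cfsg.Agent.Helper94.stGL (a₀ + a₁) 1, Cfsg.Agent.Helper94.stGL_mem _ _, ?_⟩
    rintro ⟨hiso, -⟩
    have h := Cfsg.Agent.Helper94.isom_apply hiso b₀
    rw [Cfsg.Agent.Helper94.stGL_mulVec] at h
    have hc : sympForm m F b₀ (a₀ + a₁) = 1 := by
      rw [← Cfsg.Agent.Helper94.sympB_apply, map_add, Bba₀, B_orth i₀ i₁ n01 b₀ hb₀ a₁ ha₁, add_zero]
    rw [hc, mul_one, one_smul] at h
    have hl : Qd D (b₀ + (a₀ + a₁)) = 0 := by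
      unfold Qd
      rw [Fintype.sum_eq_add i₀ i₁ n01 ?_, ind_eq h01 h2 a₀ b₀ hs₀, ind_eq h01 h2 a₁ b₁ hs₁]
      · simp only [map_add, LinearMap.add_apply, B_self, Bab₀, Bba₀, Bab₁,
          B_orth i₁ i₀ n01.symm a₁ ha₁ a₀ ha₀, B_orth i₁ i₀ n01.symm a₁ ha₁ b₀ hb₀,
          B_orth i₀ i₁ n01 b₀ hb₀ a₁ ha₁, B_orth i₀ i₁ n01 b₀ hb₀ b₁ hb₁,
          B_orth i₀ i₁ n01 a₀ ha₀ a₁ ha₁, B_orth i₀ i₁ n01 a₀ ha₀ b₁ hb₁]
        linear_combination 2 * h2
      · rintro j ⟨hj0, hj1⟩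
        exact ind_of_orth (fun w hw => by
          simp only [map_add, LinearMap.add_apply, B_orth i₀ j (Ne.symm hj0) b₀ hb₀ w hw,
            B_orth i₀ j (Ne.symm hj0) a₀ ha₀ w hw, B_orth i₁ j (Ne.symm hj1) a₁ ha₁ w hw]
          ring)
    have hr : Qd D b₀ = 1 := by
      unfold Qd
      rw [Finset.sum_eq_single i₀
        (fun j _ hj => ind_of_orth (fun w hw => B_orth i₀ j (Ne.symm hj) b₀ hb₀ w hw)) (by simp),
        ind_eq h01 h2 a₀ b₀ hs₀, Bba₀, B_self]
      ring
    rw [hl, hr] at h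
    exact zero_ne_one h

end Cfsg.Agent.S5648
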