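import Cfsg.Statements.S5653
import Cfsg.Agent.Helper94.UParab
import Cfsg.Agent.Helper97.UForm

set_option autoImplicit false
open Cfsg

namespace Cfsg.Agent.S5653

/-- Let F be the field with q² elements and n ≥ 13, and let SU_n(q) be the group of matrices of determinant one preserving the standard unitary form Σ u_i v_i^q on F^n (the intersection of the unitary group GU_n with the kernel of the determinant). The elements of SU_n(q) stabilising a non-zero subspace on which the form vanishes identically form a maximal subgroup of SU_n(q). -/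
theorem result {F : Type*} [Field F] [Fintype F] (n q : ℕ) (hF : Fintype.card F = q ^ 2) (hn : 13 ≤ n) (W : Submodule F (Fin n → F)) (hW0 : W ≠ ⊥) (hW : Cfsg.Geo.IsTotallySingularFor (Cfsg.hermForm n F q) W) : Cfsg.Geo.IsMaximalIn (Cfsg.GU n F q ⊓ Cfsg.Geo.specialLinear (Fin n) F) (Cfsg.Geo.subspaceStabilizer W ⊓ (Cfsg.GU n F q ⊓ Cfsg.Geo.specialLinear (Fin n) F)) := by
  obtain ⟨σ, hσ⟩ := Helper97.exists_sigma hF
  have h := Helper94.UF.of_unitary (hσ.isUnitaryForm (n := n))
  exact h.unitary_parab_max (by rw [Fintype.card_fin]; omega) W hW0 hW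

end Cfsg.Agent.S5653
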