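import Cfsg.Statements.S5656
import Cfsg.Agent.Helper94.HermF4

set_option autoImplicit false
open Cfsg

namespace Cfsg.Agent.S5656

/-- Let F be the field with 4 elements (q = 2) and n ≥ 13. Let D be a decomposition of F^n into t pairwise orthogonal 2-dimensional subspaces, each non-degenerate for the standard unitary form Σ u_i v_i². Then the elements of SU_n(2) permuting the members of D form a subgroup that is not maximal: some subgroup lies strictly between it and SU_n(2). -/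
theorem result {F : Type*} [Field F] [Fintype F] (n : ℕ) (hF : Fintype.card F = 4) (hn : 13 ≤ n) {t : ℕ} (D : Fin t → Submodule F (Fin n → F)) (hD : Cfsg.Geo.IsNondegenerateMDecomposition (Cfsg.hermForm n F 2) 2 D) : ∃ K : Subgroup (Matrix.GeneralLinearGroup (Fin n) F), Cfsg.Geo.decompositionStabilizer D ⊓ (Cfsg.GU n F 2 ⊓ Cfsg.Geo.specialLinear (Fin n) F) < K ∧ K < (Cfsg.GU n F 2 ⊓ Cfsg.Geo.specialLinear (Fin n) F) := by
  classical
  have h2 := Cfsg.Agent.Helper94.two_eq_zero_of_card_four hF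
  have h4 := Cfsg.Agent.Helper94.pow_four_of_card_four hF
  obtain ⟨hdec, hnd, horth⟩ := hD
  have ht := hdec.two_le
  obtain ⟨i₀, i₁, hi⟩ : ∃ i₀ i₁ : Fin t, i₀ ≠ i₁ :=
    ⟨⟨0, by omega⟩, ⟨1, by omega⟩, by simp [Fin.ext_iff]⟩
  obtain ⟨a₀, b₀, ha₀W, hb₀W, ha₀, hb₀, hab₀, hba₀, hcl₀⟩ :=
    Cfsg.Agent.Helper94.exists_frame hF (D i₀) (hdec.finrank_eq i₀) (hnd i₀)
  obtain ⟨a₁, b₁, ha₁W, hb₁W, ha₁, hb₁, hab₁, hba₁, hcl₁⟩ :=
    Cfsg.Agent.Helper94.exists_frame hF (D i₁) (hdec.finrank_eq i₁) (hnd i₁)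
  have o01 : ∀ u ∈ D i₀, ∀ v ∈ D i₁, hermForm n F 2 u v = 0 := horth i₀ i₁ hi
  have o10 : ∀ u ∈ D i₁, ∀ v ∈ D i₀, hermForm n F 2 u v = 0 := horth i₁ i₀ hi.symm
  have hmulinv : ∀ (g : Matrix.GeneralLinearGroup (Fin n) F) (v : Fin n → F),
      Matrix.mulVec ((g⁻¹ : Matrix.GeneralLinearGroup (Fin n) F) : Matrix (Fin n) (Fin n) F)
        (Matrix.mulVec (g : Matrix (Fin n) (Fin n) F) v) = v := by
    intro g v
    rw [Matrix.mulVec_mulVec, ← Units.val_mul, inv_mul_cancel, Units.val_one, Matrix.one_mulVec]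
  refine ⟨Cfsg.stabilizing (Cfsg.glToMat (Fin n) F) {v | ∃ i, v ∈ D i ∧ hermForm n F 2 v v ≠ 0} ⊓
    (Cfsg.GU n F 2 ⊓ Cfsg.Geo.specialLinear (Fin n) F), ?_, ?_⟩
  · rw [SetLike.lt_iff_le_and_exists]
    constructor
    · have fwd : ∀ g : Matrix.GeneralLinearGroup (Fin n) F,
          g ∈ Cfsg.Geo.decompositionStabilizer D ⊓ (Cfsg.GU n F 2 ⊓ Cfsg.Geo.specialLinear (Fin n) F) →
          ∀ v : Fin n → F, (∃ i, v ∈ D i ∧ hermForm n F 2 v v ≠ 0) →
          ∃ i, Matrix.mulVec (g : Matrix (Fin n) (Fin n) F) v ∈ D i ∧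
            hermForm n F 2 (Matrix.mulVec (g : Matrix (Fin n) (Fin n) F) v)
              (Matrix.mulVec (g : Matrix (Fin n) (Fin n) F) v) ≠ 0 := by
        rintro g ⟨⟨σ, hσ⟩, hgG⟩ v ⟨i, hvi, hv⟩
        refine ⟨σ i, ?_, ?_⟩
        · rw [← hσ i]
          exact ⟨v, hvi, Matrix.toLin'_apply _ _⟩
        · have := (Cfsg.Agent.Helper94.mem_GU_iff 2 g).mp hgG.1 v v
          rw [this]
          exact hv
      intro g hg
      refine ⟨(Cfsg.Agent.Helper94.mem_stabilizing_iff _ g).mpr ?_, hg.2⟩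
      intro v
      constructor
      · exact fwd g hg v
      · intro hv
        have := fwd g⁻¹ (inv_mem hg) _ hv
        rwa [hmulinv] at this
    · have hv₁ : hermForm n F 2 (a₀ + a₁) (a₀ + a₁) = 0 := by
        simp only [Cfsg.Agent.Helper94.herm_add_left, Cfsg.Agent.Helper94.herm2_add_right h2, ha₀, ha₁,
          o01 a₀ ha₀W a₁ ha₁W, o10 a₁ ha₁W a₀ ha₀W]
        linear_combination h2
      have hg₁ := Cfsg.Agent.Helper94.utGL_mem h2 h4 (a₀ + a₁) hv₁
      have e1 : ∀ c : F, Matrix.mulVec ((Cfsg.Agent.Helper94.utGL h2 (a₀ + a₁) hv₁ :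
          Matrix.GeneralLinearGroup (Fin n) F) : Matrix (Fin n) (Fin n) F) (c • a₀) = c • a₁ := by
        intro c
        rw [Cfsg.Agent.Helper94.utGL_mulVec, Cfsg.Agent.Helper94.herm_smul_left,
          Cfsg.Agent.Helper94.herm2_add_right h2, ha₀, o01 a₀ ha₀W a₁ ha₁W]
        have : c • a₀ + (c * (1 + 0)) • (a₀ + a₁) = (c * 2) • a₀ + c • a₁ := by module
        rw [this, h2, mul_zero, zero_smul, zero_add]
      have e1' : ∀ c : F, Matrix.mulVec ((Cfsg.Agent.Helper94.utGL h2 (a₀ + a₁) hv₁ :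
          Matrix.GeneralLinearGroup (Fin n) F) : Matrix (Fin n) (Fin n) F) (c • a₁) = c • a₀ := by
        intro c
        rw [Cfsg.Agent.Helper94.utGL_mulVec, Cfsg.Agent.Helper94.herm_smul_left,
          Cfsg.Agent.Helper94.herm2_add_right h2, ha₁, o10 a₁ ha₁W a₀ ha₀W]
        have : c • a₁ + (c * (0 + 1)) • (a₀ + a₁) = (c * 2) • a₁ + c • a₀ := by module
        rw [this, h2, mul_zero, zero_smul, zero_add]
      have efix : ∀ v : Fin n → F, hermForm n F 2 v a₀ = 0 → hermForm n F 2 v a₁ = 0 →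
          Matrix.mulVec ((Cfsg.Agent.Helper94.utGL h2 (a₀ + a₁) hv₁ :
          Matrix.GeneralLinearGroup (Fin n) F) : Matrix (Fin n) (Fin n) F) v = v := by
        intro v hv0 hv1
        rw [Cfsg.Agent.Helper94.utGL_mulVec, Cfsg.Agent.Helper94.herm2_add_right h2, hv0, hv1, add_zero,
          zero_smul, add_zero]
      refine ⟨Cfsg.Agent.Helper94.utGL h2 (a₀ + a₁) hv₁,
        ⟨(Cfsg.Agent.Helper94.mem_stabilizing_iff _ _).mpr ?_, hg₁⟩, ?_⟩
      · have fwd1 : ∀ v : Fin n → F, (∃ i, v ∈ D i ∧ hermForm n F 2 v v ≠ 0) →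
            ∃ i, Matrix.mulVec ((Cfsg.Agent.Helper94.utGL h2 (a₀ + a₁) hv₁ :
              Matrix.GeneralLinearGroup (Fin n) F) : Matrix (Fin n) (Fin n) F) v ∈ D i ∧
              hermForm n F 2 (Matrix.mulVec ((Cfsg.Agent.Helper94.utGL h2 (a₀ + a₁) hv₁ :
              Matrix.GeneralLinearGroup (Fin n) F) : Matrix (Fin n) (Fin n) F) v)
                (Matrix.mulVec ((Cfsg.Agent.Helper94.utGL h2 (a₀ + a₁) hv₁ :
              Matrix.GeneralLinearGroup (Fin n) F) : Matrix (Fin n) (Fin n) F) v) ≠ 0 := by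
          rintro v ⟨i, hvi, hv⟩
          have hiso := (Cfsg.Agent.Helper94.mem_GU_iff 2 _).mp hg₁.1 v v
          have hmem : ∃ j, Matrix.mulVec ((Cfsg.Agent.Helper94.utGL h2 (a₀ + a₁) hv₁ :
              Matrix.GeneralLinearGroup (Fin n) F) : Matrix (Fin n) (Fin n) F) v ∈ D j := by
            by_cases hi0 : i = i₀
            · rw [hi0] at hvi
              rcases hcl₀ v hvi hv with ⟨c, rfl⟩ | ⟨c, rfl⟩
              · exact ⟨i₁, by rw [e1]; exact (D i₁).smul_mem _ ha₁W⟩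
              · refine ⟨i₀, ?_⟩
                rw [efix _ (by rw [Cfsg.Agent.Helper94.herm_smul_left, hba₀, mul_zero])
                  (by rw [Cfsg.Agent.Helper94.herm_smul_left, o01 b₀ hb₀W a₁ ha₁W, mul_zero])]
                exact hvi
            · by_cases hi1 : i = i₁
              · rw [hi1] at hvi
                rcases hcl₁ v hvi hv with ⟨c, rfl⟩ | ⟨c, rfl⟩
                · exact ⟨i₀, by rw [e1']; exact (D i₀).smul_mem _ ha₀W⟩
                · refine ⟨i₁, ?_⟩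
                  rw [efix _ (by rw [Cfsg.Agent.Helper94.herm_smul_left, o10 b₁ hb₁W a₀ ha₀W, mul_zero])
                    (by rw [Cfsg.Agent.Helper94.herm_smul_left, hba₁, mul_zero])]
                  exact hvi
              · refine ⟨i, ?_⟩
                rw [efix _ (horth i i₀ hi0 v hvi a₀ ha₀W) (horth i i₁ hi1 v hvi a₁ ha₁W)]
                exact hvi
          obtain ⟨j, hj⟩ := hmem
          exact ⟨j, hj, by rw [hiso]; exact hv⟩
        intro v
        constructor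
        · exact fwd1 v
        · intro hv
          have := fwd1 _ hv
          have hinv := hmulinv (Cfsg.Agent.Helper94.utGL h2 (a₀ + a₁) hv₁) v
          have hself : (Cfsg.Agent.Helper94.utGL h2 (a₀ + a₁) hv₁)⁻¹ =
              Cfsg.Agent.Helper94.utGL h2 (a₀ + a₁) hv₁ := rfl
          rw [hself] at hinv
          rw [hinv] at this
          exact this
      · rintro ⟨⟨σ, hσ⟩, -⟩
        have m1 : a₁ ∈ D (σ i₀) := by
          rw [← hσ i₀]
          refine ⟨a₀, ha₀W, ?_⟩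
          rw [Matrix.toLin'_apply]
          have := e1 1
          rwa [one_smul, one_smul] at this
        have m2 : b₀ ∈ D (σ i₀) := by
          rw [← hσ i₀]
          refine ⟨b₀, hb₀W, ?_⟩
          rw [Matrix.toLin'_apply]
          exact efix b₀ hba₀ (o01 b₀ hb₀W a₁ ha₁W)
        by_cases hσ1 : σ i₀ = i₁
        · rw [hσ1] at m2
          have := o01 b₀ hb₀W b₀ m2
          rw [hb₀] at this
          exact one_ne_zero this
        · have := horth (σ i₀) i₁ hσ1 a₁ m1 a₁ ha₁W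
          rw [ha₁] at this
          exact one_ne_zero this
  · rw [SetLike.lt_iff_le_and_exists]
    refine ⟨inf_le_right, ?_⟩
    have hv₂ : hermForm n F 2 (a₀ + b₀ + (a₁ + b₁)) (a₀ + b₀ + (a₁ + b₁)) = 0 := by
      simp only [Cfsg.Agent.Helper94.herm_add_left, Cfsg.Agent.Helper94.herm2_add_right h2, ha₀, ha₁, hb₀,
        hb₁, hab₀, hba₀, hab₁, hba₁,
        o01 a₀ ha₀W a₁ ha₁W, o10 a₁ ha₁W a₀ ha₀W, o01 a₀ ha₀W b₁ hb₁W, o10 b₁ hb₁W a₀ ha₀W,
        o01 b₀ hb₀W a₁ ha₁W, o10 a₁ ha₁W b₀ hb₀W, o01 b₀ hb₀W b₁ hb₁W, o10 b₁ hb₁W b₀ hb₀W]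
      linear_combination 2 * h2
    refine ⟨Cfsg.Agent.Helper94.utGL h2 _ hv₂, Cfsg.Agent.Helper94.utGL_mem h2 h4 _ hv₂, ?_⟩
    rintro ⟨hst, -⟩
    have hin := ((Cfsg.Agent.Helper94.mem_stabilizing_iff _ _).mp hst a₀).mp
      ⟨i₀, ha₀W, by rw [ha₀]; exact one_ne_zero⟩
    obtain ⟨j, hj, -⟩ := hin
    rw [Cfsg.Agent.Helper94.utGL_mulVec] at hj
    have c1 : hermForm n F 2 (a₀ + hermForm n F 2 a₀ (a₀ + b₀ + (a₁ + b₁)) • (a₀ + b₀ + (a₁ + b₁))) b₀ = 1 := by
      simp only [Cfsg.Agent.Helper94.herm_add_left, Cfsg.Agent.Helper94.herm2_add_right h2,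
        Cfsg.Agent.Helper94.herm_smul_left, ha₀, hb₀, hab₀, o01 a₀ ha₀W a₁ ha₁W, o01 a₀ ha₀W b₁ hb₁W,
        o10 a₁ ha₁W b₀ hb₀W, o10 b₁ hb₁W b₀ hb₀W]
      ring
    have c2 : hermForm n F 2 (a₀ + hermForm n F 2 a₀ (a₀ + b₀ + (a₁ + b₁)) • (a₀ + b₀ + (a₁ + b₁))) a₁ = 1 := by
      simp only [Cfsg.Agent.Helper94.herm_add_left, Cfsg.Agent.Helper94.herm2_add_right h2,
        Cfsg.Agent.Helper94.herm_smul_left, ha₀, ha₁, hab₀, hba₁, o01 a₀ ha₀W a₁ ha₁W, o01 a₀ ha₀W b₁ hb₁W,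
        o01 b₀ hb₀W a₁ ha₁W]
      ring
    have hj0 : j = i₀ := by
      by_contra hne
      have := horth j i₀ hne _ hj b₀ hb₀W
      rw [c1] at this
      exact one_ne_zero this
    have hj1 : j = i₁ := by
      by_contra hne
      have := horth j i₁ hne _ hj a₁ ha₁W
      rw [c2] at this
      exact one_ne_zero this
    exact hi (hj0.symm.trans hj1)

end Cfsg.Agent.S5656
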