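import Cfsg.Statements.S5662
import Cfsg.Agent.Helper96.SpGen

set_option autoImplicit false
open Cfsg

namespace Cfsg.Agent.S5662

/-- Subgroup structure of the finite symplectic groups. Let F be a finite field and m ≥ 2 with (m, |F|) ≠ (2, 2), and let Sp_2m(F) be the group of invertible matrices preserving the standard alternating form on F^(2m). Let H be a subgroup of Sp_2m(F) whose product with the scalar matrices ±1 is not all of Sp_2m(F) (H does not cover PSp_2m(F)). Then either H is contained in a member of one of the eight geometric classes of subgroups of Sp_2m(F) (with the conditions built into InSymplecticClass), or H is in the residual class: modulo scalars it is almost simple, and the perfect preimage of its socle acts absolutely irreducibly, is realisable over no proper subfield, and fixes no non-degenerate quadratic form and no non-degenerate unitary form on F^(2m). -/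
theorem result {F : Type*} [Field F] [Fintype F] (m : ℕ) (hm : 2 ≤ m) (hex : ¬ (m = 2 ∧ Fintype.card F = 2)) (H : Subgroup (Matrix.GeneralLinearGroup (Fin m ⊕ Fin m) F)) (hH : H ≤ Cfsg.spGL m F) (hproper : H ⊔ (Cfsg.Geo.scalars (Fin m ⊕ Fin m) F ⊓ Cfsg.spGL m F) ≠ Cfsg.spGL m F) : (∃ M : Subgroup (Matrix.GeneralLinearGroup (Fin m ⊕ Fin m) F), Cfsg.Geo.InSymplecticClass m F M ∧ H ≤ M) ∨ Cfsg.Geo.InSymplecticResidualClass H :=
  Cfsg.Agent.Helper96.Sy.sp_le_class hm H hH

end Cfsg.Agent.S5662
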