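import Cfsg.Statements.S5664
import Cfsg.Agent.Helper96.C3SMain
import Cfsg.Agent.Helper96.C3SWrap
-- import your own Cfsg.Agent.* helpers here

set_option autoImplicit false
open Cfsg

namespace Cfsg.Agent.S5664

/-- For a finite field F and m ≥ 7, let K be a subfield of the algebra of 2m × 2m matrices over F containing the scalars, of prime degree r over F, whose elements k are self-adjoint for the standard alternating form f on F^(2m) (f(k u, v) = f(u, k v)) and satisfy f(k v, v) = 0 for all v. Then the elements of Sp_2m(F) normalising K form a maximal subgroup of Sp_2m(F). -/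
theorem result {F : Type*} [Field F] [Fintype F] (m : ℕ) (hm : 7 ≤ m) (r : ℕ) (hr : r.Prime) (K : Subalgebra F (Matrix (Fin m ⊕ Fin m) (Fin m ⊕ Fin m) F)) (hK : Cfsg.Geo.IsFieldSubalgebra r K) (hsa : Cfsg.Geo.IsSelfAdjointFor (Cfsg.sympForm m F) K) (halt : ∀ k ∈ K, ∀ v : (Fin m ⊕ Fin m → F), Cfsg.sympForm m F (Matrix.mulVec k v) v = 0) : Cfsg.Geo.IsMaximalIn (Cfsg.spGL m F) (Cfsg.Geo.subalgebraNormalizer K ⊓ Cfsg.spGL m F) := by
  exact Cfsg.Agent.Helper96.C3S.c3s_concrete m hm r hr K hK hsa halt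
    (fun K' _ _ _ _ _ φ P hp h hd2 hd hex =>
      haveI : Module.Finite K' (Fin m ⊕ Fin m → F) :=
        Module.Finite.of_restrictScalars_finite F K' (Fin m ⊕ Fin m → F)
      Cfsg.Agent.Helper96.C3S.c3s_main hp h hd2 hd hex)

end Cfsg.Agent.S5664
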