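import Cfsg.Statements.S5675
import Cfsg.Agent.Helper94.ONd4
import Cfsg.Agent.Helper94.QuadOdd

set_option autoImplicit false
open Cfsg

namespace Cfsg.Agent.S5675

/-- Let F be a finite field of odd order q, m ≥ 6, Q the standard quadratic form on F^(2m+1) and Ω the commutator subgroup of its isometry group. Let W be a non-zero subspace of even dimension on which the polar form of Q is non-degenerate; exclude the case q = 3, dim W = 2 with Q vanishing on some line of W (a plus-type plane). Then the elements of Ω stabilising W (equivalently, stabilising its orthogonal complement, of odd dimension) form a maximal subgroup of Ω. -/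
theorem result {F : Type*} [Field F] [Fintype F] (hodd : Odd (Fintype.card F)) (m : ℕ) (hm : 6 ≤ m) (W : Submodule F (Unit ⊕ (Fin m ⊕ Fin m) → F)) (hW0 : W ≠ ⊥) (hev : Even (Module.finrank F W)) (hW : Cfsg.Geo.IsNondegenerateOn (QuadraticMap.polar (Cfsg.quadFormOdd m F)) W) (hex : ¬ (Fintype.card F = 3 ∧ Module.finrank F W = 2 ∧ Cfsg.Geo.IsPlusTypeOn (Cfsg.quadFormOdd m F) W)) : Cfsg.Geo.IsMaximalIn (Cfsg.Geo.omegaGL (Cfsg.quadFormOdd m F)) (Cfsg.Geo.subspaceStabilizer W ⊓ Cfsg.Geo.omegaGL (Cfsg.quadFormOdd m F)) := by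
  have h2 : (2 : F) ≠ 0 := by
    intro h2
    haveI : CharP F 2 := CharTwo.of_one_ne_zero_of_two_eq_zero one_ne_zero h2
    have h3 := FiniteField.even_card_of_char_two (ringChar.eq F 2)
    obtain ⟨j, hj⟩ := hodd
    omega
  have hcard : Fintype.card (Unit ⊕ (Fin m ⊕ Fin m)) = 1 + (m + m) := by
    rw [Fintype.card_sum, Fintype.card_sum, Fintype.card_unit, Fintype.card_fin]
  have hF2 : 1 < Fintype.card F := Fintype.one_lt_card
  refine Cfsg.Agent.Helper94.ond_max_fun (Cfsg.quadFormOdd m F)
    (Cfsg.Agent.Helper94.quadFormOdd_nondegenerate m h2) (by rw [hcard]; omega) W hW0 ?_ hW ?_ ?_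
  · intro h
    rw [h, finrank_top, Module.finrank_fintype_fun_eq_card, hcard] at hev
    obtain ⟨j, hj⟩ := hev
    omega
  · rintro ⟨h3, U, hU, hUnd, hUplus, h | ⟨_, hsum⟩⟩
    · subst h
      apply hex
      refine ⟨?_, hU, hUplus⟩
      obtain ⟨j, hj⟩ := hodd
      omega
    · rw [hcard, hU] at hsum
      obtain ⟨j, hj⟩ := hev
      omega
  · intro h
    exfalso
    rw [hcard] at h
    omega

end Cfsg.Agent.S5675
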