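import Cfsg.Statements.S5677
import Cfsg.Agent.Helper97.ODFinal
import Cfsg.Agent.Helper94.QuadOdd

set_option autoImplicit false
open Cfsg

namespace Cfsg.Agent.S5677

/-- Let F be a finite field of odd order q, m ≥ 6, Q the standard quadratic form on F^(2m+1) and Ω the commutator subgroup of its isometry group. Let D be a decomposition of F^(2m+1) into t ≥ 2 pairwise orthogonal, pairwise Q-isometric subspaces of equal dimension k > 1 on which the polar form is non-degenerate. Unless q = 3 and k = 3, the elements of Ω permuting the members of D form a maximal subgroup of Ω. -/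
theorem result {F : Type*} [Field F] [Fintype F] (hodd : Odd (Fintype.card F)) (m : ℕ) (hm : 6 ≤ m) {t : ℕ} (k : ℕ) (hk : 1 < k) (D : Fin t → Submodule F (Unit ⊕ (Fin m ⊕ Fin m) → F)) (hD : Cfsg.Geo.IsOrthogonalMDecomposition (Cfsg.quadFormOdd m F) k D) (hex : ¬ (Fintype.card F = 3 ∧ k = 3)) : Cfsg.Geo.IsMaximalIn (Cfsg.Geo.omegaGL (Cfsg.quadFormOdd m F)) (Cfsg.Geo.decompositionStabilizer D ⊓ Cfsg.Geo.omegaGL (Cfsg.quadFormOdd m F)) := by
  classical
  have h2 : (2 : F) ≠ 0 := Cfsg.Agent.Helper97.OD.od_two_ne_zero hodd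
  have hQ := Cfsg.Agent.Helper94.quadFormOdd_nondegenerate (F := F) m h2
  have hcard := Cfsg.Agent.Helper97.OD.od_card D hD.decomp.decomp
  have hcard' : t * k = 2 * m + 1 := by
    rw [hcard]
    simp
    ring
  have hk3 : 3 ≤ k := by
    by_contra h
    have hk2 : k = 2 := by omega
    rw [hk2] at hcard'
    omega
  have ht3 : 3 ≤ t := by
    have h2t := hD.decomp.decomp.two_le
    by_contra h
    have ht2 : t = 2 := by omega
    rw [ht2] at hcard'
    omega
  have hcase : 5 ≤ k ∨ 5 ≤ Fintype.card F := by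
    by_cases h5 : 5 ≤ k
    · exact Or.inl h5
    · right
      have hk : k = 3 := by
        have h34 : k = 3 ∨ k = 4 := by omega
        rcases h34 with h | h
        · exact h
        · exfalso
          rw [h] at hcard'
          omega
      have hq3 : Fintype.card F ≠ 3 := fun h => hex ⟨h, hk⟩
      have h1 : 1 < Fintype.card F := Fintype.one_lt_card
      obtain ⟨r, hr⟩ := hodd
      omega
  have hn : 5 ≤ Fintype.card (Unit ⊕ (Fin m ⊕ Fin m)) := by
    simp
    omega
  exact Cfsg.Agent.Helper97.OD.od_max_fun (Cfsg.quadFormOdd m F) hQ hn h2 k D hD hk3 ht3 hcase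

end Cfsg.Agent.S5677
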