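import Cfsg.Statements.S5678
import Cfsg.Agent.Helper94.Blocks3
import Cfsg.Agent.Helper94.QuadOdd

set_option autoImplicit false
open Cfsg

namespace Cfsg.Agent.S5678

/-- Let F be the field with 3 elements, m ≥ 6, Q the standard quadratic form on F^(2m+1) and Ω the commutator subgroup of its isometry group. Let D be a decomposition of F^(2m+1) into t pairwise orthogonal, pairwise Q-isometric 3-dimensional subspaces on which the polar form is non-degenerate. Then the elements of Ω permuting the members of D form a subgroup that is not maximal: some subgroup lies strictly between it and Ω. -/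
theorem result {F : Type*} [Field F] [Fintype F] (hq : Fintype.card F = 3) (m : ℕ) (hm : 6 ≤ m) {t : ℕ} (D : Fin t → Submodule F (Unit ⊕ (Fin m ⊕ Fin m) → F)) (hD : Cfsg.Geo.IsOrthogonalMDecomposition (Cfsg.quadFormOdd m F) 3 D) : ∃ K : Subgroup (Matrix.GeneralLinearGroup (Unit ⊕ (Fin m ⊕ Fin m)) F), Cfsg.Geo.decompositionStabilizer D ⊓ Cfsg.Geo.omegaGL (Cfsg.quadFormOdd m F) < K ∧ K < Cfsg.Geo.omegaGL (Cfsg.quadFormOdd m F) := by
  have h2 := Helper94.two_ne_zero_of_card_three hq
  have hQ := Helper94.quadFormOdd_nondegenerate (F := F) m h2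
  have hcard := Helper94.card_eq_of_decomposition D hD.decomp.decomp
  have ht : 4 ≤ t := by
    simp only [Fintype.card_sum, Fintype.card_unit, Fintype.card_fin] at hcard
    omega
  obtain ⟨η, hη, hg⟩ := Helper94.good3 hQ hq (D ⟨0, by omega⟩)
    (hD.decomp.decomp.finrank_eq _) (hD.decomp.nondegenerate _)
  exact Helper94.frame_of_good_one hQ h2 D hD ht η hη _ hg

end Cfsg.Agent.S5678
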