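import Cfsg.Statements.S5686
import Cfsg.Agent.Helper43.TwoFamGeo

set_option autoImplicit false
open Cfsg

namespace Cfsg.Agent.S5686

/-- Let F be a finite field with q elements, n ≥ 13 even, Q a non-degenerate quadratic form on F^n of plus type (some subspace of dimension n/2 is totally singular), and Ω the commutator subgroup of the isometry group of Q, viewed inside GL_n(F). The elements of Ω stabilising a subspace of dimension n/2 − 1 on which Q vanishes form a subgroup that is not maximal: some subgroup lies strictly between it and Ω. -/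
theorem result {F : Type*} [Field F] [Fintype F] {n : ℕ} (hn : 13 ≤ n) (heven : Even n) (Q : (Fin n → F) → F) (hQ : Cfsg.Geo.IsNondegenerateQuadraticForm Q) (hplus : Cfsg.Geo.IsPlusTypeOn Q ⊤) (W : Submodule F (Fin n → F)) (hW : Cfsg.Geo.IsTotallySingularQuad Q W) (hdim : 2 * (Module.finrank F W + 1) = n) : ∃ K : Subgroup (Matrix.GeneralLinearGroup (Fin n) F), Cfsg.Geo.subspaceStabilizer W ⊓ Cfsg.Geo.omegaGL Q < K ∧ K < Cfsg.Geo.omegaGL Q := by
  classical
  obtain ⟨k, hk⟩ : ∃ k, Module.finrank F W = k := ⟨_, rfl⟩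
  have hn' : n = 2 * (k + 1) := by omega
  subst hn'
  have hk6 : 6 ≤ k := by omega
  have hS := Helper43.TwoFam.qspace_of Q hQ (m := k + 1) (by simp)
  obtain ⟨U, -, hUts, hUdim⟩ := hplus
  have hU : Helper43.TwoFam.MTS Q (k + 1) U := by
    refine ⟨?_, hUts⟩
    rw [finrank_top, Module.finrank_fintype_fun_eq_card, Fintype.card_fin] at hUdim
    omega
  obtain ⟨W₁, hW₁, hWW₁⟩ := hS.exists_mts_of_le hU hW (by rw [hk])
  -- adapted basis
  have hnle : ¬ W₁ ≤ W := by
    intro hle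
    have := Submodule.finrank_mono hle
    have := hW₁.1
    omega
  obtain ⟨y, hyW₁, hyW⟩ := SetLike.not_le_iff_exists.1 hnle
  have hsup : W ⊔ Submodule.span F {y} = W₁ :=
    Helper43.TwoFam.sup_span_eq hWW₁ (by rw [hk, hW₁.1]) hyW₁ hyW
  have hli : ∀ (c : F), ∀ x ∈ W, c • y + x = 0 → c = 0 := by
    intro c x hx hcx
    by_contra hc
    apply hyW
    have h1 : y = -(c⁻¹ • x) := by
      have h2 : c • y = -x := eq_neg_of_add_eq_zero_left hcx
      rw [← smul_neg, ← h2, smul_smul, inv_mul_cancel₀ hc, one_smul]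
    rw [h1]
    exact W.neg_mem (W.smul_mem _ hx)
  have hsp : ∀ z ∈ W₁, ∃ c : F, z + c • y ∈ W := by
    intro z hz
    rw [← hsup] at hz
    obtain ⟨w, hw, b, hb, rfl⟩ := Submodule.mem_sup.1 hz
    obtain ⟨d, rfl⟩ := Submodule.mem_span_singleton.1 hb
    refine ⟨-d, ?_⟩
    have : w + d • y + -d • y = w := by
      rw [neg_smul]
      abel
    rw [this]
    exact hw
  obtain ⟨bb, hbb⟩ : ∃ bb : Module.Basis (Fin (k + 1)) F W₁,
      bb = Module.Basis.mkFinConsOfLE y hyW₁ (Module.finBasisOfFinrankEq F W hk) hWW₁ hli hsp :=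
    ⟨_, rfl⟩
  have hbbc := Module.Basis.coe_mkFinConsOfLE y hyW₁ (Module.finBasisOfFinrankEq F W hk) hWW₁
    hli hsp
  rw [← hbb] at hbbc
  obtain ⟨e, he⟩ : ∃ e : Fin (k + 1) → (Fin (2 * (k + 1)) → F), e = fun i => ((bb i : ↥W₁) : Fin (2 * (k + 1)) → F) :=
    ⟨_, rfl⟩
  have heW : ∀ i, e i ∈ W₁ := fun i => by rw [he]; exact (bb i).2
  have heli : LinearIndependent F e := by
    rw [he]
    exact bb.linearIndependent.map' W₁.subtype (Submodule.ker_subtype _)
  have he0 : e 0 = y := by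
    rw [he]
    simp only
    rw [hbbc]
    rfl
  have hesucc : ∀ i : Fin k, e i.succ ∈ W := by
    intro i
    rw [he]
    simp only
    rw [hbbc]
    simp only [Fin.cons_succ, Function.comp_apply]
    exact Submodule.coe_mem _
  obtain ⟨f, hf⟩ := hS.exists_frame hW₁ e heli heW
  obtain ⟨P', h1, h2⟩ := Helper43.TwoFam.frameMat_exists_inv hS hf
  have hQP := Helper43.TwoFam.frameMat_Q hS hf
  have hW₁iff := Helper43.TwoFam.frameMat_mem_iff hS hf hW₁ heW
  have hWiff : ∀ w, Matrix.mulVec (Helper43.TwoFam.frameMat e f) w ∈ W ↔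
      w ∈ Helper43.TwoFam.plusE1 (k + 1) F 0 := by
    intro w
    have hexp : ∀ w : Fin (k + 1) ⊕ Fin (k + 1) → F, w ∈ Helper43.TwoFam.plusE (k + 1) F →
        Matrix.mulVec (Helper43.TwoFam.frameMat e f) w
          = w (Sum.inl 0) • y + ∑ i : Fin k, w (Sum.inl i.succ) • e i.succ := by
      intro w hw
      rw [Helper43.TwoFam.frameMat_mulVec]
      have : ∑ j, w (Sum.inr j) • f j = 0 :=
        Finset.sum_eq_zero fun j _ => by rw [hw j, zero_smul]
      rw [this, add_zero, Fin.sum_univ_succ, he0]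
    have hsum : ∀ w : Fin (k + 1) ⊕ Fin (k + 1) → F,
        ∑ i : Fin k, w (Sum.inl i.succ) • e i.succ ∈ W := fun w =>
      Submodule.sum_mem _ fun i _ => Submodule.smul_mem _ _ (hesucc i)
    constructor
    · intro hw
      have hwE := (hW₁iff w).1 (hWW₁ hw)
      refine ⟨hwE, ?_⟩
      by_contra hne
      apply hyW
      rw [hexp w hwE] at hw
      have h3 := (Submodule.add_mem_iff_left W (hsum w)).1 hw
      have h4 := W.smul_mem (w (Sum.inl 0))⁻¹ h3
      rwa [smul_smul, inv_mul_cancel₀ hne, one_smul] at h4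
    · intro hw
      rw [hexp w hw.1, hw.2, zero_smul, zero_add]
      exact hsum w
  have i₀ : Fin k := ⟨0, by omega⟩
  have hi₀ : ∃ i₁ : Fin k, i₁ ≠ i₀ := by
    by_cases h0 : i₀ = ⟨1, by omega⟩
    · exact ⟨⟨0, by omega⟩, fun h => by rw [h0] at h; simp [Fin.ext_iff] at h⟩
    · exact ⟨⟨1, by omega⟩, fun h => h0 h.symm⟩
  obtain ⟨i₁, hi₁⟩ := hi₀
  have hab : (0 : Fin (k + 1)) ≠ i₀.succ := (Fin.succ_ne_zero _).symm
  have hac : (0 : Fin (k + 1)) ≠ i₁.succ := (Fin.succ_ne_zero _).symm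
  have hbc : i₀.succ ≠ i₁.succ := fun h => hi₁ (Fin.succ_inj.1 h).symm
  refine ⟨Cfsg.Geo.subspaceStabilizer W₁ ⊓ Cfsg.Geo.omegaGL Q, ?_, ?_⟩
  · rw [SetLike.lt_iff_le_and_exists]
    refine ⟨?_, ?_⟩
    · intro g hg
      refine ⟨?_, hg.2⟩
      obtain ⟨x, hx, rfl⟩ := (Helper43.TwoFam.mem_omegaGL_iff Q g).1 hg.2
      have himg := Helper43.TwoFam.img_eq_of_mem_stab hg.1
      have hmts := Helper43.TwoFam.mts_img x hW₁
      have hev := Helper43.TwoFam.even_of_mem_commutator hS hW₁ x hx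
      have hWle : W ≤ Helper43.TwoFam.img (x : Matrix.GeneralLinearGroup _ F) W₁ := by
        rw [← himg]
        exact Submodule.map_mono hWW₁
      apply Helper43.TwoFam.mem_stab_of_img_eq
      obtain ⟨W₂, hW₂⟩ : ∃ W₂, W₂ = Helper43.TwoFam.img (x : Matrix.GeneralLinearGroup _ F) W₁ :=
        ⟨_, rfl⟩
      rw [← hW₂] at hmts hev hWle ⊢
      have h3 := Submodule.finrank_mono (le_inf hWW₁ hWle)
      have h4 := Submodule.finrank_mono (inf_le_left : W₁ ⊓ W₂ ≤ W₁)
      rw [hW₁.1] at h4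
      have h5 : Module.finrank F ↥(W₁ ⊓ W₂) = k + 1 := by
        rw [Nat.even_iff] at hev
        omega
      have h6 : W₁ ⊓ W₂ = W₁ :=
        Submodule.eq_of_le_of_finrank_eq inf_le_left (by rw [h5, hW₁.1])
      have h7 : W₁ ≤ W₂ := by
        rw [← h6]
        exact inf_le_right
      exact (Submodule.eq_of_le_of_finrank_eq h7 (by rw [hW₁.1, hmts.1])).symm
    · obtain ⟨g₀, hg₀, hs1, hs2⟩ :=
        Helper43.TwoFam.exists_stab_plusE_not_plusE1 (F := F) hab hac hbc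
      refine ⟨Helper43.TwoFam.conjGL _ P' h1 h2 g₀,
        ⟨(Helper43.TwoFam.conjGL_mem_stab_iff _ _ h1 h2 hW₁iff _).2 hs1,
          Helper43.TwoFam.conjGL_mem_omega _ _ h1 h2 hQP hg₀⟩, ?_⟩
      intro hmem
      exact hs2 ((Helper43.TwoFam.conjGL_mem_stab_iff _ _ h1 h2 hWiff _).1 hmem.1)
  · rw [SetLike.lt_iff_le_and_exists]
    refine ⟨inf_le_right, ?_⟩
    obtain ⟨g₀, hg₀, hs⟩ := Helper43.TwoFam.exists_not_stab_plusE (F := F) hab
    refine ⟨Helper43.TwoFam.conjGL _ P' h1 h2 g₀,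
      Helper43.TwoFam.conjGL_mem_omega _ _ h1 h2 hQP hg₀, ?_⟩
    intro hmem
    exact hs ((Helper43.TwoFam.conjGL_mem_stab_iff _ _ h1 h2 hW₁iff _).1 hmem.1)

end Cfsg.Agent.S5686
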