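import Cfsg.Statements.S5693
import Cfsg.Agent.Helper94.Plus4

set_option autoImplicit false
open Cfsg

namespace Cfsg.Agent.S5693

/-- Let F be a finite field with q elements, n ≥ 13 even, Q a non-degenerate quadratic form on F^n of plus type (some subspace of dimension n/2 is totally singular), and Ω the commutator subgroup of the isometry group of Q, viewed inside GL_n(F). Let D be a decomposition of F^n into t ≥ 2 pairwise orthogonal, pairwise Q-isometric subspaces of equal dimension k on which the polar form is non-degenerate (with, for even k, all members of plus type or t even; for odd k, q odd and square discriminant), in one of the cases: k = 2 with q = 3; k = 2 with plus-type members and q ∈ {2, 4, 5}; k = 3 with q = 3; k = 4 with plus-type members and q = 2. Then the elements of Ω permuting the members of D form a subgroup that is not maximal: some subgroup lies strictly between it and Ω. -/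
theorem result {F : Type*} [Field F] [Fintype F] {n : ℕ} (hn : 13 ≤ n) (heven : Even n) (Q : (Fin n → F) → F) (hQ : Cfsg.Geo.IsNondegenerateQuadraticForm Q) (hplus : Cfsg.Geo.IsPlusTypeOn Q ⊤) {t : ℕ} (k : ℕ) (D : Fin t → Submodule F (Fin n → F)) (hD : Cfsg.Geo.IsOrthogonalMDecomposition Q k D) (hke : Even k → ((∀ i, Cfsg.Geo.IsPlusTypeOn Q (D i)) ∨ Even t)) (hko : Odd k → (Odd (Fintype.card F) ∧ Cfsg.Geo.HasSquareDiscriminant Q)) (hcase : ((k = 2 ∧ (Fintype.card F = 3 ∨ ((∀ i, Cfsg.Geo.IsPlusTypeOn Q (D i)) ∧ (Fintype.card F = 2 ∨ Fintype.card F = 4 ∨ Fintype.card F = 5)))) ∨ (k = 3 ∧ Fintype.card F = 3) ∨ (k = 4 ∧ Fintype.card F = 2 ∧ ∀ i, Cfsg.Geo.IsPlusTypeOn Q (D i)))) : ∃ K : Subgroup (Matrix.GeneralLinearGroup (Fin n) F), Cfsg.Geo.decompositionStabilizer D ⊓ Cfsg.Geo.omegaGL Q < K ∧ K < Cfsg.Geo.omegaGL Q := by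
  have hcard := Helper94.card_eq_of_decomposition D hD.decomp.decomp
  simp only [Fintype.card_fin] at hcard
  rcases hcase with ⟨rfl, h⟩ | ⟨rfl, hq⟩ | ⟨rfl, hq, hpl⟩
  · have ht : 4 ≤ t := by omega
    rcases h with hq | ⟨hpl, hq | hq | hq⟩
    · exact Helper94.frame_of_good hQ (Helper94.two_ne_zero_of_card_three hq) D hD ht 1 one_ne_zero
        (fun i => Helper94.good2 hQ hq (D i) (hD.decomp.decomp.finrank_eq i) (hD.decomp.nondegenerate i))
    · exact Helper94.plus2_q2_not_max hQ hq D hD (by omega) hpl
    · exact Helper94.plus2_q4_not_max hQ hq D hD (by omega) hpl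
    · have h2 : (2 : F) ≠ 0 := by
        intro h
        have h5 : ((5 : ℕ) : F) = 0 := by rw [← hq]; exact Nat.cast_card_eq_zero F
        have h1 : (1 : F) = 0 := by
          have : ((5 : ℕ) : F) = 2 * 2 + 1 := by norm_num
          rw [this, h, zero_mul, zero_add] at h5
          exact h5
        exact one_ne_zero h1
      exact Helper94.frame_of_good hQ h2 D hD ht 1 one_ne_zero
        (fun i => Helper94.good_plus5 hQ hq (D i) (hD.decomp.decomp.finrank_eq i)
          (hD.decomp.nondegenerate i) (hpl i))
  · have ht : 4 ≤ t := by omega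
    obtain ⟨η, hη, hg⟩ := Helper94.good3 hQ hq (D ⟨0, by omega⟩)
      (hD.decomp.decomp.finrank_eq _) (hD.decomp.nondegenerate _)
    exact Helper94.frame_of_good_one hQ (Helper94.two_ne_zero_of_card_three hq) D hD ht η hη _ hg
  · exact Helper94.plus4_q2_not_max hQ hq D hD (by omega) hpl

end Cfsg.Agent.S5693
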