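import Cfsg.Statements.S5697
import Cfsg.Agent.Helper98.OPairSwap
import Cfsg.Agent.Helper98.OPairMax

set_option autoImplicit false
open Cfsg

namespace Cfsg.Agent.S5697

/-- Let F be a finite field with q elements, n ≥ 13 even, Q a non-degenerate quadratic form on F^n of plus type (some subspace of dimension n/2 is totally singular), and Ω the commutator subgroup of the isometry group of Q, viewed inside GL_n(F). Suppose n/2 is even and let D be a decomposition of F^n into two complementary subspaces of dimension n/2 on each of which Q vanishes. Then the elements of Ω preserving or interchanging the two subspaces form a maximal subgroup of Ω. -/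
theorem result {F : Type*} [Field F] [Fintype F] {n : ℕ} (hn : 13 ≤ n) (heven : Even n) (Q : (Fin n → F) → F) (hQ : Cfsg.Geo.IsNondegenerateQuadraticForm Q) (hplus : Cfsg.Geo.IsPlusTypeOn Q ⊤) (k : ℕ) (hk : 2 * k = n) (hke : Even k) (D : Fin 2 → Submodule F (Fin n → F)) (hD : Cfsg.Geo.IsMDecomposition k D) (hts : ∀ i, Cfsg.Geo.IsTotallySingularQuad Q (D i)) : Cfsg.Geo.IsMaximalIn (Cfsg.Geo.omegaGL Q) (Cfsg.Geo.decompositionStabilizer D ⊓ Cfsg.Geo.omegaGL Q) := by
  classical
  subst hk
  obtain ⟨r, rfl⟩ := hke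
  have hdisj : D 0 ⊓ D 1 = ⊥ := by
    rw [← disjoint_iff]
    exact hD.indep.pairwiseDisjoint (by decide : (0 : Fin 2) ≠ 1)
  exact Helper98.opr_pair_max_fun Q hQ (by rw [Fintype.card_fin]; omega) (r + r) D hD hts
    (Helper98.ops_swap r Q hQ (by rw [Fintype.card_fin]) (D 0) (D 1)
      ⟨hD.finrank_eq 0, hts 0⟩ ⟨hD.finrank_eq 1, hts 1⟩ hdisj)

end Cfsg.Agent.S5697
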