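import Cfsg.Statements.S5698
import Cfsg.Agent.Helper43.TwoFamGeo

set_option autoImplicit false
open Cfsg

namespace Cfsg.Agent.S5698

/-- Let F be a finite field with q elements, n ≥ 13 even, Q a non-degenerate quadratic form on F^n of plus type (some subspace of dimension n/2 is totally singular), and Ω the commutator subgroup of the isometry group of Q, viewed inside GL_n(F). Suppose n/2 is odd and let D be a decomposition of F^n into two complementary subspaces of dimension n/2 on each of which Q vanishes. Then the elements of Ω preserving or interchanging the two subspaces form a subgroup that is not maximal: some subgroup lies strictly between it and Ω. -/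
theorem result {F : Type*} [Field F] [Fintype F] {n : ℕ} (hn : 13 ≤ n) (heven : Even n) (Q : (Fin n → F) → F) (hQ : Cfsg.Geo.IsNondegenerateQuadraticForm Q) (hplus : Cfsg.Geo.IsPlusTypeOn Q ⊤) (k : ℕ) (hk : 2 * k = n) (hko : Odd k) (D : Fin 2 → Submodule F (Fin n → F)) (hD : Cfsg.Geo.IsMDecomposition k D) (hts : ∀ i, Cfsg.Geo.IsTotallySingularQuad Q (D i)) : ∃ K : Subgroup (Matrix.GeneralLinearGroup (Fin n) F), Cfsg.Geo.decompositionStabilizer D ⊓ Cfsg.Geo.omegaGL Q < K ∧ K < Cfsg.Geo.omegaGL Q := by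
  classical
  subst hk
  have hk7 : 7 ≤ k := by omega
  have hS := Helper43.TwoFam.qspace_of Q hQ (m := k) (by simp)
  have hD0 : Helper43.TwoFam.MTS Q k (D 0) := ⟨hD.finrank_eq 0, hts 0⟩
  have hD1 : Helper43.TwoFam.MTS Q k (D 1) := ⟨hD.finrank_eq 1, hts 1⟩
  have hdisj : D 0 ⊓ D 1 = ⊥ := by
    rw [← disjoint_iff]
    exact hD.indep.pairwiseDisjoint (by decide : (0 : Fin 2) ≠ 1)
  have hne01 : D 0 ≠ D 1 := by
    intro heq
    rw [← heq, inf_idem] at hdisj
    have := hD0.1
    rw [hdisj, finrank_bot] at this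
    omega
  obtain ⟨e, he⟩ : ∃ e : Fin k → (Fin (2 * k) → F),
      e = fun i => ((Module.finBasisOfFinrankEq F (D 0) (hD.finrank_eq 0) i : ↥(D 0)) :
        Fin (2 * k) → F) := ⟨_, rfl⟩
  have heW : ∀ i, e i ∈ D 0 := fun i => by rw [he]; exact Submodule.coe_mem _
  have heli : LinearIndependent F e := by
    rw [he]
    exact (Module.finBasisOfFinrankEq F (D 0) (hD.finrank_eq 0)).linearIndependent.map'
      (D 0).subtype (Submodule.ker_subtype _)
  obtain ⟨f, hf, hfE⟩ := hS.exists_frame_in hD0 hD1 hdisj e heli heW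
  obtain ⟨P', h1, h2⟩ := Helper43.TwoFam.frameMat_exists_inv hS hf
  have hQP := Helper43.TwoFam.frameMat_Q hS hf
  have hiff0 := Helper43.TwoFam.frameMat_mem_iff hS hf hD0 heW
  have hiff1 := Helper43.TwoFam.frameMat_mem_iff' hS hf hD1 hfE
  have hab : (⟨0, by omega⟩ : Fin k) ≠ ⟨1, by omega⟩ := by simp
  have had : (⟨0, by omega⟩ : Fin k) ≠ ⟨3, by omega⟩ := by simp
  have hbd : (⟨1, by omega⟩ : Fin k) ≠ ⟨3, by omega⟩ := by simp
  have hcd : (⟨2, by omega⟩ : Fin k) ≠ ⟨3, by omega⟩ := by simp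
  refine ⟨Cfsg.Geo.subspaceStabilizer (D 0) ⊓ Cfsg.Geo.omegaGL Q, ?_, ?_⟩
  · rw [SetLike.lt_iff_le_and_exists]
    refine ⟨?_, ?_⟩
    · intro g hg
      refine ⟨?_, hg.2⟩
      obtain ⟨x, hx, rfl⟩ := (Helper43.TwoFam.mem_omegaGL_iff Q g).1 hg.2
      obtain ⟨σ, hσ⟩ := hg.1
      have h01 : σ 0 = 0 ∨ σ 0 = 1 := by
        generalize σ 0 = t
        fin_cases t <;> simp
      rcases h01 with h0 | h0
      · apply Helper43.TwoFam.mem_stab_of_img_eq
        have := hσ 0
        rw [h0] at this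
        exact this
      · exfalso
        have h3 := hσ 0
        rw [h0] at h3
        have hev := Helper43.TwoFam.even_of_swap hS hD0 hdisj x hx (le_of_eq h3)
        exact (Nat.not_even_iff_odd.2 hko) hev
    · obtain ⟨g₀, hg₀, hs1, hs2⟩ :=
        Helper43.TwoFam.exists_stab_plusE_not_plusE' (F := F) hab had hbd hcd
      refine ⟨Helper43.TwoFam.conjGL _ P' h1 h2 g₀,
        ⟨(Helper43.TwoFam.conjGL_mem_stab_iff _ _ h1 h2 hiff0 _).2 hs1,
          Helper43.TwoFam.conjGL_mem_omega _ _ h1 h2 hQP hg₀⟩, ?_⟩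
      intro hmem
      apply hs2
      rw [← Helper43.TwoFam.conjGL_mem_stab_iff _ _ h1 h2 hiff1]
      obtain ⟨σ, hσ⟩ := hmem.1
      have hst0 := Helper43.TwoFam.img_eq_of_mem_stab
        ((Helper43.TwoFam.conjGL_mem_stab_iff _ _ h1 h2 hiff0 _).2 hs1)
      have h3 := hσ 0
      have h4 : D (σ 0) = D 0 := by
        rw [← h3]
        exact hst0
      have h0 : σ 0 = 0 := by
        have h01 : σ 0 = 0 ∨ σ 0 = 1 := by
          generalize σ 0 = t
          fin_cases t <;> simp
        rcases h01 with h0 | h0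
        · exact h0
        · rw [h0] at h4
          exact absurd h4.symm hne01
      have h1' : σ 1 = 1 := by
        have h01 : σ 1 = 0 ∨ σ 1 = 1 := by
          generalize σ 1 = t
          fin_cases t <;> simp
        rcases h01 with h5 | h5
        · rw [← h0] at h5
          exact absurd (σ.injective h5) (by decide)
        · exact h5
      apply Helper43.TwoFam.mem_stab_of_img_eq
      have h6 := hσ 1
      rw [h1'] at h6
      exact h6
  · rw [SetLike.lt_iff_le_and_exists]
    refine ⟨inf_le_right, ?_⟩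
    obtain ⟨g₀, hg₀, hs⟩ := Helper43.TwoFam.exists_not_stab_plusE (F := F) hab
    refine ⟨Helper43.TwoFam.conjGL _ P' h1 h2 g₀,
      Helper43.TwoFam.conjGL_mem_omega _ _ h1 h2 hQP hg₀, ?_⟩
    intro hmem
    exact hs ((Helper43.TwoFam.conjGL_mem_stab_iff _ _ h1 h2 hiff0 _).1 hmem.1)

end Cfsg.Agent.S5698
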