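import Cfsg.Statements.S5704
import Cfsg.Agent.Helper96.T5Main

set_option autoImplicit false
open Cfsg

namespace Cfsg.Agent.S5704

/-- Let F be a finite field with q elements, n ≥ 13 even, Q a non-degenerate quadratic form on F^n of plus type (some subspace of dimension n/2 is totally singular), and Ω the commutator subgroup of the isometry group of Q, viewed inside GL_n(F). Suppose that, through a change of basis P and a bijection of index sets e, the polar form of Q is similar to the tensor product of non-degenerate symplectic forms f₁ on F^(n₁) and f₂ on F^(n₂) with n₁ < n₂, and Q vanishes on the images of all pure tensors. Unless q = 2 and n₁ = 2, the elements of Ω in the stabiliser of this tensor decomposition form a maximal subgroup of Ω. -/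
theorem result {F : Type*} [Field F] [Fintype F] {n : ℕ} (hn : 13 ≤ n) (heven : Even n) (Q : (Fin n → F) → F) (hQ : Cfsg.Geo.IsNondegenerateQuadraticForm Q) (hplus : Cfsg.Geo.IsPlusTypeOn Q ⊤) (n₁ n₂ : ℕ) (h12 : n₁ < n₂) (hex : ¬ (Fintype.card F = 2 ∧ n₁ = 2)) (e : (Fin n) ≃ Fin n₁ × Fin n₂) (P : Matrix.GeneralLinearGroup (Fin n) F) (f₁ : (Fin n₁ → F) → (Fin n₁ → F) → F) (f₂ : (Fin n₂ → F) → (Fin n₂ → F) → F) (hf₁ : Cfsg.Geo.IsSymplecticForm f₁) (hf₂ : Cfsg.Geo.IsSymplecticForm f₂) (hT : Cfsg.Geo.IsTensorFormStructure id (QuadraticMap.polar Q) f₁ f₂ e P) (hpure : (∀ (x₁ : Fin n₁ → F) (x₂ : Fin n₂ → F), Q (Matrix.mulVec (P : Matrix (Fin n) (Fin n) F) ((fun a : Fin n₁ × Fin n₂ => x₁ a.1 * x₂ a.2) ∘ e)) = 0)) : Cfsg.Geo.IsMaximalIn (Cfsg.Geo.omegaGL Q) (Cfsg.Geo.tensorProductSubgroup n₁ n₂ e P ⊓ Cfsg.Geo.omegaGL Q) := by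
  exact Cfsg.Agent.Helper96.T5Main.sp_tensor_maximal hn Q hQ n₁ n₂ h12 hex e P f₁ f₂ hf₁ hf₂ hT hpure

end Cfsg.Agent.S5704
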