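import Cfsg.Statements.S5707
import Cfsg.Agent.Helper96.CWAsm

set_option autoImplicit false
open Cfsg

namespace Cfsg.Agent.S5707

/-- Let F be a finite field with q elements, n ≥ 13 even, Q a non-degenerate quadratic form on F^n of plus type (some subspace of dimension n/2 is totally singular), and Ω the commutator subgroup of the isometry group of Q, viewed inside GL_n(F). Suppose q is even and that, through P and e, the polar form of Q is similar to the t-fold tensor power (t ≥ 2) of a non-degenerate symplectic form f₁ on F^k with k ≤ 4 and (q, k) ≠ (2, 2), Q vanishing on the images of all pure tensors. Then the elements of Ω in the stabiliser of this decomposition form a subgroup that is not maximal: some subgroup lies strictly between it and Ω. -/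
theorem result {F : Type*} [Field F] [Fintype F] {n : ℕ} (hn : 13 ≤ n) (heven : Even n) (Q : (Fin n → F) → F) (hQ : Cfsg.Geo.IsNondegenerateQuadraticForm Q) (hplus : Cfsg.Geo.IsPlusTypeOn Q ⊤) (hchar : ¬ Odd (Fintype.card F)) (k t : ℕ) (ht : 2 ≤ t) (hk : k ≤ 4) (hex1 : ¬ (Fintype.card F = 2 ∧ k = 2)) (e : (Fin n) ≃ (Fin t → Fin k)) (P : Matrix.GeneralLinearGroup (Fin n) F) (f₁ : (Fin k → F) → (Fin k → F) → F) (hf₁ : Cfsg.Geo.IsSymplecticForm f₁) (hT : Cfsg.Geo.IsTensorPowerFormStructure id (QuadraticMap.polar Q) f₁ e P) (hpure : (∀ xs : Fin t → (Fin k → F), Q (Matrix.mulVec (P : Matrix (Fin n) (Fin n) F) ((fun a : Fin t → Fin k => ∏ i, xs i (a i)) ∘ e)) = 0)) : ∃ K : Subgroup (Matrix.GeneralLinearGroup (Fin n) F), Cfsg.Geo.tensorWreathSubgroup k t e P ⊓ Cfsg.Geo.omegaGL Q < K ∧ K < Cfsg.Geo.omegaGL Q := by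
  exact Cfsg.Agent.Helper96.CWAsm.not_maximal hn Q hQ hchar k t ht hk hex1 e P f₁ hf₁ hT hpure

end Cfsg.Agent.S5707
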