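import Cfsg.Statements.S5775
import Cfsg.Agent.Helper97.PrimeDim

set_option autoImplicit false
open Cfsg
open Cfsg.Geo Matrix

namespace Cfsg.Agent.S5775

section Aux


/-- A field with 64 elements contains a root of `x^3 = x + 1`. -/
theorem exists_root {R : Type*} [Field R] [Finite R] (h : Nat.card R = 64) :
    ∃ w : R, w * w * w = w + 1 := by
  classical
  have : Fintype R := Fintype.ofFinite R
  have h2 : (2 : R) = 0 := by
    have h64 : ((Fintype.card R : ℕ) : R) = 0 := Nat.cast_card_eq_zero R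
    rw [← Nat.card_eq_fintype_card, h] at h64
    have h64' : (2 : R) ^ 6 = 0 := by
      rw [← h64]; norm_num
    exact pow_eq_zero_iff (by norm_num) |>.mp h64'
  have hcardU : Nat.card Rˣ = 63 := by rw [Nat.card_units, h]
  have : Fact (Nat.Prime 7) := ⟨by norm_num⟩
  obtain ⟨u', hu'⟩ := exists_prime_orderOf_dvd_card' (G := Rˣ) 7 (by rw [hcardU]; norm_num)
  set u : R := (u' : R) with hu
  have h7 : u ^ 7 = 1 := by
    have : u' ^ 7 = 1 := by rw [← hu']; exact pow_orderOf_eq_one u'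
    rw [hu, ← Units.val_pow_eq_pow_val, this, Units.val_one]
  have hne : u ≠ 1 := by
    intro h1
    have : u' = 1 := Units.ext (by rw [← hu, h1, Units.val_one])
    rw [this, orderOf_one] at hu'
    norm_num at hu'
  have hprod : (u + 1) * (u ^ 3 + u + 1) * (u ^ 3 + u ^ 2 + 1) = 0 := by
    linear_combination h7 + (u ^ 6 + u ^ 5 + 2 * u ^ 4 + 2 * u ^ 3 + u ^ 2 + u + 1) * h2
  rcases mul_eq_zero.mp hprod with hAB | hB
  · rcases mul_eq_zero.mp hAB with h1 | hA
    · exact absurd (by linear_combination h1 - h2) hne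
    · exact ⟨u, by linear_combination hA - (u + 1) * h2⟩
  · refine ⟨u ^ 6, ?_⟩
    linear_combination (u ^ 15 - u ^ 14 + u ^ 13 - 2 * u ^ 12 + 3 * u ^ 11 - 4 * u ^ 10 + 6 * u ^ 9
      - 9 * u ^ 8 + 13 * u ^ 7 - 19 * u ^ 6 + 28 * u ^ 5 - 41 * u ^ 4 + 59 * u ^ 3 - 87 * u ^ 2
      + 128 * u - 187) * hB + (137 * u ^ 2 - 64 * u + 93) * h2

variable {F : Type*} [Field F] [Fintype F]

theorem exists_c (h4 : Fintype.card F = 4) (K : Subalgebra F (Matrix (Fin 3) (Fin 3) F))
    (hK : IsFieldSubalgebra 3 K) : ∃ c ∈ K, c * c * c = c + 1 := by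
  have hIF : IsField K :=
    { exists_pair_ne := ⟨0, 1, fun h => by
        have h2 : ((0 : K) : Matrix (Fin 3) (Fin 3) F) = ((1 : K) : Matrix (Fin 3) (Fin 3) F) := by
          rw [h]
        have h3 := congrFun (congrFun h2 0) 0
        simp at h3⟩
      mul_comm := fun x y => Subtype.ext (hK.comm x x.2 y y.2)
      mul_inv_cancel := fun {a} ha => by
        obtain ⟨y, hy, hxy⟩ := hK.inv a a.2 (fun h => ha (Subtype.ext h))
        exact ⟨⟨y, hy⟩, Subtype.ext hxy⟩ }
  have hcard : Nat.card K = 64 := by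
    rw [Module.natCard_eq_pow_finrank (K := F), hK.finrank_eq, Nat.card_eq_fintype_card, h4]
    norm_num
  obtain ⟨w, hw⟩ := @exists_root K hIF.toField _ hcard
  refine ⟨w, w.2, ?_⟩
  have := congrArg Subtype.val hw
  exact this

theorem two0 (h4 : Fintype.card F = 4) : (2 : F) = 0 := by
  have h : ((Fintype.card F : ℕ) : F) = 0 := Nat.cast_card_eq_zero F
  rw [h4] at h
  have h' : (2 : F) * 2 = 0 := by rw [← h]; norm_num
  exact mul_self_eq_zero.mp h'

theorem pow4 (h4 : Fintype.card F = 4) (a : F) : a * a * (a * a) = a := by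
  have h := FiniteField.pow_card a
  rw [h4] at h
  calc a * a * (a * a) = a ^ 4 := by ring
    _ = a := h

theorem add_self0 (h4 : Fintype.card F = 4) (a : F) : a + a = 0 := by
  linear_combination a * two0 h4

theorem sq_add (h4 : Fintype.card F = 4) (a b : F) : (a + b) * (a + b) = a * a + b * b := by
  linear_combination a * b * two0 h4

theorem noroot (h4 : Fintype.card F = 4) (s : F) : s * s * s ≠ s + 1 := by
  intro h
  have h1 : s * s = 0 := by
    have h3 := pow4 h4 s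
    have h2 : s * s * (s * s) = s * s + s := by linear_combination s * h
    rw [h3] at h2
    linear_combination -h2
  have hs : s = 0 := mul_self_eq_zero.mp h1
  rw [hs] at h
  simp at h

/-- Elements of `F[c]` in coordinates. -/
def ev (c : Matrix (Fin 3) (Fin 3) F) (a b d : F) : Matrix (Fin 3) (Fin 3) F :=
  a • (1 : Matrix (Fin 3) (Fin 3) F) + b • c + d • (c * c)

omit [Fintype F] in
theorem ev_mul (c : Matrix (Fin 3) (Fin 3) F) (hc : c * c * c = c + 1) (a b d a' b' d' : F) :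
    ev c a b d * ev c a' b' d' = ev c (a * a' + b * d' + d * b')
      (a * b' + b * a' + b * d' + d * b' + d * d') (a * d' + b * b' + d * a' + d * d') := by
  have h3 : c * (c * c) = c + 1 := by rw [← mul_assoc, hc]
  have h4 : c * c * (c * c) = c * c + c := by
    calc c * c * (c * c) = (c * c * c) * c := by simp only [mul_assoc]
      _ = c * c + c := by rw [hc, add_mul, one_mul]
  unfold ev
  simp only [add_mul, mul_add, smul_mul_assoc, mul_smul_comm, smul_smul, one_mul, mul_one,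
    smul_add, hc, h3, h4]
  module

theorem not_scalar (h4 : Fintype.card F = 4) (c : Matrix (Fin 3) (Fin 3) F)
    (hc : c * c * c = c + 1) (s : F) : c ≠ s • (1 : Matrix (Fin 3) (Fin 3) F) := by
  intro hs
  have h1 : (s * s * s) • (1 : Matrix (Fin 3) (Fin 3) F) = (s + 1) • (1 : Matrix (Fin 3) (Fin 3) F) := by
    calc (s * s * s) • (1 : Matrix (Fin 3) (Fin 3) F)
        = (s • (1 : Matrix (Fin 3) (Fin 3) F)) * (s • (1 : Matrix (Fin 3) (Fin 3) F))
          * (s • (1 : Matrix (Fin 3) (Fin 3) F)) := by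
          simp only [smul_mul_assoc, mul_smul_comm, one_mul, smul_smul]
          congr 1; ring
      _ = c * c * c := by rw [← hs]
      _ = c + 1 := hc
      _ = s • (1 : Matrix (Fin 3) (Fin 3) F) + 1 := by rw [← hs]
      _ = (s + 1) • (1 : Matrix (Fin 3) (Fin 3) F) := by rw [add_smul, one_smul]
  have h2 := congrFun (congrFun h1 0) 0
  simp at h2
  exact noroot h4 s h2

theorem not_quad (h4 : Fintype.card F = 4) (c : Matrix (Fin 3) (Fin 3) F)
    (hc : c * c * c = c + 1) (α β : F) :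
    c * c ≠ α • c + β • (1 : Matrix (Fin 3) (Fin 3) F) := by
  intro hq
  have h3 : c + 1 = (α * α + β) • c + (α * β) • (1 : Matrix (Fin 3) (Fin 3) F) := by
    calc c + 1 = c * c * c := hc.symm
      _ = (α • c + β • (1 : Matrix (Fin 3) (Fin 3) F)) * c := by rw [hq]
      _ = α • (c * c) + β • c := by rw [add_mul, smul_mul_assoc, smul_mul_assoc, one_mul]
      _ = α • (α • c + β • (1 : Matrix (Fin 3) (Fin 3) F)) + β • c := by rw [hq]
      _ = _ := by module
  have h5 : (α * α + β + 1) • c = (α * β + 1) • (1 : Matrix (Fin 3) (Fin 3) F) := by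
    linear_combination (norm := module)
      -h3 + (two0 h4) • (c - (α * β) • (1 : Matrix (Fin 3) (Fin 3) F))
  by_cases h0 : α * α + β + 1 = 0
  · rw [h0, zero_smul] at h5
    have h6 := congrFun (congrFun h5 0) 0
    simp only [Matrix.zero_apply, Matrix.smul_apply, Matrix.one_apply_eq, smul_eq_mul,
      mul_one] at h6
    apply noroot h4 α
    linear_combination α * h0 + h6 - α * two0 h4
  · apply not_scalar h4 c hc ((α * α + β + 1)⁻¹ * (α * β + 1))
    calc c = (α * α + β + 1)⁻¹ • ((α * α + β + 1) • c) := by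
          rw [smul_smul, inv_mul_cancel₀ h0, one_smul]
      _ = _ := by rw [h5, smul_smul]

theorem ev_eq_zero (h4 : Fintype.card F = 4) (c : Matrix (Fin 3) (Fin 3) F)
    (hc : c * c * c = c + 1) (a b d : F) (h : ev c a b d = 0) : a = 0 ∧ b = 0 ∧ d = 0 := by
  have hd : d = 0 := by
    by_contra hd
    apply not_quad h4 c hc (-(d⁻¹ * b)) (-(d⁻¹ * a))
    calc c * c = d⁻¹ • (d • (c * c)) := by rw [smul_smul, inv_mul_cancel₀ hd, one_smul]
      _ = d⁻¹ • (ev c a b d - a • (1 : Matrix (Fin 3) (Fin 3) F) - b • c) := by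
          unfold ev; congr 1; abel
      _ = _ := by rw [h]; module
  subst hd
  have hb : b = 0 := by
    by_contra hb
    apply not_scalar h4 c hc (-(b⁻¹ * a))
    calc c = b⁻¹ • (b • c) := by rw [smul_smul, inv_mul_cancel₀ hb, one_smul]
      _ = b⁻¹ • (ev c a b 0 - a • (1 : Matrix (Fin 3) (Fin 3) F)) := by
          unfold ev; congr 1; module
      _ = _ := by rw [h]; module
  subst hb
  have ha : a = 0 := by
    have h6 := congrFun (congrFun h 0) 0
    simpa [ev] using h6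
  exact ⟨ha, rfl, rfl⟩

theorem ev_inj (h4 : Fintype.card F = 4) (c : Matrix (Fin 3) (Fin 3) F)
    (hc : c * c * c = c + 1) (a b d a' b' d' : F) (h : ev c a b d = ev c a' b' d') :
    a = a' ∧ b = b' ∧ d = d' := by
  have h0 : ev c (a - a') (b - b') (d - d') = 0 := by
    have : ev c (a - a') (b - b') (d - d') = ev c a b d - ev c a' b' d' := by
      unfold ev; module
    rw [this, h, sub_self]
  obtain ⟨h1, h2, h3⟩ := ev_eq_zero h4 c hc _ _ _ h0
  exact ⟨sub_eq_zero.mp h1, sub_eq_zero.mp h2, sub_eq_zero.mp h3⟩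

theorem ev_pow2 (h4 : Fintype.card F = 4) (c : Matrix (Fin 3) (Fin 3) F)
    (hc : c * c * c = c + 1) (a b d : F) :
    ev c a b d ^ 2 = ev c (a * a) (d * d) (b * b + d * d) := by
  rw [pow_two, ev_mul c hc]
  have e1 : a * a + b * d + d * b = a * a := by linear_combination (b * d) * two0 h4
  have e2 : a * b + b * a + b * d + d * b + d * d = d * d := by
    linear_combination (a * b + b * d) * two0 h4
  have e3 : a * d + b * b + d * a + d * d = b * b + d * d := by
    linear_combination (a * d) * two0 h4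
  rw [e1, e2, e3]

theorem ev_pow4 (h4 : Fintype.card F = 4) (c : Matrix (Fin 3) (Fin 3) F)
    (hc : c * c * c = c + 1) (a b d : F) :
    ev c a b d ^ 4 = ev c a (b + d) b := by
  have h : ev c a b d ^ 4 = (ev c a b d ^ 2) ^ 2 := by rw [← pow_mul]
  rw [h, ev_pow2 h4 c hc, ev_pow2 h4 c hc]
  have e1 : a * a * (a * a) = a := pow4 h4 a
  have e2 : (b * b + d * d) * (b * b + d * d) = b + d := by
    rw [sq_add h4, pow4 h4, pow4 h4]
  have e3 : d * d * (d * d) + (b * b + d * d) * (b * b + d * d) = b := by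
    rw [e2, pow4 h4]; linear_combination d * two0 h4
  rw [e3, e2, e1]

theorem ev_pow8 (h4 : Fintype.card F = 4) (c : Matrix (Fin 3) (Fin 3) F)
    (hc : c * c * c = c + 1) (a b d : F) :
    ev c a b d ^ 8 = ev c (a * a) (b * b) (d * d) := by
  have h : ev c a b d ^ 8 = (ev c a b d ^ 4) ^ 2 := by rw [← pow_mul]
  rw [h, ev_pow4 h4 c hc, ev_pow2 h4 c hc]
  have e3 : (b + d) * (b + d) + b * b = d * d := by
    rw [sq_add h4]; linear_combination (b * b) * two0 h4
  rw [e3]

theorem ev_pow16 (h4 : Fintype.card F = 4) (c : Matrix (Fin 3) (Fin 3) F)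
    (hc : c * c * c = c + 1) (a b d : F) :
    ev c a b d ^ 16 = ev c a d (b + d) := by
  have h : ev c a b d ^ 16 = (ev c a b d ^ 4) ^ 4 := by rw [← pow_mul]
  rw [h, ev_pow4 h4 c hc, ev_pow4 h4 c hc]
  have e2 : b + d + b = d := by linear_combination b * two0 h4
  rw [e2]

/-- The regular representation of `F[c]` on the basis `1, c, c^2`. -/
def rho (a b d : F) : Matrix (Fin 3) (Fin 3) F :=
  !![a, d, b; b, a + d, b + d; d, b, a + d]

theorem ev_pow21 (h4 : Fintype.card F = 4) (c : Matrix (Fin 3) (Fin 3) F)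
    (hc : c * c * c = c + 1) (a b d : F) :
    ev c a b d ^ 21 = (rho a b d).det • (1 : Matrix (Fin 3) (Fin 3) F) := by
  have h : ev c a b d ^ 21 = ev c a b d * ev c a b d ^ 4 * ev c a b d ^ 16 := by
    rw [← pow_succ', ← pow_add]
  rw [h, ev_pow4 h4 c hc, ev_pow16 h4 c hc, ev_mul c hc, ev_mul c hc]
  have hdet : (rho a b d).det = a ^ 3 + 2 * a ^ 2 * d - a * b ^ 2 - 3 * a * b * d + a * d ^ 2
      + b ^ 3 - b * d ^ 2 + d ^ 3 := by
    rw [rho, Matrix.det_fin_three]
    simp only [Matrix.of_apply, Matrix.cons_val', Matrix.cons_val_zero, Matrix.cons_val_one,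
      Matrix.cons_val_two, Matrix.empty_val', Matrix.cons_val_fin_one, Matrix.head_cons,
      Matrix.tail_cons, Matrix.head_fin_const]
    ring
  have e1 : (a * a + b * b + d * (b + d)) * a + (a * (b + d) + b * a + b * b + d * (b + d) + d * b) * (b + d)
      + (a * b + b * (b + d) + d * a + d * b) * d = (rho a b d).det := by
    rw [hdet]
    linear_combination (-a ^ 2 * d + 2 * a * b ^ 2 + 4 * a * b * d + a * d ^ 2 + 2 * b ^ 2 * d
      + 3 * b * d ^ 2) * two0 h4
  have e2 : (a * a + b * b + d * (b + d)) * d + (a * (b + d) + b * a + b * b + d * (b + d) + d * b) * a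
      + (a * (b + d) + b * a + b * b + d * (b + d) + d * b) * (b + d)
      + (a * b + b * (b + d) + d * a + d * b) * d + (a * b + b * (b + d) + d * a + d * b) * (b + d) = 0 := by
    linear_combination (a ^ 2 * b + a ^ 2 * d + 2 * a * b ^ 2 + 4 * a * b * d + 2 * a * d ^ 2 + b ^ 3
      + 4 * b ^ 2 * d + 4 * b * d ^ 2 + d ^ 3) * two0 h4
  have e3 : (a * a + b * b + d * (b + d)) * (b + d)
      + (a * (b + d) + b * a + b * b + d * (b + d) + d * b) * d
      + (a * b + b * (b + d) + d * a + d * b) * a + (a * b + b * (b + d) + d * a + d * b) * (b + d) = 0 := by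
    linear_combination (a ^ 2 * b + a ^ 2 * d + a * b ^ 2 + 3 * a * b * d + a * d ^ 2 + b ^ 3
      + 3 * b ^ 2 * d + 3 * b * d ^ 2 + d ^ 3) * two0 h4
  rw [e1, e2, e3]
  unfold ev
  module

/-- The prime subfield of a field with four elements: the idempotents. -/
def F0 (h4 : Fintype.card F = 4) : Subfield F where
  carrier := {x | x * x = x}
  mul_mem' := fun {a b} ha hb => by
    have ha' : a * a = a := ha
    have hb' : b * b = b := hb
    show a * b * (a * b) = a * b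
    linear_combination (b * b) * ha' + a * hb'
  one_mem' := mul_one 1
  add_mem' := fun {a b} ha hb => by
    have ha' : a * a = a := ha
    have hb' : b * b = b := hb
    show (a + b) * (a + b) = a + b
    rw [sq_add h4, ha', hb']
  zero_mem' := mul_zero 0
  neg_mem' := fun {a} ha => by
    have ha' : a * a = a := ha
    show (-a) * (-a) = -a
    linear_combination ha' + a * two0 h4
  inv_mem' := fun a ha => by
    have ha' : a * a = a := ha
    show a⁻¹ * a⁻¹ = a⁻¹
    by_cases h0 : a = 0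
    · rw [h0, _root_.inv_zero, mul_zero]
    · have h1 : a = 1 := mul_left_cancel₀ h0 (ha'.trans (mul_one a).symm)
      rw [h1, _root_.inv_one, mul_one]

theorem mem_F0 (h4 : Fintype.card F = 4) (x : F) : x ∈ F0 h4 ↔ x * x = x := Iff.rfl

theorem F0_cases (h4 : Fintype.card F = 4) (x : F) (hx : x ∈ F0 h4) : x = 0 ∨ x = 1 := by
  have hx' : x * x = x := hx
  by_cases h0 : x = 0
  · exact Or.inl h0
  · exact Or.inr (mul_left_cancel₀ h0 (hx'.trans (mul_one x).symm))

theorem card_F0 (h4 : Fintype.card F = 4) : Nat.card (F0 h4) = 2 := by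
  rw [Nat.card_eq_two_iff]
  refine ⟨0, 1, zero_ne_one, ?_⟩
  ext z
  simp only [Set.mem_insert_iff, Set.mem_singleton_iff, Set.mem_univ, iff_true]
  rcases F0_cases h4 z.1 z.2 with h | h
  · exact Or.inl (Subtype.ext h)
  · exact Or.inr (Subtype.ext h)

theorem card_eq_F0 (h4 : Fintype.card F = 4) : Fintype.card F = Nat.card (F0 h4) ^ 2 := by
  rw [card_F0 h4, h4]
  norm_num

omit [Fintype F] in
/-- A matrix with entries in a subfield has its determinant there. -/
theorem det_mem_of_entries (S : Subfield F) (E : Matrix (Fin 3) (Fin 3) F)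
    (hE : ∀ i j, E i j ∈ S) : E.det ∈ S := by
  set E₀ : Matrix (Fin 3) (Fin 3) S := Matrix.of (fun i j => (⟨E i j, hE i j⟩ : S)) with hE₀
  have h1 : E = E₀.map S.subtype := by
    ext i j
    rfl
  have h2 : (E₀.map S.subtype).det = S.subtype E₀.det := (RingHom.map_det S.subtype E₀).symm
  rw [h1, h2]
  exact E₀.det.2

omit [Fintype F] in
theorem mul_mem_of_entries (S : Subfield F) (A B : Matrix (Fin 3) (Fin 3) F)
    (hA : ∀ i j, A i j ∈ S) (hB : ∀ i j, B i j ∈ S) : ∀ i j, (A * B) i j ∈ S := by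
  intro i j
  rw [Matrix.mul_apply]
  exact S.sum_mem (fun k _ => S.mul_mem (hA i k) (hB k j))

omit [Fintype F] in
theorem evalInj (K : Subalgebra F (Matrix (Fin 3) (Fin 3) F)) (hK : IsFieldSubalgebra 3 K)
    (x : Matrix (Fin 3) (Fin 3) F) (hx : x ∈ K) (v : Fin 3 → F) (hv : v ≠ 0)
    (h : x *ᵥ v = 0) : x = 0 := by
  by_contra hx0
  obtain ⟨y, hy, hxy⟩ := hK.inv x hx hx0
  have hyx : y * x = 1 := by rw [← hK.comm x hx y hy]; exact hxy
  apply hv
  calc v = (y * x) *ᵥ v := by rw [hyx, Matrix.one_mulVec]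
    _ = y *ᵥ (x *ᵥ v) := by rw [Matrix.mulVec_mulVec]
    _ = 0 := by rw [h, Matrix.mulVec_zero]

omit [Fintype F] in
theorem ev_mem (K : Subalgebra F (Matrix (Fin 3) (Fin 3) F)) (c : Matrix (Fin 3) (Fin 3) F)
    (hcK : c ∈ K) (a b d : F) : ev c a b d ∈ K :=
  K.add_mem (K.add_mem (K.smul_mem K.one_mem a) (K.smul_mem hcK b))
    (K.smul_mem (K.mul_mem hcK hcK) d)

/-- The matrix with columns `v, c v, c^2 v`. -/
def Pm (c : Matrix (Fin 3) (Fin 3) F) (v : Fin 3 → F) : Matrix (Fin 3) (Fin 3) F :=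
  Matrix.of (fun i j => ![v, c *ᵥ v, (c * c) *ᵥ v] j i)

omit [Fintype F] in
theorem Pm_mulVec (c : Matrix (Fin 3) (Fin 3) F) (v w : Fin 3 → F) :
    Pm c v *ᵥ w = ev c (w 0) (w 1) (w 2) *ᵥ v := by
  rw [ev, Matrix.add_mulVec, Matrix.add_mulVec, Matrix.smul_mulVec, Matrix.smul_mulVec,
    Matrix.smul_mulVec, Matrix.one_mulVec]
  ext i
  rw [Matrix.mulVec, dotProduct, Fin.sum_univ_three]
  simp only [Pm, Matrix.of_apply, Matrix.cons_val_zero, Matrix.cons_val_one, Matrix.cons_val_two,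
    Pi.add_apply, Pi.smul_apply, smul_eq_mul]
  simp
  ring

theorem Pm_det (h4 : Fintype.card F = 4) (K : Subalgebra F (Matrix (Fin 3) (Fin 3) F))
    (hK : IsFieldSubalgebra 3 K) (c : Matrix (Fin 3) (Fin 3) F) (hcK : c ∈ K)
    (hc : c * c * c = c + 1) (v : Fin 3 → F) (hv : v ≠ 0) : (Pm c v).det ≠ 0 := by
  apply Cfsg.Agent.Helper97.det_ne_zero_of_injective
  intro w hw
  rw [Pm_mulVec] at hw
  have h0 := evalInj K hK _ (ev_mem K c hcK _ _ _) v hv hw
  obtain ⟨h1, h2, h3⟩ := ev_eq_zero h4 c hc _ _ _ h0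
  ext i
  fin_cases i
  · exact h1
  · exact h2
  · exact h3

theorem exists_vec (h4 : Fintype.card F = 4) (K : Subalgebra F (Matrix (Fin 3) (Fin 3) F))
    (hK : IsFieldSubalgebra 3 K) (c : Matrix (Fin 3) (Fin 3) F) (hcK : c ∈ K)
    (hc : c * c * c = c + 1) (v : Fin 3 → F) (hv : v ≠ 0) (u : Fin 3 → F) :
    ∃ a b d : F, ev c a b d *ᵥ v = u := by
  have hdet := Pm_det h4 K hK c hcK hc v hv
  refine ⟨((Pm c v)⁻¹ *ᵥ u) 0, ((Pm c v)⁻¹ *ᵥ u) 1, ((Pm c v)⁻¹ *ᵥ u) 2, ?_⟩
  rw [← Pm_mulVec, Matrix.mulVec_mulVec,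
    Matrix.mul_nonsing_inv (Pm c v) (isUnit_iff_ne_zero.mpr hdet), Matrix.one_mulVec]

theorem exists_ev (h4 : Fintype.card F = 4) (K : Subalgebra F (Matrix (Fin 3) (Fin 3) F))
    (hK : IsFieldSubalgebra 3 K) (c : Matrix (Fin 3) (Fin 3) F) (hcK : c ∈ K)
    (hc : c * c * c = c + 1) (k : Matrix (Fin 3) (Fin 3) F) (hk : k ∈ K) :
    ∃ a b d : F, k = ev c a b d := by
  obtain ⟨v, hv⟩ : ∃ v : Fin 3 → F, v ≠ 0 := ⟨fun _ => 1, fun h => one_ne_zero (congrFun h 0)⟩
  obtain ⟨a, b, d, h⟩ := exists_vec h4 K hK c hcK hc v hv (k *ᵥ v)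
  refine ⟨a, b, d, ?_⟩
  have h0 : (k - ev c a b d) *ᵥ v = 0 := by rw [Matrix.sub_mulVec, h, sub_self]
  exact sub_eq_zero.mp (evalInj K hK _ (K.sub_mem hk (ev_mem K c hcK _ _ _)) v hv h0)

/-- Elements fixed by the eighth power map have coordinates in the prime field. -/
theorem idem_of_pow8 (h4 : Fintype.card F = 4) (K : Subalgebra F (Matrix (Fin 3) (Fin 3) F))
    (hK : IsFieldSubalgebra 3 K) (c : Matrix (Fin 3) (Fin 3) F) (hcK : c ∈ K)
    (hc : c * c * c = c + 1) (y : Matrix (Fin 3) (Fin 3) F) (hy : y ∈ K) (h8 : y ^ 8 = y) :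
    ∃ a b d : F, a ∈ F0 h4 ∧ b ∈ F0 h4 ∧ d ∈ F0 h4 ∧ y = ev c a b d := by
  obtain ⟨a, b, d, rfl⟩ := exists_ev h4 K hK c hcK hc y hy
  rw [ev_pow8 h4 c hc] at h8
  obtain ⟨h1, h2, h3⟩ := ev_inj h4 c hc _ _ _ _ _ _ h8
  exact ⟨a, b, d, h1, h2, h3, rfl⟩

/-- Cube roots of unity are scalars. -/
theorem scalar_of_pow3 (h4 : Fintype.card F = 4) (K : Subalgebra F (Matrix (Fin 3) (Fin 3) F))
    (hK : IsFieldSubalgebra 3 K) (c : Matrix (Fin 3) (Fin 3) F) (hcK : c ∈ K)
    (hc : c * c * c = c + 1) (y : Matrix (Fin 3) (Fin 3) F) (hy : y ∈ K) (h3 : y ^ 3 = 1) :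
    ∃ s : F, y = s • (1 : Matrix (Fin 3) (Fin 3) F) := by
  obtain ⟨a, b, d, rfl⟩ := exists_ev h4 K hK c hcK hc y hy
  have h : ev c a b d ^ 4 = ev c a b d := by
    rw [pow_succ, h3, one_mul]
  rw [ev_pow4 h4 c hc] at h
  obtain ⟨-, h2, h3'⟩ := ev_inj h4 c hc _ _ _ _ _ _ h
  have hd : d = 0 := by linear_combination h2
  have hb : b = 0 := by rw [h3', hd]
  refine ⟨a, ?_⟩
  rw [hb, hd]
  unfold ev
  module

omit [Fintype F] in
/-- The action of `F[c]` on the basis `v, c v, c^2 v`. -/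
theorem ev_mul_Pm (c : Matrix (Fin 3) (Fin 3) F) (hc : c * c * c = c + 1) (v : Fin 3 → F)
    (a b d : F) : ev c a b d * Pm c v = Pm c v * rho a b d := by
  rw [Matrix.ext_iff_mulVec]
  intro w
  rw [← Matrix.mulVec_mulVec, ← Matrix.mulVec_mulVec, Pm_mulVec, Pm_mulVec, Matrix.mulVec_mulVec,
    ev_mul c hc]
  congr 2
  · simp [rho, Matrix.mulVec, dotProduct, Fin.sum_univ_three]
    ring
  · simp [rho, Matrix.mulVec, dotProduct, Fin.sum_univ_three]
    ring
  · simp [rho, Matrix.mulVec, dotProduct, Fin.sum_univ_three]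
    ring

omit [Fintype F] in
theorem rho_smul (s a b d : F) : rho (s * a) (s * b) (s * d) = s • rho a b d := by
  ext i j
  fin_cases i <;> fin_cases j <;> simp [rho] <;> ring

omit [Fintype F] in
theorem rho_mem (S : Subfield F) (a b d : F) (ha : a ∈ S) (hb : b ∈ S) (hd : d ∈ S) :
    ∀ i j, rho a b d i j ∈ S := by
  intro i j
  fin_cases i <;> fin_cases j <;>
    first
    | exact ha
    | exact hb
    | exact hd
    | exact S.add_mem ha hd
    | exact S.add_mem hb hd

/-- The coordinates of `1, c', c'^2` for `c'` with coordinates `a, b, d` in the prime field. -/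
def E1 (a b d : F) : Matrix (Fin 3) (Fin 3) F :=
  !![1, a, a; 0, b, d; 0, d, b + d]

omit [Fintype F] in
theorem E1_mem (S : Subfield F) (a b d : F) (ha : a ∈ S) (hb : b ∈ S) (hd : d ∈ S) :
    ∀ i j, E1 a b d i j ∈ S := by
  intro i j
  fin_cases i <;> fin_cases j <;>
    first
    | exact ha
    | exact hb
    | exact hd
    | exact S.add_mem hb hd
    | exact S.one_mem
    | exact S.zero_mem

omit [Fintype F] in
theorem E1_mulVec0 (a b d : F) (w : Fin 3 → F) :
    (E1 a b d *ᵥ w) 0 = w 0 + a * w 1 + a * w 2 := by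
  simp [E1, Matrix.mulVec, dotProduct, Fin.sum_univ_three]

omit [Fintype F] in
theorem E1_mulVec1 (a b d : F) (w : Fin 3 → F) :
    (E1 a b d *ᵥ w) 1 = b * w 1 + d * w 2 := by
  simp [E1, Matrix.mulVec, dotProduct, Fin.sum_univ_three]

omit [Fintype F] in
theorem E1_mulVec2 (a b d : F) (w : Fin 3 → F) :
    (E1 a b d *ᵥ w) 2 = d * w 1 + (b + d) * w 2 := by
  simp [E1, Matrix.mulVec, dotProduct, Fin.sum_univ_three]

omit [Fintype F] in
/-- A matrix which is, in the basis `P`, a scalar multiple of a matrix over the subfield lies in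
the subfield group. -/
theorem mem_subfieldSubgroup_of (S : Subfield F) (P g : GL (Fin 3) F)
    (E : Matrix (Fin 3) (Fin 3) F) (hE : ∀ i j, E i j ∈ S) (lam : F)
    (h : (g : Matrix (Fin 3) (Fin 3) F) * (P : Matrix (Fin 3) (Fin 3) F)
      = lam • ((P : Matrix (Fin 3) (Fin 3) F) * E)) : g ∈ subfieldSubgroup S P := by
  set E₀ : Matrix (Fin 3) (Fin 3) S := Matrix.of (fun i j => (⟨E i j, hE i j⟩ : S)) with hE₀
  have h1 : E = E₀.map S.subtype := by
    ext i j
    rfl
  have hdetE : (E₀.map S.subtype).det = S.subtype E₀.det := (RingHom.map_det S.subtype E₀).symm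
  have hgdet : (g : Matrix (Fin 3) (Fin 3) F).det ≠ 0 :=
    ((Matrix.isUnit_iff_isUnit_det _).mp g.isUnit).ne_zero
  have hPdet : (P : Matrix (Fin 3) (Fin 3) F).det ≠ 0 :=
    ((Matrix.isUnit_iff_isUnit_det _).mp P.isUnit).ne_zero
  have hd := congrArg Matrix.det h
  rw [Matrix.det_mul, Matrix.det_smul, Matrix.det_mul, Fintype.card_fin] at hd
  have hlam : lam ≠ 0 := by
    rintro rfl
    rw [zero_pow (by norm_num), zero_mul] at hd
    exact mul_ne_zero hgdet hPdet hd
  have hdetE0 : E.det ≠ 0 := by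
    intro h0
    rw [h0, mul_zero, mul_zero] at hd
    exact mul_ne_zero hgdet hPdet hd
  have hdet1 : E₀.det ≠ 0 := by
    intro h0
    apply hdetE0
    rw [h1, hdetE, h0, map_zero]
  set g₀ : GL (Fin 3) S := Matrix.GeneralLinearGroup.mkOfDetNeZero E₀ hdet1 with hg₀
  have hzdet : (lam • (1 : Matrix (Fin 3) (Fin 3) F)).det ≠ 0 := by
    rw [Matrix.det_smul, Matrix.det_one, mul_one]
    exact pow_ne_zero _ hlam
  set z : GL (Fin 3) F :=
    Matrix.GeneralLinearGroup.mkOfDetNeZero (lam • (1 : Matrix (Fin 3) (Fin 3) F)) hzdet with hz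
  have hzmem : z ∈ scalars (Fin 3) F := (mem_scalars_iff z).mpr ⟨Units.mk0 lam hlam, rfl⟩
  have hprod : P⁻¹ * g * P = Matrix.GeneralLinearGroup.map (S.subtype : S →+* F) g₀ * z := by
    apply Units.ext
    rw [Units.val_mul, Units.val_mul, Units.val_mul]
    change ((P⁻¹ : GL (Fin 3) F) : Matrix (Fin 3) (Fin 3) F) * (g : Matrix (Fin 3) (Fin 3) F)
      * (P : Matrix (Fin 3) (Fin 3) F) = E₀.map S.subtype * (lam • (1 : Matrix (Fin 3) (Fin 3) F))
    rw [mul_assoc, h, Matrix.mul_smul, ← mul_assoc, ← Units.val_mul, inv_mul_cancel, Units.val_one,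
      one_mul, Matrix.mul_smul, mul_one, h1]
  rw [subfieldSubgroup, Subgroup.mem_map]
  refine ⟨P⁻¹ * g * P, ?_, ?_⟩
  · rw [hprod]
    exact Subgroup.mul_mem _ (Subgroup.mem_sup_left ⟨g₀, rfl⟩) (Subgroup.mem_sup_right hzmem)
  · simp only [MulEquiv.coe_toMonoidHom, MulAut.conj_apply]
    group

theorem main_step (h4 : Fintype.card F = 4) (K : Subalgebra F (Matrix (Fin 3) (Fin 3) F))
    (hK : IsFieldSubalgebra 3 K) (c : Matrix (Fin 3) (Fin 3) F) (hcK : c ∈ K)
    (hc : c * c * c = c + 1) (v : Fin 3 → F) (hv : v ≠ 0) (G Gi : Matrix (Fin 3) (Fin 3) F)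
    (hGGi : G * Gi = 1) (hGiG : Gi * G = 1) (hN : G * c * Gi ∈ K) (hdetG : G.det = 1) :
    ∃ (E : Matrix (Fin 3) (Fin 3) F) (lam : F), (∀ i j, E i j ∈ F0 h4) ∧
      G * Pm c v = lam • (Pm c v * E) := by
  have hdetP := Pm_det h4 K hK c hcK hc v hv
  obtain ⟨c', hc'⟩ : ∃ c', c' = G * c * Gi := ⟨_, rfl⟩
  rw [← hc'] at hN
  have hc8 : c ^ 8 = c := by
    have h1 : c = ev c 0 1 0 := by
      unfold ev
      rw [zero_smul, zero_smul, one_smul, zero_add, add_zero]
    calc c ^ 8 = ev c 0 1 0 ^ 8 := by rw [← h1]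
      _ = ev c (0 * 0) (1 * 1) (0 * 0) := ev_pow8 h4 c hc 0 1 0
      _ = ev c 0 1 0 := by rw [mul_zero, mul_one]
      _ = c := h1.symm
  have hconj : ∀ n : ℕ, c' ^ n = G * c ^ n * Gi := by
    intro n
    induction n with
    | zero => rw [pow_zero, pow_zero, mul_one, hGGi]
    | succ n ih =>
      rw [pow_succ, ih, pow_succ, hc']
      calc G * c ^ n * Gi * (G * c * Gi) = G * c ^ n * (Gi * G) * c * Gi := by
            simp only [mul_assoc]
        _ = G * (c ^ n * c) * Gi := by rw [hGiG, mul_one, mul_assoc G]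
  have hc'8 : c' ^ 8 = c' := by rw [hconj, hc8, hc']
  obtain ⟨a', b', d', ha', hb', hd', hc'ev⟩ := idem_of_pow8 h4 K hK c hcK hc c' hN hc'8
  have ha'' : a' * a' = a' := ha'
  have hb'' : b' * b' = b' := hb'
  have hd'' : d' * d' = d' := hd'
  have hc'2 : c' * c' = ev c a' d' (b' + d') := by
    rw [hc'ev, ← pow_two, ev_pow2 h4 c hc, ha'', hb'', hd'']
  obtain ⟨a, b, d, hk1⟩ := exists_vec h4 K hK c hcK hc v hv (G *ᵥ v)
  obtain ⟨k₁, hk₁⟩ : ∃ k₁, k₁ = ev c a b d := ⟨_, rfl⟩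
  rw [← hk₁] at hk1
  have hk1K : k₁ ∈ K := by rw [hk₁]; exact ev_mem K c hcK a b d
  have hGc : G * c = c' * G := by rw [hc', mul_assoc (G * c), hGiG, mul_one]
  have hGcc : G * (c * c) = c' * c' * G := by
    rw [← mul_assoc, hGc, mul_assoc, hGc, ← mul_assoc]
  have hkey : G * Pm c v = k₁ * (Pm c v * E1 a' b' d') := by
    rw [Matrix.ext_iff_mulVec]
    intro w
    have hev' : G * ev c (w 0) (w 1) (w 2) = ev c' (w 0) (w 1) (w 2) * G := by
      unfold ev
      rw [mul_add, mul_add, add_mul, add_mul, Matrix.mul_smul, Matrix.mul_smul, Matrix.mul_smul,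
        Matrix.smul_mul, Matrix.smul_mul, Matrix.smul_mul, mul_one, one_mul, hGc, hGcc]
    have hev'' : ev c' (w 0) (w 1) (w 2) = ev c ((E1 a' b' d' *ᵥ w) 0) ((E1 a' b' d' *ᵥ w) 1)
        ((E1 a' b' d' *ᵥ w) 2) := by
      rw [E1_mulVec0, E1_mulVec1, E1_mulVec2]
      have h1 : ev c' (w 0) (w 1) (w 2) = w 0 • (1 : Matrix (Fin 3) (Fin 3) F) + w 1 • c'
          + w 2 • (c' * c') := rfl
      rw [h1, hc'2, hc'ev]
      unfold ev
      module
    calc (G * Pm c v) *ᵥ w = G *ᵥ (Pm c v *ᵥ w) := by rw [Matrix.mulVec_mulVec]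
      _ = G *ᵥ (ev c (w 0) (w 1) (w 2) *ᵥ v) := by rw [Pm_mulVec]
      _ = (ev c' (w 0) (w 1) (w 2) * G) *ᵥ v := by rw [Matrix.mulVec_mulVec, hev']
      _ = ev c' (w 0) (w 1) (w 2) *ᵥ (k₁ *ᵥ v) := by rw [← Matrix.mulVec_mulVec, hk1]
      _ = (k₁ * ev c' (w 0) (w 1) (w 2)) *ᵥ v := by
          rw [Matrix.mulVec_mulVec, hK.comm _ (ev_mem K c' hN _ _ _) _ hk1K]
      _ = k₁ *ᵥ (ev c ((E1 a' b' d' *ᵥ w) 0) ((E1 a' b' d' *ᵥ w) 1)
            ((E1 a' b' d' *ᵥ w) 2) *ᵥ v) := by rw [← Matrix.mulVec_mulVec, hev'']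
      _ = k₁ *ᵥ (Pm c v *ᵥ (E1 a' b' d' *ᵥ w)) := by rw [Pm_mulVec]
      _ = (k₁ * (Pm c v * E1 a' b' d')) *ᵥ w := by
          rw [Matrix.mulVec_mulVec, Matrix.mulVec_mulVec, mul_assoc]
  have hE₁mem := E1_mem (F0 h4) a' b' d' ha' hb' hd'
  have hdetE₁ : (E1 a' b' d').det ∈ F0 h4 := det_mem_of_entries _ _ hE₁mem
  have hd1 := congrArg Matrix.det hkey
  rw [Matrix.det_mul, Matrix.det_mul, Matrix.det_mul, hdetG, one_mul] at hd1
  have hd2 : k₁.det * (E1 a' b' d').det = 1 := by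
    have h : (Pm c v).det * (k₁.det * (E1 a' b' d').det) = (Pm c v).det * 1 := by
      rw [mul_one]
      linear_combination -hd1
    exact mul_left_cancel₀ hdetP h
  have hE1 : (E1 a' b' d').det = 1 := by
    rcases F0_cases h4 _ hdetE₁ with h | h
    · rw [h, mul_zero] at hd2
      exact absurd hd2 zero_ne_one
    · exact h
  have hk1det : k₁.det = 1 := by
    rw [hE1, mul_one] at hd2
    exact hd2
  have hrel := ev_mul_Pm c hc v a b d
  have hrho : (rho a b d).det = 1 := by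
    have h1 := congrArg Matrix.det hrel
    rw [Matrix.det_mul, Matrix.det_mul, ← hk₁, hk1det, one_mul] at h1
    have h : (Pm c v).det * (rho a b d).det = (Pm c v).det * 1 := by
      rw [mul_one]
      exact h1.symm
    exact mul_left_cancel₀ hdetP h
  have h21 : k₁ ^ 21 = 1 := by rw [hk₁, ev_pow21 h4 c hc, hrho, one_smul]
  have h73 : (k₁ ^ 7) ^ 3 = 1 := by
    rw [← pow_mul]
    exact h21
  obtain ⟨lam, hlam⟩ := scalar_of_pow3 h4 K hK c hcK hc (k₁ ^ 7) (pow_mem hk1K 7) h73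
  have hlam0 : lam ≠ 0 := by
    rintro rfl
    rw [zero_smul] at hlam
    rw [hlam, zero_pow (by norm_num)] at h73
    have h := congrFun (congrFun h73 0) 0
    simp at h
  have h8 : k₁ ^ 8 = lam • k₁ := by rw [pow_succ, hlam, Matrix.smul_mul, one_mul]
  rw [hk₁, ev_pow8 h4 c hc] at h8
  have hsm : lam • ev c a b d = ev c (lam * a) (lam * b) (lam * d) := by
    unfold ev
    module
  rw [hsm] at h8
  obtain ⟨e1, e2, e3⟩ := ev_inj h4 c hc _ _ _ _ _ _ h8
  have hidem : ∀ x : F, x * x = lam * x → lam⁻¹ * x ∈ F0 h4 := by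
    intro x hx
    show lam⁻¹ * x * (lam⁻¹ * x) = lam⁻¹ * x
    calc lam⁻¹ * x * (lam⁻¹ * x) = lam⁻¹ * lam⁻¹ * (x * x) := by ring
      _ = lam⁻¹ * lam⁻¹ * (lam * x) := by rw [hx]
      _ = lam⁻¹ * (lam⁻¹ * lam) * x := by ring
      _ = lam⁻¹ * x := by rw [inv_mul_cancel₀ hlam0, mul_one]
  have hmul : ∀ x : F, lam * (lam⁻¹ * x) = x := fun x => by
    rw [← mul_assoc, mul_inv_cancel₀ hlam0, one_mul]
  refine ⟨rho (lam⁻¹ * a) (lam⁻¹ * b) (lam⁻¹ * d) * E1 a' b' d', lam,
    mul_mem_of_entries _ _ _ (rho_mem _ _ _ _ (hidem a e1) (hidem b e2) (hidem d e3)) hE₁mem, ?_⟩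
  calc G * Pm c v = k₁ * (Pm c v * E1 a' b' d') := hkey
    _ = (ev c a b d * Pm c v) * E1 a' b' d' := by rw [hk₁, mul_assoc]
    _ = Pm c v * rho a b d * E1 a' b' d' := by rw [hrel]
    _ = Pm c v * (lam • rho (lam⁻¹ * a) (lam⁻¹ * b) (lam⁻¹ * d)) * E1 a' b' d' := by
        rw [← rho_smul, hmul, hmul, hmul]
    _ = lam • (Pm c v * (rho (lam⁻¹ * a) (lam⁻¹ * b) (lam⁻¹ * d) * E1 a' b' d')) := by
        rw [Matrix.mul_smul, Matrix.smul_mul, mul_assoc]

/-- Over the field with four elements, the normaliser of a cubic extension field meets `SL_3` in a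
subgroup of a subfield group. -/
theorem normalizer_le_subfield (h4 : Fintype.card F = 4)
    (K : Subalgebra F (Matrix (Fin 3) (Fin 3) F)) (hK : IsFieldSubalgebra 3 K) :
    ∃ P : GL (Fin 3) F,
      subalgebraNormalizer K ⊓ specialLinear (Fin 3) F ≤ subfieldSubgroup (F0 h4) P := by
  obtain ⟨c, hcK, hc⟩ := exists_c h4 K hK
  obtain ⟨v, hv⟩ : ∃ v : Fin 3 → F, v ≠ 0 := ⟨fun _ => 1, fun h => one_ne_zero (congrFun h 0)⟩
  have hdet := Pm_det h4 K hK c hcK hc v hv
  refine ⟨Matrix.GeneralLinearGroup.mkOfDetNeZero (Pm c v) hdet, ?_⟩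
  intro g hg
  obtain ⟨hgN, hgS⟩ := Subgroup.mem_inf.mp hg
  rw [Cfsg.Agent.Helper97.mem_specialLinear_iff] at hgS
  have hGGi : (g : Matrix (Fin 3) (Fin 3) F) * ((g⁻¹ : GL (Fin 3) F) : Matrix (Fin 3) (Fin 3) F)
      = 1 := by rw [← Units.val_mul, mul_inv_cancel, Units.val_one]
  have hGiG : ((g⁻¹ : GL (Fin 3) F) : Matrix (Fin 3) (Fin 3) F) * (g : Matrix (Fin 3) (Fin 3) F)
      = 1 := by rw [← Units.val_mul, inv_mul_cancel, Units.val_one]
  obtain ⟨E, lam, hE, hGP⟩ := main_step h4 K hK c hcK hc v hv _ _ hGGi hGiG ((hgN c).mp hcK) hgS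
  exact mem_subfieldSubgroup_of (F0 h4) _ g E hE lam hGP

theorem num_three (r e : ℕ) (hr : r < 3) (he : Odd e) (h1 : r ^ e % 3 = 1)
    (hmin : ∀ d, 0 < d → d < e → r ^ d % 3 ≠ 1) : e = 1 ∧ r = 1 := by
  have he0 : 0 < e := he.pos
  interval_cases r
  · rw [zero_pow he0.ne'] at h1
    norm_num at h1
  · refine ⟨?_, rfl⟩
    by_contra hne
    exact hmin 1 (by norm_num) (by omega) (by norm_num)
  · exfalso
    obtain ⟨k, rfl⟩ := he
    have h2 : 2 ^ (2 * k + 1) % 3 = 2 := by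
      rw [pow_succ, pow_mul, Nat.mul_mod, Nat.pow_mod]
      norm_num
    rw [h2] at h1
    exact absurd h1 (by norm_num)

end Aux


/-- Every maximal subgroup of SL_3(q) is of one of the listed geometric types or lies in the residual class. Let F be a finite field with q elements and H a maximal subgroup of SL_3(F) (viewed inside GL_3(F)). Then H is the intersection with SL_3(F) of one of: the stabiliser of a proper non-zero subspace; for q ≥ 5, the stabiliser of a decomposition of F^3 into three independent lines; for q ≠ 4, the normaliser of a degree-3 subfield of the matrix algebra; a subfield group for a subfield F₀ with |F| = |F₀|^r, r prime; for q = p ≡ 1 mod 3 prime, the normaliser of an absolutely irreducible 3-subgroup R of exponent 3 with centre of order 3, all of whose characteristic abelian subgroups are cyclic, of order 3^(1+2m) for some m ≥ 1, with F the smallest field of characteristic p containing the cube roots of unity (so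 R is extraspecial of order 27); for q odd, the similarity group of a non-degenerate quadratic form; the similarity group of a non-degenerate unitary form — or else H lies in the residual class of the linear case (modulo scalars H is almost simple, with absolutely irreducible perfect socle preimage realisable over no proper subfield and fixing no non-degenerate quadratic, symplectic or unitary form). -/
theorem result {F : Type*} [Field F] [Fintype F] (H : Subgroup (Matrix.GeneralLinearGroup (Fin 3) F)) (hH : Cfsg.Geo.IsMaximalIn (Cfsg.Geo.specialLinear (Fin 3) F) H) :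
    (∃ W : Submodule F (Fin 3 → F), W ≠ ⊥ ∧ W ≠ ⊤ ∧ H = Cfsg.Geo.subspaceStabilizer W ⊓ Cfsg.Geo.specialLinear (Fin 3) F) ∨
    (5 ≤ Fintype.card F ∧ ∃ D : Fin 3 → Submodule F (Fin 3 → F), Cfsg.Geo.IsMDecomposition 1 D ∧ H = Cfsg.Geo.decompositionStabilizer D ⊓ Cfsg.Geo.specialLinear (Fin 3) F) ∨
    (Fintype.card F ≠ 4 ∧ ∃ K : Subalgebra F (Matrix (Fin 3) (Fin 3) F), Cfsg.Geo.IsFieldSubalgebra 3 K ∧ H = Cfsg.Geo.subalgebraNormalizer K ⊓ Cfsg.Geo.specialLinear (Fin 3) F) ∨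
    (∃ (F₀ : Subfield F) (r : ℕ) (P : Matrix.GeneralLinearGroup (Fin 3) F), r.Prime ∧ Fintype.card F = Nat.card F₀ ^ r ∧ H = Cfsg.Geo.subfieldSubgroup F₀ P ⊓ Cfsg.Geo.specialLinear (Fin 3) F) ∨
    (∃ (p : ℕ) (R : Subgroup (Matrix.GeneralLinearGroup (Fin 3) F)), p.Prime ∧ Fintype.card F = p ∧ p % 3 = 1 ∧ Cfsg.Geo.IsLinearSymplecticTypeData 3 R ∧ H = Cfsg.Geo.subgroupNormalizer R ⊓ Cfsg.Geo.specialLinear (Fin 3) F) ∨
    (Odd (Fintype.card F) ∧ ∃ Q : (Fin 3 → F) → F, Cfsg.Geo.IsNondegenerateQuadraticForm Q ∧ H = Cfsg.Geo.quadSimilarityGroup Q ⊓ Cfsg.Geo.specialLinear (Fin 3) F) ∨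
    (∃ (σ : F ≃+* F) (f : (Fin 3 → F) → (Fin 3 → F) → F), Cfsg.Geo.IsUnitaryForm σ f ∧ H = Cfsg.Geo.similarityGroup f ⊓ Cfsg.Geo.specialLinear (Fin 3) F) ∨
    Cfsg.Geo.InLinearResidualClass H := by
  have hmain := Cfsg.Agent.Helper97.prime_dim_cases (n := 3) (by norm_num) (by decide) H hH
  rcases hmain with h | h | h | h | h | h | h | h
  · exact Or.inl h
  · exact Or.inr (Or.inl h)
  · by_cases h4 : Fintype.card F = 4
    · obtain ⟨K, hK, hHK⟩ := h
      obtain ⟨P, hP⟩ := normalizer_le_subfield h4 K hK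
      have hcard := card_eq_F0 h4
      refine Or.inr (Or.inr (Or.inr (Or.inl ⟨F0 h4, 2, P, Nat.prime_two, hcard, ?_⟩)))
      exact Cfsg.Agent.Helper97.eq_inf_of_isMaximalIn hH (hHK ▸ hP)
        (Cfsg.Agent.Helper97.notSL_subfield (by norm_num) (F0 h4)
          (Cfsg.Agent.Helper97.subfield_ne_top_of_card (F0 h4) 2 Nat.prime_two hcard) P)
    · exact Or.inr (Or.inr (Or.inl ⟨h4, h⟩))
  · exact Or.inr (Or.inr (Or.inr (Or.inl h)))
  · refine Or.inr (Or.inr (Or.inr (Or.inr (Or.inl ?_))))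
    obtain ⟨⟨p, e, hp, hchar, he, hcard, hdvd, hmin⟩, R, hR, hHR⟩ := h
    have key := num_three (p % 3) e (Nat.mod_lt _ (by norm_num)) he
      ((Cfsg.Agent.Helper97.dvd_pow_sub_one_iff (by norm_num) hp.pos).mp hdvd)
      (fun d hd0 hde h => hmin d hd0 hde
        ((Cfsg.Agent.Helper97.dvd_pow_sub_one_iff (by norm_num) hp.pos).mpr h))
    refine ⟨p, R, hp, ?_, key.2, hR, hHR⟩
    rw [hcard, key.1, pow_one]
  · exact Or.inr (Or.inr (Or.inr (Or.inr (Or.inr (Or.inl h)))))
  · exact Or.inr (Or.inr (Or.inr (Or.inr (Or.inr (Or.inr (Or.inl h))))))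
  · exact Or.inr (Or.inr (Or.inr (Or.inr (Or.inr (Or.inr (Or.inr h))))))

end Cfsg.Agent.S5775
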