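import Cfsg.Statements.S5778
import Cfsg.Agent.Helper64.SU3Main
import Cfsg.Agent.Helper80.SU3Field
import Cfsg.Agent.Helper88.SU3R
import Cfsg.Agent.Helper33.SU3E5c
import Cfsg.Agent.Helper88.SU3E2c
import Cfsg.Agent.Helper64.SU3Extra

set_option autoImplicit false
open Cfsg

namespace Cfsg.Agent.S5778

theorem result {F : Type*} [Field F] [Fintype F] (q : ℕ) (hF : Fintype.card F = q ^ 2) (hq : 3 ≤ q) (H : Subgroup (Matrix.GeneralLinearGroup (Fin 3) F)) (hH : Cfsg.Geo.IsMaximalIn (Cfsg.GU 3 F q ⊓ Cfsg.Geo.specialLinear (Fin 3) F) H) :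
    (∃ W : Submodule F (Fin 3 → F), W ≠ ⊥ ∧ Cfsg.Geo.IsTotallySingularFor (Cfsg.hermForm 3 F q) W ∧ H = Cfsg.Geo.subspaceStabilizer W ⊓ (Cfsg.GU 3 F q ⊓ Cfsg.Geo.specialLinear (Fin 3) F)) ∨
    (∃ W : Submodule F (Fin 3 → F), W ≠ ⊥ ∧ Cfsg.Geo.IsNondegenerateOn (Cfsg.hermForm 3 F q) W ∧ 2 * Module.finrank F W < 3 ∧ H = Cfsg.Geo.subspaceStabilizer W ⊓ (Cfsg.GU 3 F q ⊓ Cfsg.Geo.specialLinear (Fin 3) F)) ∨
    (q ≠ 5 ∧ ∃ D : Fin 3 → Submodule F (Fin 3 → F), Cfsg.Geo.IsNondegenerateMDecomposition (Cfsg.hermForm 3 F q) 1 D ∧ H = Cfsg.Geo.decompositionStabilizer D ⊓ (Cfsg.GU 3 F q ⊓ Cfsg.Geo.specialLinear (Fin 3) F)) ∨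
    (q ≠ 3 ∧ q ≠ 5 ∧ ∃ K : Subalgebra F (Matrix (Fin 3) (Fin 3) F), Cfsg.Geo.IsFieldSubalgebra 3 K ∧ Cfsg.Geo.IsAdjointClosedFor (Cfsg.hermForm 3 F q) K ∧ H = Cfsg.Geo.subalgebraNormalizer K ⊓ (Cfsg.GU 3 F q ⊓ Cfsg.Geo.specialLinear (Fin 3) F)) ∨
    (∃ (F₀ : Subfield F) (r : ℕ) (P : Matrix.GeneralLinearGroup (Fin 3) F), r.Prime ∧ Odd r ∧ Fintype.card F = Nat.card F₀ ^ r ∧ Cfsg.Geo.IsFormRationalStructure (Cfsg.hermForm 3 F q) F₀ 1 P ∧ H = Cfsg.Geo.subfieldSubgroup F₀ P ⊓ (Cfsg.GU 3 F q ⊓ Cfsg.Geo.specialLinear (Fin 3) F)) ∨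
    (Odd q ∧ 7 ≤ q ∧ ∃ (F₀ : Subfield F) (P : Matrix.GeneralLinearGroup (Fin 3) F), Fintype.card F = Nat.card F₀ ^ 2 ∧ Cfsg.Geo.IsFormRationalStructure (Cfsg.hermForm 3 F q) F₀ 1 P ∧ H = Cfsg.Geo.subfieldSubgroup F₀ P ⊓ (Cfsg.GU 3 F q ⊓ Cfsg.Geo.specialLinear (Fin 3) F)) ∨
    (∃ (p : ℕ) (R : Subgroup (Matrix.GeneralLinearGroup (Fin 3) F)), p.Prime ∧ q = p ∧ p % 3 = 2 ∧ 11 ≤ p ∧ Cfsg.Geo.IsSymplecticTypeGroup 3 R ∧ Cfsg.Geo.ActsAbsolutelyIrreducibly (Cfsg.Geo.matrixSet R) ∧ R ≤ Cfsg.Geo.similarityGroup (Cfsg.hermForm 3 F q) ∧ Nat.card R = 27 ∧ Nat.card (Subgroup.center R) = 3 ∧ H = Cfsg.Geo.subgroupNormalizer R ⊓ (Cfsg.GU 3 F q ⊓ Cfsg.Geo.specialLinear (Fin 3) F)) ∨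
    Cfsg.Geo.InUnitaryResidualClass H := by
  refine Cfsg.Agent.Helper64.SU3.su3_cases_of q hF hq H hH ?_ ?_ ?_
  · intro hq35 K hK hadj hHeq
    obtain ⟨x, hx, hox, hnorm, hcard⟩ := Cfsg.Agent.Helper80.SU3F.su3_field_case hq35 hF K hK hadj
    rw [← hHeq] at hx hnorm hcard
    exact Cfsg.Agent.Helper64.SU3.su3_field_false_of q hq35 hF H hH ⟨x, hx, hox, hnorm, hcard⟩
  · intro hq35 F₀ P hcard hform hHeq
    obtain ⟨P', hP', hPeq⟩ := Cfsg.Agent.Helper88.su3_rational_normal_form hq35 hF F₀ P hcard hform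
    rw [← hPeq] at hHeq
    rcases hq35 with rfl | rfl
    · exact Cfsg.Agent.Helper88.su3_three_subfield_std_false hF H hH F₀ hcard P' hP' hHeq
    · exact Cfsg.Agent.Helper33.su3_five_subfield_std_false hF H hH F₀ hcard P' hP' hHeq
  · intro hq5 N hNU hNS hN hHeq
    subst hq5
    exact Cfsg.Agent.Helper64.SU3.su3_five_extra_false hF H hH N hNU hNS hN hHeq

end Cfsg.Agent.S5778
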