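import Cfsg.Statements.S5784
import Cfsg.Agent.Helper90.UnFour
import Cfsg.Agent.Helper91.SU4Ti2
import Cfsg.Agent.Helper91.SU4Ti3
import Cfsg.Agent.Helper61.SU4Frame3
import Cfsg.Agent.Helper47.SU4TS

set_option autoImplicit false
open Cfsg

namespace Cfsg.Agent.S5784

/-- Every maximal subgroup of SU_4(q) is of one of the listed geometric types or lies in the residual class. Let F be the field with q² elements, f the standard unitary form Σ u_i v_i^q on F^4, and H a maximal subgroup of SU_4(q) (inside GL_4(F)). Then H is the intersection with SU_4(q) of one of: the stabiliser of a non-zero subspace on which f vanishes; the stabiliser of a non-degenerate 1-space; for q ≠ 3, the stabiliser of a decomposition into four mutually orthogonal non-degenerate 1-spaces; for q ≥ 3, of a decomposition into two orthogonal non-degenerate 2-spaces; for q ≥ 4, of a decomposition into two totally isotropic 2-spaces;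 a subfield group of odd prime index whose F₀-structure carries f; a subfield group of index 2 whose F₀-structure carries ζ f, vanishing on pairs (u, u), for some non-zero ζ with ζ + ζ^q = 0; for q odd, a subfield group of index 2 whose F₀-structure carries f; for q = p ≡ 3 mod 4 prime, the normaliser of an absolutely irreducible symplectic-type 2-group of exponent 4, order 64 and centre of order 4 inside the similarity group of f — or else H lies in the residual class of the unitary case. -/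
theorem result {F : Type*} [Field F] [Fintype F] (q : ℕ) (hF : Fintype.card F = q ^ 2) (H : Subgroup (Matrix.GeneralLinearGroup (Fin 4) F)) (hH : Cfsg.Geo.IsMaximalIn (Cfsg.GU 4 F q ⊓ Cfsg.Geo.specialLinear (Fin 4) F) H) :
    (∃ W : Submodule F (Fin 4 → F), W ≠ ⊥ ∧ Cfsg.Geo.IsTotallySingularFor (Cfsg.hermForm 4 F q) W ∧ H = Cfsg.Geo.subspaceStabilizer W ⊓ (Cfsg.GU 4 F q ⊓ Cfsg.Geo.specialLinear (Fin 4) F)) ∨
    (∃ W : Submodule F (Fin 4 → F), W ≠ ⊥ ∧ Cfsg.Geo.IsNondegenerateOn (Cfsg.hermForm 4 F q) W ∧ 2 * Module.finrank F W < 4 ∧ H = Cfsg.Geo.subspaceStabilizer W ⊓ (Cfsg.GU 4 F q ⊓ Cfsg.Geo.specialLinear (Fin 4) F)) ∨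
    (q ≠ 3 ∧ ∃ D : Fin 4 → Submodule F (Fin 4 → F), Cfsg.Geo.IsNondegenerateMDecomposition (Cfsg.hermForm 4 F q) 1 D ∧ H = Cfsg.Geo.decompositionStabilizer D ⊓ (Cfsg.GU 4 F q ⊓ Cfsg.Geo.specialLinear (Fin 4) F)) ∨
    (3 ≤ q ∧ ∃ D : Fin 2 → Submodule F (Fin 4 → F), Cfsg.Geo.IsNondegenerateMDecomposition (Cfsg.hermForm 4 F q) 2 D ∧ H = Cfsg.Geo.decompositionStabilizer D ⊓ (Cfsg.GU 4 F q ⊓ Cfsg.Geo.specialLinear (Fin 4) F)) ∨
    (4 ≤ q ∧ ∃ D : Fin 2 → Submodule F (Fin 4 → F), Cfsg.Geo.IsMDecomposition 2 D ∧ (∀ i, Cfsg.Geo.IsTotallySingularFor (Cfsg.hermForm 4 F q) (D i)) ∧ H = Cfsg.Geo.decompositionStabilizer D ⊓ (Cfsg.GU 4 F q ⊓ Cfsg.Geo.specialLinear (Fin 4) F)) ∨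
    (∃ (F₀ : Subfield F) (r : ℕ) (P : Matrix.GeneralLinearGroup (Fin 4) F), r.Prime ∧ Odd r ∧ Fintype.card F = Nat.card F₀ ^ r ∧ Cfsg.Geo.IsFormRationalStructure (Cfsg.hermForm 4 F q) F₀ 1 P ∧ H = Cfsg.Geo.subfieldSubgroup F₀ P ⊓ (Cfsg.GU 4 F q ⊓ Cfsg.Geo.specialLinear (Fin 4) F)) ∨
    (∃ (F₀ : Subfield F) (P : Matrix.GeneralLinearGroup (Fin 4) F) (ζ : F), Fintype.card F = Nat.card F₀ ^ 2 ∧ ζ ≠ 0 ∧ ζ + ζ ^ q = 0 ∧ Cfsg.Geo.IsFormRationalStructure (Cfsg.hermForm 4 F q) F₀ ζ P ∧ (∀ u : Fin 4 → F, (∀ i, u i ∈ F₀) → (Cfsg.hermForm 4 F q) (Matrix.mulVec (P : Matrix (Fin 4) (Fin 4) F) u) (Matrix.mulVec (P : Matrix (Fin 4) (Fin 4) F) u) = 0) ∧ H = Cfsg.Geo.subfieldSubgroup F₀ P ⊓ (Cfsg.GU 4 F q ⊓ Cfsg.Geo.specialLinear (Fin 4) F)) ∨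
    (Odd q ∧ ∃ (F₀ : Subfield F) (P : Matrix.GeneralLinearGroup (Fin 4) F), Fintype.card F = Nat.card F₀ ^ 2 ∧ Cfsg.Geo.IsFormRationalStructure (Cfsg.hermForm 4 F q) F₀ 1 P ∧ H = Cfsg.Geo.subfieldSubgroup F₀ P ⊓ (Cfsg.GU 4 F q ⊓ Cfsg.Geo.specialLinear (Fin 4) F)) ∨
    (∃ (p : ℕ) (R : Subgroup (Matrix.GeneralLinearGroup (Fin 4) F)), p.Prime ∧ q = p ∧ p % 4 = 3 ∧ Cfsg.Geo.IsSymplecticTypeGroup 2 R ∧ Cfsg.Geo.ActsAbsolutelyIrreducibly (Cfsg.Geo.matrixSet R) ∧ R ≤ Cfsg.Geo.similarityGroup (Cfsg.hermForm 4 F q) ∧ Nat.card R = 64 ∧ Nat.card (Subgroup.center R) = 4 ∧ H = Cfsg.Geo.subgroupNormalizer R ⊓ (Cfsg.GU 4 F q ⊓ Cfsg.Geo.specialLinear (Fin 4) F)) ∨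
    Cfsg.Geo.InUnitaryResidualClass H := by
  refine Cfsg.Agent.Helper90.UC.su4_cases_of_pieces q hF H hH ?_ ?_ ?_
  · intro hq3 D hD hle
    subst hq3
    exact Cfsg.Agent.Helper61.su4_three_frame_false hF H hH D hD hle
  · intro hq3 D hD hts hle
    have hq2 := Cfsg.Agent.Helper97.two_le_of_card hF
    have hq : q = 2 ∨ q = 3 := by omega
    rcases hq with rfl | rfl
    · exact Cfsg.Agent.Helper91.su4_two_tipair_false hF H hH D hD hts hle
    · exact Cfsg.Agent.Helper91.su4_three_tipair_false hF H hH D hD hts hle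
  · intro σ h e P A S hA hS hAdet hSdet hG
    exact Cfsg.Agent.Helper47.su4_tensor_subfield h hF e P A S hA hS hAdet hSdet hG

end Cfsg.Agent.S5784
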