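import Cfsg.Statements.S5790
import Cfsg.Agent.Helper96.SpEven2

set_option autoImplicit false
open Cfsg

namespace Cfsg.Agent.S5790

/-- Every maximal subgroup of Sp_4(q), q ≥ 4 even, is of one of the listed geometric types or lies in the residual class. Let F be a finite field of even order q ≥ 4, f the standard alternating form on F^4 (coordinates Fin 2 ⊕ Fin 2), and H a maximal subgroup of Sp_4(F) (inside GL_4(F)). Then H is the intersection with Sp_4(F) of one of: the stabiliser of a non-zero totally isotropic subspace; the stabiliser of a decomposition into two orthogonal non-degenerate 2-spaces; the normaliser of a degree-2 subfield K of the matrix algebra, self-adjoint with f(k v, v) = 0; a subfield group whose F₀-structure carries a non-zero multiple of f, |F| = |F₀|^r with r prime; the similarity group of a non-degenerate quadratic form whose polar form is f — or else H lies in the residual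 class of the symplectic case. -/
theorem result {F : Type*} [Field F] [Fintype F] (heven : ¬ Odd (Fintype.card F)) (h4 : 4 ≤ Fintype.card F) (H : Subgroup (Matrix.GeneralLinearGroup (Fin 2 ⊕ Fin 2) F)) (hH : Cfsg.Geo.IsMaximalIn (Cfsg.spGL 2 F) H) :
    (∃ W : Submodule F (Fin 2 ⊕ Fin 2 → F), W ≠ ⊥ ∧ Cfsg.Geo.IsTotallySingularFor (Cfsg.sympForm 2 F) W ∧ H = Cfsg.Geo.subspaceStabilizer W ⊓ Cfsg.spGL 2 F) ∨
    (∃ D : Fin 2 → Submodule F (Fin 2 ⊕ Fin 2 → F), Cfsg.Geo.IsNondegenerateMDecomposition (Cfsg.sympForm 2 F) 2 D ∧ H = Cfsg.Geo.decompositionStabilizer D ⊓ Cfsg.spGL 2 F) ∨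
    (∃ K : Subalgebra F (Matrix (Fin 2 ⊕ Fin 2) (Fin 2 ⊕ Fin 2) F), Cfsg.Geo.IsFieldSubalgebra 2 K ∧ Cfsg.Geo.IsSelfAdjointFor (Cfsg.sympForm 2 F) K ∧ (∀ k ∈ K, ∀ v : (Fin 2 ⊕ Fin 2 → F), (Cfsg.sympForm 2 F) (Matrix.mulVec k v) v = 0) ∧ H = Cfsg.Geo.subalgebraNormalizer K ⊓ Cfsg.spGL 2 F) ∨
    (∃ (F₀ : Subfield F) (r : ℕ) (P : Matrix.GeneralLinearGroup (Fin 2 ⊕ Fin 2) F) (ζ : F), r.Prime ∧ Fintype.card F = Nat.card F₀ ^ r ∧ ζ ≠ 0 ∧ Cfsg.Geo.IsFormRationalStructure (Cfsg.sympForm 2 F) F₀ ζ P ∧ H = Cfsg.Geo.subfieldSubgroup F₀ P ⊓ Cfsg.spGL 2 F) ∨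
    (∃ Q : (Fin 2 ⊕ Fin 2 → F) → F, Cfsg.Geo.IsNondegenerateQuadraticForm Q ∧ (∀ u v : (Fin 2 ⊕ Fin 2 → F), QuadraticMap.polar Q u v = (Cfsg.sympForm 2 F) u v) ∧ H = Cfsg.Geo.quadSimilarityGroup Q ⊓ Cfsg.spGL 2 F) ∨
    Cfsg.Geo.InSymplecticResidualClass H := by
  have hmax := Cfsg.Agent.Helper96.Sy.sp_max_cases_even (m := 2) (by norm_num) heven H hH
  unfold Cfsg.Agent.Helper96.Sy.SpMaxE at hmax
  rcases hmax with ⟨W, hW0, hts, heq⟩ | ⟨W, hW0, hnd, hlt, heq⟩ |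
    ⟨t, k, D, htk, hk, hc, hD, heq⟩ | ⟨r, K, hr, hdvd, hK, hsa, halt, heq⟩ |
    ⟨F₀, r, P, ζ, hr, hcard, hζ, hR, heq⟩ | ⟨Q, hQ, hpol, heq⟩ | hres
  · exact Or.inl ⟨W, hW0, hts, heq⟩
  · exfalso
    obtain ⟨n, e, f', -, -, -, -, -, -, hfr⟩ := Cfsg.Agent.Helper94.exists_hyp_basis W hnd
    have h0 : Module.finrank F W = 0 := by omega
    exact hW0 (Submodule.finrank_eq_zero.mp h0)
  · have ht := hD.decomp.two_le
    have hkpos := hD.decomp.pos
    obtain ⟨c, hc'⟩ := hk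
    have h1 : 2 * k ≤ t * k := Nat.mul_le_mul_right k ht
    have hc2 : c = 1 := by omega
    subst hc2
    have hk2 : k = 2 := by omega
    subst hk2
    have ht2 : t = 2 := by omega
    subst ht2
    exact Or.inr (Or.inl ⟨D, hD, heq⟩)
  · have hr2 : r = 2 := (Nat.prime_dvd_prime_iff_eq hr Nat.prime_two).mp hdvd
    subst hr2
    exact Or.inr (Or.inr (Or.inl ⟨K, hK, hsa, halt, heq⟩))
  · exact Or.inr (Or.inr (Or.inr (Or.inl ⟨F₀, r, P, ζ, hr, hcard, hζ, hR, heq⟩)))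
  · exact Or.inr (Or.inr (Or.inr (Or.inr (Or.inl ⟨Q, hQ, hpol, heq⟩))))
  · exact Or.inr (Or.inr (Or.inr (Or.inr (Or.inr hres))))

end Cfsg.Agent.S5790
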