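import Cfsg.Statements.S5796
import Cfsg.Agent.Helper97.UPrimeDim
import Cfsg.Agent.Helper64.SU5Main

set_option autoImplicit false
open Cfsg

namespace Cfsg.Agent.S5796

/-- Every maximal subgroup of SU_5(q) is of one of the listed geometric types or lies in the residual class. Let F be the field with q² elements (characteristic p), f the standard unitary form Σ u_i v_i^q on F^5, and H a maximal subgroup of SU_5(q) (inside GL_5(F)). Then H is the intersection with SU_5(q) of one of: the stabiliser of a non-zero totally isotropic subspace; the stabiliser of a non-degenerate 1-space or 2-space; the stabiliser of a decomposition into five mutually orthogonal non-degenerate 1-spaces; for q ≥ 3, the normaliser of an adjoint-closed degree-5 subfield of the matrix algebra; a subfield group of odd prime index whose F₀-structure carries f; for q odd, a subfield group of index 2 whose F₀-structure carries f; for q = p ≡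 4 mod 5 or q = p² with p ≡ 2, 3 mod 5, the normaliser of an absolutely irreducible 5-group of exponent 5, order 125 and centre of order 5 with all characteristic abelian subgroups cyclic inside the similarity group of f — or else H lies in the residual class of the unitary case. -/
theorem result {F : Type*} [Field F] [Fintype F] (q : ℕ) (hF : Fintype.card F = q ^ 2) (H : Subgroup (Matrix.GeneralLinearGroup (Fin 5) F)) (hH : Cfsg.Geo.IsMaximalIn (Cfsg.GU 5 F q ⊓ Cfsg.Geo.specialLinear (Fin 5) F) H) :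
    (∃ W : Submodule F (Fin 5 → F), W ≠ ⊥ ∧ Cfsg.Geo.IsTotallySingularFor (Cfsg.hermForm 5 F q) W ∧ H = Cfsg.Geo.subspaceStabilizer W ⊓ (Cfsg.GU 5 F q ⊓ Cfsg.Geo.specialLinear (Fin 5) F)) ∨
    (∃ W : Submodule F (Fin 5 → F), W ≠ ⊥ ∧ Cfsg.Geo.IsNondegenerateOn (Cfsg.hermForm 5 F q) W ∧ 2 * Module.finrank F W < 5 ∧ H = Cfsg.Geo.subspaceStabilizer W ⊓ (Cfsg.GU 5 F q ⊓ Cfsg.Geo.specialLinear (Fin 5) F)) ∨
    (∃ D : Fin 5 → Submodule F (Fin 5 → F), Cfsg.Geo.IsNondegenerateMDecomposition (Cfsg.hermForm 5 F q) 1 D ∧ H = Cfsg.Geo.decompositionStabilizer D ⊓ (Cfsg.GU 5 F q ⊓ Cfsg.Geo.specialLinear (Fin 5) F)) ∨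
    (3 ≤ q ∧ ∃ K : Subalgebra F (Matrix (Fin 5) (Fin 5) F), Cfsg.Geo.IsFieldSubalgebra 5 K ∧ Cfsg.Geo.IsAdjointClosedFor (Cfsg.hermForm 5 F q) K ∧ H = Cfsg.Geo.subalgebraNormalizer K ⊓ (Cfsg.GU 5 F q ⊓ Cfsg.Geo.specialLinear (Fin 5) F)) ∨
    (∃ (F₀ : Subfield F) (r : ℕ) (P : Matrix.GeneralLinearGroup (Fin 5) F), r.Prime ∧ Odd r ∧ Fintype.card F = Nat.card F₀ ^ r ∧ Cfsg.Geo.IsFormRationalStructure (Cfsg.hermForm 5 F q) F₀ 1 P ∧ H = Cfsg.Geo.subfieldSubgroup F₀ P ⊓ (Cfsg.GU 5 F q ⊓ Cfsg.Geo.specialLinear (Fin 5) F)) ∨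
    (Odd q ∧ ∃ (F₀ : Subfield F) (P : Matrix.GeneralLinearGroup (Fin 5) F), Fintype.card F = Nat.card F₀ ^ 2 ∧ Cfsg.Geo.IsFormRationalStructure (Cfsg.hermForm 5 F q) F₀ 1 P ∧ H = Cfsg.Geo.subfieldSubgroup F₀ P ⊓ (Cfsg.GU 5 F q ⊓ Cfsg.Geo.specialLinear (Fin 5) F)) ∨
    (∃ (p : ℕ) (R : Subgroup (Matrix.GeneralLinearGroup (Fin 5) F)), p.Prime ∧ CharP F p ∧ ((q = p ∧ p % 5 = 4) ∨ (q = p ^ 2 ∧ (p % 5 = 2 ∨ p % 5 = 3))) ∧ Cfsg.Geo.IsSymplecticTypeGroup 5 R ∧ Cfsg.Geo.ActsAbsolutelyIrreducibly (Cfsg.Geo.matrixSet R) ∧ R ≤ Cfsg.Geo.similarityGroup (Cfsg.hermForm 5 F q) ∧ Nat.card R = 125 ∧ Nat.card (Subgroup.center R) = 5 ∧ H = Cfsg.Geo.subgroupNormalizer R ⊓ (Cfsg.GU 5 F q ⊓ Cfsg.Geo.specialLinear (Fin 5) F)) ∨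
    Cfsg.Geo.InUnitaryResidualClass H := by
  rcases Cfsg.Agent.Helper97.unitary_prime_dim_cases (n := 5) (by norm_num) (by norm_num) q hF H hH with
    h | h | h | h | h | h | h | h
  · exact Or.inl h
  · exact Or.inr (Or.inl h)
  · exact Or.inr (Or.inr (Or.inl h))
  · obtain ⟨K, hK, hadj, hHeq⟩ := h
    refine Or.inr (Or.inr (Or.inr (Or.inl ⟨?_, K, hK, hadj, hHeq⟩)))
    have hq2 := Cfsg.Agent.Helper97.two_le_of_card hF
    by_contra hlt
    have hq : q = 2 := by omega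
    subst hq
    exact Cfsg.Agent.Helper64.SU5.su5_not_field_case_two hF H hH K hK hadj hHeq
  · exact Or.inr (Or.inr (Or.inr (Or.inr (Or.inl h))))
  · exact Or.inr (Or.inr (Or.inr (Or.inr (Or.inr (Or.inl h)))))
  · obtain ⟨p, a, R, hp, hchar, hqa, hdvd, hmin, hsymp, habs, hRGU, hcard, hcent, hHeq⟩ := h
    refine Or.inr (Or.inr (Or.inr (Or.inr (Or.inr (Or.inr (Or.inl ?_))))))
    exact ⟨p, R, hp, hchar, Cfsg.Agent.Helper64.SU5.su5_unum_five_q hp hF hqa hdvd hmin, hsymp, habs,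
      hRGU.trans Cfsg.Agent.Helper97.IsSigma.GU_le_similarity, by rw [hcard]; norm_num, hcent, hHeq⟩
  · exact Or.inr (Or.inr (Or.inr (Or.inr (Or.inr (Or.inr (Or.inr h))))))

end Cfsg.Agent.S5796
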