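import Cfsg.Statements.S5805
import Cfsg.Agent.Helper96.SpF3c

set_option autoImplicit false
open Cfsg

namespace Cfsg.Agent.S5805

/-- Every maximal subgroup of Sp_6(q) is of one of the listed geometric types or lies in the residual class. Let F be a finite field with q elements, f the standard alternating form on F^6 (coordinates Fin 3 ⊕ Fin 3), and H a maximal subgroup of Sp_6(F) (inside GL_6(F)). Then H is the intersection with Sp_6(F) of one of: the stabiliser of a non-zero totally isotropic subspace; the stabiliser of a non-degenerate 2-space; for q ≥ 3, the stabiliser of a decomposition into three mutually orthogonal non-degenerate 2-spaces; for q odd, of a decomposition into two totally isotropic 3-spaces; the normaliser of a degree-3 subfield K of the matrix algebra, self-adjoint with f(k v, v) = 0; for q odd, the normaliser of a degree-2 subfield closed under adjoints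 but not self-adjoint; for q odd, q ≥ 5, the stabiliser of a tensor decomposition of f into an alternating form on F^2 and a symmetric form on F^3; a subfield group (|F| = |F₀|^r, r prime) whose F₀-structure carries a non-zero multiple of f; for q even, the similarity group of a non-degenerate quadratic form polarising to f — or else H lies in the residual class of the symplectic case. -/
theorem result {F : Type*} [Field F] [Fintype F] (H : Subgroup (Matrix.GeneralLinearGroup (Fin 3 ⊕ Fin 3) F)) (hH : Cfsg.Geo.IsMaximalIn (Cfsg.spGL 3 F) H) :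
    (∃ W : Submodule F (Fin 3 ⊕ Fin 3 → F), W ≠ ⊥ ∧ Cfsg.Geo.IsTotallySingularFor (Cfsg.sympForm 3 F) W ∧ H = Cfsg.Geo.subspaceStabilizer W ⊓ Cfsg.spGL 3 F) ∨
    (∃ W : Submodule F (Fin 3 ⊕ Fin 3 → F), W ≠ ⊥ ∧ Cfsg.Geo.IsNondegenerateOn (Cfsg.sympForm 3 F) W ∧ Module.finrank F W < 3 ∧ H = Cfsg.Geo.subspaceStabilizer W ⊓ Cfsg.spGL 3 F) ∨
    (3 ≤ Fintype.card F ∧ ∃ D : Fin 3 → Submodule F (Fin 3 ⊕ Fin 3 → F), Cfsg.Geo.IsNondegenerateMDecomposition (Cfsg.sympForm 3 F) 2 D ∧ H = Cfsg.Geo.decompositionStabilizer D ⊓ Cfsg.spGL 3 F) ∨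
    (Odd (Fintype.card F) ∧ ∃ D : Fin 2 → Submodule F (Fin 3 ⊕ Fin 3 → F), Cfsg.Geo.IsMDecomposition 3 D ∧ (∀ i, Cfsg.Geo.IsTotallySingularFor (Cfsg.sympForm 3 F) (D i)) ∧ H = Cfsg.Geo.decompositionStabilizer D ⊓ Cfsg.spGL 3 F) ∨
    (∃ K : Subalgebra F (Matrix (Fin 3 ⊕ Fin 3) (Fin 3 ⊕ Fin 3) F), Cfsg.Geo.IsFieldSubalgebra 3 K ∧ Cfsg.Geo.IsSelfAdjointFor (Cfsg.sympForm 3 F) K ∧ (∀ k ∈ K, ∀ v : (Fin 3 ⊕ Fin 3 → F), (Cfsg.sympForm 3 F) (Matrix.mulVec k v) v = 0) ∧ H = Cfsg.Geo.subalgebraNormalizer K ⊓ Cfsg.spGL 3 F) ∨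
    (Odd (Fintype.card F) ∧ ∃ K : Subalgebra F (Matrix (Fin 3 ⊕ Fin 3) (Fin 3 ⊕ Fin 3) F), Cfsg.Geo.IsFieldSubalgebra 2 K ∧ Cfsg.Geo.IsAdjointClosedFor (Cfsg.sympForm 3 F) K ∧ ¬ Cfsg.Geo.IsSelfAdjointFor (Cfsg.sympForm 3 F) K ∧ H = Cfsg.Geo.subalgebraNormalizer K ⊓ Cfsg.spGL 3 F) ∨
    (Odd (Fintype.card F) ∧ 5 ≤ Fintype.card F ∧ ∃ (e : (Fin 3 ⊕ Fin 3) ≃ Fin 2 × Fin 3) (P : Matrix.GeneralLinearGroup (Fin 3 ⊕ Fin 3) F) (f₁ : (Fin 2 → F) → (Fin 2 → F) → F) (f₂ : (Fin 3 → F) → (Fin 3 → F) → F), Cfsg.Geo.IsSymplecticForm f₁ ∧ Cfsg.Geo.IsSymmetricForm f₂ ∧ Cfsg.Geo.IsTensorFormStructure id (Cfsg.sympForm 3 F) f₁ f₂ e P ∧ H = Cfsg.Geo.tensorProductSubgroup 2 3 e P ⊓ Cfsg.spGL 3 F) ∨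
    (∃ (F₀ : Subfield F) (r : ℕ) (P : Matrix.GeneralLinearGroup (Fin 3 ⊕ Fin 3) F) (ζ : F), r.Prime ∧ Fintype.card F = Nat.card F₀ ^ r ∧ ζ ≠ 0 ∧ Cfsg.Geo.IsFormRationalStructure (Cfsg.sympForm 3 F) F₀ ζ P ∧ H = Cfsg.Geo.subfieldSubgroup F₀ P ⊓ Cfsg.spGL 3 F) ∨
    (¬ Odd (Fintype.card F) ∧ ∃ Q : (Fin 3 ⊕ Fin 3 → F) → F, Cfsg.Geo.IsNondegenerateQuadraticForm Q ∧ (∀ u v : (Fin 3 ⊕ Fin 3 → F), QuadraticMap.polar Q u v = (Cfsg.sympForm 3 F) u v) ∧ H = Cfsg.Geo.quadSimilarityGroup Q ⊓ Cfsg.spGL 3 F) ∨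
    Cfsg.Geo.InSymplecticResidualClass H := by
  have hmax := Cfsg.Agent.Helper96.Sy.sp_max_cases (m := 3) (by norm_num) H hH
  unfold Cfsg.Agent.Helper96.Sy.SpMax at hmax
  rcases hmax with ⟨W, hW0, hts, heq⟩ | ⟨W, hW0, hnd, hlt, heq⟩ |
    ⟨t, k, D, htk, hk, hc, hD, heq⟩ | ⟨hodd, D, hD, hts, heq⟩ | ⟨r, K, hr, hdvd, hK, hsa, halt, heq⟩ |
    ⟨hodd, K, hK, hac, hnsa, heq⟩ | ⟨hodd, n₁, n₂, e₁, P, f₁, f₂, hn₂, hn₁, hprod, hf₁, hf₂, hT, heq⟩ |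
    ⟨heven, n₁, n₂, e₁, P, f₁, f₂, hn₁, hn₂, hprod, hf₁, hf₂, hT, hle⟩ |
    ⟨F₀, r, P, ζ, hr, hcard, hζ, hR, heq⟩ | ⟨heven, Q, hQ, hpol, heq⟩ | hres |
    ⟨r, j, hr, hcard, hrF⟩ | ⟨d, t, hd, ht, hcard⟩
  · exact Or.inl ⟨W, hW0, hts, heq⟩
  · exact Or.inr (Or.inl ⟨W, hW0, hnd, hlt, heq⟩)
  · -- decompositions: (t, k) = (3, 2)
    have ht := hD.decomp.two_le
    have hkpos := hD.decomp.pos
    obtain ⟨c, hc'⟩ := hk
    have h1 : 2 * k ≤ t * k := Nat.mul_le_mul_right k ht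
    have hc2 : c = 1 := by omega
    subst hc2
    have hk2 : k = 2 := by omega
    subst hk2
    have ht3 : t = 3 := by omega
    subst ht3
    exact Or.inr (Or.inr (Or.inl ⟨hc rfl, D, hD, heq⟩))
  · exact Or.inr (Or.inr (Or.inr (Or.inl ⟨hodd, D, hD, hts, heq⟩)))
  · have hr3 : r = 3 := (Nat.prime_dvd_prime_iff_eq hr (by norm_num)).mp hdvd
    subst hr3
    exact Or.inr (Or.inr (Or.inr (Or.inr (Or.inl ⟨K, hK, hsa, halt, heq⟩))))
  · exact Or.inr (Or.inr (Or.inr (Or.inr (Or.inr (Or.inl ⟨hodd, K, hK, hac, hnsa, heq⟩)))))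
  · -- tensor: (n₁, n₂) = (2, 3)
    obtain ⟨c, hc'⟩ := hn₁
    have h1 : n₁ * 2 ≤ n₁ * n₂ := Nat.mul_le_mul_left n₁ hn₂
    have hc1 : c = 1 := by
      have : c ≤ 1 := by omega
      interval_cases c
      · rw [hc'] at hprod
        omega
      · rfl
    subst hc1
    have hn₁2 : n₁ = 2 := by omega
    subst hn₁2
    have hn₂3 : n₂ = 3 := by omega
    subst hn₂3
    by_cases h5 : 5 ≤ Fintype.card F
    · exact Or.inr (Or.inr (Or.inr (Or.inr (Or.inr (Or.inr (Or.inl ⟨hodd, h5, e₁, P, f₁, f₂, hf₁, hf₂,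
        hT, heq⟩))))))
    · have hq : Fintype.card F = 3 := by
        have h2 : 1 < Fintype.card F := Fintype.one_lt_card
        obtain ⟨c, hc⟩ := hodd
        omega
      obtain ⟨D, hD, hDle⟩ := Cfsg.Agent.Helper96.Sy.tensor_three_q3 hq (by norm_num) e₁ P f₁ f₂ hf₁
        hf₂ hT
      have hle : H ≤ Cfsg.Geo.decompositionStabilizer D := by
        rw [heq]
        exact hDle
      exact Or.inr (Or.inr (Or.inl ⟨by omega, D, hD,
        Cfsg.Agent.Helper96.Sy.eq_inf_of_max hH hle (Cfsg.Agent.Helper96.Sy.notSp_ndecomp D hD)⟩))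
  · -- tensor in characteristic two: impossible
    exfalso
    obtain ⟨c, hc'⟩ := hn₁
    obtain ⟨c₂, hc₂⟩ := hn₂
    rw [hc', hc₂] at hprod
    have h1 : (c + c) * (c₂ + c₂) = 4 * (c * c₂) := by ring
    omega
  · exact Or.inr (Or.inr (Or.inr (Or.inr (Or.inr (Or.inr (Or.inr (Or.inl ⟨F₀, r, P, ζ, hr, hcard, hζ,
      hR, heq⟩)))))))
  · exact Or.inr (Or.inr (Or.inr (Or.inr (Or.inr (Or.inr (Or.inr (Or.inr (Or.inl ⟨heven, Q, hQ, hpol,
      heq⟩))))))))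
  · exact Or.inr (Or.inr (Or.inr (Or.inr (Or.inr (Or.inr (Or.inr (Or.inr (Or.inr hres))))))))
  · -- 36 is not a prime power
    exfalso
    have h2 : 2 ∣ r ^ j := by rw [← hcard]; norm_num
    have h3 : 3 ∣ r ^ j := by rw [← hcard]; norm_num
    have h2' := (Nat.prime_dvd_prime_iff_eq Nat.prime_two hr).mp (Nat.Prime.dvd_of_dvd_pow Nat.prime_two h2)
    have h3' := (Nat.prime_dvd_prime_iff_eq (by norm_num) hr).mp (Nat.Prime.dvd_of_dvd_pow (by norm_num) h3)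
    omega
  · -- 6 is not a perfect power
    exfalso
    have h2 : 2 ∣ d ^ t := by rw [← hcard]; norm_num
    have h3 : 3 ∣ d ^ t := by rw [← hcard]; norm_num
    have h2' := Nat.Prime.dvd_of_dvd_pow Nat.prime_two h2
    have h3' := Nat.Prime.dvd_of_dvd_pow (by norm_num : Nat.Prime 3) h3
    have h6 : 6 ≤ d := by omega
    have h4 : d ^ 2 ≤ d ^ t := Nat.pow_le_pow_right (by omega) ht
    have h5 : 6 * 6 ≤ d ^ 2 := by rw [pow_two]; exact Nat.mul_le_mul h6 h6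
    omega

end Cfsg.Agent.S5805
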