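import Cfsg.Statements.S5808
import Cfsg.Agent.Helper97.PrimeDim

set_option autoImplicit false
open Cfsg

namespace Cfsg.Agent.S5808

/-- Every maximal subgroup of SL_7(q) is of one of the listed geometric types or lies in the residual class. Let F be a finite field with q elements (p its characteristic) and H a maximal subgroup of SL_7(F) (inside GL_7(F)). Then H is the intersection with SL_7(F) of one of: the stabiliser of a proper non-zero subspace; for q ≥ 5, the stabiliser of a decomposition into 7 independent 1-spaces; the normaliser of a degree-7 subfield of the matrix algebra; a subfield group for a subfield F₀ with |F| = |F₀|^r, r prime; for q = p prime with p ≡ 1 mod 7, or q = p³ with p ≡ 2 or 4 mod 7, the normaliser of an absolutely irreducible 7-subgroup R of exponent 7 and order 7^(1+2m) with centre of order 7, all of whose characteristic abelian subgroups are cyclic, F being the smallest field of characteristic p containing the seventh roots of unity (here R is extraspecial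 of order 343); for q odd, the similarity group of a non-degenerate quadratic form; the similarity group of a non-degenerate unitary form — or else H lies in the residual class of the linear case (modulo scalars H is almost simple, with absolutely irreducible perfect socle preimage realisable over no proper subfield and fixing no non-degenerate quadratic, symplectic or unitary form). -/
theorem result {F : Type*} [Field F] [Fintype F] (H : Subgroup (Matrix.GeneralLinearGroup (Fin 7) F)) (hH : Cfsg.Geo.IsMaximalIn (Cfsg.Geo.specialLinear (Fin 7) F) H) :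
    (∃ W : Submodule F (Fin 7 → F), W ≠ ⊥ ∧ W ≠ ⊤ ∧ H = Cfsg.Geo.subspaceStabilizer W ⊓ Cfsg.Geo.specialLinear (Fin 7) F) ∨
    (5 ≤ Fintype.card F ∧ ∃ D : Fin 7 → Submodule F (Fin 7 → F), Cfsg.Geo.IsMDecomposition 1 D ∧ H = Cfsg.Geo.decompositionStabilizer D ⊓ Cfsg.Geo.specialLinear (Fin 7) F) ∨
    (∃ K : Subalgebra F (Matrix (Fin 7) (Fin 7) F), Cfsg.Geo.IsFieldSubalgebra 7 K ∧ H = Cfsg.Geo.subalgebraNormalizer K ⊓ Cfsg.Geo.specialLinear (Fin 7) F) ∨
    (∃ (F₀ : Subfield F) (r : ℕ) (P : Matrix.GeneralLinearGroup (Fin 7) F), r.Prime ∧ Fintype.card F = Nat.card F₀ ^ r ∧ H = Cfsg.Geo.subfieldSubgroup F₀ P ⊓ Cfsg.Geo.specialLinear (Fin 7) F) ∨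
    ((∃ p : ℕ, p.Prime ∧ CharP F p ∧ ((Fintype.card F = p ∧ p % 7 = 1) ∨ (Fintype.card F = p ^ 3 ∧ (p % 7 = 2 ∨ p % 7 = 4)))) ∧ ∃ R : Subgroup (Matrix.GeneralLinearGroup (Fin 7) F), Cfsg.Geo.IsLinearSymplecticTypeData 7 R ∧ H = Cfsg.Geo.subgroupNormalizer R ⊓ Cfsg.Geo.specialLinear (Fin 7) F) ∨
    (Odd (Fintype.card F) ∧ ∃ Q : (Fin 7 → F) → F, Cfsg.Geo.IsNondegenerateQuadraticForm Q ∧ H = Cfsg.Geo.quadSimilarityGroup Q ⊓ Cfsg.Geo.specialLinear (Fin 7) F) ∨
    (∃ (σ : F ≃+* F) (f : (Fin 7 → F) → (Fin 7 → F) → F), Cfsg.Geo.IsUnitaryForm σ f ∧ H = Cfsg.Geo.similarityGroup f ⊓ Cfsg.Geo.specialLinear (Fin 7) F) ∨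
    Cfsg.Geo.InLinearResidualClass H := by
  have hmain := Cfsg.Agent.Helper97.prime_dim_cases (n := 7) (by norm_num) (by decide) H hH
  rcases hmain with h | h | h | h | h | h | h | h
  · exact Or.inl h
  · exact Or.inr (Or.inl h)
  · exact Or.inr (Or.inr (Or.inl h))
  · exact Or.inr (Or.inr (Or.inr (Or.inl h)))
  · refine Or.inr (Or.inr (Or.inr (Or.inr (Or.inl ?_))))
    obtain ⟨⟨p, e, hp, hchar, he, hcard, hdvd, hmin⟩, hR⟩ := h
    have key := Cfsg.Agent.Helper97.num_seven (p % 7) e (Nat.mod_lt _ (by norm_num)) he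
      ((Cfsg.Agent.Helper97.dvd_pow_sub_one_iff (by norm_num) hp.pos).mp hdvd)
      (fun d hd0 hde h => hmin d hd0 hde
        ((Cfsg.Agent.Helper97.dvd_pow_sub_one_iff (by norm_num) hp.pos).mpr h))
    refine ⟨⟨p, hp, hchar, ?_⟩, hR⟩
    rcases key with ⟨rfl, hr⟩ | ⟨rfl, hr⟩
    · left
      exact ⟨by rw [hcard, pow_one], hr⟩
    · right
      exact ⟨hcard, hr⟩
  · exact Or.inr (Or.inr (Or.inr (Or.inr (Or.inr (Or.inl h)))))
  · exact Or.inr (Or.inr (Or.inr (Or.inr (Or.inr (Or.inr (Or.inl h))))))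
  · exact Or.inr (Or.inr (Or.inr (Or.inr (Or.inr (Or.inr (Or.inr h))))))

end Cfsg.Agent.S5808
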