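import Cfsg.Statements.S5817
import Cfsg.Agent.Helper96.SympCases2
import Cfsg.Agent.Helper96.CompositeCases

set_option autoImplicit false
open Cfsg

namespace Cfsg.Agent.S5817

/-- Every maximal subgroup of SL_8(q) is of one of the listed geometric types or lies in the residual class. Let F be a finite field with q elements (p its characteristic) and H a maximal subgroup of SL_8(F) (inside GL_8(F)). Then H is the intersection with SL_8(F) of one of: the stabiliser of a proper non-zero subspace; for q ≥ 5, the stabiliser of a decomposition into 8 independent 1-spaces; for q ≥ 3, the stabiliser of a decomposition into 4 independent 2-spaces; the stabiliser of a decomposition into 2 independent 4-spaces; the normaliser of a degree-2 subfield of the matrix algebra; for q ≥ 3, the stabiliser of a tensor decomposition F^2 ⊗ F^4; a subfield group for a subfield F₀ with |F| = |F₀|^r, r prime; for q = p prime with p ≡ 1 mod 4, the normaliser of an absolutely irreducible 2-subgroup R of exponent 4 and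 order 2^(2+2m) with centre of order 4, all of whose characteristic abelian subgroups are cyclic, 4 dividing p − 1 (here |R| = 2^8); for q odd, the similarity group of a non-degenerate quadratic form; the similarity group of a non-degenerate symplectic form; the similarity group of a non-degenerate unitary form — or else H lies in the residual class of the linear case (modulo scalars H is almost simple, with absolutely irreducible perfect socle preimage realisable over no proper subfield and fixing no non-degenerate quadratic, symplectic or unitary form). -/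
theorem result {F : Type*} [Field F] [Fintype F] (H : Subgroup (Matrix.GeneralLinearGroup (Fin 8) F)) (hH : Cfsg.Geo.IsMaximalIn (Cfsg.Geo.specialLinear (Fin 8) F) H) :
    (∃ W : Submodule F (Fin 8 → F), W ≠ ⊥ ∧ W ≠ ⊤ ∧ H = Cfsg.Geo.subspaceStabilizer W ⊓ Cfsg.Geo.specialLinear (Fin 8) F) ∨
    (5 ≤ Fintype.card F ∧ ∃ D : Fin 8 → Submodule F (Fin 8 → F), Cfsg.Geo.IsMDecomposition 1 D ∧ H = Cfsg.Geo.decompositionStabilizer D ⊓ Cfsg.Geo.specialLinear (Fin 8) F) ∨
    (3 ≤ Fintype.card F ∧ ∃ D : Fin 4 → Submodule F (Fin 8 → F), Cfsg.Geo.IsMDecomposition 2 D ∧ H = Cfsg.Geo.decompositionStabilizer D ⊓ Cfsg.Geo.specialLinear (Fin 8) F) ∨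
    (∃ D : Fin 2 → Submodule F (Fin 8 → F), Cfsg.Geo.IsMDecomposition 4 D ∧ H = Cfsg.Geo.decompositionStabilizer D ⊓ Cfsg.Geo.specialLinear (Fin 8) F) ∨
    (∃ K : Subalgebra F (Matrix (Fin 8) (Fin 8) F), Cfsg.Geo.IsFieldSubalgebra 2 K ∧ H = Cfsg.Geo.subalgebraNormalizer K ⊓ Cfsg.Geo.specialLinear (Fin 8) F) ∨
    (3 ≤ Fintype.card F ∧ ∃ (e : Fin 8 ≃ Fin 2 × Fin 4) (P : Matrix.GeneralLinearGroup (Fin 8) F), H = Cfsg.Geo.tensorProductSubgroup 2 4 e P ⊓ Cfsg.Geo.specialLinear (Fin 8) F) ∨
    (∃ (F₀ : Subfield F) (r : ℕ) (P : Matrix.GeneralLinearGroup (Fin 8) F), r.Prime ∧ Fintype.card F = Nat.card F₀ ^ r ∧ H = Cfsg.Geo.subfieldSubgroup F₀ P ⊓ Cfsg.Geo.specialLinear (Fin 8) F) ∨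
    ((∃ p : ℕ, p.Prime ∧ Fintype.card F = p ∧ (p % 4 = 1)) ∧ ∃ R : Subgroup (Matrix.GeneralLinearGroup (Fin 8) F), Cfsg.Geo.IsLinearSymplecticTypeData 2 R ∧ H = Cfsg.Geo.subgroupNormalizer R ⊓ Cfsg.Geo.specialLinear (Fin 8) F) ∨
    (Odd (Fintype.card F) ∧ ∃ Q : (Fin 8 → F) → F, Cfsg.Geo.IsNondegenerateQuadraticForm Q ∧ H = Cfsg.Geo.quadSimilarityGroup Q ⊓ Cfsg.Geo.specialLinear (Fin 8) F) ∨
    (∃ f : (Fin 8 → F) → (Fin 8 → F) → F, Cfsg.Geo.IsSymplecticForm f ∧ H = Cfsg.Geo.similarityGroup f ⊓ Cfsg.Geo.specialLinear (Fin 8) F) ∨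
    (∃ (σ : F ≃+* F) (f : (Fin 8 → F) → (Fin 8 → F) → F), Cfsg.Geo.IsUnitaryForm σ f ∧ H = Cfsg.Geo.similarityGroup f ⊓ Cfsg.Geo.specialLinear (Fin 8) F) ∨
    Cfsg.Geo.InLinearResidualClass H := by
  classical
  obtain ⟨p, hchar⟩ := CharP.exists F
  have hp : p.Prime := (CharP.char_is_prime_or_zero F p).resolve_right (CharP.char_ne_zero_of_finite F p)
  have hfact : Fact p.Prime := ⟨hp⟩
  have hn3 : 3 ≤ 8 := by norm_num
  have hn2 : 2 ≤ 8 := by norm_num
  have hq1 : 1 < Fintype.card F := Fintype.one_lt_card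
  rcases Helper96.composite_core hn3 H hH with h | ⟨t, m, D, hD, hHeq⟩ | ⟨r, K, hr, hK, hHeq⟩ |
    ⟨d, k, e, P, hd2, hk2, hHeq⟩ | h | h | h | h | h | ⟨N, hN⟩ | ⟨N, S, d, k, e, Pm, ρ, hCP⟩
  · exact Or.inl h
  · -- decompositions
    have hle : H ≤ Cfsg.Geo.decompositionStabilizer D := (le_of_eq hHeq).trans inf_le_left
    have htm := Helper97.isMDecomposition_card D hD
    have ht := hD.two_le
    have hm := hD.pos
    have hm4 : m ≤ 4 := by nlinarith
    interval_cases m
    · have ht8 : t = 8 := by omega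
      subst ht8
      by_cases hq : 5 ≤ Fintype.card F
      · right; left
        exact ⟨hq, D, hD, hHeq⟩
      · have hq' : Fintype.card F = 2 ∨ Fintype.card F = 3 ∨ Fintype.card F = 4 := by omega
        rcases hq' with h2 | h3 | h4
        · obtain ⟨W, hW0, hW1, hle'⟩ := Helper96.small_two' hn2 h2 H D hD hle
          left
          exact ⟨W, hW0, hW1, Helper97.eq_inf_of_isMaximalIn hH hle' (Helper97.notSL_subspace hn2 W hW0 hW1)⟩
        · obtain ⟨Q, hQ, hle'⟩ := Helper97.small_three h3 H D hD hle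
          right; right; right; right; right; right; right; right; left
          exact ⟨by rw [h3]; decide, Q, hQ,
            Helper97.eq_inf_of_isMaximalIn hH hle' (Helper97.notSL_quadSimilarity (p := p) hn3 Q hQ)⟩
        · obtain ⟨σ, f, hf, hle'⟩ := Helper97.small_four h4 H D hD hle
          right; right; right; right; right; right; right; right; right; right; left
          exact ⟨σ, f, hf, Helper97.eq_inf_of_isMaximalIn hH hle' (Helper97.notSL_unitary (p := p) hn3 σ f hf)⟩
    · have ht4 : t = 4 := by omega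
      subst ht4
      by_cases hq : 3 ≤ Fintype.card F
      · right; right; left
        exact ⟨hq, D, hD, hHeq⟩
      · have hq2 : Fintype.card F = 2 := by omega
        obtain ⟨f, hf, hle'⟩ := Helper96.planes_two hq2 D hD
        right; right; right; right; right; right; right; right; right; left
        exact ⟨f, hf, Helper97.eq_inf_of_isMaximalIn hH (hle.trans hle')
          (Helper97.notSL_similarity (p := p) hn3 f hf.bilinear.add_left hf.bilinear.add_right
            (fun v hv => (hf.nondegenerate v hv).1))⟩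
    · omega
    · have ht2 : t = 2 := by omega
      subst ht2
      right; right; right; left
      exact ⟨D, hD, hHeq⟩
  · -- extension fields
    have hdvd := (Helper97.finrank_dvd_of_division K hK.inv).1
    rw [hK.finrank_eq] at hdvd
    have hr8 : r ≤ 8 := Nat.le_of_dvd (by norm_num) hdvd
    have hr2 := hr.two_le
    have hr2' : r = 2 := by
      interval_cases r
      · rfl
      · exact absurd hdvd (by norm_num)
      · exact absurd hr (by norm_num)
      · exact absurd hdvd (by norm_num)
      · exact absurd hr (by norm_num)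
      · exact absurd hdvd (by norm_num)
      · exact absurd hr (by norm_num)
    subst hr2'
    right; right; right; right; left
    exact ⟨K, hK, hHeq⟩
  · -- tensor products
    have hle : H ≤ Cfsg.Geo.tensorProductSubgroup d k e P := (le_of_eq hHeq).trans inf_le_left
    have main : ∀ (k : ℕ) (e : Fin 8 ≃ Fin 2 × Fin k) (P : Matrix.GeneralLinearGroup (Fin 8) F),
        H ≤ Cfsg.Geo.tensorProductSubgroup 2 k e P →
        (∃ K : Subalgebra F (Matrix (Fin 8) (Fin 8) F), Cfsg.Geo.IsFieldSubalgebra 2 K ∧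
          H = Cfsg.Geo.subalgebraNormalizer K ⊓ Cfsg.Geo.specialLinear (Fin 8) F) ∨
        (3 ≤ Fintype.card F ∧ ∃ (e : Fin 8 ≃ Fin 2 × Fin 4) (P : Matrix.GeneralLinearGroup (Fin 8) F),
          H = Cfsg.Geo.tensorProductSubgroup 2 4 e P ⊓ Cfsg.Geo.specialLinear (Fin 8) F) := by
      intro k e P hle
      have hk4 : k = 4 := by
        have := Helper96.card_of_equiv_prod e
        omega
      subst hk4
      by_cases hq : Fintype.card F = 2
      · obtain ⟨K, hK, hKle⟩ := Helper96.tensor_two_le_field hq (by norm_num) e P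
        left
        exact ⟨K, hK, Helper97.eq_inf_of_isMaximalIn hH (hle.trans hKle)
          (Helper97.notSL_fieldNormalizer hn3 K hK.inv
            (Helper97.not_all_scalar_of_finrank K (by rw [hK.finrank_eq])))⟩
      · right
        exact ⟨by omega, e, P,
          Helper97.eq_inf_of_isMaximalIn hH hle (Helper96.notSL_tensor (by norm_num) (by norm_num) e P)⟩
    have hcard := Helper96.card_of_equiv_prod e
    have h1 : (∃ K : Subalgebra F (Matrix (Fin 8) (Fin 8) F), Cfsg.Geo.IsFieldSubalgebra 2 K ∧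
          H = Cfsg.Geo.subalgebraNormalizer K ⊓ Cfsg.Geo.specialLinear (Fin 8) F) ∨
        (3 ≤ Fintype.card F ∧ ∃ (e : Fin 8 ≃ Fin 2 × Fin 4) (P : Matrix.GeneralLinearGroup (Fin 8) F),
          H = Cfsg.Geo.tensorProductSubgroup 2 4 e P ⊓ Cfsg.Geo.specialLinear (Fin 8) F) := by
      have hd4 : d ≤ 4 := by nlinarith
      interval_cases d
      · exact main k e P hle
      · omega
      · have hk2' : k = 2 := by omega
        subst hk2'
        exact main 4 _ P (hle.trans (Helper96.tensor_swap_le e P))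
    rcases h1 with h1 | h1
    · exact Or.inr (Or.inr (Or.inr (Or.inr (Or.inl h1))))
    · exact Or.inr (Or.inr (Or.inr (Or.inr (Or.inr (Or.inl h1)))))
  · exact Or.inr (Or.inr (Or.inr (Or.inr (Or.inr (Or.inr (Or.inl h))))))
  · exact Or.inr (Or.inr (Or.inr (Or.inr (Or.inr (Or.inr (Or.inr (Or.inr (Or.inl h))))))))
  · exact Or.inr (Or.inr (Or.inr (Or.inr (Or.inr (Or.inr (Or.inr (Or.inr (Or.inr (Or.inl h)))))))))
  · exact Or.inr (Or.inr (Or.inr (Or.inr (Or.inr (Or.inr (Or.inr (Or.inr (Or.inr (Or.inr (Or.inl h))))))))))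
  · exact Or.inr (Or.inr (Or.inr (Or.inr (Or.inr (Or.inr (Or.inr (Or.inr (Or.inr (Or.inr (Or.inr h))))))))))
  · -- class two
    obtain ⟨r, j, hr, hj, hpow⟩ := hN.pow
    have hr2 : r = 2 := by
      have h1 : (2 : ℕ) ∣ r ^ j := by rw [← hj]; norm_num
      exact ((Nat.prime_dvd_prime_iff_eq Nat.prime_two hr).mp (Nat.prime_two.dvd_of_dvd_pow h1)).symm
    subst hr2
    rcases Helper96.c2_two_cases (p := p) (by norm_num : 4 ≤ 8) (m := 3) (by norm_num) H N hH hN hpow
      with h | h | ⟨R, hR, hHeq, hcard, hp4⟩ | h | h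
    · exact Or.inr (Or.inr (Or.inr (Or.inr (Or.inr (Or.inr (Or.inl h))))))
    · exact Or.inr (Or.inr (Or.inr (Or.inr (Or.inr (Or.inr (Or.inr (Or.inr (Or.inr (Or.inr (Or.inl h))))))))))
    · right; right; right; right; right; right; right; left
      exact ⟨⟨p, hp, hcard, hp4⟩, R, hR, hHeq⟩
    · exact Or.inr (Or.inr (Or.inr (Or.inr (Or.inr (Or.inr (Or.inr (Or.inr (Or.inl h))))))))
    · exact Or.inr (Or.inr (Or.inr (Or.inr (Or.inr (Or.inr (Or.inr (Or.inr (Or.inr (Or.inl h)))))))))
  · -- central products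
    obtain ⟨t, ht, hnt⟩ := hCP.pow
    have hd2 := hCP.two_le
    have hd2' : d = 2 := by
      have h1 : d ^ 2 ≤ d ^ t := Nat.pow_le_pow_right (by omega) ht
      have h2 : d ≤ 2 := by nlinarith
      omega
    subst hd2'
    rcases Helper96.cp_two_cases (p := p) hn3 H N S hH e Pm ρ hCP with h | h
    · exact Or.inr (Or.inr (Or.inr (Or.inr (Or.inr (Or.inr (Or.inr (Or.inr (Or.inl h))))))))
    · exact Or.inr (Or.inr (Or.inr (Or.inr (Or.inr (Or.inr (Or.inr (Or.inr (Or.inr (Or.inl h)))))))))

end Cfsg.Agent.S5817
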