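import Cfsg.Statements.S5820
import Cfsg.Agent.Helper90.UnC6d

set_option autoImplicit false
open Cfsg

namespace Cfsg.Agent.S5820

/-- Every maximal subgroup of SU_8(q) is of one of the listed geometric types or lies in the residual class. Let F be the field with q² elements, f the standard unitary form Σ u_i v_i^q on F^8, and H a maximal subgroup of SU_8(q) (inside GL_8(F)). Then H is the intersection with SU_8(q) of one of: the stabiliser of a non-zero totally isotropic subspace; the stabiliser of a non-degenerate 1-, 2- or 3-space; the stabiliser of a decomposition into eight mutually orthogonal non-degenerate 1-spaces; for q ≥ 3, of a decomposition into four mutually orthogonal non-degenerate 2-spaces; of a decomposition into two orthogonal non-degenerate 4-spaces; of a decomposition into two totally isotropic 4-spaces; for q ≥ 3, the stabiliser of a tensor decomposition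 of f into unitary forms on F^2 and F^4; a subfield group of odd prime index whose F₀-structure carries f; a subfield group of index 2 and symplectic type; for q odd, a subfield group of index 2 and orthogonal type; for q = p ≡ 3 mod 4 prime, the normaliser of an absolutely irreducible symplectic-type 2-group of order 2^8 with centre of order 4 inside the similarity group of f — or else H lies in the residual class of the unitary case. -/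
theorem result {F : Type*} [Field F] [Fintype F] (q : ℕ) (hF : Fintype.card F = q ^ 2) (H : Subgroup (Matrix.GeneralLinearGroup (Fin 8) F)) (hH : Cfsg.Geo.IsMaximalIn (Cfsg.GU 8 F q ⊓ Cfsg.Geo.specialLinear (Fin 8) F) H) :
    (∃ W : Submodule F (Fin 8 → F), W ≠ ⊥ ∧ Cfsg.Geo.IsTotallySingularFor (Cfsg.hermForm 8 F q) W ∧ H = Cfsg.Geo.subspaceStabilizer W ⊓ (Cfsg.GU 8 F q ⊓ Cfsg.Geo.specialLinear (Fin 8) F)) ∨
    (∃ W : Submodule F (Fin 8 → F), W ≠ ⊥ ∧ Cfsg.Geo.IsNondegenerateOn (Cfsg.hermForm 8 F q) W ∧ 2 * Module.finrank F W < 8 ∧ H = Cfsg.Geo.subspaceStabilizer W ⊓ (Cfsg.GU 8 F q ⊓ Cfsg.Geo.specialLinear (Fin 8) F)) ∨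
    (∃ D : Fin 8 → Submodule F (Fin 8 → F), Cfsg.Geo.IsNondegenerateMDecomposition (Cfsg.hermForm 8 F q) 1 D ∧ H = Cfsg.Geo.decompositionStabilizer D ⊓ (Cfsg.GU 8 F q ⊓ Cfsg.Geo.specialLinear (Fin 8) F)) ∨
    (3 ≤ q ∧ ∃ D : Fin 4 → Submodule F (Fin 8 → F), Cfsg.Geo.IsNondegenerateMDecomposition (Cfsg.hermForm 8 F q) 2 D ∧ H = Cfsg.Geo.decompositionStabilizer D ⊓ (Cfsg.GU 8 F q ⊓ Cfsg.Geo.specialLinear (Fin 8) F)) ∨
    (∃ D : Fin 2 → Submodule F (Fin 8 → F), Cfsg.Geo.IsNondegenerateMDecomposition (Cfsg.hermForm 8 F q) 4 D ∧ H = Cfsg.Geo.decompositionStabilizer D ⊓ (Cfsg.GU 8 F q ⊓ Cfsg.Geo.specialLinear (Fin 8) F)) ∨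
    (∃ D : Fin 2 → Submodule F (Fin 8 → F), Cfsg.Geo.IsMDecomposition 4 D ∧ (∀ i, Cfsg.Geo.IsTotallySingularFor (Cfsg.hermForm 8 F q) (D i)) ∧ H = Cfsg.Geo.decompositionStabilizer D ⊓ (Cfsg.GU 8 F q ⊓ Cfsg.Geo.specialLinear (Fin 8) F)) ∨
    (3 ≤ q ∧ ∃ (e : Fin 8 ≃ Fin 2 × Fin 4) (P : Matrix.GeneralLinearGroup (Fin 8) F) (f₁ : (Fin 2 → F) → (Fin 2 → F) → F) (f₂ : (Fin 4 → F) → (Fin 4 → F) → F), Cfsg.Geo.IsUnitaryFormPow q f₁ ∧ Cfsg.Geo.IsUnitaryFormPow q f₂ ∧ Cfsg.Geo.IsTensorFormStructure (fun x : F => x ^ q) (Cfsg.hermForm 8 F q) f₁ f₂ e P ∧ H = Cfsg.Geo.tensorProductSubgroup 2 4 e P ⊓ (Cfsg.GU 8 F q ⊓ Cfsg.Geo.specialLinear (Fin 8) F)) ∨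
    (∃ (F₀ : Subfield F) (r : ℕ) (P : Matrix.GeneralLinearGroup (Fin 8) F), r.Prime ∧ Odd r ∧ Fintype.card F = Nat.card F₀ ^ r ∧ Cfsg.Geo.IsFormRationalStructure (Cfsg.hermForm 8 F q) F₀ 1 P ∧ H = Cfsg.Geo.subfieldSubgroup F₀ P ⊓ (Cfsg.GU 8 F q ⊓ Cfsg.Geo.specialLinear (Fin 8) F)) ∨
    (∃ (F₀ : Subfield F) (P : Matrix.GeneralLinearGroup (Fin 8) F) (ζ : F), Fintype.card F = Nat.card F₀ ^ 2 ∧ ζ ≠ 0 ∧ ζ + ζ ^ q = 0 ∧ Cfsg.Geo.IsFormRationalStructure (Cfsg.hermForm 8 F q) F₀ ζ P ∧ (∀ u : Fin 8 → F, (∀ i, u i ∈ F₀) → (Cfsg.hermForm 8 F q) (Matrix.mulVec (P : Matrix (Fin 8) (Fin 8) F) u) (Matrix.mulVec (P : Matrix (Fin 8) (Fin 8) F) u) = 0) ∧ H = Cfsg.Geo.subfieldSubgroup F₀ P ⊓ (Cfsg.GU 8 F q ⊓ Cfsg.Geo.specialLinear (Fin 8) F)) ∨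
    (Odd q ∧ ∃ (F₀ : Subfield F) (P : Matrix.GeneralLinearGroup (Fin 8) F), Fintype.card F = Nat.card F₀ ^ 2 ∧ Cfsg.Geo.IsFormRationalStructure (Cfsg.hermForm 8 F q) F₀ 1 P ∧ H = Cfsg.Geo.subfieldSubgroup F₀ P ⊓ (Cfsg.GU 8 F q ⊓ Cfsg.Geo.specialLinear (Fin 8) F)) ∨
    (∃ (p : ℕ) (R : Subgroup (Matrix.GeneralLinearGroup (Fin 8) F)), p.Prime ∧ q = p ∧ p % 4 = 3 ∧ Cfsg.Geo.IsSymplecticTypeGroup 2 R ∧ Cfsg.Geo.ActsAbsolutelyIrreducibly (Cfsg.Geo.matrixSet R) ∧ R ≤ Cfsg.Geo.similarityGroup (Cfsg.hermForm 8 F q) ∧ Nat.card R = 256 ∧ Nat.card (Subgroup.center R) = 4 ∧ H = Cfsg.Geo.subgroupNormalizer R ⊓ (Cfsg.GU 8 F q ⊓ Cfsg.Geo.specialLinear (Fin 8) F)) ∨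
    Cfsg.Geo.InUnitaryResidualClass H := by
  have hd : ∀ d t : ℕ, 2 ≤ d → 2 ≤ t → 8 = d ^ t → d = 2 := by
    intro d t hd2 ht2 h8
    by_contra hne
    have h3 : 3 ≤ d := by omega
    have h4 : d ^ 2 ≤ d ^ t := Nat.pow_le_pow_right (by omega) ht2
    have h5 : 3 * 3 ≤ d ^ 2 := by rw [pow_two]; exact Nat.mul_le_mul h3 h3
    omega
  have hmax := Cfsg.Agent.Helper90.UC.un_max_cases2 (n := 8) (by norm_num) (k₀ := 3) (by norm_num) hd
    q hF H hH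
  unfold Cfsg.Agent.Helper90.UC.UnMax2 at hmax
  rcases hmax with ⟨W, hW0, hts, heq⟩ | ⟨W, hW0, hnd, hlt, heq⟩ | ⟨t, k, D, htk, hc, hD, heq⟩ |
    ⟨k, D, hk, hD, hts, heq⟩ | ⟨r, K, hr, hrodd, hdvd, hK, hac, heq⟩ |
    ⟨n₁, n₂, e, P, f₁, f₂, hn₁, hn₁₂, hprod, hc, hf₁, hf₂, hT, heq⟩ |
    ⟨F₀, r, P, hr, hrodd, hcard, hR, heq⟩ | ⟨F₀, P, ζ, hcard, hζ, hζq, hR, hiso, heq⟩ |
    ⟨hodd, F₀, P, hcard, hR, heq⟩ | hres |
    ⟨p, R, hp, hqp, hp4, hsymp, habs, hsim, hcard, hcen, heq⟩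
  · exact Or.inl ⟨W, hW0, hts, heq⟩
  · exact Or.inr (Or.inl ⟨W, hW0, hnd, hlt, heq⟩)
  · -- decompositions: (t, k) = (8, 1), (4, 2), (2, 4)
    have ht := hD.decomp.two_le
    have hkpos := hD.decomp.pos
    have hkle : k ≤ 4 := by nlinarith
    interval_cases k
    · obtain rfl : t = 8 := by omega
      exact Or.inr (Or.inr (Or.inl ⟨D, hD, heq⟩))
    · obtain rfl : t = 4 := by omega
      exact Or.inr (Or.inr (Or.inr (Or.inl ⟨hc rfl, D, hD, heq⟩)))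
    · exfalso
      omega
    · obtain rfl : t = 2 := by omega
      exact Or.inr (Or.inr (Or.inr (Or.inr (Or.inl ⟨D, hD, heq⟩))))
  · obtain rfl : k = 4 := by omega
    exact Or.inr (Or.inr (Or.inr (Or.inr (Or.inr (Or.inl ⟨D, hD, hts, heq⟩)))))
  · -- no odd prime divides 8
    exfalso
    have h8 : r ∣ 2 ^ 3 := by norm_num; exact hdvd
    have h2 := (Nat.prime_dvd_prime_iff_eq hr Nat.prime_two).mp (hr.dvd_of_dvd_pow h8)
    subst h2
    exact absurd hrodd (by decide)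
  · -- tensor: (n₁, n₂) = (2, 4)
    have h3 : n₁ ≤ 2 := by nlinarith
    interval_cases n₁
    obtain rfl : n₂ = 4 := by omega
    exact Or.inr (Or.inr (Or.inr (Or.inr (Or.inr (Or.inr (Or.inl ⟨hc rfl, e, P, f₁, f₂,
      hf₁, hf₂, hT, heq⟩))))))
  · exact Or.inr (Or.inr (Or.inr (Or.inr (Or.inr (Or.inr (Or.inr (Or.inl ⟨F₀, r, P, hr,
      hrodd, hcard, hR, heq⟩)))))))
  · exact Or.inr (Or.inr (Or.inr (Or.inr (Or.inr (Or.inr (Or.inr (Or.inr (Or.inl ⟨F₀, P, ζ,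
      hcard, hζ, hζq, hR, hiso, heq⟩))))))))
  · exact Or.inr (Or.inr (Or.inr (Or.inr (Or.inr (Or.inr (Or.inr (Or.inr (Or.inr
      (Or.inl ⟨hodd, F₀, P, hcard, hR, heq⟩)))))))))
  · exact Or.inr (Or.inr (Or.inr (Or.inr (Or.inr (Or.inr (Or.inr (Or.inr (Or.inr (Or.inr
      (Or.inr hres))))))))))
  · exact Or.inr (Or.inr (Or.inr (Or.inr (Or.inr (Or.inr (Or.inr (Or.inr (Or.inr (Or.inr
      (Or.inl ⟨p, R, hp, hqp, hp4, hsymp, habs, hsim, by rw [hcard], hcen, heq⟩))))))))))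

end Cfsg.Agent.S5820
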