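import Cfsg.Statements.S5829
import Cfsg.Agent.Helper96.SympCases
import Cfsg.Agent.Helper96.CompositeCases

set_option autoImplicit false
open Cfsg

namespace Cfsg.Agent.S5829

/-- The minimal-field condition for cube roots of unity with odd exponent forces the prime field. -/
theorem p_mod_three {p e : ℕ} (hp : p.Prime) (he : Odd e) (hdvd : 3 ∣ p ^ e - 1)
    (hmin : ∀ d : ℕ, 0 < d → d < e → ¬ 3 ∣ p ^ d - 1) : e = 1 ∧ p % 3 = 1 := by
  have hpe : 1 ≤ p ^ e := Nat.one_le_pow _ _ hp.pos
  have h1 : p ^ e % 3 = 1 := by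
    obtain ⟨c, hc⟩ := hdvd
    have : p ^ e = 3 * c + 1 := by omega
    rw [this]
    omega
  obtain ⟨k, hk⟩ := he
  have h2 : p ^ e % 3 = ((p % 3) ^ e) % 3 := Nat.pow_mod p e 3
  have h3 : p % 3 < 3 := Nat.mod_lt _ (by norm_num)
  have hp1 : p % 3 = 1 := by
    interval_cases hp3 : p % 3
    · rw [h2, hk, zero_pow (by omega)] at h1
      omega
    · rfl
    · exfalso
      have h4 : (2 : ℕ) ^ e % 3 = 2 := by
        rw [hk, pow_succ, pow_mul, Nat.mul_mod, Nat.pow_mod]
        norm_num
      rw [h2, h4] at h1
      omega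
  refine ⟨?_, hp1⟩
  by_contra hne
  have he2 : 1 < e := by omega
  apply hmin 1 (by norm_num) he2
  rw [pow_one]
  omega

/-- Every maximal subgroup of SL_9(q) is of one of the listed geometric types or lies in the residual class. Let F be a finite field with q elements (p its characteristic) and H a maximal subgroup of SL_9(F) (inside GL_9(F)). Then H is the intersection with SL_9(F) of one of: the stabiliser of a proper non-zero subspace; for q ≥ 5, the stabiliser of a decomposition into 9 independent 1-spaces; the stabiliser of a decomposition into 3 independent 3-spaces; the normaliser of a degree-3 subfield of the matrix algebra; a subfield group for a subfield F₀ with |F| = |F₀|^r, r prime; for q = p prime with p ≡ 1 mod 3, the normaliser of an absolutely irreducible 3-subgroup R of exponent 3 and order 3^(1+2m) with centre of order 3, all of whose characteristic abelian subgroups are cyclic, F being the smallest field of characteristic p containing the cube roots of unity (here R is extraspecial of order 3^5);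 the stabiliser of a tensor decomposition into 2 factors of dimension 3; for q odd, the similarity group of a non-degenerate quadratic form; the similarity group of a non-degenerate unitary form — or else H lies in the residual class of the linear case (modulo scalars H is almost simple, with absolutely irreducible perfect socle preimage realisable over no proper subfield and fixing no non-degenerate quadratic, symplectic or unitary form). -/
theorem result {F : Type*} [Field F] [Fintype F] (H : Subgroup (Matrix.GeneralLinearGroup (Fin 9) F)) (hH : Cfsg.Geo.IsMaximalIn (Cfsg.Geo.specialLinear (Fin 9) F) H) :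
    (∃ W : Submodule F (Fin 9 → F), W ≠ ⊥ ∧ W ≠ ⊤ ∧ H = Cfsg.Geo.subspaceStabilizer W ⊓ Cfsg.Geo.specialLinear (Fin 9) F) ∨
    (5 ≤ Fintype.card F ∧ ∃ D : Fin 9 → Submodule F (Fin 9 → F), Cfsg.Geo.IsMDecomposition 1 D ∧ H = Cfsg.Geo.decompositionStabilizer D ⊓ Cfsg.Geo.specialLinear (Fin 9) F) ∨
    (∃ D : Fin 3 → Submodule F (Fin 9 → F), Cfsg.Geo.IsMDecomposition 3 D ∧ H = Cfsg.Geo.decompositionStabilizer D ⊓ Cfsg.Geo.specialLinear (Fin 9) F) ∨
    (∃ K : Subalgebra F (Matrix (Fin 9) (Fin 9) F), Cfsg.Geo.IsFieldSubalgebra 3 K ∧ H = Cfsg.Geo.subalgebraNormalizer K ⊓ Cfsg.Geo.specialLinear (Fin 9) F) ∨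
    (∃ (F₀ : Subfield F) (r : ℕ) (P : Matrix.GeneralLinearGroup (Fin 9) F), r.Prime ∧ Fintype.card F = Nat.card F₀ ^ r ∧ H = Cfsg.Geo.subfieldSubgroup F₀ P ⊓ Cfsg.Geo.specialLinear (Fin 9) F) ∨
    ((∃ p : ℕ, p.Prime ∧ Fintype.card F = p ∧ (p % 3 = 1)) ∧ ∃ R : Subgroup (Matrix.GeneralLinearGroup (Fin 9) F), Cfsg.Geo.IsLinearSymplecticTypeData 3 R ∧ H = Cfsg.Geo.subgroupNormalizer R ⊓ Cfsg.Geo.specialLinear (Fin 9) F) ∨
    (∃ (e : Fin 9 ≃ (Fin 2 → Fin 3)) (P : Matrix.GeneralLinearGroup (Fin 9) F), H = Cfsg.Geo.tensorWreathSubgroup 3 2 e P ⊓ Cfsg.Geo.specialLinear (Fin 9) F) ∨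
    (Odd (Fintype.card F) ∧ ∃ Q : (Fin 9 → F) → F, Cfsg.Geo.IsNondegenerateQuadraticForm Q ∧ H = Cfsg.Geo.quadSimilarityGroup Q ⊓ Cfsg.Geo.specialLinear (Fin 9) F) ∨
    (∃ (σ : F ≃+* F) (f : (Fin 9 → F) → (Fin 9 → F) → F), Cfsg.Geo.IsUnitaryForm σ f ∧ H = Cfsg.Geo.similarityGroup f ⊓ Cfsg.Geo.specialLinear (Fin 9) F) ∨
    Cfsg.Geo.InLinearResidualClass H := by
  classical
  obtain ⟨p, hchar⟩ := CharP.exists F
  have hp : p.Prime := (CharP.char_is_prime_or_zero F p).resolve_right (CharP.char_ne_zero_of_finite F p)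
  have hfact : Fact p.Prime := ⟨hp⟩
  have hn3 : 3 ≤ 9 := by norm_num
  have hn2 : 2 ≤ 9 := by norm_num
  have hodd9 : Odd 9 := by decide
  rcases Helper96.composite_core hn3 H hH with h | ⟨t, m, D, hD, hHeq⟩ | ⟨r, K, hr, hK, hHeq⟩ |
    ⟨d, k, e, P, hd2, hk2, hHeq⟩ | h | h | ⟨f, hf, -⟩ | h | h | ⟨N, hN⟩ | ⟨N, S, d, k, e, Pm, ρ, hCP⟩
  · exact Or.inl h
  · -- decompositions
    have hle : H ≤ Cfsg.Geo.decompositionStabilizer D := (le_of_eq hHeq).trans inf_le_left
    have htm := Helper97.isMDecomposition_card D hD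
    have ht := hD.two_le
    have hm := hD.pos
    have hm4 : m ≤ 4 := by nlinarith
    interval_cases m
    · have ht9 : t = 9 := by omega
      subst ht9
      by_cases hq : 5 ≤ Fintype.card F
      · right; left
        exact ⟨hq, D, hD, hHeq⟩
      · have hq1 : 1 < Fintype.card F := Fintype.one_lt_card
        have hq' : Fintype.card F = 2 ∨ Fintype.card F = 3 ∨ Fintype.card F = 4 := by omega
        rcases hq' with h2 | h3 | h4
        · obtain ⟨W, hW0, hW1, hle'⟩ := Helper96.small_two' hn2 h2 H D hD hle
          left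
          exact ⟨W, hW0, hW1, Helper97.eq_inf_of_isMaximalIn hH hle' (Helper97.notSL_subspace hn2 W hW0 hW1)⟩
        · obtain ⟨Q, hQ, hle'⟩ := Helper97.small_three h3 H D hD hle
          right; right; right; right; right; right; right; left
          exact ⟨by rw [h3]; decide, Q, hQ,
            Helper97.eq_inf_of_isMaximalIn hH hle' (Helper97.notSL_quadSimilarity (p := p) hn3 Q hQ)⟩
        · obtain ⟨σ, f, hf, hle'⟩ := Helper97.small_four h4 H D hD hle
          right; right; right; right; right; right; right; right; left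
          exact ⟨σ, f, hf, Helper97.eq_inf_of_isMaximalIn hH hle' (Helper97.notSL_unitary (p := p) hn3 σ f hf)⟩
    · omega
    · have ht3 : t = 3 := by omega
      subst ht3
      right; right; left
      exact ⟨D, hD, hHeq⟩
    · omega
  · -- extension fields
    have hdvd := (Helper97.finrank_dvd_of_division K hK.inv).1
    rw [hK.finrank_eq] at hdvd
    have hr9 : r ≤ 9 := Nat.le_of_dvd (by norm_num) hdvd
    have hr2 := hr.two_le
    have hr3 : r = 3 := by
      interval_cases r
      · exact absurd hdvd (by norm_num)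
      · rfl
      · exact absurd hr (by norm_num)
      · exact absurd hdvd (by norm_num)
      · exact absurd hr (by norm_num)
      · exact absurd hdvd (by norm_num)
      · exact absurd hr (by norm_num)
      · exact absurd hr (by norm_num)
    subst hr3
    right; right; right; left
    exact ⟨K, hK, hHeq⟩
  · -- tensor products
    have hcard := Helper96.card_of_equiv_prod e
    have hd3 : d = 3 := by
      have h4 : d ≤ 4 := by nlinarith
      interval_cases d <;> omega
    subst hd3
    have hk3 : k = 3 := by omega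
    subst hk3
    right; right; right; right; right; right; left
    exact ⟨_, P, Helper96.tensor_square_cases (by norm_num) H hH e P ((le_of_eq hHeq).trans inf_le_left)⟩
  · exact Or.inr (Or.inr (Or.inr (Or.inr (Or.inl h))))
  · exact Or.inr (Or.inr (Or.inr (Or.inr (Or.inr (Or.inr (Or.inr (Or.inl h)))))))
  · exact (Helper97.not_symplectic_of_odd hodd9 f hf).elim
  · exact Or.inr (Or.inr (Or.inr (Or.inr (Or.inr (Or.inr (Or.inr (Or.inr (Or.inl h))))))))
  · exact Or.inr (Or.inr (Or.inr (Or.inr (Or.inr (Or.inr (Or.inr (Or.inr (Or.inr h))))))))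
  · -- class two
    obtain ⟨r, j, hr, hj, hpow⟩ := hN.pow
    have hr3 : r = 3 := by
      have h1 : (3 : ℕ) ∣ r ^ j := by rw [← hj]; norm_num
      exact ((Nat.prime_dvd_prime_iff_eq Nat.prime_three hr).mp (Nat.prime_three.dvd_of_dvd_pow h1)).symm
    subst hr3
    rcases Helper96.c2_odd_cases (p := p) hn3 Nat.prime_three (by decide) (m := 2) (by norm_num)
      (by norm_num) H N hH hN hpow with h | h | ⟨R, hR, hHeq, e, he, hcard, hdvd, hmin⟩
    · exact Or.inr (Or.inr (Or.inr (Or.inr (Or.inl h))))
    · exact Or.inr (Or.inr (Or.inr (Or.inr (Or.inr (Or.inr (Or.inr (Or.inr (Or.inl h))))))))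
    · right; right; right; right; right; left
      refine ⟨⟨p, hp, ?_, ?_⟩, R, hR, hHeq⟩
      · -- `e = 1`
        have key := p_mod_three hp he hdvd hmin
        rw [hcard, key.1, pow_one]
      · exact (p_mod_three hp he hdvd hmin).2
  · -- central products
    obtain ⟨t, ht, hnt⟩ := hCP.pow
    have hd2 := hCP.two_le
    have hcard := hCP.tensor.card_eq
    have hd3 : d = 3 := by
      have h1 : d ^ 2 ≤ d ^ t := Nat.pow_le_pow_right (by omega) ht
      have h2 : d ≤ 3 := by nlinarith
      interval_cases d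
      · exfalso
        have h3 : (2 : ℕ) ∣ 2 ^ t := dvd_pow_self 2 (by omega)
        rw [← hnt] at h3
        omega
      · rfl
    subst hd3
    have hk3 : k = 3 := by omega
    subst hk3
    right; right; right; right; right; right; left
    exact ⟨_, Pm, Helper96.cp_square_cases (by norm_num) H N S hH e Pm ρ hCP⟩

end Cfsg.Agent.S5829
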