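import Cfsg.Statements.S5838
import Cfsg.Agent.Helper96.CompositeCases

set_option autoImplicit false
open Cfsg

namespace Cfsg.Agent.S5838

/-- Every maximal subgroup of SL_10(q) is of one of the listed geometric types or lies in the residual class. Let F be a finite field with q elements (p its characteristic) and H a maximal subgroup of SL_10(F) (inside GL_10(F)). Then H is the intersection with SL_10(F) of one of: the stabiliser of a proper non-zero subspace; for q ≥ 5, the stabiliser of a decomposition into 10 independent 1-spaces; for q ≥ 3, the stabiliser of a decomposition into 5 independent 2-spaces; the stabiliser of a decomposition into 2 independent 5-spaces; the normaliser of a degree-5 subfield of the matrix algebra; the normaliser of a degree-2 subfield of the matrix algebra; for q ≥ 3, the stabiliser of a tensor decomposition F^2 ⊗ F^5; a subfield group for a subfield F₀ with |F| = |F₀|^r, r prime; for q odd, the similarity group of a non-degenerate quadratic form; the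 similarity group of a non-degenerate symplectic form; the similarity group of a non-degenerate unitary form — or else H lies in the residual class of the linear case (modulo scalars H is almost simple, with absolutely irreducible perfect socle preimage realisable over no proper subfield and fixing no non-degenerate quadratic, symplectic or unitary form). -/
theorem result {F : Type*} [Field F] [Fintype F] (H : Subgroup (Matrix.GeneralLinearGroup (Fin 10) F)) (hH : Cfsg.Geo.IsMaximalIn (Cfsg.Geo.specialLinear (Fin 10) F) H) :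
    (∃ W : Submodule F (Fin 10 → F), W ≠ ⊥ ∧ W ≠ ⊤ ∧ H = Cfsg.Geo.subspaceStabilizer W ⊓ Cfsg.Geo.specialLinear (Fin 10) F) ∨
    (5 ≤ Fintype.card F ∧ ∃ D : Fin 10 → Submodule F (Fin 10 → F), Cfsg.Geo.IsMDecomposition 1 D ∧ H = Cfsg.Geo.decompositionStabilizer D ⊓ Cfsg.Geo.specialLinear (Fin 10) F) ∨
    (3 ≤ Fintype.card F ∧ ∃ D : Fin 5 → Submodule F (Fin 10 → F), Cfsg.Geo.IsMDecomposition 2 D ∧ H = Cfsg.Geo.decompositionStabilizer D ⊓ Cfsg.Geo.specialLinear (Fin 10) F) ∨
    (∃ D : Fin 2 → Submodule F (Fin 10 → F), Cfsg.Geo.IsMDecomposition 5 D ∧ H = Cfsg.Geo.decompositionStabilizer D ⊓ Cfsg.Geo.specialLinear (Fin 10) F) ∨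
    (∃ K : Subalgebra F (Matrix (Fin 10) (Fin 10) F), Cfsg.Geo.IsFieldSubalgebra 5 K ∧ H = Cfsg.Geo.subalgebraNormalizer K ⊓ Cfsg.Geo.specialLinear (Fin 10) F) ∨
    (∃ K : Subalgebra F (Matrix (Fin 10) (Fin 10) F), Cfsg.Geo.IsFieldSubalgebra 2 K ∧ H = Cfsg.Geo.subalgebraNormalizer K ⊓ Cfsg.Geo.specialLinear (Fin 10) F) ∨
    (3 ≤ Fintype.card F ∧ ∃ (e : Fin 10 ≃ Fin 2 × Fin 5) (P : Matrix.GeneralLinearGroup (Fin 10) F), H = Cfsg.Geo.tensorProductSubgroup 2 5 e P ⊓ Cfsg.Geo.specialLinear (Fin 10) F) ∨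
    (∃ (F₀ : Subfield F) (r : ℕ) (P : Matrix.GeneralLinearGroup (Fin 10) F), r.Prime ∧ Fintype.card F = Nat.card F₀ ^ r ∧ H = Cfsg.Geo.subfieldSubgroup F₀ P ⊓ Cfsg.Geo.specialLinear (Fin 10) F) ∨
    (Odd (Fintype.card F) ∧ ∃ Q : (Fin 10 → F) → F, Cfsg.Geo.IsNondegenerateQuadraticForm Q ∧ H = Cfsg.Geo.quadSimilarityGroup Q ⊓ Cfsg.Geo.specialLinear (Fin 10) F) ∨
    (∃ f : (Fin 10 → F) → (Fin 10 → F) → F, Cfsg.Geo.IsSymplecticForm f ∧ H = Cfsg.Geo.similarityGroup f ⊓ Cfsg.Geo.specialLinear (Fin 10) F) ∨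
    (∃ (σ : F ≃+* F) (f : (Fin 10 → F) → (Fin 10 → F) → F), Cfsg.Geo.IsUnitaryForm σ f ∧ H = Cfsg.Geo.similarityGroup f ⊓ Cfsg.Geo.specialLinear (Fin 10) F) ∨
    Cfsg.Geo.InLinearResidualClass H := by
  have hA : ∃ a b : ℕ, a.Prime ∧ b.Prime ∧ a ≠ b ∧ a ∣ 10 ∧ b ∣ 10 :=
    ⟨2, 5, by norm_num, by norm_num, by norm_num, by norm_num, by norm_num⟩
  have hB : ∃ ℓ : ℕ, ℓ.Prime ∧ ℓ ∣ 10 ∧ ¬ ℓ ^ 2 ∣ 10 := ⟨2, by norm_num, by norm_num, by norm_num⟩
  rcases Helper96.composite_cases (by norm_num) hA hB H hH with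
    h | ⟨t, m, D, hD, h1, h2, hHeq⟩ | ⟨r, K, hr, hK, hHeq⟩ | ⟨d, k, e, P, hd, hdk, hq, hHeq⟩ | h | h | h | h | h
  · exact Or.inl h
  · have htm := Helper97.isMDecomposition_card D hD
    have ht := hD.two_le
    have hm := hD.pos
    have hm5 : m ≤ 5 := by nlinarith
    interval_cases m
    · have ht' : t = 10 := by omega
      subst ht'
      right; left
      exact ⟨h1 rfl, D, hD, hHeq⟩
    · have ht' : t = 5 := by omega
      subst ht'
      right; right; left
      exact ⟨h2 rfl, D, hD, hHeq⟩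
    · omega
    · omega
    · have ht' : t = 2 := by omega
      subst ht'
      right; right; right; left
      exact ⟨D, hD, hHeq⟩
  · have hdvd := (Helper97.finrank_dvd_of_division K hK.inv).1
    rw [hK.finrank_eq] at hdvd
    have hr10 : r ≤ 10 := Nat.le_of_dvd (by norm_num) hdvd
    have hr2 := hr.two_le
    interval_cases r
    · right; right; right; right; right; left
      exact ⟨K, hK, hHeq⟩
    · exact absurd hdvd (by norm_num)
    · exact absurd hr (by norm_num)
    · right; right; right; right; left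
      exact ⟨K, hK, hHeq⟩
    · exact absurd hr (by norm_num)
    · exact absurd hdvd (by norm_num)
    · exact absurd hr (by norm_num)
    · exact absurd hr (by norm_num)
    · exact absurd hr (by norm_num)
  · have hcard := Helper96.card_of_equiv_prod e
    have hd3 : d ≤ 3 := by nlinarith
    interval_cases d
    · have hk5 : k = 5 := by omega
      subst hk5
      right; right; right; right; right; right; left
      exact ⟨hq rfl, e, P, hHeq⟩
    · omega
  · exact Or.inr (Or.inr (Or.inr (Or.inr (Or.inr (Or.inr (Or.inr (Or.inl h)))))))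
  · exact Or.inr (Or.inr (Or.inr (Or.inr (Or.inr (Or.inr (Or.inr (Or.inr (Or.inl h))))))))
  · exact Or.inr (Or.inr (Or.inr (Or.inr (Or.inr (Or.inr (Or.inr (Or.inr (Or.inr (Or.inl h)))))))))
  · exact Or.inr (Or.inr (Or.inr (Or.inr (Or.inr (Or.inr (Or.inr (Or.inr (Or.inr (Or.inr (Or.inl h))))))))))
  · exact Or.inr (Or.inr (Or.inr (Or.inr (Or.inr (Or.inr (Or.inr (Or.inr (Or.inr (Or.inr (Or.inr h))))))))))

end Cfsg.Agent.S5838
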