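import Cfsg.Statements.S5841
import Cfsg.Agent.Helper35.UnMax

set_option autoImplicit false
open Cfsg

namespace Cfsg.Agent.S5841

/-- Every maximal subgroup of SU_10(q) is of one of the listed geometric types or lies in the residual class. Let F be the field with q² elements (characteristic p), f the standard unitary form Σ u_i v_i^q on F^10, and H a maximal subgroup of SU_10(q) (inside GL_10(F)). Then H is the intersection with SU_10(q) of one of: the stabiliser of a non-zero totally isotropic subspace; the stabiliser of a non-zero non-degenerate subspace W with 2 dim W < 10; the stabiliser of a decomposition into 10 mutually orthogonal non-degenerate 1-spaces; for q ≥ 3, the stabiliser of a decomposition into 5 mutually orthogonal non-degenerate 2-spaces; the stabiliser of a decomposition into 2 mutually orthogonal non-degenerate 5-spaces; of a decomposition into two totally isotropic 5-spaces; the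 normaliser of an adjoint-closed degree-5 subfield of the matrix algebra; for q ≥ 3, the stabiliser of a tensor decomposition of f into unitary forms on F^2 and F^5; a subfield group of odd prime index whose F₀-structure carries f; a subfield group of index 2 and symplectic type; for q odd, a subfield group of index 2 whose F₀-structure carries f — or else H lies in the residual class of the unitary case (modulo scalars H is almost simple, with absolutely irreducible perfect socle preimage realisable over no proper subfield and fixing no non-degenerate quadratic or symplectic form). -/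
theorem result {F : Type*} [Field F] [Fintype F] (q : ℕ) (hF : Fintype.card F = q ^ 2) (H : Subgroup (Matrix.GeneralLinearGroup (Fin 10) F)) (hH : Cfsg.Geo.IsMaximalIn (Cfsg.GU 10 F q ⊓ Cfsg.Geo.specialLinear (Fin 10) F) H) :
    (∃ W : Submodule F (Fin 10 → F), W ≠ ⊥ ∧ Cfsg.Geo.IsTotallySingularFor (Cfsg.hermForm 10 F q) W ∧ H = Cfsg.Geo.subspaceStabilizer W ⊓ (Cfsg.GU 10 F q ⊓ Cfsg.Geo.specialLinear (Fin 10) F)) ∨
    (∃ W : Submodule F (Fin 10 → F), W ≠ ⊥ ∧ Cfsg.Geo.IsNondegenerateOn (Cfsg.hermForm 10 F q) W ∧ 2 * Module.finrank F W < 10 ∧ H = Cfsg.Geo.subspaceStabilizer W ⊓ (Cfsg.GU 10 F q ⊓ Cfsg.Geo.specialLinear (Fin 10) F)) ∨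
    (∃ D : Fin 10 → Submodule F (Fin 10 → F), Cfsg.Geo.IsNondegenerateMDecomposition (Cfsg.hermForm 10 F q) 1 D ∧ H = Cfsg.Geo.decompositionStabilizer D ⊓ (Cfsg.GU 10 F q ⊓ Cfsg.Geo.specialLinear (Fin 10) F)) ∨
    (3 ≤ q ∧ ∃ D : Fin 5 → Submodule F (Fin 10 → F), Cfsg.Geo.IsNondegenerateMDecomposition (Cfsg.hermForm 10 F q) 2 D ∧ H = Cfsg.Geo.decompositionStabilizer D ⊓ (Cfsg.GU 10 F q ⊓ Cfsg.Geo.specialLinear (Fin 10) F)) ∨
    (∃ D : Fin 2 → Submodule F (Fin 10 → F), Cfsg.Geo.IsNondegenerateMDecomposition (Cfsg.hermForm 10 F q) 5 D ∧ H = Cfsg.Geo.decompositionStabilizer D ⊓ (Cfsg.GU 10 F q ⊓ Cfsg.Geo.specialLinear (Fin 10) F)) ∨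
    (∃ D : Fin 2 → Submodule F (Fin 10 → F), Cfsg.Geo.IsMDecomposition 5 D ∧ (∀ i, Cfsg.Geo.IsTotallySingularFor (Cfsg.hermForm 10 F q) (D i)) ∧ H = Cfsg.Geo.decompositionStabilizer D ⊓ (Cfsg.GU 10 F q ⊓ Cfsg.Geo.specialLinear (Fin 10) F)) ∨
    (∃ K : Subalgebra F (Matrix (Fin 10) (Fin 10) F), Cfsg.Geo.IsFieldSubalgebra 5 K ∧ Cfsg.Geo.IsAdjointClosedFor (Cfsg.hermForm 10 F q) K ∧ H = Cfsg.Geo.subalgebraNormalizer K ⊓ (Cfsg.GU 10 F q ⊓ Cfsg.Geo.specialLinear (Fin 10) F)) ∨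
    (3 ≤ q ∧ ∃ (e : Fin 10 ≃ Fin 2 × Fin 5) (P : Matrix.GeneralLinearGroup (Fin 10) F) (f₁ : (Fin 2 → F) → (Fin 2 → F) → F) (f₂ : (Fin 5 → F) → (Fin 5 → F) → F), Cfsg.Geo.IsUnitaryFormPow q f₁ ∧ Cfsg.Geo.IsUnitaryFormPow q f₂ ∧ Cfsg.Geo.IsTensorFormStructure (fun x : F => x ^ q) (Cfsg.hermForm 10 F q) f₁ f₂ e P ∧ H = Cfsg.Geo.tensorProductSubgroup 2 5 e P ⊓ (Cfsg.GU 10 F q ⊓ Cfsg.Geo.specialLinear (Fin 10) F)) ∨
    (∃ (F₀ : Subfield F) (r : ℕ) (P : Matrix.GeneralLinearGroup (Fin 10) F), r.Prime ∧ Odd r ∧ Fintype.card F = Nat.card F₀ ^ r ∧ Cfsg.Geo.IsFormRationalStructure (Cfsg.hermForm 10 F q) F₀ 1 P ∧ H = Cfsg.Geo.subfieldSubgroup F₀ P ⊓ (Cfsg.GU 10 F q ⊓ Cfsg.Geo.specialLinear (Fin 10) F)) ∨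
    (∃ (F₀ : Subfield F) (P : Matrix.GeneralLinearGroup (Fin 10) F) (ζ : F), Fintype.card F = Nat.card F₀ ^ 2 ∧ ζ ≠ 0 ∧ ζ + ζ ^ q = 0 ∧ Cfsg.Geo.IsFormRationalStructure (Cfsg.hermForm 10 F q) F₀ ζ P ∧ (∀ u : Fin 10 → F, (∀ i, u i ∈ F₀) → (Cfsg.hermForm 10 F q) (Matrix.mulVec (P : Matrix (Fin 10) (Fin 10) F) u) (Matrix.mulVec (P : Matrix (Fin 10) (Fin 10) F) u) = 0) ∧ H = Cfsg.Geo.subfieldSubgroup F₀ P ⊓ (Cfsg.GU 10 F q ⊓ Cfsg.Geo.specialLinear (Fin 10) F)) ∨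
    (Odd q ∧ ∃ (F₀ : Subfield F) (P : Matrix.GeneralLinearGroup (Fin 10) F), Fintype.card F = Nat.card F₀ ^ 2 ∧ Cfsg.Geo.IsFormRationalStructure (Cfsg.hermForm 10 F q) F₀ 1 P ∧ H = Cfsg.Geo.subfieldSubgroup F₀ P ⊓ (Cfsg.GU 10 F q ⊓ Cfsg.Geo.specialLinear (Fin 10) F)) ∨
    Cfsg.Geo.InUnitaryResidualClass H := by
  have hmax := Cfsg.Agent.Helper35.un_max_cases (n := 10) (by norm_num) q hF H hH
  unfold Cfsg.Agent.Helper35.UnMax at hmax
  rcases hmax with ⟨W, hW0, hts, heq⟩ | ⟨W, hW0, hnd, hlt, heq⟩ | ⟨t, k, D, htk, hc, hD, heq⟩ |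
    ⟨k, D, hk, hD, hts, heq⟩ | ⟨r, K, hr, hrodd, hdvd, hK, hac, heq⟩ |
    ⟨n₁, n₂, e, P, f₁, f₂, hn₁, hn₁₂, hprod, hc, hf₁, hf₂, hT, heq⟩ |
    ⟨F₀, r, P, hr, hrodd, hcard, hR, heq⟩ | ⟨F₀, P, ζ, hcard, hζ, hζq, hR, hiso, heq⟩ |
    ⟨hodd, F₀, P, hcard, hR, heq⟩ | hres | ⟨r, j, hr, hcard⟩ | ⟨d, t, hd, ht, hcard⟩
  · exact Or.inl ⟨W, hW0, hts, heq⟩
  · exact Or.inr (Or.inl ⟨W, hW0, hnd, hlt, heq⟩)
  · -- decompositions: (t, k) = (10, 1), (5, 2), (2, 5)
    have ht := hD.decomp.two_le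
    have hkpos := hD.decomp.pos
    have hkle : k ≤ 5 := by nlinarith
    interval_cases k
    · obtain rfl : t = 10 := by omega
      exact Or.inr (Or.inr (Or.inl ⟨D, hD, heq⟩))
    · obtain rfl : t = 5 := by omega
      exact Or.inr (Or.inr (Or.inr (Or.inl ⟨hc rfl, D, hD, heq⟩)))
    · exfalso
      omega
    · exfalso
      omega
    · obtain rfl : t = 2 := by omega
      exact Or.inr (Or.inr (Or.inr (Or.inr (Or.inl ⟨D, hD, heq⟩))))
  · obtain rfl : k = 5 := by omega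
    exact Or.inr (Or.inr (Or.inr (Or.inr (Or.inr (Or.inl ⟨D, hD, hts, heq⟩)))))
  · have hr5 : r = 5 := by
      obtain ⟨c, hc⟩ := hdvd
      have hodd' : r % 2 = 1 := Nat.odd_iff.mp hrodd
      have h2 := hr.two_le
      have h3 : 3 ≤ r := by omega
      have hc3 : c ≤ 3 := by
        by_contra hcon
        have h4 : 4 ≤ c := by omega
        have h5 := Nat.mul_le_mul h3 h4
        omega
      interval_cases c <;> omega
    subst hr5
    exact Or.inr (Or.inr (Or.inr (Or.inr (Or.inr (Or.inr (Or.inl ⟨K, hK, hac, heq⟩))))))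
  · -- tensor: (n₁, n₂) = (2, 5)
    have h3 : n₁ ≤ 3 := by nlinarith
    interval_cases n₁
    · obtain rfl : n₂ = 5 := by omega
      exact Or.inr (Or.inr (Or.inr (Or.inr (Or.inr (Or.inr (Or.inr (Or.inl ⟨hc rfl, e, P, f₁, f₂,
        hf₁, hf₂, hT, heq⟩)))))))
    · exfalso
      omega
  · exact Or.inr (Or.inr (Or.inr (Or.inr (Or.inr (Or.inr (Or.inr (Or.inr (Or.inl ⟨F₀, r, P, hr,
      hrodd, hcard, hR, heq⟩))))))))
  · exact Or.inr (Or.inr (Or.inr (Or.inr (Or.inr (Or.inr (Or.inr (Or.inr (Or.inr (Or.inl ⟨F₀, P, ζ,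
      hcard, hζ, hζq, hR, hiso, heq⟩)))))))))
  · exact Or.inr (Or.inr (Or.inr (Or.inr (Or.inr (Or.inr (Or.inr (Or.inr (Or.inr (Or.inr
      (Or.inl ⟨hodd, F₀, P, hcard, hR, heq⟩))))))))))
  · exact Or.inr (Or.inr (Or.inr (Or.inr (Or.inr (Or.inr (Or.inr (Or.inr (Or.inr (Or.inr
      (Or.inr hres))))))))))
  · -- 100 is not a prime power
    exfalso
    have h2 : 2 ∣ r ^ j := by rw [← hcard]; norm_num
    have h5 : 5 ∣ r ^ j := by rw [← hcard]; norm_num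
    have h2' := (Nat.prime_dvd_prime_iff_eq Nat.prime_two hr).mp (Nat.Prime.dvd_of_dvd_pow Nat.prime_two h2)
    have h5' := (Nat.prime_dvd_prime_iff_eq (by norm_num) hr).mp (Nat.Prime.dvd_of_dvd_pow (by norm_num) h5)
    omega
  · -- 10 is not a perfect power
    exfalso
    have h2 : 2 ∣ d ^ t := by rw [← hcard]; norm_num
    have h5 : 5 ∣ d ^ t := by rw [← hcard]; norm_num
    have h2' := Nat.Prime.dvd_of_dvd_pow Nat.prime_two h2
    have h5' := Nat.Prime.dvd_of_dvd_pow (by norm_num : Nat.Prime 5) h5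
    have h10 : 10 ≤ d := by omega
    have h3 : d ^ 2 ≤ d ^ t := Nat.pow_le_pow_right (by omega) ht
    have h4 : 10 * 10 ≤ d ^ 2 := by rw [pow_two]; exact Nat.mul_le_mul h10 h10
    omega

end Cfsg.Agent.S5841
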