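import Cfsg.Statements.S5844
import Cfsg.Agent.Helper96.SpRow

set_option autoImplicit false
open Cfsg

namespace Cfsg.Agent.S5844

/-- Every maximal subgroup of Sp_10(q) is of one of the listed geometric types or lies in the residual class. Let F be a finite field with q elements (characteristic p), f the standard alternating form on F^10 (coordinates Fin 5 ⊕ Fin 5), and H a maximal subgroup of Sp_10(F) (inside GL_10(F)). Then H is the intersection with Sp_10(F) of one of: the stabiliser of a non-zero totally isotropic subspace; the stabiliser of a non-zero non-degenerate subspace of dimension less than 5; for q ≥ 3, the stabiliser of a decomposition into 5 mutually orthogonal non-degenerate 2-spaces; for q odd, of a decomposition into two totally isotropic 5-spaces; the normaliser of a degree-5 subfield K of the matrix algebra, self-adjoint with f(k v, v) = 0; for q odd, the normaliser of a degree-2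 subfield closed under adjoints but not self-adjoint; for q odd, the stabiliser of a tensor decomposition of f into an alternating form on F^2 and a symmetric form on F^5; a subfield group (|F| = |F₀|^r, r prime) whose F₀-structure carries a non-zero multiple of f; for q even, the similarity group of a non-degenerate quadratic form polarising to f — or else H lies in the residual class of the symplectic case (modulo scalars H is almost simple, with absolutely irreducible perfect socle preimage realisable over no proper subfield and fixing no non-degenerate quadratic or unitary form). -/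
theorem result {F : Type*} [Field F] [Fintype F] (H : Subgroup (Matrix.GeneralLinearGroup (Fin 5 ⊕ Fin 5) F)) (hH : Cfsg.Geo.IsMaximalIn (Cfsg.spGL 5 F) H) :
    (∃ W : Submodule F (Fin 5 ⊕ Fin 5 → F), W ≠ ⊥ ∧ Cfsg.Geo.IsTotallySingularFor (Cfsg.sympForm 5 F) W ∧ H = Cfsg.Geo.subspaceStabilizer W ⊓ Cfsg.spGL 5 F) ∨
    (∃ W : Submodule F (Fin 5 ⊕ Fin 5 → F), W ≠ ⊥ ∧ Cfsg.Geo.IsNondegenerateOn (Cfsg.sympForm 5 F) W ∧ Module.finrank F W < 5 ∧ H = Cfsg.Geo.subspaceStabilizer W ⊓ Cfsg.spGL 5 F) ∨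
    (3 ≤ Fintype.card F ∧ ∃ D : Fin 5 → Submodule F (Fin 5 ⊕ Fin 5 → F), Cfsg.Geo.IsNondegenerateMDecomposition (Cfsg.sympForm 5 F) 2 D ∧ H = Cfsg.Geo.decompositionStabilizer D ⊓ Cfsg.spGL 5 F) ∨
    (Odd (Fintype.card F) ∧ ∃ D : Fin 2 → Submodule F (Fin 5 ⊕ Fin 5 → F), Cfsg.Geo.IsMDecomposition 5 D ∧ (∀ i, Cfsg.Geo.IsTotallySingularFor (Cfsg.sympForm 5 F) (D i)) ∧ H = Cfsg.Geo.decompositionStabilizer D ⊓ Cfsg.spGL 5 F) ∨
    (∃ K : Subalgebra F (Matrix (Fin 5 ⊕ Fin 5) (Fin 5 ⊕ Fin 5) F), Cfsg.Geo.IsFieldSubalgebra 5 K ∧ Cfsg.Geo.IsSelfAdjointFor (Cfsg.sympForm 5 F) K ∧ (∀ k ∈ K, ∀ v : (Fin 5 ⊕ Fin 5 → F), (Cfsg.sympForm 5 F) (Matrix.mulVec k v) v = 0) ∧ H = Cfsg.Geo.subalgebraNormalizer K ⊓ Cfsg.spGL 5 F) ∨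
    (Odd (Fintype.card F) ∧ ∃ K : Subalgebra F (Matrix (Fin 5 ⊕ Fin 5) (Fin 5 ⊕ Fin 5) F), Cfsg.Geo.IsFieldSubalgebra 2 K ∧ Cfsg.Geo.IsAdjointClosedFor (Cfsg.sympForm 5 F) K ∧ ¬ Cfsg.Geo.IsSelfAdjointFor (Cfsg.sympForm 5 F) K ∧ H = Cfsg.Geo.subalgebraNormalizer K ⊓ Cfsg.spGL 5 F) ∨
    (Odd (Fintype.card F) ∧ ∃ (e : (Fin 5 ⊕ Fin 5) ≃ Fin 2 × Fin 5) (P : Matrix.GeneralLinearGroup (Fin 5 ⊕ Fin 5) F) (f₁ : (Fin 2 → F) → (Fin 2 → F) → F) (f₂ : (Fin 5 → F) → (Fin 5 → F) → F), Cfsg.Geo.IsSymplecticForm f₁ ∧ Cfsg.Geo.IsSymmetricForm f₂ ∧ Cfsg.Geo.IsTensorFormStructure id (Cfsg.sympForm 5 F) f₁ f₂ e P ∧ H = Cfsg.Geo.tensorProductSubgroup 2 5 e P ⊓ Cfsg.spGL 5 F) ∨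
    (∃ (F₀ : Subfield F) (r : ℕ) (P : Matrix.GeneralLinearGroup (Fin 5 ⊕ Fin 5) F) (ζ : F), r.Prime ∧ Fintype.card F = Nat.card F₀ ^ r ∧ ζ ≠ 0 ∧ Cfsg.Geo.IsFormRationalStructure (Cfsg.sympForm 5 F) F₀ ζ P ∧ H = Cfsg.Geo.subfieldSubgroup F₀ P ⊓ Cfsg.spGL 5 F) ∨
    (¬ Odd (Fintype.card F) ∧ ∃ Q : (Fin 5 ⊕ Fin 5 → F) → F, Cfsg.Geo.IsNondegenerateQuadraticForm Q ∧ (∀ u v : (Fin 5 ⊕ Fin 5 → F), QuadraticMap.polar Q u v = (Cfsg.sympForm 5 F) u v) ∧ H = Cfsg.Geo.quadSimilarityGroup Q ⊓ Cfsg.spGL 5 F) ∨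
    Cfsg.Geo.InSymplecticResidualClass H := by
  have hmax := Cfsg.Agent.Helper96.Sy.sp_max_cases (m := 5) (by norm_num) H hH
  unfold Cfsg.Agent.Helper96.Sy.SpMax at hmax
  rcases hmax with ⟨W, hW0, hts, heq⟩ | ⟨W, hW0, hnd, hlt, heq⟩ |
    ⟨t, k, D, htk, hk, hc, hD, heq⟩ | ⟨hodd, D, hD, hts, heq⟩ | ⟨r, K, hr, hdvd, hK, hsa, halt, heq⟩ |
    ⟨hodd, K, hK, hac, hnsa, heq⟩ | ⟨hodd, n₁, n₂, e₁, P, f₁, f₂, hn₂, hn₁, hprod, hf₁, hf₂, hT, heq⟩ |
    ⟨heven, n₁, n₂, e₁, P, f₁, f₂, hn₁, hn₂, hprod, hf₁, hf₂, hT, hle⟩ |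
    ⟨F₀, r, P, ζ, hr, hcard, hζ, hR, heq⟩ | ⟨heven, Q, hQ, hpol, heq⟩ | hres |
    ⟨r, j, hr, hcard, hrF⟩ | ⟨d, t, hd, ht, hcard⟩
  · exact Or.inl ⟨W, hW0, hts, heq⟩
  · exact Or.inr (Or.inl ⟨W, hW0, hnd, hlt, heq⟩)
  · -- decompositions: (t, k) = (5, 2)
    have ht := hD.decomp.two_le
    have hkpos := hD.decomp.pos
    obtain ⟨c, hc'⟩ := hk
    have h1 : 2 * k ≤ t * k := Nat.mul_le_mul_right k ht
    have hc2 : c = 1 := by
      have : c ≤ 2 := by omega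
      interval_cases c
      · omega
      · rfl
      · exfalso
        rw [hc'] at htk
        omega
    subst hc2
    have hk2 : k = 2 := by omega
    subst hk2
    have ht5 : t = 5 := by omega
    subst ht5
    exact Or.inr (Or.inr (Or.inl ⟨hc rfl, D, hD, heq⟩))
  · exact Or.inr (Or.inr (Or.inr (Or.inl ⟨hodd, D, hD, hts, heq⟩)))
  · have hr5 : r = 5 := (Nat.prime_dvd_prime_iff_eq hr (by norm_num)).mp hdvd
    subst hr5
    exact Or.inr (Or.inr (Or.inr (Or.inr (Or.inl ⟨K, hK, hsa, halt, heq⟩))))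
  · exact Or.inr (Or.inr (Or.inr (Or.inr (Or.inr (Or.inl ⟨hodd, K, hK, hac, hnsa, heq⟩)))))
  · -- tensor: (n₁, n₂) = (2, 5)
    obtain ⟨c, hc'⟩ := hn₁
    have h1 : n₁ * 2 ≤ n₁ * n₂ := Nat.mul_le_mul_left n₁ hn₂
    have hc1 : c = 1 := by
      have : c ≤ 2 := by omega
      interval_cases c
      · rw [hc'] at hprod
        omega
      · rfl
      · exfalso
        rw [hc'] at hprod
        omega
    subst hc1
    have hn₁2 : n₁ = 2 := by omega
    subst hn₁2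
    have hn₂5 : n₂ = 5 := by omega
    subst hn₂5
    exact Or.inr (Or.inr (Or.inr (Or.inr (Or.inr (Or.inr (Or.inl ⟨hodd, e₁, P, f₁, f₂, hf₁, hf₂, hT,
      heq⟩))))))
  · -- tensor in characteristic two: impossible
    exfalso
    obtain ⟨c, hc'⟩ := hn₁
    obtain ⟨c₂, hc₂⟩ := hn₂
    rw [hc', hc₂] at hprod
    have h1 : (c + c) * (c₂ + c₂) = 4 * (c * c₂) := by ring
    omega
  · exact Or.inr (Or.inr (Or.inr (Or.inr (Or.inr (Or.inr (Or.inr (Or.inl ⟨F₀, r, P, ζ, hr, hcard, hζ,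
      hR, heq⟩)))))))
  · exact Or.inr (Or.inr (Or.inr (Or.inr (Or.inr (Or.inr (Or.inr (Or.inr (Or.inl ⟨heven, Q, hQ, hpol,
      heq⟩))))))))
  · exact Or.inr (Or.inr (Or.inr (Or.inr (Or.inr (Or.inr (Or.inr (Or.inr (Or.inr hres))))))))
  · -- 100 is not a prime power
    exfalso
    have h2 : 2 ∣ r ^ j := by rw [← hcard]; norm_num
    have h5 : 5 ∣ r ^ j := by rw [← hcard]; norm_num
    have h2' := (Nat.prime_dvd_prime_iff_eq Nat.prime_two hr).mp (Nat.Prime.dvd_of_dvd_pow Nat.prime_two h2)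
    have h5' := (Nat.prime_dvd_prime_iff_eq (by norm_num) hr).mp (Nat.Prime.dvd_of_dvd_pow (by norm_num) h5)
    omega
  · -- 10 is not a perfect power
    exfalso
    have h2 : 2 ∣ d ^ t := by rw [← hcard]; norm_num
    have h5 : 5 ∣ d ^ t := by rw [← hcard]; norm_num
    have h2' := Nat.Prime.dvd_of_dvd_pow Nat.prime_two h2
    have h5' := Nat.Prime.dvd_of_dvd_pow (by norm_num : Nat.Prime 5) h5
    have h10 : 10 ≤ d := by omega
    have h3 : d ^ 2 ≤ d ^ t := Nat.pow_le_pow_right (by omega) ht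
    have h4 : 10 * 10 ≤ d ^ 2 := by rw [pow_two]; exact Nat.mul_le_mul h10 h10
    omega

end Cfsg.Agent.S5844
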