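-- Statement S5876 (row 5876): fixed-point spaces in primitive soluble linear groups.
-- Proof by helper97: (1) a group-theoretic lemma on minimal normal subgroups not centralised by g;
-- (2) non-identity elements of abelian normal subgroups of a primitive irreducible group fix no non-zero vector;
-- (3) dim (Fix h ∩ x Fix h) ≥ 2 dim Fix h - n and Fix h ∩ x Fix h ≤ Fix [h⁻¹, x].
import Cfsg.Statements.S5876
-- import your own Cfsg.Agent.* helpers here

set_option autoImplicit false
open Cfsg

namespace Cfsg.Agent.S5876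

open scoped commutatorElement

/-! ### An abstract group-theoretic lemma -/

section Abstract
variable {G : Type*} [Group G]

theorem comm_of_commutator_eq_one {a b : G} (h : ⁅a⁻¹, b⁆ = 1) : a * b = b * a := by
  rw [commutatorElement_def, inv_inv] at h
  have h2 : a⁻¹ * b * a = b := by
    have := congrArg (· * b) h
    simpa using this
  calc a * b = a * (a⁻¹ * b * a) := by rw [h2]
    _ = b * a := by group

/-- In a finite solvable group, every non-identity element `g` either lies in an abelian normal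
subgroup, or has a commutator `⁅g⁻¹, x⁆ ≠ 1` in one, or a double commutator `⁅⁅g⁻¹, x⁆⁻¹, y⁆ ≠ 1` in one. -/
theorem key_group_lemma [Finite G] [Group.IsSolvable G] (g : G) (hg : g ≠ 1) :
    ∃ A : Subgroup G, A.Normal ∧ (∀ a ∈ A, ∀ b ∈ A, a * b = b * a) ∧
      (g ∈ A ∨ (∃ x : G, ⁅g⁻¹, x⁆ ∈ A ∧ ⁅g⁻¹, x⁆ ≠ 1) ∨
       (∃ x y : G, ⁅⁅g⁻¹, x⁆⁻¹, y⁆ ∈ A ∧ ⁅⁅g⁻¹, x⁆⁻¹, y⁆ ≠ 1)) := by
  classical
  by_cases hgc : g ∈ Subgroup.center G
  · refine ⟨Subgroup.center G, inferInstance, fun a _ b hb => ?_, Or.inl hgc⟩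
    exact Subgroup.mem_center_iff.mp hb a
  -- `g` is not central
  let p : Subgroup G → Prop := fun N => N.Normal ∧ ∃ x ∈ N, g * x ≠ x * g
  have hp_top : p ⊤ := by
    refine ⟨inferInstance, ?_⟩
    by_contra hcon
    apply hgc
    rw [Subgroup.mem_center_iff]
    intro x
    by_contra hx
    exact hcon ⟨x, Subgroup.mem_top x, fun h => hx h.symm⟩
  obtain ⟨N, -, hNmin⟩ := Finite.exists_le_minimal hp_top
  obtain ⟨⟨hNn, x, hxN, hgx⟩, hNle⟩ := hNmin
  set C : Subgroup G := Subgroup.centralizer (Subgroup.normalClosure {g} : Set G) with hC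
  have hCn : C.Normal := Subgroup.normal_centralizer
  set M : Subgroup G := N ⊓ C with hM
  have hMn : M.Normal := Subgroup.normal_inf_normal N C
  have hMN : M ≤ N := inf_le_left
  have hMg : ∀ m ∈ M, g * m = m * g := by
    intro m hm
    exact Subgroup.mem_centralizer_iff.mp hm.2 g (Subgroup.subset_normalClosure (Set.mem_singleton g))
  have hmax : ∀ N' : Subgroup G, N'.Normal → N' ≤ N → N' ≠ N → N' ≤ M := by
    intro N' hN'n hN'N hne
    have hnp : ¬ p N' := fun hp => hne (le_antisymm hN'N (hNle hp hN'N))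
    have hcen : ∀ y ∈ N', g * y = y * g := by
      intro y hy
      by_contra hcon
      exact hnp ⟨hN'n, y, hy, hcon⟩
    refine le_inf hN'N ?_
    rw [hC, Subgroup.le_centralizer_iff]
    have : (Subgroup.centralizer (N' : Set G)).Normal := Subgroup.normal_centralizer
    apply Subgroup.normalClosure_le_normal
    intro y hy
    rw [Set.mem_singleton_iff] at hy
    subst hy
    exact Subgroup.mem_centralizer_iff.mpr fun h hh => (hcen h hh).symm
  -- the commutator u
  have huN : ⁅g⁻¹, x⁆ ∈ N := by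
    rw [commutatorElement_def, inv_inv]
    refine N.mul_mem ?_ (N.inv_mem hxN)
    have := hNn.conj_mem x hxN g⁻¹
    simpa [mul_assoc] using this
  have hu1 : ⁅g⁻¹, x⁆ ≠ 1 := fun h => hgx (comm_of_commutator_eq_one h)
  by_cases hNc : ∀ a ∈ N, ∀ b ∈ N, a * b = b * a
  · exact ⟨N, hNn, hNc, Or.inr (Or.inl ⟨x, huN, hu1⟩)⟩
  -- `N` is not commutative
  have hNbot : N ≠ ⊥ := by
    rintro rfl
    exact hNc fun a ha b hb => by
      rw [Subgroup.mem_bot] at ha hb
      rw [ha, hb]
  have hcomm_lt : ⁅N, N⁆ < N := Group.IsSolvable.commutator_lt_of_ne_bot hNbot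
  have hcommM : ⁅N, N⁆ ≤ M := hmax _ (Subgroup.commutator_normal N N) hcomm_lt.le hcomm_lt.ne
  set T : Subgroup G := N ⊓ Subgroup.centralizer (M : Set G) with hT
  have hcMn : (Subgroup.centralizer (M : Set G)).Normal := Subgroup.normal_centralizer
  have hTn : T.Normal := Subgroup.normal_inf_normal N _
  by_cases hTN : T = N
  · -- `N` centralises `M`
    have hNcM : N ≤ Subgroup.centralizer (M : Set G) := by
      rw [← hTN]; exact inf_le_right
    have hMcomm : ∀ a ∈ M, ∀ b ∈ M, a * b = b * a := by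
      intro a ha b hb
      exact Subgroup.mem_centralizer_iff.mp (hNcM (hMN hb)) a ha
    by_cases huM : ⁅g⁻¹, x⁆ ∈ M
    · exact ⟨M, hMn, hMcomm, Or.inr (Or.inl ⟨x, huM, hu1⟩)⟩
    -- the centre of `N` lies in `M`
    set Z : Subgroup G := N ⊓ Subgroup.centralizer (N : Set G) with hZ
    have hcNn : (Subgroup.centralizer (N : Set G)).Normal := Subgroup.normal_centralizer
    have hZn : Z.Normal := Subgroup.normal_inf_normal N _
    have hZne : Z ≠ N := by
      intro h
      apply hNc
      intro a ha b hb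
      have hb' : b ∈ Z := by rw [h]; exact hb
      exact Subgroup.mem_centralizer_iff.mp hb'.2 a ha
    have hZM : Z ≤ M := hmax Z hZn inf_le_left hZne
    have hy : ∃ y ∈ N, ⁅⁅g⁻¹, x⁆⁻¹, y⁆ ≠ 1 := by
      by_contra hcon
      apply huM
      apply hZM
      refine ⟨huN, Subgroup.mem_centralizer_iff.mpr fun y hy => ?_⟩
      by_contra hne
      exact hcon ⟨y, hy, fun h1 => hne (comm_of_commutator_eq_one h1).symm⟩
    obtain ⟨y, hyN, hy1⟩ := hy
    refine ⟨M, hMn, hMcomm, Or.inr (Or.inr ⟨x, y, ?_, hy1⟩)⟩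
    exact hcommM (Subgroup.commutator_mem_commutator (N.inv_mem huN) hyN)
  · -- `C_N(M) ≤ M`
    have hTM : T ≤ M := hmax T hTn inf_le_left hTN
    set A : Subgroup G := M ⊓ Subgroup.centralizer (M : Set G) with hA
    have hAn : A.Normal := Subgroup.normal_inf_normal M _
    have hAcomm : ∀ a ∈ A, ∀ b ∈ A, a * b = b * a := by
      intro a ha b hb
      exact Subgroup.mem_centralizer_iff.mp hb.2 a ha.1
    have hucM : ⁅g⁻¹, x⁆ ∈ Subgroup.centralizer (M : Set G) := by
      rw [Subgroup.mem_centralizer_iff]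
      intro m hm
      have h1 : x⁻¹ * m * x ∈ M := by
        have := hMn.conj_mem m hm x⁻¹
        simpa using this
      have h2 := hMg _ h1
      have h3 := hMg m hm
      rw [commutatorElement_def, inv_inv]
      have h4 : g * (x⁻¹ * m * x) * g⁻¹ = x⁻¹ * m * x := by
        rw [h2]; group
      calc m * (g⁻¹ * x * g * x⁻¹) = g⁻¹ * (g * m * g⁻¹) * x * g * x⁻¹ := by group
        _ = g⁻¹ * m * x * g * x⁻¹ := by rw [show g * m * g⁻¹ = m by rw [h3]; group]
        _ = g⁻¹ * x * (x⁻¹ * m * x) * g * x⁻¹ := by group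
        _ = g⁻¹ * x * (g * (x⁻¹ * m * x) * g⁻¹) * g * x⁻¹ := by rw [h4]
        _ = g⁻¹ * x * g * x⁻¹ * m := by group
    have huA : ⁅g⁻¹, x⁆ ∈ A := ⟨hTM ⟨huN, hucM⟩, hucM⟩
    exact ⟨A, hAn, hAcomm, Or.inr (Or.inl ⟨x, huA, hu1⟩)⟩

end Abstract

/-! ### Linear algebra: fixed spaces of invertible matrices -/

section Linear

variable {F : Type*} [Field F] {n : ℕ}

/-- The linear map of an invertible matrix. -/
noncomputable def act (h : Matrix.GeneralLinearGroup (Fin n) F) : (Fin n → F) →ₗ[F] (Fin n → F) :=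
  Matrix.toLin' (h : Matrix (Fin n) (Fin n) F)

theorem act_mul_apply (h k : Matrix.GeneralLinearGroup (Fin n) F) (v : Fin n → F) :
    act (h * k) v = act h (act k v) := by
  simp [act, Matrix.toLin'_mul]

theorem act_one_apply (v : Fin n → F) : act (1 : Matrix.GeneralLinearGroup (Fin n) F) v = v := by
  simp [act]

theorem act_inv_apply (h : Matrix.GeneralLinearGroup (Fin n) F) (v : Fin n → F) :
    act h⁻¹ (act h v) = v := by
  rw [← act_mul_apply, inv_mul_cancel, act_one_apply]

theorem act_apply_inv (h : Matrix.GeneralLinearGroup (Fin n) F) (v : Fin n → F) :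
    act h (act h⁻¹ v) = v := by
  rw [← act_mul_apply, mul_inv_cancel, act_one_apply]

theorem act_injective (h : Matrix.GeneralLinearGroup (Fin n) F) : Function.Injective (act h) := by
  intro v w hvw
  have := congrArg (act h⁻¹) hvw
  simpa [act_inv_apply] using this

theorem eq_one_of_act_eq (h : Matrix.GeneralLinearGroup (Fin n) F) (hh : ∀ v, act h v = v) : h = 1 := by
  apply Units.ext
  apply Matrix.toLin'.injective
  apply LinearMap.ext
  intro v
  simpa [act] using hh v

/-- The fixed space of an invertible matrix. -/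
noncomputable def fixS (h : Matrix.GeneralLinearGroup (Fin n) F) : Submodule F (Fin n → F) :=
  Module.End.eigenspace (act h) 1

theorem mem_fixS {h : Matrix.GeneralLinearGroup (Fin n) F} {v : Fin n → F} :
    v ∈ fixS h ↔ act h v = v := by
  rw [fixS, Module.End.mem_eigenspace_iff, one_smul]

theorem fix_inf_map_le (h x : Matrix.GeneralLinearGroup (Fin n) F) :
    fixS h ⊓ (fixS h).map (act x) ≤ fixS ⁅h⁻¹, x⁆ := by
  rintro v ⟨hv, w, hw, rfl⟩
  rw [SetLike.mem_coe, mem_fixS] at hv hw
  rw [mem_fixS, commutatorElement_def, inv_inv, act_mul_apply, act_mul_apply, act_mul_apply,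
    act_inv_apply, hw]
  conv_lhs => rw [← hv]
  rw [act_inv_apply]

theorem two_mul_finrank_fix_le (h x : Matrix.GeneralLinearGroup (Fin n) F) :
    2 * Module.finrank F (fixS h) ≤ n + Module.finrank F (fixS ⁅h⁻¹, x⁆) := by
  have h1 := Submodule.finrank_sup_add_finrank_inf_eq (fixS h) ((fixS h).map (act x))
  have h2 : Module.finrank F ((fixS h).map (act x)) = Module.finrank F (fixS h) :=
    (Submodule.equivMapOfInjective (act x) (act_injective x) (fixS h)).finrank_eq.symm
  have h3 : Module.finrank F ↥(fixS h ⊔ (fixS h).map (act x)) ≤ n := by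
    have := Submodule.finrank_le (fixS h ⊔ (fixS h).map (act x))
    simpa using this
  have h4 := Submodule.finrank_mono (fix_inf_map_le h x)
  omega

/-- A family of subspaces is independent when any two members are separated by an endomorphism
preserving every member. -/
theorem disjoint_finset_sup_of_separating {ι : Type*} [DecidableEq ι]
    (D : ι → Submodule F (Fin n → F))
    (hsep : ∀ i j, i ≠ j → ∃ φ : (Fin n → F) →ₗ[F] (Fin n → F),
      D i ≤ LinearMap.ker φ ∧ D j ⊓ LinearMap.ker φ = ⊥ ∧ ∀ k, (D k).map φ ≤ D k)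
    (s : Finset ι) (i : ι) (hi : i ∉ s) : Disjoint (D i) (s.sup D) := by
  induction s using Finset.induction_on with
  | empty => simp
  | insert k s hk ih =>
    rw [Finset.mem_insert, not_or] at hi
    obtain ⟨hik, his⟩ := hi
    have ih' := ih his
    obtain ⟨φ, h1, h2, h3⟩ := hsep k i (Ne.symm hik)
    rw [Finset.sup_insert, Submodule.disjoint_def]
    intro v hvi hv
    obtain ⟨y, hy, z, hz, rfl⟩ := Submodule.mem_sup.mp hv
    have hφy : φ y = 0 := LinearMap.mem_ker.mp (h1 hy)
    have hmap : (s.sup D).map φ ≤ s.sup D := by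
      rw [Submodule.map_le_iff_le_comap]
      refine Finset.sup_le fun k hk => ?_
      rw [← Submodule.map_le_iff_le_comap]
      exact (h3 k).trans (Finset.le_sup hk)
    have hφz : φ z ∈ s.sup D := hmap (Submodule.mem_map_of_mem hz)
    have hφv : φ (y + z) ∈ D i := h3 i (Submodule.mem_map_of_mem hvi)
    have h5 : φ (y + z) = φ z := by rw [map_add, hφy, zero_add]
    have h6 : φ (y + z) = 0 := by
      rw [h5] at hφv ⊢
      exact (Submodule.disjoint_def.mp ih') _ hφv hφz
    have h7 : y + z ∈ D i ⊓ LinearMap.ker φ := ⟨hvi, LinearMap.mem_ker.mpr h6⟩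
    rw [h2] at h7
    exact (Submodule.mem_bot F).mp h7

theorem iSupIndep_of_separating {ι : Type*} [Finite ι]
    (D : ι → Submodule F (Fin n → F))
    (hsep : ∀ i j, i ≠ j → ∃ φ : (Fin n → F) →ₗ[F] (Fin n → F),
      D i ≤ LinearMap.ker φ ∧ D j ⊓ LinearMap.ker φ = ⊥ ∧ ∀ k, (D k).map φ ≤ D k) :
    iSupIndep D := by
  classical
  have := Fintype.ofFinite ι
  rw [iSupIndep_iff_supIndep_univ]
  intro s _ i _ his
  exact disjoint_finset_sup_of_separating D hsep s i his

end Linear

/-! ### Abelian normal subgroups of primitive irreducible groups act without fixed points -/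

section Clifford

variable {F : Type*} [Field F] [Fintype F] {n : ℕ}
variable (G : Subgroup (Matrix.GeneralLinearGroup (Fin n) F))

/-- The joint fixed space of a set of elements of `G`. -/
noncomputable def jointFix (S : Set G) : Submodule F (Fin n → F) :=
  ⨅ s ∈ S, fixS (s : Matrix.GeneralLinearGroup (Fin n) F)

theorem mem_jointFix {S : Set G} {v : Fin n → F} :
    v ∈ jointFix G S ↔ ∀ s ∈ S, act (s : Matrix.GeneralLinearGroup (Fin n) F) v = v := by
  simp [jointFix, Submodule.mem_iInf, mem_fixS]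

/-- The conjugate of a set of elements of `G`. -/
def conjSet (h : G) (S : Set G) : Set G := (fun s => h * s * h⁻¹) '' S

theorem mem_conjSet {h : G} {S : Set G} {b : G} : b ∈ conjSet G h S ↔ h⁻¹ * b * h ∈ S := by
  constructor
  · rintro ⟨s, hs, rfl⟩
    have : h⁻¹ * (h * s * h⁻¹) * h = s := by group
    rw [this]; exact hs
  · intro hb
    exact ⟨h⁻¹ * b * h, hb, by group⟩

theorem conjSet_inv_conjSet (h : G) (S : Set G) : conjSet G h⁻¹ (conjSet G h S) = S := by
  ext b
  rw [mem_conjSet, mem_conjSet, inv_inv]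
  have : h⁻¹ * (h * b * h⁻¹) * h = b := by group
  rw [this]

theorem conjSet_conjSet_inv (h : G) (S : Set G) : conjSet G h (conjSet G h⁻¹ S) = S := by
  have := conjSet_inv_conjSet G h⁻¹ S
  rwa [inv_inv] at this

theorem conjSet_mono (h : G) {S S' : Set G} (hS : S ⊆ S') : conjSet G h S ⊆ conjSet G h S' :=
  Set.image_mono hS

theorem jointFix_conjSet (h : G) (S : Set G) :
    jointFix G (conjSet G h S) = (jointFix G S).map (act (h : Matrix.GeneralLinearGroup (Fin n) F)) := by
  ext v
  rw [mem_jointFix, Submodule.mem_map]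
  constructor
  · intro hv
    refine ⟨act ((h : Matrix.GeneralLinearGroup (Fin n) F))⁻¹ v, ?_, act_apply_inv _ v⟩
    rw [mem_jointFix]
    intro s hs
    have h1 := hv (h * s * h⁻¹) ⟨s, hs, rfl⟩
    rw [Subgroup.coe_mul, Subgroup.coe_mul, Subgroup.coe_inv, act_mul_apply, act_mul_apply] at h1
    have h2 := congrArg (act ((h : Matrix.GeneralLinearGroup (Fin n) F))⁻¹) h1
    rwa [act_inv_apply] at h2
  · rintro ⟨w, hw, rfl⟩
    rw [mem_jointFix] at hw
    rintro _ ⟨s, hs, rfl⟩
    rw [Subgroup.coe_mul, Subgroup.coe_mul, Subgroup.coe_inv, act_mul_apply, act_mul_apply,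
      act_inv_apply, hw s hs]

theorem fix_eq_bot_of_mem_abelian_normal
    (hirr : Cfsg.Geo.ActsIrreducibly (Cfsg.Geo.matrixSet G))
    (hprim : ∀ (m t : ℕ) (D : Fin t → Submodule F (Fin n → F)), 2 ≤ t →
      Cfsg.Geo.IsMDecomposition m D → ¬ G ≤ Cfsg.Geo.decompositionStabilizer D)
    (A : Subgroup G) (hAn : A.Normal) (hAc : ∀ a ∈ A, ∀ b ∈ A, a * b = b * a)
    (a : G) (ha : a ∈ A) (ha1 : a ≠ 1) :
    fixS (a : Matrix.GeneralLinearGroup (Fin n) F) = ⊥ := by
  classical
  by_contra hne
  -- the conjugates of `a`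
  let J : Set G := {b | ∃ h : G, b = h * a * h⁻¹}
  have hJA : J ⊆ A := by
    rintro b ⟨h, rfl⟩
    exact hAn.conj_mem a ha h
  have hJcomm : ∀ s ∈ J, ∀ s' ∈ J, ∀ v : Fin n → F,
      act (s : Matrix.GeneralLinearGroup (Fin n) F) (act (s' : Matrix.GeneralLinearGroup (Fin n) F) v)
        = act (s' : Matrix.GeneralLinearGroup (Fin n) F) (act (s : Matrix.GeneralLinearGroup (Fin n) F) v) := by
    intro s hs s' hs' v
    rw [← act_mul_apply, ← act_mul_apply, ← Subgroup.coe_mul, ← Subgroup.coe_mul,
      hAc s (hJA hs) s' (hJA hs')]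
  have hJconj : ∀ (h : G) (S : Set G), S ⊆ J → conjSet G h S ⊆ J := by
    rintro h S hS _ ⟨s, hs, rfl⟩
    obtain ⟨k, rfl⟩ := hS hs
    exact ⟨h * k, by group⟩
  let p : Set G → Prop := fun S => S ⊆ J ∧ jointFix G S ≠ ⊥
  have hp0 : p {a} := by
    refine ⟨?_, ?_⟩
    · rintro b rfl
      exact ⟨1, by group⟩
    · simpa [jointFix] using hne
  obtain ⟨S, haS, hSmax⟩ := Finite.exists_le_maximal hp0
  have haS' : a ∈ S := haS (Set.mem_singleton a)
  -- conjugation preserves `p` and maximality
  have hpconj : ∀ (h : G) (S' : Set G), p S' → p (conjSet G h S') := by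
    intro h S' hS'
    refine ⟨hJconj h S' hS'.1, ?_⟩
    rw [jointFix_conjSet]
    intro hbot
    apply hS'.2
    rw [Submodule.eq_bot_iff] at hbot ⊢
    intro v hv
    exact act_injective _ ((hbot _ (Submodule.mem_map_of_mem hv)).trans (map_zero _).symm)
  have hmaxconj : ∀ (h : G) (S' : Set G), Maximal p S' → Maximal p (conjSet G h S') := by
    intro h S' hS'
    refine ⟨hpconj h S' hS'.1, ?_⟩
    intro S'' hS'' hle
    have h1 : S' ≤ conjSet G h⁻¹ S'' := by
      have := conjSet_mono G h⁻¹ hle
      rwa [conjSet_inv_conjSet] at this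
    have h2 := hS'.2 (hpconj h⁻¹ S'' hS'') h1
    have h3 := conjSet_mono G h h2
    rwa [conjSet_conjSet_inv] at h3
  -- the index type: the conjugates of `S`
  let ι : Type _ := {S' : Set G // ∃ h : G, S' = conjSet G h S}
  have hιmax : ∀ i : ι, Maximal p i.1 := by
    rintro ⟨S', h, rfl⟩
    exact hmaxconj h S hSmax
  let D : ι → Submodule F (Fin n → F) := fun i => jointFix G i.1
  let i0 : ι := ⟨S, 1, by
    ext b
    rw [mem_conjSet]
    simp⟩
  -- separation
  have hsep : ∀ i j : ι, i ≠ j → ∃ φ : (Fin n → F) →ₗ[F] (Fin n → F),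
      D i ≤ LinearMap.ker φ ∧ D j ⊓ LinearMap.ker φ = ⊥ ∧ ∀ k, (D k).map φ ≤ D k := by
    intro i j hij
    have hnot : ¬ i.1 ⊆ j.1 := by
      intro hsub
      apply hij
      apply Subtype.ext
      exact le_antisymm hsub ((hιmax i).2 (hιmax j).1 hsub)
    obtain ⟨s, hsi, hsj⟩ := Set.not_subset.mp hnot
    have hsJ : s ∈ J := (hιmax i).1.1 hsi
    refine ⟨act (s : Matrix.GeneralLinearGroup (Fin n) F) - LinearMap.id, ?_, ?_, ?_⟩
    · intro v hv
      rw [LinearMap.mem_ker, LinearMap.sub_apply, LinearMap.id_apply, sub_eq_zero]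
      exact mem_jointFix G |>.mp hv s hsi
    · by_contra hbot
      have hp : p (insert s j.1) := by
        refine ⟨Set.insert_subset hsJ (hιmax j).1.1, ?_⟩
        intro hb
        apply hbot
        rw [Submodule.eq_bot_iff] at hb ⊢
        rintro v ⟨hv1, hv2⟩
        apply hb
        rw [mem_jointFix]
        intro s' hs'
        rcases hs' with rfl | hs'
        · rw [SetLike.mem_coe, LinearMap.mem_ker, LinearMap.sub_apply, LinearMap.id_apply,
            sub_eq_zero] at hv2
          exact hv2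
        · exact mem_jointFix G |>.mp hv1 s' hs'
      exact hsj ((hιmax j).2 hp (Set.subset_insert s j.1) (Set.mem_insert s j.1))
    · rintro k _ ⟨v, hv, rfl⟩
      rw [SetLike.mem_coe] at hv
      change _ ∈ jointFix G k.1
      rw [mem_jointFix]
      intro s' hs'
      have hs'J : s' ∈ J := (hιmax k).1.1 hs'
      have hv' := mem_jointFix G |>.mp hv s' hs'
      rw [LinearMap.sub_apply, LinearMap.id_apply, map_sub, hJcomm s' hs'J s hsJ v, hv']
  have hindep : iSupIndep D := iSupIndep_of_separating D hsep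
  -- the translates
  have hDconj : ∀ (h : G) (i : ι), ∃ j : ι, (D i).map (act (h : Matrix.GeneralLinearGroup (Fin n) F)) = D j := by
    rintro h ⟨S', k, rfl⟩
    refine ⟨⟨conjSet G h (conjSet G k S), h * k, ?_⟩, ?_⟩
    · ext b
      rw [mem_conjSet, mem_conjSet, mem_conjSet]
      have : k⁻¹ * (h⁻¹ * b * h) * k = (h * k)⁻¹ * b * (h * k) := by group
      rw [this]
    · exact (jointFix_conjSet G h _).symm
  -- the sum is everything
  have hsum : iSup D = ⊤ := by
    have hinv : ∀ s ∈ Cfsg.Geo.matrixSet G, (iSup D).map (Matrix.toLin' s) ≤ iSup D := by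
      rintro _ ⟨g, hg, rfl⟩
      rw [Submodule.map_iSup]
      refine iSup_le fun i => ?_
      obtain ⟨j, hj⟩ := hDconj ⟨g, hg⟩ i
      have : (D i).map (Matrix.toLin' (g : Matrix (Fin n) (Fin n) F)) = D j := hj
      rw [this]
      exact le_iSup D j
    rcases hirr (iSup D) hinv with h | h
    · exfalso
      apply hSmax.1.2
      have : D i0 ≤ iSup D := le_iSup D i0
      rw [h] at this
      exact le_bot_iff.mp this
    · exact h
  -- dimensions
  have hdim : ∀ i : ι, Module.finrank F (D i) = Module.finrank F (jointFix G S) := by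
    rintro ⟨S', k, rfl⟩
    change Module.finrank F (jointFix G (conjSet G k S)) = _
    rw [jointFix_conjSet]
    exact (Submodule.equivMapOfInjective _ (act_injective _) _).finrank_eq.symm
  have hpos : 0 < Module.finrank F (jointFix G S) := by
    rw [Module.finrank_pos_iff]
    exact (Submodule.nontrivial_iff_ne_bot).mpr hSmax.1.2
  -- enumerate
  have hfin : Finite ι := inferInstance
  set t := Nat.card ι with ht
  let e : ι ≃ Fin t := Finite.equivFin ι
  by_cases h2 : 2 ≤ t
  · -- imprimitive: contradiction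
    apply hprim (Module.finrank F (jointFix G S)) t (D ∘ e.symm) h2
    · refine ⟨h2, hpos, fun i => hdim _, hindep.comp e.symm.injective, ?_⟩
      rw [← hsum]
      exact e.symm.iSup_comp (g := D)
    · intro g hg
      -- the permutation induced by `g`
      have hτ : ∀ i : Fin t, ∃ j : Fin t,
          (D (e.symm i)).map (Matrix.toLin' (g : Matrix (Fin n) (Fin n) F)) = D (e.symm j) := by
        intro i
        obtain ⟨j, hj⟩ := hDconj ⟨g, hg⟩ (e.symm i)
        exact ⟨e j, by rw [Equiv.symm_apply_apply]; exact hj⟩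
      choose τ hτ' using hτ
      have hτinj : Function.Injective τ := by
        intro i j hij
        have h1 := hτ' i
        have h2 := hτ' j
        rw [hij] at h1
        have h3 : (D (e.symm i)).map (Matrix.toLin' (g : Matrix (Fin n) (Fin n) F))
            = (D (e.symm j)).map (Matrix.toLin' (g : Matrix (Fin n) (Fin n) F)) := h1.trans h2.symm
        have h4 : D (e.symm i) = D (e.symm j) :=
          Submodule.map_injective_of_injective (act_injective g) h3
        by_contra hne
        have hne' : e.symm i ≠ e.symm j := fun h => hne (e.symm.injective h)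
        have hdis := hindep.pairwiseDisjoint hne'
        rw [Function.onFun, h4, disjoint_self] at hdis
        have := hdim (e.symm j)
        rw [hdis] at this
        simp at this
        omega
      exact ⟨Equiv.ofBijective τ (Finite.injective_iff_bijective.mp hτinj), fun i => hτ' i⟩
  · -- only one translate: everything is fixed
    have hle : Nat.card ι ≤ 1 := by omega
    have hsub : Subsingleton ι := (Finite.card_le_one_iff_subsingleton).mp hle
    have hD0 : D i0 = ⊤ := by
      rw [← hsum]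
      apply le_antisymm (le_iSup D i0)
      refine iSup_le fun i => ?_
      rw [Subsingleton.elim i i0]
    apply ha1
    apply Subtype.ext
    apply eq_one_of_act_eq
    intro v
    have hv : v ∈ D i0 := by rw [hD0]; exact Submodule.mem_top
    exact mem_jointFix G |>.mp hv a haS'

end Clifford

/-- Fixed-point spaces in primitive soluble linear groups. Let F be a finite field and G a soluble subgroup of GL_n(F) that acts irreducibly on F^n and primitively (G preserves no decomposition of F^n into two or more independent subspaces of equal dimension). Then every non-identity element g of G has fixed-point space {v : g v = v} of dimension at most 3n/4. -/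
theorem result {F : Type*} [Field F] [Fintype F] {n : ℕ} (G : Subgroup (Matrix.GeneralLinearGroup (Fin n) F)) (hsol : IsSolvable G) (hirr : Cfsg.Geo.ActsIrreducibly (Cfsg.Geo.matrixSet G)) (hprim : ∀ (m t : ℕ) (D : Fin t → Submodule F (Fin n → F)), 2 ≤ t → Cfsg.Geo.IsMDecomposition m D → ¬ G ≤ Cfsg.Geo.decompositionStabilizer D) (g : Matrix.GeneralLinearGroup (Fin n) F) (hg : g ∈ G) (hg1 : g ≠ 1) :
    4 * Module.finrank F (Module.End.eigenspace (Matrix.toLin' (g : Matrix (Fin n) (Fin n) F)) 1) ≤ 3 * n := by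
  have hsol' : Group.IsSolvable G := hsol
  have hg1' : (⟨g, hg⟩ : G) ≠ 1 := fun h => hg1 (congrArg Subtype.val h)
  obtain ⟨A, hAn, hAc, h⟩ := key_group_lemma (⟨g, hg⟩ : G) hg1'
  have hfix := fix_eq_bot_of_mem_abelian_normal G hirr hprim A hAn hAc
  change 4 * Module.finrank F (fixS g) ≤ 3 * n
  rcases h with h | ⟨x, hx, hx1⟩ | ⟨x, y, hz, hz1⟩
  · have h0 := hfix _ h hg1'
    change fixS g = ⊥ at h0
    rw [h0]
    simp
  · have h0 := hfix _ hx hx1
    have h1 := two_mul_finrank_fix_le g (x : Matrix.GeneralLinearGroup (Fin n) F)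
    have h2 : ((⁅(⟨g, hg⟩ : G)⁻¹, x⁆ : G) : Matrix.GeneralLinearGroup (Fin n) F)
        = ⁅g⁻¹, (x : Matrix.GeneralLinearGroup (Fin n) F)⁆ := by
      simp [commutatorElement_def]
    rw [h2] at h0
    rw [h0] at h1
    simp at h1
    omega
  · have h0 := hfix _ hz hz1
    set u : Matrix.GeneralLinearGroup (Fin n) F := ⁅g⁻¹, (x : Matrix.GeneralLinearGroup (Fin n) F)⁆ with hu
    have h1 := two_mul_finrank_fix_le g (x : Matrix.GeneralLinearGroup (Fin n) F)
    have h1' := two_mul_finrank_fix_le u (y : Matrix.GeneralLinearGroup (Fin n) F)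
    have h2 : ((⁅(⁅(⟨g, hg⟩ : G)⁻¹, x⁆ : G)⁻¹, y⁆ : G) : Matrix.GeneralLinearGroup (Fin n) F)
        = ⁅u⁻¹, (y : Matrix.GeneralLinearGroup (Fin n) F)⁆ := by
      simp [commutatorElement_def, hu]
    rw [h2] at h0
    rw [h0] at h1'
    simp at h1'
    rw [← hu] at h1
    omega

end Cfsg.Agent.S5876
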