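import Cfsg.Statements.S5938
import Cfsg.Agent.Helper5.DkMax
import Cfsg.Agent.S0803

set_option autoImplicit false
open Cfsg

namespace Cfsg.Agent.S5938

open Cfsg.Agent.Helper5

/-- For a prime p ≡ ±1 (mod 8), PSL2(p) has a maximal subgroup isomorphic to S4. -/
theorem result {F : Type*} [Field F] [Fintype F] (p : ℕ) [Fact p.Prime] (hF : Fintype.card F = p) (hp : p % 8 = 1 ∨ p % 8 = 7) : ∃ H : Subgroup (Matrix.ProjectiveSpecialLinearGroup (Fin 2) F), IsCoatom H ∧ Nonempty (H ≃* Equiv.Perm (Fin 4)) := by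
  classical
  have hpp : p.Prime := Fact.out
  have : CharP F p := charP_of_card_prime p hF
  have hp7 : 7 ≤ p := by
    have := hpp.two_le
    rcases hp with h | h <;> omega
  have hodd : Odd (Fintype.card F) := by
    rw [hF, Nat.odd_iff]
    omega
  have h2 : (2 : F) ≠ 0 := two_ne_zero_of_odd hodd
  have h16 : p ^ 2 % 16 = 1 := by
    have h : p % 16 = 1 ∨ p % 16 = 9 ∨ p % 16 = 7 ∨ p % 16 = 15 := by omega
    rw [pow_two, Nat.mul_mod]
    rcases h with h | h | h | h <;> rw [h]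
  obtain ⟨H, ⟨e⟩⟩ := (Cfsg.Agent.S0803.result (F := F) hF).2 h16
  have hcH : Nat.card H = 24 := by
    rw [Nat.card_congr e.toEquiv, card_perm_fin_four]
  have hG := two_mul_card_PSL2 h2
  rw [hF] at hG
  have hGbig : 168 ≤ Nat.card (Matrix.ProjectiveSpecialLinearGroup (Fin 2) F) := by
    have h49 : 49 ≤ p ^ 2 := by nlinarith
    have : 7 * 48 ≤ p * (p ^ 2 - 1) := Nat.mul_le_mul hp7 (by omega)
    omega
  have hnm : ¬ MetabLaw H := fun h =>
    not_metab_S4 (h.of_injective e.symm.toMonoidHom e.symm.injective)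
  refine ⟨H, ⟨?_, ?_⟩, ⟨e⟩⟩
  · intro htop
    have : Nat.card H = Nat.card (Matrix.ProjectiveSpecialLinearGroup (Fin 2) F) := by
      rw [htop, Subgroup.card_top]
    omega
  · intro M hHM
    have hlt := card_lt_of_subgroup_lt hHM
    have hdvd := Subgroup.card_dvd_of_le hHM.le
    rcases dickson_laws p M with ⟨h1, -⟩ | ⟨h1, -⟩ | ⟨⟨e'⟩⟩ | ⟨⟨e'⟩⟩ | ⟨⟨e'⟩⟩ |
      ⟨K, _, _, m, hKm, hK⟩
    · exact absurd (h1.of_le hHM.le) hnm
    · exact absurd (h1.of_le hHM.le) hnm
    · have : Nat.card M = 12 := by rw [Nat.card_congr e'.toEquiv, card_alt_fin_four]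
      omega
    · have : Nat.card M = 24 := by rw [Nat.card_congr e'.toEquiv, card_perm_fin_four]
      omega
    · have : Nat.card M = 60 := by rw [Nat.card_congr e'.toEquiv, card_alt_fin_five]
      rw [this, hcH] at hdvd
      omega
    · rw [hF] at hKm
      obtain ⟨hKp, -⟩ := (Nat.Prime.pow_eq_iff hpp).1 hKm
      exact top_of_equiv_same_card hodd (hKp.trans hF.symm) M hK

end Cfsg.Agent.S5938
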