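import Cfsg.Statements.S5941
import Cfsg.Agent.Helper5.DkMax3
import Cfsg.Agent.S0805

set_option autoImplicit false
open Cfsg

namespace Cfsg.Agent.S5941

open Cfsg.Agent.Helper5

/-- For q odd, PSL2(q²) has a maximal subgroup isomorphic to PGL2(q). -/
theorem result {F K : Type*} [Field F] [Fintype F] [Field K] [Fintype K] (q : ℕ) (hK : Fintype.card K = q) (hF : Fintype.card F = q ^ 2) (hq : Odd q) : ∃ H : Subgroup (Matrix.ProjectiveSpecialLinearGroup (Fin 2) F), IsCoatom H ∧ Nonempty (H ≃* Matrix.ProjGenLinGroup (Fin 2) K) := by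
  classical
  obtain ⟨p, hp⟩ := CharP.exists F
  have : Fact p.Prime := ⟨CharP.char_is_prime F p⟩
  have hodd : Odd (Fintype.card F) := by
    rw [hF]
    exact hq.pow
  have h2 : (2 : F) ≠ 0 := two_ne_zero_of_odd hodd
  have h2K : (2 : K) ≠ 0 := two_ne_zero_of_odd (by rw [hK]; exact hq)
  have hq3 : 3 ≤ q := by
    have h1 : 1 < Fintype.card K := Fintype.one_lt_card
    rw [hK] at h1
    have := Nat.odd_iff.1 hq
    omega
  obtain ⟨H, ⟨e⟩⟩ := (Cfsg.Agent.S0805.result (F := F) (K := K) hF hq.pow 2 (by norm_num)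
    (by rw [hK])).2.2 (by decide)
  have hcH : Nat.card H = q * (q ^ 2 - 1) := by
    rw [Nat.card_congr e.toEquiv, card_PGL2_eq, hK]
  have hG := two_mul_card_PSL2 h2
  rw [hF] at hG
  have hq9 : 9 ≤ q ^ 2 := by nlinarith
  have hH24 : 24 ≤ Nat.card H := by
    rw [hcH]
    calc 24 = 3 * 8 := by norm_num
      _ ≤ q * (q ^ 2 - 1) := Nat.mul_le_mul hq3 (by omega)
  have hnm : ¬ MetabLaw H := fun h =>
    not_metab_PGL2 h2K (h.of_injective e.symm.toMonoidHom e.symm.injective)
  -- monotonicity of `k (k² - 1)`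
  have hmono : ∀ k : ℕ, k ≤ q → k * (k ^ 2 - 1) ≤ q * (q ^ 2 - 1) := by
    intro k hk
    have : k ^ 2 ≤ q ^ 2 := Nat.pow_le_pow_left hk 2
    exact Nat.mul_le_mul hk (by omega)
  refine ⟨H, ⟨?_, ?_⟩, ⟨e⟩⟩
  · intro htop
    have h1 : Nat.card H = Nat.card (Matrix.ProjectiveSpecialLinearGroup (Fin 2) F) := by
      rw [htop, Subgroup.card_top]
    rw [← h1, hcH] at hG
    -- `2 q (q² - 1) = q² (q⁴ - 1)` is impossible
    have h3 : q ^ 2 * ((q ^ 2) ^ 2 - 1) = q * (q ^ 2 - 1) * (q * (q ^ 2 + 1)) := by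
      have e1 : 1 ≤ q ^ 2 := by omega
      have e2 : 1 ≤ (q ^ 2) ^ 2 := Nat.one_le_pow _ _ (by omega)
      zify [e1, e2]
      ring
    rw [h3] at hG
    have h4 : 0 < q * (q ^ 2 - 1) := by
      apply Nat.mul_pos (by omega) (by omega)
    have h5 : 2 = q * (q ^ 2 + 1) := by
      apply Nat.eq_of_mul_eq_mul_left h4
      rw [← hG]
      ring
    nlinarith
  · intro M hHM
    have hlt := card_lt_of_subgroup_lt hHM
    have hdvd := Subgroup.card_dvd_of_le hHM.le
    rcases dickson_laws p M with ⟨h1, -⟩ | ⟨h1, -⟩ | ⟨⟨e'⟩⟩ | ⟨⟨e'⟩⟩ | ⟨⟨e'⟩⟩ |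
      ⟨K', _, _, m, hKm, hK'⟩
    · exact absurd (h1.of_le hHM.le) hnm
    · exact absurd (h1.of_le hHM.le) hnm
    · have : Nat.card M = 12 := by rw [Nat.card_congr e'.toEquiv, card_alt_fin_four]
      omega
    · have : Nat.card M = 24 := by rw [Nat.card_congr e'.toEquiv, card_perm_fin_four]
      omega
    · exfalso
      have h60 : Nat.card M = 60 := by rw [Nat.card_congr e'.toEquiv, card_alt_fin_five]
      rw [h60] at hlt hdvd
      by_cases hq3' : q = 3
      · rw [hcH, hq3'] at hdvd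
        norm_num at hdvd
      · have hq5 : 5 ≤ q := by
          have := Nat.odd_iff.1 hq
          omega
        have h25 : 25 ≤ q ^ 2 := by nlinarith
        have : 5 * 24 ≤ q * (q ^ 2 - 1) := Nat.mul_le_mul hq5 (by omega)
        omega
    · by_cases hkq : Fintype.card K' = q ^ 2
      · exact top_of_equiv_same_card hodd (hkq.trans hF.symm) M hK'
      · exfalso
        rw [hF] at hKm
        have hK1 : 1 < Fintype.card K' := Fintype.one_lt_card
        have hm2 : 2 ≤ m := by
          by_contra hm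
          have hm' : m = 0 ∨ m = 1 := by omega
          rcases hm' with rfl | rfl
          · rw [pow_zero] at hKm
            omega
          · rw [pow_one] at hKm
            exact hkq hKm
        have hkle : Fintype.card K' ≤ q := by
          have h3 : Fintype.card K' ^ 2 ≤ Fintype.card K' ^ m :=
            Nat.pow_le_pow_right (by omega) hm2
          rw [hKm] at h3
          exact (Nat.pow_le_pow_iff_left (by norm_num : 2 ≠ 0)).1 h3
        have hMle : Nat.card M ≤ Fintype.card K' * (Fintype.card K' ^ 2 - 1) := by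
          rcases hK' with ⟨⟨e'⟩⟩ | ⟨⟨e'⟩⟩
          · rw [Nat.card_congr e'.toEquiv, ← card_PSL2_mul]
            exact Nat.le_mul_of_pos_right _ Nat.card_pos
          · rw [Nat.card_congr e'.toEquiv, card_PGL2_eq]
        have := hmono _ hkle
        omega

end Cfsg.Agent.S5941
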