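import Cfsg.Statements.S5942
import Cfsg.Agent.Helper41.DkMax

set_option autoImplicit false
open Cfsg

namespace Cfsg.Agent.S5942

open Cfsg.Agent.Helper41 Cfsg.Agent.Helper41.Dk Matrix

theorem arith16 (r : ℕ) (hr : Odd r) : ¬ 16 ∣ 3 ^ r * ((3 ^ r) ^ 2 - 1) := by
  obtain ⟨k, rfl⟩ := hr
  intro h
  have h1 : (3 ^ (2 * k + 1)) ^ 2 % 16 = 9 := by
    rw [← pow_mul, show (2 * k + 1) * 2 = 4 * k + 2 by ring, pow_add, pow_mul, Nat.mul_mod,
      Nat.pow_mod]
    norm_num
  have h2 : 3 ^ (2 * k + 1) % 2 = 1 := by rw [Nat.pow_mod]; norm_num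
  obtain ⟨a, ha⟩ : ∃ a, a = 3 ^ (2 * k + 1) := ⟨_, rfl⟩
  rw [← ha] at h h1 h2
  obtain ⟨b, hb⟩ : ∃ b, b = a ^ 2 := ⟨_, rfl⟩
  rw [← hb] at h h1
  have h3 : (b - 1) % 16 = 8 := by omega
  have h4 := Nat.mod_eq_zero_of_dvd h
  rw [Nat.mul_mod, h3] at h4
  omega

theorem arith5 (r : ℕ) (hr : Odd r) : ¬ 5 ∣ 3 ^ r * ((3 ^ r) ^ 2 - 1) := by
  obtain ⟨k, rfl⟩ := hr
  intro h
  have h1 : (3 ^ (2 * k + 1)) ^ 2 % 5 = 4 := by
    rw [← pow_mul, show (2 * k + 1) * 2 = 4 * k + 2 by ring, pow_add, pow_mul, Nat.mul_mod,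
      Nat.pow_mod]
    norm_num
  have h2 : ¬ 5 ∣ 3 ^ (2 * k + 1) := by
    intro h0
    have := Nat.Prime.dvd_of_dvd_pow Nat.prime_five h0
    omega
  obtain ⟨a, ha⟩ : ∃ a, a = 3 ^ (2 * k + 1) := ⟨_, rfl⟩
  rw [← ha] at h h1 h2
  obtain ⟨b, hb⟩ : ∃ b, b = a ^ 2 := ⟨_, rfl⟩
  rw [← hb] at h h1
  rcases (Nat.Prime.dvd_mul Nat.prime_five).mp h with h3 | h3
  · exact h2 h3
  · omega


/-- Let K and F be finite fields of odd characteristic with #F = (#K)^r for an odd prime r. Then PSL_2(F) has a maximal subgroup isomorphic to PSL_2(K). -/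
theorem result {F K : Type*} [Field F] [Fintype F] [Field K] [Fintype K] (q r : ℕ) (hK : Fintype.card K = q) (hF : Fintype.card F = q ^ r) (hq : Odd q) (hr : r.Prime) (hr2 : r ≠ 2) : ∃ H : Subgroup (Matrix.ProjectiveSpecialLinearGroup (Fin 2) F), IsCoatom H ∧ Nonempty (H ≃* Matrix.ProjectiveSpecialLinearGroup (Fin 2) K) := by
  classical
  obtain ⟨φ⟩ := Cfsg.Agent.Helper44.exists_ringHom_of_card_pow (F := K) (K := F) hK hF
  obtain ⟨p, hchar⟩ := CharP.exists F
  haveI := hchar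
  haveI : Fact p.Prime := ⟨CharP.char_is_prime F p⟩
  have hq2 : 2 ≤ q := by rw [← hK]; exact Fintype.one_lt_card
  have hq3 : 3 ≤ q := by obtain ⟨k, hk⟩ := hq; omega
  have hr2' : 2 ≤ r := hr.two_le
  have hrodd : Odd r := hr.odd_of_ne_two hr2
  have h2 : (2 : F) ≠ 0 := by
    intro h
    have h3 : ((2 : ℕ) : F) = 0 := by exact_mod_cast h
    have h4 := (CharP.cast_eq_zero_iff F p 2).mp h3
    have hp2 : p = 2 := (Nat.prime_dvd_prime_iff_eq Fact.out Nat.prime_two).mp h4
    obtain ⟨n, -, hn⟩ := FiniteField.card F p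
    have h5 : Even (Fintype.card F) := by
      rw [hn, hp2]; exact (Nat.even_pow.mpr ⟨even_two, n.pos.ne'⟩)
    rw [hF] at h5
    exact (Nat.not_even_iff_odd.mpr hq.pow) h5
  obtain ⟨K0, hK0⟩ : ∃ K0 : Subfield F, K0 = φ.fieldRange := ⟨_, rfl⟩
  have hφ : ∀ c : F, c ∈ K0 ↔ ∃ k : K, φ k = c := by
    intro c; rw [hK0]; exact RingHom.mem_fieldRange
  have hcardK0 : Nat.card K0 = q := by
    rw [← hK, ← Nat.card_eq_fintype_card]
    symm
    apply Nat.card_congr
    exact Equiv.ofBijective (fun k => (⟨φ k, (hφ _).mpr ⟨k, rfl⟩⟩ : K0))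
      ⟨fun a b h => φ.injective (congrArg Subtype.val h), fun ⟨c, hc⟩ => by
        obtain ⟨k, hk⟩ := (hφ c).mp hc; exact ⟨k, Subtype.ext hk⟩⟩
  have hFK0 : Fintype.card F = Nat.card K0 ^ r := by rw [hcardK0, hF]
  have hcardSK : Nat.card (SK K0) = q * (q ^ 2 - 1) := by rw [card_SK, hcardK0]
  have hcen2 : Nat.card (Subgroup.center (Matrix.SpecialLinearGroup (Fin 2) F)) = 2 :=
    Cfsg.Agent.Helper5.card_center_SL2 h2
  have hSL : Nat.card (Matrix.SpecialLinearGroup (Fin 2) F) = q ^ r * ((q ^ r) ^ 2 - 1) := by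
    rw [Cfsg.Agent.Helper5.card_SL2, hF]
  obtain ⟨H, hH⟩ : ∃ H : Subgroup (Matrix.ProjectiveSpecialLinearGroup (Fin 2) F), H =
      (SK K0).map (QuotientGroup.mk' (Subgroup.center (Matrix.SpecialLinearGroup (Fin 2) F))) :=
    ⟨_, rfl⟩
  have hpre : pre H = SK K0 := by rw [hH]; exact pre_map _ (center_le_SK K0)
  refine ⟨H, ?_, ?_⟩
  · apply isCoatom_of_pre
    · rw [hpre]
      intro htop
      have hall : ∀ t : F, t ∈ K0 := by
        intro t
        have h3 : Ux t ∈ SK K0 := by rw [htop]; trivial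
        have h4 := h3 0 1
        rwa [Ux_e01] at h4
      have hsurj : Function.Surjective φ := fun c => (hφ c).mp (hall c)
      have h5 := Fintype.card_le_of_surjective φ hsurj
      rw [hK, hF] at h5
      have h6 : q * q ≤ q ^ r := by
        calc q * q = q ^ 2 := (sq q).symm
          _ ≤ q ^ r := Nat.pow_le_pow_right (by omega) hr2'
      nlinarith
    · intro Mt hle hne
      rw [hpre] at hle hne
      have hcen : Subgroup.center (Matrix.SpecialLinearGroup (Fin 2) F) ≤ Mt :=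
        (center_le_SK K0).trans hle
      have hcardlt : ¬ Nat.card Mt ≤ Nat.card (SK K0) := by
        intro h
        exact hne (Subgroup.eq_of_le_of_card_ge hle h).symm
      have hU : Ux (1 : F) ∈ Mt := hle (Ux_mem_SK K0 K0.one_mem)
      have hL : Lx (1 : F) ∈ Mt := hle (Lx_mem_SK K0 K0.one_mem)
      have hZ : ∀ g : Mt, g ∈ (Subgroup.center
          (Matrix.SpecialLinearGroup (Fin 2) F)).subgroupOf Mt ↔
          Mt.subtype g ∈ Subgroup.center (Matrix.SpecialLinearGroup (Fin 2) F) :=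
        fun g => Subgroup.mem_subgroupOf
      have hidx := card_of_index Mt hcen
      rw [hcen2] at hidx
      have hdvd : Nat.card Mt ∣ q ^ r * ((q ^ r) ^ 2 - 1) := by
        rw [← hSL]; exact Subgroup.card_subgroup_dvd_card Mt
      have hSKge : ∀ n, n ≤ q * (q ^ 2 - 1) → Nat.card Mt = n → False :=
        fun n hn h => hcardlt (by rw [h, hcardSK]; exact hn)
      have hq24 : 24 ≤ q * (q ^ 2 - 1) := by
        have h3 : 3 * (3 ^ 2 - 1) ≤ q * (q ^ 2 - 1) :=
          Nat.mul_le_mul hq3 (Nat.sub_le_sub_right (Nat.pow_le_pow_left hq3 2) 1)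
        omega
      have hq120 : 5 ≤ q → 120 ≤ q * (q ^ 2 - 1) := by
        intro h5
        have h3 : 5 * (5 ^ 2 - 1) ≤ q * (q ^ 2 - 1) :=
          Nat.mul_le_mul h5 (Nat.sub_le_sub_right (Nat.pow_le_pow_left h5 2) 1)
        omega
      have hq3' : ¬ 5 ≤ q → q = 3 := by
        intro h; obtain ⟨k, hk⟩ := hq; omega
      rcases dickson_subgroup p Mt hcen with hB | hT | ⟨h12, -⟩ | ⟨h24, -⟩ | ⟨h60, -⟩ |
        ⟨Q, hQ, K1, hS⟩
      · exfalso
        obtain ⟨v, hv, hfix⟩ := hB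
        obtain ⟨c, hc⟩ := hfix ⟨Ux 1, hU⟩
        obtain ⟨c', hc'⟩ := hfix ⟨Lx 1, hL⟩
        exact no_fix_Ux_Lx v hv c c' hc hc'
      · exfalso
        obtain ⟨x, hxZ, -, hx⟩ := hT
        have hcomm := sq_comm_of_T Mt.subtype Subtype.val_injective _ hZ x hxZ hx
          ⟨Ux 1, hU⟩ ⟨Lx 1, hL⟩
        have h3 : (Ux (1 : F) * Ux 1) * (Lx 1 * Lx 1) = (Lx (1 : F) * Lx 1) * (Ux 1 * Ux 1) :=
          congrArg Subtype.val hcomm.eq
        have h4 := congrArg (fun g : Matrix.SpecialLinearGroup (Fin 2) F => g.1 0 0) h3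
        simp only [Lx, mul_e00, mul_e01, mul_e10, mul_e11, mk_e00, mk_e01, mk_e10, mk_e11, Ux_e00, Ux_e01, Ux_e10, Ux_e11, inv_e00, inv_e01, inv_e10, inv_e11] at h4
        apply h2
        have h5 : (2 : F) * 2 = 0 := by linear_combination h4
        exact mul_self_eq_zero.mp h5
      · exfalso
        rw [h12] at hidx
        exact hSKge 24 hq24 hidx
      · exfalso
        rw [h24] at hidx
        by_cases h5 : 5 ≤ q
        · exact hSKge 48 (by have := hq120 h5; omega) hidx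
        · have hq3'' := hq3' h5
          subst hq3''
          rw [hidx] at hdvd
          exact arith16 r hrodd (Dvd.dvd.trans (by norm_num) hdvd)
      · exfalso
        rw [h60] at hidx
        by_cases h5 : 5 ≤ q
        · exact hSKge 120 (hq120 h5) hidx
        · have hq3'' := hq3' h5
          subst hq3''
          rw [hidx] at hdvd
          exact arith5 r hrodd (Dvd.dvd.trans (by norm_num) hdvd)
      · rcases hS with h1 | ⟨lam, hlam, hlam2, h2'⟩
        · have h01 : K0 ≤ K1 := subfield_le_of_conj Q hQ K0 K1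
            (fun g hg => (h1 _).mp ⟨⟨g, hle hg⟩, rfl⟩)
          rcases tower_prime K0 K1 h01 r hr hFK0 with hK1 | hK1
          · exfalso
            have h3 := card_of_range_SK Mt Q hQ K1 h1
            rw [hK1] at h3
            exact hcardlt h3.le
          · apply eq_top_of_range_top Mt Q hQ
            intro g
            rw [h1, hK1]
            intro i j; trivial
        · exfalso
          have hlam0 : lam ≠ 0 := fun h => hlam (h ▸ K1.zero_mem)
          have h01 : K0 ≤ K1 := subfield_le_of_conj' h2 Q hQ K0 K1 lam hlam0 hlam2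
            (fun g hg => (h2' _).mp ⟨⟨g, hle hg⟩, rfl⟩)
          rcases tower_prime K0 K1 h01 r hr hFK0 with hK1 | hK1
          · rw [hK1] at hlam hlam2
            exact no_quad_of_odd h2 K0 r hrodd hFK0 lam hlam hlam2
          · rw [hK1] at hlam
            exact hlam trivial
  · obtain ⟨br⟩ := psl_bridge H
    have hr' : ∀ g : Matrix.SpecialLinearGroup (Fin 2) F,
        g ∈ (pre H).subtype.range ↔ MemK K0 g.1 := by
      intro g
      rw [Subgroup.range_subtype, hpre]; rfl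
    obtain ⟨e⟩ := sl2K_case φ K0 (pre H).subtype ((Subgroup.center
      (Matrix.SpecialLinearGroup (Fin 2) F)).subgroupOf (pre H)) hφ
      (fun g => Subgroup.mem_subgroupOf) hr'
    exact ⟨br.symm.trans e⟩

end Cfsg.Agent.S5942
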