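import Cfsg.Statements.S5949
import Cfsg.Agent.Helper90.BGChain
import Cfsg.Agent.Helper46.BGLG
import Cfsg.Agent.Helper46.BGLIRR
import Cfsg.Agent.Helper69.BGLSING
import Cfsg.Agent.Helper76.BGLKUM
import Cfsg.Agent.Helper76.BGLNT
import Cfsg.Agent.Helper41.BGLDET

set_option autoImplicit false
open scoped MatrixGroups
open Cfsg

namespace Cfsg.Agent.S5949

/-- Elements of prime order of PSL_n(q) with no fixed `m`-space. Here `T = PSL_n(F)` for a field `F` with `q = p^f` elements (`n ≥ 2`, `(n, q) ≠ (2, 2), (2, 3)`); an element of `T` of prime order `r` is represented by a matrix `x` of determinant 1 with `x^r` scalar and `x` not scalar; `i` denotes the multiplicative order of `q` modulo `r` (when `r ≠ p`), and `(a)_r` the `r`-part of `a`. Let `1 ≤ m ≤ n/2` and let `r` be a prime dividing the number of `m`-dimensional subspaces of `F^n`. Then every element of `T` of order `r` fixes some `m`-dimensional subspace (the action on `m`-spaces is `r`-elusive) if and only if `r ≠ p` and either (i) `i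 = 1` and (`r ∣ m`, or `(q−1)_r ≥ (n)_r` where in addition `q ≡ 1 (mod 4)` is required when `r = 2` and `n` is even), or (ii) `2 ≤ i ≤ m` and `n mod i ≥ m mod i`. -/
theorem result {F : Type*} [Field F] [Fintype F] {p : ℕ} [Fact p.Prime] [CharP F p] {q : ℕ} (hq : Fintype.card F = q)
    (n m : ℕ) (hn : 2 ≤ n) (hT : (n, q) ≠ (2, 2) ∧ (n, q) ≠ (2, 3)) (hm : 1 ≤ m) (hmn : 2 * m ≤ n)
    (r : ℕ) [Fact r.Prime] (hrΩ : r ∣ Nat.card {W : Submodule F (Fin n → F) // Module.finrank F ↥W = m}) :
    (∀ x : Matrix.SpecialLinearGroup (Fin n) F,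
      (∃ c : F, ((x ^ r : Matrix.SpecialLinearGroup (Fin n) F) : Matrix (Fin n) (Fin n) F) = c • (1 : Matrix (Fin n) (Fin n) F)) →
      (∀ c : F, (x : Matrix (Fin n) (Fin n) F) ≠ c • (1 : Matrix (Fin n) (Fin n) F)) →
      ∃ W : Submodule F (Fin n → F), Module.finrank F ↥W = m ∧ W.map (Matrix.toLin' (x : Matrix (Fin n) (Fin n) F)) ≤ W) ↔
    (r ≠ p ∧
      ((orderOf (q : ZMod r) = 1 ∧ (r ∣ m ∨ (padicValNat r n ≤ padicValNat r (q - 1) ∧ (r = 2 → Even n → q % 4 = 1)))) ∨
       (2 ≤ orderOf (q : ZMod r) ∧ orderOf (q : ZMod r) ≤ m ∧ m % orderOf (q : ZMod r) ≤ n % orderOf (q : ZMod r)))) := by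
  classical
  subst hq
  have hr : r.Prime := Fact.out
  have hp : p.Prime := Fact.out
  have hmn' : m ≤ n := by omega
  have hq2 : 2 ≤ Fintype.card F := Fintype.one_lt_card
  -- generalities about the linear map of a matrix
  have hpowlin : ∀ (A : Matrix (Fin n) (Fin n) F) (k : ℕ),
      (Matrix.toLin' A) ^ k = Matrix.toLin' (A ^ k) := by
    intro A k
    induction k with
    | zero => rw [pow_zero, pow_zero, Matrix.toLin'_one]; rfl
    | succ k ih => rw [pow_succ, pow_succ, ih, Matrix.toLin'_mul]; rfl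
  have hfin : Module.finrank F (Fin n → F) = n := Module.finrank_fin_fun F
  constructor
  · intro hL
    have hrp : r ≠ p := by
      rintro rfl
      exact Cfsg.Agent.Helper46.bgl_grass_not_dvd_char r n m hmn' hrΩ
    refine ⟨hrp, ?_⟩
    have hrF : (r : F) ≠ 0 := by
      intro h
      rw [CharP.cast_eq_zero_iff F p r] at h
      exact hrp ((Nat.prime_dvd_prime_iff_eq hp hr).mp h).symm
    have hqr : ¬ r ∣ Fintype.card F := by
      intro h
      obtain ⟨k, -, hk⟩ := FiniteField.card F p
      rw [hk] at h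
      exact hrp ((Nat.prime_dvd_prime_iff_eq hr hp).mp (hr.dvd_of_dvd_pow h))
    have hi0 : 0 < orderOf ((Fintype.card F : ℕ) : ZMod r) := by
      rw [orderOf_pos_iff, isOfFinOrder_iff_isUnit, ZMod.isUnit_iff_coprime]
      exact ((Nat.Prime.coprime_iff_not_dvd hr).mpr hqr).symm
    by_cases hi1 : orderOf ((Fintype.card F : ℕ) : ZMod r) = 1
    · left
      refine ⟨hi1, ?_⟩
      by_contra hcon
      rw [not_or] at hcon
      obtain ⟨hrm, hcond⟩ := hcon
      have hr1 : r ∣ Fintype.card F - 1 := by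
        rw [orderOf_eq_one_iff] at hi1
        have h1 : ((Fintype.card F : ℕ) : ZMod r) = ((1 : ℕ) : ZMod r) := by rw [hi1, Nat.cast_one]
        rw [ZMod.natCast_eq_natCast_iff] at h1
        exact (Nat.modEq_iff_dvd' (by omega)).mp h1.symm
      obtain ⟨c, hc, hdet, hrn⟩ : ∃ c : F, (∀ b : F, b ^ r ≠ c) ∧
          ((-1 : F) ^ (r + 1) * c) ^ (n / r) = 1 ∧ r ∣ n := by
        by_cases hv : padicValNat r (Fintype.card F - 1) < padicValNat r n
        · have hrn : r ∣ n := dvd_of_one_le_padicValNat (by omega)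
          by_cases h2 : r = 2 → Fintype.card F % 4 = 1
          · obtain ⟨c, hc, hdet⟩ := Cfsg.Agent.Helper76.bgl_nt_exists n r hr1 hv h2
            exact ⟨c, hc, hdet, hrn⟩
          · rw [Classical.not_imp] at h2
            obtain ⟨h2r, h4⟩ := h2
            subst h2r
            have h43 : Fintype.card F % 4 = 3 := by omega
            obtain ⟨c, hc, hdet⟩ := Cfsg.Agent.Helper76.bgl_nt_exists_two (F := F) n
              (even_iff_two_dvd.mpr hrn) h43
            exact ⟨c, hc, hdet, hrn⟩
        · have h3 : ¬ (r = 2 → Even n → Fintype.card F % 4 = 1) := fun h => hcond ⟨by omega, h⟩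
          rw [Classical.not_imp] at h3
          obtain ⟨h2r, h3'⟩ := h3
          rw [Classical.not_imp] at h3'
          obtain ⟨hev, h4⟩ := h3'
          subst h2r
          have h43 : Fintype.card F % 4 = 3 := by omega
          obtain ⟨c, hc, hdet⟩ := Cfsg.Agent.Helper76.bgl_nt_exists_two (F := F) n hev h43
          exact ⟨c, hc, hdet, even_iff_two_dvd.mp hev⟩
      obtain ⟨x, hx⟩ := Cfsg.Agent.Helper76.bgl_exists_kummer n r hr hrn c hdet
      have hx' : (x : Matrix (Fin n) (Fin n) F) ^ r = c • (1 : Matrix (Fin n) (Fin n) F) := by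
        rw [← hx, Matrix.SpecialLinearGroup.coe_pow]
      obtain ⟨W, hWm, hWx⟩ := hL x ⟨c, hx⟩ (by
        intro z hz
        rw [hz, smul_pow, one_pow] at hx'
        have := congrFun (congrFun hx' ⟨0, by omega⟩) ⟨0, by omega⟩
        simp only [Matrix.smul_apply, Matrix.one_apply_eq, smul_eq_mul, mul_one] at this
        exact hc z this)
      have hirr : Irreducible (Polynomial.X ^ r - Polynomial.C c : Polynomial F) :=
        X_pow_sub_C_irreducible_of_prime hr hc
      have haev : Polynomial.aeval (Matrix.toLin' (x : Matrix (Fin n) (Fin n) F))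
          (Polynomial.X ^ r - Polynomial.C c : Polynomial F) = 0 := by
        rw [map_sub, map_pow, Polynomial.aeval_X, Polynomial.aeval_C, hpowlin, hx', map_smul,
          Matrix.toLin'_one, Algebra.algebraMap_eq_smul_one]
        exact sub_self _
      have := Cfsg.Agent.Helper90.BG.dvd_finrank_of_irreducible _ _ hirr haev W hWx
      rw [Polynomial.natDegree_X_pow_sub_C, hWm] at this
      exact hrm this
    · right
      have hi2 : 2 ≤ orderOf ((Fintype.card F : ℕ) : ZMod r) := by omega
      obtain ⟨j, hjm, hj⟩ := Cfsg.Agent.Helper46.bgl_grass_dvd p n m hmn' r hrp hrΩ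
      have hin : orderOf ((Fintype.card F : ℕ) : ZMod r) ≤ n :=
        (Nat.le_of_dvd (by omega) hj).trans (Nat.sub_le n j)
      obtain ⟨x, hx1, hxns, hker⟩ := Cfsg.Agent.Helper69.bgl_exists_fpf p n r hrp hi2 hin
      obtain ⟨W, hWm, hWx⟩ := hL x ⟨1, by rw [hx1, one_smul]⟩ hxns
      have hfr : (Matrix.toLin' (x : Matrix (Fin n) (Fin n) F)) ^ r = 1 := by
        rw [hpowlin, ← Matrix.SpecialLinearGroup.coe_pow, hx1, Matrix.toLin'_one]; rfl
      have hd : ∀ g : Polynomial F, Irreducible g →
          g ∣ ∑ j ∈ Finset.range r, (Polynomial.X : Polynomial F) ^ j →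
          g.natDegree = orderOf ((Fintype.card F : ℕ) : ZMod r) :=
        fun g hg hdvd => Cfsg.Agent.Helper46.bgl_irr_factor_degree r hrF g hg hdvd
      have hmod := Cfsg.Agent.Helper90.BG.cyc_mod_le _ r _ hrF hfr hd W hWx
        (by rw [hker]; exact Nat.mod_lt _ hi0)
      rw [hWm, hker] at hmod
      refine ⟨hi2, ?_, hmod⟩
      by_contra hlt
      rw [not_le] at hlt
      rw [Nat.mod_eq_of_lt hlt] at hmod
      obtain ⟨t, ht⟩ := hj
      have h1 := Nat.mod_add_div n (orderOf ((Fintype.card F : ℕ) : ZMod r))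
      have h2 := Nat.mod_lt n hi0
      have h3 : (n - j) % orderOf ((Fintype.card F : ℕ) : ZMod r) = 0 := by
        rw [ht]; exact Nat.mul_mod_right _ _
      have h4 : n - j = (n % orderOf ((Fintype.card F : ℕ) : ZMod r) - j)
          + orderOf ((Fintype.card F : ℕ) : ZMod r) * (n / orderOf ((Fintype.card F : ℕ) : ZMod r)) := by
        omega
      rw [h4, Nat.add_mul_mod_self_left, Nat.mod_eq_of_lt (by omega)] at h3
      omega
  · rintro ⟨hrp, hcase⟩ x ⟨c, hxc⟩ hxns
    have hrF : (r : F) ≠ 0 := by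
      intro h
      rw [CharP.cast_eq_zero_iff F p r] at h
      exact hrp ((Nat.prime_dvd_prime_iff_eq hp hr).mp h).symm
    have hqr : ¬ r ∣ Fintype.card F := by
      intro h
      obtain ⟨k, -, hk⟩ := FiniteField.card F p
      rw [hk] at h
      exact hrp ((Nat.prime_dvd_prime_iff_eq hr hp).mp (hr.dvd_of_dvd_pow h))
    have hi0 : 0 < orderOf ((Fintype.card F : ℕ) : ZMod r) := by
      rw [orderOf_pos_iff, isOfFinOrder_iff_isUnit, ZMod.isUnit_iff_coprime]
      exact ((Nat.Prime.coprime_iff_not_dvd hr).mpr hqr).symm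
    have hx' : (x : Matrix (Fin n) (Fin n) F) ^ r = c • (1 : Matrix (Fin n) (Fin n) F) := by
      rw [← hxc, Matrix.SpecialLinearGroup.coe_pow]
    have hc0 : c ≠ 0 := by
      rintro rfl
      have : Nonempty (Fin n) := ⟨⟨0, by omega⟩⟩
      have h1 := congrArg Matrix.det hx'
      rw [Matrix.det_pow, x.det_coe, one_pow, zero_smul, Matrix.det_zero] at h1
      exact one_ne_zero h1
    have hfr : (Matrix.toLin' (x : Matrix (Fin n) (Fin n) F)) ^ r = c • 1 := by
      rw [hpowlin, hx', map_smul, Matrix.toLin'_one]; rfl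
    have haev : Polynomial.aeval (Matrix.toLin' (x : Matrix (Fin n) (Fin n) F))
        (Polynomial.X ^ r - Polynomial.C c : Polynomial F) = 0 := by
      rw [map_sub, map_pow, Polynomial.aeval_X, Polynomial.aeval_C, hfr,
        Algebra.algebraMap_eq_smul_one]
      exact sub_self _
    have hone : orderOf ((Fintype.card F : ℕ) : ZMod r) = 1 ↔ r ∣ Fintype.card F - 1 := by
      rw [orderOf_eq_one_iff]
      constructor
      · intro hi1
        have h1 : ((Fintype.card F : ℕ) : ZMod r) = ((1 : ℕ) : ZMod r) := by rw [hi1, Nat.cast_one]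
        rw [ZMod.natCast_eq_natCast_iff] at h1
        exact (Nat.modEq_iff_dvd' (by omega)).mp h1.symm
      · intro h
        have h1 : ((Fintype.card F : ℕ) : ZMod r) = ((1 : ℕ) : ZMod r) := by
          rw [ZMod.natCast_eq_natCast_iff]
          exact ((Nat.modEq_iff_dvd' (by omega)).mpr h).symm
        rw [h1, Nat.cast_one]
    have hcardU : Nat.card Fˣ = Fintype.card F - 1 := by
      rw [Nat.card_units, Nat.card_eq_fintype_card]
    rcases hcase with ⟨hi1, hA⟩ | ⟨hi2, him, hmod⟩
    · have hr1 : r ∣ Fintype.card F - 1 := hone.mp hi1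
      by_cases hpow : ∃ b : F, b ^ r = c
      · obtain ⟨b, hb⟩ := hpow
        obtain ⟨ω, hω⟩ := exists_prime_orderOf_dvd_card' (G := Fˣ) r (by rw [hcardU]; exact hr1)
        have hζ : IsPrimitiveRoot (ω : F) r := by
          rw [IsPrimitiveRoot.coe_units_iff, ← hω]
          exact IsPrimitiveRoot.orderOf ω
        have hsplit := X_pow_sub_C_splits_of_isPrimitiveRoot hζ hb
        exact Cfsg.Agent.Helper90.BG.exists_invariant_of_splits _ _
          (Polynomial.X_pow_sub_C_ne_zero hr.pos c) hsplit haev m (by rw [hfin]; exact hmn')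
      · have hpow' : ∀ b : F, b ^ r ≠ c := fun b hb => hpow ⟨b, hb⟩
        have hirr : Irreducible (Polynomial.X ^ r - Polynomial.C c : Polynomial F) :=
          X_pow_sub_C_irreducible_of_prime hr hpow'
        rcases hA with hrm | hcond
        · obtain ⟨a, rfl⟩ := hrm
          obtain ⟨W, hW1, hW2⟩ := Cfsg.Agent.Helper90.BG.exists_invariant_of_irreducible _ _ hirr
            haev a (by rw [Polynomial.natDegree_X_pow_sub_C, hfin]; exact hmn')
          exact ⟨W, by rw [hW1, Polynomial.natDegree_X_pow_sub_C], hW2⟩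
        · exfalso
          obtain ⟨hrn, hdet⟩ := Cfsg.Agent.Helper41.bgl_kummer_det n r hr c hirr _ hx'
          rw [x.det_coe] at hdet
          exact Cfsg.Agent.Helper76.bgl_nt_conv n r hr1 hrn (by omega) c hpow' hdet.symm hcond
    · have hnr1 : ¬ r ∣ Fintype.card F - 1 := fun h => by
        have := hone.mpr h
        omega
      have hcop : (Nat.card Fˣ).Coprime r := by
        rw [hcardU]
        exact ((Nat.Prime.coprime_iff_not_dvd hr).mpr hnr1).symm
      obtain ⟨b, hb⟩ : ∃ b : F, b ^ r = c := by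
        refine ⟨(((powCoprime hcop).symm (Units.mk0 c hc0) : Fˣ) : F), ?_⟩
        have h1 := (powCoprime hcop).apply_symm_apply (Units.mk0 c hc0)
        rw [powCoprime_apply] at h1
        have h2 := congrArg (fun u : Fˣ => (u : F)) h1
        simpa using h2
      have hb0 : b ≠ 0 := by
        rintro rfl
        rw [zero_pow hr.ne_zero] at hb
        exact hc0 hb.symm
      have hyr : (b⁻¹ • Matrix.toLin' (x : Matrix (Fin n) (Fin n) F)) ^ r = 1 := by
        rw [smul_pow, hfr, inv_pow, hb, smul_smul, inv_mul_cancel₀ hc0, one_smul]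
      have hd : ∀ g : Polynomial F, Irreducible g →
          g ∣ ∑ j ∈ Finset.range r, (Polynomial.X : Polynomial F) ^ j →
          g.natDegree = orderOf ((Fintype.card F : ℕ) : ZMod r) :=
        fun g hg hdvd => Cfsg.Agent.Helper46.bgl_irr_factor_degree r hrF g hg hdvd
      obtain ⟨W, hW1, hW2⟩ := Cfsg.Agent.Helper90.BG.cyc_exists_dim _ r _ hrF hyr hi0 hd m
        (by rw [hfin]; exact hmn') (by rw [hfin]; exact hmod)
      refine ⟨W, hW1, ?_⟩
      rintro _ ⟨v, hv, rfl⟩
      have h1 : Matrix.toLin' (x : Matrix (Fin n) (Fin n) F) v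
          = b • (b⁻¹ • Matrix.toLin' (x : Matrix (Fin n) (Fin n) F)) v := by
        rw [LinearMap.smul_apply, smul_smul, mul_inv_cancel₀ hb0, one_smul]
      rw [h1]
      exact W.smul_mem b (hW2 (Submodule.mem_map_of_mem hv))

end Cfsg.Agent.S5949
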