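import Cfsg.Statements.S5951
import Cfsg.Agent.Helper90.BGFlag
import Cfsg.Agent.Helper46.BGLIRR
import Cfsg.Agent.Helper69.BGLSING
import Cfsg.Agent.Helper76.BGLKUM
import Cfsg.Agent.Helper76.BGLNT
import Cfsg.Agent.Helper41.BGLDET
import Cfsg.Agent.Helper29.BGLFLAG

set_option autoImplicit false
open scoped MatrixGroups
open Cfsg

namespace Cfsg.Agent.S5951

/-- Elements of prime order of PSL_n(q) fixing no pair of subspaces `U < W` with `dim U = m`, `dim W = n − m`. Here `T = PSL_n(F)` for a field `F` with `q = p^f` elements (`n ≥ 2`, `(n, q) ≠ (2, 2), (2, 3)`); an element of `T` of prime order `r` is represented by a matrix `x` of determinant 1 with `x^r` scalar and `x` not scalar; `i` denotes the multiplicative order of `q` modulo `r` (when `r ≠ p`), and `(a)_r` the `r`-part of `a`. Let `1 ≤ m < n/2` and let `r` be a prime dividing the number of such pairs. Then every element of `T` of order `r` fixes such a pair (both `U` and `W`) if and only if `r ≠ p` and either (i) `i = 1` and (`r ∣ m`,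 or `(q−1)_r ≥ (n)_r` with `q ≡ 1 (mod 4)` required when `r = 2` and `n` is even), or (ii) `2 ≤ i ≤ m` and `n mod i ≥ 2 (m mod i)`. -/
theorem result {F : Type*} [Field F] [Fintype F] {p : ℕ} [Fact p.Prime] [CharP F p] {q : ℕ} (hq : Fintype.card F = q)
    (n m : ℕ) (hn : 2 ≤ n) (hT : (n, q) ≠ (2, 2) ∧ (n, q) ≠ (2, 3)) (hm : 1 ≤ m) (hmn : 2 * m < n)
    (r : ℕ) [Fact r.Prime]
    (hrΩ : r ∣ Nat.card {P : Submodule F (Fin n → F) × Submodule F (Fin n → F) //
        P.1 ≤ P.2 ∧ Module.finrank F ↥P.1 = m ∧ Module.finrank F ↥P.2 = n - m}) :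
    (∀ x : Matrix.SpecialLinearGroup (Fin n) F,
      (∃ c : F, ((x ^ r : Matrix.SpecialLinearGroup (Fin n) F) : Matrix (Fin n) (Fin n) F) = c • (1 : Matrix (Fin n) (Fin n) F)) →
      (∀ c : F, (x : Matrix (Fin n) (Fin n) F) ≠ c • (1 : Matrix (Fin n) (Fin n) F)) →
      ∃ U W : Submodule F (Fin n → F), U ≤ W ∧ Module.finrank F ↥U = m ∧ Module.finrank F ↥W = n - m ∧
        U.map (Matrix.toLin' (x : Matrix (Fin n) (Fin n) F)) ≤ U ∧ W.map (Matrix.toLin' (x : Matrix (Fin n) (Fin n) F)) ≤ W) ↔
    (r ≠ p ∧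
      ((orderOf (q : ZMod r) = 1 ∧ (r ∣ m ∨ (padicValNat r n ≤ padicValNat r (q - 1) ∧ (r = 2 → Even n → q % 4 = 1)))) ∨
       (2 ≤ orderOf (q : ZMod r) ∧ orderOf (q : ZMod r) ≤ m ∧ 2 * (m % orderOf (q : ZMod r)) ≤ n % orderOf (q : ZMod r)))) := by
  classical
  subst hq
  have hr : r.Prime := Fact.out
  have hp : p.Prime := Fact.out
  have hmn' : 2 * m ≤ n := by omega
  have hq2 : 2 ≤ Fintype.card F := Fintype.one_lt_card
  have hpowlin : ∀ (A : Matrix (Fin n) (Fin n) F) (k : ℕ),
      (Matrix.toLin' A) ^ k = Matrix.toLin' (A ^ k) := by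
    intro A k
    induction k with
    | zero => rw [pow_zero, pow_zero, Matrix.toLin'_one]; rfl
    | succ k ih => rw [pow_succ, pow_succ, ih, Matrix.toLin'_mul]; rfl
  have hfin : Module.finrank F (Fin n → F) = n := Module.finrank_fin_fun F
  have hrF : r ≠ p → (r : F) ≠ 0 := by
    intro hrp h
    rw [CharP.cast_eq_zero_iff F p r] at h
    exact hrp ((Nat.prime_dvd_prime_iff_eq hp hr).mp h).symm
  have hqr : r ≠ p → ¬ r ∣ Fintype.card F := by
    intro hrp h
    obtain ⟨k, -, hk⟩ := FiniteField.card F p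
    rw [hk] at h
    exact hrp ((Nat.prime_dvd_prime_iff_eq hr hp).mp (hr.dvd_of_dvd_pow h))
  have hi0 : r ≠ p → 0 < orderOf ((Fintype.card F : ℕ) : ZMod r) := by
    intro hrp
    rw [orderOf_pos_iff, isOfFinOrder_iff_isUnit, ZMod.isUnit_iff_coprime]
    exact ((Nat.Prime.coprime_iff_not_dvd hr).mpr (hqr hrp)).symm
  have hone : orderOf ((Fintype.card F : ℕ) : ZMod r) = 1 ↔ r ∣ Fintype.card F - 1 := by
    rw [orderOf_eq_one_iff]
    constructor
    · intro hi1
      have h1 : ((Fintype.card F : ℕ) : ZMod r) = ((1 : ℕ) : ZMod r) := by rw [hi1, Nat.cast_one]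
      rw [ZMod.natCast_eq_natCast_iff] at h1
      exact (Nat.modEq_iff_dvd' (by omega)).mp h1.symm
    · intro h
      have h1 : ((Fintype.card F : ℕ) : ZMod r) = ((1 : ℕ) : ZMod r) := by
        rw [ZMod.natCast_eq_natCast_iff]
        exact ((Nat.modEq_iff_dvd' (by omega)).mpr h).symm
      rw [h1, Nat.cast_one]
  have hd : r ≠ p → ∀ g : Polynomial F, Irreducible g →
      g ∣ ∑ j ∈ Finset.range r, (Polynomial.X : Polynomial F) ^ j →
      g.natDegree = orderOf ((Fintype.card F : ℕ) : ZMod r) :=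
    fun hrp g hg hdvd => Cfsg.Agent.Helper46.bgl_irr_factor_degree r (hrF hrp) g hg hdvd
  constructor
  · intro hL
    have hrp : r ≠ p := by
      rintro rfl
      exact Cfsg.Agent.Helper29.bgl_flag_not_dvd_char r n m hmn' hrΩ
    refine ⟨hrp, ?_⟩
    by_cases hi1 : orderOf ((Fintype.card F : ℕ) : ZMod r) = 1
    · left
      refine ⟨hi1, ?_⟩
      by_contra hcon
      rw [not_or] at hcon
      obtain ⟨hrm, hcond⟩ := hcon
      have hr1 : r ∣ Fintype.card F - 1 := hone.mp hi1
      obtain ⟨c, hc, hdet, hrn⟩ : ∃ c : F, (∀ b : F, b ^ r ≠ c) ∧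
          ((-1 : F) ^ (r + 1) * c) ^ (n / r) = 1 ∧ r ∣ n := by
        by_cases hv : padicValNat r (Fintype.card F - 1) < padicValNat r n
        · have hrn : r ∣ n := dvd_of_one_le_padicValNat (by omega)
          by_cases h2 : r = 2 → Fintype.card F % 4 = 1
          · obtain ⟨c, hc, hdet⟩ := Cfsg.Agent.Helper76.bgl_nt_exists n r hr1 hv h2
            exact ⟨c, hc, hdet, hrn⟩
          · rw [Classical.not_imp] at h2
            obtain ⟨h2r, h4⟩ := h2
            subst h2r
            have h43 : Fintype.card F % 4 = 3 := by omega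
            obtain ⟨c, hc, hdet⟩ := Cfsg.Agent.Helper76.bgl_nt_exists_two (F := F) n
              (even_iff_two_dvd.mpr hrn) h43
            exact ⟨c, hc, hdet, hrn⟩
        · have h3 : ¬ (r = 2 → Even n → Fintype.card F % 4 = 1) := fun h => hcond ⟨by omega, h⟩
          rw [Classical.not_imp] at h3
          obtain ⟨h2r, h3'⟩ := h3
          rw [Classical.not_imp] at h3'
          obtain ⟨hev, h4⟩ := h3'
          subst h2r
          have h43 : Fintype.card F % 4 = 3 := by omega
          obtain ⟨c, hc, hdet⟩ := Cfsg.Agent.Helper76.bgl_nt_exists_two (F := F) n hev h43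
          exact ⟨c, hc, hdet, even_iff_two_dvd.mp hev⟩
      obtain ⟨x, hx⟩ := Cfsg.Agent.Helper76.bgl_exists_kummer n r hr hrn c hdet
      have hx' : (x : Matrix (Fin n) (Fin n) F) ^ r = c • (1 : Matrix (Fin n) (Fin n) F) := by
        rw [← hx, Matrix.SpecialLinearGroup.coe_pow]
      obtain ⟨U, W, -, hUm, -, hUx, -⟩ := hL x ⟨c, hx⟩ (by
        intro z hz
        rw [hz, smul_pow, one_pow] at hx'
        have := congrFun (congrFun hx' ⟨0, by omega⟩) ⟨0, by omega⟩
        simp only [Matrix.smul_apply, Matrix.one_apply_eq, smul_eq_mul, mul_one] at this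
        exact hc z this)
      have hirr : Irreducible (Polynomial.X ^ r - Polynomial.C c : Polynomial F) :=
        X_pow_sub_C_irreducible_of_prime hr hc
      have haev : Polynomial.aeval (Matrix.toLin' (x : Matrix (Fin n) (Fin n) F))
          (Polynomial.X ^ r - Polynomial.C c : Polynomial F) = 0 := by
        rw [map_sub, map_pow, Polynomial.aeval_X, Polynomial.aeval_C, hpowlin, hx', map_smul,
          Matrix.toLin'_one, Algebra.algebraMap_eq_smul_one]
        exact sub_self _
      have := Cfsg.Agent.Helper90.BG.dvd_finrank_of_irreducible _ _ hirr haev U hUx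
      rw [Polynomial.natDegree_X_pow_sub_C, hUm] at this
      exact hrm this
    · right
      have hi0' := hi0 hrp
      have hi2 : 2 ≤ orderOf ((Fintype.card F : ℕ) : ZMod r) := by omega
      have hflag := Cfsg.Agent.Helper29.bgl_flag_dvd p n m hmn' r hrp hrΩ
      have hin : orderOf ((Fintype.card F : ℕ) : ZMod r) ≤ n := by
        rcases hflag with ⟨j, hjm, hj⟩ | ⟨j, hjm, hj⟩
        · exact (Nat.le_of_dvd (by omega) hj).trans (Nat.sub_le n j)
        · exact (Nat.le_of_dvd (by omega) hj).trans (by omega)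
      obtain ⟨x, hx1, hxns, hker⟩ := Cfsg.Agent.Helper69.bgl_exists_fpf p n r hrp hi2 hin
      obtain ⟨U, W, hUW, hUm, hWm, hUx, hWx⟩ := hL x ⟨1, by rw [hx1, one_smul]⟩ hxns
      have hfr : (Matrix.toLin' (x : Matrix (Fin n) (Fin n) F)) ^ r = 1 := by
        rw [hpowlin, ← Matrix.SpecialLinearGroup.coe_pow, hx1, Matrix.toLin'_one]; rfl
      have hklt : Module.finrank F ↥(LinearMap.ker (Matrix.toLin' (x : Matrix (Fin n) (Fin n) F) - 1))
          < orderOf ((Fintype.card F : ℕ) : ZMod r) := by rw [hker]; exact Nat.mod_lt _ hi0'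
      have hU := Cfsg.Agent.Helper90.BG.cyc_mod_eq _ r _ (hrF hrp) hfr (hd hrp) U hUx hklt
      have hW := Cfsg.Agent.Helper90.BG.cyc_mod_eq _ r _ (hrF hrp) hfr (hd hrp) W hWx hklt
      rw [hUm] at hU
      rw [hWm] at hW
      have he12 : Module.finrank F (U ⊓ LinearMap.ker (Matrix.toLin' (x : Matrix (Fin n) (Fin n) F) - 1) : Submodule F (Fin n → F))
          ≤ Module.finrank F (W ⊓ LinearMap.ker (Matrix.toLin' (x : Matrix (Fin n) (Fin n) F) - 1) : Submodule F (Fin n → F)) :=
        Submodule.finrank_mono (inf_le_inf_right _ hUW)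
      have he2 : Module.finrank F (W ⊓ LinearMap.ker (Matrix.toLin' (x : Matrix (Fin n) (Fin n) F) - 1) : Submodule F (Fin n → F))
          ≤ n % orderOf ((Fintype.card F : ℕ) : ZMod r) := by
        rw [← hker]; exact Submodule.finrank_mono inf_le_right
      rw [← hU] at he12
      rw [← hW] at he12 he2
      have h2k := Nat.mod_lt n hi0'
      have hsum : (m % orderOf ((Fintype.card F : ℕ) : ZMod r)
          + (n - m) % orderOf ((Fintype.card F : ℕ) : ZMod r)) % orderOf ((Fintype.card F : ℕ) : ZMod r)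
          = n % orderOf ((Fintype.card F : ℕ) : ZMod r) := by
        rw [← Nat.add_mod, Nat.add_sub_cancel' (by omega)]
      have hkey : 2 * (m % orderOf ((Fintype.card F : ℕ) : ZMod r))
          ≤ n % orderOf ((Fintype.card F : ℕ) : ZMod r) := by
        by_cases hlt : m % orderOf ((Fintype.card F : ℕ) : ZMod r)
            + (n - m) % orderOf ((Fintype.card F : ℕ) : ZMod r) < orderOf ((Fintype.card F : ℕ) : ZMod r)
        · rw [Nat.mod_eq_of_lt hlt] at hsum
          omega
        · rw [Nat.mod_eq_sub_mod (by omega), Nat.mod_eq_of_lt (by omega)] at hsum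
          omega
      refine ⟨hi2, ?_, hkey⟩
      by_contra hlt
      rw [not_le] at hlt
      rw [Nat.mod_eq_of_lt hlt] at hkey
      have h1 := Nat.mod_add_div n (orderOf ((Fintype.card F : ℕ) : ZMod r))
      rcases hflag with ⟨j, hjm, t, ht⟩ | ⟨j, hjm, t, ht⟩
      · have h3 : (n - j) % orderOf ((Fintype.card F : ℕ) : ZMod r) = 0 := by
          rw [ht]; exact Nat.mul_mod_right _ _
        have h4 : n - j = (n % orderOf ((Fintype.card F : ℕ) : ZMod r) - j)
            + orderOf ((Fintype.card F : ℕ) : ZMod r) * (n / orderOf ((Fintype.card F : ℕ) : ZMod r)) := by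
          omega
        rw [h4, Nat.add_mul_mod_self_left, Nat.mod_eq_of_lt (by omega)] at h3
        omega
      · have h3 : (n - m - j) % orderOf ((Fintype.card F : ℕ) : ZMod r) = 0 := by
          rw [ht]; exact Nat.mul_mod_right _ _
        have h4 : n - m - j = (n % orderOf ((Fintype.card F : ℕ) : ZMod r) - m - j)
            + orderOf ((Fintype.card F : ℕ) : ZMod r) * (n / orderOf ((Fintype.card F : ℕ) : ZMod r)) := by
          omega
        rw [h4, Nat.add_mul_mod_self_left, Nat.mod_eq_of_lt (by omega)] at h3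
        omega
  · rintro ⟨hrp, hcase⟩ x ⟨c, hxc⟩ hxns
    have hi0' := hi0 hrp
    have hx' : (x : Matrix (Fin n) (Fin n) F) ^ r = c • (1 : Matrix (Fin n) (Fin n) F) := by
      rw [← hxc, Matrix.SpecialLinearGroup.coe_pow]
    have hc0 : c ≠ 0 := by
      rintro rfl
      have : Nonempty (Fin n) := ⟨⟨0, by omega⟩⟩
      have h1 := congrArg Matrix.det hx'
      rw [Matrix.det_pow, x.det_coe, one_pow, zero_smul, Matrix.det_zero] at h1
      exact one_ne_zero h1
    have hfr : (Matrix.toLin' (x : Matrix (Fin n) (Fin n) F)) ^ r = c • 1 := by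
      rw [hpowlin, hx', map_smul, Matrix.toLin'_one]; rfl
    have haev : Polynomial.aeval (Matrix.toLin' (x : Matrix (Fin n) (Fin n) F))
        (Polynomial.X ^ r - Polynomial.C c : Polynomial F) = 0 := by
      rw [map_sub, map_pow, Polynomial.aeval_X, Polynomial.aeval_C, hfr,
        Algebra.algebraMap_eq_smul_one]
      exact sub_self _
    have hcardU : Nat.card Fˣ = Fintype.card F - 1 := by
      rw [Nat.card_units, Nat.card_eq_fintype_card]
    rcases hcase with ⟨hi1, hA⟩ | ⟨hi2, him, hmod⟩
    · have hr1 : r ∣ Fintype.card F - 1 := hone.mp hi1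
      by_cases hpow : ∃ b : F, b ^ r = c
      · obtain ⟨b, hb⟩ := hpow
        obtain ⟨ω, hω⟩ := exists_prime_orderOf_dvd_card' (G := Fˣ) r (by rw [hcardU]; exact hr1)
        have hζ : IsPrimitiveRoot (ω : F) r := by
          rw [IsPrimitiveRoot.coe_units_iff, ← hω]
          exact IsPrimitiveRoot.orderOf ω
        have hsplit := X_pow_sub_C_splits_of_isPrimitiveRoot hζ hb
        have hd1 : ∀ g : Polynomial F, Irreducible g →
            g ∣ (Polynomial.X ^ r - Polynomial.C c : Polynomial F) → g.natDegree = 1 :=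
          fun g hg hdvd => (hsplit.of_dvd (Polynomial.X_pow_sub_C_ne_zero hr.pos c)
            hdvd).natDegree_eq_one_of_irreducible hg
        obtain ⟨U, W, hUW, hU1, hW1, hU2, hW2⟩ := Cfsg.Agent.Helper90.BG.flag_of_uniform _ _
          (Polynomial.X_pow_sub_C_ne_zero hr.pos c) haev 1 hd1 m (n - m) (by omega)
          (by rw [hfin]; omega)
        exact ⟨U, W, hUW, by omega, by omega, hU2, hW2⟩
      · have hpow' : ∀ b : F, b ^ r ≠ c := fun b hb => hpow ⟨b, hb⟩
        have hirr : Irreducible (Polynomial.X ^ r - Polynomial.C c : Polynomial F) :=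
          X_pow_sub_C_irreducible_of_prime hr hpow'
        obtain ⟨hrn, hdet⟩ := Cfsg.Agent.Helper41.bgl_kummer_det n r hr c hirr _ hx'
        rcases hA with hrm | hcond
        · obtain ⟨a, rfl⟩ := hrm
          have hdr : ∀ g : Polynomial F, Irreducible g →
              g ∣ (Polynomial.X ^ r - Polynomial.C c : Polynomial F) → g.natDegree = r :=
            fun g hg hdvd => by
              rw [Cfsg.Agent.Helper90.BG.natDegree_eq_of_assoc (hg.associated_of_dvd hirr hdvd),
                Polynomial.natDegree_X_pow_sub_C]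
          have hnr : r * (n / r) = n := Nat.mul_div_cancel' hrn
          have ha2 : 2 * a < n / r := by
            have : r * (2 * a) < r * (n / r) := by rw [hnr]; nlinarith
            exact Nat.lt_of_mul_lt_mul_left this
          have hsub : r * (n / r - a) = r * (n / r) - r * a := Nat.mul_sub r (n / r) a
          obtain ⟨U, W, hUW, hU1, hW1, hU2, hW2⟩ := Cfsg.Agent.Helper90.BG.flag_of_uniform _ _
            hirr.ne_zero haev r hdr a (n / r - a) (by omega) (by rw [hfin]; omega)
          exact ⟨U, W, hUW, hU1, by omega, hU2, hW2⟩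
        · exfalso
          rw [x.det_coe] at hdet
          exact Cfsg.Agent.Helper76.bgl_nt_conv n r hr1 hrn (by omega) c hpow' hdet.symm hcond
    · have hnr1 : ¬ r ∣ Fintype.card F - 1 := fun h => by
        have := hone.mpr h
        omega
      have hcop : (Nat.card Fˣ).Coprime r := by
        rw [hcardU]
        exact ((Nat.Prime.coprime_iff_not_dvd hr).mpr hnr1).symm
      obtain ⟨b, hb⟩ : ∃ b : F, b ^ r = c := by
        refine ⟨(((powCoprime hcop).symm (Units.mk0 c hc0) : Fˣ) : F), ?_⟩
        have h1 := (powCoprime hcop).apply_symm_apply (Units.mk0 c hc0)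
        rw [powCoprime_apply] at h1
        have h2 := congrArg (fun u : Fˣ => (u : F)) h1
        simpa using h2
      have hb0 : b ≠ 0 := by
        rintro rfl
        rw [zero_pow hr.ne_zero] at hb
        exact hc0 hb.symm
      have hyr : (b⁻¹ • Matrix.toLin' (x : Matrix (Fin n) (Fin n) F)) ^ r = 1 := by
        rw [smul_pow, hfr, inv_pow, hb, smul_smul, inv_mul_cancel₀ hc0, one_smul]
      obtain ⟨U, W, hUW, hU1, hW1, hU2, hW2⟩ := Cfsg.Agent.Helper90.BG.cyc_exists_flag_dim _ r _
        (hrF hrp) hyr hi0' (hd hrp) m (by rw [hfin]; exact hmn') (by rw [hfin]; exact hmod)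
      have hinv : ∀ W' : Submodule F (Fin n → F),
          W'.map (b⁻¹ • Matrix.toLin' (x : Matrix (Fin n) (Fin n) F)) ≤ W' →
          W'.map (Matrix.toLin' (x : Matrix (Fin n) (Fin n) F)) ≤ W' := by
        rintro W' hW' _ ⟨v, hv, rfl⟩
        have h1 : Matrix.toLin' (x : Matrix (Fin n) (Fin n) F) v
            = b • (b⁻¹ • Matrix.toLin' (x : Matrix (Fin n) (Fin n) F)) v := by
          rw [LinearMap.smul_apply, smul_smul, mul_inv_cancel₀ hb0, one_smul]
        rw [h1]
        exact W'.smul_mem b (hW' (Submodule.mem_map_of_mem hv))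
      exact ⟨U, W, hUW, hU1, by rw [hW1, hfin], hinv U hU2, hinv W hW2⟩

end Cfsg.Agent.S5951
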