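import Cfsg.Statements.S5952

set_option autoImplicit false
open Cfsg

namespace Cfsg.Agent.S5952

section aux

variable {F V : Type*} [Field F] [AddCommGroup V] [Module F V] [FiniteDimensional F V]

/-- rank-nullity for the restriction of a linear map to a subspace -/
theorem finrank_map_add_inf_ker (P : V →ₗ[F] V) (W : Submodule F V) :
    Module.finrank F (W.map P) + Module.finrank F (W ⊓ LinearMap.ker P : Submodule F V) = Module.finrank F W := by
  have h := LinearMap.finrank_range_add_finrank_ker (P.domRestrict W)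
  rw [LinearMap.range_domRestrict, LinearMap.ker_domRestrict] at h
  rw [← h, ← Submodule.finrank_map_subtype_eq W ((LinearMap.ker P).comap W.subtype), Submodule.map_comap_subtype]

/-- a subspace of every smaller dimension -/
theorem exists_le_finrank_eq (C : Submodule F V) (c : ℕ) (hc : c ≤ Module.finrank F C) :
    ∃ C' : Submodule F V, C' ≤ C ∧ Module.finrank F C' = c := by
  classical
  let b := Module.finBasis F C
  let v : Fin c → V := fun i => (b (Fin.castLE hc i) : V)
  have hli : LinearIndependent F v := by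
    have h1 : LinearIndependent F (fun i : Fin c => b (Fin.castLE hc i)) :=
      b.linearIndependent.comp _ (Fin.castLE_injective hc)
    exact h1.map' C.subtype (Submodule.ker_subtype C)
  refine ⟨Submodule.span F (Set.range v), ?_, ?_⟩
  · rw [Submodule.span_le]
    rintro _ ⟨i, rfl⟩
    exact (b (Fin.castLE hc i)).2
  · rw [finrank_span_eq_card hli, Fintype.card_fin]

variable {ι : Type*} [DecidableEq ι] (f : V →ₗ[F] V) (C : Submodule F V) (U : ι → Submodule F V)
  (P : ι → V →ₗ[F] V) (a : ℕ)

/-- every invariant subspace has dimension `c + d * a` with `c ≤ dim C` -/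
theorem dim_of_invariant
    (hUdim : ∀ j, Module.finrank F (U j) = a)
    (hUirr : ∀ j, ∀ W : Submodule F V, W ≤ U j → W.map f ≤ W → W = ⊥ ∨ W = U j)
    (hP1 : ∀ k x, P k x ∈ U k) (hP2 : ∀ k, ∀ x ∈ U k, P k x = x) (hP3 : ∀ k, C ≤ LinearMap.ker (P k))
    (hP4 : ∀ k j, j ≠ k → U j ≤ LinearMap.ker (P k)) (hP5 : ∀ k x, P k (f x) = f (P k x)) :
    ∀ (S : Finset ι) (W : Submodule F V), W ≤ C ⊔ ⨆ j ∈ S, U j → W.map f ≤ W →
      ∃ c d, Module.finrank F W = c + d * a ∧ c ≤ Module.finrank F C := by
  intro S
  induction S using Finset.induction_on with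
  | empty =>
    intro W hW _
    refine ⟨Module.finrank F W, 0, by simp, ?_⟩
    apply Submodule.finrank_mono
    simpa using hW
  | insert k S' hk ih =>
    intro W hW hWinv
    have hX : C ⊔ ⨆ j ∈ S', U j ≤ LinearMap.ker (P k) :=
      sup_le (hP3 k) (iSup₂_le fun j hj => hP4 k j (ne_of_mem_of_not_mem hj hk))
    have h1 : W ⊓ LinearMap.ker (P k) ≤ C ⊔ ⨆ j ∈ S', U j := by
      rintro x ⟨hxW, hxk⟩
      have hx := hW hxW
      rw [Finset.iSup_insert, sup_left_comm, Submodule.mem_sup] at hx
      obtain ⟨z, hz, y, hy, rfl⟩ := hx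
      have hxk' : P k (z + y) = 0 := hxk
      have hy0 : P k y = 0 := hX hy
      rw [map_add, hy0, add_zero, hP2 k z hz] at hxk'
      rw [hxk', zero_add]
      exact hy
    have h2 : (W ⊓ LinearMap.ker (P k)).map f ≤ W ⊓ LinearMap.ker (P k) := by
      rintro _ ⟨x, ⟨hxW, hxk⟩, rfl⟩
      refine ⟨hWinv (Submodule.mem_map_of_mem hxW), ?_⟩
      have hxk' : P k x = 0 := hxk
      show P k (f x) = 0
      rw [hP5, hxk', map_zero]
    obtain ⟨c, d, hcd, hc⟩ := ih _ h1 h2
    have h3 : W.map (P k) ≤ U k := by
      rintro _ ⟨x, _, rfl⟩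
      exact hP1 k x
    have h4 : (W.map (P k)).map f ≤ W.map (P k) := by
      rintro _ ⟨_, ⟨x, hxW, rfl⟩, rfl⟩
      exact ⟨f x, hWinv (Submodule.mem_map_of_mem hxW), hP5 k x⟩
    have h5 := finrank_map_add_inf_ker (P k) W
    rcases hUirr k _ h3 h4 with h6 | h6
    · rw [h6, finrank_bot, zero_add] at h5
      exact ⟨c, d, by rw [← h5, hcd], hc⟩
    · rw [h6, hUdim k] at h5
      exact ⟨c, d + 1, by rw [← h5, hcd]; ring, hc⟩

/-- the dimension of a partial sum -/
theorem finrank_partial
    (hUdim : ∀ j, Module.finrank F (U j) = a)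
    (hP2 : ∀ k, ∀ x ∈ U k, P k x = x) (hP3 : ∀ k, C ≤ LinearMap.ker (P k))
    (hP4 : ∀ k j, j ≠ k → U j ≤ LinearMap.ker (P k)) :
    ∀ (S : Finset ι) (C' : Submodule F V), C' ≤ C →
      Module.finrank F (C' ⊔ ⨆ j ∈ S, U j : Submodule F V) = Module.finrank F C' + S.card * a := by
  intro S
  induction S using Finset.induction_on with
  | empty =>
    intro C' _
    have h0 : (C' ⊔ ⨆ j ∈ (∅ : Finset ι), U j) = C' := by simp
    rw [h0, Finset.card_empty, zero_mul, add_zero]
  | insert k S' hk ih =>
    intro C' hC'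
    have hX : C' ⊔ ⨆ j ∈ S', U j ≤ LinearMap.ker (P k) :=
      sup_le (hC'.trans (hP3 k)) (iSup₂_le fun j hj => hP4 k j (ne_of_mem_of_not_mem hj hk))
    have hdisj : (C' ⊔ ⨆ j ∈ S', U j) ⊓ U k = ⊥ := by
      rw [eq_bot_iff]
      rintro x ⟨hx1, hx2⟩
      have h0 : P k x = 0 := hX hx1
      rw [hP2 k x hx2] at h0
      rw [h0]
      exact Submodule.zero_mem _
    have h1 := Submodule.finrank_sup_add_finrank_inf_eq (C' ⊔ ⨆ j ∈ S', U j) (U k)
    rw [hdisj, finrank_bot, add_zero, ih C' hC', hUdim k] at h1
    rw [Finset.iSup_insert, sup_left_comm, sup_comm (U k), h1, Finset.card_insert_of_notMem hk]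
    ring

end aux

/-- Which dimensions of invariant subspaces a semisimple linear map has. Let `V` be a finite-dimensional vector space over a field `F` and `f` an invertible semisimple linear map of `V`. Suppose `V` is the internal direct sum of the fixed space `C_V(f)` (the eigenspace for 1) and subspaces `U_1, …, U_s`, each `f`-invariant of dimension `a ≥ 1` on which `f` acts irreducibly (no `f`-invariant subspaces other than 0 and `U_j`). Let `0 < m < dim V` and `ℓ = m mod a`. Then `f` leaves some `m`-dimensional subspace invariant if and only if `dim C_V(f) ≥ m`, or `a ≤ m` and `dim C_V(f) ≥ ℓ`. -/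
theorem result {F V : Type*} [Field F] [AddCommGroup V] [Module F V]
    [FiniteDimensional F V] (f : V →ₗ[F] V) (hf : Function.Bijective f) (hss : Module.End.IsSemisimple f)
    {s a : ℕ} (ha : 1 ≤ a) (U : Fin s → Submodule F V)
    (hUinv : ∀ j, (U j).map f ≤ U j) (hUdim : ∀ j, Module.finrank F ↥(U j) = a)
    (hUirr : ∀ j, ∀ W : Submodule F V, W ≤ U j → W.map f ≤ W → W = ⊥ ∨ W = U j)
    (hdec : DirectSum.IsInternal (fun o : Option (Fin s) => o.elim (Module.End.eigenspace f 1) U))
    (m : ℕ) (hm : 0 < m) (hmV : m < Module.finrank F V) :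
    (∃ W : Submodule F V, Module.finrank F ↥W = m ∧ W.map f ≤ W) ↔
    (m ≤ Module.finrank F ↥(Module.End.eigenspace f 1) ∨
      (a ≤ m ∧ m % a ≤ Module.finrank F ↥(Module.End.eigenspace f 1))) := by
  classical
  set C : Submodule F V := Module.End.eigenspace f 1 with hC
  set A : Option (Fin s) → Submodule F V := fun o => o.elim C U with hA
  have hind : iSupIndep A := hdec.submodule_iSupIndep
  have htop : iSup A = ⊤ := hdec.submodule_iSup_eq_top
  have hCfix : ∀ x ∈ C, f x = x := by
    intro x hx
    rw [hC, Module.End.mem_eigenspace_iff, one_smul] at hx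
    exact hx
  have hAinv : ∀ o, ∀ x ∈ A o, f x ∈ A o := by
    intro o x hx
    cases o with
    | none =>
      have hx' : x ∈ C := hx
      rw [hCfix x hx']; exact hx
    | some j => exact hUinv j (Submodule.mem_map_of_mem hx)
  let Q : Fin s → Submodule F V := fun k => ⨆ (o : Option (Fin s)) (_ : o ≠ some k), A o
  have hcompl : ∀ k, IsCompl (U k) (Q k) := by
    intro k
    refine ⟨hind (some k), ?_⟩
    rw [codisjoint_iff, eq_top_iff, ← htop]
    apply iSup_le
    intro o
    by_cases ho : o = some k
    · subst ho; exact le_sup_left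
    · exact le_sup_of_le_right (le_iSup₂ (f := fun (o : Option (Fin s)) (_ : o ≠ some k) => A o) o ho)
  have hQinv : ∀ k, ∀ z ∈ Q k, f z ∈ Q k := by
    intro k
    have : Q k ≤ (Q k).comap f := by
      apply iSup₂_le
      intro o ho x hx
      exact (le_iSup₂ (f := fun (o : Option (Fin s)) (_ : o ≠ some k) => A o) o ho) (hAinv o x hx)
    exact fun z hz => this hz
  let P : Fin s → V →ₗ[F] V := fun k => (U k).projection (Q k) (hcompl k)
  have hP1 : ∀ k x, P k x ∈ U k := fun k x => Submodule.projection_apply_mem (hcompl k) x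
  have hP2 : ∀ k, ∀ x ∈ U k, P k x = x := fun k x hx => Submodule.projection_apply_of_mem_left (hcompl k) hx
  have hker : ∀ k, LinearMap.ker (P k) = Q k := fun k => Submodule.ker_projection (hcompl k)
  have hP3 : ∀ k, C ≤ LinearMap.ker (P k) := by
    intro k
    rw [hker]
    exact le_iSup₂ (f := fun (o : Option (Fin s)) (_ : o ≠ some k) => A o) none (by simp)
  have hP4 : ∀ k j, j ≠ k → U j ≤ LinearMap.ker (P k) := by
    intro k j hjk
    rw [hker]
    exact le_iSup₂ (f := fun (o : Option (Fin s)) (_ : o ≠ some k) => A o) (some j) (by simpa using hjk)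
  have hP5 : ∀ k x, P k (f x) = f (P k x) := by
    intro k x
    have hz : x - P k x ∈ Q k := Submodule.sub_projection_mem (hcompl k) x
    have hx : x = P k x + (x - P k x) := by abel
    have h1 : P k (f (P k x)) = f (P k x) := hP2 k _ (hUinv k (Submodule.mem_map_of_mem (hP1 k x)))
    have h2 : P k (f (x - P k x)) = 0 := by
      have := hQinv k _ hz
      rw [← hker k] at this
      exact this
    calc P k (f x) = P k (f (P k x + (x - P k x))) := by rw [← hx]
      _ = f (P k x) := by rw [map_add, map_add, h1, h2, add_zero]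
  have hV : (⊤ : Submodule F V) = C ⊔ ⨆ j ∈ (Finset.univ : Finset (Fin s)), U j := by
    rw [← htop, iSup_option]
    simp
  have hdimV : Module.finrank F V = Module.finrank F C + s * a := by
    have h1 := finrank_partial C U P a hUdim hP2 hP3 hP4 Finset.univ C le_rfl
    rw [← hV, finrank_top, Finset.card_univ, Fintype.card_fin] at h1
    exact h1
  constructor
  · rintro ⟨W, hWm, hWinv⟩
    obtain ⟨c, d, hcd, hc⟩ := dim_of_invariant f C U P a hUdim hUirr hP1 hP2 hP3 hP4 hP5 Finset.univ W
      (by rw [← hV]; exact le_top) hWinv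
    rw [hWm] at hcd
    rcases Nat.eq_zero_or_pos d with hd | hd
    · left
      rw [hcd, hd, zero_mul, add_zero]; exact hc
    · right
      constructor
      · rw [hcd]
        exact le_add_left (Nat.le_mul_of_pos_left a hd)
      · rw [hcd, Nat.add_mul_mod_self_right]
        exact (Nat.mod_le c a).trans hc
  · intro h
    -- find c ≤ dim C and d ≤ s with m = c + d * a
    obtain ⟨c, d, hc, hd, hcd⟩ : ∃ c d, c ≤ Module.finrank F C ∧ d ≤ s ∧ m = c + d * a := by
      rcases h with h | ⟨h1, h2⟩
      · exact ⟨m, 0, h, Nat.zero_le _, by simp⟩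
      · by_cases hms : m / a ≤ s
        · refine ⟨m % a, m / a, h2, hms, ?_⟩
          rw [mul_comm]
          exact (Nat.mod_add_div m a).symm
        · refine ⟨m - s * a, s, ?_, le_rfl, ?_⟩
          · omega
          · have h3 : s * a ≤ m := by
              have h4 : s ≤ m / a := by omega
              calc s * a ≤ (m / a) * a := Nat.mul_le_mul_right a h4
                _ ≤ m := Nat.div_mul_le_self m a
            omega
    obtain ⟨C', hC'le, hC'dim⟩ := exists_le_finrank_eq C c hc
    obtain ⟨S, -, hScard⟩ := Finset.exists_subset_card_eq (s := (Finset.univ : Finset (Fin s))) (n := d)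
      (by rw [Finset.card_univ, Fintype.card_fin]; exact hd)
    refine ⟨C' ⊔ ⨆ j ∈ S, U j, ?_, ?_⟩
    · rw [finrank_partial C U P a hUdim hP2 hP3 hP4 S C' hC'le, hC'dim, hScard, hcd]
    · rw [Submodule.map_le_iff_le_comap]
      apply sup_le
      · intro x hx
        rw [Submodule.mem_comap, hCfix x (hC'le hx)]
        exact (le_sup_left : C' ≤ C' ⊔ ⨆ j ∈ S, U j) hx
      · apply iSup₂_le
        intro j hj x hx
        rw [Submodule.mem_comap]
        exact (le_sup_of_le_right (le_iSup₂ (f := fun (j : Fin s) (_ : j ∈ S) => U j) j hj) :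
          U j ≤ C' ⊔ ⨆ j ∈ S, U j) (hUinv j (Submodule.mem_map_of_mem hx))

end Cfsg.Agent.S5952
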