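import Cfsg.Statements.S5956
import Cfsg.Agent.Helper13.TKMain

set_option autoImplicit false
open scoped MatrixGroups
open Cfsg

namespace Cfsg.Agent.S5956

/-- Elements of prime order of PSp_n(q) with no fixed nondegenerate `m`-space. Here `T = PSp_n(q)` with `n = 2d ≥ 4`, `(n, q) ≠ (4, 2)`, realised through the symplectic matrices over the field `F` with `q` elements (preserving the standard alternating form); an element of `T` of prime order `r` is such a matrix `x` with `x^r` scalar and `x` not scalar. For `r ≠ p` let `i` be the multiplicative order of `q` modulo `r`, `c = i` for `i` even and `c = 2i` for `i` odd, and write `k = n mod c`, `ℓ = m mod i`, `ℓ' = m mod c`, `n' = ⌊n/i⌋`, `m' = ⌊m/i⌋`, `t = (r−1)/i`. Let `m` be even with `2 ≤ m < n/2` and let `r` be a prime dividing the number of nondegenerate `m`-spaces. Then every element of `T` of order `r` fixes a nondegenerate `m`-space if and only if one of: (i) `r = p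 > 2` and every partition of `n` into parts of size at most `p` in which every odd part has even multiplicity contains (as a sub-multiset) a partition of `m` in which every odd part has even multiplicity; (ii) `r = p = 2` and (`n ≡ 2 (mod 4)` or `m ≡ 0 (mod 4)`); (iii) `r = 2 ≠ p`; (iv) `r ≠ p`, `r > 2`, `c ≤ m` and `k ≥ ℓ'`. -/
theorem result {F : Type*} [Field F] [Fintype F] {p : ℕ} [Fact p.Prime] [CharP F p] {q : ℕ} (hq : Fintype.card F = q)
    (d m : ℕ) (hd : 2 ≤ d) (hT : (d, q) ≠ (2, 2)) (hm : 2 ≤ m) (hme : Even m) (hmd : m < d)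
    (r : ℕ) [Fact r.Prime]
    (hrΩ : r ∣ Nat.card {W : Submodule F (Fin d ⊕ Fin d → F) // Module.finrank F ↥W = m ∧ (∀ u ∈ W, u ≠ 0 → ∃ v ∈ W, Cfsg.sympForm d F u v ≠ 0)})
    (i c : ℕ) (hi : i = orderOf (q : ZMod r)) (hc : c = if Even i then i else 2 * i) :
    (∀ x : ↥(Matrix.symplecticGroup (Fin d) F),
      (∃ z : F, ((x ^ r : ↥(Matrix.symplecticGroup (Fin d) F)) : Matrix (Fin d ⊕ Fin d) (Fin d ⊕ Fin d) F) = z • (1 : Matrix (Fin d ⊕ Fin d) (Fin d ⊕ Fin d) F)) →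
      (∀ z : F, (x : Matrix (Fin d ⊕ Fin d) (Fin d ⊕ Fin d) F) ≠ z • (1 : Matrix (Fin d ⊕ Fin d) (Fin d ⊕ Fin d) F)) →
      ∃ W : Submodule F (Fin d ⊕ Fin d → F), Module.finrank F ↥W = m ∧ (∀ u ∈ W, u ≠ 0 → ∃ v ∈ W, Cfsg.sympForm d F u v ≠ 0) ∧
        W.map (Matrix.toLin' (x : Matrix (Fin d ⊕ Fin d) (Fin d ⊕ Fin d) F)) ≤ W) ↔
    ((r = p ∧ 2 < p ∧ (∀ μ : Multiset ℕ, (∀ a ∈ μ, 0 < a ∧ a ≤ p) → (∀ a : ℕ, Odd a → Even (μ.count a)) → μ.sum = 2 * d →
        ∃ ν : Multiset ℕ, ν ≤ μ ∧ ν.sum = m ∧ ∀ a : ℕ, Odd a → Even (ν.count a))) ∨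
     (r = p ∧ p = 2 ∧ ((2 * d) % 4 = 2 ∨ m % 4 = 0)) ∨
     (r = 2 ∧ p ≠ 2) ∨
     (r ≠ p ∧ 2 < r ∧ c ≤ m ∧ m % c ≤ (2 * d) % c)) := by
  subst hq
  have hd1 : 1 ≤ d := by omega
  have hrpr : r.Prime := Fact.out
  have hppr : p.Prime := Fact.out
  have hLiff : (∀ x : ↥(Matrix.symplecticGroup (Fin d) F),
      (∃ z : F, ((x ^ r : ↥(Matrix.symplecticGroup (Fin d) F)) : Matrix (Fin d ⊕ Fin d) (Fin d ⊕ Fin d) F) = z • (1 : Matrix (Fin d ⊕ Fin d) (Fin d ⊕ Fin d) F)) →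
      (∀ z : F, (x : Matrix (Fin d ⊕ Fin d) (Fin d ⊕ Fin d) F) ≠ z • (1 : Matrix (Fin d ⊕ Fin d) (Fin d ⊕ Fin d) F)) →
      ∃ W : Submodule F (Fin d ⊕ Fin d → F), Module.finrank F ↥W = m ∧ (∀ u ∈ W, u ≠ 0 → ∃ v ∈ W, Cfsg.sympForm d F u v ≠ 0) ∧
        W.map (Matrix.toLin' (x : Matrix (Fin d ⊕ Fin d) (Fin d ⊕ Fin d) F)) ≤ W) ↔
      (∀ x : ↥(Matrix.symplecticGroup (Fin d) F),
      (∃ z : F, ((x ^ r : ↥(Matrix.symplecticGroup (Fin d) F)) : Matrix (Fin d ⊕ Fin d) (Fin d ⊕ Fin d) F) = z • (1 : Matrix (Fin d ⊕ Fin d) (Fin d ⊕ Fin d) F)) →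
      (∀ z : F, (x : Matrix (Fin d ⊕ Fin d) (Fin d ⊕ Fin d) F) ≠ z • (1 : Matrix (Fin d ⊕ Fin d) (Fin d ⊕ Fin d) F)) →
      ∃ W : Submodule F (Fin d ⊕ Fin d → F), Module.finrank F ↥W = m ∧
        Cfsg.Agent.Helper13.TIsp.NondegOn (Cfsg.Agent.Helper42.SpForm.stdForm d) W ∧
        W.map (Cfsg.Agent.Helper42.SpGroup.toEnd x) ≤ W) := by
    apply forall_congr'
    intro x
    apply imp_congr Iff.rfl
    apply imp_congr Iff.rfl
    apply exists_congr
    intro W
    rw [Cfsg.Agent.Helper13.TIsp.nd_iff]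
    rfl
  rw [hLiff]
  constructor
  · intro hL
    by_cases hrp : r = p
    · subst hrp
      by_cases hp2 : r = 2
      · right; left
        refine ⟨rfl, hp2, ?_⟩
        subst hp2
        have h2 : (2 : F) = 0 := by exact_mod_cast CharP.cast_eq_zero F 2
        exact Cfsg.Agent.Helper13.TIsp.b_fwd d m hd hme h2 hL
      · left
        have hp2' : 2 < r := lt_of_le_of_ne hrpr.two_le (Ne.symm hp2)
        exact ⟨rfl, hp2', fun μ hμ hodd hsum =>
          Cfsg.Agent.Helper13.TIsp.p_fwd r hp2' d m hd1 hme (by omega) hL μ hμ hodd hsum⟩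
    · by_cases hr2 : r = 2
      · right; right; left
        exact ⟨hr2, fun h => hrp (by rw [hr2, h])⟩
      · right; right; right
        have hr2' : 2 < r := lt_of_le_of_ne hrpr.two_le (Ne.symm hr2)
        have hΩ' : r ∣ Nat.card {W : Submodule F (Fin d ⊕ Fin d → F) //
            Module.finrank F W = m ∧
              Cfsg.Agent.Helper13.TIsp.NondegOn (Cfsg.Agent.Helper42.SpForm.stdForm d) W} := by
          have h3 : Nat.card {W : Submodule F (Fin d ⊕ Fin d → F) //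
              Module.finrank F W = m ∧
                Cfsg.Agent.Helper13.TIsp.NondegOn (Cfsg.Agent.Helper42.SpForm.stdForm d) W} =
              Nat.card {W : Submodule F (Fin d ⊕ Fin d → F) // Module.finrank F ↥W = m ∧
                (∀ u ∈ W, u ≠ 0 → ∃ v ∈ W, Cfsg.sympForm d F u v ≠ 0)} := by
            apply Nat.card_congr
            apply Equiv.subtypeEquivRight
            intro W
            exact and_congr Iff.rfl (Cfsg.Agent.Helper13.TIsp.nd_iff d W)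
          rw [h3]
          exact hrΩ
        obtain ⟨h1, h2⟩ := Cfsg.Agent.Helper13.TIsp.d_fwd p d m hd1 hme (by omega) r hr2' hrp hΩ'
          i c hi hc hL
        exact ⟨hrp, hr2', h1, h2⟩
  · rintro (⟨hrp, hp2, hPC⟩ | ⟨hrp, hp2, hcond⟩ | ⟨hr2, hp2⟩ | ⟨hrp, hr2, hcm, hk⟩) x ⟨z, hz⟩ -
    · subst hrp
      exact Cfsg.Agent.Helper13.TIsp.p_back r hp2 d m hd1 hPC x z hz
    · subst hrp
      subst hp2
      have h2 : (2 : F) = 0 := by exact_mod_cast CharP.cast_eq_zero F 2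
      exact Cfsg.Agent.Helper13.TIsp.b_back d m hd1 hme (by omega) h2 hcond x z hz
    · subst hr2
      have h2 : (2 : F) ≠ 0 := by
        intro h
        have h3 : ((2 : ℕ) : F) = 0 := by exact_mod_cast h
        have h4 := (CharP.cast_eq_zero_iff F p 2).mp h3
        exact hp2 ((Nat.prime_dvd_prime_iff_eq hppr Nat.prime_two).mp h4)
      exact Cfsg.Agent.Helper13.TIsp.c_back d m hd1 hme (by omega) h2 x z hz
    · exact Cfsg.Agent.Helper13.TIsp.d_back p d m hd1 hme (by omega) r hr2 hrp i c hi hc hcm hk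
        x z hz

end Cfsg.Agent.S5956
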