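import Cfsg.Statements.S5958
import Cfsg.Agent.Helper90.IMMain

set_option autoImplicit false
open scoped MatrixGroups
open Cfsg

namespace Cfsg.Agent.S5958

/-- Elements of odd prime order of PSL_n(q) and imprimitive subgroups. Here `T = PSL_n(F)` for a field `F` with `q = p^f` elements (`n ≥ 2`, `(n, q) ≠ (2, 2), (2, 3)`), `n = a·t` with `t ≥ 2`, and Ω is the set of direct-sum decompositions of `F^n` into `t` subspaces of dimension `a` (unordered; their number is the number of ordered ones divided by `t!`), whose stabilizers are the imprimitive subgroups of type GL_a(q) ≀ S_t (maximal except in some small cases; maximality is not assumed); an element of `T` of prime order `r` (a matrix `x` of determinant 1 with `x^r` scalar, `x` not scalar) fixes a point of Ω when it permutes the summands of some such decomposition. Let `r ≠ p` be an odd prime dividing the number of such decompositions, let `c` be the multiplicative order of `q` modulo `r`, and write `k = n mod c`, `ℓ = a mod c`. Then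 every element of `T` of order `r` stabilizes such a decomposition if and only if either `a = 1`, `c = r − 1 > 1` and `n ≤ k·r`, or `c ≤ a` and `k = t·ℓ`. -/
theorem result {F : Type*} [Field F] [Fintype F] {p : ℕ} [Fact p.Prime] [CharP F p] {q : ℕ} (hq : Fintype.card F = q)
    (n a t : ℕ) (hn : 2 ≤ n) (hT : (n, q) ≠ (2, 2) ∧ (n, q) ≠ (2, 3)) (hat : n = a * t) (ha : 1 ≤ a) (ht : 2 ≤ t)
    (r : ℕ) [Fact r.Prime] (hr2 : r ≠ 2) (hrp : r ≠ p) (hΩ : r ∣ Nat.card {D : Fin t → Submodule F (Fin n → F) // Cfsg.Geo.IsMDecomposition a D} / Nat.factorial t)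
    (c : ℕ) (hc : c = orderOf (q : ZMod r)) :
    (∀ x : Matrix.SpecialLinearGroup (Fin n) F,
      (∃ z : F, ((x ^ r : Matrix.SpecialLinearGroup (Fin n) F) : Matrix (Fin n) (Fin n) F) = z • (1 : Matrix (Fin n) (Fin n) F)) →
      (∀ z : F, (x : Matrix (Fin n) (Fin n) F) ≠ z • (1 : Matrix (Fin n) (Fin n) F)) →
      ∃ D : Fin t → Submodule F (Fin n → F), Cfsg.Geo.IsMDecomposition a D ∧
        ∃ σ : Equiv.Perm (Fin t), ∀ j, (D j).map (Matrix.toLin' (x : Matrix (Fin n) (Fin n) F)) = D (σ j)) ↔
    ((a = 1 ∧ 1 < c ∧ c = r - 1 ∧ n ≤ (n % c) * r) ∨ (c ≤ a ∧ n % c = t * (a % c))) := by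
  classical
  subst hq
  subst hc
  have hpowlin : ∀ (A : Matrix (Fin n) (Fin n) F) (k : ℕ),
      (Matrix.toLin' A) ^ k = Matrix.toLin' (A ^ k) := by
    intro A k
    induction k with
    | zero => rw [pow_zero, pow_zero, Matrix.toLin'_one]; rfl
    | succ k ih => rw [pow_succ, pow_succ, ih, Matrix.toLin'_mul]; rfl
  constructor
  · intro hL
    exact Cfsg.Agent.Helper90.IM.im_nec p r hr2 hrp n a t hat ha ht hΩ (fun x hx1 hxns => by
      obtain ⟨D, hD, σ, hσ⟩ := hL x ⟨1, by rw [hx1, one_smul]⟩ hxns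
      exact ⟨D, σ, hD.finrank_eq, hD.indep, hD.iSup_eq_top, hσ⟩)
  · intro hR x hx hxns
    obtain ⟨z, hxz⟩ := hx
    have hx' : (x : Matrix (Fin n) (Fin n) F) ^ r = z • (1 : Matrix (Fin n) (Fin n) F) := by
      rw [← hxz, Matrix.SpecialLinearGroup.coe_pow]
    have hz0 : z ≠ 0 := by
      rintro rfl
      have : Nonempty (Fin n) := ⟨⟨0, by omega⟩⟩
      have h1 := congrArg Matrix.det hx'
      rw [Matrix.det_pow, x.det_coe, one_pow, zero_smul, Matrix.det_zero] at h1
      exact one_ne_zero h1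
    have hfr : (Matrix.toLin' (x : Matrix (Fin n) (Fin n) F)) ^ r
        = z • (1 : Module.End F (Fin n → F)) := by
      rw [hpowlin, hx', map_smul, Matrix.toLin'_one]; rfl
    obtain ⟨D, σ, hD⟩ := Cfsg.Agent.Helper90.IM.im_exists p r hrp
      (Matrix.toLin' (x : Matrix (Fin n) (Fin n) F)) z hz0 hfr a t ha
      (by rw [Module.finrank_fin_fun, hat]) (by rw [← hat]; exact hR)
    exact ⟨D, ⟨ht, ha, hD.1, hD.2.1, hD.2.2.1⟩, σ, hD.2.2.2⟩

end Cfsg.Agent.S5958
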