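import Cfsg.Statements.S5959
import Cfsg.Agent.Helper99.JordanC

set_option autoImplicit false
open scoped MatrixGroups
open Cfsg

namespace Cfsg.Agent.S5959

/-- Elements of order `p` of PSL_n(q) and imprimitive subgroups: a necessary condition. Here `T = PSL_n(F)` for a field `F` with `q = p^f` elements (`n ≥ 2`, `(n, q) ≠ (2, 2), (2, 3)`), `n = a·t` with `t ≥ 2`, and Ω is the set of direct-sum decompositions of `F^n` into `t` subspaces of dimension `a` (unordered; their number is the number of ordered ones divided by `t!`), whose stabilizers are the imprimitive subgroups of type GL_a(q) ≀ S_t (maximal except in some small cases; maximality is not assumed); an element of `T` of prime order `r` (a matrix `x` of determinant 1 with `x^r` scalar, `x` not scalar) fixes a point of Ω when it permutes the summands of some such decomposition. Suppose `p > 2` divides the number of such decompositions. If every element of `T` of order `p` stabilizes such a decomposition, then every partition of `n` into parts of size at most `p` in which the part `p`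 occurs fewer than `a` times contains (as a sub-multiset) a partition of `a`. -/
theorem result {F : Type*} [Field F] [Fintype F] {p : ℕ} [Fact p.Prime] [CharP F p] {q : ℕ} (hq : Fintype.card F = q)
    (n a t : ℕ) (hn : 2 ≤ n) (hT : (n, q) ≠ (2, 2) ∧ (n, q) ≠ (2, 3)) (hat : n = a * t) (ha : 1 ≤ a) (ht : 2 ≤ t)
    (hp : 2 < p) (hΩ : p ∣ Nat.card {D : Fin t → Submodule F (Fin n → F) // Cfsg.Geo.IsMDecomposition a D} / Nat.factorial t)
    (h : ∀ x : Matrix.SpecialLinearGroup (Fin n) F,
      (∃ z : F, ((x ^ p : Matrix.SpecialLinearGroup (Fin n) F) : Matrix (Fin n) (Fin n) F) = z • (1 : Matrix (Fin n) (Fin n) F)) →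
      (∀ z : F, (x : Matrix (Fin n) (Fin n) F) ≠ z • (1 : Matrix (Fin n) (Fin n) F)) →
      ∃ D : Fin t → Submodule F (Fin n → F), Cfsg.Geo.IsMDecomposition a D ∧
        ∃ σ : Equiv.Perm (Fin t), ∀ j, (D j).map (Matrix.toLin' (x : Matrix (Fin n) (Fin n) F)) = D (σ j)) :
    (∀ μ : Multiset ℕ, (∀ b ∈ μ, 0 < b ∧ b ≤ p) → μ.sum = n → μ.count p < a → ∃ ν : Multiset ℕ, ν ≤ μ ∧ ν.sum = a) := by
  intro μ hμ hsum hcount
  by_cases hall : ∀ b ∈ μ, b = 1
  · have hμ1 : μ = Multiset.replicate (Multiset.card μ) 1 := Multiset.eq_replicate_card.mpr hall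
    have hcard : Multiset.card μ = n := by
      rw [hμ1, Multiset.sum_replicate] at hsum
      simpa using hsum
    refine ⟨Multiset.replicate a 1, ?_, by simp⟩
    rw [hμ1, hcard, Multiset.replicate_le_replicate]
    nlinarith
  · obtain ⟨x, hxp, hker⟩ := Cfsg.Agent.Helper99.exists_unipotent_of_multiset (F := F) (p := p) n
      (by omega) μ (fun b hb => (hμ b hb).2) hsum
    have hns : ∀ z : F, (x : Matrix (Fin n) (Fin n) F) ≠ z • (1 : Matrix (Fin n) (Fin n) F) := by
      intro z hz
      apply hall
      have hlin : Matrix.toLin' (x : Matrix (Fin n) (Fin n) F) - 1 =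
          (z - 1) • (1 : Module.End F (Fin n → F)) := by
        rw [hz, map_smul, Matrix.toLin'_one, ← Module.End.one_eq_id]
        ext v i
        simp [sub_mul]
      have hz1 : z = 1 := by
        have h1 : (z • (1 : Matrix (Fin n) (Fin n) F)) ^ p = 1 := by rw [← hz]; exact hxp
        rw [smul_pow, one_pow] at h1
        have h2 : z ^ p = 1 := by
          have := congrFun (congrFun h1 ⟨0, by omega⟩) ⟨0, by omega⟩
          simpa using this
        have h3 : (z - 1) ^ p = 0 := by rw [sub_pow_char, h2, one_pow, sub_self]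
        exact sub_eq_zero.mp ((pow_eq_zero_iff (Fact.out : p.Prime).ne_zero).mp h3)
      have hk1 := hker 1
      rw [hlin, hz1, sub_self, zero_smul, pow_one, LinearMap.ker_zero, finrank_top,
        Module.finrank_fintype_fun_eq_card, Fintype.card_fin,
        Cfsg.Agent.Helper99.minsum_one μ (fun b hb => (hμ b hb).1)] at hk1
      exact Cfsg.Agent.Helper99.all_one_of_card_eq_sum μ (fun b hb => (hμ b hb).1)
        (by rw [hsum, hk1])
    obtain ⟨D, hD, σ, hσ⟩ := h x
      ⟨1, by rw [Matrix.SpecialLinearGroup.coe_pow, hxp, one_smul]⟩ hns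
    have hup : (Matrix.toLin' (x : Matrix (Fin n) (Fin n) F)) ^ p = 1 := by
      rw [← Matrix.toLin'_pow, hxp, Matrix.toLin'_one, Module.End.one_eq_id]
    exact Cfsg.Agent.Helper99.decomposition_sub_partition _ hup D hD σ hσ μ
      (fun b hb => (hμ b hb).2) hsum hcount hker

end Cfsg.Agent.S5959
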