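import Cfsg.Statements.S5961
import Cfsg.Agent.Helper13.TJMain

set_option autoImplicit false
open scoped MatrixGroups
open Cfsg

namespace Cfsg.Agent.S5961

/-- Elements of odd prime order of PSp_n(q) and imprimitive subgroups. Here `T = PSp_n(q)`, `n = 2d ≥ 4`, `(n, q) ≠ (4, 2)`, realised through the symplectic matrices over the field `F` with `q` elements and the standard alternating form; `n = a·t` with `a` even and `t ≥ 2`, and Ω is the (nonempty) set of orthogonal decompositions of `F^n` into `t` nondegenerate subspaces of dimension `a` (unordered; counted as ordered ones divided by `t!`), whose stabilizers are the imprimitive subgroups of type Sp_a(q) ≀ S_t (maximality is not assumed); an element of `T` of prime order `r` (a symplectic matrix `x` with `x^r` scalar, `x` not scalar) fixes a point of Ω when it permutes the summands of some such decomposition. Let `r ≠ p` be an odd prime dividing the number of such decompositions, let `i` be the multiplicative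 order of `q` modulo `r`, `c = i` if `i` is even and `c = 2i` if `i` is odd, and write `k = n mod c`, `ℓ = a mod c`. Then every element of `T` of order `r` stabilizes such a decomposition if and only if `c ≤ a` and `k = t·ℓ`. -/
theorem result {F : Type*} [Field F] [Fintype F] {p : ℕ} [Fact p.Prime] [CharP F p] {q : ℕ} (hq : Fintype.card F = q)
    (d : ℕ) (hd : 2 ≤ d) (hT : (d, q) ≠ (2, 2))
    (a t : ℕ) (hat : 2 * d = a * t) (ha : 2 ≤ a) (hae : Even a) (ht : 2 ≤ t)
    (r : ℕ) [Fact r.Prime] (hr2 : r ≠ 2) (hrp : r ≠ p) (hΩ : r ∣ Nat.card {D : Fin t → Submodule F (Fin d ⊕ Fin d → F) // (Cfsg.Geo.IsMDecomposition a D ∧ (∀ j, ∀ u ∈ D j, u ≠ 0 → ∃ v ∈ D j, Cfsg.sympForm d F u v ≠ 0) ∧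
          (∀ j j', j ≠ j' → ∀ u ∈ D j, ∀ v ∈ D j', Cfsg.sympForm d F u v = 0))} / Nat.factorial t)
    (i c : ℕ) (hi : i = orderOf (q : ZMod r)) (hc : c = if Even i then i else 2 * i) :
    (∀ x : ↥(Matrix.symplecticGroup (Fin d) F),
      (∃ z : F, ((x ^ r : ↥(Matrix.symplecticGroup (Fin d) F)) : Matrix (Fin d ⊕ Fin d) (Fin d ⊕ Fin d) F) = z • (1 : Matrix (Fin d ⊕ Fin d) (Fin d ⊕ Fin d) F)) →
      (∀ z : F, (x : Matrix (Fin d ⊕ Fin d) (Fin d ⊕ Fin d) F) ≠ z • (1 : Matrix (Fin d ⊕ Fin d) (Fin d ⊕ Fin d) F)) →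
      ∃ D : Fin t → Submodule F (Fin d ⊕ Fin d → F), (Cfsg.Geo.IsMDecomposition a D ∧ (∀ j, ∀ u ∈ D j, u ≠ 0 → ∃ v ∈ D j, Cfsg.sympForm d F u v ≠ 0) ∧
          (∀ j j', j ≠ j' → ∀ u ∈ D j, ∀ v ∈ D j', Cfsg.sympForm d F u v = 0)) ∧
        ∃ σ : Equiv.Perm (Fin t), ∀ j, (D j).map (Matrix.toLin' (x : Matrix (Fin d ⊕ Fin d) (Fin d ⊕ Fin d) F)) = D (σ j)) ↔
    (c ≤ a ∧ (2 * d) % c = t * (a % c)) := by
  subst hq
  have hd1 : 1 ≤ d := by omega
  constructor
  · intro hL
    exact Cfsg.Agent.Helper13.TIsp.dec_fwd p d a t hd1 hat ha hae ht r hr2 hrp hΩ i c hi hc hL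
  · rintro ⟨-, hk⟩ x ⟨z, hz⟩ -
    exact Cfsg.Agent.Helper13.TIsp.dec_back p d a t hd1 hat ha hae ht r hr2 hrp i c hi hc hk x z hz

end Cfsg.Agent.S5961
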