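import Cfsg.Statements.S5962
import Cfsg.Agent.Helper99.SympBridge

set_option autoImplicit false
open scoped MatrixGroups
open Cfsg

namespace Cfsg.Agent.S5962

/-- Involutions of PSp_n(q), q odd, and the subgroups GL_{n/2}(q).2. Here `T = PSp_n(q)`, `n = 2d ≥ 4`, `q` odd, realised through the symplectic matrices over the field `F` with `q` elements; Ω is the set of unordered pairs `{U, W}` of complementary totally isotropic `d`-spaces (`F^n = U ⊕ W`), whose stabilizers are the subgroups of type GL_d(q).2 (maximal except in some small cases; maximality is not assumed); an element of `T` of prime order `r` (a symplectic matrix `x` with `x^r` scalar, `x` not scalar) fixes such a pair when it fixes or interchanges `U` and `W`. If the number of such pairs is even, every involution of `T` fixes one of them (the action is 2-elusive). -/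
theorem result {F : Type*} [Field F] [Fintype F] {p : ℕ} [Fact p.Prime] [CharP F p] {q : ℕ} (hq : Fintype.card F = q)
    (d : ℕ) (hd : 2 ≤ d) (hT : (d, q) ≠ (2, 2)) (hodd : Odd q)
    (hΩ : 2 ∣ Nat.card {P : Submodule F (Fin d ⊕ Fin d → F) × Submodule F (Fin d ⊕ Fin d → F) // IsCompl P.1 P.2 ∧ (∀ u ∈ P.1, ∀ v ∈ P.1, Cfsg.sympForm d F u v = 0) ∧ (∀ u ∈ P.2, ∀ v ∈ P.2, Cfsg.sympForm d F u v = 0)} / 2)
    (x : ↥(Matrix.symplecticGroup (Fin d) F))
    (hx1 : ∃ z : F, ((x ^ 2 : ↥(Matrix.symplecticGroup (Fin d) F)) : Matrix (Fin d ⊕ Fin d) (Fin d ⊕ Fin d) F) = z • (1 : Matrix (Fin d ⊕ Fin d) (Fin d ⊕ Fin d) F))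
    (hx2 : ∀ z : F, (x : Matrix (Fin d ⊕ Fin d) (Fin d ⊕ Fin d) F) ≠ z • (1 : Matrix (Fin d ⊕ Fin d) (Fin d ⊕ Fin d) F)) :
    ∃ U W : Submodule F (Fin d ⊕ Fin d → F), IsCompl U W ∧ (∀ u ∈ U, ∀ v ∈ U, Cfsg.sympForm d F u v = 0) ∧ (∀ u ∈ W, ∀ v ∈ W, Cfsg.sympForm d F u v = 0) ∧
        ((U.map (Matrix.toLin' (x : Matrix (Fin d ⊕ Fin d) (Fin d ⊕ Fin d) F)) = U ∧ W.map (Matrix.toLin' (x : Matrix (Fin d ⊕ Fin d) (Fin d ⊕ Fin d) F)) = W) ∨
         (U.map (Matrix.toLin' (x : Matrix (Fin d ⊕ Fin d) (Fin d ⊕ Fin d) F)) = W ∧ W.map (Matrix.toLin' (x : Matrix (Fin d ⊕ Fin d) (Fin d ⊕ Fin d) F)) = U)) := by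
  obtain ⟨z, hz⟩ := hx1
  obtain ⟨hz0, hTT⟩ := Cfsg.Agent.Helper99.symp_sq_data d (by omega) x z hz
  have h2 : (2 : F) ≠ 0 := by
    intro h
    have h3 : ((2 : ℕ) : F) = 0 := by exact_mod_cast h
    have h4 : p ∣ 2 := (CharP.cast_eq_zero_iff F p 2).mp h3
    have h5 : p = 2 := (Nat.prime_dvd_prime_iff_eq (Fact.out : p.Prime) Nat.prime_two).mp h4
    obtain ⟨n, -, hn⟩ := FiniteField.card F p
    rw [hq, h5] at hn
    rw [hn] at hodd
    have h6 : Even (2 ^ (n : ℕ)) := (Nat.even_pow.mpr ⟨even_two, n.pos.ne'⟩)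
    exact (Nat.not_even_iff_odd.mpr hodd) h6
  obtain ⟨U, W, h1, h3, h4, h5⟩ := Cfsg.Agent.Helper99.exists_lagrangian_pair
    (Cfsg.Agent.Helper99.sympB d) (Cfsg.Agent.Helper99.sympB_alt d)
    (Cfsg.Agent.Helper99.sympB_nondeg d)
    (Matrix.toLin' (x : Matrix (Fin d ⊕ Fin d) (Fin d ⊕ Fin d) F)) z hz0
    (Cfsg.Agent.Helper99.sympB_isometry d x.1 x.2) hTT h2
  refine ⟨U, W, h1, ?_, ?_, h5⟩
  · intro u hu v hv
    rw [← Cfsg.Agent.Helper99.sympB_apply]
    exact h3 u hu v hv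
  · intro u hu v hv
    rw [← Cfsg.Agent.Helper99.sympB_apply]
    exact h4 u hu v hv

end Cfsg.Agent.S5962
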