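import Cfsg.Statements.S5963
import Cfsg.Agent.Helper30.BGSpArith
import Cfsg.Agent.Helper30.BGSpTorus

set_option autoImplicit false
open scoped MatrixGroups
open Cfsg

namespace Cfsg.Agent.S5963

/-- Derangements of odd prime order of PSp_n(q), q odd, on pairs of complementary totally isotropic subspaces. Here `T = PSp_n(q)`, `n = 2d ≥ 4`, `q` odd, realised through the symplectic matrices over the field `F` with `q` elements; Ω is the set of unordered pairs `{U, W}` of complementary totally isotropic `d`-spaces (`F^n = U ⊕ W`), whose stabilizers are the subgroups of type GL_d(q).2 (maximal except in some small cases; maximality is not assumed); an element of `T` of prime order `r` (a symplectic matrix `x` with `x^r` scalar, `x` not scalar) fixes such a pair when it fixes or interchanges `U` and `W`. For every odd prime `r ≠ p` dividing the number of such pairs, some element of `T` of order `r` fixes no such pair (the action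 is never `r`-elusive for odd `r ≠ p`). -/
theorem result {F : Type*} [Field F] [Fintype F] {p : ℕ} [Fact p.Prime] [CharP F p] {q : ℕ} (hq : Fintype.card F = q)
    (d : ℕ) (hd : 2 ≤ d) (hT : (d, q) ≠ (2, 2)) (hodd : Odd q)
    (r : ℕ) [Fact r.Prime] (hr2 : r ≠ 2) (hrp : r ≠ p) (hΩ : r ∣ Nat.card {P : Submodule F (Fin d ⊕ Fin d → F) × Submodule F (Fin d ⊕ Fin d → F) // IsCompl P.1 P.2 ∧ (∀ u ∈ P.1, ∀ v ∈ P.1, Cfsg.sympForm d F u v = 0) ∧ (∀ u ∈ P.2, ∀ v ∈ P.2, Cfsg.sympForm d F u v = 0)} / 2) :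
    ∃ x : ↥(Matrix.symplecticGroup (Fin d) F),
      (∃ z : F, ((x ^ r : ↥(Matrix.symplecticGroup (Fin d) F)) : Matrix (Fin d ⊕ Fin d) (Fin d ⊕ Fin d) F) = z • (1 : Matrix (Fin d ⊕ Fin d) (Fin d ⊕ Fin d) F)) ∧
      (∀ z : F, (x : Matrix (Fin d ⊕ Fin d) (Fin d ⊕ Fin d) F) ≠ z • (1 : Matrix (Fin d ⊕ Fin d) (Fin d ⊕ Fin d) F)) ∧
      ¬ (∃ U W : Submodule F (Fin d ⊕ Fin d → F), IsCompl U W ∧ (∀ u ∈ U, ∀ v ∈ U, Cfsg.sympForm d F u v = 0) ∧ (∀ u ∈ W, ∀ v ∈ W, Cfsg.sympForm d F u v = 0) ∧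
        ((U.map (Matrix.toLin' (x : Matrix (Fin d ⊕ Fin d) (Fin d ⊕ Fin d) F)) = U ∧ W.map (Matrix.toLin' (x : Matrix (Fin d ⊕ Fin d) (Fin d ⊕ Fin d) F)) = W) ∨
         (U.map (Matrix.toLin' (x : Matrix (Fin d ⊕ Fin d) (Fin d ⊕ Fin d) F)) = W ∧ W.map (Matrix.toLin' (x : Matrix (Fin d ⊕ Fin d) (Fin d ⊕ Fin d) F)) = U))) := by
  classical
  have hq2 : 2 ≤ Fintype.card F := Fintype.one_lt_card
  have hqodd : Odd (Fintype.card F) := hq ▸ hodd
  obtain ⟨n, hp, hcard⟩ := FiniteField.card F p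
  have h2 : (2 : F) ≠ 0 := by
    intro h
    have h1 : ((2 : ℕ) : F) = 0 := by exact_mod_cast h
    rw [CharP.cast_eq_zero_iff F p] at h1
    have hp2 : p = 2 := (Nat.prime_dvd_prime_iff_eq hp Nat.prime_two).mp h1
    rw [hcard, hp2] at hqodd
    exact (Nat.not_even_iff_odd.mpr hqodd) ((Nat.even_pow.mpr ⟨even_two, n.pos.ne'⟩))
  have hrq : ¬ r ∣ Fintype.card F := by
    intro h
    rw [hcard] at h
    have h1 := (Fact.out : r.Prime).dvd_of_dvd_pow h
    exact hrp ((Nat.prime_dvd_prime_iff_eq Fact.out hp).mp h1)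
  have hN := Cfsg.Agent.Helper30.bgSp_card_pairs (F := F) d
  rw [Cfsg.Agent.Helper5.card_sp] at hN
  obtain ⟨e, he1, hed, hre⟩ := Cfsg.Agent.Helper30.bgSp_exists_exp (Fintype.card F) d _ r hq2 hqodd
    (by omega) Fact.out hrq hN hΩ
  obtain ⟨g, hgr, hgs, hgp⟩ := Cfsg.Agent.Helper30.bgSp_exists_derangement p h2 d e he1 hed r hr2 hre
  refine ⟨g, ⟨1, ?_⟩, hgs, hgp⟩
  rw [hgr, one_smul]
  rfl

end Cfsg.Agent.S5963
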