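import Cfsg.Statements.S5964
import Cfsg.Agent.Helper37.Sf2
import Cfsg.Agent.Helper37.Sf3
-- import your own Cfsg.Agent.* helpers here

set_option autoImplicit false
open scoped MatrixGroups
open Cfsg

namespace Cfsg.Agent.S5964

/-- Involutions of PSL_n(q) and subfield subgroups. Here `T = PSL_n(F)` for a field `F` with `q = p^f` elements (`n ≥ 2`, `(n, q) ≠ (2, 2), (2, 3)`), `F₀` is the subfield with `q₀` elements where `q = q₀^k` for a prime `k`, and `H` is the subgroup of matrices of determinant 1 lying in the subfield group of `F₀` (invertible matrices over `F₀` times scalars) — a maximal subgroup of type GL_n(q₀) (the case `n = 2`, `q₀ = 2` is excluded); Ω is the set of `T`-conjugates of `H` (cosets of `H`), so an element of `T` of prime order `r` (a matrix `x` of determinant 1 with `x^r` scalar, `x` not scalar) fixes a point of Ω when some conjugate of `x` by a matrix of determinant 1 lies in `H`. Suppose the index of `H` is even. Then every involution of `T` is conjugate in `T` into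 `H` if and only if either `q` is even, or `k = 2` and `(n)_2 ≤ (q − 1)_2`. (For `q` odd and `k` odd the index of `H` is odd, so that case does not arise.) -/
theorem result {F : Type*} [Field F] [Fintype F] {p : ℕ} [Fact p.Prime] [CharP F p] {q : ℕ} (hq : Fintype.card F = q)
    (n : ℕ) (hn : 2 ≤ n) (hT : (n, q) ≠ (2, 2) ∧ (n, q) ≠ (2, 3))
    (F₀ : Subfield F) (k q₀ : ℕ) (hk : k.Prime) (hF₀ : Nat.card ↥F₀ = q₀) (hqk : q = q₀ ^ k) (hC5 : ¬ (n = 2 ∧ q₀ = 2)) (hΩ : 2 ∣ ((Cfsg.Geo.subfieldSubgroup F₀ 1).comap (Matrix.SpecialLinearGroup.toGL : Matrix.SpecialLinearGroup (Fin n) F →* GL (Fin n) F)).index) :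
    (∀ x : Matrix.SpecialLinearGroup (Fin n) F,
      (∃ z : F, ((x ^ 2 : Matrix.SpecialLinearGroup (Fin n) F) : Matrix (Fin n) (Fin n) F) = z • (1 : Matrix (Fin n) (Fin n) F)) →
      (∀ z : F, (x : Matrix (Fin n) (Fin n) F) ≠ z • (1 : Matrix (Fin n) (Fin n) F)) →
      ∃ P : Matrix.SpecialLinearGroup (Fin n) F, P⁻¹ * x * P ∈ ((Cfsg.Geo.subfieldSubgroup F₀ 1).comap (Matrix.SpecialLinearGroup.toGL : Matrix.SpecialLinearGroup (Fin n) F →* GL (Fin n) F))) ↔
    (Odd q → (k = 2 ∧ padicValNat 2 n ≤ padicValNat 2 (q - 1))) := by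
  classical
  subst hq
  constructor
  · intro H hodd
    have h2 : (2 : F) ≠ 0 := by
      intro h
      have hch : ringChar F = 2 :=
        CharP.ringChar_of_prime_eq_zero Nat.prime_two (by exact_mod_cast h)
      have hev := FiniteField.even_card_iff_char_two.mp hch
      rcases hodd with ⟨r, hr⟩
      omega
    have hq₀odd : Odd q₀ := by
      rw [hqk] at hodd
      exact (Nat.odd_pow_iff hk.ne_zero).mp hodd
    have hk2 : k = 2 := by
      by_contra hk2
      exact Cfsg.Agent.Helper37.sf_index_odd F₀ q₀ k n hF₀ hqk (hk.odd_of_ne_two hk2) hq₀odd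
        (by omega) hΩ
    refine ⟨hk2, ?_⟩
    subst hk2
    by_contra hlt
    push Not at hlt
    have h2n : 2 ∣ n := dvd_of_one_le_padicValNat (by omega)
    obtain ⟨m, rfl⟩ := h2n
    obtain ⟨x, ⟨z, hxz⟩, hxns, hxbad⟩ :=
      Cfsg.Agent.Helper37.sf_bad h2 F₀ q₀ hF₀ hqk m (by omega) hlt
    obtain ⟨P, hP⟩ := H x ⟨z, by rw [pow_two, Matrix.SpecialLinearGroup.coe_mul, hxz]⟩ hxns
    exact hxbad P hP
  · rintro hcond x ⟨z, hz⟩ -
    have hxx : (x : Matrix (Fin n) (Fin n) F) * (x : Matrix (Fin n) (Fin n) F) =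
        z • (1 : Matrix (Fin n) (Fin n) F) := by
      rw [← hz, pow_two, Matrix.SpecialLinearGroup.coe_mul]
    have hz0 : z ≠ 0 := by
      rintro rfl
      have h1 := congrArg Matrix.det hxx
      haveI : Nonempty (Fin n) := ⟨⟨0, by omega⟩⟩
      rw [Matrix.det_mul, x.2, zero_smul, Matrix.det_zero] at h1
      simp at h1
    by_cases h2 : (2 : F) = 0
    · have hch : ringChar F = 2 :=
        CharP.ringChar_of_prime_eq_zero Nat.prime_two (by exact_mod_cast h2)
      obtain ⟨c, hc⟩ := FiniteField.isSquare_of_char_two hch z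
      have hc0 : c ≠ 0 := by
        rintro rfl
        rw [mul_zero] at hc
        exact hz0 hc
      exact Cfsg.Agent.Helper37.sf_caseC (by omega) h2 F₀ x c hc0 (by rw [hxx, hc])
    · have hodd : Odd (Fintype.card F) := by
        rw [Nat.odd_iff]
        exact FiniteField.odd_card_of_char_ne_two (Cfsg.Agent.Helper37.sq_ringChar_ne h2)
      obtain ⟨hk2, hv⟩ := hcond hodd
      subst hk2
      by_cases hsq : IsSquare z
      · obtain ⟨c, hc⟩ := hsq
        have hc0 : c ≠ 0 := by
          rintro rfl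
          rw [mul_zero] at hc
          exact hz0 hc
        exact Cfsg.Agent.Helper37.sf_caseA (by omega) h2 F₀ x c hc0 (by rw [hxx, hc])
      · exact (Cfsg.Agent.Helper37.sf_caseB h2 q₀ hqk (by omega) x z hsq hxx hv).elim

end Cfsg.Agent.S5964
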