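import Cfsg.Statements.S5967
import Cfsg.Agent.Helper37.Sq4
-- import your own Cfsg.Agent.* helpers here

set_option autoImplicit false
open scoped MatrixGroups
open Cfsg

namespace Cfsg.Agent.S5967

/-- Involutions of PSL_n(q) and the symplectic-type subgroups. Here `T = PSL_n(F)` for a field `F` with `q` elements, `n ≥ 4` even, `f` is a nondegenerate alternating form on `F^n`, and `H` is the subgroup of matrices of determinant 1 preserving `f` up to a scalar — a maximal subgroup of type Sp_n(q); Ω is the set of `T`-conjugates of `H` (cosets of `H`), so an element of `T` of prime order `r` (a matrix `x` of determinant 1 with `x^r` scalar, `x` not scalar) fixes a point of Ω when some conjugate of `x` by a matrix of determinant 1 preserves `f` up to a scalar. Suppose the index of `H` is even. Then every involution of `T` is conjugate in `T` into `H` if and only if `(q − 1)_2 ≤ (n)_2`. -/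
theorem result {F : Type*} [Field F] [Fintype F] {p : ℕ} [Fact p.Prime] [CharP F p] {q : ℕ} (hq : Fintype.card F = q)
    (n : ℕ) (hn : 4 ≤ n) (he : Even n) (f : (Fin n → F) → (Fin n → F) → F) (hf : Cfsg.Geo.IsSymplecticForm f)
    (hΩ : 2 ∣ ((Cfsg.Geo.similarityGroup f).comap (Matrix.SpecialLinearGroup.toGL : Matrix.SpecialLinearGroup (Fin n) F →* GL (Fin n) F)).index) :
    (∀ x : Matrix.SpecialLinearGroup (Fin n) F,
      (∃ z : F, ((x ^ 2 : Matrix.SpecialLinearGroup (Fin n) F) : Matrix (Fin n) (Fin n) F) = z • (1 : Matrix (Fin n) (Fin n) F)) →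
      (∀ z : F, (x : Matrix (Fin n) (Fin n) F) ≠ z • (1 : Matrix (Fin n) (Fin n) F)) →
      ∃ P : Matrix.SpecialLinearGroup (Fin n) F, P⁻¹ * x * P ∈ ((Cfsg.Geo.similarityGroup f).comap (Matrix.SpecialLinearGroup.toGL : Matrix.SpecialLinearGroup (Fin n) F →* GL (Fin n) F))) ↔
    padicValNat 2 (q - 1) ≤ padicValNat 2 n := by
  classical
  obtain ⟨m, rfl⟩ : ∃ m, n = 2 * m := by
    obtain ⟨r, hr⟩ := he
    exact ⟨r, by omega⟩
  subst hq
  constructor
  · intro H
    by_contra hlt
    push Not at hlt
    obtain ⟨h2, c, hc⟩ := Cfsg.Agent.Helper37.sq_nt2 (F := F) (2 * m) (by omega) hlt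
    obtain ⟨x, hx2, hxns, hxsim⟩ := Cfsg.Agent.Helper37.sq_bad h2 m (by omega) c hc
    obtain ⟨P, hP⟩ := H x ⟨c * c, by rw [pow_two, Matrix.SpecialLinearGroup.coe_mul, hx2]⟩ hxns
    exact Cfsg.Agent.Helper42.BGSymp.conj_not_mem f hf x hxsim P hP
  · rintro hv x ⟨z, hz⟩ -
    have hxx : (x : Matrix (Fin (2 * m)) (Fin (2 * m)) F) * (x : Matrix (Fin (2 * m)) (Fin (2 * m)) F) =
        z • (1 : Matrix (Fin (2 * m)) (Fin (2 * m)) F) := by
      rw [← hz, pow_two, Matrix.SpecialLinearGroup.coe_mul]
    have hz0 : z ≠ 0 := by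
      rintro rfl
      have h1 := congrArg Matrix.det hxx
      haveI : Nonempty (Fin (2 * m)) := ⟨⟨0, by omega⟩⟩
      rw [Matrix.det_mul, x.2, zero_smul, Matrix.det_zero] at h1
      simp at h1
    by_cases h2 : (2 : F) = 0
    · have hch : ringChar F = 2 :=
        CharP.ringChar_of_prime_eq_zero Nat.prime_two (by exact_mod_cast h2)
      obtain ⟨c, hc⟩ := FiniteField.isSquare_of_char_two hch z
      have hc0 : c ≠ 0 := by
        rintro rfl
        rw [mul_zero] at hc
        exact hz0 hc
      exact Cfsg.Agent.Helper37.sq_caseC h2 m (by omega) f hf x c hc0 (by rw [hxx, hc])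
    · by_cases hsq : IsSquare z
      · obtain ⟨c, hc⟩ := hsq
        have hc0 : c ≠ 0 := by
          rintro rfl
          rw [mul_zero] at hc
          exact hz0 hc
        exact Cfsg.Agent.Helper37.sq_caseA h2 m (by omega) f hf x c hc0 (by rw [hxx, hc])
          (fun c' => Cfsg.Agent.Helper37.sq_nt1 h2 (2 * m) (by omega) hv c')
      · exact Cfsg.Agent.Helper37.sq_caseB h2 m (by omega) f hf x z hsq hxx

end Cfsg.Agent.S5967
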