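import Cfsg.Statements.S5969
import Cfsg.Agent.Helper37.Fk3
import Cfsg.Agent.Helper37.Fk4
-- import your own Cfsg.Agent.* helpers here

set_option autoImplicit false
open scoped MatrixGroups
open Cfsg

namespace Cfsg.Agent.S5969

/-- Involutions of PSL_n(q) and extension-field subgroups of degree 2. Here `T = PSL_n(F)` for a field `F` with `q = p^f` elements (`n ≥ 2`, `(n, q) ≠ (2, 2), (2, 3)`), `k` is a prime dividing `n`, `K` is a subalgebra of the `n × n` matrices that is a field of degree `k` over `F` (an extension-field structure F_{q^k} on `F^n`), and `H` is the subgroup of matrices of determinant 1 normalizing `K` — a subgroup of type GL_{n/k}(q^k) (maximal except in some small cases; maximality is not assumed); Ω is the set of cosets of `H` in `T`, so an element of `T` of prime order `r` (a matrix `x` of determinant 1 with `x^r` scalar, `x` not scalar) fixes a point of Ω when some conjugate of `x` by a matrix of determinant 1 normalizes `K`. Take `k = 2` and suppose the index of `H` is even.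 Then every involution of `T` is conjugate in `T` into `H` if and only if `n = 2`, or `q` is odd and `(q − 1)_2 ≤ (n)_2`. -/
theorem result {F : Type*} [Field F] [Fintype F] {p : ℕ} [Fact p.Prime] [CharP F p] {q : ℕ} (hq : Fintype.card F = q)
    (n : ℕ) (hn : 2 ≤ n) (hT : (n, q) ≠ (2, 2) ∧ (n, q) ≠ (2, 3))
    (k : ℕ) (hk : k.Prime) (hkn : k ∣ n) (K : Subalgebra F (Matrix (Fin n) (Fin n) F)) (hK : Cfsg.Geo.IsFieldSubalgebra k K) (hk2 : k = 2) (hΩ : 2 ∣ ((Cfsg.Geo.subalgebraNormalizer K).comap (Matrix.SpecialLinearGroup.toGL : Matrix.SpecialLinearGroup (Fin n) F →* GL (Fin n) F)).index) :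
    (∀ x : Matrix.SpecialLinearGroup (Fin n) F,
      (∃ z : F, ((x ^ 2 : Matrix.SpecialLinearGroup (Fin n) F) : Matrix (Fin n) (Fin n) F) = z • (1 : Matrix (Fin n) (Fin n) F)) →
      (∀ z : F, (x : Matrix (Fin n) (Fin n) F) ≠ z • (1 : Matrix (Fin n) (Fin n) F)) →
      ∃ P : Matrix.SpecialLinearGroup (Fin n) F, P⁻¹ * x * P ∈ ((Cfsg.Geo.subalgebraNormalizer K).comap (Matrix.SpecialLinearGroup.toGL : Matrix.SpecialLinearGroup (Fin n) F →* GL (Fin n) F))) ↔
    (n = 2 ∨ (Odd q ∧ padicValNat 2 (q - 1) ≤ padicValNat 2 n)) := by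
  classical
  subst hq
  subst hk2
  obtain ⟨m, rfl⟩ := hkn
  constructor
  · intro H
    by_contra hcon
    push Not at hcon
    obtain ⟨hm2, hcon2⟩ := hcon
    have hn3 : 3 ≤ 2 * m := by omega
    by_cases h2 : (2 : F) = 0
    · obtain ⟨x, hx2, hxns, c, u, v, hu, hv, hxv⟩ := Cfsg.Agent.Helper37.fk_bad_two h2 hn3
      obtain ⟨P, hP⟩ := H x ⟨1, by rw [pow_two, Matrix.SpecialLinearGroup.coe_mul, hx2]⟩ hxns
      exact Cfsg.Agent.Helper37.fk_bad_conj K hK hn3 x c u v hu hv hxv P hP
    · have hodd : Odd (Fintype.card F) := by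
        rw [Nat.odd_iff]
        exact FiniteField.odd_card_of_char_ne_two (Cfsg.Agent.Helper37.sq_ringChar_ne h2)
      have hlt := hcon2 hodd
      obtain ⟨-, c, hc⟩ := Cfsg.Agent.Helper37.sq_nt2 (F := F) (2 * m) (by omega) hlt
      obtain ⟨x, hx2, hxns, c', u, v, hu, hv, hxv⟩ := Cfsg.Agent.Helper37.fk_bad_odd h2 hn3 c hc
      obtain ⟨P, hP⟩ := H x ⟨c * c, by rw [pow_two, Matrix.SpecialLinearGroup.coe_mul, hx2]⟩ hxns
      exact Cfsg.Agent.Helper37.fk_bad_conj K hK hn3 x c' u v hu hv hxv P hP
  · rintro hcond x ⟨z, hz⟩ hns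
    have hxx : (x : Matrix (Fin (2 * m)) (Fin (2 * m)) F) * (x : Matrix (Fin (2 * m)) (Fin (2 * m)) F) =
        z • (1 : Matrix (Fin (2 * m)) (Fin (2 * m)) F) := by
      rw [← hz, pow_two, Matrix.SpecialLinearGroup.coe_mul]
    have hz0 : z ≠ 0 := by
      rintro rfl
      have h1 := congrArg Matrix.det hxx
      haveI : Nonempty (Fin (2 * m)) := ⟨⟨0, by omega⟩⟩
      rw [Matrix.det_mul, x.2, zero_smul, Matrix.det_zero] at h1
      simp at h1
    by_cases h2 : (2 : F) = 0
    · have hch : ringChar F = 2 :=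
        CharP.ringChar_of_prime_eq_zero Nat.prime_two (by exact_mod_cast h2)
      have hm1 : m = 1 := by
        rcases hcond with h | ⟨hodd, -⟩
        · omega
        · exfalso
          have hev := FiniteField.even_card_iff_char_two.mp hch
          rcases hodd with ⟨r, hr⟩
          omega
      subst hm1
      obtain ⟨c, hc⟩ := FiniteField.isSquare_of_char_two hch z
      have hc0 : c ≠ 0 := by
        rintro rfl
        rw [mul_zero] at hc
        exact hz0 hc
      exact Cfsg.Agent.Helper37.fk_caseC2 h2 K hK x c hc0 (by rw [hxx, hc]) hns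
    · by_cases hsq : IsSquare z
      · obtain ⟨c, hc⟩ := hsq
        have hc0 : c ≠ 0 := by
          rintro rfl
          rw [mul_zero] at hc
          exact hz0 hc
        have hxc : (x : Matrix (Fin (2 * m)) (Fin (2 * m)) F) * (x : Matrix (Fin (2 * m)) (Fin (2 * m)) F) =
            (c * c) • (1 : Matrix (Fin (2 * m)) (Fin (2 * m)) F) := by rw [hxx, hc]
        apply Cfsg.Agent.Helper37.fk_caseA h2 m (by omega) K hK x c hc0 hxc
        rcases hcond with h | ⟨hodd, hv⟩
        · right
          have hm1 : m = 1 := by omega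
          refine ⟨hm1, ?_⟩
          subst hm1
          have hA : (c⁻¹ • (x : Matrix (Fin (2 * 1)) (Fin (2 * 1)) F)) *
              (c⁻¹ • (x : Matrix (Fin (2 * 1)) (Fin (2 * 1)) F)) = 1 := by
            rw [Matrix.smul_mul, Matrix.mul_smul, hxc, smul_smul, smul_smul]
            have : c⁻¹ * c⁻¹ * (c * c) = 1 := by field_simp
            rw [this, one_smul]
          have h0 : Cfsg.Agent.Helper37.pglNu (c⁻¹ • (x : Matrix (Fin (2 * 1)) (Fin (2 * 1)) F)) ≠ 0 := by
            intro h0
            have h1 := Cfsg.Agent.Helper37.pglNu_eq_zero h2 _ hA h0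
            apply hns c
            have h3 : (x : Matrix (Fin (2 * 1)) (Fin (2 * 1)) F) =
                c • (c⁻¹ • (x : Matrix (Fin (2 * 1)) (Fin (2 * 1)) F)) := by
              rw [smul_smul, mul_inv_cancel₀ hc0, one_smul]
            rw [h3, h1]
          have h2' : Cfsg.Agent.Helper37.pglNu (c⁻¹ • (x : Matrix (Fin (2 * 1)) (Fin (2 * 1)) F)) ≠ 2 * 1 := by
            intro h0
            have h1 := Cfsg.Agent.Helper37.pglNu_eq_card _ h0
            apply hns (-c)
            have h3 : (x : Matrix (Fin (2 * 1)) (Fin (2 * 1)) F) =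
                c • (c⁻¹ • (x : Matrix (Fin (2 * 1)) (Fin (2 * 1)) F)) := by
              rw [smul_smul, mul_inv_cancel₀ hc0, one_smul]
            rw [h3, h1, smul_neg, neg_smul]
          have hle : Cfsg.Agent.Helper37.pglNu (c⁻¹ • (x : Matrix (Fin (2 * 1)) (Fin (2 * 1)) F)) ≤ 2 * 1 := by
            unfold Cfsg.Agent.Helper37.pglNu
            have h := Submodule.finrank_le (LinearMap.ker
              (c⁻¹ • (x : Matrix (Fin (2 * 1)) (Fin (2 * 1)) F) + 1).mulVecLin)
            rwa [Module.finrank_fin_fun] at h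
          omega
        · left
          exact Cfsg.Agent.Helper37.sq_pglNu_even h2 x c hc0 hxc
            (fun c' => Cfsg.Agent.Helper37.sq_nt1 h2 (2 * m) (by omega) hv c')
      · exact Cfsg.Agent.Helper37.fk_caseB h2 m (by omega) K hK x z hsq hxx

end Cfsg.Agent.S5969
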