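import Cfsg.Statements.S5971
import Cfsg.Agent.Helper69.Sng3Core

set_option autoImplicit false
open scoped MatrixGroups
open Cfsg

namespace Cfsg.Agent.S5971

/-- Elements of order 3 of PSL_3(q) and the normalizer of a Singer cycle. Here `T = PSL_n(F)` for a field `F` with `q = p^f` elements (`n ≥ 2`, `(n, q) ≠ (2, 2), (2, 3)`), `k` is a prime dividing `n`, `K` is a subalgebra of the `n × n` matrices that is a field of degree `k` over `F` (an extension-field structure F_{q^k} on `F^n`), and `H` is the subgroup of matrices of determinant 1 normalizing `K` — a subgroup of type GL_{n/k}(q^k) (maximal except in some small cases; maximality is not assumed); Ω is the set of cosets of `H` in `T`, so an element of `T` of prime order `r` (a matrix `x` of determinant 1 with `x^r` scalar, `x` not scalar) fixes a point of Ω when some conjugate of `x` by a matrix of determinant 1 normalizes `K`. Take `n = k = 3` and suppose 3 divides the index of `H`. Then every element of `T` of order 3 is conjugate in `T` into `H` if and only if `q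 ≡ 4, 7` or `8 (mod 9)`. -/
theorem result {F : Type*} [Field F] [Fintype F] {p : ℕ} [Fact p.Prime] [CharP F p] {q : ℕ} (hq : Fintype.card F = q)
    (n : ℕ) (hn : n = 3) (k : ℕ) (hk : k.Prime) (hkn : k ∣ n) (K : Subalgebra F (Matrix (Fin n) (Fin n) F)) (hK : Cfsg.Geo.IsFieldSubalgebra k K) (hk3 : k = 3) (hΩ : 3 ∣ ((Cfsg.Geo.subalgebraNormalizer K).comap (Matrix.SpecialLinearGroup.toGL : Matrix.SpecialLinearGroup (Fin n) F →* GL (Fin n) F)).index) :
    (∀ x : Matrix.SpecialLinearGroup (Fin n) F,
      (∃ z : F, ((x ^ 3 : Matrix.SpecialLinearGroup (Fin n) F) : Matrix (Fin n) (Fin n) F) = z • (1 : Matrix (Fin n) (Fin n) F)) →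
      (∀ z : F, (x : Matrix (Fin n) (Fin n) F) ≠ z • (1 : Matrix (Fin n) (Fin n) F)) →
      ∃ P : Matrix.SpecialLinearGroup (Fin n) F, P⁻¹ * x * P ∈ ((Cfsg.Geo.subalgebraNormalizer K).comap (Matrix.SpecialLinearGroup.toGL : Matrix.SpecialLinearGroup (Fin n) F →* GL (Fin n) F))) ↔
    (q % 9 = 4 ∨ q % 9 = 7 ∨ q % 9 = 8) := by
  subst hn
  subst hk3
  subst hq
  exact Cfsg.Agent.Helper69.sng3_main K hK hΩ

end Cfsg.Agent.S5971
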