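import Cfsg.Statements.S5974
import Cfsg.Agent.Helper65.S74Defs
import Cfsg.Agent.Helper65.S74T2G
import Cfsg.Agent.Helper38.S74T2B
import Cfsg.Agent.Helper97.S74R2G
import Cfsg.Agent.Helper97.S74R2B
import Cfsg.Agent.Helper33.S74OOG
import Cfsg.Agent.Helper53.S74OOB
import Cfsg.Agent.Helper46.S74OEG
import Cfsg.Agent.Helper88.S74OEB

set_option autoImplicit false
open scoped MatrixGroups
open Cfsg

namespace Cfsg.Agent.S5974

open Cfsg.Agent.Helper65.S74

/-- Elements of prime order of PΩ⁺_n(q), n = 2d ≥ 8, with no fixed nondegenerate hyperbolic `m`-space. Here `T = PΩ⁺_n(q)` is realised through `Ω⁺_n(q)`, the commutator subgroup of the isometry group of `Q = Σ xᵢyᵢ` over the field `F` with `q` elements; an element of `T` of prime order `r` is an element `x` of `Ω⁺_n(q)` with `x^r` scalar and `x` not scalar. A hyperbolic `m`-space is a subspace `W` of even dimension `m` on which the polar form of `Q` is nondegenerate and which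 contains a totally singular subspace of dimension `m/2`. Let `m` be even with `2 ≤ m < n/2`, and let `r` be a prime dividing the number of hyperbolic `m`-spaces, with `r = 2` or `r ≠ p`. For `r ≠ p` let `i` be the multiplicative order of `q` modulo `r`, `c = i` for `i` even and `c = 2i` for `i` odd, and write `k = n mod c`, `ℓ' = m mod c`. Then every element of `T` of order `r` fixes some hyperbolic `m`-space if and only if one of: (i) `r = 2` and (`n ≡ 2 (mod 4)`, or `m ≡ 0 (mod 4)`, or `q ≡ 1 (mod 4)`); (ii) `r ≠ p` odd, `i` odd, `c ≤ m` and `k ≥ ℓ'`; (iii) `r ≠ p` odd, `i` even, and either `k = 0` and (`n/i` odd, or `ℓ' = 0` and `m/i` even), or `i ≤ m` and (`k > ℓ' > 0`, or `k = ℓ' > 0` and `(n + m − 2k)/i` even, or `k > ℓ' = 0` and `m/i` even). -/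
theorem result {F : Type*} [Field F] [Fintype F] {p : ℕ} [Fact p.Prime] [CharP F p] {q : ℕ} (hq : Fintype.card F = q)
    (d m : ℕ) (hd : 4 ≤ d) (hm : 2 ≤ m) (hme : Even m) (hmd : m < d)
    (r : ℕ) [Fact r.Prime] (hr : r = 2 ∨ r ≠ p)
    (hrΩ : r ∣ Nat.card {W : Submodule F (Fin d ⊕ Fin d → F) // (Module.finrank F ↥W = m ∧ (∀ u ∈ W, u ≠ 0 → ∃ v ∈ W, QuadraticMap.polar (Cfsg.quadFormPlus d F) u v ≠ 0) ∧
          ∃ U : Submodule F (Fin d ⊕ Fin d → F), U ≤ W ∧ 2 * Module.finrank F ↥U = m ∧ ∀ u ∈ U, Cfsg.quadFormPlus d F u = 0)})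
    (i c : ℕ) (hi : i = orderOf (q : ZMod r)) (hc : c = if Even i then i else 2 * i) :
    (∀ x : GL (Fin d ⊕ Fin d) F, x ∈ Cfsg.Geo.omegaGL (Cfsg.quadFormPlus d F) →
      (∃ z : F, ((x ^ r : GL (Fin d ⊕ Fin d) F) : Matrix (Fin d ⊕ Fin d) (Fin d ⊕ Fin d) F) = z • (1 : Matrix (Fin d ⊕ Fin d) (Fin d ⊕ Fin d) F)) →
      (∀ z : F, (x : Matrix (Fin d ⊕ Fin d) (Fin d ⊕ Fin d) F) ≠ z • (1 : Matrix (Fin d ⊕ Fin d) (Fin d ⊕ Fin d) F)) →
      ∃ W : Submodule F (Fin d ⊕ Fin d → F), (Module.finrank F ↥W = m ∧ (∀ u ∈ W, u ≠ 0 → ∃ v ∈ W, QuadraticMap.polar (Cfsg.quadFormPlus d F) u v ≠ 0) ∧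
          ∃ U : Submodule F (Fin d ⊕ Fin d → F), U ≤ W ∧ 2 * Module.finrank F ↥U = m ∧ ∀ u ∈ U, Cfsg.quadFormPlus d F u = 0) ∧
        W.map (Matrix.toLin' (x : Matrix (Fin d ⊕ Fin d) (Fin d ⊕ Fin d) F)) ≤ W) ↔
    ((r = 2 ∧ ((2 * d) % 4 = 2 ∨ m % 4 = 0 ∨ q % 4 = 1)) ∨
     (r ≠ p ∧ 2 < r ∧ Odd i ∧ c ≤ m ∧ m % c ≤ (2 * d) % c) ∨
     (r ≠ p ∧ 2 < r ∧ Even i ∧
       (((2 * d) % c = 0 ∧ (Odd ((2 * d) / i) ∨ (m % c = 0 ∧ Even (m / i)))) ∨
        (i ≤ m ∧ ((m % c < (2 * d) % c ∧ 0 < m % c) ∨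
                  ((2 * d) % c = m % c ∧ 0 < m % c ∧ Even ((2 * d + m - 2 * ((2 * d) % c)) / i)) ∨
                  (0 < (2 * d) % c ∧ m % c = 0 ∧ Even (m / i))))))) := by
  classical
  have hrpr : r.Prime := Fact.out
  change AllHyp (Cfsg.quadFormPlus d F) r m ↔ _
  by_cases hr2 : r = 2
  · subst hr2
    constructor
    · intro hall
      by_cases hp2 : p = 2
      · exact Or.inl ⟨rfl, Cfsg.Agent.Helper38.S74.s74_two_even_bad hq d m hd hm hme hmd hp2 hall⟩
      · exact Or.inl ⟨rfl, Cfsg.Agent.Helper97.S74.s74_two_bad hq d m hd hm hme hmd hp2 hall⟩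
    · rintro (⟨-, hcond⟩ | ⟨-, h, -⟩ | ⟨-, h, -⟩)
      · by_cases hp2 : p = 2
        · exact Cfsg.Agent.Helper65.S74.s74_two_even_good hq d m hd hm hme hmd hp2 hcond
        · exact Cfsg.Agent.Helper97.S74.s74_two_good hq d m hd hm hme hmd hp2 hcond
      · exact absurd h (lt_irrefl 2)
      · exact absurd h (lt_irrefl 2)
  · have hrp : r ≠ p := hr.resolve_left hr2
    have hr2' : 2 < r := by
      have := hrpr.two_le
      omega
    rcases Nat.even_or_odd i with heven | hodd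
    · rw [if_pos heven] at hc
      subst hc
      constructor
      · intro hall
        exact Or.inr (Or.inr ⟨hrp, hr2', heven,
          Cfsg.Agent.Helper88.S74.s74_even_bad hq d m hd hm hme hmd r hr2' hrp c hi heven hrΩ hall⟩)
      · rintro (⟨h, -⟩ | ⟨-, -, ho, -⟩ | ⟨-, -, -, hcond⟩)
        · exact absurd h hr2
        · exact absurd heven (Nat.not_even_iff_odd.mpr ho)
        · exact Cfsg.Agent.Helper46.S74.s74_even_good hq d m hd hm hme hmd r hr2' hrp c hi heven hcond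
    · rw [if_neg (Nat.not_even_iff_odd.mpr hodd)] at hc
      subst hc
      constructor
      · intro hall
        exact Or.inr (Or.inl ⟨hrp, hr2', hodd,
          Cfsg.Agent.Helper53.S74.s74_odd_bad hq d m hd hm hme hmd r hr2' hrp i hi hodd hrΩ hall⟩)
      · rintro (⟨h, -⟩ | ⟨-, -, -, hcond⟩ | ⟨-, -, he, -⟩)
        · exact absurd h hr2
        · exact Cfsg.Agent.Helper33.S74.s74_odd_good hq d m hd hm hme hmd r hr2' hrp i hi hodd hcond
        · exact absurd he (Nat.not_even_iff_odd.mpr hodd)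

end Cfsg.Agent.S5974
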