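import Cfsg.Statements.S5979
import Cfsg.Agent.Helper98.TEAsm

set_option autoImplicit false
open scoped MatrixGroups
open Cfsg

namespace Cfsg.Agent.S5979

/-- Elements of prime order of PSL_n(q) and the stabilizers of tensor decompositions with factors of different dimensions. Here `T = PSL_n(F)` for a field `F` with `q` elements and `n = a·b` with `2 ≤ a < b`; a tensor decomposition `F^n ≅ F^a ⊗ F^b` is given by a bijection `e` of index sets and a change of basis `P`, and `H` is the subgroup of matrices of determinant 1 in its stabilizer (the conjugate by `P` of the group of Kronecker products `g₁ ⊗ g₂`) — a subgroup of type GL_a(q) ⊗ GL_b(q) (maximality is not assumed); Ω is the set of cosets of `H` in `T`, so an element of `T` of prime order `r` (a matrix `x` of determinant 1 with `x^r` scalar, `x` not scalar) fixes a point of Ω exactly when some conjugate of `x` by a matrix of determinant 1 lies in `H`. Let `r` be a prime dividing the index of `H`. Then every element of `T` of order `r` fixes a point of Ω if and only if `r =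 2`, `a = 2`, `q` is odd and `(q − 1)_2 ≤ (n)_2` (2-parts). -/
theorem result {F : Type*} [Field F] [Fintype F] {p : ℕ} [Fact p.Prime] [CharP F p] {q : ℕ} (hq : Fintype.card F = q)
    (n a b : ℕ) (hab : n = a * b) (ha : 2 ≤ a) (hlt : a < b) (e : Fin n ≃ Fin a × Fin b) (P : GL (Fin n) F)
    (r : ℕ) [Fact r.Prime]
    (hΩ : r ∣ (Cfsg.Geo.tensorProductSubgroup a b e P).relIndex (Cfsg.Geo.specialLinear (Fin n) F)) :
    (∀ x ∈ Cfsg.Geo.specialLinear (Fin n) F, (∃ z : F, ((x ^ r : GL (Fin n) F) : Matrix (Fin n) (Fin n) F) = z • (1 : Matrix (Fin n) (Fin n) F)) →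
      (∀ z : F, (x : Matrix (Fin n) (Fin n) F) ≠ z • (1 : Matrix (Fin n) (Fin n) F)) →
      ∃ g ∈ Cfsg.Geo.specialLinear (Fin n) F, g⁻¹ * x * g ∈ Cfsg.Geo.tensorProductSubgroup a b e P) ↔
    (r = 2 ∧ a = 2 ∧ Odd q ∧ padicValNat 2 (q - 1) ≤ padicValNat 2 n) := by
  exact Cfsg.Agent.Helper98.TEAsm.main hq n a b hab ha hlt e P r Fact.out hΩ

end Cfsg.Agent.S5979
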