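import Cfsg.Statements.S5983
import Cfsg.Agent.Helper30.BGSO3
import Cfsg.Agent.Helper30.BGSO4

set_option autoImplicit false
open scoped MatrixGroups
open Cfsg

namespace Cfsg.Agent.S5983

/-- Elements of prime order of PSp_n(q), q even, and the subgroups of orthogonal type. Here `T = Sp_{2d}(F)` for a field `F` of characteristic 2 with `q` elements (`d ≥ 2`, `(d, q) ≠ (2, 2)`), realised as the invertible matrices preserving the standard alternating form; `Q` is a non-degenerate quadratic form on `F^{2d}` whose polar form is that alternating form, and `H` is the subgroup of `T` preserving `Q` up to a scalar (equivalently preserving `Q`) — a subgroup of type O^±_{2d}(q) (maximality is not assumed); `Q` is of plus type when `F^{2d}` contains a `d`-dimensional subspace on which `Q` vanishes, of minus type otherwise. Ω is the set of cosets of `H` in `T`, so an element of `T` of prime order `r` (`x ∈ T` with `x^r` scalar, `x` not scalar) fixes a point of Ω exactly when some `T`-conjugate of `x` preserves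 `Q`. Let `r` be a prime dividing the index of `H`. Then every element of `T` of order `r` fixes a point of Ω if and only if `r = 2` and either `Q` is of plus type or `d` is odd. -/
theorem result {F : Type*} [Field F] [Fintype F] {p : ℕ} [Fact p.Prime] [CharP F p] {q : ℕ} (hq : Fintype.card F = q)
    (hp : p = 2) (d : ℕ) (hd : 2 ≤ d) (hT : (d, q) ≠ (2, 2)) (Q : (Fin d ⊕ Fin d → F) → F) (hQ : Cfsg.Geo.IsNondegenerateQuadraticForm Q)
    (hQf : ∀ u v, QuadraticMap.polar Q u v = Cfsg.sympForm d F u v)
    (r : ℕ) [Fact r.Prime]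
    (hΩ : r ∣ (Cfsg.Geo.quadSimilarityGroup Q).relIndex (Cfsg.spGL d F)) :
    (∀ x ∈ Cfsg.spGL d F, (∃ z : F, ((x ^ r : GL (Fin d ⊕ Fin d) F) : Matrix (Fin d ⊕ Fin d) (Fin d ⊕ Fin d) F) = z • (1 : Matrix (Fin d ⊕ Fin d) (Fin d ⊕ Fin d) F)) →
      (∀ z : F, (x : Matrix (Fin d ⊕ Fin d) (Fin d ⊕ Fin d) F) ≠ z • (1 : Matrix (Fin d ⊕ Fin d) (Fin d ⊕ Fin d) F)) →
      ∃ g ∈ Cfsg.spGL d F, g⁻¹ * x * g ∈ Cfsg.Geo.quadSimilarityGroup Q) ↔
    (r = 2 ∧ (Cfsg.Geo.IsPlusTypeOn Q ⊤ ∨ Odd d)) := by
  subst hp
  have heven : ¬ Odd (Fintype.card F) := by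
    rw [Nat.odd_iff]
    have h1 := (FiniteField.even_card_iff_char_two (F := F)).mp (ringChar.eq F 2)
    omega
  have hQS := Helper94.qs_of heven hQ hQf
  constructor
  · intro H
    exact Helper30.bgso_necessity d hd Q hQS r hΩ H
  · rintro ⟨hr2, hcase⟩ x hx ⟨z, hz⟩ -
    subst hr2
    have hd0 : 0 < d := by omega
    obtain ⟨u, w, huw⟩ := Helper30.bgso_exists_pair (F := F) hd0
    have hxz : ∀ v : Fin d ⊕ Fin d → F, Matrix.mulVec x.1 (Matrix.mulVec x.1 v) = z • v := by
      intro v
      have h0 : x.1 * x.1 = z • (1 : Matrix (Fin d ⊕ Fin d) (Fin d ⊕ Fin d) F) := by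
        rw [← hz, pow_two]
        rfl
      rw [Matrix.mulVec_mulVec, h0, Matrix.smul_mulVec, Matrix.one_mulVec]
    have h1 := Helper94.sp_apply hx (Matrix.mulVec x.1 u) (Matrix.mulVec x.1 w)
    rw [hxz, hxz, Helper94.sp_apply hx, Helper94.sf_smul_left, Helper94.sf_smul_right] at h1
    have h2 : z * z = 1 := by
      have h3 : (z * z - 1) * sympForm d F u w = 0 := by linear_combination h1
      rcases mul_eq_zero.mp h3 with h4 | h4
      · exact sub_eq_zero.mp h4
      · exact absurd h4 huw
    have h5 : z = 1 := Helper30.bgPlus_sq_one z h2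
    exact Helper30.bgso_invol hQS hx (fun v => by rw [hxz, h5, one_smul]) hcase

end Cfsg.Agent.S5983
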