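import Cfsg.Statements.S5984
import Cfsg.Agent.Helper35.BUAsm

set_option autoImplicit false
open scoped MatrixGroups
open Cfsg

namespace Cfsg.Agent.S5984

/-- Elements of prime order of PSU_n(q) and the stabilizers of pairs of complementary totally singular subspaces. Here `T = PSU_n(q)` is realised through `SU_n(q)`, the matrices of determinant 1 over the field `F` with `q²` elements preserving the hermitian form `Σ uᵢ vᵢ^q`, with `n ≥ 4` even; `D` is a pair of complementary subspaces of dimension `n/2` on each of which the form vanishes identically, and `H` is the subgroup of `SU_n(q)` fixing or interchanging the two members — a subgroup of type GL_{n/2}(q²).2 (maximality is not assumed). Ω is the set of cosets of `H`, so an element of `T` of prime order `r` (`x ∈ SU_n(q)` with `x^r` scalar, `x` not scalar) fixes a point of Ω exactly when some `SU_n(q)`-conjugate of `x` lies in `H`. Let `r` be a prime dividing the index of `H`. Then every element of `T` of order `r` fixes a point of Ω if and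 only if `r = 2`, `q` is odd and `(q + 1)_2 ≤ (n)_2` (2-parts). -/
theorem result {F : Type*} [Field F] [Fintype F] {p : ℕ} [Fact p.Prime] [CharP F p] {q : ℕ} (hq : Fintype.card F = q ^ 2)
    (n : ℕ) (hn : 4 ≤ n) (he : Even n) (D : Fin 2 → Submodule F (Fin n → F)) (hD : Cfsg.Geo.IsMDecomposition (n / 2) D)
    (hDs : ∀ i, Cfsg.Geo.IsTotallySingularFor (Cfsg.hermForm n F q) (D i))
    (r : ℕ) [Fact r.Prime]
    (hΩ : r ∣ (Cfsg.Geo.decompositionStabilizer D).relIndex (Cfsg.GU n F q ⊓ Cfsg.Geo.specialLinear (Fin n) F)) :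
    (∀ x ∈ Cfsg.GU n F q ⊓ Cfsg.Geo.specialLinear (Fin n) F, (∃ z : F, ((x ^ r : GL (Fin n) F) : Matrix (Fin n) (Fin n) F) = z • (1 : Matrix (Fin n) (Fin n) F)) →
      (∀ z : F, (x : Matrix (Fin n) (Fin n) F) ≠ z • (1 : Matrix (Fin n) (Fin n) F)) →
      ∃ g ∈ Cfsg.GU n F q ⊓ Cfsg.Geo.specialLinear (Fin n) F, g⁻¹ * x * g ∈ Cfsg.Geo.decompositionStabilizer D) ↔
    (r = 2 ∧ Odd q ∧ padicValNat 2 (q + 1) ≤ padicValNat 2 n) := by
  obtain ⟨σ, hσ⟩ := Helper97.exists_sigma hq
  obtain ⟨m, hm⟩ := he
  have hnm : n = 2 * m := by omega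
  have h2 : n / 2 = m := by omega
  rw [h2] at hD
  have hr : r.Prime := Fact.out
  constructor
  · intro Hall
    exact Helper35.bu_fwd hσ hq hnm (by omega) D hD hDs r hr hΩ Hall
  · rintro ⟨rfl, hqo, hv⟩ x hx ⟨z, hz⟩ -
    have hpp : p.Prime := Fact.out
    have h2F : (2 : F) ≠ 0 := by
      intro h0
      have h1 : ((2 : ℕ) : F) = 0 := by exact_mod_cast h0
      rw [CharP.cast_eq_zero_iff F p 2] at h1
      have hp2 : p = 2 := (Nat.prime_dvd_prime_iff_eq hpp Nat.prime_two).mp h1
      obtain ⟨e, -, he⟩ := FiniteField.card F p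
      rw [hq, hp2] at he
      have h3 : 2 ∣ q ^ 2 := by
        rw [he]
        exact dvd_pow_self 2 e.ne_zero
      have h4 := Nat.Prime.dvd_of_dvd_pow Nat.prime_two h3
      rw [← even_iff_two_dvd] at h4
      exact (Nat.not_even_iff_odd.mpr hqo) h4
    exact Helper35.bu_bwd hσ hq h2F hqo hnm (by omega) hv D hD hDs x hx z hz

end Cfsg.Agent.S5984
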