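import Cfsg.Statements.S5985
import Cfsg.Agent.Helper30.BGPlus2

set_option autoImplicit false
open scoped MatrixGroups
open Cfsg

namespace Cfsg.Agent.S5985

/-- Elements of prime order of Ω⁺_n(q), q even, with no fixed nonsingular 1-space. Here `T = PΩ⁺_n(F)`, `n = 2d ≥ 8`, realised through `Ω⁺_n(q)`, the commutator subgroup of the isometry group of `Q = Σ xᵢyᵢ` over the field `F` with `q` elements; an element of `T` of prime order `r` is an element `x` of `Ω⁺_n(q)` with `x^r` scalar and `x` not scalar; `q` is even (so the centre is trivial). Let Ω be the set of 1-dimensional subspaces spanned by a vector `v` with `Q(v) ≠ 0`, and let `r` be a prime dividing their number. Then every element of `T` of order `r` fixes some nonsingular 1-space if and only if `r = 2` and `n ≡ 2 (mod 4)` (that is, `d` is odd). -/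
theorem result {F : Type*} [Field F] [Fintype F] {p : ℕ} [Fact p.Prime] [CharP F p] {q : ℕ} (hq : Fintype.card F = q)
    (hp : p = 2) (d : ℕ) (hd : 4 ≤ d) (r : ℕ) [Fact r.Prime]
    (hrΩ : r ∣ Nat.card {W : Submodule F (Fin d ⊕ Fin d → F) // Module.finrank F ↥W = 1 ∧ ∃ v ∈ W, Cfsg.quadFormPlus d F v ≠ 0}) :
    (∀ x : GL (Fin d ⊕ Fin d) F, x ∈ Cfsg.Geo.omegaGL (Cfsg.quadFormPlus d F) →
      (∃ z : F, ((x ^ r : GL (Fin d ⊕ Fin d) F) : Matrix (Fin d ⊕ Fin d) (Fin d ⊕ Fin d) F) = z • (1 : Matrix (Fin d ⊕ Fin d) (Fin d ⊕ Fin d) F)) →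
      (∀ z : F, (x : Matrix (Fin d ⊕ Fin d) (Fin d ⊕ Fin d) F) ≠ z • (1 : Matrix (Fin d ⊕ Fin d) (Fin d ⊕ Fin d) F)) →
      ∃ W : Submodule F (Fin d ⊕ Fin d → F), (Module.finrank F ↥W = 1 ∧ ∃ v ∈ W, Cfsg.quadFormPlus d F v ≠ 0) ∧ W.map (Matrix.toLin' (x : Matrix (Fin d ⊕ Fin d) (Fin d ⊕ Fin d) F)) ≤ W) ↔ (r = 2 ∧ Odd d) := by
  subst hp
  subst hq
  classical
  have hQnd : ∀ m : ℕ, (QuadraticMap.polarBilin (Helper43.plusQF m F)).Nondegenerate :=
    fun m => Helper45.plusQF_nondeg' m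
  have hmem : ∀ (m : ℕ) (_ : 4 ≤ m) (g : ↥(isometryGroup F (quadFormPlus m F))),
      Even (((g : GL (Fin m ⊕ Fin m) F) : Matrix (Fin m ⊕ Fin m) (Fin m ⊕ Fin m) F) - 1).rank →
        (g : GL (Fin m ⊕ Fin m) F) ∈ Geo.omegaGL (quadFormPlus m F) := by
    intro m hm g hg
    have hex : (∃ t : F, t ≠ 0 ∧ t ≠ 1) ∨ Fintype.card (Fin m ⊕ Fin m) ≠ 4 := by
      right
      rw [Fintype.card_sum, Fintype.card_fin]
      omega
    exact ⟨g, (Helper45.mem_omega_iff_even_rank (Helper43.plusQF m F) (hQnd m) hex g).mpr hg, rfl⟩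
  constructor
  · intro H
    have hr2 : r = 2 := by
      by_contra hr2
      rw [Helper30.bgPlus_card_points] at hrΩ
      have hrq : r ∣ Fintype.card F ^ d - 1 := by
        rcases (Nat.Prime.dvd_mul (Fact.out : r.Prime)).mp hrΩ with h | h
        · exact h
        · exfalso
          have h1 := (Fact.out : r.Prime).dvd_of_dvd_pow h
          obtain ⟨n, -, hn⟩ := FiniteField.card F 2
          rw [hn] at h1
          have h2 := (Fact.out : r.Prime).dvd_of_dvd_pow h1
          exact hr2 ((Nat.prime_dvd_prime_iff_eq (Fact.out : r.Prime) Nat.prime_two).mp h2)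
      have hd0 : NeZero d := ⟨by omega⟩
      obtain ⟨A, hAr, hdet⟩ := Helper30.bgSinger_exists (F := F) 2 d r hrq
      have hAB : A * A ^ (r - 1) = 1 := by
        rw [← pow_succ', Nat.sub_add_cancel (Fact.out : r.Prime).one_le, hAr]
      have hXmem := Helper30.bgPlusDiag_mem A (A ^ (r - 1)) hAB
      have hfix := Helper30.bgPlusDiag_fix A (A ^ (r - 1)) hAB hdet
      have hrank : Even (((Helper30.bgPlusDiag A (A ^ (r - 1)) hAB : GL (Fin d ⊕ Fin d) F) :
          Matrix (Fin d ⊕ Fin d) (Fin d ⊕ Fin d) F) - 1).rank := by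
        have h1 := Helper45.finrank_fixSub_add_rank (Helper43.plusQF d F)
          ⟨Helper30.bgPlusDiag A (A ^ (r - 1)) hAB, hXmem⟩
        have h2 : Helper45.fixSub (Helper43.plusQF d F)
            ⟨Helper30.bgPlusDiag A (A ^ (r - 1)) hAB, hXmem⟩ = ⊥ := by
          rw [eq_bot_iff]
          intro v hv
          rw [Helper45.mem_fixSub] at hv
          rw [Submodule.mem_bot]
          exact hfix v hv
        rw [h2, finrank_bot, zero_add, Fintype.card_sum, Fintype.card_fin] at h1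
        rw [h1]
        exact ⟨d, rfl⟩
      have hXΩ := hmem d hd ⟨Helper30.bgPlusDiag A (A ^ (r - 1)) hAB, hXmem⟩ hrank
      obtain ⟨W, ⟨hW1, v, hvW, hvQ⟩, hWinv⟩ := H (Helper30.bgPlusDiag A (A ^ (r - 1)) hAB) hXΩ
        ⟨1, by rw [Helper30.bgPlusDiag_pow A _ hAB r hAr, one_smul]; rfl⟩ (by
          intro z hz
          have hz1 := Helper30.bgPlus_scalar (by omega) _ hXmem z hz
          obtain ⟨v, hv⟩ := Helper30.bgPlus_exists_one (F := F) (d := d) (by omega)
          have hv0 : v = 0 := hfix v (by rw [hz, hz1, one_smul, Matrix.one_mulVec])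
          rw [hv0, Helper30.bgPlus_zero] at hv
          exact zero_ne_one hv)
      have hfixv := Helper30.bgPlus_fix_of_point _ hXmem W hW1 v hvW hvQ hWinv
      have hv0 := hfix v hfixv
      rw [hv0] at hvQ
      exact hvQ Helper30.bgPlus_zero
    refine ⟨hr2, ?_⟩
    subst hr2
    by_contra hodd
    rw [Nat.not_odd_iff_even] at hodd
    obtain ⟨k, rfl⟩ := hodd
    have hXmem := Helper30.bgInv_mem (F := F) (k := k)
    have hts : ∀ w ∈ Helper45.fixSub (Helper43.plusQF (k + k) F) ⟨Helper30.bgInv F k, hXmem⟩,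
        Helper43.plusQF (k + k) F w = 0 := by
      intro w hw
      rw [Helper45.mem_fixSub] at hw
      exact Helper30.bgInv_fix w hw
    have hrank : Even (((Helper30.bgInv F k : GL (Fin (k + k) ⊕ Fin (k + k)) F) :
        Matrix (Fin (k + k) ⊕ Fin (k + k)) (Fin (k + k) ⊕ Fin (k + k)) F) - 1).rank := by
      have h1 := Helper45.finrank_fixSub_add_rank (Helper43.plusQF (k + k) F)
        ⟨Helper30.bgInv F k, hXmem⟩
      have h2 := Helper45.finrank_ts_le (Helper43.plusQF (k + k) F) (hQnd (k + k)) _ hts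
      have h3 := Helper45.fix_involution_ge (Helper43.plusQF (k + k) F)
        ⟨Helper30.bgInv F k, hXmem⟩ (Subtype.ext Helper30.bgInv_sq)
      rw [Fintype.card_sum, Fintype.card_fin] at h1 h2 h3
      have h4 : (((Helper30.bgInv F k : GL (Fin (k + k) ⊕ Fin (k + k)) F) :
        Matrix (Fin (k + k) ⊕ Fin (k + k)) (Fin (k + k) ⊕ Fin (k + k)) F) - 1).rank = k + k := by
        have h1' : Module.finrank F ↥(Helper45.fixSub (Helper43.plusQF (k + k) F)
            ⟨Helper30.bgInv F k, hXmem⟩) +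
            (((Helper30.bgInv F k : GL (Fin (k + k) ⊕ Fin (k + k)) F) :
              Matrix (Fin (k + k) ⊕ Fin (k + k)) (Fin (k + k) ⊕ Fin (k + k)) F) - 1).rank =
            k + k + (k + k) := h1
        omega
      rw [h4]
      exact ⟨k, rfl⟩
    have hXΩ := hmem (k + k) hd ⟨Helper30.bgInv F k, hXmem⟩ hrank
    obtain ⟨W, ⟨hW1, v, hvW, hvQ⟩, hWinv⟩ := H (Helper30.bgInv F k) hXΩ
      ⟨1, by rw [pow_two, Helper30.bgInv_sq, one_smul]; rfl⟩ (by
        intro z hz
        have hz1 := Helper30.bgPlus_scalar (by omega) _ hXmem z hz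
        obtain ⟨v, hv⟩ := Helper30.bgPlus_exists_one (F := F) (d := k + k) (by omega)
        have hv0 := Helper30.bgInv_fix v (by rw [hz, hz1, one_smul, Matrix.one_mulVec])
        rw [hv0] at hv
        exact zero_ne_one hv)
    have hfixv := Helper30.bgPlus_fix_of_point _ hXmem W hW1 v hvW hvQ hWinv
    exact hvQ (Helper30.bgInv_fix v hfixv)
  · rintro ⟨rfl, hodd⟩ x hx hz _
    obtain ⟨g, hgΩ, rfl⟩ := hx
    obtain ⟨z, hz⟩ := hz
    have hz1 : z = 1 := Helper30.bgPlus_scalar (by omega) _ (pow_mem g.2 2) z hz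
    have hgg : g * g = 1 := by
      apply Subtype.ext
      apply Units.ext
      rw [hz1, one_smul] at hz
      rw [← pow_two]
      exact hz
    by_contra hno
    have hts : ∀ w ∈ Helper45.fixSub (Helper43.plusQF d F) g, Helper43.plusQF d F w = 0 := by
      intro w hw
      have hw' : Matrix.mulVec ((g : GL (Fin d ⊕ Fin d) F) : Matrix (Fin d ⊕ Fin d) (Fin d ⊕ Fin d) F) w = w :=
        (Helper45.mem_fixSub (Helper43.plusQF d F) g w).mp hw
      by_contra hQ
      exact hno (Helper30.bgPlus_point_of_fix _ w hQ hw')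
    have h1 := Helper45.finrank_fixSub_add_rank (Helper43.plusQF d F) g
    have h2 := Helper45.finrank_ts_le (Helper43.plusQF d F) (hQnd d) _ hts
    have h3 := Helper45.fix_involution_ge (Helper43.plusQF d F) g hgg
    rw [Fintype.card_sum, Fintype.card_fin] at h1 h2 h3
    have hex : (∃ t : F, t ≠ 0 ∧ t ≠ 1) ∨ Fintype.card (Fin d ⊕ Fin d) ≠ 4 := by
      right
      rw [Fintype.card_sum, Fintype.card_fin]
      omega
    have h5 := (Helper45.mem_omega_iff_even_rank (Helper43.plusQF d F) (hQnd d) hex g).mp hgΩ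
    have h4 : (((g : GL (Fin d ⊕ Fin d) F) : Matrix (Fin d ⊕ Fin d) (Fin d ⊕ Fin d) F) - 1).rank
        = d := by
      omega
    rw [h4] at h5
    exact (Nat.not_even_iff_odd.mpr hodd) h5

end Cfsg.Agent.S5985
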