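import Cfsg.Statements.S5986
import Cfsg.Agent.Helper30.BGMinus3

set_option autoImplicit false
open scoped MatrixGroups
open Cfsg

namespace Cfsg.Agent.S5986

/-- Elements of prime order of Ω⁻_n(q), q even, with no fixed nonsingular 1-space. Here `T = PΩ⁻_n(F)`, `n = 2d ≥ 8`, realised through `Ω⁻_n(q)`, the commutator subgroup of the isometry group of `Q = Σ_{i<d−1} xᵢyᵢ + z₁² + a z₁z₂ + b z₂²` with `z₁² + a z₁z₂ + b z₂²` anisotropic, over the field `F` with `q` elements; an element of `T` of prime order `r` is an element `x` of `Ω⁻_n(q)` with `x^r` scalar and `x` not scalar; `q` is even (so the centre is trivial). Let Ω be the set of 1-dimensional subspaces spanned by a vector `v` with `Q(v) ≠ 0`, and let `r` be a prime dividing their number. Then every element of `T` of order `r` fixes some nonsingular 1-space if and only if `r = 2`. -/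
theorem result {F : Type*} [Field F] [Fintype F] {p : ℕ} [Fact p.Prime] [CharP F p] {q : ℕ} (hq : Fintype.card F = q)
    (hp : p = 2) (d : ℕ) (hd : 4 ≤ d) (a b : F) (hab : ∀ x y : F, x ^ 2 + a * x * y + b * y ^ 2 = 0 → x = 0 ∧ y = 0) (r : ℕ) [Fact r.Prime]
    (hrΩ : r ∣ Nat.card {W : Submodule F ((Fin (d - 1) ⊕ Fin (d - 1)) ⊕ Fin 2 → F) // Module.finrank F ↥W = 1 ∧ ∃ v ∈ W, Cfsg.quadFormMinus (d - 1) F a b v ≠ 0}) :
    (∀ x : GL ((Fin (d - 1) ⊕ Fin (d - 1)) ⊕ Fin 2) F, x ∈ Cfsg.Geo.omegaGL (Cfsg.quadFormMinus (d - 1) F a b) →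
      (∃ z : F, ((x ^ r : GL ((Fin (d - 1) ⊕ Fin (d - 1)) ⊕ Fin 2) F) : Matrix ((Fin (d - 1) ⊕ Fin (d - 1)) ⊕ Fin 2) ((Fin (d - 1) ⊕ Fin (d - 1)) ⊕ Fin 2) F) = z • (1 : Matrix ((Fin (d - 1) ⊕ Fin (d - 1)) ⊕ Fin 2) ((Fin (d - 1) ⊕ Fin (d - 1)) ⊕ Fin 2) F)) →
      (∀ z : F, (x : Matrix ((Fin (d - 1) ⊕ Fin (d - 1)) ⊕ Fin 2) ((Fin (d - 1) ⊕ Fin (d - 1)) ⊕ Fin 2) F) ≠ z • (1 : Matrix ((Fin (d - 1) ⊕ Fin (d - 1)) ⊕ Fin 2) ((Fin (d - 1) ⊕ Fin (d - 1)) ⊕ Fin 2) F)) →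
      ∃ W : Submodule F ((Fin (d - 1) ⊕ Fin (d - 1)) ⊕ Fin 2 → F), (Module.finrank F ↥W = 1 ∧ ∃ v ∈ W, Cfsg.quadFormMinus (d - 1) F a b v ≠ 0) ∧ W.map (Matrix.toLin' (x : Matrix ((Fin (d - 1) ⊕ Fin (d - 1)) ⊕ Fin 2) ((Fin (d - 1) ⊕ Fin (d - 1)) ⊕ Fin 2) F)) ≤ W) ↔ r = 2 := by
  subst hp
  subst hq
  classical
  have hQnd := Helper45.minusQF_nondeg' (d - 1) a b hab
  have hex : (∃ t : F, t ≠ 0 ∧ t ≠ 1) ∨
      Fintype.card ((Fin (d - 1) ⊕ Fin (d - 1)) ⊕ Fin 2) ≠ 4 := by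
    right
    rw [Helper45.card_minus_index]
    omega
  have hexQ : ∃ v, Helper43.minusQF (d - 1) F a b v ≠ 0 := by
    refine ⟨Pi.single (Sum.inr 0) 1, ?_⟩
    rw [Helper43.minusQF_coe]
    unfold quadFormMinus
    simp
  constructor
  · intro H
    by_contra hr2
    obtain ⟨k, hk⟩ : ∃ k, d - 1 = k + 1 := ⟨d - 2, by omega⟩
    have hd2 : k + 2 = d := by omega
    have hrq : r ∣ Fintype.card F ^ d + 1 := by
      have hrΩ' := hrΩ
      rw [hk, Helper30.bgMinus_card_points k a b hab, hd2] at hrΩ'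
      rcases (Nat.Prime.dvd_mul (Fact.out : r.Prime)).mp hrΩ' with h | h
      · exfalso
        have h1 := (Fact.out : r.Prime).dvd_of_dvd_pow h
        obtain ⟨n, -, hn⟩ := FiniteField.card F 2
        rw [hn] at h1
        have h2 := (Fact.out : r.Prime).dvd_of_dvd_pow h1
        exact hr2 ((Nat.prime_dvd_prime_iff_eq (Fact.out : r.Prime) Nat.prime_two).mp h2)
      · exact h
    obtain ⟨g, hg, hgr, hfix⟩ := Helper30.bgMinus_exists d (by omega) a b hab r hr2 hrq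
    have hrank : Even (((g : GL ((Fin (d - 1) ⊕ Fin (d - 1)) ⊕ Fin 2) F) :
        Matrix ((Fin (d - 1) ⊕ Fin (d - 1)) ⊕ Fin 2) ((Fin (d - 1) ⊕ Fin (d - 1)) ⊕ Fin 2) F)
          - 1).rank := by
      have h1 := Helper45.finrank_fixSub_add_rank (Helper43.minusQF (d - 1) F a b) ⟨g, hg⟩
      have h2 : Helper45.fixSub (Helper43.minusQF (d - 1) F a b) ⟨g, hg⟩ = ⊥ := by
        rw [eq_bot_iff]
        intro v hv
        rw [Helper45.mem_fixSub] at hv
        rw [Submodule.mem_bot]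
        exact hfix v hv
      rw [h2, finrank_bot, zero_add, Helper45.card_minus_index] at h1
      rw [h1]
      exact ⟨d - 1 + 1, by ring⟩
    have hgΩ : g ∈ Geo.omegaGL (quadFormMinus (d - 1) F a b) :=
      ⟨⟨g, hg⟩, (Helper45.mem_omega_iff_even_rank (Helper43.minusQF (d - 1) F a b) hQnd hex
        ⟨g, hg⟩).mpr hrank, rfl⟩
    obtain ⟨W, ⟨hW1, v, hvW, hvQ⟩, hWinv⟩ := H g hgΩ
      ⟨1, by rw [hgr, one_smul]; rfl⟩ (by
        intro z hz
        have hz1 := Helper30.bgQ_scalar (Helper43.minusQF (d - 1) F a b) hexQ g hg z hz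
        obtain ⟨v, hv⟩ := hexQ
        have hv0 : v = 0 := hfix v (by rw [hz, hz1, one_smul, Matrix.one_mulVec])
        rw [hv0] at hv
        exact hv (QuadraticMap.map_zero _))
    have hfixv := Helper30.bgQ_fix_of_point (Helper43.minusQF (d - 1) F a b) g hg W hW1 v hvW
      hvQ hWinv
    have hv0 := hfix v hfixv
    rw [hv0] at hvQ
    exact hvQ (QuadraticMap.map_zero (Helper43.minusQF (d - 1) F a b))
  · rintro rfl x hx hz _
    obtain ⟨g, hgΩ, rfl⟩ := hx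
    obtain ⟨z, hz⟩ := hz
    have hz1 : z = 1 := Helper30.bgQ_scalar (Helper43.minusQF (d - 1) F a b) hexQ _
      (pow_mem g.2 2) z hz
    have hgg : g * g = 1 := by
      apply Subtype.ext
      apply Units.ext
      rw [hz1, one_smul] at hz
      rw [← pow_two]
      exact hz
    have h3 := Helper45.fix_involution_ge (Helper43.minusQF (d - 1) F a b) g hgg
    rw [Helper45.card_minus_index] at h3
    have hge : d - 1 + 1 ≤ Module.finrank F
        ↥(Helper45.fixSub (Helper43.minusQF (d - 1) F a b) g) := by omega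
    obtain ⟨v, hv, hQv⟩ := Helper45.minus_exists_nonsingular (d - 1) a b hab
      (Helper45.fixSub (Helper43.minusQF (d - 1) F a b) g) hge
    have hv' : Matrix.mulVec ((g : GL ((Fin (d - 1) ⊕ Fin (d - 1)) ⊕ Fin 2) F) :
        Matrix ((Fin (d - 1) ⊕ Fin (d - 1)) ⊕ Fin 2) ((Fin (d - 1) ⊕ Fin (d - 1)) ⊕ Fin 2) F) v
          = v :=
      (Helper45.mem_fixSub (Helper43.minusQF (d - 1) F a b) g v).mp hv
    exact Helper30.bgQ_point_of_fix (Helper43.minusQF (d - 1) F a b) _ v hQv hv'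

end Cfsg.Agent.S5986
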