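import Cfsg.Statements.S5988
import Cfsg.Agent.Helper35.S88Defs
import Cfsg.Agent.Helper35.S88OOB
import Cfsg.Agent.Helper90.S88R2Main
import Cfsg.Agent.Helper96.S88OEB
import Cfsg.Agent.Helper96.S88OEG
import Cfsg.Agent.Helper96.S88OOG
import Cfsg.Agent.Helper98.S88P
-- import your own Cfsg.Agent.* helpers here

set_option autoImplicit false
open scoped MatrixGroups
open Cfsg

namespace Cfsg.Agent.S5988

open Cfsg.Agent.Helper35.S88

/-- Elements of prime order of PΩ⁺_n(q) with no fixed elliptic `m`-space. Here `T = PΩ⁺_n(F)`, `n = 2d ≥ 8`, realised through `Ω⁺_n(q)`, the commutator subgroup of the isometry group of `Q = Σ xᵢyᵢ` over the field `F` with `q` elements; an element of `T` of prime order `r` is an element `x` of `Ω⁺_n(q)` with `x^r` scalar and `x` not scalar; a nondegenerate `m`-space (even `m`) is a subspace on which the polar form of `Q` is nondegenerate; it is hyperbolic if it contains an `m/2`-dimensional subspace on which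 `Q` vanishes, elliptic otherwise. Let `m` be even with `2 ≤ m < n/2` and let `r` be a prime dividing the number of elliptic `m`-spaces; for `r ≠ p` let `i` be the multiplicative order of `q` modulo `r`, `c = i` for `i` even and `c = 2i` for `i` odd, and write `k = n mod c`, `ℓ = m mod i`, `ℓ' = m mod c`, `n' = ⌊n/i⌋`, `m' = ⌊m/i⌋`, `t = (r−1)/i`. Then every element of `T` of order `r` fixes some elliptic `m`-space if and only if one of: (i) `r = 2 ≠ p` and either `n ≡ 0 (mod 4)`, `q ≡ 3 (mod 4)` and `m ≡ 2 (mod 4)`, or `n ≡ 2 (mod 4)` and `q ≢ 1 (mod 8)`; (ii) `r ≠ p` odd, `i` odd, `c ≤ m` and `k > ℓ' > 0`; (iii) `r ≠ p` odd, `i` even, and either `k = 0` and (`n/i` odd, or `ℓ' = 0` and `m/i` odd), or `i ≤ m` and (`k > ℓ' > 0`, or `k = ℓ' > 0` and `(n + m − 2k)/i` odd, or `k > ℓ' = 0` and `m/i` odd). (For `r = p` there is always an element of order `p` fixing no elliptic `m`-space.) -/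
theorem result {F : Type*} [Field F] [Fintype F] {p : ℕ} [Fact p.Prime] [CharP F p] {q : ℕ} (hq : Fintype.card F = q)
    (d m : ℕ) (hd : 4 ≤ d) (hm : 2 ≤ m) (hme : Even m) (hmd : m < d)
    (r : ℕ) [Fact r.Prime]
    (hrΩ : r ∣ Nat.card {W : Submodule F (Fin d ⊕ Fin d → F) // Module.finrank F ↥W = m ∧ Cfsg.Geo.IsNondegenerateOn (QuadraticMap.polar (Cfsg.quadFormPlus d F)) W ∧ ¬ Cfsg.Geo.IsPlusTypeOn (Cfsg.quadFormPlus d F) W})
    (i c : ℕ) (hi : i = orderOf (q : ZMod r)) (hc : c = if Even i then i else 2 * i) :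
    (∀ x : GL (Fin d ⊕ Fin d) F, x ∈ Cfsg.Geo.omegaGL (Cfsg.quadFormPlus d F) →
      (∃ z : F, ((x ^ r : GL (Fin d ⊕ Fin d) F) : Matrix (Fin d ⊕ Fin d) (Fin d ⊕ Fin d) F) = z • (1 : Matrix (Fin d ⊕ Fin d) (Fin d ⊕ Fin d) F)) →
      (∀ z : F, (x : Matrix (Fin d ⊕ Fin d) (Fin d ⊕ Fin d) F) ≠ z • (1 : Matrix (Fin d ⊕ Fin d) (Fin d ⊕ Fin d) F)) →
      ∃ W : Submodule F (Fin d ⊕ Fin d → F), (Module.finrank F ↥W = m ∧ Cfsg.Geo.IsNondegenerateOn (QuadraticMap.polar (Cfsg.quadFormPlus d F)) W ∧ ¬ Cfsg.Geo.IsPlusTypeOn (Cfsg.quadFormPlus d F) W) ∧ W.map (Matrix.toLin' (x : Matrix (Fin d ⊕ Fin d) (Fin d ⊕ Fin d) F)) ≤ W) ↔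
    ((r = 2 ∧ p ≠ 2 ∧ ((Even d ∧ q % 4 = 3 ∧ m % 4 = 2) ∨ (Odd d ∧ q % 8 ≠ 1))) ∨
     (r ≠ p ∧ 2 < r ∧ Odd i ∧ c ≤ m ∧ 0 < m % c ∧ m % c < (2 * d) % c) ∨
     (r ≠ p ∧ 2 < r ∧ Even i ∧
       (((2 * d) % c = 0 ∧ (Odd ((2 * d) / i) ∨ (m % c = 0 ∧ Odd (m / i)))) ∨
        (i ≤ m ∧ ((0 < m % c ∧ m % c < (2 * d) % c) ∨
                  (0 < m % c ∧ m % c = (2 * d) % c ∧ Odd ((2 * d + m - 2 * ((2 * d) % c)) / i)) ∨
                  (m % c = 0 ∧ 0 < (2 * d) % c ∧ Odd (m / i))))))) := by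
  classical
  have hrpr : r.Prime := Fact.out
  change AllEll (Cfsg.quadFormPlus d F) r m ↔ _
  by_cases hrp : r = p
  · constructor
    · intro hall
      exfalso
      obtain ⟨x, hxΩ, hxp, hns, hno⟩ := Cfsg.Agent.Helper98.S88.s88_p (F := F) (p := p) d m hd hm hme hmd
      exact hno (hall x hxΩ ⟨1, by rw [hrp, hxp]; simp⟩ hns)
    · rintro (⟨h2, hp2, -⟩ | ⟨hne, -⟩ | ⟨hne, -⟩)
      · exact absurd (hrp.symm.trans h2) hp2
      · exact absurd hrp hne
      · exact absurd hrp hne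
  · by_cases hr2 : r = 2
    · subst hr2
      have hp2 : p ≠ 2 := fun h => hrp h.symm
      constructor
      · intro hall
        exact Or.inl ⟨rfl, hp2, Cfsg.Agent.Helper90.S88.s88_two_bad hq d m hd hm hme hmd hp2 hrΩ hall⟩
      · rintro (⟨-, -, hcond⟩ | ⟨-, h, -⟩ | ⟨-, h, -⟩)
        · exact Cfsg.Agent.Helper90.S88.s88_two_good hq d m hd hm hme hmd hp2 hcond
        · exact absurd h (lt_irrefl 2)
        · exact absurd h (lt_irrefl 2)
    · have hr2' : 2 < r := by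
        have := hrpr.two_le
        omega
      rcases Nat.even_or_odd i with heven | hodd
      · rw [if_pos heven] at hc
        subst hc
        constructor
        · intro hall
          exact Or.inr (Or.inr ⟨hrp, hr2', heven,
            Cfsg.Agent.Helper96.S88.s88_even_bad hq d m hd hm hme hmd r hr2' hrp c hi heven hrΩ hall⟩)
        · rintro (⟨h, -⟩ | ⟨-, -, ho, -⟩ | ⟨-, -, -, hcond⟩)
          · exact absurd h hr2
          · exact absurd heven (Nat.not_even_iff_odd.mpr ho)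
          · exact Cfsg.Agent.Helper96.S88.s88_even_good hq d m hd hm hme hmd r hr2' hrp c hi heven hcond
      · rw [if_neg (Nat.not_even_iff_odd.mpr hodd)] at hc
        subst hc
        constructor
        · intro hall
          exact Or.inr (Or.inl ⟨hrp, hr2', hodd,
            Cfsg.Agent.Helper35.S88.s88_odd_bad hq d m hd hm hme hmd r hr2' hrp i hi hodd hrΩ hall⟩)
        · rintro (⟨h, -⟩ | ⟨-, -, -, hcond⟩ | ⟨-, -, he, -⟩)
          · exact absurd h hr2
          · exact Cfsg.Agent.Helper96.S88.s88_odd_good hq d m hd hm hme hmd r hr2' hrp i hi hodd hcond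
          · exact absurd he (Nat.not_even_iff_odd.mpr hodd)

end Cfsg.Agent.S5988
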