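import Cfsg.Statements.S5990
import Cfsg.Agent.Helper35.S88Defs
import Cfsg.Agent.Helper33.S90OOG
import Cfsg.Agent.Helper35.S90OOB
import Cfsg.Agent.Helper46.S90OEG
import Cfsg.Agent.Helper84.S90OEB
import Cfsg.Agent.Helper50.S90R2G
import Cfsg.Agent.Helper52.S90R2B
import Cfsg.Agent.Helper85.S90T2B
import Cfsg.Agent.Helper97.S90T2G

set_option autoImplicit false
open scoped MatrixGroups
open Cfsg

namespace Cfsg.Agent.S5990

open Cfsg.Agent.Helper35.S88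
open Cfsg.Agent.Helper33.S90 (s90_odd_good)
open Cfsg.Agent.Helper35.S90 (s90_odd_bad)
open Cfsg.Agent.Helper46.S90 (s90_even_good)
open Cfsg.Agent.Helper84.S90 (s90_even_bad)
open Cfsg.Agent.Helper50.S90 (s90_two_good)
open Cfsg.Agent.Helper52.S90 (s90_two_bad)
open Cfsg.Agent.Helper85.S90 (s90_two_even_bad)
open Cfsg.Agent.Helper97.S90 (s90_two_even_good)

/-- Elements of prime order of PΩ⁻_n(q) with no fixed elliptic `m`-space. Here `T = PΩ⁻_n(F)`, `n = 2d ≥ 8`, realised through `Ω⁻_n(q)`, the commutator subgroup of the isometry group of `Q = Σ_{i<d−1} xᵢyᵢ + z₁² + a z₁z₂ + b z₂²` with `z₁² + a z₁z₂ + b z₂²` anisotropic, over the field `F` with `q` elements; an element of `T` of prime order `r` is an element `x` of `Ω⁻_n(q)` with `x^r` scalar and `x` not scalar; a nondegenerate `m`-space (even `m`) is a subspace on which the polar form of `Q` is nondegenerate; it is hyperbolic if it contains an `m/2`-dimensional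 subspace on which `Q` vanishes, elliptic otherwise. Let `m` be even with `2 ≤ m ≤ n − 2` (no restriction `m < n/2`: fixing an elliptic `m`-space is the same as fixing its hyperbolic orthogonal complement) and let `r` be a prime dividing the number of elliptic `m`-spaces, with `r = 2` or `r ≠ p`; for `r ≠ p` let `i` be the multiplicative order of `q` modulo `r`, `c = i` for `i` even and `c = 2i` for `i` odd, and write `k = n mod c`, `ℓ = m mod i`, `ℓ' = m mod c`, `n' = ⌊n/i⌋`, `m' = ⌊m/i⌋`, `t = (r−1)/i`. Then every element of `T` of order `r` fixes some elliptic `m`-space if and only if one of: (i) `r = p = 2` and (`n ≡ 0 (mod 4)` or `m ≡ 2 (mod 4)`); (ii) `r = 2 ≠ p` and (`n ≡ 0 (mod 4)`, or `q ≢ 7 (mod 8)`, or `m ≡ 2 (mod 4)`); (iii) `r ≠ p` odd, `i` odd, and `k = 0` or (`c ≤ m` and `k ≥ ℓ' > 0`); (iv) `r ≠ p` odd, `i` even, and either `k = 0` and (`n/i` even, or `ℓ' = 0` and `m/i` odd), or `k > 0`, `i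 ≤ m` and (`k > ℓ' > 0`, or `ℓ' = 0` and `m/i` odd, or `k = ℓ'` and `(n + m − 2k)/i` even). (Odd `r = p` is not covered by this statement.) -/
theorem result {F : Type*} [Field F] [Fintype F] {p : ℕ} [Fact p.Prime] [CharP F p] {q : ℕ} (hq : Fintype.card F = q)
    (d m : ℕ) (hd : 4 ≤ d) (hm : 2 ≤ m) (hme : Even m) (hmn : m + 2 ≤ 2 * d) (a b : F) (hab : ∀ x y : F, x ^ 2 + a * x * y + b * y ^ 2 = 0 → x = 0 ∧ y = 0)
    (r : ℕ) [Fact r.Prime] (hr : r = 2 ∨ r ≠ p)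
    (hrΩ : r ∣ Nat.card {W : Submodule F ((Fin (d - 1) ⊕ Fin (d - 1)) ⊕ Fin 2 → F) // Module.finrank F ↥W = m ∧ Cfsg.Geo.IsNondegenerateOn (QuadraticMap.polar (Cfsg.quadFormMinus (d - 1) F a b)) W ∧ ¬ Cfsg.Geo.IsPlusTypeOn (Cfsg.quadFormMinus (d - 1) F a b) W})
    (i c : ℕ) (hi : i = orderOf (q : ZMod r)) (hc : c = if Even i then i else 2 * i) :
    (∀ x : GL ((Fin (d - 1) ⊕ Fin (d - 1)) ⊕ Fin 2) F, x ∈ Cfsg.Geo.omegaGL (Cfsg.quadFormMinus (d - 1) F a b) →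
      (∃ z : F, ((x ^ r : GL ((Fin (d - 1) ⊕ Fin (d - 1)) ⊕ Fin 2) F) : Matrix ((Fin (d - 1) ⊕ Fin (d - 1)) ⊕ Fin 2) ((Fin (d - 1) ⊕ Fin (d - 1)) ⊕ Fin 2) F) = z • (1 : Matrix ((Fin (d - 1) ⊕ Fin (d - 1)) ⊕ Fin 2) ((Fin (d - 1) ⊕ Fin (d - 1)) ⊕ Fin 2) F)) →
      (∀ z : F, (x : Matrix ((Fin (d - 1) ⊕ Fin (d - 1)) ⊕ Fin 2) ((Fin (d - 1) ⊕ Fin (d - 1)) ⊕ Fin 2) F) ≠ z • (1 : Matrix ((Fin (d - 1) ⊕ Fin (d - 1)) ⊕ Fin 2) ((Fin (d - 1) ⊕ Fin (d - 1)) ⊕ Fin 2) F)) →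
      ∃ W : Submodule F ((Fin (d - 1) ⊕ Fin (d - 1)) ⊕ Fin 2 → F), (Module.finrank F ↥W = m ∧ Cfsg.Geo.IsNondegenerateOn (QuadraticMap.polar (Cfsg.quadFormMinus (d - 1) F a b)) W ∧ ¬ Cfsg.Geo.IsPlusTypeOn (Cfsg.quadFormMinus (d - 1) F a b) W) ∧ W.map (Matrix.toLin' (x : Matrix ((Fin (d - 1) ⊕ Fin (d - 1)) ⊕ Fin 2) ((Fin (d - 1) ⊕ Fin (d - 1)) ⊕ Fin 2) F)) ≤ W) ↔
    ((r = 2 ∧ p = 2 ∧ (Even d ∨ m % 4 = 2)) ∨
     (r = 2 ∧ p ≠ 2 ∧ (Even d ∨ q % 8 ≠ 7 ∨ m % 4 = 2)) ∨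
     (r ≠ p ∧ 2 < r ∧ Odd i ∧ ((2 * d) % c = 0 ∨ (c ≤ m ∧ 0 < m % c ∧ m % c ≤ (2 * d) % c))) ∨
     (r ≠ p ∧ 2 < r ∧ Even i ∧
       (((2 * d) % c = 0 ∧ (Even ((2 * d) / i) ∨ (m % c = 0 ∧ Odd (m / i)))) ∨
        (0 < (2 * d) % c ∧ i ≤ m ∧ ((0 < m % c ∧ m % c < (2 * d) % c) ∨ (m % c = 0 ∧ Odd (m / i)) ∨
                                    (m % c = (2 * d) % c ∧ Even ((2 * d + m - 2 * ((2 * d) % c)) / i))))))) := by
  classical
  have hrpr : r.Prime := Fact.out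
  change AllEll (Cfsg.quadFormMinus (d - 1) F a b) r m ↔ _
  by_cases hr2 : r = 2
  · subst hr2
    by_cases hp2 : p = 2
    · constructor
      · intro hall
        exact Or.inl ⟨rfl, hp2, s90_two_even_bad d m hd hm hme hmn a b hab hp2 hall⟩
      · rintro (⟨-, -, hcond⟩ | ⟨-, h, -⟩ | ⟨-, h, -⟩ | ⟨-, h, -⟩)
        · exact s90_two_even_good d m hd hm hme hmn a b hab hp2 hcond
        · exact absurd hp2 h
        · exact absurd h (lt_irrefl 2)
        · exact absurd h (lt_irrefl 2)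
    · constructor
      · intro hall
        exact Or.inr (Or.inl ⟨rfl, hp2, s90_two_bad hq d m hd hm hme hmn a b hab hp2 hall⟩)
      · rintro (⟨-, h, -⟩ | ⟨-, -, hcond⟩ | ⟨-, h, -⟩ | ⟨-, h, -⟩)
        · exact absurd h hp2
        · exact s90_two_good hq d m hd hm hme hmn a b hab hp2 hcond
        · exact absurd h (lt_irrefl 2)
        · exact absurd h (lt_irrefl 2)
  · have hrp : r ≠ p := by
      rcases hr with h | h
      · exact absurd h hr2
      · exact h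
    have hr2' : 2 < r := by
      have := hrpr.two_le
      omega
    rcases Nat.even_or_odd i with heven | hodd
    · rw [if_pos heven] at hc
      subst hc
      constructor
      · intro hall
        exact Or.inr (Or.inr (Or.inr ⟨hrp, hr2', heven,
          s90_even_bad hq d m hd hm hme hmn a b hab r hr2' hrp c hi heven hrΩ hall⟩))
      · rintro (⟨h, -⟩ | ⟨h, -⟩ | ⟨-, -, ho, -⟩ | ⟨-, -, -, hcond⟩)
        · exact absurd h hr2
        · exact absurd h hr2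
        · exact absurd heven (Nat.not_even_iff_odd.mpr ho)
        · exact s90_even_good hq d m hd hm hme hmn a b hab r hr2' hrp c hi heven hcond
    · rw [if_neg (Nat.not_even_iff_odd.mpr hodd)] at hc
      subst hc
      constructor
      · intro hall
        exact Or.inr (Or.inr (Or.inl ⟨hrp, hr2', hodd,
          s90_odd_bad hq d m hd hm hme hmn a b hab r hr2' hrp i hi hodd hrΩ hall⟩))
      · rintro (⟨h, -⟩ | ⟨h, -⟩ | ⟨-, -, -, hcond⟩ | ⟨-, -, he, -⟩)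
        · exact absurd h hr2
        · exact absurd h hr2
        · exact s90_odd_good hq d m hd hm hme hmn a b hab r hr2' hrp i hi hodd hcond
        · exact absurd he (Nat.not_even_iff_odd.mpr hodd)

end Cfsg.Agent.S5990
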