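import Cfsg.Statements.S5994
import Cfsg.Agent.Helper43.UniMain
import Cfsg.Agent.Helper43.UniMinus
import Cfsg.Agent.Helper10.U5994Mod4
import Cfsg.Agent.Helper10.U5994CombAllEven

set_option autoImplicit false
open scoped MatrixGroups
open Cfsg

namespace Cfsg.Agent.S5994

open Module Cfsg.Agent.Helper43 Cfsg.Agent.Helper43.UniIso Cfsg.Agent.Helper43.UniMain
  Cfsg.Agent.Helper43.OrthEven Cfsg.Agent.Helper43.UniMinus

/-- A necessary condition for every element of order p of PΩ⁻_n(q), q odd, to fix an elliptic `m`-space. Here `T = PΩ⁻_n(F)`, `n = 2d ≥ 8`, realised through `Ω⁻_n(q)`, the commutator subgroup of the isometry group of `Q = Σ_{i<d−1} xᵢyᵢ + z₁² + a z₁z₂ + b z₂²` with `z₁² + a z₁z₂ + b z₂²` anisotropic, over the field `F` with `q` elements; an element of `T` of prime order `r` is an element `x` of `Ω⁻_n(q)` with `x^r` scalar and `x` not scalar; `q` is odd; a nondegenerate `m`-space (even `m`) is a subspace on which the polar form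 of `Q` is nondegenerate; it is hyperbolic if it contains an `m/2`-dimensional subspace on which `Q` vanishes, elliptic otherwise. Let `m` be even with `2 ≤ m ≤ n − 2` and suppose `p` divides the number of elliptic `m`-spaces. If every element of `T` of order `p` fixes some elliptic `m`-space, then `n ≡ m (mod 4)` and every partition of `n` into parts of size at most `p` in which every even part has even multiplicity contains (as a sub-multiset) a partition of `m` in which every even part has even multiplicity. -/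
theorem result {F : Type*} [Field F] [Fintype F] {p : ℕ} [Fact p.Prime] [CharP F p] {q : ℕ} (hq : Fintype.card F = q) (hqodd : Odd q)
    (d m : ℕ) (hd : 4 ≤ d) (hm : 2 ≤ m) (hme : Even m) (hmn : m + 2 ≤ 2 * d) (a b : F) (hab : ∀ x y : F, x ^ 2 + a * x * y + b * y ^ 2 = 0 → x = 0 ∧ y = 0)
    (hpΩ : p ∣ Nat.card {W : Submodule F ((Fin (d - 1) ⊕ Fin (d - 1)) ⊕ Fin 2 → F) // Module.finrank F ↥W = m ∧ Cfsg.Geo.IsNondegenerateOn (QuadraticMap.polar (Cfsg.quadFormMinus (d - 1) F a b)) W ∧ ¬ Cfsg.Geo.IsPlusTypeOn (Cfsg.quadFormMinus (d - 1) F a b) W}) :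
    (∀ x : GL ((Fin (d - 1) ⊕ Fin (d - 1)) ⊕ Fin 2) F, x ∈ Cfsg.Geo.omegaGL (Cfsg.quadFormMinus (d - 1) F a b) →
      (∃ z : F, ((x ^ p : GL ((Fin (d - 1) ⊕ Fin (d - 1)) ⊕ Fin 2) F) : Matrix ((Fin (d - 1) ⊕ Fin (d - 1)) ⊕ Fin 2) ((Fin (d - 1) ⊕ Fin (d - 1)) ⊕ Fin 2) F) = z • (1 : Matrix ((Fin (d - 1) ⊕ Fin (d - 1)) ⊕ Fin 2) ((Fin (d - 1) ⊕ Fin (d - 1)) ⊕ Fin 2) F)) →
      (∀ z : F, (x : Matrix ((Fin (d - 1) ⊕ Fin (d - 1)) ⊕ Fin 2) ((Fin (d - 1) ⊕ Fin (d - 1)) ⊕ Fin 2) F) ≠ z • (1 : Matrix ((Fin (d - 1) ⊕ Fin (d - 1)) ⊕ Fin 2) ((Fin (d - 1) ⊕ Fin (d - 1)) ⊕ Fin 2) F)) →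
      ∃ W : Submodule F ((Fin (d - 1) ⊕ Fin (d - 1)) ⊕ Fin 2 → F), (Module.finrank F ↥W = m ∧ Cfsg.Geo.IsNondegenerateOn (QuadraticMap.polar (Cfsg.quadFormMinus (d - 1) F a b)) W ∧ ¬ Cfsg.Geo.IsPlusTypeOn (Cfsg.quadFormMinus (d - 1) F a b) W) ∧ W.map (Matrix.toLin' (x : Matrix ((Fin (d - 1) ⊕ Fin (d - 1)) ⊕ Fin 2) ((Fin (d - 1) ⊕ Fin (d - 1)) ⊕ Fin 2) F)) ≤ W) →
    ((2 * d) % 4 = m % 4 ∧ (∀ μ : Multiset ℕ, (∀ e ∈ μ, 0 < e ∧ e ≤ p) → (∀ e : ℕ, Even e → Even (μ.count e)) → μ.sum = 2 * d →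
        ∃ ν : Multiset ℕ, ν ≤ μ ∧ ν.sum = m ∧ ∀ e : ℕ, Even e → Even (ν.count e))) := by
  classical
  intro H
  have hpp : p.Prime := Fact.out
  have hp2 : p ≠ 2 := by
    intro h
    obtain ⟨n, -, hn⟩ := FiniteField.card F p
    rw [hq, h] at hn
    rw [hn] at hqodd
    exact (Nat.not_even_iff_odd.mpr hqodd) (Nat.even_pow.mpr ⟨even_two, n.pos.ne'⟩)
  have hpodd : Odd p := hpp.odd_of_ne_two hp2
  have hp3 : 3 ≤ p := by
    have := hpp.two_le
    omega
  have h2 : (2 : F) ≠ 0 := by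
    intro h
    have h' : ((2 : ℕ) : F) = 0 := by exact_mod_cast h
    have hd2 : p ∣ 2 := (CharP.cast_eq_zero_iff F p 2).mp h'
    exact hp2 ((Nat.prime_dvd_prime_iff_eq hpp Nat.prime_two).mp hd2)
  haveI : Nonempty ((Fin (d - 1) ⊕ Fin (d - 1)) ⊕ Fin 2) := ⟨Sum.inr 0⟩
  have hcard : Fintype.card ((Fin (d - 1) ⊕ Fin (d - 1)) ⊕ Fin 2) = 2 * d := by
    rw [Fintype.card_sum, Fintype.card_sum, Fintype.card_fin, Fintype.card_fin]
    omega
  have keyodd : ∀ μ : Multiset ℕ, (∀ e ∈ μ, 0 < e ∧ e ≤ p) →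
      (∀ e : ℕ, Even e → Even (μ.count e)) → μ.sum = 2 * d → (∃ e ∈ μ, Odd e) →
      (μ = Multiset.replicate (2 * d) 1 ∨
        ∃ ν : Multiset ℕ, ν ≤ μ ∧ ν.sum = m ∧ (∀ e : ℕ, Even e → Even (ν.count e)) ∧
          ∃ e ∈ ν, Odd e) := by
    intro μ hμ hpar hsum hodd
    obtain ⟨A, hA, hAk⟩ := exists_matrix_minus h2 a b hab d μ (fun e he => (hμ e he).1) hpar hsum
      hodd
    have key := key_general p hp2 (minusQF (d - 1) F a b) (minusQF_nondeg (d - 1) a b hab) m
      (fun W => Module.finrank F ↥W = m ∧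
        Cfsg.Geo.IsNondegenerateOn (QuadraticMap.polar (Cfsg.quadFormMinus (d - 1) F a b)) W ∧
        ¬ Cfsg.Geo.IsPlusTypeOn (Cfsg.quadFormMinus (d - 1) F a b) W)
      (fun W hW => ⟨hW.1, hW.2.1⟩)
      (fun x hxΩ hxp hx1 hxs => H x hxΩ ⟨1, by rw [hxp]; simp⟩ hxs) μ hμ
      (by rw [hsum, hcard]) A hA hAk
    rcases key with hμ1 | ⟨W, ν, hGW, hWA, hnil, hνμ, hνs, hνp, hνc⟩
    · left
      rw [hμ1, hcard]
    · right
      refine ⟨ν, hνμ, hνs, hνp, ?_⟩
      by_contra hno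
      push Not at hno
      apply hGW.2.2
      apply Cfsg.Agent.Helper43.UniEll.plus_of_all_even h2 (minusQF (d - 1) F a b) A hA ⟨p, hnil⟩ W hWA
        (by rw [hGW.1]; exact hme)
      intro e he
      have h1 := hνc e he.pos
      have h0 : ν.count e = 0 := Multiset.count_eq_zero_of_notMem (fun h => hno e h he)
      rw [h0, zero_add] at h1
      exact h1
  have key : ∀ μ : Multiset ℕ, (∀ e ∈ μ, 0 < e ∧ e ≤ p) →
      (∀ e : ℕ, Even e → Even (μ.count e)) → μ.sum = 2 * d →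
      ∃ ν : Multiset ℕ, ν ≤ μ ∧ ν.sum = m ∧ ∀ e : ℕ, Even e → Even (ν.count e) := by
    intro μ hμ hpar hsum
    by_cases hodd : ∃ e ∈ μ, Odd e
    · rcases keyodd μ hμ hpar hsum hodd with h1 | ⟨ν, h1, h3, h4, -⟩
      · refine ⟨Multiset.replicate m 1, ?_, ?_, ?_⟩
        · rw [h1, Multiset.replicate_le_replicate]
          omega
        · simp
        · intro e he
          rw [Multiset.count_replicate]
          split_ifs with h5
          · exfalso
            rw [← h5] at he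
            exact Nat.not_even_one he
          · exact Even.zero
      · exact ⟨ν, h1, h3, h4⟩
    · push Not at hodd
      have hall : ∀ e ∈ μ, Even e := fun e he => Nat.not_odd_iff_even.mp (hodd e he)
      have hne : μ ≠ 0 := by
        rintro rfl
        rw [Multiset.sum_zero] at hsum
        omega
      obtain ⟨μ', hμ', hpar', hsum', ⟨e₀, he₀, he₀o, he₀3⟩, hback⟩ :=
        Cfsg.Agent.Helper10.comb_all_even p hpodd μ hμ hall hpar hne m hme
      rcases keyodd μ' hμ' hpar' (hsum'.trans hsum) ⟨e₀, he₀, he₀o⟩ with h1 | ⟨ν', h1, h3, h4, h5⟩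
      · exfalso
        rw [h1] at he₀
        have := Multiset.eq_of_mem_replicate he₀
        omega
      · exact hback ν' h1 h3 h4 h5
  refine ⟨?_, key⟩
  rcases Nat.even_or_odd d with hde | hdo
  · obtain ⟨ν, hν, hs, hpν⟩ := key (Multiset.replicate d 2) (by
      intro e he
      rw [Multiset.eq_of_mem_replicate he]
      exact ⟨two_pos, by omega⟩) (by
      intro e he
      rw [Multiset.count_replicate]
      split_ifs with h3
      · exact hde
      · exact Even.zero) (by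
      rw [Multiset.sum_replicate, smul_eq_mul]
      ring)
    have h4 := Cfsg.Agent.Helper10.mod4_zero_of_sub d 1 odd_one m hme ν
      (hν.trans (Multiset.le_cons_self _ _)) hs hpν
    obtain ⟨k, hk⟩ := hde
    omega
  · rcases keyodd (1 ::ₘ 1 ::ₘ Multiset.replicate (d - 1) 2) (by
      intro e he
      rw [Multiset.mem_cons, Multiset.mem_cons] at he
      rcases he with rfl | rfl | he
      · exact ⟨one_pos, by omega⟩
      · exact ⟨one_pos, by omega⟩
      · rw [Multiset.eq_of_mem_replicate he]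
        exact ⟨two_pos, by omega⟩) (by
      intro e he
      rw [Multiset.count_cons, Multiset.count_cons, Multiset.count_replicate]
      have h1 : e ≠ 1 := by
        rintro rfl
        exact Nat.not_even_one he
      rw [if_neg h1, add_zero, add_zero]
      split_ifs with h3
      · exact Nat.Odd.sub_odd hdo odd_one
      · exact Even.zero) (by
      rw [Multiset.sum_cons, Multiset.sum_cons, Multiset.sum_replicate, smul_eq_mul]
      omega) ⟨1, Multiset.mem_cons_self _ _, odd_one⟩ with h1 | ⟨ν, hν, hs, hpν, hoddν⟩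
    · exfalso
      have hmem : (2 : ℕ) ∈ 1 ::ₘ 1 ::ₘ Multiset.replicate (d - 1) 2 := by
        rw [Multiset.mem_cons, Multiset.mem_cons, Multiset.mem_replicate]
        right; right
        exact ⟨by omega, rfl⟩
      rw [h1] at hmem
      have := Multiset.eq_of_mem_replicate hmem
      omega
    · have h4 := Cfsg.Agent.Helper10.mod4_two_of_sub (d - 1) m hme ν hν hs hpν hoddν
      obtain ⟨k, hk⟩ := hdo
      omega

end Cfsg.Agent.S5994
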