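import Cfsg.Statements.S5995
import Cfsg.Agent.Helper43.UniMain
import Cfsg.Agent.Helper43.PrimeOrdO
import Cfsg.Agent.Helper10.U5994Mod4

set_option autoImplicit false
open scoped MatrixGroups
open Cfsg

namespace Cfsg.Agent.S5995

open Module Cfsg.Agent.Helper43 Cfsg.Agent.Helper43.UniIso Cfsg.Agent.Helper43.UniMain
  Cfsg.Agent.Helper43.OrthEven Cfsg.Agent.Helper43.OrthStd Cfsg.Agent.Helper43.PrimeOrdO

/-- A necessary condition for every element of order p of Ω_n(q), nq odd, to fix a hyperbolic `m`-space. Here `T = Ω_n(F)`, `n = 2d+1 ≥ 7`, `q` odd, realised as the commutator subgroup of the isometry group of `Q = x₀² + Σ xᵢyᵢ` over the field `F` with `q` elements (trivial centre, so its elements of prime order `r` are used directly); a nondegenerate `m`-space (even `m`) is a subspace on which the polar form of `Q` is nondegenerate; it is hyperbolic if it contains an `m/2`-dimensional subspace on which `Q` vanishes, elliptic otherwise. Let `m` be even with `2 ≤ m ≤ n − 1` and suppose `p`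 divides the number of hyperbolic `m`-spaces. If every element of `T` of order `p` fixes some hyperbolic `m`-space, then `m ≡ 0 (mod 4)` and every partition of `n` into parts of size at most `p` in which every even part has even multiplicity contains (as a sub-multiset) a partition of `m` in which every even part has even multiplicity. -/
theorem result {F : Type*} [Field F] [Fintype F] {p : ℕ} [Fact p.Prime] [CharP F p] {q : ℕ} (hq : Fintype.card F = q) (hqodd : Odd q)
    (d m : ℕ) (hd : 3 ≤ d) (hm : 2 ≤ m) (hme : Even m) (hmn : m ≤ 2 * d)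
    (hpΩ : p ∣ Nat.card {W : Submodule F (Unit ⊕ (Fin d ⊕ Fin d) → F) // Module.finrank F ↥W = m ∧ Cfsg.Geo.IsNondegenerateOn (QuadraticMap.polar (Cfsg.quadFormOdd d F)) W ∧ Cfsg.Geo.IsPlusTypeOn (Cfsg.quadFormOdd d F) W}) :
    (∀ x : GL (Unit ⊕ (Fin d ⊕ Fin d)) F, x ∈ Cfsg.Geo.omegaGL (Cfsg.quadFormOdd d F) → orderOf x = p →
      ∃ W : Submodule F (Unit ⊕ (Fin d ⊕ Fin d) → F), (Module.finrank F ↥W = m ∧ Cfsg.Geo.IsNondegenerateOn (QuadraticMap.polar (Cfsg.quadFormOdd d F)) W ∧ Cfsg.Geo.IsPlusTypeOn (Cfsg.quadFormOdd d F) W) ∧ W.map (Matrix.toLin' (x : Matrix (Unit ⊕ (Fin d ⊕ Fin d)) (Unit ⊕ (Fin d ⊕ Fin d)) F)) ≤ W) →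
    (m % 4 = 0 ∧ (∀ μ : Multiset ℕ, (∀ e ∈ μ, 0 < e ∧ e ≤ p) → (∀ e : ℕ, Even e → Even (μ.count e)) → μ.sum = 2 * d + 1 →
        ∃ ν : Multiset ℕ, ν ≤ μ ∧ ν.sum = m ∧ ∀ e : ℕ, Even e → Even (ν.count e))) := by
  classical
  intro H
  have hpp : p.Prime := Fact.out
  have hp2 : p ≠ 2 := by
    intro h
    obtain ⟨n, -, hn⟩ := FiniteField.card F p
    rw [hq, h] at hn
    rw [hn] at hqodd
    exact (Nat.not_even_iff_odd.mpr hqodd) (Nat.even_pow.mpr ⟨even_two, n.pos.ne'⟩)
  have hp3 : 3 ≤ p := by
    have := hpp.two_le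
    omega
  have h2 : (2 : F) ≠ 0 := by
    intro h
    have h' : ((2 : ℕ) : F) = 0 := by exact_mod_cast h
    have hd2 : p ∣ 2 := (CharP.cast_eq_zero_iff F p 2).mp h'
    exact hp2 ((Nat.prime_dvd_prime_iff_eq hpp Nat.prime_two).mp hd2)
  have key : ∀ μ : Multiset ℕ, (∀ e ∈ μ, 0 < e ∧ e ≤ p) → (∀ e : ℕ, Even e → Even (μ.count e)) →
      μ.sum = 2 * d + 1 →
      ∃ ν : Multiset ℕ, ν ≤ μ ∧ ν.sum = m ∧ ∀ e : ℕ, Even e → Even (ν.count e) := by
    intro μ hμ hpar hsum
    obtain ⟨V, _, _, _, Q, T, hnd, hT, hdim, hk⟩ :=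
      unipO_of_parity (F := F) h2 μ (fun e he => (hμ e he).1) hpar
    obtain ⟨b, c, hc, hb⟩ := exists_basis_odd (m := d) (by rw [hdim, hsum]) Q hnd
    obtain ⟨A, hA, hAk⟩ := exists_matrix_kdim Q T hT b.equivFun.symm (Cfsg.quadFormOdd d F) c hc
      (by intro z; rw [hb, LinearEquiv.apply_symm_apply])
    have key := key_general p hp2 (oddQF d F) (oddQF_nondeg h2 d) m
      (fun W => Module.finrank F ↥W = m ∧
        Cfsg.Geo.IsNondegenerateOn (QuadraticMap.polar (Cfsg.quadFormOdd d F)) W ∧
        Cfsg.Geo.IsPlusTypeOn (Cfsg.quadFormOdd d F) W)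
      (fun W hW => ⟨hW.1, hW.2.1⟩)
      (fun x hxΩ hxp hx1 hxs => H x hxΩ (orderOf_eq_prime hxp hx1)) μ hμ
      (by rw [hsum, Fintype.card_sum, Fintype.card_sum, Fintype.card_fin, Fintype.card_unit]; ring)
      A hA (fun l => by rw [hAk, hk])
    rcases key with hμ1 | ⟨W, ν, -, -, -, hνμ, hνs, hνp, -⟩
    · refine ⟨Multiset.replicate m 1, ?_, ?_, ?_⟩
      · rw [hμ1, Multiset.replicate_le_replicate, Fintype.card_sum, Fintype.card_sum,
          Fintype.card_fin, Fintype.card_unit]
        omega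
      · simp
      · intro e he
        rw [Multiset.count_replicate]
        split_ifs with h1
        · exfalso
          rw [← h1] at he
          exact Nat.not_even_one he
        · exact Even.zero
    · exact ⟨ν, hνμ, hνs, hνp⟩
  refine ⟨?_, key⟩
  rcases Nat.even_or_odd d with hde | hdo
  · obtain ⟨ν, hν, hs, hpν⟩ := key (1 ::ₘ Multiset.replicate d 2) (by
      intro e he
      rw [Multiset.mem_cons] at he
      rcases he with rfl | he
      · exact ⟨one_pos, by omega⟩
      · rw [Multiset.eq_of_mem_replicate he]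
        exact ⟨two_pos, by omega⟩) (by
      intro e he
      rw [Multiset.count_cons, Multiset.count_replicate]
      have h1 : e ≠ 1 := by
        rintro rfl
        exact Nat.not_even_one he
      rw [if_neg h1, add_zero]
      split_ifs with h3
      · exact hde
      · exact Even.zero) (by
      rw [Multiset.sum_cons, Multiset.sum_replicate, smul_eq_mul]
      ring)
    exact Cfsg.Agent.Helper10.mod4_zero_of_sub d 1 odd_one m hme ν hν hs hpν
  · obtain ⟨ν, hν, hs, hpν⟩ := key (3 ::ₘ Multiset.replicate (d - 1) 2) (by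
      intro e he
      rw [Multiset.mem_cons] at he
      rcases he with rfl | he
      · exact ⟨by norm_num, hp3⟩
      · rw [Multiset.eq_of_mem_replicate he]
        exact ⟨two_pos, by omega⟩) (by
      intro e he
      rw [Multiset.count_cons, Multiset.count_replicate]
      have h1 : e ≠ 3 := by
        rintro rfl
        exact (by decide : ¬ Even 3) he
      rw [if_neg h1, add_zero]
      split_ifs with h3
      · exact Nat.Odd.sub_odd hdo odd_one
      · exact Even.zero) (by
      rw [Multiset.sum_cons, Multiset.sum_replicate, smul_eq_mul]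
      omega)
    exact Cfsg.Agent.Helper10.mod4_zero_of_sub (d - 1) 3 (by decide) m hme ν hν hs hpν

end Cfsg.Agent.S5995
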