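import Cfsg.Statements.S5996
import Cfsg.Agent.Helper43.UniMain

set_option autoImplicit false
open scoped MatrixGroups
open Cfsg

namespace Cfsg.Agent.S5996

open Module Cfsg.Agent.Helper43 Cfsg.Agent.Helper43.UniIso Cfsg.Agent.Helper43.UniMain
  Cfsg.Agent.Helper43.OrthEven

/-- A necessary condition for every element of order p of PΩ⁺_n(q), q odd, to fix a hyperbolic `m`-space. Here `T = PΩ⁺_n(F)`, `n = 2d ≥ 8`, realised through `Ω⁺_n(q)`, the commutator subgroup of the isometry group of `Q = Σ xᵢyᵢ` over the field `F` with `q` elements; an element of `T` of prime order `r` is an element `x` of `Ω⁺_n(q)` with `x^r` scalar and `x` not scalar; `q` is odd; a nondegenerate `m`-space (even `m`) is a subspace on which the polar form of `Q` is nondegenerate; it is hyperbolic if it contains an `m/2`-dimensional subspace on which `Q` vanishes, elliptic otherwise. Let `m` be even with `2 ≤ m < n/2` and suppose `p` divides the number of hyperbolic `m`-spaces.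 If every element of `T` of order `p` fixes some hyperbolic `m`-space, then every partition of `n` into parts of size at most `p` in which every even part has even multiplicity contains (as a sub-multiset) a partition of `m` in which every even part has even multiplicity. -/
theorem result {F : Type*} [Field F] [Fintype F] {p : ℕ} [Fact p.Prime] [CharP F p] {q : ℕ} (hq : Fintype.card F = q) (hqodd : Odd q)
    (d m : ℕ) (hd : 4 ≤ d) (hm : 2 ≤ m) (hme : Even m) (hmd : m < d)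
    (hpΩ : p ∣ Nat.card {W : Submodule F (Fin d ⊕ Fin d → F) // Module.finrank F ↥W = m ∧ Cfsg.Geo.IsNondegenerateOn (QuadraticMap.polar (Cfsg.quadFormPlus d F)) W ∧ Cfsg.Geo.IsPlusTypeOn (Cfsg.quadFormPlus d F) W}) :
    (∀ x : GL (Fin d ⊕ Fin d) F, x ∈ Cfsg.Geo.omegaGL (Cfsg.quadFormPlus d F) →
      (∃ z : F, ((x ^ p : GL (Fin d ⊕ Fin d) F) : Matrix (Fin d ⊕ Fin d) (Fin d ⊕ Fin d) F) = z • (1 : Matrix (Fin d ⊕ Fin d) (Fin d ⊕ Fin d) F)) →
      (∀ z : F, (x : Matrix (Fin d ⊕ Fin d) (Fin d ⊕ Fin d) F) ≠ z • (1 : Matrix (Fin d ⊕ Fin d) (Fin d ⊕ Fin d) F)) →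
      ∃ W : Submodule F (Fin d ⊕ Fin d → F), (Module.finrank F ↥W = m ∧ Cfsg.Geo.IsNondegenerateOn (QuadraticMap.polar (Cfsg.quadFormPlus d F)) W ∧ Cfsg.Geo.IsPlusTypeOn (Cfsg.quadFormPlus d F) W) ∧ W.map (Matrix.toLin' (x : Matrix (Fin d ⊕ Fin d) (Fin d ⊕ Fin d) F)) ≤ W) →
    (∀ μ : Multiset ℕ, (∀ e ∈ μ, 0 < e ∧ e ≤ p) → (∀ e : ℕ, Even e → Even (μ.count e)) → μ.sum = 2 * d →
        ∃ ν : Multiset ℕ, ν ≤ μ ∧ ν.sum = m ∧ ∀ e : ℕ, Even e → Even (ν.count e)) := by
  classical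
  intro H μ hμ hpar hsum
  have hpp : p.Prime := Fact.out
  have hp2 : p ≠ 2 := by
    intro h
    obtain ⟨n, -, hn⟩ := FiniteField.card F p
    rw [hq, h] at hn
    rw [hn] at hqodd
    exact (Nat.not_even_iff_odd.mpr hqodd) (Nat.even_pow.mpr ⟨even_two, n.pos.ne'⟩)
  have h2 : (2 : F) ≠ 0 := by
    intro h
    have h' : ((2 : ℕ) : F) = 0 := by exact_mod_cast h
    have hd2 : p ∣ 2 := (CharP.cast_eq_zero_iff F p 2).mp h'
    exact hp2 ((Nat.prime_dvd_prime_iff_eq hpp Nat.prime_two).mp hd2)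
  haveI : Nonempty (Fin d ⊕ Fin d) := ⟨Sum.inl ⟨0, by omega⟩⟩
  obtain ⟨V, _, _, _, Q, T, hnd, hT, hdim, hk, h, hh, hts⟩ :=
    unipH_of_parity (F := F) h2 μ (fun e he => (hμ e he).1) hpar (by rw [hsum]; exact even_two_mul d)
  have hhd : h = d := by omega
  rw [hhd] at hts
  obtain ⟨Ψ, hΨ⟩ := exists_plus_of_hasTS (m := d) (by omega) (by rw [hdim, hsum]) Q hnd hts
  obtain ⟨A, hA, hAk⟩ := exists_matrix_kdim Q T hT Ψ (Cfsg.quadFormPlus d F) 1 one_ne_zero
    (by intro z; rw [hΨ, one_mul])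
  have key := key_general p hp2 (plusQF d F) (plusQF_nondeg d) m
    (fun W => Module.finrank F ↥W = m ∧
      Cfsg.Geo.IsNondegenerateOn (QuadraticMap.polar (Cfsg.quadFormPlus d F)) W ∧
      Cfsg.Geo.IsPlusTypeOn (Cfsg.quadFormPlus d F) W)
    (fun W hW => ⟨hW.1, hW.2.1⟩)
    (fun x hxΩ hxp hx1 hxs => H x hxΩ ⟨1, by rw [hxp]; simp⟩ hxs) μ hμ
    (by rw [hsum, Fintype.card_sum, Fintype.card_fin]; ring) A hA
    (fun l => by rw [hAk, hk])
  rcases key with hμ1 | ⟨W, ν, -, -, -, hνμ, hνs, hνp, -⟩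
  · refine ⟨Multiset.replicate m 1, ?_, ?_, ?_⟩
    · rw [hμ1, Multiset.replicate_le_replicate, Fintype.card_sum, Fintype.card_fin]
      omega
    · simp
    · intro e he
      rw [Multiset.count_replicate]
      split_ifs with h1
      · exfalso
        rw [← h1] at he
        exact Nat.not_even_one he
      · exact Even.zero
  · exact ⟨ν, hνμ, hνs, hνp⟩

end Cfsg.Agent.S5996
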