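import Cfsg.Statements.S5997
import Cfsg.Agent.Helper99.QuatMain

set_option autoImplicit false
open scoped MatrixGroups
open Cfsg

namespace Cfsg.Agent.S5997

/-- Elements of prime order of PSL_2(p) and the normalizer of a quaternion subgroup. Here `T = PSL_2(F)` for the field `F` with `p` elements, `p ≥ 5` prime; `R` is a subgroup of GL_2(F) isomorphic to the quaternion group of order 8 (an absolutely irreducible 2-group of symplectic type), and `H` is the subgroup of matrices of determinant 1 normalizing `R` — a subgroup of type 2^{1+2}.O₂⁻(2), isomorphic modulo scalars to A₄ or S₄ (maximality is not assumed). Ω is the set of cosets of `H` in `T`, so an element of `T` of prime order `r` (a matrix `x` of determinant 1 with `x^r` scalar, `x` not scalar) fixes a point of Ω exactly when some conjugate of `x` by a matrix of determinant 1 normalizes `R`. Let `r` be a prime dividing the index of `H`. Then every element of `T` of order `r` fixes a point of Ω if and only if `r = 2` or `r = 3`. -/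
theorem result {F : Type*} [Field F] [Fintype F] {p : ℕ} [Fact p.Prime] [CharP F p] (hF : Fintype.card F = p) (hp : 5 ≤ p)
    (R : Subgroup (GL (Fin 2) F)) (hR : Nonempty (↥R ≃* QuaternionGroup 2))
    (r : ℕ) [Fact r.Prime]
    (hΩ : r ∣ (Cfsg.Geo.subgroupNormalizer R).relIndex (Cfsg.Geo.specialLinear (Fin 2) F)) :
    (∀ x ∈ Cfsg.Geo.specialLinear (Fin 2) F, (∃ z : F, ((x ^ r : GL (Fin 2) F) : Matrix (Fin 2) (Fin 2) F) = z • (1 : Matrix (Fin 2) (Fin 2) F)) →
      (∀ z : F, (x : Matrix (Fin 2) (Fin 2) F) ≠ z • (1 : Matrix (Fin 2) (Fin 2) F)) →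
      ∃ g ∈ Cfsg.Geo.specialLinear (Fin 2) F, g⁻¹ * x * g ∈ Cfsg.Geo.subgroupNormalizer R) ↔ (r = 2 ∨ r = 3) := by
  have hpp : p.Prime := Fact.out
  have hrp : r.Prime := Fact.out
  have h2 : (2 : F) ≠ 0 := by
    intro h
    have h' : ((2 : ℕ) : F) = 0 := by exact_mod_cast h
    have hd := (CharP.cast_eq_zero_iff F p 2).mp h'
    have := Nat.le_of_dvd (by norm_num) hd
    omega
  have h3 : (3 : F) ≠ 0 := by
    intro h
    have h' : ((3 : ℕ) : F) = 0 := by exact_mod_cast h
    have hd := (CharP.cast_eq_zero_iff F p 3).mp h'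
    have := Nat.le_of_dvd (by norm_num) hd
    omega
  have hodd : Fintype.card F % 2 = 1 := by
    rw [hF]
    rcases hpp.eq_two_or_odd with h | h
    · omega
    · exact h
  constructor
  · intro hall
    by_contra hr
    push Not at hr
    have hr5 : 5 ≤ r := by
      have h2le := hrp.two_le
      by_contra hlt
      have hr4 : r = 4 := by omega
      rw [hr4] at hrp
      exact absurd hrp (by decide)
    have hdvd : r ∣ Nat.card ↥(Cfsg.Geo.specialLinear (Fin 2) F) :=
      dvd_trans hΩ (Subgroup.relIndex_dvd_card _ _)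
    obtain ⟨x, hx⟩ := exists_prime_orderOf_dvd_card' r hdvd
    have hxr : (x : GL (Fin 2) F) ^ r = 1 := by
      rw [← Subgroup.coe_pow, ← hx, pow_orderOf_eq_one, Subgroup.coe_one]
    have hns : ∀ z : F, ((x : GL (Fin 2) F) : Matrix (Fin 2) (Fin 2) F) ≠
        z • (1 : Matrix (Fin 2) (Fin 2) F) := by
      intro z hz
      have hdet := (Cfsg.Agent.Helper99.mem_specialLinear_two_iff (x : GL (Fin 2) F)).mp x.2
      rw [hz] at hdet
      have hzz : z * z = 1 := by
        simpa [Matrix.det_smul, pow_two] using hdet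
      have hx2 : (x : GL (Fin 2) F) ^ 2 = 1 := by
        apply Units.ext
        rw [Units.val_pow_eq_pow_val, hz, pow_two]
        simp [smul_smul, hzz]
      have hd : orderOf (x : GL (Fin 2) F) ∣ 2 := orderOf_dvd_of_pow_eq_one hx2
      rw [Subgroup.orderOf_coe, hx] at hd
      have := Nat.le_of_dvd (by norm_num) hd
      omega
    obtain ⟨g, hg, hgN⟩ := hall x x.2 ⟨1, by rw [hxr]; simp⟩ hns
    have hyr : (g⁻¹ * (x : GL (Fin 2) F) * g) ^ r = 1 := by
      have h5 : (g⁻¹ * (x : GL (Fin 2) F) * g) ^ r = g⁻¹ * (x : GL (Fin 2) F) ^ r * g := by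
        have h6 := conj_pow (i := r) (a := g⁻¹) (b := (x : GL (Fin 2) F))
        rw [inv_inv] at h6
        exact h6
      rw [h5, hxr]
      group
    obtain ⟨z, hz⟩ := Cfsg.Agent.Helper99.quat_normalizer_prime R hR r hr5 _ hgN hyr
    apply hns z
    have h7 : (x : GL (Fin 2) F) = g * (g⁻¹ * x * g) * g⁻¹ := by group
    rw [h7, Units.val_mul, Units.val_mul, hz]
    simp
  · intro hr x hx hxr hns
    exact Cfsg.Agent.Helper99.quat_conj_into R hR hodd h2 h3 x hx hns r hr hxr

end Cfsg.Agent.S5997
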