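import Cfsg.Statements.S6001
import Cfsg.Agent.Helper69.E4UCore

set_option autoImplicit false
open scoped MatrixGroups
open Cfsg

namespace Cfsg.Agent.S6001

/-- Elements of prime order of PSU_4(p), p ≡ 3 (mod 4), and the normalizer of a 2-group of symplectic type of order 2⁶. Here `T = PSU_4(p)` for a prime `p ≡ 3 (mod 4)`, realised through `SU_4(p)`, the matrices of determinant 1 over the field `F` with `p²` elements preserving the hermitian form `f = Σ uᵢvᵢ^p`; `R` is an absolutely irreducible subgroup of the full unitary group of `f` of order 2⁶ that is a 2-group of symplectic type of exponent 4 with centre of order 4, and `H` is the subgroup of `SU_4(p)` normalizing `R` — a subgroup of type 2⁴.Sp₄(2) (maximality is not assumed). Ω is the set of cosets of `H`, so an element of `T` of prime order `r` (`x ∈ SU_4(p)` with `x^r` scalar, `x` not scalar) fixes a point of Ω exactly when some `SU_4(p)`-conjugate of `x` normalizes `R`. Let `r` be a prime dividing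 the index of `H`. Then every element of `T` of order `r` fixes a point of Ω if and only if `r = 2`, or `r = 3` and `p ≡ 1 (mod 3)`, or `r = 5` and `p ≡ ±2 (mod 5)` (`p` has multiplicative order 4 modulo 5). -/
theorem result {F : Type*} [Field F] [Fintype F] {p : ℕ} [Fact p.Prime] [CharP F p] (hF : Fintype.card F = p ^ 2) (hp4 : p % 4 = 3)
    (R : Subgroup (GL (Fin 4) F)) (hRs : Cfsg.Geo.IsSymplecticTypeGroup 2 R) (hRi : Cfsg.Geo.ActsAbsolutelyIrreducibly (Cfsg.Geo.matrixSet R))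
    (hRU : R ≤ Cfsg.GU 4 F p) (hR6 : Nat.card R = 2 ^ 6) (hRZ : Nat.card (Subgroup.center R) = 4)
    (r : ℕ) [Fact r.Prime]
    (hΩ : r ∣ (Cfsg.Geo.subgroupNormalizer R).relIndex (Cfsg.GU 4 F p ⊓ Cfsg.Geo.specialLinear (Fin 4) F)) :
    (∀ x ∈ Cfsg.GU 4 F p ⊓ Cfsg.Geo.specialLinear (Fin 4) F, (∃ z : F, ((x ^ r : GL (Fin 4) F) : Matrix (Fin 4) (Fin 4) F) = z • (1 : Matrix (Fin 4) (Fin 4) F)) →
      (∀ z : F, (x : Matrix (Fin 4) (Fin 4) F) ≠ z • (1 : Matrix (Fin 4) (Fin 4) F)) →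
      ∃ g ∈ Cfsg.GU 4 F p ⊓ Cfsg.Geo.specialLinear (Fin 4) F, g⁻¹ * x * g ∈ Cfsg.Geo.subgroupNormalizer R) ↔ (r = 2 ∨ (r = 3 ∧ p % 3 = 1) ∨ (r = 5 ∧ orderOf (p : ZMod 5) = 4)) := by
  exact Cfsg.Agent.Helper69.e4u_main hF hp4 R hRs hRi hRU hR6 hRZ r hΩ

end Cfsg.Agent.S6001
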