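import Cfsg.Statements.S6002
import Cfsg.Agent.Helper69.E5Core

set_option autoImplicit false
open scoped MatrixGroups
open Cfsg

namespace Cfsg.Agent.S6002

/-- Elements of prime order of PSp_4(p), p odd, and the normalizer of an extraspecial 2-group of order 2⁵ of minus type. Here `T = PSp_4(F)` for the field `F` with `p` elements, `p` an odd prime, realised through the matrices preserving the standard alternating form `f`; `R` is an absolutely irreducible subgroup of `T` (it preserves `f`) that is a 2-group of symplectic type of exponent 4, order 2⁵ and centre of order 2, of minus type (no elementary abelian subgroup of order 2³), and `H` is the subgroup of `T` normalizing `R` — a subgroup of type 2^{1+4}.O₄⁻(2) (maximality is not assumed). Ω is the set of cosets of `H` in `T`, so an element of `T` of prime order `r` (`x ∈ T` with `x^r` scalar, `x` not scalar) fixes a point of Ω exactly when some `T`-conjugate of `x` normalizes `R`. Let `r` be a prime dividing the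 index of `H`. Then every element of `T` of order `r` fixes a point of Ω if and only if `r = 2`, or `r = 5` and `p` has multiplicative order 4 modulo 5. -/
theorem result {F : Type*} [Field F] [Fintype F] {p : ℕ} [Fact p.Prime] [CharP F p] (hF : Fintype.card F = p) (hodd : Odd p)
    (R : Subgroup (GL (Fin 2 ⊕ Fin 2) F)) (hRs : Cfsg.Geo.IsSymplecticTypeGroup 2 R) (hRi : Cfsg.Geo.ActsAbsolutelyIrreducibly (Cfsg.Geo.matrixSet R))
    (hRf : R ≤ Cfsg.spGL 2 F) (hR5 : Nat.card R = 2 ^ 5) (hRZ : Nat.card (Subgroup.center R) = 2) (hRm : Cfsg.Geo.IsOfMinusType 2 R)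
    (r : ℕ) [Fact r.Prime]
    (hΩ : r ∣ (Cfsg.Geo.subgroupNormalizer R).relIndex (Cfsg.spGL 2 F)) :
    (∀ x ∈ Cfsg.spGL 2 F, (∃ z : F, ((x ^ r : GL (Fin 2 ⊕ Fin 2) F) : Matrix (Fin 2 ⊕ Fin 2) (Fin 2 ⊕ Fin 2) F) = z • (1 : Matrix (Fin 2 ⊕ Fin 2) (Fin 2 ⊕ Fin 2) F)) →
      (∀ z : F, (x : Matrix (Fin 2 ⊕ Fin 2) (Fin 2 ⊕ Fin 2) F) ≠ z • (1 : Matrix (Fin 2 ⊕ Fin 2) (Fin 2 ⊕ Fin 2) F)) →
      ∃ g ∈ Cfsg.spGL 2 F, g⁻¹ * x * g ∈ Cfsg.Geo.subgroupNormalizer R) ↔ (r = 2 ∨ (r = 5 ∧ orderOf (p : ZMod 5) = 4)) := by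
  exact Cfsg.Agent.Helper69.e5_main hF hodd R hRs hRi hRf hR5 hRZ hRm r hΩ

end Cfsg.Agent.S6002
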